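import Cfsg.Statements.S0190
import Mathlib
import Cfsg.Agent.Lib.Chars.Induced

set_option autoImplicit false
open Cfsg

namespace Cfsg.Agent.S0190

/-- For a transitive action of a finite group on X, the permutation character g ↦ (number of fixed points of g) is the function induced from the principal character of the stabilizer of any point. -/
theorem result {G : Type*} [Group G] [Fintype G] (X : Type*) [MulAction G X] [Finite X] [MulAction.IsPretransitive G X] (x : X) : (fun g : G => (Nat.card (MulAction.fixedBy X g) : ℂ)) = Cfsg.indFun (MulAction.stabilizer G x) (fun _ => 1) := by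
  classical
  funext g
  set H := MulAction.stabilizer G x with hH
  have key : ∀ y : G, Cfsg.extendByZero H (fun _ => (1 : ℂ)) (y⁻¹ * g * y) =
      if y • x ∈ MulAction.fixedBy X g then 1 else 0 := by
    intro y
    rw [CfsgLib.Chars.extendByZero_apply, dite_eq_ite]
    refine if_congr ?_ rfl rfl
    rw [hH, MulAction.mem_stabilizer_iff, MulAction.mem_fixedBy, mul_smul, mul_smul,
      inv_smul_eq_iff]
  simp only [Cfsg.indFun, key, Finset.sum_boole]
  choose t ht using fun z : X => MulAction.exists_smul_eq G x z
  have e : {y : G // y • x ∈ MulAction.fixedBy X g} ≃ MulAction.fixedBy X g × H :=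
    { toFun := fun y => (⟨(y : G) • x, y.2⟩, ⟨(t ((y : G) • x))⁻¹ * y, by
        rw [hH, MulAction.mem_stabilizer_iff, mul_smul, inv_smul_eq_iff, ht]⟩)
      invFun := fun zh => ⟨t zh.1 * zh.2, by
        rw [mul_smul, MulAction.mem_stabilizer_iff.1 zh.2.2, ht]; exact zh.1.2⟩
      left_inv := fun y => Subtype.ext (mul_inv_cancel_left _ _)
      right_inv := fun ⟨z, h⟩ => by
        have e1 : (t z * (h : G)) • x = z := by
          rw [mul_smul, MulAction.mem_stabilizer_iff.1 h.2, ht]
        apply Prod.ext
        · exact Subtype.ext e1
        · refine Subtype.ext ?_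
          simp only [e1, inv_mul_cancel_left] }
  rw [← Fintype.card_subtype, ← Nat.card_eq_fintype_card, Nat.card_congr e, Nat.card_prod,
    Nat.cast_mul, mul_comm (Nat.card (MulAction.fixedBy X g) : ℂ),
    inv_mul_cancel_left₀ (by exact_mod_cast Nat.card_pos.ne')]

end Cfsg.Agent.S0190
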