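import Cfsg.Statements.S0970
import Cfsg.Agent.Lib.Blocks.Cover
import Cfsg.Agent.Lib.Blocks.DefectClass
import Cfsg.Agent.Lib.Blocks.BrauerInduce
import Cfsg.Agent.Lib.Blocks.SecondVanish

set_option autoImplicit false
open Cfsg

namespace Cfsg.Agent.S0970

open CfsgLib.Chars CfsgLib.Blocks
open scoped ComplexConjugate

universe u

variable {G : Type u} [Group G] [Fintype G] {p : ℕ} [Fact p.Prime] {M : Ideal AlgInt}

theorem centralChar_conj (χ : IrrCharacter G) (g x : G) :
    centralChar (χ : G → ℂ) (x * g * x⁻¹) = centralChar (χ : G → ℂ) g := by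
  have hcl := IsCharacter.isClassFunction (isCharacter_irr χ)
  rw [← omega_classInd hcl, ← omega_classInd hcl]
  congr 1
  funext z
  simp only [classInd]
  have hc : IsConj g (x * g * x⁻¹) := isConj_iff.mpr ⟨x, rfl⟩
  congr 1
  exact propext ⟨fun h' => hc.trans h', fun h' => hc.symm.trans h'⟩

variable (N : Subgroup G) [hN : N.Normal] [Fintype N]

theorem centralChar_conjIrr (φ : IrrCharacter N) (g : G) (n : N) :
    centralChar (conjIrr N φ g : N → ℂ) n = centralChar (φ : N → ℂ) (conjN N g n) := by
  have h1 : (conjIrr N φ g : N → ℂ) = (φ : N → ℂ) ∘ (conjN N g) := funext fun m =>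
    conjIrr_apply N φ g m
  have hc : Nat.card (Subgroup.centralizer ({n} : Set N)) =
      Nat.card (Subgroup.centralizer ({conjN N g n} : Set N)) := by
    refine Nat.card_congr ((conjN N g).toEquiv.subtypeEquiv fun c => ?_)
    simp only [Subgroup.mem_centralizer_singleton_iff, MulEquiv.toEquiv_eq_coe, EquivLike.coe_coe,
      ← map_mul]
    exact (conjN N g).injective.eq_iff.symm
  have hi : (Subgroup.centralizer ({n} : Set N)).index =
      (Subgroup.centralizer ({conjN N g n} : Set N)).index := by
    have e1 := (Subgroup.centralizer ({n} : Set N)).card_mul_index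
    have e2 := (Subgroup.centralizer ({conjN N g n} : Set N)).card_mul_index
    rw [hc] at e1
    exact mul_left_cancel₀ Nat.card_pos.ne' (e1.trans e2.symm)
  rw [centralChar, centralChar, h1, hi, Function.comp_apply, Function.comp_apply, map_one]

/-- Let N be a normal subgroup of the finite group G and fix a maximal ideal M of the algebraic integers containing the prime p. Let b be a block of N that is invariant under conjugation by G, and B a block of G covering b (some χ ∈ B has a constituent in b) whose defect is at least that of every block covering b. If P is a defect group of B, then p does not divide the index of P ⊔ N, the subgroup P ∩ N of N is a defect group of b, and the defect of B equals the defect of b plus the exponent of p in the index of N. -/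
theorem result {G : Type*} [Group G] [Fintype G] (p : ℕ) [Fact p.Prime] (M : Ideal Cfsg.AlgInt) (hM : Cfsg.IsPModular p M) (N : Subgroup G) [hN : N.Normal] [Fintype N] (b : Set (Cfsg.IrrCharacter N)) (hb : Cfsg.IsPBlock M b) (hinv : ∀ g : G, ∀ θ ∈ b, ∀ θ' : Cfsg.IrrCharacter N, (∀ n : N, (θ' : N → ℂ) n = (θ : N → ℂ) ⟨g * n * g⁻¹, hN.conj_mem n n.2 g⟩) → θ' ∈ b) (B : Set (Cfsg.IrrCharacter G)) (hB : Cfsg.IsPBlock M B) (hcov : ∃ χ ∈ B, ∃ θ ∈ b, Cfsg.classInner (fun n : N => (χ : G → ℂ) n) (θ : N → ℂ) ≠ 0) (hmax : ∀ B' : Set (Cfsg.IrrCharacter G), Cfsg.IsPBlock M B' → (∃ χ ∈ B', ∃ θ ∈ b, Cfsg.classInner (fun n : N => (χ : G → ℂ) n) (θ : N → ℂ) ≠ 0) → Cfsg.blockDefect p B' ≤ Cfsg.blockDefect p B) (P : Subgroup G) (hP : Cfsg.IsDefectGroup p M B P) : ¬ p ∣ (P ⊔ N).index ∧ Cfsg.IsDefectGroup p M b ((P ⊓ N).subgroupOf N) ∧ Cfsg.blockDefect p B = Cfsg.blockDefect p b + N.index.factorization p := by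
  classical
  have hp := hM.1
  have hstab : ∀ θ ∈ b, ∀ g : G, conjIrr N θ g ∈ b := fun θ hθ g =>
    hinv g θ hθ _ fun n => conjIrr_apply' N θ g n
  set E : G → ℂ := ext0 N (blockCoeff b) with hE
  have hEc : IsClassFunction G E := ext0_blockCoeff_isClassFunction N hstab
  have hEl : ∀ g, MemLocalRing M (E g) := fun g => by
    rw [hE, ext0]
    split_ifs
    · exact mlr_blockCoeff hM hb _
    · exact mlr_zero hM
  have hEN : ∀ g, g ∉ N → E g = 0 := fun g hg => by rw [hE, ext0, dif_neg hg]
  have hEr : (fun n : N => E (n : G)) = blockCoeff b := funext fun n => by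
    rw [hE, ext0, dif_pos n.2]
  obtain ⟨χ₀, hχ₀, θ₀, hθ₀, hθχ₀⟩ := hcov
  have hω1 : omega (χ₀ : G → ℂ) E = 1 := by
    rw [omega_res_constituent N hθχ₀ hEc hEN, hEr, omega_blockCoeff, indic_of_mem hθ₀]
  haveI : Finite (ConjClasses G) := Finite.of_surjective _ ConjClasses.mk_surjective
  haveI : Fintype (ConjClasses G) := Fintype.ofFinite _
  obtain ⟨c₀, hcE₀, hcω₀⟩ : ∃ c, ¬ MemLocalIdeal M (E c) ∧
      ¬ MemLocalIdeal M (centralChar (χ₀ : G → ℂ) c) := by
    by_contra hne
    push Not at hne
    apply not_mli_one hM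
    rw [← hω1, omega_eq_sum_centralChar (IsCharacter.isClassFunction (isCharacter_irr χ₀)) hEc]
    refine mli_sum hM _ fun c _ => ?_
    by_cases hc : MemLocalIdeal M (E c.out)
    · exact mli_mul_right hM hc (mlr_centralChar hM χ₀ _)
    · exact mli_mul_left hM (hEl _) (hne _ hc)
  obtain ⟨x, hx⟩ := defectGroup_le_centralizer hM hB hP hχ₀ hcω₀
  set c : G := x⁻¹ * c₀ * x with hcdef
  have hcE : ¬ MemLocalIdeal M (E c) := by
    have : E c = E c₀ := by
      have := hEc c₀ x⁻¹
      simpa [hcdef] using this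
    rw [this]; exact hcE₀
  have hcω : ¬ MemLocalIdeal M (centralChar (χ₀ : G → ℂ) c) := by
    have := centralChar_conj χ₀ c₀ x⁻¹
    rw [inv_inv] at this
    rw [hcdef, this]; exact hcω₀
  have hPC : P ≤ Subgroup.centralizer ({c} : Set G) := by
    intro q hq
    have h := Subgroup.mem_centralizer_singleton_iff.mp (hx ⟨q, hq, rfl⟩)
    change x * q * x⁻¹ * c₀ = c₀ * (x * q * x⁻¹) at h
    rw [Subgroup.mem_centralizer_singleton_iff, hcdef]
    calc q * (x⁻¹ * c₀ * x) = x⁻¹ * (x * q * x⁻¹ * c₀) * x := by group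
      _ = x⁻¹ * (c₀ * (x * q * x⁻¹)) * x := by rw [h]
      _ = _ := by group
  have hcN : c ∈ N := by
    by_contra h
    exact hcE (by rw [hEN c h]; exact mli_zero hM)
  set n₀ : N := ⟨c, hcN⟩ with hn₀
  have hbn : ¬ MemLocalIdeal M (blockCoeff b n₀) := by
    rw [← congrFun hEr n₀]; exact hcE
  haveI : Finite (ConjClasses N) := Finite.of_surjective _ ConjClasses.mk_surjective
  haveI : Fintype (ConjClasses N) := Fintype.ofFinite _
  set F : N → ℂ := fun n => classInd c (n : G) with hFdef
  have hFc : IsClassFunction N F := fun n k => by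
    simp only [hFdef, Subgroup.coe_mul, InvMemClass.coe_inv]
    exact classInd_isClassFunction c (n : G) (k : G)
  set K := Finset.univ.filter (fun C : ConjClasses N => IsConj c (C.out : G)) with hK
  have hFsum : ∀ φ : N → ℂ, IsClassFunction N φ →
      omega φ F = ∑ C ∈ K, centralChar φ C.out := by
    intro φ hφ
    rw [omega_eq_sum_centralChar hφ hFc, hK, Finset.sum_filter]
    refine Finset.sum_congr rfl fun C _ => ?_
    simp only [hFdef, classInd]
    split_ifs <;> simp
  -- size of the class
  have hidx : ∀ C ∈ K, (Subgroup.centralizer ({C.out} : Set N)).index =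
      (Subgroup.centralizer ({n₀} : Set N)).index := by
    intro C hC
    obtain ⟨g, hg⟩ := isConj_iff.mp (Finset.mem_filter.mp hC).2
    have e := centralChar_conjIrr N (trivIrr N) g⁻¹ C.out
    have e2 : conjN N g⁻¹ C.out = n₀ :=
      Subtype.ext (by rw [conjN_coe, ← hg, hn₀]; group)
    rw [e2] at e
    simpa [centralChar, trivIrr, conjIrr_apply] using e
  have hcount : (Subgroup.centralizer ({c} : Set G)).index =
      K.card * (Subgroup.centralizer ({n₀} : Set N)).index := by
    have h1 := hFsum (fun _ => 1) (fun _ _ => rfl)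
    have h2 : omega (fun _ : N => (1 : ℂ)) F = ((Subgroup.centralizer ({c} : Set G)).index : ℂ) := by
      have h3 := omega_classInd (χ := fun _ : G => (1 : ℂ)) (fun _ _ => rfl) c
      rw [centralChar, mul_one, div_one] at h3
      rw [← h3]
      simp only [omega, hFdef, mul_one, div_one]
      refine (Finset.sum_subtype (Finset.univ.filter (fun g : G => g ∈ N)) (by simp)
        (fun g => classInd c g)).symm.trans (Finset.sum_subset (Finset.subset_univ _) ?_)
      intro g _ hg
      exact classInd_eq_zero_of_notMem N hcN (by simpa using hg)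
    rw [h2, Finset.sum_congr rfl fun C hC => by
      rw [centralChar, mul_one, div_one, hidx C hC], Finset.sum_const, nsmul_eq_mul] at h1
    exact_mod_cast h1
  have hcong : MemLocalIdeal M (centralChar (χ₀ : G → ℂ) c -
      (K.card : ℂ) * centralChar (θ₀ : N → ℂ) n₀) := by
    have h1 : centralChar (χ₀ : G → ℂ) c = omega (θ₀ : N → ℂ) F := by
      rw [hFdef, ← inducedCentralChar_eq, ← centralChar_eq_of_constituent N hθχ₀ n₀]
    rw [h1, hFsum _ (IsCharacter.isClassFunction (isCharacter_irr θ₀)),
      show (K.card : ℂ) * centralChar (θ₀ : N → ℂ) n₀ = ∑ C ∈ K, centralChar (θ₀ : N → ℂ) n₀ by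
        rw [Finset.sum_const, nsmul_eq_mul], ← Finset.sum_sub_distrib]
    refine mli_sum hM _ fun C hC => ?_
    obtain ⟨g, hg⟩ := isConj_iff.mp (Finset.mem_filter.mp hC).2
    have e2 : conjN N g n₀ = C.out := Subtype.ext (by rw [conjN_coe, ← hg, hn₀])
    rw [← e2, ← centralChar_conjIrr N]
    exact IsPBlock.sameBlock hM hb (hstab _ hθ₀ _) hθ₀ n₀
  have hk : ¬ p ∣ K.card := fun h => hcω (by
    have := mli_add hM hcong (mli_mul_right hM ((mli_natCast_iff hM _).mpr h)
      (mlr_centralChar hM θ₀ n₀))
    rwa [sub_add_cancel] at this)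
  have hθn : ¬ MemLocalIdeal M (centralChar (θ₀ : N → ℂ) n₀) := fun h => hcω (by
    have := mli_add hM hcong (mli_mul_left hM (mlr_natCast hM K.card) h)
    rwa [sub_add_cancel] at this)
  have hdc : IsDefectClass M b n₀ := ⟨mlr_blockCoeff hM hb _, hbn, fun θ hθ h => hθn (by
    have := mli_add hM (IsPBlock.sameBlock hM hb hθ₀ hθ n₀) h
    rwa [sub_add_cancel] at this)⟩
  set CN := Subgroup.centralizer ({n₀} : Set N) with hCN
  obtain ⟨S⟩ : Nonempty (Sylow p CN) := inferInstance
  have hS : IsDefectGroup p M b ((S : Subgroup CN).map CN.subtype) := ⟨n₀, hdc, S, rfl⟩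
  have hvN : (Nat.card CN).factorization p = blockDefect p b := by
    have := card_defectGroup hM hb hS
    rw [Subgroup.card_map_of_injective CN.subtype_injective, S.card_eq_multiplicity] at this
    exact Nat.pow_right_injective hp.two_le this
  set CG := Subgroup.centralizer ({c} : Set G) with hCG
  have hvG : (Nat.card CG).factorization p = blockDefect p b + N.index.factorization p := by
    have e : Nat.card CG * K.card = Nat.card CN * N.index := by
      apply mul_right_cancel₀ (Subgroup.index_ne_zero_of_finite (H := CN))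
      calc Nat.card CG * K.card * CN.index = Nat.card CG * CG.index := by rw [hcount]; ring
        _ = Nat.card G := CG.card_mul_index
        _ = Nat.card N * N.index := N.card_mul_index.symm
        _ = _ := by rw [← CN.card_mul_index]; ring
    have hk0 : K.card ≠ 0 := fun h => hk (h ▸ dvd_zero p)
    have := congrArg (fun k : ℕ => k.factorization p) e
    simp only [Nat.factorization_mul Nat.card_pos.ne' hk0,
      Nat.factorization_mul Nat.card_pos.ne' (Subgroup.index_ne_zero_of_finite (H := N)),
      Finsupp.add_apply, Nat.factorization_eq_zero_of_not_dvd hk, add_zero, hvN] at this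
    exact this
  -- some covering block has large defect
  obtain ⟨B', hB', hB'c, hB'cov⟩ : ∃ B' : Set (IrrCharacter G), IsPBlock M B' ∧
      ¬ MemLocalIdeal M (blockCoeff B' c) ∧
      ∃ χ ∈ B', ∃ θ ∈ b, classInner (fun n : N => (χ : G → ℂ) n) (θ : N → ℂ) ≠ 0 := by
    by_contra hne
    push Not at hne
    apply hcE
    set A : Set (IrrCharacter G) :=
      {χ | ∃ θ ∈ b, classInner (fun n : N => (χ : G → ℂ) n) (θ : N → ℂ) ≠ 0} with hA
    have hval : ∀ χ : IrrCharacter G, omega (χ : G → ℂ) E = indic A χ := by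
      intro χ
      obtain ⟨θ, hθ⟩ := exists_res_constituent N χ
      rw [omega_res_constituent N hθ hEc hEN, hEr, omega_blockCoeff]
      by_cases hb' : θ ∈ b
      · rw [indic_of_mem hb', indic_of_mem (show χ ∈ A from ⟨θ, hb', hθ⟩)]
      · rw [indic_of_notMem hb', indic_of_notMem]
        rintro ⟨θ', hθ'b, hθ'⟩
        obtain ⟨g, rfl⟩ := clifford_conjugate N χ θ' θ hθ' hθ
        exact hb' (hstab _ hθ'b g)
    have hEA : E = blockCoeff A := by
      rw [← coeffFun_omega hEc, funext hval]
      exact (funext (blockCoeff_eq_coeffFun A)).symm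
    have hAun : ∀ χ ∈ A, ∀ ψ : IrrCharacter G, SameBlock M (χ : G → ℂ) (ψ : G → ℂ) → ψ ∈ A :=
      fun χ hχ ψ h => mem_of_mlr_blockCoeff hM (fun g => hEA ▸ hEl g) hχ h
    haveI : Fintype (Set (IrrCharacter G)) := Fintype.ofFinite _
    have hdec : indic A = ∑ B ∈ Finset.univ.filter (fun B => IsPBlock M B ∧ B ⊆ A), indic B := by
      funext χ
      rw [Finset.sum_apply]
      by_cases hχ : χ ∈ A
      · rw [indic_of_mem hχ, Finset.sum_eq_single (blockOf M (χ : G → ℂ))]
        · rw [indic_of_mem (self_mem_blockOf hM χ)]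
        · intro B'' hB'' hne'
          rw [indic_of_notMem]
          exact fun hm => hne' (IsPBlock.eq_blockOf hM (Finset.mem_filter.mp hB'').2.1 hm)
        · intro hnot
          exact absurd (Finset.mem_filter.mpr ⟨Finset.mem_univ _, isPBlock_blockOf χ,
            fun ψ hψ => hAun χ hχ ψ hψ⟩) hnot
      · rw [indic_of_notMem hχ, Finset.sum_eq_zero]
        intro B'' hB''
        exact indic_of_notMem fun hm => hχ ((Finset.mem_filter.mp hB'').2.2 hm)
    rw [hEA, blockCoeff_eq_coeffFun, hdec]
    have hlin : coeffFun (∑ B ∈ Finset.univ.filter (fun B => IsPBlock M B ∧ B ⊆ A), indic B) c =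
        ∑ B ∈ Finset.univ.filter (fun B => IsPBlock M B ∧ B ⊆ A), coeffFun (indic B) c := by
      simp only [coeffFun, Finset.sum_apply, Finset.sum_mul, Finset.mul_sum]
      rw [Finset.sum_comm]
    rw [hlin]
    refine mli_sum hM _ fun B'' hB'' => ?_
    obtain ⟨-, hBb, hBA⟩ := Finset.mem_filter.mp hB''
    rw [← blockCoeff_eq_coeffFun]
    by_contra hc'
    obtain ⟨χ, hχ⟩ := IsPBlock.nonempty hM hBb
    obtain ⟨θ, hθ, h⟩ := hBA hχ
    exact h (hne B'' hBb hc' χ hχ θ hθ)
  have hlow : blockDefect p b + N.index.factorization p ≤ blockDefect p B := by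
    refine le_trans ?_ (hmax B' hB' hB'cov)
    obtain ⟨D', hD'⟩ := exists_isDefectGroup hM hB'
    obtain ⟨T⟩ : Nonempty (Sylow p CG) := inferInstance
    obtain ⟨y, hy⟩ := pGroup_le_defectGroup hM hB' hD' hB'c (T.isPGroup'.map CG.subtype)
      (Subgroup.map_subtype_le _)
    have := Subgroup.card_le_of_le hy
    rw [card_map_conj, Subgroup.card_map_of_injective CG.subtype_injective, T.card_eq_multiplicity,
      card_defectGroup hM hB' hD', hvG] at this
    exact (Nat.pow_le_pow_iff_right hp.one_lt).mp this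
  have hPcard := card_defectGroup hM hB hP
  have hPle : blockDefect p B ≤ blockDefect p b + N.index.factorization p := by
    rw [← hvG, ← hp.pow_dvd_iff_le_factorization Nat.card_pos.ne', ← hPcard]
    exact Subgroup.card_dvd_of_le hPC
  have hdB : blockDefect p B = blockDefect p b + N.index.factorization p := le_antisymm hPle hlow
  have hPp := defectGroup_isPGroup hP
  -- the intersection
  set Q := (P ⊓ N).subgroupOf N with hQ
  have hQC : Q ≤ CN := fun q hq =>
    Subgroup.mem_centralizer_singleton_iff.mpr (Subtype.ext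
      (Subgroup.mem_centralizer_singleton_iff.mp (hPC hq.1)))
  have hQp : IsPGroup p Q := (hPp.to_le inf_le_left).comap_of_injective N.subtype N.subtype_injective
  obtain ⟨i, hi⟩ := IsPGroup.iff_card.mp hQp
  have hile : i ≤ blockDefect p b := by
    rw [← hvN, ← hp.pow_dvd_iff_le_factorization Nat.card_pos.ne', ← hi]
    exact Subgroup.card_dvd_of_le hQC
  have hcardQ : Nat.card Q = Nat.card (N.subgroupOf P) := by
    rw [Nat.card_congr (Subgroup.subgroupOfEquivOfLe (inf_le_right : P ⊓ N ≤ N)).toEquiv,
      show N.subgroupOf P = (P ⊓ N).subgroupOf P from by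
        ext q; simp [Subgroup.mem_subgroupOf],
      Nat.card_congr (Subgroup.subgroupOfEquivOfLe (inf_le_left : P ⊓ N ≤ P)).toEquiv]
  obtain ⟨j, hj⟩ := hPp.index (N.subgroupOf P)
  have hsum : i + j = blockDefect p B := by
    refine Nat.pow_right_injective hp.two_le ?_
    show p ^ (i + j) = p ^ blockDefect p B
    rw [pow_add, ← hi, ← hj, hcardQ, Subgroup.card_mul_index, hPcard]
  have hmulI : p ^ j * (P ⊔ N).index = N.index := by
    rw [← hj, show (N.subgroupOf P).index = N.relIndex P from rfl, ← Subgroup.relIndex_sup_right P N,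
      Subgroup.relIndex_mul_index le_sup_right]
  have hjv := congrArg (fun k : ℕ => k.factorization p) hmulI
  simp only [Nat.factorization_mul (pow_ne_zero _ hp.ne_zero) Subgroup.index_ne_zero_of_finite,
    Finsupp.add_apply, Nat.factorization_pow, Finsupp.smul_apply, hp.factorization_self,
    smul_eq_mul, mul_one] at hjv
  refine ⟨fun hdvd => ?_, ?_, hdB⟩
  · have := hp.factorization_pos_of_dvd Subgroup.index_ne_zero_of_finite hdvd
    omega
  · have hQcard : Nat.card Q = p ^ (Nat.card CN).factorization p := by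
      rw [hi, hvN]
      congr 1
      omega
    refine ⟨n₀, hdc, Sylow.ofCard (Q.subgroupOf CN) ?_, ?_⟩
    · rw [Nat.card_congr (Subgroup.subgroupOfEquivOfLe hQC).toEquiv, hQcard]
    · rw [Sylow.coe_ofCard, Subgroup.subgroupOf_map_subtype, inf_eq_left.mpr hQC]

end Cfsg.Agent.S0970
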