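import Cfsg.Statements.S4672
import Cfsg.Agent.S0970
import Cfsg.Agent.Lib.Blocks.StabBlock

set_option autoImplicit false
open Cfsg

namespace Cfsg.Agent.S4672

open CfsgLib.Chars CfsgLib.Blocks
open scoped ComplexConjugate

universe u

theorem core {G : Type u} [Group G] [Fintype G] (p : ℕ) [Fact p.Prime] (M : Ideal AlgInt)
    (hM : IsPModular p M) (N : Subgroup G) [N.Normal] [Fintype N]
    (hN : ∃ k : ℕ, N.index = p ^ k) (c : Set (IrrCharacter N)) (hc : IsPBlock M c)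
    (hstab : ∀ θ ∈ c, ∀ g : G, conjIrr N θ g ∈ c) :
    ∃ B : Set (IrrCharacter G), IsPBlock M B ∧ (∀ g : G, blockCoeff B g = subgroupBlockCoeff N c g) ∧
      (∀ χ : IrrCharacter G,
        χ ∈ B ↔ ∃ θ ∈ c, classInner (fun n : N => (χ : G → ℂ) n) (θ : N → ℂ) ≠ 0) := by
  classical
  obtain ⟨k, hk⟩ := hN
  set E : G → ℂ := ext0 N (blockCoeff c) with hE
  have hEc : IsClassFunction G E := ext0_blockCoeff_isClassFunction N hstab
  have hEl : ∀ g, MemLocalRing M (E g) := fun g => by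
    rw [hE, ext0]
    split_ifs
    · exact mlr_blockCoeff hM hc _
    · exact mlr_zero hM
  have hEN : ∀ g, g ∉ N → E g = 0 := fun g hg => by rw [hE, ext0, dif_neg hg]
  have hEr : (fun n : N => E (n : G)) = blockCoeff c := funext fun n => by
    rw [hE, ext0, dif_pos n.2]
  set A : Set (IrrCharacter G) :=
    {χ | ∃ θ ∈ c, classInner (fun n : N => (χ : G → ℂ) n) (θ : N → ℂ) ≠ 0} with hA
  have hval : ∀ χ : IrrCharacter G, omega (χ : G → ℂ) E = indic A χ := by
    intro χ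
    obtain ⟨θ, hθ⟩ := exists_res_constituent N χ
    rw [omega_res_constituent N hθ hEc hEN, hEr, omega_blockCoeff]
    by_cases hb' : θ ∈ c
    · rw [indic_of_mem hb', indic_of_mem (show χ ∈ A from ⟨θ, hb', hθ⟩)]
    · rw [indic_of_notMem hb', indic_of_notMem]
      rintro ⟨θ', hθ'b, hθ'⟩
      obtain ⟨g, rfl⟩ := clifford_conjugate N χ θ' θ hθ' hθ
      exact hb' (hstab _ hθ'b g)
  have hEA : E = blockCoeff A := by
    rw [← coeffFun_omega hEc, funext hval]
    exact (funext (blockCoeff_eq_coeffFun A)).symm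
  obtain ⟨θ₀, hθ₀⟩ := IsPBlock.nonempty hM hc
  obtain ⟨χ₀, hχ₀⟩ := exists_over N θ₀
  set B := blockOf M (χ₀ : G → ℂ) with hBdef
  have hB : IsPBlock M B := isPBlock_blockOf χ₀
  have hχ₀B : χ₀ ∈ B := self_mem_blockOf hM χ₀
  have hBsupp : ∀ g, g ∉ N → blockCoeff B g = 0 := by
    intro g hg
    refine blockCoeff_eq_zero_of_singular hM hB ?_
    have h1 : orderOf (QuotientGroup.mk' N g) ∣ orderOf g := orderOf_map_dvd _ g
    have h2 : orderOf (QuotientGroup.mk' N g) ∣ p ^ k := hk ▸ orderOf_dvd_natCard _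
    obtain ⟨j, -, hj⟩ := (Nat.dvd_prime_pow hM.1).mp h2
    refine dvd_trans ?_ h1
    rw [hj]
    refine dvd_pow_self p fun h0 => hg ?_
    rw [h0, pow_zero, orderOf_eq_one_iff] at hj
    exact (QuotientGroup.eq_one_iff g).mp hj
  set r : N → ℂ := fun n => blockCoeff B (n : G) with hr
  have hrc : IsClassFunction N r := fun n m => blockCoeff_isClassFunction B (n : G) (m : G)
  set A' : Set (IrrCharacter N) :=
    {θ | ∃ χ ∈ B, classInner (fun n : N => (χ : G → ℂ) n) (θ : N → ℂ) ≠ 0} with hA'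
  have hω : ∀ (θ : IrrCharacter N) (χ : IrrCharacter G),
      classInner (fun n : N => (χ : G → ℂ) n) (θ : N → ℂ) ≠ 0 →
        indic B χ = omega (θ : N → ℂ) r := by
    intro θ χ h
    rw [← omega_blockCoeff, omega_res_constituent N h (blockCoeff_isClassFunction B) hBsupp]
  have hrA : r = blockCoeff A' := by
    have hv : ∀ θ : IrrCharacter N, omega (θ : N → ℂ) r = indic A' θ := by
      intro θ
      by_cases hθ : θ ∈ A'
      · obtain ⟨χ, hχ, h⟩ := id hθ
        rw [← hω θ χ h, indic_of_mem hχ, indic_of_mem hθ]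
      · obtain ⟨χ, h⟩ := exists_over N θ
        rw [← hω θ χ h, indic_of_notMem hθ, indic_of_notMem fun hχ => hθ ⟨χ, hχ, h⟩]
    rw [← coeffFun_omega hrc, funext hv]
    exact (funext (blockCoeff_eq_coeffFun A')).symm
  have hcA' : ∀ θ ∈ c, θ ∈ A' := fun θ hθ =>
    mem_of_mlr_blockCoeff hM (fun n => hrA ▸ mlr_blockCoeff hM hB _)
      (show θ₀ ∈ A' from ⟨χ₀, hχ₀B, hχ₀⟩) (IsPBlock.sameBlock hM hc hθ₀ hθ)
  have hAB : A = B := by
    ext χ
    constructor
    · rintro ⟨θ, hθ, h⟩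
      obtain ⟨χ', hχ', h'⟩ := hcA' θ hθ
      have := hω θ χ h
      rw [← hω θ χ' h', indic_of_mem hχ'] at this
      by_contra hn
      rw [indic_of_notMem hn] at this
      exact zero_ne_one this
    · intro hχ
      exact mem_of_mlr_blockCoeff hM (fun g => hEA ▸ hEl g) (show χ₀ ∈ A from ⟨θ₀, hθ₀, hχ₀⟩) hχ
  refine ⟨B, hB, fun g => ?_, fun χ => by rw [← hAB]; exact Iff.rfl⟩
  rw [← hAB, ← hEA, hE, ext0, subgroupBlockCoeff]

/-- Fix a prime p and a maximal ideal M of the algebraic integers containing p. Let N be a normal subgroup of the finite group G of p-power index and c a p-block of N stable under conjugation by G. Then the idempotent of c is a block idempotent of G: there is a p-block B of G whose idempotent coefficients agree with those of c on N and vanish off N; and for every defect group P of such a block B, G = NP and P ∩ N is a defect group of c. -/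
theorem result {G : Type*} [Group G] [Fintype G] (p : ℕ) [Fact p.Prime] (M : Ideal Cfsg.AlgInt) (hM : Cfsg.IsPModular p M) (N : Subgroup G) [N.Normal] (hN : ∃ k : ℕ, N.index = p ^ k) (c : Set (Cfsg.IrrCharacter N)) (hc : Cfsg.IsPBlock M c) (hst : ∀ x : G, Cfsg.StabilizesBlock N c x) : (∃ B : Set (Cfsg.IrrCharacter G), Cfsg.IsPBlock M B ∧ ∀ g : G, Cfsg.blockCoeff B g = Cfsg.subgroupBlockCoeff N c g) ∧ ∀ B : Set (Cfsg.IrrCharacter G), Cfsg.IsPBlock M B → (∀ g : G, Cfsg.blockCoeff B g = Cfsg.subgroupBlockCoeff N c g) → ∀ P : Subgroup G, Cfsg.IsDefectGroup p M B P → N ⊔ P = ⊤ ∧ Cfsg.IsDefectGroup p M c ((P ⊓ N).subgroupOf N) := by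
  classical
  haveI : Fintype N := Fintype.ofFinite _
  have hstab : ∀ θ ∈ c, ∀ g : G, conjIrr N θ g ∈ c := by
    intro θ hθ g
    obtain ⟨χ', hχ', h⟩ := (hst g⁻¹).2 θ hθ
    have : χ' = conjIrr N θ g := Subtype.ext (funext fun k => by
      rw [conjIrr_apply']
      exact h _ k (by simp [mul_assoc]))
    exact this ▸ hχ'
  obtain ⟨B₀, hB₀, hcoef, hmem⟩ := core p M hM N hN c hc hstab
  refine ⟨⟨B₀, hB₀, hcoef⟩, fun B hB hBc P hP => ?_⟩
  obtain rfl : B = B₀ := block_ext hM hB hB₀ fun g => (hBc g).trans (hcoef g).symm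
  obtain ⟨θ₀, hθ₀⟩ := IsPBlock.nonempty hM hc
  obtain ⟨χ₀, hχ₀⟩ := exists_over N θ₀
  have hres := Cfsg.Agent.S0970.result p M hM N c hc (fun g θ hθ θ' h => by
      have : θ' = conjIrr N θ g := Subtype.ext (funext fun n => by rw [conjIrr_apply']; exact h n)
      exact this ▸ hstab θ hθ g)
    B hB ⟨χ₀, (hmem χ₀).mpr ⟨θ₀, hθ₀, hχ₀⟩, θ₀, hθ₀, hχ₀⟩
    (fun B' hB' ⟨χ, hχ, hθ⟩ => by
      rw [IsPBlock.eq_of_mem hM hB' hB hχ ((hmem χ).mpr hθ)])
    P hP
  refine ⟨?_, hres.2.1⟩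
  obtain ⟨k, hk⟩ := hN
  rw [sup_comm, ← Subgroup.index_eq_one]
  have hd : (P ⊔ N).index ∣ p ^ k := hk ▸ Subgroup.index_dvd_of_le le_sup_right
  obtain ⟨j, -, hj⟩ := (Nat.dvd_prime_pow hM.1).mp hd
  rcases Nat.eq_zero_or_pos j with rfl | hpos
  · simpa using hj
  · exact absurd (hj ▸ dvd_pow_self p hpos.ne') hres.1

end Cfsg.Agent.S4672
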