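import Cfsg.Statements.S0658
import Cfsg.Agent.Lib.ZJFusion

set_option autoImplicit false
open Cfsg

namespace Cfsg.Agent.S0658
open CfsgLib.Fusion Cfsg.FusionSystem in
theorem normalizer_le {G : Type*} [Group G] [Finite G] {p : ℕ} [Fact p.Prime] (P : Sylow p G) (Φ : Subgroup G → Subgroup G)
    (hle : ∀ T, Φ T ≤ T) (hne : ∀ T : Subgroup G, IsPGroup p ↥T → T ≠ ⊥ → Φ T ≠ ⊥)
    (hnorm : ∀ T : Subgroup G, Subgroup.normalizer (T : Set G) ≤ Subgroup.normalizer (Φ T : Set G))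
    (hstep : ∀ X : Subgroup G, X ≤ (P : Subgroup G) → X ≠ ⊥ →
      ¬ p ∣ ((P : Subgroup G) ⊓ Subgroup.normalizer (X : Set G)).relIndex (Subgroup.normalizer (X : Set G)) →
      Subgroup.normalizer (X : Set G) ≤ Subgroup.normalizer (Φ ((P : Subgroup G) ⊓ Subgroup.normalizer (X : Set G)) : Set G)) :
    ∀ (k : ℕ) (X : Subgroup G), X ≤ (P : Subgroup G) → X ≠ ⊥ →
      Nat.card ↥(P : Subgroup G) - Nat.card ↥(normalizerIn (P : Subgroup G) X) = k →
      Subgroup.normalizer (X : Set G) ≤ Subgroup.normalizer (Φ (P : Subgroup G) : Set G) := by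
  intro k
  induction k using Nat.strong_induction_on with
  | _ k ih =>
  intro X hX hXne hk
  set T := normalizerIn (P : Subgroup G) X with hT
  set H := Subgroup.normalizer (Φ (P : Subgroup G) : Set G)
  set M := Subgroup.normalizer (X : Set G)
  have hXT : X ≤ T := le_inf hX Subgroup.le_normalizer
  have hPH : (P : Subgroup G) ≤ H := Subgroup.le_normalizer.trans (hnorm _)
  have hkey : ∀ Y : Subgroup G, Y ≤ (P : Subgroup G) → Y ≠ ⊥ → Nat.card ↥T < Nat.card ↥(normalizerIn (P : Subgroup G) Y) →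
      Subgroup.normalizer (Y : Set G) ≤ H := fun Y hY hY1 hlt => by
    have h1 : Nat.card ↥(normalizerIn (P : Subgroup G) Y) ≤ Nat.card ↥(P : Subgroup G) := Subgroup.card_le_of_le inf_le_left
    exact ih _ (by omega) Y hY hY1 rfl
  by_cases hTP : T = (P : Subgroup G)
  · have hi : ¬ p ∣ ((P : Subgroup G) ⊓ M).relIndex M := by
      have hPM : (P : Subgroup G) ≤ M := inf_eq_left.mp hTP
      rw [inf_eq_left.mpr hPM]
      exact fun hd => P.not_dvd_index (hd.trans (Dvd.intro _ (Subgroup.relIndex_mul_index hPM)))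
    have h := hstep X hX hXne hi
    have e : (P : Subgroup G) ⊓ M = (P : Subgroup G) := hTP
    rw [e] at h
    exact h
  have hTne : T ≠ ⊥ := fun h => hXne (le_bot_iff.mp (h ▸ hXT))
  have hlt : T < normalizerIn (P : Subgroup G) T := lt_normalizerIn p P.2 (lt_of_le_of_ne inf_le_left hTP)
  have hltc : Nat.card ↥T < Nat.card ↥(normalizerIn (P : Subgroup G) T) := Set.Finite.card_lt_card (Set.toFinite _) hlt
  have hNT : Subgroup.normalizer (T : Set G) ≤ H := hkey T inf_le_left hTne hltc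
  by_cases hi : p ∣ ((P : Subgroup G) ⊓ M).relIndex M
  · obtain ⟨S1, hTS, hS1M, hS1p, hS1i⟩ : ∃ S1 : Subgroup G, T ≤ S1 ∧ S1 ≤ M ∧ IsPGroup p ↥S1 ∧ ¬ p ∣ S1.relIndex M := by
      obtain ⟨R, hR⟩ := ((isPGroup_normalizerIn P X).comap_subtype (K := M)).exists_le_sylow
      refine ⟨(R : Subgroup ↥M).map M.subtype, fun z hz => ⟨⟨z, hz.2⟩, hR hz, rfl⟩, Subgroup.map_subtype_le _, R.2.map _, ?_⟩
      rw [Subgroup.relIndex, Subgroup.subgroupOf, Subgroup.comap_map_eq_self_of_injective M.subtype_injective]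
      exact R.not_dvd_index
    haveI : Finite ↥S1 := inferInstance
    have hTS1 : T < S1 := lt_of_le_of_ne hTS fun e => hS1i (e ▸ hi)
    set U := normalizerIn S1 T
    have hU : T < U := lt_normalizerIn p hS1p hTS1
    have hUH : U ≤ H := inf_le_right.trans hNT
    obtain ⟨h, hh, hle'⟩ := exists_conj_le (X := (P : Subgroup G)) (H := H) P.2
      (fun hd => P.not_dvd_index (hd.trans (Dvd.intro _ (Subgroup.relIndex_mul_index hPH))))
      (hS1p.to_le (inf_le_left : U ≤ S1)) hUH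
    set X' := cj h X
    have hX' : X' ≤ (P : Subgroup G) := (cj_mono h (hXT.trans hU.le)).trans hle'
    have hX'ne : X' ≠ ⊥ := fun e => hXne (Subgroup.card_eq_one.mp (by rw [← card_cj h X]; exact Subgroup.card_eq_one.mpr e))
    have hcard : Nat.card ↥T < Nat.card ↥(normalizerIn (P : Subgroup G) X') := by
      refine lt_of_lt_of_le (Set.Finite.card_lt_card (Set.toFinite _) hU) ?_
      change Nat.card ↥U ≤ _
      rw [← card_cj h U]
      refine Subgroup.card_le_of_le (le_inf hle' ?_)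
      rw [← cj_normalizer]
      exact cj_mono h (inf_le_left.trans hS1M)
    intro m hm
    have h1 : h * m * h⁻¹ ∈ H := hkey X' hX' hX'ne hcard (by rw [← cj_normalizer]; exact ⟨m, hm, rfl⟩)
    have h2 := H.mul_mem (H.mul_mem (H.inv_mem hh) h1) hh
    simpa [mul_assoc] using h2
  · refine (hstep X hX hXne hi).trans (hkey _ ((hle _).trans inf_le_left) (hne _ (isPGroup_normalizerIn P X) hTne) ?_)
    exact lt_of_lt_of_le hltc (Subgroup.card_le_of_le (le_inf inf_le_left (inf_le_right.trans (hnorm _))))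


/-- In a group of characteristic p type all of whose p-locals are p-stable (p odd), the normalizer of Z(J(P)) contains the normalizer of every nontrivial subgroup of the Sylow p-subgroup P. -/
theorem result {G : Type*} [Group G] [Finite G] {p : ℕ} [Fact p.Prime] (hp : p ≠ 2) (hloc : ∀ Q : Subgroup G, IsPGroup p Q → Q ≠ ⊥ → Cfsg.pPrimeCore p ↥(Subgroup.normalizer (Q : Set G)) = ⊥ ∧ Cfsg.IsPConstrained p ↥(Subgroup.normalizer (Q : Set G)) ∧ Cfsg.IsPStable p ↥(Subgroup.normalizer (Q : Set G))) (P : Sylow p G) (Q : Subgroup G) (hQP : Q ≤ (P : Subgroup G)) (hQ1 : Q ≠ ⊥) : Subgroup.normalizer (Q : Set G) ≤ Subgroup.normalizer (Cfsg.centerThompsonAOf ((P : Subgroup G)) : Set G) := by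
  rw [CfsgLib.Glauberman.centerThompsonAOf_eq]
  refine normalizer_le P (CfsgLib.Glauberman.zMeet 0) (fun T => CfsgLib.Glauberman.zMeet_le 0 T)
    (fun T hT h => CfsgLib.Glauberman.zMeet_ne_bot (dvd_zero p) hT h)
    (fun T => CfsgLib.Glauberman.normalizer_le_normalizer_zMeet 0 T) ?_ _ Q hQP hQ1 rfl
  intro X hX hXne hi
  set M := Subgroup.normalizer (X : Set G)
  obtain ⟨hO, hc, hs⟩ := hloc X (P.2.to_le hX) hXne
  haveI : (Cfsg.pPrimeCore p ↥M).Normal := CfsgLib.PConstrained.pPrimeCore_normal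
  set T := (P : Subgroup G) ⊓ M
  obtain ⟨Ts, hTs⟩ := (CfsgLib.Fusion.exists_sylow_iff (p := p) (inf_le_right : T ≤ M)).mpr ⟨P.2.to_le inf_le_left, hi⟩
  have h := CfsgLib.ZJFusion.normalizer_zMeet_sup hp (Or.inl rfl) (CfsgLib.ZJFusion.stableMod_of_pStable hs) hc Ts _
    (⟨le_rfl, fun _ _ _ h => h⟩ : Cfsg.IsStronglyClosed (Ts : Subgroup ↥M) (Ts : Subgroup ↥M))
  rw [hO, sup_bot_eq] at h
  intro m hm
  refine Subgroup.mem_normalizer_fintype ?_
  rw [show CfsgLib.Glauberman.zMeet 0 T = (CfsgLib.Glauberman.zMeet 0 (Ts : Subgroup ↥M)).map M.subtype by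
    rw [CfsgLib.Glauberman.zMeet_map 0 (CfsgLib.ThompsonNPC.injOn_of_injective M.subtype_injective _), hTs,
      Subgroup.map_subgroupOf_eq_of_le (inf_le_right : T ≤ M)]]
  rintro _ ⟨z, hz, rfl⟩
  have hm' : (⟨m, hm⟩ : ↥M) ∈ Subgroup.normalizer (CfsgLib.Glauberman.zMeet 0 (Ts : Subgroup ↥M) : Set ↥M) :=
    h ▸ Subgroup.mem_top _
  exact ⟨⟨m, hm⟩ * z * ⟨m, hm⟩⁻¹, (Subgroup.mem_normalizer_iff.mp hm' z).mp hz, rfl⟩

end Cfsg.Agent.S0658
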