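import Cfsg.Statements.S2326
import Mathlib
import Cfsg.Agent.Lib.Chev.Group.Order

set_option autoImplicit false
open Cfsg

namespace Cfsg.Agent.S2326

open Cfsg.Lie CfsgLib.Chev

/-- In a Chevalley group of type G₂, B₂, D₄, F₄, E₆, E₇ or E₈ over a finite field of characteristic p, the subgroup U generated by the positive root elements is a Sylow p-subgroup. -/
theorem result {F : Type*} [Field F] [Fintype F] (p : ℕ) [Fact p.Prime] [CharP F p] (D : Cfsg.Lie.ChevalleyDatum) (hD : D ∈ [Cfsg.Lie.chevG2, Cfsg.Lie.chevB2, Cfsg.Lie.chevD4, Cfsg.Lie.chevF4, Cfsg.Lie.chevE6, Cfsg.Lie.chevE7, Cfsg.Lie.chevE8]) :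
    ∃ P : Sylow p ↥(D.group F), (P : Subgroup ↥(D.group F)) = (D.posUnipotent F).subgroupOf (D.group F) := by
  classical
  have hD' : D ∈ Checks.dataList := hD
  set q := Fintype.card F with hq
  set N := D.nroots / 2
  obtain ⟨a, hp, hqa⟩ := FiniteField.card F p
  have key : ∀ {T : Tables.Tab} {R : List ℕ} {reps : List (List (List ℕ))}, Tables.Valid D T → Lin.ValidL D T R →
      Weyl.weylOK D T R reps = true → ∀ degs : List ℕ, Order.degOK reps D.rank degs = true → (∀ e ∈ degs, 1 ≤ e) →
      ¬ p ∣ ((D.posUnipotent F).subgroupOf (D.group F)).index := by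
    intro T R reps hT hL hok degs hdeg hpos
    have hle : D.posUnipotent F ≤ D.group F := le_sup_left.trans (Basic.borel_le_group hD')
    have hcard : Nat.card ((D.posUnipotent F).subgroupOf (D.group F)) = q ^ N := by
      rw [Nat.card_congr (Subgroup.subgroupOfEquivOfLe hle).toEquiv, U.card_posUnipotent hD']
    have h := Order.order_formula (F := F) hD' hT hL hok degs hdeg
    rw [← Subgroup.card_mul_index ((D.posUnipotent F).subgroupOf (D.group F)), hcard, mul_left_comm] at h
    have h2 := mul_left_cancel₀ (pow_ne_zero N (Fintype.card_ne_zero (α := F))) h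
    intro hdvd
    have h3 : p ∣ (degs.map fun e => q ^ e - 1).prod := h2 ▸ Dvd.dvd.mul_left hdvd _
    obtain ⟨x, hx, hpx⟩ := (Prime.dvd_prod_iff (Nat.prime_iff.1 hp)).1 h3
    obtain ⟨e, he, rfl⟩ := List.mem_map.1 hx
    have hpq : p ∣ q ^ e := by
      rw [hq, hqa]; exact dvd_pow (dvd_pow_self p a.ne_zero) (by have := hpos e he; omega)
    have h1 : 1 ≤ q ^ e := Nat.one_le_pow _ _ Fintype.card_pos
    have := Nat.dvd_sub hpq hpx
    rw [Nat.sub_sub_self h1] at this
    exact hp.one_lt.ne' (Nat.dvd_one.1 this)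
  have hidx : ¬ p ∣ ((D.posUnipotent F).subgroupOf (D.group F)).index := by
    simp only [List.mem_cons, List.not_mem_nil, or_false] at hD
    rcases hD with rfl | rfl | rfl | rfl | rfl | rfl | rfl
    · exact key Data.G2.valid Data.G2.validL Data.G2.weyl_ok [2, 6] (by decide +kernel) (by decide)
    · exact key Data.B2.valid Data.B2.validL Data.B2.weyl_ok [2, 4] (by decide +kernel) (by decide)
    · exact key Data.D4.valid Data.D4.validL Data.D4.weyl_ok [2, 4, 4, 6] (by decide +kernel) (by decide)
    · exact key Data.F4.valid Data.F4.validL Data.F4.weyl_ok [2, 6, 8, 12] (by decide +kernel) (by decide)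
    · exact key Data.E6.valid Data.E6.validL Data.E6.weyl_ok [2, 5, 6, 8, 9, 12] (by decide +kernel) (by decide)
    · exact key Data.E7.valid Data.E7.validL Data.E7.weyl_ok [2, 6, 8, 10, 12, 14, 18] (by decide +kernel) (by decide)
    · exact key Data.E8.valid Data.E8.validL Data.E8.weyl_ok [2, 8, 12, 14, 18, 20, 24, 30] (by decide +kernel) (by decide)
  have hpg : IsPGroup p ((D.posUnipotent F).subgroupOf (D.group F)) := by
    refine IsPGroup.of_card (n := a * N) ?_
    rw [Nat.card_congr (Subgroup.subgroupOfEquivOfLe ((le_sup_left (b := D.diagonalSubgroup F)).trans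
      (Basic.borel_le_group hD'))).toEquiv, U.card_posUnipotent hD', hqa, ← pow_mul]
  exact ⟨hpg.toSylow hidx, rfl⟩

end Cfsg.Agent.S2326
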