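import Cfsg.Statements.S1504
import Mathlib

set_option autoImplicit false
open Cfsg

namespace Cfsg.Agent.S1504

/-- Let W₁, W₂ be subgroups of a finite group with W₁ ⊓ W₂ = ⊥ whose elements commute, and W = W₁ ⊔ W₂. For linear characters φ, ψ of W with φ trivial on W₂ and ψ trivial on W₁, the function (1 − φ)(1 − ψ) vanishes on W₁ ∪ W₂; and the family of these functions, indexed by pairs (φ, ψ) with φ ≠ 1 ≠ ψ, is linearly independent over ℂ. -/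
theorem result {G : Type*} [Group G] [Finite G] (W₁ W₂ : Subgroup G) (hdisj : W₁ ⊓ W₂ = ⊥) (hcomm : ∀ a ∈ W₁, ∀ b ∈ W₂, a * b = b * a) : (∀ φ ψ : ↥(W₁ ⊔ W₂) →* ℂˣ, (∀ w : ↥(W₁ ⊔ W₂), (w : G) ∈ W₂ → φ w = 1) → (∀ w : ↥(W₁ ⊔ W₂), (w : G) ∈ W₁ → ψ w = 1) → ∀ w : ↥(W₁ ⊔ W₂), ((w : G) ∈ W₁ ∨ (w : G) ∈ W₂) → (1 - (φ w : ℂ) - (ψ w : ℂ) + (φ w : ℂ) * (ψ w : ℂ)) = 0) ∧ LinearIndependent ℂ (fun p : {p : (↥(W₁ ⊔ W₂) →* ℂˣ) × (↥(W₁ ⊔ W₂) →* ℂˣ) // p.1 ≠ 1 ∧ p.2 ≠ 1 ∧ (∀ w : ↥(W₁ ⊔ W₂), (w : G) ∈ W₂ → p.1 w = 1) ∧ (∀ w : ↥(W₁ ⊔ W₂), (w : G) ∈ W₁ → p.2 w = 1)} => fun w : ↥(W₁ ⊔ W₂) => 1 - (p.1.1 w : ℂ) - (p.1.2 w : ℂ) + (p.1.1 w : ℂ) * (p.1.2 w : ℂ)) := by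
  classical
  haveI : Fintype ↥(W₁ ⊔ W₂) := Fintype.ofFinite _
  refine ⟨fun φ ψ hφ hψ w hw => ?_, ?_⟩
  · rcases hw with hw | hw
    · rw [hψ w hw, Units.val_one]; ring
    · rw [hφ w hw, Units.val_one]; ring
  have horth : ∀ α β : ↥(W₁ ⊔ W₂) →* ℂˣ, α ≠ β → ∑ w, (α w : ℂ) * ((β w)⁻¹ : ℂˣ) = 0 := by
    intro α β hne
    have h1 : (Units.coeHom ℂ).comp (α / β) ≠ 1 := fun h => hne (MonoidHom.ext fun w => by
      have := DFunLike.congr_fun h w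
      simp only [MonoidHom.comp_apply, MonoidHom.one_apply, Units.coeHom_apply, Units.val_eq_one,
        MonoidHom.div_apply, div_eq_one] at this
      exact this)
    rw [← sum_hom_units_eq_zero _ h1]
    exact Finset.sum_congr rfl fun w _ => by simp [div_eq_mul_inv]
  rw [linearIndependent_iff']
  intro s c hc q hq
  obtain ⟨⟨φ₀, ψ₀⟩, hφ₀, hψ₀, hφ₀2, hψ₀1⟩ := q
  have h := congrArg (fun F : ↥(W₁ ⊔ W₂) → ℂ => ∑ w, F w * ((φ₀ w * ψ₀ w)⁻¹ : ℂˣ)) hc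
  simp only [Finset.sum_apply, Pi.smul_apply, smul_eq_mul, Pi.zero_apply, zero_mul, Finset.sum_const_zero,
    Finset.sum_mul] at h
  rw [Finset.sum_comm, Finset.sum_eq_single_of_mem _ hq] at h
  rotate_left
  · rintro ⟨⟨φ, ψ⟩, hφ, hψ, hφ2, hψ1⟩ - hne
    have e1 : ∀ (α : ↥(W₁ ⊔ W₂) →* ℂˣ), α ≠ φ₀ * ψ₀ → ∑ w, (α w : ℂ) * ((φ₀ w * ψ₀ w)⁻¹ : ℂˣ) = 0 :=
      fun α hα => horth α (φ₀ * ψ₀) hα
    have hsep : ∀ α β : ↥(W₁ ⊔ W₂) →* ℂˣ, (∀ w : ↥(W₁ ⊔ W₂), (w : G) ∈ W₁ → α w = β w) →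
        (∀ w : ↥(W₁ ⊔ W₂), (w : G) ∈ W₂ → α w = β w) → α = β := by
      intro α β h1 h2
      apply MonoidHom.ext
      rintro ⟨w, hw⟩
      have hn : W₁ ≤ Subgroup.normalizer (W₂ : Set G) := fun a ha =>
        Subgroup.centralizer_le_normalizer _ (Subgroup.mem_centralizer_iff.2 fun b hb => (hcomm a ha b hb).symm)
      have hw' : w ∈ ((W₁ ⊔ W₂ : Subgroup G) : Set G) := hw
      rw [Subgroup.coe_mul_of_left_le_normalizer_right _ _ hn] at hw'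
      obtain ⟨a, ha, b, hb, hab⟩ := hw'
      have e : (⟨w, hw⟩ : ↥(W₁ ⊔ W₂)) = ⟨a, Subgroup.mem_sup_left ha⟩ * ⟨b, Subgroup.mem_sup_right hb⟩ :=
        Subtype.ext hab.symm
      rw [e, map_mul, map_mul, h1 _ ha, h2 _ hb]
    have hne1 : (1 : ↥(W₁ ⊔ W₂) →* ℂˣ) ≠ φ₀ * ψ₀ := fun e => hφ₀ (hsep _ _
      (fun w hw => by
        have := DFunLike.congr_fun e w
        rw [MonoidHom.mul_apply, hψ₀1 w hw, mul_one] at this
        exact this.symm)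
      (fun w hw => by rw [hφ₀2 w hw]; rfl))
    have hne2 : φ ≠ φ₀ * ψ₀ := fun e => hψ₀ (hsep _ _
      (fun w hw => by rw [hψ₀1 w hw]; rfl)
      (fun w hw => by
        have := DFunLike.congr_fun e w
        rw [MonoidHom.mul_apply, hφ₀2 w hw, one_mul, hφ2 w hw] at this
        exact this.symm))
    have hne3 : ψ ≠ φ₀ * ψ₀ := fun e => hφ₀ (hsep _ _
      (fun w hw => by
        have := DFunLike.congr_fun e w
        rw [MonoidHom.mul_apply, hψ₀1 w hw, mul_one, hψ1 w hw] at this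
        exact this.symm)
      (fun w hw => by rw [hφ₀2 w hw]; rfl))
    have hne4 : φ * ψ ≠ φ₀ * ψ₀ := fun e => hne (Subtype.ext (Prod.ext
      (hsep _ _ (fun w hw => by
        have := DFunLike.congr_fun e w
        rw [MonoidHom.mul_apply, MonoidHom.mul_apply, hψ₀1 w hw, hψ1 w hw, mul_one, mul_one] at this
        exact this) (fun w hw => by rw [hφ₀2 w hw, hφ2 w hw]))
      (hsep _ _ (fun w hw => by rw [hψ₀1 w hw, hψ1 w hw]) (fun w hw => by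
        have := DFunLike.congr_fun e w
        rw [MonoidHom.mul_apply, MonoidHom.mul_apply, hφ₀2 w hw, hφ2 w hw, one_mul, one_mul] at this
        exact this))))
    have s1 := e1 _ hne1
    have s2 := e1 _ hne2
    have s3 := e1 _ hne3
    have s4 := e1 _ hne4
    simp only [MonoidHom.one_apply, Units.val_one, one_mul, MonoidHom.mul_apply, Units.val_mul] at s1 s4
    simp only [mul_sub, mul_add, sub_mul, add_mul, mul_assoc, one_mul, Finset.sum_add_distrib, Finset.sum_sub_distrib,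
      ← Finset.mul_sum]
    simp only [mul_assoc] at s4
    rw [s1, s2, s3, s4]
    ring
  have hsep : ∀ α : ↥(W₁ ⊔ W₂) →* ℂˣ, α ≠ φ₀ * ψ₀ → ∑ w, (α w : ℂ) * ((φ₀ w * ψ₀ w)⁻¹ : ℂˣ) = 0 :=
    fun α hα => horth α (φ₀ * ψ₀) hα
  have s1 := hsep 1 (fun e => hφ₀ (MonoidHom.ext fun w => by
    obtain ⟨w, hw⟩ := w
    have hn : W₁ ≤ Subgroup.normalizer (W₂ : Set G) := fun a ha =>
      Subgroup.centralizer_le_normalizer _ (Subgroup.mem_centralizer_iff.2 fun b hb => (hcomm a ha b hb).symm)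
    have hw' : w ∈ ((W₁ ⊔ W₂ : Subgroup G) : Set G) := hw
    rw [Subgroup.coe_mul_of_left_le_normalizer_right _ _ hn] at hw'
    obtain ⟨a, ha, b, hb, hab⟩ := hw'
    have e' : (⟨w, hw⟩ : ↥(W₁ ⊔ W₂)) = ⟨a, Subgroup.mem_sup_left ha⟩ * ⟨b, Subgroup.mem_sup_right hb⟩ :=
      Subtype.ext hab.symm
    have := DFunLike.congr_fun e ⟨a, Subgroup.mem_sup_left ha⟩
    rw [MonoidHom.mul_apply, hψ₀1 ⟨a, Subgroup.mem_sup_left ha⟩ ha, mul_one] at this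
    rw [e', map_mul, hφ₀2 ⟨b, Subgroup.mem_sup_right hb⟩ hb, ← this]
    simp))
  have s2 := hsep φ₀ (fun e => hψ₀ (MonoidHom.ext fun w => mul_eq_left.1 (DFunLike.congr_fun e w).symm))
  have s3 := hsep ψ₀ (fun e => hφ₀ (MonoidHom.ext fun w => mul_eq_right.1 (DFunLike.congr_fun e w).symm))
  simp only [MonoidHom.one_apply, Units.val_one, one_mul] at s1
  have s4 : ∀ w, (φ₀ w : ℂ) * ((ψ₀ w : ℂ) * ((φ₀ w * ψ₀ w)⁻¹ : ℂˣ)) = 1 := fun w => by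
    rw [← mul_assoc, ← Units.val_mul, ← Units.val_mul, mul_inv_cancel, Units.val_one]
  simp only [mul_sub, mul_add, sub_mul, add_mul, mul_assoc, one_mul, Finset.sum_add_distrib, Finset.sum_sub_distrib,
    ← Finset.mul_sum] at h
  rw [Finset.sum_congr rfl (fun w _ => s4 w), Finset.sum_const, s1, s2, s3, Finset.card_univ, nsmul_eq_mul, mul_one] at h
  simpa [Fintype.card_ne_zero] using h

end Cfsg.Agent.S1504
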