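import Cfsg.Statements.S0358
import Cfsg.Agent.Lib.Golay.Code

set_option autoImplicit false
set_option linter.all false
open Cfsg

namespace Cfsg.Agent.S0358

/-- The length-24 code built from the squares modulo 23 has dimension 12 over the field with two elements. -/
theorem result : Module.finrank (ZMod 2) Cfsg.golayCode = 12 := by
  have h1 : Nat.card Cfsg.golayCode = 4096 := by
    have e : (CfsgLib.Golay.toWord '' {m | m ∈ CfsgLib.Golay.codeList})
        = (Cfsg.golayCode : Set (Cfsg.GolayPt → ZMod 2)) := by
      ext w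
      simp only [Set.mem_image, Set.mem_setOf_eq, SetLike.mem_coe]
      constructor
      · rintro ⟨m, hm, rfl⟩
        rw [CfsgLib.Golay.toWord_mem_iff (CfsgLib.Golay.lt_of_inCode (CfsgLib.Golay.mem_codeList.1 hm))]
        exact CfsgLib.Golay.mem_codeList.1 hm
      · intro hw
        exact ⟨_, CfsgLib.Golay.mem_codeList.2 ((CfsgLib.Golay.mem_golayCode_iff w).1 hw),
          CfsgLib.Golay.toWord_toMask_support₂ w⟩
    have hinj : Set.InjOn CfsgLib.Golay.toWord {m | m ∈ CfsgLib.Golay.codeList} := by
      intro a ha b hb h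
      have := congrArg Cfsg.support₂ h
      rw [CfsgLib.Golay.support₂_toWord, CfsgLib.Golay.support₂_toWord] at this
      exact CfsgLib.Golay.toSet_inj (CfsgLib.Golay.lt_of_inCode (CfsgLib.Golay.mem_codeList.1 ha))
        (CfsgLib.Golay.lt_of_inCode (CfsgLib.Golay.mem_codeList.1 hb)) this
    rw [← SetLike.coe_sort_coe, Nat.card_coe_set_eq, ← e, hinj.ncard_image,
      show {m | m ∈ CfsgLib.Golay.codeList} = (CfsgLib.Golay.codeList.toFinset : Set ℕ) by ext; simp,
      Set.ncard_coe_finset, List.toFinset_card_of_nodup CfsgLib.Golay.codeList_nodup]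
    decide +kernel
  have h2 := Module.natCard_eq_pow_finrank (K := ZMod 2) (V := Cfsg.golayCode)
  rw [h1, Nat.card_zmod] at h2
  exact Nat.pow_right_injective le_rfl ((h2.symm).trans (by norm_num : (4096 : ℕ) = 2 ^ 12))

end Cfsg.Agent.S0358
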