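import Cfsg.Statements.S0111
import Mathlib

set_option autoImplicit false
set_option linter.style.haveILetI false
open Cfsg

namespace Cfsg.Agent.S0111

/-- The Thompson transfer lemma states that an involution of a Sylow 2-subgroup P lying outside a subgroup Q of index 2 in P either lies outside some normal subgroup of index 2 in G or is conjugate to an element of Q. -/
theorem result {G : Type*} [Group G] [Finite G] (P : Sylow 2 G) (Q : Subgroup G) (hQP : Q ≤ (P : Subgroup G)) (hQi : Q.relIndex (P : Subgroup G) = 2) (u : G) (hu : orderOf u = 2) (huP : u ∈ (P : Subgroup G)) (huQ : u ∉ Q) : (∃ M : Subgroup G, M.Normal ∧ M.index = 2 ∧ u ∉ M) ∨ ∃ g : G, g * u * g⁻¹ ∈ Q := by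
  classical
  haveI := Fintype.ofFinite (G ⧸ Q)
  refine or_iff_not_imp_right.mpr fun hnc => ?_
  push Not at hnc
  let f := MulAction.toPermHom G (G ⧸ Q)
  let χ : G →* ℤˣ := Equiv.Perm.sign.comp f
  have hfix : ∀ q : G ⧸ Q, f u q ≠ q := by
    intro q
    induction q using QuotientGroup.induction_on with
    | H g =>
      intro e
      have e' : ((u * g : G) : G ⧸ Q) = g := e
      have h1 := QuotientGroup.eq.mp e'.symm
      apply hnc g⁻¹
      rw [inv_inv, mul_assoc]
      exact h1
  have hsupp : (f u).support = Finset.univ := Finset.eq_univ_of_forall fun q => Equiv.Perm.mem_support.mpr (hfix q)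
  have hidx : Q.index = 2 * (P : Subgroup G).index := by
    rw [← Subgroup.relIndex_mul_index hQP, hQi]
  have hne : f u ≠ 1 := fun e => hfix (QuotientGroup.mk 1) (by rw [e]; rfl)
  have hord : orderOf (f u) = 2 := by
    refine orderOf_eq_prime ?_ hne
    rw [← map_pow, ← hu, pow_orderOf_eq_one, map_one]
  obtain ⟨k, hk⟩ := Equiv.Perm.cycleType_prime_order (σ := f u) (by rw [hord]; exact Nat.prime_two)
  have hsum := (f u).sum_cycleType
  rw [hk, hord, hsupp, Finset.card_univ, Multiset.sum_replicate, smul_eq_mul, ← Nat.card_eq_fintype_card,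
    ← Subgroup.index_eq_card, hidx] at hsum
  have hm : Odd (k + 1) := by
    have : k + 1 = (P : Subgroup G).index := by omega
    rw [this, ← Nat.not_even_iff_odd, even_iff_two_dvd]
    exact P.not_dvd_index
  have hsign : χ u = -1 := by
    show Equiv.Perm.sign (f u) = -1
    rw [Equiv.Perm.sign_of_cycleType, hk, hord, Multiset.sum_replicate, Multiset.card_replicate, smul_eq_mul]
    exact Odd.neg_one_pow (by obtain ⟨t, ht⟩ := hm; exact ⟨3 * t + 1, by omega⟩)
  refine ⟨χ.ker, inferInstance, ?_, fun h => ?_⟩
  · rw [Subgroup.index_ker]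
    have htop : χ.range = ⊤ := by
      rw [eq_top_iff]
      intro z _
      rcases Int.units_eq_one_or z with rfl | rfl
      · exact one_mem _
      · exact ⟨u, hsign⟩
    rw [htop, Subgroup.card_top, Nat.card_eq_fintype_card, Fintype.card_units_int]
  · rw [MonoidHom.mem_ker, hsign] at h
    exact absurd h (by decide)

end Cfsg.Agent.S0111
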