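import Cfsg.Statements.S1466
import Cfsg.Agent.Lib.PStep

set_option autoImplicit false
open Cfsg

namespace Cfsg.Agent.S1466


/-- Let p be a prime and R a nontrivial finite p-group. Then for every i > 0, Z(R) ≤ C_R(L_i(R)) ≤ L_i(R); likewise Z(R) ≤ C_R(L_*(R)) ≤ L_*(R) and Z(R) ≤ C_R(L(R)) ≤ L(R); and L(R) ≠ 1, L_*(R) ≠ 1. -/
theorem result {R : Type*} [Group R] [Finite R] (p : ℕ) [Fact p.Prime] (hR : IsPGroup p R) [Nontrivial R] :
    (∀ i : ℕ, 0 < i → Subgroup.center R ≤ Subgroup.centralizer ((Cfsg.puigSeq R i : Subgroup R) : Set R) ∧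
        Subgroup.centralizer ((Cfsg.puigSeq R i : Subgroup R) : Set R) ≤ Cfsg.puigSeq R i) ∧
      (Subgroup.center R ≤ Subgroup.centralizer ((Cfsg.puigLower R : Subgroup R) : Set R) ∧ Subgroup.centralizer ((Cfsg.puigLower R : Subgroup R) : Set R) ≤ Cfsg.puigLower R) ∧
      (Subgroup.center R ≤ Subgroup.centralizer ((Cfsg.puigSubgroup R : Subgroup R) : Set R) ∧ Subgroup.centralizer ((Cfsg.puigSubgroup R : Subgroup R) : Set R) ≤ Cfsg.puigSubgroup R) ∧
      Cfsg.puigSubgroup R ≠ ⊥ ∧ Cfsg.puigLower R ≠ ⊥ := by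
  obtain ⟨A, ⟨hAn, hAc⟩, hmax⟩ := (Set.toFinite {A : Subgroup R | A.Normal ∧ IsMulCommutative ↥A}).exists_maximal
    ⟨⊥, inferInstance, inferInstance⟩
  haveI := hAn
  haveI := hAc
  have hself : Subgroup.centralizer (A : Set R) ≤ A := by
    by_contra hne
    have hlt : A < Subgroup.centralizer (A : Set R) :=
      lt_of_le_not_ge (Subgroup.le_centralizer_iff_isMulCommutative.mpr hAc) hne
    obtain ⟨x, hxC, hxA, hxg, -⟩ := CfsgLib.PStep.exists_step hR A (Subgroup.centralizer (A : Set R)) hlt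
    set B := Subgroup.closure (insert x (A : Set R))
    have hBc : IsMulCommutative ↥B := by
      refine Subgroup.isMulCommutative_closure ?_
      rintro a (rfl | ha) b (rfl | hb)
      · rfl
      · exact (Subgroup.mem_centralizer_iff.mp hxC b hb).symm
      · exact Subgroup.mem_centralizer_iff.mp hxC a ha
      · exact congrArg Subtype.val (mul_comm' (⟨a, ha⟩ : A) ⟨b, hb⟩)
    have hBn : B.Normal := ⟨fun b hb g => by
      have hle : B ≤ B.comap (MulAut.conj g).toMonoidHom := (Subgroup.closure_le _).mpr (by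
        rintro y (rfl | hy)
        · show g * y * g⁻¹ ∈ B
          have h1 : g * y * g⁻¹ * y⁻¹ ∈ B := Subgroup.subset_closure (Set.mem_insert_of_mem _ (hxg g))
          have := mul_mem h1 (Subgroup.subset_closure (Set.mem_insert y _) : y ∈ B)
          rwa [inv_mul_cancel_right] at this
        · exact Subgroup.subset_closure (Set.mem_insert_of_mem _ (hAn.conj_mem y hy g)))
      exact hle hb⟩
    exact hxA (hmax (y := B) ⟨hBn, hBc⟩ (fun a ha => Subgroup.subset_closure (Set.mem_insert_of_mem x ha))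
      (Subgroup.subset_closure (Set.mem_insert x _)))
  have hmem : ∀ X : Subgroup R, A ≤ Cfsg.puigStep X := fun X =>
    le_sSup ⟨hAc, fun g _ => by rw [Subgroup.normalizer_eq_top_iff.mpr hAn]; exact Subgroup.mem_top g⟩
  have hseq : ∀ i : ℕ, 0 < i → A ≤ Cfsg.puigSeq R i := fun i hi => by
    obtain ⟨j, rfl⟩ := Nat.exists_eq_succ_of_ne_zero hi.ne'
    exact hmem _
  have hlow : A ≤ Cfsg.puigLower R := le_iSup_of_le 1 (hseq 2 (by norm_num))
  have hup : A ≤ Cfsg.puigSubgroup R := le_iInf fun n => hseq _ (Nat.succ_pos _)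
  have hcc : ∀ X : Subgroup R, A ≤ X → Subgroup.center R ≤ Subgroup.centralizer (X : Set R) ∧
      Subgroup.centralizer (X : Set R) ≤ X := fun X hX =>
    ⟨Subgroup.center_le_centralizer _, ((Subgroup.centralizer_le hX).trans hself).trans hX⟩
  have hA1 : A ≠ ⊥ := fun h => (hR.bot_lt_center).ne' (le_bot_iff.mp
    (h ▸ (Subgroup.center_le_centralizer _).trans hself))
  exact ⟨fun i hi => hcc _ (hseq i hi), hcc _ hlow, hcc _ hup,
    fun h => hA1 (le_bot_iff.mp (h ▸ hup)), fun h => hA1 (le_bot_iff.mp (h ▸ hlow))⟩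

end Cfsg.Agent.S1466
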