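import Cfsg.Statements.S5016
import Cfsg.Agent.Lib.RootSub.RankOnePair

set_option autoImplicit false
open Cfsg

namespace Cfsg.Agent.S5016

open CfsgLib.RootSub

open Matrix

variable {k : Type*} [Field k]

def U (u : k) : Matrix.SpecialLinearGroup (Fin 2) k := ⟨!![1, u; 0, 1], by simp [Matrix.det_fin_two]⟩
def L (t : k) : Matrix.SpecialLinearGroup (Fin 2) k := ⟨!![1, 0; t, 1], by simp [Matrix.det_fin_two]⟩

theorem U_coe (u : k) : (U u : Matrix (Fin 2) (Fin 2) k) = !![1, u; 0, 1] := rfl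
theorem L_coe (u : k) : (L u : Matrix (Fin 2) (Fin 2) k) = !![1, 0; u, 1] := rfl

theorem U_mul (u v : k) : U u * U v = U (u + v) :=
  Subtype.ext (by simp [U_coe, Matrix.mul_fin_two, add_comm])
theorem L_mul (u v : k) : L u * L v = L (u + v) :=
  Subtype.ext (by simp [L_coe, Matrix.mul_fin_two])
theorem U_zero : U (0 : k) = 1 := Subtype.ext (by simp [U_coe, Matrix.one_fin_two])
theorem L_zero : L (0 : k) = 1 := Subtype.ext (by simp [L_coe, Matrix.one_fin_two])
theorem U_inv (u : k) : (U u)⁻¹ = U (-u) :=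
  inv_eq_of_mul_eq_one_right (by rw [U_mul, add_neg_cancel, U_zero])
theorem L_inv (u : k) : (L u)⁻¹ = L (-u) :=
  inv_eq_of_mul_eq_one_right (by rw [L_mul, add_neg_cancel, L_zero])

theorem mem_upper {g : Matrix.SpecialLinearGroup (Fin 2) k} :
    g ∈ Cfsg.upperUnipotentSL2 k ↔ ∃ u, g = U u := by
  constructor
  · intro hg
    induction hg using Subgroup.closure_induction with
    | mem x hx =>
      obtain ⟨h1, h2, h3⟩ := hx
      refine ⟨(x : Matrix (Fin 2) (Fin 2) k) 0 1, Subtype.ext ?_⟩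
      ext i j; fin_cases i <;> fin_cases j <;> simp [U_coe, h1, h2, h3]
    | one => exact ⟨0, U_zero.symm⟩
    | mul x y _ _ hx hy =>
      obtain ⟨u, rfl⟩ := hx; obtain ⟨v, rfl⟩ := hy
      exact ⟨u + v, U_mul u v⟩
    | inv x _ hx => obtain ⟨u, rfl⟩ := hx; exact ⟨-u, U_inv u⟩
  · rintro ⟨u, rfl⟩
    exact Subgroup.subset_closure ⟨by simp [U_coe], by simp [U_coe], by simp [U_coe]⟩

theorem mem_lower {g : Matrix.SpecialLinearGroup (Fin 2) k} :
    g ∈ Cfsg.lowerUnipotentSL2 k ↔ ∃ u, g = L u := by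
  constructor
  · intro hg
    induction hg using Subgroup.closure_induction with
    | mem x hx =>
      obtain ⟨h1, h2, h3⟩ := hx
      refine ⟨(x : Matrix (Fin 2) (Fin 2) k) 1 0, Subtype.ext ?_⟩
      ext i j; fin_cases i <;> fin_cases j <;> simp [L_coe, h1, h2, h3]
    | one => exact ⟨0, L_zero.symm⟩
    | mul x y _ _ hx hy =>
      obtain ⟨u, rfl⟩ := hx; obtain ⟨v, rfl⟩ := hy
      exact ⟨u + v, L_mul u v⟩
    | inv x _ hx => obtain ⟨u, rfl⟩ := hx; exact ⟨-u, L_inv u⟩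
  · rintro ⟨u, rfl⟩
    exact Subgroup.subset_closure ⟨by simp [L_coe], by simp [L_coe], by simp [L_coe]⟩

theorem top_eq : Cfsg.lowerUnipotentSL2 k ⊔ Cfsg.upperUnipotentSL2 k = ⊤ := by
  have hU : ∀ u : k, U u ∈ Cfsg.lowerUnipotentSL2 k ⊔ Cfsg.upperUnipotentSL2 k := fun u =>
    Subgroup.mem_sup_right (mem_upper.mpr ⟨u, rfl⟩)
  have hL : ∀ u : k, L u ∈ Cfsg.lowerUnipotentSL2 k ⊔ Cfsg.upperUnipotentSL2 k := fun u =>
    Subgroup.mem_sup_left (mem_lower.mpr ⟨u, rfl⟩)
  have key : ∀ g : Matrix.SpecialLinearGroup (Fin 2) k, (g : Matrix (Fin 2) (Fin 2) k) 1 0 ≠ 0 →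
      g ∈ Cfsg.lowerUnipotentSL2 k ⊔ Cfsg.upperUnipotentSL2 k := by
    intro g hc
    set a := (g : Matrix (Fin 2) (Fin 2) k) 0 0 with ha
    set b := (g : Matrix (Fin 2) (Fin 2) k) 0 1 with hb
    set c := (g : Matrix (Fin 2) (Fin 2) k) 1 0 with hc'
    set d := (g : Matrix (Fin 2) (Fin 2) k) 1 1 with hd
    have hdet : a * d - b * c = 1 := by
      have := g.2; rw [Matrix.det_fin_two] at this; exact this
    have e : g = U ((a - 1) / c) * L c * U ((d - 1) / c) := by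
      apply Subtype.ext
      simp only [Matrix.SpecialLinearGroup.coe_mul, U_coe, L_coe, Matrix.mul_fin_two]
      ext i j; fin_cases i <;> fin_cases j <;> simp [← ha, ← hb, ← hc', ← hd]
      all_goals field_simp
      all_goals first | linear_combination hdet | linear_combination -hdet | grind
    rw [e]
    exact mul_mem (mul_mem (hU _) (hL _)) (hU _)
  rw [eq_top_iff]
  intro g _
  by_cases hc : (g : Matrix (Fin 2) (Fin 2) k) 1 0 = 0
  · have h1 := key (L 1 * g) (by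
      have hdet := g.2
      rw [Matrix.det_fin_two, hc] at hdet
      simp only [Matrix.SpecialLinearGroup.coe_mul, L_coe, Matrix.mul_apply, Fin.sum_univ_two]
      simp [hc]
      intro h0; rw [h0] at hdet; simp at hdet)
    simpa using mul_mem (inv_mem (hL 1)) h1
  · exact key g hc

theorem conj_eq {t u : k} (h : t * u = 1) :
    Cfsg.conjBy (Cfsg.lowerUnipotentSL2 k) (U u)⁻¹ = Cfsg.conjBy (Cfsg.upperUnipotentSL2 k) (L t)⁻¹ := by
  have key : ∀ s, L t * (U u)⁻¹ * L s = U (-(u * u) * s) * (L t * (U u)⁻¹) := by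
    intro s
    apply Subtype.ext
    simp only [Matrix.SpecialLinearGroup.coe_mul, U_inv, U_coe, L_coe, Matrix.mul_fin_two]
    ext i j; fin_cases i <;> fin_cases j <;> simp
    all_goals grind
  ext x
  rw [mem_conjBy, mem_conjBy, mem_lower, mem_upper, inv_inv, inv_inv]
  constructor
  · rintro ⟨s, hs⟩
    refine ⟨-(u * u) * s, ?_⟩
    calc L t * x * (L t)⁻¹ = (L t * (U u)⁻¹ * (U u * x * (U u)⁻¹)) * (L t * (U u)⁻¹)⁻¹ := by group
      _ = _ := by rw [hs, key, mul_inv_cancel_right]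
  · rintro ⟨v, hv⟩
    refine ⟨-(t * t) * v, ?_⟩
    have hv' : -(u * u) * (-(t * t) * v) = v := by
      have : u * u * (t * t) = 1 := by linear_combination (t * u + 1) * h
      linear_combination v * this
    calc U u * x * (U u)⁻¹ = (L t * (U u)⁻¹)⁻¹ * (L t * x * (L t)⁻¹ * (L t * (U u)⁻¹)) := by group
      _ = _ := by
        rw [hv, inv_mul_eq_iff_eq_mul]
        conv_lhs => rw [← hv']
        exact (key _).symm


/-- For any field k, the special linear group SL₂(k) is a special rank one group with abelian unipotent subgroups, the unipotent subgroups being the group of lower unitriangular matrices and the group of upper unitriangular matrices. -/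
theorem result (k : Type*) [Field k] :
    Cfsg.IsRankOneGroup (Matrix.SpecialLinearGroup (Fin 2) k) (Cfsg.lowerUnipotentSL2 k) (Cfsg.upperUnipotentSL2 k) ∧
    Cfsg.IsSpecialRankOnePair (Cfsg.lowerUnipotentSL2 k) (Cfsg.upperUnipotentSL2 k) ∧
    Cfsg.HasAbelianUnipotents (Cfsg.lowerUnipotentSL2 k) (Cfsg.upperUnipotentSL2 k) := by
  have nilp : ∀ H : Subgroup (Matrix.SpecialLinearGroup (Fin 2) k), IsMulCommutative H → Group.IsNilpotent H := fun H hH => by
    letI : CommGroup H := { (inferInstance : Group H) with mul_comm := hH.is_comm.comm }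
    infer_instance
  have hab : Cfsg.HasAbelianUnipotents (Cfsg.lowerUnipotentSL2 k) (Cfsg.upperUnipotentSL2 k) := by
    refine ⟨⟨⟨fun x y => Subtype.ext ?_⟩⟩, ⟨⟨fun x y => Subtype.ext ?_⟩⟩⟩
    · obtain ⟨a, ha⟩ := mem_lower.mp x.2
      obtain ⟨b, hb⟩ := mem_lower.mp y.2
      rw [Subgroup.coe_mul, Subgroup.coe_mul, ha, hb, L_mul, L_mul, add_comm]
    · obtain ⟨a, ha⟩ := mem_upper.mp x.2
      obtain ⟨b, hb⟩ := mem_upper.mp y.2
      rw [Subgroup.coe_mul, Subgroup.coe_mul, ha, hb, U_mul, U_mul, add_comm]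
  have hp : Cfsg.IsRankOnePair (Cfsg.lowerUnipotentSL2 k) (Cfsg.upperUnipotentSL2 k) := by
    refine ⟨fun e => ?_, nilp _ hab.1, nilp _ hab.2, ?_, ?_⟩
    · have h1 : L (1 : k) ∈ Cfsg.upperUnipotentSL2 k := e ▸ mem_lower.mpr ⟨1, rfl⟩
      obtain ⟨u, hu⟩ := mem_upper.mp h1
      have := congrArg (fun g : Matrix.SpecialLinearGroup (Fin 2) k => (g : Matrix (Fin 2) (Fin 2) k) 1 0) hu
      simp [L_coe, U_coe] at this
    · intro a ha ha1
      obtain ⟨t, rfl⟩ := mem_lower.mp ha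
      have ht : t ≠ 0 := fun h => ha1 (h ▸ L_zero)
      refine ⟨U t⁻¹, mem_upper.mpr ⟨_, rfl⟩, ?_, conj_eq (mul_inv_cancel₀ ht)⟩
      intro h1
      have := congrArg (fun g : Matrix.SpecialLinearGroup (Fin 2) k => (g : Matrix (Fin 2) (Fin 2) k) 0 1) h1
      simp [U_coe, ht] at this
    · intro b hb hb1
      obtain ⟨u, rfl⟩ := mem_upper.mp hb
      have hu : u ≠ 0 := fun h => hb1 (h ▸ U_zero)
      refine ⟨L u⁻¹, mem_lower.mpr ⟨_, rfl⟩, ?_, (conj_eq (inv_mul_cancel₀ hu)).symm⟩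
      intro h1
      have := congrArg (fun g : Matrix.SpecialLinearGroup (Fin 2) k => (g : Matrix (Fin 2) (Fin 2) k) 1 0) h1
      simp [L_coe, hu] at this
  refine ⟨⟨top_eq, hp⟩, ⟨hp, ?_⟩, hab⟩
  intro a ha ha1 b hb hb1 e
  obtain ⟨t, rfl⟩ := mem_lower.mp ha
  obtain ⟨u, rfl⟩ := mem_upper.mp hb
  have ht : t ≠ 0 := fun h => ha1 (h ▸ L_zero)
  have hmem : (U u)⁻¹ * L t * U u ∈ Cfsg.conjBy (Cfsg.upperUnipotentSL2 k) (L t)⁻¹ := by
    rw [← e, mem_conjBy]
    simpa [mul_assoc] using mem_lower.mpr ⟨t, rfl⟩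
  rw [mem_conjBy, inv_inv] at hmem
  obtain ⟨v, hv⟩ := mem_upper.mp hmem
  have h10 := congrArg (fun g : Matrix.SpecialLinearGroup (Fin 2) k => (g : Matrix (Fin 2) (Fin 2) k) 1 0) hv
  simp only [Matrix.SpecialLinearGroup.coe_mul, U_inv, L_inv, U_coe, L_coe, Matrix.mul_fin_two] at h10
  simp at h10
  have htu : t * u = 1 := by
    have : t * (1 - t * u) ^ 2 = 0 := by linear_combination h10
    grind
  apply Subtype.ext
  simp only [Matrix.SpecialLinearGroup.coe_mul, U_inv, L_inv, U_coe, L_coe, Matrix.mul_fin_two]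
  ext i j; fin_cases i <;> fin_cases j <;> simp
  all_goals grind

end Cfsg.Agent.S5016
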