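import Cfsg.Statements.S1005
import Mathlib
import Cfsg.Agent.Lib.Order168

set_option autoImplicit false
open Cfsg

namespace Cfsg.Agent.S1005

/-- In a simple group of order 168 every element has order 1, 2, 3, 4 or 7; there are exactly 21 elements of order 2, and any two of them are conjugate. -/
theorem result {G : Type*} [Group G] [Finite G] [IsSimpleGroup G] (h : Nat.card G = 168) : (∀ g : G, orderOf g = 1 ∨ orderOf g = 2 ∨ orderOf g = 3 ∨ orderOf g = 4 ∨ orderOf g = 7) ∧ Nat.card {g : G // orderOf g = 2} = 21 ∧ ∀ s t : G, orderOf s = 2 → orderOf t = 2 → IsConj s t := by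
  classical
  haveI : Fact (Nat.Prime 2) := ⟨Nat.prime_two⟩
  obtain ⟨T⟩ := (inferInstance : Nonempty (Sylow 2 G))
  obtain ⟨a, x, ha, hx2, hxn, hxa⟩ := CfsgLib.Order168.sylow2_structure h T
  refine ⟨fun g => ?_, ?_, CfsgLib.Order168.isConj_involutions h⟩
  · rcases CfsgLib.Order168.order_dvd h g with e | e | e
    · exact Or.inr (Or.inr (Or.inl e))
    · exact Or.inr (Or.inr (Or.inr (Or.inr e)))
    · obtain ⟨i, hi, hio⟩ := (Nat.dvd_prime_pow Nat.prime_two).1 (show orderOf g ∣ 2 ^ 3 from e)
      rw [hio]
      interval_cases i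
      · left; norm_num
      · right; left; norm_num
      · right; right; right; left; norm_num
      · exfalso
        obtain ⟨S, hS⟩ := (IsPGroup.of_card (n := 3) (by rw [Nat.card_zpowers, hio]) :
          IsPGroup 2 (Subgroup.zpowers g)).exists_le_sylow
        haveI : IsCyclic (S : Subgroup G) :=
          isCyclic_of_orderOf_eq_card (⟨g, hS (Subgroup.mem_zpowers g)⟩ : (S : Subgroup G)) (by
            rw [Subgroup.orderOf_mk, hio, (CfsgLib.Order168.card_sylow2 h).1 S]; norm_num)
        exact CfsgLib.SmallSimple.sylow_two_not_cyclic (CfsgLib.Order168.noncomm h) (by rw [h]; decide) S inferInstance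
  · set z : G := ((a ^ 2 : (T : Subgroup G)) : G) with hz
    have hzo : orderOf z = 2 := by rw [hz, Subgroup.orderOf_coe, orderOf_pow, ha]; norm_num
    have hz1 : z ≠ 1 := fun e => by rw [e, orderOf_one] at hzo; norm_num at hzo
    have hinv : (a ^ 2)⁻¹ = a ^ 2 := by
      rw [inv_eq_iff_mul_eq_one, ← pow_add]
      exact orderOf_dvd_iff_pow_eq_one.1 (by rw [ha])
    have hzc : ∀ t ∈ (T : Subgroup G), t * z = z * t := by
      intro t ht
      have hidx : (Subgroup.zpowers a).index = 2 := by
        have h1 := Subgroup.index_mul_card (Subgroup.zpowers a)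
        rw [Nat.card_zpowers, ha, (CfsgLib.Order168.card_sylow2 h).1 T] at h1
        omega
      have hgen : ∀ u : (T : Subgroup G), Commute u (a ^ 2) := by
        intro u
        by_cases hu : u ∈ Subgroup.zpowers a
        · obtain ⟨i, rfl⟩ := Subgroup.mem_zpowers_iff.1 hu
          exact ((Commute.refl a).zpow_left i).pow_right 2
        · have hmem : x⁻¹ * u ∈ Subgroup.zpowers a := by
            rcases (Subgroup.mul_mem_iff_of_index_two hidx (a := x⁻¹) (b := u)).2 ⟨fun h' => absurd ((Subgroup.inv_mem_iff _).1 h') hxn, fun h' => absurd h' hu⟩ with h'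
            exact h'
          obtain ⟨i, hi⟩ := Subgroup.mem_zpowers_iff.1 hmem
          have hxz : Commute x (a ^ 2) := by
            show x * a ^ 2 = a ^ 2 * x
            rw [← mul_inv_eq_iff_eq_mul, ← conj_pow, hxa, inv_pow, hinv]
          rw [show u = x * a ^ i by rw [hi]; group]
          exact hxz.mul_left (((Commute.refl a).zpow_left i).pow_right 2)
      exact congrArg Subtype.val (hgen ⟨t, ht⟩).eq
    have hclass := CfsgLib.InvolutionCount.card_class_mul_card_centralizer z
    rw [CfsgLib.Order168.centralizer_central_involution h T (SetLike.coe_mem _) hz1 hzc,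
      (CfsgLib.Order168.card_sylow2 h).1 T, h] at hclass
    have e : Nat.card {g : G // orderOf g = 2} = Nat.card {g : G // IsConj z g} := by
      refine Nat.card_congr (Equiv.subtypeEquivRight fun g => ⟨fun hg => CfsgLib.Order168.isConj_involutions h z g hzo hg, ?_⟩)
      intro hc
      obtain ⟨c, rfl⟩ := isConj_iff.1 hc
      rw [show c * z * c⁻¹ = MulAut.conj c z from rfl, MulEquiv.orderOf_eq, hzo]
    rw [e]; omega

end Cfsg.Agent.S1005
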