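import Cfsg.Statements.S1012
import Mathlib
import Cfsg.Agent.Lib.SmallSimple2

set_option autoImplicit false
open Cfsg

namespace Cfsg.Agent.S1012

/-- A group of order 24 containing no element of order 6 is isomorphic to the symmetric group of degree 4. -/
theorem result {G : Type*} [Group G] [Finite G] (h : Nat.card G = 24) (h6 : ∀ g : G, orderOf g ≠ 6) : Nonempty (G ≃* Equiv.Perm (Fin 4)) := by
  classical
  haveI : Fact (Nat.Prime 3) := ⟨Nat.prime_three⟩
  haveI : Fact (Nat.Prime 2) := ⟨Nat.prime_two⟩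
  obtain ⟨P⟩ := (inferInstance : Nonempty (Sylow 3 G))
  have hP : Nat.card (P : Subgroup G) = 3 := by
    rw [P.card_eq_multiplicity, h, show (24 : ℕ) = 3 * 8 by norm_num, Nat.factorization_mul (by norm_num) (by norm_num),
      Nat.prime_three.factorization]
    simp [Nat.factorization_eq_zero_of_not_dvd (show ¬ 3 ∣ 8 by norm_num)]
  haveI : IsCyclic (P : Subgroup G) := isCyclic_of_prime_card (p := 3) hP
  obtain ⟨⟨u, huP⟩, huo⟩ := exists_prime_orderOf_dvd_card' 3 (by rw [hP] : 3 ∣ Nat.card (P : Subgroup G))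
  rw [Subgroup.orderOf_mk] at huo
  -- an involution never commutes with `u`
  have hno : ∀ z : G, orderOf z = 2 → z * u ≠ u * z := fun z hz he => h6 (z * u) (by
    rw [(show Commute z u from he).orderOf_mul_eq_mul_orderOf_of_coprime (by rw [hz, huo]; norm_num), hz, huo])
  have hn : Nat.card (Sylow 3 G) = 4 := by
    have h1 := Sylow.card_dvd_index P
    have h2 := card_sylow_modEq_one 3 G
    have h3 := Subgroup.index_mul_card (P : Subgroup G)
    rw [hP, h] at h3
    rw [show (P : Subgroup G).index = 8 by omega] at h1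
    have hle := Nat.le_of_dvd (by norm_num) h1
    by_contra h4
    have hone : Nat.card (Sylow 3 G) = 1 := by
      have h0 : 0 < Nat.card (Sylow 3 G) := Nat.card_pos
      generalize Nat.card (Sylow 3 G) = n at h1 h2 hle h4 h0 ⊢
      interval_cases n <;> simp_all [Nat.ModEq]
    haveI hnorm : (P : Subgroup G).Normal := by
      rw [← Subgroup.normalizer_eq_top_iff, ← Subgroup.index_eq_one]
      exact (Sylow.card_eq_index_normalizer P).symm.trans hone
    have key := Subgroup.card_dvd_of_injective _
      (QuotientGroup.kerLift_injective (P : Subgroup G).normalizerMonoidHom)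
    rw [Subgroup.normalizerMonoidHom_ker, ← Subgroup.index, ← Subgroup.relIndex, IsCyclic.card_mulAut, hP,
      Nat.totient_prime Nat.prime_three, Subgroup.normalizer_eq_top, Subgroup.relIndex_top_right] at key
    have hCc : 2 ∣ Nat.card (Subgroup.centralizer ((P : Subgroup G) : Set G)) := by
      have h5 := Subgroup.index_mul_card (Subgroup.centralizer ((P : Subgroup G) : Set G))
      rw [h] at h5
      rcases (Nat.dvd_prime Nat.prime_two).1 key with e | e <;> rw [e] at h5 <;> omega
    obtain ⟨⟨z, hzC⟩, hzo⟩ := exists_prime_orderOf_dvd_card' 2 hCc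
    rw [Subgroup.orderOf_mk] at hzo
    exact hno z hzo (Subgroup.mem_centralizer_iff.1 hzC u huP).symm
  obtain ⟨f, hf⟩ := CfsgLib.SmallSimple2.exists_perm_hom hn
  have hNc : Nat.card (Subgroup.normalizer ((P : Subgroup G) : Set G)) = 6 := by
    have h3 := Subgroup.index_mul_card (Subgroup.normalizer ((P : Subgroup G) : Set G))
    rw [show (Subgroup.normalizer ((P : Subgroup G) : Set G)).index = 4 from (Sylow.card_eq_index_normalizer P).symm.trans hn, h] at h3
    omega
  have hker : f.ker = ⊥ := by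
    set K := f.ker with hK
    have hle : ∀ Q : Sylow 3 G, K ≤ Subgroup.normalizer ((Q : Subgroup G) : Set G) := fun Q g hg => hf g hg Q
    have h3K : ¬ 3 ∣ Nat.card K := by
      intro h3
      obtain ⟨⟨v, hvK⟩, hvo⟩ := exists_prime_orderOf_dvd_card' 3 h3
      rw [Subgroup.orderOf_mk] at hvo
      -- `v` lies in every Sylow 3-subgroup
      have hv : ∀ Q : Sylow 3 G, v ∈ (Q : Subgroup G) := fun Q => by
        have hZ : IsPGroup 3 (Subgroup.zpowers v) := IsPGroup.of_card (n := 1) (by rw [Nat.card_zpowers, hvo, pow_one])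
        exact (le_of_eq (Q.3 (hZ.to_sup_of_normal_right' Q.2 (Subgroup.zpowers_le.2 (hle Q hvK))) le_sup_right))
          (Subgroup.mem_sup_left (Subgroup.mem_zpowers v))
      have hall : ∀ Q : Sylow 3 G, (Q : Subgroup G) = Subgroup.zpowers v := fun Q => by
        refine (Subgroup.eq_of_le_of_card_ge (Subgroup.zpowers_le.2 (hv Q)) (le_of_eq ?_)).symm
        rw [Nat.card_zpowers, hvo]
        exact (Q.card_eq_multiplicity.trans P.card_eq_multiplicity.symm).trans hP
      have hsub : Subsingleton (Sylow 3 G) := ⟨fun Q R => Sylow.ext ((hall Q).trans (hall R).symm)⟩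
      rw [Nat.card_of_subsingleton P] at hn
      norm_num at hn
    have hd : Nat.card K ∣ 6 := hNc ▸ Subgroup.card_dvd_of_le (hle P)
    have hd2 : Nat.card K ∣ 2 := ((Nat.prime_three.coprime_iff_not_dvd.2 h3K).symm).dvd_of_dvd_mul_right
      (show Nat.card K ∣ 2 * 3 from hd)
    rcases (Nat.dvd_prime Nat.prime_two).1 hd2 with e | e
    · exact Subgroup.eq_bot_of_card_eq _ e
    · exfalso
      obtain ⟨⟨z, hzK⟩, hzo⟩ := exists_prime_orderOf_dvd_card' 2 (e.symm ▸ dvd_rfl : 2 ∣ Nat.card K)
      rw [Subgroup.orderOf_mk] at hzo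
      refine hno z hzo ?_
      have hconj : u * z * u⁻¹ ∈ K := (inferInstance : f.ker.Normal).conj_mem z hzK u
      have hz1 : z ≠ 1 := fun e1 => by rw [e1, orderOf_one] at hzo; norm_num at hzo
      have heq : u * z * u⁻¹ = z := congrArg Subtype.val
        (((Nat.card_eq_two_iff' (1 : K)).1 e).unique (y₁ := ⟨_, hconj⟩) (y₂ := ⟨z, hzK⟩)
          (fun e1 => hz1 (conj_eq_one_iff.1 (congrArg Subtype.val e1))) (fun e1 => hz1 (congrArg Subtype.val e1)))
      exact (mul_inv_eq_iff_eq_mul.1 heq).symm
  have hF : Function.Injective f := (MonoidHom.ker_eq_bot_iff f).1 hker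
  exact ⟨MulEquiv.ofBijective f ((Nat.bijective_iff_injective_and_card f).2 ⟨hF, by
    rw [h, Nat.card_perm, Nat.card_eq_fintype_card, Fintype.card_fin]; rfl⟩)⟩

end Cfsg.Agent.S1012
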