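import Cfsg.Statements.S0580
import Mathlib

set_option autoImplicit false
open Cfsg

namespace Cfsg.Agent.S0580

/-- If every maximal subgroup of a finite group has prime index, then the group is solvable. -/
theorem result {G : Type*} [Group G] [Finite G] (h : ∀ M : Subgroup G, IsCoatom M → M.index.Prime) : Group.IsSolvable G := by
  induction hn : Nat.card G using Nat.strong_induction_on generalizing G with
  | _ n ih =>
  by_cases h1 : Nat.card G = 1
  · have : Subsingleton G := (Nat.card_eq_one_iff_unique.mp h1).1
    infer_instance
  have hne : (Nat.card G).primeFactors.Nonempty := Nat.nonempty_primeFactors.mpr (by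
    have := Nat.card_pos (α := G); omega)
  set p := (Nat.card G).primeFactors.max' hne with hp
  obtain ⟨hpp, hpd, -⟩ := Nat.mem_primeFactors.mp (Finset.max'_mem _ hne)
  rw [← hp] at hpp hpd
  have := Fact.mk hpp
  obtain ⟨P⟩ : Nonempty (Sylow p G) := inferInstance
  have hPn : (P : Subgroup G).Normal := by
    rw [← Subgroup.normalizer_eq_top_iff]
    by_contra hN
    obtain ⟨M, hM, hNM⟩ := (eq_top_or_exists_le_coatom _).resolve_left hN
    have hq := h M hM
    have hPM : (P : Subgroup G) ≤ M := Subgroup.le_normalizer.trans hNM
    have e1 : Nat.card (Sylow p M) = (Subgroup.normalizer ((P : Subgroup G) : Set G)).relIndex M := by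
      rw [(P.subtype hPM).card_eq_index_normalizer, Subgroup.relIndex]
      congr 1
      ext x
      simp only [Subgroup.mem_subgroupOf, Subgroup.mem_normalizer_iff]
      constructor
      · intro hx g
        by_cases hg : g ∈ M
        · exact hx ⟨g, hg⟩
        · refine ⟨fun h' => absurd (hPM h') hg, fun h' => absurd ?_ hg⟩
          have := M.mul_mem (M.mul_mem (M.inv_mem x.2) (hPM h')) x.2
          simpa [mul_assoc] using this
      · intro hx g
        exact hx g
    have e2 : Nat.card (Sylow p G) = (Subgroup.normalizer ((P : Subgroup G) : Set G)).index := P.card_eq_index_normalizer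
    have e3 := Subgroup.relIndex_mul_index hNM
    have c1 := card_sylow_modEq_one p M
    have c2 := card_sylow_modEq_one p G
    rw [e1] at c1
    rw [e2, ← e3] at c2
    have c3 : M.index ≡ 1 [MOD p] := by
      have := (c1.mul_right M.index).symm.trans c2
      rwa [one_mul] at this
    have hle : M.index ≤ p := Finset.le_max' _ _ (Nat.mem_primeFactors.mpr ⟨hq, M.index_dvd_card, Nat.card_pos.ne'⟩)
    rcases hle.lt_or_eq with hlt | heq
    · exact hq.ne_one (Nat.ModEq.eq_of_lt_of_lt c3 hlt hpp.one_lt)
    · rw [heq] at c3
      have : p % p = 1 % p := c3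
      rw [Nat.mod_self, Nat.one_mod_eq_one.mpr hpp.ne_one] at this
      exact zero_ne_one this
  have := hPn
  have hlt : Nat.card (G ⧸ (P : Subgroup G)) < n := by
    rw [← hn, (P : Subgroup G).card_eq_card_quotient_mul_card_subgroup]
    refine lt_mul_of_one_lt_right Nat.card_pos ?_
    exact lt_of_lt_of_le hpp.one_lt (Nat.le_of_dvd Nat.card_pos (P.dvd_card_of_dvd_card hpd))
  have hq : Group.IsSolvable (G ⧸ (P : Subgroup G)) := by
    refine ih _ hlt (fun M hM => ?_) rfl
    have hsurj := QuotientGroup.mk'_surjective (P : Subgroup G)
    rw [← Subgroup.index_comap_of_surjective M hsurj]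
    refine h _ ⟨fun e => hM.1 ?_, fun K hK => ?_⟩
    · rw [← Subgroup.map_comap_eq_self_of_surjective hsurj M, e, Subgroup.map_top_of_surjective _ hsurj]
    · have hker : (QuotientGroup.mk' (P : Subgroup G)).ker ≤ K :=
        (MonoidHom.ker_le_comap _ _).trans hK.le
      have h2 : M < K.map (QuotientGroup.mk' _) := by
        have := Subgroup.map_mono (f := QuotientGroup.mk' (P : Subgroup G)) hK.le
        rw [Subgroup.map_comap_eq_self_of_surjective hsurj] at this
        refine lt_of_le_of_ne this fun e => hK.ne ?_
        rw [e, Subgroup.comap_map_eq_self hker]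
      rw [← Subgroup.comap_map_eq_self hker, hM.2 _ h2, Subgroup.comap_top]
  have hPs : Group.IsSolvable ↥(P : Subgroup G) := by
    have := P.2.isNilpotent
    infer_instance
  exact Group.isSolvable_of_ker_le_range (P : Subgroup G).subtype (QuotientGroup.mk' (P : Subgroup G)) (by simp)

end Cfsg.Agent.S0580
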