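import Cfsg.Statements.S0781
import Cfsg.Agent.Lib.Unitary.Siegel

set_option autoImplicit false
open Cfsg

namespace Cfsg.Agent.S0781

open scoped Matrix
open scoped commutatorElement
open CfsgLib.Unitary.FieldNorm CfsgLib.Unitary.Basic CfsgLib.Unitary.Order CfsgLib.Unitary.Isotropic

/-- In SU_n(q) with n ≥ 4, or n = 3 and q > 2, every element whose matrix is a unitary transvection x ↦ x + c h(x, v) v (v isotropic) is a commutator ⁅B, C⁆ of two elements of SU_n(q). -/
theorem result {F : Type*} [Field F] [Fintype F] {q : ℕ} (hF : Fintype.card F = q ^ 2) (n : ℕ) (hn : 4 ≤ n ∨ (n = 3 ∧ 3 ≤ q)) (A : ↥(Cfsg.SU n F q)) (v : Fin n → F) (c : F) (hv0 : Cfsg.hermForm n F q v v = 0) (hA : ((A : Matrix.SpecialLinearGroup (Fin n) F) : Matrix (Fin n) (Fin n) F) = Cfsg.unitaryTransvection n q v c) : A ∈ commutatorSet ↥(Cfsg.SU n F q) := by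
  classical
  have hn3 : 3 ≤ n := by omega
  have h2q := two_le_q hF
  by_cases hv : v = 0
  · refine ⟨1, 1, ?_⟩
    rw [commutatorElement_self]
    refine Subtype.ext (Subtype.ext ?_)
    rw [hA]
    exact (Matrix.ext_iff_mulVec.2 fun x => by rw [umat_mulVec, hv, smul_zero, add_zero]; simp)
  obtain ⟨x, hx⟩ : ∃ x, Cfsg.hermForm n F q x v ≠ 0 := by
    by_contra h; simp only [not_exists, not_not] at h; exact hv (vec_eq_zero hF h)
  have hc : c ^ q = -c := by
    have h := SU_H A x x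
    have hxv : Cfsg.hermForm n F q v x = Cfsg.hermForm n F q x v ^ q := (H_conj hF x v).symm
    rw [hA, umat_mulVec] at h
    simp only [H_add_left, H_add_right hF, H_smul_left, H_smul_right, mul_pow, hv0, hxv] at h
    have h' : (c + c ^ q) * (Cfsg.hermForm n F q x v * Cfsg.hermForm n F q x v ^ q) = 0 := by linear_combination h
    exact eq_neg_of_add_eq_zero_right ((mul_eq_zero.1 h').resolve_right (mul_ne_zero hx (pow_ne_zero _ hx)))
  obtain ⟨ζ, hζ⟩ := exists_norm hF (c := (-1 : F)) (by simp) (by rw [neg_pow_q hF, one_pow])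
  obtain ⟨g, -, hg⟩ := to_std hF hn3 hv hv0 hζ
  set w := (g⁻¹).1.1 *ᵥ Pi.single (⟨2, by omega⟩ : Fin n) 1 with hw
  have hgw : g.1.1 *ᵥ w = Pi.single (⟨2, by omega⟩ : Fin n) 1 := by
    rw [hw, ← mulVec_mul, mul_inv_cancel]; exact Matrix.one_mulVec _
  have hwv : Cfsg.hermForm n F q w v = 0 := by
    rw [← GU_H g, hgw, hg, H_single_left]
    simp [Fin.ext_iff, (q_ne_zero hF)]
  have hww : Cfsg.hermForm n F q w w = 1 := by
    rw [← GU_H g, hgw, H_single_left, Pi.single_eq_same, one_pow]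
  obtain ⟨t, ht⟩ := exists_trace_one hF
  obtain ⟨μ, hμ⟩ : ∃ μ : F, μ ^ q - μ = c := ⟨-(c * t), by rw [neg_pow_q hF, mul_pow, hc]; linear_combination c * ht⟩
  have hzv : Cfsg.hermForm n F q (μ • w) v = 0 := by rw [H_smul_left, hwv, mul_zero]
  obtain ⟨e, he⟩ := CfsgLib.Unitary.Siegel.exists_elt hF (a := -t) hv0 hwv (by rw [hww, neg_pow_q hF]; linear_combination -ht)
  obtain ⟨f, hf⟩ := CfsgLib.Unitary.Siegel.exists_elt hF (a := -(μ * μ ^ q * t)) hv0 hzv (by
    rw [H_smul_left, H_smul_right, hww, neg_pow_q hF, mul_pow, mul_pow, pow_q_q hF]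
    linear_combination -(μ * μ ^ q) * ht)
  refine ⟨e, f, ?_⟩
  have h1 : e * f = A * (f * e) := by
    refine Subtype.ext (Subtype.ext ?_)
    show e.1.1 * f.1.1 = A.1.1 * (f.1.1 * e.1.1)
    rw [he, hf, hA, CfsgLib.Unitary.Siegel.comm_rel hF (-t) (-(μ * μ ^ q * t)) hv0 hwv hzv]
    congr 2
    rw [H_smul_left, H_smul_right, hww, mul_one, mul_one, hμ]
  rw [commutatorElement_def, h1]; group

end Cfsg.Agent.S0781
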