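import Cfsg.Statements.S2644
import Cfsg.Agent.Lib.Unitary.Isotropic

set_option autoImplicit false
open Cfsg

namespace Cfsg.Agent.S2644

open scoped Matrix
open CfsgLib.Unitary.FieldNorm CfsgLib.Unitary.Basic CfsgLib.Unitary.Order CfsgLib.Unitary.Isotropic

/-- In the special unitary group SU_n(q) with n ≥ 3 (isometries of Σ u_i v_i^q of determinant one over the field with q² elements), any two transvections (elements t with t − 1 of rank one and square zero) are conjugate. -/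
theorem result {K : Type*} [Field K] [Fintype K] {q n : ℕ} (hK : Fintype.card K = q ^ 2) (hn : 3 ≤ n) (s t : ↥(Cfsg.SU n K q)) (hs : Cfsg.IsTransvection (((s : GL (Fin n) K) : Matrix (Fin n) (Fin n) K))) (ht : Cfsg.IsTransvection (((t : GL (Fin n) K) : Matrix (Fin n) (Fin n) K))) : IsConj s t := by
  classical
  obtain ⟨u, hu, hiu, c, hc, hcq, hse⟩ := shape hK s hs.1 hs.2
  obtain ⟨v, hv, hiv, d, hd, hdq, hte⟩ := shape hK t ht.1 ht.2
  obtain ⟨l, hl⟩ := exists_norm hK (c := d * c⁻¹) (mul_ne_zero hd (inv_ne_zero hc))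
    (by rw [mul_pow, inv_pow, hdq, hcq, inv_neg, neg_mul_neg])
  have hl0 : l ≠ 0 := fun h => mul_ne_zero hd (inv_ne_zero hc) (by rw [← hl, h, zero_pow (by omega)])
  obtain ⟨g, hg⟩ := transitive hK hn hu (v := l • v) (smul_ne_zero hl0 hv) hiu
    (by rw [H_smul_left, H_smul_right, hiv, mul_zero, mul_zero])
  refine isConj_iff.2 ⟨g, mul_inv_eq_iff_eq_mul.2 (Subtype.ext (Subtype.ext (Matrix.ext_iff_mulVec.2 fun x => ?_)))⟩
  show (g.1.1 * s.1.1) *ᵥ x = (t.1.1 * g.1.1) *ᵥ x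
  rw [← Matrix.mulVec_mulVec, ← Matrix.mulVec_mulVec, hse, hte, umat_mulVec, umat_mulVec, Matrix.mulVec_add,
    Matrix.mulVec_smul, hg, smul_smul]
  congr 2
  have h1 : Cfsg.hermForm n K q (g.1.1 *ᵥ x) (l • v) = Cfsg.hermForm n K q x u := by rw [← hg, SU_H]
  rw [H_smul_right] at h1
  have h2 : l * l ^ q * c = d := by
    rw [← pow_succ', hl, inv_mul_cancel_right₀ hc]
  rw [← h1]
  linear_combination (Cfsg.hermForm n K q (g.1.1 *ᵥ x) v) * h2

end Cfsg.Agent.S2644
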