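import Cfsg.Statements.S0002
import Cfsg.Agent.Lib.Solvable.HallBasic

set_option autoImplicit false
open Pointwise
open Cfsg

namespace Cfsg.Agent.S0002

/-- Schur's Theorem, conjugacy part, for an abelian normal subgroup of coprime order and index: any two complements are conjugate by an element of the normal subgroup. -/
theorem result {G : Type*} [Group G] [Finite G] (A : Subgroup G) [A.Normal] [IsMulCommutative A]
    (hA : (Nat.card A).Coprime A.index)
    (H K : Subgroup G) (hH : Subgroup.IsComplement' A H) (hK : Subgroup.IsComplement' A K) :
    ∃ a ∈ A, MulAut.conj a • H = K := by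
  exact CfsgLib.Solvable.HallBasic.conj_complement A hA (Or.inl (Group.isSolvable_of_comm fun a b => mul_comm' a b)) H K hH hK

end Cfsg.Agent.S0002
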