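import Cfsg.Statements.S0010
import Cfsg.Agent.Lib.Core

set_option autoImplicit false
open Cfsg

namespace Cfsg.Agent.S0010

/-- The largest normal p-subgroup of a finite group is the intersection of all its Sylow p-subgroups. -/
theorem result {G : Type*} [Group G] [Finite G] (p : ℕ) [Fact p.Prime] :
    Cfsg.pCore p G = ⨅ P : Sylow p G, (P : Subgroup G) := by
  refine le_antisymm (le_iInf fun P => CfsgLib.Core.pCore_le_sylow P) ?_
  refine CfsgLib.Core.le_pCore ?_ ?_
  · constructor
    intro n hn g
    rw [Subgroup.mem_iInf] at hn ⊢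
    intro P
    have := hn (g⁻¹ • P)
    rw [Sylow.coe_subgroup_smul, Subgroup.mem_pointwise_smul_iff_inv_smul_mem] at this
    simpa [MulAut.conj] using this
  · obtain ⟨P⟩ := (inferInstance : Nonempty (Sylow p G))
    exact P.2.to_le (iInf_le _ P)

end Cfsg.Agent.S0010
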