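import Cfsg.Statements.S0013

set_option autoImplicit false
open Cfsg

namespace Cfsg.Agent.S0013

/-- In a finite p-group the Frattini subgroup is the smallest normal subgroup with elementary abelian quotient: it lies below any normal subgroup containing all commutators and all p-th powers. -/
theorem result {G : Type*} [Group G] [Finite G] (p : ℕ) [Fact p.Prime]
    (hG : IsPGroup p G) (N : Subgroup G) [N.Normal] (hcomm : commutator G ≤ N) (hpow : ∀ x : G, x ^ p ∈ N) :
    frattini G ≤ N := by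
  intro x hx
  by_contra hxN
  obtain ⟨M, hM⟩ := Set.Finite.exists_maximal (Set.toFinite {M : Subgroup G | N ≤ M ∧ x ∉ M}) ⟨N, le_rfl, hxN⟩
  obtain ⟨⟨hNM, hxM⟩, hmax⟩ := hM
  haveI hn : M.Normal := by
    constructor
    intro m hm g
    have : g * m * g⁻¹ * m⁻¹ ∈ M :=
      hNM (hcomm (Subgroup.commutator_mem_commutator (Subgroup.mem_top g) (Subgroup.mem_top m)))
    simpa using M.mul_mem this hm
  refine hxM (frattini_le_coatom (K := M) ⟨fun h => hxM (h ▸ Subgroup.mem_top x), fun K hK => ?_⟩ hx)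
  have hxK : x ∈ K := by
    by_contra h
    exact hK.not_ge (hmax ⟨hNM.trans hK.le, h⟩ hK.le)
  rw [eq_top_iff]
  intro y _
  by_cases hy : y ∈ M
  · exact hK.le hy
  have hy1 : (y : G ⧸ M) ≠ 1 := fun h => hy ((QuotientGroup.eq_one_iff y).mp h)
  have hx1 : (x : G ⧸ M) ≠ 1 := fun h => hxM ((QuotientGroup.eq_one_iff x).mp h)
  have hp : ∀ g : G, (g : G ⧸ M) ^ p = 1 := fun g => by
    rw [← QuotientGroup.mk_pow]; exact (QuotientGroup.eq_one_iff _).mpr (hNM (hpow g))
  have hxy : (x : G ⧸ M) ∈ Subgroup.zpowers (y : G ⧸ M) := by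
    have hle : M ≤ (Subgroup.zpowers (y : G ⧸ M)).comap (QuotientGroup.mk' M) :=
      (QuotientGroup.ker_mk' M).symm.le.trans (Subgroup.ker_le_comap _ _)
    by_contra h
    exact hy (hmax ⟨hNM.trans hle, h⟩ hle (Subgroup.mem_zpowers (y : G ⧸ M)))
  have hord : orderOf (y : G ⧸ M) = p := orderOf_eq_prime (hp y) hy1
  have hzz : Subgroup.zpowers (x : G ⧸ M) = Subgroup.zpowers (y : G ⧸ M) := by
    refine Subgroup.eq_of_le_of_card_ge (Subgroup.zpowers_le.mpr hxy) ?_
    rw [Nat.card_zpowers, Nat.card_zpowers, hord, orderOf_eq_prime (hp x) hx1]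
  have hy2 : (y : G ⧸ M) ∈ Subgroup.zpowers (x : G ⧸ M) := hzz ▸ Subgroup.mem_zpowers _
  obtain ⟨k, hk⟩ := Subgroup.mem_zpowers_iff.mp hy2
  rw [← QuotientGroup.mk_zpow, QuotientGroup.eq] at hk
  simpa [mul_assoc] using K.mul_mem (K.zpow_mem hxK k) (hK.le hk)

end Cfsg.Agent.S0013
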