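import Cfsg.Statements.S0014
import Cfsg.Agent.S0012
import Mathlib

set_option autoImplicit false
open Cfsg

namespace Cfsg.Agent.S0014

theorem card_insert {Q : Type*} [CommGroup Q] [Finite Q] {p : ℕ} (hp : p.Prime) (hpow : ∀ x : Q, x ^ p = 1)
    (s : Set Q) (x : Q) :
    (x ∈ Subgroup.closure s ∧ Subgroup.closure (insert x s) = Subgroup.closure s) ∨
    (x ∉ Subgroup.closure s ∧ Nat.card (Subgroup.closure (insert x s)) = p * Nat.card (Subgroup.closure s)) := by
  have he : Subgroup.closure (insert x s) = Subgroup.zpowers x ⊔ Subgroup.closure s := by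
    rw [Set.insert_eq, Subgroup.closure_union, Subgroup.zpowers_eq_closure]
  by_cases hx : x ∈ Subgroup.closure s
  · exact Or.inl ⟨hx, by rw [he]; exact sup_eq_right.mpr (Subgroup.zpowers_le.mpr hx)⟩
  refine Or.inr ⟨hx, ?_⟩
  rw [he]
  set H := Subgroup.closure s
  have h1 : H.relIndex (Subgroup.zpowers x ⊔ H) = H.relIndex (Subgroup.zpowers x) := Subgroup.relIndex_sup_right _ _
  have h2 : H.relIndex (Subgroup.zpowers x) ∣ p :=
    (Subgroup.relIndex_dvd_card H _).trans (by rw [Nat.card_zpowers]; exact orderOf_dvd_of_pow_eq_one (hpow x))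
  have h3 : H.relIndex (Subgroup.zpowers x) = p := by
    rcases (Nat.dvd_prime hp).mp h2 with h | h
    · exact absurd ((Subgroup.relIndex_eq_one.mp h) (Subgroup.mem_zpowers x)) hx
    · exact h
  have h4 := Subgroup.relIndex_mul_relIndex (⊥ : Subgroup Q) H (Subgroup.zpowers x ⊔ H) bot_le le_sup_right
  rw [Subgroup.relIndex_bot_left, Subgroup.relIndex_bot_left, h1, h3] at h4
  rw [← h4, mul_comm]

/-- Burnside's basis Theorem: in a finite p-group whose Frattini quotient has order p ^ n, every generating set contains n elements that already generate, and no set with fewer than n elements generates. -/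
theorem result {G : Type*} [Group G] [Finite G] (p n : ℕ) [Fact p.Prime]
    (hG : IsPGroup p G) (hn : (frattini G).index = p ^ n) :
    (∀ S : Finset G, Subgroup.closure (S : Set G) = ⊤ → ∃ T : Finset G, T ⊆ S ∧ T.card = n ∧ Subgroup.closure (T : Set G) = ⊤) ∧
    (∀ T : Finset G, Subgroup.closure (T : Set G) = ⊤ → n ≤ T.card) := by
  classical
  obtain ⟨hcomm, hpow⟩ := Cfsg.Agent.S0012.result p hG
  haveI : IsMulCommutative (G ⧸ frattini G) :=
    Subgroup.Normal.quotient_commutative_iff_commutator_le.mpr hcomm
  letI : CommGroup (G ⧸ frattini G) := IsMulCommutative.instCommGroup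
  have hp : p.Prime := Fact.out
  let π := QuotientGroup.mk' (frattini G)
  have hQ : ∀ x : G ⧸ frattini G, x ^ p = 1 := by
    intro x; obtain ⟨g, rfl⟩ := QuotientGroup.mk'_surjective (frattini G) x
    rw [← map_pow]; exact (QuotientGroup.eq_one_iff _).mpr (hpow g)
  have hcardQ : Nat.card (G ⧸ frattini G) = p ^ n := by rw [← hn]; exact (Subgroup.index_eq_card _).symm
  have hle : ∀ T : Finset (G ⧸ frattini G), ∃ k ≤ T.card, Nat.card (Subgroup.closure (T : Set (G ⧸ frattini G))) = p ^ k := by
    intro T
    induction T using Finset.induction_on with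
    | empty => exact ⟨0, le_refl _, by rw [Finset.coe_empty, Subgroup.closure_empty, Subgroup.card_bot, pow_zero]⟩
    | insert x T hxT ih =>
      obtain ⟨k, hk, hkc⟩ := ih
      rw [Finset.coe_insert, Finset.card_insert_of_notMem hxT]
      rcases card_insert hp hQ (T : Set _) x with ⟨_, h⟩ | ⟨_, h⟩
      · exact ⟨k, Nat.le_succ_of_le hk, by rw [h, hkc]⟩
      · exact ⟨k + 1, Nat.succ_le_succ hk, by rw [h, hkc, pow_succ']⟩
  have himg : ∀ T : Finset G, Subgroup.closure (T : Set G) = ⊤ ↔
      Subgroup.closure ((T.image π : Finset _) : Set (G ⧸ frattini G)) = ⊤ := by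
    intro T
    rw [Finset.coe_image, ← MonoidHom.map_closure]
    constructor
    · intro h; rw [h]; exact Subgroup.map_top_of_surjective π (QuotientGroup.mk'_surjective _)
    · intro h
      refine frattini_nongenerating ?_
      have := congrArg (Subgroup.comap π) h
      rwa [Subgroup.comap_map_eq, Subgroup.comap_top, QuotientGroup.ker_mk'] at this
  refine ⟨fun S hS => ?_, fun T hT => ?_⟩
  swap
  · obtain ⟨k, hk, hkc⟩ := hle (T.image π)
    rw [(himg T).mp hT, Subgroup.card_top, hcardQ] at hkc
    exact (Nat.pow_right_injective hp.two_le hkc).trans_le (hk.trans Finset.card_image_le)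
  · have hne : (S.powerset.filter fun T : Finset G => Subgroup.closure (T : Set G) = ⊤).Nonempty :=
      ⟨S, Finset.mem_filter.mpr ⟨Finset.mem_powerset_self S, hS⟩⟩
    obtain ⟨T, hT, hmin⟩ := Finset.exists_min_image _ Finset.card hne
    rw [Finset.mem_filter, Finset.mem_powerset] at hT
    refine ⟨T, hT.1, ?_, hT.2⟩
    have hstrict : ∀ U ⊆ T, Nat.card (Subgroup.closure ((U.image π : Finset _) : Set (G ⧸ frattini G))) = p ^ U.card := by
      intro U
      induction U using Finset.induction_on with
      | empty => intro _; rw [Finset.image_empty, Finset.coe_empty, Subgroup.closure_empty, Subgroup.card_bot, Finset.card_empty, pow_zero]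
      | insert x U hxU ih =>
        intro hsub
        have hU : U ⊆ T := (Finset.subset_insert x U).trans hsub
        have hxT : x ∈ T := hsub (Finset.mem_insert_self x U)
        rw [Finset.image_insert, Finset.coe_insert, Finset.card_insert_of_notMem hxU]
        rcases card_insert hp hQ ((U.image π : Finset _) : Set (G ⧸ frattini G)) (π x) with ⟨hmem, _⟩ | ⟨_, h⟩
        · exfalso
          have hle' : Subgroup.closure ((U.image π : Finset _) : Set (G ⧸ frattini G)) ≤
              Subgroup.closure (((T.erase x).image π : Finset _) : Set (G ⧸ frattini G)) :=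
            Subgroup.closure_mono (Finset.coe_subset.mpr (Finset.image_subset_image fun y hy =>
              Finset.mem_erase.mpr ⟨fun h => hxU (h ▸ hy), hU hy⟩))
          have h1 : Subgroup.closure (((T.erase x).image π : Finset _) : Set (G ⧸ frattini G)) = ⊤ := by
            rw [eq_top_iff, ← (himg T).mp hT.2, Subgroup.closure_le]
            intro y hy
            rw [Finset.coe_image] at hy
            obtain ⟨z, hz, rfl⟩ := hy
            by_cases hzx : z = x
            · exact hzx ▸ hle' hmem
            · exact Subgroup.subset_closure (Finset.mem_coe.mpr (Finset.mem_image_of_mem π (Finset.mem_erase.mpr ⟨hzx, hz⟩)))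
          have h2 := hmin (T.erase x) (Finset.mem_filter.mpr
            ⟨Finset.mem_powerset.mpr ((Finset.erase_subset x T).trans hT.1), (himg _).mpr h1⟩)
          have h3 := Finset.card_erase_lt_of_mem hxT
          omega
        · rw [h, ih hU, pow_succ']
    have h := hstrict T (subset_refl T)
    rw [(himg T).mp hT.2, Subgroup.card_top, hcardQ] at h
    exact (Nat.pow_right_injective hp.two_le h).symm

end Cfsg.Agent.S0014
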