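import Cfsg.Statements.S0015
import Cfsg.Agent.Lib.Solvable.Basics

set_option autoImplicit false
open Cfsg

namespace Cfsg.Agent.S0015

/-- In a finite nilpotent group, an abelian normal subgroup that is maximal among abelian normal subgroups equals its own centralizer. -/
theorem result {G : Type*} [Group G] [Finite G] [Group.IsNilpotent G]
    (N : Subgroup G) [N.Normal] [IsMulCommutative N]
    (hmax : ∀ M : Subgroup G, M.Normal → IsMulCommutative M → N ≤ M → M = N) :
    Subgroup.centralizer (N : Set G) = N := by
  refine le_antisymm ?_ ?_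
  · by_contra hle
    -- a central element of `G ⧸ N` inside the image of the centralizer
    set C := Subgroup.centralizer (N : Set G) with hC
    haveI hCn : C.Normal := Subgroup.normal_centralizer
    haveI : Group.IsNilpotent (G ⧸ N) := Group.nilpotent_of_surjective _ (QuotientGroup.mk'_surjective N)
    haveI hmn : (C.map (QuotientGroup.mk' N)).Normal := hCn.map _ (QuotientGroup.mk'_surjective N)
    have hne : C.map (QuotientGroup.mk' N) ≠ ⊥ := by
      rw [Ne, Subgroup.map_eq_bot_iff, QuotientGroup.ker_mk']; exact hle
    obtain ⟨z, hz, hz1⟩ : ∃ z ∈ C.map (QuotientGroup.mk' N) ⊓ Subgroup.center (G ⧸ N), z ≠ 1 := by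
      have := CfsgLib.Solvable.Basics.inf_center_ne_bot (C.map (QuotientGroup.mk' N)) hne
      by_contra hall
      push Not at hall
      exact this ((Subgroup.eq_bot_iff_forall _).mpr hall)
    obtain ⟨c, hc, rfl⟩ := hz.1
    set M := N ⊔ Subgroup.zpowers c with hM
    have hMn : M.Normal := by
      have h1 : (Subgroup.zpowers (QuotientGroup.mk' N c)).Normal :=
        ⟨fun a ha g => by
          obtain ⟨k, rfl⟩ := ha
          have hcen : QuotientGroup.mk' N c ^ k ∈ Subgroup.center _ := Subgroup.zpow_mem _ hz.2 k
          show g * (QuotientGroup.mk' N c) ^ k * g⁻¹ ∈ _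
          rw [Subgroup.mem_center_iff.mp hcen g, mul_inv_cancel_right]
          exact Subgroup.zpow_mem_zpowers _ k⟩
      have e : M = (Subgroup.zpowers (QuotientGroup.mk' N c)).comap (QuotientGroup.mk' N) := by
        rw [← MonoidHom.map_zpowers, Subgroup.comap_map_eq, QuotientGroup.ker_mk', sup_comm]
      rw [e]; exact h1.comap _
    have hMc : IsMulCommutative M := by
      refine Subgroup.le_centralizer_iff_isMulCommutative.mp ?_
      refine sup_le ?_ ?_
      · rw [Subgroup.le_centralizer_iff]
        exact sup_le (Subgroup.le_centralizer_iff_isMulCommutative.mpr inferInstance) (Subgroup.zpowers_le.mpr hc)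
      · refine Subgroup.zpowers_le.mpr (Subgroup.mem_centralizer_iff.mpr fun m hm => ?_)
        have hle' : M ≤ Subgroup.centralizer {c} := sup_le (fun n hn => Subgroup.mem_centralizer_singleton_iff.mpr
            (Subgroup.mem_centralizer_iff.mp hc n hn)) (Subgroup.zpowers_le.mpr (Subgroup.mem_centralizer_singleton_iff.mpr rfl))
        exact Subgroup.mem_centralizer_singleton_iff.mp (hle' hm)
    have := hmax M hMn hMc le_sup_left
    refine hz1 ((QuotientGroup.eq_one_iff c).mpr ?_)
    rw [← this]
    exact Subgroup.mem_sup_right (Subgroup.mem_zpowers c)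
  · exact Subgroup.le_centralizer_iff_isMulCommutative.mpr inferInstance

end Cfsg.Agent.S0015
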