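import Cfsg.Statements.S0017
import Cfsg.Agent.Lib.Solvable.Basics
import Cfsg.Agent.S0044

set_option autoImplicit false
open Cfsg

namespace Cfsg.Agent.S0017

/-- In a finite solvable group whose largest normal subgroup of order prime to p is trivial, the centralizer of the p-core is contained in the p-core. -/
theorem result {G : Type*} [Group G] [Finite G] [Group.IsSolvable G] (p : ℕ) [Fact p.Prime]
    (h : Cfsg.pPrimeCore p G = ⊥) :
    Subgroup.centralizer (Cfsg.pCore p G : Set G) ≤ Cfsg.pCore p G := by
  have hF : Cfsg.fittingSubgroup G = Cfsg.pCore p G := by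
    refine le_antisymm ?_ (CfsgLib.Core.pCore_le_fittingSubgroup Fact.out)
    rw [CfsgLib.Core.fittingSubgroup_eq_iSup_pCore]
    refine iSup_le fun ⟨q, hq⟩ => ?_
    by_cases hqp : q = p
    · subst hqp; exact le_rfl
    · haveI := Fact.mk hq
      refine le_trans ?_ (h ▸ bot_le : Cfsg.pPrimeCore p G ≤ Cfsg.pCore p G)
      refine CfsgLib.Core.le_pPrimeCore inferInstance ?_
      obtain ⟨k, hk⟩ := IsPGroup.iff_card.mp (CfsgLib.Core.isPGroup_pCore (G := G) q)
      rw [hk]
      exact ((Nat.coprime_primes hq Fact.out).mpr hqp).pow_left k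
  rw [← hF]
  exact Cfsg.Agent.S0044.result

end Cfsg.Agent.S0017
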