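import Cfsg.Statements.S0018
import Cfsg.Agent.Lib.Solvable.Basics
import Cfsg.Agent.S0017

set_option autoImplicit false
open Cfsg

namespace Cfsg.Agent.S0018

/-- A finite solvable group whose Sylow p-subgroups are abelian has p-length one: a Sylow p-subgroup together with the largest normal subgroup of order prime to p generates a normal subgroup. -/
theorem result {G : Type*} [Group G] [Finite G] [Group.IsSolvable G]
    (p : ℕ) [Fact p.Prime] (P : Sylow p G) (hP : IsMulCommutative P) :
    ((P : Subgroup G) ⊔ Cfsg.pPrimeCore p G).Normal := by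
  haveI : (Cfsg.pPrimeCore p G).Normal := by
    haveI := CfsgLib.Core.pPrimeCore_characteristic (G := G) p; infer_instance
  set q := QuotientGroup.mk' (Cfsg.pPrimeCore p G) with hq
  let Pb : Sylow p (G ⧸ Cfsg.pPrimeCore p G) := P.mapSurjective (QuotientGroup.mk'_surjective _)
  have hC : Subgroup.centralizer (Cfsg.pCore p (G ⧸ Cfsg.pPrimeCore p G) : Set (G ⧸ Cfsg.pPrimeCore p G))
      ≤ Cfsg.pCore p (G ⧸ Cfsg.pPrimeCore p G) := by
    haveI : Group.IsSolvable (G ⧸ Cfsg.pPrimeCore p G) := Group.isSolvable_of_surjective (QuotientGroup.mk'_surjective _)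
    exact Cfsg.Agent.S0017.result p (CfsgLib.Core.pPrimeCore_quotient_eq_bot p)
  haveI hab : IsMulCommutative (Pb : Subgroup (G ⧸ Cfsg.pPrimeCore p G)) := by
    constructor; constructor
    rintro ⟨_, a, ha, rfl⟩ ⟨_, b, hb, rfl⟩
    refine Subtype.ext ?_
    show q a * q b = q b * q a
    rw [← map_mul, ← map_mul]
    exact congrArg q (congrArg Subtype.val (hP.is_comm.comm ⟨a, ha⟩ ⟨b, hb⟩))
  have hle : (Pb : Subgroup (G ⧸ Cfsg.pPrimeCore p G)) ≤ Cfsg.pCore p _ := by
    refine le_trans ?_ hC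
    rw [Subgroup.le_centralizer_iff]
    exact (CfsgLib.Core.pCore_le_sylow Pb).trans (Subgroup.le_centralizer_iff_isMulCommutative.mpr hab)
  have hn : (Pb : Subgroup (G ⧸ Cfsg.pPrimeCore p G)).Normal := by
    rw [le_antisymm hle (CfsgLib.Core.pCore_le_sylow Pb)]
    haveI := CfsgLib.Core.pCore_characteristic (G := G ⧸ Cfsg.pPrimeCore p G) p
    infer_instance
  have e : (P : Subgroup G) ⊔ Cfsg.pPrimeCore p G = (Pb : Subgroup (G ⧸ Cfsg.pPrimeCore p G)).comap q := by
    show _ = ((P : Subgroup G).map q).comap q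
    rw [Subgroup.comap_map_eq, hq, QuotientGroup.ker_mk']
  rw [e]
  exact hn.comap q

end Cfsg.Agent.S0018
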