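import Cfsg.Statements.S0022
import Cfsg.Agent.Lib.Solvable.HallBasic

set_option autoImplicit false
open Cfsg

namespace Cfsg.Agent.S0022

/-- Under coprime action fixed points pass to quotients: with A normalising K, coprime orders, A or K solvable, and N an A-invariant normal subgroup of K, every coset of N in K fixed by conjugation by A contains an element centralised by A. -/
theorem result {G : Type*} [Group G] [Finite G] (A K : Subgroup G) (hAK : A ≤ Subgroup.normalizer (K : Set G))
    (hcop : (Nat.card A).Coprime (Nat.card K)) (hsolv : Group.IsSolvable A ∨ Group.IsSolvable K)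
    (N : Subgroup G) (hNK : N ≤ K) (hNnormal : K ≤ Subgroup.normalizer (N : Set G)) (hNA : A ≤ Subgroup.normalizer (N : Set G))
    (k : G) (hk : k ∈ K) (hfix : ∀ a ∈ A, a * k * a⁻¹ * k⁻¹ ∈ N) :
    ∃ c ∈ K ⊓ Subgroup.centralizer (A : Set G), k⁻¹ * c ∈ N := by
  have hcopN : (Nat.card A).Coprime (Nat.card N) := hcop.coprime_dvd_right (Subgroup.card_dvd_of_le hNK)
  refine CfsgLib.GroupB.Coprime.exists_fixed_of_coset hNA hcopN ?_ hAK hcop hNK hk fun a ha => ?_
  · rcases hsolv with h | h
    · exact Or.inr h
    · haveI := h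
      exact Or.inl (Group.isSolvable_of_isSolvable_injective (Subgroup.inclusion_injective hNK))
  · have h2 := (CfsgLib.GroupB.Coprime.conj_mem_iff (Subgroup.inv_mem _ (hNnormal hk))).mpr (hfix a ha)
    simpa [mul_assoc] using h2

end Cfsg.Agent.S0022
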