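import Cfsg.Statements.S0030
import Cfsg.Agent.Lib.Solvable.HallBasic

set_option autoImplicit false
open Cfsg

namespace Cfsg.Agent.S0030

/-- Under coprime action fixed points of a product of two invariant subgroups factor: if K = X Y with X and Y normalised by A then every A-fixed element of K is a product of an A-fixed element of X and an A-fixed element of Y. -/
theorem result {G : Type*} [Group G] [Finite G] (A K : Subgroup G) (hAK : A ≤ Subgroup.normalizer (K : Set G))
    (hcop : (Nat.card A).Coprime (Nat.card K)) (hsolv : Group.IsSolvable A ∨ Group.IsSolvable K)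
    (X Y : Subgroup G) (hX : X ≤ K) (hY : Y ≤ K) (hXA : A ≤ Subgroup.normalizer (X : Set G)) (hYA : A ≤ Subgroup.normalizer (Y : Set G))
    (hXY : ∀ k ∈ K, ∃ x ∈ X, ∃ y ∈ Y, k = x * y) (k : G) (hk : k ∈ K ⊓ Subgroup.centralizer (A : Set G)) :
    ∃ x ∈ X ⊓ Subgroup.centralizer (A : Set G), ∃ y ∈ Y ⊓ Subgroup.centralizer (A : Set G), k = x * y := by
  have hN : A ≤ Subgroup.normalizer ((X ⊓ Y : Subgroup G) : Set G) :=
    CfsgLib.GroupB.Coprime.le_normalizer_of_conj_mem fun a ha z hz =>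
      ⟨(CfsgLib.GroupB.Coprime.conj_mem_iff (hXA ha)).mpr hz.1,
        (CfsgLib.GroupB.Coprime.conj_mem_iff (hYA ha)).mpr hz.2⟩
  obtain ⟨x, hx, y, hy, rfl⟩ := hXY k hk.1
  have hdvd : ∀ Z : Subgroup G, Z ≤ K → (Nat.card A).Coprime (Nat.card Z) := fun Z hZ =>
    hcop.coprime_dvd_right (Subgroup.card_dvd_of_le hZ)
  have hs : Group.IsSolvable (X ⊓ Y : Subgroup G) ∨ Group.IsSolvable A := by
    rcases hsolv with h | h
    · exact Or.inr h
    · haveI := h
      exact Or.inl (Group.isSolvable_of_isSolvable_injective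
        (Subgroup.inclusion_injective (inf_le_left.trans hX)))
  obtain ⟨c, hc, hcN⟩ := CfsgLib.GroupB.Coprime.exists_fixed_of_coset hN
    (hdvd _ (inf_le_left.trans hX)) hs hXA (hdvd X hX) inf_le_left hx fun a ha => by
      refine ⟨?_, ?_⟩
      · have := X.mul_mem (X.inv_mem hx) ((CfsgLib.GroupB.Coprime.conj_mem_iff (hXA ha)).mpr hx)
        simpa [mul_assoc] using this
      · have hk2 : a * (x * y) = x * y * a := Subgroup.mem_centralizer_iff.mp hk.2 a ha
        have e : x⁻¹ * a * x * a⁻¹ = y * (a * y * a⁻¹)⁻¹ := by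
          calc x⁻¹ * a * x * a⁻¹ = x⁻¹ * (a * (x * y)) * y⁻¹ * a⁻¹ := by group
            _ = _ := by rw [hk2]; group
        rw [e]
        exact Y.mul_mem hy (Y.inv_mem ((CfsgLib.GroupB.Coprime.conj_mem_iff (hYA ha)).mpr hy))
  refine ⟨c, hc, c⁻¹ * (x * y), ⟨?_, Subgroup.mul_mem _ (Subgroup.inv_mem _ hc.2) hk.2⟩, by group⟩
  have := Y.mul_mem (Y.inv_mem hcN.2) hy
  simpa [mul_assoc] using this

end Cfsg.Agent.S0030
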