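import Cfsg.Statements.S0031

set_option autoImplicit false
open Cfsg

namespace Cfsg.Agent.S0031

/-- A fixed-point-free automorphism of a finite group maps some Sylow p-subgroup to itself. -/
theorem result {G : Type*} [Group G] [Finite G] (φ : G ≃* G)
    (hφ : MonoidHom.FixedPointFree (φ : G →* G)) (p : ℕ) [Fact p.Prime] :
    ∃ P : Sylow p G, (P : Subgroup G).map (φ : G →* G) = P := by
  obtain ⟨P⟩ := (inferInstance : Nonempty (Sylow p G))
  have hs : Function.Surjective (φ : G →* G) := φ.surjective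
  obtain ⟨g, hg⟩ := MulAction.exists_smul_eq G (P.mapSurjective hs) P
  obtain ⟨a, ha⟩ := MonoidHom.FixedPointFree.commutatorMap_surjective hφ g
  have ha' : a / φ a = g := ha
  refine ⟨a⁻¹ • P, ?_⟩
  have hg' : (P : Subgroup G) = (P : Subgroup G).map ((MulAut.conj g).toMonoidHom.comp (φ : G →* G)) := by
    rw [← Subgroup.map_map]
    exact (congrArg (fun Q : Sylow p G => (Q : Subgroup G)) hg).symm
  have h1 : ((a⁻¹ • P : Sylow p G) : Subgroup G) = (P : Subgroup G).map (MulAut.conj a⁻¹).toMonoidHom := rfl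
  rw [h1, Subgroup.map_map]
  conv_rhs => rw [hg', Subgroup.map_map]
  congr 1
  ext x
  simp [← ha', div_eq_mul_inv, mul_assoc]

end Cfsg.Agent.S0031
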