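import Cfsg.Statements.S0032

set_option autoImplicit false
open Cfsg

namespace Cfsg.Agent.S0032

/-- If an automorphism of a finite group fixes only the identity and maps a normal subgroup N into itself, then the only cosets of N it fixes are those in N: a fixed coset xN forces x ∈ N. -/
theorem result {G : Type*} [Group G] [Finite G] (φ : G ≃* G)
    (hφ : MonoidHom.FixedPointFree (φ : G →* G)) (N : Subgroup G) [N.Normal] (hN : ∀ n ∈ N, φ n ∈ N)
    (x : G) (hx : (φ x)⁻¹ * x ∈ N) : x ∈ N := by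
  let ψ : N → N := fun n => ⟨(φ n)⁻¹ * n, N.mul_mem (N.inv_mem (hN n n.2)) n.2⟩
  have hinj : Function.Injective ψ := by
    intro a b h
    have h' : (φ a)⁻¹ * (a : G) = (φ b)⁻¹ * b := congrArg Subtype.val h
    have h2 : φ ((b : G) * (a : G)⁻¹) = b * (a : G)⁻¹ := by
      rw [map_mul, map_inv]
      calc φ (b : G) * (φ a)⁻¹ = φ (b : G) * ((φ a)⁻¹ * a) * (a : G)⁻¹ := by group
        _ = b * (a : G)⁻¹ := by rw [h']; group
    have := hφ _ h2
    exact Subtype.ext (mul_inv_eq_one.mp this).symm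
  obtain ⟨n, hn⟩ := (Finite.injective_iff_surjective.mp hinj) ⟨_, hx⟩
  have hn' : (φ n)⁻¹ * (n : G) = (φ x)⁻¹ * x := congrArg Subtype.val hn
  have h2 : φ (x * (n : G)⁻¹) = x * (n : G)⁻¹ := by
    rw [map_mul, map_inv]
    calc φ x * (φ n)⁻¹ = φ x * ((φ n)⁻¹ * n) * (n : G)⁻¹ := by group
      _ = x * (n : G)⁻¹ := by rw [hn']; group
  have h3 := hφ _ h2
  rw [mul_inv_eq_one.mp h3]; exact n.2

end Cfsg.Agent.S0032
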