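import Cfsg.Statements.S0038
import Cfsg.Agent.Lib.GroupB.FrobBasic

set_option autoImplicit false
open Pointwise
open Cfsg

namespace Cfsg.Agent.S0038

/-- All Frobenius complements of a finite group are conjugate to one another. -/
theorem result {G : Type*} [Group G] [Finite G] (H H₀ : Subgroup G)
    (hH : Cfsg.IsFrobeniusComplement H) (hH₀ : Cfsg.IsFrobeniusComplement H₀) :
    ∃ g : G, MulAut.conj g • H₀ = H := by
  obtain ⟨g, hg⟩ := CfsgLib.GroupB.FrobBasic.exists_conj_le hH H₀ (CfsgLib.GroupB.FrobBasic.card_eq hH hH₀).dvd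
  have heq := Subgroup.eq_of_le_of_card_ge hg (by
    rw [CfsgLib.GroupB.SchurZassenhaus.card_map_conj]; exact (CfsgLib.GroupB.FrobBasic.card_eq hH hH₀).ge)
  refine ⟨g, ?_⟩
  rw [← heq]
  ext l
  rw [CfsgLib.GroupB.Frobenius.mem_conj_smul_iff]
  constructor
  · intro h; exact ⟨_, h, by simp [mul_assoc]⟩
  · rintro ⟨y, hy, rfl⟩; simpa [mul_assoc] using hy

end Cfsg.Agent.S0038
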