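import Cfsg.Statements.S0039
import Cfsg.Agent.Lib.GroupB.FrobBasic

set_option autoImplicit false
open Cfsg

namespace Cfsg.Agent.S0039

/-- In a finite group that is a semidirect product of a normal subgroup K by a nontrivial subgroup H, H is a Frobenius complement exactly when each nonidentity element of H acts without nonidentity fixed points on K by conjugation. -/
theorem result {G : Type*} [Group G] [Finite G] (K H : Subgroup G) [K.Normal]
    (hc : Subgroup.IsComplement' K H) (hK : K ≠ ⊥) (hH : H ≠ ⊥) :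
    Cfsg.IsFrobeniusComplement H ↔ ∀ h ∈ H, h ≠ 1 → K ⊓ Subgroup.centralizer {h} = ⊥ := by
  constructor
  · intro hF h hh h1
    rw [eq_bot_iff]
    rintro v ⟨hv, hv'⟩
    exact Subgroup.mem_bot.mpr (CfsgLib.GroupB.Frobenius.eq_one_of_commute hF hc.disjoint.eq_bot hh h1 hv
      (Subgroup.mem_centralizer_singleton_iff.mp hv').symm)
  · intro h
    refine CfsgLib.GroupB.FrobBasic.isFrobeniusComplement_of_fpf K hc hK hH fun x hx hx1 v hv hcomm => ?_
    exact (Subgroup.mem_bot.mp (h x hx hx1 ▸ ⟨hv, Subgroup.mem_centralizer_singleton_iff.mpr hcomm.symm⟩ : v ∈ (⊥ : Subgroup G)))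

end Cfsg.Agent.S0039
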