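import Cfsg.Statements.S0040
import Cfsg.Agent.Lib.Solvable.Fpf
import Cfsg.Agent.Lib.UniqueOrderP

set_option autoImplicit false
open Cfsg

namespace Cfsg.Agent.S0040

/-- Sylow subgroups of Frobenius complements: if H complements a nontrivial normal subgroup K and every nonidentity element of H has trivial centraliser in K, then each Sylow subgroup of H is cyclic or isomorphic to a generalized quaternion group. -/
theorem result {G : Type*} [Group G] [Finite G] (K H : Subgroup G) [K.Normal]
    (hc : Subgroup.IsComplement' K H) (hK : K ≠ ⊥) (hfpf : ∀ h ∈ H, h ≠ 1 → K ⊓ Subgroup.centralizer {h} = ⊥)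
    (p : ℕ) [Fact p.Prime] (P : Sylow p H) :
    IsCyclic P ∨ ∃ n : ℕ, Nonempty (P ≃* QuaternionGroup (2 ^ n)) := by
  classical
  have hP := P.2
  by_cases hnt : Nontrivial (P : Subgroup H)
  swap
  · rw [not_nontrivial_iff_subsingleton] at hnt
    exact Or.inl inferInstance
  haveI := hP.center_nontrivial
  obtain ⟨z₀, hz₀⟩ : ∃ z : Subgroup.center (P : Subgroup H), orderOf z = p := by
    obtain ⟨k, hk⟩ := IsPGroup.iff_card.mp (hP.to_subgroup (Subgroup.center _))
    refine exists_prime_orderOf_dvd_card' p ?_
    rw [hk]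
    exact dvd_pow_self p (fun e => by simpa [hk, e] using Finite.one_lt_card (α := Subgroup.center (P : Subgroup H)))
  set z : (P : Subgroup H) := z₀.1 with hz
  have hzo : orderOf z = p := by rw [hz, Subgroup.orderOf_coe, hz₀]
  have hu : CfsgLib.UniqueOrderP.Uniq p (P : Subgroup H) := by
    intro x y hx hy
    have key : ∀ w : (P : Subgroup H), orderOf w = p → Subgroup.zpowers w = Subgroup.zpowers z := by
      intro w hw
      let f : (P : Subgroup H) →* G := H.subtype.comp (P : Subgroup H).subtype
      have hf : Function.Injective f := H.subtype_injective.comp (P : Subgroup H).subtype_injective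
      set A₀ := Subgroup.zpowers z ⊔ Subgroup.zpowers w with hA₀
      have hzw : Commute z w := (Subgroup.mem_center_iff.mp z₀.2 w).symm
      have hzp : z ^ p = 1 := orderOf_dvd_iff_pow_eq_one.mp (dvd_of_eq hzo)
      have hwp : w ^ p = 1 := orderOf_dvd_iff_pow_eq_one.mp (dvd_of_eq hw)
      have hel : Cfsg.IsElementaryAbelian p A₀ := by
        refine CfsgLib.PLocal.el_sup (CfsgLib.PLocal.el_zpowers hzp)
          (CfsgLib.PLocal.el_zpowers hwp) ?_
        rintro _ ⟨i, rfl⟩ _ ⟨j, rfl⟩
        exact (hzw.zpow_zpow i j).eq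
      have hA : IsMulCommutative (A₀.map f) := by
        haveI := hel.1
        infer_instance
      have hle : A₀.map f ≤ H := by
        rintro _ ⟨a, -, rfl⟩; exact (a.1).2
      haveI hc' : IsCyclic (A₀.map f) := CfsgLib.Solvable.Fpf.isCyclic hA hK
        ((Subgroup.normalizer_eq_top (H := K)) ▸ le_top) fun a ha ha1 => hfpf a (hle ha) ha1
      haveI : IsCyclic A₀ := isCyclic_of_surjective (A₀.equivMapOfInjective f hf).symm (MulEquiv.surjective _)
      have hcard : Nat.card A₀ ≤ p := by
        obtain ⟨⟨g, hg⟩, hgen⟩ := IsCyclic.exists_generator (α := A₀)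
        rw [← orderOf_eq_card_of_forall_mem_zpowers hgen, ← Subgroup.orderOf_coe]
        exact Nat.le_of_dvd (Fact.out : p.Prime).pos (orderOf_dvd_of_pow_eq_one (hel.2 g hg))
      have h1 : Subgroup.zpowers w = A₀ := Subgroup.eq_of_le_of_card_ge le_sup_right
        (by rw [Nat.card_zpowers, hw]; exact hcard)
      have h2 : Subgroup.zpowers z = A₀ := Subgroup.eq_of_le_of_card_ge le_sup_left
        (by rw [Nat.card_zpowers, hzo]; exact hcard)
      rw [h1, h2]
    rw [key x hx, ← key y hy]
    exact Subgroup.mem_zpowers y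
  rcases CfsgLib.UniqueOrderP.cyclic_or_quaternion hP hu with h | ⟨-, h⟩
  · exact Or.inl h
  · exact Or.inr h

end Cfsg.Agent.S0040
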