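import Cfsg.Statements.S0041
import Cfsg.Agent.Lib.GroupB.FpfPQ

set_option autoImplicit false
open Cfsg

namespace Cfsg.Agent.S0041

theorem aux {G : Type*} [Group G] [Finite G] (A V : Subgroup G) [IsMulCommutative V]
    (hV : V ≠ ⊥) (hAV : A ≤ Subgroup.normalizer (V : Set G)) (hfpf : ∀ a ∈ A, a ≠ 1 → V ⊓ Subgroup.centralizer {a} = ⊥)
    {p q : ℕ} (hp : p.Prime) (hq : q.Prime) (hpq : p < q) (hcard : Nat.card A = p * q) : IsCyclic A := by
  haveI := Fact.mk hp
  haveI := Fact.mk hq
  obtain ⟨x, hx⟩ := exists_prime_orderOf_dvd_card' (G := A) q (hcard ▸ dvd_mul_left q p)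
  obtain ⟨y, hy⟩ := exists_prime_orderOf_dvd_card' (G := A) p (hcard ▸ dvd_mul_right p q)
  have hidx : (Subgroup.zpowers x).index = p := by
    have h := Subgroup.card_mul_index (Subgroup.zpowers x)
    rw [Nat.card_zpowers, hx, hcard, mul_comm p q] at h
    exact Nat.eq_of_mul_eq_mul_left hq.pos h
  have hmin : (Nat.card A).minFac = p := by
    have h1 := Nat.minFac_prime (n := Nat.card A) (by rw [hcard]; nlinarith [hp.two_le, hq.two_le])
    have h2 := Nat.minFac_le_of_dvd hp.two_le (hcard ▸ dvd_mul_right p q : p ∣ Nat.card A)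
    rcases (Nat.Prime.dvd_mul h1).mp (show (Nat.card A).minFac ∣ p * q from (Nat.minFac_dvd (Nat.card A)).trans hcard.dvd) with h | h
    · exact (Nat.prime_dvd_prime_iff_eq h1 hp).mp h
    · rw [(Nat.prime_dvd_prime_iff_eq h1 hq).mp h] at h2; omega
  haveI := Subgroup.normal_of_index_eq_minFac_card (H := Subgroup.zpowers x) (hidx.trans hmin.symm)
  have hc : Commute (x : G) y := CfsgLib.GroupB.FpfPQ.commute inferInstance hV hAV hfpf x.2 y.2
    (by rwa [Subgroup.orderOf_coe, hx]) (by rwa [Subgroup.orderOf_coe, hy]) (by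
      rintro u ⟨k, rfl⟩
      obtain ⟨l, hl⟩ := Subgroup.Normal.conj_mem inferInstance _ (Subgroup.zpow_mem_zpowers x k) y
      exact ⟨l, by simpa using congrArg Subtype.val hl⟩)
  have hc' : Commute x y := Subtype.ext hc.eq
  refine isCyclic_of_orderOf_eq_card (x * y) ?_
  rw [hc'.orderOf_mul_eq_mul_orderOf_of_coprime (by rw [hx, hy]; exact (Nat.coprime_primes hq hp).mpr (by omega)),
    hx, hy, hcard, mul_comm]

/-- A group acting on a nontrivial abelian group so that no nonidentity element has a nonidentity fixed point is cyclic, provided it is abelian or its order is a product of two (possibly equal) primes. -/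
theorem result {G : Type*} [Group G] [Finite G] (A V : Subgroup G) [IsMulCommutative V]
    (hV : V ≠ ⊥) (hAV : A ≤ Subgroup.normalizer (V : Set G)) (hfpf : ∀ a ∈ A, a ≠ 1 → V ⊓ Subgroup.centralizer {a} = ⊥)
    (hA : IsMulCommutative A ∨ ∃ p q : ℕ, p.Prime ∧ q.Prime ∧ Nat.card A = p * q) : IsCyclic A := by
  have hAbel : IsMulCommutative A → IsCyclic A := fun h => CfsgLib.Solvable.Fpf.isCyclic h hV hAV hfpf
  rcases hA with h | ⟨p, q, hp, hq, hcard⟩
  · exact hAbel h
  rcases lt_trichotomy p q with h | h | h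
  · exact aux A V hV hAV hfpf hp hq h hcard
  · subst h
    haveI := Fact.mk hp
    refine hAbel ⟨⟨fun a b => ?_⟩⟩
    exact IsPGroup.commutative_of_card_eq_prime_sq (by rw [hcard, sq]) a b
  · exact aux A V hV hAV hfpf hq hp h (by rw [hcard, mul_comm])

end Cfsg.Agent.S0041
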