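import Cfsg.Statements.S0043
import Cfsg.Agent.Lib.Solvable.Basics

set_option autoImplicit false
open Cfsg

namespace Cfsg.Agent.S0043

/-- A minimal normal subgroup of a finite solvable group is abelian, and for some prime p all of its elements have order dividing p. -/
theorem result {G : Type*} [Group G] [Finite G] [Group.IsSolvable G]
    (N : Subgroup G) [N.Normal] (hN : N ≠ ⊥) (hmin : ∀ M : Subgroup G, M.Normal → M ≤ N → M = ⊥ ∨ M = N) :
    IsMulCommutative N ∧ ∃ p : ℕ, p.Prime ∧ ∀ x ∈ N, x ^ p = 1 := by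
  obtain ⟨hab, p, d, hp, -, hcard⟩ := CfsgLib.PLocal.minNormal_solvable N hN hmin
  haveI hc : IsMulCommutative N := ⟨⟨fun a b => Subtype.ext (hab a a.2 b b.2)⟩⟩
  refine ⟨hc, p, hp, ?_⟩
  haveI := Fact.mk hp
  obtain ⟨y, hy⟩ : ∃ y : N, orderOf y = p := by
    refine exists_prime_orderOf_dvd_card' p ?_
    rw [hcard]; exact dvd_pow_self p (by
      rintro rfl
      exact hN (Subgroup.card_eq_one.mp (by rw [hcard, pow_zero])))
  let K : Subgroup G :=
    { carrier := {x | x ∈ N ∧ x ^ p = 1}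
      one_mem' := ⟨one_mem _, one_pow _⟩
      mul_mem' := fun {a b} ha hb => ⟨mul_mem ha.1 hb.1, by
        rw [Commute.mul_pow (hab a ha.1 b hb.1), ha.2, hb.2, one_mul]⟩
      inv_mem' := fun {a} ha => ⟨inv_mem ha.1, by rw [inv_pow, ha.2, inv_one]⟩ }
  have hKn : K.Normal := ⟨fun a ha g => ⟨Subgroup.Normal.conj_mem inferInstance a ha.1 g, by
    rw [conj_pow, ha.2, mul_one, mul_inv_cancel]⟩⟩
  rcases hmin K hKn (fun x hx => hx.1) with h | h
  · exfalso
    have h1 : (y : G) ∈ K := ⟨y.2, by rw [← hy, ← Subgroup.orderOf_coe, pow_orderOf_eq_one]⟩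
    rw [h, Subgroup.mem_bot, ← Subgroup.coe_one, Subtype.coe_inj] at h1
    rw [h1, orderOf_one] at hy
    exact hp.ne_one hy.symm
  · exact fun x hx => (h.ge hx).2

end Cfsg.Agent.S0043
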