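import Cfsg.Statements.S0046
import Cfsg.Prelude.Def_Solvable
import Cfsg.Agent.Lib.GroupB.FrobBasic
import Cfsg.Agent.Lib.GroupB.Coprime

set_option autoImplicit false
open Cfsg

namespace Cfsg.Agent.S0046

open scoped Pointwise

theorem aux (n : ℕ) : ∀ {G : Type*} [Group G] [Finite G], Nat.card G ≤ n →
    (∀ M : Subgroup G, IsCoatom M → Group.IsNilpotent M) → Group.IsSolvable G := by
  induction n with
  | zero => intro G _ _ h _; exact absurd h (by simpa using (Nat.card_pos (α := G)).ne')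
  | succ n ih =>
  intro G _ _ hn h
  have hproper : ∀ H : Subgroup G, H ≠ ⊤ → Group.IsNilpotent H := by
    intro H hH
    obtain ⟨M, hM, hle⟩ := (eq_top_or_exists_le_coatom H).resolve_left hH
    haveI := h M hM
    exact Group.nilpotent_of_mulEquiv (Subgroup.subgroupOfEquivOfLe hle)
  rcases subsingleton_or_nontrivial G with hs | hnt
  · exact Group.isSolvable_of_comm fun a b => Subsingleton.elim _ _
  by_cases hsimple : ∃ N : Subgroup G, N.Normal ∧ N ≠ ⊥ ∧ N ≠ ⊤
  · obtain ⟨N, hN, hb, ht⟩ := hsimple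
    haveI := hN
    haveI := hproper N ht
    haveI : Group.IsSolvable (G ⧸ N) := by
      refine ih ?_ fun M hM => ?_
      · have h1 := Subgroup.card_eq_card_quotient_mul_card_subgroup N
        have h2 : 1 < Nat.card N := by
          rcases Nat.lt_or_ge 1 (Nat.card N) with h | h
          · exact h
          · exact absurd (Subgroup.card_eq_one.mp (le_antisymm h Nat.card_pos)) hb
        have h3 : Nat.card (G ⧸ N) * 2 ≤ Nat.card G := h1 ▸ Nat.mul_le_mul_left _ h2
        have := (Nat.card_pos (α := G ⧸ N))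
        omega
      · have hne : M.comap (QuotientGroup.mk' N) ≠ ⊤ := fun he => hM.1 (by
          rw [← Subgroup.map_comap_eq_self_of_surjective (QuotientGroup.mk'_surjective N) M, he,
            Subgroup.map_top_of_surjective _ (QuotientGroup.mk'_surjective N)])
        haveI := hproper _ hne
        exact Group.nilpotent_of_surjective ((QuotientGroup.mk' N).subgroupComap M)
          (MonoidHom.subgroupComap_surjective_of_surjective _ _ (QuotientGroup.mk'_surjective N))
    exact Group.isSolvable_of_ker_le_range N.subtype (QuotientGroup.mk' N) (by simp)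
  push Not at hsimple
  obtain ⟨M, hM⟩ : ∃ M : Subgroup G, IsCoatom M := by
    obtain ⟨M, hM, -⟩ := (eq_top_or_exists_le_coatom (⊥ : Subgroup G)).resolve_left bot_ne_top
    exact ⟨M, hM⟩
  by_cases hMb : M = ⊥
  · obtain ⟨g, hg⟩ := exists_ne (1 : G)
    have htop : Subgroup.zpowers g = ⊤ := hM.2 _ (hMb ▸ bot_lt_iff_ne_bot.mpr (by rwa [Ne, Subgroup.zpowers_eq_bot]))
    refine Group.isSolvable_of_comm fun a b => ?_
    obtain ⟨i, rfl⟩ := Subgroup.mem_zpowers_iff.mp (htop ▸ Subgroup.mem_top a)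
    obtain ⟨j, rfl⟩ := Subgroup.mem_zpowers_iff.mp (htop ▸ Subgroup.mem_top b)
    exact ((Commute.refl g).zpow_zpow i j).eq
  -- distinct maximal subgroups meet trivially
  have hTI : ∀ A B : Subgroup G, IsCoatom A → IsCoatom B → A ≠ B → A ⊓ B = ⊥ := by
    by_contra hc
    push Not at hc
    obtain ⟨A, B, hA, hB, hAB, hne⟩ := hc
    let S : Set (Subgroup G) := {D | ∃ A B : Subgroup G, IsCoatom A ∧ IsCoatom B ∧ A ≠ B ∧ D = A ⊓ B}
    obtain ⟨D, hAD, hD⟩ := Finite.exists_le_maximal (p := fun D => D ∈ S) ⟨A, B, hA, hB, hAB, rfl⟩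
    obtain ⟨⟨A', B', hA', hB', hAB', rfl⟩, hmax⟩ := hD
    have hD0 : A' ⊓ B' ≠ ⊥ := fun h0 => hne (le_bot_iff.mp (hAD.trans h0.le))
    have hgrow : ∀ M : Subgroup G, IsCoatom M → A' ⊓ B' < M →
        ∃ x ∈ M, x ∉ A' ⊓ B' ∧ x ∈ Subgroup.normalizer ((A' ⊓ B' : Subgroup G) : Set G) := by
      intro M hM hlt
      haveI := h M hM
      have h1 : (A' ⊓ B').subgroupOf M < ⊤ := lt_top_iff_ne_top.mpr fun h => hlt.not_ge (Subgroup.subgroupOf_eq_top.mp h)
      obtain ⟨x, hx1, hx2⟩ := SetLike.exists_of_lt (normalizerCondition_of_isNilpotent _ h1)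
      refine ⟨x, x.2, hx2, Subgroup.mem_normalizer_iff.mpr fun y => ⟨fun hy => ?_, fun hy => ?_⟩⟩
      · exact (Subgroup.mem_normalizer_iff.mp hx1 ⟨y, hlt.le hy⟩).mp hy
      · have hyM : y ∈ M := by
          have := M.mul_mem (M.mul_mem (M.inv_mem x.2) (hlt.le hy)) x.2
          simpa [mul_assoc] using this
        exact (Subgroup.mem_normalizer_iff.mp hx1 ⟨y, hyM⟩).mpr hy
    have hNne : Subgroup.normalizer ((A' ⊓ B' : Subgroup G) : Set G) ≠ ⊤ := by
      intro ht
      haveI := Subgroup.normalizer_eq_top_iff.mp ht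
      exact hA'.1 (top_unique ((hsimple (A' ⊓ B') this hD0).symm.le.trans inf_le_left))
    obtain ⟨L, hL, hNL⟩ := (eq_top_or_exists_le_coatom _).resolve_left hNne
    have hkey : ∀ M : Subgroup G, IsCoatom M → A' ⊓ B' < M → L = M := by
      intro M hM hlt
      by_contra hLM
      obtain ⟨x, hxM, hxD, hxN⟩ := hgrow M hM hlt
      have hle : A' ⊓ B' ≤ L ⊓ M := le_inf (Subgroup.le_normalizer.trans hNL) hlt.le
      exact hxD (hmax ⟨L, M, hL, hM, hLM, rfl⟩ hle ⟨hNL hxN, hxM⟩)
    have a1 : A' ⊓ B' < A' := lt_of_le_not_ge inf_le_left fun hle => hAB' ((hA'.le_iff.mp (hle.trans inf_le_right)).resolve_left hB'.1).symm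
    have b1 : A' ⊓ B' < B' := lt_of_le_not_ge inf_le_right fun hle => hAB' ((hB'.le_iff.mp (hle.trans inf_le_left)).resolve_left hA'.1)
    exact hAB' ((hkey A' hA' a1).symm.trans (hkey B' hB' b1))
  have hnn : ¬ M.Normal := fun hn' => hM.1 (hsimple M hn' hMb)
  have hF : Cfsg.IsFrobeniusComplement M := by
    refine ⟨hMb, hM.1, fun g hg => ?_⟩
    have hco : IsCoatom (MulAut.conj g • M) :=
      (OrderIso.isCoatom_iff ((MulAut.conj g).mapSubgroup) M).mpr hM
    refine hTI M _ hM hco fun he => ?_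
    have hgN : g ∈ Subgroup.normalizer (M : Set G) := by
      refine CfsgLib.GroupB.Coprime.mem_normalizer_iff_map_conj_eq.mpr ?_
      exact he.symm
    rcases hM.le_iff.mp (Subgroup.le_normalizer (H := M)) with h' | h'
    · exact hnn (Subgroup.normalizer_eq_top_iff.mp h')
    · exact hg (h'.le hgN)
  obtain ⟨N, -, hN, hc⟩ := CfsgLib.GroupB.Frobenius.exists_kernel_subgroup hF
  exact absurd (hsimple N hN (CfsgLib.GroupB.FrobBasic.kernel_ne_bot hF hc)) fun he => hMb (by
    have := hc.disjoint.eq_bot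
    rwa [he, top_inf_eq] at this)

/-- Schmidt's Theorem on minimal non-nilpotent groups: a finite group in which every maximal subgroup is nilpotent is solvable. -/
theorem result {G : Type*} [Group G] [Finite G]
    (h : ∀ M : Subgroup G, IsCoatom M → Group.IsNilpotent M) : Group.IsSolvable G := by
  exact aux _ le_rfl h

end Cfsg.Agent.S0046
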