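import Cfsg.Statements.S0047
import Cfsg.Agent.Lib.Solvable.Basics

set_option autoImplicit false
open Cfsg
open scoped commutatorElement

namespace Cfsg.Agent.S0047

/-- A finite group which is the product AB of two abelian subgroups A and B is solvable. -/
theorem result {G : Type*} [Group G] [Finite G] (A B : Subgroup G)
    [IsMulCommutative A] [IsMulCommutative B] (hAB : ∀ g : G, ∃ a ∈ A, ∃ b ∈ B, g = a * b) :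
    Group.IsSolvable G := by
  have hBA : ∀ g : G, ∃ b ∈ B, ∃ a ∈ A, g = b * a := fun g => by
    obtain ⟨a, ha, b, hb, e⟩ := hAB g⁻¹
    exact ⟨b⁻¹, inv_mem hb, a⁻¹, inv_mem ha, by rw [← mul_inv_rev, ← e, inv_inv]⟩
  have hAc : ∀ a ∈ A, ∀ a' ∈ A, Commute a a' := fun a ha a' ha' =>
    congrArg Subtype.val (mul_comm' (⟨a, ha⟩ : A) ⟨a', ha'⟩)
  have hBc : ∀ b ∈ B, ∀ b' ∈ B, Commute b b' := fun b hb b' hb' =>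
    congrArg Subtype.val (mul_comm' (⟨b, hb⟩ : B) ⟨b', hb'⟩)
  set T : Set G := {x | ∃ a ∈ A, ∃ b ∈ B, x = ⁅a, b⁆} with hT
  have e1 : ∀ a a1 b b2 a2 : G, Commute a a1 → Commute a a2 → a1 * b * a1⁻¹ = b2 * a2 →
      a1 * ⁅a, b⁆ * a1⁻¹ = ⁅a, b2⁆ := by
    intro a a1 b b2 a2 h1 h2 hb
    calc a1 * ⁅a, b⁆ * a1⁻¹ = ⁅a1 * a * a1⁻¹, a1 * b * a1⁻¹⁆ := conjugate_commutatorElement ..
      _ = ⁅a, b2 * a2⁆ := by rw [← h1.eq, mul_inv_cancel_right, hb]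
      _ = ⁅a, b2⁆ * b2 * ⁅a, a2⁆ * b2⁻¹ := by simp only [commutatorElement_def]; group
      _ = ⁅a, b2⁆ := by
        rw [commutatorElement_eq_one_iff_mul_comm.mpr h2.eq, mul_one, mul_inv_cancel_right]
  have e2 : ∀ a b b1 a4 b4 : G, Commute b b1 → Commute b4 b → b1 * a * b1⁻¹ = a4 * b4 →
      b1 * ⁅a, b⁆ * b1⁻¹ = ⁅a4, b⁆ := by
    intro a b b1 a4 b4 h1 h2 ha
    calc b1 * ⁅a, b⁆ * b1⁻¹ = ⁅b1 * a * b1⁻¹, b1 * b * b1⁻¹⁆ := conjugate_commutatorElement ..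
      _ = ⁅a4 * b4, b⁆ := by rw [← h1.eq, mul_inv_cancel_right, ha]
      _ = a4 * ⁅b4, b⁆ * a4⁻¹ * ⁅a4, b⁆ := by simp only [commutatorElement_def]; group
      _ = ⁅a4, b⁆ := by
        rw [commutatorElement_eq_one_iff_mul_comm.mpr h2.eq, mul_one, mul_inv_cancel, one_mul]
  have hA' : ∀ a1 ∈ A, ∀ x ∈ T, a1 * x * a1⁻¹ ∈ T := by
    rintro a1 ha1 _ ⟨a, ha, b, hb, rfl⟩
    obtain ⟨b2, hb2, a2, ha2, hb'⟩ := hBA (a1 * b * a1⁻¹)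
    exact ⟨a, ha, b2, hb2, e1 a a1 b b2 a2 (hAc a ha a1 ha1) (hAc a ha a2 ha2) hb'⟩
  have hB' : ∀ b1 ∈ B, ∀ x ∈ T, b1 * x * b1⁻¹ ∈ T := by
    rintro b1 hb1 _ ⟨a, ha, b, hb, rfl⟩
    obtain ⟨a4, ha4, b4, hb4, ha'⟩ := hAB (b1 * a * b1⁻¹)
    exact ⟨a4, ha4, b, hb, e2 a b b1 a4 b4 (hBc b hb b1 hb1) (hBc b4 hb4 b hb) ha'⟩
  set D := Subgroup.closure T with hD
  have hDn : D.Normal := by
    refine ⟨fun x hx g => ?_⟩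
    obtain ⟨a, ha, b, hb, rfl⟩ := hAB g
    have key : ∀ h : G, (∀ x ∈ T, h * x * h⁻¹ ∈ T) → ∀ x ∈ D, h * x * h⁻¹ ∈ D := fun h hh x hx => by
      have h1 : D.map (MulAut.conj h).toMonoidHom ≤ D := by
        rw [hD, MonoidHom.map_closure, Subgroup.closure_le]
        rintro _ ⟨y, hy, rfl⟩
        exact Subgroup.subset_closure (hh y hy)
      exact h1 ⟨x, hx, rfl⟩
    rw [show a * b * x * (a * b)⁻¹ = a * (b * x * b⁻¹) * a⁻¹ by group]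
    exact key a (hA' a ha) _ (key b (hB' b hb) x hx)
  haveI hDc : IsMulCommutative D := by
    refine Subgroup.le_centralizer_iff_isMulCommutative.mp ?_
    rw [hD, Subgroup.centralizer_closure, Subgroup.closure_le]
    rintro _ ⟨a1, ha1, b1, hb1, rfl⟩
    rw [SetLike.mem_coe, Subgroup.mem_centralizer_iff]
    rintro _ ⟨a, ha, b, hb, rfl⟩
    obtain ⟨b2, hb2, a2, ha2, hb'⟩ := hBA (a1 * b * a1⁻¹)
    obtain ⟨a4, ha4, b4, hb4, ha'⟩ := hAB (b1 * a * b1⁻¹)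
    have p1 : a1 * b1 * ⁅a, b⁆ * (a1 * b1)⁻¹ = ⁅a4, b2⁆ := by
      rw [show a1 * b1 * ⁅a, b⁆ * (a1 * b1)⁻¹ = a1 * (b1 * ⁅a, b⁆ * b1⁻¹) * a1⁻¹ by group,
        e2 a b b1 a4 b4 (hBc b hb b1 hb1) (hBc b4 hb4 b hb) ha',
        e1 a4 a1 b b2 a2 (hAc a4 ha4 a1 ha1) (hAc a4 ha4 a2 ha2) hb']
    have p2 : b1 * a1 * ⁅a, b⁆ * (b1 * a1)⁻¹ = ⁅a4, b2⁆ := by
      rw [show b1 * a1 * ⁅a, b⁆ * (b1 * a1)⁻¹ = b1 * (a1 * ⁅a, b⁆ * a1⁻¹) * b1⁻¹ by group,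
        e1 a a1 b b2 a2 (hAc a ha a1 ha1) (hAc a ha a2 ha2) hb',
        e2 a b2 b1 a4 b4 (hBc b2 hb2 b1 hb1) (hBc b4 hb4 b2 hb2) ha']
    obtain ⟨b2', hb2', a2', ha2', hb''⟩ := hBA (a1⁻¹ * b * a1)
    obtain ⟨a4', ha4', b4', hb4', ha''⟩ := hAB (b1⁻¹ * a * b1)
    have q1 : a1⁻¹ * b1⁻¹ * ⁅a, b⁆ * (a1⁻¹ * b1⁻¹)⁻¹ = ⁅a4', b2'⁆ := by
      rw [show a1⁻¹ * b1⁻¹ * ⁅a, b⁆ * (a1⁻¹ * b1⁻¹)⁻¹
        = a1⁻¹ * (b1⁻¹ * ⁅a, b⁆ * b1⁻¹⁻¹) * a1⁻¹⁻¹ by group,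
        e2 a b b1⁻¹ a4' b4' (hBc b hb _ (inv_mem hb1)) (hBc b4' hb4' b hb) (by rw [inv_inv]; exact ha''),
        e1 a4' a1⁻¹ b b2' a2' (hAc a4' ha4' _ (inv_mem ha1)) (hAc a4' ha4' a2' ha2') (by rw [inv_inv]; exact hb'')]
    have q2 : b1⁻¹ * a1⁻¹ * ⁅a, b⁆ * (b1⁻¹ * a1⁻¹)⁻¹ = ⁅a4', b2'⁆ := by
      rw [show b1⁻¹ * a1⁻¹ * ⁅a, b⁆ * (b1⁻¹ * a1⁻¹)⁻¹
        = b1⁻¹ * (a1⁻¹ * ⁅a, b⁆ * a1⁻¹⁻¹) * b1⁻¹⁻¹ by group,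
        e1 a a1⁻¹ b b2' a2' (hAc a ha _ (inv_mem ha1)) (hAc a ha a2' ha2') (by rw [inv_inv]; exact hb''),
        e2 a b2' b1⁻¹ a4' b4' (hBc b2' hb2' _ (inv_mem hb1)) (hBc b4' hb4' b2' hb2') (by rw [inv_inv]; exact ha'')]
    have h : a1⁻¹ * b1⁻¹ * ⁅a, b⁆ * (a1⁻¹ * b1⁻¹)⁻¹ = b1⁻¹ * a1⁻¹ * ⁅a, b⁆ * (b1⁻¹ * a1⁻¹)⁻¹ :=
      q1.trans q2.symm
    calc ⁅a, b⁆ * ⁅a1, b1⁆ = (b1⁻¹ * a1⁻¹)⁻¹ * (b1⁻¹ * a1⁻¹ * ⁅a, b⁆ * (b1⁻¹ * a1⁻¹)⁻¹) * (a1⁻¹ * b1⁻¹) := by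
          rw [commutatorElement_def a1 b1]; group
      _ = ⁅a1, b1⁆ * ⁅a, b⁆ := by rw [← h, commutatorElement_def a1 b1]; group
  haveI := hDn
  haveI : Group.IsSolvable D := Group.isSolvable_of_comm fun a b => mul_comm' a b
  haveI : Group.IsSolvable (G ⧸ D) := by
    have h1 : ∀ a ∈ A, ∀ b ∈ B, (QuotientGroup.mk' D a) * QuotientGroup.mk' D b = QuotientGroup.mk' D b * QuotientGroup.mk' D a := by
      intro a ha b hb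
      rw [← commutatorElement_eq_one_iff_mul_comm, ← map_commutatorElement]
      exact (QuotientGroup.eq_one_iff _).mpr (Subgroup.subset_closure ⟨a, ha, b, hb, rfl⟩)
    refine Group.isSolvable_of_comm fun x y => ?_
    obtain ⟨g, rfl⟩ := QuotientGroup.mk'_surjective D x
    obtain ⟨h, rfl⟩ := QuotientGroup.mk'_surjective D y
    obtain ⟨a, ha, b, hb, rfl⟩ := hAB g
    obtain ⟨a', ha', b', hb', rfl⟩ := hAB h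
    rw [map_mul, map_mul]
    have c1 := ((hAc a ha a' ha').map (QuotientGroup.mk' D)).mul_right (h1 a ha b' hb' : Commute _ _)
    have c2 := (Commute.symm (h1 a' ha' b hb : Commute _ _)).mul_right ((hBc b hb b' hb').map (QuotientGroup.mk' D))
    exact (c1.mul_left c2).eq
  exact Group.isSolvable_of_ker_le_range D.subtype (QuotientGroup.mk' D) (by simp)

end Cfsg.Agent.S0047
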