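import Cfsg.Statements.S0049
import Cfsg.Agent.Lib.Solvable.Basics

set_option autoImplicit false
open Cfsg

namespace Cfsg.Agent.S0049

/-- A prime divisor of the order of a finite group also divides the index of the Frattini subgroup. -/
theorem result {G : Type*} [Group G] [Finite G] (p : ℕ) (hp : p.Prime) (hdvd : p ∣ Nat.card G) :
    p ∣ (frattini G).index := by
  haveI := Fact.mk hp
  by_contra hnd
  obtain ⟨P⟩ : Nonempty (Sylow p G) := inferInstance
  have hPle : (P : Subgroup G) ≤ frattini G := by
    intro x hx
    rw [← QuotientGroup.eq_one_iff]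
    obtain ⟨k, hk⟩ := P.2 ⟨x, hx⟩
    have hk' : x ^ p ^ k = 1 := congrArg Subtype.val hk
    refine orderOf_eq_one_iff.mp (Nat.eq_one_of_dvd_coprimes (a := p ^ k) (b := (frattini G).index)
      ((hp.coprime_iff_not_dvd.mpr hnd).pow_left k) ?_ ?_)
    · exact orderOf_dvd_of_pow_eq_one (by rw [← QuotientGroup.mk_pow, hk', QuotientGroup.mk_one])
    · exact orderOf_dvd_natCard _
  haveI : Group.IsNilpotent (frattini G) := frattini_nilpotent
  have hPn : (P : Subgroup G).Normal := by
    have hPk : (P : Subgroup G).subgroupOf (frattini G) = (P.subtype hPle : Subgroup (frattini G)) := rfl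
    haveI h1 : (P.subtype hPle : Subgroup (frattini G)).Normal :=
      ((Group.isNilpotent_of_finite_tfae (G := frattini G)).out 0 3 :
        Group.IsNilpotent (frattini G) ↔ ∀ (p : ℕ) (_hp : Fact p.Prime) (P : Sylow p (frattini G)),
          (P : Subgroup (frattini G)).Normal).mp inferInstance p ⟨hp⟩ _
    haveI := Sylow.characteristic_of_normal (P.subtype hPle) h1
    have h2 : (((P.subtype hPle : Subgroup (frattini G))).map (frattini G).subtype).Normal := inferInstance
    rwa [← hPk, Subgroup.subgroupOf_map_subtype, inf_eq_left.mpr hPle] at h2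
  haveI := hPn
  obtain ⟨H, hH⟩ := Subgroup.exists_right_complement'_of_coprime (N := (P : Subgroup G)) P.card_coprime_index
  have htop : H = ⊤ := frattini_nongenerating (top_le_iff.mp
    (hH.sup_eq_top.ge.trans (sup_le (hPle.trans le_sup_right) le_sup_left)))
  rw [htop, Subgroup.isComplement'_top_right] at hH
  exact absurd hdvd (fun h => by
    have h3 := P.card_eq_multiplicity
    rw [hH, Subgroup.card_bot] at h3
    have h4 : 0 < (Nat.card G).factorization p := hp.factorization_pos_of_dvd Nat.card_pos.ne' h
    exact absurd h3.symm (Nat.one_lt_pow h4.ne' hp.one_lt).ne')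

end Cfsg.Agent.S0049
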