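import Cfsg.Statements.S0050
import Cfsg.Agent.Lib.Solvable.HallBasic

set_option autoImplicit false
open Cfsg

namespace Cfsg.Agent.S0050

/-- Frattini argument for Hall subgroups: if L is a solvable normal subgroup and H a subgroup of L of order coprime to its index in L, then L together with the normaliser of H generates the whole group. -/
theorem result {G : Type*} [Group G] [Finite G] (L : Subgroup G) [L.Normal] (hL : Group.IsSolvable L)
    (H : Subgroup G) (hHL : H ≤ L) (hHall : (Nat.card H).Coprime (H.relIndex L)) :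
    L ⊔ Subgroup.normalizer (H : Set G) = ⊤ := by
  haveI := hL
  set π := CfsgLib.Solvable.HallBasic.primesOf (Nat.card H)
  rw [eq_top_iff]
  intro g _
  set Hg := H.map (MulAut.conj g).toMonoidHom
  have hHgL : Hg ≤ L := by
    rintro _ ⟨x, hx, rfl⟩
    exact (inferInstance : L.Normal).conj_mem x (hHL hx) g
  have hcard : Nat.card (L : Subgroup G) = Nat.card H * H.relIndex L := by
    rw [← Subgroup.relIndex_bot_left L, ← Subgroup.relIndex_mul_relIndex ⊥ H L bot_le hHL, Subgroup.relIndex_bot_left]
  obtain ⟨l, hl⟩ := CfsgLib.Solvable.HallBasic.exists_conj (G := L) hcard hHall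
    (Nat.card_congr (Subgroup.subgroupOfEquivOfLe hHgL).toEquiv |>.trans (CfsgLib.GroupB.SchurZassenhaus.card_map_conj g H))
    (Nat.card_congr (Subgroup.subgroupOfEquivOfLe hHL).toEquiv)
  have h2 := congrArg (Subgroup.map L.subtype) hl
  rw [CfsgLib.Solvable.HallBasic.smul_eq_map, Subgroup.map_map, show L.subtype.comp (MulAut.conj l).toMonoidHom =
      (MulAut.conj (l : G)).toMonoidHom.comp L.subtype from by ext; simp,
    ← Subgroup.map_map, Subgroup.subgroupOf_map_subtype, inf_eq_left.mpr hHgL,
    Subgroup.subgroupOf_map_subtype, inf_eq_left.mpr hHL, CfsgLib.GroupB.SchurZassenhaus.map_conj_map_conj] at h2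
  have hN : (l : G) * g ∈ Subgroup.normalizer (H : Set G) :=
    CfsgLib.GroupB.Coprime.mem_normalizer_iff_map_conj_eq.mpr h2
  rw [show g = (l : G)⁻¹ * ((l : G) * g) by group]
  exact Subgroup.mul_mem_sup (L.inv_mem l.2) hN

end Cfsg.Agent.S0050
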