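import Cfsg.Statements.S0051
import Mathlib
import Cfsg.Agent.Lib.GroupB.Gaschutz

set_option autoImplicit false
open Cfsg

namespace Cfsg.Agent.S0051

/-- Gaschütz's Theorem, existence: an abelian normal subgroup K that is complemented inside a subgroup U ≥ K whose index is coprime to the order of K is complemented in the whole group. -/
theorem result {G : Type*} [Group G] [Finite G] (K U : Subgroup G) [K.Normal] [IsMulCommutative K]
    (hKU : K ≤ U) (hcop : (Nat.card K).Coprime U.index)
    (A : Subgroup G) (hAU : A ≤ U) (hAK : A ⊓ K = ⊥) (hKA : K ⊔ A = U) :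
    ∃ H : Subgroup G, Subgroup.IsComplement' K H := by
  let S : CfsgLib.GroupB.Gaschutz.Setting G :=
    { K := K, U := U, A := A, normal := inferInstance
      comm := fun a ha b hb => congrArg Subtype.val ((inferInstance : IsMulCommutative K).is_comm.comm (⟨a, ha⟩ : K) ⟨b, hb⟩)
      hKU := hKU, hAU := hAU, disj := hAK
      gen := fun u hu => by
        obtain ⟨k, hk, a, ha, e⟩ := Subgroup.mem_sup_of_normal_left.mp (hKA.symm ▸ hu : u ∈ K ⊔ A)
        exact ⟨k, hk, a, ha, e⟩ }
  obtain ⟨H, hH, -⟩ := CfsgLib.GroupB.Gaschutz.exists_complement S hcop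
  exact ⟨H, hH⟩

end Cfsg.Agent.S0051
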