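import Cfsg.Statements.S0052
import Mathlib
import Cfsg.Agent.Lib.GroupB.Gaschutz

set_option autoImplicit false
open Pointwise
open Cfsg

namespace Cfsg.Agent.S0052

/-- Gaschütz's Theorem, conjugacy: for an abelian normal subgroup K ≤ U with the order of K coprime to the index of U, two complements of K in G having the same intersection with U are conjugate. -/
theorem result {G : Type*} [Group G] [Finite G] (K U : Subgroup G) [K.Normal] [IsMulCommutative K]
    (hKU : K ≤ U) (hcop : (Nat.card K).Coprime U.index)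
    (H₀ H₁ : Subgroup G) (h₀ : Subgroup.IsComplement' K H₀) (h₁ : Subgroup.IsComplement' K H₁) (hU : H₀ ⊓ U = H₁ ⊓ U) :
    ∃ g : G, MulAut.conj g • H₀ = H₁ := by
  classical
  let S : CfsgLib.GroupB.Gaschutz.Setting G :=
    { K := K, U := U, A := H₀ ⊓ U, normal := inferInstance
      comm := fun a ha b hb => congrArg Subtype.val ((inferInstance : IsMulCommutative K).is_comm.comm (⟨a, ha⟩ : K) ⟨b, hb⟩)
      hKU := hKU, hAU := inf_le_right
      disj := eq_bot_iff.mpr fun x hx => Subgroup.disjoint_def.mp h₀.disjoint hx.2 hx.1.1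
      gen := fun u hu => by
        obtain ⟨⟨⟨k, hk⟩, ⟨y, hy⟩⟩, hky⟩ := h₀.2 u
        have e : k * y = u := hky
        refine ⟨k, hk, y, ⟨hy, ?_⟩, e⟩
        have := U.mul_mem (U.inv_mem (hKU hk)) hu
        rwa [← e, inv_mul_cancel_left] at this }
  obtain ⟨e, he, hmem⟩ := CfsgLib.GroupB.Gaschutz.conj_of_complement S hcop H₀ H₁ h₀ h₁ le_rfl hU.ge
  refine ⟨e⁻¹, (Subgroup.eq_of_le_of_card_ge (fun h hh => ?_) (le_of_eq ?_)).symm⟩
  · exact ⟨e * h * e⁻¹, hmem h hh, show e⁻¹ * (e * h * e⁻¹) * e⁻¹⁻¹ = h by group⟩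
  · refine ((Nat.card_congr (Subgroup.equivMapOfInjective H₀ _ (MulAut.conj e⁻¹).injective).toEquiv).symm).trans ?_
    exact Nat.eq_of_mul_eq_mul_left (Nat.card_pos (α := K)) (h₀.card_mul.trans h₁.card_mul.symm)

end Cfsg.Agent.S0052
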