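import Cfsg.Statements.S0053
import Cfsg.Agent.Lib.Solvable.Basics

set_option autoImplicit false
open Cfsg

namespace Cfsg.Agent.S0053

/-- An abelian minimal normal subgroup N of a finite group is complemented exactly when N is not inside the Frattini subgroup. -/
theorem result {G : Type*} [Group G] [Finite G]
    (N : Subgroup G) [N.Normal] [IsMulCommutative N] (hN : N ≠ ⊥)
    (hmin : ∀ M : Subgroup G, M.Normal → M ≤ N → M = ⊥ ∨ M = N) :
    (∃ H : Subgroup G, Subgroup.IsComplement' N H) ↔ ¬ N ≤ frattini G := by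
  constructor
  · rintro ⟨H, hH⟩ hle
    have htop : H = ⊤ := frattini_nongenerating (top_le_iff.mp
      (hH.sup_eq_top.ge.trans (sup_le (hle.trans le_sup_right) le_sup_left)))
    rw [htop, Subgroup.isComplement'_top_right] at hH
    exact hN hH
  · intro hnle
    rw [CfsgLib.Solvable.le_frattini_iff] at hnle
    push Not at hnle
    obtain ⟨M, hM, hNM⟩ := hnle
    have hsup : N ⊔ M = ⊤ := hM.2 _ (lt_of_le_of_ne le_sup_right fun e => hNM (le_sup_left.trans e.ge))
    have hn : (N ⊓ M).Normal := by
      rw [← Subgroup.normalizer_eq_top_iff, eq_top_iff, ← hsup]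
      refine sup_le ?_ ?_
      · exact le_trans (fun a ha => Subgroup.mem_centralizer_iff.mpr fun x hx =>
          congrArg Subtype.val (mul_comm' (⟨x, hx.1⟩ : N) ⟨a, ha⟩)) (Subgroup.centralizer_le_normalizer _)
      · exact CfsgLib.GroupB.Coprime.le_normalizer_of_conj_mem fun m hm x hx =>
          ⟨Subgroup.Normal.conj_mem inferInstance x hx.1 m, M.mul_mem (M.mul_mem hm hx.2) (M.inv_mem hm)⟩
    rcases hmin _ hn inf_le_left with h | h
    · refine ⟨M, Subgroup.isComplement'_of_disjoint_and_mul_eq_univ (disjoint_iff.mpr h) ?_⟩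
      rw [← Subgroup.normal_mul, hsup, Subgroup.coe_top]
    · exact absurd (inf_eq_left.mp h) hNM

end Cfsg.Agent.S0053
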