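import Cfsg.Statements.S0054
import Cfsg.Agent.Lib.Solvable.Basics
import Mathlib.GroupTheory.GroupAction.MultipleTransitivity

set_option autoImplicit false
open Cfsg

namespace Cfsg.Agent.S0054

/-- A regular normal subgroup of a finite 2-transitive group is elementary abelian: it is commutative and all its elements have order dividing one prime. -/
theorem result {G : Type*} [Group G] [Finite G]
    {X : Type*} [Nonempty X] [MulAction G X] (h2 : MulAction.IsMultiplyPretransitive G X 2)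
    (N : Subgroup G) [N.Normal] (htrans : MulAction.IsPretransitive N X) (hreg : ∀ x : X, MulAction.stabilizer N x = ⊥) :
    IsMulCommutative N ∧ ∃ p : ℕ, p.Prime ∧ ∀ n ∈ N, n ^ p = 1 := by
  haveI := htrans
  obtain ⟨x⟩ := ‹Nonempty X›
  by_cases hN : ∀ n ∈ N, n = (1 : G)
  · refine ⟨⟨⟨fun a b => Subtype.ext (by rw [Subgroup.coe_mul, Subgroup.coe_mul, hN a a.2, hN b b.2])⟩⟩,
      2, Nat.prime_two, fun n hn => by rw [hN n hn, one_pow]⟩
  push Not at hN
  obtain ⟨n₀, hn₀, hn₀1⟩ := hN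
  have hinj : ∀ a b : N, (a : G) • x = (b : G) • x → a = b := fun a b h => by
    have h1 : (a⁻¹ * b : N) ∈ MulAction.stabilizer N x := by
      show ((a⁻¹ * b : N) : G) • x = x
      rw [Subgroup.coe_mul, Subgroup.coe_inv, mul_smul, ← h, inv_smul_smul]
    rw [hreg x, Subgroup.mem_bot] at h1
    exact inv_mul_eq_one.mp h1
  have hconj : ∀ a b : N, a ≠ 1 → b ≠ 1 → ∃ g : G, g * a * g⁻¹ = b := by
    intro a b ha hb
    have hne : ∀ c : N, c ≠ 1 → (c : G) • x ≠ x := fun c hc h => hc (hinj c 1 (by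
      rw [h, Subgroup.coe_one, one_smul]))
    obtain ⟨g, hg1, hg2⟩ := (MulAction.is_two_pretransitive_iff (G := G) (α := X)).mp h2 (hne a ha).symm (hne b hb).symm
    refine ⟨g, congrArg Subtype.val (hinj ⟨g * a * g⁻¹, Subgroup.Normal.conj_mem inferInstance _ a.2 g⟩ b ?_)⟩
    show (g * a * g⁻¹) • x = _
    rw [mul_smul, mul_smul, show g⁻¹ • x = x from inv_smul_eq_iff.mpr hg1.symm]
    exact hg2
  obtain ⟨p, hp, hd⟩ := Nat.exists_prime_and_dvd (n := orderOf n₀) (by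
    rw [Ne, orderOf_eq_one_iff]; exact hn₀1)
  haveI := Fact.mk hp
  obtain ⟨k, hk⟩ := hd
  set m : N := ⟨n₀ ^ k, Subgroup.pow_mem _ hn₀ k⟩ with hm
  have hmo : orderOf (m : G) = p := by
    have hkd : k ∣ orderOf n₀ := ⟨p, by rw [hk, mul_comm]⟩
    have hk0 : k ≠ 0 := by
      rintro rfl
      exact (orderOf_pos n₀).ne' (by rw [hk, mul_zero])
    rw [hm]
    show orderOf (n₀ ^ k) = p
    rw [orderOf_pow_of_dvd hk0 hkd, hk, Nat.mul_div_cancel _ (Nat.pos_of_ne_zero hk0)]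
  have hm1 : m ≠ 1 := fun e => hp.ne_one (by rw [← hmo, e, Subgroup.coe_one, orderOf_one])
  have hexp : ∀ n : N, n ^ p = 1 := by
    intro n
    by_cases hn : n = 1
    · rw [hn, one_pow]
    obtain ⟨g, hg⟩ := hconj m n hm1 hn
    refine Subtype.ext ?_
    rw [Subgroup.coe_pow, ← hg, conj_pow, ← hmo, pow_orderOf_eq_one, mul_one, mul_inv_cancel, Subgroup.coe_one]
  have hPN : IsPGroup p N := fun n => ⟨1, by rw [pow_one]; exact hexp n⟩
  haveI : Nontrivial N := ⟨⟨m, 1, hm1⟩⟩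
  obtain ⟨z, hz, hz1⟩ := (Subgroup.nontrivial_iff_exists_ne_one _).mp hPN.center_nontrivial
  refine ⟨⟨⟨fun a b => ?_⟩⟩, p, hp, fun n hn => congrArg Subtype.val (hexp ⟨n, hn⟩)⟩
  by_cases ha : a = 1
  · rw [ha, one_mul, mul_one]
  obtain ⟨g, hg⟩ := hconj z a hz1 ha
  have hb' : g⁻¹ * (b : G) * g ∈ N := by
    simpa using Subgroup.Normal.conj_mem (inferInstance : N.Normal) _ b.2 g⁻¹
  have h5 := congrArg (fun t : N => g * (t : G) * g⁻¹) (Subgroup.mem_center_iff.mp hz ⟨_, hb'⟩)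
  refine Subtype.ext ?_
  rw [Subgroup.coe_mul, Subgroup.coe_mul, ← hg]
  simpa [mul_assoc] using h5.symm

end Cfsg.Agent.S0054
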