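import Cfsg.Statements.S0057
import Cfsg.Agent.Lib.Perm.BurnsidePrime
import Cfsg.Agent.Lib.GroupB.Hall
import Cfsg.Agent.S0055

set_option autoImplicit false
open Cfsg

namespace Cfsg.Agent.S0057

open scoped commutatorElement

/-- A transitive group of prime degree is doubly transitive or has a normal subgroup of order `p`. -/
theorem transitive_prime {α : Type*} [Fintype α] [DecidableEq α] {p : ℕ} [Fact p.Prime] (hα : Fintype.card α = p)
    (G : Subgroup (Equiv.Perm α)) [MulAction.IsPretransitive G α] :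
    MulAction.IsMultiplyPretransitive G α 2 ∨ ∃ N : Subgroup G, N.Normal ∧ Nat.card N = p := by
  classical
  rcases CfsgLib.Perm.BurnsidePrime.burnside (hα ▸ (Fact.out : p.Prime)) G with hs | h
  swap
  · exact Or.inl h
  refine Or.inr ?_
  haveI := hs
  obtain ⟨a⟩ : Nonempty α := Fintype.card_pos_iff.1 (hα ▸ (Fact.out : p.Prime).pos)
  haveI : Nontrivial G := by
    haveI : Nontrivial α := Fintype.one_lt_card_iff_nontrivial.mp (hα ▸ (Fact.out : p.Prime).one_lt)
    obtain ⟨b, hb⟩ := exists_ne a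
    obtain ⟨g, hg⟩ := MulAction.exists_smul_eq G a b
    exact ⟨⟨g, 1, fun e => hb (by rw [← hg, e, one_smul])⟩⟩
  obtain ⟨q, N, -, hNc, hN0, hNab, -, -⟩ := CfsgLib.GroupB.Hall.exists_characteristic_abelian G
  haveI := hNc
  haveI : MulAction.IsPreprimitive G α := MulAction.IsPreprimitive.of_prime_card
    (by rw [Nat.card_eq_fintype_card, hα]; exact Fact.out)
  have hfix : MulAction.fixedPoints N α ≠ Set.univ := fun h => hN0 <| by
    rw [Subgroup.eq_bot_iff_forall]
    intro n hn
    exact FaithfulSMul.eq_of_smul_eq_smul (α := α) fun z => by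
      rw [one_smul]; exact (show z ∈ MulAction.fixedPoints N α by rw [h]; trivial) ⟨n, hn⟩
  haveI htr : MulAction.IsPretransitive N α := MulAction.IsQuasiPreprimitive.isPretransitive_of_normal hfix
  refine ⟨N, inferInstance, ?_⟩
  have hstab : MulAction.stabilizer N a = ⊥ := by
    rw [Subgroup.eq_bot_iff_forall]
    intro n hn
    refine Subtype.ext (FaithfulSMul.eq_of_smul_eq_smul (α := α) fun z => ?_)
    obtain ⟨m, rfl⟩ := MulAction.exists_smul_eq N a z
    show n • m • a = (1 : G) • m • a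
    rw [one_smul, ← mul_smul, (hNab.is_comm.comm n m), mul_smul, MulAction.mem_stabilizer_iff.mp hn]
  have h := MulAction.index_stabilizer_of_transitive N (x := a)
  rw [hstab, Subgroup.index_bot, Nat.card_eq_fintype_card (α := α), hα] at h
  exact h

theorem not_sq_dvd_factorial {p : ℕ} (hp : p.Prime) : ¬ p ^ 2 ∣ p.factorial := by
  intro h
  rw [← Nat.mul_factorial_pred hp.ne_zero, sq] at h
  have := (Nat.Prime.dvd_factorial hp).mp (Nat.dvd_of_mul_dvd_mul_left hp.pos h)
  have := hp.two_le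
  omega

theorem conj_pow_iterate {G : Type*} [Group G] {a c d k : G} (hc : Commute a c) (hd : Commute a d)
    (h : a * k * a⁻¹ = c * k * d) (n : ℕ) : a ^ n * k * (a ^ n)⁻¹ = c ^ n * k * d ^ n := by
  induction n with
  | zero => simp
  | succ n ih =>
    calc a ^ (n + 1) * k * (a ^ (n + 1))⁻¹ = a * (a ^ n * k * (a ^ n)⁻¹) * a⁻¹ := by rw [pow_succ']; group
      _ = (a * c ^ n) * k * (d ^ n * a⁻¹) := by rw [ih]; group
      _ = (c ^ n * a) * k * (a⁻¹ * d ^ n) := by rw [(hc.pow_right n).eq, ((hd.pow_right n).inv_left).eq]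
      _ = c ^ n * (a * k * a⁻¹) * d ^ n := by group
      _ = c ^ (n + 1) * k * d ^ (n + 1) := by rw [h, pow_succ, pow_succ']; group

/-- Under coprime action, if the centraliser of A in K has prime index p in K then the commutator subgroup [K, A] has order exactly p. -/
theorem result {G : Type*} [Group G] [Finite G] (A K : Subgroup G) (hAK : A ≤ Subgroup.normalizer (K : Set G))
    (hcop : (Nat.card A).Coprime (Nat.card K)) (hsolv : Group.IsSolvable A ∨ Group.IsSolvable K)
    (p : ℕ) (hp : p.Prime) (hidx : (K ⊓ Subgroup.centralizer (A : Set G)).relIndex K = p) :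
    Nat.card (⁅K, A⁆ : Subgroup G) = p := by
  classical
  haveI := Fact.mk hp
  set C := K ⊓ Subgroup.centralizer (A : Set G) with hC
  have hsolv' : Group.IsSolvable K ∨ Group.IsSolvable A := hsolv.symm
  have hCK : C ≤ K := inf_le_left
  obtain ⟨⟨P, hP, hPA⟩, -⟩ := CfsgLib.GroupB.Coprime.invariant_sylow hAK hcop hsolv' p
  -- `P` is not contained in `C`
  have hPC : ¬ P ≤ C := fun h => by
    have h1 := Subgroup.card_dvd_of_le h
    have h2 : Nat.card C * p = Nat.card K := by
      rw [← hidx, ← Subgroup.relIndex_bot_left C, Subgroup.relIndex_mul_relIndex _ _ _ bot_le hCK, Subgroup.relIndex_bot_left]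
    have h3 : p ^ ((Nat.card K).factorization p + 1) ∣ Nat.card K := by
      rw [pow_succ, ← hP.2]
      exact (mul_dvd_mul_right h1 p).trans h2.dvd
    exact Nat.pow_succ_factorization_not_dvd Nat.card_pos.ne' hp h3
  have hPCidx : C.relIndex P = p := by
    obtain ⟨n, hn⟩ := IsPGroup.iff_card.mp hP.isPGroup
    obtain ⟨j, -, hj⟩ := (Nat.dvd_prime_pow hp).mp (hn ▸ Subgroup.relIndex_dvd_card C P : C.relIndex P ∣ p ^ n)
    have hle : C.relIndex P ≤ p := hidx ▸ Subgroup.relIndex_le_of_le_right hP.1 (by rw [hidx]; exact hp.ne_zero)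
    have hj1 : j ≤ 1 := by
      by_contra hj2
      rw [hj] at hle
      have : p ^ 2 ≤ p ^ j := Nat.pow_le_pow_right hp.pos (by omega)
      nlinarith [hp.two_le]
    rcases Nat.le_one_iff_eq_zero_or_eq_one.mp hj1 with h | h
    · rw [h, pow_zero] at hj
      exact absurd (Subgroup.relIndex_eq_one.mp hj) hPC
    · rw [hj, h, pow_one]
  -- the structure of `[P, A]`
  set D := C ⊓ P with hD
  set R := (⁅P, A⁆ : Subgroup G) with hR
  have hDA : ∀ x ∈ C, ∀ a ∈ A, Commute a x := fun x hx a ha => hx.2 a ha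
  have hRP : R ≤ P := CfsgLib.GroupB.Coprime.commutator_le_of_le_normalizer hPA
  have hcopP : (Nat.card A).Coprime (Nat.card P) := Nat.Coprime.coprime_dvd_right (Subgroup.card_dvd_of_le hP.1) hcop
  have hsolP : Group.IsSolvable P ∨ Group.IsSolvable A := by
    haveI := hP.isPGroup.isNilpotent
    exact Or.inl inferInstance
  have hPDR : P = D ⊔ R := by
    refine le_antisymm ?_ (sup_le inf_le_right hRP)
    conv_lhs => rw [← CfsgLib.GroupB.Coprime.centralizer_sup_commutator hPA hcopP hsolP]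
    exact sup_le_sup_right (le_inf (le_inf (inf_le_left.trans hP.1) inf_le_right) inf_le_left) _
  have hDidx : (D.subgroupOf P).index = p := by
    show D.relIndex P = p
    rw [hD, Subgroup.inf_relIndex_right, hPCidx]
  haveI hDn : (D.subgroupOf P).Normal := by
    refine Subgroup.normal_of_index_eq_minFac_card (hDidx.trans ?_)
    obtain ⟨n, hn⟩ := IsPGroup.iff_card.mp hP.isPGroup
    rw [hn, Nat.pow_minFac, hp.minFac_eq]
    intro h0
    rw [h0, pow_zero] at hn
    exact hPC ((Subgroup.eq_bot_of_card_eq P hn).symm ▸ bot_le)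
  have hPD : P ≤ Subgroup.normalizer (D : Set G) := Subgroup.le_normalizer_of_normal_subgroupOf inf_le_right
  have hRD : ⁅R, D⁆ = ⊥ := by
    rw [hR, Subgroup.commutator_comm P A]
    refine Subgroup.commutator_commutator_eq_bot_of_rotate ?_ ?_
    · refine le_bot_iff.mp ((Subgroup.commutator_mono ?_ le_rfl).trans (?_ : ⁅D, A⁆ ≤ ⊥))
      · exact Subgroup.commutator_le.mpr fun x hx y hy => D.mul_mem ((CfsgLib.GroupB.Coprime.conj_mem_iff (hPD hx)).mpr hy) (D.inv_mem hy)
      · exact Subgroup.commutator_le.mpr fun x hx a ha => by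
          rw [Subgroup.mem_bot, commutatorElement_eq_one_iff_commute]; exact (hDA x hx.1 a ha).symm
    · rw [show ⁅D, A⁆ = ⊥ from Subgroup.commutator_eq_bot_iff_le_centralizer.mpr (inf_le_left.trans inf_le_right),
        Subgroup.commutator_bot_left]
  have hRD' : ∀ r ∈ R, ∀ x ∈ D, Commute r x := fun r hr x hx =>
    ((Subgroup.commutator_eq_bot_iff_le_centralizer.mp hRD hr) x hx).symm
  have hRidx : D.relIndex R = p := by
    rw [← CfsgLib.GroupB.Coprime.relIndex_sup_of_le_normalizer (N := D) (K := R) (hRP.trans hPD), ← hPDR]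
    exact hDidx
  have hRab : IsMulCommutative R := by
    obtain ⟨r, hr, hrD⟩ : ∃ r ∈ R, r ∉ D := by
      by_contra h
      push Not at h
      rw [Subgroup.relIndex_eq_one.mpr h] at hRidx
      exact hp.one_lt.ne hRidx
    set S := Subgroup.zpowers r ⊔ (D ⊓ R) with hS
    have hSR : S ≤ R := sup_le (Subgroup.zpowers_le.mpr hr) inf_le_right
    have hmul := Subgroup.relIndex_mul_relIndex (D ⊓ R) S R le_sup_right hSR
    rw [Subgroup.inf_relIndex_right, hRidx] at hmul
    rcases (Nat.dvd_prime hp).mp (Dvd.intro _ hmul) with h | h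
    · exact absurd ((Subgroup.relIndex_eq_one.mp h) (Subgroup.mem_sup_left (Subgroup.mem_zpowers r) : r ∈ S)).1 hrD
    · rw [h] at hmul
      have hRS : R ≤ S := Subgroup.relIndex_eq_one.mp (Nat.eq_of_mul_eq_mul_left hp.pos (hmul.trans (mul_one p).symm))
      rw [le_antisymm hRS hSR, hS, ← Subgroup.closure_eq (D ⊓ R), Subgroup.zpowers_eq_closure, ← Subgroup.closure_union]
      refine Subgroup.isMulCommutative_closure ?_
      rintro x hx y hy
      rcases hx with hx | hx <;> rcases hy with hy | hy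
      · rw [Set.mem_singleton_iff.mp hx, Set.mem_singleton_iff.mp hy]
      · rw [Set.mem_singleton_iff.mp hx]; exact hRD' r hr y hy.1
      · rw [Set.mem_singleton_iff.mp hy]; exact (hRD' r hr x hx.1).symm
      · exact hRD' x hx.2 y hy.1
  haveI := hRab
  have hRA : A ≤ Subgroup.normalizer (R : Set G) :=
    le_sup_right.trans (CfsgLib.GroupB.Coprime.le_normalizer_commutator P A)
  have hRR : (⁅R, A⁆ : Subgroup G) = R := CfsgLib.GroupB.Coprime.commutator_commutator_eq hPA hcopP hsolP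
  have hDR : D ⊓ R = ⊥ := by
    have h := (Cfsg.Agent.S0055.result A R hRA (Nat.Coprime.coprime_dvd_right (Subgroup.card_dvd_of_le hRP) hcopP)).1
    rw [hRR] at h
    exact le_bot_iff.mp (le_trans (le_inf (le_inf inf_le_right (inf_le_left.trans (inf_le_left.trans inf_le_right))) inf_le_right) h.le)
  have hRcard : Nat.card R = p := by
    rw [← Subgroup.relIndex_bot_left R, ← hDR, Subgroup.inf_relIndex_right, hRidx]
  -- the action on the cosets of `C`
  have hPK : C ⊔ P = K := by
    have hmul := Subgroup.relIndex_mul_relIndex C (C ⊔ P) K le_sup_left (sup_le hCK hP.1)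
    rw [hidx] at hmul
    rcases (Nat.dvd_prime hp).mp (Dvd.intro _ hmul) with h | h
    · exact absurd (le_sup_right.trans (Subgroup.relIndex_eq_one.mp h)) hPC
    · rw [h] at hmul
      exact le_antisymm (sup_le hCK hP.1)
        (Subgroup.relIndex_eq_one.mp (Nat.eq_of_mul_eq_mul_left hp.pos (hmul.trans (mul_one p).symm)))
  set C' := C.subgroupOf K with hC'
  haveI := Fintype.ofFinite (K ⧸ C')
  have hX : Fintype.card (K ⧸ C') = p := by
    rw [← Nat.card_eq_fintype_card, ← Subgroup.index_eq_card]; exact hidx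
  let φ := MulAction.toPermHom K (K ⧸ C')
  haveI : MulAction.IsPretransitive φ.range (K ⧸ C') := ⟨fun x y => by
    obtain ⟨g, hg⟩ := MulAction.exists_smul_eq K x y
    exact ⟨⟨φ g, g, rfl⟩, hg⟩⟩
  rcases transitive_prime hX φ.range with h2 | ⟨N₀, hN₀, hN₀c⟩
  · exfalso
    rw [MulAction.is_two_pretransitive_iff] at h2
    refine hPC fun x hx => ⟨hP.1 hx, fun a ha => ?_⟩
    by_cases hxC : x ∈ C
    · exact hxC.2 a ha
    have hk₂ : a * x * a⁻¹ ∈ K := (CfsgLib.GroupB.Coprime.conj_mem_iff (hAK ha)).mpr (hP.1 hx)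
    have hne : ∀ k : K, (k : G) ∉ C → ((1 : K) : K ⧸ C') ≠ (k : K ⧸ C') := fun k hk e => hk (by
      have e' := QuotientGroup.eq.mp e
      rw [inv_one, one_mul] at e'
      exact e')
    obtain ⟨⟨g', g, hg'⟩, hg1, hg2⟩ := h2 (hne ⟨x, hP.1 hx⟩ hxC) (hne ⟨_, hk₂⟩ (fun h => hxC (by
      replace h : a * x * a⁻¹ ∈ C := h
      have h1 := hDA _ h a ha
      have h3 : a * x * a⁻¹ = x := by
        calc a * x * a⁻¹ = a⁻¹ * (a * (a * x * a⁻¹)) * 1 := by group
          _ = a⁻¹ * ((a * x * a⁻¹) * a) := by rw [h1.eq, mul_one]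
          _ = x := by group
      rwa [h3] at h)))
    subst hg'
    have e1 : ((g * 1 : K) : K ⧸ C') = ((1 : K) : K ⧸ C') := hg1
    have e2 : ((g * ⟨x, hP.1 hx⟩ : K) : K ⧸ C') = ((⟨_, hk₂⟩ : K) : K ⧸ C') := hg2
    have hgC : (g : G) ∈ C := by
      have e' := QuotientGroup.eq.mp e1
      rw [mul_one, mul_one] at e'
      exact Subgroup.inv_mem_iff C |>.mp e'
    have hdC : ((g : G) * x)⁻¹ * (a * x * a⁻¹) ∈ C := by
      have e' := QuotientGroup.eq.mp e2
      exact e'
    set d := ((g : G) * x)⁻¹ * (a * x * a⁻¹)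
    have hit := conj_pow_iterate (hDA _ hgC a ha) (hDA _ hdC a ha)
      (show a * x * a⁻¹ = (g : G) * x * d by show _ = _ * (((g : G) * x)⁻¹ * _); group) (Nat.card C)
    have hpow : ∀ c ∈ C, c ^ Nat.card C = 1 := fun c hc =>
      orderOf_dvd_iff_pow_eq_one.mp (Subgroup.orderOf_dvd_natCard C hc)
    rw [hpow _ hgC, hpow _ hdC, one_mul, mul_one] at hit
    have hcomm : Commute (a ^ Nat.card C) x := mul_inv_eq_iff_eq_mul.mp hit
    obtain ⟨m, hm⟩ := exists_pow_eq_self_of_coprime
      (Nat.Coprime.coprime_dvd_right (Subgroup.orderOf_dvd_natCard A ha)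
        (Nat.Coprime.coprime_dvd_left (Subgroup.card_dvd_of_le hCK) hcop.symm))
    rw [← hm]
    exact (hcomm.pow_left m).eq
  haveI := hN₀
  set ψ := φ.rangeRestrict with hψ
  set N := (ψ.ker).map K.subtype with hN
  set P' := P.subgroupOf K with hP'
  have hNC : N ≤ C := by
    rintro _ ⟨k, hk, rfl⟩
    have hk' : k • ((1 : K) : K ⧸ C') = ((1 : K) : K ⧸ C') := by
      have h := congrArg (fun f : φ.range => (f : Equiv.Perm (K ⧸ C')) ((1 : K) : K ⧸ C')) (MonoidHom.mem_ker.mp hk)
      exact h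
    have e' := QuotientGroup.eq.mp (show ((k * 1 : K) : K ⧸ C') = ((1 : K) : K ⧸ C') from hk')
    rw [mul_one, mul_one] at e'
    exact Subgroup.inv_mem_iff C |>.mp e'
  have hPN₀ : P'.map ψ = N₀ := by
    have hp1 : IsPGroup p (P'.map ψ) := (hP.isPGroup.of_equiv (Subgroup.subgroupOfEquivOfLe hP.1).symm).map ψ
    have hp2 : IsPGroup p (P'.map ψ ⊔ N₀ : Subgroup φ.range) :=
      hp1.to_sup_of_normal_right (IsPGroup.of_card (n := 1) (by rw [hN₀c, pow_one]))
    obtain ⟨j, hj⟩ := IsPGroup.iff_card.mp hp2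
    have hdvd : p ^ j ∣ p.factorial := by
      rw [← hj]
      refine (Subgroup.card_subgroup_dvd_card _).trans ((Subgroup.card_subgroup_dvd_card φ.range).trans ?_)
      rw [Nat.card_perm, Nat.card_eq_fintype_card, hX]
    have hj1 : j ≤ 1 := by
      by_contra hj2
      exact not_sq_dvd_factorial hp ((pow_dvd_pow p (by omega)).trans hdvd)
    have hle : Nat.card (P'.map ψ ⊔ N₀ : Subgroup φ.range) ≤ Nat.card N₀ := by
      rw [hj, hN₀c]; exact (Nat.pow_le_pow_right hp.pos hj1).trans (pow_one p).le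
    have heq := Subgroup.eq_of_le_of_card_ge le_sup_right hle
    have hsub : P'.map ψ ≤ N₀ := by rw [heq]; exact le_sup_left
    refine Subgroup.eq_of_le_of_card_ge hsub ?_
    rw [hN₀c]
    obtain ⟨i, hi⟩ := IsPGroup.iff_card.mp hp1
    rcases Nat.eq_zero_or_pos i with h0 | h0
    · exfalso
      rw [h0, pow_zero] at hi
      refine hPC fun x hx => hNC ⟨⟨x, hP.1 hx⟩, ?_, rfl⟩
      have := Subgroup.mem_map_of_mem ψ (show (⟨x, hP.1 hx⟩ : K) ∈ P' from hx)
      rwa [Subgroup.eq_bot_of_card_eq _ hi, Subgroup.mem_bot] at this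
    · rw [hi]; exact Nat.le_self_pow h0.ne' p
  set M := P ⊔ N with hM
  have hMK : M ≤ K := sup_le hP.1 (Subgroup.map_subtype_le _)
  have hM' : M = (N₀.comap ψ).map K.subtype := by
    rw [← hPN₀, Subgroup.comap_map_eq, Subgroup.map_sup, hP', Subgroup.subgroupOf_map_subtype, inf_eq_left.mpr hP.1]
  have hKM : K ≤ Subgroup.normalizer (M : Set G) := by
    rw [hM']
    refine CfsgLib.GroupB.Coprime.le_normalizer_of_conj_mem ?_
    rintro k hk _ ⟨y, hy, rfl⟩
    exact ⟨⟨k, hk⟩ * y * ⟨k, hk⟩⁻¹, (inferInstance : (N₀.comap ψ).Normal).conj_mem y hy _, rfl⟩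
  have hKN : K ≤ Subgroup.normalizer (N : Set G) := by
    refine CfsgLib.GroupB.Coprime.le_normalizer_of_conj_mem ?_
    rintro k hk _ ⟨y, hy, rfl⟩
    exact ⟨⟨k, hk⟩ * y * ⟨k, hk⟩⁻¹, (MonoidHom.normal_ker ψ).conj_mem y hy _, rfl⟩
  have hMA : (⁅M, A⁆ : Subgroup G) ≤ R := Subgroup.commutator_le.mpr fun m hm a ha => by
    rw [hM, sup_comm] at hm
    obtain ⟨n, hn, x, hx, rfl⟩ := (CfsgLib.GroupB.Coprime.mem_sup_of_le_normalizer (hP.1.trans hKN)).mp hm
    have hxn : x⁻¹ * n * x ∈ N := by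
      have h := (CfsgLib.GroupB.Coprime.conj_mem_iff (hKN (K.inv_mem (hP.1 hx)))).mpr hn
      simpa using h
    have hc := hDA _ (hNC hxn) a ha
    have : ⁅n * x, a⁆ = ⁅x, a⁆ := by
      calc ⁅n * x, a⁆ = x * ((x⁻¹ * n * x) * a) * (x⁻¹ * n * x)⁻¹ * x⁻¹ * a⁻¹ := by
            rw [commutatorElement_def]; group
        _ = ⁅x, a⁆ := by rw [← hc.eq, commutatorElement_def]; group
    rw [this, hR]
    exact Subgroup.commutator_mem_commutator hx ha
  have hKA : (⁅K, A⁆ : Subgroup G) ≤ M := Subgroup.commutator_le.mpr fun k hk a ha => by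
    have hk' : k ∈ M ⊔ C := by
      rw [← hPK] at hk
      exact (sup_le le_sup_right (le_sup_left.trans le_sup_left) : C ⊔ P ≤ M ⊔ C) hk
    obtain ⟨m, hm, c, hc, rfl⟩ := (CfsgLib.GroupB.Coprime.mem_sup_of_le_normalizer (hCK.trans hKM)).mp hk'
    have hcm := hDA _ hc a ha
    have : ⁅m * c, a⁆ = ⁅m, a⁆ := by
      calc ⁅m * c, a⁆ = m * (c * a) * c⁻¹ * m⁻¹ * a⁻¹ := by rw [commutatorElement_def]; group
        _ = ⁅m, a⁆ := by rw [← hcm.eq, commutatorElement_def]; group
    rw [this]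
    exact (hRP.trans le_sup_left) (hMA (Subgroup.commutator_mem_commutator hm ha))
  have hfin : (⁅K, A⁆ : Subgroup G) = R := by
    refine le_antisymm ?_ (Subgroup.commutator_mono hP.1 le_rfl)
    rw [← CfsgLib.GroupB.Coprime.commutator_commutator_eq hAK hcop hsolv']
    exact (Subgroup.commutator_mono hKA le_rfl).trans hMA
  rw [hfin, hRcard]

end Cfsg.Agent.S0057
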