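import Cfsg.Statements.S0058
import Cfsg.Agent.Lib.Solvable.HallBasic

set_option autoImplicit false
open Cfsg

namespace Cfsg.Agent.S0058

/-- Generation by centralisers: when a noncyclic abelian group A normalises K with coprime orders, K is generated by the fixed-point subgroups of the nonidentity elements of A. -/
theorem result {G : Type*} [Group G] [Finite G] (A K : Subgroup G)
    [IsMulCommutative A] (hA : ¬ IsCyclic A) (hAK : A ≤ Subgroup.normalizer (K : Set G)) (hcop : (Nat.card A).Coprime (Nat.card K)) :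
    (⨆ a ∈ {a : G | a ∈ A ∧ a ≠ 1}, K ⊓ Subgroup.centralizer {a}) = K := by
  refine le_antisymm (iSup₂_le fun _ _ => inf_le_left) ?_
  conv_lhs => rw [← CfsgLib.GroupB.CoprimeAbelian.iSup_centralizer_eq (inferInstance : IsMulCommutative A) hAK hcop]
  refine iSup₂_le fun B hB => ?_
  obtain ⟨a, ha, ha1⟩ : ∃ a ∈ B, a ≠ 1 := by
    by_contra hall
    push Not at hall
    obtain ⟨hBA, hcyc⟩ := hB
    obtain ⟨a, ha, e⟩ := hcyc
    rw [(Subgroup.eq_bot_iff_forall B).mpr hall, bot_sup_eq] at e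
    refine hA ⟨⟨⟨a, ha⟩, fun x => ?_⟩⟩
    obtain ⟨i, hi⟩ := (e.symm ▸ x.2 : (x : G) ∈ Subgroup.zpowers a)
    exact ⟨i, Subtype.ext (by simpa using hi)⟩
  refine le_iSup₂_of_le a (⟨hB.1 ha, ha1⟩ : a ∈ A ∧ a ≠ 1) (inf_le_inf_left _ ?_)
  exact Subgroup.centralizer_le (Set.singleton_subset_iff.mpr ha)

end Cfsg.Agent.S0058
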