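import Cfsg.Statements.S0059
import Cfsg.Agent.Lib.Solvable.Basics

set_option autoImplicit false
open Cfsg

namespace Cfsg.Agent.S0059

/-- Let a finite group act on a set on which a normal subgroup K of coprime order and index is transitive, with K or the quotient solvable. Then any complement H of K has a fixed point, and any two H-fixed points are interchanged by an element of K centralising H. -/
theorem result {G : Type*} [Group G] [Finite G] {X : Type*} [Nonempty X] [MulAction G X]
    (K H : Subgroup G) [K.Normal] (hc : Subgroup.IsComplement' K H) (hcop : (Nat.card K).Coprime K.index)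
    (hsolv : Group.IsSolvable K ∨ Group.IsSolvable (G ⧸ K)) (htrans : MulAction.IsPretransitive K X) :
    (∃ x : X, ∀ h ∈ H, h • x = x) ∧
    ∀ x y : X, (∀ h ∈ H, h • x = x) → (∀ h ∈ H, h • y = y) → ∃ k ∈ K ⊓ Subgroup.centralizer (H : Set G), k • x = y := by
  have hsol : Group.IsSolvable K ∨ Group.IsSolvable H := by
    refine hsolv.imp id fun h => ?_
    haveI := h
    exact Group.isSolvable_of_isSolvable_injective (f := (QuotientGroup.mk' K).comp H.subtype) (by
      intro a b hab
      have hab' : ((a : G) : G ⧸ K) = ((b : G) : G ⧸ K) := hab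
      rw [QuotientGroup.eq] at hab'
      have h1 : (a⁻¹ * b : H).1 ∈ K ⊓ H := ⟨by simpa using hab', (a⁻¹ * b).2⟩
      rw [disjoint_iff.mp hc.disjoint, Subgroup.mem_bot] at h1
      exact inv_mul_eq_one.mp (Subtype.ext h1))
  have hHc : Nat.card H = K.index := Nat.eq_of_mul_eq_mul_left Nat.card_pos
    ((Subgroup.IsComplement.card_mul hc).trans K.card_mul_index.symm)
  obtain ⟨h1, h2⟩ := CfsgLib.GroupB.Coprime.glauberman (G := K) (A := H)
    (Subgroup.normalizer_eq_top (H := K) ▸ le_top) (hHc ▸ hcop.symm) hsol (Set.univ : Set X)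
    Set.univ_nonempty (fun _ _ _ _ => trivial) (fun _ _ _ _ => trivial)
    (fun s _ t _ => by obtain ⟨⟨k, hk⟩, e⟩ := htrans.exists_smul_eq s t; exact ⟨k, hk, e⟩)
  obtain ⟨x, -, hx⟩ := h1
  exact ⟨⟨x, hx⟩, fun a b ha hb => h2 a trivial b trivial ha hb⟩

end Cfsg.Agent.S0059
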