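import Cfsg.Statements.S0060
import Cfsg.Agent.Lib.Core
import Mathlib.GroupTheory.Sylow

set_option autoImplicit false
open Pointwise
open Cfsg

namespace Cfsg.Agent.S0060

/-- Brodkey's Theorem: in a finite group with abelian Sylow p-subgroups and no nontrivial normal p-subgroup, some conjugate of a Sylow p-subgroup meets it trivially. -/
theorem result {G : Type*} [Group G] [Finite G] (p : ℕ) [Fact p.Prime]
    (S : Sylow p G) (hS : IsMulCommutative S) (hOp : Cfsg.pCore p G = ⊥) :
    ∃ g : G, (S : Subgroup G) ⊓ MulAut.conj g • (S : Subgroup G) = ⊥ := by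
  classical
  letI := Fintype.ofFinite G
  obtain ⟨g, -, hmin⟩ := Finset.exists_min_image (Finset.univ : Finset G)
    (fun g => Nat.card ↥((S : Subgroup G) ⊓ MulAut.conj g • (S : Subgroup G))) ⟨1, Finset.mem_univ _⟩
  refine ⟨g, ?_⟩
  set T : Sylow p G := g • S with hT
  have hTc : (T : Subgroup G) = MulAut.conj g • (S : Subgroup G) := by rw [hT, Sylow.coe_subgroup_smul]
  rw [← hTc] at hmin ⊢
  set X := (S : Subgroup G) ⊓ (T : Subgroup G) with hX
  -- minimality for an arbitrary pair
  have hmin' : ∀ (A B : Sylow p G), Nat.card X ≤ Nat.card ↥((A : Subgroup G) ⊓ (B : Subgroup G)) := by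
    intro A B
    obtain ⟨a, rfl⟩ := MulAction.exists_smul_eq G S A
    obtain ⟨b, hb⟩ := MulAction.exists_smul_eq G S (a⁻¹ • B)
    have h1 := hmin b (Finset.mem_univ _)
    rw [← Sylow.coe_subgroup_smul, hb] at h1
    refine le_trans h1 (le_of_eq ?_)
    rw [← Subgroup.card_map_of_injective (f := (MulAut.conj a).toMonoidHom) (MulAut.conj a).injective,
      Subgroup.map_inf _ _ _ (MulAut.conj a).injective]
    have e1 : (S : Subgroup G).map (MulAut.conj a).toMonoidHom = ((a • S : Sylow p G) : Subgroup G) := by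
      rw [Sylow.coe_subgroup_smul]; rfl
    have e2 : ((a⁻¹ • B : Sylow p G) : Subgroup G).map (MulAut.conj a).toMonoidHom = (B : Subgroup G) := by
      conv_rhs => rw [← smul_inv_smul a B, Sylow.coe_subgroup_smul]
      rfl
    rw [e1, e2]
  set C := Subgroup.centralizer (X : Set G) with hC
  have hab : ∀ A : Sylow p G, X ≤ (A : Subgroup G) → (A : Subgroup G) ≤ C := fun A hA => by
    rw [hC, Subgroup.le_centralizer_iff]
    refine hA.trans (Subgroup.le_centralizer_iff_isMulCommutative.mpr ?_)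
    obtain ⟨a, rfl⟩ := MulAction.exists_smul_eq G S A
    constructor; constructor
    rintro ⟨u, hu⟩ ⟨v, hv⟩
    rw [Sylow.coe_subgroup_smul] at hu hv
    obtain ⟨u', hu', rfl⟩ := hu
    obtain ⟨v', hv', rfl⟩ := hv
    refine Subtype.ext ?_
    have h2 : u' * v' = v' * u' := congrArg Subtype.val (hS.is_comm.comm ⟨u', hu'⟩ ⟨v', hv'⟩)
    show (MulAut.conj a) u' * (MulAut.conj a) v' = (MulAut.conj a) v' * (MulAut.conj a) u'
    rw [← map_mul, ← map_mul, h2]
  have hXall : ∀ P : Sylow p G, X ≤ (P : Subgroup G) := by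
    intro P
    obtain ⟨R, hR⟩ := (P.2.comap_subtype (K := C)).exists_le_sylow
    obtain ⟨c, hc⟩ := MulAction.exists_smul_eq C (S.subtype (hab S inf_le_left)) R
    have key : ∀ A : Sylow p G, (A : Subgroup G) ≤ C →
        ((c : G) • A : Sylow p G).toSubgroup ≤ C := fun A hA => by
      rw [Sylow.coe_subgroup_smul]
      rintro _ ⟨a, ha, rfl⟩
      exact C.mul_mem (C.mul_mem c.2 (hA ha)) (C.inv_mem c.2)
    set S' : Sylow p G := (c : G) • S
    set T' : Sylow p G := (c : G) • T
    have hXfix : ∀ x ∈ X, (c : G) * x * (c : G)⁻¹ = x := fun x hx => by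
      rw [← Subgroup.mem_centralizer_iff.mp c.2 x hx, mul_inv_cancel_right]
    have hX' : (S' : Subgroup G) ⊓ (T' : Subgroup G) = X := by
      rw [Sylow.coe_subgroup_smul, Sylow.coe_subgroup_smul, ← Subgroup.smul_inf]
      ext x
      constructor
      · rintro ⟨y, hy, rfl⟩
        show (c : G) * y * (c : G)⁻¹ ∈ X
        rw [hXfix y hy]; exact hy
      · intro hx
        exact ⟨x, hx, hXfix x hx⟩
    have hPC : (P : Subgroup G) ⊓ C ≤ (S' : Subgroup G) := by
      intro x hx
      have h3 : (⟨x, hx.2⟩ : C) ∈ (R : Subgroup C) := hR hx.1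
      rw [← hc, Sylow.coe_subgroup_smul] at h3
      obtain ⟨y, hy, hyx⟩ := h3
      rw [Sylow.coe_subgroup_smul]
      exact ⟨y, hy, congrArg Subtype.val hyx⟩
    have hPT : (P : Subgroup G) ⊓ (T' : Subgroup G) ≤ X := by
      rw [← hX']
      exact le_inf ((le_inf inf_le_left (inf_le_right.trans (key T (hab T inf_le_right)))).trans hPC) inf_le_right
    exact (Subgroup.eq_of_le_of_card_ge hPT (hmin' P T')).ge.trans inf_le_left
  rw [eq_bot_iff, ← hOp]
  refine CfsgLib.Core.le_pCore ?_ (S.2.to_le inf_le_left)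
  refine ⟨fun x hx a => ?_⟩
  constructor
  · have h := hXall (a⁻¹ • S) hx
    rw [Sylow.coe_subgroup_smul] at h
    obtain ⟨y, hy, rfl⟩ := h
    simpa [mul_assoc] using hy
  · have h := hXall (a⁻¹ • T) hx
    rw [Sylow.coe_subgroup_smul] at h
    obtain ⟨y, hy, rfl⟩ := h
    simpa [mul_assoc] using hy

end Cfsg.Agent.S0060
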