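import Cfsg.Statements.S0063
import Mathlib

set_option autoImplicit false
open Cfsg

namespace Cfsg.Agent.S0063

theorem key {p : ℕ} [Fact p.Prime] (m : ℕ) : ∀ (H : Type*) [Group H] [Finite H], Nat.card H = p ^ m →
      Group.nilpotencyClass H ≤ max 1 (m - 1) := by
    induction m using Nat.strong_induction_on with
    | _ m ih =>
      intro H _ _ hH
      have hPG : IsPGroup p H := IsPGroup.of_card hH
      haveI : Group.IsNilpotent H := hPG.isNilpotent
      rcases subsingleton_or_nontrivial H with hs | hn
      · rw [Group.nilpotencyClass_zero_iff_subsingleton.mpr hs]; exact Nat.zero_le _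
      haveI : Nontrivial (Subgroup.center H) := hPG.center_nontrivial
      obtain ⟨k, hk⟩ := IsPGroup.iff_card.mp (hPG.to_quotient (Subgroup.center H))
      have hcard := Subgroup.card_eq_card_quotient_mul_card_subgroup (Subgroup.center H)
      have hkm : k < m := by
        by_contra hle
        have h1 : 1 < Nat.card (Subgroup.center H) := Finite.one_lt_card
        have h2 : p ^ m ≤ p ^ k := Nat.pow_le_pow_right (Fact.out : p.Prime).pos (Nat.le_of_not_lt hle)
        rw [hH, hk] at hcard
        have h3 : 0 < p ^ k := pow_pos (Fact.out : p.Prime).pos k
        nlinarith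
      rw [Group.nilpotencyClass_eq_quotient_center_plus_one]
      by_cases hk1 : k ≤ 1
      · have hcyc : IsCyclic (H ⧸ Subgroup.center H) := by
          rcases Nat.le_one_iff_eq_zero_or_eq_one.mp hk1 with h0 | h0
          · rw [h0, pow_zero] at hk
            haveI := (Nat.card_eq_one_iff_unique.mp hk).1
            infer_instance
          · rw [h0, pow_one] at hk
            exact isCyclic_of_prime_card hk
        have habel : ∀ a b : H, a * b = b * a :=
          commutative_of_cyclic_center_quotient (QuotientGroup.mk' (Subgroup.center H)) (by rw [QuotientGroup.ker_mk'])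
        have htop : Subgroup.center H = ⊤ := by
          rw [eq_top_iff]; intro a _; rw [Subgroup.mem_center_iff]; intro b; exact habel b a
        haveI : Subsingleton (H ⧸ Subgroup.center H) := by
          constructor
          intro a b
          obtain ⟨a', rfl⟩ := QuotientGroup.mk'_surjective _ a
          obtain ⟨b', rfl⟩ := QuotientGroup.mk'_surjective _ b
          exact QuotientGroup.eq.mpr (htop ▸ Subgroup.mem_top _)
        rw [Group.nilpotencyClass_zero_iff_subsingleton.mpr inferInstance]
        exact le_max_left _ _
      · have := ih k hkm (H ⧸ Subgroup.center H) hk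
        omega

/-- A finite group of prime-power order p ^ m with m > 1 is nilpotent of class at most m - 1. -/
theorem result {G : Type*} [Group G] [Finite G] (p m : ℕ) [Fact p.Prime]
    (hG : Nat.card G = p ^ m) (hm : 1 < m) : Group.nilpotencyClass G ≤ m - 1 := by
  have := key (p := p) m G hG
  omega

end Cfsg.Agent.S0063
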