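import Cfsg.Statements.S0065

set_option autoImplicit false
open Cfsg
open scoped commutatorElement

namespace Cfsg.Agent.S0065

/-- A nontrivial normal subgroup of a nilpotent group intersects the centre nontrivially. -/
theorem result {G : Type*} [Group G] [Finite G] [Group.IsNilpotent G]
    (N : Subgroup G) [N.Normal] (hN : N ≠ ⊥) : N ⊓ Subgroup.center G ≠ ⊥ := by
  obtain ⟨n, hn⟩ := Group.IsNilpotent.nilpotent G
  classical
  have hex : ∃ i, N ⊓ Subgroup.upperCentralSeries G i ≠ ⊥ := ⟨n, by rw [hn, inf_top_eq]; exact hN⟩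
  have h0 := Nat.find_spec hex
  cases hk : Nat.find hex with
  | zero => rw [hk] at h0; simp at h0
  | succ k =>
    rw [hk] at h0
    have hlt : N ⊓ Subgroup.upperCentralSeries G k = ⊥ := by
      by_contra h
      exact Nat.find_min hex (hk ▸ k.lt_succ_self) h
    intro hbot
    apply h0
    rw [eq_bot_iff] at hlt hbot ⊢
    rintro x ⟨hxN, hx⟩
    refine hbot ⟨hxN, Subgroup.mem_center_iff.mpr fun g => ?_⟩
    have h1 : ⁅x, g⁆ ∈ N ⊓ Subgroup.upperCentralSeries G k := by
      refine ⟨?_, (Subgroup.mem_upperCentralSeries_succ_iff.mp hx) g⟩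
      rw [commutatorElement_def, mul_assoc, mul_assoc]
      exact N.mul_mem hxN (by simpa [mul_assoc] using (inferInstance : N.Normal).conj_mem _ (N.inv_mem hxN) g)
    exact (commutatorElement_eq_one_iff_mul_comm.mp (Subgroup.mem_bot.mp (hlt h1))).symm

end Cfsg.Agent.S0065
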