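import Cfsg.Statements.S0067
import Cfsg.Agent.Lib.GroupB.Cores
import Cfsg.Agent.Lib.BaerSuzuki

set_option autoImplicit false
open Pointwise
open Cfsg

namespace Cfsg.Agent.S0067

/-- If the join of a subgroup A with each of its conjugates is nilpotent, then A is subnormal in the finite group and contained in the Fitting subgroup. -/
theorem result {G : Type*} [Group G] [Finite G] (A : Subgroup G)
    (h : ∀ g : G, Group.IsNilpotent (A ⊔ MulAut.conj g • A : Subgroup G)) : A.IsSubnormal ∧ A ≤ Cfsg.fittingSubgroup G := by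
  suffices hF : A ≤ Cfsg.fittingSubgroup G from ⟨CfsgLib.GroupB.Cores.subnormal_of_le_fitting hF, hF⟩
  refine CfsgLib.GroupB.Cores.le_of_sylow fun p _ P => ?_
  set P' := (P : Subgroup A).map A.subtype with hP'
  have hP'p : IsPGroup p P' := P.isPGroup'.map _
  obtain ⟨K, hK, hKp, hle⟩ := CfsgLib.BaerSuzuki.baer_suzuki (p := p) P' fun g => by
    set J : Subgroup G := A ⊔ MulAut.conj g • A
    haveI : Group.IsNilpotent J := h g
    let R : Sylow p J := default
    have hiff : Group.IsNilpotent J ↔ ∀ (q : ℕ) (_ : Fact q.Prime) (Q : Sylow q J), (Q : Subgroup J).Normal :=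
      (Group.isNilpotent_of_finite_tfae (G := ↥J)).out 0 3
    haveI := R.unique_of_normal (hiff.mp inferInstance p inferInstance R)
    have hle : ∀ X : Subgroup G, IsPGroup p X → X ≤ J → X ≤ (R : Subgroup J).map J.subtype := by
      intro X hX hXJ x hx
      obtain ⟨R', hR'⟩ := (hX.comap_subtype (K := J)).exists_le_sylow
      exact ⟨⟨x, hXJ hx⟩, Subsingleton.elim R' R ▸ hR' (show (⟨x, hXJ hx⟩ : J) ∈ X.subgroupOf J from hx), rfl⟩
    refine (R.isPGroup'.map J.subtype).to_le (sup_le (hle _ hP'p ((Subgroup.map_subtype_le _).trans le_sup_left))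
      (hle _ (hP'p.map _) ((Subgroup.map_mono (Subgroup.map_subtype_le _)).trans ?_)))
    exact le_sup_right
  exact hle.trans (CfsgLib.Core.le_fittingSubgroup hK (IsPGroup.isNilpotent hKp))

end Cfsg.Agent.S0067
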