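import Cfsg.Statements.S0068
import Mathlib.GroupTheory.Perm.Cycle.Type

set_option autoImplicit false
open Cfsg

namespace Cfsg.Agent.S0068

/-- Frobenius complements of even order: if H complements a nontrivial normal subgroup K, each nonidentity element of H has trivial centraliser in K, and H has even order, then H contains a unique involution s, K is abelian, and s inverts every element of K. -/
theorem result {G : Type*} [Group G] [Finite G] (K H : Subgroup G) [K.Normal]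
    (hc : Subgroup.IsComplement' K H) (hK : K ≠ ⊥) (hfpf : ∀ h ∈ H, h ≠ 1 → K ⊓ Subgroup.centralizer {h} = ⊥)
    (heven : 2 ∣ Nat.card H) :
    (∃ s ∈ H, orderOf s = 2 ∧ (∀ t ∈ H, orderOf t = 2 → t = s) ∧ ∀ k ∈ K, s * k * s⁻¹ = k⁻¹) ∧ IsMulCommutative K := by
  classical
  have hn : ∀ h ∈ H, ∀ k ∈ K, h * k * h⁻¹ ∈ K := fun h _ k hk => Subgroup.Normal.conj_mem inferInstance k hk h
  have hinv : ∀ t ∈ H, orderOf t = 2 → ∀ k ∈ K, t * k * t⁻¹ = k⁻¹ := by
    intro t ht ho k hk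
    have ht1 : t ≠ 1 := fun e => by rw [e, orderOf_one] at ho; norm_num at ho
    have htt : t * t = 1 := by rw [← sq, ← ho, pow_orderOf_eq_one]
    let φ : K → K := fun x => ⟨(x : G)⁻¹ * (t * x * t⁻¹), mul_mem (inv_mem x.2) (hn t ht x x.2)⟩
    have hφ : Function.Surjective φ := by
      refine Finite.surjective_of_injective fun a b hab => ?_
      have h' : (a : G)⁻¹ * (t * a * t⁻¹) = (b : G)⁻¹ * (t * b * t⁻¹) := congrArg Subtype.val hab
      have h1 : t * ((b : G) * (a : G)⁻¹) * t⁻¹ = (b : G) * (a : G)⁻¹ := by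
        calc t * ((b : G) * (a : G)⁻¹) * t⁻¹ = (b : G) * ((b : G)⁻¹ * (t * b * t⁻¹)) *
              ((a : G)⁻¹ * (t * a * t⁻¹))⁻¹ * (a : G)⁻¹ := by group
          _ = _ := by rw [← h']; group
      have h2 : (b : G) * (a : G)⁻¹ ∈ K ⊓ Subgroup.centralizer {t} := ⟨K.mul_mem b.2 (K.inv_mem a.2),
        Subgroup.mem_centralizer_singleton_iff.mpr (mul_inv_eq_iff_eq_mul.mp h1).symm⟩
      rw [hfpf t ht ht1, Subgroup.mem_bot, mul_inv_eq_one] at h2
      exact Subtype.ext h2.symm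
    obtain ⟨a, ha⟩ := hφ ⟨k, hk⟩
    have ha' : (a : G)⁻¹ * (t * a * t⁻¹) = k := congrArg Subtype.val ha
    rw [← ha']
    calc t * ((a : G)⁻¹ * (t * a * t⁻¹)) * t⁻¹
        = (t * a * t⁻¹)⁻¹ * (t * t) * a * (t * t)⁻¹ := by group
      _ = _ := by rw [htt, inv_one, mul_one, mul_one]; group
  obtain ⟨s₀, hs₀⟩ := exists_prime_orderOf_dvd_card' 2 heven
  have hs : orderOf (s₀ : G) = 2 := by rwa [Subgroup.orderOf_coe]
  refine ⟨⟨s₀, s₀.2, hs, fun t ht hto => ?_, hinv _ s₀.2 hs⟩, ?_⟩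
  · by_contra hne
    have hu : (s₀ : G)⁻¹ * t ≠ 1 := fun e => hne (inv_mul_eq_one.mp e).symm
    refine hK (le_bot_iff.mp ?_)
    rw [← hfpf _ (H.mul_mem (H.inv_mem s₀.2) ht) hu]
    refine le_inf le_rfl fun k hk => Subgroup.mem_centralizer_singleton_iff.mpr ?_
    have e1 := hinv t ht hto k hk
    have e2 := hinv _ s₀.2 hs k hk
    calc k * ((s₀ : G)⁻¹ * t) = (s₀ : G)⁻¹ * ((s₀ : G) * k * (s₀ : G)⁻¹) * t := by group
      _ = _ := by rw [e2, ← e1]; group
  · constructor; constructor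
    intro a b
    refine Subtype.ext ?_
    have h := hinv _ s₀.2 hs _ (mul_mem a.2 b.2)
    have e : (s₀ : G) * ((a : G) * b) * (s₀ : G)⁻¹ = (a : G)⁻¹ * (b : G)⁻¹ := by
      rw [← hinv _ s₀.2 hs _ a.2, ← hinv _ s₀.2 hs _ b.2]; group
    rw [h, mul_inv_rev] at e
    calc ((a * b : K) : G) = ((b : G)⁻¹ * (a : G)⁻¹)⁻¹ := by rw [Subgroup.coe_mul]; group
      _ = _ := by rw [e, Subgroup.coe_mul]; group

end Cfsg.Agent.S0068
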