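import Cfsg.Statements.S0069
import Cfsg.Agent.Lib.GroupB.FpfPQ
import Cfsg.Agent.Lib.GroupB.Hall
import Cfsg.Agent.S0040
import Cfsg.Agent.S0068
import Cfsg.Agent.S0056

set_option autoImplicit false
open Cfsg

namespace Cfsg.Agent.S0069

/-- A Frobenius complement has nontrivial centre: if H ≠ 1 complements a nontrivial normal subgroup K and every nonidentity element of H has trivial centraliser in K, then the centre of H is nontrivial. -/
theorem result {G : Type*} [Group G] [Finite G] (K H : Subgroup G) [K.Normal]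
    (hc : Subgroup.IsComplement' K H) (hK : K ≠ ⊥) (hH : H ≠ ⊥) (hfpf : ∀ h ∈ H, h ≠ 1 → K ⊓ Subgroup.centralizer {h} = ⊥) :
    Subgroup.center H ≠ ⊥ := by
  classical
  by_cases heven : 2 ∣ Nat.card H
  · obtain ⟨⟨s, hs, hso, hsu, -⟩, -⟩ := Cfsg.Agent.S0068.result K H hc hK hfpf heven
    intro hbot
    have hmem : (⟨s, hs⟩ : H) ∈ Subgroup.center H := by
      rw [Subgroup.mem_center_iff]
      intro h
      have h1 := hsu ((h : G) * s * (h : G)⁻¹) (H.mul_mem (H.mul_mem h.2 hs) (H.inv_mem h.2))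
        (by rw [← MulAut.conj_apply, MulEquiv.orderOf_eq, hso])
      exact Subtype.ext (mul_inv_eq_iff_eq_mul.mp h1)
    rw [hbot, Subgroup.mem_bot] at hmem
    have h1 : s = 1 := congrArg Subtype.val hmem
    rw [h1, orderOf_one] at hso
    omega
  haveI : IsZGroup H := ⟨fun p hp P => by
    haveI := Fact.mk hp
    rcases Cfsg.Agent.S0040.result K H hc hK hfpf p P with h | ⟨n, ⟨e⟩⟩
    · exact h
    · exfalso
      refine heven ((dvd_trans ?_ (Subgroup.card_subgroup_dvd_card (P : Subgroup H))))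
      rw [Nat.card_congr e.toEquiv, Nat.card_eq_fintype_card, QuaternionGroup.card]
      exact ⟨2 * 2 ^ n, by ring⟩⟩
  haveI : Nontrivial H := (Subgroup.nontrivial_iff_ne_bot H).mpr hH
  set D := commutator H with hD
  by_cases hD0 : D = ⊥
  · have htop : Subgroup.center H = ⊤ := (commutator_eq_bot_iff_center_eq_top H).1 hD0
    rw [htop]; exact top_ne_bot
  haveI hDc : IsCyclic D := IsZGroup.isCyclic_commutator H
  have hidx : D.index ≠ 1 := fun h => (IsZGroup.commutator_lt (G := H)).ne (Subgroup.index_eq_one.mp h)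
  obtain ⟨r, hr, hrd⟩ := Nat.exists_prime_and_dvd hidx
  haveI := Fact.mk hr
  have hcopD : (Nat.card D).Coprime D.index := IsZGroup.coprime_commutator_index H
  obtain ⟨y, hy⟩ := exists_prime_orderOf_dvd_card' (G := H) r (hrd.trans (Subgroup.index_dvd_card D))
  have hKn : H ≤ Subgroup.normalizer (K : Set G) := by
    rw [Subgroup.normalizer_eq_top (H := K)]; exact le_top
  -- an abelian `H`-invariant subgroup
  obtain ⟨l, hl, hlK⟩ := Nat.exists_prime_and_dvd (fun h => hK (Subgroup.eq_bot_of_card_eq K h))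
  haveI := Fact.mk hl
  obtain ⟨⟨P, hP, hPH⟩, -⟩ := CfsgLib.GroupB.Coprime.invariant_sylow hKn
    (CfsgLib.Solvable.Fpf.coprime hKn hfpf) (Or.inr inferInstance) l
  have hPnt : Nontrivial P := by
    rw [← Finite.one_lt_card_iff_nontrivial, hP.2]
    exact Nat.one_lt_pow (Nat.Prime.factorization_pos_of_dvd hl Nat.card_pos.ne' hlK).ne' hl.one_lt
  set V := (Subgroup.center P).map P.subtype with hVdef
  have hVab : IsMulCommutative V := by rw [hVdef]; infer_instance
  have hV : V ≠ ⊥ := by
    rw [hVdef, Ne, Subgroup.map_eq_bot_iff_of_injective _ P.subtype_injective]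
    haveI := hP.isPGroup.center_nontrivial
    exact (Subgroup.nontrivial_iff_ne_bot _).mp inferInstance
  have hVH : H ≤ Subgroup.normalizer (V : Set G) :=
    hPH.trans (CfsgLib.GroupB.Hall.normalizer_le_normalizer_map (Subgroup.center P))
  have hVK : V ≤ K := (Subgroup.map_subtype_le _).trans hP.1
  have hVfpf : ∀ a ∈ H, a ≠ 1 → V ⊓ Subgroup.centralizer {a} = ⊥ := fun a ha ha1 =>
    le_bot_iff.mp ((inf_le_inf_right _ hVK).trans (hfpf a ha ha1).le)
  -- `y` centralises `D`
  set T := Subgroup.zpowers (y : G) with hT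
  set W := D.map H.subtype with hW
  haveI hWc : IsMulCommutative W := by rw [hW]; infer_instance
  have hTW : T ≤ Subgroup.normalizer (W : Set G) := by
    rw [hT, Subgroup.zpowers_le]
    exact CfsgLib.GroupB.Hall.normalizer_le_normalizer_map D (Subgroup.le_normalizer y.2)
  have hcop : (Nat.card T).Coprime (Nat.card W) := by
    rw [hT, Nat.card_zpowers, Subgroup.orderOf_coe, hy, hW, Subgroup.card_map_of_injective H.subtype_injective]
    exact Nat.Coprime.coprime_dvd_left hrd hcopD.symm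
  have hcent := Cfsg.Agent.S0056.result T W hTW hcop (by
    rintro v ⟨d, hd, rfl⟩ hv a ⟨k, rfl⟩
    have hn : ∀ u ∈ Subgroup.zpowers (d : G), (y : G) * u * (y : G)⁻¹ ∈ Subgroup.zpowers (d : G) := by
      obtain ⟨g, hg⟩ := IsCyclic.exists_generator (α := D)
      obtain ⟨i, hi⟩ := hg ⟨d, hd⟩
      obtain ⟨j, hj⟩ := hg ⟨y * g * y⁻¹, (inferInstance : D.Normal).conj_mem _ g.2 y⟩
      have hd' : ((g : H) : G) ^ i = d := congrArg (fun t : D => ((t : H) : G)) hi
      have hj' : ((g : H) : G) ^ j = y * ((g : H) : G) * (y : G)⁻¹ := congrArg (fun t : D => ((t : H) : G)) hj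
      rintro u ⟨m, rfl⟩
      refine ⟨j * m, ?_⟩
      show (d : G) ^ (j * m) = (y : G) * (d : G) ^ m * (y : G)⁻¹
      rw [← hd', ← MulAut.conj_apply, map_zpow, map_zpow, MulAut.conj_apply, ← hj', ← zpow_mul, ← zpow_mul,
        ← zpow_mul]
      ring_nf
    have hc' : Commute (d : G) y := CfsgLib.GroupB.FpfPQ.commute hVab hV hVH hVfpf d.2 y.2 hv
      (by rw [Subgroup.orderOf_coe, hy]; exact hr) hn
    exact (hc'.zpow_right k).symm.eq)
  have hyD : ∀ d ∈ D, Commute y d := fun d hd => Subtype.ext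
    (hcent (Subgroup.mem_zpowers (y : G)) d ⟨d, hd, rfl⟩).symm
  intro hbot
  have hmem : y ∈ Subgroup.center H := by
    rw [Subgroup.mem_center_iff]
    intro h
    set w := h * y * h⁻¹ * y⁻¹ with hw
    have hwD : w ∈ D := Subgroup.commutator_mem_commutator (Subgroup.mem_top h) (Subgroup.mem_top y)
    have hwr : w ^ r = 1 := by
      have h1 : (h * y * h⁻¹) ^ r = 1 := by rw [conj_pow, ← hy, pow_orderOf_eq_one]; simp
      have h2 : Commute (h * y * h⁻¹) y := by
        have : h * y * h⁻¹ = w * y := by rw [hw]; group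
        rw [this]
        exact ((hyD w hwD).symm.mul_left (Commute.refl y))
      rw [hw, h2.inv_right.mul_pow, h1, one_mul, inv_pow, ← hy, pow_orderOf_eq_one, inv_one]
    have hw1 : w = 1 := orderOf_eq_one_iff.mp (Nat.eq_one_of_dvd_coprimes
      (Nat.Coprime.coprime_dvd_left hrd hcopD.symm) (orderOf_dvd_of_pow_eq_one hwr)
      (Subgroup.orderOf_dvd_natCard D hwD))
    rw [hw, mul_inv_eq_one, mul_inv_eq_iff_eq_mul] at hw1
    exact hw1
  rw [hbot, Subgroup.mem_bot] at hmem
  rw [hmem, orderOf_one] at hy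
  exact hr.one_lt.ne hy

end Cfsg.Agent.S0069
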