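import Cfsg.Statements.S0070
import Cfsg.Agent.Lib.Solvable.Basics

set_option autoImplicit false
open Cfsg

namespace Cfsg.Agent.S0070

/-- The Fitting subgroup commutes with passing to the Frattini quotient: the Fitting subgroup of G modulo its Frattini subgroup is the image of the Fitting subgroup of G. -/
theorem result {G : Type*} [Group G] [Finite G] :
    Cfsg.fittingSubgroup (G ⧸ frattini G) = (Cfsg.fittingSubgroup G).map (QuotientGroup.mk' (frattini G)) := by
  haveI := CfsgLib.Core.fittingSubgroup_normal (G := G)
  haveI := CfsgLib.Core.isNilpotent_fittingSubgroup (G := G)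
  set q := QuotientGroup.mk' (frattini G) with hq
  refine le_antisymm (sSup_le fun N hN => ?_) ?_
  · haveI := hN.1
    have e : (N.comap q).map q = N := Subgroup.map_comap_eq_self_of_surjective (QuotientGroup.mk'_surjective _) N
    have hnil := CfsgLib.Solvable.Basics.isNilpotent_of_mod_frattini (H := N.comap q)
      (by rw [hq]; exact le_trans (by rw [QuotientGroup.ker_mk']) (Subgroup.ker_le_comap _ N)) (by rw [← hq, e]; exact hN.2)
    rw [← e]
    exact Subgroup.map_mono (CfsgLib.Core.le_fittingSubgroup inferInstance hnil)
  · refine CfsgLib.Core.le_fittingSubgroup ((inferInstance : (Cfsg.fittingSubgroup G).Normal).map q (QuotientGroup.mk'_surjective _)) ?_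
    exact Group.nilpotent_of_surjective (q.subgroupMap (Cfsg.fittingSubgroup G)) (MonoidHom.subgroupMap_surjective _ _)

end Cfsg.Agent.S0070
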