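import Cfsg.Statements.S0073
import Cfsg.Agent.Lib.FocalTransfer

set_option autoImplicit false
set_option linter.style.haveILetI false
open Cfsg

namespace Cfsg.Agent.S0073

/-- For a finite non-abelian simple group, either the cube of the least prime divisor of the order divides the order, or 12 does. -/
theorem result {G : Type*} [Group G] [Finite G] [IsSimpleGroup G] (hG : ∃ x y : G, x * y ≠ y * x) : (Nat.card G).minFac ^ 3 ∣ Nat.card G ∨ 12 ∣ Nat.card G := by
  classical
  by_contra hcon
  rw [not_or] at hcon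
  obtain ⟨h1, h2⟩ := hcon
  obtain ⟨x, y, hxy⟩ := hG
  haveI : Nontrivial G := ⟨⟨x * y, y * x, hxy⟩⟩
  set p := (Nat.card G).minFac with hp
  have hpp : p.Prime := Nat.minFac_prime (Finite.one_lt_card.ne')
  haveI := Fact.mk hpp
  obtain ⟨P⟩ : Nonempty (Sylow p G) := inferInstance
  obtain ⟨a, ha⟩ := P.isPGroup'.exists_card_eq
  have haG : p ^ a ∣ Nat.card G := ha ▸ Subgroup.card_subgroup_dvd_card _
  have ha2 : a ≤ 2 := by
    by_contra h
    exact h1 ((pow_dvd_pow p (by omega : 3 ≤ a)).trans haG)
  have ha0 : a ≠ 0 := by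
    intro h; subst h
    exact P.ne_bot_of_dvd_card (Nat.minFac_dvd _) (Subgroup.eq_bot_of_card_eq _ (by simpa using ha))
  have hcomm : IsMulCommutative ↥(P : Subgroup G) := by
    interval_cases a
    · omega
    · haveI : IsCyclic ↥(P : Subgroup G) := isCyclic_of_prime_card (p := p) (by simpa using ha)
      exact ⟨⟨fun u v => IsCyclic.commGroup.mul_comm u v⟩⟩
    · exact IsPGroup.isMulCommutative_of_card_eq_prime_sq ha
  by_cases hle : Subgroup.normalizer ((P : Subgroup G) : Set G) ≤ Subgroup.centralizer ((P : Subgroup G) : Set G)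
  · obtain ⟨P', N, hN, hc⟩ := CfsgLib.FocalTransfer.npc_of_normalizer_le P hle
    rcases hN.eq_bot_or_eq_top with h | h
    · subst h
      have hP' : (P' : Subgroup G) = ⊤ := Subgroup.isComplement'_bot_left.mp hc
      have hG' : IsPGroup p G := (hP' ▸ P'.isPGroup' : IsPGroup p ↥(⊤ : Subgroup G)).of_surjective (Subgroup.topEquiv (G := G)).toMonoidHom (Subgroup.topEquiv (G := G)).surjective
      haveI := hG'.isNilpotent
      exact hxy (Subgroup.mem_center_iff.mp
        (((inferInstance : (Subgroup.center G).Normal).eq_bot_or_eq_top.resolve_left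
          (Group.IsNilpotent.center_ne_bot _)) ▸ Subgroup.mem_top y) x)
    · subst h
      exact P'.ne_bot_of_dvd_card (Nat.minFac_dvd _) (Subgroup.isComplement'_top_left.mp hc)
  · obtain ⟨q, j, hq, hqp, hqG, hj, hd⟩ := CfsgLib.FocalTransfer.exists_prime_of_not_central P hcomm ha hle
    have hqgt : p < q := lt_of_le_of_ne (Nat.minFac_le_of_dvd hq.two_le hqG) (Ne.symm hqp)
    have hp2 := hpp.two_le
    have hsmall : ¬ q ∣ p - 1 := fun h => by
      have := Nat.le_of_dvd (by omega) h; omega
    have hnp : ¬ q ∣ p := fun h => hqp ((Nat.prime_dvd_prime_iff_eq hq hpp).mp h)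
    have hfin : q ∣ p + 1 ∧ a = 2 := by
      interval_cases a <;> interval_cases j
      · simp at hd; exact absurd hd hsmall
      · have e : p ^ 2 - p ^ 0 = (p + 1) * (p - 1) := by
          rw [pow_zero]; have := Nat.sq_sub_sq p 1; simpa using this
        rw [e] at hd
        exact ⟨(hq.dvd_mul.mp hd).resolve_right hsmall, rfl⟩
      · have e : p ^ 2 - p ^ 1 = p * (p - 1) := by rw [pow_one, pow_two, Nat.mul_sub_one]
        rw [e] at hd
        exact absurd ((hq.dvd_mul.mp hd).resolve_left hnp) hsmall
    obtain ⟨hq1, rfl⟩ := hfin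
    have hqe : q = p + 1 := by have := Nat.le_of_dvd (by omega) hq1; omega
    have hp22 : p = 2 := by
      rcases hpp.eq_two_or_odd with h | h
      · exact h
      · exfalso
        have : q = 2 := ((hq.eq_one_or_self_of_dvd 2 (by omega)).resolve_left (by norm_num)).symm
        omega
    rw [hqe, hp22] at hqG
    rw [hp22] at haG
    exact h2 (Nat.Coprime.mul_dvd_of_dvd_of_dvd (by norm_num : Nat.Coprime 4 3) haG hqG)

end Cfsg.Agent.S0073
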