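import Cfsg.Statements.S0075
import Cfsg.Agent.Lib.FocalTransfer
import Cfsg.Agent.Lib.PResidual

set_option autoImplicit false
set_option linter.style.haveILetI false
open Cfsg

namespace Cfsg.Agent.S0075

/-- For an abelian Sylow p-subgroup T, its intersection with the subgroup generated by the elements of order prime to p is the commutator of T with its normalizer. -/
theorem result {G : Type*} [Group G] [Finite G] {p : ℕ} [Fact p.Prime] (T : Sylow p G) (hT : IsMulCommutative T) : (T : Subgroup G) ⊓ Cfsg.pResidual p G = ⁅(T : Subgroup G), Subgroup.normalizer (T : Set G)⁆ := by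
  refine Eq.trans ?_ (CfsgLib.FocalTransfer.abelian_sylow T hT)
  refine le_antisymm (le_inf ?_ inf_le_left) (le_inf inf_le_right ?_)
  · obtain ⟨heq, N, hN, hNT, hsup⟩ := CfsgLib.FocalTransfer.coprime_focal (T : Subgroup G)
      (CfsgLib.FocalTransfer.sylow_coprime_relIndex T)
    haveI := hN
    have hp : IsPGroup p (G ⧸ N) := by
      refine T.isPGroup'.of_surjective ((QuotientGroup.mk' N).comp (T : Subgroup G).subtype) fun x => ?_
      obtain ⟨g, rfl⟩ := QuotientGroup.mk'_surjective N x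
      obtain ⟨u, hu, v, hv, rfl⟩ := Subgroup.mem_sup_of_normal_left.mp (hsup ▸ Subgroup.mem_top g)
      exact ⟨⟨v, hv⟩, by simp [(QuotientGroup.eq_one_iff u).mpr hu]⟩
    intro x hx
    exact (hNT ▸ (⟨CfsgLib.PResidual.pResidual_le hp hx.2, hx.1⟩ : x ∈ N ⊓ (T : Subgroup G)) :
      x ∈ commutator G ⊓ (T : Subgroup G)).1
  · refine inf_le_left.trans ?_
    rw [← Subgroup.Normal.quotient_commutative_iff_commutator_le]
    have hsup := CfsgLib.PResidual.sup_pResidual_eq_top T
    refine ⟨⟨fun a b => ?_⟩⟩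
    obtain ⟨g, rfl⟩ := QuotientGroup.mk'_surjective _ a
    obtain ⟨g', rfl⟩ := QuotientGroup.mk'_surjective _ b
    obtain ⟨u, hu, v, hv, rfl⟩ := Subgroup.mem_sup_of_normal_right.mp (hsup ▸ Subgroup.mem_top g)
    obtain ⟨u', hu', v', hv', rfl⟩ := Subgroup.mem_sup_of_normal_right.mp (hsup ▸ Subgroup.mem_top g')
    have hone : ∀ w ∈ Cfsg.pResidual p G, QuotientGroup.mk' (Cfsg.pResidual p G) w = 1 :=
      fun w hw => (QuotientGroup.eq_one_iff w).mpr hw
    rw [map_mul, map_mul, hone v hv, hone v' hv', mul_one, mul_one, ← map_mul, ← map_mul]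
    exact congrArg _ (congrArg Subtype.val (hT.is_comm.comm (⟨u, hu⟩ : (T : Subgroup G)) ⟨u', hu'⟩))

end Cfsg.Agent.S0075
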