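import Cfsg.Statements.S0076
import Cfsg.Agent.Lib.FocalTransfer

set_option autoImplicit false
open Cfsg

namespace Cfsg.Agent.S0076

/-- Two P-invariant subsets of a Sylow p-subgroup P that are conjugate in G are conjugate under the normalizer of P. -/
theorem result {G : Type*} [Group G] [Finite G] {p : ℕ} [Fact p.Prime] (P : Sylow p G) (X Y : Set G) (hXP : X ⊆ P) (hYP : Y ⊆ P) (hX : ∀ x ∈ P, (fun y => x * y * x⁻¹) '' X = X) (hY : ∀ x ∈ P, (fun y => x * y * x⁻¹) '' Y = Y) (g : G) (hg : (fun y => g * y * g⁻¹) '' X = Y) : ∃ n ∈ Subgroup.normalizer (P : Set G), (fun y => n * y * n⁻¹) '' X = Y := by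
  classical
  have himg : ∀ (a b : G) (S : Set G), (fun y => a * y * a⁻¹) '' ((fun y => b * y * b⁻¹) '' S)
      = (fun y => (a * b) * y * (a * b)⁻¹) '' S := by
    intro a b S
    rw [Set.image_image]
    refine Set.image_congr fun y _ => ?_
    group
  let N : Subgroup G :=
    { carrier := {a | (fun y => a * y * a⁻¹) '' Y = Y}
      one_mem' := by simp
      mul_mem' := fun {a b} ha hb => by
        show (fun y => (a * b) * y * (a * b)⁻¹) '' Y = Y
        rw [← himg, hb, ha]
      inv_mem' := fun {a} ha => by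
        show (fun y => a⁻¹ * y * a⁻¹⁻¹) '' Y = Y
        conv_lhs => rw [← ha, himg]
        simp }
  have hPN : (P : Subgroup G) ≤ N := fun x hx => hY x hx
  have hgPN : ((g • P : Sylow p G) : Subgroup G) ≤ N := by
    intro t ht
    rw [Sylow.coe_subgroup_smul] at ht
    obtain ⟨s, hs, rfl⟩ := Subgroup.mem_map.mp ht
    show (fun y => (g * s * g⁻¹) * y * (g * s * g⁻¹)⁻¹) '' Y = Y
    rw [← hg, himg]
    have e : g * s * g⁻¹ * g = g * s := by group
    rw [e, ← himg, hX s hs]
  obtain ⟨m, hm, hm'⟩ := CfsgLib.LocalBasic.exists_conj_le_sylow P hPN (g • P).isPGroup' hgPN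
  have hmg : m * g ∈ Subgroup.normalizer ((P : Subgroup G) : Set G) := by
    refine CfsgLib.LocalBasic.mem_normalizer_of_conj_map_eq (Subgroup.eq_of_le_of_card_ge ?_
      (Subgroup.card_map_of_injective (MulAut.conj (m * g)).injective).ge)
    rintro _ ⟨s, hs, rfl⟩
    have h1 : g * s * g⁻¹ ∈ ((g • P : Sylow p G) : Subgroup G) := by
      rw [Sylow.coe_subgroup_smul]; exact Subgroup.mem_map.mpr ⟨s, hs, rfl⟩
    simpa [mul_assoc] using hm' _ h1
  refine ⟨m * g, hmg, ?_⟩
  rw [← himg, hg]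
  exact hm

end Cfsg.Agent.S0076
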