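import Cfsg.Statements.S0077
import Cfsg.Agent.Lib.FocalTransfer

set_option autoImplicit false
set_option linter.style.haveILetI false
open Cfsg

namespace Cfsg.Agent.S0077

/-- If a subgroup Z of the centre of a Sylow p-subgroup P is weakly closed in P, then P meets the derived subgroup of G exactly where it meets the derived subgroup of the normalizer of Z. -/
theorem result {G : Type*} [Group G] [Finite G] {p : ℕ} [Fact p.Prime] (P : Sylow p G) (Z : Subgroup G) (hZ : Z ≤ Subgroup.centralizer (P : Set G)) (hW : Cfsg.IsWeaklyClosed Z P) : commutator G ⊓ (P : Subgroup G) = ⁅Subgroup.normalizer (Z : Set G), Subgroup.normalizer (Z : Set G)⁆ ⊓ (P : Subgroup G) := by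
  refine le_antisymm (le_inf ?_ inf_le_right) (inf_le_inf_right _ (CfsgLib.FocalTransfer.le_commutator_top _ _))
  obtain ⟨hZP, hW⟩ := hW
  have hPC : ∀ u ∈ (P : Subgroup G), ∀ z ∈ Z, u * z = z * u := fun u hu z hz =>
    Subgroup.mem_centralizer_iff.mp (hZ hz) u hu
  have hPN : (P : Subgroup G) ≤ Subgroup.normalizer (Z : Set G) := fun u hu => by
    rw [Subgroup.mem_normalizer_iff]
    intro z
    constructor
    · intro hz; rwa [hPC u hu z hz, mul_inv_cancel_right]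
    · intro hz
      have h1 := hPC u⁻¹ (inv_mem hu) _ hz
      have e : u⁻¹ * (u * z * u⁻¹) * u = z := by group
      rw [h1, inv_mul_cancel_right] at e
      exact e ▸ hz
  rw [Subgroup.commutator_inf_eq_focalSubgroup P]
  refine (CfsgLib.FocalTransfer.focal_le_commutator_of_control fun x hx g hg => ?_).trans
    (Subgroup.commutator_mono hPN le_rfl)
  set C := Subgroup.centralizer ({x} : Set G) with hC
  have hZC : Z ≤ C := fun z hz => Subgroup.mem_centralizer_singleton_iff.mpr (hPC x hx z hz).symm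
  set Z' := Z.map (MulAut.conj g⁻¹).toMonoidHom with hZ'
  have hZ'C : Z' ≤ C := by
    rintro _ ⟨z, hz, rfl⟩
    have h1 := hPC _ hg z hz
    refine Subgroup.mem_centralizer_singleton_iff.mpr ?_
    show g⁻¹ * z * g⁻¹⁻¹ * x = x * (g⁻¹ * z * g⁻¹⁻¹)
    calc g⁻¹ * z * g⁻¹⁻¹ * x = g⁻¹ * (z * (g * x * g⁻¹)) * g := by group
      _ = g⁻¹ * (g * x * g⁻¹ * z) * g := by rw [h1]
      _ = _ := by group
  obtain ⟨Q, hQ⟩ := ((P.isPGroup'.to_le hZP).comap_subtype (H := Z) (K := C)).exists_le_sylow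
  obtain ⟨Q', hQ'⟩ := (((P.isPGroup'.to_le hZP).map _).comap_subtype (H := Z') (K := C)).exists_le_sylow
  obtain ⟨c, hc⟩ := MulAction.exists_smul_eq ↥C Q' Q
  obtain ⟨T, hT⟩ := (Q.isPGroup'.map C.subtype).exists_le_sylow
  obtain ⟨h, hh⟩ := MulAction.exists_smul_eq G T P
  have hin : ∀ w ∈ (Q : Subgroup ↥C), h * (w : G) * h⁻¹ ∈ (P : Subgroup G) := by
    intro w hw
    rw [← hh, Sylow.coe_subgroup_smul]
    exact Subgroup.mem_map.mpr ⟨w, hT ⟨w, hw, rfl⟩, rfl⟩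
  have h1 : Z.map (MulAut.conj h).toMonoidHom = Z :=
    hW h (by rintro _ ⟨z, hz, rfl⟩; exact hin ⟨z, hZC hz⟩ (hQ (by simpa [Subgroup.mem_subgroupOf] using hz)))
  have h2 : Z.map (MulAut.conj (h * c * g⁻¹)).toMonoidHom = Z := by
    refine hW _ ?_
    rintro _ ⟨z, hz, rfl⟩
    have hz' : (⟨g⁻¹ * z * g⁻¹⁻¹, hZ'C ⟨z, hz, rfl⟩⟩ : ↥C) ∈ (Q' : Subgroup ↥C) :=
      hQ' (⟨z, hz, rfl⟩ : g⁻¹ * z * g⁻¹⁻¹ ∈ Z')
    have hcz : c * ⟨g⁻¹ * z * g⁻¹⁻¹, hZ'C ⟨z, hz, rfl⟩⟩ * c⁻¹ ∈ (Q : Subgroup ↥C) := by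
      rw [← hc, Sylow.coe_subgroup_smul]
      exact Subgroup.mem_map.mpr ⟨_, hz', rfl⟩
    simpa [mul_assoc] using hin _ hcz
  have hn : (c : G) * g⁻¹ ∈ Subgroup.normalizer (Z : Set G) := by
    have := mul_mem (inv_mem (CfsgLib.LocalBasic.mem_normalizer_of_conj_map_eq h1))
      (CfsgLib.LocalBasic.mem_normalizer_of_conj_map_eq h2)
    simpa [mul_assoc] using this
  refine ⟨((c : G) * g⁻¹)⁻¹, inv_mem hn, ?_⟩
  have hcx : (c : G)⁻¹ * x = x * (c : G)⁻¹ := Subgroup.mem_centralizer_singleton_iff.mp (C.inv_mem c.2)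
  calc ((c : G) * g⁻¹)⁻¹ * x * ((c : G) * g⁻¹)⁻¹⁻¹ = g * ((c : G)⁻¹ * x * c) * g⁻¹ := by group
    _ = _ := by rw [hcx, inv_mul_cancel_right]

end Cfsg.Agent.S0077
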