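import Cfsg.Statements.S0078
import Cfsg.Agent.Lib.Puig
import Cfsg.Agent.Lib.LocalBasic

set_option autoImplicit false
set_option linter.style.haveILetI false
open Cfsg

namespace Cfsg.Agent.S0078

open scoped Pointwise

theorem center_smul {G : Type*} [Group G] {p : ℕ} (g : G) (Q : Sylow p G) {x : G} :
    x ∈ ((g • Q : Sylow p G) : Subgroup G) ⊓ Subgroup.centralizer ((g • Q : Sylow p G) : Set G) ↔
      g⁻¹ * x * g ∈ (Q : Subgroup G) ⊓ Subgroup.centralizer (Q : Set G) := by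
  have hm : ∀ {h : G} {R : Sylow p G} {y : G}, y ∈ ((h • R : Sylow p G) : Subgroup G) ↔ h⁻¹ * y * h ∈ (R : Subgroup G) := by
    intro h R y
    rw [Sylow.coe_subgroup_smul, Subgroup.mem_pointwise_smul_iff_inv_smul_mem]
    simp
  constructor
  · rintro ⟨hx, hxc⟩
    refine ⟨hm.mp hx, Subgroup.mem_centralizer_iff.mpr fun y hy => ?_⟩
    have h1 : g * y * g⁻¹ ∈ ((g • Q : Sylow p G) : Subgroup G) := hm.mpr (by simpa [mul_assoc] using (show y ∈ (Q : Subgroup G) from hy))
    have h2 := congrArg (fun z => g⁻¹ * z * g) (Subgroup.mem_centralizer_iff.mp hxc _ h1)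
    simp only [mul_assoc, inv_mul_cancel_left, inv_mul_cancel, mul_one] at h2
    simpa [mul_assoc] using h2
  · rintro ⟨hx, hxc⟩
    refine ⟨hm.mpr hx, Subgroup.mem_centralizer_iff.mpr fun y hy => ?_⟩
    have h1 : g⁻¹ * y * g ∈ (Q : Subgroup G) := hm.mp hy
    have h2 := congrArg (fun z => g * z * g⁻¹) (Subgroup.mem_centralizer_iff.mp hxc _ h1)
    simp only [mul_assoc, mul_inv_cancel_left, mul_inv_cancel, mul_one] at h2
    simpa [mul_assoc] using h2

theorem exists_sylow_ge {G : Type*} [Group G] [Finite G] {p : ℕ} [Fact p.Prime] {M X : Subgroup G}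
    (hX : IsPGroup p ↥X) (hXM : X ≤ M) :
    ∃ T : Subgroup G, X ≤ T ∧ T ≤ M ∧ IsPGroup p ↥T ∧ ¬ p ∣ T.relIndex M := by
  obtain ⟨T, hT⟩ := (hX.comap_subtype (K := M)).exists_le_sylow
  refine ⟨(T : Subgroup ↥M).map M.subtype, ?_, Subgroup.map_subtype_le _, T.2.map _, ?_⟩
  · intro x hx
    exact ⟨⟨x, hXM hx⟩, hT hx, rfl⟩
  · have e : ((T : Subgroup ↥M).map M.subtype).subgroupOf M = (T : Subgroup ↥M) :=
      Subgroup.comap_map_eq_self_of_injective M.subtype_injective _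
    rw [Subgroup.relIndex, e]
    exact T.not_dvd_index


/-- In a p-normal group, a Sylow p-subgroup P meets O^p(G) exactly where it meets O^p(V), for any subgroup V containing the normalizer of the centre of P. -/
theorem result {G : Type*} [Group G] [Finite G] {p : ℕ} [Fact p.Prime] (P : Sylow p G) (hn : ∀ Q : Sylow p G, (P : Subgroup G) ⊓ Subgroup.centralizer (P : Set G) ≤ (Q : Subgroup G) → (Q : Subgroup G) ⊓ Subgroup.centralizer (Q : Set G) = (P : Subgroup G) ⊓ Subgroup.centralizer (P : Set G)) (V : Subgroup G) (hV : Subgroup.normalizer (((P : Subgroup G) ⊓ Subgroup.centralizer (P : Set G) : Subgroup G) : Set G) ≤ V) : (P : Subgroup G) ⊓ Cfsg.pResidual p G = (P : Subgroup G) ⊓ (Cfsg.pResidual p V).map V.subtype := by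
  refine le_antisymm ?_ (inf_le_inf_left _ (CfsgLib.PResidual.map_pResidual _))
  refine le_inf inf_le_left ?_
  rw [← CfsgLib.Puig.hyp_eq P]
  set Z := (P : Subgroup G) ⊓ Subgroup.centralizer (P : Set G) with hZ
  have hPZ : (P : Subgroup G) ≤ Subgroup.normalizer (Z : Set G) := fun x hx =>
    CfsgLib.LocalBasic.normalizer_inf_ge (B := (P : Subgroup G)) (X := (P : Subgroup G))
      (Y := Subgroup.centralizer ((P : Subgroup G) : Set G)) Subgroup.le_normalizer
      (CfsgLib.LocalBasic.normalizer_centralizer_ge Subgroup.le_normalizer) hx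
  refine CfsgLib.Puig.hyp_le_map (P : Subgroup G) V (hPZ.trans hV) fun P' g hP' hg => ?_
  set C := Subgroup.centralizer (P' : Set G) with hC
  have hZC : Z ≤ C := fun z hz => Subgroup.mem_centralizer_iff.mpr fun y hy =>
    Subgroup.mem_centralizer_iff.mp hz.2 y (hP' hy)
  have hZg : Z.map (MulAut.conj g⁻¹).toMonoidHom ≤ C := by
    rintro _ ⟨z, hz, rfl⟩
    refine Subgroup.mem_centralizer_iff.mpr fun y hy => ?_
    have h1 := Subgroup.mem_centralizer_iff.mp hz.2 _ (hg ⟨y, hy⟩)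
    have h2 := congrArg (fun w => g⁻¹ * w * g) h1
    simpa [mul_assoc] using h2
  obtain ⟨T, hZT, hTC, hTp, hTi⟩ := exists_sylow_ge (p := p) (P.2.to_le inf_le_left : IsPGroup p ↥Z) hZC
  obtain ⟨Q1, hQ1⟩ := hTp.exists_le_sylow
  have hQ1Z : (Q1 : Subgroup G) ⊓ Subgroup.centralizer (Q1 : Set G) = Z := hn Q1 (hZT.trans hQ1)
  obtain ⟨c, hc, hcT⟩ := CfsgLib.Fusion.exists_conj_le (H := C) (X := T) hTp hTi
    (Y := Z.map (MulAut.conj g⁻¹).toMonoidHom) ((P.2.to_le inf_le_left : IsPGroup p ↥Z).map _) hZg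
  set k := g * c⁻¹ with hk
  have hQ' : (P : Subgroup G) ⊓ Subgroup.centralizer (P : Set G) ≤ ((k • Q1 : Sylow p G) : Subgroup G) := by
    intro z hz
    rw [Sylow.coe_subgroup_smul, Subgroup.mem_pointwise_smul_iff_inv_smul_mem]
    have : c * (g⁻¹ * z * g) * c⁻¹ ∈ T := hcT ⟨g⁻¹ * z * g, ⟨z, hz, by simp⟩, rfl⟩
    simpa [hk, mul_assoc] using hQ1 this
  have hkZ := hn (k • Q1) hQ'
  have hkN : k ∈ Subgroup.normalizer (Z : Set G) := by
    refine Subgroup.mem_normalizer_iff''.mpr fun x => ?_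
    have h1 := center_smul k Q1 (x := x)
    rw [hkZ, hQ1Z] at h1
    exact h1
  refine ⟨k, hV hkN, fun y => ?_⟩
  have hcy : (y : G) * c⁻¹ = c⁻¹ * y := Subgroup.mem_centralizer_iff.mp (C.inv_mem hc) y y.2
  calc k * (y : G) * k⁻¹ = g * (c⁻¹ * y) * c * g⁻¹ := by rw [hk]; group
    _ = g * y * g⁻¹ := by rw [← hcy]; group

end Cfsg.Agent.S0078
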