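import Cfsg.Statements.S0079
import Cfsg.Agent.S0071
import Cfsg.Agent.Lib.LocalBasic

set_option autoImplicit false
set_option linter.style.haveILetI false
open Cfsg

namespace Cfsg.Agent.S0079

open scoped commutatorElement Pointwise

/-- A `p'`-element acting on a `p`-subgroup of a nilpotent `K` by fusion inside `K` centralises it. -/
theorem centralizes_of_conj {G : Type*} [Group G] [Finite G] {p : ℕ} [Fact p.Prime] (K : Subgroup G)
    (hK : Group.IsNilpotent ↥K) (Q : Subgroup G) (hQ : IsPGroup p ↥Q) (hQK : Q ≤ K) {b : G}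
    (hb : (orderOf b).Coprime p) (h : ∀ x ∈ Q, b * x * b⁻¹ ∈ Q ∧ ∃ v ∈ K, b * x * b⁻¹ = v * x * v⁻¹) :
    ∀ x ∈ Q, b * x = x * b := by
  obtain ⟨m, hm⟩ := (Group.isNilpotent_iff (G := ↥K)).mp hK
  let f : ℕ → Subgroup G := fun i => Q ⊓ (Subgroup.upperCentralSeries ↥K (m - i)).map K.subtype
  have hf0 : Q = f 0 := by
    simp only [f, Nat.sub_zero, hm]
    rw [← MonoidHom.range_eq_map, Subgroup.range_subtype, inf_eq_left.mpr hQK]
  intro x hx
  rw [hf0] at hx
  refine CfsgLib.LocalBasic.centralizes_of_series f m ?_ (fun i _ => hQ.to_le inf_le_left) hb ?_ x hx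
  · simp [f]
  · rintro i hi y ⟨hyQ, z, hz, rfl⟩
    obtain ⟨h1, v, hv, h2⟩ := h _ hyQ
    have e : ⁅b, (K.subtype z : G)⁆ = ((⁅(⟨v, hv⟩ : ↥K), z⁆ : ↥K) : G) := by
      rw [commutatorElement_def, h2]
      rfl
    refine ⟨?_, ⁅(⟨v, hv⟩ : ↥K), z⁆, ?_, e.symm⟩
    · show ⁅b, (K.subtype z : G)⁆ ∈ Q
      exact Q.mul_mem h1 (Q.inv_mem hyQ)
    · have hm' : m - i = m - (i + 1) + 1 := by omega
      rw [hm'] at hz
      have h3 := inv_mem (Subgroup.mem_upperCentralSeries_succ_iff.mp hz ⟨v, hv⟩)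
      rwa [commutatorElement_inv] at h3


/-- A nilpotent Hall subgroup has a normal complement exactly when elements of it that are conjugate in the whole group are already conjugate inside it. -/
theorem result {G : Type*} [Group G] [Finite G] (H : Subgroup G) (hH : Group.IsNilpotent H) (hHall : Nat.Coprime (Nat.card H) H.index) : (∃ N : Subgroup G, N.Normal ∧ N.IsComplement' H) ↔ ∀ x ∈ H, ∀ y ∈ H, (∃ g : G, g * x * g⁻¹ = y) → ∃ h ∈ H, h * x * h⁻¹ = y := by
  classical
  constructor
  · rintro ⟨N, hN, hc⟩ x hx y hy ⟨g, rfl⟩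
    obtain ⟨n, hn, h, hh, rfl⟩ := Subgroup.mem_sup_of_normal_left.mp (hc.sup_eq_top ▸ Subgroup.mem_top g)
    refine ⟨h, hh, ?_⟩
    set z := h * x * h⁻¹ with hz
    have hzH : z ∈ H := mul_mem (mul_mem hh hx) (inv_mem hh)
    have e : n * h * x * (n * h)⁻¹ = n * z * n⁻¹ := by rw [hz]; group
    rw [e] at hy ⊢
    have h1 : n * z * n⁻¹ * z⁻¹ ∈ N ⊓ H :=
      ⟨by have := N.mul_mem hn (hN.conj_mem _ (N.inv_mem hn) z); simpa [mul_assoc] using this, H.mul_mem hy (H.inv_mem hzH)⟩
    rw [disjoint_iff.mp hc.disjoint, Subgroup.mem_bot, mul_inv_eq_one] at h1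
    exact h1.symm
  · intro h
    have key : ∀ p ∈ (Nat.card H).primeFactors, ∃ N : Subgroup G, N.Normal ∧
        N.index = p ^ (Nat.card G).factorization p ∧ ¬ p ∣ Nat.card N := by
      intro p hp
      obtain ⟨hpp, hpd, -⟩ := Nat.mem_primeFactors.mp hp
      haveI := Fact.mk hpp
      obtain ⟨S⟩ : Nonempty (Sylow p ↥H) := inferInstance
      have hfac : (Nat.card H).factorization p = (Nat.card G).factorization p := by
        rw [← H.card_mul_index, Nat.factorization_mul Nat.card_pos.ne' Subgroup.index_ne_zero_of_finite, Finsupp.add_apply,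
          Nat.factorization_eq_zero_of_not_dvd (n := H.index) (fun hd => hpp.not_dvd_one (hHall ▸ Nat.dvd_gcd hpd hd)), add_zero]
      let P : Sylow p G := Sylow.ofCard ((S : Subgroup ↥H).map H.subtype)
        (by rw [Subgroup.card_map_of_injective H.subtype_injective, S.card_eq_multiplicity, hfac])
      have hPH : (P : Subgroup G) ≤ H := Subgroup.map_subtype_le _
      obtain ⟨N, hN, hc⟩ := (Cfsg.Agent.S0071.result P).mpr fun Q hQ g hg hgo => by
        refine Subgroup.mem_centralizer_iff.mpr fun u hu => ?_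
        refine (centralizes_of_conj H hH Q (P.isPGroup'.to_le hQ) (hQ.trans hPH) hgo (fun x hx => ?_) u hu).symm
        refine ⟨(Subgroup.mem_normalizer_iff.mp hg x).mp hx, ?_⟩
        obtain ⟨v, hv, hv'⟩ := h x (hPH (hQ hx)) _ (hPH (hQ ((Subgroup.mem_normalizer_iff.mp hg x).mp hx))) ⟨g, rfl⟩
        exact ⟨v, hv, hv'.symm⟩
      refine ⟨N, hN, by rw [hc.symm.index_eq_card, P.card_eq_multiplicity], ?_⟩
      rw [← hc.index_eq_card]
      exact P.not_dvd_index
    choose N hN hidx hnd using key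
    let K : Subgroup G := ⨅ p : (Nat.card H).primeFactors, N p p.2
    haveI hKn : K.Normal := Subgroup.normal_iInf_normal fun p => hN p p.2
    have hdisj : K ⊓ H = ⊥ := by
      rw [eq_bot_iff]
      rintro x ⟨hxK, hxH⟩
      rw [Subgroup.mem_bot]
      by_contra hx
      obtain ⟨p, hp, hpd⟩ := Nat.exists_prime_and_dvd (fun e : orderOf x = 1 => hx (orderOf_eq_one_iff.mp e))
      have hpH : p ∈ (Nat.card H).primeFactors :=
        Nat.mem_primeFactors.mpr ⟨hp, hpd.trans (Subgroup.orderOf_dvd_natCard H hxH), Nat.card_pos.ne'⟩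
      exact hnd p hpH (hpd.trans (Subgroup.orderOf_dvd_natCard _ (Subgroup.mem_iInf.mp hxK ⟨p, hpH⟩)))
    have hKidx : K.index ≤ Nat.card H := by
      refine (Subgroup.index_iInf_le _).trans (le_of_eq ?_)
      have e : ∀ p : (Nat.card H).primeFactors, (N p p.2).index = (p : ℕ) ^ (Nat.card H).factorization p := fun p => by
        obtain ⟨hpp, hpd, -⟩ := Nat.mem_primeFactors.mp p.2
        rw [hidx, ← H.card_mul_index, Nat.factorization_mul Nat.card_pos.ne' Subgroup.index_ne_zero_of_finite, Finsupp.add_apply,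
          Nat.factorization_eq_zero_of_not_dvd (n := H.index) (fun hd => hpp.not_dvd_one (hHall ▸ Nat.dvd_gcd hpd hd)), add_zero]
      simp only [e]
      rw [Finset.prod_coe_sort (Nat.card H).primeFactors (fun p => p ^ (Nat.card H).factorization p)]
      exact Nat.prod_factorization_pow_eq_self (Nat.card_pos (α := ↥H)).ne'
    refine ⟨K, hKn, Subgroup.isComplement'_of_card_mul_and_disjoint ?_ (disjoint_iff.mpr hdisj)⟩
    have h1 : Nat.card H * Nat.card K ≤ Nat.card G := by
      have := CfsgLib.LocalBasic.card_mul_le H K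
      rw [inf_comm, hdisj, Subgroup.card_bot, mul_one] at this
      exact this.trans (Finite.card_subtype_le _)
    have h2 := K.card_mul_index
    have h3 : Nat.card K * K.index ≤ Nat.card K * Nat.card H := Nat.mul_le_mul_left _ hKidx
    rw [mul_comm (Nat.card H)] at h1
    omega

end Cfsg.Agent.S0079
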