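import Cfsg.Statements.S0082
import Cfsg.Agent.Lib.FocalTransfer
import Cfsg.Agent.S0075

set_option autoImplicit false
set_option linter.style.haveILetI false
open Cfsg

namespace Cfsg.Agent.S0082

/-- With a cyclic Sylow p-subgroup, either there is a normal p-complement or the elements of order prime to p generate the whole group. -/
theorem result {G : Type*} [Group G] [Finite G] {p : ℕ} [Fact p.Prime] (P : Sylow p G) (hP : IsCyclic P) : Cfsg.HasNormalPComplement p G ∨ Cfsg.pResidual p G = ⊤ := by
  classical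
  haveI := Fintype.ofFinite ↥(P : Subgroup G)
  have hcomm : IsMulCommutative ↥(P : Subgroup G) := ⟨⟨fun u v => hP.commGroup.mul_comm u v⟩⟩
  obtain ⟨hbot, hsup⟩ := CfsgLib.FocalTransfer.sylow_decomp P hcomm
  set A := ⁅(P : Subgroup G), Subgroup.normalizer ((P : Subgroup G) : Set G)⁆ with hA
  set D := (P : Subgroup G) ⊓ Subgroup.centralizer (Subgroup.normalizer ((P : Subgroup G) : Set G) : Set G) with hD
  have hAP : A ≤ (P : Subgroup G) := le_sup_left.trans hsup.le
  -- subgroups of a cyclic `p`-group are nested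
  have hsub : ∀ B C : Subgroup G, B ≤ (P : Subgroup G) → C ≤ (P : Subgroup G) → Nat.card B ∣ Nat.card C → B ≤ C := by
    intro B C hB hC hd b hb
    set C' := C.subgroupOf (P : Subgroup G)
    have hc' : Nat.card ↥C' = Nat.card ↥C := Nat.card_congr (Subgroup.subgroupOfEquivOfLe hC).toEquiv
    have hsubset : (Finset.univ.filter (fun x : ↥(P : Subgroup G) => x ∈ C')) ⊆
        Finset.univ.filter (fun x : ↥(P : Subgroup G) => x ^ Nat.card ↥C = 1) := fun x hx => by
      simp only [Finset.mem_filter, Finset.mem_univ, true_and] at hx ⊢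
      rw [← hc']
      exact congrArg Subtype.val (pow_card_eq_one' (x := (⟨x, hx⟩ : ↥C')))
    haveI := hP
    have hle := IsCyclic.card_pow_eq_one_le (α := ↥(P : Subgroup G)) (Nat.card_pos (α := ↥C))
    have heq := Finset.eq_of_subset_of_card_le hsubset (hle.trans (by
      rw [← hc', Nat.card_eq_fintype_card, Fintype.card_subtype]))
    have : (⟨b, hB hb⟩ : ↥(P : Subgroup G)) ∈ Finset.univ.filter (fun x : ↥(P : Subgroup G) => x ∈ C') := by
      rw [heq]
      simp only [Finset.mem_filter, Finset.mem_univ, true_and]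
      obtain ⟨t, ht⟩ := hd
      exact Subtype.ext (by
        show b ^ Nat.card ↥C = 1
        rw [ht, pow_mul, show b ^ Nat.card ↥B = 1 from congrArg Subtype.val (pow_card_eq_one' (x := (⟨b, hb⟩ : ↥B))), one_pow])
    simpa [C', Subgroup.mem_subgroupOf] using this
  obtain ⟨i, hi⟩ := (P.isPGroup'.to_le hAP).exists_card_eq
  obtain ⟨j, hj⟩ := (P.isPGroup'.to_le (inf_le_left : D ≤ _)).exists_card_eq
  have hcases : A = ⊥ ∨ D = ⊥ := by
    rcases le_total i j with h | h
    · exact Or.inl (by rw [← inf_eq_left.mpr (hsub A D hAP inf_le_left (hi ▸ hj ▸ pow_dvd_pow p h)), hbot])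
    · exact Or.inr (by rw [← inf_eq_right.mpr (hsub D A inf_le_left hAP (hi ▸ hj ▸ pow_dvd_pow p h)), hbot])
  rcases hcases with h | h
  · left
    refine CfsgLib.FocalTransfer.npc_of_normalizer_le P ?_
    rw [h, bot_sup_eq] at hsup
    rw [Subgroup.le_centralizer_iff]
    exact hsup.ge.trans inf_le_right
  · right
    rw [h, sup_bot_eq] at hsup
    have h75 : (P : Subgroup G) ⊓ Cfsg.pResidual p G = A := Cfsg.Agent.S0075.result P hcomm
    rw [hsup, inf_eq_left] at h75
    exact top_le_iff.mp ((CfsgLib.PResidual.sup_pResidual_eq_top P).ge.trans (sup_le h75 le_rfl))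

end Cfsg.Agent.S0082
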