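import Cfsg.Statements.S0083
import Cfsg.Agent.Lib.FocalTransfer

set_option autoImplicit false
set_option linter.style.haveILetI false
open Cfsg

namespace Cfsg.Agent.S0083

/-- For an abelian Sylow p-subgroup P, a normal p-complement exists exactly when the normalizer of P is an internal direct product of P with some subgroup. -/
theorem result {G : Type*} [Group G] [Finite G] {p : ℕ} [Fact p.Prime] (P : Sylow p G) (hP : IsMulCommutative P) : Cfsg.HasNormalPComplement p G ↔ ∃ Q : Subgroup G, Q ≤ Subgroup.centralizer (P : Set G) ∧ Q ⊓ (P : Subgroup G) = ⊥ ∧ Q ⊔ (P : Subgroup G) = Subgroup.normalizer (P : Set G) := by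
  constructor
  · rintro ⟨P0, N, hN, hc⟩
    haveI := hN
    set K := N ⊓ Subgroup.normalizer ((P : Subgroup G) : Set G) with hK
    have hNP : N ⊓ (P : Subgroup G) = ⊥ := by
      rw [eq_bot_iff]
      intro x hx
      obtain ⟨g, hg⟩ := MulAction.exists_smul_eq G P P0
      have h1 : g * x * g⁻¹ ∈ N ⊓ (P0 : Subgroup G) := ⟨hN.conj_mem x hx.1 g, by
        rw [← hg, Sylow.coe_subgroup_smul]; exact Subgroup.mem_map.mpr ⟨x, hx.2, rfl⟩⟩
      rw [disjoint_iff.mp hc.disjoint, Subgroup.mem_bot, mul_inv_eq_one, mul_eq_left] at h1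
      exact Subgroup.mem_bot.mpr h1
    have hcard : Nat.card ↥N * Nat.card ↥(P : Subgroup G) = Nat.card G := by
      rw [P.card_eq_multiplicity, ← P0.card_eq_multiplicity, hc.card_mul]
    have hsup : N ⊔ (P : Subgroup G) = ⊤ := (Subgroup.isComplement'_of_card_mul_and_disjoint hcard
      (disjoint_iff.mpr hNP)).sup_eq_top
    refine ⟨K, ?_, eq_bot_iff.mpr (hNP ▸ inf_le_inf_right _ inf_le_left), ?_⟩
    · intro k hk
      rw [Subgroup.mem_centralizer_iff]
      intro u hu
      have h1 : u * k * u⁻¹ * k⁻¹ ∈ N ⊓ (P : Subgroup G) :=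
        ⟨N.mul_mem (hN.conj_mem k hk.1 u) (N.inv_mem hk.1), by
          have := (P : Subgroup G).mul_mem hu ((Subgroup.mem_normalizer_iff.mp hk.2 u⁻¹).mp (inv_mem hu))
          simp only [← mul_assoc] at this ⊢; exact this⟩
      rw [hNP, Subgroup.mem_bot, mul_inv_eq_one, mul_inv_eq_iff_eq_mul] at h1
      exact h1
    · refine le_antisymm (sup_le inf_le_right Subgroup.le_normalizer) fun g hg => ?_
      obtain ⟨u, hu, v, hv, rfl⟩ := Subgroup.mem_sup_of_normal_left.mp (hsup ▸ Subgroup.mem_top g)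
      refine Subgroup.mul_mem_sup ⟨hu, ?_⟩ hv
      have := mul_mem hg (inv_mem (Subgroup.le_normalizer hv))
      rwa [mul_inv_cancel_right] at this
  · rintro ⟨Q, hQ, -, hsup⟩
    refine CfsgLib.FocalTransfer.npc_of_normalizer_le P ?_
    show Subgroup.normalizer (P : Set G) ≤ _
    rw [← hsup]
    exact sup_le hQ P.le_centralizer

end Cfsg.Agent.S0083
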