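import Cfsg.Statements.S0085
import Cfsg.Agent.Lib.FocalTransfer

set_option autoImplicit false
open Cfsg

namespace Cfsg.Agent.S0085

/-- A group whose Sylow 2-subgroups are elementary abelian of order 8 and whose order is prime to 3 and to 7 has a normal 2-complement. -/
theorem result {G : Type*} [Group G] [Finite G] (T : Sylow 2 G) (h8 : Nat.card T = 8) (he : ∀ x : T, x * x = 1) (h3 : ¬ 3 ∣ Nat.card G) (h7 : ¬ 7 ∣ Nat.card G) : Cfsg.HasNormalPComplement 2 G := by
  have hcomm : IsMulCommutative ↥(T : Subgroup G) := ⟨⟨fun a b => by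
    have ha : a⁻¹ = a := inv_eq_of_mul_eq_one_right (he a)
    have hb : b⁻¹ = b := inv_eq_of_mul_eq_one_right (he b)
    have hab : (a * b)⁻¹ = a * b := inv_eq_of_mul_eq_one_right (he (a * b))
    rw [mul_inv_rev, ha, hb] at hab
    exact hab.symm⟩⟩
  have hcard : Nat.card ↥(T : Subgroup G) = 2 ^ 3 := h8
  haveI := Fact.mk Nat.prime_two
  refine CfsgLib.FocalTransfer.npc_of_normalizer_le T (by_contra fun h => ?_)
  obtain ⟨q, j, hq, hq2, hqG, hj, hd⟩ := CfsgLib.FocalTransfer.exists_prime_of_not_central T hcomm hcard h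
  have hq3 : 3 ≤ q := by have := hq.two_le; omega
  have hle := Nat.le_of_dvd (by interval_cases j <;> norm_num) hd
  interval_cases j <;> norm_num at hd hle <;> interval_cases q <;> first | omega | (norm_num at hq) | (exact h3 hqG) | (exact h7 hqG)

end Cfsg.Agent.S0085
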