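import Cfsg.Statements.S0087
import Cfsg.Agent.Lib.AbelianHall

set_option autoImplicit false
set_option linter.style.haveILetI false
open Cfsg

namespace Cfsg.Agent.S0087

/-- A Hall subgroup that is central in its normalizer has a normal complement. -/
theorem result {G : Type*} [Group G] [Finite G] (H : Subgroup G) (hHall : Nat.Coprime (Nat.card H) H.index) (h : Subgroup.normalizer (H : Set G) ≤ Subgroup.centralizer (H : Set G)) : ∃ N : Subgroup G, N.Normal ∧ N.IsComplement' H := by
  classical
  have hHH : H ≤ Subgroup.centralizer (H : Set G) := Subgroup.le_normalizer.trans h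
  have hH : IsMulCommutative ↥H :=
    ⟨⟨fun a b => Subtype.ext (Subgroup.mem_centralizer_iff.mp (hHH b.2) a a.2)⟩⟩
  refine CfsgLib.AbelianHall.exists_complement H hHall fun p hp => ?_
  obtain ⟨hpp, hpd, -⟩ := Nat.mem_primeFactors.mp hp
  haveI := Fact.mk hpp
  have hfac := CfsgLib.AbelianHall.factorization_eq hHall hpp hpd
  obtain ⟨S⟩ : Nonempty (Sylow p ↥H) := inferInstance
  let P : Sylow p G := Sylow.ofCard ((S : Subgroup ↥H).map H.subtype)
    (by rw [Subgroup.card_map_of_injective H.subtype_injective, S.card_eq_multiplicity, hfac])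
  have hPH : (P : Subgroup G) ≤ H := Subgroup.map_subtype_le _
  set C := Subgroup.centralizer ((P : Subgroup G) : Set G) with hC
  have hHC : H ≤ C := hHH.trans (Subgroup.centralizer_le hPH)
  have hPC : Subgroup.normalizer ((P : Subgroup G) : Set G) ≤ C := by
    intro n hn
    set K := H.map (MulAut.conj n).toMonoidHom with hK
    have hKC : K ≤ C := by
      rintro _ ⟨y, hy, rfl⟩
      refine Subgroup.mem_centralizer_iff.mpr fun x hx => ?_
      have h1 : n⁻¹ * x * n ∈ (P : Subgroup G) := (Subgroup.mem_normalizer_iff''.mp hn x).mp hx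
      have h2 := Subgroup.mem_centralizer_iff.mp (hHC hy) _ h1
      simp only [MulEquiv.coe_toMonoidHom, MulAut.conj_apply]
      have e := congrArg (fun z => n * z * n⁻¹) h2
      simp only [mul_assoc, mul_inv_cancel_left] at e ⊢
      rw [mul_inv_cancel, mul_one] at e
      exact e
    haveI : IsMulCommutative ↥H := hH
    haveI : IsMulCommutative ↥K := Subgroup.map_isMulCommutative H _
    obtain ⟨⟨c, hc⟩, he⟩ := CfsgLib.AbelianHall.exists_conj
      (H := H.subgroupOf C) (K := K.subgroupOf C)
      inferInstance inferInstance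
      (by rw [Nat.card_congr (Subgroup.subgroupOfEquivOfLe hHC).toEquiv]
          exact hHall.coprime_dvd_right (Subgroup.relIndex_dvd_index_of_le hHC))
      (by rw [Nat.card_congr (Subgroup.subgroupOfEquivOfLe hHC).toEquiv,
        Nat.card_congr (Subgroup.subgroupOfEquivOfLe hKC).toEquiv,
        Subgroup.card_map_of_injective (MulEquiv.injective _)])
    have h2 := congrArg (Subgroup.map C.subtype) he
    rw [Subgroup.map_subgroupOf_eq_of_le hKC, Subgroup.map_map] at h2
    have h3 : H.map (MulAut.conj c).toMonoidHom = K := by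
      rw [← h2]
      conv_lhs => rw [← Subgroup.map_subgroupOf_eq_of_le hHC, Subgroup.map_map]
      rfl
    have h4 : c⁻¹ * n ∈ Subgroup.normalizer (H : Set G) := by
      refine CfsgLib.LocalBasic.mem_normalizer_of_conj_map_eq ?_
      have e : (MulAut.conj (c⁻¹ * n)).toMonoidHom
          = (MulAut.conj c⁻¹).toMonoidHom.comp (MulAut.conj n).toMonoidHom := by ext x; simp
      rw [e, ← Subgroup.map_map, ← hK, ← h3, Subgroup.map_map]
      conv_rhs => rw [← Subgroup.map_id H]
      congr 1
      ext x
      simp [mul_assoc]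
    have h5 := C.mul_mem hc (Subgroup.centralizer_le hPH (h h4))
    rwa [mul_inv_cancel_left] at h5
  have hcomp := MonoidHom.ker_transferSylow_isComplement' P hPC
  refine ⟨_, inferInstance, ?_, MonoidHom.not_dvd_card_ker_transferSylow P hPC⟩
  rw [hcomp.symm.index_eq_card, P.card_eq_multiplicity, hfac]

end Cfsg.Agent.S0087
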