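import Cfsg.Statements.S0089
import Cfsg.Agent.Lib.FocalTransfer

set_option autoImplicit false
open Cfsg

namespace Cfsg.Agent.S0089

/-- When all Sylow subgroups are abelian, the derived subgroup meets the centre trivially. -/
theorem result {G : Type*} [Group G] [Finite G] (h : ∀ p : ℕ, p.Prime → ∀ P : Sylow p G, IsMulCommutative P) : commutator G ⊓ Subgroup.center G = ⊥ := by
  classical
  rw [eq_bot_iff]
  rintro x ⟨hxC, hxZ⟩
  rw [Subgroup.mem_bot]
  by_contra hx
  obtain ⟨p, hp, hpd⟩ := Nat.exists_prime_and_dvd (fun e : orderOf x = 1 => hx (orderOf_eq_one_iff.mp e))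
  haveI := Fact.mk hp
  set y := x ^ (orderOf x / p) with hy
  have hy1 : orderOf y = p := orderOf_pow_orderOf_div (orderOf_pos x).ne' hpd
  obtain ⟨P, hP⟩ := (IsPGroup.of_card (n := 1) (by rw [Nat.card_zpowers, hy1, pow_one]) :
    IsPGroup p ↥(Subgroup.zpowers y)).exists_le_sylow
  have hcop : Nat.Coprime (Nat.card ↥(P : Subgroup G)) (P : Subgroup G).index := by
    obtain ⟨k, hk⟩ := P.isPGroup'.exists_card_eq
    rw [hk]
    exact (hp.coprime_iff_not_dvd.mpr P.not_dvd_index).pow_left k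
  have h1 : y ∈ (P : Subgroup G) ⊓ commutator G ⊓ Subgroup.center G :=
    ⟨⟨hP (Subgroup.mem_zpowers y), pow_mem hxC _⟩, pow_mem hxZ _⟩
  rw [CfsgLib.FocalTransfer.abelian_hall_inf _ (h p hp P) hcop, Subgroup.mem_bot] at h1
  rw [h1, orderOf_one] at hy1
  exact hp.ne_one hy1.symm

end Cfsg.Agent.S0089
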