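import Cfsg.Statements.S0091
import Cfsg.Agent.Lib.FocalTransfer

set_option autoImplicit false
open Cfsg

namespace Cfsg.Agent.S0091

/-- If a nontrivial Sylow p-subgroup controls its own fusion then it is not contained in the derived subgroup. -/
theorem result {G : Type*} [Group G] [Finite G] {p : ℕ} [Fact p.Prime] (P : Sylow p G) (hp : p ∣ Nat.card G) (h : ∀ x ∈ P, ∀ y ∈ P, (∃ g : G, g * x * g⁻¹ = y) → ∃ z ∈ P, z * x * z⁻¹ = y) : ¬ (P : Subgroup G) ≤ commutator G := by
  intro hle
  have h1 : commutator G ⊓ (P : Subgroup G) ≤ ⁅(P : Subgroup G), (P : Subgroup G)⁆ := by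
    rw [Subgroup.commutator_inf_eq_focalSubgroup P]
    exact CfsgLib.FocalTransfer.focal_le_commutator_of_control fun x hx g hg => h x hx _ hg ⟨g, rfl⟩
  have h2 : (commutator ↥(P : Subgroup G)) = ⊤ := by
    apply Subgroup.map_injective (P : Subgroup G).subtype_injective
    rw [Subgroup.map_subtype_commutator, ← MonoidHom.range_eq_map, Subgroup.range_subtype]
    exact le_antisymm (Subgroup.commutator_le.mpr fun a ha b hb =>
      mul_mem (mul_mem (mul_mem ha hb) (inv_mem ha)) (inv_mem hb)) ((le_inf hle le_rfl).trans h1)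
  haveI : Nontrivial ↥(P : Subgroup G) :=
    (Subgroup.nontrivial_iff_ne_bot _).mpr (P.ne_bot_of_dvd_card hp)
  haveI : Group.IsNilpotent ↥(P : Subgroup G) := P.isPGroup'.isNilpotent
  exact (Group.IsSolvable.commutator_lt_top_of_nontrivial ↥(P : Subgroup G)).ne h2

end Cfsg.Agent.S0091
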