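import Cfsg.Statements.S0092
import Cfsg.Agent.S0075
import Cfsg.Agent.Lib.GroupB.SchurZassenhaus

set_option autoImplicit false
set_option linter.style.haveILetI false
open Cfsg

namespace Cfsg.Agent.S0092

/-- If the Sylow p-subgroups of O^p(G) are abelian then G splits over O^p(G). -/
theorem result {G : Type*} [Group G] [Finite G] {p : ℕ} [Fact p.Prime] (h : ∀ Q : Sylow p (Cfsg.pResidual p G), IsMulCommutative Q) : ∃ K : Subgroup G, K.IsComplement' (Cfsg.pResidual p G) := by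
  classical
  have hp : p.Prime := Fact.out
  set K := Cfsg.pResidual p G with hKdef
  have hKres : Cfsg.pResidual p ↥K = ⊤ := by
    have e : K ≤ (Cfsg.pResidual p ↥K).map K.subtype := by
      rw [hKdef, Cfsg.pResidual, Subgroup.closure_le]
      intro g hg
      have hgK : g ∈ Cfsg.pResidual p G := CfsgLib.PResidual.mem_pResidual hg
      exact ⟨⟨g, hgK⟩, CfsgLib.PResidual.mem_pResidual (by have e := Subgroup.orderOf_coe (⟨g, hgK⟩ : ↥(Cfsg.pResidual p G)); show Nat.Coprime _ p; exact e ▸ hg), rfl⟩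
    refine eq_top_iff.mpr fun x _ => ?_
    obtain ⟨y, hy, hyx⟩ := e x.2
    rwa [← K.subtype_injective hyx]
  obtain ⟨Q⟩ : Nonempty (Sylow p ↥K) := inferInstance
  have hQ := h Q
  set N0 := Subgroup.normalizer ((Q : Subgroup ↥K) : Set ↥K) with hN0
  have hQ1 : (Q : Subgroup ↥K) = ⁅(Q : Subgroup ↥K), N0⁆ := by
    have := Cfsg.Agent.S0075.result Q hQ
    rwa [hKres, inf_top_eq] at this
  have hC1 : (Q : Subgroup ↥K) ⊓ Subgroup.centralizer (N0 : Set ↥K) = ⊥ := by
    have h1 := (CfsgLib.FocalTransfer.sylow_decomp Q hQ).1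
    rwa [← hN0, ← hQ1, ← inf_assoc, inf_idem] at h1
  -- a `p'`-complement of `Q` in its normalizer
  set Qs := (Q : Subgroup ↥K).subgroupOf N0 with hQs
  haveI : Qs.Normal := Subgroup.normal_in_normalizer
  have hQN : (Q : Subgroup ↥K) ≤ N0 := Subgroup.le_normalizer
  have hQcard : Nat.card ↥Qs = Nat.card ↥(Q : Subgroup ↥K) :=
    Nat.card_congr (Subgroup.subgroupOfEquivOfLe hQN).toEquiv
  obtain ⟨k, hk⟩ := Q.isPGroup'.exists_card_eq
  have hndvd : ¬ p ∣ Qs.index := fun hd =>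
    Q.not_dvd_index (hd.trans (Subgroup.relIndex_dvd_index_of_le hQN))
  obtain ⟨H0, hH0⟩ := Subgroup.exists_left_complement'_of_coprime (N := Qs)
    (by rw [hQcard, hk]; exact (hp.coprime_iff_not_dvd.mpr hndvd).pow_left k)
  have hH0card : Nat.card ↥H0 = Qs.index := hH0.index_eq_card.symm
  set f : ↥N0 →* G := K.subtype.comp N0.subtype with hf
  have hfinj : Function.Injective f := K.subtype_injective.comp N0.subtype_injective
  set Q' := (Q : Subgroup ↥K).map K.subtype with hQ'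
  set H := H0.map f with hH
  set N := Subgroup.normalizer (Q' : Set G) with hN
  set M := N0.map K.subtype with hM
  have hMf : ∀ x : ↥N0, f x ∈ M := fun x => ⟨x.1, x.2, rfl⟩
  have hMmem : ∀ x, x ∈ M ↔ x ∈ N ∧ x ∈ K := by
    intro x
    constructor
    · rintro ⟨y, hy, rfl⟩
      refine ⟨?_, y.2⟩
      rw [hN, Subgroup.mem_normalizer_iff]
      intro z
      constructor
      · rintro ⟨w, hw, rfl⟩
        exact ⟨y * w * y⁻¹, (Subgroup.mem_normalizer_iff.mp hy w).mp hw, by simp⟩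
      · rintro ⟨w, hw, he⟩
        refine ⟨y⁻¹ * w * y, (Subgroup.mem_normalizer_iff''.mp hy w).mp hw, ?_⟩
        simp only [Subgroup.coe_subtype] at he ⊢
        simp [he, mul_assoc]
    · rintro ⟨hxN, hxK⟩
      refine ⟨⟨x, hxK⟩, ?_, rfl⟩
      rw [SetLike.mem_coe, hN0, Subgroup.mem_normalizer_iff]
      intro w
      rw [← Subgroup.mem_map_iff_mem K.subtype_injective (x := w),
        ← Subgroup.mem_map_iff_mem K.subtype_injective (x := (⟨x, hxK⟩ : ↥K) * w * (⟨x, hxK⟩ : ↥K)⁻¹)]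
      exact Subgroup.mem_normalizer_iff.mp hxN _
  have hQ'M : Q' ≤ M := Subgroup.map_mono hQN
  have hHM : H ≤ M := by rintro _ ⟨x, -, rfl⟩; exact hMf x
  have hQ'card : Nat.card ↥Q' = p ^ k := by rw [hQ', Subgroup.card_map_of_injective K.subtype_injective, hk]
  have hHcard : Nat.card ↥H = Qs.index := by rw [hH, Subgroup.card_map_of_injective hfinj, hH0card]
  have hMcard : Nat.card ↥Q' * Nat.card ↥H = Nat.card ↥M := by
    rw [hQ'card, hHcard, hM, Subgroup.card_map_of_injective K.subtype_injective, ← hk, ← hQcard,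
      Subgroup.card_mul_index]
  have hHp : ¬ p ∣ Nat.card ↥H := hHcard ▸ hndvd
  have hQsplit : ∀ x ∈ M, ∃ a ∈ H, ∃ b ∈ Q', x = a * b := by
    rintro _ ⟨y, hy, rfl⟩
    obtain ⟨a, ha, b, hb, hab⟩ := Subgroup.mem_sup_of_normal_right.mp
      (hH0.sup_eq_top ▸ Subgroup.mem_top (⟨y, hy⟩ : ↥N0))
    refine ⟨f a, ⟨a, ha, rfl⟩, f b, ⟨b.1, Subgroup.mem_subgroupOf.mp hb, rfl⟩, ?_⟩
    rw [← map_mul, hab]
    rfl
  have hQ'ab : ∀ a ∈ Q', ∀ b ∈ Q', a * b = b * a := by
    rintro _ ⟨a, ha, rfl⟩ _ ⟨b, hb, rfl⟩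
    exact congrArg K.subtype (congrArg Subtype.val (hQ.is_comm.comm (⟨a, ha⟩ : (Q : Subgroup ↥K)) ⟨b, hb⟩))
  have hCH : ∀ x ∈ Q', (∀ a ∈ H, a * x = x * a) → x = 1 := by
    rintro x hx hcomm
    obtain ⟨q, hq, rfl⟩ := hx
    have : q ∈ (Q : Subgroup ↥K) ⊓ Subgroup.centralizer (N0 : Set ↥K) := by
      refine ⟨hq, Subgroup.mem_centralizer_iff.mpr fun y hy => ?_⟩
      obtain ⟨a, ha, b, hb, hab⟩ := hQsplit (K.subtype y) ⟨y, hy, rfl⟩
      refine K.subtype_injective ?_
      rw [map_mul, map_mul, hab, mul_assoc, hQ'ab b hb _ ⟨q, hq, rfl⟩, ← mul_assoc, hcomm a ha, mul_assoc]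
    rw [hC1, Subgroup.mem_bot] at this
    rw [this, map_one]
  -- `G = K L` for the normalizer `L` of `H` in `N`
  set L := N ⊓ Subgroup.normalizer (H : Set G) with hL
  have hKL : K ⊔ L = ⊤ := by
    refine eq_top_iff.mpr fun g _ => ?_
    obtain ⟨n, hn, r, hr, rfl⟩ := Subgroup.mem_sup_of_normal_right.mp
      ((Sylow.normalizer_sup_eq_top Q).symm ▸ Subgroup.mem_top g)
    refine mul_mem ?_ (Subgroup.mem_sup_left hr)
    set H2 := H.map (MulAut.conj n).toMonoidHom with hH2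
    have hH2M : H2 ≤ M := by
      rintro _ ⟨a, ha, rfl⟩
      obtain ⟨h1, h2⟩ := (hMmem a).mp (hHM ha)
      exact (hMmem _).mpr ⟨N.mul_mem (N.mul_mem hn h1) (N.inv_mem hn), (inferInstance : K.Normal).conj_mem a h2 n⟩
    haveI : (Q'.subgroupOf M).Normal := Subgroup.normal_subgroupOf_of_le_normalizer
      (fun x hx => ((hMmem x).mp hx).1)
    haveI : IsMulCommutative ↥(Q'.subgroupOf M) :=
      ⟨⟨fun a b => Subtype.ext (Subtype.ext (hQ'ab _ a.2 _ b.2))⟩⟩
    obtain ⟨⟨m, hm⟩, hmQ, he⟩ := CfsgLib.GroupB.SchurZassenhaus.exists_conj_of_isMulCommutative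
      (Q'.subgroupOf M) (H.subgroupOf M) (H2.subgroupOf M)
      (by rw [Nat.card_congr (Subgroup.subgroupOfEquivOfLe hQ'M).toEquiv,
            Nat.card_congr (Subgroup.subgroupOfEquivOfLe hHM).toEquiv, hQ'card]
          exact (hp.coprime_iff_not_dvd.mpr hHp).pow_left k)
      (by rw [Nat.card_congr (Subgroup.subgroupOfEquivOfLe hQ'M).toEquiv,
            Nat.card_congr (Subgroup.subgroupOfEquivOfLe hHM).toEquiv, hMcard])
      (by rw [Nat.card_congr (Subgroup.subgroupOfEquivOfLe hH2M).toEquiv,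
            Nat.card_congr (Subgroup.subgroupOfEquivOfLe hHM).toEquiv, hH2,
            Subgroup.card_map_of_injective (MulEquiv.injective _)])
    have h3 : H2 = H.map (MulAut.conj m).toMonoidHom := by
      have h2 := congrArg (Subgroup.map M.subtype) he
      rw [Subgroup.map_subgroupOf_eq_of_le hH2M, Subgroup.map_map] at h2
      rw [h2]
      conv_rhs => rw [← Subgroup.map_subgroupOf_eq_of_le hHM, Subgroup.map_map]
      rfl
    have hmn : m⁻¹ * n ∈ Subgroup.normalizer (H : Set G) := by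
      refine CfsgLib.LocalBasic.mem_normalizer_of_conj_map_eq ?_
      have e : (MulAut.conj (m⁻¹ * n)).toMonoidHom
          = (MulAut.conj m⁻¹).toMonoidHom.comp (MulAut.conj n).toMonoidHom := by ext x; simp
      rw [e, ← Subgroup.map_map, ← hH2, h3, Subgroup.map_map]
      conv_rhs => rw [← Subgroup.map_id H]
      congr 1
      ext x
      simp [mul_assoc]
    have hmNK := (hMmem m).mp hm
    rw [show n = m * (m⁻¹ * n) by group]
    exact mul_mem (Subgroup.mem_sup_left hmNK.2)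
      (Subgroup.mem_sup_right ⟨N.mul_mem (N.inv_mem hmNK.1) hn, hmn⟩)
  have hLK : ∀ x ∈ L, x ∈ K → x ∈ H := by
    rintro x ⟨hxN, hxH⟩ hxK
    obtain ⟨a, ha, b, hb, rfl⟩ := hQsplit x ((hMmem x).mpr ⟨hxN, hxK⟩)
    have hbH : b ∈ Subgroup.normalizer (H : Set G) := by
      have := mul_mem (inv_mem (Subgroup.le_normalizer ha)) hxH
      rwa [inv_mul_cancel_left] at this
    have hb1 : b = 1 := hCH b hb fun c hc => by
      have h1 : b * c * b⁻¹ * c⁻¹ ∈ H :=
        H.mul_mem ((Subgroup.mem_normalizer_iff.mp hbH c).mp hc) (H.inv_mem hc)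
      have hcN := ((hMmem c).mp (hHM hc)).1
      have h2 : b * c * b⁻¹ * c⁻¹ ∈ Q' := by
        rw [mul_assoc b c, mul_assoc b]
        exact Q'.mul_mem hb ((Subgroup.mem_normalizer_iff.mp hcN _).mp (Q'.inv_mem hb))
      have h3 : Nat.Coprime (Nat.card ↥Q') (Nat.card ↥H) := by
        rw [hQ'card]; exact (hp.coprime_iff_not_dvd.mpr hHp).pow_left k
      have h4 : b * c * b⁻¹ * c⁻¹ = 1 := by
        refine Subgroup.disjoint_def.mp (disjoint_iff.mpr (Subgroup.inf_eq_bot_of_coprime h3)) h2 h1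
      exact (mul_inv_eq_iff_eq_mul.mp (mul_inv_eq_one.mp h4)).symm
    rw [hb1, mul_one]; exact ha
  -- a Sylow subgroup of `L`
  obtain ⟨T⟩ : Nonempty (Sylow p ↥L) := inferInstance
  refine ⟨(T : Subgroup ↥L).map L.subtype, ?_⟩
  set T' := (T : Subgroup ↥L).map L.subtype with hT'
  have hTL : T' ≤ L := Subgroup.map_subtype_le _
  have hTp : IsPGroup p ↥T' := T.2.map _
  have hTK : T' ⊓ K = ⊥ := by
    rw [eq_bot_iff]
    rintro x ⟨hxT, hxK⟩
    obtain ⟨j, hj⟩ := IsPGroup.iff_orderOf.mp hTp ⟨x, hxT⟩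
    rw [Subgroup.orderOf_mk] at hj
    have hd : orderOf x ∣ Nat.card ↥H := Subgroup.orderOf_dvd_natCard H (hLK x (hTL hxT) hxK)
    have h1 : orderOf x = 1 := Nat.eq_one_of_dvd_coprimes
      ((hp.coprime_iff_not_dvd.mpr hHp).pow_left j) (dvd_of_eq hj) hd
    exact Subgroup.mem_bot.mpr (orderOf_eq_one_iff.mp h1)
  refine Subgroup.isComplement'_of_card_mul_and_disjoint ?_ (disjoint_iff.mpr hTK)
  obtain ⟨j, hj⟩ := (CfsgLib.PResidual.isPGroup_quotient (G := G) (p := p)).exists_card_eq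
  have e1 : K.relIndex L = p ^ j := by
    rw [← Subgroup.relIndex_sup_right, sup_comm, hKL, Subgroup.relIndex_top_right, Subgroup.index_eq_card, hj]
  have e2 : p ^ j ∣ Nat.card ↥T' := by
    have h1 : p ^ j ∣ Nat.card ↥(T : Subgroup ↥L) * (T : Subgroup ↥L).index := by
      rw [Subgroup.card_mul_index, ← e1]
      exact Subgroup.index_dvd_card _
    rw [hT', Subgroup.card_map_of_injective L.subtype_injective]
    exact ((hp.coprime_iff_not_dvd.mpr T.not_dvd_index).pow_left j).dvd_of_dvd_mul_right h1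
  refine le_antisymm ?_ ?_
  · have := CfsgLib.LocalBasic.card_mul_le T' K
    rw [hTK, Subgroup.card_bot, mul_one] at this
    exact this.trans (Nat.card_le_card_of_injective _ Subtype.val_injective)
  · rw [← K.card_mul_index, Subgroup.index_eq_card, hj, mul_comm]
    exact Nat.mul_le_mul_right _ (Nat.le_of_dvd Nat.card_pos e2)

end Cfsg.Agent.S0092
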