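import Cfsg.Statements.S0094

set_option autoImplicit false
open Cfsg
open scoped commutatorElement

namespace Cfsg.Agent.S0094

/-- In a special p-group every central element has order dividing p. -/
theorem index_coatom {G : Type*} [Group G] [Finite G] {p : ℕ} [Fact p.Prime]
    (hG : IsPGroup p G) {M : Subgroup G} (hM : IsCoatom M) : M.Normal ∧ M.index = p := by
  haveI := hG.isNilpotent
  have hn : M.Normal :=
    Subgroup.NormalizerCondition.normal_of_coatom M Group.normalizerCondition_of_isNilpotent hM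
  refine ⟨hn, ?_⟩
  have hQ : IsPGroup p (G ⧸ M) := hG.to_quotient M
  obtain ⟨n, hn'⟩ := IsPGroup.iff_card.mp hQ
  have hne : Nat.card (G ⧸ M) ≠ 1 := fun h => hM.1 (Subgroup.index_eq_one.mp h)
  have hd : p ∣ Nat.card (G ⧸ M) := by
    rw [hn']; exact dvd_pow_self p (by rintro rfl; simp [hn'] at hne)
  obtain ⟨x, hx⟩ := exists_prime_orderOf_dvd_card' p hd
  have h2 : M < (Subgroup.zpowers x).comap (QuotientGroup.mk' M) := by
    refine lt_of_le_of_ne ((QuotientGroup.ker_mk' M).symm.le.trans (Subgroup.ker_le_comap _ _)) ?_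
    intro he
    have := congrArg (Subgroup.map (QuotientGroup.mk' M)) he
    rw [Subgroup.map_comap_eq_self_of_surjective (QuotientGroup.mk'_surjective M),
      QuotientGroup.map_mk'_self] at this
    have h1 : orderOf x = 1 := orderOf_eq_one_iff.mpr (Subgroup.zpowers_eq_bot.mp this.symm)
    exact (Fact.out : p.Prime).ne_one (hx.symm.trans h1)
  have h3 := congrArg (Subgroup.map (QuotientGroup.mk' M)) (hM.2 _ h2)
  rw [Subgroup.map_comap_eq_self_of_surjective (QuotientGroup.mk'_surjective M),
    Subgroup.map_top_of_surjective _ (QuotientGroup.mk'_surjective M)] at h3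
  have := congrArg (fun H : Subgroup (G ⧸ M) => Nat.card H) h3
  simp only [Nat.card_zpowers, hx, Subgroup.card_top] at this
  rw [Subgroup.index_eq_card]; exact this.symm

theorem result {P : Type*} [Group P] [Finite P] {p : ℕ} [Fact p.Prime] (h : Cfsg.IsSpecial p P) (z : P) (hz : z ∈ Subgroup.center P) : z ^ p = 1 := by
  obtain ⟨hp, hfr, hcom⟩ := h
  rw [← hcom] at hz
  have hcen : ∀ a b : P, ⁅a, b⁆ ∈ Subgroup.center P := fun a b =>
    hcom ▸ Subgroup.commutator_mem_commutator (Subgroup.mem_top a) (Subgroup.mem_top b)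
  have hmul : ∀ a b c : P, ⁅a * b, c⁆ = ⁅a, c⁆ * ⁅b, c⁆ := by
    intro a b c
    have h1 := Subgroup.mem_center_iff.mp (hcen b c) a
    have h2 := Subgroup.mem_center_iff.mp (hcen b c) ⁅a, c⁆
    calc ⁅a * b, c⁆ = a * ⁅b, c⁆ * a⁻¹ * ⁅a, c⁆ := by simp only [commutatorElement_def]; group
      _ = ⁅a, c⁆ * ⁅b, c⁆ := by rw [h1, mul_inv_cancel_right, h2]
  have hpow : ∀ (a c : P) (n : ℕ), ⁅a, c⁆ ^ n = ⁅a ^ n, c⁆ := by
    intro a c n
    induction n with
    | zero => simp
    | succ n ih => rw [pow_succ, pow_succ, hmul, ih]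
  have hpc : ∀ x : P, x ^ p ∈ Subgroup.center P := by
    intro x
    rw [← hfr]
    simp only [frattini, Order.radical, Subgroup.mem_iInf]
    intro M hM
    obtain ⟨hn, hi⟩ := index_coatom hp hM
    haveI := hn
    rw [← hi]; exact Subgroup.pow_index_mem M x
  have hz' : z ∈ Subgroup.closure (commutatorSet P) := by rwa [← commutator_eq_closure]
  induction hz' using Subgroup.closure_induction with
  | mem g hg =>
    obtain ⟨a, b, rfl⟩ := hg
    rw [hpow, commutatorElement_eq_one_iff_mul_comm]
    exact (Subgroup.mem_center_iff.mp (hpc a) b).symm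
  | one => simp
  | mul a b ha hb iha ihb =>
    have : a ∈ Subgroup.center P := hcom ▸ (by rwa [commutator_eq_closure])
    rw [(show Commute a b from (Subgroup.mem_center_iff.mp this b).symm).mul_pow, iha (by rwa [commutator_eq_closure]), ihb (by rwa [commutator_eq_closure]), one_mul]
  | inv a ha iha => rw [inv_pow, iha (by rwa [commutator_eq_closure]), inv_one]

end Cfsg.Agent.S0094
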