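import Cfsg.Statements.S0097
import Cfsg.Agent.Lib.PowerMap

set_option autoImplicit false
set_option linter.style.haveILetI false
open Cfsg

namespace Cfsg.Agent.S0097

/-- For odd p and E extraspecial, the subgroup generated by the elements of order dividing p has exponent dividing p and index at most p. -/
theorem result {E : Type*} [Group E] [Finite E] {p : ℕ} [Fact p.Prime] (hp : p ≠ 2) (h : Cfsg.IsExtraspecial p E) : (Subgroup.closure {x : E | x ^ p = 1}).index ≤ p ∧ ∀ g ∈ Subgroup.closure {x : E | x ^ p = 1}, g ^ p = 1 := by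
  classical
  have hp' : p.Prime := Fact.out
  obtain ⟨⟨hP, hΦ, hD⟩, hZ⟩ := h
  have hcen : ∀ z ∈ Subgroup.center E, ∀ w, z * w = w * z := fun z hz w => (Subgroup.mem_center_iff.mp hz w).symm
  have h2 : ⁅commutator E, (⊤ : Subgroup E)⁆ = ⊥ := by
    rw [hD, Subgroup.commutator_eq_bot_iff_le_centralizer, Subgroup.coe_top, Subgroup.centralizer_univ]
  have h4 : ⁅⁅commutator E, (⊤ : Subgroup E)⁆, (⊤ : Subgroup E)⁆ = ⊥ := by rw [h2, Subgroup.commutator_bot_left]
  have hexp : ∀ c ∈ commutator E, c ^ p = 1 := fun c hc => by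
    rw [hD] at hc
    have := congrArg Subtype.val (pow_card_eq_one' (x := (⟨c, hc⟩ : Subgroup.center E)))
    rw [hZ] at this
    exact this
  let φ : E →* E := MonoidHom.mk' (· ^ p) (CfsgLib.PowerMap.mul_pow_of_exponent hp' hp h4 (Or.inr h2) hexp)
  have hrange : φ.range ≤ Subgroup.center E := by
    rintro _ ⟨y, rfl⟩
    show y ^ p ∈ Subgroup.center E
    rw [Subgroup.mem_center_iff]
    intro x
    obtain ⟨c, d, e, hc, hd, he, h1, -, he1, -, hec⟩ := CfsgLib.PowerMap.data h4 x y
    have hcol := CfsgLib.PowerMap.pow_mul_collect h1 he1 hec p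
    rw [h2] at he
    rw [hexp c hc, Subgroup.mem_bot.mp he, one_pow, mul_one, mul_one] at hcol
    exact hcol.symm
  refine ⟨?_, fun g hg => CfsgLib.PowerMap.pow_eq_one_of_mem_closure hp' hp h4 (Or.inr h2) hg⟩
  refine le_trans (Nat.le_of_dvd ?_ (Subgroup.index_dvd_of_le (fun x hx => Subgroup.subset_closure hx :
    φ.ker ≤ Subgroup.closure {x : E | x ^ p = 1}))) ?_
  · rw [Subgroup.index_ker]; exact Nat.card_pos
  · rw [Subgroup.index_ker]
    exact (Subgroup.card_le_of_le hrange).trans_eq hZ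

end Cfsg.Agent.S0097
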