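import Cfsg.Statements.S0101
import Cfsg.Agent.Lib.FocalTransfer

set_option autoImplicit false
set_option linter.style.haveILetI false
open Cfsg

namespace Cfsg.Agent.S0101

/-- In a perfect central extension, the kernel meets each Sylow p-subgroup P inside the Frattini subgroup of P. -/
theorem result {H : Type*} {G : Type*} [Group H] [Group G] [Finite H] (σ : H →* G) (hσ : Function.Surjective σ) (hc : σ.ker ≤ Subgroup.center H) (hH : commutator H = ⊤) {p : ℕ} [Fact p.Prime] (P : Sylow p H) : σ.ker ⊓ (P : Subgroup H) ≤ (frattini P).map (P : Subgroup H).subtype := by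
  classical
  haveI : Finite G := Finite.of_surjective σ hσ
  rintro z ⟨hzker, hzP⟩
  refine ⟨⟨z, hzP⟩, ?_, rfl⟩
  show (⟨z, hzP⟩ : ↥(P : Subgroup H)) ∈ frattini ↥(P : Subgroup H)
  rw [frattini, Order.radical, Subgroup.mem_iInf]
  intro M
  rw [Subgroup.mem_iInf]
  intro hM
  haveI := P.isPGroup'.isNilpotent
  haveI : M.Normal := Subgroup.NormalizerCondition.normal_of_coatom M Group.normalizerCondition_of_isNilpotent hM
  have hQp : IsPGroup p (↥(P : Subgroup H) ⧸ M) := P.isPGroup'.to_quotient M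
  have hcm : IsMulCommutative (↥(P : Subgroup H) ⧸ M) := by
    refine ⟨⟨fun a b => ?_⟩⟩
    obtain ⟨a, rfl⟩ := QuotientGroup.mk'_surjective M a
    obtain ⟨b, rfl⟩ := QuotientGroup.mk'_surjective M b
    by_cases ha : a ∈ M
    · rw [show QuotientGroup.mk' M a = 1 from (QuotientGroup.eq_one_iff a).mpr ha, one_mul, mul_one]
    have htop : M ⊔ Subgroup.zpowers a = ⊤ :=
      hM.2 _ (lt_of_le_of_ne le_sup_left fun e => ha (e ▸ Subgroup.mem_sup_right (Subgroup.mem_zpowers a)))
    obtain ⟨m, hm, c, ⟨k, rfl⟩, rfl⟩ := Subgroup.mem_sup_of_normal_left.mp (htop ▸ Subgroup.mem_top b)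
    rw [map_mul, show QuotientGroup.mk' M m = 1 from (QuotientGroup.eq_one_iff m).mpr hm, one_mul, map_zpow]
    exact (Commute.self_zpow _ k).eq
  open scoped IsMulCommutative in
  have hzZ : z ∈ Subgroup.center H := hc hzker
  have key : ∀ (k : ℕ) (g₀ : H), g₀⁻¹ * z ^ k * g₀ ∈ (P : Subgroup H) → g₀⁻¹ * z ^ k * g₀ = z ^ k := fun k g₀ _ => by
    rw [mul_assoc, ← Subgroup.mem_center_iff.mp (pow_mem hzZ k) g₀, inv_mul_cancel_left]
  open scoped IsMulCommutative in
  have h1 := MonoidHom.transfer_eq_pow (QuotientGroup.mk' M) z key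
  open scoped IsMulCommutative in
  have h2 : MonoidHom.transfer (QuotientGroup.mk' M) z = 1 :=
    Abelianization.commutator_subset_ker _ (hH ▸ Subgroup.mem_top z)
  rw [h2] at h1
  have h3 : (QuotientGroup.mk' M (⟨z, hzP⟩ : ↥(P : Subgroup H))) ^ (P : Subgroup H).index = 1 := by
    rw [← map_pow]; exact h1.symm
  have h4 : (hQp.powEquiv' P.not_dvd_index) (QuotientGroup.mk' M ⟨z, hzP⟩) = (hQp.powEquiv' P.not_dvd_index) 1 := by
    simp only [IsPGroup.powEquiv_apply, one_pow]
    exact h3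
  exact (QuotientGroup.eq_one_iff _).mp ((hQp.powEquiv' P.not_dvd_index).injective h4)

end Cfsg.Agent.S0101
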