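import Cfsg.Statements.S0102
import Cfsg.Agent.Lib.FocalTransfer

set_option autoImplicit false
set_option linter.style.haveILetI false
open Cfsg

namespace Cfsg.Agent.S0102

/-- A finite perfect group with cyclic Sylow p-subgroups has no perfect central extension whose kernel has order divisible by p. -/
theorem result {G : Type*} {H : Type*} [Group G] [Group H] [Finite G] [Finite H] (hG : commutator G = ⊤) {p : ℕ} [Fact p.Prime] (hcyc : ∀ P : Sylow p G, IsCyclic P) (σ : H →* G) (hσ : Function.Surjective σ) (hz : σ.ker ≤ Subgroup.center H) (hH : commutator H = ⊤) : ¬ p ∣ Nat.card σ.ker := by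
  classical
  have hp : p.Prime := Fact.out
  intro hdvd
  obtain ⟨P⟩ : Nonempty (Sylow p H) := inferInstance
  set Pb := (P : Subgroup H).map σ
  have hPb : IsCyclic ↥Pb := by
    obtain ⟨Q, hQ⟩ := (P.isPGroup'.map σ).exists_le_sylow
    haveI := hcyc Q
    exact isCyclic_of_injective (Subgroup.inclusion hQ) (Subgroup.inclusion_injective hQ)
  let f : ↥(P : Subgroup H) →* ↥Pb := σ.subgroupMap (P : Subgroup H)
  have hcomm : IsMulCommutative ↥(P : Subgroup H) := by
    haveI := hPb
    refine ⟨⟨commutative_of_cyclic_center_quotient f fun x hx => ?_⟩⟩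
    have hx' : (x : H) ∈ σ.ker := congrArg Subtype.val hx
    exact Subgroup.mem_center_iff.mpr fun y => Subtype.ext (Subgroup.mem_center_iff.mp (hz hx') y)
  have hHall : Nat.Coprime (Nat.card ↥(P : Subgroup H)) (P : Subgroup H).index := by
    obtain ⟨k, hk⟩ := P.isPGroup'.exists_card_eq
    rw [hk]
    exact (hp.coprime_iff_not_dvd.mpr P.not_dvd_index).pow_left k
  have hbot := CfsgLib.FocalTransfer.abelian_hall_inf (P : Subgroup H) hcomm hHall
  rw [hH, inf_top_eq] at hbot
  obtain ⟨z, hz1⟩ := exists_prime_orderOf_dvd_card' p hdvd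
  obtain ⟨Q, hQ⟩ := (IsPGroup.of_card (n := 1) (by rw [Nat.card_zpowers, ← Subgroup.orderOf_coe z] at *; rw [hz1, pow_one]) :
    IsPGroup p ↥(Subgroup.zpowers (z : H))).exists_le_sylow
  obtain ⟨g, hg⟩ := MulAction.exists_smul_eq H Q P
  have hzP : (z : H) ∈ (P : Subgroup H) := by
    rw [← hg, Sylow.coe_subgroup_smul]
    refine Subgroup.mem_map.mpr ⟨z, hQ (Subgroup.mem_zpowers _), ?_⟩
    show g * (z : H) * g⁻¹ = z
    rw [Subgroup.mem_center_iff.mp (hz z.2) g, mul_inv_cancel_right]
  have : (z : H) ∈ (⊥ : Subgroup H) := hbot ▸ ⟨hzP, hz z.2⟩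
  rw [Subgroup.mem_bot] at this
  rw [← Subgroup.orderOf_coe, this, orderOf_one] at hz1
  exact hp.ne_one hz1.symm

end Cfsg.Agent.S0102
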