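import Cfsg.Statements.S0104
import Cfsg.Agent.Lib.FocalTransfer

set_option autoImplicit false
open Cfsg

namespace Cfsg.Agent.S0104

/-- A subgroup Z of a Sylow p-subgroup P that is normalized by N_G(P) is weakly closed in P exactly when it is normal in every Sylow p-subgroup containing it. -/
theorem result {G : Type*} [Group G] [Finite G] {p : ℕ} [Fact p.Prime] (P : Sylow p G) (Z : Subgroup G) (hZP : Z ≤ (P : Subgroup G)) (hZN : Subgroup.normalizer (P : Set G) ≤ Subgroup.normalizer (Z : Set G)) : Cfsg.IsWeaklyClosed Z P ↔ ∀ R : Sylow p G, Z ≤ (R : Subgroup G) → (R : Subgroup G) ≤ Subgroup.normalizer (Z : Set G) := by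
  constructor
  · rintro ⟨-, hW⟩ R hR
    obtain ⟨g, hg⟩ := MulAction.exists_smul_eq G P R
    have hle : Z.map (MulAut.conj g⁻¹).toMonoidHom ≤ (P : Subgroup G) := by
      rintro _ ⟨z, hz, rfl⟩
      have h := hR hz
      rw [← hg, Sylow.coe_subgroup_smul] at h
      obtain ⟨s, hs, hs'⟩ := Subgroup.mem_map.mp h
      have hs'' : g * s * g⁻¹ = z := hs'
      have : (MulAut.conj g⁻¹).toMonoidHom z = s := by
        rw [← hs'']; simp [mul_assoc]
      rw [this]; exact hs
    have hgN : g ∈ Subgroup.normalizer (Z : Set G) := by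
      simpa using inv_mem (CfsgLib.LocalBasic.mem_normalizer_of_conj_map_eq (hW g⁻¹ hle))
    intro r hr
    rw [← hg, Sylow.coe_subgroup_smul] at hr
    obtain ⟨s, hs, rfl⟩ := Subgroup.mem_map.mp hr
    exact mul_mem (mul_mem hgN (hZN (Subgroup.le_normalizer hs))) (inv_mem hgN)
  · intro h
    refine ⟨hZP, fun g hg => CfsgLib.LocalBasic.conj_map_eq_of_mem_normalizer ?_⟩
    have hR : Z ≤ ((g⁻¹ • P : Sylow p G) : Subgroup G) := by
      intro z hz
      rw [Sylow.coe_subgroup_smul]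
      refine Subgroup.mem_map.mpr ⟨g * z * g⁻¹, hg ⟨z, hz, rfl⟩, ?_⟩
      show g⁻¹ * (g * z * g⁻¹) * g⁻¹⁻¹ = z
      group
    have hPN : (P : Subgroup G) ≤ Subgroup.normalizer (Z : Set G) := Subgroup.le_normalizer.trans hZN
    obtain ⟨m, hm, hm'⟩ := CfsgLib.LocalBasic.exists_conj_le_sylow P hPN (g⁻¹ • P).isPGroup' (h _ hR)
    have hmg : m * g⁻¹ ∈ Subgroup.normalizer ((P : Subgroup G) : Set G) := by
      refine CfsgLib.LocalBasic.mem_normalizer_of_conj_map_eq (Subgroup.eq_of_le_of_card_ge ?_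
        (Subgroup.card_map_of_injective (MulAut.conj (m * g⁻¹)).injective).ge)
      rintro _ ⟨s, hs, rfl⟩
      have h1 : g⁻¹ * s * g⁻¹⁻¹ ∈ ((g⁻¹ • P : Sylow p G) : Subgroup G) := by
        rw [Sylow.coe_subgroup_smul]; exact Subgroup.mem_map.mpr ⟨s, hs, rfl⟩
      simpa [mul_assoc] using hm' _ h1
    have h2 := mul_mem (inv_mem (hZN hmg)) hm
    have e : (m * g⁻¹)⁻¹ * m = g := by group
    rwa [e] at h2

end Cfsg.Agent.S0104
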