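import Cfsg.Statements.S0105
import Cfsg.Agent.Lib.FocalTransfer

set_option autoImplicit false
set_option linter.style.haveILetI false
open Cfsg

namespace Cfsg.Agent.S0105

open scoped Pointwise

/-- With an abelian Sylow p-subgroup P, some quotient of G is isomorphic to the part of P central in N_G(P). -/
theorem result {G : Type*} [Group G] [Finite G] {p : ℕ} [Fact p.Prime] (P : Sylow p G) (hP : IsMulCommutative P) : ∃ (N : Subgroup G) (hN : N.Normal), Nonempty (G ⧸ N ≃* ((P : Subgroup G) ⊓ Subgroup.centralizer (Subgroup.normalizer (P : Set G) : Set G) : Subgroup G)) := by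
  classical
  obtain ⟨hbot, hsup⟩ := CfsgLib.FocalTransfer.sylow_decomp P hP
  set D := (P : Subgroup G) ⊓ Subgroup.centralizer (Subgroup.normalizer (P : Set G) : Set G) with hD
  have hfoc : Subgroup.focalSubgroup (P : Subgroup G) = ⁅(P : Subgroup G), Subgroup.normalizer ((P : Subgroup G) : Set G)⁆ :=
    (Subgroup.commutator_inf_eq_focalSubgroup P).symm.trans (CfsgLib.FocalTransfer.abelian_sylow P hP)
  rw [← hfoc] at hbot hsup
  let φ : ↥D →* ↥(P : Subgroup G) ⧸ Subgroup.focalSubgroupOf (P : Subgroup G) :=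
    (QuotientGroup.mk' _).comp (Subgroup.inclusion (inf_le_left : D ≤ (P : Subgroup G)))
  have hφ : Function.Bijective φ := by
    constructor
    · rw [← MonoidHom.ker_eq_bot_iff, eq_bot_iff]
      intro x hx
      have h1 : (x : G) ∈ Subgroup.focalSubgroup (P : Subgroup G) :=
        Subgroup.mem_subgroupOf.mp ((QuotientGroup.eq_one_iff (N := Subgroup.focalSubgroupOf (P : Subgroup G)) _).mp hx)
      have h2 : (x : G) ∈ (⊥ : Subgroup G) := hbot ▸ ⟨h1, x.2⟩
      exact Subgroup.mem_bot.mpr (Subtype.ext (Subgroup.mem_bot.mp h2))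
    · intro q
      obtain ⟨⟨u, hu⟩, rfl⟩ := QuotientGroup.mk'_surjective _ q
      have hn : ((Subgroup.focalSubgroup (P : Subgroup G)).subgroupOf (P : Subgroup G)).Normal := by
        have h0 : (Subgroup.focalSubgroupOf (P : Subgroup G)).Normal := inferInstance
        rwa [Subgroup.focalSubgroupOf_def] at h0
      have hle : Subgroup.focalSubgroup (P : Subgroup G) ≤ (P : Subgroup G) := Subgroup.focalSubgroup_le _
      have hDn : D ≤ Subgroup.normalizer (Subgroup.focalSubgroup (P : Subgroup G) : Set G) :=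
        le_trans (inf_le_left : D ≤ (P : Subgroup G)) ((Subgroup.normal_subgroupOf_iff_le_normalizer (H := Subgroup.focalSubgroup (P : Subgroup G)) (K := (P : Subgroup G)) hle).mp hn)
      have hmem : u ∈ D ⊔ Subgroup.focalSubgroup (P : Subgroup G) := by rw [sup_comm]; exact hsup.ge hu
      rw [← SetLike.mem_coe, Subgroup.coe_mul_of_left_le_normalizer_right _ _ hDn] at hmem
      obtain ⟨d, hd, f, hf, hdf⟩ := Set.mem_mul.mp hmem
      refine ⟨⟨d, hd⟩, QuotientGroup.eq.mpr ?_⟩
      rw [Subgroup.focalSubgroupOf_def, Subgroup.mem_subgroupOf]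
      show d⁻¹ * u ∈ _
      rw [← hdf, inv_mul_cancel_left]
      exact hf
  exact ⟨(Subgroup.transferFocal (P : Subgroup G)).ker, inferInstance,
    ⟨(Subgroup.transferFocal.quotientKerMulEquivQuotientFocalSubroupOf P).trans (MulEquiv.ofBijective φ hφ).symm⟩⟩

end Cfsg.Agent.S0105
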