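import Cfsg.Statements.S0107
import Cfsg.Agent.S0111
import Cfsg.Agent.Lib.TwoSylow
import Cfsg.Agent.Lib.PResidual

set_option autoImplicit false
set_option linter.style.haveILetI false
open Cfsg

namespace Cfsg.Agent.S0107

/-- A finite group with no nontrivial 2-group quotient and dihedral Sylow 2-subgroups of order at least 8 has a single class of involutions. -/
theorem result {G : Type*} [Group G] [Finite G] (T : Sylow 2 G) (n : ℕ) (hn : 2 ≤ n) (hT : Nonempty ((T : Subgroup G) ≃* DihedralGroup (2 ^ n))) (hO : Cfsg.pResidual 2 G = ⊤) (x y : G) (hx : orderOf x = 2) (hy : orderOf y = 2) : ∃ g : G, g * x * g⁻¹ = y := by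
  classical
  obtain ⟨e⟩ := hT
  haveI : NeZero (2 ^ n) := ⟨pow_ne_zero _ two_ne_zero⟩
  let r : ↥(T : Subgroup G) := e.symm (DihedralGroup.r 1)
  set Q := Subgroup.zpowers (r : G) with hQdef
  have hordr : orderOf (r : G) = 2 ^ n := by
    rw [Subgroup.orderOf_coe]
    exact (MulEquiv.orderOf_eq e.symm _).trans DihedralGroup.orderOf_r_one
  have hQT : Q ≤ (T : Subgroup G) := Subgroup.zpowers_le.mpr r.2
  have hQi : Q.relIndex (T : Subgroup G) = 2 := by
    have h1 := (Q.subgroupOf (T : Subgroup G)).card_mul_index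
    rw [Nat.card_congr (Subgroup.subgroupOfEquivOfLe hQT).toEquiv, Nat.card_zpowers, hordr,
      Nat.card_congr e.toEquiv, DihedralGroup.nat_card, mul_comm 2] at h1
    exact Nat.eq_of_mul_eq_mul_left (by positivity) h1
  set z : G := (r : G) ^ 2 ^ (n - 1) with hz
  have hzord : orderOf z = 2 := by
    rw [hz, orderOf_pow_of_dvd (by positivity) (hordr ▸ pow_dvd_pow 2 (by omega)), hordr,
      Nat.pow_div (by omega) two_pos, show n - (n - 1) = 1 by omega, pow_one]
  have huniq : ∀ u ∈ Q, orderOf u = 2 → u = z := fun u hu h2 =>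
    congrArg Subtype.val (CfsgLib.TwoSylow.involution_unique (C := ↥Q) (a := ⟨u, hu⟩)
      (b := ⟨z, Subgroup.pow_mem _ (Subgroup.mem_zpowers _) _⟩) (by rwa [Subgroup.orderOf_mk]) (by rwa [Subgroup.orderOf_mk]))
  have hto : ∀ u : G, orderOf u = 2 → ∃ g : G, g * u * g⁻¹ = z := by
    intro u hu
    haveI := Fact.mk Nat.prime_two
    obtain ⟨S, hS⟩ := (IsPGroup.of_card (n := 1) (by rw [Nat.card_zpowers, hu, pow_one]) :
      IsPGroup 2 ↥(Subgroup.zpowers u)).exists_le_sylow
    obtain ⟨g, hg⟩ := MulAction.exists_smul_eq G S T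
    have hmem : g * u * g⁻¹ ∈ (T : Subgroup G) := by
      rw [← hg, Sylow.coe_subgroup_smul]
      exact Subgroup.mem_map.mpr ⟨u, hS (Subgroup.mem_zpowers u), rfl⟩
    have hord : orderOf (g * u * g⁻¹) = 2 := CfsgLib.Involution.orderOf_conj' hu
    by_cases hQ : g * u * g⁻¹ ∈ Q
    · exact ⟨g, huniq _ hQ hord⟩
    rcases Cfsg.Agent.S0111.result T Q hQT hQi _ hord hmem hQ with ⟨M, hM, hMi, -⟩ | ⟨g', hg'⟩
    · exfalso
      haveI := hM
      have h1 : Cfsg.pResidual 2 G ≤ M :=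
        CfsgLib.PResidual.pResidual_le (IsPGroup.of_card (n := 1) (by rw [← Subgroup.index_eq_card, hMi, pow_one]))
      rw [hO, top_le_iff] at h1
      rw [h1, Subgroup.index_top] at hMi
      exact absurd hMi (by norm_num)
    · refine ⟨g' * g, ?_⟩
      rw [← huniq _ hg' (CfsgLib.Involution.orderOf_conj' hord)]
      group
  obtain ⟨g, hg⟩ := hto x hx
  obtain ⟨g', hg'⟩ := hto y hy
  refine ⟨g'⁻¹ * g, ?_⟩
  calc g'⁻¹ * g * x * (g'⁻¹ * g)⁻¹ = g'⁻¹ * (g * x * g⁻¹) * g' := by group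
    _ = _ := by rw [hg, ← hg']; group

end Cfsg.Agent.S0107
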