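import Cfsg.Statements.S0257
import Mathlib
import Cfsg.Agent.Lib.Linear.SmallPSL

set_option autoImplicit false
open Cfsg

namespace Cfsg.Agent.S0257

private abbrev L3 := Matrix.SpecialLinearGroup (Fin 2) (ZMod 3)

private def qa : L3 := ⟨!![0, 2; 1, 0], by decide⟩
private def qb : L3 := ⟨!![1, 1; 1, 2], by decide⟩

private def qf : QuaternionGroup 2 → L3
  | .a i => qa ^ i.val
  | .xa i => qb * qa ^ i.val

private theorem qf_mul : ∀ x y : QuaternionGroup 2, qf (x * y) = qf x * qf y := by decide +kernel

private def qh : QuaternionGroup 2 →* L3 := MonoidHom.mk' qf qf_mul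

private theorem qh_injective : Function.Injective qh := by
  show ∀ x y, qh x = qh y → x = y
  decide +kernel

private theorem qh_normal : ∀ (g : L3) (x : QuaternionGroup 2), ∃ y, qf y = g * qf x * g⁻¹ := by decide +kernel

/-- SL_2(3) has a normal subgroup of index 3 isomorphic to the quaternion group of order 8, and its centre has order 2. -/
theorem result {F : Type*} [Field F] [Fintype F] (hF : Fintype.card F = 3) : (∃ Q : Subgroup (Matrix.SpecialLinearGroup (Fin 2) F), Q.Normal ∧ Q.index = 3 ∧ Nonempty (Q ≃* QuaternionGroup 2)) ∧ Nat.card (Subgroup.center (Matrix.SpecialLinearGroup (Fin 2) F)) = 2 := by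
  let e0 : ZMod 3 ≃+* F := ZMod.ringEquivOfPrime F (by norm_num) hF
  let e : L3 ≃* Matrix.SpecialLinearGroup (Fin 2) F :=
    { toFun := Matrix.SpecialLinearGroup.map e0.toRingHom
      invFun := Matrix.SpecialLinearGroup.map e0.symm.toRingHom
      left_inv := fun g => Subtype.ext (by ext i j; simp)
      right_inv := fun g => Subtype.ext (by ext i j; simp)
      map_mul' := map_mul _ }
  have hSL : Nat.card (Matrix.SpecialLinearGroup (Fin 2) F) = 24 := by
    have := CfsgLib.Linear.SmallPSL.card_SL2 (F := F)
    rw [hF] at this; norm_num at this; omega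
  refine ⟨?_, by rw [CfsgLib.Linear.Card.card_center_SL, hF]; simp⟩
  let f : QuaternionGroup 2 →* Matrix.SpecialLinearGroup (Fin 2) F := e.toMonoidHom.comp qh
  have hf : Function.Injective f := e.injective.comp qh_injective
  refine ⟨f.range, ⟨?_⟩, ?_, ⟨(MonoidHom.ofInjective hf).symm⟩⟩
  · rintro _ ⟨x, rfl⟩ g
    obtain ⟨y, hy⟩ := qh_normal (e.symm g) x
    refine ⟨y, ?_⟩
    show e (qf y) = g * e (qf x) * g⁻¹
    rw [hy, map_mul, map_mul, map_inv, MulEquiv.apply_symm_apply]
  · have := Subgroup.card_mul_index f.range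
    rw [← Nat.card_congr (MonoidHom.ofInjective hf).toEquiv, hSL, Nat.card_eq_fintype_card, QuaternionGroup.card] at this
    omega

end Cfsg.Agent.S0257
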