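import Cfsg.Statements.S0109
import Cfsg.Agent.Lib.GroupB.ZJThompson
import Cfsg.Agent.Lib.Glauberman.QdFree
import Cfsg.Agent.Lib.QdFree
import Cfsg.Agent.Lib.OddQuad
import Cfsg.Agent.S0257

set_option autoImplicit false
open Cfsg

namespace Cfsg.Agent.S0109

universe u

theorem involves_sl2_qd (p : ℕ) [Fact p.Prime] :
    Cfsg.Involves (Matrix.SpecialLinearGroup (Fin 2) (ZMod p)) ↥(Cfsg.qd p) := by
  let emb : Matrix.SpecialLinearGroup (Fin 2) (ZMod p) →* Matrix.SpecialLinearGroup (Fin 3) (ZMod p) :=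
    MonoidHom.mk' (fun M => ⟨!![M.1 0 0, M.1 0 1, 0; M.1 1 0, M.1 1 1, 0; 0, 0, 1], by
        have h := M.2
        rw [Matrix.det_fin_two] at h
        rw [Matrix.det_fin_three]
        simpa using h⟩) fun M N => by
      apply Subtype.ext
      show !![(M.1 * N.1) 0 0, (M.1 * N.1) 0 1, 0; (M.1 * N.1) 1 0, (M.1 * N.1) 1 1, 0; 0, 0, 1] =
        !![M.1 0 0, M.1 0 1, 0; M.1 1 0, M.1 1 1, 0; 0, 0, 1] * !![N.1 0 0, N.1 0 1, 0; N.1 1 0, N.1 1 1, 0; 0, 0, 1]
      ext i j
      fin_cases i <;> fin_cases j <;> simp [Matrix.mul_apply, Fin.sum_univ_two, Fin.sum_univ_three]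
  have hmem : ∀ M, emb M ∈ Cfsg.qd p := fun M => Subgroup.subset_closure ⟨rfl, rfl, rfl⟩
  let f := emb.codRestrict (Cfsg.qd p) hmem
  have hinj : Function.Injective f := by
    intro M N h
    have h' : (emb M).1 = (emb N).1 := congrArg (fun x : ↥(Cfsg.qd p) => x.1.1) h
    apply Subtype.ext
    ext i j
    fin_cases i <;> fin_cases j
    · exact congrFun (congrFun h' 0) 0
    · exact congrFun (congrFun h' 0) 1
    · exact congrFun (congrFun h' 1) 0
    · exact congrFun (congrFun h' 1) 1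
  exact CfsgLib.QdFree.involves_of_hom f.range (MonoidHom.ofInjective hinj).symm.toMonoidHom
    (MonoidHom.ofInjective hinj).symm.surjective


open scoped Matrix in
theorem not_solvable_sl2 {p : ℕ} [Fact p.Prime] (hp5 : 5 ≤ p) :
    ¬ Group.IsSolvable (Matrix.SpecialLinearGroup (Fin 2) (ZMod p)) := by
  intro hs
  have h4 : ((2 : ℕ) : ZMod p) ^ 2 ≠ 1 := fun h => by
    have h1 : ((3 : ℕ) : ZMod p) = 0 := by push_cast at h ⊢; linear_combination h
    rw [ZMod.natCast_eq_zero_iff] at h1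
    have := Nat.le_of_dvd (by norm_num) h1
    omega
  have h2 : ((2 : ℕ) : ZMod p) ≠ 0 := fun h => by
    rw [ZMod.natCast_eq_zero_iff] at h
    have := Nat.le_of_dvd (by norm_num) h
    omega
  have htop : commutator (Matrix.SpecialLinearGroup (Fin 2) (ZMod p)) = ⊤ := top_le_iff.mp fun A _ =>
    Matrix.SL2.transvection_induction (fun M => M ∈ commutator (Matrix.SpecialLinearGroup (Fin 2) (ZMod p)))
      (fun i j h c => Matrix.transvection_mem_commutator h2 h4 h c)
      (fun M N hM hN => Subgroup.mul_mem _ hM hN) A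
  haveI := hs
  haveI : Nontrivial (Matrix.SpecialLinearGroup (Fin 2) (ZMod p)) :=
    ⟨⟨Matrix.SpecialLinearGroup.transvection (zero_ne_one (α := Fin 2)) 1, 1, fun h => by
      have := congrArg (fun M : Matrix.SpecialLinearGroup (Fin 2) (ZMod p) => M.1 0 1) h
      simp [Matrix.SpecialLinearGroup.transvection_coe] at this⟩⟩
  exact (Group.IsSolvable.commutator_lt_top_of_nontrivial (Matrix.SpecialLinearGroup (Fin 2) (ZMod p))).ne htop

theorem not_comm_sylow_sl2_three :
    ¬ ∀ S : Sylow 2 (Matrix.SpecialLinearGroup (Fin 2) (ZMod 3)), IsMulCommutative S := by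
  intro h
  haveI : Fact (Nat.Prime 3) := ⟨by norm_num⟩
  obtain ⟨⟨Q, -, hQ3, ⟨e⟩⟩, -⟩ := Cfsg.Agent.S0257.result (F := ZMod 3) (ZMod.card 3)
  have hp : IsPGroup 2 Q := IsPGroup.of_card (n := 3) (by
    rw [Nat.card_congr e.toEquiv, Nat.card_eq_fintype_card, QuaternionGroup.card]; norm_num)
  obtain ⟨S, hS⟩ := hp.exists_le_sylow
  haveI := h S
  have hc : ∀ x y : QuaternionGroup 2, x * y = y * x := fun x y => by
    have h1 := mul_comm' (⟨(e.symm x : Q), hS (e.symm x).2⟩ : S) ⟨(e.symm y : Q), hS (e.symm y).2⟩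
    have h1' := congrArg (fun t : S => (t : Matrix.SpecialLinearGroup (Fin 2) (ZMod 3))) h1
    have h2 : (e.symm x) * (e.symm y) = (e.symm y) * (e.symm x) := Subtype.ext h1'
    simpa using congrArg e h2
  exact absurd (hc (QuaternionGroup.a 1) (QuaternionGroup.xa 0)) (by decide)

/-- Solvable groups with abelian Sylow `2`-subgroups when `p = 3` have no section `Qd(p)`. -/
theorem qdFree {G : Type u} [Group G] [Finite G] {p : ℕ} [Fact p.Prime] (hp : p ≠ 2) (hs : Group.IsSolvable G)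
    (h3 : p = 3 → ∀ T : Sylow 2 G, IsMulCommutative T) : ¬ Cfsg.Involves ↥(Cfsg.qd p) G := by
  intro h
  obtain ⟨K, R, hR, e⟩ := h
  obtain ⟨f, hf⟩ := CfsgLib.Dickson.surjective_of_section e
  obtain ⟨K', R', hR', e'⟩ := CfsgLib.QdFree.involves_trans K f hf (involves_sl2_qd p)
  obtain ⟨g, hg⟩ := CfsgLib.Dickson.surjective_of_section e'
  haveI := hs
  haveI : Group.IsSolvable K' := inferInstance
  by_cases hp3 : p = 3
  · subst hp3
    apply not_comm_sylow_sl2_three
    intro S
    obtain ⟨S', rfl⟩ := Sylow.mapSurjective_surjective hg 2 S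
    obtain ⟨T, hT⟩ := (S'.2.map K'.subtype).exists_le_sylow
    haveI := h3 rfl T
    haveI : IsMulCommutative (S' : Subgroup K') := ⟨⟨fun a b => by
      have h1 := mul_comm' (⟨((a : K') : G), hT ⟨a, a.2, rfl⟩⟩ : T) ⟨((b : K') : G), hT ⟨b, b.2, rfl⟩⟩
      exact Subtype.ext (Subtype.ext (congrArg (fun t : T => (t : G)) h1))⟩⟩
    rw [Sylow.coe_mapSurjective]
    infer_instance
  · have hp5 : 5 ≤ p := by
      have h2 := (Fact.out : p.Prime).two_le
      rcases Nat.lt_or_ge p 5 with h | h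
      · interval_cases p
        · exact absurd rfl hp
        · exact absurd rfl hp3
        · exact absurd (Fact.out : Nat.Prime 4) (by norm_num)
      · exact h
    exact not_solvable_sl2 hp5 (Group.isSolvable_of_surjective hg)

open CfsgLib.ThompsonNPC CfsgLib.Glauberman CfsgLib.Fusion in
theorem main {G : Type u} [Group G] [Finite G] {p : ℕ} [hpp : Fact p.Prime] (hp : p ≠ 2) (hst : Stable p G)
    (hc : Subgroup.centralizer ((Cfsg.pCore p G : Subgroup G) : Set G) ≤ Cfsg.pCore p G) (P : Sylow p G) :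
    ∀ g : G, ∃ a ∈ Subgroup.normalizer (J p (P : Subgroup G) : Set G),
      ∃ c ∈ Subgroup.centralizer {x : G | x ∈ (P : Subgroup G) ∧ (∀ y ∈ (P : Subgroup G), x * y = y * x) ∧ x ^ p = 1},
        g = a * c := by
  set Q := Cfsg.pCore p G
  haveI hQn : Q.Normal := Cfsg.pCore_normal p G
  have hQP : Q ≤ (P : Subgroup G) := CfsgLib.Core.pCore_le_sylow P
  set S : Set G := {x : G | x ∈ (P : Subgroup G) ∧ (∀ y ∈ (P : Subgroup G), x * y = y * x) ∧ x ^ p = 1} with hS
  set Y := Subgroup.center Q with hY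
  set V := Subgroup.normalClosure S with hV
  haveI : V.Normal := Subgroup.normalClosure_normal
  have hSQ : ∀ x ∈ S, x ∈ Q ∧ ∀ y ∈ Q, x * y = y * x := fun x hx =>
    ⟨hc (Subgroup.mem_centralizer_iff.mpr fun y hy => (hx.2.1 y (hQP hy)).symm), fun y hy => hx.2.1 y (hQP hy)⟩
  -- `V` is elementary abelian
  let E : Subgroup G :=
    { carrier := {x | x ∈ Q ∧ (∀ y ∈ Q, x * y = y * x) ∧ x ^ p = 1}
      one_mem' := ⟨one_mem _, fun y _ => by simp, one_pow _⟩
      mul_mem' := fun {a b} ha hb => ⟨Q.mul_mem ha.1 hb.1, fun y hy => by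
          rw [mul_assoc, hb.2.1 y hy, ← mul_assoc, ha.2.1 y hy, mul_assoc], by
        rw [(show Commute a b from ha.2.1 b hb.1).mul_pow, ha.2.2, hb.2.2, one_mul]⟩
      inv_mem' := fun {a} ha => ⟨Q.inv_mem ha.1, fun y hy => ((show Commute a y from ha.2.1 y hy).inv_left).eq, by
        rw [inv_pow, ha.2.2, inv_one]⟩ }
  haveI hEn : E.Normal := ⟨fun x hx g => ⟨hQn.conj_mem x hx.1 g, fun y hy => by
      have h1 := hx.2.1 (g⁻¹ * y * g) (by simpa using hQn.conj_mem y hy g⁻¹)
      calc g * x * g⁻¹ * y = g * (x * (g⁻¹ * y * g)) * g⁻¹ := by group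
        _ = g * ((g⁻¹ * y * g) * x) * g⁻¹ := by rw [h1]
        _ = y * (g * x * g⁻¹) := by group, by rw [conj_pow, hx.2.2]; simp⟩⟩
  have hVE : V ≤ E := Subgroup.normalClosure_le_normal fun x hx => ⟨(hSQ x hx).1, (hSQ x hx).2, hx.2.2⟩
  have hVP : V ≤ (P : Subgroup G) := fun x hx => hQP (hVE hx).1
  have hVab : ∀ a ∈ V, ∀ b ∈ V, a * b = b * a := fun a ha b hb => (hVE ha).2.1 b (hVE hb).1
  set C := Subgroup.centralizer (V : Set G) with hC
  -- no normal `p`-subgroups modulo `C`
  have hred : (Cfsg.pCore p (G ⧸ C)).comap (QuotientGroup.mk' C) ≤ C := by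
    set Dn := (Cfsg.pCore p (G ⧸ C)).comap (QuotientGroup.mk' C) with hDn
    haveI : Dn.Normal := (Cfsg.pCore_normal p _).comap _
    have h1 : Dn ≤ ((P : Subgroup G).map (QuotientGroup.mk' C)).comap (QuotientGroup.mk' C) :=
      Subgroup.comap_mono (CfsgLib.Core.pCore_le_sylow (P.mapSurjective (QuotientGroup.mk'_surjective C)))
    rw [Subgroup.comap_map_eq, QuotientGroup.ker_mk'] at h1
    have hfix : ∀ z ∈ S, ∀ d ∈ Dn, d * z = z * d := by
      intro z hz d hd
      obtain ⟨s, hs, c, hcm, rfl⟩ := Subgroup.mem_sup_of_normal_right.mp (h1 hd)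
      have h2 : c * z = z * c := (Subgroup.mem_centralizer_iff.mp hcm z (Subgroup.subset_normalClosure hz)).symm
      rw [mul_assoc, h2, ← mul_assoc, ← hz.2.1 s hs, mul_assoc]
    intro d hd
    have h3 : V ≤ Subgroup.centralizer (Dn : Set G) := Subgroup.normalClosure_le_normal fun z hz =>
      Subgroup.mem_centralizer_iff.mpr fun d' hd' => hfix z hz d' hd'
    exact Subgroup.mem_centralizer_iff.mpr fun v hv => (Subgroup.mem_centralizer_iff.mp (h3 hv) d hd).symm
  have hJC : J p (P : Subgroup G) ≤ C := by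
    have hall : ∀ A ∈ maxAb p (P : Subgroup G), V ≤ A := by
      by_contra hall
      push Not at hall
      have hV' : ⁅V, V⁆ = ⊥ := Subgroup.commutator_eq_bot_iff_le_centralizer.mpr fun x hx =>
        Subgroup.mem_centralizer_iff.mpr fun y hy => hVab y hy x hx
      obtain ⟨A, hA, hVA, hVN⟩ := maxAb_rep hp (Or.inr rfl) P le_rfl V hVP
        (by rw [Subgroup.normalizer_eq_top_iff.mpr inferInstance]; exact le_top)
        (by rw [hV', Subgroup.commutator_bot_left]) (fun A _ => hV' ▸ bot_le) hall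
      have hAC : A ≤ C := fun a ha => hred (hst V (P.2.to_le hVP) a fun v hv => by
        refine commutatorElement_eq_one_iff_mul_comm.mpr (hA.2.1.1 _ ?_ a ha)
        rw [commutatorElement_def]
        exact A.mul_mem ((Subgroup.mem_normalizer_iff.mp (hVN hv) a).mp ha) (A.inv_mem ha))
      refine hVA (le_sup_right.trans (Subgroup.eq_of_le_of_card_ge (le_sup_left : A ≤ A ⊔ V)
        (hA.2.2 _ (sup_le hA.1 hVP) (abExp_sup hA.2.1 ⟨hVab, fun v hv => (hVE hv).2.2⟩
          fun a ha v hv => (Subgroup.mem_centralizer_iff.mp (hAC ha) v hv).symm))).ge)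
    exact sSup_le fun A hA a ha => Subgroup.mem_centralizer_iff.mpr fun v hv => hA.2.1.1 v (hall A hA hv) a ha
  set T := (P : Subgroup G) ⊓ C with hT
  have hidx : ¬ p ∣ T.relIndex C :=
    sylow_inf_normal (H := ⊤) (by rw [Subgroup.relIndex_top_right]; exact P.not_dvd_index) le_top le_top
      (by rw [Subgroup.normalizer_eq_top_iff.mpr inferInstance])
  obtain ⟨R, hR⟩ := (exists_sylow_iff (inf_le_right : T ≤ C)).mpr ⟨P.2.to_le inf_le_left, hidx⟩
  have hfr := Sylow.normalizer_sup_eq_top R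
  rw [show ((R : Subgroup ↥C).map C.subtype) = T by
    rw [hR, Subgroup.map_subgroupOf_eq_of_le inf_le_right]] at hfr
  intro g
  obtain ⟨n, hn, c, hcm, rfl⟩ := Subgroup.mem_sup_of_normal_right.mp (hfr.ge (Subgroup.mem_top g))
  refine ⟨n, ?_, c, Subgroup.centralizer_le Subgroup.subset_normalClosure hcm, rfl⟩
  have hJT : J p (P : Subgroup G) ≤ T := le_inf (J_le p _) hJC
  refine CfsgLib.Glauberman.mem_normalizer_of_conj_mem ?_
  have hle : J p (P : Subgroup G) ≤ (J p (P : Subgroup G)).comap (MulAut.conj n).toMonoidHom := sSup_le fun A hA a ha => by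
    refine (le_sSup (maxAb_inv P (fun g x _ hgx => hgx) p n A hA ?_) : cj n A ≤ J p (P : Subgroup G)) (mem_cj.mpr ⟨a, ha, rfl⟩)
    rintro _ ⟨w, hw, rfl⟩
    exact ((Subgroup.mem_normalizer_iff.mp hn w).mp (hJT ((le_sSup hA : A ≤ J p (P : Subgroup G)) hw))).1
  exact fun a ha => hle ha

/-- The Thompson factorization Theorem for solvable groups states that, with p odd (and abelian Sylow 2-subgroups when p = 3) and no nontrivial normal subgroup of order prime to p, every element of G is a product of an element normalizing J(P) and an element centralizing the elements of order dividing p in the centre of P. -/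
theorem result {G : Type*} [Group G] [Finite G] {p : ℕ} [Fact p.Prime] (hp : p ≠ 2) (hs : Group.IsSolvable G) (h3 : p = 3 → ∀ T : Sylow 2 G, IsMulCommutative T) (hF : ∀ N : Subgroup G, N.Normal → Nat.Coprime (Nat.card N) p → N = ⊥) (P : Sylow p G) (g : G) : ∃ a ∈ Subgroup.normalizer (Cfsg.thompsonSubgroupOf p (P : Subgroup G) : Set G), ∃ c ∈ Subgroup.centralizer {x : G | x ∈ (P : Subgroup G) ∧ (∀ y ∈ (P : Subgroup G), x * y = y * x) ∧ x ^ p = 1}, g = a * c := by
  rw [CfsgLib.ThompsonNPC.thompsonSubgroupOf_eq]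
  refine main hp (CfsgLib.Dickson.stable_of_qdFree hp (qdFree hp hs h3)) ?_ P g
  refine CfsgLib.OddQuad.centralizer_pCore_le ?_
  rw [eq_bot_iff]
  intro x hx
  exact (hF _ ((haveI := CfsgLib.Core.pPrimeCore_characteristic (G := G) p; inferInstance)) (CfsgLib.Core.card_pPrimeCore_coprime p)).le hx

end Cfsg.Agent.S0109
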