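import Cfsg.Statements.S0110
import Cfsg.Agent.Lib.FocalTransfer

set_option autoImplicit false
set_option linter.style.haveILetI false
open Cfsg

namespace Cfsg.Agent.S0110

open scoped Pointwise

/-- A nontrivial normal subgroup of a finite `p`-group meets the centre. -/
theorem normal_inf_center_ne_bot {p : ℕ} [Fact p.Prime] {P : Type*} [Group P] [Finite P] (hP : IsPGroup p P)
    {N : Subgroup P} (hN : N.Normal) (hNe : N ≠ ⊥) : N ⊓ Subgroup.center P ≠ ⊥ := by
  letI : MulAction P ↥N := MulAction.compHom ↥N (MulAut.conjNormal : P →* MulAut ↥N)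
  haveI : Nontrivial ↥N := (Subgroup.nontrivial_iff_ne_bot N).mpr hNe
  obtain ⟨k, hk0, hk⟩ := (hP.to_subgroup N).nontrivial_iff_card.mp inferInstance
  have h1 : (1 : ↥N) ∈ MulAction.fixedPoints P ↥N := fun g => map_one (MulAut.conjNormal (H := N) g)
  obtain ⟨z, hz, hz1⟩ := hP.exists_fixed_point_of_prime_dvd_card_of_fixed_point ↥N (hk ▸ dvd_pow_self p hk0.ne') h1
  rw [Subgroup.ne_bot_iff_exists_ne_one]
  refine ⟨⟨z, z.2, Subgroup.mem_center_iff.mpr fun g => ?_⟩, fun e => hz1 ?_⟩
  · have h : (MulAut.conjNormal g z : P) = z := congrArg Subtype.val (hz g)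
    rw [MulAut.conjNormal_apply] at h
    exact mul_inv_eq_iff_eq_mul.mp h
  · exact (Subtype.ext (congrArg (fun w : ↥(N ⊓ Subgroup.center P) => (w : P)) e) : z = 1).symm

theorem relIndex_le_orbit {G : Type*} [Group G] [Finite G] (H : Subgroup G) (x : G) (S : Set G) (hS : S.Finite)
    (h : ∀ g ∈ H, g * x * g⁻¹ ∈ S) :
    (Subgroup.centralizer ({x} : Set G)).relIndex H ≤ S.ncard := by
  classical
  let f : ↥H ⧸ (Subgroup.centralizer ({x} : Set G)).subgroupOf H → S :=
    Quotient.lift (fun g => ⟨(g : G) * x * (g : G)⁻¹, h g g.2⟩) (fun a b hab => by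
      apply Subtype.ext
      have hmem := QuotientGroup.leftRel_apply.mp hab
      rw [Subgroup.mem_subgroupOf, Subgroup.mem_centralizer_singleton_iff] at hmem
      show (a : G) * x * (a : G)⁻¹ = (b : G) * x * (b : G)⁻¹
      simp only [Subgroup.coe_mul, Subgroup.coe_inv] at hmem
      calc (a : G) * x * (a : G)⁻¹ = (a : G) * (x * ((a : G)⁻¹ * b)) * (b : G)⁻¹ := by group
        _ = (a : G) * ((a : G)⁻¹ * b * x) * (b : G)⁻¹ := by rw [hmem]
        _ = _ := by group)
  have hf : Function.Injective f := by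
    intro a b
    induction a using Quotient.inductionOn with | _ a =>
    induction b using Quotient.inductionOn with | _ b =>
    intro e
    apply QuotientGroup.eq.mpr
    rw [Subgroup.mem_subgroupOf, Subgroup.mem_centralizer_singleton_iff]
    have e' : (a : G) * x * (a : G)⁻¹ = (b : G) * x * (b : G)⁻¹ := congrArg Subtype.val e
    simp only [Subgroup.coe_mul, Subgroup.coe_inv]
    calc (a : G)⁻¹ * b * x = (a : G)⁻¹ * ((b : G) * x * (b : G)⁻¹) * b := by group
      _ = (a : G)⁻¹ * ((a : G) * x * (a : G)⁻¹) * b := by rw [e']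
      _ = _ := by group
  haveI := hS.to_subtype
  rw [← Nat.card_coe_set_eq]
  exact Nat.card_le_card_of_injective f hf

theorem exists_step {G : Type*} [Group G] [Finite G] {p : ℕ} [Fact p.Prime] (hG : IsPGroup p G)
    (N A : Subgroup G) [N.Normal] [A.Normal] (h : N < A) :
    ∃ x ∈ A, x ∉ N ∧ (∀ g : G, g * x * g⁻¹ * x⁻¹ ∈ N) ∧ x ^ p ∈ N := by
  have hp : p.Prime := Fact.out
  set B := A.map (QuotientGroup.mk' N) with hB
  haveI : B.Normal := Subgroup.Normal.map inferInstance _ (QuotientGroup.mk'_surjective N)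
  obtain ⟨a, haA, haN⟩ := SetLike.exists_of_lt h
  have hBne : B ≠ ⊥ := fun e => haN ((QuotientGroup.eq_one_iff a).mp
    (Subgroup.mem_bot.mp (e ▸ Subgroup.mem_map_of_mem _ haA)))
  have hQ : IsPGroup p (G ⧸ N) := hG.to_quotient N
  obtain ⟨z, ⟨hzB, hzZ⟩, hz1⟩ := (B ⊓ Subgroup.center (G ⧸ N)).bot_or_exists_ne_one.resolve_left
    (normal_inf_center_ne_bot hQ inferInstance hBne)
  obtain ⟨k, hk⟩ := IsPGroup.iff_orderOf.mp hQ z
  have hk0 : k ≠ 0 := fun e => hz1 (orderOf_eq_one_iff.mp (by rw [hk, e, pow_zero]))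
  obtain ⟨k', rfl⟩ := Nat.exists_eq_succ_of_ne_zero hk0
  obtain ⟨y, hy, hyz⟩ := Subgroup.mem_map.mp (pow_mem hzB (p ^ k'))
  have hne : z ^ p ^ k' ≠ 1 := fun e => by
    have := orderOf_dvd_of_pow_eq_one e
    rw [hk] at this
    exact absurd (Nat.le_of_dvd (pow_pos hp.pos _) this)
      (not_le.mpr (Nat.pow_lt_pow_right hp.one_lt (Nat.lt_succ_self k')))
  refine ⟨y, hy, fun hyN => hne (hyz ▸ (QuotientGroup.eq_one_iff y).mpr hyN), fun g => ?_, ?_⟩
  · refine (QuotientGroup.eq_one_iff _).mp ?_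
    show QuotientGroup.mk' N (g * y * g⁻¹ * y⁻¹) = 1
    have := Subgroup.mem_center_iff.mp (pow_mem hzZ (p ^ k')) (QuotientGroup.mk' N g)
    rw [← hyz] at this
    simp only [map_mul, map_inv, this]
    group
  · refine (QuotientGroup.eq_one_iff _).mp ?_
    show QuotientGroup.mk' N (y ^ p) = 1
    rw [map_pow, hyz, ← pow_mul, ← pow_succ, ← hk, pow_orderOf_eq_one]

theorem card_sup_zpowers {G : Type*} [Group G] [Finite G] {p : ℕ} [Fact p.Prime]
    (N : Subgroup G) [N.Normal] (x : G) (hxN : x ∉ N) (hp : x ^ p ∈ N) :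
    Nat.card ↥(N ⊔ Subgroup.zpowers x) = p * Nat.card ↥N := by
  set K := N ⊔ Subgroup.zpowers x
  have hmap : K.map (QuotientGroup.mk' N) = Subgroup.zpowers (QuotientGroup.mk' N x) := by
    rw [Subgroup.map_sup, MonoidHom.map_zpowers, (Subgroup.map_eq_bot_iff _).mpr (QuotientGroup.ker_mk' N).ge, bot_sup_eq]
  have hord : orderOf (QuotientGroup.mk' N x) = p :=
    orderOf_eq_prime (by rw [← map_pow]; exact (QuotientGroup.eq_one_iff _).mpr hp)
      (fun e => hxN ((QuotientGroup.eq_one_iff x).mp e))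
  have hcard : Nat.card ↥(K.map (QuotientGroup.mk' N)) = p := by rw [hmap, Nat.card_zpowers, hord]
  have h1 := (N.subgroupOf K).card_mul_index
  rw [Nat.card_congr (Subgroup.subgroupOfEquivOfLe (le_sup_left : N ≤ K)).toEquiv] at h1
  have h2 := Subgroup.relIndex_ker (QuotientGroup.mk' N) (K := K)
  rw [QuotientGroup.ker_mk', hcard] at h2
  rw [show (N.subgroupOf K).index = p from h2, mul_comm] at h1
  exact h1.symm

theorem central_of_card_prime {G : Type*} [Group G] [Finite G] {p : ℕ} [Fact p.Prime] (hG : IsPGroup p G)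
    (Z : Subgroup G) [hn : Z.Normal] (hc : Nat.card Z = p) {z : G} (hz : z ∈ Z) (g : G) : z * g = g * z := by
  have hne : Z ≠ ⊥ := fun e => by
    rw [e, Subgroup.card_bot] at hc
    exact (Fact.out : p.Prime).ne_one hc.symm
  have hb := normal_inf_center_ne_bot hG hn hne
  have hle : Z ≤ Subgroup.center G := by
    rcases (Fact.out : p.Prime).eq_one_or_self_of_dvd _ (hc ▸ Subgroup.card_dvd_of_le (inf_le_left : Z ⊓ Subgroup.center G ≤ Z)) with e | e
    · exact absurd (Subgroup.eq_bot_of_card_eq _ e) hb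
    · exact inf_eq_left.mp (Subgroup.eq_of_le_of_card_ge inf_le_left (hc.trans e.symm).le)
  exact (Subgroup.mem_center_iff.mp (hle hz) g).symm


/-- In a p-group G, an extraspecial subgroup E with [G, E] ≤ Z(E) satisfies G = E C_G(E). -/
theorem result {G : Type*} [Group G] [Finite G] {p : ℕ} [Fact p.Prime] (hG : IsPGroup p G) (E : Subgroup G) (hE : Cfsg.IsExtraspecial p E) (h : ⁅(⊤ : Subgroup G), E⁆ ≤ E ⊓ Subgroup.centralizer (E : Set G)) : E ⊔ Subgroup.centralizer (E : Set G) = ⊤ := by
  classical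
  have hp : p.Prime := Fact.out
  obtain ⟨⟨hEp, hΦ, hD⟩, hZ⟩ := hE
  set Z := (Subgroup.center ↥E).map E.subtype with hZdef
  have hZcard : Nat.card ↥Z = p := by rw [hZdef, Subgroup.card_map_of_injective E.subtype_injective, hZ]
  have hEZ : E ⊓ Subgroup.centralizer (E : Set G) = Z := by
    ext x
    constructor
    · rintro ⟨hx, hc⟩
      exact ⟨⟨x, hx⟩, Subgroup.mem_center_iff.mpr fun e => Subtype.ext (Subgroup.mem_centralizer_iff.mp hc e e.2), rfl⟩
    · rintro ⟨⟨x, hx⟩, hc, rfl⟩
      exact ⟨hx, Subgroup.mem_centralizer_iff.mpr fun e he => congrArg Subtype.val (Subgroup.mem_center_iff.mp hc ⟨e, he⟩)⟩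
  rw [hEZ] at h
  have hcom : ∀ g : G, ∀ e ∈ E, g * e * g⁻¹ * e⁻¹ ∈ Z := fun g e he => h (Subgroup.commutator_mem_commutator (Subgroup.mem_top g) he)
  have hZE : Z ≤ E := Subgroup.map_subtype_le _
  have hEn : E.Normal := ⟨fun e he g => by
    have := E.mul_mem (hZE (hcom g e he)) he
    rwa [inv_mul_cancel_right] at this⟩
  -- index bound by induction on the size of the centralized subgroup
  have main : ∀ n, ∀ K : Subgroup G, Z ≤ K → K ≤ E → Nat.card K = n →
      (Subgroup.centralizer (K : Set G)).index * p ≤ n := by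
    intro n
    induction n using Nat.strong_induction_on with
    | _ n ih =>
    intro K hZK hKE hKn
    by_cases hKZ : K = Z
    · subst hKZ
      have htop : Subgroup.centralizer (Z : Set G) = ⊤ := by
        haveI hZn : Z.Normal := ⟨fun z hz g => by
          have := Z.mul_mem (hcom g z (hZE hz)) hz
          rwa [inv_mul_cancel_right] at this⟩
        refine top_le_iff.mp fun g _ => Subgroup.mem_centralizer_iff.mpr fun z hz => ?_
        have := (central_of_card_prime hG Z hZcard hz g)
        exact this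
      rw [htop, Subgroup.index_top, one_mul, ← hKn, hZcard]
    have hKp : IsPGroup p ↥K := hG.to_subgroup K
    haveI := hKp.isNilpotent
    obtain ⟨M, hM, hZM⟩ : ∃ M : Subgroup ↥K, IsCoatom M ∧ Z.subgroupOf K ≤ M :=
      ((eq_top_or_exists_le_coatom (Z.subgroupOf K)).resolve_left fun e =>
        hKZ (le_antisymm (Subgroup.subgroupOf_eq_top.mp e) hZK))
    obtain ⟨x, hxK, hxM⟩ : ∃ x : ↥K, x ∈ (⊤ : Subgroup ↥K) ∧ x ∉ M := SetLike.exists_of_lt hM.1.lt_top
    set M' := M.map K.subtype with hM'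
    have hM'K : M' ≤ K := Subgroup.map_subtype_le _
    have hZM' : Z ≤ M' := fun z hz => ⟨⟨z, hZK hz⟩, hZM hz, rfl⟩
    have hcardM : Nat.card M' * p ≤ n := by
      rw [hM', Subgroup.card_map_of_injective K.subtype_injective, ← hKn, ← M.card_mul_index]
      refine Nat.mul_le_mul_left _ ?_
      obtain ⟨k, hk⟩ := hKp.index M
      rcases Nat.eq_zero_or_pos k with rfl | hk0
      · exact absurd (Subgroup.index_eq_one.mp (by simpa using hk)) hM.1
      · rw [hk]; exact Nat.le_self_pow hk0.ne' p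
    have hlt : Nat.card M' < n := lt_of_lt_of_le (lt_mul_of_one_lt_right Nat.card_pos hp.one_lt) hcardM
    have hIH := ih _ hlt M' hZM' (hM'K.trans hKE) rfl
    have hgen : M' ⊔ Subgroup.zpowers (x : G) = K := by
      have h1 : M ⊔ Subgroup.zpowers x = ⊤ :=
        hM.2 _ (lt_of_le_of_ne le_sup_left fun e => hxM (e ▸ Subgroup.mem_sup_right (Subgroup.mem_zpowers x)))
      have h2 := congrArg (Subgroup.map K.subtype) h1
      rw [Subgroup.map_sup, MonoidHom.map_zpowers, ← MonoidHom.range_eq_map, Subgroup.range_subtype] at h2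
      exact h2
    have hce : Subgroup.centralizer (K : Set G) = Subgroup.centralizer ({(x : G)} : Set G) ⊓ Subgroup.centralizer (M' : Set G) := by
      apply le_antisymm
      · exact le_inf (Subgroup.centralizer_le (by simp)) (Subgroup.centralizer_le hM'K)
      · rintro g ⟨hgx, hgN⟩
        have : M' ⊔ Subgroup.zpowers (x : G) ≤ Subgroup.centralizer ({g} : Set G) :=
          sup_le (fun m hm => Subgroup.mem_centralizer_singleton_iff.mpr (Subgroup.mem_centralizer_iff.mp hgN m hm))
            (Subgroup.zpowers_le.mpr (Subgroup.mem_centralizer_singleton_iff.mpr (Subgroup.mem_centralizer_singleton_iff.mp hgx).symm))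
        rw [hgen] at this
        exact Subgroup.mem_centralizer_iff.mpr fun u hu => Subgroup.mem_centralizer_singleton_iff.mp (this hu)
    have hidx : (Subgroup.centralizer (K : Set G)).index ≤ p * (Subgroup.centralizer (M' : Set G)).index := by
      rw [hce]
      refine (Subgroup.index_inf_le).trans (Nat.mul_le_mul_right _ ?_)
      rw [← Subgroup.relIndex_top_right]
      refine (relIndex_le_orbit ⊤ (x : G) ((fun z => z * (x : G)) '' (Z : Set G)) (Set.toFinite _) fun g _ =>
        ⟨g * x * g⁻¹ * (x : G)⁻¹, hcom g x (hKE x.2), by group⟩).trans ?_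
      exact (Set.ncard_image_le (Set.toFinite _)).trans_eq ((Nat.card_coe_set_eq (Z : Set G)).symm.trans hZcard)
    calc (Subgroup.centralizer (K : Set G)).index * p
        ≤ p * (Subgroup.centralizer (M' : Set G)).index * p := Nat.mul_le_mul_right _ hidx
      _ = ((Subgroup.centralizer (M' : Set G)).index * p) * p := by ring
      _ ≤ Nat.card M' * p := Nat.mul_le_mul_right _ hIH
      _ ≤ n := hcardM
  have hb := main _ E hZE le_rfl rfl
  set C := Subgroup.centralizer (E : Set G)
  have h1 := CfsgLib.LocalBasic.card_mul_le E C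
  rw [hEZ, hZcard, ← Subgroup.normal_mul] at h1
  refine Subgroup.eq_top_of_le_card _ ?_
  have h2 : Nat.card C * (C.index * p) ≤ Nat.card C * Nat.card E := Nat.mul_le_mul_left _ hb
  rw [← mul_assoc, C.card_mul_index, mul_comm (Nat.card C)] at h2
  exact Nat.le_of_mul_le_mul_right (h2.trans h1) hp.pos

end Cfsg.Agent.S0110
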