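import Cfsg.Statements.S0112
import Mathlib

set_option autoImplicit false
set_option linter.style.haveILetI false
open Cfsg

namespace Cfsg.Agent.S0112

universe u

theorem aux {p : ℕ} [Fact p.Prime] (n : ℕ) : ∀ (X : Type u) [Group X] [Finite X], Nat.card X = p ^ n →
    ∀ A : Subgroup X, Nat.card A = p ^ 2 → Subgroup.centralizer (A : Set X) = A →
      Group.nilpotencyClass X = n - 1 := by
  induction n with
  | zero =>
    intro X _ _ hX A hA _
    have := A.card_subgroup_dvd_card
    rw [hA, hX, pow_zero, Nat.dvd_one] at this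
    exact absurd this (Nat.one_lt_pow two_ne_zero (Fact.out : p.Prime).one_lt).ne'
  | succ n ih =>
  intro X _ _ hX A hA hC
  have hp : p.Prime := Fact.out
  have hXp : IsPGroup p X := IsPGroup.of_card hX
  haveI : Group.IsNilpotent X := hXp.isNilpotent
  by_cases hAtop : A = ⊤
  · rw [hAtop, Subgroup.card_top, hX] at hA
    have hn : n + 1 = 2 := Nat.pow_right_injective hp.two_le hA
    rw [hn]
    haveI : Nontrivial X := Finite.one_lt_card_iff_nontrivial.mp
      (by rw [hX]; exact Nat.one_lt_pow (by omega) hp.one_lt)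
    have h1 : Group.nilpotencyClass X ≤ 1 := Group.IsNilpotent.nilpotencyClass_le_one_iff.mpr
      (IsPGroup.isMulCommutative_of_card_eq_prime_sq (hn ▸ hX))
    have h0 : Group.nilpotencyClass X ≠ 0 := fun e =>
      not_subsingleton X (Group.nilpotencyClass_zero_iff_subsingleton.mp e)
    omega
  set Z := Subgroup.center X with hZ
  have hZA : Z ≤ A := hC ▸ Subgroup.center_le_centralizer _
  have hAcomm : ∀ a ∈ A, ∀ b ∈ A, a * b = b * a := fun a ha b hb =>
    Subgroup.mem_centralizer_iff.mp (hC.ge hb) a ha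
  have hZne : Z ≠ A := fun e => hAtop (by
    rw [← hC, eq_top_iff]
    intro x _
    exact Subgroup.mem_centralizer_iff.mpr fun a ha => (Subgroup.mem_center_iff.mp (e.ge ha) x).symm)
  haveI : Nontrivial X := Finite.one_lt_card_iff_nontrivial.mp
    (by rw [hX]; exact Nat.one_lt_pow (by omega) hp.one_lt)
  have hZcard : Nat.card ↥Z = p := by
    obtain ⟨j, hj, hj'⟩ := (Nat.dvd_prime_pow hp).mp (hA ▸ Subgroup.card_dvd_of_le hZA)
    have h0 : j ≠ 0 := fun e => by
      haveI := hXp.center_nontrivial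
      rw [e, pow_zero] at hj'
      exact absurd hj' Finite.one_lt_card.ne'
    have h2 : j ≠ 2 := fun e => hZne (Subgroup.eq_of_le_of_card_ge hZA (by rw [hA, hj', e]))
    obtain rfl : j = 1 := by omega
    rw [hj', pow_one]
  obtain ⟨a, haA, haZ⟩ := SetLike.exists_of_lt (lt_of_le_of_ne hZA hZne)
  set π := QuotientGroup.mk' Z with hπ
  set A' := A.map π with hA'
  set B' := Subgroup.centralizer (A' : Set (X ⧸ Z)) with hB'
  have hcardQ : Nat.card (X ⧸ Z) * p = p ^ (n + 1) := by
    rw [← hX, ← hZcard, ← Subgroup.card_eq_card_quotient_mul_card_subgroup]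
  have hcardQ' : Nat.card (X ⧸ Z) = p ^ n :=
    Nat.eq_of_mul_eq_mul_right hp.pos (by rw [hcardQ, pow_succ])
  have hA'card : Nat.card ↥A' = p := by
    have h1 := (Z.subgroupOf A).card_mul_index
    rw [Nat.card_congr (Subgroup.subgroupOfEquivOfLe hZA).toEquiv, hZcard, hA, pow_two] at h1
    have h2 := Subgroup.relIndex_ker (K := A) π
    rw [QuotientGroup.ker_mk'] at h2
    rw [hA', ← h2]
    exact Nat.eq_of_mul_eq_mul_left hp.pos h1
  have hA'B : A' ≤ B' := by
    rintro _ ⟨x, hx, rfl⟩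
    refine Subgroup.mem_centralizer_iff.mpr ?_
    rintro _ ⟨y, hy, rfl⟩
    rw [← map_mul, ← map_mul, hAcomm y hy x hx]
  have hQp : IsPGroup p (X ⧸ Z) := hXp.to_quotient Z
  obtain ⟨j, hj⟩ := (hQp.to_subgroup B').exists_card_eq
  have hne : B' ≠ A' := fun e => by
    have hA'top : A' ≠ ⊤ := fun e' => hAtop (by
      have := congrArg (Subgroup.comap π) e'
      rwa [hA', Subgroup.comap_map_eq, QuotientGroup.ker_mk', Subgroup.comap_top, sup_eq_left.mpr hZA] at this)
    have hne' : Nontrivial (X ⧸ Z) := by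
      by_contra hs
      rw [not_nontrivial_iff_subsingleton] at hs
      exact hA'top (Subsingleton.elim _ _)
    haveI := hQp.center_nontrivial
    have hle : Subgroup.center (X ⧸ Z) ≤ A' := e ▸ Subgroup.center_le_centralizer _
    have hd := Subgroup.card_dvd_of_le hle
    rw [hA'card, Nat.dvd_prime hp] at hd
    have heq : Subgroup.center (X ⧸ Z) = A' :=
      Subgroup.eq_of_le_of_card_ge hle (by
        rw [hA'card]
        rcases hd with hd | hd
        · exact absurd hd Finite.one_lt_card.ne'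
        · exact hd.ge)
    refine hA'top (e.symm.trans ?_)
    rw [hB', eq_top_iff]
    intro x _
    exact Subgroup.mem_centralizer_iff.mpr fun y hy => (Subgroup.mem_center_iff.mp (heq.ge hy) x).symm
  set B := B'.comap π with hB
  have hBmem : ∀ b ∈ B, b * a * b⁻¹ * a⁻¹ ∈ Z := by
    intro b hb
    refine (QuotientGroup.eq_one_iff _).mp ?_
    show π (b * a * b⁻¹ * a⁻¹) = 1
    have h1 := Subgroup.mem_centralizer_iff.mp hb (π a) ⟨a, haA, rfl⟩
    simp only [map_mul, map_inv, ← h1]
    group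
  let φ : ↥B →* ↥Z := MonoidHom.mk' (fun b => ⟨b * a * (b : X)⁻¹ * a⁻¹, hBmem b b.2⟩) (by
    intro b c
    apply Subtype.ext
    have hz := Subgroup.mem_center_iff.mp (hBmem c c.2) ((b : X))
    show (b : X) * c * a * ((b : X) * c)⁻¹ * a⁻¹
      = ((b : X) * a * (b : X)⁻¹ * a⁻¹) * ((c : X) * a * (c : X)⁻¹ * a⁻¹)
    calc (b : X) * c * a * ((b : X) * c)⁻¹ * a⁻¹
        = ((b : X) * ((c : X) * a * (c : X)⁻¹ * a⁻¹)) * (a * (b : X)⁻¹ * a⁻¹) := by group
      _ = ((c : X) * a * (c : X)⁻¹ * a⁻¹) * ((b : X) * a * (b : X)⁻¹ * a⁻¹) := by rw [hz]; group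
      _ = _ := (Subgroup.mem_center_iff.mp (hBmem c c.2) _).symm)
  have hker : Nat.card ↥φ.ker ≤ Nat.card ↥A := by
    refine Nat.card_le_card_of_injective (fun x => ⟨(x.1 : X), ?_⟩)
      (fun x y e => Subtype.ext (Subtype.ext (congrArg (fun w : ↥A => (w : X)) e)))
    rw [← hC, Subgroup.mem_centralizer_iff]
    have hxa : a * (x.1 : X) = x.1 * a := by
      have h1 : (x.1 : X) * a * (x.1 : X)⁻¹ * a⁻¹ = 1 := congrArg Subtype.val x.2
      exact ((mul_inv_eq_iff_eq_mul.mp (mul_inv_eq_one.mp h1))).symm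
    have hgen : A ≤ Z ⊔ Subgroup.zpowers a := by
      by_contra hcon
      have hle : Z ⊔ Subgroup.zpowers a ≤ A := sup_le hZA (Subgroup.zpowers_le.mpr haA)
      have hd := Subgroup.card_dvd_of_le hle
      rw [hA] at hd
      obtain ⟨i, hi, hi'⟩ := (Nat.dvd_prime_pow hp).mp hd
      have hlt : i ≤ 1 := by
        by_contra
        exact hcon (Subgroup.eq_of_le_of_card_ge hle (by rw [hA, hi', show i = 2 by omega])).ge
      have hZeq : Z = Z ⊔ Subgroup.zpowers a := Subgroup.eq_of_le_of_card_ge le_sup_left (by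
        rw [hi', hZcard]; exact (Nat.pow_le_pow_right hp.pos hlt).trans (pow_one p).le)
      exact haZ (hZeq.ge (Subgroup.mem_sup_right (Subgroup.mem_zpowers a)))
    intro y hy
    obtain ⟨z, hz, w, hw, rfl⟩ := Subgroup.mem_sup_of_normal_left.mp (hgen hy)
    obtain ⟨i, rfl⟩ := Subgroup.mem_zpowers_iff.mp hw
    rw [mul_assoc, (Commute.zpow_left hxa i).eq, ← mul_assoc, ← Subgroup.mem_center_iff.mp hz, mul_assoc]
  have hBle : Nat.card ↥B ≤ p ^ 3 := by
    rw [← φ.ker.card_mul_index, Subgroup.index_ker, pow_succ, ← hA]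
    exact Nat.mul_le_mul hker ((Subgroup.card_le_card_group _).trans hZcard.le)
  have hBcard : Nat.card ↥B' * p = Nat.card ↥B := by
    have hZB : Z ≤ B := by rw [hB]; exact (QuotientGroup.ker_mk' Z).ge.trans (Subgroup.ker_le_comap _ _)
    have h1 := (Z.subgroupOf B).card_mul_index
    rw [Nat.card_congr (Subgroup.subgroupOfEquivOfLe hZB).toEquiv, hZcard] at h1
    have h2 := Subgroup.relIndex_ker (K := B) π
    rw [QuotientGroup.ker_mk'] at h2
    have h3 : B.map π = B' := Subgroup.map_comap_eq_self_of_surjective (QuotientGroup.mk'_surjective Z) _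
    rw [h3] at h2
    rw [← h1, mul_comm, ← h2]
    rfl
  have hj2 : j = 2 := by
    have h1 : p ^ (j + 1) ≤ p ^ 3 := by rw [pow_succ, ← hj, hBcard]; exact hBle
    have h2 : j + 1 ≤ 3 := (Nat.pow_le_pow_iff_right hp.one_lt).mp h1
    have h3 : ¬ j ≤ 1 := fun hj1 => hne (Subgroup.eq_of_le_of_card_ge hA'B (by
      rw [hA'card, hj]; exact (Nat.pow_le_pow_right hp.pos hj1).trans (pow_one p).le)).symm
    omega
  subst hj2
  haveI : IsMulCommutative ↥B' := IsPGroup.isMulCommutative_of_card_eq_prime_sq hj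
  have hCB : Subgroup.centralizer (B' : Set (X ⧸ Z)) = B' :=
    le_antisymm (Subgroup.centralizer_le hA'B) (fun x hx => Subgroup.mem_centralizer_iff.mpr fun y hy =>
      congrArg Subtype.val (IsMulCommutative.is_comm.comm (⟨y, hy⟩ : ↥B') ⟨x, hx⟩))
  have hrec := ih (X ⧸ Z) hcardQ' B' hj hCB
  rw [Group.nilpotencyClass_quotient_center] at hrec
  have h0 : Group.nilpotencyClass X ≠ 0 := fun e =>
    not_subsingleton X (Group.nilpotencyClass_zero_iff_subsingleton.mp e)
  have hn2 : 2 ≤ n := by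
    have := Subgroup.card_subgroup_dvd_card B'
    rw [hj, hcardQ'] at this
    exact (Nat.pow_dvd_pow_iff_le_right hp.one_lt).mp this
  omega


/-- A p-group with a self-centralizing subgroup of order p^2 is of maximal class. -/
theorem result {X : Type*} [Group X] [Finite X] {p : ℕ} [Fact p.Prime] (n : ℕ) (hX : Nat.card X = p ^ n) (A : Subgroup X) (hA : Nat.card A = p ^ 2) (hC : Subgroup.centralizer (A : Set X) = A) : Group.nilpotencyClass X = n - 1 := by
  exact aux n X hX A hA hC

end Cfsg.Agent.S0112
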