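import Cfsg.Statements.S0114
import Cfsg.Agent.Lib.MaximalClassTwo

set_option autoImplicit false
set_option linter.style.haveILetI false
open Cfsg

namespace Cfsg.Agent.S0114

/-- The central quotient of a 2-group of maximal class is dihedral. -/
theorem result {X : Type*} [Group X] [Finite X] (n : ℕ) (hn : 3 ≤ n) (hX : Nat.card X = 2 ^ n) (hc : Group.nilpotencyClass X = n - 1) : Nonempty (X ⧸ Subgroup.center X ≃* DihedralGroup (2 ^ (n - 2))) := by
  obtain ⟨-, -, hZ, c, hC, hx⟩ := CfsgLib.MaximalClassTwo.main n X hn hX (Or.inl hc)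
  obtain ⟨x, hxC⟩ := SetLike.exists_not_mem_of_ne_top (Subgroup.zpowers c)
    (fun e => by rw [e, Subgroup.index_top] at hC; omega) rfl
  obtain ⟨h1, h2⟩ := hx x hxC
  set Z := Subgroup.center X with hZdef
  set π := QuotientGroup.mk' Z with hπ
  have hone : ∀ w ∈ Z, π w = 1 := fun w hw => (QuotientGroup.eq_one_iff w).mpr hw
  have hZc : Z ≤ Subgroup.zpowers c := by
    intro z hz
    by_contra hzc
    obtain ⟨h3, -⟩ := hx z hzc
    rw [← Subgroup.mem_center_iff.mp hz c, mul_inv_cancel_right] at h3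
    haveI : Group.IsNilpotent X := (IsPGroup.of_card hX).isNilpotent
    obtain ⟨a, b, hne⟩ := CfsgLib.MaximalClassTwo.not_comm (X := X) (h := by omega)
    refine hne ?_
    have hdec : ∀ w : X, ∃ i : ℤ, w = c ^ i ∨ w = c ^ i * z := by
      intro w
      by_cases hw : w ∈ Subgroup.zpowers c
      · obtain ⟨i, rfl⟩ := Subgroup.mem_zpowers_iff.mp hw
        exact ⟨i, Or.inl rfl⟩
      · obtain ⟨i, hi⟩ := Subgroup.mem_zpowers_iff.mp (show w * z⁻¹ ∈ Subgroup.zpowers c from
          (Subgroup.mul_mem_iff_of_index_two hC).mpr (iff_of_false hw (fun e => hzc (inv_mem_iff.mp e))))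
        exact ⟨i, Or.inr (by rw [hi, inv_mul_cancel_right])⟩
    have hzw : ∀ w, Commute z w := fun w => (Subgroup.mem_center_iff.mp hz w).symm
    obtain ⟨i, hi⟩ := hdec a
    obtain ⟨j, hj⟩ := hdec b
    have hij : Commute (c ^ i) (c ^ j) := (Commute.refl c).zpow_zpow i j
    rcases hi with rfl | rfl <;> rcases hj with rfl | rfl
    · exact hij.eq
    · exact (hij.mul_right (hzw _).symm).eq
    · exact (hij.mul_left (hzw _)).eq
    · exact ((hij.mul_right (hzw _).symm).mul_left (hzw _)).eq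
  have hcardQ : Nat.card (X ⧸ Z) = 2 * 2 ^ (n - 2) := by
    have h := Subgroup.card_eq_card_quotient_mul_card_subgroup Z
    rw [hX, hZ] at h
    refine (Nat.eq_of_mul_eq_mul_right two_pos (h.symm.trans ?_))
    rw [mul_comm 2, mul_assoc, show (2:ℕ) * 2 = 2 ^ 2 from rfl, ← pow_add, Nat.sub_add_cancel (by omega : 2 ≤ n)]
  have hord : orderOf (π c) = 2 ^ (n - 2) := by
    have hidx : (Subgroup.zpowers (π c)).index = 2 := by
      rw [← MonoidHom.map_zpowers, Subgroup.index_map_eq _ (QuotientGroup.mk'_surjective Z)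
        ((QuotientGroup.ker_mk' Z).le.trans hZc), hC]
    have := (Subgroup.zpowers (π c)).card_mul_index
    rw [hidx, hcardQ, Nat.card_zpowers] at this
    omega
  haveI : NeZero (2 ^ (n - 2)) := ⟨pow_ne_zero _ two_ne_zero⟩
  refine CfsgLib.MaximalClass.dihedral_iso (x := π x) (a := π c) ?_ hord hcardQ ?_ ?_
  · rw [← map_mul]; exact hone _ h2
  · intro he
    obtain ⟨i, hi⟩ := Subgroup.mem_zpowers_iff.mp he
    rw [← map_zpow] at hi
    have hz : (c ^ i)⁻¹ * x ∈ Z := QuotientGroup.eq.mp hi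
    refine hxC ?_
    have := mul_mem (Subgroup.zpow_mem _ (Subgroup.mem_zpowers c) i) (hZc hz)
    rwa [mul_inv_cancel_left] at this
  · have := hone _ h1
    rw [map_mul] at this
    rw [← map_inv, ← map_mul, ← map_mul]
    exact eq_inv_of_mul_eq_one_left this

end Cfsg.Agent.S0114
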