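import Cfsg.Statements.S0115
import Cfsg.Agent.Lib.MaximalClassTwo

set_option autoImplicit false
set_option linter.style.haveILetI false
open Cfsg

namespace Cfsg.Agent.S0115

/-- A 2-group of order 2^n, n ≥ 3, is of maximal class exactly when its commutator quotient is a Klein four-group. -/
theorem result {X : Type*} [Group X] [Finite X] (n : ℕ) (hn : 3 ≤ n) (hX : Nat.card X = 2 ^ n) : Group.nilpotencyClass X = n - 1 ↔ IsKleinFour (X ⧸ commutator X) := by
  constructor
  · intro hc
    obtain ⟨-, h4, -⟩ := CfsgLib.MaximalClassTwo.main n X hn hX (Or.inl hc)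
    have hcard : Nat.card (X ⧸ commutator X) = 4 := by rw [← Subgroup.index_eq_card, h4]
    refine ⟨hcard, ?_⟩
    have hXp : IsPGroup 2 (X ⧸ commutator X) := (IsPGroup.of_card hX).to_quotient _
    haveI : Group.IsNilpotent X := (IsPGroup.of_card hX).isNilpotent
    obtain ⟨a, b, hne⟩ := CfsgLib.MaximalClassTwo.not_comm (X := X) (h := by omega)
    have hncyc : ¬ IsCyclic (X ⧸ commutator X) := by
      intro hcyc
      obtain ⟨g, hg⟩ := IsCyclic.exists_generator (α := X ⧸ commutator X)
      obtain ⟨x, rfl⟩ := QuotientGroup.mk'_surjective _ g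
      have htop : Subgroup.zpowers x = ⊤ := by
        by_contra hne'
        obtain ⟨M, hM, hle⟩ := (eq_top_or_exists_le_coatom (Subgroup.zpowers x)).resolve_left hne'
        refine hM.1 (eq_top_iff.mpr fun y _ => ?_)
        obtain ⟨i, hi⟩ := Subgroup.mem_zpowers_iff.mp (hg (QuotientGroup.mk' _ y))
        rw [← map_zpow] at hi
        have hy : (x ^ i)⁻¹ * y ∈ commutator X := QuotientGroup.eq.mp hi
        have := mul_mem (hle (Subgroup.zpow_mem _ (Subgroup.mem_zpowers x) i))
          (CfsgLib.MaximalClassTwo.commutator_le_coatom (IsPGroup.of_card hX) hM hy)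
        rwa [mul_inv_cancel_left] at this
      obtain ⟨i, rfl⟩ := Subgroup.mem_zpowers_iff.mp (htop.ge (Subgroup.mem_top a))
      obtain ⟨j, rfl⟩ := Subgroup.mem_zpowers_iff.mp (htop.ge (Subgroup.mem_top b))
      exact hne (((Commute.refl x).zpow_zpow i j).eq)
    exact (not_isCyclic_iff_exponent_eq_prime Nat.prime_two hcard).mp hncyc
  · intro hk
    exact (CfsgLib.MaximalClassTwo.main n X hn hX (Or.inr (by rw [Subgroup.index_eq_card]; exact hk.card_four))).1

end Cfsg.Agent.S0115
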