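import Cfsg.Statements.S0116
import Cfsg.Agent.Lib.Thompson.Criterion
import Cfsg.Agent.Lib.Fusion.Group
import Cfsg.Agent.Lib.LocalBasic

set_option autoImplicit false
set_option linter.style.haveILetI false
set_option linter.unusedSectionVars false
open Cfsg

namespace Cfsg.Agent.S0116

open scoped Pointwise

variable {G : Type*} [Group G] [Finite G] {p : ℕ} [Fact p.Prime]

/-- The normalizer of `P ∩ Q` contains Sylow subgroups inside both `P` and `Q`. -/
def Tame (P Q : Sylow p G) : Prop :=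
  ¬ p ∣ ((P : Subgroup G) ⊓ Subgroup.normalizer ((((P : Subgroup G) ⊓ (Q : Subgroup G)) : Subgroup G) : Set G)).relIndex (Subgroup.normalizer ((((P : Subgroup G) ⊓ (Q : Subgroup G)) : Subgroup G) : Set G)) ∧
  ¬ p ∣ ((Q : Subgroup G) ⊓ Subgroup.normalizer ((((P : Subgroup G) ⊓ (Q : Subgroup G)) : Subgroup G) : Set G)).relIndex (Subgroup.normalizer ((((P : Subgroup G) ⊓ (Q : Subgroup G)) : Subgroup G) : Set G))

/-- The chain `l` carries `A` by the product `g`. -/
def Valid (P : Sylow p G) : Set G → List (Sylow p G × G) → G → Prop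
  | _, [], g => g = 1
  | A, (Q, x) :: l, g =>
      (x ∈ Subgroup.normalizer ((((P : Subgroup G) ⊓ (Q : Subgroup G)) : Subgroup G) : Set G) ∧ Tame P Q ∧
        A ⊆ (((P : Subgroup G) ⊓ (Q : Subgroup G) : Subgroup G) : Set G)) ∧
      Valid P ((fun a => x⁻¹ * a * x) '' A) l (x⁻¹ * g)

def Chain (P : Sylow p G) (A : Set G) (g : G) : Prop := ∃ l, Valid P A l g

theorem valid_mono (P : Sylow p G) : ∀ (l) {A B : Set G} {g : G}, A ⊆ B → Valid P B l g → Valid P A l g
  | [], _, _, _, _, h => h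
  | _ :: l, _, _, _, hAB, h =>
    ⟨⟨h.1.1, h.1.2.1, hAB.trans h.1.2.2⟩, valid_mono P l (Set.image_mono hAB) h.2⟩

theorem valid_append (P : Sylow p G) : ∀ (l l') {A : Set G} {g h : G}, Valid P A l g →
    Valid P ((fun a => g⁻¹ * a * g) '' A) l' h → Valid P A (l ++ l') (g * h)
  | [], l', A, g, h, hg, hh => by
    obtain rfl : g = 1 := hg
    simpa using hh
  | (Q, x) :: l, l', A, g, h, hg, hh => by
    refine ⟨hg.1, ?_⟩
    rw [← mul_assoc]
    refine valid_append P l l' hg.2 ?_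
    rw [Set.image_image]
    simp only [mul_inv_rev, inv_inv, mul_assoc, mul_inv_cancel_left]
    simpa only [mul_assoc] using hh

theorem Chain.trans {P : Sylow p G} {A B : Set G} {g h : G} (h1 : Chain P A g) (h2 : Chain P B h)
    (hAB : (fun a => g⁻¹ * a * g) '' A ⊆ B) : Chain P A (g * h) := by
  obtain ⟨l, hl⟩ := h1
  obtain ⟨l', hl'⟩ := h2
  exact ⟨l ++ l', valid_append P l l' hl (valid_mono P l' hAB hl')⟩

theorem Chain.mono {P : Sylow p G} {A B : Set G} {g : G} (h : Chain P B g) (hAB : A ⊆ B) : Chain P A g :=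
  ⟨h.choose, valid_mono P _ hAB h.choose_spec⟩

theorem mem_inv_smul {Q : Sylow p G} {g a : G} :
    a ∈ ((g⁻¹ • Q : Sylow p G) : Subgroup G) ↔ g * a * g⁻¹ ∈ (Q : Subgroup G) := by
  rw [Sylow.coe_subgroup_smul, Subgroup.mem_pointwise_smul_iff_inv_smul_mem]
  simp

theorem image_subset {Q R : Sylow p G} {g : G} {A : Set G} (hQ : g⁻¹ • Q = R)
    (hA : A ⊆ ((Q : Subgroup G) : Set G)) : (fun a => g⁻¹ * a * g) '' A ⊆ ((R : Subgroup G) : Set G) := by
  rintro _ ⟨a, ha, rfl⟩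
  rw [← hQ, SetLike.mem_coe, mem_inv_smul]
  simpa [mul_assoc] using (SetLike.mem_coe.mp (hA ha))

/-- Moving two Sylow subgroups moves their intersection. -/
theorem card_inf_smul (g : G) (Q R : Sylow p G) :
    Nat.card ↥(((g • Q : Sylow p G) : Subgroup G) ⊓ ((g • R : Sylow p G) : Subgroup G))
      = Nat.card ↥((Q : Subgroup G) ⊓ (R : Subgroup G)) := by
  rw [Sylow.coe_subgroup_smul, Sylow.coe_subgroup_smul, ← Subgroup.smul_inf]
  exact Nat.card_congr (Subgroup.equivSMul _ _).toEquiv.symm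

theorem card_lt_of_lt {H K : Subgroup G} (h : H < K) : Nat.card ↥H < Nat.card ↥K :=
  lt_of_le_of_ne (Subgroup.card_le_of_le h.le) fun e => h.ne (Subgroup.eq_of_le_of_card_ge h.le e.ge)

theorem exists_sylow_ge {M X : Subgroup G} (hX : IsPGroup p ↥X) (hXM : X ≤ M) :
    ∃ T : Subgroup G, X ≤ T ∧ T ≤ M ∧ IsPGroup p ↥T ∧ ¬ p ∣ T.relIndex M := by
  obtain ⟨T, hT⟩ := (hX.comap_subtype (K := M)).exists_le_sylow
  refine ⟨(T : Subgroup ↥M).map M.subtype, ?_, Subgroup.map_subtype_le _, T.2.map _, ?_⟩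
  · intro x hx
    exact ⟨⟨x, hXM hx⟩, hT hx, rfl⟩
  · have e : ((T : Subgroup ↥M).map M.subtype).subgroupOf M = (T : Subgroup ↥M) :=
      Subgroup.comap_map_eq_self_of_injective M.subtype_injective _
    rw [Subgroup.relIndex, e]
    exact T.not_dvd_index

theorem main (P : Sylow p G) (m : ℕ) : ∀ R : Sylow p G,
    Nat.card G - Nat.card ↥((P : Subgroup G) ⊓ (R : Subgroup G)) = m →
    ∃ g : G, g⁻¹ • R = P ∧ Chain P (((P : Subgroup G) ⊓ (R : Subgroup G) : Subgroup G) : Set G) g := by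
  induction m using Nat.strong_induction_on with
  | _ m ih =>
  intro R hm
  subst hm
  set D := (P : Subgroup G) ⊓ (R : Subgroup G) with hD
  have hbig : ∀ R' : Sylow p G, Nat.card ↥D < Nat.card ↥((P : Subgroup G) ⊓ (R' : Subgroup G)) →
      ∃ g : G, g⁻¹ • R' = P ∧ Chain P (((P : Subgroup G) ⊓ (R' : Subgroup G) : Subgroup G) : Set G) g :=
    fun R' h => ih _ (by
      have := Subgroup.card_le_card_group ((P : Subgroup G) ⊓ (R' : Subgroup G))
      omega) R' rfl
  -- move by a chain to a larger intersection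
  have step : ∀ (g : G), Chain P (D : Set G) g → (fun a => g⁻¹ * a * g) '' (D : Set G) ⊆ ((P : Subgroup G) : Set G) →
      Nat.card ↥D < Nat.card ↥((P : Subgroup G) ⊓ ((g⁻¹ • R : Sylow p G) : Subgroup G)) →
      ∃ k : G, k⁻¹ • R = P ∧ Chain P (D : Set G) k := by
    intro g hg hgP hlt
    obtain ⟨k, hk, hkc⟩ := hbig _ hlt
    refine ⟨g * k, by rw [mul_inv_rev, mul_smul, hk], hg.trans hkc ?_⟩
    rintro b hb
    exact ⟨hgP hb, image_subset (R := g⁻¹ • R) rfl (fun a ha => (show a ∈ D from ha).2) hb⟩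
  rcases (inf_le_left : D ≤ (P : Subgroup G)).eq_or_lt with e | hlt
  · have hPR : (P : Subgroup G) ≤ (R : Subgroup G) := e ▸ inf_le_right
    have : R = P := Sylow.ext (Subgroup.eq_of_le_of_card_ge hPR
      (by rw [P.card_eq_multiplicity, R.card_eq_multiplicity])).symm
    exact ⟨1, by rw [inv_one, one_smul, this], [], rfl⟩
  set N := Subgroup.normalizer (D : Set G) with hN
  have hltP := CfsgLib.ThompsonNPC.lt_inf_normalizer P.2 hlt
  obtain ⟨S, hPS, hSN, hSp, hSi⟩ := exists_sylow_ge (M := N) (P.2.to_le (inf_le_left : (P : Subgroup G) ⊓ N ≤ _)) inf_le_right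
  obtain ⟨Q1, hQ1⟩ := hSp.exists_le_sylow
  have hlt1 : Nat.card ↥D < Nat.card ↥((P : Subgroup G) ⊓ (Q1 : Subgroup G)) :=
    (card_lt_of_lt hltP).trans_le
      (Subgroup.card_le_of_le (le_inf inf_le_left (hPS.trans hQ1)))
  obtain ⟨h, hh, hhc⟩ := hbig Q1 hlt1
  have hDQ1 : (D : Set G) ⊆ (((P : Subgroup G) ⊓ (Q1 : Subgroup G) : Subgroup G) : Set G) :=
    fun a ha => ⟨(show a ∈ D from ha).1, hQ1 (hPS ⟨(show a ∈ D from ha).1, Subgroup.le_normalizer ha⟩)⟩
  have hDc : Chain P (D : Set G) h := hhc.mono hDQ1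
  have hDP : (fun a => h⁻¹ * a * h) '' (D : Set G) ⊆ ((P : Subgroup G) : Set G) :=
    image_subset hh fun a ha => (hDQ1 ha).2
  set R' := h⁻¹ • R with hR'
  set D' := D.map (MulAut.conj h⁻¹).toMonoidHom with hD'
  have hD'le : D' ≤ (P : Subgroup G) ⊓ (R' : Subgroup G) := by
    rintro _ ⟨a, ha, rfl⟩
    refine ⟨?_, ?_⟩
    · exact hDP ⟨a, ha, by simp⟩
    · exact image_subset (R := R') rfl (fun a ha => (show a ∈ D from ha).2) ⟨a, ha, by simp⟩
  have hD'card : Nat.card ↥D' = Nat.card ↥D := Subgroup.card_map_of_injective (MulEquiv.injective _)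
  rcases (Subgroup.card_le_of_le hD'le).eq_or_lt with hc | hc
  swap
  · exact step h hDc hDP (hD'card ▸ hc)
  have hDeq : D' = (P : Subgroup G) ⊓ (R' : Subgroup G) := Subgroup.eq_of_le_of_card_ge hD'le hc.ge
  set N' := Subgroup.normalizer (D' : Set G) with hN'
  have hN'map : N' = N.map (MulAut.conj h⁻¹).toMonoidHom := by
    rw [hN', hD', hN, Subgroup.map_equiv_normalizer_eq]
  -- the normalizer of the moved intersection has a Sylow subgroup in `P`
  have hSyl : ¬ p ∣ ((P : Subgroup G) ⊓ N').relIndex N' := by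
    intro hd
    refine hSi ?_
    rw [← Subgroup.relIndex_map_map_of_injective S N (f := (MulAut.conj h⁻¹).toMonoidHom) (MulEquiv.injective _), ← hN'map]
    refine hd.trans (Subgroup.relIndex_dvd_of_le_left _ (le_inf ?_ (hN'map ▸ Subgroup.map_mono hSN)))
    rintro _ ⟨a, ha, rfl⟩
    exact image_subset hh hQ1 ⟨a, ha, by simp⟩
  have hlt' : D' < (R' : Subgroup G) := by
    refine lt_of_le_of_ne (hD'le.trans inf_le_right) fun e => ?_
    have h1 : Nat.card ↥(D : Subgroup G) = Nat.card ↥(R' : Subgroup G) := by rw [← hD'card, e]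
    have h2 := card_lt_of_lt hlt
    rw [h1, R'.card_eq_multiplicity, P.card_eq_multiplicity] at h2
    exact lt_irrefl _ h2
  have hltR := CfsgLib.ThompsonNPC.lt_inf_normalizer R'.2 hlt'
  obtain ⟨y, hy, hyR⟩ := CfsgLib.Fusion.exists_conj_le (H := N') (X := (P : Subgroup G) ⊓ N')
    (P.2.to_le inf_le_left) hSyl (Y := (R' : Subgroup G) ⊓ N') (R'.2.to_le inf_le_left) inf_le_right
  set W := y⁻¹ • P with hW
  have hRW : (R' : Subgroup G) ⊓ N' ≤ (W : Subgroup G) := by
    intro a ha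
    have := hyR ⟨a, ha, rfl⟩
    rw [hW, mem_inv_smul]
    exact this.1
  have hD'W : (D' : Set G) ⊆ (((P : Subgroup G) ⊓ (W : Subgroup G) : Subgroup G) : Set G) := fun a ha =>
    ⟨(hD'le ha).1, hRW ⟨(hD'le ha).2, Subgroup.le_normalizer ha⟩⟩
  have hWR : Nat.card ↥D < Nat.card ↥((W : Subgroup G) ⊓ (R' : Subgroup G)) := by
    rw [← hD'card]
    exact (card_lt_of_lt hltR).trans_le
      (Subgroup.card_le_of_le (le_inf hRW inf_le_left))
  -- a chain taking `W` to `P`
  obtain ⟨u, hu, huc⟩ : ∃ u : G, u⁻¹ • W = P ∧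
      Chain P (((P : Subgroup G) ⊓ (W : Subgroup G) : Subgroup G) : Set G) u := by
    rcases (Subgroup.card_le_of_le (show D' ≤ (P : Subgroup G) ⊓ (W : Subgroup G) from hD'W)).eq_or_lt with hc2 | hc2
    swap
    · exact hbig W (hD'card ▸ hc2)
    have hPW : D' = (P : Subgroup G) ⊓ (W : Subgroup G) := Subgroup.eq_of_le_of_card_ge hD'W hc2.ge
    refine ⟨y⁻¹, by rw [inv_inv, hW, smul_inv_smul], [(W, y⁻¹)], ⟨?_, ⟨?_, ?_⟩, subset_rfl⟩, by simp [Valid]⟩
    · rw [← hPW]; exact inv_mem hy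
    · rw [← hPW]; exact hSyl
    · rw [← hPW]
      have hle : ((P : Subgroup G) ⊓ N').map (MulAut.conj y⁻¹).toMonoidHom ≤ (W : Subgroup G) ⊓ N' := by
        rintro _ ⟨a, ha, rfl⟩
        refine ⟨?_, ?_⟩
        · show y⁻¹ * a * y⁻¹⁻¹ ∈ (W : Subgroup G)
          rw [hW, mem_inv_smul]
          simpa [mul_assoc] using (show a ∈ (P : Subgroup G) from ha.1)
        · simpa using mul_mem (mul_mem (inv_mem hy) ha.2) hy
      intro hd
      refine hSyl ?_
      rw [← Subgroup.relIndex_map_map_of_injective ((P : Subgroup G) ⊓ N') N' (f := (MulAut.conj y⁻¹).toMonoidHom) (MulEquiv.injective _)]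
      refine hd.trans ?_
      have hNy : N'.map (MulAut.conj y⁻¹).toMonoidHom = N' :=
        CfsgLib.LocalBasic.conj_map_eq_of_mem_normalizer (Subgroup.le_normalizer (inv_mem hy))
      rw [hNy]
      exact Subgroup.relIndex_dvd_of_le_left _ hle
  have hD'im : (fun a => h⁻¹ * a * h) '' (D : Set G) ⊆ (D' : Set G) := by
    rintro _ ⟨a, ha, rfl⟩; exact ⟨a, ha, by simp⟩
  have hgu : Chain P (D : Set G) (h * u) := hDc.trans huc (hD'im.trans hD'W)
  refine step (h * u) hgu ?_ ?_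
  · rintro _ ⟨a, ha, rfl⟩
    exact image_subset hu (fun b hb => (hD'W hb).2) ⟨h⁻¹ * a * h, hD'im ⟨a, ha, rfl⟩, by group⟩
  · rw [mul_inv_rev, mul_smul, ← hR', ← hu, card_inf_smul]
    exact hWR

theorem valid_get (P : Sylow p G) : ∀ (l : List (Sylow p G × G)) {A : Set G} {g : G}, Valid P A l g →
    (l.map Prod.snd).prod = g ∧ ∀ i : ℕ, ∀ hi : i < l.length,
      (l[i]'hi).2 ∈ Subgroup.normalizer ((((P : Subgroup G) ⊓ ((l[i]'hi).1 : Subgroup G)) : Subgroup G) : Set G) ∧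
        Tame P (l[i]'hi).1 ∧
        (fun a => (((l.map Prod.snd).take i).prod)⁻¹ * a * ((l.map Prod.snd).take i).prod) '' A
          ⊆ (((P : Subgroup G) ⊓ ((l[i]'hi).1 : Subgroup G) : Subgroup G) : Set G)
  | [], A, g, h => ⟨by simpa using (show g = 1 from h).symm, fun i hi => absurd hi (Nat.not_lt_zero i)⟩
  | (Q, x) :: l, A, g, h => by
    obtain ⟨hprod, hrest⟩ := valid_get P l h.2
    refine ⟨by simp [hprod], fun i hi => ?_⟩
    cases i with
    | zero => exact ⟨h.1.1, h.1.2.1, by simpa using h.1.2.2⟩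
    | succ i =>
      obtain ⟨h1, h2, h3⟩ := hrest i (by simpa using hi)
      refine ⟨h1, h2, ?_⟩
      refine Set.Subset.trans (Set.Subset.trans ?_ h3) subset_rfl
      rintro _ ⟨a, ha, rfl⟩
      refine ⟨x⁻¹ * a * x, ⟨a, ha, rfl⟩, ?_⟩
      simp [mul_assoc]


/-- The Alperin fusion Theorem states that conjugation between subsets of a Sylow p-subgroup P factors through normalizers of tame intersections P ∩ Q_i with other Sylow p-subgroups, carrying the subset along step by step. -/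
theorem result {G : Type*} [Group G] [Finite G] {p : ℕ} [Fact p.Prime] (P : Sylow p G) (A : Set G) (g : G) (hA : A ⊆ (P : Set G)) (hAg : (fun a => g⁻¹ * a * g) '' A ⊆ (P : Set G)) : ∃ (n : ℕ) (Q : Fin n → Sylow p G) (x : Fin n → G), (List.ofFn x).prod = g ∧ (∀ i : Fin n, x i ∈ Subgroup.normalizer ((((P : Subgroup G) ⊓ (Q i : Subgroup G)) : Subgroup G) : Set G) ∧ ¬ p ∣ ((P : Subgroup G) ⊓ Subgroup.normalizer ((((P : Subgroup G) ⊓ (Q i : Subgroup G)) : Subgroup G) : Set G)).relIndex (Subgroup.normalizer ((((P : Subgroup G) ⊓ (Q i : Subgroup G)) : Subgroup G) : Set G)) ∧ ¬ p ∣ ((Q i : Subgroup G) ⊓ Subgroup.normalizer ((((P : Subgroup G) ⊓ (Q i : Subgroup G)) : Subgroup G) : Set G)).relIndex (Subgroup.normalizer ((((P : Subgroup G) ⊓ (Q i : Subgroup G)) : Subgroup G) : Set G))) ∧ (∀ h : 0 < n, A ⊆ (((P : Subgroup G) ⊓ (Q ⟨0, h⟩ : Subgroup G) : Subgroup G) : Set G)) ∧ ∀ i : Fin n, ∀ h : i.val + 1 < n, (fun a => (((List.ofFn x).take (i.val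 + 1)).prod)⁻¹ * a * ((List.ofFn x).take (i.val + 1)).prod) '' A ⊆ (((P : Subgroup G) ⊓ (Q ⟨i.val + 1, h⟩ : Subgroup G) : Subgroup G) : Set G) := by
  obtain ⟨h, hh, hhc⟩ := main P _ (g • P) rfl
  have hsub : A ⊆ (((P : Subgroup G) ⊓ ((g • P : Sylow p G) : Subgroup G) : Subgroup G) : Set G) := fun a ha =>
    ⟨hA ha, by
      have h1 : g⁻¹ * a * g ∈ (P : Subgroup G) := hAg ⟨a, ha, rfl⟩
      show a ∈ ((g • P : Sylow p G) : Subgroup G)
      rw [← inv_inv g, mem_inv_smul]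
      simpa using h1⟩
  have hn : h⁻¹ * g ∈ Subgroup.normalizer ((P : Subgroup G) : Set G) :=
    Sylow.smul_eq_iff_mem_normalizer.mp (by rw [mul_smul, hh])
  have hlast : Chain P ((fun a => h⁻¹ * a * h) '' A) (h⁻¹ * g) := by
    refine ⟨[(P, h⁻¹ * g)], ⟨by rwa [inf_idem], ?_, ?_⟩, by simp [Valid]⟩
    · unfold Tame
      rw [inf_idem, inf_eq_left.mpr Subgroup.le_normalizer, and_self]
      exact fun hd => P.not_dvd_index (hd.trans (Subgroup.relIndex_dvd_index_of_le Subgroup.le_normalizer))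
    · rw [inf_idem]
      exact image_subset hh fun a ha => (hsub ha).2
  obtain ⟨l, hl⟩ := (hhc.mono hsub).trans hlast subset_rfl
  rw [mul_inv_cancel_left] at hl
  obtain ⟨hprod, hget⟩ := valid_get P l hl
  have hofn : List.ofFn (fun i : Fin l.length => (l[(i : ℕ)]).2) = l.map Prod.snd := by
    apply List.ext_getElem <;> simp
  refine ⟨l.length, fun i => (l[(i : ℕ)]).1, fun i => (l[(i : ℕ)]).2, by rw [hofn, hprod],
    fun i => ⟨(hget i i.2).1, (hget i i.2).2.1.1, (hget i i.2).2.1.2⟩, fun h0 => ?_, fun i hi => ?_⟩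
  · simpa using (hget 0 h0).2.2
  · rw [hofn]; exact (hget (i.val + 1) hi).2.2

end Cfsg.Agent.S0116
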