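import Cfsg.Statements.S0118
import Cfsg.Agent.Lib.GroupB.ZJThompson
import Cfsg.Agent.Lib.Glauberman.QdFree
import Cfsg.Agent.Lib.QdFree

set_option autoImplicit false
open Cfsg

namespace Cfsg.Agent.S0118

universe u v

open CfsgLib.ThompsonNPC CfsgLib.Fusion CfsgLib.Glauberman in
/-- `Z(J)` is normal in a realized fusion system without sections `Qd(p)`. -/
theorem isNormal_ZJ {Ω : Type u} [Group Ω] {S : Subgroup Ω} [Finite ↥S] {p : ℕ} [Fact p.Prime] (hp2 : p ≠ 2)
    {F : Cfsg.FusionSystem S} (hS : IsPGroup p ↥S) (hF : F.IsSaturated p)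
    (hfree : F.IsSectionFree p ↥(Cfsg.qd p)) : F.IsNormal (Z (J p S)) := by
  have hFc := constrained_of_qdFree hp2 hS hF hfree
  obtain ⟨G, _, ι, hL⟩ := CfsgLib.Model.exists_model p hS hFc
  have hG := model_not_involves hS hFc hfree hL
  obtain ⟨hfin, ⟨hinj, hreal⟩, ⟨T, hT⟩, hc⟩ := hL
  haveI := hfin
  have hn : (Z (J p (T : Subgroup G))).Normal :=
    CfsgLib.GroupB.ZJThompson.normal_of_stable hp2 T (CfsgLib.Dickson.stable_of_qdFree hp2 hG) hc
  have hle : Z (J p (T : Subgroup G)) ≤ (T : Subgroup G) := (Z_le _).trans (J_le p _)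
  have h := realized_isNormal_of ⟨hinj, hreal⟩ T hT hn hle
  have heq : ((Z (J p (T : Subgroup G))).comap ι).map S.subtype = Z (J p S) := by
    have hT' : (T : Subgroup G) = (⊤ : Subgroup ↥S).map ι := by rw [← MonoidHom.range_eq_map, hT]
    rw [hT', ← J_map p (injOn_of_injective hinj _), ← Z_map (injOn_of_injective hinj _),
      Subgroup.comap_map_eq_self_of_injective hinj, Z_map (injOn_of_injective S.subtype_injective _),
      J_map p (injOn_of_injective S.subtype_injective _), ← MonoidHom.range_eq_map, Subgroup.range_subtype]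
  rwa [heq] at h

theorem involves_sl2_qd (p : ℕ) [Fact p.Prime] :
    Cfsg.Involves (Matrix.SpecialLinearGroup (Fin 2) (ZMod p)) ↥(Cfsg.qd p) := by
  let emb : Matrix.SpecialLinearGroup (Fin 2) (ZMod p) →* Matrix.SpecialLinearGroup (Fin 3) (ZMod p) :=
    MonoidHom.mk' (fun M => ⟨!![M.1 0 0, M.1 0 1, 0; M.1 1 0, M.1 1 1, 0; 0, 0, 1], by
        have h := M.2
        rw [Matrix.det_fin_two] at h
        rw [Matrix.det_fin_three]
        simpa using h⟩) fun M N => by
      apply Subtype.ext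
      show !![(M.1 * N.1) 0 0, (M.1 * N.1) 0 1, 0; (M.1 * N.1) 1 0, (M.1 * N.1) 1 1, 0; 0, 0, 1] =
        !![M.1 0 0, M.1 0 1, 0; M.1 1 0, M.1 1 1, 0; 0, 0, 1] * !![N.1 0 0, N.1 0 1, 0; N.1 1 0, N.1 1 1, 0; 0, 0, 1]
      ext i j
      fin_cases i <;> fin_cases j <;> simp [Matrix.mul_apply, Fin.sum_univ_two, Fin.sum_univ_three]
  have hmem : ∀ M, emb M ∈ Cfsg.qd p := fun M => Subgroup.subset_closure ⟨rfl, rfl, rfl⟩
  let f := emb.codRestrict (Cfsg.qd p) hmem
  have hinj : Function.Injective f := by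
    intro M N h
    have h' : (emb M).1 = (emb N).1 := congrArg (fun x : ↥(Cfsg.qd p) => x.1.1) h
    apply Subtype.ext
    ext i j
    fin_cases i <;> fin_cases j
    · exact congrFun (congrFun h' 0) 0
    · exact congrFun (congrFun h' 0) 1
    · exact congrFun (congrFun h' 1) 0
    · exact congrFun (congrFun h' 1) 1
  exact CfsgLib.QdFree.involves_of_hom f.range (MonoidHom.ofInjective hinj).symm.toMonoidHom
    (MonoidHom.ofInjective hinj).symm.surjective

open CfsgLib.ThompsonNPC CfsgLib.Fusion CfsgLib.Glauberman in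
theorem main {G : Type u} [Group G] [Finite G] {p : ℕ} [Fact p.Prime] (hp : p ≠ 2)
    (hfree : ¬ Cfsg.Involves ↥(Cfsg.qd p) G) (P : Sylow p G) (A : Set G) (hA : A ⊆ (P : Set G)) :
    Cfsg.ControlsStrongFusionOf (Subgroup.normalizer (Z (J p (P : Subgroup G)) : Set G)) (P : Subgroup G) A :=
  controls_of_isNormal P
    (isNormal_ZJ hp P.2 (CfsgLib.Fusion.group_isSaturated (p := p) P) (group_sectionFree hfree P)) A hA

/-- Glauberman's ZJ-Theorem, in the case of groups with no section isomorphic to SL(2,p), p odd: conjugation of subsets of a Sylow p-subgroup P inside P is always induced from the normalizer of Z(J(P)). -/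
theorem result {G : Type*} [Group G] [Finite G] {p : ℕ} [Fact p.Prime] (hp : p ≠ 2) (hfree : ¬ ∃ (H K : Subgroup G) (hK : (K.subgroupOf H).Normal), Nonempty ((H ⧸ K.subgroupOf H) ≃* Matrix.SpecialLinearGroup (Fin 2) (ZMod p))) (P : Sylow p G) (A : Set G) (hA : A ⊆ (P : Set G)) (g : G) (hAg : (fun a => g⁻¹ * a * g) '' A ⊆ (P : Set G)) : ∃ n ∈ Subgroup.normalizer (Cfsg.centerThompsonOf p (P : Subgroup G) : Set G), ∀ a ∈ A, n⁻¹ * a * n = g⁻¹ * a * g := by
  have hqd : ¬ Cfsg.Involves ↥(Cfsg.qd p) G := fun h => hfree (by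
    obtain ⟨K, R, hR, ⟨e⟩⟩ := h
    obtain ⟨f, hf⟩ := CfsgLib.Dickson.surjective_of_section (⟨e⟩ : Nonempty _)
    exact CfsgLib.QdFree.involves_trans K f hf (involves_sl2_qd p))
  have h := (main hp hqd P A hA).2 g⁻¹ (by
    rintro _ ⟨a, ha, rfl⟩
    have := hAg ⟨a, ha, rfl⟩
    simpa using this)
  obtain ⟨n, hn, hna⟩ := h
  have e : Cfsg.centerThompsonOf p (P : Subgroup G) =
      CfsgLib.ThompsonNPC.Z (CfsgLib.ThompsonNPC.J p (P : Subgroup G)) := by
    rw [Cfsg.centerThompsonOf, CfsgLib.ThompsonNPC.thompsonSubgroupOf_eq]; rfl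
  refine ⟨n⁻¹, by rw [e]; exact inv_mem hn, fun a ha => ?_⟩
  simpa using (hna a ha).symm

end Cfsg.Agent.S0118
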