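import Cfsg.Statements.S0119
import Cfsg.Agent.Lib.MaximalClassTwo
import Cfsg.Agent.Lib.LocalBasic
import Cfsg.Agent.Lib.PStep

set_option autoImplicit false
set_option linter.style.haveILetI false
open Cfsg

namespace Cfsg.Agent.S0119

open scoped commutatorElement

/-- If a p'-group A of automorphisms of a p-group G satisfies G = [G, A] and acts trivially on every characteristic abelian subgroup, then G is special with centre equal to the fixed points of A. -/
theorem result {G : Type*} [Group G] [Finite G] {p : ℕ} [Fact p.Prime] (hG : IsPGroup p G) (A : Subgroup (MulAut G)) (hA : Nat.Coprime (Nat.card A) p) (hGA : Subgroup.closure {x : G | ∃ g : G, ∃ a ∈ A, x = g⁻¹ * a g} = ⊤) (hchar : ∀ H : Subgroup G, H.Characteristic → IsMulCommutative H → ∀ a ∈ A, ∀ h ∈ H, a h = h) : Cfsg.IsSpecial p G ∧ (∀ g : G, (g ∈ Subgroup.center G ↔ ∀ a ∈ A, a g = g)) := by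
  classical
  set Z := Subgroup.center G with hZdef
  have hcenter : ∀ H : Subgroup G, H.Characteristic → IsMulCommutative ↥H → H ≤ Z := by
    intro H hH hHc h0 hh0
    haveI := hH
    refine Subgroup.mem_center_iff.mpr fun g => ?_
    have hgen : Subgroup.closure {x : G | ∃ g : G, ∃ a ∈ A, x = g⁻¹ * a g} ≤ Subgroup.centralizer (H : Set G) := by
      refine (Subgroup.closure_le _).mpr ?_
      rintro _ ⟨g, a, ha, rfl⟩
      refine Subgroup.mem_centralizer_iff.mpr fun x hx => ?_
      have hx' := hchar H hH hHc a ha x hx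
      have h4 := hchar H hH hHc a ha _ ((inferInstance : H.Normal).conj_mem x hx g)
      rw [map_mul, map_mul, map_inv, hx'] at h4
      calc x * (g⁻¹ * a g) = g⁻¹ * (g * x * g⁻¹) * a g := by group
        _ = g⁻¹ * (a g * x * (a g)⁻¹) * a g := by rw [h4]
        _ = _ := by group
    exact (Subgroup.mem_centralizer_iff.mp (hgen (hGA.ge (Subgroup.mem_top g))) h0 hh0).symm
  -- class at most two
  haveI : Group.IsNilpotent G := hG.isNilpotent
  haveI hc2 : (Subgroup.upperCentralSeries G 2).Characteristic := inferInstance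
  set W := commutator G ⊓ Subgroup.upperCentralSeries G 2 with hW
  have hmem2 : ∀ w ∈ Subgroup.upperCentralSeries G 2, ∀ y, ⁅w, y⁆ ∈ Z := fun w hw y => by
    have h := Subgroup.mem_upperCentralSeries_succ_iff.mp hw y
    rwa [Subgroup.upperCentralSeries_one] at h
  have hWc : IsMulCommutative ↥W := by
    refine ⟨⟨fun a b => Subtype.ext ?_⟩⟩
    obtain ⟨-, ha2⟩ := a.2
    let φ : G →* ↥Z := MonoidHom.mk' (fun y => ⟨⁅(a : G), y⁆, hmem2 _ ha2 y⟩) (fun s t => Subtype.ext (by
      show ⁅(a : G), s * t⁆ = ⁅(a : G), s⁆ * ⁅(a : G), t⁆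
      rw [show ⁅(a : G), s * t⁆ = ⁅(a : G), s⁆ * (s * ⁅(a : G), t⁆ * s⁻¹) by simp only [commutatorElement_def]; group,
        Subgroup.mem_center_iff.mp (hmem2 _ ha2 t) s, mul_inv_cancel_right]))
    have hle : commutator G ≤ φ.ker := by
      rw [commutator_def, Subgroup.commutator_le]
      intro u _ v _
      rw [MonoidHom.mem_ker, map_commutatorElement, commutatorElement_eq_one_iff_commute]
      exact Subtype.ext (Subgroup.mem_center_iff.mp (φ v).2 _)
    exact commutatorElement_eq_one_iff_commute.mp (congrArg Subtype.val (hle b.2.1))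
  have hWchar : W.Characteristic := by
    have h1 : (commutator G).Characteristic := inferInstance
    refine Subgroup.characteristic_iff_map_eq.mpr fun e => ?_
    rw [hW, Subgroup.map_inf _ _ _ e.injective, Subgroup.characteristic_iff_map_eq.mp h1 e,
      Subgroup.characteristic_iff_map_eq.mp hc2 e]
  have hWZ : W ≤ Z := hcenter W hWchar hWc
  have hDZ : commutator G ≤ Z := by
    by_contra hcon
    set π := QuotientGroup.mk' Z
    haveI : ((commutator G).map π).Normal := Subgroup.Normal.map inferInstance _ (QuotientGroup.mk'_surjective Z)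
    have hne : (commutator G).map π ≠ ⊥ := fun e => hcon (by
      rw [Subgroup.map_eq_bot_iff, QuotientGroup.ker_mk'] at e; exact e)
    obtain ⟨z, ⟨⟨w, hwD, rfl⟩, hwc⟩, hw1⟩ :=
      ((commutator G).map π ⊓ Subgroup.center (G ⧸ Z)).bot_or_exists_ne_one.resolve_left
        (CfsgLib.PStep.normal_inf_center_ne_bot (hG.to_quotient Z) inferInstance hne)
    refine hw1 ((QuotientGroup.eq_one_iff w).mpr (hWZ ⟨hwD, Subgroup.mem_upperCentralSeries_succ_iff.mpr fun y => ?_⟩))
    rw [Subgroup.upperCentralSeries_one]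
    refine (QuotientGroup.eq_one_iff _).mp ?_
    show π ⁅w, y⁆ = 1
    rw [map_commutatorElement, commutatorElement_eq_one_iff_commute]
    exact (Subgroup.mem_center_iff.mp hwc (π y)).symm
  have hcm : ∀ a b : G, ⁅a, b⁆ ∈ Z := fun a b =>
    hDZ (Subgroup.commutator_mem_commutator (Subgroup.mem_top a) (Subgroup.mem_top b))
  -- fixed points
  have hfixZ : ∀ g ∈ Z, ∀ a ∈ A, a g = g := fun g hg a ha => hchar Z inferInstance inferInstance a ha g hg
  letI : CommGroup (G ⧸ commutator G) :=
    { (inferInstance : Group (G ⧸ commutator G)) with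
      mul_comm := fun u v => ((Subgroup.Normal.quotient_commutative_iff_commutator_le).mpr le_rfl).is_comm.comm u v }
  let q : G →* G ⧸ commutator G := QuotientGroup.mk' _
  haveI : Fintype ↥A := Fintype.ofFinite _
  let ψ : G →* G ⧸ commutator G :=
    { toFun := fun g => ∏ a : ↥A, q ((a : MulAut G) g)
      map_one' := by simp
      map_mul' := fun u v => by simp [Finset.prod_mul_distrib] }
  have hψ : ∀ g, ψ g = 1 := by
    intro g
    have hle : Subgroup.closure {x : G | ∃ g : G, ∃ a ∈ A, x = g⁻¹ * a g} ≤ ψ.ker := by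
      refine (Subgroup.closure_le _).mpr ?_
      rintro _ ⟨w, b, hb, rfl⟩
      rw [SetLike.mem_coe, MonoidHom.mem_ker, map_mul, map_inv, inv_mul_eq_one]
      show ∏ a : ↥A, q ((a : MulAut G) w) = ∏ a : ↥A, q ((a : MulAut G) (b w))
      exact (Fintype.prod_equiv (Equiv.mulRight (⟨b, hb⟩ : ↥A)) _ _ (fun a => rfl)).symm
    exact hle (hGA.ge (Subgroup.mem_top g))
  have hfixD : ∀ g, (∀ a ∈ A, a g = g) → g ∈ commutator G := by
    intro g hg
    have h1 : q g ^ Nat.card ↥A = 1 := by
      have h2 := hψ g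
      rw [show ψ g = ∏ a : ↥A, q ((a : MulAut G) g) from rfl,
        Finset.prod_congr rfl (fun a _ => congrArg q (hg _ a.2)), Finset.prod_const, Finset.card_univ,
        ← Nat.card_eq_fintype_card] at h2
      exact h2
    obtain ⟨k, hk⟩ := IsPGroup.iff_orderOf.mp (hG.to_quotient (commutator G)) (q g)
    refine (QuotientGroup.eq_one_iff g).mp ?_
    exact orderOf_eq_one_iff.mp (Nat.eq_one_of_dvd_coprimes (hA.pow_right k)
      (orderOf_dvd_of_pow_eq_one h1) (dvd_of_eq hk))
  have hDeq : commutator G = Z := le_antisymm hDZ fun g hg => hfixD g (hfixZ g hg)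
  -- powers
  have hbil : ∀ (x y : G) (m : ℕ), ⁅x ^ m, y⁆ = ⁅x, y⁆ ^ m := by
    intro x y m
    induction m with
    | zero => simp
    | succ m ih =>
      rw [pow_succ', show ⁅x * x ^ m, y⁆ = x * ⁅x ^ m, y⁆ * x⁻¹ * ⁅x, y⁆ by simp only [commutatorElement_def]; group,
        Subgroup.mem_center_iff.mp (hcm _ _) x, mul_inv_cancel_right, ih, pow_succ]
  have hdesc : ∀ k, (∀ x : G, x ^ p ^ (k + 2) ∈ Z) → ∀ x : G, x ^ p ^ (k + 1) ∈ Z := by
    intro k hk
    set m := p ^ (k + 1) with hm
    set H := Subgroup.closure (Set.range fun x : G => x ^ m) with hH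
    have hcomm : ∀ u v : G, Commute (u ^ m) (v ^ m) := by
      intro u v
      rw [← commutatorElement_eq_one_iff_commute, hbil, ← commutatorElement_inv, hbil, ← commutatorElement_inv]
      simp only [inv_pow, inv_inv]
      rw [← pow_mul, ← hbil, commutatorElement_eq_one_iff_commute]
      have h1 : u ^ (m * m) ∈ Z := by
        rw [show m * m = p ^ (k + 2) * p ^ k by rw [hm, ← pow_add, ← pow_add]; ring_nf, pow_mul]
        exact Z.pow_mem (hk u) _
      exact (Subgroup.mem_center_iff.mp h1 v).symm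
    have hHc : IsMulCommutative ↥H := Subgroup.isMulCommutative_closure (by
      rintro _ ⟨u, rfl⟩ _ ⟨v, rfl⟩; exact (hcomm u v).eq)
    have hHchar : H.Characteristic := by
      refine Subgroup.characteristic_iff_map_le.mpr fun e => ?_
      rw [hH, MonoidHom.map_closure]
      refine Subgroup.closure_mono ?_
      rintro _ ⟨_, ⟨u, rfl⟩, rfl⟩
      exact ⟨e u, (map_pow e u m).symm⟩
    exact fun x => hcenter H hHchar hHc (Subgroup.subset_closure ⟨x, rfl⟩)
  have hpow : ∀ x : G, x ^ p ∈ Z := by
    have main : ∀ k, (∀ x : G, x ^ p ^ (k + 1) ∈ Z) → ∀ x : G, x ^ p ∈ Z := by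
      intro k
      induction k with
      | zero => intro h x; simpa using h x
      | succ k ih => exact fun h => ih (hdesc k h)
    obtain ⟨n, hn⟩ := hG.exists_card_eq
    refine main n fun x => ?_
    rw [pow_succ, pow_mul, ← hn, pow_card_eq_one', one_pow]
    exact Z.one_mem
  refine ⟨⟨hG, le_antisymm (CfsgLib.LocalBasic.frattini_le_of_elementary_quotient (p := p) Z hcm hpow) ?_, hDeq⟩, ?_⟩
  · refine hDeq.ge.trans ?_
    exact le_iInf₂ fun _ hM => CfsgLib.MaximalClassTwo.commutator_le_coatom hG hM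
  · exact fun g => ⟨hfixZ g, fun h => hDZ (hfixD g h)⟩

end Cfsg.Agent.S0119
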