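import Cfsg.Statements.S0123
import Cfsg.Agent.Lib.PowerMap

set_option autoImplicit false
set_option linter.style.haveILetI false
open Cfsg

namespace Cfsg.Agent.S0123

/-- For a p-group of small class relative to p (class ≤ 2 with p odd, or class ≤ 3 with p > 3) whose derived subgroup is generated by elements of order dividing p, the p-th power map is multiplicative. -/
theorem result {R : Type*} [Group R] [Finite R] {p : ℕ} [Fact p.Prime] (hR : IsPGroup p R) (hcl : (p ≠ 2 ∧ ⁅commutator R, (⊤ : Subgroup R)⁆ = ⊥) ∨ (3 < p ∧ ⁅⁅commutator R, (⊤ : Subgroup R)⁆, (⊤ : Subgroup R)⁆ = ⊥)) (hder : commutator R ≤ Subgroup.closure {x : R | x ^ p = 1}) (x y : R) : (x * y) ^ p = x ^ p * y ^ p := by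
  have h4 : ⁅⁅commutator R, (⊤ : Subgroup R)⁆, (⊤ : Subgroup R)⁆ = ⊥ := by
    rcases hcl with ⟨-, h⟩ | ⟨-, h⟩
    · rw [h, Subgroup.commutator_bot_left]
    · exact h
  have hp2 : p ≠ 2 := by rcases hcl with ⟨h, -⟩ | ⟨h, -⟩ <;> omega
  have hcase := (hcl.symm.imp And.left And.right)
  exact CfsgLib.PowerMap.mul_pow_of_exponent Fact.out hp2 h4 hcase
    (fun c hc => CfsgLib.PowerMap.pow_eq_one_of_mem_closure Fact.out hp2 h4 hcase (hder hc)) x y

end Cfsg.Agent.S0123
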