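import Cfsg.Statements.S0125
import Cfsg.Agent.Lib.FocalTransfer

set_option autoImplicit false
set_option linter.style.haveILetI false
open Cfsg

namespace Cfsg.Agent.S0125

/-- The centralizer of a self-centralizing normal subgroup A of a Sylow p-subgroup is the direct product of A with a normal p'-subgroup. -/
theorem result {G : Type*} [Group G] [Finite G] {p : ℕ} [Fact p.Prime] (R : Sylow p G) (A : Subgroup G) (hAR : A ≤ (R : Subgroup G)) (hAn : (R : Subgroup G) ≤ Subgroup.normalizer (A : Set G)) (hC : (R : Subgroup G) ⊓ Subgroup.centralizer (A : Set G) = A) : ∃ H : Subgroup G, H ≤ Subgroup.centralizer (A : Set G) ∧ Nat.Coprime (Nat.card H) p ∧ Subgroup.centralizer (A : Set G) ≤ Subgroup.normalizer (H : Set G) ∧ H ⊓ A = ⊥ ∧ H ⊔ A = Subgroup.centralizer (A : Set G) := by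
  classical
  set C := Subgroup.centralizer (A : Set G) with hCdef
  have hAC : A ≤ C := fun a ha => (hC.ge ha).2
  have hApC : IsPGroup p ↥(A.subgroupOf C) := (R.isPGroup'.to_le hAR).comap_of_injective C.subtype C.subtype_injective
  have hsyl : Nat.card ↥(A.subgroupOf C) = p ^ (Nat.card ↥C).factorization p := by
    obtain ⟨Q⟩ : Nonempty (Sylow p ↥C) := inferInstance
    rw [← Q.card_eq_multiplicity]
    refine le_antisymm ?_ ?_
    · obtain ⟨Q', hQ'⟩ := hApC.exists_le_sylow
      exact (Subgroup.card_le_of_le hQ').trans_eq (by rw [Q'.card_eq_multiplicity, Q.card_eq_multiplicity])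
    · have hCN : C ≤ Subgroup.normalizer (A : Set G) := Subgroup.centralizer_le_normalizer _
      obtain ⟨m, hm, hm'⟩ := CfsgLib.LocalBasic.exists_conj_le_sylow R hAn (Q.isPGroup'.map C.subtype)
        ((Subgroup.map_subtype_le _).trans hCN)
      rw [← Subgroup.card_map_of_injective (K := (Q : Subgroup ↥C)) C.subtype_injective,
        Nat.card_congr (Subgroup.subgroupOfEquivOfLe hAC).toEquiv,
        ← Subgroup.card_map_of_injective (K := Subgroup.map C.subtype (Q : Subgroup ↥C)) (f := (MulAut.conj m).toMonoidHom) (MulAut.conj m).injective]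
      refine Subgroup.card_le_of_le (le_trans (le_inf ?_ ?_) hC.le)
      · rintro _ ⟨x, hx, rfl⟩
        exact hm' x hx
      · rintro _ ⟨x, hx, rfl⟩
        refine Subgroup.mem_centralizer_iff.mpr fun a ha => ?_
        have h1 := Subgroup.mem_centralizer_iff.mp (Subgroup.map_subtype_le _ hx) _
          ((Subgroup.mem_normalizer_iff''.mp hm a).mp ha)
        show a * (m * x * m⁻¹) = m * x * m⁻¹ * a
        calc a * (m * x * m⁻¹) = m * ((m⁻¹ * a * m) * x) * m⁻¹ := by group
          _ = m * (x * (m⁻¹ * a * m)) * m⁻¹ := by rw [h1]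
          _ = _ := by group
  let Q : Sylow p ↥C := Sylow.ofCard (A.subgroupOf C) hsyl
  have hQc : Subgroup.normalizer ((Q : Subgroup ↥C) : Set ↥C) ≤ Subgroup.centralizer ((Q : Subgroup ↥C) : Set ↥C) := by
    intro x _
    rw [Subgroup.mem_centralizer_iff]
    intro a ha
    exact Subtype.ext (Subgroup.mem_centralizer_iff.mp x.2 a ha)
  obtain ⟨K, hKn, hK, hKp⟩ : ∃ K : Subgroup ↥C, K.Normal ∧ Subgroup.IsComplement' K (A.subgroupOf C) ∧ ¬ p ∣ Nat.card ↥K :=
    ⟨_, inferInstance, MonoidHom.ker_transferSylow_isComplement' Q hQc, MonoidHom.not_dvd_card_ker_transferSylow Q hQc⟩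
  have hmapA : (A.subgroupOf C).map C.subtype = A := Subgroup.map_subgroupOf_eq_of_le hAC
  refine ⟨K.map C.subtype, Subgroup.map_subtype_le _, ?_, ?_, ?_, ?_⟩
  · rw [Subgroup.card_map_of_injective C.subtype_injective]
    exact ((Fact.out : p.Prime).coprime_iff_not_dvd.mpr hKp).symm
  · intro c hc
    rw [Subgroup.mem_normalizer_iff]
    intro x
    constructor
    · rintro ⟨k, hk, rfl⟩
      exact ⟨⟨c, hc⟩ * k * (⟨c, hc⟩ : ↥C)⁻¹, hKn.conj_mem k hk ⟨c, hc⟩, rfl⟩
    · rintro ⟨k, hk, e⟩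
      refine ⟨(⟨c, hc⟩ : ↥C)⁻¹ * k * ⟨c, hc⟩, by simpa using hKn.conj_mem k hk (⟨c, hc⟩ : ↥C)⁻¹, ?_⟩
      show c⁻¹ * (k : G) * c = x
      rw [show (k : G) = c * x * c⁻¹ from e]
      group
  · rw [← hmapA, ← Subgroup.map_inf _ _ _ C.subtype_injective, show K ⊓ A.subgroupOf C = ⊥ from disjoint_iff.mp hK.disjoint,
      Subgroup.map_bot]
  · rw [← hmapA, ← Subgroup.map_sup, show K ⊔ A.subgroupOf C = ⊤ from hK.sup_eq_top, ← MonoidHom.range_eq_map, Subgroup.range_subtype]

end Cfsg.Agent.S0125
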