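import Cfsg.Statements.S0130
import Cfsg.Agent.Lib.PowerMap

set_option autoImplicit false
set_option linter.style.haveILetI false
open Cfsg

namespace Cfsg.Agent.S0130

open scoped commutatorElement

/-- If A is maximal among the normal abelian subgroups of exponent dividing p^n of a p-group (p^n ≠ 2), then A contains every element of order dividing p^n in its centralizer. -/
theorem result {G : Type*} [Group G] [Finite G] {p : ℕ} [Fact p.Prime] (hG : IsPGroup p G) (n : ℕ) (hn : p ^ n ≠ 2) (A : Subgroup G) [A.Normal] (hA : IsMulCommutative A) (hAe : ∀ a ∈ A, a ^ p ^ n = 1) (hmax : ∀ B : Subgroup G, B.Normal → IsMulCommutative B → (∀ b ∈ B, b ^ p ^ n = 1) → A ≤ B → B = A) (x : G) (hx : x ∈ Subgroup.centralizer (A : Set G)) (hxn : x ^ p ^ n = 1) : x ∈ A := by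
  classical
  have hp : p.Prime := Fact.out
  haveI : Group.IsNilpotent (G ⧸ A) := (hG.to_quotient A).isNilpotent
  obtain ⟨m, hm⟩ := (Group.isNilpotent_iff (G := G ⧸ A)).mp inferInstance
  set C := Subgroup.centralizer (A : Set G) with hC
  haveI : C.Normal := Subgroup.normal_centralizer
  set π := QuotientGroup.mk' A
  let L : ℕ → Subgroup G := fun j => (Subgroup.upperCentralSeries (G ⧸ A) j).comap π
  have hLn : ∀ j, (L j).Normal := fun j => inferInstance
  have hstep : ∀ j y g, y ∈ L (j + 1) → ⁅y, g⁆ ∈ L j := by
    intro j y g hy
    have h1 := Subgroup.mem_upperCentralSeries_succ_iff.mp hy (π g)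
    show π ⁅y, g⁆ ∈ Subgroup.upperCentralSeries (G ⧸ A) j
    rwa [map_commutatorElement]
  have hL0 : ∀ y ∈ L 0, y ∈ A := fun y hy => (QuotientGroup.eq_one_iff y).mp (show π y = 1 by simpa [L] using hy)
  have hAC : ∀ a ∈ A, a ∈ C := fun a ha => Subgroup.mem_centralizer_iff.mpr fun b hb =>
    congrArg Subtype.val (hA.is_comm.comm (⟨b, hb⟩ : A) ⟨a, ha⟩)
  -- membership propagates down the series
  have main : ∀ j, ∀ y ∈ C, y ∈ L j → y ^ p ^ n = 1 → y ^ p ∈ A → y ∈ A := by
    intro j
    induction j using Nat.strong_induction_on with
    | _ j ih =>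
    intro y hyC hyL hyn hyp
    cases j with
    | zero => exact hL0 y hyL
    | succ j =>
      have inner : ∀ k, k ≤ j → ∀ g : G, y⁻¹ * (g * y * g⁻¹) ∈ L k → y⁻¹ * (g * y * g⁻¹) ∈ A := by
        intro k
        induction k with
        | zero => intro _ g hg; exact hL0 _ hg
        | succ k ihk =>
          intro hk g hg
          set y' := g * y * g⁻¹ with hy'
          set u := y⁻¹ * y' with hu
          have hy'C : y' ∈ C := (inferInstance : C.Normal).conj_mem y hyC g
          have huC : u ∈ C := mul_mem (inv_mem hyC) hy'C
          set c := y⁻¹ * (u * y * u⁻¹) with hc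
          have hcL : c ∈ L k := by
            have h1 := hstep k u y hg
            have h2 := (hLn k).conj_mem _ h1 y⁻¹
            have e : y⁻¹ * ⁅u, y⁆ * y⁻¹⁻¹ = c := by rw [hc]; group
            rwa [e] at h2
          have hcA : c ∈ A := ihk (by omega) u hcL
          have hcc : ∀ w ∈ C, Commute c w := fun w hw => Subgroup.mem_centralizer_iff.mp hw c hcA
          have hcp : c ^ p = 1 := by
            have h3 : u * y ^ p * u⁻¹ = y ^ p := by
              rw [← Subgroup.mem_centralizer_iff.mp huC _ hyp, mul_inv_cancel_right]
            have h4 : (y * c) ^ p = y ^ p := by rw [hc, mul_inv_cancel_left, conj_pow, h3]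
            rw [((hcc y hyC).symm).mul_pow] at h4
            exact mul_eq_left.mp h4
          have hpk : ∀ t : ℕ, p ∣ t.choose 2 → (y * u) ^ t = y ^ t * u ^ t := by
            intro t ht
            have h1 : u * y = y * u * c := by
              have hcu : c * u = u * c := (hcc u huC).eq
              rw [mul_assoc y u c, ← hcu, hc]; group
            rw [CfsgLib.PowerMap.mul_pow h1 (d := 1) (e := 1) (by rw [mul_one]; exact (hcc y hyC).eq)
              (by rw [mul_one]; exact (hcc u huC).eq) (fun w => by simp) (fun w => by simp)]
            obtain ⟨s, hs⟩ := ht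
            rw [hs, pow_mul, hcp, one_pow, one_pow, one_pow, mul_one, mul_one, mul_one]
          have hyu : y * u = y' := by rw [hu, mul_inv_cancel_left]
          have hy'n : y' ^ p ^ n = 1 := by rw [hy', conj_pow, hyn, mul_one, mul_inv_cancel]
          have hy'p : y' ^ p ∈ A := by rw [hy', conj_pow]; exact (inferInstance : A.Normal).conj_mem _ hyp g
          have hpd : p ∣ (p ^ n).choose 2 := by
            rcases eq_or_ne n 0 with rfl | hn0
            · simp
            have h2 : 2 < p ^ n := by
              rcases lt_or_eq_of_le (hp.two_le.trans (Nat.le_self_pow hn0 p)) with h | h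
              · exact h
              · exact absurd h.symm hn
            rw [Nat.choose_two_right]
            rcases hp.eq_two_or_odd' with rfl | hodd
            · obtain ⟨n', rfl⟩ := Nat.exists_eq_succ_of_ne_zero hn0
              rcases n' with _ | n''
              · simp at h2
              · rw [show 2 ^ (n'' + 1 + 1) = 2 * (2 * 2 ^ n'') by rw [pow_succ', pow_succ'], mul_assoc,
                  Nat.mul_div_cancel_left _ two_pos, mul_assoc]
                exact dvd_mul_right _ _
            · rw [Nat.mul_div_assoc _ (by
                have : Odd (p ^ n) := hodd.pow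
                obtain ⟨t, ht⟩ := this
                exact ⟨t, by omega⟩)]
              exact dvd_mul_of_dvd_left (dvd_pow_self p hn0) _
          have hun : u ^ p ^ n = 1 := by
            have := hpk _ hpd
            rw [hyu, hy'n, hyn, one_mul] at this
            exact this.symm
          have hup : u ^ p ∈ A := by
            have h5 : ∀ t : ℕ, (y * u) ^ t * (y ^ t * u ^ t)⁻¹ ∈ A := by
              intro t
              have h1 : u * y = y * u * c := by
                have hcu : c * u = u * c := (hcc u huC).eq
                rw [mul_assoc y u c, ← hcu, hc]; group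
              rw [CfsgLib.PowerMap.mul_pow h1 (d := 1) (e := 1) (by rw [mul_one]; exact (hcc y hyC).eq)
                (by rw [mul_one]; exact (hcc u huC).eq) (fun w => by simp) (fun w => by simp)]
              rw [one_pow, one_pow, mul_one, mul_one]
              exact (inferInstance : A.Normal).conj_mem _ (pow_mem hcA _) _
            have h6 := h5 p
            rw [hyu] at h6
            have h7 := mul_mem (mul_mem (inv_mem hyp) (inv_mem h6)) hy'p
            have e : (y ^ p)⁻¹ * (y' ^ p * (y ^ p * u ^ p)⁻¹)⁻¹ * y' ^ p = u ^ p := by group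
            rwa [e] at h7
          exact ih (k + 1) (by omega) u huC hg hun hup
      -- all conjugates of `y` agree with it modulo `A`
      have hall : ∀ g : G, y⁻¹ * (g * y * g⁻¹) ∈ A := fun g => inner j le_rfl g (by
        have h1 := hstep j y g hyL
        have h2 := (hLn j).conj_mem _ (inv_mem h1) y⁻¹
        have e : y⁻¹ * ⁅y, g⁆⁻¹ * y⁻¹⁻¹ = y⁻¹ * (g * y * g⁻¹) := by group
        rwa [e] at h2)
      set B := A ⊔ Subgroup.zpowers y with hB
      have hBn : B.Normal := ⟨fun u hu g => by
        have hle : B.map (MulAut.conj g).toMonoidHom ≤ B := by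
          rw [Subgroup.map_sup, MonoidHom.map_zpowers]
          refine sup_le ?_ (Subgroup.zpowers_le.mpr ?_)
          · rintro _ ⟨a, ha, rfl⟩
            exact Subgroup.mem_sup_left ((inferInstance : A.Normal).conj_mem a ha g)
          · have h8 := mul_mem (Subgroup.mem_sup_right (Subgroup.mem_zpowers y) : y ∈ B) (Subgroup.mem_sup_left (hall g))
            rw [mul_inv_cancel_left] at h8
            exact h8
        exact hle ⟨u, hu, rfl⟩⟩
      have hBe : B = Subgroup.closure ((A : Set G) ∪ {y}) := by
        rw [hB, Subgroup.closure_union, Subgroup.closure_eq, ← Subgroup.zpowers_eq_closure]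
      have hBc : IsMulCommutative B := by
        rw [hBe]
        refine Subgroup.isMulCommutative_closure ?_
        rintro u (hu | rfl) v (hv | rfl)
        · exact congrArg Subtype.val (hA.is_comm.comm (⟨u, hu⟩ : A) ⟨v, hv⟩)
        · exact Subgroup.mem_centralizer_iff.mp hyC u hu
        · exact (Subgroup.mem_centralizer_iff.mp hyC v hv).symm
        · rfl
      have hBexp : ∀ b ∈ B, b ^ p ^ n = 1 := by
        intro b hb
        obtain ⟨a, ha, w, ⟨i, rfl⟩, rfl⟩ := Subgroup.mem_sup_of_normal_left.mp hb
        have hc1 : Commute a y := Subgroup.mem_centralizer_iff.mp hyC a ha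
        rw [(hc1.zpow_right i).mul_pow, hAe a ha, one_mul, ← zpow_natCast, ← zpow_mul, mul_comm, zpow_mul,
          zpow_natCast, hyn, one_zpow]
      exact (hmax B hBn hBc hBexp le_sup_left).le (Subgroup.mem_sup_right (Subgroup.mem_zpowers y))
  -- descend through `p`-th powers
  have hgen : ∀ k, ∀ y ∈ C, y ^ p ^ n = 1 → y ^ p ^ k = 1 → y ∈ A := by
    intro k
    induction k with
    | zero => intro y _ _ hy; rw [pow_zero, pow_one] at hy; rw [hy]; exact one_mem _
    | succ k ih =>
      intro y hyC hyn hy
      refine main m y hyC (Subgroup.mem_comap.mpr (hm ▸ Subgroup.mem_top _)) hyn ?_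
      refine ih _ (pow_mem hyC p) ?_ (by rw [← pow_mul, ← pow_succ', hy])
      rw [← pow_mul, mul_comm, pow_mul, hyn, one_pow]
  exact hgen n x hx hxn hxn

end Cfsg.Agent.S0130
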