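import Cfsg.Statements.S0131
import Cfsg.Agent.Lib.FocalTransfer

set_option autoImplicit false
set_option linter.style.haveILetI false
open Cfsg

namespace Cfsg.Agent.S0131

open scoped commutatorElement

/-- P/P' has a normal complement in G exactly when the focal subgroup G' ∩ P is as small as possible, namely P'. -/
theorem result {G : Type*} [Group G] [Finite G] {p : ℕ} [Fact p.Prime] (P : Sylow p G) : (∃ N : Subgroup G, N.Normal ∧ N ⊓ (P : Subgroup G) = ⁅(P : Subgroup G), (P : Subgroup G)⁆ ∧ N ⊔ (P : Subgroup G) = ⊤) ↔ commutator G ⊓ (P : Subgroup G) = ⁅(P : Subgroup G), (P : Subgroup G)⁆ := by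
  constructor
  · rintro ⟨N, hN, hNP, hsup⟩
    refine le_antisymm ?_ (le_inf (CfsgLib.FocalTransfer.le_commutator_top _ _) (Subgroup.commutator_le.mpr fun a ha b hb =>
      mul_mem (mul_mem (mul_mem ha hb) (inv_mem ha)) (inv_mem hb)))
    refine le_trans (inf_le_inf_right _ ?_) hNP.le
    haveI := hN
    rw [← Subgroup.Normal.quotient_commutative_iff_commutator_le]
    refine ⟨⟨fun a b => ?_⟩⟩
    obtain ⟨g, rfl⟩ := QuotientGroup.mk'_surjective _ a
    obtain ⟨g', rfl⟩ := QuotientGroup.mk'_surjective _ b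
    obtain ⟨u, hu, v, hv, rfl⟩ := Subgroup.mem_sup_of_normal_left.mp (hsup ▸ Subgroup.mem_top g)
    obtain ⟨u', hu', v', hv', rfl⟩ := Subgroup.mem_sup_of_normal_left.mp (hsup ▸ Subgroup.mem_top g')
    have hone : ∀ w ∈ N, QuotientGroup.mk' N w = 1 := fun w hw => (QuotientGroup.eq_one_iff w).mpr hw
    rw [map_mul, map_mul, hone u hu, hone u' hu', one_mul, one_mul, ← map_mul, ← map_mul]
    apply QuotientGroup.eq.mpr
    have h1 : (v * v')⁻¹ * (v' * v) ∈ ⁅(P : Subgroup G), (P : Subgroup G)⁆ := by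
      have e : (v * v')⁻¹ * (v' * v) = ⁅v'⁻¹, v⁻¹⁆ := by group
      rw [e]; exact Subgroup.commutator_mem_commutator (inv_mem hv') (inv_mem hv)
    exact ((hNP ▸ h1 : (v * v')⁻¹ * (v' * v) ∈ N ⊓ (P : Subgroup G))).1
  · intro h
    obtain ⟨-, N, hN, hNP, hsup⟩ := CfsgLib.FocalTransfer.coprime_focal (P : Subgroup G)
      (CfsgLib.FocalTransfer.sylow_coprime_relIndex P)
    exact ⟨N, hN, hNP.trans h, hsup⟩

end Cfsg.Agent.S0131
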