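import Cfsg.Statements.S0136
import Mathlib
import Cfsg.Agent.Lib.Chars.Orth

set_option autoImplicit false
open Cfsg

namespace Cfsg.Agent.S0136

/-- Two elements of a finite group are conjugate if and only if no irreducible complex character separates them. -/
theorem result {G : Type*} [Group G] [Finite G] (g h : G) : IsConj g h ↔ ∀ χ : Cfsg.IrrCharacter G, (χ : G → ℂ) g = (χ : G → ℂ) h := by
  classical
  haveI := Fintype.ofFinite G
  constructor
  · intro hc' χ
    obtain ⟨c, rfl⟩ := isConj_iff.mp hc'
    exact (CfsgLib.Chars.IsCharacter.isClassFunction (CfsgLib.Chars.isCharacter_irr χ) g c).symm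
  · intro hh
    have h1 := CfsgLib.Chars.col_orth g h
    have h2 := CfsgLib.Chars.col_orth h h
    simp_rw [hh] at h1
    rw [h2, if_pos (IsConj.refl _)] at h1
    by_contra hc
    rw [if_neg (fun h' => hc h'.symm)] at h1
    exact (Nat.cast_ne_zero.mpr Nat.card_pos.ne') h1

end Cfsg.Agent.S0136
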