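import Cfsg.Statements.S0138
import Mathlib
import Cfsg.Agent.Lib.Chars.Kernel

set_option autoImplicit false
open Cfsg

namespace Cfsg.Agent.S0138

/-- A character value has absolute value equal to the degree exactly when the group element acts by a scalar. -/
theorem result {G : Type*} [Group G] [Finite G] {V : Type*} [AddCommGroup V] [Module ℂ V] [FiniteDimensional ℂ V] (ρ : Representation ℂ G V) (g : G) : ‖ρ.character g‖ = (Module.finrank ℂ V : ℝ) ↔ ∃ ω : ℂ, ρ g = ω • (LinearMap.id : V →ₗ[ℂ] V) := by
  classical
  haveI := Fintype.ofFinite G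
  constructor
  · intro h
    rcases subsingleton_or_nontrivial V with hV | hV
    · exact ⟨0, LinearMap.ext fun v => Subsingleton.elim _ _⟩
    have h1 : (ρ.linHom ρ).character g = (ρ.linHom ρ).character 1 := by
      rw [Representation.char_linHom, Representation.char_linHom, inv_one, Representation.char_one,
        CfsgLib.Chars.IsCharacter.map_inv (CfsgLib.Chars.isCharacter_character ρ), mul_comm,
        Complex.mul_conj, Complex.normSq_eq_norm_sq, h]
      push_cast
      ring
    have h2 := (CfsgLib.Chars.character_eq_degree_iff (ρ.linHom ρ) g).1 h1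
    have hcom : ∀ φ : V →ₗ[ℂ] V, ρ g ∘ₗ φ = φ ∘ₗ ρ g := by
      intro φ
      have h3 : ρ g ∘ₗ φ ∘ₗ ρ g⁻¹ = φ := by
        have := LinearMap.congr_fun h2 φ
        simpa [Representation.linHom_apply] using this
      conv_rhs => rw [← h3]
      apply LinearMap.ext
      intro v
      simp
    obtain ⟨v₀, hv₀⟩ := exists_ne (0 : V)
    obtain ⟨f, hf⟩ := LinearMap.exists_leftInverse_of_injective (LinearMap.toSpanSingleton ℂ V v₀)
      (LinearMap.ker_eq_bot.2 fun a b hab => smul_left_injective ℂ hv₀ hab)
    have hf1 : f v₀ = 1 := by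
      have := LinearMap.congr_fun hf 1
      simpa using this
    refine ⟨f (ρ g v₀), LinearMap.ext fun v => ?_⟩
    have := LinearMap.congr_fun (hcom (LinearMap.smulRight f v)) v₀
    simp [hf1] at this
    simpa using this
  · rintro ⟨ω, hω⟩
    rw [Representation.character, hω, map_smul, LinearMap.trace_id, smul_eq_mul, norm_mul, Complex.norm_natCast]
    rcases subsingleton_or_nontrivial V with hV | hV
    · rw [Module.finrank_zero_of_subsingleton (R := ℂ) (M := V), Nat.cast_zero, mul_zero]
    obtain ⟨v₀, hv₀⟩ := exists_ne (0 : V)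
    have hpow : ∀ n : ℕ, (ρ (g ^ n)) v₀ = ω ^ n • v₀ := by
      intro n
      induction n with
      | zero => simp
      | succ n ih => rw [pow_succ', map_mul, Module.End.mul_apply, ih, hω, LinearMap.smul_apply, LinearMap.id_apply, smul_smul, pow_succ']
    have h1 := hpow (orderOf g)
    rw [pow_orderOf_eq_one, map_one, Module.End.one_apply, eq_comm] at h1
    have h2 : (ω ^ orderOf g - 1) • v₀ = 0 := by rw [sub_smul, h1, one_smul, sub_self]
    rw [Complex.norm_eq_one_of_pow_eq_one (sub_eq_zero.1 ((smul_eq_zero.1 h2).resolve_right hv₀)) (orderOf_pos g).ne', one_mul]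

end Cfsg.Agent.S0138
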