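import Cfsg.Statements.S0143
import Mathlib
import Cfsg.Agent.S0144

set_option autoImplicit false
open Cfsg

namespace Cfsg.Agent.S0143

/-- If a finite simple group has a non-identity element whose conjugacy class has prime-power size, then the group has prime order. -/
theorem result {G : Type*} [Group G] [Finite G] [IsSimpleGroup G] (p k : ℕ) (hp : p.Prime) (g : G) (hg : g ≠ 1) (hclass : (Subgroup.centralizer ({g} : Set G)).index = p ^ k) : (Nat.card G).Prime := by
  by_cases hz : g ∈ Subgroup.center G
  · have hc : Subgroup.center G = ⊤ := by
      refine ((inferInstance : (Subgroup.center G).Normal).eq_bot_or_eq_top).resolve_left fun h => hg ?_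
      rwa [h, Subgroup.mem_bot] at hz
    letI : CommGroup G := Group.commGroupOfCenterEqTop hc
    exact IsSimpleGroup.prime_card
  · exact (Cfsg.Agent.S0144.no_prime_power_class G hp g hz hclass).elim

end Cfsg.Agent.S0143
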