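import Cfsg.Statements.S0147
import Mathlib
import Cfsg.Agent.Lib.Chars.Induced

set_option autoImplicit false
open Cfsg

namespace Cfsg.Agent.S0147

/-- Transitivity of induction: inducing from H to K and then from K to G is the same as inducing from H to G. -/
theorem result {G : Type*} [Group G] [Fintype G] (H K : Subgroup G) [Fintype K] (hHK : H ≤ K) (θ : H → ℂ) : Cfsg.indFun K (Cfsg.indFun (H.subgroupOf K) (fun x => θ ⟨(x : K), Subgroup.mem_subgroupOf.mp x.2⟩)) = Cfsg.indFun H θ := by
  classical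
  funext g
  have hθ' : ∀ z : K, Cfsg.extendByZero (H.subgroupOf K)
      (fun x => θ ⟨(x : K), Subgroup.mem_subgroupOf.mp x.2⟩) z = Cfsg.extendByZero H θ (z : G) := by
    intro z
    rw [CfsgLib.Chars.extendByZero_apply, CfsgLib.Chars.extendByZero_apply]
    by_cases hz : (z : G) ∈ H
    · rw [dif_pos (Subgroup.mem_subgroupOf.2 hz), dif_pos hz]
    · rw [dif_neg (fun h => hz (Subgroup.mem_subgroupOf.1 h)), dif_neg hz]
  have hin : ∀ w : G, Cfsg.extendByZero K (Cfsg.indFun (H.subgroupOf K)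
      (fun x => θ ⟨(x : K), Subgroup.mem_subgroupOf.mp x.2⟩)) w =
      (Nat.card H : ℂ)⁻¹ * ∑ y : K, Cfsg.extendByZero H θ ((y : G)⁻¹ * w * y) := by
    intro w
    rw [CfsgLib.Chars.extendByZero_apply K]
    by_cases hw : w ∈ K
    · rw [dif_pos hw, Cfsg.indFun, Nat.card_congr (Subgroup.subgroupOfEquivOfLe hHK).toEquiv]
      congr 1
      exact Finset.sum_congr rfl fun y _ => hθ' _
    · rw [dif_neg hw, Finset.sum_eq_zero, mul_zero]
      intro y _
      rw [CfsgLib.Chars.extendByZero_apply H, dif_neg]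
      intro h
      apply hw
      have := mul_mem (mul_mem y.2 (hHK h)) (inv_mem y.2)
      simpa [mul_assoc] using this
  simp only [Cfsg.indFun] at hin ⊢
  simp only [hin]
  rw [← Finset.mul_sum, Finset.sum_comm]
  have hsum : ∀ y : K, ∑ x : G, Cfsg.extendByZero H θ ((y : G)⁻¹ * (x⁻¹ * g * x) * y) =
      ∑ x : G, Cfsg.extendByZero H θ (x⁻¹ * g * x) := by
    intro y
    refine Fintype.sum_equiv (Equiv.mulRight (y : G)) _ _ fun x => ?_
    simp [mul_assoc]
  simp only [hsum, Finset.sum_const, Finset.card_univ, nsmul_eq_mul, ← Nat.card_eq_fintype_card]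
  have hK : (Nat.card K : ℂ) ≠ 0 := by exact_mod_cast Nat.card_pos.ne'
  field_simp

end Cfsg.Agent.S0147
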