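import Cfsg.Statements.S0149
import Mathlib
import Cfsg.Agent.Lib.Chars.Induced

set_option autoImplicit false
open Cfsg

namespace Cfsg.Agent.S0149

/-- Let T be a subset of G meeting each of its conjugates by elements outside its normalizer N only in the identity, and let ψ be a class function of N vanishing on N away from T. Then the function induced from ψ agrees with ψ at every non-identity element of T. -/
theorem result {G : Type*} [Group G] [Fintype G] (T : Set G) (hTI : ∀ g : G, g ∉ Subgroup.normalizer T → ∀ t ∈ T, g * t * g⁻¹ ∈ T → t = 1) (hTN : T ⊆ Subgroup.normalizer T) (ψ : Subgroup.normalizer T → ℂ) (hψ : Cfsg.IsClassFunction (Subgroup.normalizer T) ψ) (hψT : ∀ x : Subgroup.normalizer T, (x : G) ∉ T → ψ x = 0) (t : Subgroup.normalizer T) (htT : (t : G) ∈ T) (ht1 : t ≠ 1) : Cfsg.indFun (Subgroup.normalizer T) ψ t = ψ t := by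
  classical
  let N := Subgroup.normalizer T
  simp only [Cfsg.indFun]
  have key : ∀ x : G, Cfsg.extendByZero N ψ (x⁻¹ * t * x) = if x ∈ N then ψ t else 0 := by
    intro x
    rw [CfsgLib.Chars.extendByZero_apply]
    by_cases hx : x ∈ N
    · have hm : x⁻¹ * (t : G) * x ∈ N := mul_mem (mul_mem (inv_mem hx) t.2) hx
      rw [dif_pos hm, if_pos hx, ← hψ t (⟨x, hx⟩ : N)⁻¹]
      congr 1
      apply Subtype.ext
      simp
    · rw [if_neg hx]
      split_ifs with hm
      · refine hψT ⟨_, hm⟩ fun hT => ht1 (Subtype.ext ?_)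
        refine hTI x⁻¹ (fun h => hx (inv_mem_iff.1 h)) _ htT ?_
        rwa [inv_inv]
      · rfl
  rw [Finset.sum_congr rfl fun x _ => key x]
  simp only [Finset.sum_ite, Finset.sum_const_zero, add_zero, Finset.sum_const, nsmul_eq_mul]
  rw [← mul_assoc]
  have : (Finset.univ.filter fun x : G => x ∈ N).card = Nat.card N := by
    rw [Nat.card_eq_fintype_card, Fintype.card_subtype]
  rw [this, inv_mul_cancel₀ (by exact_mod_cast Nat.card_pos.ne'), one_mul]

end Cfsg.Agent.S0149
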