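import Cfsg.Statements.S0153
import Mathlib
import Cfsg.Agent.Lib.Chars.Rep

set_option autoImplicit false
open Cfsg

namespace Cfsg.Agent.S0153

universe uG v w
open CfsgLib.Chars Module

theorem exists_compl_inv {G : Type uG} [Group G] [Finite G] {V : Type v} [AddCommGroup V] [Module ℂ V]
    [FiniteDimensional ℂ V] (ρ : Representation ℂ G V) (S : Submodule ℂ V)
    (hS : ∀ g : G, ∀ v ∈ S, ρ g v ∈ S) :
    ∃ C : Submodule ℂ V, (∀ g : G, ∀ v ∈ C, ρ g v ∈ C) ∧ IsCompl S C := by
  haveI := neZero_natCard G
  haveI : Representation.IsSemisimpleRepresentation ρ := inferInstance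
  obtain ⟨C, hC⟩ := exists_isCompl (⟨S, fun g v hv => hS g v hv⟩ : Subrepresentation ρ)
  refine ⟨C.toSubmodule, fun g v hv => C.apply_mem_toSubmodule g hv, ?_, ?_⟩
  · rw [disjoint_iff]
    exact congrArg Subrepresentation.toSubmodule hC.inf_eq_bot
  · rw [codisjoint_iff]
    exact congrArg Subrepresentation.toSubmodule hC.sup_eq_top

theorem finrank_hom_congr {G : Type uG} [Group G] [Finite G] {U : Type*} [AddCommGroup U] [Module ℂ U] [FiniteDimensional ℂ U]
    {V : Type v} [AddCommGroup V] [Module ℂ V] [FiniteDimensional ℂ V]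
    {W : Type w} [AddCommGroup W] [Module ℂ W] [FiniteDimensional ℂ W]
    (τ : Representation ℂ G U) (ρ : Representation ℂ G V) (σ : Representation ℂ G W)
    (h : ρ.character = σ.character) :
    finrank ℂ (Representation.IntertwiningMap τ ρ) = finrank ℂ (Representation.IntertwiningMap τ σ) := by
  letI := Fintype.ofFinite G
  haveI := neZero_natCard G
  letI : Invertible (Nat.card G : ℂ) := invertibleOfNonzero (NeZero.ne _)
  have h1 := Representation.card_inv_mul_sum_char_mul_char_eq_finrank τ ρ
  have h2 := Representation.card_inv_mul_sum_char_mul_char_eq_finrank τ σ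
  rw [h, h2] at h1
  exact_mod_cast h1.symm

theorem equiv_aux {G : Type uG} [Group G] [Finite G] (n : ℕ) :
    ∀ {V : Type v} {W : Type w} [AddCommGroup V] [Module ℂ V] [FiniteDimensional ℂ V]
      [AddCommGroup W] [Module ℂ W] [FiniteDimensional ℂ W]
      (ρ : Representation ℂ G V) (σ : Representation ℂ G W),
      finrank ℂ V = n → ρ.character = σ.character → Nonempty (ρ.Equiv σ) := by
  induction n using Nat.strong_induction_on with
  | _ n ih =>
  intro V W _ _ _ _ _ _ ρ σ hn h
  classical
  rcases subsingleton_or_nontrivial V with hs | hne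
  · have h1 : (finrank ℂ W : ℂ) = (finrank ℂ V : ℂ) := by rw [← ρ.char_one, ← σ.char_one, h]
    rw [finrank_zero_of_subsingleton (M := V), Nat.cast_zero, Nat.cast_eq_zero] at h1
    haveI : Subsingleton W := Module.finrank_zero_iff.1 h1
    exact ⟨Representation.Equiv.mk (LinearEquiv.ofSubsingleton V W) fun g => LinearMap.ext fun v => Subsingleton.elim _ _⟩
  · have hex : ∃ k, ∃ S : Submodule ℂ V, (∀ g : G, ∀ v ∈ S, ρ g v ∈ S) ∧ S ≠ ⊥ ∧ finrank ℂ S = k :=
      ⟨_, ⊤, fun _ _ _ => Submodule.mem_top, top_ne_bot, rfl⟩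
    obtain ⟨S, hS, hSb, hSk⟩ := Nat.find_spec hex
    let τ := subRep ρ S hS
    let incl : Representation.IntertwiningMap τ ρ := ⟨S.subtype, fun g => rfl⟩
    have hincl : incl ≠ 0 := fun h0 => hSb (by
      rw [eq_bot_iff]; intro v hv
      rw [Submodule.mem_bot]
      exact congrArg (fun f : Representation.IntertwiningMap τ ρ => f ⟨v, hv⟩) h0)
    haveI : FiniteDimensional ℂ (Representation.IntertwiningMap τ ρ) :=
      (Representation.invariantsEquivIntertwiningMap τ ρ).finiteDimensional
    have hpos : 0 < finrank ℂ (Representation.IntertwiningMap τ σ) := by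
      rw [← finrank_hom_congr τ ρ σ h]
      exact Module.finrank_pos_iff_exists_ne_zero.2 ⟨incl, hincl⟩
    haveI : FiniteDimensional ℂ (Representation.IntertwiningMap τ σ) :=
      (Representation.invariantsEquivIntertwiningMap τ σ).finiteDimensional
    obtain ⟨f, hf⟩ := Module.finrank_pos_iff_exists_ne_zero.1 hpos
    have hker : LinearMap.ker f.toLinearMap = ⊥ := by
      by_contra hk
      let K : Submodule ℂ V := (LinearMap.ker f.toLinearMap).map S.subtype
      have hK : ∀ g : G, ∀ v ∈ K, ρ g v ∈ K := by
        rintro g _ ⟨a, ha, rfl⟩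
        refine ⟨τ g a, ?_, rfl⟩
        rw [SetLike.mem_coe, LinearMap.mem_ker] at ha ⊢
        rw [Representation.IntertwiningMap.toLinearMap_apply, Representation.IntertwiningMap.isIntertwining]
        rw [Representation.IntertwiningMap.toLinearMap_apply] at ha
        rw [ha, map_zero]
      have hKb : K ≠ ⊥ := fun hb => hk (Submodule.map_injective_of_injective S.injective_subtype (hb.trans (Submodule.map_bot _).symm))
      have hle : finrank ℂ S ≤ finrank ℂ K := hSk ▸ Nat.find_min' hex ⟨K, hK, hKb, rfl⟩
      rw [← (Submodule.equivMapOfInjective S.subtype S.injective_subtype _).finrank_eq] at hle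
      have : LinearMap.ker f.toLinearMap = ⊤ :=
        Submodule.eq_top_of_finrank_eq (le_antisymm (Submodule.finrank_le _) hle)
      exact hf (Representation.IntertwiningMap.toLinearMap_injective _ _ (LinearMap.ker_eq_top.1 this))
    let T : Submodule ℂ W := LinearMap.range f.toLinearMap
    have hT : ∀ g : G, ∀ v ∈ T, σ g v ∈ T := by
      rintro g _ ⟨a, rfl⟩
      exact ⟨τ g a, by simp [Representation.IntertwiningMap.toLinearMap_apply, Representation.IntertwiningMap.isIntertwining]⟩
    let e₁ : S ≃ₗ[ℂ] T := LinearEquiv.ofInjective f.toLinearMap (LinearMap.ker_eq_bot.1 hker)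
    have he₁ : ∀ g (a : S), e₁ (τ g a) = subRep σ T hT g (e₁ a) := fun g a =>
      Subtype.ext (Representation.IntertwiningMap.isIntertwining _ _ f g a)
    have hST : τ.character = (subRep σ T hT).character :=
      Representation.char_iso (Representation.Equiv.mk e₁ fun g => LinearMap.ext fun a => he₁ g a)
    obtain ⟨S', hS', hc⟩ := exists_compl_inv ρ S hS
    obtain ⟨T', hT', hc'⟩ := exists_compl_inv σ T hT
    have hchar : (subRep ρ S' hS').character = (subRep σ T' hT').character := by
      have a1 := character_eq_add_of_isCompl ρ S S' hS hS' hc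
      have a2 := character_eq_add_of_isCompl σ T T' hT hT' hc'
      rw [h, a2, ← hST] at a1
      exact (add_left_cancel a1).symm
    have hlt : finrank ℂ S' < n := by
      rw [← hn]
      refine Submodule.finrank_lt fun ht => hSb ?_
      have := hc.inf_eq_bot
      rwa [ht, inf_top_eq] at this
    obtain ⟨e₂⟩ := ih _ hlt (subRep ρ S' hS') (subRep σ T' hT') rfl hchar
    let eV := Submodule.prodEquivOfIsCompl S S' hc
    let eW := Submodule.prodEquivOfIsCompl T T' hc'
    let E : V ≃ₗ[ℂ] W := eV.symm ≪≫ₗ (e₁.prodCongr e₂.toLinearEquiv) ≪≫ₗ eW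
    refine ⟨Representation.Equiv.mk E fun g => LinearMap.ext fun v => ?_⟩
    obtain ⟨⟨a, b⟩, rfl⟩ := eV.surjective v
    have e3 : ρ g (eV (a, b)) = eV (subRep ρ S hS g a, subRep ρ S' hS' g b) := by
      simp [eV, Submodule.coe_prodEquivOfIsCompl', subRep_apply]
    have e4 : ∀ x, E (eV x) = eW (e₁ x.1, e₂.toLinearEquiv x.2) := fun x => by
      simp [E]
    have e5 : e₂.toLinearEquiv (subRep ρ S' hS' g b) = subRep σ T' hT' g (e₂.toLinearEquiv b) :=
      Representation.IntertwiningMap.isIntertwining _ _ e₂.toIntertwiningMap g b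
    simp only [LinearMap.comp_apply, LinearEquiv.coe_coe]
    rw [e3, e4, e4]
    simp only
    rw [e5, show subRep ρ S hS g a = τ g a from rfl, he₁]
    simp [eW, Submodule.coe_prodEquivOfIsCompl', subRep_apply]

/-- Complex representations of a finite group with equal characters are equivalent. -/
theorem result {G : Type*} [Group G] [Finite G] {V W : Type*} [AddCommGroup V] [Module ℂ V] [FiniteDimensional ℂ V] [AddCommGroup W] [Module ℂ W] [FiniteDimensional ℂ W] (ρ : Representation ℂ G V) (σ : Representation ℂ G W) (h : ρ.character = σ.character) : Nonempty (ρ.Equiv σ) := by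
  exact equiv_aux _ ρ σ rfl h

end Cfsg.Agent.S0153
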