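import Cfsg.Statements.S0156
import Mathlib
import Cfsg.Agent.Lib.Chars.Orth

set_option autoImplicit false
open Cfsg

namespace Cfsg.Agent.S0156

/-- The character of the left regular representation is the sum over the irreducible characters χ of χ 1 • χ. -/
theorem result {G : Type*} [Group G] [Fintype G] : (Representation.leftRegular ℂ G).character = ∑ᶠ χ : Cfsg.IrrCharacter G, (χ : G → ℂ) 1 • (χ : G → ℂ) := by
  classical
  rw [finsum_eq_sum_of_fintype]
  funext x
  rw [Finset.sum_apply]
  simp only [Pi.smul_apply, smul_eq_mul]
  rw [CfsgLib.Chars.sum_deg_mul x]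
  rw [Representation.character, LinearMap.trace_eq_matrix_trace ℂ (MonoidAlgebra.basis G ℂ)]
  simp only [Matrix.trace, Matrix.diag, LinearMap.toMatrix_apply]
  split_ifs with hx
  · subst hx
    simp [Nat.card_eq_fintype_card, ← MonoidAlgebra.basis_apply, Module.Basis.repr_self]
  · refine Finset.sum_eq_zero fun y _ => ?_
    have : x * y ≠ y := fun h => hx (mul_eq_right.mp h)
    simp [MonoidAlgebra.basis, this]

end Cfsg.Agent.S0156
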