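import Cfsg.Statements.S0157
import Mathlib
import Cfsg.Agent.Lib.Chars.Induced

set_option autoImplicit false
open Cfsg

namespace Cfsg.Agent.S0157

/-- For a transitive action of a finite group on a finite set with at least two points: the action is 2-transitive if and only if the function sending g to (number of fixed points of g) − 1 is an irreducible character. -/
theorem result {G : Type*} [Group G] [Finite G] (X : Type*) [MulAction G X] [Finite X] [MulAction.IsPretransitive G X] (hX : 2 ≤ Nat.card X) : Cfsg.IsIrrCharacter G (fun g => (Nat.card (MulAction.fixedBy X g) : ℂ) - 1) ↔ MulAction.IsMultiplyPretransitive G X 2 := by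
  classical
  haveI := Fintype.ofFinite G
  haveI := Fintype.ofFinite X
  let π : G → ℂ := fun g => (Nat.card (MulAction.fixedBy X g) : ℂ)
  let ρ : Representation ℂ G (X → ℂ) :=
    { toFun := fun g => LinearMap.funLeft ℂ ℂ (fun x : X => g⁻¹ • x)
      map_one' := by ext v x; simp [LinearMap.funLeft]
      map_mul' := fun a b => by ext v x; simp [LinearMap.funLeft, mul_smul] }
  have hρ : ρ.character = π := by
    funext g
    rw [Representation.character, LinearMap.trace_eq_matrix_trace ℂ (Pi.basisFun ℂ X)]
    simp only [Matrix.trace, Matrix.diag, LinearMap.toMatrix_apply, Pi.basisFun_repr, Pi.basisFun_apply]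
    simp only [ρ, MonoidHom.coe_mk, OneHom.coe_mk, LinearMap.funLeft_apply, Pi.single_apply, Finset.sum_boole]
    show _ = ((Nat.card {x : X // g • x = x}) : ℂ)
    rw [Nat.card_eq_fintype_card, Fintype.card_subtype, Nat.cast_inj]
    refine congrArg Finset.card (Finset.filter_congr fun x _ => ?_)
    rw [inv_smul_eq_iff, eq_comm]
  have hπ : Cfsg.IsCharacter G π := hρ ▸ CfsgLib.Chars.isCharacter_character ρ
  have burn : ∀ (Y : Type _) [MulAction G Y] [Finite Y],
      ∑ g : G, (Nat.card (MulAction.fixedBy Y g) : ℂ) = (Nat.card (Quotient (MulAction.orbitRel G Y)) : ℂ) * (Nat.card G : ℂ) := by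
    intro Y _ _
    haveI := Fintype.ofFinite Y
    rw [← Nat.cast_sum, ← Nat.cast_mul, Nat.cast_inj]
    simp only [Nat.card_eq_fintype_card]
    exact MulAction.sum_card_fixedBy_eq_card_orbits_mul_card_group G Y
  have hN := CfsgLib.Chars.natCast_card_ne_zero G
  haveI hne : Nonempty X := (Nat.card_pos_iff.1 (by omega)).1
  let one : Cfsg.IrrCharacter G := ⟨fun _ => 1, CfsgLib.Chars.isIrrCharacter_one G⟩
  have hπ1 : Cfsg.classInner π (one : G → ℂ) = 1 := by
    have : Nat.card (Quotient (MulAction.orbitRel G X)) = 1 := by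
      haveI : Subsingleton (Quotient (MulAction.orbitRel G X)) :=
        ⟨fun p q => Quotient.inductionOn₂ p q fun x y => Quotient.sound (MulAction.orbitRel_apply.2 (MulAction.exists_smul_eq G y x))⟩
      exact Nat.card_of_subsingleton (Quotient.mk _ (Classical.arbitrary X))
    simp only [Cfsg.classInner, one, map_one, mul_one, π]
    rw [burn X, this, Nat.cast_one, one_mul, inv_mul_cancel₀ hN]
  let Q := Quotient (MulAction.orbitRel G (X × X))
  have hππ : Cfsg.classInner π π = (Nat.card Q : ℂ) := by
    have e : ∀ g : G, π g * (starRingEnd ℂ) (π g) = (Nat.card (MulAction.fixedBy (X × X) g) : ℂ) := by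
      intro g
      simp only [π, map_natCast, ← Nat.cast_mul, ← Nat.card_prod]
      refine congrArg _ (Nat.card_congr
        { toFun := fun p => ⟨(p.1.1, p.2.1), Prod.ext p.1.2 p.2.2⟩
          invFun := fun p => (⟨p.1.1, congrArg Prod.fst p.2⟩, ⟨p.1.2, congrArg Prod.snd p.2⟩)
          left_inv := fun p => rfl
          right_inv := fun p => rfl })
    simp only [Cfsg.classInner, e]
    rw [burn (X × X), mul_comm, mul_assoc, mul_inv_cancel₀ hN, mul_one]
  let f : G → ℂ := fun g => π g - 1
  show Cfsg.IsIrrCharacter G f ↔ _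
  have hf : Cfsg.IsCharacter G f := by
    refine CfsgLib.Chars.isCharacter_of_mult (fun g h => by
      simp only [f]; rw [CfsgLib.Chars.IsCharacter.isClassFunction hπ g h]) fun χ => ?_
    obtain ⟨m, hm⟩ := CfsgLib.Chars.exists_mult hπ χ
    have h1 := CfsgLib.Chars.classInner_irr one χ
    have e : Cfsg.classInner f (χ : G → ℂ) = (m : ℂ) - if one = χ then 1 else 0 := by
      rw [← hm, ← h1]
      simp [Cfsg.classInner, f, one, sub_mul, Finset.sum_sub_distrib, mul_sub]
    by_cases h : one = χ
    · subst h
      rw [hπ1] at hm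
      exact ⟨0, by rw [e, if_pos rfl, ← hm, sub_self, Nat.cast_zero]⟩
    · exact ⟨m, by rw [e, if_neg h, sub_zero]⟩
  have hff : Cfsg.classInner f f = (Nat.card Q : ℂ) - 1 := by
    have h1 := CfsgLib.Chars.classInner_irr one one
    rw [if_pos rfl] at h1
    have h2 : Cfsg.classInner (one : G → ℂ) π = 1 := by
      rw [CfsgLib.Chars.classInner_symm, hπ1, map_one]
    calc Cfsg.classInner f f = Cfsg.classInner π π - Cfsg.classInner π (one : G → ℂ) - Cfsg.classInner (one : G → ℂ) π
          + Cfsg.classInner (one : G → ℂ) (one : G → ℂ) := by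
          simp [Cfsg.classInner, f, one, sub_mul, mul_sub, Finset.sum_sub_distrib]
          ring
      _ = (Nat.card Q : ℂ) - 1 := by rw [hππ, hπ1, h1, h2]; ring
  have hirr : Cfsg.IsIrrCharacter G f ↔ Nat.card Q = 2 := by
    constructor
    · intro h
      have h1 := CfsgLib.Chars.classInner_irr (⟨f, h⟩ : Cfsg.IrrCharacter G) ⟨f, h⟩
      rw [if_pos rfl, hff, sub_eq_iff_eq_add] at h1
      exact_mod_cast h1.trans one_add_one_eq_two
    · intro h
      refine CfsgLib.Chars.isIrrCharacter_of_norm_one hf ?_
      rw [hff, h]; norm_num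
  rw [hirr, MulAction.is_two_pretransitive_iff]
  let F : Q → Bool := Quotient.lift (fun p : X × X => decide (p.1 = p.2)) (fun p q hpq => by
    obtain ⟨g, rfl⟩ := MulAction.orbitRel_apply.1 hpq
    simp)
  have hsurj : Function.Surjective F := by
    haveI : Nontrivial X := Finite.one_lt_card_iff_nontrivial.1 (by omega)
    obtain ⟨u, v, huv⟩ := exists_pair_ne X
    intro b; cases b
    · exact ⟨Quotient.mk _ (u, v), by simp [F, huv]⟩
    · exact ⟨Quotient.mk _ (u, u), by simp [F]⟩
  have hinj : Function.Injective F ↔ Nat.card Q = 2 := by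
    constructor
    · intro h
      rw [Nat.card_eq_of_bijective F ⟨h, hsurj⟩]; simp
    · intro h
      exact ((Nat.bijective_iff_surjective_and_card F).2 ⟨hsurj, by rw [h]; simp⟩).1
  rw [← hinj]
  constructor
  · intro h a b c d hab hcd
    have := h (a₁ := Quotient.mk _ (c, d)) (a₂ := Quotient.mk _ (a, b)) (by simp [F, hab, hcd])
    obtain ⟨g, hg⟩ := MulAction.orbitRel_apply.1 (Quotient.exact this)
    exact ⟨g, congrArg Prod.fst hg, congrArg Prod.snd hg⟩
  · intro h p q
    refine Quotient.inductionOn₂ p q fun ⟨a, b⟩ ⟨c, d⟩ hpq => Quotient.sound (MulAction.orbitRel_apply.2 ?_)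
    simp only [F, Quotient.lift_mk, decide_eq_decide] at hpq
    by_cases hab : a = b
    · obtain ⟨g, hg⟩ := MulAction.exists_smul_eq G c a
      exact ⟨g, Prod.ext hg (by show g • d = b; rw [← hpq.1 hab, hg, hab])⟩
    · obtain ⟨g, hg1, hg2⟩ := h (fun e => hab (hpq.2 e)) hab
      exact ⟨g, Prod.ext hg1 hg2⟩

end Cfsg.Agent.S0157
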