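import Cfsg.Statements.S0158
import Mathlib
import Cfsg.Agent.Lib.CharExtra
import Cfsg.Agent.Lib.SymAlt

set_option autoImplicit false
open Cfsg

namespace Cfsg.Agent.S0158

/-- The Frobenius–Schur indicator of an irreducible complex representation of a finite group — the average over s of the character at s * s — is 0, 1 or −1, and it vanishes exactly when some character value is not real. -/
theorem result {G : Type*} [Group G] [Fintype G] {V : Type*} [AddCommGroup V] [Module ℂ V] [FiniteDimensional ℂ V] (ρ : Representation ℂ G V) [ρ.IsIrreducible] : ((Nat.card G : ℂ)⁻¹ * ∑ s : G, ρ.character (s * s) = 0 ∨ (Nat.card G : ℂ)⁻¹ * ∑ s : G, ρ.character (s * s) = 1 ∨ (Nat.card G : ℂ)⁻¹ * ∑ s : G, ρ.character (s * s) = -1) ∧ ((Nat.card G : ℂ)⁻¹ * ∑ s : G, ρ.character (s * s) = 0 ↔ ∃ s : G, (ρ.character s).im ≠ 0) := by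
  classical
  have hirr : Cfsg.IsIrrCharacter G ρ.character := CfsgLib.Chars.isIrrCharacter_character ρ inferInstance
  let χ : Cfsg.IrrCharacter G := ⟨_, hirr⟩
  obtain ⟨r, s, hν, hsum⟩ := CfsgLib.SymAlt.exists_sym_alt (CfsgLib.Chars.isCharacter_irr χ)
  simp only [pow_two] at hν
  change (Nat.card G : ℂ)⁻¹ * ∑ g : G, ρ.character (g * g) = (r : ℂ) - s at hν
  have hin := CfsgLib.Chars.classInner_irr χ (CfsgLib.CharExtra.conjEquiv χ)
  simp only [Cfsg.classInner, CfsgLib.CharExtra.conjEquiv_apply, Complex.conj_conj] at hin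
  rw [hin] at hsum
  rw [hν]
  by_cases hr : χ = CfsgLib.CharExtra.conjEquiv χ
  · rw [if_pos hr] at hsum
    have hrs : r + s = 1 := by exact_mod_cast hsum.symm
    have hnr : ¬ ∃ t : G, (ρ.character t).im ≠ 0 := fun ⟨t, ht⟩ =>
      ht ((CfsgLib.CharExtra.conjEquiv_eq_iff χ).1 hr.symm t)
    rcases (by omega : r = 1 ∧ s = 0 ∨ r = 0 ∧ s = 1) with ⟨rfl, rfl⟩ | ⟨rfl, rfl⟩
    · refine ⟨Or.inr (Or.inl (by simp)), iff_of_false (by simp) hnr⟩
    · refine ⟨Or.inr (Or.inr (by simp)), iff_of_false (by simp) hnr⟩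
  · rw [if_neg hr] at hsum
    have hrs : r + s = 0 := by exact_mod_cast hsum.symm
    obtain ⟨rfl, rfl⟩ : r = 0 ∧ s = 0 := by omega
    refine ⟨Or.inl (by simp), iff_of_true (by simp) ?_⟩
    by_contra hc
    push Not at hc
    exact hr ((CfsgLib.CharExtra.conjEquiv_eq_iff χ).2 hc).symm

end Cfsg.Agent.S0158
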