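import Cfsg.Statements.S0159
import Mathlib
import Cfsg.Agent.Lib.GroupB.Indicator

set_option autoImplicit false
open Cfsg

namespace Cfsg.Agent.S0159

/-- The number of solutions of s * s = 1 in a finite group equals the sum, over the irreducible characters χ, of (the average over s of χ (s * s)) times χ 1. -/
theorem result {G : Type*} [Group G] [Fintype G] : (Nat.card {s : G // s * s = 1} : ℂ) = ∑ᶠ χ : Cfsg.IrrCharacter G, ((Nat.card G : ℂ)⁻¹ * ∑ s : G, (χ : G → ℂ) (s * s)) * (χ : G → ℂ) 1 := by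
  classical
  obtain ⟨ν, hν, hsum⟩ := CfsgLib.GroupB.Indicator.exists_indicator_sum (G := G)
  rw [finsum_eq_sum_of_fintype]
  have e : Nat.card {s : G // s * s = 1} = Nat.card {x : G // x ^ 2 = 1} :=
    Nat.card_congr (Equiv.subtypeEquivRight fun x => by rw [sq])
  rw [e]
  have h2 : ((Nat.card {x : G // x ^ 2 = 1} : ℤ) : ℂ) = _ := congrArg (fun z : ℤ => (z : ℂ)) hsum
  push_cast at h2
  rw [h2]
  refine Finset.sum_congr (by ext; simp) fun χ _ => ?_
  rw [hν, CfsgLib.Chars.irr_apply_one]
  simp only [sq]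

end Cfsg.Agent.S0159
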