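import Cfsg.Statements.S0162
import Mathlib
import Cfsg.Agent.Lib.CharExtra
import Cfsg.Agent.Lib.Chars.Central

set_option autoImplicit false
open Cfsg

namespace Cfsg.Agent.S0162

/-- If a finite group has odd order, its order is congruent to its number of conjugacy classes modulo 16. -/
theorem result {G : Type*} [Group G] [Finite G] (hodd : Odd (Nat.card G)) : Nat.card G ≡ Nat.card (ConjClasses G) [MOD 16] := by
  classical
  haveI := Fintype.ofFinite G
  rw [← CfsgLib.Chars.card_irr (G := G), ← ZMod.natCast_eq_natCast_iff, ← CfsgLib.Chars.sum_deg_sq,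
    Nat.card_eq_fintype_card, ← Finset.card_univ, Finset.card_eq_sum_ones, Nat.cast_sum, Nat.cast_sum,
    ← sub_eq_zero, ← Finset.sum_sub_distrib]
  refine Finset.sum_involution (fun χ _ => CfsgLib.CharExtra.conjEquiv χ) (fun χ _ => ?_)
    (fun χ _ hne heq => hne ?_) (fun χ _ => Finset.mem_univ _) (fun χ _ => ?_)
  · have hd : Cfsg.charDegree (CfsgLib.CharExtra.conjEquiv χ : G → ℂ) = Cfsg.charDegree (χ : G → ℂ) := by
      simp only [Cfsg.charDegree, CfsgLib.CharExtra.conjEquiv_apply, Complex.conj_re]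
    obtain ⟨m, hm⟩ := Odd.of_dvd_nat hodd (CfsgLib.Chars.charDegree_dvd χ)
    obtain ⟨j, hj⟩ := Nat.even_mul_succ_self m
    rw [hd, hm]
    push_cast
    have hj' : ((m : ZMod 16)) * ((m : ZMod 16) + 1) = (j : ZMod 16) + j := by exact_mod_cast congrArg (fun z : ℕ => (z : ZMod 16)) hj
    have h16 : (16 : ZMod 16) = 0 := by decide
    linear_combination (8 : ZMod 16) * hj' + (j : ZMod 16) * h16
  · have h1 := CfsgLib.CharExtra.eq_one_of_real hodd χ ((CfsgLib.CharExtra.conjEquiv_eq_iff χ).1 heq)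
    simp [Cfsg.charDegree, h1]
  · exact CfsgLib.CharExtra.conjEquiv.left_inv χ

end Cfsg.Agent.S0162
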