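import Cfsg.Statements.S0165
import Mathlib
import Cfsg.Agent.Lib.Blocks.Orth
import Cfsg.Agent.Lib.Blocks.Local

set_option autoImplicit false
open Cfsg

namespace Cfsg.Agent.S0165

/-- If p ^ n is the exact power of the prime p dividing the order of a finite group and p ^ n divides the degree of an irreducible complex representation, then its character vanishes at every element of order divisible by p. -/
theorem result {G : Type*} [Group G] [Finite G] {V : Type*} [AddCommGroup V] [Module ℂ V] [FiniteDimensional ℂ V] (ρ : Representation ℂ G V) [ρ.IsIrreducible] (p n : ℕ) (hp : p.Prime) (hn : p ^ n ∣ Nat.card G) (hn' : ¬ p ^ (n + 1) ∣ Nat.card G) (hdeg : p ^ n ∣ Module.finrank ℂ V) (x : G) (hx : p ∣ orderOf x) : ρ.character x = 0 := by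
  classical
  haveI := Fintype.ofFinite G
  have hirr : Cfsg.IsIrrCharacter G ρ.character := CfsgLib.Chars.isIrrCharacter_character ρ inferInstance
  have hd : Cfsg.charDegree ρ.character = Module.finrank ℂ V := by
    simp [Cfsg.charDegree, Representation.char_one]
  obtain ⟨M, hM⟩ := CfsgLib.Blocks.exists_isPModular hp
  have hv : (Nat.card G).factorization p = n := by
    refine le_antisymm ?_ ((hp.pow_dvd_iff_le_factorization Nat.card_pos.ne').1 hn)
    by_contra hlt
    exact hn' ((hp.pow_dvd_iff_le_factorization Nat.card_pos.ne').2 (by omega))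
  exact (CfsgLib.Blocks.defect_zero_tfae hM (⟨_, hirr⟩ : Cfsg.IrrCharacter G)).2.1 (by rw [hd, hv]; exact hdeg) x hx

end Cfsg.Agent.S0165
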