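import Cfsg.Statements.S0166
import Cfsg.Agent.Lib.Chars.CyclotomicSplit

set_option autoImplicit false
open Cfsg

namespace Cfsg.Agent.S0166

/-- Brauer's splitting field Theorem: a complex representation of a finite group of exponent m is equivalent to a representation by matrices with entries in ℚ adjoined exp(2πi/m). -/
theorem result {G : Type*} [Group G] [Finite G] (n : ℕ) (ρ : Representation ℂ G (Fin n → ℂ)) : ∃ σ : Representation ℂ G (Fin n → ℂ), Nonempty (ρ.Equiv σ) ∧ ∀ g : G, ∀ i j : Fin n, LinearMap.toMatrix' (σ g) i j ∈ Algebra.adjoin ℚ ({Complex.exp (2 * Real.pi * Complex.I / (Monoid.exponent G : ℂ))} : Set ℂ) := by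
      classical
      letI := Fintype.ofFinite G
      set m := Monoid.exponent G with hm
      have hm0 : m ≠ 0 := Monoid.exponent_ne_zero_of_finite
      set ζ : ℂ := Complex.exp (2 * Real.pi * Complex.I / (m : ℂ)) with hζdef
      have hζ : IsPrimitiveRoot ζ m := Complex.isPrimitiveRoot_exp m hm0
      let K := IntermediateField.adjoin ℚ ({ζ} : Set ℂ)
      let ι : ↥K →+* ℂ := K.val.toRingHom
      have hsub : K.toSubalgebra = Algebra.adjoin ℚ ({ζ} : Set ℂ) := by
        refine IntermediateField.adjoin_simple_toSubalgebra_of_isAlgebraic ?_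
        exact ⟨Polynomial.X ^ m - Polynomial.C 1, (Polynomial.monic_X_pow_sub_C 1 hm0).ne_zero,
          by simp [hζ.pow_eq_one]⟩
      have hK : ∀ z : ℂ, z ^ m = 1 → z ∈ K := by
        intro z hz
        haveI : NeZero m := ⟨hm0⟩
        obtain ⟨i, -, rfl⟩ := hζ.eq_pow_of_pow_eq_one hz
        exact pow_mem (IntermediateField.mem_adjoin_simple_self ℚ ζ) i
      have hirr : ∀ χ : IrrCharacter G, CfsgLib.CyclotomicSplit.Realizable ι (χ : G → ℂ) := by
        intro χ
        have hmem := CfsgLib.BrauerInd.mem_elem_linear (CfsgLib.Chars.isCharacter_irr χ)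
        have hdiff : ∃ f₁ f₂, CfsgLib.CyclotomicSplit.Realizable ι f₁ ∧ CfsgLib.CyclotomicSplit.Realizable ι f₂ ∧
            (χ : G → ℂ) = f₁ - f₂ := by
          refine AddSubgroup.closure_induction (p := fun f _ => ∃ f₁ f₂, CfsgLib.CyclotomicSplit.Realizable ι f₁ ∧
            CfsgLib.CyclotomicSplit.Realizable ι f₂ ∧ f = f₁ - f₂) ?_ ?_ ?_ ?_ hmem
          · rintro _ ⟨⟨⟨E, lam⟩, hE⟩, rfl⟩
            have hv : ∀ e : E, (lam e : ℂ) ∈ K := fun e => hK _ (by
              rw [← Units.val_pow_eq_pow_val, ← map_pow, show e ^ m = 1 from Subtype.ext (by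
                push_cast; exact Monoid.pow_exponent_eq_one (e : G)), map_one, Units.val_one])
            let c : E →* (↥K)ˣ := MonoidHom.toHomUnits
              { toFun := fun e => (⟨(lam e : ℂ), hv e⟩ : ↥K)
                map_one' := Subtype.ext (by simp)
                map_mul' := fun a b => Subtype.ext (by simp) }
            refine ⟨indFun E (fun e => (lam e : ℂ)), 0, CfsgLib.CyclotomicSplit.realizable_of_rep ι
              (CfsgLib.CyclotomicSplit.monRep E c) (fun g => ?_), CfsgLib.CyclotomicSplit.realizable_zero ι,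
              (sub_zero _).symm⟩
            rw [CfsgLib.CyclotomicSplit.monRep_character ι E c g]
            rfl
          · exact ⟨0, 0, CfsgLib.CyclotomicSplit.realizable_zero ι, CfsgLib.CyclotomicSplit.realizable_zero ι, (sub_zero _).symm⟩
          · rintro _ _ _ _ ⟨a, b, ha, hb, rfl⟩ ⟨a', b', ha', hb', rfl⟩
            exact ⟨a + a', b + b', CfsgLib.CyclotomicSplit.realizable_add ι ha ha',
              CfsgLib.CyclotomicSplit.realizable_add ι hb hb', sub_add_sub_comm a b a' b'⟩
          · rintro _ _ ⟨a, b, ha, hb, rfl⟩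
            exact ⟨b, a, hb, ha, neg_sub a b⟩
        obtain ⟨f₁, f₂, ⟨a, σ, hσ⟩, ⟨b, τ, hτ⟩, hχ⟩ := hdiff
        obtain ⟨d, hd⟩ := CfsgLib.Chars.IsCharacter.exists_degree (CfsgLib.Chars.isCharacter_irr χ)
        have hnorm : (Nat.card G : ℂ)⁻¹ * ∑ g : G, (χ : G → ℂ) g * (χ : G → ℂ) g⁻¹ = 1 := by
          rw [CfsgLib.Chars.sum_mul_inv_irr, if_pos rfl, inv_mul_cancel₀ (by exact_mod_cast Nat.card_pos.ne')]
        exact CfsgLib.CyclotomicSplit.descent ι _ hnorm
          ⟨d, Nat.pos_of_ne_zero (fun h0 => CfsgLib.Chars.irr_one_ne_zero χ (by rw [hd, h0, Nat.cast_zero])), hd⟩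
          a σ b τ (fun g => by rw [hχ, Pi.sub_apply, hσ, hτ])
      obtain ⟨l, hl⟩ := CfsgLib.Chars.exists_list_irr (CfsgLib.Chars.isCharacter_character ρ)
      have hρ : CfsgLib.CyclotomicSplit.Realizable ι ρ.character := by
        rw [hl]
        clear hl
        induction l with
        | nil => exact CfsgLib.CyclotomicSplit.realizable_zero ι
        | cons x t ih => rw [List.map_cons, List.sum_cons]; exact CfsgLib.CyclotomicSplit.realizable_add ι (hirr x) ih
      obtain ⟨a, τ, hτ⟩ := hρ
      have han : a = n := by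
        have h1 := hτ 1
        rw [Representation.char_one, Representation.char_one, Module.finrank_fin_fun, Module.finrank_fin_fun, map_natCast] at h1
        exact_mod_cast h1.symm
      subst han
      let σ : Representation ℂ G (Fin a → ℂ) :=
        { toFun := fun g => Matrix.toLin' ((LinearMap.toMatrix' (τ g)).map ι)
          map_one' := by
            rw [map_one, LinearMap.toMatrix'_one, Matrix.map_one ι (map_zero _) (map_one _), Matrix.toLin'_one]
            rfl
          map_mul' := fun g h => by
            rw [map_mul, LinearMap.toMatrix'_mul, Matrix.map_mul, Matrix.toLin'_mul]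
            rfl }
      refine ⟨σ, Cfsg.Agent.S0153.result ρ σ (funext fun g => ?_), fun g i j => ?_⟩
      · rw [hτ g]
        show ι (LinearMap.trace _ _ (τ g)) = LinearMap.trace ℂ _ (Matrix.toLin' ((LinearMap.toMatrix' (τ g)).map ι))
        rw [Matrix.trace_toLin'_eq, LinearMap.trace_eq_matrix_trace (↥K) (Pi.basisFun (↥K) (Fin a)), Matrix.trace, Matrix.trace,
          map_sum]
        rfl
      · rw [← hsub]
        show LinearMap.toMatrix' (Matrix.toLin' ((LinearMap.toMatrix' (τ g)).map ι)) i j ∈ K
        rw [LinearMap.toMatrix'_toLin', Matrix.map_apply]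
        exact SetLike.coe_mem _

end Cfsg.Agent.S0166
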