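import Cfsg.Statements.S0167
import Mathlib
import Cfsg.Agent.Lib.Chars.Misc

set_option autoImplicit false
open Cfsg

namespace Cfsg.Agent.S0167

/-- An element g of a finite group is a commutator if and only if the sum over the irreducible characters χ of χ g / χ 1 is nonzero. -/
theorem result {G : Type*} [Group G] [Finite G] (g : G) : (∃ a b : G, g = a * b * a⁻¹ * b⁻¹) ↔ ∑ᶠ χ : Cfsg.IrrCharacter G, (χ : G → ℂ) g / (χ : G → ℂ) 1 ≠ 0 := by
  classical
  haveI := Fintype.ofFinite G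
  rw [finsum_eq_sum_of_fintype]
  have key : ∀ χ : Cfsg.IrrCharacter G, ∑ a : G, (χ : G → ℂ) (g * a) * (starRingEnd ℂ) ((χ : G → ℂ) a) =
      (Nat.card G : ℂ) * ((χ : G → ℂ) g / (χ : G → ℂ) 1) := by
    intro χ
    rw [← mul_div_assoc, ← CfsgLib.Chars.sum_mul_translate χ g, ← Equiv.sum_comp (Equiv.inv G)]
    refine Finset.sum_congr rfl fun x _ => ?_
    rw [Equiv.inv_apply, CfsgLib.Chars.IsCharacter.map_inv (CfsgLib.Chars.isCharacter_irr χ), Complex.conj_conj, mul_comm]
    congr 1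
    have h := CfsgLib.Chars.IsCharacter.isClassFunction (CfsgLib.Chars.isCharacter_irr χ) (x⁻¹ * g) x
    rw [mul_inv_cancel_left] at h
    exact h
  have hN := CfsgLib.Chars.natCast_card_ne_zero G
  have hsum : (Nat.card G : ℂ) * ∑ χ : Cfsg.IrrCharacter G, (χ : G → ℂ) g / (χ : G → ℂ) 1 =
      ((∑ a : G, if IsConj a (g * a) then Nat.card (Subgroup.centralizer ({a} : Set G)) else 0 : ℕ) : ℂ) := by
    rw [Finset.mul_sum]
    simp only [← key]
    rw [Finset.sum_comm, Nat.cast_sum]
    refine Finset.sum_congr rfl fun a _ => ?_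
    rw [CfsgLib.Chars.col_orth (g * a) a, Nat.cast_ite, Nat.cast_zero]
    split_ifs <;> rfl
  constructor
  · rintro ⟨a, b, rfl⟩ h0
    rw [h0, mul_zero, eq_comm, Nat.cast_eq_zero, Finset.sum_eq_zero_iff] at hsum
    have := hsum b (Finset.mem_univ _)
    rw [if_pos (isConj_iff.2 ⟨a, by group⟩)] at this
    exact absurd this Nat.card_pos.ne'
  · intro h0
    by_contra hne
    apply h0
    refine (mul_eq_zero.1 (hsum.trans ?_)).resolve_left hN
    rw [Nat.cast_eq_zero]
    refine Finset.sum_eq_zero fun a _ => if_neg fun hc => hne ?_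
    obtain ⟨c, hc⟩ := isConj_iff.1 hc
    exact ⟨c, a, by rw [hc]; group⟩

end Cfsg.Agent.S0167
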