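import Cfsg.Statements.S0168
import Mathlib
import Cfsg.Agent.Lib.Chars.Kernel

set_option autoImplicit false
open Cfsg

namespace Cfsg.Agent.S0168

/-- The Burnside–Brauer Theorem. Let χ be the character of a faithful complex representation of a finite group, taking m distinct values. Then every irreducible character has nonzero inner product with χ ^ i for some i < m. -/
theorem result {G : Type*} [Group G] [Fintype G] {V : Type*} [AddCommGroup V] [Module ℂ V] [FiniteDimensional ℂ V] (ρ : Representation ℂ G V) (hfaithful : Function.Injective ρ) (ψ : G → ℂ) (hψ : Cfsg.IsIrrCharacter G ψ) : ∃ i : ℕ, i < Nat.card (Set.range ρ.character) ∧ Cfsg.classInner (fun g => ρ.character g ^ i) ψ ≠ 0 := by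
  classical
  obtain ⟨v, hv⟩ : ∃ v : Finset ℂ, v = Finset.univ.image ρ.character := ⟨_, rfl⟩
  have hcard : Nat.card (Set.range ρ.character) = v.card := by
    rw [Nat.card_coe_set_eq, Set.ncard_eq_toFinset_card', hv]
    congr 1
    ext; simp
  set d := ρ.character 1
  let Q : Polynomial ℂ := ∏ a ∈ v.erase d, (Polynomial.X - Polynomial.C a)
  have hdeg : Q.natDegree < v.card := by
    rw [Polynomial.natDegree_prod_of_monic _ _ (fun a _ => Polynomial.monic_X_sub_C a)]
    simp only [Polynomial.natDegree_X_sub_C, Finset.sum_const, smul_eq_mul, mul_one]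
    exact Finset.card_erase_lt_of_mem (by rw [hv]; exact Finset.mem_image_of_mem _ (Finset.mem_univ _))
  by_contra hc
  push Not at hc
  rw [hcard] at hc
  let s : Cfsg.IrrCharacter G := ⟨ψ, hψ⟩
  have h0 : ∑ g : G, Q.eval (ρ.character g) * (starRingEnd ℂ) (ψ g) = 0 := by
    simp only [Polynomial.eval_eq_sum_range, Finset.sum_mul]
    rw [Finset.sum_comm]
    refine Finset.sum_eq_zero fun i hi => ?_
    have h1 := hc i (by have := Finset.mem_range.1 hi; omega)
    simp only [Cfsg.classInner, mul_eq_zero, inv_eq_zero, CfsgLib.Chars.natCast_card_ne_zero G, false_or] at h1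
    simp only [mul_assoc, ← Finset.mul_sum, h1, mul_zero]
  rw [Finset.sum_eq_single (1 : G)] at h0
  · have hQ : Q.eval d ≠ 0 := by
      rw [Polynomial.eval_prod, Finset.prod_ne_zero_iff]
      intro a ha
      simp only [Polynomial.eval_sub, Polynomial.eval_X, Polynomial.eval_C, sub_ne_zero]
      exact fun h => (Finset.mem_erase.1 ha).1 h.symm
    exact mul_ne_zero hQ (by rw [CfsgLib.Chars.conj_irr_one s]; exact CfsgLib.Chars.irr_one_ne_zero s) h0
  · intro g _ hg
    have hne : ρ.character g ≠ d := fun h => hg (hfaithful (by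
      rw [(CfsgLib.Chars.character_eq_degree_iff ρ g).1 h, map_one]))
    rw [Polynomial.eval_prod, Finset.prod_eq_zero (Finset.mem_erase.2 ⟨hne, by rw [hv]; exact Finset.mem_image_of_mem _ (Finset.mem_univ g)⟩) (by simp), zero_mul]
  · simp

end Cfsg.Agent.S0168
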