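import Cfsg.Statements.S0169
import Mathlib
import Cfsg.Agent.Lib.CharDegree

set_option autoImplicit false
open Cfsg

namespace Cfsg.Agent.S0169

/-- Itô's Theorem on character degrees: the degree of an irreducible complex representation of a finite group divides the index of any abelian normal subgroup. -/
theorem result {G : Type*} [Group G] [Finite G] {V : Type*} [AddCommGroup V] [Module ℂ V] [FiniteDimensional ℂ V] (ρ : Representation ℂ G V) [ρ.IsIrreducible] (H : Subgroup G) [H.Normal] (hH : ∀ a ∈ H, ∀ b ∈ H, a * b = b * a) : Module.finrank ℂ V ∣ H.index := by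
  have hirr : Cfsg.IsIrrCharacter G ρ.character :=
    CfsgLib.Chars.isIrrCharacter_character ρ inferInstance
  let χ : Cfsg.IrrCharacter G := ⟨_, hirr⟩
  have hd : Cfsg.charDegree (χ : G → ℂ) = Module.finrank ℂ V := by
    show Cfsg.charDegree ρ.character = _
    simp [Cfsg.charDegree, Representation.char_one]
  rw [← hd]
  classical
  haveI := Fintype.ofFinite G
  haveI : Fintype H := Fintype.ofFinite H
  obtain ⟨θ, hθ⟩ := CfsgLib.Chars.exists_res_constituent H χ
  obtain ⟨T, e, hHT, -, hdeg, hdvd⟩ := CfsgLib.CharDegree.exists_inertia H θ χ hθ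
  have hc : Subgroup.center H = ⊤ := eq_top_iff.2 fun a _ => Subgroup.mem_center_iff.2 fun b => Subtype.ext (hH b b.2 a a.2)
  obtain ⟨lam, hlam⟩ := CfsgLib.CharDegree.exists_central_hom θ (⊤ : Subgroup H) (hc ▸ le_rfl)
  have h1 := CfsgLib.CharExtend.dvd_index_of_scalar θ ⊤ lam hlam
  rw [Subgroup.index_top, Nat.dvd_one] at h1
  rw [hdeg, h1, mul_one, ← Subgroup.relIndex_mul_index hHT, mul_comm]
  exact Nat.mul_dvd_mul_right hdvd _

end Cfsg.Agent.S0169
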