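import Cfsg.Statements.S0170
import Mathlib
import Cfsg.Agent.Lib.TIInduce
import Cfsg.Agent.Lib.Virtual
import Cfsg.Agent.S0198

set_option autoImplicit false
open Cfsg

open Cfsg CfsgLib.Chars CfsgLib.Virtual

namespace Cfsg.Agent.S0170

/-- Exceptional characters. Let S be a subset of a finite group contained in its normalizer N and meeting its conjugates by elements outside N only in the identity. Given n ≥ 2 distinct irreducible characters of N of equal degree that vanish on N away from S, there exist a sign ε and n distinct irreducible characters θ_i of G such that inducing χ_i − χ_j to G gives ε (θ_i − θ_j) for all i, j. -/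
theorem result {G : Type*} [Group G] [Fintype G] (S : Set G) (hSN : S ⊆ Subgroup.normalizer S) (hTI : ∀ g : G, g ∉ Subgroup.normalizer S → ∀ s ∈ S, g * s * g⁻¹ ∈ S → s = 1) (n : ℕ) (hn : 2 ≤ n) (χ : Fin n → (Subgroup.normalizer S → ℂ)) (hirr : ∀ i, Cfsg.IsIrrCharacter (Subgroup.normalizer S) (χ i)) (hinj : Function.Injective χ) (hvan : ∀ i, ∀ x : Subgroup.normalizer S, (x : G) ∉ S → χ i x = 0) (hdeg : ∀ i j, χ i 1 = χ j 1) : ∃ ε : ℂ, (ε = 1 ∨ ε = -1) ∧ ∃ θ : Fin n → (G → ℂ), (∀ i, Cfsg.IsIrrCharacter G (θ i)) ∧ Function.Injective θ ∧ ∀ i j, Cfsg.indFun (Subgroup.normalizer S) (χ i) - Cfsg.indFun (Subgroup.normalizer S) (χ j) = ε • (θ i - θ j) := by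
  classical
  letI := Fintype.ofFinite ↥(Subgroup.normalizer S)
  let i0 : Fin n := ⟨0, by omega⟩
  set a : Fin n → ((Subgroup.normalizer S) → ℂ) := fun i => χ i - χ i0 with ha
  set τ : Fin n → (G → ℂ) := fun i => indFun (Subgroup.normalizer S) (χ i) - indFun (Subgroup.normalizer S) (χ i0) with hτ
  have hlin : ∀ i, τ i = indFun (Subgroup.normalizer S) (a i) := fun i => by
    funext g
    simp only [hτ, ha, Pi.sub_apply, indFun, ← mul_sub, ← Finset.sum_sub_distrib, extendByZero_apply]
    refine congrArg _ (Finset.sum_congr rfl fun x _ => ?_)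
    split_ifs <;> simp
  have hacl : ∀ i, IsClassFunction (Subgroup.normalizer S) (a i) := fun i x y => by
    simp only [ha, Pi.sub_apply, IsCharacter.isClassFunction (IsIrrCharacter.isCharacter (hirr i)) x y,
      IsCharacter.isClassFunction (IsIrrCharacter.isCharacter (hirr i0)) x y]
  have hch : ∀ i, IsCharacter (Subgroup.normalizer S) (χ i) := fun i => IsIrrCharacter.isCharacter (hirr i)
  have hinner : ∀ i j, classInner (χ i) (χ j) = if i = j then 1 else 0 := fun i j => by
    have := classInner_irr (⟨χ i, hirr i⟩ : IrrCharacter (Subgroup.normalizer S)) ⟨χ j, hirr j⟩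
    by_cases e : i = j
    · subst e; simpa using this
    · rw [if_neg e]; rw [if_neg fun h => e (hinj (congrArg Subtype.val h))] at this; exact this
  obtain ⟨ε, hε, μ, hμ, hμinj, hμτ⟩ := Cfsg.Agent.S0198.result n i0 τ (by simp [hτ])
    (fun i => genChar_sub (genChar_of_char (IsCharacter.indFun (Subgroup.normalizer S) (hch i))) (genChar_of_char (IsCharacter.indFun (Subgroup.normalizer S) (hch i0))))
    (fun i => by simp only [hτ, Pi.sub_apply, indFun_one, hdeg i i0, sub_self])
    (fun i j hi hj => by
      rw [hlin i, hlin j, CfsgLib.Chars.frobenius (Subgroup.normalizer S) (a i) (indFun_isClassFunction _ _),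
        show classInner (a i) (fun h : (Subgroup.normalizer S) => indFun (Subgroup.normalizer S) (a j) h) = classInner (a i) (a j) by
          simp only [classInner]
          refine congrArg _ (Finset.sum_congr rfl fun x _ => ?_)
          by_cases hx : (x : G) ∈ S
          · by_cases hx1 : (x : G) = 1
            · rw [show x = 1 from Subtype.ext hx1]; simp [ha, hdeg i i0]
            · rw [CfsgLib.TIInduce.indFun_eq (Subgroup.normalizer S) S hTI (a j) (hacl j) (fun y hy => by simp [ha, hvan _ y hy]) x hx hx1]
          · simp [ha, hvan _ x hx]]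
      simp only [ha, ci_sub_left, ci_sub_right, hinner, if_pos, if_neg hi, if_neg (Ne.symm hj)]
      by_cases e : i = j <;> simp [e] <;> norm_num)
  refine ⟨ε, hε, μ, hμ, hμinj, fun i j => ?_⟩
  have h1 := hμτ i
  have h2 := hμτ j
  simp only [hτ] at h1 h2
  rw [show indFun (Subgroup.normalizer S) (χ i) - indFun (Subgroup.normalizer S) (χ j) = (indFun (Subgroup.normalizer S) (χ i) - indFun (Subgroup.normalizer S) (χ i0)) - (indFun (Subgroup.normalizer S) (χ j) - indFun (Subgroup.normalizer S) (χ i0)) by abel,
    h1, h2, ← smul_sub, sub_sub_sub_cancel_right]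

end Cfsg.Agent.S0170
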