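import Cfsg.Statements.S0171
import Mathlib
import Cfsg.Agent.Lib.CharExtra
import Cfsg.Agent.Lib.FixedIrr
import Cfsg.Agent.Lib.GroupB.FrobBasic

set_option autoImplicit false
open Cfsg

namespace Cfsg.Agent.S0171

/-- Let G = K H with K normal, K ⊓ H trivial, and no non-identity element of H commuting with a non-identity element of K (a Frobenius group with kernel K and complement H). Then every non-principal irreducible character of K induces to an irreducible character of G. -/
theorem result {G : Type*} [Group G] [Fintype G] (K H : Subgroup G) [K.Normal] (hKH : K ⊓ H = ⊥) (hKH' : K ⊔ H = ⊤) (hfpf : ∀ h ∈ H, h ≠ 1 → ∀ k ∈ K, h * k = k * h → k = 1) (τ : K → ℂ) (hτ : Cfsg.IsIrrCharacter K τ) (hτ1 : τ ≠ fun _ => 1) : Cfsg.IsIrrCharacter G (Cfsg.indFun K τ) := by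
  classical
  let t : Cfsg.IrrCharacter K := ⟨τ, hτ⟩
  have hc : Subgroup.IsComplement' K H :=
    Subgroup.isComplement'_of_disjoint_and_mul_eq_univ (disjoint_iff.2 hKH)
      (by rw [← Subgroup.normal_mul, hKH', Subgroup.coe_top])
  have hC : ∀ n ∈ K, n ≠ 1 → Subgroup.centralizer ({n} : Set G) ≤ K := by
    intro n hn hn1 x hx
    by_contra hxK
    have hKb : K ≠ ⊥ := fun h => hn1 (by rwa [h, Subgroup.mem_bot] at hn)
    have hHb : H ≠ ⊥ := fun h => hxK (by
      rw [h, sup_bot_eq] at hKH'
      rw [hKH']; exact Subgroup.mem_top x)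
    obtain ⟨g, hg⟩ := CfsgLib.GroupB.FrobBasic.exists_conj_mem
      (CfsgLib.GroupB.FrobBasic.isFrobeniusComplement_of_fpf K hc hKb hHb hfpf) K hc hxK
    have hx1 : g⁻¹ * x * g ≠ 1 := fun h => hxK (by
      have : x = 1 := by
        have := congrArg (fun t => g * t * g⁻¹) h
        simpa [mul_assoc] using this
      rw [this]; exact K.one_mem)
    have hxn : x * n = n * x := Subgroup.mem_centralizer_singleton_iff.1 hx
    have h1 := hfpf _ hg hx1 (g⁻¹ * n * g) (by simpa using (inferInstance : K.Normal).conj_mem n hn g⁻¹)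
      (by calc g⁻¹ * x * g * (g⁻¹ * n * g) = g⁻¹ * (x * n) * g := by group
            _ = g⁻¹ * n * g * (g⁻¹ * x * g) := by rw [hxn]; group)
    exact hn1 (by
      have := congrArg (fun t => g * t * g⁻¹) h1
      simpa [mul_assoc] using this)
  refine CfsgLib.Chars.isIrrCharacter_of_norm_one (CfsgLib.Chars.IsCharacter.indFun K (CfsgLib.Chars.isCharacter_irr t)) ?_
  have hN : (Nat.card K : ℂ) ≠ 0 := Nat.cast_ne_zero.2 Nat.card_pos.ne'
  refine mul_left_cancel₀ hN ?_
  rw [mul_one, CfsgLib.CharExtra.card_mul_inner_ind K t t]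
  refine congrArg _ (Nat.card_congr (Equiv.subtypeEquivRight fun x => ?_))
  constructor
  · intro hfix
    by_contra hxK
    refine hτ1 (CfsgLib.FixedIrr.eq_one_of_fixed K (x := x) (fun h k hh heq => hxK ?_) hfix)
    have h1 : (k : G)⁻¹ * x ∈ K := hC (h : G) h.2 (fun e => hh (Subtype.ext e))
      (Subgroup.mem_centralizer_singleton_iff.2 (by
        calc (k : G)⁻¹ * x * h = (k : G)⁻¹ * (x * h * x⁻¹) * x := by group
          _ = (k : G)⁻¹ * (k * h * (k : G)⁻¹) * x := by rw [heq]
          _ = h * ((k : G)⁻¹ * x) := by group))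
    simpa using K.mul_mem k.2 h1
  · intro hx
    exact Subtype.ext (funext fun h => (CfsgLib.Chars.conjIrr_apply' K t x h).trans
      (CfsgLib.Chars.IsCharacter.isClassFunction (CfsgLib.Chars.isCharacter_irr t) h ⟨x, hx⟩))

end Cfsg.Agent.S0171
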