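import Cfsg.Statements.S0172
import Mathlib

set_option autoImplicit false
open Cfsg

namespace Cfsg.Agent.S0172

/-- Class number of a Frobenius group: if G = K H with K normal, K ⊓ H trivial and no non-identity element of H commuting with a non-identity element of K, then |H| * k(G) + 1 = |H| * k(H) + k(K), where k denotes the number of conjugacy classes. -/
theorem result {G : Type*} [Group G] [Finite G] (K H : Subgroup G) [K.Normal] (hKH : K ⊓ H = ⊥) (hKH' : K ⊔ H = ⊤) (hfpf : ∀ h ∈ H, h ≠ 1 → ∀ k ∈ K, h * k = k * h → k = 1) : Nat.card H * Nat.card (ConjClasses G) + 1 = Nat.card H * Nat.card (ConjClasses H) + Nat.card (ConjClasses K) := by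
  classical
  letI := Fintype.ofFinite G
  have hcompl : K.IsComplement' H := Subgroup.isComplement'_of_disjoint_and_mul_eq_univ (disjoint_iff.2 hKH) (by rw [← Subgroup.normal_mul, hKH', Subgroup.coe_top])
  have hdec : ∀ g : G, ∃! kh : K × H, (kh.1 : G) * kh.2 = g := hcompl.existsUnique
  have huniq : ∀ (k k' h h' : G), k ∈ K → k' ∈ K → h ∈ H → h' ∈ H → k * h = k' * h' → h = h' := by
    intro k k' h h' hk hk' hh hh' e
    have := (hdec (k * h)).unique (y₁ := (⟨k, hk⟩, ⟨h, hh⟩)) (y₂ := (⟨k', hk'⟩, ⟨h', hh'⟩)) rfl e.symm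
    simp only [Prod.mk.injEq, Subtype.mk.injEq] at this
    exact this.2
  have hcK : ∀ h ∈ H, h ≠ 1 → ∀ k ∈ K, k * h = h * k → k = 1 := fun h hh h1 k hk hc => hfpf h hh h1 k hk hc.symm
  have hcj : ∀ (a h : G), a ∈ K → h * a * h⁻¹ ∈ K := fun a h ha => Subgroup.Normal.conj_mem inferInstance _ ha h
  -- the bijection K × H# ≃ G \ K
  have hinj : ∀ a b h h' : G, a ∈ K → b ∈ K → h ∈ H → h' ∈ H → h ≠ 1 → a * h * a⁻¹ = b * h' * b⁻¹ → a = b ∧ h = h' := by
    intro a b h h' ha hb hh hh' h1 e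
    have e1 : a * (h * a⁻¹ * h⁻¹) * h = b * (h' * b⁻¹ * h'⁻¹) * h' := by
      calc a * (h * a⁻¹ * h⁻¹) * h = a * h * a⁻¹ := by group
        _ = b * h' * b⁻¹ := e
        _ = _ := by group
    have e2 := huniq _ _ _ _ (mul_mem ha (hcj _ _ (inv_mem ha))) (mul_mem hb (hcj _ _ (inv_mem hb))) hh hh' e1
    subst e2
    refine ⟨?_, rfl⟩
    have := hcK h hh h1 (b⁻¹ * a) (mul_mem (inv_mem hb) ha) (by
      calc b⁻¹ * a * h = b⁻¹ * (a * h * a⁻¹) * a := by group
        _ = b⁻¹ * (b * h * b⁻¹) * a := by rw [e]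
        _ = _ := by group)
    exact (inv_mul_eq_one.1 this).symm
  have hsurj : ∀ y : G, y ∉ K → ∃ a : K, ∃ h : H, h ≠ 1 ∧ (a : G) * h * (a : G)⁻¹ = y := by
    intro y hy
    obtain ⟨⟨k, h⟩, rfl, -⟩ := hdec y
    have h1 : h ≠ 1 := fun h1 => hy (by simp [h1])
    let ψ : K → K := fun a => ⟨(a : G) * ((h : G) * (a : G)⁻¹ * (h : G)⁻¹), mul_mem a.2 (hcj _ _ (inv_mem a.2))⟩
    have hψ : Function.Injective ψ := fun a b e => by
      have e' : (a : G) * ((h : G) * (a : G)⁻¹ * (h : G)⁻¹) = (b : G) * ((h : G) * (b : G)⁻¹ * (h : G)⁻¹) := congrArg Subtype.val e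
      refine Subtype.ext (hinj a b h h a.2 b.2 h.2 h.2 (fun e => h1 (Subtype.ext e)) ?_).1
      calc (a : G) * h * (a : G)⁻¹ = (a : G) * ((h : G) * (a : G)⁻¹ * (h : G)⁻¹) * h := by group
        _ = (b : G) * ((h : G) * (b : G)⁻¹ * (h : G)⁻¹) * h := by rw [e']
        _ = _ := by group
    obtain ⟨a, ha⟩ := Finite.injective_iff_surjective.1 hψ k
    refine ⟨a, h, h1, ?_⟩
    rw [← ha]
    simp only [ψ]
    group
  have hnotK : ∀ (a : K) (h : H), h ≠ 1 → (a : G) * h * (a : G)⁻¹ ∉ K := fun a h h1 hm => by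
    have h2 : (h : G) ∈ K := by simpa [mul_assoc] using hcj _ (a : G)⁻¹ hm
    have h3 : (h : G) ∈ K ⊓ H := ⟨h2, h.2⟩
    rw [hKH, Subgroup.mem_bot] at h3
    exact h1 (Subtype.ext h3)
  let cnt : G → ℕ := fun x => Nat.card {y : G // Commute x y}
  have hconjcnt : ∀ a x : G, cnt (a * x * a⁻¹) = cnt x := fun a x => by
    refine (Nat.card_congr (Equiv.subtypeEquiv (MulAut.conj a).toEquiv fun y => ?_)).symm
    exact (commute_map_iff (MulAut.conj a).injective).symm
  have hK1 : ∀ x : K, x ≠ 1 → cnt x = Nat.card {y : K // Commute x y} := fun x hx => by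
    have hmem : ∀ y : G, Commute (x : G) y → y ∈ K := fun y hy => by
      by_contra hyK
      obtain ⟨a, h, h1, rfl⟩ := hsurj y hyK
      have hc := hcK h h.2 (fun e => h1 (Subtype.ext e)) ((a : G)⁻¹ * x * a) (by simpa using hcj _ (a : G)⁻¹ x.2) (by
        calc (a : G)⁻¹ * x * a * h = (a : G)⁻¹ * (x * ((a : G) * h * (a : G)⁻¹)) * a := by group
          _ = (a : G)⁻¹ * (((a : G) * h * (a : G)⁻¹) * x) * a := by rw [hy.eq]
          _ = _ := by group)
      refine hx (Subtype.ext ?_)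
      have : (x : G) = a * ((a : G)⁻¹ * x * a) * (a : G)⁻¹ := by group
      rw [this, hc]; simp
    exact Nat.card_congr
      { toFun := fun y => ⟨⟨y.1, hmem _ y.2⟩, Subtype.ext y.2⟩
        invFun := fun y => ⟨y.1, congrArg Subtype.val y.2⟩
        left_inv := fun _ => rfl
        right_inv := fun _ => rfl }
  have hH1 : ∀ h : H, h ≠ 1 → cnt h = Nat.card {y : H // Commute h y} := fun h h1 => by
    have hmem : ∀ y : G, Commute (h : G) y → y ∈ H := fun y hy => by
      obtain ⟨⟨k, h'⟩, rfl, -⟩ := hdec y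
      have e : (k : G) * ((h' : G) * h) = ((h : G) * k * (h : G)⁻¹) * ((h : G) * h') := by
        calc (k : G) * ((h' : G) * h) = (k : G) * h' * h := by group
          _ = h * ((k : G) * h') := hy.eq.symm
          _ = _ := by group
      have e2 := huniq _ _ _ _ k.2 (hcj _ _ k.2) (mul_mem h'.2 h.2) (mul_mem h.2 h'.2) e
      rw [e2, mul_left_inj] at e
      have := hcK h h.2 (fun e => h1 (Subtype.ext e)) k k.2 (mul_inv_eq_iff_eq_mul.1 e.symm).symm
      simp [this]
    exact Nat.card_congr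
      { toFun := fun y => ⟨⟨y.1, hmem _ y.2⟩, Subtype.ext y.2⟩
        invFun := fun y => ⟨y.1, congrArg Subtype.val y.2⟩
        left_inv := fun _ => rfl
        right_inv := fun _ => rfl }
  have hone : ∀ (M : Type _) [Group M] [Finite M], Nat.card {y : M // Commute 1 y} = Nat.card M := fun M _ _ =>
    Nat.card_congr (Equiv.subtypeUnivEquiv fun y => Commute.one_left y)
  have pairs : ∀ (M : Type _) [Group M] [Fintype M], ∑ x : M, Nat.card {y : M // Commute x y} = Nat.card (ConjClasses M) * Nat.card M := fun M _ _ => by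
    rw [← card_comm_eq_card_conjClasses_mul_card, Nat.card_congr (Equiv.subtypeProdEquivSigmaSubtype fun x y : M => Commute x y), Nat.card_sigma]
  have pG : ∑ x : G, cnt x = Nat.card (ConjClasses G) * Nat.card G := pairs G
  have pK := pairs K
  have pH := pairs H
  have split : ∑ x : G, cnt x = ∑ x : K, cnt x + ∑ y : {y : G // y ∉ K}, cnt y :=
    (Fintype.sum_subtype_add_sum_subtype (fun y : G => y ∈ K) cnt).symm
  have eOut : ∑ y : {y : G // y ∉ K}, cnt y = ∑ z : K × {h : H // h ≠ 1}, cnt (z.2.1 : G) := by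
    refine (Fintype.sum_equiv (Equiv.ofBijective (fun z : K × {h : H // h ≠ 1} => (⟨(z.1 : G) * z.2.1 * (z.1 : G)⁻¹, hnotK _ _ z.2.2⟩ : {y : G // y ∉ K})) ⟨?_, ?_⟩) _ _ fun z => (hconjcnt _ _).symm).symm
    · rintro ⟨a, h, h1⟩ ⟨b, h', h1'⟩ e
      obtain ⟨r1, r2⟩ := hinj a b h h' a.2 b.2 h.2 h'.2 (fun e => h1 (Subtype.ext e)) (congrArg Subtype.val e)
      exact Prod.ext (Subtype.ext r1) (Subtype.ext (Subtype.ext r2))
    · rintro ⟨y, hy⟩
      obtain ⟨a, h, h1, e⟩ := hsurj y hy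
      exact ⟨(a, ⟨h, h1⟩), Subtype.ext e⟩
  have eH : ∑ h : H, Nat.card {y : H // Commute h y} = Nat.card H + ∑ h : {h : H // h ≠ 1}, cnt (h.1 : G) := by
    rw [← Finset.add_sum_erase Finset.univ _ (Finset.mem_univ (1 : H)), hone H]
    congr 1
    rw [Finset.sum_subtype (Finset.univ.erase (1 : H)) (p := fun h => h ≠ 1) (by simp)]
    exact Finset.sum_congr rfl fun h _ => (hH1 h.1 h.2).symm
  have eK : ∑ x : K, cnt x + Nat.card K = ∑ x : K, Nat.card {y : K // Commute x y} + Nat.card G := by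
    rw [← Finset.add_sum_erase Finset.univ _ (Finset.mem_univ (1 : K)), ← Finset.add_sum_erase Finset.univ (fun x : K => Nat.card {y : K // Commute x y}) (Finset.mem_univ (1 : K)), hone K]
    rw [show cnt ((1 : K) : G) = Nat.card G from hone G,
      Finset.sum_congr rfl (fun x hx => hK1 x (Finset.mem_erase.1 hx).1)]
    omega
  rw [Fintype.sum_prod_type] at eOut
  simp only [Finset.sum_const, Finset.card_univ, smul_eq_mul, ← Nat.card_eq_fintype_card] at eOut
  have hcard : Nat.card K * Nat.card H = Nat.card G := hcompl.card_mul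
  set S := ∑ h : {h : H // h ≠ 1}, cnt (h.1 : G)
  have main : Nat.card (ConjClasses G) * Nat.card G + Nat.card K = Nat.card (ConjClasses K) * Nat.card K + Nat.card G + Nat.card K * S := by
    rw [← pG, split, eOut, ← pK]; omega
  have hS : Nat.card H + S = Nat.card (ConjClasses H) * Nat.card H := by rw [← eH, pH]
  have hpos : 0 < Nat.card K := Nat.card_pos
  refine Nat.eq_of_mul_eq_mul_left hpos ?_
  rw [← hcard] at main
  nlinarith [main, hS]

end Cfsg.Agent.S0172
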