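import Cfsg.Statements.S0173
import Mathlib
import Cfsg.Agent.Lib.CharExtra

set_option autoImplicit false
open Cfsg

namespace Cfsg.Agent.S0173

/-- Brauer's permutation lemma for a single automorphism: the number of conjugacy classes mapped to themselves equals the number of irreducible complex characters χ with χ ∘ α = χ. -/
theorem result {G : Type*} [Group G] [Finite G] (α : G ≃* G) : Nat.card {C : ConjClasses G // ConjClasses.map α.toMonoidHom C = C} = Nat.card {χ : Cfsg.IrrCharacter G // (χ : G → ℂ) ∘ α = (χ : G → ℂ)} := by
  classical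
  haveI := Fintype.ofFinite G
  let e : Cfsg.IrrCharacter G ≃ Cfsg.IrrCharacter G :=
    { toFun := fun χ => ⟨fun g => (χ : G → ℂ) (α.symm g), CfsgLib.Chars.IsIrrCharacter.comp χ.2 α.symm.toMonoidHom α.symm.surjective⟩
      invFun := fun χ => ⟨fun g => (χ : G → ℂ) (α g), CfsgLib.Chars.IsIrrCharacter.comp χ.2 α.toMonoidHom α.surjective⟩
      left_inv := fun χ => Subtype.ext (funext fun g => by simp)
      right_inv := fun χ => Subtype.ext (funext fun g => by simp) }
  have h := CfsgLib.Chars.brauer_permutation e α.toEquiv (fun a b hab => MonoidHom.map_isConj α.toMonoidHom hab)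
    (fun χ g => by simp [e])
  symm
  refine Eq.trans (Eq.trans (Nat.card_congr (Equiv.subtypeEquivRight fun χ => ?_)) h)
    (Nat.card_congr (Equiv.subtypeEquivRight fun C => ?_))
  · constructor
    · intro h1
      refine Subtype.ext (funext fun g => ?_)
      show (χ : G → ℂ) (α.symm g) = (χ : G → ℂ) g
      conv_lhs => rw [← h1]
      simp
    · intro h1
      funext g
      have h2 := congrFun (congrArg Subtype.val h1) (α g)
      simp only [e, Equiv.coe_fn_mk, MulEquiv.symm_apply_apply] at h2
      exact h2.symm
  · obtain ⟨x, rfl⟩ := ConjClasses.mk_surjective C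
    constructor
    · intro h1
      exact h1 x rfl
    · intro h1 g hg
      refine Eq.trans ?_ h1
      exact ConjClasses.mk_eq_mk_iff_isConj.2 (MonoidHom.map_isConj α.toMonoidHom (ConjClasses.mk_eq_mk_iff_isConj.1 hg))

end Cfsg.Agent.S0173
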