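import Cfsg.Statements.S0174
import Mathlib
import Cfsg.Agent.Lib.CharExtra

set_option autoImplicit false
open Cfsg

namespace Cfsg.Agent.S0174

/-- The Clifford Theorem for characters: if θ is an irreducible character of a finite group G, N is a normal subgroup and χ is an irreducible character of N occurring in the restriction of θ, then θ restricted to N equals e times the sum of the distinct G-conjugates of χ, where e is the inner product of the restriction with χ. -/
theorem result {G : Type*} [Group G] [Fintype G] (N : Subgroup G) [Fintype N] (hN : N.Normal) (θ : G → ℂ) (hθ : Cfsg.IsIrrCharacter G θ) (χ : N → ℂ) (hχ : Cfsg.IsIrrCharacter N χ) (hconst : Cfsg.classInner (fun n : N => θ n) χ ≠ 0) : (fun n : N => θ n) = Cfsg.classInner (fun n : N => θ n) χ • ∑ᶠ ψ ∈ {ψ : N → ℂ | ∃ g : G, ψ = fun n : N => χ ⟨g * n * g⁻¹, hN.conj_mem n n.2 g⟩}, ψ := by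
  classical
  haveI := hN
  let c : Cfsg.IrrCharacter G := ⟨θ, hθ⟩
  let t : Cfsg.IrrCharacter N := ⟨χ, hχ⟩
  obtain ⟨e, -, he, hval, -⟩ := CfsgLib.Chars.clifford N c t hconst
  have hset : {ψ : N → ℂ | ∃ g : G, ψ = fun n : N => χ ⟨g * n * g⁻¹, hN.conj_mem n n.2 g⟩} =
      ↑((CfsgLib.Chars.orbit N t).image Subtype.val) := by
    ext ψ
    simp only [Set.mem_setOf_eq, Finset.coe_image, Set.mem_image, Finset.mem_coe]
    constructor
    · rintro ⟨g, rfl⟩
      exact ⟨_, (CfsgLib.Chars.mem_orbit N).2 ⟨g, rfl⟩, funext fun n => CfsgLib.Chars.conjIrr_apply' N t g n⟩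
    · rintro ⟨_, hu, rfl⟩
      obtain ⟨g, rfl⟩ := (CfsgLib.Chars.mem_orbit N).1 hu
      exact ⟨g, funext fun n => CfsgLib.Chars.conjIrr_apply' N t g n⟩
  have he' : Cfsg.classInner (fun n : N => θ n) χ = (e : ℂ) := he
  rw [he', hset, finsum_mem_coe_finset, Finset.sum_image (fun a _ b _ h => Subtype.ext h)]
  funext n
  simp only [Pi.smul_apply, smul_eq_mul, Finset.sum_apply]
  exact hval n

end Cfsg.Agent.S0174
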