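import Cfsg.Statements.S0175
import Mathlib
import Cfsg.Agent.Lib.Chars.Induced

set_option autoImplicit false
open Cfsg

namespace Cfsg.Agent.S0175

open CfsgLib.Chars

/-- Taketa's Theorem on M-groups: if every irreducible complex character of a finite group is induced from a linear character (a homomorphism to ℂˣ) of some subgroup, the group is solvable. -/
theorem result {G : Type*} [Group G] [Fintype G] (hM : ∀ χ : G → ℂ, Cfsg.IsIrrCharacter G χ → ∃ (H : Subgroup G) (lam : H →* ℂˣ), χ = Cfsg.indFun H (fun h => (lam h : ℂ))) : Group.IsSolvable G := by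
  classical
  have key : ∀ d : ℕ, ∀ χ : IrrCharacter G, charDegree (χ : G → ℂ) ≤ d → ∀ g ∈ derivedSeries G d, (χ : G → ℂ) g = (χ : G → ℂ) 1 := by
    intro d
    induction d with
    | zero => intro χ h; exact absurd (charDegree_pos χ) (by omega)
    | succ d ih =>
      intro χ hle g hg
      rcases Nat.lt_or_ge d (charDegree (χ : G → ℂ)) with hlt | hge
      swap
      · exact ih χ hge g (derivedSeries_antitone G (Nat.le_succ d) hg)
      obtain ⟨H, lam, hχ⟩ := hM χ χ.2
      haveI : Fintype H := Fintype.ofFinite H
      have hval : ∀ (f : H → ℂ) (y : G) (c : ℂ), (∀ x : G, ∃ h : H, (h : G) = x⁻¹ * y * x ∧ f h = c) → indFun H f y = (H.index : ℂ) * c := by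
        intro f y c hf
        have h1 : ∑ x : G, extendByZero H f (x⁻¹ * y * x) = ∑ _x : G, c := Finset.sum_congr rfl fun x _ => by
          obtain ⟨h, hh, hfh⟩ := hf x
          rw [← hh, extendByZero_coe, hfh]
        rw [indFun, h1, Finset.sum_const, Finset.card_univ, ← Nat.card_eq_fintype_card, nsmul_eq_mul, ← H.index_mul_card, Nat.cast_mul]
        field_simp [natCast_card_ne_zero H]
      have h1 : ∀ f : H → ℂ, indFun H f 1 = (H.index : ℂ) * f 1 := fun f => hval f 1 _ fun x => ⟨1, by simp, rfl⟩
      have hidx : H.index = d + 1 := by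
        have h := congrFun hχ 1
        rw [h1, irr_apply_one, map_one, Units.val_one, mul_one, Nat.cast_inj] at h
        omega
      -- the permutation character
      let P : G → ℂ := indFun H (fun _ => (1 : ℂ))
      have hP : IsCharacter G P := IsCharacter.indFun H (IsIrrCharacter.isCharacter (isIrrCharacter_one H))
      choose c hc using exists_mult hP
      have hexp : ∀ y, P y = ∑ ψ : IrrCharacter G, (c ψ : ℂ) * (ψ : G → ℂ) y := fun y => by
        rw [classFunction_expand (IsCharacter.isClassFunction hP) y]; simp only [hc]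
      let one : IrrCharacter G := ⟨fun _ => 1, isIrrCharacter_one G⟩
      have hcone : c one = 1 := by
        have h := hc one
        rw [frobenius H _ (IsCharacter.isClassFunction (isCharacter_irr one))] at h
        have h2 := classInner_irr (⟨fun _ => 1, isIrrCharacter_one H⟩ : IrrCharacter H) ⟨fun _ => 1, isIrrCharacter_one H⟩
        rw [if_pos rfl] at h2
        exact_mod_cast (h.symm.trans h2)
      have hsmall : ∀ ψ, c ψ ≠ 0 → charDegree (ψ : G → ℂ) ≤ d ∨ ψ = one := by
        intro ψ hψ
        by_cases he : ψ = one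
        · exact Or.inr he
        left
        have h : (∑ ψ : IrrCharacter G, c ψ * charDegree (ψ : G → ℂ)) = d + 1 := by
          have h := hexp 1
          rw [show P 1 = (H.index : ℂ) * 1 from h1 _, mul_one, hidx] at h
          simp only [irr_apply_one] at h
          exact_mod_cast h.symm
        have h2 := Finset.add_le_sum (f := fun ψ => c ψ * charDegree (ψ : G → ℂ)) (fun i _ => Nat.zero_le _) (Finset.mem_univ one) (Finset.mem_univ ψ) (Ne.symm he)
        rw [h, hcone, one_mul] at h2
        have h3 : charDegree (one : G → ℂ) = 1 := by simp [one, charDegree]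
        have h4 : charDegree (ψ : G → ℂ) ≤ c ψ * charDegree (ψ : G → ℂ) := Nat.le_mul_of_pos_left _ (Nat.pos_of_ne_zero hψ)
        omega
      have hDH : derivedSeries G d ≤ H := by
        intro y hy
        by_contra hyH
        have hPy : P y = P 1 := by
          rw [hexp, hexp]
          refine Finset.sum_congr rfl fun ψ _ => ?_
          by_cases h : c ψ = 0
          · simp [h]
          rcases hsmall ψ h with h' | rfl
          · rw [ih ψ h' y hy]
          · rfl
        have he : ∀ x : G, extendByZero H (fun _ : H => (1 : ℂ)) x = (((if x ∈ H then 1 else 0 : ℕ)) : ℂ) := fun x => by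
          rw [extendByZero_apply]; split_ifs <;> simp
        simp only [P, indFun, he, mul_one, inv_mul_cancel, ← Nat.cast_sum, if_pos H.one_mem] at hPy
        rw [mul_right_inj' (inv_ne_zero (natCast_card_ne_zero H)), Nat.cast_inj] at hPy
        have h2 := (Finset.sum_eq_sum_iff_of_le (fun x _ => by split_ifs <;> omega)).1 hPy 1 (Finset.mem_univ _)
        simp [hyH] at h2
      have hlam : ∀ y ∈ derivedSeries G (d + 1), ∃ h : H, (h : G) = y ∧ (lam h : ℂ) = 1 := by
        intro y hy
        have hle' : derivedSeries G (d + 1) ≤ lam.ker.map H.subtype := by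
          rw [derivedSeries_succ, Subgroup.commutator_le]
          intro a ha b hb
          exact ⟨(⟨a, hDH ha⟩ : H) * ⟨b, hDH hb⟩ * (⟨a, hDH ha⟩ : H)⁻¹ * (⟨b, hDH hb⟩ : H)⁻¹, MonoidHom.mem_ker.2 (by rw [map_mul, map_mul, map_mul, map_inv, map_inv]; exact mul_inv_eq_one.2 (mul_inv_cancel_comm (lam _) (lam _))), rfl⟩
        obtain ⟨h, hh, rfl⟩ := hle' hy
        exact ⟨h, rfl, by rw [MonoidHom.mem_ker.1 hh, Units.val_one]⟩
      have hg1 := hval (fun h => (lam h : ℂ)) g 1 fun x => hlam _ (by
        have h := (derivedSeries_normal G (d + 1)).conj_mem g hg x⁻¹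
        rwa [inv_inv] at h)
      rw [congrFun hχ g, congrFun hχ 1, hg1, h1, map_one, Units.val_one]
  refine ⟨⟨Nat.card G, ?_⟩⟩
  rw [eq_bot_iff]
  intro g hg
  have hdeg : ∀ χ : IrrCharacter G, charDegree (χ : G → ℂ) ≤ Nat.card G := fun χ => by
    rw [← sum_deg_sq]
    exact (Nat.le_self_pow two_ne_zero _).trans (Finset.single_le_sum (f := fun χ : IrrCharacter G => charDegree (χ : G → ℂ) ^ 2) (fun _ _ => Nat.zero_le _) (Finset.mem_univ χ))
  have h := sum_deg_mul g
  simp only [fun χ => key _ χ (hdeg χ) g hg] at h
  rw [sum_deg_mul, if_pos rfl] at h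
  by_contra hne
  rw [if_neg (fun e => hne (Subgroup.mem_bot.2 e))] at h
  exact natCast_card_ne_zero G h

end Cfsg.Agent.S0175
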