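import Cfsg.Statements.S0177
import Mathlib
import Cfsg.Agent.Lib.BrauerInd.Artin
import Cfsg.Agent.Lib.CharAbelian

set_option autoImplicit false
open Cfsg

namespace Cfsg.Agent.S0177

/-- The Artin induction Theorem: for a character χ of a finite group, |G| • χ is a ℤ-linear combination of functions induced from homomorphisms of cyclic subgroups into ℂˣ. -/
theorem result {G : Type*} [Group G] [Fintype G] (χ : G → ℂ) (hχ : Cfsg.IsCharacter G χ) : ∃ l : List ((A : Subgroup G) × ((A →* ℂˣ) × ℤ)), (∀ t ∈ l, IsCyclic t.1) ∧ (Nat.card G : ℂ) • χ = (l.map fun t => (t.2.2 : ℂ) • Cfsg.indFun t.1 (fun a => (t.2.1 a : ℂ))).sum := by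
  classical
  let ι := {A : Subgroup G // IsCyclic A}
  let F : (Σ A : ι, (A.1 →* ℂˣ)) → G → ℂ := fun t => Cfsg.indFun t.1.1 (fun a => (t.2 a : ℂ))
  have hgen : ∀ A : Subgroup G, IsCyclic A → Cfsg.indFun A (fun _ => (1 : ℂ)) * χ ∈ AddSubgroup.closure (Set.range F) := by
    intro A hA
    haveI := hA
    haveI : Fintype A := Fintype.ofFinite A
    rw [CfsgLib.BrauerInd.indFun_mul A _ (CfsgLib.Chars.IsCharacter.isClassFunction hχ)]
    obtain ⟨l, hl⟩ := CfsgLib.Chars.exists_list_hom (G := A) (fun a b => IsMulCommutative.is_comm.comm a b) (CfsgLib.Chars.IsCharacter.restrict hχ A)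
    have : (fun h : A => (1 : ℂ) * χ h) = (l.map fun f : A →* ℂˣ => fun h : A => (f h : ℂ)).sum := by
      funext h
      rw [one_mul, hl h]
      clear hl
      induction l with
      | nil => simp
      | cons a t ih => simp only [List.map_cons, List.sum_cons, Pi.add_apply]; rw [ih]
    rw [this, CfsgLib.BrauerInd.indFun_list_sum, List.map_map]
    refine list_sum_mem fun f hf => ?_
    obtain ⟨ω, -, rfl⟩ := List.mem_map.1 hf
    exact AddSubgroup.subset_closure ⟨⟨⟨A, hA⟩, ω⟩, rfl⟩
  have hmem : (Nat.card G : ℂ) • χ ∈ AddSubgroup.closure (Set.range F) := by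
    have : (Nat.card G : ℂ) • χ = ∑ A : Subgroup G, CfsgLib.BrauerInd.genCount A * χ := by
      funext x
      simp only [Finset.sum_apply, Pi.mul_apply, Pi.smul_apply, smul_eq_mul]
      rw [← Finset.sum_mul]
      have h := CfsgLib.BrauerInd.sum_genCount (fun _ => (1 : ℂ)) x
      simp only [one_mul] at h
      rw [h]
      simp [Nat.card_eq_fintype_card]
    rw [this]
    exact sum_mem fun A _ => CfsgLib.BrauerInd.genCount_mul_mem _ hgen A
  obtain ⟨l, hl⟩ := CfsgLib.BrauerInd.exists_list_of_mem_closure hmem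
  refine ⟨l.map fun t => ⟨t.1.1.1, (t.1.2, t.2)⟩, fun t ht => ?_, ?_⟩
  · obtain ⟨s, -, rfl⟩ := List.mem_map.1 ht
    exact s.1.1.2
  · rw [hl, List.map_map]
    rfl

end Cfsg.Agent.S0177
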