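import Cfsg.Statements.S0187
import Mathlib
import Cfsg.Agent.Lib.Chars.Linear

set_option autoImplicit false
open Cfsg

namespace Cfsg.Agent.S0187

/-- A finite group is commutative if and only if every irreducible complex character has degree 1. -/
theorem result {G : Type*} [Group G] [Finite G] : (∀ a b : G, a * b = b * a) ↔ ∀ χ : Cfsg.IrrCharacter G, (χ : G → ℂ) 1 = 1 := by
  classical
  haveI := Fintype.ofFinite G
  have hsum := CfsgLib.Chars.sum_deg_sq (G := G)
  have hlin := CfsgLib.Chars.card_linear (G := G)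
  rw [Nat.card_eq_fintype_card, Fintype.card_subtype] at hlin
  constructor
  · intro h χ
    have hbot : commutator G = ⊥ := by
      rw [commutator_def, eq_bot_iff, Subgroup.commutator_le]
      intro a _ b _
      rw [Subgroup.mem_bot, commutatorElement_eq_one_iff_mul_comm]
      exact h a b
    rw [hbot, Subgroup.index_bot] at hlin
    rw [CfsgLib.Chars.irr_apply_one]
    suffices hd : Cfsg.charDegree (χ : G → ℂ) = 1 by rw [hd, Nat.cast_one]
    by_contra hne
    have h2 := Finset.sum_filter_add_sum_filter_not Finset.univ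
      (fun ψ : Cfsg.IrrCharacter G => Cfsg.charDegree (ψ : G → ℂ) = 1) (fun ψ => Cfsg.charDegree (ψ : G → ℂ) ^ 2)
    rw [hsum, Finset.sum_congr rfl (g := fun _ => 1) (fun ψ hψ => by rw [(Finset.mem_filter.1 hψ).2, one_pow]),
      Finset.sum_const, smul_eq_mul, mul_one, hlin] at h2
    have h3 := Finset.single_le_sum (f := fun ψ : Cfsg.IrrCharacter G => Cfsg.charDegree (ψ : G → ℂ) ^ 2)
      (fun _ _ => Nat.zero_le _) (Finset.mem_filter.2 ⟨Finset.mem_univ χ, hne⟩ :
        χ ∈ Finset.univ.filter fun ψ : Cfsg.IrrCharacter G => ¬ Cfsg.charDegree (ψ : G → ℂ) = 1)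
    have h4 := pow_pos (CfsgLib.Chars.charDegree_pos χ) 2
    omega
  · intro h a b
    have hd : ∀ χ : Cfsg.IrrCharacter G, Cfsg.charDegree (χ : G → ℂ) = 1 := fun χ => by
      have := h χ
      rw [CfsgLib.Chars.irr_apply_one] at this
      exact_mod_cast this
    simp [hd] at hsum hlin
    have hbot : commutator G = ⊥ := by
      have h1 := Subgroup.index_mul_card (commutator G)
      rw [← hlin, hsum, ← Nat.card_eq_fintype_card] at h1
      exact Subgroup.eq_bot_of_card_eq _ (by
        rcases Nat.eq_zero_or_pos (Nat.card G) with h0 | h0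
        · exact absurd h0 Nat.card_pos.ne'
        · exact Nat.eq_of_mul_eq_mul_left h0 (h1.trans (mul_one _).symm))
    have := (Subgroup.commutator_le.1 (le_of_eq (commutator_def G ▸ hbot : ⁅(⊤ : Subgroup G), ⊤⁆ = ⊥))) a (Subgroup.mem_top a) b (Subgroup.mem_top b)
    exact commutatorElement_eq_one_iff_mul_comm.1 (Subgroup.mem_bot.1 this)

end Cfsg.Agent.S0187
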