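import Cfsg.Statements.S0178
import Mathlib
import Cfsg.Agent.S0187
import Cfsg.Agent.Lib.Chars.Clifford
import Cfsg.Agent.Lib.Chars.Kernel

set_option autoImplicit false
open Cfsg

namespace Cfsg.Agent.S0178

/-- The degree of an irreducible complex representation of a finite group is at most the index of any abelian subgroup. -/
theorem result {G : Type*} [Group G] [Finite G] {V : Type*} [AddCommGroup V] [Module ℂ V] [FiniteDimensional ℂ V] (ρ : Representation ℂ G V) [ρ.IsIrreducible] (A : Subgroup G) (hA : ∀ a ∈ A, ∀ b ∈ A, a * b = b * a) : Module.finrank ℂ V ≤ A.index := by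
  classical
  haveI := Fintype.ofFinite G
  haveI := Fintype.ofFinite A
  let χ : Cfsg.IrrCharacter G := ⟨ρ.character, CfsgLib.Chars.isIrrCharacter_character ρ inferInstance⟩
  have hres := CfsgLib.Chars.IsCharacter.restrict (CfsgLib.Chars.isCharacter_irr χ) A
  obtain ⟨θ, hθ⟩ : ∃ θ : Cfsg.IrrCharacter A, Cfsg.classInner (fun c : A => (χ : G → ℂ) c) (θ : A → ℂ) ≠ 0 := by
    by_contra hne
    push Not at hne
    apply CfsgLib.Chars.irr_one_ne_zero χ
    have h1 := CfsgLib.Chars.classFunction_expand (CfsgLib.Chars.IsCharacter.isClassFunction hres) 1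
    simp only [hne, zero_mul, Finset.sum_const_zero, OneMemClass.coe_one] at h1
    exact h1
  have hθ1 : (θ : A → ℂ) 1 = 1 :=
    (Cfsg.Agent.S0187.result (G := A)).1 (fun a b => Subtype.ext (hA a a.2 b b.2)) θ
  have hind := CfsgLib.Chars.IsCharacter.indFun A (CfsgLib.Chars.isCharacter_irr θ)
  have h1 : Cfsg.charDegree (χ : G → ℂ) ≤ Cfsg.charDegree (Cfsg.indFun A (θ : A → ℂ)) := by
    refine CfsgLib.Chars.charDegree_le_of_constituent hind χ ?_
    rw [CfsgLib.Chars.frobenius A _ (CfsgLib.Chars.IsCharacter.isClassFunction (CfsgLib.Chars.isCharacter_irr χ)),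
      CfsgLib.Chars.classInner_symm]
    exact fun h => hθ ((starRingEnd ℂ).injective (h.trans (map_zero _).symm))
  have h2 := CfsgLib.Chars.IsCharacter.apply_one hind
  rw [CfsgLib.Chars.indFun_one, hθ1, mul_one, Nat.cast_inj] at h2
  have h3 : (χ : G → ℂ) 1 = (Module.finrank ℂ V : ℂ) := Representation.char_one ρ
  rw [CfsgLib.Chars.irr_apply_one, Nat.cast_inj] at h3
  rw [← h3, h2]
  exact h1

end Cfsg.Agent.S0178
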