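import Cfsg.Statements.S0179
import Mathlib
import Cfsg.Agent.Lib.CharDegree

set_option autoImplicit false
open Cfsg

namespace Cfsg.Agent.S0179

/-- The degree of an irreducible complex representation of a finite group divides the index of the centre. -/
theorem result {G : Type*} [Group G] [Finite G] {V : Type*} [AddCommGroup V] [Module ℂ V] [FiniteDimensional ℂ V] (ρ : Representation ℂ G V) [ρ.IsIrreducible] : Module.finrank ℂ V ∣ (Subgroup.center G).index := by
  have hirr : Cfsg.IsIrrCharacter G ρ.character :=
    CfsgLib.Chars.isIrrCharacter_character ρ inferInstance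
  let χ : Cfsg.IrrCharacter G := ⟨_, hirr⟩
  have hd : Cfsg.charDegree (χ : G → ℂ) = Module.finrank ℂ V := by
    show Cfsg.charDegree ρ.character = _
    simp [Cfsg.charDegree, Representation.char_one]
  rw [← hd]
  obtain ⟨lam, hlam⟩ := CfsgLib.CharDegree.exists_central_hom χ (Subgroup.center G) le_rfl
  exact CfsgLib.CharExtend.dvd_index_of_scalar χ _ lam hlam

end Cfsg.Agent.S0179
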