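import Cfsg.Statements.S0180
import Mathlib
import Cfsg.Agent.Lib.Chars.Galois
import Cfsg.Agent.Lib.Chars.Orth

set_option autoImplicit false
open Cfsg

namespace Cfsg.Agent.S0180

/-- Every irreducible complex character of a finite group takes only rational values if and only if g is conjugate to g ^ m for every element g and every m coprime to the group order. -/
theorem result {G : Type*} [Group G] [Finite G] : (∀ χ : Cfsg.IrrCharacter G, ∀ g : G, ∃ q : ℚ, (χ : G → ℂ) g = (q : ℂ)) ↔ ∀ m : ℕ, m.Coprime (Nat.card G) → ∀ g : G, IsConj g (g ^ m) := by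
  classical
  letI := Fintype.ofFinite G
  constructor
  · intro hrat m hm g
    obtain ⟨σ, hσ⟩ := CfsgLib.Chars.exists_embedding_pow (G := G) Nat.card_pos hm
    have heq : ∀ χ : IrrCharacter G, (χ : G → ℂ) (g ^ m) = (χ : G → ℂ) g := fun χ => by
      obtain ⟨q, hq⟩ := hrat χ g
      have hc := CfsgLib.Chars.isCharacter_irr χ
      rw [← hσ _ hc g (orderOf_dvd_natCard g)]
      have : (⟨(χ : G → ℂ) g, CfsgLib.Chars.IsCharacter.mem_algebraicClosure hc g⟩ : algebraicClosure ℚ ℂ) = (q : algebraicClosure ℚ ℂ) := by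
        apply Subtype.ext; simpa using hq
      rw [this, map_ratCast, hq]
    have h1 := CfsgLib.Chars.col_orth (g ^ m) g
    simp_rw [heq] at h1
    rw [CfsgLib.Chars.col_orth g g, if_pos (IsConj.refl g)] at h1
    by_contra hn
    rw [if_neg hn] at h1
    exact (Nat.cast_ne_zero.2 Nat.card_pos.ne') h1
  · intro hconj χ g
    have hc := CfsgLib.Chars.isCharacter_irr χ
    refine CfsgLib.Chars.exists_rat_of_fixed (x := ⟨_, CfsgLib.Chars.IsCharacter.mem_algebraicClosure hc g⟩) fun σ => ?_
    obtain ⟨k, hk, hσ⟩ := CfsgLib.Chars.exists_coprime_pow_embedding (G := G) σ (Nat.card G) Nat.card_pos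
    rw [hσ _ hc g (orderOf_dvd_natCard g)]
    obtain ⟨c, hc'⟩ := isConj_iff.1 (hconj k hk g)
    rw [← hc', CfsgLib.Chars.IsCharacter.isClassFunction hc g c]

end Cfsg.Agent.S0180
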