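import Cfsg.Statements.S1526
import Mathlib
import Cfsg.Agent.Lib.ExceptionalTI

set_option autoImplicit false
open Cfsg

namespace CfsgLib.FHT

open Cfsg CfsgLib.Chars CfsgLib.Virtual CfsgLib.Coherence CfsgLib.ExceptionalTI
open scoped ComplexConjugate

universe u v

variable {G : Type u} [Group G] [Fintype G]

open Classical in
theorem sum_meets (K : Subgroup G) (hTI : IsTISubset (K : Set G)) (F : G → ℝ) (hF : ∀ g x : G, F (x * g * x⁻¹) = F g) :
    (Nat.card (Subgroup.normalizer (K : Set G)) : ℝ) * ∑ g ∈ Finset.univ.filter (fun g => Meets K g), F g =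
      (Nat.card G : ℝ) * ∑ y ∈ sharp K, F y := by
  have hfib : ∀ g : G, (Finset.univ.filter fun x : G => x * g * x⁻¹ ∈ sharp K).card =
      if Meets K g then Nat.card (Subgroup.normalizer (K : Set G)) else 0 := by
    intro g
    split_ifs with hg
    · obtain ⟨hg1, x₀, hx₀⟩ := hg
      rw [Nat.card_eq_fintype_card, ← Finset.card_univ]
      refine Finset.card_bij' (fun x hx => (⟨x * x₀⁻¹, ?_⟩ : Subgroup.normalizer (K : Set G)))
        (fun n _ => (n : G) * x₀) (fun x hx => Finset.mem_univ _) (fun n _ => ?_) (fun x hx => by simp)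
        (fun n _ => Subtype.ext (by simp))
      · by_contra hn
        obtain ⟨h1, h2⟩ := mem_sharp.1 (Finset.mem_filter.1 hx).2
        refine hg1 (conj_eq_one_iff.1 (hTI _ hn (x₀ * g * x₀⁻¹) hx₀ ?_))
        simpa [mul_assoc] using h2
      · refine Finset.mem_filter.2 ⟨Finset.mem_univ _, mem_sharp.2 ⟨fun h => hg1 (conj_eq_one_iff.1 h), ?_⟩⟩
        have := (Subgroup.mem_normalizer_iff.1 n.2 (x₀ * g * x₀⁻¹)).1 hx₀
        simpa [mul_assoc] using this
    · rw [Finset.card_eq_zero, Finset.filter_eq_empty_iff]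
      intro x _ hx
      obtain ⟨h1, h2⟩ := mem_sharp.1 hx
      exact hg ⟨fun h => h1 (by simp [h]), x, h2⟩
  have h : ∑ x : G, ∑ g ∈ Finset.univ.filter (fun g => x * g * x⁻¹ ∈ sharp K), F g =
      (Nat.card G : ℝ) * ∑ y ∈ sharp K, F y := by
    rw [Finset.sum_congr rfl (g := fun _ => ∑ y ∈ sharp K, F y) (fun x _ => ?_), Finset.sum_const, nsmul_eq_mul,
      Finset.card_univ, ← Nat.card_eq_fintype_card]
    refine Finset.sum_nbij' (fun g => x * g * x⁻¹) (fun y => x⁻¹ * y * x) (fun g hg => (Finset.mem_filter.1 hg).2)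
      (fun y hy => Finset.mem_filter.2 ⟨Finset.mem_univ _, by simpa [mul_assoc] using hy⟩)
      (fun g _ => by simp [mul_assoc]) (fun y _ => by simp [mul_assoc]) (fun g _ => (hF g x).symm)
  rw [← h]
  simp only [Finset.sum_filter]
  rw [Finset.sum_comm, Finset.mul_sum]
  refine Finset.sum_congr rfl fun g _ => ?_
  rw [← Finset.sum_filter, Finset.sum_const, nsmul_eq_mul, hfib g]
  split_ifs <;> simp

theorem bessel {ι : Type*} [Fintype ι] [DecidableEq ι] (f : G → ℂ) (o : ι → G → ℂ) (n : ι → ℤ)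
    (hf : IsGeneralizedCharacter G f) (ho : ∀ i, IsGeneralizedCharacter G (o i))
    (horth : ∀ i j, classInner (o i) (o j) = if i = j then 1 else 0)
    (hn : ∀ i, classInner f (o i) = (n i : ℂ)) (N : ℤ) (hN : classInner f f = (N : ℂ)) : ∑ i, n i * n i ≤ N := by
  set R : G → ℂ := f - ∑ i, n i • o i with hR
  obtain ⟨r, hr, -⟩ := int_norm (genChar_sub hf (genChar_sum Finset.univ _ fun i _ => genChar_zsmul (ho i) (n i)))
  have hsum : ∀ i, classInner (∑ j, n j • o j) (o i) = (n i : ℂ) := fun i => by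
    rw [ci_sum_left, Finset.sum_eq_single i (fun j _ hj => by rw [ci_zsmul_left, horth, if_neg hj, mul_zero])
      (fun h => absurd (Finset.mem_univ i) h), ci_zsmul_left, horth, if_pos rfl, mul_one]
  have hfs : classInner f (∑ i, n i • o i) = ((∑ i, n i * n i : ℤ) : ℂ) := by
    rw [ci_sum_right]
    push_cast
    exact Finset.sum_congr rfl fun i _ => by rw [ci_zsmul_right, hn]
  have hss : classInner (∑ i, n i • o i) (∑ i, n i • o i) = ((∑ i, n i * n i : ℤ) : ℂ) := by
    rw [ci_sum_right]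
    push_cast
    exact Finset.sum_congr rfl fun i _ => by rw [ci_zsmul_right, hsum]
  have e : classInner R R = (((N - ∑ i, n i * n i : ℤ)) : ℂ) := by
    rw [hR, ci_sub_left, ci_sub_right, ci_sub_right, hN, classInner_symm (∑ i, n i • o i) f, hfs, hss, map_intCast]
    push_cast; ring
  rw [← hR] at hr
  rw [hr] at e
  have h : (r : ℤ) = N - ∑ i, n i * n i := by exact_mod_cast e
  omega

theorem eq_smul_of_inner {f g : G → ℂ} (hf : IsGeneralizedCharacter G f) (hg : IsGeneralizedCharacter G g)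
    (hf1 : classInner f f = 1) (hg1 : classInner g g = 1) (h : classInner f g ≠ 0) :
    f = classInner f g • g := by
  classical
  obtain ⟨ε, μ, hε, rfl⟩ := exists_single hf hf1
  obtain ⟨δ, ν, hδ, rfl⟩ := exists_single hg hg1
  rw [ci_smul_left, ci_smul_right, classInner_irr] at h ⊢
  split_ifs at h ⊢ with he
  · rw [he, smul_smul]
    rcases hδ with rfl | rfl <;> simp
  · simp at h

theorem exc_one_ne_zero {K : Subgroup G} (d : ExcData K) (ξ : d.X) : d.exc ξ 1 ≠ 0 := by
  obtain ⟨ε, μ, hε, he⟩ := exists_single (d.exc_gen ξ) (by rw [d.exc_orth, if_pos rfl])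
  rw [he, Pi.smul_apply, smul_eq_mul]
  exact mul_ne_zero (by rcases hε with rfl | rfl <;> norm_num) (irr_one_ne_zero μ)

theorem exc_inner_one {K : Subgroup G} (d : ExcData K) (ξ : d.X) : classInner (d.exc ξ) (fun _ => 1) = 0 := by
  classical
  obtain ⟨ε, μ, hε, he⟩ := exists_single (d.exc_gen ξ) (by rw [d.exc_orth, if_pos rfl])
  have hμ : Nonconst K (μ : G → ℂ) := (d.exc_iff μ).1 ⟨ξ, by rcases hε with rfl | rfl <;> simp [he]⟩
  rw [he, ci_smul_left, inner_irr_ne μ.2 (isIrrCharacter_one G) fun h => by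
    obtain ⟨a, -, b, -, -, -, hab⟩ := hμ
    exact hab (by rw [h]), mul_zero]

theorem disjoint_meets {K K' : Subgroup G} (h : (Nat.card K).Coprime (Nat.card K')) {g : G}
    (hg : Meets K g) : ¬ Meets K' g := by
  rintro ⟨-, y, hy⟩
  obtain ⟨hg1, x, hx⟩ := hg
  refine hg1 (orderOf_eq_one_iff.1 (Nat.eq_one_of_dvd_coprimes h ?_ ?_))
  · rw [← MulEquiv.orderOf_eq (MulAut.conj x) g]; exact Subgroup.orderOf_dvd_natCard K hx
  · rw [← MulEquiv.orderOf_eq (MulAut.conj y) g]; exact Subgroup.orderOf_dvd_natCard K' hy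

theorem inner_disjoint {K K' : Subgroup G} (h : (Nat.card K).Coprime (Nat.card K')) {f f' : G → ℂ}
    (hf : ∀ g, ¬ Meets K g → f g = 0) (hf' : ∀ g, ¬ Meets K' g → f' g = 0) : classInner f f' = 0 := by
  rw [classInner, Finset.sum_eq_zero fun g _ => ?_, mul_zero]
  by_cases hg : Meets K g
  · rw [hf' g (disjoint_meets h hg), map_zero, mul_zero]
  · rw [hf g hg, zero_mul]

theorem cross {K K' : Subgroup G} (h : (Nat.card K).Coprime (Nat.card K')) (d : ExcData K) (d' : ExcData K')
    (ξ : d.X) (ζ : d'.X) : classInner (d.exc ξ) (d'.exc ζ) = 0 := by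
  classical
  by_contra hne
  have n1 : ∀ x, classInner (d.exc x) (d.exc x) = 1 := fun x => by rw [d.exc_orth, if_pos rfl]
  have n2 : ∀ x, classInner (d'.exc x) (d'.exc x) = 1 := fun x => by rw [d'.exc_orth, if_pos rfl]
  set s := classInner (d.exc ξ) (d'.exc ζ) with hs
  have he : d.exc ξ = s • d'.exc ζ := eq_smul_of_inner (d.exc_gen _) (d'.exc_gen _) (n1 _) (n2 _) hne
  have hone : ∀ g, ¬ Meets K g → d.exc ξ g - d.exc (d.bar ξ) g = 0 := fun g hg => by
    rw [d.exc_prop ξ g hg, d.exc_prop (d.bar ξ) g hg, d.bar_D, sub_self]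
  have hone' : ∀ g, ¬ Meets K' g → d'.exc ζ g - d'.exc (d'.bar ζ) g = 0 := fun g hg => by
    rw [d'.exc_prop ζ g hg, d'.exc_prop (d'.bar ζ) g hg, d'.bar_D, sub_self]
  have h0 : classInner (d.exc ξ - d.exc (d.bar ξ)) (d'.exc ζ - d'.exc (d'.bar ζ)) = 0 :=
    inner_disjoint h hone hone'
  have e1 : classInner (d.exc (d.bar ξ)) (d'.exc ζ) = 0 := by
    have h1 : classInner (d.exc (d.bar ξ)) (d.exc ξ) = 0 := by rw [d.exc_orth, if_neg (d.bar_ne ξ)]
    rw [he, ci_smul_right, mul_eq_zero] at h1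
    exact h1.resolve_left fun hc => hne (by simpa using hc)
  have e2 : classInner (d.exc ξ) (d'.exc (d'.bar ζ)) = 0 := by
    rw [he, ci_smul_left, d'.exc_orth, if_neg (Ne.symm (d'.bar_ne ζ)), mul_zero]
  rw [ci_sub_left, ci_sub_right, ci_sub_right, e1, e2, ← hs, sub_zero, zero_sub, sub_neg_eq_add] at h0
  have hb : classInner (d.exc (d.bar ξ)) (d'.exc (d'.bar ζ)) = -s := by linear_combination h0
  have he' : d.exc (d.bar ξ) = (-s) • d'.exc (d'.bar ζ) := by
    rw [← hb]
    exact eq_smul_of_inner (d.exc_gen _) (d'.exc_gen _) (n1 _) (n2 _) (by rw [hb]; exact neg_ne_zero.2 hne)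
  have hnm : ∀ L : Subgroup G, ¬ Meets L (1 : G) := fun L hm => hm.1 rfl
  have a1 := congrFun he 1
  have a2 := congrFun he' 1
  rw [Pi.smul_apply, smul_eq_mul] at a1 a2
  have b1 := sub_eq_zero.1 (hone 1 (hnm _))
  have b2 := sub_eq_zero.1 (hone' 1 (hnm _))
  rw [← b1, a1, ← b2] at a2
  exact exc_one_ne_zero d' ζ ((mul_eq_zero.1 (show s * d'.exc ζ 1 = 0 by linear_combination a2 / 2)).resolve_left hne)

theorem const {K K' : Subgroup G} (h : (Nat.card K).Coprime (Nat.card K')) (d : ExcData K) (d' : ExcData K')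
    (hK' : K' ≠ ⊥) (ξ : d.X) : ∃ c : ℤ, ∀ y ∈ K', y ≠ 1 → d.exc ξ y = (c : ℂ) := by
  classical
  obtain ⟨y₀, hy₀⟩ := Subgroup.ne_bot_iff_exists_ne_one.1 hK'
  obtain ⟨ε, μ, hε, he⟩ := exists_single (d.exc_gen ξ) (by rw [d.exc_orth, if_pos rfl])
  have hμ : ¬ Nonconst K' (μ : G → ℂ) := fun hn => by
    obtain ⟨ζ, hζ⟩ := (d'.exc_iff μ).2 hn
    have h0 := cross h d d' ξ ζ
    rcases hζ with hζ | hζ <;> rw [he, hζ] at h0 <;>
      simp only [ci_smul_left, ci_neg_right, inner_irr_self μ.2] at h0 <;>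
      rcases hε with rfl | rfl <;> norm_num at h0
  have hc : ∀ y ∈ K', y ≠ 1 → d.exc ξ y = d.exc ξ (y₀ : G) := fun y hy hy1 => by
    rw [he, Pi.smul_apply, Pi.smul_apply]
    congr 1
    by_contra hne
    exact hμ ⟨y, hy, y₀, y₀.2, hy1, fun h1 => hy₀ (Subtype.ext h1), hne⟩
  have hA := d'.A_const _ (genChar_classFun (d.exc_gen ξ)) _ hc
  obtain ⟨n, hn⟩ := int_inner d'.A_gen (d.exc_gen ξ)
  refine ⟨n, fun y hy hy1 => ?_⟩
  rw [hn] at hA
  rw [hc y hy hy1, ← Complex.conj_conj (d.exc ξ (y₀ : G)), ← hA, map_intCast]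

open Classical in
theorem main (hodd : Odd (Nat.card G)) {ι : Type v} [Fintype ι] [Nonempty ι] (K : ι → Subgroup G)
    (hK1 : ∀ i, K i ≠ ⊥) (d : ∀ i, ExcData (K i))
    (hcop : ∀ i j, i ≠ j → (Nat.card (K i)).Coprime (Nat.card (K j))) (hTI : ∀ i, IsTISubset (K i : Set G))
    (hcover : ∀ g : G, g ≠ 1 → ∃ i, ∃ x : G, x * g * x⁻¹ ∈ K i) : False := by
  have hone : ∀ (i : ι) (ξ : (d i).X), (d i).exc ξ 1 = ((d i).D ξ : ℂ) * (d i).exc (d i).η 1 := fun i ξ =>
    (d i).exc_prop ξ 1 fun h => h.1 rfl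
  have hconst := fun i k (h : i ≠ k) => const (hcop i k h) (d i) (d k) (hK1 k) (d i).η
  choose! c hc using hconst
  have hconstD : ∀ i k, i ≠ k → ∀ ξ : (d i).X, ∀ y ∈ K k, y ≠ 1 →
      (d i).exc ξ y = ((d i).D ξ : ℂ) * (c i k : ℂ) := fun i k h ξ y hy hy1 => by
    rw [← hc i k h y hy hy1]
    exact (d i).exc_prop ξ y fun hm => disjoint_meets (hcop i k h) hm ⟨hy1, 1, by simpa using hy⟩
  have hAc : ∀ i k, i ≠ k → ∀ ξ : (d i).X,
      classInner (d k).A ((d i).exc ξ) = (((d i).D ξ * c i k : ℤ) : ℂ) := fun i k h ξ => by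
    rw [(d k).A_const _ (genChar_classFun ((d i).exc_gen ξ)) _ (hconstD i k h ξ)]
    simp
  have hx := fun i => (d i).A_exc
  choose x hx using hx
  -- the induced difference of one kernel against the exceptional characters of the others
  have hin : ∀ i, ∑ k ∈ Finset.univ.erase i, c k i * c k i * ((d k).σ : ℤ) ≤ (d i).e - 1 := by
    intro i
    let o : Option (Σ k, (d k).X) → G → ℂ := fun q => q.elim (fun _ => 1) fun p => (d p.1).exc p.2
    let n : Option (Σ k, (d k).X) → ℤ := fun q => q.elim 1 fun p =>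
      if p.1 = i then x p.1 * (d p.1).D p.2 - (if p.2 = (d p.1).η then 1 else 0) else (d p.1).D p.2 * c p.1 i
    have hb := bessel (d i).A o n (d i).A_gen
      (fun q => by
        rcases q with _ | p
        · exact genChar_of_char (IsIrrCharacter.isCharacter (isIrrCharacter_one G))
        · exact (d p.1).exc_gen p.2)
      (fun q q' => by
        rcases q with _ | ⟨k, ξ⟩ <;> rcases q' with _ | ⟨k', ξ'⟩
        · rw [if_pos rfl]; exact inner_irr_self (isIrrCharacter_one G)
        · rw [if_neg (by simp)]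
          show classInner (fun _ => 1) ((d k').exc ξ') = 0
          rw [classInner_symm, exc_inner_one, map_zero]
        · rw [if_neg (by simp)]; exact exc_inner_one _ _
        · show classInner ((d k).exc ξ) ((d k').exc ξ') = _
          by_cases hk : k = k'
          · subst hk
            rw [(d k).exc_orth]
            by_cases hx' : ξ = ξ'
            · rw [if_pos hx', if_pos (by rw [hx'])]
            · rw [if_neg hx', if_neg (by simpa using hx')]
          · rw [cross (hcop k k' hk), if_neg (fun e => hk (congrArg Sigma.fst (Option.some.inj e)))])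
      (fun q => by
        rcases q with _ | ⟨k, ξ⟩
        · show classInner (d i).A (fun _ => 1) = ((1 : ℤ) : ℂ)
          rw [(d i).A_one, Int.cast_one]
        · show classInner (d i).A ((d k).exc ξ) = ((n (some ⟨k, ξ⟩) : ℤ) : ℂ)
          by_cases hk : k = i
          · subst hk
            simp only [n, Option.elim, if_true]
            rw [hx k ξ]; push_cast
            by_cases hξ : ξ = (d k).η <;> simp [hξ]
          · simp only [n, Option.elim, if_neg hk]
            exact hAc k i hk ξ)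
      ((d i).e + 1) (by rw [(d i).A_norm]; push_cast; rfl)
    rw [Fintype.sum_option, Fintype.sum_sigma, ← Finset.add_sum_erase _ _ (Finset.mem_univ i)] at hb
    have hown : 1 ≤ ∑ ξ : (d i).X, n (some ⟨i, ξ⟩) * n (some ⟨i, ξ⟩) := by
      have : ∑ ξ : (d i).X, n (some ⟨i, ξ⟩) * n (some ⟨i, ξ⟩) =
          x i * x i * ((d i).σ : ℤ) - 2 * x i + 1 := by
        have hs : ((d i).σ : ℤ) = ∑ ξ : (d i).X, ((d i).D ξ : ℤ) ^ 2 := by
          rw [← (d i).sum_D]; push_cast; rfl
        rw [hs, Finset.mul_sum, Finset.sum_congr rfl (g := fun ξ => x i * x i * ((d i).D ξ : ℤ) ^ 2 +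
          (if ξ = (d i).η then 1 - 2 * x i else 0)) (fun ξ _ => ?_), Finset.sum_add_distrib, Finset.sum_ite_eq',
          if_pos (Finset.mem_univ _)]
        · ring
        · simp only [n, Option.elim, if_true]
          by_cases h : ξ = (d i).η
          · rw [if_pos h, if_pos h, h, (d i).D_eta]; push_cast; ring
          · rw [if_neg h, if_neg h]; ring
      rw [this]
      have h2 : (2 : ℤ) ≤ (d i).σ := by exact_mod_cast (d i).σ_ge
      rcases le_or_gt (x i) 0 with h | h
      · nlinarith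
      · nlinarith
    have hoth : ∀ k ∈ Finset.univ.erase i, ∑ ξ : (d k).X, n (some ⟨k, ξ⟩) * n (some ⟨k, ξ⟩) =
        c k i * c k i * ((d k).σ : ℤ) := fun k hk => by
      rw [← (d k).sum_D]
      push_cast
      rw [Finset.mul_sum]
      refine Finset.sum_congr rfl fun ξ _ => ?_
      simp only [n, Option.elim, if_neg (Finset.mem_erase.1 hk).1]
      ring
    rw [Finset.sum_congr rfl hoth] at hb
    simp only [n, Option.elim] at hb hown
    linarith
  -- parity
  have hpar : ∀ i k, i ≠ k → c i k ≠ 0 ∨ c k i ≠ 0 := by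
    intro i k hik
    obtain ⟨z, hz, hzA⟩ := exists_coord (d i).A_gen
    obtain ⟨w, hw, hwA⟩ := exists_coord (d k).A_gen
    have h0 : ∑ θ : IrrCharacter G, z θ * w θ = 0 := by
      have h := inner_disjoint (hcop i k hik) (d i).A_supp (d k).A_supp
      rw [inner_eq_sum_coord hzA hwA] at h
      exact_mod_cast h
    let one : IrrCharacter G := ⟨fun _ => 1, isIrrCharacter_one G⟩
    have key : ∀ (i k : ι) (_ : i ≠ k) (z w : IrrCharacter G → ℤ),
        (∀ θ : IrrCharacter G, classInner (d i).A (θ : G → ℂ) = (z θ : ℂ)) →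
        (∀ θ : IrrCharacter G, classInner (d k).A (θ : G → ℂ) = (w θ : ℂ)) →
        ∃ t : ℤ, ∑ θ ∈ Finset.univ.filter (fun θ : IrrCharacter G => Nonconst (K i) (θ : G → ℂ)), z θ * w θ =
          2 * t - c i k := by
      intro i k hik z w hz hw
      have hμ : ∀ ξ : (d i).X, ∃ (ε : ℤ) (μ : IrrCharacter G), (ε = 1 ∨ ε = -1) ∧
          (d i).exc ξ = (ε : ℂ) • (μ : G → ℂ) := fun ξ => by
        obtain ⟨ε, μ, hε, he⟩ := exists_single ((d i).exc_gen ξ) (by rw [(d i).exc_orth, if_pos rfl])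
        rcases hε with rfl | rfl
        · exact ⟨1, μ, Or.inl rfl, by rw [he, Int.cast_one]⟩
        · exact ⟨-1, μ, Or.inr rfl, by rw [he]; simp⟩
      choose ε μ hε hμ using hμ
      obtain ⟨m, hm⟩ := (d i).σ_even
      refine ⟨c i k * x i * m, ?_⟩
      have hsum : ∑ ξ : (d i).X, (x i * (d i).D ξ - (if ξ = (d i).η then 1 else 0)) * ((d i).D ξ * c i k) =
          2 * (c i k * x i * m) - c i k := by
        have hs : ∑ ξ : (d i).X, ((d i).D ξ : ℤ) ^ 2 = 2 * (m : ℤ) := by
          have : ((∑ ξ : (d i).X, (d i).D ξ ^ 2 : ℕ) : ℤ) = ((2 * m : ℕ) : ℤ) := by rw [(d i).sum_D, hm]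
          push_cast at this; exact this
        rw [Finset.sum_congr rfl (g := fun ξ => x i * c i k * ((d i).D ξ : ℤ) ^ 2 -
          (if ξ = (d i).η then c i k else 0)) (fun ξ _ => ?_), Finset.sum_sub_distrib, ← Finset.mul_sum, hs,
          Finset.sum_ite_eq', if_pos (Finset.mem_univ _)]
        · ring
        · by_cases h : ξ = (d i).η
          · rw [if_pos h, if_pos h, h, (d i).D_eta]; push_cast; ring
          · rw [if_neg h, if_neg h]; ring
      rw [← hsum]
      refine (Finset.sum_bij (fun ξ _ => μ ξ) (fun ξ _ => ?_) (fun ξ _ ξ' _ he => ?_) (fun θ hθ => ?_)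
        (fun ξ _ => ?_)).symm
      · refine Finset.mem_filter.2 ⟨Finset.mem_univ _, ((d i).exc_iff (μ ξ)).1 ⟨ξ, ?_⟩⟩
        rcases hε ξ with h | h
        · left; rw [hμ ξ, h, Int.cast_one, one_smul]
        · right; rw [hμ ξ, h]; simp
      · by_contra hne
        have h := (d i).exc_orth ξ ξ'
        rw [hμ ξ, hμ ξ', he, if_neg hne, ci_smul_left, ci_smul_right, inner_irr_self (μ ξ').2] at h
        rcases hε ξ with h1 | h1 <;> rcases hε ξ' with h2 | h2 <;> simp [h1, h2] at h
      · obtain ⟨ξ, hξ⟩ := ((d i).exc_iff θ).2 (Finset.mem_filter.1 hθ).2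
        refine ⟨ξ, Finset.mem_univ _, Subtype.ext ?_⟩
        by_contra hne
        have h1 : classInner ((d i).exc ξ) (θ : G → ℂ) = 0 := by
          rw [hμ ξ, ci_smul_left, inner_irr_ne (μ ξ).2 θ.2 hne, mul_zero]
        rcases hξ with hξ | hξ <;> rw [hξ] at h1 <;> simp [ci_neg_left, inner_irr_self θ.2] at h1
      · have hz' : ((ε ξ * z (μ ξ) : ℤ) : ℂ) = ((x i * (d i).D ξ - if ξ = (d i).η then 1 else 0 : ℤ) : ℂ) := by
          have h := hx i ξ
          rw [hμ ξ, ci_smul_right, map_intCast, hz] at h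
          by_cases hξ : ξ = (d i).η <;> simp [hξ] at h ⊢ <;> linear_combination h
        have hw' : ((ε ξ * w (μ ξ) : ℤ) : ℂ) = (((d i).D ξ * c i k : ℤ) : ℂ) := by
          rw [← hAc i k hik ξ, hμ ξ, ci_smul_right, map_intCast, hw]; push_cast; rfl
        have hz'' : ε ξ * z (μ ξ) = x i * (d i).D ξ - if ξ = (d i).η then 1 else 0 := Int.cast_injective hz'
        have hw'' : ε ξ * w (μ ξ) = (d i).D ξ * c i k := Int.cast_injective hw'
        rw [← hz'', ← hw'']
        rcases hε ξ with h | h <;> rw [h] <;> ring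
    obtain ⟨t₁, ht₁⟩ := key i k hik z w hz hw
    obtain ⟨t₂, ht₂⟩ := key k i hik.symm w z hw hz
    rw [Finset.sum_congr rfl (fun θ _ => mul_comm (w θ) (z θ))] at ht₂
    set Ei := Finset.univ.filter (fun θ : IrrCharacter G => Nonconst (K i) (θ : G → ℂ))
    set Ek := Finset.univ.filter (fun θ : IrrCharacter G => Nonconst (K k) (θ : G → ℂ))
    have hEd : Disjoint Ei Ek := Finset.disjoint_left.2 fun θ h1 h2 => by
      obtain ⟨ξ, hξ⟩ := ((d i).exc_iff θ).2 (Finset.mem_filter.1 h1).2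
      obtain ⟨ζ, hζ⟩ := ((d k).exc_iff θ).2 (Finset.mem_filter.1 h2).2
      have h := cross (hcop i k hik) (d i) (d k) ξ ζ
      rcases hξ with hξ | hξ <;> rcases hζ with hζ | hζ <;> rw [hξ, hζ] at h <;>
        simp [ci_neg_left, ci_neg_right, inner_irr_self θ.2] at h
    have hone' : one ∉ Ei ∪ Ek := by
      simp only [Finset.mem_union, not_or]
      constructor <;> intro h <;> obtain ⟨a, -, b, -, -, -, hab⟩ := (Finset.mem_filter.1 h).2 <;> exact hab rfl
    have hz1 : z one = 1 := by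
      have h := hz one
      rw [show classInner (d i).A (one : G → ℂ) = 1 from (d i).A_one] at h
      exact_mod_cast h.symm
    have hw1 : w one = 1 := by
      have h := hw one
      rw [show classInner (d k).A (one : G → ℂ) = 1 from (d k).A_one] at h
      exact_mod_cast h.symm
    set Rest := (Finset.univ \ (Ei ∪ Ek)).erase one with hRest
    have heven : ((∑ θ ∈ Rest, z θ * w θ : ℤ) : ZMod 2) = 0 := by
      rw [Int.cast_sum]
      have hbar : ∀ θ ∈ Rest, ∀ (m : ι), ¬ Nonconst (K m) (θ : G → ℂ) →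
          ∀ (v : IrrCharacter G → ℤ), (∀ χ : IrrCharacter G, classInner (d m).A (χ : G → ℂ) = (v χ : ℂ)) →
          ¬ Nonconst (K m) (CfsgLib.CharExtra.conjEquiv θ : G → ℂ) ∧ v (CfsgLib.CharExtra.conjEquiv θ) = v θ := by
        intro θ _ m hm v hv
        obtain ⟨y₀, hy₀⟩ := Subgroup.ne_bot_iff_exists_ne_one.1 (hK1 m)
        have hcst : ∀ y ∈ K m, y ≠ 1 → (θ : G → ℂ) y = (θ : G → ℂ) y₀ := fun y hy hy1 => by
          by_contra hne
          exact hm ⟨y, hy, y₀, y₀.2, hy1, fun h => hy₀ (Subtype.ext h), hne⟩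
        refine ⟨fun ⟨a, ha, b, hb, ha1, hb1, hne⟩ => hne ?_, ?_⟩
        · rw [CfsgLib.CharExtra.conjEquiv_apply, CfsgLib.CharExtra.conjEquiv_apply, hcst a ha ha1, hcst b hb hb1]
        · have h1 := (d m).A_const _ (IsCharacter.isClassFunction (isCharacter_irr θ)) _ hcst
          rw [hv] at h1
          have h2 := (d m).A_const _ (IsCharacter.isClassFunction (isCharacter_irr (CfsgLib.CharExtra.conjEquiv θ))) _
            (fun y hy hy1 => by rw [CfsgLib.CharExtra.conjEquiv_apply, hcst y hy hy1])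
          rw [hv, ← h1, map_intCast] at h2
          exact_mod_cast h2
      have hR : ∀ θ ∈ Rest, θ ≠ one ∧ ¬ Nonconst (K i) (θ : G → ℂ) ∧ ¬ Nonconst (K k) (θ : G → ℂ) := fun θ hθ => by
        simpa [hRest, Ei, Ek, and_assoc] using hθ
      refine Finset.sum_involution (fun θ _ => CfsgLib.CharExtra.conjEquiv θ) (fun θ hθ => ?_) (fun θ hθ _ he => ?_)
        (fun θ hθ => ?_) (fun θ _ => ?_)
      · rw [(hbar θ hθ i (hR θ hθ).2.1 z hz).2, (hbar θ hθ k (hR θ hθ).2.2 w hw).2, ← two_mul]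
        rw [show (2 : ZMod 2) = 0 from by decide, zero_mul]
      · refine (hR θ hθ).1 (Subtype.ext (CfsgLib.CharExtra.eq_one_of_real hodd θ fun g => ?_))
        have := congrFun (congrArg Subtype.val he) g
        rw [CfsgLib.CharExtra.conjEquiv_apply] at this
        exact Complex.conj_eq_iff_im.1 this
      · refine Finset.mem_erase.2 ⟨fun he => (hR θ hθ).1 (Subtype.ext (funext fun g => ?_)), ?_⟩
        · have := congrFun (congrArg Subtype.val he) g
          rw [CfsgLib.CharExtra.conjEquiv_apply] at this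
          have h' := congrArg conj this
          rw [Complex.conj_conj] at h'
          rw [h']; simp [one]
        · simp only [Finset.mem_sdiff, Finset.mem_univ, true_and, Finset.mem_union, not_or, Ei, Ek, Finset.mem_filter]
          exact ⟨(hbar θ hθ i (hR θ hθ).2.1 z hz).1, (hbar θ hθ k (hR θ hθ).2.2 w hw).1⟩
      · exact Subtype.ext (funext fun g => Complex.conj_conj _)
    have hsplit : ∑ θ : IrrCharacter G, z θ * w θ =
        1 + (∑ θ ∈ Ei, z θ * w θ + ∑ θ ∈ Ek, z θ * w θ) + ∑ θ ∈ Rest, z θ * w θ := by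
      rw [← Finset.sum_union hEd, ← Finset.sum_sdiff (Finset.subset_univ (Ei ∪ Ek)),
        ← Finset.add_sum_erase _ _ (Finset.mem_sdiff.2 ⟨Finset.mem_univ one, hone'⟩), hz1, hw1]
      ring
    rw [h0, ht₁, ht₂] at hsplit
    obtain ⟨t₃, ht₃⟩ := (ZMod.intCast_zmod_eq_zero_iff_dvd _ 2).1 heven
    by_contra hno
    push Not at hno
    rw [hno.1, hno.2, ht₃] at hsplit
    push_cast at hsplit
    omega
  -- counting
  have hL0 : ∀ k, (0 : ℝ) < (Nat.card (Subgroup.normalizer (K k : Set G)) : ℝ) := fun k => Nat.cast_pos.2 Nat.card_pos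
  have hcoverSum : ∀ F : G → ℝ, (∀ g x : G, F (x * g * x⁻¹) = F g) →
      ∑ g, F g = F 1 + ∑ k, (Nat.card G : ℝ) / (Nat.card (Subgroup.normalizer (K k : Set G)) : ℝ) *
        ∑ y ∈ sharp (K k), F y := by
    intro F hF
    rw [← Finset.add_sum_erase _ _ (Finset.mem_univ (1 : G))]
    congr 1
    have hset : (Finset.univ : Finset G).erase 1 =
        Finset.univ.biUnion fun k => Finset.univ.filter fun g => Meets (K k) g := by
      ext g
      simp only [Finset.mem_erase, Finset.mem_univ, and_true, Finset.mem_biUnion, Finset.mem_filter, true_and]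
      exact ⟨fun h => (hcover g h).imp fun k hk => ⟨h, hk⟩, fun ⟨k, hk⟩ => hk.1⟩
    have hdis : ∀ a ∈ (Finset.univ : Finset ι), ∀ b ∈ (Finset.univ : Finset ι), a ≠ b →
        Disjoint (Finset.univ.filter fun g => Meets (K a) g) (Finset.univ.filter fun g => Meets (K b) g) :=
      fun a _ b _ hab => Finset.disjoint_left.2 fun g h1 h2 =>
        disjoint_meets (hcop a b hab) (Finset.mem_filter.1 h1).2 (Finset.mem_filter.1 h2).2
    rw [hset, Finset.sum_biUnion hdis]
    refine Finset.sum_congr rfl fun k _ => ?_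
    rw [div_mul_eq_mul_div, eq_div_iff (hL0 k).ne', ← sum_meets (K k) (hTI k) F hF, mul_comm]
  have hcard : ∀ k, ((sharp (K k)).card : ℝ) = ((d k).e : ℝ) * (d k).σ := fun k => by
    have h : (sharp (K k)).card = (d k).e * (d k).σ := by
      rw [sharp, Finset.card_erase_of_mem (Finset.mem_filter.2 ⟨Finset.mem_univ _, (K k).one_mem⟩),
        show (Finset.univ.filter fun g => g ∈ K k).card = Nat.card (K k) by
          rw [← Fintype.card_subtype, ← Nat.card_eq_fintype_card], (d k).card_eq]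
      omega
    rw [h, Nat.cast_mul]
  have hLk : ∀ k, (Nat.card (Subgroup.normalizer (K k : Set G)) : ℝ) = ((d k).e : ℝ) * (Nat.card (K k) : ℝ) :=
    fun k => by rw [(d k).card_norm, Nat.cast_mul]
  have hhpos : ∀ k, (0 : ℝ) < (Nat.card (K k) : ℝ) := fun k => Nat.cast_pos.2 Nat.card_pos
  have hepos : ∀ k, (0 : ℝ) < ((d k).e : ℝ) := fun k => Nat.cast_pos.2 (zero_lt_one.trans (d k).one_lt_e)
  set T : ι → ℝ := fun k => ((d k).σ : ℝ) / (Nat.card (K k) : ℝ) with hT
  have hg0 : (0 : ℝ) < (Nat.card G : ℝ) := Nat.cast_pos.2 Nat.card_pos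
  have hsumT : ∑ k, T k = 1 - 1 / (Nat.card G : ℝ) := by
    have h := hcoverSum (fun _ => 1) (fun _ _ => rfl)
    simp only [Finset.sum_const, nsmul_eq_mul, mul_one, Finset.card_univ, ← Nat.card_eq_fintype_card] at h
    rw [Finset.sum_congr rfl (g := fun k => (Nat.card G : ℝ) * T k) (fun k _ => by
      rw [hcard, hLk, hT]; field_simp [(hhpos k).ne', (hepos k).ne']), ← Finset.mul_sum] at h
    field_simp
    linarith
  obtain ⟨i, -, hmin⟩ := Finset.exists_min_image Finset.univ (fun k => Nat.card (K k)) Finset.univ_nonempty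
  set f := (d i).exc (d i).η with hf
  have hfn : classInner f f = 1 := by rw [hf, (d i).exc_orth, if_pos rfl]
  obtain ⟨ε, μ, hε, hμ⟩ := exists_single ((d i).exc_gen (d i).η) hfn
  have hμn : Nonconst (K i) (μ : G → ℂ) := ((d i).exc_iff μ).1 ⟨(d i).η, by rcases hε with rfl | rfl <;> simp [hμ]⟩
  have hdeg : 2 ≤ charDegree (μ : G → ℂ) := by
    by_contra hlt
    have hd1 : charDegree (μ : G → ℂ) = 1 := by have := charDegree_pos μ; omega
    obtain ⟨l, rfl⟩ := exists_homIrr μ hd1
    obtain ⟨a, -, b, -, ha, hb, hab⟩ := hμn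
    refine hab ?_
    have h1 : ∀ g : G, g ≠ 1 → l g = 1 := fun g hg => by
      obtain ⟨k, x, hx⟩ := hcover g hg
      have h := (d k).lin l _ hx
      rwa [map_mul, map_mul, map_inv, mul_comm (l x), mul_inv_cancel_right] at h
    show (l a : ℂ) = (l b : ℂ)
    rw [h1 a ha, h1 b hb]
  have hf1 : Complex.normSq (f 1) = (charDegree (μ : G → ℂ) : ℝ) ^ 2 := by
    rw [show f = ε • (μ : G → ℂ) from hμ, Pi.smul_apply, smul_eq_mul, Complex.normSq_mul, irr_apply_one, Complex.normSq_natCast]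
    rcases hε with rfl | rfl <;> simp [pow_two]
  have hnorm : ∑ g, Complex.normSq (f g) = (Nat.card G : ℝ) := by
    have h := hfn
    rw [classInner, inv_mul_eq_one₀ (natCast_card_ne_zero G)] at h
    simp only [Complex.mul_conj] at h
    rw [← Complex.ofReal_sum] at h
    exact_mod_cast h.symm
  have hsh : ∀ k ∈ Finset.univ.erase i, ∑ y ∈ sharp (K k), Complex.normSq (f y) =
      ((d k).e : ℝ) * (d k).σ * ((c i k : ℝ) ^ 2) := fun k hk => by
    rw [Finset.sum_congr rfl (g := fun _ => (c i k : ℝ) ^ 2) (fun y hy => by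
      obtain ⟨hy1, hy⟩ := mem_sharp.1 hy
      rw [hf, hc i k (Ne.symm (Finset.mem_erase.1 hk).1) y hy hy1, Complex.normSq_intCast]; ring),
      Finset.sum_const, nsmul_eq_mul, hcard]
  have hout : (charDegree (μ : G → ℂ) : ℝ) ^ 2 / (Nat.card G : ℝ) +
      ∑ k ∈ Finset.univ.erase i, T k * (c i k : ℝ) ^ 2 ≤ ((d i).e : ℝ) / (Nat.card (K i) : ℝ) := by
    have h := hcoverSum (fun g => Complex.normSq (f g)) (fun g x => by
      rw [hf, genChar_classFun ((d i).exc_gen (d i).η) g x])
    rw [hnorm, hf1, ← Finset.add_sum_erase _ _ (Finset.mem_univ i),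
      Finset.sum_congr rfl (g := fun k => (Nat.card G : ℝ) * (T k * (c i k : ℝ) ^ 2)) (fun k hk => by
        rw [hsh k hk, hLk, hT]; field_simp [(hhpos k).ne', (hepos k).ne']), ← Finset.mul_sum, hLk] at h
    have hmine := mul_le_mul_of_nonneg_left (d i).own
      (show (0 : ℝ) ≤ (Nat.card G : ℝ) / (((d i).e : ℝ) * (Nat.card (K i) : ℝ)) from
        div_nonneg hg0.le (mul_nonneg (hepos i).le (hhpos i).le))
    have e1 : (Nat.card G : ℝ) / (((d i).e : ℝ) * (Nat.card (K i) : ℝ)) *
        (((d i).e : ℝ) * (Nat.card (K i) : ℝ) - ((d i).e : ℝ) ^ 2) =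
        (Nat.card G : ℝ) * (1 - ((d i).e : ℝ) / (Nat.card (K i) : ℝ)) := by
      field_simp [(hhpos i).ne', (hepos i).ne']
    rw [e1, ← hf] at hmine
    refine le_of_mul_le_mul_left ?_ hg0
    rw [mul_add, mul_div_cancel₀ _ hg0.ne']
    nlinarith
  have hi : ((d i).σ : ℝ) ≤ ((d i).σ : ℝ) := le_rfl
  have hTk : ∀ k ∈ Finset.univ.erase i,
      T k ≤ T k * (c i k : ℝ) ^ 2 + (c k i : ℝ) ^ 2 * (d k).σ / (Nat.card (K i) : ℝ) := by
    intro k hk
    have hki := (Finset.mem_erase.1 hk).1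
    have hTn : 0 ≤ T k := div_nonneg (Nat.cast_nonneg _) (hhpos k).le
    rcases hpar i k (Ne.symm hki) with h | h
    · have h1 : (1 : ℝ) ≤ (c i k : ℝ) ^ 2 := by
        have : 1 ≤ (c i k) ^ 2 := by nlinarith [mul_self_pos.2 h]
        exact_mod_cast this
      have h2 : 0 ≤ (c k i : ℝ) ^ 2 * (d k).σ / (Nat.card (K i) : ℝ) := by positivity
      nlinarith
    · have h1 : (1 : ℝ) ≤ (c k i : ℝ) ^ 2 := by
        have : 1 ≤ (c k i) ^ 2 := by nlinarith [mul_self_pos.2 h]
        exact_mod_cast this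
      have h2 : T k ≤ ((d k).σ : ℝ) / (Nat.card (K i) : ℝ) :=
        div_le_div_of_nonneg_left (Nat.cast_nonneg _) (hhpos i) (by exact_mod_cast hmin k (Finset.mem_univ k))
      have h3 : ((d k).σ : ℝ) / (Nat.card (K i) : ℝ) ≤ (c k i : ℝ) ^ 2 * (d k).σ / (Nat.card (K i) : ℝ) :=
        div_le_div_of_nonneg_right (le_mul_of_one_le_left (Nat.cast_nonneg _) h1) (hhpos i).le
      have h4 : 0 ≤ T k * (c i k : ℝ) ^ 2 := mul_nonneg hTn (sq_nonneg _)
      linarith
  have hin' : (∑ k ∈ Finset.univ.erase i, (c k i : ℝ) ^ 2 * (d k).σ / (Nat.card (K i) : ℝ)) ≤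
      (((d i).e : ℝ) - 1) / (Nat.card (K i) : ℝ) := by
    rw [← Finset.sum_div]
    refine div_le_div_of_nonneg_right ?_ (hhpos i).le
    have h : (((∑ k ∈ Finset.univ.erase i, c k i * c k i * ((d k).σ : ℤ) : ℤ)) : ℝ) ≤ ((((d i).e : ℤ) - 1 : ℤ) : ℝ) :=
      Int.cast_le.2 (hin i)
    push_cast at h
    simpa [pow_two] using h
  have hrest : ∑ k ∈ Finset.univ.erase i, T k ≤
      ((d i).e : ℝ) / (Nat.card (K i) : ℝ) - (charDegree (μ : G → ℂ) : ℝ) ^ 2 / (Nat.card G : ℝ) +
        (((d i).e : ℝ) - 1) / (Nat.card (K i) : ℝ) := by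
    refine (Finset.sum_le_sum hTk).trans ?_
    rw [Finset.sum_add_distrib]
    linarith
  rw [← Finset.add_sum_erase _ _ (Finset.mem_univ i)] at hsumT
  have h4 : (4 : ℝ) ≤ (charDegree (μ : G → ℂ) : ℝ) ^ 2 := by
    have : (2 : ℝ) ≤ (charDegree (μ : G → ℂ) : ℝ) := by exact_mod_cast hdeg
    nlinarith
  have hfin : T i + ((d i).e : ℝ) / (Nat.card (K i) : ℝ) + (((d i).e : ℝ) - 1) / (Nat.card (K i) : ℝ) ≤ 1 := by
    rw [hT]
    simp only
    rw [← add_div, ← add_div, div_le_one (hhpos i), (d i).card_eq]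
    push_cast
    have h1 : (2 : ℝ) ≤ (d i).σ := by exact_mod_cast (d i).σ_ge
    have h2 : (2 : ℝ) ≤ (d i).e := by exact_mod_cast (d i).one_lt_e
    nlinarith
  have h5 : 4 / (Nat.card G : ℝ) ≤ (charDegree (μ : G → ℂ) : ℝ) ^ 2 / (Nat.card G : ℝ) :=
    div_le_div_of_nonneg_right h4 hg0.le
  have h6 : (1 : ℝ) / (Nat.card G : ℝ) < 4 / (Nat.card G : ℝ) := (div_lt_div_iff_of_pos_right hg0).2 (by norm_num)
  linarith

end CfsgLib.FHT

namespace Cfsg.Agent.S1526

/-- Let G be a finite group of odd order and (L i, H i), i in a finite index type with at least two elements, pairs of subgroups with H i a nontrivial proper normal subgroup of L i such that every non-identity element of H i has its centraliser within L i contained in H i (L i is a Frobenius group with kernel H i), the orders of the H i pairwise coprime, and the underlying set of each H i a TI-subset of G with normaliser L i. If every non-identity element of G is conjugate to an element of some H i, we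 reach a contradiction. -/
theorem result {G : Type*} [Group G] [Finite G] (hodd : Odd (Nat.card G)) {ι : Type*} [Fintype ι] (hι : 2 ≤ Fintype.card ι) (L H : ι → Subgroup G) (hHL : ∀ i, H i < L i) (hH1 : ∀ i, H i ≠ ⊥) (hHn : ∀ i, ∀ x ∈ L i, ∀ h ∈ H i, x * h * x⁻¹ ∈ H i) (hfrob : ∀ i, ∀ h ∈ H i, h ≠ 1 → L i ⊓ Subgroup.centralizer ({h} : Set G) ≤ H i) (hcop : ∀ i j, i ≠ j → Nat.Coprime (Nat.card (H i)) (Nat.card (H j))) (hTI : ∀ i, Cfsg.IsTISubset (H i : Set G) ∧ Subgroup.normalizer (H i : Set G) = L i) (hcover : ∀ g : G, g ≠ 1 → ∃ i, ∃ x : G, x * g * x⁻¹ ∈ H i) : False := by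
  classical
  haveI : Fintype G := Fintype.ofFinite G
  haveI : Nonempty ι := Fintype.card_pos_iff.1 (by omega)
  have hnorm : ∀ i, Subgroup.normalizer (H i : Set G) = L i := fun i => (hTI i).2
  have hlt : ∀ i, H i < Subgroup.normalizer (H i : Set G) := fun i => (hnorm i).symm ▸ hHL i
  have hC : ∀ i, ∀ k ∈ H i, k ≠ 1 → Subgroup.centralizer ({k} : Set G) ≤ H i := fun i k hk hk1 g hg => by
    have hgL : g ∈ L i := by
      rw [← hnorm i]
      by_contra hn
      refine hk1 ((hTI i).1 g hn k hk ?_)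
      rw [Subgroup.mem_centralizer_singleton_iff.1 hg, mul_inv_cancel_right]
      exact hk
    exact hfrob i k hk hk1 ⟨hgL, hg⟩
  have hd := fun i => CfsgLib.ExceptionalTI.exists_data (H i) (hH1 i) (hTI i).1 (hlt i) (hC i)
    (hodd.of_dvd_nat (Subgroup.card_subgroup_dvd_card _))
  exact CfsgLib.FHT.main hodd H hH1 (fun i => (hd i).some) hcop (fun i => (hTI i).1) hcover

end Cfsg.Agent.S1526
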