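import Cfsg.Statements.S0183
import Cfsg.Agent.S1526
import Cfsg.Agent.S1473
import Cfsg.Agent.Lib.CNOddMaximal

set_option autoImplicit false
open Cfsg

namespace CfsgLib.CNTheorem

open CfsgLib.CNGroup CfsgLib.CNOdd

universe u

theorem no_min_simple {G : Type u} [Group G] [Finite G] (hG : Cfsg.IsMinSimpleOddOrder G) (hCN : Cfsg.IsCNGroup G) :
    False := by
  classical
  haveI : Fintype G := Fintype.ofFinite G
  let s : Setoid {H : Subgroup G // IsMaxNilp H} :=
    { r := fun A B => ∃ g : G, B.1 = A.1.map (MulAut.conj g).toMonoidHom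
      iseqv := ⟨fun A => ⟨1, by ext; simp⟩, fun {A B} ⟨g, hg⟩ => ⟨g⁻¹, by
          rw [hg, Subgroup.map_map]; ext x; simp [mul_assoc]⟩,
        fun {A B C} ⟨g, hg⟩ ⟨h, hh⟩ => ⟨h * g, by rw [hh, hg, Subgroup.map_map]; ext x; simp [mul_assoc]⟩⟩ }
  haveI : Finite (Quotient s) := Quotient.finite s
  haveI : Fintype (Quotient s) := Fintype.ofFinite _
  let K : Quotient s → Subgroup G := fun i => i.out.1
  have hK : ∀ i, IsMaxNilp (K i) := fun i => i.out.2
  haveI := hG.2.1
  haveI : Nonempty (Quotient s) := by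
    obtain ⟨H, -, hH⟩ := exists_ge (G := G) (C := ⊥) inferInstance
    exact ⟨Quotient.mk s ⟨H, hH⟩⟩
  have hTI : ∀ i, Cfsg.IsTISubset (K i : Set G) := by
    intro i g hg x hx hgx
    by_contra hx1
    have h1 : g * x * g⁻¹ ∈ K i ⊓ (K i).map (MulAut.conj g).toMonoidHom := ⟨hgx, x, hx, rfl⟩
    rw [ti hG hCN (hK i) g (fun e => hg (Subgroup.mem_normalizer_iff_map_conj_eq.2 e)), Subgroup.mem_bot] at h1
    exact hx1 (by
      calc x = g⁻¹ * (g * x * g⁻¹) * g := by group
        _ = 1 := by rw [h1]; group)
  have hd := fun i => CfsgLib.ExceptionalTI.exists_data (K i) (maxNilp_ne_bot hG (hK i)) (hTI i)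
    (lt_normalizer hG hCN (hK i)) (fun k hk hk1 => centralizer_le' hG hCN (hK i) hk hk1)
    (hG.1.of_dvd_nat (Subgroup.card_subgroup_dvd_card _))
  refine CfsgLib.FHT.main hG.1 K (fun i => maxNilp_ne_bot hG (hK i)) (fun i => (hd i).some) ?_ hTI ?_
  · intro i j hij
    refine (conj_or_coprime hG hCN (hK i) (hK j)).resolve_left fun ⟨g, hg⟩ => hij ?_
    rw [← Quotient.out_eq i, ← Quotient.out_eq j]
    exact Quotient.sound ⟨g, hg⟩
  · intro g hg1
    obtain ⟨H, hgH, hH⟩ := exists_ge (C := Subgroup.zpowers g) (by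
      letI : CommGroup (Subgroup.zpowers g) := IsMulCommutative.instCommGroup
      exact CommGroup.isNilpotent)
    obtain ⟨x, hx⟩ : ∃ x : G, K (Quotient.mk s ⟨H, hH⟩) = H.map (MulAut.conj x).toMonoidHom :=
      (Quotient.exact (Quotient.out_eq (Quotient.mk s ⟨H, hH⟩)).symm)
    exact ⟨Quotient.mk s ⟨H, hH⟩, x, by rw [hx]; exact ⟨g, hgH (Subgroup.mem_zpowers g), rfl⟩⟩

theorem subgroup_cn {G : Type u} [Group G] (hCN : Cfsg.IsCNGroup G) (H : Subgroup G) : Cfsg.IsCNGroup H := by
  intro h hh
  haveI := CfsgLib.CNQuotient.isNilpotent_le (A := (Subgroup.centralizer ({h} : Set H)).map H.subtype)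
    (B := Subgroup.centralizer ({(h : G)} : Set G)) (by
      rintro _ ⟨c, hc, rfl⟩
      exact Subgroup.mem_centralizer_singleton_iff.2
        (congrArg Subtype.val (Subgroup.mem_centralizer_singleton_iff.1 hc)))
    (hCN (h : G) (fun e => hh (Subtype.ext e)))
  exact Group.nilpotent_of_mulEquiv (G := (Subgroup.centralizer ({h} : Set H)).map H.subtype)
    ((Subgroup.centralizer ({h} : Set H)).equivMapOfInjective _ H.subtype_injective).symm

theorem main : ∀ (n : ℕ) (G : Type u) [Group G] [Finite G], Nat.card G = n → Odd (Nat.card G) →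
    Cfsg.IsCNGroup G → Group.IsSolvable G := by
  intro n
  induction n using Nat.strong_induction_on with
  | _ n ih =>
    intro G _ _ hn hodd hCN
    by_contra hns
    haveI : Nontrivial G := by
      by_contra h
      haveI := not_nontrivial_iff_subsingleton.1 h
      letI : CommGroup G := { (inferInstance : Group G) with mul_comm := fun _ _ => Subsingleton.elim _ _ }
      exact hns inferInstance
    have hsub : ∀ H : Subgroup G, H ≠ ⊤ → Group.IsSolvable H := fun H hH => by
      refine ih (Nat.card H) (hn ▸ lt_of_le_of_ne (Subgroup.card_le_card_group H) fun e => hH ?_) H rfl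
        (hodd.of_dvd_nat (Subgroup.card_subgroup_dvd_card H)) (subgroup_cn hCN H)
      exact Subgroup.eq_top_of_card_eq H e
    haveI : IsSimpleGroup G := by
      refine ⟨fun N hN => ?_⟩
      by_contra hc
      push Not at hc
      haveI := hN
      haveI := hsub N hc.2
      have hlt : Nat.card (G ⧸ N) < n := by
        rw [← hn, ← Subgroup.index_eq_card, ← Subgroup.card_mul_index N]
        exact lt_mul_of_one_lt_left (Nat.pos_of_ne_zero Subgroup.index_ne_zero_of_finite)
          ((Subgroup.one_lt_card_iff_ne_bot N).2 hc.1)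
      haveI := ih _ hlt (G ⧸ N) rfl (hodd.of_dvd_nat (Subgroup.card_quotient_dvd_card N))
        (Cfsg.Agent.S1473.result hCN N inferInstance)
      exact hns ((Group.isSolvable_iff_subgroup_quotient N).2 ⟨inferInstance, inferInstance⟩)
    refine no_min_simple ⟨hodd, inferInstance, fun hc => hns ?_, hsub⟩ hCN
    letI : CommGroup G := { (inferInstance : Group G) with mul_comm := hc.is_comm.comm }
    infer_instance

end CfsgLib.CNTheorem

namespace Cfsg.Agent.S0183

/-- The CN-Theorem for odd order: a finite group of odd order in which every non-identity element has a nilpotent centralizer (a CN-group) is solvable. -/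
theorem result {G : Type*} [Group G] [Finite G] (hodd : Odd (Nat.card G)) (hCN : Cfsg.IsCNGroup G) : Group.IsSolvable G := by
  exact CfsgLib.CNTheorem.main _ G rfl hodd hCN

end Cfsg.Agent.S0183
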