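import Cfsg.Statements.S0184
import Mathlib
import Cfsg.Agent.Lib.Chars.Misc
import Cfsg.Agent.Lib.Chars.Kernel
import Cfsg.Agent.Lib.PStep
import Cfsg.Agent.S0136

set_option autoImplicit false
open Cfsg

namespace Cfsg.Agent.S0184

/-- A finite p-group admits a faithful irreducible complex representation if and only if its centre is cyclic. -/
theorem result {G : Type*} [Group G] [Finite G] (p : ℕ) [Fact p.Prime] (hG : IsPGroup p G) : (∃ (n : ℕ) (ρ : Representation ℂ G (Fin n → ℂ)), ρ.IsIrreducible ∧ Function.Injective ρ) ↔ IsCyclic (Subgroup.center G) := by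
  classical
  haveI := Fintype.ofFinite G
  constructor
  · rintro ⟨n, ρ, hρ, hinj⟩
    let χ : Cfsg.IrrCharacter G := ⟨ρ.character, n, ρ, hρ, rfl⟩
    have h1 := CfsgLib.Chars.irr_one_ne_zero χ
    let lam : Subgroup.center G →* ℂ :=
      { toFun := fun z => (χ : G → ℂ) z / (χ : G → ℂ) 1
        map_one' := by simp [h1]
        map_mul' := fun y z => by
          have h := CfsgLib.Chars.mul_central χ y.2 (z : G)
          show (χ : G → ℂ) ((y : G) * (z : G)) / _ = _
          field_simp
          exact h }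
    refine isCyclic_of_injective_ringHom lam ?_
    refine (injective_iff_map_eq_one lam).2 fun z hz => ?_
    have hz' : (χ : G → ℂ) z = (χ : G → ℂ) 1 := (div_eq_one_iff_eq h1).1 hz
    refine Subtype.ext (hinj ?_)
    rw [Subgroup.coe_one, map_one]
    refine (CfsgLib.Chars.character_eq_degree_iff ρ (z : G)).1 ?_
    exact hz'
  · intro hcyc
    rcases subsingleton_or_nontrivial G with hs | hnt
    · obtain ⟨n, ρ, hρ, -⟩ := CfsgLib.Chars.isIrrCharacter_one G
      exact ⟨n, ρ, hρ, fun a b _ => Subsingleton.elim a b⟩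
    haveI := IsPGroup.center_nontrivial hG
    obtain ⟨z, hz⟩ := IsCyclic.exists_ofOrder_eq_natCard (α := Subgroup.center G)
    obtain ⟨k, hk⟩ := (hG.to_subgroup (Subgroup.center G)).exists_card_eq
    have hk0 : k ≠ 0 := by
      rintro rfl
      have := Finite.one_lt_card (α := Subgroup.center G)
      rw [hk, pow_zero] at this
      exact lt_irrefl _ this
    set w : Subgroup.center G := z ^ (p ^ (k - 1)) with hwdef
    have hw : orderOf w = p := by
      rw [hwdef, orderOf_pow, hz, hk, Nat.gcd_eq_right (pow_dvd_pow _ (Nat.sub_le _ _)), Nat.pow_div (Nat.sub_le _ _) (Fact.out : p.Prime).pos,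
        show k - (k - 1) = 1 by omega, pow_one]
    have hw1 : (w : G) ≠ 1 := fun h => by
      have : w = 1 := Subtype.ext h
      rw [this, orderOf_one] at hw
      exact (Fact.out : p.Prime).one_lt.ne hw
    obtain ⟨χ, hχ⟩ : ∃ χ : Cfsg.IrrCharacter G, (χ : G → ℂ) w ≠ (χ : G → ℂ) 1 := by
      by_contra hc
      push Not at hc
      obtain ⟨c, hcc⟩ := isConj_iff.1 ((Cfsg.Agent.S0136.result (w : G) 1).2 hc)
      exact hw1 (by simpa [mul_assoc] using congrArg (fun t => c⁻¹ * t * c) hcc)
    obtain ⟨n, ρ, hρ, hc⟩ := χ.2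
    refine ⟨n, ρ, hρ, ?_⟩
    rw [← MonoidHom.ker_eq_bot_iff]
    by_contra hne
    haveI : Nontrivial (MonoidHom.ker ρ) := (Subgroup.nontrivial_iff_ne_bot _).2 hne
    obtain ⟨y, hy, hy1⟩ : ∃ y ∈ MonoidHom.ker ρ ⊓ Subgroup.center G, y ≠ 1 := by
      exact Subgroup.bot_or_exists_ne_one _ |>.resolve_left
        (CfsgLib.PStep.normal_inf_center_ne_bot hG (MonoidHom.normal_ker ρ) hne)
    have hy' : (⟨y, hy.2⟩ : Subgroup.center G) ≠ 1 := fun h => hy1 (congrArg Subtype.val h)
    have hle : Subgroup.zpowers w ≤ Subgroup.zpowers (⟨y, hy.2⟩ : Subgroup.center G) := by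
      have hd : p ∣ Nat.card (Subgroup.zpowers (⟨y, hy.2⟩ : Subgroup.center G)) := by
        rw [Nat.card_zpowers]
        obtain ⟨j, hj⟩ := IsPGroup.iff_orderOf.1 (hG.to_subgroup (Subgroup.center G)) ⟨y, hy.2⟩
        rw [hj]
        refine dvd_pow_self p ?_
        rintro rfl
        exact hy' (orderOf_eq_one_iff.1 (by simpa using hj))
      obtain ⟨u, hu⟩ := exists_prime_orderOf_dvd_card' p hd
      haveI : Fintype (Subgroup.center G) := Fintype.ofFinite _
      have hu' : orderOf (u : Subgroup.center G) = p := by rw [Subgroup.orderOf_coe, hu]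
      have hwu : w ∈ Subgroup.zpowers (u : Subgroup.center G) := by
        by_contra hnot
        have h1 := IsCyclic.card_pow_eq_one_le (α := Subgroup.center G) (Fact.out : p.Prime).pos
        have h2 : insert w ((Subgroup.zpowers (u : Subgroup.center G) : Set (Subgroup.center G)).toFinset) ⊆
            Finset.univ.filter (fun x => x ^ p = 1) := by
          intro x hx
          refine Finset.mem_filter.2 ⟨Finset.mem_univ _, ?_⟩
          rcases Finset.mem_insert.1 hx with rfl | hx
          · exact orderOf_dvd_iff_pow_eq_one.1 hw.dvd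
          · rw [Set.mem_toFinset, SetLike.mem_coe, Subgroup.mem_zpowers_iff] at hx
            obtain ⟨i, rfl⟩ := hx
            rw [← zpow_natCast, zpow_comm, zpow_natCast]
            rw [orderOf_dvd_iff_pow_eq_one.1 hu'.dvd, one_zpow]
        have h3 := (Finset.card_le_card h2).trans h1
        rw [Finset.card_insert_of_notMem (by simpa using hnot), Set.toFinset_card, ← Nat.card_eq_fintype_card] at h3
        simp only [SetLike.coe_sort_coe, Nat.card_zpowers, hu'] at h3
        omega
      rw [Subgroup.zpowers_le]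
      exact (Subgroup.zpowers_le.2 u.2) hwu
    obtain ⟨j, hj⟩ := Subgroup.mem_zpowers_iff.1 (hle (Subgroup.mem_zpowers w))
    refine hχ ?_
    rw [← hc]
    refine (CfsgLib.Chars.character_eq_degree_iff ρ _).2 ?_
    rw [← hj, SubgroupClass.coe_zpow]
    exact (MonoidHom.ker ρ).zpow_mem hy.1 j

end Cfsg.Agent.S0184
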