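import Cfsg.Statements.S0185
import Mathlib
import Cfsg.Agent.Lib.Chars.Kernel
import Cfsg.Agent.Lib.Chars.Linear
import Cfsg.Agent.Lib.Chars.Central

set_option autoImplicit false
open Cfsg

namespace Cfsg.Agent.S0185

/-- If a finite group has a faithful complex representation of degree less than the smallest prime dividing its order, the group is abelian. -/
theorem result {G : Type*} [Group G] [Finite G] {V : Type*} [AddCommGroup V] [Module ℂ V] [FiniteDimensional ℂ V] (ρ : Representation ℂ G V) (hfaithful : Function.Injective ρ) (hdeg : ∀ p : ℕ, p.Prime → p ∣ Nat.card G → Module.finrank ℂ V < p) (a b : G) : a * b = b * a := by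
  classical
  haveI := Fintype.ofFinite G
  obtain ⟨l, hl⟩ := CfsgLib.Chars.exists_list_irr (CfsgLib.Chars.isCharacter_character ρ)
  have hone : ∀ χ ∈ l, (χ : G → ℂ) 1 = 1 := by
    intro χ hχ
    have h1 := congrFun hl 1
    rw [Representation.char_one] at h1
    obtain ⟨t, u, rfl⟩ := List.append_of_mem hχ
    have hh : ∀ w : List (Cfsg.IrrCharacter G), (w.map Subtype.val).sum (1 : G) =
        (((w.map fun x : Cfsg.IrrCharacter G => Cfsg.charDegree (x : G → ℂ)).sum : ℕ) : ℂ) := by
      intro w; induction w with
      | nil => simp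
      | cons x w ih =>
        simp only [List.map_cons, List.sum_cons, Pi.add_apply, Nat.cast_add, ih, CfsgLib.Chars.irr_apply_one]
    rw [hh, Nat.cast_inj] at h1
    simp only [List.map_append, List.map_cons, List.sum_append, List.sum_cons] at h1
    rw [CfsgLib.Chars.irr_apply_one]
    by_contra hne
    have hd : Cfsg.charDegree (χ : G → ℂ) ≠ 1 := fun h => hne (by rw [h, Nat.cast_one])
    obtain ⟨p, hp, hpd⟩ := Nat.exists_prime_and_dvd hd
    have h2 := hdeg p hp (hpd.trans (CfsgLib.Chars.charDegree_dvd χ))
    have h3 := Nat.le_of_dvd (CfsgLib.Chars.charDegree_pos χ) hpd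
    omega
  apply commutatorElement_eq_one_iff_mul_comm.1
  apply hfaithful
  rw [map_one]
  refine CfsgLib.Chars.character_eq_degree_iff ρ _ |>.1 ?_
  rw [hl]
  clear hl
  induction l with
  | nil => simp
  | cons χ t ih =>
    obtain ⟨f, hf⟩ := CfsgLib.Chars.IsCharacter.exists_hom (CfsgLib.Chars.isCharacter_irr χ) (hone χ (by simp))
    simp only [List.map_cons, List.sum_cons, Pi.add_apply]
    rw [ih (fun ψ hψ => hone ψ (by simp [hψ])), hone χ (by simp), hf]
    simp [commutatorElement_def]

end Cfsg.Agent.S0185
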