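import Cfsg.Statements.S0186
import Mathlib
import Cfsg.Agent.Lib.Chars.Central
import Cfsg.Agent.Lib.Chars.Linear
import Cfsg.Agent.Lib.Chars.Kernel

set_option autoImplicit false
open Cfsg

open Cfsg CfsgLib.Chars

namespace Cfsg.Agent.S0186

/-- Let G be a finite simple group of order n and p a prime dividing n. If G has more than n / p^2 conjugacy classes, then every Sylow p-subgroup of G is abelian. -/
theorem result {G : Type*} [Group G] [Finite G] [IsSimpleGroup G] (p : ℕ) [Fact p.Prime] (hp : p ∣ Nat.card G) (hmany : Nat.card G < p ^ 2 * Nat.card (ConjClasses G)) (P : Sylow p G) (a b : G) (ha : a ∈ P) (hb : b ∈ P) : a * b = b * a := by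
  classical
  haveI : Fintype G := Fintype.ofFinite G
  haveI : Finite (IrrCharacter G) := finite_irr G
  haveI : Fintype (IrrCharacter G) := Fintype.ofFinite _
  have hpp : p.Prime := Fact.out
  obtain ⟨k, hk⟩ := P.2.exists_card_eq
  by_cases hp2 : k ≤ 2
  · haveI : IsMulCommutative (P : Subgroup G) := by
      rcases k with _ | _ | _ | k
      · haveI : Subsingleton (P : Subgroup G) := Finite.card_le_one_iff_subsingleton.1 (le_of_eq (by rw [hk, pow_zero]))
        exact ⟨⟨fun _ _ => Subsingleton.elim _ _⟩⟩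
      · haveI : IsCyclic (P : Subgroup G) := isCyclic_of_prime_card (p := p) (by simpa using hk)
        exact ⟨⟨(IsCyclic.commGroup (α := (P : Subgroup G))).mul_comm⟩⟩
      · exact ⟨⟨(IsPGroup.commGroupOfCardEqPrimeSq (p := p) hk).mul_comm⟩⟩
      · omega
    exact congrArg Subtype.val ((IsMulCommutative.is_comm (M := (P : Subgroup G))).comm ⟨a, ha⟩ ⟨b, hb⟩)
  push Not at hp2
  have hdiv : p ^ 2 ∣ Nat.card G :=
    (pow_dvd_pow p hp2.le).trans (hk ▸ Subgroup.card_subgroup_dvd_card (P : Subgroup G))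
  -- some nonprincipal irreducible character has degree below `p`
  let one : IrrCharacter G := ⟨fun _ => 1, isIrrCharacter_one G⟩
  obtain ⟨χ, hχ1, hχ⟩ : ∃ χ : IrrCharacter G, χ ≠ one ∧ charDegree (χ : G → ℂ) < p := by
    by_contra hcon
    push Not at hcon
    have hsum : (∑ χ : IrrCharacter G, charDegree (χ : G → ℂ) ^ 2 : ℕ) = Nat.card G := by
      convert sum_deg_sq (G := G)
    have hlow : 1 + (Nat.card (ConjClasses G) - 1) * p ^ 2 ≤ Nat.card G := by
      rw [← hsum, ← Finset.add_sum_erase _ _ (Finset.mem_univ one)]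
      refine Nat.add_le_add ?_ ?_
      · exact Nat.one_le_pow _ _ (charDegree_pos one)
      · refine le_trans (le_of_eq ?_) (Finset.card_nsmul_le_sum _ _ (p ^ 2) fun χ hχ =>
          Nat.pow_le_pow_left (hcon χ (Finset.mem_erase.1 hχ).1) 2)
        rw [Finset.card_erase_of_mem (Finset.mem_univ _), Finset.card_univ, smul_eq_mul, ← Nat.card_eq_fintype_card, card_irr]
    obtain ⟨m, hm⟩ := hdiv
    rw [hm] at hmany hlow
    have hm' : m < Nat.card (ConjClasses G) := Nat.lt_of_mul_lt_mul_left hmany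
    have : p ^ 2 * m ≤ (Nat.card (ConjClasses G) - 1) * p ^ 2 := by
      rw [mul_comm (p ^ 2)]
      exact Nat.mul_le_mul_right _ (by omega)
    omega
  obtain ⟨K, hKn, hK, -⟩ := IsCharacter.exists_kernel (isCharacter_irr χ)
  have hK1 : K = ⊥ := by
    refine hKn.eq_bot_or_eq_top.resolve_right fun h => hχ1 ?_
    have hconst : ∀ g, (χ : G → ℂ) g = (χ : G → ℂ) 1 := fun g => (hK g).1 (h ▸ Subgroup.mem_top g)
    have hne : ∀ ψ : IrrCharacter G, ψ ≠ χ → classInner (χ : G → ℂ) (ψ : G → ℂ) = 0 := fun ψ hψ => by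
      rw [classInner_irr, if_neg (Ne.symm hψ)]
    by_contra hne1
    have h0 := hne one (Ne.symm hne1)
    simp only [classInner, hconst, one] at h0
    simp [irr_one_ne_zero] at h0
  obtain ⟨l, hl⟩ := exists_list_irr (IsCharacter.restrict (isCharacter_irr χ) (P : Subgroup G))
  have hdeg1 : ∀ φ ∈ l, charDegree (φ : ↥(P : Subgroup G) → ℂ) = 1 := by
    intro φ hφ
    have hle : charDegree (φ : ↥(P : Subgroup G) → ℂ) ≤ charDegree (χ : G → ℂ) := by
      have h1 := congrFun hl 1
      have hw : ∀ w : List (IrrCharacter (P : Subgroup G)), (w.map Subtype.val).sum (1 : (P : Subgroup G)) =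
          (((w.map fun x : IrrCharacter (P : Subgroup G) => charDegree (x : ↥(P : Subgroup G) → ℂ)).sum : ℕ) : ℂ) := by
        intro w; induction w with
        | nil => simp
        | cons x w ih => simp only [List.map_cons, List.sum_cons, Pi.add_apply, Nat.cast_add, ih, irr_apply_one]
      rw [hw] at h1
      simp only [OneMemClass.coe_one, irr_apply_one, Nat.cast_inj] at h1
      rw [h1]
      exact List.le_sum_of_mem (List.mem_map.2 ⟨φ, hφ, rfl⟩)
    obtain ⟨j, -, hj⟩ := (Nat.dvd_prime_pow hpp).1 (hk ▸ charDegree_dvd φ)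
    rcases Nat.eq_zero_or_pos j with rfl | hj0
    · simpa using hj
    · have : p ≤ charDegree (φ : ↥(P : Subgroup G) → ℂ) := hj ▸ Nat.le_self_pow hj0.ne' p
      omega
  let c : (P : Subgroup G) := ⟨a, ha⟩ * ⟨b, hb⟩ * (⟨a, ha⟩ : (P : Subgroup G))⁻¹ * (⟨b, hb⟩ : (P : Subgroup G))⁻¹
  have hc : ∀ φ ∈ l, (φ : ↥(P : Subgroup G) → ℂ) c = (φ : ↥(P : Subgroup G) → ℂ) 1 := by
    intro φ hφ
    obtain ⟨f, hf⟩ := IsCharacter.exists_hom (isCharacter_irr φ) (by rw [irr_apply_one, hdeg1 φ hφ, Nat.cast_one])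
    rw [hf]
    show (f c : ℂ) = (f 1 : ℂ)
    rw [map_one]
    simp only [c, map_mul, map_inv]
    rw [mul_comm (f ⟨a, ha⟩) (f ⟨b, hb⟩)]
    simp
  have hcK : (c : G) ∈ K := by
    rw [hK]
    have hw : ∀ w : List (IrrCharacter (P : Subgroup G)), (∀ φ ∈ w, (φ : ↥(P : Subgroup G) → ℂ) c = (φ : ↥(P : Subgroup G) → ℂ) 1) →
        (w.map Subtype.val).sum c = (w.map Subtype.val).sum (1 : (P : Subgroup G)) := by
      intro w; induction w with
      | nil => intro _; simp
      | cons x w ih =>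
        intro h
        simp only [List.map_cons, List.sum_cons, Pi.add_apply]
        rw [h x List.mem_cons_self, ih fun φ hφ => h φ (List.mem_cons_of_mem _ hφ)]
    have h2 := hw l hc
    rw [← hl] at h2
    simpa using h2
  rw [hK1, Subgroup.mem_bot] at hcK
  have h3 : a * b * a⁻¹ * b⁻¹ = 1 := hcK
  calc a * b = (a * b * a⁻¹ * b⁻¹) * (b * a) := by group
    _ = b * a := by rw [h3, one_mul]

end Cfsg.Agent.S0186
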