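import Cfsg.Statements.S0189
import Mathlib
import Cfsg.Agent.Lib.Chars.Induced

set_option autoImplicit false
open Cfsg

namespace Cfsg.Agent.S0189

/-- If a complex character of a finite group vanishes at every non-identity element of a Sylow p-subgroup P, then |P| divides its degree. -/
theorem result {G : Type*} [Group G] [Finite G] (p : ℕ) [Fact p.Prime] (P : Sylow p G) (χ : G → ℂ) (hχ : Cfsg.IsCharacter G χ) (hvan : ∀ g : G, g ∈ P → g ≠ 1 → χ g = 0) : ∃ k : ℕ, χ 1 = (Nat.card P : ℂ) * k := by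
  classical
  haveI : Fintype (P : Subgroup G) := Fintype.ofFinite _
  obtain ⟨m, hm⟩ := CfsgLib.Chars.exists_mult
    (CfsgLib.Chars.IsCharacter.restrict hχ (P : Subgroup G))
    ⟨fun _ => (1 : ℂ), CfsgLib.Chars.isIrrCharacter_one _⟩
  refine ⟨m, ?_⟩
  simp only [Cfsg.classInner, map_one, mul_one] at hm
  rw [Finset.sum_eq_single (1 : (P : Subgroup G))] at hm
  · rw [← hm, ← mul_assoc, mul_inv_cancel₀ (by exact_mod_cast Nat.card_pos.ne'), one_mul]
    rfl
  · intro x _ hx
    exact hvan x x.2 fun h => hx (Subtype.ext h)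
  · simp

end Cfsg.Agent.S0189
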