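import Cfsg.Statements.S0191
import Mathlib
import Cfsg.Agent.Lib.Chars.Galois

set_option autoImplicit false
open Cfsg

namespace Cfsg.Agent.S0191

/-- An irreducible complex representation of a finite group of degree greater than 1 has a character that vanishes somewhere. -/
theorem result {G : Type*} [Group G] [Finite G] {V : Type*} [AddCommGroup V] [Module ℂ V] [FiniteDimensional ℂ V] (ρ : Representation ℂ G V) [ρ.IsIrreducible] (hdeg : 1 < Module.finrank ℂ V) : ∃ g : G, ρ.character g = 0 := by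
  classical
  haveI := Fintype.ofFinite G
  by_contra hne
  push Not at hne
  have hirr : Cfsg.IsIrrCharacter G ρ.character := CfsgLib.Chars.isIrrCharacter_character ρ inferInstance
  let χ : Cfsg.IrrCharacter G := ⟨_, hirr⟩
  have h1 := CfsgLib.Chars.sum_mul_conj_irr χ χ
  rw [if_pos rfl] at h1
  have h2 : ∑ g : G, ‖ρ.character g‖ ^ 2 = (Fintype.card G : ℝ) := by
    have : ((∑ g : G, ‖ρ.character g‖ ^ 2 : ℝ) : ℂ) = ((Fintype.card G : ℝ) : ℂ) := by
      push_cast
      simp_rw [← Complex.mul_conj']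
      rw [show ((Fintype.card G : ℂ)) = (Nat.card G : ℂ) by rw [Nat.card_eq_fintype_card]]
      exact h1
    exact_mod_cast this
  have h3 := CfsgLib.Chars.card_le_sum_norm_pow (CfsgLib.Chars.isCharacter_irr χ) 2 (Finset.univ.erase (1 : G))
    (fun h hh h' e => Finset.mem_erase.2 ⟨fun e1 => (Finset.mem_erase.1 hh).1 (by
      rw [e1, Subgroup.zpowers_one_eq_bot] at e
      exact Subgroup.zpowers_eq_bot.1 e.symm), Finset.mem_univ _⟩)
    (fun h _ => hne h)
  rw [← Finset.add_sum_erase _ _ (Finset.mem_univ (1 : G))] at h2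
  rw [Finset.card_erase_of_mem (Finset.mem_univ _), Finset.card_univ, Nat.cast_sub (Nat.one_le_iff_ne_zero.2 Fintype.card_ne_zero),
    Nat.cast_one] at h3
  have h4 : ‖ρ.character 1‖ = (Module.finrank ℂ V : ℝ) := by
    rw [Representation.char_one, Complex.norm_natCast]
  rw [h4] at h2
  have h5 : (2 : ℝ) ≤ (Module.finrank ℂ V : ℝ) := by exact_mod_cast hdeg
  have h6 : ∑ h ∈ Finset.univ.erase (1 : G), ‖(χ : G → ℂ) h‖ ^ 2 = ∑ h ∈ Finset.univ.erase (1 : G), ‖ρ.character h‖ ^ 2 := rfl
  rw [h6] at h3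
  nlinarith

end Cfsg.Agent.S0191
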