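import Cfsg.Statements.S0192
import Mathlib
import Cfsg.Agent.Lib.Chars.Rep
import Cfsg.Agent.Lib.Chars.Orth

set_option autoImplicit false
open Cfsg

namespace Cfsg.Agent.S0192

/-- Brauer's generation criterion. Let G be a finite simple group, H₁ and H₂ subgroups, and χ a non-principal irreducible character. If the multiplicity of the principal character in χ restricted to H₁ ⊓ H₂ is less than the sum of the corresponding multiplicities for H₁ and H₂, then H₁ and H₂ do not generate G. -/
theorem result {G : Type*} [Group G] [Fintype G] [IsSimpleGroup G] (H₁ H₂ : Subgroup G) [Fintype H₁] [Fintype H₂] [Fintype ↥(H₁ ⊓ H₂)] (χ : G → ℂ) (hχ : Cfsg.IsIrrCharacter G χ) (hχ1 : χ ≠ fun _ => 1) (hlt : (Cfsg.classInner (fun x : ↥(H₁ ⊓ H₂) => χ x) (fun _ => 1)).re < (Cfsg.classInner (fun x : H₁ => χ x) (fun _ => 1)).re + (Cfsg.classInner (fun x : H₂ => χ x) (fun _ => 1)).re) : H₁ ⊔ H₂ ≠ ⊤ := by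
  classical
  intro htop
  obtain ⟨n, ρ, hρ, hc⟩ := hχ
  let I : Subgroup G → Submodule ℂ (Fin n → ℂ) := fun H => Representation.invariants (ρ.comp H.subtype)
  have hdim : ∀ (H : Subgroup G) [Fintype H],
      (Cfsg.classInner (fun x : H => χ x) (fun _ => 1)).re = (Module.finrank ℂ (I H) : ℝ) := by
    intro H _
    haveI : Invertible (Nat.card H : ℂ) := invertibleOfNonzero (CfsgLib.Chars.natCast_card_ne_zero H)
    have h1 := Representation.card_inv_mul_sum_char_eq_finrank (ρ.comp H.subtype)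
    have h2 : Cfsg.classInner (fun x : H => χ x) (fun _ => 1) = (Module.finrank ℂ (I H) : ℂ) := by
      rw [Cfsg.classInner, ← h1]
      congr 1
      exact Finset.sum_congr rfl fun x _ => by rw [map_one, mul_one, ← hc]; rfl
    rw [h2, Complex.natCast_re]
  rw [hdim, hdim, hdim, ← Nat.cast_add, Nat.cast_lt] at hlt
  have mem : ∀ (H : Subgroup G) (v : Fin n → ℂ), v ∈ I H ↔ ∀ h : H, ρ h v = v := fun H v => Representation.mem_invariants _ v
  have hle : I H₁ ⊔ I H₂ ≤ I (H₁ ⊓ H₂) := sup_le
    (fun v hv => (mem _ v).2 fun h => (mem _ v).1 hv ⟨h, h.2.1⟩) (fun v hv => (mem _ v).2 fun h => (mem _ v).1 hv ⟨h, h.2.2⟩)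
  have hne : I H₁ ⊓ I H₂ ≠ ⊥ := by
    intro hb
    have h1 := Submodule.finrank_sup_add_finrank_inf_eq (I H₁) (I H₂)
    rw [hb, finrank_bot, add_zero] at h1
    have h2 := Submodule.finrank_mono hle
    omega
  obtain ⟨v, ⟨hv1, hv2⟩, hv0⟩ := Submodule.exists_mem_ne_zero_of_ne_bot hne
  have hfix : ∀ g : G, ρ g v = v := by
    let S : Subgroup G :=
      { carrier := {g | ρ g v = v}
        mul_mem' := fun {a b} ha hb => by
          show ρ (a * b) v = v
          rw [map_mul, Module.End.mul_apply, hb, ha]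
        one_mem' := by simp
        inv_mem' := fun {a} ha => by
          show ρ a⁻¹ v = v
          nth_rewrite 1 [← show ρ a v = v from ha]
          rw [← Module.End.mul_apply, ← map_mul, inv_mul_cancel, map_one, Module.End.one_apply] }
    have hS : H₁ ⊔ H₂ ≤ S := sup_le (fun g hg => (mem _ v).1 hv1 ⟨g, hg⟩) (fun g hg => (mem _ v).1 hv2 ⟨g, hg⟩)
    exact fun g => hS (htop ▸ Subgroup.mem_top g)
  have hspan : (ℂ ∙ v) = ⊤ := (((CfsgLib.Chars.isIrreducible_iff ρ).1 hρ).2 _ fun g w hw => by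
    obtain ⟨t, rfl⟩ := Submodule.mem_span_singleton.1 hw
    rw [map_smul, hfix]
    exact hw).resolve_left (by simp [hv0])
  apply hχ1
  funext g
  have hid : ρ g = LinearMap.id := LinearMap.ext fun w => by
    obtain ⟨t, rfl⟩ := Submodule.mem_span_singleton.1 (hspan ▸ Submodule.mem_top (x := w))
    rw [map_smul, hfix]; rfl
  have hn : Module.finrank ℂ (Fin n → ℂ) = 1 := by
    rw [← finrank_top ℂ (Fin n → ℂ), ← hspan, finrank_span_singleton hv0]
  rw [← hc, Representation.character, hid, LinearMap.trace_id, hn, Nat.cast_one]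

end Cfsg.Agent.S0192
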