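import Cfsg.Statements.S0194
import Mathlib
import Cfsg.Agent.Lib.CharExtra

set_option autoImplicit false
open scoped ComplexConjugate
open Cfsg

namespace Cfsg.Agent.S0194

/-- Let G have odd order, H be a normal subgroup and θ a non-principal irreducible character of H. Then the function induced from θ is orthogonal to its complex conjugate. -/
theorem result {G : Type*} [Group G] [Fintype G] (hodd : Odd (Nat.card G)) (H : Subgroup G) [H.Normal] (θ : H → ℂ) (hθ : Cfsg.IsIrrCharacter H θ) (hθ1 : θ ≠ fun _ => 1) : Cfsg.classInner (fun g => conj (Cfsg.indFun H θ g)) (Cfsg.indFun H θ) = 0 := by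
  classical
  let t : Cfsg.IrrCharacter H := ⟨θ, hθ⟩
  have hind : (fun g => conj (Cfsg.indFun H θ g)) = Cfsg.indFun H (CfsgLib.CharExtra.conjEquiv t : H → ℂ) := by
    funext g
    simp only [Cfsg.indFun, map_mul, map_inv₀, map_natCast, map_sum]
    congr 1
    refine Finset.sum_congr rfl fun x _ => ?_
    by_cases hx : x⁻¹ * g * x ∈ H
    · rw [CfsgLib.Chars.extendByZero_coe H θ ⟨_, hx⟩,
        CfsgLib.Chars.extendByZero_coe H (CfsgLib.CharExtra.conjEquiv t : H → ℂ) ⟨_, hx⟩]
      rfl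
    · have hne : ¬∃ h : H, (h : G) = x⁻¹ * g * x := fun ⟨h, hh⟩ => hx (hh ▸ h.2)
      simp only [Cfsg.extendByZero]
      rw [Function.extend_apply' _ _ _ hne, Function.extend_apply' _ _ _ hne]
      simp
  have hN : (Nat.card H : ℂ) ≠ 0 := Nat.cast_ne_zero.2 Nat.card_pos.ne'
  refine (mul_eq_zero.1 ?_).resolve_left hN
  rw [hind, CfsgLib.CharExtra.card_mul_inner_ind H (CfsgLib.CharExtra.conjEquiv t) t, Nat.cast_eq_zero]
  haveI : IsEmpty {g : G // CfsgLib.Chars.conjIrr H t g = CfsgLib.CharExtra.conjEquiv t} := by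
    refine ⟨fun ⟨g, hg⟩ => hθ1 ?_⟩
    have h2 : CfsgLib.Chars.conjIrr H t (g * g) = t := by
      rw [CfsgLib.Chars.conjIrr_mul, hg]
      apply Subtype.ext; funext h
      rw [CfsgLib.Chars.conjIrr_apply, CfsgLib.CharExtra.conjEquiv_apply, ← CfsgLib.Chars.conjIrr_apply, hg,
        CfsgLib.CharExtra.conjEquiv_apply]
      exact Complex.conj_conj _
    have hpow : ∀ k : ℕ, CfsgLib.Chars.conjIrr H t ((g * g) ^ k) = t := by
      intro k; induction k with
      | zero => rw [pow_zero, CfsgLib.Chars.conjIrr_one]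
      | succ k ih => rw [pow_succ, CfsgLib.Chars.conjIrr_mul, ih, h2]
    obtain ⟨m, hm⟩ := hodd
    have hgm : (g * g) ^ (m + 1) = g := by
      rw [← pow_two, ← pow_mul, show 2 * (m + 1) = 2 * m + 1 + 1 by ring, pow_succ, ← hm, pow_card_eq_one', one_mul]
    have h3 : CfsgLib.CharExtra.conjEquiv t = t := by
      have h4 := hpow (m + 1)
      rw [hgm, hg] at h4
      exact h4
    exact CfsgLib.CharExtra.eq_one_of_real (Odd.of_dvd_nat ⟨m, hm⟩ (Subgroup.card_subgroup_dvd_card H)) t
      ((CfsgLib.CharExtra.conjEquiv_eq_iff t).1 h3)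
  simp

end Cfsg.Agent.S0194
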