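import Cfsg.Statements.S0196
import Mathlib

set_option autoImplicit false
open Cfsg

namespace Cfsg.Agent.S0196

/-- Let A be a subgroup of a finite group G that equals the centralizer of each of its non-identity elements, and let N be its normalizer. Then the index of A in N divides |A| − 1 (N/A permutes the non-identity elements of A in orbits of full length). -/
theorem result {G : Type*} [Group G] [Finite G] (A : Subgroup G) (hA : ∀ x ∈ A, x ≠ 1 → Subgroup.centralizer ({x} : Set G) = A) : (A.subgroupOf (Subgroup.normalizer (A : Set G))).index ∣ Nat.card A - 1 := by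
  classical
  set N := Subgroup.normalizer (A : Set G) with hN
  let X := {a : G // a ∈ A ∧ a ≠ 1}
  letI : MulAction N X :=
    { smul := fun n a => ⟨n * a * (n : G)⁻¹, (Subgroup.mem_normalizer_iff.1 n.2 a).1 a.2.1,
        fun h => a.2.2 (conj_eq_one_iff.1 h)⟩
      one_smul := fun a => Subtype.ext (by show ((1 : N) : G) * a * ((1 : N) : G)⁻¹ = a; simp)
      mul_smul := fun m n a => Subtype.ext (by
        show ((m * n : N) : G) * a * ((m * n : N) : G)⁻¹ = m * (n * a * (n : G)⁻¹) * (m : G)⁻¹
        simp [mul_assoc]) }
  have hstab : ∀ a : X, MulAction.stabilizer N a = A.subgroupOf N := by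
    intro a
    ext n
    rw [MulAction.mem_stabilizer_iff, Subgroup.mem_subgroupOf]
    conv_rhs => rw [← hA a a.2.1 a.2.2, Subgroup.mem_centralizer_singleton_iff]
    constructor
    · intro h
      have h' : (n : G) * a * (n : G)⁻¹ = a := congrArg Subtype.val h
      calc (n : G) * a = n * a * (n : G)⁻¹ * n := by group
        _ = a * n := by rw [h']
    · intro h
      apply Subtype.ext
      show (n : G) * a * (n : G)⁻¹ = a
      rw [h, mul_inv_cancel_right]
  haveI : Finite X := Subtype.finite
  haveI := Fintype.ofFinite X
  have hcard : Nat.card X = Nat.card A - 1 := by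
    have : (({a | a ∈ A ∧ a ≠ 1}) : Set G) = (A : Set G) \ {1} := by ext; simp
    show Nat.card ({a | a ∈ A ∧ a ≠ 1} : Set G) = _
    rw [Nat.card_coe_set_eq, this, Set.ncard_sdiff_singleton_of_mem A.one_mem,
      ← Nat.card_coe_set_eq]
    rfl
  rw [← hcard, Nat.card_congr (MulAction.selfEquivSigmaOrbits' N X), Nat.card_sigma]
  refine Finset.dvd_sum fun ω _ => ?_
  induction ω using Quotient.inductionOn' with
  | h a =>
    rw [MulAction.orbitRel.Quotient.orbit_mk, Nat.card_coe_set_eq, ← MulAction.index_stabilizer,
      hstab]

end Cfsg.Agent.S0196
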