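import Cfsg.Statements.S0201
import Cfsg.Agent.Lib.ZStar.Main

set_option autoImplicit false
open Cfsg

namespace Cfsg.Agent.S0201

/-- Brauer–Suzuki Theorem: if a Sylow 2-subgroup of a finite group is generalized quaternion (of order at least 8) and the group has no nontrivial normal subgroup of odd order, then its centre has order 2. -/
theorem result {G : Type*} [Group G] [Finite G] (S : Sylow 2 G) (n : ℕ) (e : (S : Subgroup G) ≃* QuaternionGroup (2 ^ (n + 1))) (hO : ∀ N : Subgroup G, N.Normal → Odd (Nat.card N) → N = ⊥) : Nat.card (Subgroup.center G) = 2 := by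
  haveI : Fact (Nat.Prime 2) := ⟨Nat.prime_two⟩
  haveI : NeZero (2 ^ (n + 1)) := ⟨pow_ne_zero _ two_ne_zero⟩
  have hN2 : 2 ≤ 2 ^ (n + 1) := by
    calc 2 = 2 ^ 1 := (pow_one 2).symm
      _ ≤ _ := Nat.pow_le_pow_right two_pos (by omega)
  set τ : (S : Subgroup G) := e.symm (QuaternionGroup.a ((2 ^ (n + 1) : ℕ) : ZMod (2 * 2 ^ (n + 1))))
  have hinv : ∀ s : (S : Subgroup G), (s : G) ^ 2 = 1 → s = 1 ∨ s = τ := by
    intro s hs
    have h1 : s ^ 2 = 1 := Subtype.ext (by simpa using hs)
    rcases CfsgLib.UniqueOrderP.quaternion_eq_of_sq (e s) (by rw [← map_pow, h1, map_one]) with h | h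
    · exact Or.inl (e.injective (by rw [h, map_one]))
    · exact Or.inr (e.injective (by rw [h, MulEquiv.apply_symm_apply]))
  obtain ⟨x, hx⟩ := exists_prime_orderOf_dvd_card' (G := (S : Subgroup G)) 2 (by
    rw [Nat.card_congr e.toEquiv, Nat.card_eq_fintype_card, QuaternionGroup.card]
    exact dvd_mul_of_dvd_left (by norm_num) _)
  have hxG : orderOf (x : G) = 2 := by rw [Subgroup.orderOf_coe]; exact hx
  have hxτ : x = τ := (hinv x (orderOf_dvd_iff_pow_eq_one.mp hxG.dvd)).resolve_left fun h => by
    rw [h, orderOf_one] at hx; norm_num at hx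
  set t : G := (τ : G)
  have hto : orderOf t = 2 := by rw [← hxG, hxτ]
  have hi : Cfsg.IsIsolatedInvolution t := by
    refine CfsgLib.Isolated.isIsolated_of_sylow (S := S) hto fun g hg => ?_
    have ho : orderOf (g * t * g⁻¹) = 2 := CfsgLib.Involution.orderOf_conj' hto
    rcases hinv ⟨_, hg⟩ (orderOf_dvd_iff_pow_eq_one.mp ho.dvd) with h | h
    · have h' : g * t * g⁻¹ = 1 := congrArg Subtype.val h
      rw [h', orderOf_one] at ho
      norm_num at ho
    · exact congrArg Subtype.val h
  have hbot : oddCore G = ⊥ := hO _ CfsgLib.ZStar.oddCore_normal CfsgLib.ZStar.oddCore_odd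
  have htc : t ∈ Subgroup.center G := CfsgLib.ZStar.center_of_no_odd hi fun g => by
    have := CfsgLib.ZStar.zstar hi g
    rwa [hbot, Subgroup.mem_bot] at this
  -- the centre is a 2-group inside `S`
  have hZ2 : IsPGroup 2 (Subgroup.center G) := by
    rw [IsPGroup.iff_card]
    refine ⟨(Nat.card (Subgroup.center G)).primeFactorsList.length,
      Nat.eq_prime_pow_of_unique_prime_dvd Nat.card_pos.ne' fun {q} hq hqd => ?_⟩
    by_contra hne
    haveI : Fact q.Prime := ⟨hq⟩
    obtain ⟨z, hz⟩ := exists_prime_orderOf_dvd_card' (G := Subgroup.center G) q hqd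
    have hn' : (Subgroup.zpowers (z : G)).Normal := ⟨fun m hm g => by
      rw [Subgroup.mem_center_iff.mp (Subgroup.zpowers_le.mpr z.2 hm) g, mul_inv_cancel_right]
      exact hm⟩
    have hb := hO _ hn' (by
      rw [Nat.card_zpowers, Subgroup.orderOf_coe, hz]; exact hq.odd_of_ne_two hne)
    rw [Subgroup.zpowers_eq_bot, OneMemClass.coe_eq_one] at hb
    rw [hb, orderOf_one] at hz
    exact hq.one_lt.ne hz
  have hZS : Subgroup.center G ≤ (S : Subgroup G) := CfsgLib.Core.sylow_inf_le S hZ2
  have hZ : (Subgroup.center G : Set G) = {1, t} := by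
    ext w
    simp only [SetLike.mem_coe, Set.mem_insert_iff, Set.mem_singleton_iff]
    refine ⟨fun hw => ?_, ?_⟩
    · have hc := CfsgLib.ZStar.quaternion_central_order hN2 (w := e ⟨w, hZS hw⟩) fun q => by
        obtain ⟨r, rfl⟩ := e.surjective q
        rw [← map_mul, ← map_mul]
        exact congrArg e (Subtype.ext (Subgroup.mem_center_iff.mp hw r).symm)
      rw [← map_mul, ← map_one e] at hc
      rcases hinv ⟨w, hZS hw⟩ (by
        rw [pow_two]; exact congrArg Subtype.val (e.injective hc)) with h | h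
      · exact Or.inl (congrArg Subtype.val h)
      · exact Or.inr (congrArg Subtype.val h)
    · rintro (rfl | rfl)
      · exact one_mem _
      · exact htc
  rw [← SetLike.coe_sort_coe, Nat.card_coe_set_eq, hZ]
  exact Set.ncard_pair (CfsgLib.Involution.ne_one hto).symm

end Cfsg.Agent.S0201
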