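import Cfsg.Statements.S0202
import Mathlib
import Cfsg.Agent.Lib.KleinSylow

set_option autoImplicit false
open Cfsg

namespace Cfsg.Agent.S0202

/-- If a Sylow 2-subgroup of a finite group is a Klein four-group, the group has one or three conjugacy classes of involutions. -/
theorem result {G : Type*} [Group G] [Finite G] (P : Sylow 2 G) (hP : IsKleinFour (P : Subgroup G)) : Nat.card {C : ConjClasses G // ∃ t : G, orderOf t = 2 ∧ ConjClasses.mk t = C} = 1 ∨ Nat.card {C : ConjClasses G // ∃ t : G, orderOf t = 2 ∧ ConjClasses.mk t = C} = 3 := by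
  obtain ⟨h1, h3⟩ := CfsgLib.KleinSylow.card_classes P hP
  rcases CfsgLib.KleinSylow.dichotomy P hP with h | h
  · exact Or.inr (h3 h.2)
  · exact Or.inl (h1 h)

end Cfsg.Agent.S0202
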