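import Cfsg.Statements.S0203
import Mathlib
import Cfsg.Agent.Lib.KleinSylow

set_option autoImplicit false
open Cfsg

namespace Cfsg.Agent.S0203

/-- If a Sylow 2-subgroup P of a finite group G is a Klein four-group, then G has three classes of involutions if and only if P has a normal complement in G. -/
theorem result {G : Type*} [Group G] [Finite G] (P : Sylow 2 G) (hP : IsKleinFour (P : Subgroup G)) : Nat.card {C : ConjClasses G // ∃ t : G, orderOf t = 2 ∧ ConjClasses.mk t = C} = 3 ↔ ∃ N : Subgroup G, N.Normal ∧ Subgroup.IsComplement' N (P : Subgroup G) := by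
  obtain ⟨h1, h3⟩ := CfsgLib.KleinSylow.card_classes P hP
  haveI : IsMulCommutative (P : Subgroup G) :=
    ⟨⟨mul_comm_of_exponent_two (haveI := hP; IsKleinFour.exponent_two)⟩⟩
  constructor
  · intro hc
    rcases CfsgLib.KleinSylow.dichotomy P hP with h | h
    · exact ⟨_, MonoidHom.normal_ker _, MonoidHom.ker_transferSylow_isComplement' P h.1⟩
    · rw [h1 h] at hc
      exact absurd hc (by decide)
  · rintro ⟨N, hN, hNP⟩
    refine h3 fun x hx y hy hxy => ?_
    obtain ⟨g, hg⟩ := isConj_iff.1 hxy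
    obtain ⟨⟨⟨a, ha⟩, ⟨b, hb⟩⟩, hab⟩ := hNP.2 g
    change a * b = g at hab
    have hbx : b * x = x * b :=
      congrArg Subtype.val (mul_comm' (⟨b, hb⟩ : (P : Subgroup G)) ⟨x, hx⟩)
    have hyx : y = a * x * a⁻¹ := by
      rw [← hg, ← hab, show a * b * x * (a * b)⁻¹ = a * (b * x * b⁻¹) * a⁻¹ by group, hbx,
        mul_inv_cancel_right]
    have h2 : x⁻¹ * y ∈ N ⊓ (P : Subgroup G) := by
      refine ⟨?_, (P : Subgroup G).mul_mem ((P : Subgroup G).inv_mem hx) hy⟩
      rw [hyx]
      have := mul_mem (hN.conj_mem a ha x⁻¹) (N.inv_mem ha)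
      simpa [mul_assoc] using this
    rw [disjoint_iff.1 hNP.disjoint, Subgroup.mem_bot] at h2
    exact inv_mul_eq_one.1 h2

end Cfsg.Agent.S0203
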