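import Cfsg.Statements.S0206
import Cfsg.Agent.Lib.Involution

set_option autoImplicit false
open Cfsg

namespace Cfsg.Agent.S0206

/-- Two distinct involutions x, y of a finite group generate a subgroup isomorphic to the dihedral group of order 2·|xy|. -/
theorem result {G : Type*} [Group G] [Finite G] (x y : G) (hx : orderOf x = 2) (hy : orderOf y = 2) (hxy : x ≠ y) : Nonempty (↥(Subgroup.closure ({x, y} : Set G)) ≃* DihedralGroup (orderOf (x * y))) := by
  classical
  have hn : 0 < orderOf (x * y) := orderOf_pos _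
  haveI : NeZero (orderOf (x * y)) := ⟨hn.ne'⟩
  have hadd : ∀ i j : ZMod (orderOf (x * y)),
      (x * y) ^ ((i + j).val : ℤ) = (x * y) ^ (i.val : ℤ) * (x * y) ^ (j.val : ℤ) := by
    intro i j
    rw [ZMod.val_add, ← zpow_add, zpow_natCast, pow_mod_orderOf, ← zpow_natCast, Nat.cast_add]
  have hsub : ∀ i j : ZMod (orderOf (x * y)),
      (x * y) ^ ((j - i).val : ℤ) = (x * y) ^ (-(i.val : ℤ)) * (x * y) ^ (j.val : ℤ) := by
    intro i j
    have := hadd i (j - i)
    rw [add_sub_cancel] at this
    rw [this, ← mul_assoc, ← zpow_add, neg_add_cancel, zpow_zero, one_mul]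
  let f : DihedralGroup (orderOf (x * y)) → G := fun d => match d with
    | .r i => (x * y) ^ (i.val : ℤ)
    | .sr i => x * (x * y) ^ (i.val : ℤ)
  have hmul : ∀ a b, f (a * b) = f a * f b := by
    rintro (i | i) (j | j) <;> simp only [DihedralGroup.r_mul_r, DihedralGroup.r_mul_sr,
      DihedralGroup.sr_mul_r, DihedralGroup.sr_mul_sr, f]
    · exact hadd i j
    · rw [hsub, ← mul_assoc, ← mul_assoc, CfsgLib.Involution.mul_zpow_eq hx hy, neg_neg]
    · rw [hadd, mul_assoc]
    · rw [hsub]
      rw [CfsgLib.Involution.mul_zpow_eq hx hy (i.val : ℤ)]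
      rw [mul_assoc ((x * y) ^ (-(i.val : ℤ))) x, ← mul_assoc x x, CfsgLib.Involution.mul_self hx,
        one_mul]
  let F : DihedralGroup (orderOf (x * y)) →* G := MonoidHom.mk' f hmul
  have hinj : Function.Injective F := by
    rw [injective_iff_map_eq_one]
    rintro (i | i) h
    · change (x * y) ^ (i.val : ℤ) = 1 at h
      rw [zpow_natCast] at h
      have hlt := ZMod.val_lt i
      have := Nat.eq_zero_of_dvd_of_lt (orderOf_dvd_of_pow_eq_one h) hlt
      rw [(ZMod.val_eq_zero i).mp this]
      rfl
    · change x * (x * y) ^ (i.val : ℤ) = 1 at h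
      refine absurd ?_ (CfsgLib.Involution.not_mem_zpowers_mul hx hy)
      exact ⟨-(i.val : ℤ), by simp only; rw [zpow_neg]; exact inv_eq_of_mul_eq_one_left h⟩
  have hrange : F.range = Subgroup.closure ({x, y} : Set G) := by
    refine le_antisymm ?_ ((Subgroup.closure_le _).mpr ?_)
    · rintro _ ⟨(i | i), rfl⟩
      · exact CfsgLib.Involution.mul_mem_closure_zpow x y _
      · exact Subgroup.mul_mem _ (Subgroup.subset_closure (by simp))
          (CfsgLib.Involution.mul_mem_closure_zpow x y _)
    · intro z hz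
      rcases hz with hz | hz
      · refine ⟨.sr 0, ?_⟩
        change x * (x * y) ^ ((0 : ZMod (orderOf (x * y))).val : ℤ) = z
        simp [hz]
      · refine ⟨.sr 1, ?_⟩
        change x * (x * y) ^ ((1 : ZMod (orderOf (x * y))).val : ℤ) = z
        rcases eq_or_lt_of_le (show 1 ≤ orderOf (x * y) from hn) with h1 | h1
        · exact absurd (orderOf_eq_one_iff.mp h1.symm) (fun h => hxy
            ((eq_inv_of_mul_eq_one_left h).trans (CfsgLib.Involution.inv_eq hy)))
        · haveI : Fact (1 < orderOf (x * y)) := ⟨h1⟩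
          rw [ZMod.val_one, Nat.cast_one, zpow_one, ← mul_assoc, CfsgLib.Involution.mul_self hx,
            one_mul]
          exact hz.symm
  exact ⟨((MonoidHom.ofInjective hinj).trans (MulEquiv.subgroupCongr hrange)).symm⟩

end Cfsg.Agent.S0206
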