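import Cfsg.Statements.S0207
import Cfsg.Agent.Lib.Involution

set_option autoImplicit false
open Cfsg

namespace Cfsg.Agent.S0207

/-- If x, y are distinct involutions, every element of the subgroup they generate that lies outside the cyclic subgroup generated by xy is an involution. -/
theorem result {G : Type*} [Group G] [Finite G] (x y : G) (hx : orderOf x = 2) (hy : orderOf y = 2) (hxy : x ≠ y) (d : G) (hd : d ∈ Subgroup.closure ({x, y} : Set G)) (hd' : d ∉ Subgroup.zpowers (x * y)) : orderOf d = 2 := by
  open CfsgLib.Involution in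
  obtain ⟨k, h | h⟩ := mem_closure_cases hx hy hd
  · exact absurd ⟨k, h.symm⟩ hd'
  · subst h
    refine CfsgLib.Involution.orderOf_eq_two ?_ fun h1 => ?_
    · rw [mul_assoc, ← mul_assoc x, CfsgLib.Involution.mul_zpow_eq hx hy, mul_assoc, CfsgLib.Involution.mul_self hx, mul_one, ← zpow_add, add_neg_cancel, zpow_zero]
    · refine CfsgLib.Involution.not_mem_zpowers_mul hx hy ⟨-k, ?_⟩
      simp only
      rw [zpow_neg]
      exact inv_eq_of_mul_eq_one_right h1

end Cfsg.Agent.S0207
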