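import Cfsg.Statements.S0210
import Cfsg.Agent.Lib.Involution

set_option autoImplicit false
open Cfsg

namespace Cfsg.Agent.S0210

/-- If x, y are involutions whose product has even order, no element of the subgroup generated by x and y conjugates x to y. -/
theorem result {G : Type*} [Group G] [Finite G] (x y : G) (hx : orderOf x = 2) (hy : orderOf y = 2) (heven : Even (orderOf (x * y))) (d : G) (hd : d ∈ Subgroup.closure ({x, y} : Set G)) : d * x * d⁻¹ ≠ y := by
  intro h
  obtain ⟨k, hk⟩ := CfsgLib.Involution.conj_closure_cases hx hy hd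
  have he : (x * y) ^ (2 * k) * x = (x * y) ^ (-1 : ℤ) * x :=
    (hk.symm.trans h).trans (CfsgLib.Involution.right_eq hx hy)
  have he' := mul_right_cancel he
  rw [zpow_eq_zpow_iff_modEq, Int.modEq_iff_dvd] at he'
  obtain ⟨m, hm⟩ := heven
  rw [hm] at he'
  obtain ⟨t, ht⟩ := he'
  push_cast at ht
  rw [show ((m : ℤ) + m) * t = 2 * (m * t) by ring] at ht
  omega

end Cfsg.Agent.S0210
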