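import Cfsg.Statements.S0211
import Cfsg.Agent.Lib.Involution

set_option autoImplicit false
open Cfsg

namespace Cfsg.Agent.S0211

/-- Let x, y be involutions with xy of even order n and z = (xy)^(n/2). Then xz is conjugate to x by an element of the subgroup generated by x, y if and only if 4 divides n. -/
theorem result {G : Type*} [Group G] [Finite G] (x y : G) (hx : orderOf x = 2) (hy : orderOf y = 2) (heven : Even (orderOf (x * y))) : (∃ d ∈ Subgroup.closure ({x, y} : Set G), d * x * d⁻¹ = x * (x * y) ^ (orderOf (x * y) / 2)) ↔ 4 ∣ orderOf (x * y) := by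
  obtain ⟨m, hm⟩ := heven
  have hz : x * (x * y) ^ (orderOf (x * y) / 2) = (x * y) ^ (m : ℤ) * x := by
    rw [← (CfsgLib.Involution.central_involution hx hy ⟨m, hm⟩).2.1.eq,
      show orderOf (x * y) / 2 = m by omega, zpow_natCast]
  rw [hz]
  constructor
  · rintro ⟨d, hd, h⟩
    obtain ⟨k, hk⟩ := CfsgLib.Involution.conj_closure_cases hx hy hd
    have he := mul_right_cancel (hk.symm.trans h)
    rw [zpow_eq_zpow_iff_modEq, Int.modEq_iff_dvd, hm] at he
    obtain ⟨t, ht⟩ := he
    push_cast at ht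
    rw [show ((m : ℤ) + m) * t = 2 * (m * t) by ring] at ht
    omega
  · intro h4
    rw [hm] at h4
    obtain ⟨k, hk⟩ : ∃ k, m = 2 * k := ⟨m / 2, by omega⟩
    refine ⟨(x * y) ^ (k : ℤ), CfsgLib.Involution.mul_mem_closure_zpow x y k, ?_⟩
    rw [CfsgLib.Involution.conj_zpow_left hx hy, hk]
    norm_cast

end Cfsg.Agent.S0211
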