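import Cfsg.Statements.S0212
import Mathlib
import Cfsg.Agent.Lib.InvolutionCount

set_option autoImplicit false
open Cfsg

namespace Cfsg.Agent.S0212

/-- The Brauer–Fowler bound: if G is a finite simple group and t an involution of G whose centralizer has order n, then |G| ≤ (2n^2)!. -/
theorem result {G : Type*} [Group G] [Finite G] [IsSimpleGroup G] (t : G) (ht : orderOf t = 2) : Nat.card G ≤ Nat.factorial (2 * (Nat.card (Subgroup.centralizer ({t} : Set G))) ^ 2) := by
  set c := Nat.card (Subgroup.centralizer ({t} : Set G)) with hc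
  have hc0 : 0 < c := Nat.card_pos
  by_cases hZ : Odd (Nat.card (Subgroup.center G))
  · have heven : Even (Nat.card G) := even_iff_two_dvd.2 (ht ▸ orderOf_dvd_natCard t)
    obtain ⟨H, hH, h⟩ := CfsgLib.InvolutionCount.exists_small_index heven hZ
    refine le_trans (CfsgLib.InvolutionCount.card_le_factorial H hH) (Nat.factorial_le ?_)
    have hc1 : 1 ≤ c ^ 2 := Nat.one_le_pow _ _ hc0
    rcases h with h | h
    · rw [h]; omega
    · set n := Nat.card {t : G // orderOf t = 2}
      have h1 : Nat.card G ≤ n * c := CfsgLib.InvolutionCount.card_le_mul_card t ht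
      have h2 : n ≤ Nat.card G := CfsgLib.InvolutionCount.card_involutions_le
      by_contra hlt
      push Not at hlt
      have h3 : Nat.card G * (Nat.card G + n) ≤ 2 * c ^ 2 * n ^ 2 := by
        calc Nat.card G * (Nat.card G + n) ≤ (n * c) * (n * c + n * c) :=
              Nat.mul_le_mul h1 (Nat.add_le_add h1 (le_trans (le_of_eq (mul_one n).symm)
                (Nat.mul_le_mul_left n hc0)))
          _ = 2 * c ^ 2 * n ^ 2 := by ring
      have h4 : 2 * c ^ 2 * n ^ 2 ≤ 2 * H.index * n ^ 2 :=
        Nat.mul_le_mul_right _ (Nat.mul_le_mul_left 2 (by omega))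
      omega
  · obtain ⟨h2, -⟩ := CfsgLib.InvolutionCount.card_eq_two_of_center_even hZ
    rw [h2]
    exact le_trans (le_of_eq Nat.factorial_two.symm)
      (Nat.factorial_le (Nat.le_mul_of_pos_right 2 (by positivity)))

end Cfsg.Agent.S0212
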