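import Cfsg.Statements.S0213
import Mathlib
import Cfsg.Agent.Lib.InvolutionCount
import Cfsg.Agent.Lib.TwoSylow

set_option autoImplicit false
open Cfsg

namespace Cfsg.Agent.S0213

/-- Thompson Order Formula, two-class case: if every involution of the finite group G is conjugate to exactly one of the non-conjugate involutions x₁, x₂, and nᵢ is the number of pairs (u, v) with u conjugate to x₁, v conjugate to x₂ and xᵢ in the cyclic group generated by uv, then |G| = |C(x₂)| n₁ + |C(x₁)| n₂. -/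
theorem result {G : Type*} [Group G] [Finite G] (x₁ x₂ : G) (h₁ : orderOf x₁ = 2) (h₂ : orderOf x₂ = 2) (hnc : ¬ IsConj x₁ x₂) (hall : ∀ t : G, orderOf t = 2 → IsConj x₁ t ∨ IsConj x₂ t) : Nat.card G = Nat.card (Subgroup.centralizer ({x₂} : Set G)) * Nat.card {p : G × G // IsConj x₁ p.1 ∧ IsConj x₂ p.2 ∧ x₁ ∈ Subgroup.zpowers (p.1 * p.2)} + Nat.card (Subgroup.centralizer ({x₁} : Set G)) * Nat.card {p : G × G // IsConj x₁ p.1 ∧ IsConj x₂ p.2 ∧ x₂ ∈ Subgroup.zpowers (p.1 * p.2)} := by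
  classical
  haveI := Fintype.ofFinite G
  let K : G → Type _ := fun x => {g : G // IsConj x g}
  have hord : ∀ {x g : G}, orderOf x = 2 → IsConj x g → orderOf g = 2 := by
    intro x g hx h
    obtain ⟨c, rfl⟩ := isConj_iff.1 h
    exact CfsgLib.Involution.orderOf_conj' hx
  let w : K x₁ × K x₂ → G := fun p =>
    (p.1.1 * p.2.1) ^ (orderOf (p.1.1 * p.2.1) / 2)
  have hw : ∀ p : K x₁ × K x₂, orderOf (w p) = 2 ∧
      ∀ x : G, orderOf x = 2 → (x ∈ Subgroup.zpowers (p.1.1 * p.2.1) ↔ w p = x) := by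
    intro p
    have hu := hord h₁ p.1.2
    have hv := hord h₂ p.2.2
    have he : Even (orderOf (p.1.1 * p.2.1)) := by
      by_contra ho
      exact hnc (p.1.2.trans ((CfsgLib.Involution.isConj_of_odd hu hv
        (Nat.not_even_iff_odd.1 ho)).trans p.2.2.symm))
    have h2 := (CfsgLib.Involution.central_involution hu hv he).1
    refine ⟨h2, fun x hx => ⟨fun hxm => ?_, fun h => h ▸ Subgroup.npow_mem_zpowers _ _⟩⟩
    exact congrArg Subtype.val (CfsgLib.TwoSylow.involution_unique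
      (C := Subgroup.zpowers (p.1.1 * p.2.1))
      (a := ⟨w p, Subgroup.npow_mem_zpowers _ _⟩) (b := ⟨x, hxm⟩)
      (by rw [Subgroup.orderOf_mk]; exact h2) (by rw [Subgroup.orderOf_mk]; exact hx))
  let c : G → K x₁ × K x₂ → K x₁ × K x₂ := fun g p =>
    (⟨g * p.1.1 * g⁻¹, p.1.2.trans (isConj_iff.2 ⟨g, rfl⟩)⟩,
     ⟨g * p.2.1 * g⁻¹, p.2.2.trans (isConj_iff.2 ⟨g, rfl⟩)⟩)
  have hcc : ∀ g p, c g (c g⁻¹ p) = p := by
    intro g p
    refine Prod.ext (Subtype.ext ?_) (Subtype.ext ?_)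
    · show g * (g⁻¹ * p.1.1 * g⁻¹⁻¹) * g⁻¹ = p.1.1
      group
    · show g * (g⁻¹ * p.2.1 * g⁻¹⁻¹) * g⁻¹ = p.2.1
      group
  have hwc : ∀ g p, w (c g p) = g * w p * g⁻¹ := by
    intro g p
    show (g * p.1.1 * g⁻¹ * (g * p.2.1 * g⁻¹)) ^ _ = _
    have e : g * p.1.1 * g⁻¹ * (g * p.2.1 * g⁻¹) = g * (p.1.1 * p.2.1) * g⁻¹ := by group
    show (g * p.1.1 * g⁻¹ * (g * p.2.1 * g⁻¹)) ^
      (orderOf (g * p.1.1 * g⁻¹ * (g * p.2.1 * g⁻¹)) / 2) = _
    rw [e, CfsgLib.Involution.orderOf_conj, conj_pow]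
  have hfib : ∀ x : G, orderOf x = 2 → Nat.card {p : K x₁ × K x₂ // IsConj x (w p)} =
      Nat.card (K x) * Nat.card {p : G × G // IsConj x₁ p.1 ∧ IsConj x₂ p.2 ∧
        x ∈ Subgroup.zpowers (p.1 * p.2)} := by
    intro x hx
    choose t ht using fun a : K x => isConj_iff.1 a.2
    have hn : Nat.card {p : G × G // IsConj x₁ p.1 ∧ IsConj x₂ p.2 ∧
        x ∈ Subgroup.zpowers (p.1 * p.2)} = Nat.card {p : K x₁ × K x₂ // w p = x} := by
      refine Nat.card_congr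
        { toFun := fun p => ⟨(⟨p.1.1, p.2.1⟩, ⟨p.1.2, p.2.2.1⟩), ((hw _).2 x hx).1 p.2.2.2⟩
          invFun := fun p => ⟨(p.1.1.1, p.1.2.1), p.1.1.2, p.1.2.2, ((hw _).2 x hx).2 p.2⟩
          left_inv := fun _ => rfl
          right_inv := fun _ => rfl }
    rw [hn, ← Nat.card_prod]
    refine Nat.card_congr
      { toFun := fun p => (⟨w p.1, p.2⟩, ⟨c (t ⟨w p.1, p.2⟩)⁻¹ p.1, ?_⟩)
        invFun := fun aq => ⟨c (t aq.1) aq.2.1, ?_⟩
        left_inv := fun p => Subtype.ext (hcc _ _)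
        right_inv := fun aq => ?_ }
    · rw [hwc, inv_inv]
      have h1 : t ⟨w p.1, p.2⟩ * x * (t ⟨w p.1, p.2⟩)⁻¹ = w p.1 := ht _
      calc (t ⟨w p.1, p.2⟩)⁻¹ * w p.1 * t ⟨w p.1, p.2⟩
          = (t ⟨w p.1, p.2⟩)⁻¹ * (t ⟨w p.1, p.2⟩ * x * (t ⟨w p.1, p.2⟩)⁻¹) * t ⟨w p.1, p.2⟩ := by
            rw [h1]
        _ = x := by group
    · rw [hwc, aq.2.2, ht]
      exact aq.1.2
    · obtain ⟨a, q, hq⟩ := aq
      have e1 : w (c (t a) q) = (a : G) := by rw [hwc, hq, ht]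
      have e2 : (⟨w (c (t a) q), (e1.symm ▸ a.2)⟩ : K x) = a := Subtype.ext e1
      refine Prod.ext e2 (Subtype.ext ?_)
      show c (t ⟨w (c (t a) q), _⟩)⁻¹ (c (t a) q) = q
      rw [e2]
      conv_lhs => arg 2; rw [← inv_inv (t a)]
      rw [hcc]
  have hsplit : Nat.card (K x₁ × K x₂) = Nat.card {p : K x₁ × K x₂ // IsConj x₁ (w p)} +
      Nat.card {p : K x₁ × K x₂ // IsConj x₂ (w p)} := by
    rw [← Nat.card_sum]
    refine (Nat.card_eq_of_bijective
      (Sum.elim Subtype.val Subtype.val :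
        {p : K x₁ × K x₂ // IsConj x₁ (w p)} ⊕ {p : K x₁ × K x₂ // IsConj x₂ (w p)} → K x₁ × K x₂)
      ⟨?_, fun p => ?_⟩).symm
    · rintro (⟨p, hp⟩ | ⟨p, hp⟩) (⟨q, hq⟩ | ⟨q, hq⟩) h <;> simp only [Sum.elim_inl, Sum.elim_inr] at h <;>
        subst h
      · rfl
      · exact absurd (hp.trans hq.symm) hnc
      · exact absurd (hq.trans hp.symm) hnc
      · rfl
    · rcases hall _ (hw p).1 with h | h
      · exact ⟨Sum.inl ⟨p, h⟩, rfl⟩
      · exact ⟨Sum.inr ⟨p, h⟩, rfl⟩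
  rw [Nat.card_prod, hfib x₁ h₁, hfib x₂ h₂] at hsplit
  have e1 := CfsgLib.InvolutionCount.card_class_mul_card_centralizer x₁
  have e2 := CfsgLib.InvolutionCount.card_class_mul_card_centralizer x₂
  refine Nat.eq_of_mul_eq_mul_left (Nat.card_pos (α := G)) ?_
  calc Nat.card G * Nat.card G
      = (Nat.card (K x₁) * Nat.card (K x₂)) * (Nat.card (Subgroup.centralizer ({x₁} : Set G)) *
          Nat.card (Subgroup.centralizer ({x₂} : Set G))) := by
        conv_lhs => arg 1; rw [← e1]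
        conv_lhs => arg 2; rw [← e2]
        ring
    _ = _ := by
        rw [hsplit]
        conv_rhs => rw [mul_add]
        conv_rhs => arg 1; arg 1; rw [← e1]
        conv_rhs => arg 2; arg 1; rw [← e2]
        ring

end Cfsg.Agent.S0213
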