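import Cfsg.Statements.S0216
import Cfsg.Agent.Lib.Isolated

set_option autoImplicit false
open Cfsg

namespace Cfsg.Agent.S0216

/-- For an involution u in a Sylow 2-subgroup P of a finite group G, the following are equivalent: no G-conjugate of u other than u lies in P; every commutator of u with an element of G has odd order. -/
theorem result {G : Type*} [Group G] [Finite G] (P : Sylow 2 G) (u : G) (hu : orderOf u = 2) (huP : u ∈ P) : (∀ g : G, g * u * g⁻¹ ∈ P → g * u * g⁻¹ = u) ↔ (∀ g : G, Odd (orderOf (u * g * u⁻¹ * g⁻¹))) := by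
  constructor
  · intro hiso g
    have hz := CfsgLib.Isolated.isIsolated_of_sylow hu hiso
    rw [show u * g * u⁻¹ * g⁻¹ = u * (g * u⁻¹ * g⁻¹) by group, CfsgLib.Involution.inv_eq hu]
    exact CfsgLib.Isolated.odd_orderOf_mul_conj hz g
  · intro h g hg
    have hodd := h g
    rw [show u * g * u⁻¹ * g⁻¹ = u * (g * u⁻¹ * g⁻¹) by group, CfsgLib.Involution.inv_eq hu] at hodd
    obtain ⟨k, hk⟩ := IsPGroup.iff_orderOf.mp P.isPGroup' ⟨_, mul_mem huP hg⟩
    rw [Subgroup.orderOf_mk] at hk
    rw [hk] at hodd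
    rcases k with _ | k
    · rw [pow_zero, orderOf_eq_one_iff] at hk
      exact ((eq_inv_of_mul_eq_one_right hk).trans (CfsgLib.Involution.inv_eq hu))
    · exact absurd hodd (Nat.not_odd_iff_even.mpr ((Nat.even_pow' (by simp)).mpr even_two))

end Cfsg.Agent.S0216
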