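import Cfsg.Statements.S0218
import Cfsg.Agent.Lib.Involution

set_option autoImplicit false
open Cfsg

namespace Cfsg.Agent.S0218

/-- The generalized quaternion group of order 2^(n+3) contains exactly one element of order 2. -/
theorem result (n : ℕ) : Nat.card {x : QuaternionGroup (2 ^ (n + 1)) // orderOf x = 2} = 1 := by
  have hN : NeZero (2 ^ (n + 1)) := ⟨pow_ne_zero _ (by norm_num)⟩
  have key : ∀ x : QuaternionGroup (2 ^ (n + 1)), orderOf x = 2 →
      x = .a ((2 ^ (n + 1) : ℕ) : ZMod (2 * 2 ^ (n + 1))) := by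
    rintro (i | i) h
    · have h1 := CfsgLib.Involution.mul_self h
      have h0 := CfsgLib.Involution.ne_one h
      rw [QuaternionGroup.a_mul_a, QuaternionGroup.one_def] at h1
      rw [QuaternionGroup.one_def] at h0
      simp only [QuaternionGroup.a.injEq] at h1 h0 ⊢
      haveI : NeZero (2 * 2 ^ (n + 1)) := ⟨by positivity⟩
      rw [← ZMod.natCast_zmod_val i] at h1 h0 ⊢
      have hlt := ZMod.val_lt i
      generalize i.val = v at h1 h0 hlt ⊢
      rw [← Nat.cast_add, ZMod.natCast_eq_zero_iff] at h1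
      obtain ⟨t, ht⟩ := h1
      congr 1
      rcases t with _ | _ | t
      · exact absurd (by rw [show v = 0 by omega, Nat.cast_zero]) h0
      · omega
      · nlinarith
    · rw [QuaternionGroup.orderOf_xa] at h; norm_num at h
  obtain ⟨t, ht⟩ := exists_prime_orderOf_dvd_card' (G := QuaternionGroup (2 ^ (n + 1))) 2
    (by rw [Nat.card_eq_fintype_card, QuaternionGroup.card]; omega)
  rw [Nat.card_eq_one_iff_unique]
  exact ⟨⟨fun a b => Subtype.ext ((key _ a.2).trans (key _ b.2).symm)⟩, ⟨⟨t, ht⟩⟩⟩

end Cfsg.Agent.S0218
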