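import Cfsg.Statements.S0221
import Cfsg.Agent.Lib.AbelianNormalCyclic
import Cfsg.Agent.Lib.ThompsonTransfer

set_option autoImplicit false
open Cfsg

namespace CfsgLib.S0221Aux

/-- A four-group and a commuting involution outside it span an elementary abelian group of order eight. -/
theorem exists_eight {G : Type*} [Group G] [Finite G] (W : Subgroup G) (hW : ∀ w ∈ W, w * w = 1) (hc : Nat.card W = 4)
    {t : G} (ht : t * t = 1) (htW : t ∉ W) (hcomm : ∀ w ∈ W, w * t = t * w) :
    ∃ E : Subgroup G, (∀ e ∈ E, ∃ w ∈ W, e = w ∨ e = w * t) ∧ Nat.card E = 8 ∧ ∀ e ∈ E, e ^ 2 = 1 := by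
  classical
  have hWc : ∀ u ∈ W, ∀ v ∈ W, u * v = v * u := fun u hu v hv => by
    have h1 := eq_inv_of_mul_eq_one_left (hW _ (W.mul_mem hu hv))
    rw [mul_inv_rev, inv_eq_of_mul_eq_one_right (hW u hu), inv_eq_of_mul_eq_one_right (hW v hv)] at h1
    exact h1
  let E : Subgroup G :=
    { carrier := {e | ∃ w ∈ W, e = w ∨ e = w * t}
      one_mem' := ⟨1, one_mem _, Or.inl rfl⟩
      mul_mem' := by
        rintro x y ⟨u, hu, rfl | rfl⟩ ⟨v, hv, rfl | rfl⟩
        · exact ⟨_, W.mul_mem hu hv, Or.inl rfl⟩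
        · exact ⟨_, W.mul_mem hu hv, Or.inr (by group)⟩
        · exact ⟨_, W.mul_mem hu hv, Or.inr (by rw [mul_assoc, ← hcomm _ hv, ← mul_assoc])⟩
        · refine ⟨_, W.mul_mem hu hv, Or.inl ?_⟩
          calc u * t * (v * t) = u * (t * v) * t := by group
            _ = u * v * (t * t) := by rw [← hcomm v hv]; group
            _ = u * v := by rw [ht, mul_one]
      inv_mem' := by
        rintro x ⟨u, hu, rfl | rfl⟩
        · exact ⟨_, W.inv_mem hu, Or.inl rfl⟩
        · refine ⟨u⁻¹, W.inv_mem hu, Or.inr ?_⟩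
          rw [mul_inv_rev, inv_eq_of_mul_eq_one_right ht, hcomm _ (W.inv_mem hu)] }
  refine ⟨E, fun e he => he, ?_, ?_⟩
  · let f : W × Bool → E := fun p => ⟨if p.2 then (p.1 : G) * t else p.1, by
      cases p.2
      · exact ⟨p.1, p.1.2, Or.inl rfl⟩
      · exact ⟨p.1, p.1.2, Or.inr rfl⟩⟩
    have hf : Function.Bijective f := by
      refine ⟨?_, ?_⟩
      · rintro ⟨u, b⟩ ⟨v, c⟩ h
        have h' := congrArg Subtype.val h
        cases b <;> cases c <;> simp only [f, if_true, if_false, Bool.false_eq_true] at h'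
        · exact Prod.ext (Subtype.ext h') rfl
        · exact absurd ((W.mul_mem_cancel_left v.2).1 (h' ▸ u.2)) htW
        · exact absurd ((W.mul_mem_cancel_left u.2).1 (h'.symm ▸ v.2)) htW
        · exact Prod.ext (Subtype.ext (mul_right_cancel h')) rfl
      · rintro ⟨e, w, hw, rfl | rfl⟩
        · exact ⟨(⟨_, hw⟩, false), rfl⟩
        · exact ⟨(⟨w, hw⟩, true), rfl⟩
    rw [← Nat.card_eq_of_bijective f hf, Nat.card_prod, hc]
    simp
  · rintro e ⟨w, hw, rfl | rfl⟩
    · rw [sq, hW _ hw]
    · rw [(show Commute w t from hcomm w hw).mul_pow, sq, sq, hW w hw, ht, mul_one]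

end CfsgLib.S0221Aux

open Cfsg CfsgLib.S0221Aux

namespace Cfsg.Agent.S0221

/-- Let G be a finite group with no subgroup of index 2 whose 2-rank is at least 3 (it contains an elementary abelian subgroup of order 8). Then the centralizer of every involution of G also contains an elementary abelian subgroup of order 8. -/
theorem result {G : Type*} [Group G] [Finite G] (hno : ∀ H : Subgroup G, H.index ≠ 2) (hrank : ∃ E : Subgroup G, Nat.card E = 8 ∧ ∀ e ∈ E, e ^ 2 = 1) (x : G) (hx : orderOf x = 2) : ∃ E : Subgroup G, E ≤ Subgroup.centralizer ({x} : Set G) ∧ Nat.card E = 8 ∧ ∀ e ∈ E, e ^ 2 = 1 := by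
    classical
    haveI : Fact (Nat.Prime 2) := ⟨Nat.prime_two⟩
    obtain ⟨E, hE8, hE2⟩ := hrank
    obtain ⟨S, hES⟩ := (IsPGroup.of_card (p := 2) (n := 3) (by rw [hE8]; norm_num : Nat.card E = 2 ^ 3)).exists_le_sylow
    have hEsq : ∀ e ∈ E, e * e = 1 := fun e he => by rw [← sq]; exact hE2 e he
    -- a normal four-group of the Sylow subgroup
    obtain ⟨W₀, hW₀n, -, -, hW₀4, hW₀2⟩ : ∃ W : Subgroup (S : Subgroup G), W.Normal ∧ IsMulCommutative W ∧
        ¬ IsCyclic W ∧ Nat.card W = 4 ∧ ∀ w ∈ W, w * w = 1 := by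
      by_contra hno
      obtain ⟨a, ha⟩ := CfsgLib.AbelianNormalCyclic.exists_cyclic_le_two S.2 hno
      let E' := E.subgroupOf (S : Subgroup G)
      have hE'8 : Nat.card E' = 8 := by rw [Nat.card_congr (Subgroup.subgroupOfEquivOfLe hES).toEquiv, hE8]
      have hint : Nat.card ↥(E' ⊓ Subgroup.zpowers a) ≤ 2 := by
        haveI : IsCyclic ↥(E' ⊓ Subgroup.zpowers a) :=
          isCyclic_of_injective (Subgroup.inclusion inf_le_right) (Subgroup.inclusion_injective inf_le_right)
        obtain ⟨g, hg⟩ := IsCyclic.exists_generator (α := ↥(E' ⊓ Subgroup.zpowers a))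
        rw [← orderOf_eq_card_of_forall_mem_zpowers hg]
        exact Nat.le_of_dvd two_pos (orderOf_dvd_of_pow_eq_one (Subtype.ext (Subtype.ext (hE2 _ g.2.1))))
      have h1 := Subgroup.relIndex_mul_relIndex ⊥ (E' ⊓ Subgroup.zpowers a) E' bot_le inf_le_left
      rw [Subgroup.relIndex_bot_left, Subgroup.relIndex_bot_left, Subgroup.inf_relIndex_left, hE'8] at h1
      have hle : (Subgroup.zpowers a).relIndex E' ≤ 2 := by
        refine le_trans ?_ (Nat.le_of_dvd two_pos ha)
        rw [← Subgroup.relIndex_top_right]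
        exact Subgroup.relIndex_le_of_le_right le_top (by rw [Subgroup.relIndex_top_right]; exact Subgroup.index_ne_zero_of_finite)
      nlinarith
    set W : Subgroup G := W₀.map (S : Subgroup G).subtype with hW
    have hWS : W ≤ (S : Subgroup G) := Subgroup.map_subtype_le _
    have hW4 : Nat.card W = 4 := by
      rw [hW, ← Nat.card_congr (Subgroup.equivMapOfInjective W₀ _ (S : Subgroup G).subtype_injective).toEquiv, hW₀4]
    have hW2 : ∀ w ∈ W, w * w = 1 := by
      rintro _ ⟨w, hw, rfl⟩
      exact congrArg Subtype.val (hW₀2 w hw)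
    have hWn : ∀ s ∈ (S : Subgroup G), ∀ w ∈ W, s * w * s⁻¹ ∈ W := by
      rintro s hs _ ⟨w, hw, rfl⟩
      exact ⟨⟨s, hs⟩ * w * ⟨s, hs⟩⁻¹, hW₀n.conj_mem w hw _, rfl⟩
    -- a central involution in it
    haveI := hW₀n
    obtain ⟨⟨z₀, hz₀⟩, hz₀1⟩ := Subgroup.ne_bot_iff_exists_ne_one.1
      (CfsgLib.CharPLocal.normal_inf_center S.2 (N := W₀) inferInstance (fun h => by rw [h, Subgroup.card_bot] at hW₀4; omega))
    set z : G := (z₀ : G) with hz
    have hzW : z ∈ W := ⟨z₀, hz₀.1, rfl⟩
    have hz1 : z ≠ 1 := fun h => hz₀1 (Subtype.ext (Subtype.ext h))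
    have hzc : ∀ s ∈ (S : Subgroup G), s * z * s⁻¹ = z := fun s hs =>
      mul_inv_eq_iff_eq_mul.2 (congrArg Subtype.val (Subgroup.mem_center_iff.1 hz₀.2 ⟨s, hs⟩))
    set T : Subgroup G := (S : Subgroup G) ⊓ Subgroup.centralizer (W : Set G) with hT
    have hTmem : ∀ s ∈ (S : Subgroup G), (∀ w ∈ W, s * w * s⁻¹ = w) → s ∈ T := fun s hs h =>
      ⟨hs, Subgroup.mem_centralizer_iff.2 fun w hw => (mul_inv_eq_iff_eq_mul.1 (h w hw)).symm⟩
    have hTfix : ∀ s ∈ T, ∀ w ∈ W, s * w * s⁻¹ = w := fun s hs w hw => by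
      rw [← Subgroup.mem_centralizer_iff.1 hs.2 w hw, mul_inv_cancel_right]
    have hTn : ∀ s ∈ (S : Subgroup G), ∀ t ∈ T, s * t * s⁻¹ ∈ T := by
      intro s hs t ht
      refine hTmem _ (mul_mem (mul_mem hs ht.1) (inv_mem hs)) fun w hw => ?_
      have h1 := hTfix t ht _ (hWn s⁻¹ (inv_mem hs) w hw)
      calc s * t * s⁻¹ * w * (s * t * s⁻¹)⁻¹ = s * (t * (s⁻¹ * w * s⁻¹⁻¹) * t⁻¹) * s⁻¹ := by group
        _ = w := by rw [h1]; group
    -- the outside elements act alike
    have hmul : ∀ s ∈ (S : Subgroup G), ∀ s' ∈ (S : Subgroup G), s ∉ T → s' ∉ T → s * s' ∈ T := by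
      intro s hs s' hs' hsT hsT'
      obtain ⟨b, hb, hb1, hbz⟩ : ∃ b ∈ W, b ≠ 1 ∧ b ≠ z := by
        by_contra hc
        push Not at hc
        have hle : Nat.card W ≤ 2 := by
          refine le_trans (Nat.card_le_card_of_injective (fun w : W => decide ((w : G) = 1)) ?_) (by simp)
          intro u v huv
          have huv' : ((u : G) = 1) ↔ ((v : G) = 1) := by simpa using huv
          apply Subtype.ext
          by_cases hu : (u : G) = 1
          · rw [hu, huv'.1 hu]
          · rw [hc _ u.2 hu, hc _ v.2 fun h => hu (huv'.2 h)]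
        omega
      have hall : ∀ w ∈ W, w = 1 ∨ w = z ∨ w = b ∨ w = z * b := by
        intro w hw
        by_contra hne
        simp only [not_or] at hne
        obtain ⟨h1, h2, h3, h4⟩ := hne
        let f : Fin 5 → W := ![⟨1, one_mem _⟩, ⟨z, hzW⟩, ⟨b, hb⟩, ⟨z * b, W.mul_mem hzW hb⟩, ⟨w, hw⟩]
        have e1 : z * b ≠ 1 := fun h => hbz ((eq_inv_of_mul_eq_one_right h).trans (inv_eq_of_mul_eq_one_right (hW2 z hzW)))
        have e2 : z * b ≠ z := fun h => hb1 (mul_eq_left.1 h)
        have e3 : z * b ≠ b := fun h => hz1 (mul_eq_right.1 h)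
        have hf : Function.Injective f := by
          intro i j hij
          have h' := congrArg Subtype.val hij
          fin_cases i <;> fin_cases j <;> first
            | rfl
            | (simp [f] at h'; first | exact absurd h' hz1 | exact absurd h'.symm hz1 | exact absurd h' hb1 | exact absurd h'.symm hb1 | exact absurd h' hbz | exact absurd h'.symm hbz | exact absurd h' e1 | exact absurd h'.symm e1 | exact absurd h' e2 | exact absurd h'.symm e2 | exact absurd h' e3 | exact absurd h'.symm e3 | exact absurd h' h1 | exact absurd h'.symm h1 | exact absurd h' h2 | exact absurd h'.symm h2 | exact absurd h' h3 | exact absurd h'.symm h3 | exact absurd h' h4 | exact absurd h'.symm h4)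
        have := Nat.card_le_card_of_injective f hf
        simp [hW4] at this
      have hact : ∀ s ∈ (S : Subgroup G), s ∉ T → s * b * s⁻¹ = z * b := by
        intro s hs hsT
        rcases hall _ (hWn s hs b hb) with h | h | h | h
        · exact absurd (conj_eq_one_iff.1 h) hb1
        · exfalso
          apply hbz
          calc b = s⁻¹ * (s * b * s⁻¹) * s := by group
            _ = s⁻¹ * (s * z * s⁻¹) * s := by rw [h, hzc s hs]
            _ = z := by group
        · exfalso
          refine hsT (hTmem s hs fun w hw => ?_)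
          rcases hall w hw with rfl | rfl | rfl | rfl
          · group
          · exact hzc s hs
          · exact h
          · calc s * (z * b) * s⁻¹ = (s * z * s⁻¹) * (s * b * s⁻¹) := by group
              _ = z * b := by rw [hzc s hs, h]
        · exact h
      refine hTmem _ (mul_mem hs hs') fun w hw => ?_
      have hbb : s * s' * b * (s * s')⁻¹ = b := by
        calc s * s' * b * (s * s')⁻¹ = s * (s' * b * s'⁻¹) * s⁻¹ := by group
          _ = (s * z * s⁻¹) * (s * b * s⁻¹) := by rw [hact s' hs' hsT']; group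
          _ = b := by rw [hzc s hs, hact s hs hsT, ← mul_assoc, hW2 z hzW, one_mul]
      rcases hall w hw with rfl | rfl | rfl | rfl
      · group
      · exact hzc _ (mul_mem hs hs')
      · exact hbb
      · calc s * s' * (z * b) * (s * s')⁻¹ = (s * s' * z * (s * s')⁻¹) * (s * s' * b * (s * s')⁻¹) := by group
          _ = z * b := by rw [hzc _ (mul_mem hs hs'), hbb]
    -- every involution of T has an eight-group in its centralizer
    have hgood : ∀ t ∈ T, t * t = 1 → ∃ E : Subgroup G, E ≤ Subgroup.centralizer ({t} : Set G) ∧ Nat.card E = 8 ∧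
        ∀ e ∈ E, e ^ 2 = 1 := by
      intro t ht ht2
      by_cases htW : t ∈ W
      · obtain ⟨e, he, heT, heW⟩ : ∃ e ∈ E, e ∈ T ∧ e ∉ W := by
          by_contra hc
          push Not at hc
          have hWE : W ≤ E := by
            by_contra hWE
            obtain ⟨w, hw, hwE⟩ := SetLike.not_le_iff_exists.1 hWE
            have hlt : Nat.card ↥(E ⊓ T) < 4 := by
              rw [← hW4]
              refine lt_of_le_of_ne (Subgroup.card_le_of_le fun x hx => hc x hx.1 hx.2) fun h => hwE ?_
              have := Subgroup.eq_of_le_of_card_ge (H := E ⊓ T) (K := W) (fun x hx => hc x hx.1 hx.2) h.ge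
              exact (this.symm.le hw).1
            by_cases hall : E ≤ T
            · rw [inf_eq_left.2 hall, hE8] at hlt; omega
            · obtain ⟨e₀, he₀, he₀T⟩ := SetLike.not_le_iff_exists.1 hall
              let g : E → ↥(E ⊓ T) × Bool := fun e => if h : (e : G) ∈ T then (⟨e, e.2, h⟩, false) else
                (⟨(e : G) * e₀, mul_mem e.2 he₀, hmul _ (hES e.2) _ (hES he₀) h he₀T⟩, true)
              have hg : Function.Injective g := by
                intro u v huv
                simp only [g] at huv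
                by_cases hu : (u : G) ∈ T <;> by_cases hv : (v : G) ∈ T <;> simp [hu, hv] at huv
                · exact Subtype.ext (congrArg Subtype.val huv :)
                · exact Subtype.ext (mul_right_cancel (congrArg Subtype.val huv :))
              have := Nat.card_le_card_of_injective g hg
              rw [Nat.card_prod, hE8, Nat.card_eq_fintype_card (α := Bool), Fintype.card_bool] at this
              omega
          have hET : E ≤ T := fun e he => hTmem e (hES he) fun w hw => by
            have h1 := eq_inv_of_mul_eq_one_left (hEsq _ (E.mul_mem he (hWE hw)))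
            rw [mul_inv_rev, inv_eq_of_mul_eq_one_right (hEsq e he), inv_eq_of_mul_eq_one_right (hEsq w (hWE hw))] at h1
            rw [h1, mul_inv_cancel_right]
          have := Subgroup.card_le_of_le (fun x hx => hc x hx (hET hx) : E ≤ W)
          omega
        obtain ⟨F, hF, hF8, hF2⟩ := exists_eight W hW2 hW4 (hEsq e he) heW
          (fun w hw => (Subgroup.mem_centralizer_iff.1 heT.2 w hw))
        refine ⟨F, fun f hf => Subgroup.mem_centralizer_singleton_iff.2 ?_, hF8, hF2⟩
        obtain ⟨w, hw, rfl | rfl⟩ := hF f hf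
        · exact (Subgroup.mem_centralizer_iff.1 ht.2 _ hw)
        · have h1 : e * t = t * e := (Subgroup.mem_centralizer_iff.1 heT.2 t htW).symm
          rw [mul_assoc, h1, ← mul_assoc, Subgroup.mem_centralizer_iff.1 ht.2 w hw, mul_assoc]
      · obtain ⟨F, hF, hF8, hF2⟩ := exists_eight W hW2 hW4 ht2 htW (fun w hw => Subgroup.mem_centralizer_iff.1 ht.2 w hw)
        refine ⟨F, fun f hf => Subgroup.mem_centralizer_singleton_iff.2 ?_, hF8, hF2⟩
        obtain ⟨w, hw, rfl | rfl⟩ := hF f hf
        · exact (Subgroup.mem_centralizer_iff.1 ht.2 _ hw)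
        · rw [mul_assoc, ← mul_assoc t, ← Subgroup.mem_centralizer_iff.1 ht.2 w hw, mul_assoc]
    -- the involution is conjugate into T
    have hconj : ∃ g : G, g * x * g⁻¹ ∈ T := by
      obtain ⟨R, hR⟩ := (IsPGroup.of_card (p := 2) (n := 1)
        (by rw [Nat.card_zpowers, hx, pow_one] : Nat.card (Subgroup.zpowers x) = 2 ^ 1)).exists_le_sylow
      obtain ⟨g₁, hg₁⟩ := MulAction.exists_smul_eq G R S
      have hyS : g₁ * x * g₁⁻¹ ∈ (S : Subgroup G) := by
        rw [← hg₁]
        exact Subgroup.smul_mem_pointwise_smul x (MulAut.conj g₁) (R : Subgroup G) (hR (Subgroup.mem_zpowers x))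
      by_cases hyT : g₁ * x * g₁⁻¹ ∈ T
      · exact ⟨g₁, hyT⟩
      haveI hTn' : (T.subgroupOf (S : Subgroup G)).Normal := ⟨fun t ht s => hTn s s.2 t ht⟩
      have hidx : (T.subgroupOf (S : Subgroup G)).index = 2 := by
        rw [Subgroup.index_eq_two_iff]
        refine ⟨⟨_, hyS⟩, fun s => ?_⟩
        by_cases hs : (s : G) ∈ T
        · exact Or.inr ⟨hs, fun h => hyT ((T.mul_mem_cancel_left hs).1 h)⟩
        · exact Or.inl ⟨hmul _ s.2 _ hyS hs hyT, hs⟩
      have hcard2 : Nat.card ((S : Subgroup G) ⧸ T.subgroupOf (S : Subgroup G)) = 2 := by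
        rw [← Subgroup.index_eq_card, hidx]
      obtain ⟨g, hg, -, -⟩ := CfsgLib.ThompsonTransfer.extremal S T (isCyclic_of_prime_card hcard2) (g₁ * x * g₁⁻¹)
        (by
          have := MulEquiv.orderOf_eq (MulAut.conj g₁) x
          rw [MulAut.conj_apply] at this
          rw [this, hx]) (fun ψ => by
          by_contra hψ
          refine hno ψ.ker ?_
          rw [Subgroup.index_ker]
          have h1 := Subgroup.card_subgroup_dvd_card ψ.range
          rw [hcard2] at h1
          rcases (Nat.dvd_prime Nat.prime_two).1 h1 with h | h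
          · exfalso
            haveI := (Nat.card_eq_one_iff_unique.1 h).1
            exact hψ (congrArg Subtype.val (Subsingleton.elim (⟨ψ (g₁ * x * g₁⁻¹), ⟨_, rfl⟩⟩ : ψ.range) 1))
          · exact h)
      exact ⟨g * g₁, by simpa [mul_assoc] using hg⟩
    obtain ⟨g, hg⟩ := hconj
    obtain ⟨F, hF, hF8, hF2⟩ := hgood _ hg (by
      calc g * x * g⁻¹ * (g * x * g⁻¹) = g * (x * x) * g⁻¹ := by group
        _ = 1 := by rw [← sq x, ← hx, pow_orderOf_eq_one]; group)
    refine ⟨F.map (MulAut.conj g⁻¹).toMonoidHom, ?_, ?_, ?_⟩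
    · rintro _ ⟨f, hf, rfl⟩
      rw [Subgroup.mem_centralizer_singleton_iff]
      have h := Subgroup.mem_centralizer_singleton_iff.1 (hF hf)
      show g⁻¹ * f * g⁻¹⁻¹ * x = x * (g⁻¹ * f * g⁻¹⁻¹)
      calc g⁻¹ * f * g⁻¹⁻¹ * x = g⁻¹ * (f * (g * x * g⁻¹)) * g := by group
        _ = g⁻¹ * ((g * x * g⁻¹) * f) * g := by rw [h]
        _ = x * (g⁻¹ * f * g⁻¹⁻¹) := by group
    · rw [← Nat.card_congr (Subgroup.equivMapOfInjective F _ (MulAut.conj g⁻¹).injective).toEquiv, hF8]
    · rintro _ ⟨f, hf, rfl⟩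
      rw [← map_pow, hF2 f hf, map_one]

end Cfsg.Agent.S0221
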