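import Cfsg.Statements.S0225
import Cfsg.Agent.Lib.ZStar.Main

set_option autoImplicit false
open Cfsg

namespace Cfsg.Agent.S0225

/-- If a finite group G has even order but contains no Klein four-subgroup (2-rank 1), then some involution z of G is central modulo a normal subgroup of odd order: there is a normal subgroup N of odd order containing every commutator z g z⁻¹ g⁻¹. -/
theorem result {G : Type*} [Group G] [Finite G] (heven : Even (Nat.card G)) (hrank : ∀ E : Subgroup G, ¬ IsKleinFour E) : ∃ z : G, orderOf z = 2 ∧ ∃ N : Subgroup G, N.Normal ∧ Odd (Nat.card N) ∧ ∀ g : G, z * g * z⁻¹ * g⁻¹ ∈ N := by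
  haveI : Fact (Nat.Prime 2) := ⟨Nat.prime_two⟩
  obtain ⟨z, hz⟩ := exists_prime_orderOf_dvd_card' 2 (even_iff_two_dvd.mp heven)
  have hiso : Cfsg.IsIsolatedInvolution z := by
    refine ⟨hz, fun g hc => ?_⟩
    by_contra hne
    obtain ⟨w, hwe⟩ : ∃ w, w = g * z * g⁻¹ := ⟨_, rfl⟩
    rw [← hwe] at hc hne
    have hw2 : orderOf w = 2 := by
      rw [hwe, ← hz]; exact orderOf_injective (MulAut.conj g).toMonoidHom (MulAut.conj g).injective z
    have hzz : z * z = 1 := by rw [← pow_two, ← hz, pow_orderOf_eq_one]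
    have hww : w * w = 1 := by rw [← pow_two, ← hw2, pow_orderOf_eq_one]
    have h1 : z ≠ 1 := fun e => by rw [e, orderOf_one] at hz; omega
    have h2 : w ≠ 1 := fun e => by rw [e, orderOf_one] at hw2; omega
    have h3 : z * w ≠ 1 := fun e => hne ((inv_eq_of_mul_eq_one_right e).symm.trans (inv_eq_of_mul_eq_one_right hzz))
    have e1 : z * (z * w) = w := by rw [← mul_assoc, hzz, one_mul]
    have e2 : w * z = z * w := hc.eq.symm
    have e3 : w * (z * w) = z := by rw [← mul_assoc, e2, mul_assoc, hww, mul_one]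
    have e4 : z * w * z = w := by rw [mul_assoc, e2, e1]
    have e5 : z * w * w = z := by rw [mul_assoc, hww, mul_one]
    have e6 : z * w * (z * w) = 1 := by rw [mul_assoc, e3, hzz]
    have hzi : z⁻¹ = z := inv_eq_of_mul_eq_one_right hzz
    have hwi : w⁻¹ = w := inv_eq_of_mul_eq_one_right hww
    have hzwi : (z * w)⁻¹ = z * w := inv_eq_of_mul_eq_one_right e6
    let E : Subgroup G :=
      { carrier := {1, z, w, z * w}
        one_mem' := Or.inl rfl
        mul_mem' := by
          rintro a b (rfl | rfl | rfl | rfl) (rfl | rfl | rfl | rfl) <;>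
            simp only [one_mul, mul_one, hzz, hww, e1, e2, e3, e4, e5, e6, Set.mem_insert_iff,
              Set.mem_singleton_iff, true_or, or_true]
        inv_mem' := by
          rintro a (rfl | rfl | rfl | rfl) <;>
            simp only [inv_one, hzi, hwi, hzwi, Set.mem_insert_iff, Set.mem_singleton_iff, true_or, or_true] }
    haveI : Nontrivial E := ⟨⟨⟨1, Or.inl rfl⟩, ⟨z, Or.inr (Or.inl rfl)⟩, fun e => h1 (congrArg Subtype.val e).symm⟩⟩
    refine hrank E ⟨?_, ?_⟩
    · show Nat.card (({1, z, w, z * w} : Set G) : Type _) = 4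
      have hzw : z ≠ w := fun e => hne e.symm
      have hz' : z ≠ z * w := fun e => h2 (left_eq_mul.mp e)
      have hw' : w ≠ z * w := fun e => h1 (right_eq_mul.mp e)
      rw [Nat.card_coe_set_eq, Set.ncard_insert_of_notMem (by simp [Ne.symm h1, Ne.symm h2, Ne.symm h3]),
        Set.ncard_insert_of_notMem (by simp [hzw, hz']), Set.ncard_pair hw']
    · refine (Nat.dvd_prime Nat.prime_two).mp (Monoid.exponent_dvd_of_forall_pow_eq_one ?_) |>.resolve_left ?_
      · rintro ⟨a, (rfl | rfl | rfl | rfl)⟩ <;> refine Subtype.ext ?_ <;> simp [pow_two, hzz, hww, e6]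
      · exact fun e => not_subsingleton E (Monoid.exp_eq_one_iff.mp e)
  exact ⟨z, hz, Cfsg.oddCore G, CfsgLib.ZStar.oddCore_normal, CfsgLib.ZStar.oddCore_odd,
    fun g => CfsgLib.ZStar.zstar hiso g⟩

end Cfsg.Agent.S0225
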