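import Cfsg.Statements.S0228
import Mathlib
import Cfsg.Agent.Lib.SmallSimple2

set_option autoImplicit false
open Cfsg

namespace Cfsg.Agent.S0228

/-- A group of order 12 in which no involution is central is isomorphic to the alternating group on four letters. -/
theorem result {G : Type*} [Group G] [Finite G] (hG : Nat.card G = 12) (hz : ∀ z : G, orderOf z = 2 → z ∉ Subgroup.center G) : Nonempty (G ≃* alternatingGroup (Fin 4)) := by
  classical
  haveI : Fact (Nat.Prime 3) := ⟨Nat.prime_three⟩
  haveI : Fact (Nat.Prime 2) := ⟨Nat.prime_two⟩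
  obtain ⟨P⟩ := (inferInstance : Nonempty (Sylow 3 G))
  have hP : Nat.card (P : Subgroup G) = 3 := by
    rw [P.card_eq_multiplicity, hG, show (12 : ℕ) = 3 * 4 by norm_num, Nat.factorization_mul (by norm_num) (by norm_num),
      Nat.prime_three.factorization]
    simp [Nat.factorization_eq_zero_of_not_dvd (show ¬ 3 ∣ 4 by norm_num)]
  have hn : Nat.card (Sylow 3 G) = 4 := by
    have h1 := Sylow.card_dvd_index P
    have h2 := card_sylow_modEq_one 3 G
    have h3 := Subgroup.index_mul_card (P : Subgroup G)
    rw [hP, hG] at h3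
    rw [show (P : Subgroup G).index = 4 by omega] at h1
    have hle := Nat.le_of_dvd (by norm_num) h1
    by_contra h4
    have hone : Nat.card (Sylow 3 G) = 1 := by
      have h0 : 0 < Nat.card (Sylow 3 G) := Nat.card_pos
      generalize Nat.card (Sylow 3 G) = n at h1 h2 hle h4 h0 ⊢
      interval_cases n <;> simp_all [Nat.ModEq]
    haveI hnorm : (P : Subgroup G).Normal := by
      rw [← Subgroup.normalizer_eq_top_iff, ← Subgroup.index_eq_one]
      exact (Sylow.card_eq_index_normalizer P).symm.trans hone
    set C := Subgroup.centralizer ((P : Subgroup G) : Set G) with hC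
    have key := Subgroup.card_dvd_of_injective _
      (QuotientGroup.kerLift_injective (P : Subgroup G).normalizerMonoidHom)
    haveI : IsCyclic (P : Subgroup G) := isCyclic_of_prime_card (p := 3) hP
    rw [Subgroup.normalizerMonoidHom_ker, ← Subgroup.index, ← Subgroup.relIndex, IsCyclic.card_mulAut, hP,
      Nat.totient_prime Nat.prime_three, Subgroup.normalizer_eq_top, Subgroup.relIndex_top_right] at key
    have hCc : 2 ∣ Nat.card C := by
      have h5 := Subgroup.index_mul_card C
      rw [hG] at h5
      rcases (Nat.dvd_prime Nat.prime_two).1 key with e | e <;> rw [e] at h5 <;> omega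
    obtain ⟨⟨z, hzC⟩, hzo⟩ := exists_prime_orderOf_dvd_card' 2 hCc
    rw [Subgroup.orderOf_mk] at hzo
    refine hz z hzo ?_
    obtain ⟨T, hT⟩ := (IsPGroup.of_card (n := 1) (by rw [Nat.card_zpowers, hzo, pow_one]) :
      IsPGroup 2 (Subgroup.zpowers z)).exists_le_sylow
    have hTc : Nat.card (T : Subgroup G) = 4 := by
      rw [T.card_eq_multiplicity, hG, show (12 : ℕ) = 2 ^ 2 * 3 by norm_num, Nat.factorization_mul (by norm_num) (by norm_num),
        Nat.prime_two.factorization_pow]
      simp [Nat.factorization_eq_zero_of_not_dvd (show ¬ 2 ∣ 3 by norm_num)]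
    have h12 : 12 ∣ Nat.card (Subgroup.centralizer ({z} : Set G)) := by
      refine Nat.Coprime.mul_dvd_of_dvd_of_dvd (by norm_num : Nat.Coprime 4 3) (hTc ▸ Subgroup.card_dvd_of_le fun y hy => ?_)
        (hP ▸ Subgroup.card_dvd_of_le fun y hy => ?_)
      · exact Subgroup.mem_centralizer_singleton_iff.2 (congrArg Subtype.val
          (IsPGroup.commutative_of_card_eq_prime_sq (p := 2) (by rw [hTc]; norm_num) (⟨y, hy⟩ : (T : Subgroup G))
            ⟨z, hT (Subgroup.mem_zpowers z)⟩))
      · exact Subgroup.mem_centralizer_singleton_iff.2 (Subgroup.mem_centralizer_iff.1 hzC y hy)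
    have htop := Subgroup.eq_top_of_card_eq _ (Nat.dvd_antisymm (Subgroup.card_subgroup_dvd_card _) (by rw [hG]; exact h12))
    exact Subgroup.mem_center_iff.2 fun g => Subgroup.mem_centralizer_singleton_iff.1 (htop ▸ Subgroup.mem_top g)
  obtain ⟨f, hf⟩ := CfsgLib.SmallSimple2.exists_perm_hom hn
  have hN : Subgroup.normalizer ((P : Subgroup G) : Set G) = (P : Subgroup G) := by
    refine (Subgroup.eq_of_le_of_card_ge Subgroup.le_normalizer ?_).symm
    have h3 := Subgroup.index_mul_card (Subgroup.normalizer ((P : Subgroup G) : Set G))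
    rw [show (Subgroup.normalizer ((P : Subgroup G) : Set G)).index = 4 from (Sylow.card_eq_index_normalizer P).symm.trans hn, hG] at h3
    omega
  have hker : f.ker = ⊥ := by
    have hle : f.ker ≤ (P : Subgroup G) := fun g hg => hN ▸ hf g hg P
    rcases (Nat.dvd_prime Nat.prime_three).1 (hP ▸ Subgroup.card_dvd_of_le hle) with e | e
    · exact Subgroup.eq_bot_of_card_eq _ e
    · exfalso
      have h5 : f.ker = (P : Subgroup G) := Subgroup.eq_of_le_of_card_ge hle (by rw [e, hP])
      have hnorm : (P : Subgroup G).Normal := h5 ▸ inferInstance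
      rw [Subgroup.normalizer_eq_top_iff.2 hnorm] at hN
      rw [← hN, Subgroup.card_top, hG] at hP
      norm_num at hP
  have hF : Function.Injective f := (MonoidHom.ker_eq_bot_iff f).1 hker
  have hidx : f.range.index = 2 := by
    have h1 := Subgroup.index_mul_card f.range
    rw [← Nat.card_congr (MonoidHom.ofInjective hF).toEquiv, hG, Nat.card_perm, Nat.card_eq_fintype_card, Fintype.card_fin] at h1
    norm_num [Nat.factorial] at h1
    omega
  exact ⟨(MonoidHom.ofInjective hF).trans (MulEquiv.subgroupCongr
    (Equiv.Perm.eq_alternatingGroup_of_index_eq_two hidx))⟩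

end Cfsg.Agent.S0228
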