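import Cfsg.Statements.S0229
import Cfsg.Agent.Lib.Isolated

set_option autoImplicit false
open Cfsg

namespace Cfsg.Agent.S0229

/-- Let t be an involution of a Sylow 2-subgroup S of a finite group G, conjugate in G to no other element of S, and let s be an involution of G not conjugate to t. Then the order of st is twice an odd number. -/
theorem result {G : Type*} [Group G] [Finite G] (S : Sylow 2 G) (t : G) (ht : orderOf t = 2) (htS : t ∈ S) (hiso : ∀ g : G, g * t * g⁻¹ ∈ S → g * t * g⁻¹ = t) (s : G) (hs : orderOf s = 2) (hns : ¬ IsConj s t) : orderOf (s * t) % 4 = 2 := by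
  have hz := CfsgLib.Isolated.isIsolated_of_sylow ht hiso
  have heven : Even (orderOf (s * t)) := Nat.not_odd_iff_even.mp fun ho =>
    hns (CfsgLib.Involution.isConj_of_odd hs ht ho)
  have h4 : ¬ 4 ∣ orderOf (s * t) := by
    intro h4
    have e : orderOf (t * s) = orderOf (s * t) := by
      rw [show t * s = (s * t)⁻¹ by
        rw [mul_inv_rev, CfsgLib.Involution.inv_eq hs, CfsgLib.Involution.inv_eq ht], orderOf_inv]
    rw [← e] at h4 heven
    obtain ⟨hw, hwt, -⟩ := CfsgLib.Involution.central_involution ht hs heven
    obtain ⟨g, hg⟩ := isConj_iff.mp (CfsgLib.Involution.isConj_mul_central ht hs h4)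
    have := hz.2 g (by rw [hg]; exact (Commute.refl t).mul_right hwt.symm)
    rw [hg] at this
    exact CfsgLib.Involution.ne_one hw (mul_eq_left.mp this)
  rw [Nat.even_iff] at heven
  omega

end Cfsg.Agent.S0229
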