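import Cfsg.Statements.S0230
import Cfsg.Agent.Lib.Involution
import Mathlib.GroupTheory.Rank
import Mathlib.GroupTheory.GroupAction.ConjAct
import Mathlib.GroupTheory.GroupAction.Quotient

set_option autoImplicit false
open Cfsg

namespace Cfsg.Agent.S0230

/-- Let G be a finite group with two non-conjugate involutions, and let t be an involution whose centralizer has maximal order among centralizers of involutions. Then |G| < |C_G(t)|^3. -/
theorem result {G : Type*} [Group G] [Finite G] (s t : G) (hs : orderOf s = 2) (ht : orderOf t = 2) (hnc : ¬ IsConj s t) (hmax : ∀ u : G, orderOf u = 2 → Nat.card (Subgroup.centralizer ({u} : Set G)) ≤ Nat.card (Subgroup.centralizer ({t} : Set G))) : Nat.card G < Nat.card (Subgroup.centralizer ({t} : Set G)) ^ 3 := by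
  classical
  have := Fintype.ofFinite G
  let I : G → Finset G := fun u =>
    Finset.univ.filter fun w => orderOf w = 2 ∧ w ∈ Subgroup.centralizer ({u} : Set G)
  let K : Finset G := Finset.univ.filter fun w => IsConj s w
  set C := Nat.card (Subgroup.centralizer ({t} : Set G))
  have hI : ∀ u, orderOf u = 2 → (I u).card < C := fun u hu => by
    refine lt_of_lt_of_le ?_ (hmax u hu)
    rw [Nat.card_eq_fintype_card, Fintype.card_subtype]
    refine Finset.card_lt_card (Finset.ssubset_iff_of_subset ?_ |>.mpr ?_)
    · exact Finset.monotone_filter_right _ fun w _ => And.right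
    · exact ⟨1, by simp, by simp [I]⟩
  have hK : K ⊆ (I t).biUnion I := fun w hw => by
    obtain ⟨g, hg⟩ := isConj_iff.mp (Finset.mem_filter.mp hw).2
    have hw2 : orderOf w = 2 := hg ▸ CfsgLib.Involution.orderOf_conj' hs
    have he : Even (orderOf (w * t)) := Nat.not_odd_iff_even.mp fun ho =>
      hnc ((isConj_iff.mpr ⟨g, hg⟩).trans (CfsgLib.Involution.isConj_of_odd hw2 ht ho))
    obtain ⟨hu, huw, hut⟩ := CfsgLib.Involution.central_involution hw2 ht he
    refine Finset.mem_biUnion.mpr ⟨(w * t) ^ (orderOf (w * t) / 2), ?_, ?_⟩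
    · exact Finset.mem_filter.mpr ⟨Finset.mem_univ _, hu, Subgroup.mem_centralizer_singleton_iff.mpr hut⟩
    · exact Finset.mem_filter.mpr ⟨Finset.mem_univ _, hw2, Subgroup.mem_centralizer_singleton_iff.mpr huw.symm⟩
  have hKC : K.card < C ^ 2 := by
    refine lt_of_le_of_lt ((Finset.card_le_card hK).trans
      (Finset.card_biUnion_le_card_mul _ _ (C - 1) fun u hu => Nat.le_sub_one_of_lt
        (hI u (Finset.mem_filter.mp hu).2.1))) ?_
    calc (I t).card * (C - 1) ≤ (I t).card * C := Nat.mul_le_mul_left _ (Nat.sub_le _ _)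
      _ < C * C := Nat.mul_lt_mul_of_pos_right (hI t ht) Nat.card_pos
      _ = C ^ 2 := (pow_two C).symm
  have horb : Nat.card G = K.card * Nat.card (Subgroup.centralizer ({s} : Set G)) := by
    rw [Subgroup.nat_card_centralizer_nat_card_stabilizer]
    show Nat.card (ConjAct G) = _
    rw [← (MulAction.stabilizer (ConjAct G) s).card_mul_index, MulAction.index_stabilizer, mul_comm]
    congr 1
    rw [ConjAct.orbit_eq_carrier_conjClasses, Set.ncard_eq_toFinset_card']
    congr 1
    ext w
    simp only [K, Finset.mem_filter, Finset.mem_univ, true_and, Set.mem_toFinset,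
      ConjClasses.mem_carrier_iff_mk_eq, ConjClasses.mk_eq_mk_iff_isConj]
    exact isConj_comm
  calc Nat.card G = K.card * Nat.card (Subgroup.centralizer ({s} : Set G)) := horb
    _ ≤ K.card * C := Nat.mul_le_mul_left _ (hmax s hs)
    _ < C ^ 2 * C := Nat.mul_lt_mul_of_pos_right hKC Nat.card_pos
    _ = C ^ 3 := by ring

end Cfsg.Agent.S0230
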