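import Cfsg.Statements.S0231
import Cfsg.Agent.Lib.Involution

set_option autoImplicit false
open scoped Pointwise
open Cfsg

namespace Cfsg.Agent.S0231

/-- Let T be a Sylow 2-subgroup of the finite group G which is not normal and which intersects every other Sylow 2-subgroup trivially. Then G has a single conjugacy class of involutions. -/
theorem result {G : Type*} [Group G] [Finite G] (T : Sylow 2 G) (hnn : ¬ (T : Subgroup G).Normal) (hTI : ∀ g : G, MulAut.conj g • (T : Subgroup G) ≠ T → MulAut.conj g • (T : Subgroup G) ⊓ T = ⊥) (s t : G) (hs : orderOf s = 2) (ht : orderOf t = 2) : IsConj s t := by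
  classical
  have hTI' : ∀ P Q : Sylow 2 G, ∀ w : G, w ≠ 1 → w ∈ P → w ∈ Q → P = Q := by
    intro P Q w hw hP hQ
    obtain ⟨a, rfl⟩ := MulAction.exists_smul_eq G T P
    obtain ⟨b, rfl⟩ := MulAction.exists_smul_eq G T Q
    have h0 : (b⁻¹ * a) • T = T := by
      by_contra hne
      have h1 := hTI (b⁻¹ * a) fun h => hne (Sylow.ext h)
      have h2 : b⁻¹ * w * b ∈ MulAut.conj (b⁻¹ * a) • (T : Subgroup G) ⊓ T := by
        refine ⟨?_, ?_⟩
        · rw [map_mul, mul_smul]
          have := Subgroup.smul_mem_pointwise_smul w (MulAut.conj b⁻¹) _ hP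
          rw [Sylow.coe_subgroup_smul] at this
          simp [mul_assoc] at this ⊢
          exact this
        · have := Subgroup.smul_mem_pointwise_smul w (MulAut.conj b⁻¹) _ hQ
          rw [show (b • T : Sylow 2 G).toSubgroup = MulAut.conj b • (T : Subgroup G) from rfl,
            smul_smul, ← map_mul, inv_mul_cancel, map_one, one_smul] at this
          simp [mul_assoc] at this ⊢
          exact this
      rw [h1, Subgroup.mem_bot] at h2
      exact hw (by rw [show w = b * (b⁻¹ * w * b) * b⁻¹ by group, h2]; group)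
    rwa [mul_smul, inv_smul_eq_iff] at h0
  have hex : ∀ w : G, orderOf w = 2 → ∃ P : Sylow 2 G, w ∈ P := fun w hw => by
    obtain ⟨P, hP, -⟩ := CfsgLib.Involution.exists_sylow_mem_pair hw hw (Commute.refl w)
    exact ⟨P, hP⟩
  have key : ∀ u v : G, orderOf u = 2 → orderOf v = 2 → ¬ IsConj u v →
      ∀ P : Sylow 2 G, u ∈ P → v ∈ P := by
    intro u v hu hv hnc P hP
    have he : Even (orderOf (u * v)) := Nat.not_odd_iff_even.mp fun ho =>
      hnc (CfsgLib.Involution.isConj_of_odd hu hv ho)
    obtain ⟨hw, hwu, hwv⟩ := CfsgLib.Involution.central_involution hu hv he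
    obtain ⟨Q, hQw, hQu⟩ := CfsgLib.Involution.exists_sylow_mem_pair hw hu hwu
    obtain ⟨R, hRw, hRv⟩ := CfsgLib.Involution.exists_sylow_mem_pair hw hv hwv
    rw [hTI' P Q u (CfsgLib.Involution.ne_one hu) hP hQu,
      hTI' Q R _ (CfsgLib.Involution.ne_one hw) hQw hRw]
    exact hRv
  by_contra hnc
  obtain ⟨P, hsP⟩ := hex s hs
  have htP := key s t hs ht hnc P hsP
  obtain ⟨g, hg⟩ : ∃ g : G, g • P ≠ P := by
    by_contra! hall
    refine hnn ?_
    obtain ⟨a, ha⟩ := MulAction.exists_smul_eq G P T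
    rw [hall] at ha
    rw [← ha]
    refine Subgroup.normalizer_eq_top_iff.mp (eq_top_iff.mpr fun x _ => ?_)
    exact Sylow.smul_eq_iff_mem_normalizer.mp (hall x)
  have hu : g * s * g⁻¹ ∈ g • P := by
    have := Subgroup.smul_mem_pointwise_smul s (MulAut.conj g) _ hsP
    rw [← Sylow.coe_subgroup_smul] at this
    exact this
  have hu2 : orderOf (g * s * g⁻¹) = 2 := CfsgLib.Involution.orderOf_conj' hs
  refine hg (hTI' (g • P) P t (CfsgLib.Involution.ne_one ht) ?_ htP)
  exact key _ t hu2 ht (fun h => hnc ((isConj_iff.mpr ⟨g, rfl⟩).trans h)) _ hu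

end Cfsg.Agent.S0231
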