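import Cfsg.Statements.S0232
import Mathlib
import Cfsg.Agent.Lib.InvolutionCount
import Cfsg.Agent.Lib.TwoSylow

set_option autoImplicit false
open Cfsg

namespace Cfsg.Agent.S0232

/-- A finite group G of even order greater than 2 has a proper subgroup H with |G| < |H|^3. -/
theorem result {G : Type*} [Group G] [Finite G] (heven : Even (Nat.card G)) (hgt : 2 < Nat.card G) : ∃ H : Subgroup G, H ≠ ⊤ ∧ Nat.card G < (Nat.card H) ^ 3 := by
  classical
  suffices hmain : ∀ (N : ℕ) (G : Type _) [Group G] [Finite G], Nat.card G = N →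
      Even (Nat.card G) → 2 < Nat.card G →
      ∃ H : Subgroup G, H ≠ ⊤ ∧ Nat.card G < Nat.card H ^ 3 from hmain _ G rfl heven hgt
  intro N
  induction N using Nat.strong_induction_on with
  | _ N ih =>
    intro G _ _ hN heven hgt
    by_cases h2 : ∃ H : Subgroup G, H.index = 2
    · obtain ⟨H, hH⟩ := h2
      refine ⟨H, fun h => ?_, ?_⟩
      · rw [h, Subgroup.index_top] at hH; exact absurd hH (by decide)
      · have h1 := H.card_mul_index
        rw [hH] at h1
        have h3 : 2 ≤ Nat.card H := by omega
        nlinarith [Nat.mul_le_mul h3 h3]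
    push Not at h2
    by_cases hZ : Odd (Nat.card (Subgroup.center G))
    · by_contra hcon
      push Not at hcon
      obtain ⟨H, hH, h | h⟩ := CfsgLib.InvolutionCount.exists_small_index heven hZ
      · exact h2 H h
      obtain ⟨t, ht⟩ := exists_prime_orderOf_dvd_card' (G := G) 2 (even_iff_two_dvd.1 heven)
      set C := Subgroup.centralizer ({t} : Set G) with hC
      have hCtop : C ≠ ⊤ := by
        intro h
        have htZ : t ∈ Subgroup.center G := Subgroup.mem_center_iff.2 fun y =>
          Subgroup.mem_centralizer_singleton_iff.1 (show y ∈ C by rw [h]; exact Subgroup.mem_top y)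
        have := Subgroup.orderOf_dvd_natCard (Subgroup.center G) htZ
        rw [ht] at this
        exact hZ.not_two_dvd_nat this
      set n := Nat.card {t : G // orderOf t = 2}
      have h1 : Nat.card G ≤ n * Nat.card C := CfsgLib.InvolutionCount.card_le_mul_card t ht
      have h3 : n ≤ Nat.card G := CfsgLib.InvolutionCount.card_involutions_le
      have hc := hcon C hCtop
      have hh := hcon H hH
      rw [← H.card_mul_index] at h h3 h1 hc hh
      set a := Nat.card H
      set b := H.index
      have hcpos : 0 < Nat.card C := Nat.card_pos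
      have h4 : b * n ^ 2 < (a * b) ^ 2 := by
        have : 2 * b * n ^ 2 < a * b * (2 * (a * b)) :=
          lt_of_lt_of_le h (Nat.mul_le_mul_left _ (by omega))
        nlinarith
      have h5 : (a * b) ^ 2 ≤ n ^ 2 * Nat.card C ^ 2 := by
        rw [← mul_pow]; exact Nat.pow_le_pow_left h1 2
      have h6 : b * (a * b) ^ 2 < (a * b) ^ 2 * Nat.card C ^ 2 := by
        calc b * (a * b) ^ 2 ≤ b * (n ^ 2 * Nat.card C ^ 2) := Nat.mul_le_mul_left _ h5
          _ = b * n ^ 2 * Nat.card C ^ 2 := by ring
          _ < _ := Nat.mul_lt_mul_of_pos_right h4 (pow_pos hcpos 2)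
      have h7 : b < Nat.card C ^ 2 := by
        rw [mul_comm b] at h6
        exact Nat.lt_of_mul_lt_mul_left h6
      -- `b < c²`, `c³ ≤ a b` and `a³ ≤ a b` are contradictory
      have h8 : b ^ 3 < (a * b) ^ 2 := by
        calc b ^ 3 < (Nat.card C ^ 2) ^ 3 := Nat.pow_lt_pow_left h7 (by norm_num)
          _ = (Nat.card C ^ 3) ^ 2 := by ring
          _ ≤ (a * b) ^ 2 := Nat.pow_le_pow_left hc 2
      have hb0 : 0 < b := Nat.pos_of_ne_zero H.index_ne_zero_of_finite
      have h9 : b < a ^ 2 := by
        refine Nat.lt_of_mul_lt_mul_right (a := b ^ 2) ?_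
        calc b * b ^ 2 = b ^ 3 := by ring
          _ < (a * b) ^ 2 := h8
          _ = a ^ 2 * b ^ 2 := by ring
      have h10 : a * a ^ 2 ≤ a * b := by rw [← pow_succ']; exact hh
      exact absurd (Nat.le_of_mul_le_mul_left h10 (Nat.card_pos (α := H))) (by omega)
    · rw [Nat.not_odd_iff_even, even_iff_two_dvd] at hZ
      obtain ⟨⟨z, hzZ⟩, hz⟩ := exists_prime_orderOf_dvd_card' (G := Subgroup.center G) 2 hZ
      rw [Subgroup.orderOf_mk] at hz
      set Z := Subgroup.zpowers z with hZdef
      haveI : Z.Normal := ⟨fun x hx g => by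
        obtain ⟨k, rfl⟩ := Subgroup.mem_zpowers_iff.1 hx
        rw [Subgroup.mem_center_iff.1 ((Subgroup.center G).zpow_mem hzZ k) g, mul_inv_cancel_right]
        exact hx⟩
      have hcard : Nat.card (G ⧸ Z) * 2 = Nat.card G := by
        rw [Subgroup.card_eq_card_quotient_mul_card_subgroup Z, hZdef, Nat.card_zpowers, hz]
      have hev : Even (Nat.card (G ⧸ Z)) := by
        by_contra hodd
        obtain ⟨T⟩ := (inferInstance : Nonempty (Sylow 2 G))
        have hT : Nat.card T = 2 := by
          have hq : ¬ 2 ∣ Nat.card (G ⧸ Z) := fun h => hodd (even_iff_two_dvd.2 h)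
          rw [T.card_eq_multiplicity, ← hcard,
            Nat.factorization_mul Nat.card_pos.ne' two_ne_zero, Finsupp.add_apply,
            Nat.factorization_eq_zero_of_not_dvd hq, Nat.prime_two.factorization_self]
          norm_num
        haveI : IsCyclic (T : Subgroup G) := isCyclic_of_prime_card hT
        obtain ⟨H, hH⟩ := CfsgLib.TwoSylow.exists_index_two heven T inferInstance
        exact h2 H hH
      have hgt' : 2 < Nat.card (G ⧸ Z) := by
        by_contra hle
        obtain ⟨k, hk⟩ := hev
        have hpos : 0 < Nat.card (G ⧸ Z) := Nat.card_pos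
        refine h2 Z ?_
        rw [Subgroup.index_eq_card]
        omega
      obtain ⟨H, hH, hlt⟩ := ih _ (by omega) (G ⧸ Z) rfl hev hgt'
      refine ⟨H.comap (QuotientGroup.mk' Z), fun h => hH ?_, ?_⟩
      · rw [← Subgroup.map_comap_eq_self_of_surjective (QuotientGroup.mk'_surjective Z) H, h,
          Subgroup.map_top_of_surjective _ (QuotientGroup.mk'_surjective Z)]
      · have h1 := (H.comap (QuotientGroup.mk' Z)).card_mul_index
        rw [Subgroup.index_comap_of_surjective _ (QuotientGroup.mk'_surjective Z), ← hcard,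
          ← H.card_mul_index] at h1
        have h2' : Nat.card (H.comap (QuotientGroup.mk' Z)) = 2 * Nat.card H := by
          refine Nat.eq_of_mul_eq_mul_right (Nat.pos_of_ne_zero H.index_ne_zero_of_finite) ?_
          rw [h1]; ring
        rw [h2']
        nlinarith

end Cfsg.Agent.S0232
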