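import Cfsg.Statements.S0991
import Mathlib

set_option autoImplicit false
open Cfsg

namespace Cfsg.Agent.S0991

/-- Embedding Theorem: if a non-abelian finite simple group has a proper subgroup of index n, then it is isomorphic to a subgroup of the alternating group of degree n. -/
theorem result {G : Type*} [Group G] [Finite G] [IsSimpleGroup G] (hG : ¬ IsMulCommutative G) (H : Subgroup G) (hH : H ≠ ⊤) : ∃ f : G →* ↥(alternatingGroup (Fin H.index)), Function.Injective f := by
  classical
  let e : G ⧸ H ≃ Fin H.index := Finite.equivFinOfCardEq rfl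
  let f : G →* Equiv.Perm (Fin H.index) :=
    (Equiv.permCongrHom e).toMonoidHom.comp (MulAction.toPermHom G (G ⧸ H))
  have hinj : Function.Injective f := by
    rw [← MonoidHom.ker_eq_bot_iff]
    rcases (MonoidHom.normal_ker f).eq_bot_or_eq_top with h | h
    · exact h
    · refine absurd ((Subgroup.eq_top_iff' H).2 fun g => ?_) hH
      have hg : g ∈ f.ker := by rw [h]; exact Subgroup.mem_top g
      rw [MonoidHom.mem_ker] at hg
      have h1 : MulAction.toPermHom G (G ⧸ H) g = 1 :=
        (Equiv.permCongrHom e).injective (hg.trans (map_one _).symm)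
      have h2 := congrArg (fun σ : Equiv.Perm (G ⧸ H) => σ ((1 : G) : G ⧸ H)) h1
      simp only [MulAction.toPermHom_apply, MulAction.toPerm_apply, Equiv.Perm.one_apply,
        MulAction.Quotient.smul_coe, smul_eq_mul, mul_one] at h2
      simpa [QuotientGroup.eq] using h2
  have heven : ∀ g, Equiv.Perm.sign (f g) = 1 := by
    intro g
    rcases (MonoidHom.normal_ker (Equiv.Perm.sign.comp f)).eq_bot_or_eq_top with h | h
    · refine absurd ⟨⟨fun x y => (MonoidHom.ker_eq_bot_iff _).1 h ?_⟩⟩ hG
      rw [map_mul, map_mul, mul_comm]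
    · have : g ∈ (Equiv.Perm.sign.comp f).ker := by rw [h]; exact Subgroup.mem_top g
      exact this
  exact ⟨f.codRestrict _ fun g => Equiv.Perm.mem_alternatingGroup.2 (heven g),
    fun x y h => hinj (congrArg Subtype.val h)⟩

end Cfsg.Agent.S0991
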