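import Cfsg.Statements.S0234
import Mathlib
import Cfsg.Agent.Lib.InvolutionCount
import Cfsg.Agent.S0991

set_option autoImplicit false
open Cfsg

namespace Cfsg.Agent.S0234

/-- In a finite simple group G of even order greater than 2, the number n of involutions satisfies 3n < |G|. -/
theorem result {G : Type*} [Group G] [Finite G] [IsSimpleGroup G] (heven : Even (Nat.card G)) (hgt : 2 < Nat.card G) : 3 * Nat.card {t : G // orderOf t = 2} < Nat.card G := by
  classical
  by_cases hZ : Odd (Nat.card (Subgroup.center G))
  swap
  · obtain ⟨h2, -⟩ := CfsgLib.InvolutionCount.card_eq_two_of_center_even hZ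
    omega
  have hnc : ¬ IsMulCommutative G := fun h => by
    haveI := h
    have hp := Group.is_simple_iff_prime_card.1 (inferInstance : IsSimpleGroup G)
    have := (Nat.prime_dvd_prime_iff_eq Nat.prime_two hp).1 (even_iff_two_dvd.1 heven)
    omega
  obtain ⟨H, hH, h⟩ := CfsgLib.InvolutionCount.exists_small_index heven hZ
  set n := Nat.card {t : G // orderOf t = 2}
  by_contra hlt
  push Not at hlt
  have hidx : H.index ≤ 5 := by
    rcases h with h | h
    · omega
    · by_contra h6
      push Not at h6
      have h1 : 2 * 6 * n ^ 2 ≤ 2 * H.index * n ^ 2 :=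
        Nat.mul_le_mul_right _ (Nat.mul_le_mul_left 2 (by omega))
      nlinarith
  have heven' : ∀ K : Subgroup G, K ≠ ⊤ → ∃ f : G →* alternatingGroup (Fin K.index),
      Function.Injective f := fun K hK => Cfsg.Agent.S0991.result hnc K hK
  obtain ⟨f, hf⟩ := heven' H hH
  let e : Fin H.index ↪ Fin 5 := Fin.castLEEmb hidx
  let E := Equiv.Perm.viaEmbeddingHom e
  let F : G →* alternatingGroup (Fin 5) :=
    (E.comp ((alternatingGroup (Fin H.index)).subtype.comp f)).codRestrict _ fun x => by
      rw [Equiv.Perm.mem_alternatingGroup]
      show Equiv.Perm.sign (Equiv.Perm.viaEmbedding _ e) = 1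
      rw [Equiv.Perm.viaEmbedding, Equiv.Perm.sign_extendDomain]
      exact Equiv.Perm.mem_alternatingGroup.1 (f x).2
  have hF : Function.Injective F := fun x y hxy =>
    hf (Subtype.ext (Equiv.Perm.viaEmbeddingHom_injective e (congrArg Subtype.val hxy)))
  have hA : Nat.card (alternatingGroup (Fin 5)) = 60 := by
    rw [Nat.card_eq_fintype_card]; rfl
  by_cases hsurj : Function.Surjective F
  · let φ := MulEquiv.ofBijective F ⟨hF, hsurj⟩
    have hg : Nat.card G = 60 := by rw [← hA]; exact Nat.card_congr φ.toEquiv
    have hn : n = 15 := by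
      have : n = Nat.card {t : alternatingGroup (Fin 5) // t * t = 1 ∧ t ≠ 1} := by
        refine Nat.card_congr (φ.toEquiv.subtypeEquiv fun t => ?_)
        constructor
        · intro ht
          refine ⟨?_, fun h => CfsgLib.Involution.ne_one ht (φ.injective (h.trans (map_one φ).symm))⟩
          show φ t * φ t = 1
          rw [← map_mul, CfsgLib.Involution.mul_self ht, map_one]
        · rintro ⟨h1, h2⟩
          rw [← φ.orderOf_eq]
          exact CfsgLib.Involution.orderOf_eq_two h1 h2
      rw [this, Nat.card_eq_fintype_card]
      decide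
    omega
  · -- a proper subgroup of `A₅` is not a nonabelian simple group of even order
    let R := F.range
    have hR : R ≠ ⊤ := fun h => hsurj (MonoidHom.range_eq_top.1 h)
    have hnc5 : ¬ IsMulCommutative (alternatingGroup (Fin 5)) := fun h => hnc ⟨⟨fun a b => hF (by
      haveI := h
      rw [map_mul, map_mul]
      exact mul_comm' _ _)⟩⟩
    haveI : IsSimpleGroup (alternatingGroup (Fin 5)) := alternatingGroup.isSimpleGroup_five
    obtain ⟨f5, hf5⟩ := Cfsg.Agent.S0991.result hnc5 R hR
    have hb : 5 ≤ R.index := by
      by_contra hb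
      have h1 := Nat.card_le_card_of_injective f5 hf5
      have h2 : Nat.card (alternatingGroup (Fin R.index)) ≤ Nat.card (Equiv.Perm (Fin R.index)) :=
        Subgroup.card_le_card_group _
      rw [Nat.card_perm, Nat.card_fin] at h2
      have h3 : R.index.factorial ≤ Nat.factorial 4 := Nat.factorial_le (by omega)
      rw [hA] at h1
      have : Nat.factorial 4 = 24 := rfl
      omega
    have h60 := R.card_mul_index
    rw [hA, show Nat.card R = Nat.card G from
      (Nat.card_congr (Equiv.ofInjective F hF)).symm] at h60
    have hg12 : Nat.card G ≤ 12 := by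
      have := Nat.mul_le_mul_left (Nat.card G) hb
      omega
    obtain ⟨P⟩ := (inferInstance : Nonempty (Sylow 2 G))
    have hPtop : (P : Subgroup G) ≠ ⊤ := by
      intro htop
      have h2 : IsPGroup 2 G := by
        intro x
        obtain ⟨k, hk⟩ := P.2 ⟨x, htop ▸ Subgroup.mem_top x⟩
        exact ⟨k, congrArg Subtype.val hk⟩
      haveI : Nontrivial G := IsSimpleGroup.toNontrivial
      haveI := h2.center_nontrivial
      rcases (inferInstance : (Subgroup.center G).Normal).eq_bot_or_eq_top with h | h
      · exact (Subgroup.nontrivial_iff_ne_bot _).1 inferInstance h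
      · exact hnc ⟨⟨fun a b => Subgroup.mem_center_iff.1 (h ▸ Subgroup.mem_top b) a⟩⟩
    have h2P : 2 ∣ Nat.card P := P.dvd_card_of_dvd_card (even_iff_two_dvd.1 heven)
    have hidxP : Nat.card P * (P : Subgroup G).index = Nat.card G := Subgroup.card_mul_index _
    have hidx1 : (P : Subgroup G).index ≠ 1 := fun h => hPtop (Subgroup.index_eq_one.1 h)
    obtain ⟨fP, hfP⟩ := heven' _ hPtop
    have hle := Nat.card_le_card_of_injective fP hfP
    have hdvdA := (Subgroup.card_dvd_of_injective fP hfP)
    have hodd : ¬ 2 ∣ (P : Subgroup G).index := P.not_dvd_index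
    have hP2 : 2 ≤ Nat.card P := Nat.le_of_dvd Nat.card_pos h2P
    have hsmall : (P : Subgroup G).index = 3 ∨ (P : Subgroup G).index = 5 := by
      have hi : (P : Subgroup G).index ≤ 6 := by
        have := Nat.mul_le_mul_right (P : Subgroup G).index hP2
        omega
      interval_cases hi' : (P : Subgroup G).index <;> omega
    rcases hsmall with hs | hs
    · rw [hs] at hle hidxP
      have hA3 : Nat.card (alternatingGroup (Fin 3)) = 3 := by rw [Nat.card_eq_fintype_card]; rfl
      rw [hA3] at hle
      omega
    · rw [hs] at hidxP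
      have hg10 : Nat.card G = 10 := by omega
      obtain ⟨x, hx⟩ := exists_prime_orderOf_dvd_card' (G := G) (p := 5) (hp := ⟨Nat.prime_five⟩)
        (by rw [hg10]; decide)
      have hi2 : (Subgroup.zpowers x).index = 2 := by
        have := (Subgroup.zpowers x).card_mul_index
        rw [Nat.card_zpowers, hx, hg10] at this
        omega
      rcases (Subgroup.normal_of_index_eq_two hi2).eq_bot_or_eq_top with h | h
      · rw [Subgroup.zpowers_eq_bot] at h
        rw [h, orderOf_one] at hx
        omega
      · rw [h, Subgroup.index_top] at hi2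
        omega

end Cfsg.Agent.S0234
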