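import Cfsg.Statements.S0235
import Cfsg.Agent.Lib.Involution

set_option autoImplicit false
open Cfsg

namespace Cfsg.Agent.S0235

/-- If x² ≠ 1, the ordered pairs (u, v) of involutions with uv = x correspond bijectively to the involutions t with t x t⁻¹ = x⁻¹ (via (u, v) ↦ u), so the two counts agree. -/
theorem result {G : Type*} [Group G] [Finite G] (x : G) (hx : x ^ 2 ≠ 1) : Nat.card {p : G × G // orderOf p.1 = 2 ∧ orderOf p.2 = 2 ∧ p.1 * p.2 = x} = Nat.card {t : G // orderOf t = 2 ∧ t * x * t⁻¹ = x⁻¹} := by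
  refine Nat.card_congr ⟨fun p => ⟨p.1.1, p.2.1, ?_⟩, fun t => ⟨(t.1, t.1 * x), t.2.1, ?_, ?_⟩,
    fun p => ?_, fun t => rfl⟩
  · obtain ⟨⟨a, b⟩, ha, hb, hab⟩ := p
    simp only at hab ⊢
    subst hab
    exact CfsgLib.Involution.conj_mul_eq_inv ha hb
  · refine CfsgLib.Involution.orderOf_eq_two ?_ fun h => ?_
    · calc t.1 * x * (t.1 * x) = (t.1 * x * t.1⁻¹) * (t.1 * t.1) * x := by group
        _ = 1 := by rw [t.2.2, CfsgLib.Involution.mul_self t.2.1]; group
    · refine hx ?_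
      rw [show x = t.1⁻¹ from (inv_eq_of_mul_eq_one_right h).symm, CfsgLib.Involution.inv_eq t.2.1, pow_two,
        CfsgLib.Involution.mul_self t.2.1]
  · rw [← mul_assoc, CfsgLib.Involution.mul_self t.2.1, one_mul]
  · obtain ⟨⟨a, b⟩, ha, hb, hab⟩ := p
    simp only at hab
    subst hab
    apply Subtype.ext
    simp [← mul_assoc, CfsgLib.Involution.mul_self ha]

end Cfsg.Agent.S0235
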