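import Cfsg.Statements.S0236
import Cfsg.Agent.Lib.Involution

set_option autoImplicit false
open Cfsg

namespace Cfsg.Agent.S0236

theorem pairs_equiv {G : Type*} [Group G] [Finite G] (x : G) (hx : orderOf x = 2) :
    Nat.card {p : G × G // orderOf p.1 = 2 ∧ orderOf p.2 = 2 ∧ p.1 * p.2 = x} + 1 =
      Nat.card {t : G // orderOf t = 2 ∧ Commute t x} := by
  classical
  have := Fintype.ofFinite G
  have e : {p : G × G // orderOf p.1 = 2 ∧ orderOf p.2 = 2 ∧ p.1 * p.2 = x} ≃
      {t : G // (orderOf t = 2 ∧ Commute t x) ∧ t ≠ x} := by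
    refine ⟨fun p => ⟨p.1.1, ⟨p.2.1, ?_⟩, ?_⟩, fun t => ⟨(t.1, t.1 * x), t.2.1.1, ?_, ?_⟩,
      fun p => ?_, fun t => rfl⟩
    · obtain ⟨⟨a, b⟩, ha, hb, hab⟩ := p
      simp only at hab ⊢
      subst hab
      have h1 := CfsgLib.Involution.conj_mul_eq_inv ha hb
      rw [CfsgLib.Involution.inv_eq hx, mul_inv_eq_iff_eq_mul] at h1
      exact h1
    · obtain ⟨⟨a, b⟩, ha, hb, hab⟩ := p
      simp only at hab ⊢
      subst hab
      exact fun h => CfsgLib.Involution.ne_one hb (mul_eq_left.mp h.symm)
    · refine CfsgLib.Involution.orderOf_eq_two ?_ fun h => t.2.2 ?_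
      · rw [t.2.1.2.symm.mul_mul_mul_comm, CfsgLib.Involution.mul_self t.2.1.1,
          CfsgLib.Involution.mul_self hx, one_mul]
      · exact (eq_inv_of_mul_eq_one_left h).trans (CfsgLib.Involution.inv_eq hx)
    · rw [← mul_assoc, CfsgLib.Involution.mul_self t.2.1.1, one_mul]
    · obtain ⟨⟨a, b⟩, ha, hb, hab⟩ := p
      simp only at hab
      subst hab
      apply Subtype.ext
      simp [← mul_assoc, CfsgLib.Involution.mul_self ha]
  rw [Nat.card_congr e]
  simp only [Nat.card_eq_fintype_card, Fintype.card_subtype]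
  rw [show (Finset.univ.filter fun t : G => (orderOf t = 2 ∧ Commute t x) ∧ t ≠ x) =
    (Finset.univ.filter fun t : G => orderOf t = 2 ∧ Commute t x).erase x from by
      ext t; simp [and_comm]]
  exact Finset.card_erase_add_one (by simp [hx])

/-- If x is an involution, the number of ordered pairs (u, v) of involutions with uv = x, plus one, equals the number of involutions in the centralizer of x. -/
theorem result {G : Type*} [Group G] [Finite G] (x : G) (hx : orderOf x = 2) : Nat.card {p : G × G // orderOf p.1 = 2 ∧ orderOf p.2 = 2 ∧ p.1 * p.2 = x} + 1 = Nat.card {t : G // orderOf t = 2 ∧ Commute t x} := by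
  exact pairs_equiv x hx

end Cfsg.Agent.S0236
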