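import Cfsg.Statements.S0237
import Cfsg.Agent.Lib.Involution

set_option autoImplicit false
open Cfsg

namespace Cfsg.Agent.S0237

/-- If x is real (conjugate to x⁻¹) in a finite group G, the number of g with g x g⁻¹ = x⁻¹ equals |C_G(x)|. -/
theorem result {G : Type*} [Group G] [Finite G] (x : G) (hreal : IsConj x x⁻¹) : Nat.card {g : G // g * x * g⁻¹ = x⁻¹} = Nat.card (Subgroup.centralizer ({x} : Set G)) := by
  obtain ⟨g0, h0⟩ := isConj_iff.mp hreal
  refine Nat.card_congr ⟨fun g => ⟨g0⁻¹ * g.1, ?_⟩, fun c => ⟨g0 * c.1, ?_⟩,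
    fun g => Subtype.ext (by simp), fun c => Subtype.ext (by simp)⟩
  · obtain ⟨g, hg⟩ := g
    rw [Subgroup.mem_centralizer_singleton_iff]
    have h1 : x = g0⁻¹ * x⁻¹ * g0 := by rw [← h0]; group
    have h2 : g * x = x⁻¹ * g := by rw [← hg]; group
    rw [mul_assoc, h2]; nth_rewrite 2 [h1]; group
  · have := Subgroup.mem_centralizer_singleton_iff.mp c.2
    calc g0 * c.1 * x * (g0 * c.1)⁻¹ = g0 * (c.1 * x) * c.1⁻¹ * g0⁻¹ := by group
      _ = x⁻¹ := by rw [this, ← h0]; group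

end Cfsg.Agent.S0237
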