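import Cfsg.Statements.S0238
import Cfsg.Agent.Lib.Involution
import Cfsg.Agent.S0236
import Cfsg.Agent.S0237

set_option autoImplicit false
open Cfsg

namespace Cfsg.Agent.S0238

/-- For every x in a finite group G, the number c of ordered pairs (u, v) of involutions with uv = x is at most |C_G(x)|; c = 0 when x is not conjugate to x⁻¹; and c + 2 ≤ |C_G(x)| when x is an involution. -/
theorem result {G : Type*} [Group G] [Finite G] (x : G) : Nat.card {p : G × G // orderOf p.1 = 2 ∧ orderOf p.2 = 2 ∧ p.1 * p.2 = x} ≤ Nat.card (Subgroup.centralizer ({x} : Set G)) ∧ (¬ IsConj x x⁻¹ → Nat.card {p : G × G // orderOf p.1 = 2 ∧ orderOf p.2 = 2 ∧ p.1 * p.2 = x} = 0) ∧ (orderOf x = 2 → Nat.card {p : G × G // orderOf p.1 = 2 ∧ orderOf p.2 = 2 ∧ p.1 * p.2 = x} + 2 ≤ Nat.card (Subgroup.centralizer ({x} : Set G))) := by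
  classical
  have := Fintype.ofFinite G
  set P := {p : G × G // orderOf p.1 = 2 ∧ orderOf p.2 = 2 ∧ p.1 * p.2 = x}
  let f : P → {g : G // g * x * g⁻¹ = x⁻¹} := fun p => ⟨p.1.1, by
    obtain ⟨⟨a, b⟩, ha, hb, hab⟩ := p
    simp only at hab ⊢
    subst hab
    exact CfsgLib.Involution.conj_mul_eq_inv ha hb⟩
  have hf : Function.Injective f := by
    rintro ⟨⟨a, b⟩, _, _, hab⟩ ⟨⟨a', b'⟩, _, _, hab'⟩ h
    obtain rfl : a = a' := congrArg Subtype.val h
    obtain rfl : b = b' := mul_left_cancel (hab.trans hab'.symm)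
    rfl
  have hnc : ¬ IsConj x x⁻¹ → Nat.card P = 0 := fun h => by
    have : IsEmpty P := ⟨fun p => h (isConj_iff.mpr ⟨_, (f p).2⟩)⟩
    exact Nat.card_of_isEmpty
  refine ⟨?_, hnc, fun hx => ?_⟩
  · by_cases hreal : IsConj x x⁻¹
    · exact (Nat.card_le_card_of_injective f hf).trans_eq (Cfsg.Agent.S0237.result x hreal)
    · exact (hnc hreal).le.trans (Nat.zero_le _)
  · have h1 := Cfsg.Agent.S0236.result x hx
    have h2 : Nat.card {t : G // orderOf t = 2 ∧ Commute t x} + 1 ≤
        Nat.card (Subgroup.centralizer ({x} : Set G)) := by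
      rw [← Finite.card_option]
      refine Nat.card_le_card_of_injective (fun o => o.elim 1 (fun t => ⟨t.1, ?_⟩)) ?_
      · exact Subgroup.mem_centralizer_singleton_iff.mpr t.2.2.eq
      · rintro (_ | ⟨a, ha⟩) (_ | ⟨b, hb⟩) h <;> simp [Subtype.ext_iff] at h ⊢
        · exact absurd h.symm (CfsgLib.Involution.ne_one hb.1)
        · exact absurd h (CfsgLib.Involution.ne_one ha.1)
        · exact h
    change Nat.card P + 2 ≤ _
    change Nat.card P + 1 = _ at h1
    omega

end Cfsg.Agent.S0238
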