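import Cfsg.Statements.S0239
import Cfsg.Agent.Lib.Involution

set_option autoImplicit false
open Cfsg

namespace Cfsg.Agent.S0239

/-- If some nontrivial element x of a finite group G is conjugate to x⁻¹, then |G| is even. -/
theorem result {G : Type*} [Group G] [Finite G] (x : G) (hx : x ≠ 1) (hreal : IsConj x x⁻¹) : Even (Nat.card G) := by
  by_contra hne
  rw [Nat.not_even_iff_odd] at hne
  obtain ⟨g, hg⟩ := isConj_iff.mp hreal
  obtain ⟨k, hk⟩ := hne.of_dvd_nat (orderOf_dvd_natCard g)
  have h2 : Commute (g * g) x := by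
    show g * g * x = x * (g * g)
    calc g * g * x = g * (g * x * g⁻¹) * g := by group
      _ = g * x⁻¹ * g := by rw [hg]
      _ = (g * x * g⁻¹)⁻¹ * (g * g) := by group
      _ = _ := by rw [hg, inv_inv]
  have h3 : Commute g x := by
    have h4 := h2.pow_left (k + 1)
    rwa [show (g * g) ^ (k + 1) = g from by
      rw [← pow_two, ← pow_mul, show 2 * (k + 1) = orderOf g + 1 by omega, pow_succ,
        pow_orderOf_eq_one, one_mul]] at h4
  rw [h3.eq, mul_inv_cancel_right] at hg
  have : orderOf x ∣ 2 := orderOf_dvd_of_pow_eq_one (by rw [pow_two]; nth_rewrite 1 [hg]; simp)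
  rcases (Nat.dvd_prime Nat.prime_two).mp this with h | h
  · exact hx (orderOf_eq_one_iff.mp h)
  · have := hne.of_dvd_nat (orderOf_dvd_natCard x)
    rw [h] at this
    exact absurd this (by decide)

end Cfsg.Agent.S0239
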