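import Cfsg.Statements.S0240
import Cfsg.Agent.Lib.Involution

set_option autoImplicit false
open Cfsg

namespace Cfsg.Agent.S0240

/-- Let G be a finite group with n involutions and H a subgroup with |H|·(n+1) > |G|. Then some nontrivial h ∈ H is strongly real in G: an involution t of G satisfies t h t⁻¹ = h⁻¹. -/
theorem result {G : Type*} [Group G] [Finite G] (H : Subgroup G) (hH : Nat.card G < Nat.card H * (Nat.card {t : G // orderOf t = 2} + 1)) : ∃ h : G, h ∈ H ∧ h ≠ 1 ∧ ∃ t : G, orderOf t = 2 ∧ t * h * t⁻¹ = h⁻¹ := by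
  classical
  let A := Option {t : G // orderOf t = 2}
  have hcard : Nat.card (G ⧸ H) < Nat.card A := by
    simp only [A, Finite.card_option]
    have h1 := H.card_mul_index
    rw [← h1, Subgroup.index] at hH
    exact Nat.lt_of_mul_lt_mul_left hH
  let f : A → G ⧸ H := fun o => QuotientGroup.mk (o.elim 1 Subtype.val)
  have hf : ¬ Function.Injective f := fun h =>
    absurd (Nat.card_le_card_of_injective f h) (by omega)
  rw [Function.not_injective_iff] at hf
  obtain ⟨a, b, hab, hne⟩ := hf
  simp only [f, QuotientGroup.eq] at hab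
  rcases a with _ | a <;> rcases b with _ | b
  · exact absurd rfl hne
  · simp at hab
    exact ⟨b, hab, CfsgLib.Involution.ne_one b.2, b, b.2, by
      rw [CfsgLib.Involution.mul_self b.2, one_mul]⟩
  · simp at hab
    exact ⟨a, hab, CfsgLib.Involution.ne_one a.2, a, a.2, by
      rw [CfsgLib.Involution.mul_self a.2, one_mul]⟩
  · simp only [Option.elim, CfsgLib.Involution.inv_eq a.2] at hab
    refine ⟨_, hab, fun h => hne ?_, a, a.2, CfsgLib.Involution.conj_mul_eq_inv a.2 b.2⟩
    congr 1
    apply Subtype.ext
    exact (eq_inv_of_mul_eq_one_left h).trans (CfsgLib.Involution.inv_eq b.2)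

end Cfsg.Agent.S0240
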