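import Cfsg.Statements.S0241
import Cfsg.Agent.Lib.Involution

set_option autoImplicit false
open Cfsg

namespace Cfsg.Agent.S0241

/-- If x ≠ 1 is conjugate to x⁻¹ in a finite group G and |C_G(x)| is odd, then some involution t satisfies t x t⁻¹ = x⁻¹. -/
theorem result {G : Type*} [Group G] [Finite G] (x : G) (hx : x ≠ 1) (hreal : IsConj x x⁻¹) (hodd : Odd (Nat.card (Subgroup.centralizer ({x} : Set G)))) : ∃ t : G, orderOf t = 2 ∧ t * x * t⁻¹ = x⁻¹ := by
  obtain ⟨g, hg⟩ := isConj_iff.mp hreal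
  have h2 : g * g ∈ Subgroup.centralizer ({x} : Set G) := by
    rw [Subgroup.mem_centralizer_singleton_iff]
    calc g * g * x = g * (g * x * g⁻¹) * g := by group
      _ = g * x⁻¹ * g := by rw [hg]
      _ = (g * x * g⁻¹)⁻¹ * (g * g) := by group
      _ = _ := by rw [hg, inv_inv]
  obtain ⟨k, hk⟩ := hodd.of_dvd_nat (Subgroup.orderOf_dvd_natCard _ h2)
  have hk2 : g ^ (2 * (2 * k + 1)) = 1 := by
    rw [pow_mul, pow_two g, ← hk, pow_orderOf_eq_one]
  have hinv : g ^ (2 * k + 1) * x * (g ^ (2 * k + 1))⁻¹ = x⁻¹ := by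
    have hc : Commute ((g * g) ^ k) x :=
      Commute.pow_left (Subgroup.mem_centralizer_singleton_iff.mp h2) k
    rw [pow_succ', pow_mul, pow_two g]
    calc g * (g * g) ^ k * x * (g * (g * g) ^ k)⁻¹
        = g * ((g * g) ^ k * x) * ((g * g) ^ k)⁻¹ * g⁻¹ := by group
      _ = g * x * g⁻¹ := by rw [hc.eq]; group
      _ = _ := hg
  refine ⟨g ^ (2 * k + 1), CfsgLib.Involution.orderOf_eq_two ?_ fun h => ?_, hinv⟩
  · rw [← pow_add, ← two_mul, hk2]
  · rw [h, one_mul, inv_one, mul_one] at hinv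
    have hxC : x ∈ Subgroup.centralizer ({x} : Set G) :=
      Subgroup.mem_centralizer_singleton_iff.mpr rfl
    have hd : orderOf x ∣ 2 := orderOf_dvd_of_pow_eq_one
      (by rw [pow_two]; nth_rewrite 1 [hinv]; simp)
    rcases (Nat.dvd_prime Nat.prime_two).mp hd with h | h
    · exact hx (orderOf_eq_one_iff.mp h)
    · have := hodd.of_dvd_nat (Subgroup.orderOf_dvd_natCard _ hxC)
      rw [h] at this
      exact absurd this (by decide)

end Cfsg.Agent.S0241
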