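import Cfsg.Statements.S0244


set_option autoImplicit false
open Cfsg

namespace Cfsg.Agent.S0244

/-- Sp_2 = SL_2: a matrix on Fin 1 ⊕ Fin 1 lies in Mathlib's symplectic group iff its determinant is 1. -/
theorem result {R : Type*} [CommRing R] (A : Matrix (Fin 1 ⊕ Fin 1) (Fin 1 ⊕ Fin 1) R) : A ∈ Matrix.symplecticGroup (Fin 1) R ↔ A.det = 1 := by
  constructor
  · intro h
    exact SymplecticGroup.det_eq_one h
  · intro h
    rw [SymplecticGroup.mem_iff]
    have key : A * Matrix.J (Fin 1) R * A.transpose = A.det • Matrix.J (Fin 1) R := by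
      have hd : A.det = A (.inl 0) (.inl 0) * A (.inr 0) (.inr 0) - A (.inl 0) (.inr 0) * A (.inr 0) (.inl 0) := by
        rw [← Matrix.det_reindex_self finSumFinEquiv A]
        rw [Matrix.det_fin_two]
        rfl
      ext i j
      rcases i with i | i <;> rcases j with j | j <;> fin_cases i <;> fin_cases j <;>
        simp [Matrix.mul_apply, Matrix.J, hd, Matrix.fromBlocks] <;> ring
    rw [key, h, one_smul]

end Cfsg.Agent.S0244
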