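import Cfsg.Statements.S0247
import Cfsg.Agent.Lib.Symplectic.HeartForms
import Cfsg.Agent.Lib.Symplectic.HeartTransport
import Cfsg.Agent.Lib.Symplectic.Order

set_option autoImplicit false
open Cfsg

namespace Cfsg.Agent.S0247

/-- Sp_4(2) is isomorphic to the symmetric group S_6. -/
theorem result {F : Type*} [Field F] [Fintype F] (hF : Fintype.card F = 2) : Nonempty (Matrix.symplecticGroup (Fin 2) F ≃* Equiv.Perm (Fin 6)) := by
  obtain ⟨e⟩ := CfsgLib.Symplectic.Heart.exists_zmod_two hF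
  obtain ⟨ε⟩ := CfsgLib.Symplectic.Heart.symplectic_equiv e 2
  have hcard : Nat.card (Matrix.symplecticGroup (Fin 2) (ZMod 2)) ≤ Nat.card (Equiv.Perm (Fin (2 * 2 + 2))) := by
    rw [CfsgLib.Symplectic.Order.card_Sp, Nat.card_perm, Nat.card_fin, ZMod.card]
    decide
  exact ⟨ε.trans (MulEquiv.ofBijective (CfsgLib.Symplectic.Heart.sHom 2)
    ((CfsgLib.Symplectic.Heart.sHom_injective (le_refl 2)).bijective_of_nat_card_le hcard)).symm⟩

end Cfsg.Agent.S0247
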