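import Cfsg.Statements.S0250
import Mathlib
import Cfsg.Agent.Lib.Linear.SmallPSL

set_option autoImplicit false
open Cfsg

namespace Cfsg.Agent.S0250

/-- SL_2(2) is isomorphic to S_3. -/
theorem result {F : Type*} [Field F] [Fintype F] (hF : Fintype.card F = 2) : Nonempty (Matrix.SpecialLinearGroup (Fin 2) F ≃* Equiv.Perm (Fin 3)) := by
  obtain ⟨f, hf⟩ := CfsgLib.Linear.SmallPSL.exists_hom_PSL (F := F) (m := 3) (by omega)
  have hSL : Nat.card (Matrix.SpecialLinearGroup (Fin 2) F) = 6 := by
    have := CfsgLib.Linear.SmallPSL.card_SL2 (F := F)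
    rw [hF] at this; simpa using this
  have hPSL : Nat.card (Matrix.ProjectiveSpecialLinearGroup (Fin 2) F) = 6 := by
    have := CfsgLib.Linear.Card.card_PSL_mul (F := F) (ι := Fin 2)
    rw [hF, hSL] at this; simpa using this
  have hb : Function.Bijective (QuotientGroup.mk' (Subgroup.center (Matrix.SpecialLinearGroup (Fin 2) F))) :=
    (Nat.bijective_iff_surjective_and_card _).2 ⟨QuotientGroup.mk'_surjective _, hSL.trans hPSL.symm⟩
  have hb' : Function.Bijective f :=
    (Nat.bijective_iff_injective_and_card _).2 ⟨hf, by rw [hPSL, Nat.card_eq_fintype_card, Fintype.card_perm]; rfl⟩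
  exact ⟨(MulEquiv.ofBijective _ hb).trans (MulEquiv.ofBijective f hb')⟩

end Cfsg.Agent.S0250
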