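import Cfsg.Statements.S0251
import Mathlib
import Cfsg.Agent.Lib.Linear.SmallPSL

set_option autoImplicit false
open Cfsg

namespace Cfsg.Agent.S0251

/-- PSL_2(3) is isomorphic to A_4. -/
theorem result {F : Type*} [Field F] [Fintype F] (hF : Fintype.card F = 3) : Nonempty (Matrix.ProjectiveSpecialLinearGroup (Fin 2) F ≃* alternatingGroup (Fin 4)) := by
  obtain ⟨f, hf⟩ := CfsgLib.Linear.SmallPSL.exists_hom_PSL (F := F) (m := 4) (by omega)
  have hSL : Nat.card (Matrix.SpecialLinearGroup (Fin 2) F) = 24 := by
    have := CfsgLib.Linear.SmallPSL.card_SL2 (F := F)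
    rw [hF] at this; norm_num at this; omega
  have hPSL : Nat.card (Matrix.ProjectiveSpecialLinearGroup (Fin 2) F) = 12 := by
    have := CfsgLib.Linear.Card.card_PSL_mul (F := F) (ι := Fin 2)
    rw [hF, hSL] at this; norm_num at this; omega
  have hr : Nat.card f.range = 12 := by
    rw [← hPSL]; exact (Nat.card_congr (MonoidHom.ofInjective hf).toEquiv).symm
  have hi : f.range.index = 2 := by
    have := Subgroup.card_mul_index f.range
    rw [hr, Nat.card_eq_fintype_card, Fintype.card_perm, Fintype.card_fin,
      show Nat.factorial 4 = 24 from rfl] at this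
    omega
  exact ⟨(MonoidHom.ofInjective hf).trans (MulEquiv.subgroupCongr (Equiv.Perm.eq_alternatingGroup_of_index_eq_two hi))⟩

end Cfsg.Agent.S0251
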