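import Cfsg.Statements.S0252
import Mathlib
import Cfsg.Agent.Lib.SL2.Small

set_option autoImplicit false
open Cfsg

namespace Cfsg.Agent.S0252

/-- PSL_2(4) is isomorphic to A_5. -/
theorem result {F : Type*} [Field F] [Fintype F] (hF : Fintype.card F = 4) : Nonempty (Matrix.ProjectiveSpecialLinearGroup (Fin 2) F ≃* alternatingGroup (Fin 5)) := by
  exact CfsgLib.SL2Dickson.psl_four_five (Or.inl hF)

end Cfsg.Agent.S0252
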