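import Cfsg.Statements.S0254
import Mathlib
import Cfsg.Agent.Lib.SL2.Small
import Cfsg.Agent.S0804
import Cfsg.Agent.Lib.InvolutionCount

set_option autoImplicit false
open Cfsg

namespace Cfsg.Agent.S0254

/-- PSL_2(9) is isomorphic to A_6. -/
theorem result {F : Type*} [Field F] [Fintype F] (hF : Fintype.card F = 9) : Nonempty (Matrix.ProjectiveSpecialLinearGroup (Fin 2) F ≃* alternatingGroup (Fin 6)) := by
  haveI := CfsgLib.SL2Dickson.psl_simple (F := F) (by omega)
  have hc := CfsgLib.SL2Dickson.gcd_mul_card F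
  rw [hF, show Nat.gcd 2 (9 - 1) = 2 by decide, show 9 * (9 ^ 2 - 1) = 720 by decide] at hc
  obtain ⟨H, ⟨e⟩⟩ := (Cfsg.Agent.S0804.result hF).2 (by norm_num)
  have h60 : Nat.card H = 60 := by rw [Nat.card_congr e.toEquiv, nat_card_alternatingGroup, Nat.card_fin]; rfl
  have hidx := Subgroup.card_mul_index H
  rw [h60] at hidx
  obtain ⟨f, hf⟩ := CfsgLib.InvolutionCount.exists_injective_perm H (fun e' => by
    rw [e', Subgroup.card_top] at h60
    rw [e', Subgroup.index_top] at hidx
    omega)
  haveI : Fintype (Matrix.ProjectiveSpecialLinearGroup (Fin 2) F ⧸ H) := Fintype.ofFinite _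
  have ec : Fintype.card (Matrix.ProjectiveSpecialLinearGroup (Fin 2) F ⧸ H) = 6 := by
    rw [← Nat.card_eq_fintype_card, ← Subgroup.index_eq_card]; omega
  let ε := Fintype.equivFinOfCardEq ec
  let g := ε.permCongrHom.toMonoidHom.comp f
  have hg : Function.Injective g := ε.permCongrHom.injective.comp hf
  have hi := Subgroup.card_mul_index g.range
  rw [← Nat.card_congr (MonoidHom.ofInjective hg).toEquiv, Nat.card_perm, Nat.card_fin,
    show Nat.factorial 6 = 720 from rfl] at hi
  have hG : Nat.card (Matrix.ProjectiveSpecialLinearGroup (Fin 2) F) = 360 := by omega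
  rw [hG] at hi
  exact ⟨(MonoidHom.ofInjective hg).trans (MulEquiv.subgroupCongr
    (Equiv.Perm.eq_alternatingGroup_of_index_eq_two (show g.range.index = 2 by omega)))⟩

end Cfsg.Agent.S0254
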