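import Cfsg.Statements.S0495
import Mathlib
import Cfsg.Agent.Lib.SmallIso.Order168Unique
import Cfsg.Agent.Lib.SL2.Small

set_option autoImplicit false
open Cfsg

namespace Cfsg.Agent.S0495

/-- A simple group of order 168 is isomorphic to the projective special linear group of dimension 2 over the field with
7 elements. -/
theorem result {G : Type*} [Group G] [Finite G] [IsSimpleGroup G]
    (h : Nat.card G = 168) {F : Type*} [Field F] [Fintype F] (hF : Fintype.card F = 7) :
    Nonempty (G ≃* Matrix.ProjectiveSpecialLinearGroup (Fin 2) F) := by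
  haveI := CfsgLib.SL2Dickson.psl_simple (F := F) (by omega)
  have hc := CfsgLib.SL2Dickson.gcd_mul_card F
  rw [hF, show Nat.gcd 2 (7 - 1) = 2 by decide, show 7 * (7 ^ 2 - 1) = 336 by decide] at hc
  obtain ⟨e1⟩ := CfsgLib.SmallIso.exists_iso h
  obtain ⟨e2⟩ := CfsgLib.SmallIso.exists_iso (G := Matrix.ProjectiveSpecialLinearGroup (Fin 2) F) (by omega)
  exact ⟨e1.trans e2.symm⟩

end Cfsg.Agent.S0495
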