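import Cfsg.Statements.S0255
import Mathlib
import Cfsg.Agent.S0495
import Cfsg.Agent.Lib.Linear.Generation
import Cfsg.Agent.Lib.Linear.Card

set_option autoImplicit false
open Cfsg

namespace Cfsg.Agent.S0255

/-- PSL_2(7) is isomorphic to PSL_3(2). -/
theorem result {F K : Type*} [Field F] [Fintype F] [Field K] [Fintype K] (hF : Fintype.card F = 7) (hK : Fintype.card K = 2) : Nonempty (Matrix.ProjectiveSpecialLinearGroup (Fin 2) F ≃* Matrix.ProjectiveSpecialLinearGroup (Fin 3) K) := by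
  haveI : IsSimpleGroup (Matrix.ProjectiveSpecialLinearGroup (Fin 3) K) :=
    CfsgLib.Linear.Generation.isSimpleGroup_PSL (Or.inl (by simp))
  have h1 := CfsgLib.Linear.Card.card_SL (F := K) 3 (by norm_num)
  have h2 := CfsgLib.Linear.Card.card_PSL_mul (F := K) (ι := Fin 3)
  rw [hK, Fintype.card_fin] at *
  rw [Fin.prod_univ_three] at h1
  simp only [Fin.val_zero, Fin.val_one, Fin.val_two] at h1
  rw [show Nat.gcd 3 (2 - 1) = 1 by decide, one_mul] at h2
  rw [show (2 - 1 : ℕ) = 1 from rfl, one_mul] at h1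
  haveI : Finite (Matrix.ProjectiveSpecialLinearGroup (Fin 3) K) := Finite.of_surjective _ Quotient.mk_surjective
  obtain ⟨e⟩ := Cfsg.Agent.S0495.result (G := Matrix.ProjectiveSpecialLinearGroup (Fin 3) K) (by rw [h2, h1]; norm_num) hF
  exact ⟨e.symm⟩

end Cfsg.Agent.S0255
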