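import Cfsg.Statements.S0825
import Cfsg.Agent.Lib.Symplectic.HeartForms
import Cfsg.Agent.Lib.Symplectic.HeartTransport
import Cfsg.Agent.S0287

set_option autoImplicit false
open Cfsg

namespace Cfsg.Agent.S0825

/-- O⁺_6(2) ≅ S_8: the isometry group of the hyperbolic form x_1y_1 + x_2y_2 + x_3y_3 over the field with 2 elements is isomorphic to the symmetric group on 8 letters. -/
theorem result {F : Type*} [Field F] [Fintype F] (hF : Fintype.card F = 2) : Nonempty (↥(Cfsg.isometryGroup F (Cfsg.quadFormPlus 3 F)) ≃* Equiv.Perm (Fin 8)) := by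
  obtain ⟨e⟩ := CfsgLib.Symplectic.Heart.exists_zmod_two hF
  obtain ⟨ε⟩ := CfsgLib.Symplectic.Heart.isometry_equiv e (Cfsg.quadFormPlus 3 F)
    (Cfsg.quadFormPlus 3 (ZMod 2)) (fun v => by simp [Cfsg.quadFormPlus])
  let f : Equiv.Perm (Fin 8) →* Cfsg.isometryGroup (ZMod 2) (Cfsg.quadFormPlus 3 (ZMod 2)) :=
    CfsgLib.Symplectic.Heart.model8.hom.codRestrict _
      (CfsgLib.Symplectic.Heart.hom_mem CfsgLib.Symplectic.Heart.model8 _ CfsgLib.Symplectic.Heart.quad8)
  have hinj : Function.Injective f := fun a b h =>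
    CfsgLib.Symplectic.Heart.model8.hom_injective (by norm_num) (congrArg Subtype.val h)
  have hcard : Nat.card (Cfsg.isometryGroup (ZMod 2) (Cfsg.quadFormPlus 3 (ZMod 2))) ≤ Nat.card (Equiv.Perm (Fin 8)) := by
    rw [Cfsg.Agent.S0287.result (ZMod.card 2) 3 (by norm_num), Nat.card_perm, Nat.card_fin]
    decide
  exact ⟨ε.trans (MulEquiv.ofBijective f (hinj.bijective_of_nat_card_le hcard)).symm⟩

end Cfsg.Agent.S0825
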