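import Cfsg.Statements.S0256
import Cfsg.Agent.S0825
import Cfsg.Agent.Lib.Linear.Generation
import Cfsg.Agent.Lib.Linear.Card

set_option autoImplicit false
open Cfsg

namespace Cfsg.Agent.S0256

open scoped Matrix

/-- The six index pairs. -/
def pr : Fin 3 ⊕ Fin 3 → Fin 4 × Fin 4
  | Sum.inl i => (0, i.succ)
  | Sum.inr i => ![((2 : Fin 4), (3 : Fin 4)), (3, 1), (1, 2)] i

/-- The exterior square. -/
def wedge {F : Type*} [Field F] (g : Matrix (Fin 4) (Fin 4) F) : Matrix (Fin 3 ⊕ Fin 3) (Fin 3 ⊕ Fin 3) F :=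
  Matrix.of fun s t => g (pr s).1 (pr t).1 * g (pr s).2 (pr t).2 - g (pr s).1 (pr t).2 * g (pr s).2 (pr t).1

theorem wedge_one {F : Type*} [Field F] : wedge (1 : Matrix (Fin 4) (Fin 4) F) = 1 := by
  ext s t
  rcases s with s | s <;> rcases t with t | t <;> fin_cases s <;> fin_cases t <;> simp [wedge, pr, Matrix.one_apply]

theorem wedge_mul {F : Type*} [Field F] (g h : Matrix (Fin 4) (Fin 4) F) : wedge (g * h) = wedge g * wedge h := by
  ext s t
  simp only [wedge, Matrix.mul_apply, Matrix.of_apply, Fin.sum_univ_four, Fintype.sum_sum_type, Fin.sum_univ_three,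
    show pr (Sum.inl 0) = (0, 1) from rfl, show pr (Sum.inl 1) = (0, 2) from rfl, show pr (Sum.inl 2) = (0, 3) from rfl,
    show pr (Sum.inr 0) = (2, 3) from rfl, show pr (Sum.inr 1) = (3, 1) from rfl, show pr (Sum.inr 2) = (1, 2) from rfl]
  ring

theorem wedge_quad {F : Type*} [Field F] (g : Matrix (Fin 4) (Fin 4) F) (x : Fin 3 ⊕ Fin 3 → F) :
    Cfsg.quadFormPlus 3 F (wedge g *ᵥ x) = g.det * Cfsg.quadFormPlus 3 F x := by
  simp only [Cfsg.quadFormPlus, Matrix.mulVec, dotProduct, wedge, Matrix.of_apply, Fintype.sum_sum_type, Fin.sum_univ_three,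
    show pr (Sum.inl 0) = (0, 1) from rfl, show pr (Sum.inl 1) = (0, 2) from rfl, show pr (Sum.inl 2) = (0, 3) from rfl,
    show pr (Sum.inr 0) = (2, 3) from rfl, show pr (Sum.inr 1) = (3, 1) from rfl, show pr (Sum.inr 2) = (1, 2) from rfl]
  simp [Matrix.det_succ_row_zero, Fin.sum_univ_succ, Matrix.submatrix_apply, Fin.succAbove]
  ring

/-- PSL_4(2) is isomorphic to A_8. -/
theorem result {F : Type*} [Field F] [Fintype F] (hF : Fintype.card F = 2) : Nonempty (Matrix.ProjectiveSpecialLinearGroup (Fin 4) F ≃* alternatingGroup (Fin 8)) := by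
  classical
  obtain ⟨ε⟩ := Cfsg.Agent.S0825.result hF
  let w : Matrix.SpecialLinearGroup (Fin 4) F →* GL (Fin 3 ⊕ Fin 3) F := MonoidHom.toHomUnits
    { toFun := fun g => wedge g.1, map_one' := wedge_one, map_mul' := fun g h => wedge_mul g.1 h.1 }
  have hw : ∀ g, w g ∈ Cfsg.isometryGroup F (Cfsg.quadFormPlus 3 F) := fun g x _ => by
    change Cfsg.quadFormPlus 3 F (wedge g.1 *ᵥ x) = Cfsg.quadFormPlus 3 F x
    rw [wedge_quad, g.2, one_mul]
  let ψ : Matrix.SpecialLinearGroup (Fin 4) F →* Equiv.Perm (Fin 8) := ε.toMonoidHom.comp (w.codRestrict _ hw)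
  have hperf := CfsgLib.Linear.Generation.commutator_SL_eq_top (F := F) (ι := Fin 4) (Or.inl (by simp))
  have hA : ∀ g, ψ g ∈ alternatingGroup (Fin 8) := by
    intro g
    rw [← alternatingGroup.commutator_perm_eq (α := Fin 8) (by simp)]
    have h : g ∈ commutator (Matrix.SpecialLinearGroup (Fin 4) F) := by rw [hperf]; trivial
    have h' := Subgroup.mem_map_of_mem ψ h
    rw [commutator_def, Subgroup.map_commutator] at h'
    exact Subgroup.commutator_mono le_top le_top h'
  have hcard1 := CfsgLib.Linear.Card.card_center_SL (F := F) (ι := Fin 4)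
  rw [hF, Fintype.card_fin, Nat.gcd_one_right] at hcard1
  have hbot : Subgroup.center (Matrix.SpecialLinearGroup (Fin 4) F) = ⊥ := Subgroup.eq_bot_of_card_eq _ hcard1
  let π : Matrix.ProjectiveSpecialLinearGroup (Fin 4) F ≃* Matrix.SpecialLinearGroup (Fin 4) F :=
    (QuotientGroup.quotientMulEquivOfEq hbot).trans QuotientGroup.quotientBot
  haveI hsim : IsSimpleGroup (Matrix.ProjectiveSpecialLinearGroup (Fin 4) F) :=
    CfsgLib.Linear.Generation.isSimpleGroup_PSL (Or.inl (by simp))
  let θ : Matrix.ProjectiveSpecialLinearGroup (Fin 4) F →* alternatingGroup (Fin 8) :=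
    (ψ.codRestrict _ hA).comp π.toMonoidHom
  have hθ : θ.ker ≠ ⊤ := by
    intro h
    set T : Matrix.SpecialLinearGroup (Fin 4) F := Matrix.SpecialLinearGroup.transvection (show (0 : Fin 4) ≠ 2 by decide) 1 with hT
    have h1 : ψ T = 1 := by
      have : θ (π.symm T) = 1 := by
        have hm : π.symm T ∈ θ.ker := by rw [h]; trivial
        exact hm
      simp only [θ, MonoidHom.coe_comp, Function.comp_apply, MonoidHom.coe_coe] at this
      rw [show π.toMonoidHom (π.symm T) = T from π.apply_symm_apply T] at this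
      exact congrArg Subtype.val this
    have h2 : w T = 1 := by
      have h3 : ε ((w.codRestrict _ hw) T) = ε 1 := by rw [map_one]; exact h1
      exact congrArg Subtype.val (ε.injective h3)
    have h4 : wedge T.1 (Sum.inl 0) (Sum.inr 2) = (1 : Matrix (Fin 3 ⊕ Fin 3) (Fin 3 ⊕ Fin 3) F) (Sum.inl 0) (Sum.inr 2) :=
      congrFun (congrFun (congrArg (fun u : GL (Fin 3 ⊕ Fin 3) F => u.1) h2) _) _
    have hTv : T.1 = 1 + Matrix.single 0 2 1 := rfl
    simp [wedge, pr, hTv, Matrix.one_apply, Matrix.single_apply] at h4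
  have hinj : Function.Injective θ :=
    (MonoidHom.ker_eq_bot_iff θ).1 ((IsSimpleGroup.eq_bot_or_eq_top_of_normal θ.ker θ.normal_ker).resolve_right hθ)
  have hcard : Nat.card (alternatingGroup (Fin 8)) ≤ Nat.card (Matrix.ProjectiveSpecialLinearGroup (Fin 4) F) := by
    have h1 := CfsgLib.Linear.Card.card_SL (F := F) 4 (by norm_num)
    rw [hF, Fin.prod_univ_four] at h1
    norm_num at h1
    have h3 : Nat.card (Matrix.SpecialLinearGroup (Fin 4) F) = 20160 := by
      rw [Nat.card_eq_fintype_card] at *; omega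
    have h2 := two_mul_card_alternatingGroup (α := Fin 8)
    rw [Fintype.card_perm, Fintype.card_fin, show Nat.factorial 8 = 40320 from rfl] at h2
    rw [Nat.card_congr π.toEquiv, h3, Nat.card_eq_fintype_card]
    omega
  exact ⟨MulEquiv.ofBijective θ (hinj.bijective_of_nat_card_le hcard)⟩

end Cfsg.Agent.S0256
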