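import Cfsg.Statements.S0261
import Mathlib
import Cfsg.Agent.Lib.PSL2.Sylow2
import Cfsg.Agent.Lib.UniqueOrderP

set_option autoImplicit false
open Cfsg

namespace Cfsg.Agent.S0261

variable {F : Type*} [Field F] [Fintype F]

/-- For q odd, the Sylow 2-subgroups of SL_2(q) are generalised quaternion. -/
theorem result {F : Type*} [Field F] [Fintype F] (hF : Odd (Fintype.card F)) (P : Sylow 2 (Matrix.SpecialLinearGroup (Fin 2) F)) : ∃ k : ℕ, 1 ≤ k ∧ Nonempty ((P : Subgroup (Matrix.SpecialLinearGroup (Fin 2) F)) ≃* QuaternionGroup (2 ^ k)) := by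
  classical
  have hodd : Fintype.card F % 2 = 1 := Nat.odd_iff.1 hF
  have h2 := CfsgLib.PSL2Two.two_ne hodd
  have hinvol : ∀ g : Matrix.SpecialLinearGroup (Fin 2) F, orderOf g = 2 → g = -1 := by
    intro g hg
    have h1 : g * g = 1 := by
      have := pow_orderOf_eq_one g
      rwa [hg, pow_two] at this
    have e : g⁻¹ = g := inv_eq_of_mul_eq_one_right h1
    have hne : g ≠ 1 := fun h => by rw [h, orderOf_one] at hg; omega
    have hinv := congrArg Subtype.val e
    rw [Matrix.SpecialLinearGroup.SL2_inv_expl] at hinv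
    have e00 := congrFun (congrFun hinv 0) 0
    have e01 := congrFun (congrFun hinv 0) 1
    have e10 := congrFun (congrFun hinv 1) 0
    simp at e00 e01 e10
    have z01 : g.1 0 1 = 0 := (mul_eq_zero.1 (show (2 : F) * g.1 0 1 = 0 by linear_combination -e01)).resolve_left h2
    have z10 : g.1 1 0 = 0 := (mul_eq_zero.1 (show (2 : F) * g.1 1 0 = 0 by linear_combination -e10)).resolve_left h2
    have hdet := CfsgLib.PSL2Two.entries g
    rw [z01, z10, e00] at hdet
    have hsq : g.1 0 0 ^ 2 = 1 := by linear_combination hdet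
    rcases sq_eq_one_iff.1 hsq with h | h
    · exact absurd (CfsgLib.PSL2Two.ext2 (by simp [h]) (by simp [z01]) (by simp [z10]) (by simp [e00, h])) hne
    · exact CfsgLib.PSL2Two.ext2 (by simp [h]) (by simp [z01]) (by simp [z10]) (by simp [e00, h])
  have hu : CfsgLib.UniqueOrderP.Uniq 2 (P : Subgroup (Matrix.SpecialLinearGroup (Fin 2) F)) := by
    intro x y hx hy
    rw [← Subgroup.orderOf_coe] at hx hy
    rw [show y = x from Subtype.ext ((hinvol _ hy).trans (hinvol _ hx).symm)]
    exact Subgroup.mem_zpowers x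
  obtain ⟨u, w, huw⟩ := CfsgLib.PSL2Two.exists_sq_add_sq hodd (-1 : F)
  let B : Matrix.SpecialLinearGroup (Fin 2) F := ⟨!![u, w; w, -u], by rw [Matrix.det_fin_two_of]; linear_combination -huw⟩
  set A : Matrix.SpecialLinearGroup (Fin 2) F := CfsgLib.PSL2Two.J with hA
  have vA : A.1 = !![0, -1; 1, 0] := rfl
  have vB : B.1 = !![u, w; w, -u] := rfl
  have hne : ¬ Commute A B := by
    intro h
    have h00 := congrArg (fun g : Matrix.SpecialLinearGroup (Fin 2) F => g.1 0 0) h.eq
    have h01 := congrArg (fun g : Matrix.SpecialLinearGroup (Fin 2) F => g.1 0 1) h.eq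
    simp [CfsgLib.PSL2Two.mul_entry, vA, vB] at h00 h01
    have hw : w = 0 := (mul_eq_zero.1 (show (2 : F) * w = 0 by linear_combination -h00)).resolve_left h2
    have hu0 : u = 0 := (mul_eq_zero.1 (show (2 : F) * u = 0 by linear_combination h01)).resolve_left h2
    rw [hw, hu0] at huw; simp at huw
  -- the subgroup generated by the two elements is a 2-group
  have hAA : A * A = -1 := CfsgLib.PSL2Two.ext2 (by simp [CfsgLib.PSL2Two.mul_entry, vA, vB])
    (by simp [CfsgLib.PSL2Two.mul_entry, vA, vB]) (by simp [CfsgLib.PSL2Two.mul_entry, vA, vB])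
    (by simp [CfsgLib.PSL2Two.mul_entry, vA, vB])
  have hBB : B * B = -1 := CfsgLib.PSL2Two.ext2
    (by simp [CfsgLib.PSL2Two.mul_entry, vA, vB]; linear_combination huw) (by simp [CfsgLib.PSL2Two.mul_entry, vA, vB]; ring)
    (by simp [CfsgLib.PSL2Two.mul_entry, vA, vB]; ring) (by simp [CfsgLib.PSL2Two.mul_entry, vA, vB]; linear_combination huw)
  have hBA : B * A = -(A * B) := CfsgLib.PSL2Two.ext2
    (by simp [CfsgLib.PSL2Two.mul_entry, vA, vB]) (by simp [CfsgLib.PSL2Two.mul_entry, vA, vB])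
    (by simp [CfsgLib.PSL2Two.mul_entry, vA, vB]) (by simp [CfsgLib.PSL2Two.mul_entry, vA, vB])
  let Q : Subgroup (Matrix.SpecialLinearGroup (Fin 2) F) :=
    { carrier := {g | g = 1 ∨ g = -1 ∨ g = A ∨ g = -A ∨ g = B ∨ g = -B ∨ g = A * B ∨ g = -(A * B)}
      one_mem' := Or.inl rfl
      mul_mem' := by
        have r1 : ∀ x, A * (A * x) = -x := fun x => by rw [← mul_assoc, hAA, neg_one_mul]
        have r2 : ∀ x, B * (A * x) = -(A * (B * x)) := fun x => by rw [← mul_assoc, hBA, neg_mul, mul_assoc]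
        have r3 : ∀ x, B * (B * x) = -x := fun x => by rw [← mul_assoc, hBB, neg_one_mul]
        intro x y hx hy
        rcases hx with rfl | rfl | rfl | rfl | rfl | rfl | rfl | rfl <;>
          rcases hy with rfl | rfl | rfl | rfl | rfl | rfl | rfl | rfl <;>
          simp [mul_assoc, hAA, hBB, hBA, r1, r2, r3]
      inv_mem' := by
        intro x hx
        have iA : A⁻¹ = -A := inv_eq_of_mul_eq_one_right (by rw [mul_neg, hAA, neg_neg])
        have iB : B⁻¹ = -B := inv_eq_of_mul_eq_one_right (by rw [mul_neg, hBB, neg_neg])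
        have iN : ∀ z : Matrix.SpecialLinearGroup (Fin 2) F, (-z)⁻¹ = -z⁻¹ := fun z =>
          inv_eq_of_mul_eq_one_right (by rw [neg_mul_neg, mul_inv_cancel])
        rcases hx with rfl | rfl | rfl | rfl | rfl | rfl | rfl | rfl <;>
          simp [iA, iB, iN, hBA] }
  have hQ : IsPGroup 2 Q := by
    intro g
    refine ⟨2, Subtype.ext ?_⟩
    have hAB : A * B * (A * B) = -1 := by
      rw [mul_assoc, ← mul_assoc B, hBA, neg_mul, mul_assoc, hBB, mul_neg, mul_neg_one, mul_neg, hAA, neg_neg]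
    rcases g with ⟨g, rfl | rfl | rfl | rfl | rfl | rfl | rfl | rfl⟩ <;>
      (rw [SubmonoidClass.coe_pow, show (2 : ℕ) ^ 2 = 2 * 2 by rfl, pow_mul, pow_two, pow_two]; simp [hAA, hBB, hAB])
  obtain ⟨S, hS⟩ := hQ.exists_le_sylow
  have hnc : ¬ IsCyclic (P : Subgroup (Matrix.SpecialLinearGroup (Fin 2) F)) := by
    intro hc
    have : IsCyclic (S : Subgroup (Matrix.SpecialLinearGroup (Fin 2) F)) :=
      isCyclic_of_surjective _ (Sylow.equiv P S).surjective
    apply hne
    have hA' : A ∈ Q := Or.inr (Or.inr (Or.inl rfl))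
    have hB' : B ∈ Q := Or.inr (Or.inr (Or.inr (Or.inr (Or.inl rfl))))
    show A * B = B * A
    obtain ⟨g, hg⟩ := IsCyclic.exists_generator (α := (S : Subgroup (Matrix.SpecialLinearGroup (Fin 2) F)))
    obtain ⟨i, hi⟩ := hg ⟨A, hS hA'⟩
    obtain ⟨j, hj⟩ := hg ⟨B, hS hB'⟩
    have hi' := congrArg Subtype.val hi
    have hj' := congrArg Subtype.val hj
    simp only [SubgroupClass.coe_zpow] at hi' hj'
    rw [← hi', ← hj', zpow_mul_comm]
  rcases CfsgLib.UniqueOrderP.cyclic_or_quaternion P.2 hu with h | ⟨-, k, ⟨e⟩⟩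
  · exact absurd h hnc
  · refine ⟨k, Nat.one_le_iff_ne_zero.2 fun h => ?_, ⟨e⟩⟩
    subst h
    have : IsCyclic (QuaternionGroup 1) := isCyclic_of_orderOf_eq_card (QuaternionGroup.xa 0) (by rw [QuaternionGroup.orderOf_xa, Nat.card_eq_fintype_card, QuaternionGroup.card])
    exact hnc (isCyclic_of_surjective _ e.symm.surjective)

end Cfsg.Agent.S0261
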