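import Cfsg.Statements.S0262
import Mathlib

set_option autoImplicit false
open Cfsg

namespace Cfsg.Agent.S0262

open Matrix
variable {F : Type*} [Field F] [Fintype F]

/-- For an odd prime r different from the characteristic, the Sylow r-subgroups of SL_2(q) are cyclic. -/
theorem result {F : Type*} [Field F] [Fintype F] (p : ℕ) [Fact p.Prime] [CharP F p] (r : ℕ) [Fact r.Prime] (hr : r ≠ 2) (hrp : r ≠ p) (R : Sylow r (Matrix.SpecialLinearGroup (Fin 2) F)) : IsCyclic (R : Subgroup (Matrix.SpecialLinearGroup (Fin 2) F)) := by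
  classical
  haveI := R.2
  by_cases hR : (R : Subgroup (Matrix.SpecialLinearGroup (Fin 2) F)) = ⊥
  · rw [hR]; infer_instance
  have hntr := (Subgroup.nontrivial_iff_ne_bot _).2 hR
  -- a central element
  obtain ⟨⟨zz, hzz⟩, hz1⟩ : ∃ z : Subgroup.center (R : Subgroup (Matrix.SpecialLinearGroup (Fin 2) F)), z ≠ 1 := by
    haveI := R.2.center_nontrivial
    exact exists_ne 1
  set z : Matrix.SpecialLinearGroup (Fin 2) F := zz.1
  have hzne : z ≠ 1 := fun h => hz1 (Subtype.ext (Subtype.ext h))
  set K := AlgebraicClosure F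
  let ι := algebraMap F K
  obtain ⟨lam, hlam⟩ : ∃ t : K, t * t - ι (z.1 0 0 + z.1 1 1) * t + 1 = 0 := by
    obtain ⟨t, ht⟩ := IsAlgClosed.exists_root (k := K)
      (Polynomial.C (1 : K) * Polynomial.X ^ 2 + Polynomial.C (-ι (z.1 0 0 + z.1 1 1)) * Polynomial.X + Polynomial.C 1)
      (by rw [Polynomial.degree_quadratic one_ne_zero]; norm_num)
    exact ⟨t, by simp [Polynomial.IsRoot] at ht; simp; linear_combination ht⟩
  set M : Matrix (Fin 2) (Fin 2) K := z.1.map ι
  have hdet : z.1 0 0 * z.1 1 1 - z.1 0 1 * z.1 1 0 = 1 := by rw [← Matrix.det_fin_two]; exact z.2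
  have hdetK : M 0 0 * M 1 1 - M 0 1 * M 1 0 = 1 := by simp [M, ← map_mul, ← map_sub, hdet]
  have hlam' : lam * lam - (M 0 0 + M 1 1) * lam + 1 = 0 := by simpa [M, map_add] using hlam
  obtain ⟨v, hv0, hv⟩ : ∃ v : Fin 2 → K, v ≠ 0 ∧ M *ᵥ v = lam • v := by
    have hd : (M - lam • 1).det = 0 := by
      rw [Matrix.det_fin_two]; simp; linear_combination hlam' + hdetK
    obtain ⟨v, hv0, hv⟩ := Matrix.exists_mulVec_eq_zero_iff.2 hd
    exact ⟨v, hv0, by rwa [Matrix.sub_mulVec, Matrix.smul_mulVec, Matrix.one_mulVec, sub_eq_zero] at hv⟩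
  have hcomm : ∀ g : (R : Subgroup (Matrix.SpecialLinearGroup (Fin 2) F)), g.1 * z = z * g.1 :=
    fun g => congrArg Subtype.val (Subgroup.mem_center_iff.1 hzz g)
  -- `z` is not scalar
  have hns : ∀ c : K, M ≠ c • 1 := by
    intro c hc
    have e00 := congrFun (congrFun hc 0) 0
    have e01 := congrFun (congrFun hc 0) 1
    have e10 := congrFun (congrFun hc 1) 0
    have e11 := congrFun (congrFun hc 1) 1
    simp [M] at e00 e01 e10 e11
    have i11 : z.1 1 1 = z.1 0 0 := ι.injective (e11.trans e00.symm)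
    have f01 : z.1 0 1 = 0 := by first | exact e01 | exact ι.injective (e01.trans (map_zero ι).symm)
    have f10 : z.1 1 0 = 0 := by first | exact e10 | exact ι.injective (e10.trans (map_zero ι).symm)
    rw [i11, f01, f10] at hdet
    have hsq : z ^ 2 = 1 := Subtype.ext (by
      rw [pow_two]; ext i j
      fin_cases i <;> fin_cases j <;> simp [Matrix.mul_apply, Fin.sum_univ_two, i11, f01, f10] <;> linear_combination hdet)
    obtain ⟨k, hk⟩ := (IsPGroup.iff_orderOf.1 R.2) zz
    rw [← Subgroup.orderOf_coe] at hk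
    have hd : orderOf z ∣ Nat.gcd (r ^ k) 2 := Nat.dvd_gcd (hk ▸ dvd_rfl) (orderOf_dvd_of_pow_eq_one hsq)
    rw [Nat.Coprime.gcd_eq_one (Nat.Coprime.pow_left _ ((Nat.coprime_primes Fact.out Nat.prime_two).2 hr)),
      Nat.dvd_one, orderOf_eq_one_iff] at hd
    exact hzne hd
  -- eigenvalue of an element commuting with `z`
  have hex : ∀ g : (R : Subgroup (Matrix.SpecialLinearGroup (Fin 2) F)), ∃ c : K, g.1.1.map ι *ᵥ v = c • v := by
    intro g
    set u := g.1.1.map ι *ᵥ v
    have hu : M *ᵥ u = lam • u := by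
      rw [Matrix.mulVec_mulVec, ← Matrix.map_mul, ← Matrix.SpecialLinearGroup.coe_mul, ← hcomm,
        Matrix.SpecialLinearGroup.coe_mul, Matrix.map_mul, ← Matrix.mulVec_mulVec, hv, Matrix.mulVec_smul]
    by_contra! hne
    apply hns lam
    have hli : LinearIndependent K ![v, u] := (LinearIndependent.pair_iff' hv0).2 fun c h => hne c h.symm
    let b := basisOfLinearIndependentOfCardEqFinrank hli (by simp)
    have : Matrix.toLin' M = Matrix.toLin' (lam • (1 : Matrix (Fin 2) (Fin 2) K)) := by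
      refine b.ext fun i => ?_
      rw [coe_basisOfLinearIndependentOfCardEqFinrank, Matrix.toLin'_apply, Matrix.toLin'_apply, Matrix.smul_mulVec,
        Matrix.one_mulVec]
      fin_cases i
      exacts [hv, hu]
    exact Matrix.toLin'.injective this
  choose χ hχ using hex
  let f : (R : Subgroup (Matrix.SpecialLinearGroup (Fin 2) F)) →* K :=
    { toFun := χ
      map_one' := by
        have := hχ 1
        simp only [OneMemClass.coe_one, Matrix.SpecialLinearGroup.coe_one, map_zero, map_one, Matrix.map_one,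
          Matrix.one_mulVec] at this
        exact (smul_left_injective K hv0 (this.symm.trans (one_smul K v).symm))
      map_mul' := fun g h => by
        have := hχ (g * h)
        rw [Subgroup.coe_mul, Matrix.SpecialLinearGroup.coe_mul, Matrix.map_mul, ← Matrix.mulVec_mulVec, hχ h,
          Matrix.mulVec_smul, hχ g, smul_smul] at this
        exact (smul_left_injective K hv0 this.symm).trans (mul_comm _ _) }
  refine isCyclic_of_subgroup_isDomain f ((injective_iff_map_eq_one f).2 fun g hg => ?_)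
  have hgv : g.1.1.map ι *ᵥ v = v := by rw [hχ g, show χ g = 1 from hg, one_smul]
  set G : Matrix (Fin 2) (Fin 2) F := g.1.1
  have hd1 : (G - 1).det = 0 := by
    refine ι.injective ?_
    rw [map_zero, RingHom.map_det, RingHom.mapMatrix_apply, Matrix.map_sub ι (map_sub ι), Matrix.map_one ι (map_zero ι) (map_one ι)]
    exact Matrix.exists_mulVec_eq_zero_iff.1 ⟨v, hv0, by rw [Matrix.sub_mulVec, Matrix.one_mulVec, hgv, sub_self]⟩
  have hGd : G.det = 1 := g.1.2
  rw [Matrix.det_fin_two] at hd1 hGd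
  simp at hd1
  have hN : (G - 1) * (G - 1) = 0 := by
    ext i j
    fin_cases i <;> fin_cases j <;> simp [Matrix.mul_apply, Fin.sum_univ_two]
    · linear_combination (G 0 0 - 1) * (hGd - hd1) - hd1
    · linear_combination G 0 1 * (hGd - hd1)
    · linear_combination G 1 0 * (hGd - hd1)
    · linear_combination (G 1 1 - 1) * (hGd - hd1) - hd1
  have hpow : ∀ j : ℕ, G ^ j = 1 + (j : Matrix (Fin 2) (Fin 2) F) * (G - 1) := by
    intro j
    induction j with
    | zero => simp
    | succ j ih =>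
      rw [pow_succ, ih, show G = 1 + (G - 1) by abel]
      simp only [add_sub_cancel_left]
      rw [Nat.cast_succ, mul_add, mul_one, add_mul (1 : Matrix (Fin 2) (Fin 2) F), one_mul, mul_assoc, hN, mul_zero,
        add_zero, add_mul (j : Matrix (Fin 2) (Fin 2) F), one_mul, add_assoc]
  have hgp : g.1 ^ p = 1 := Subtype.ext (by
    rw [Matrix.SpecialLinearGroup.coe_pow, Matrix.SpecialLinearGroup.coe_one]
    show G ^ p = 1
    rw [hpow, ← map_natCast (algebraMap F (Matrix (Fin 2) (Fin 2) F)), CharP.cast_eq_zero, map_zero, zero_mul, add_zero])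
  obtain ⟨k, hk⟩ := (IsPGroup.iff_orderOf.1 R.2) g
  have hd2 : orderOf g.1 ∣ Nat.gcd (r ^ k) p := Nat.dvd_gcd (by rw [Subgroup.orderOf_coe, hk]) (orderOf_dvd_of_pow_eq_one hgp)
  rw [Nat.Coprime.gcd_eq_one (Nat.Coprime.pow_left _ ((Nat.coprime_primes Fact.out Fact.out).2 hrp)), Nat.dvd_one,
    orderOf_eq_one_iff] at hd2
  exact Subtype.ext hd2

end Cfsg.Agent.S0262
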