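import Cfsg.Statements.S0264
import Mathlib
import Cfsg.Agent.Lib.Linear.Generation

set_option autoImplicit false
open Cfsg

namespace Cfsg.Agent.S0264

/-- GL_n(F)' = SL_n(F) (as the kernel of det), for every field F and every n, except n = 2 over the field of two elements. -/
theorem result {F : Type*} [Field F] (n : ℕ) (h : n = 2 → ∃ a : F, a ≠ 0 ∧ a ≠ 1) : commutator (Matrix.GeneralLinearGroup (Fin n) F) = (Matrix.GeneralLinearGroup.det : Matrix.GeneralLinearGroup (Fin n) F →* Fˣ).ker := by
  refine le_antisymm CfsgLib.Linear.Generation.commutator_GL_le ?_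
  intro g hg
  have hdet : (g : Matrix (Fin n) (Fin n) F).det = 1 := by
    rw [MonoidHom.mem_ker, Units.ext_iff] at hg
    exact hg
  rcases Nat.lt_or_ge n 2 with hn | hn
  · have : g = 1 := by
      refine Units.ext (Matrix.ext fun i j => ?_)
      have := i.isLt; have := j.isLt
      obtain rfl : i = j := Fin.ext (by omega)
      obtain rfl : n = 1 := by omega
      rw [Matrix.det_fin_one] at hdet
      fin_cases i
      simpa using hdet
    rw [this]; exact one_mem _
  · haveI : Nontrivial (Fin n) := Fin.nontrivial_iff_two_le.2 hn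
    refine CfsgLib.Linear.Generation.map_SL_le_commutator_GL ?_ ⟨⟨_, hdet⟩, Units.ext rfl⟩
    rcases Nat.lt_or_ge n 3 with h3 | h3
    · exact Or.inr (h (by omega))
    · exact Or.inl (by simpa using h3)

end Cfsg.Agent.S0264
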