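import Cfsg.Statements.S0266
import Mathlib
import Cfsg.Agent.Lib.Linear.Triple

set_option autoImplicit false
open scoped MatrixGroups
open Cfsg

namespace Cfsg.Agent.S0266

open CfsgLib.Linear.Triple

private theorem smul_eq {F : Type*} [Field F] (g : GL (Fin 2) F) (D : Projectivization F (Fin 2 → F)) :
    (Matrix.ProjGenLinGroup.mk g) • D = g • D := by
  induction D using Projectivization.ind with | _ v hv => rfl

/-- PGL_2(F) is sharply 3-transitive on the projective line: it is 3-transitive and the stabiliser of three distinct points is trivial. -/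
theorem result {F : Type*} [Field F] : MulAction.IsMultiplyPretransitive (Matrix.ProjGenLinGroup (Fin 2) F) (Projectivization F (Fin 2 → F)) 3 ∧ ∀ (g : Matrix.ProjGenLinGroup (Fin 2) F) (a b c : Projectivization F (Fin 2 → F)), a ≠ b → a ≠ c → b ≠ c → g • a = a → g • b = b → g • c = c → g = 1 := by
  constructor
  · rw [MulAction.isMultiplyPretransitive_iff]
    intro x y
    obtain ⟨g, g0, g1, g2⟩ := exists_GL_triple (x.injective.ne (by decide : (0 : Fin 3) ≠ 1))
      (x.injective.ne (by decide : (0 : Fin 3) ≠ 2)) (x.injective.ne (by decide : (1 : Fin 3) ≠ 2))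
    obtain ⟨h, h0, h1, h2⟩ := exists_GL_triple (y.injective.ne (by decide : (0 : Fin 3) ≠ 1))
      (y.injective.ne (by decide : (0 : Fin 3) ≠ 2)) (y.injective.ne (by decide : (1 : Fin 3) ≠ 2))
    refine ⟨Matrix.ProjGenLinGroup.mk (h * g⁻¹), ?_⟩
    ext i
    simp only [Function.Embedding.smul_apply, smul_eq]
    fin_cases i
    · show (h * g⁻¹) • x 0 = y 0
      rw [← g0, ← h0, mul_smul, inv_smul_smul]
    · show (h * g⁻¹) • x 1 = y 1
      rw [← g1, ← h1, mul_smul, inv_smul_smul]
    · show (h * g⁻¹) • x 2 = y 2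
      rw [← g2, ← h2, mul_smul, inv_smul_smul]
  · intro g a b c hab hac hbc ha hb hc
    induction g using Matrix.ProjGenLinGroup.induction_on with | mk A =>
    rw [smul_eq] at ha hb hc
    obtain ⟨k, k0, k1, k2⟩ := exists_GL_triple hab hac hbc
    obtain ⟨r, hr⟩ := fix_std (k⁻¹ * A * k) (by rw [mul_smul, mul_smul, k0, ha, ← k0, inv_smul_smul])
      (by rw [mul_smul, mul_smul, k1, hb, ← k1, inv_smul_smul])
      (by rw [mul_smul, mul_smul, k2, hc, ← k2, inv_smul_smul])
    have : A = k * Matrix.GeneralLinearGroup.scalar (Fin 2) r * k⁻¹ := by rw [← hr]; group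
    rw [this, map_mul, map_mul, Matrix.ProjGenLinGroup.mk_scalar, mul_one, map_inv, mul_inv_cancel]

end Cfsg.Agent.S0266
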