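import Cfsg.Statements.S0267
import Mathlib
import Cfsg.Agent.Lib.Linear.Triple

set_option autoImplicit false
open Cfsg

namespace Cfsg.Agent.S0267

open CfsgLib.Linear.Triple

private theorem smul_eq {F : Type*} [Field F] (g : Matrix.SpecialLinearGroup (Fin 2) F)
    (D : Projectivization F (Fin 2 → F)) :
    (Matrix.SpecialLinearGroup.toGL g) • D = g • D := by
  induction D using Projectivization.ind with | _ v hv => rfl

/-- SL_2(q) is 3-transitive on the q+1 points of the projective line if and only if q is even. -/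
theorem result {F : Type*} [Field F] [Fintype F] : MulAction.IsMultiplyPretransitive (Matrix.SpecialLinearGroup (Fin 2) F) (Projectivization F (Fin 2 → F)) 3 ↔ ringChar F = 2 := by
  constructor
  · intro h
    by_contra hp
    obtain ⟨ν, hν⟩ := FiniteField.exists_nonsquare hp
    have hν0 : ν ≠ 0 := fun h0 => hν (h0 ▸ ⟨0, by simp⟩)
    let q : Projectivization F (Fin 2 → F) := Projectivization.mk F ![1, ν] (by simp)
    have e01 : (p0 : Projectivization F (Fin 2 → F)) ≠ p1 := by
      simp [p0, p1, Projectivization.mk_eq_mk_iff', funext_iff, Fin.forall_fin_two]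
    have e02 : (p0 : Projectivization F (Fin 2 → F)) ≠ p2 := by
      simp [p0, p2, Projectivization.mk_eq_mk_iff', funext_iff, Fin.forall_fin_two]
    have e12 : (p1 : Projectivization F (Fin 2 → F)) ≠ p2 := by
      simp [p1, p2, Projectivization.mk_eq_mk_iff', funext_iff, Fin.forall_fin_two]
    have f02 : (p0 : Projectivization F (Fin 2 → F)) ≠ q := by
      simp [p0, q, Projectivization.mk_eq_mk_iff', funext_iff, Fin.forall_fin_two, hν0]
    have f12 : (p1 : Projectivization F (Fin 2 → F)) ≠ q := by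
      simp [p1, q, Projectivization.mk_eq_mk_iff', funext_iff, Fin.forall_fin_two, hν0]
    let x : Fin 3 ↪ Projectivization F (Fin 2 → F) := ⟨![p0, p1, p2], by
      intro i j hij
      fin_cases i <;> fin_cases j <;> simp_all [Ne.symm e01, Ne.symm e02, Ne.symm e12]⟩
    let y : Fin 3 ↪ Projectivization F (Fin 2 → F) := ⟨![p0, p1, q], by
      intro i j hij
      fin_cases i <;> fin_cases j <;> simp_all [Ne.symm e01, Ne.symm f02, Ne.symm f12]⟩
    obtain ⟨g, hg⟩ := (MulAction.isMultiplyPretransitive_iff.1 h) x y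
    have h0 : g • (p0 : Projectivization F (Fin 2 → F)) = p0 := congrArg (fun e : Fin 3 ↪ _ => e 0) hg
    have h1 : g • (p1 : Projectivization F (Fin 2 → F)) = p1 := congrArg (fun e : Fin 3 ↪ _ => e 1) hg
    have h2 : g • (p2 : Projectivization F (Fin 2 → F)) = q := congrArg (fun e : Fin 3 ↪ _ => e 2) hg
    simp only [p0, p1, p2, q, Projectivization.smul_mk, Projectivization.mk_eq_mk_iff'] at h0 h1 h2
    obtain ⟨a, ha⟩ := h0
    obtain ⟨b, hb⟩ := h1
    obtain ⟨c, hc⟩ := h2
    have a1 := congrFun ha 1; have b0 := congrFun hb 0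
    have c0 := congrFun hc 0; have c1 := congrFun hc 1
    have hd := g.2
    rw [Matrix.det_fin_two] at hd
    simp [Matrix.SpecialLinearGroup.smul_def, Matrix.smul_eq_mulVec, Matrix.mulVec, dotProduct,
      Fin.sum_univ_two] at a1 b0 c0 c1
    exact hν ⟨g.1 1 1, by grind⟩
  · intro hp
    rw [MulAction.isMultiplyPretransitive_iff]
    intro x y
    obtain ⟨g, g0, g1, g2⟩ := exists_GL_triple (x.injective.ne (by decide : (0 : Fin 3) ≠ 1))
      (x.injective.ne (by decide : (0 : Fin 3) ≠ 2)) (x.injective.ne (by decide : (1 : Fin 3) ≠ 2))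
    obtain ⟨h, h0, h1, h2⟩ := exists_GL_triple (y.injective.ne (by decide : (0 : Fin 3) ≠ 1))
      (y.injective.ne (by decide : (0 : Fin 3) ≠ 2)) (y.injective.ne (by decide : (1 : Fin 3) ≠ 2))
    set A := h * g⁻¹ with hA
    have hdet : (A : Matrix (Fin 2) (Fin 2) F).det ≠ 0 :=
      ((Matrix.isUnit_iff_isUnit_det _).1 A.isUnit).ne_zero
    obtain ⟨s, hs⟩ := FiniteField.isSquare_of_char_two hp (A : Matrix (Fin 2) (Fin 2) F).det
    have hs0 : s ≠ 0 := fun h0 => hdet (by rw [hs, h0, mul_zero])
    let S : Matrix.SpecialLinearGroup (Fin 2) F := ⟨s⁻¹ • (A : Matrix (Fin 2) (Fin 2) F), by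
      rw [Matrix.det_smul, hs, Fintype.card_fin]; field_simp⟩
    have key : ∀ D : Projectivization F (Fin 2 → F), S • D = A • D := by
      intro D
      induction D using Projectivization.ind with | _ v hv =>
      rw [Projectivization.smul_mk, Projectivization.smul_mk, Projectivization.mk_eq_mk_iff']
      refine ⟨s⁻¹, ?_⟩
      show s⁻¹ • ((A : Matrix (Fin 2) (Fin 2) F) • v) = (s⁻¹ • (A : Matrix (Fin 2) (Fin 2) F)) • v
      rw [smul_assoc]
    refine ⟨S, ?_⟩
    ext i
    simp only [Function.Embedding.smul_apply, key, hA]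
    fin_cases i
    · show (h * g⁻¹) • x 0 = y 0
      rw [← g0, ← h0, mul_smul, inv_smul_smul]
    · show (h * g⁻¹) • x 1 = y 1
      rw [← g1, ← h1, mul_smul, inv_smul_smul]
    · show (h * g⁻¹) • x 2 = y 2
      rw [← g2, ← h2, mul_smul, inv_smul_smul]

end Cfsg.Agent.S0267
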