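import Cfsg.Statements.S0268
import Mathlib


set_option autoImplicit false
open Cfsg

namespace Cfsg.Agent.S0268

/-- For q odd, -1 is the unique involution of SL_2(q). -/
theorem result {F : Type*} [Field F] [Fintype F] (hF : Odd (Fintype.card F)) (g : Matrix.SpecialLinearGroup (Fin 2) F) (h1 : g ≠ 1) (h2 : g * g = 1) : (g : Matrix (Fin 2) (Fin 2) F) = -1 := by
  have h3 : (g : Matrix (Fin 2) (Fin 2) F) * g = 1 := by
    have := congrArg (fun x : Matrix.SpecialLinearGroup (Fin 2) F => (x : Matrix (Fin 2) (Fin 2) F)) h2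
    simpa using this
  set M : Matrix (Fin 2) (Fin 2) F := (g : Matrix (Fin 2) (Fin 2) F) with hM
  have hdet : M.det = 1 := g.2
  rw [Matrix.det_fin_two] at hdet
  have h2F : (2 : F) ≠ 0 := by
    intro h
    have hc : ringChar F = 2 := by
      have : ((2 : ℕ) : F) = 0 := by exact_mod_cast h
      have hdvd := (ringChar.spec F 2).mp this
      rcases (Nat.dvd_prime Nat.prime_two).mp hdvd with h' | h'
      · exact absurd h' (CharP.ringChar_ne_one)
      · exact h'
    have := FiniteField.even_card_of_char_two hc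
    rw [Nat.odd_iff] at hF
    omega
  have e00 := congrFun (congrFun h3 0) 0
  have e01 := congrFun (congrFun h3 0) 1
  have e10 := congrFun (congrFun h3 1) 0
  have e11 := congrFun (congrFun h3 1) 1
  simp [Matrix.mul_apply, Fin.sum_univ_two] at e00 e01 e10 e11
  -- tr(M)·M = M² + det(M) = 2
  have k00 : (M 0 0 + M 1 1) * M 0 0 = 2 := by linear_combination e00 + hdet
  have k11 : (M 0 0 + M 1 1) * M 1 1 = 2 := by linear_combination e11 + hdet
  have ht : M 0 0 + M 1 1 ≠ 0 := fun h => h2F (by rw [← k00, h, zero_mul])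
  have ha : M 0 0 = M 1 1 := mul_left_cancel₀ ht (k00.trans k11.symm)
  have hb : M 0 1 = 0 := by
    have : (M 0 0 + M 1 1) * M 0 1 = 0 := by linear_combination e01
    exact (mul_eq_zero.mp this).resolve_left ht
  have hc : M 1 0 = 0 := by
    have : (M 0 0 + M 1 1) * M 1 0 = 0 := by linear_combination e10
    exact (mul_eq_zero.mp this).resolve_left ht
  have hsq : M 0 0 * M 0 0 = 1 := by rw [hb, zero_mul, add_zero] at e00; exact e00
  rcases mul_self_eq_one_iff.mp hsq with h | h
  · exfalso; apply h1
    apply Subtype.ext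
    ext i j
    fin_cases i <;> fin_cases j <;> simp [← hM, h, ← ha, hb, hc]
  · ext i j
    fin_cases i <;> fin_cases j <;> simp [h, ← ha, hb, hc]

end Cfsg.Agent.S0268
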