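import Cfsg.Statements.S0271
import Mathlib
import Cfsg.Agent.Lib.Symplectic.Basic

set_option autoImplicit false
open Cfsg

namespace Cfsg.Agent.S0271

/-- Sp_{2m}(F) is transitive on non-zero vectors. -/
theorem result {F : Type*} [Field F] (m : ℕ) (v w : Fin m ⊕ Fin m → F) (hv : v ≠ 0) (hw : w ≠ 0) : ∃ g : Matrix.symplecticGroup (Fin m) F, (g : Matrix (Fin m ⊕ Fin m) (Fin m ⊕ Fin m) F).mulVec v = w := by
  exact CfsgLib.Symplectic.Basic.exists_map_vec hv hw

end Cfsg.Agent.S0271
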