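import Cfsg.Statements.S0275
import Mathlib
import Cfsg.Agent.Lib.SL2.PGLMax
import Cfsg.Agent.Lib.UniqueOrderP

set_option autoImplicit false
open Cfsg

namespace Cfsg.Agent.S0275

open CfsgLib.SL2Dickson CfsgLib.SL2Torus
open CfsgLib.PSL2Klein (π π_surj π_eq π_eq_one)

variable {F : Type*} [Field F] [Fintype F]

theorem eq_pm_one {x : Matrix.SpecialLinearGroup (Fin 2) F} (h2 : (2 : F) ≠ 0) (hx : x * x = 1) : x = 1 ∨ x = -1 := by
  by_contra hn
  push Not at hn
  have h : tr x • (x : Matrix (Fin 2) (Fin 2) F) = (2 : F) • 1 := by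
    have e := sq_eq x
    rw [← Matrix.SpecialLinearGroup.coe_mul, hx, Matrix.SpecialLinearGroup.coe_one] at e
    rw [two_smul, eq_sub_iff_add_eq.1 e]
  have ht : tr x ≠ 0 := fun e => h2 (by simpa [e] using (congrFun (congrFun h 0) 0).symm)
  refine ne_scalar' hn.1 hn.2 ⟨2 / tr x, ?_⟩
  rw [div_eq_inv_mul, ← smul_smul, ← h, smul_smul, inv_mul_cancel₀ ht, one_smul]

theorem klein_image (hodd : Fintype.card F % 2 = 1) {H : Subgroup (Matrix.SpecialLinearGroup (Fin 2) F)}
    (p : ℕ) [Fact p.Prime] [CharP F p] (hp : p ≠ 2) (hH : 1 < Nat.card (Sylow p H)) :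
    HasCycle (H.map π) := by
  classical
  have hpr : p.Prime := Fact.out
  have hrc : ringChar F = p := ringChar.eq F p
  have h2 := two_ne_of_odd hodd
  have hnot : ¬ ∀ a b : H, (∃ i, a ^ p ^ i = 1) → (∃ i, b ^ p ^ i = 1) → a * b = b * a := by
    intro hc
    obtain ⟨P, Q, hne⟩ : ∃ P Q : Sylow p H, P ≠ Q := by
      haveI := Finite.one_lt_card_iff_nontrivial.1 hH
      exact exists_pair_ne _
    apply hne
    have hle : (Q : Subgroup H) ≤ Subgroup.normalizer ((P : Subgroup H) : Set H) := by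
      intro b hb
      refine mem_normalizer_of_conj fun a ha => ?_
      rw [← hc a b ?_ ?_, mul_inv_cancel_right]
      · exact ha
      · obtain ⟨i, hi⟩ := P.2 ⟨a, ha⟩; exact ⟨i, congrArg Subtype.val hi⟩
      · obtain ⟨i, hi⟩ := Q.2 ⟨b, hb⟩; exact ⟨i, congrArg Subtype.val hi⟩
    have hpg := IsPGroup.to_sup_of_normal_right' Q.2 P.2 hle
    exact Sylow.ext ((P.3 hpg le_sup_right).symm.trans (Q.3 hpg le_sup_left))
  push Not at hnot
  obtain ⟨a, b, ⟨i, hi⟩, ⟨j, hj⟩, hab⟩ := hnot
  have key : ∀ (a : H) (i : ℕ), a ^ p ^ i = 1 → π (a : Matrix.SpecialLinearGroup (Fin 2) F) ∈ H.map π ∧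
      π (a : Matrix.SpecialLinearGroup (Fin 2) F) ^ p ^ i = 1 := fun a i hi => by
    refine ⟨⟨a, a.2, rfl⟩, ?_⟩
    rw [← map_pow, ← Subgroup.coe_pow, hi, Subgroup.coe_one, map_one]
  obtain ⟨ha, hai⟩ := key a i hi
  obtain ⟨hb, hbj⟩ := key b j hj
  -- images of non-commuting elements of `p`-power order do not commute
  have himg : π (a : Matrix.SpecialLinearGroup (Fin 2) F) * π b ≠ π b * π a := by
    intro e
    rw [← map_mul, ← map_mul] at e
    rcases (π_eq _ _).1 e with h | h
    · exact hab (Subtype.ext h)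
    · have hc : (a : Matrix.SpecialLinearGroup (Fin 2) F) * b * (a : Matrix.SpecialLinearGroup (Fin 2) F)⁻¹ = -b := by
        rw [h, neg_mul, mul_inv_cancel_right]
      have h1 := congrArg (fun z => z ^ p ^ j) hc

      have hbj' : (b : Matrix.SpecialLinearGroup (Fin 2) F) ^ p ^ j = 1 := congrArg Subtype.val hj
      have hpo : Odd (p ^ j) := (hpr.odd_of_ne_two hp).pow
      rw [conj_pow, hbj', mul_one, mul_inv_cancel, hpo.neg_pow, hbj'] at h1
      have h00 := congrArg (fun g : Matrix.SpecialLinearGroup (Fin 2) F => g.1 0 0) h1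
      simp at h00
      exact h2 (by linear_combination h00)
  have hsemi : ∀ (x : Matrix.ProjectiveSpecialLinearGroup (Fin 2) F) (i : ℕ), x ^ p ^ i = 1 → x ≠ 1 → ¬ IsSemi x := by
    intro x i hx hx1 hs
    obtain ⟨T, hT, hxT⟩ := exists_torus hs
    obtain ⟨k, -, hk⟩ := (Nat.dvd_prime_pow hpr).1 (orderOf_dvd_of_pow_eq_one hx)
    rcases k with _ | k
    · rw [pow_zero, orderOf_eq_one_iff] at hk; exact hx1 hk
    · refine torus_coprime p hT ((dvd_pow_self p (Nat.succ_ne_zero k)).trans ?_)
      rw [← hk, ← Subgroup.orderOf_mk x hxT]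
      exact orderOf_dvd_natCard _
  have ha1 : π (a : Matrix.SpecialLinearGroup (Fin 2) F) ≠ 1 := fun e => himg (by rw [e, one_mul, mul_one])
  have hb1 : π (b : Matrix.SpecialLinearGroup (Fin 2) F) ≠ 1 := fun e => himg (by rw [e, one_mul, mul_one])
  have hns := hsemi _ i hai ha1
  have inU : ∀ (x : Matrix.ProjectiveSpecialLinearGroup (Fin 2) F) (z : Matrix.ProjectiveSpecialLinearGroup (Fin 2) F) (i : ℕ),
      x ∈ (Bor F).map (MulAut.conj z).toMonoidHom → x ^ p ^ i = 1 → z⁻¹ * x * z ∈ U F := by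
    intro x z i hx hxi
    obtain ⟨c, hc, rfl⟩ := hx
    have e' : z⁻¹ * (MulAut.conj z).toMonoidHom c * z = c := by simp [mul_assoc]
    rw [e']
    rw [← map_pow, map_eq_one_iff (MulAut.conj z).toMonoidHom (MulAut.conj z).injective] at hxi
    by_cases hc1 : c = 1
    · rw [hc1]; exact one_mem _
    refine bor_pow_mem_U hc ?_
    obtain ⟨y, hy⟩ := exists_conj_mem_U hc1 (hsemi c i hxi hc1)
    exact unip_pow hy
  rcases dickson (H.map π) with h | h | h | h | h | h | h
  · exfalso
    obtain ⟨-, h | ⟨T, hT, hle⟩⟩ := h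
    · exact ha1 (by simpa [h] using ha)
    · exact hns (semi_of_mem_torus hT (hle ha) ha1)
  · exfalso
    obtain ⟨T, hT, hle, -⟩ := h
    by_cases hm : π (a : Matrix.SpecialLinearGroup (Fin 2) F) ∈ T
    · exact hns (semi_of_mem_torus hT hm ha1)
    · have h2' := orderOf_dvd_of_pow_eq_one ((sq _).trans (torus_outside hT (hle ha) hm).1)
      have hd := Nat.dvd_gcd h2' (orderOf_dvd_of_pow_eq_one hai)
      rw [((Nat.coprime_primes Nat.prime_two hpr).2 (Ne.symm hp)).pow_right i, Nat.dvd_one, orderOf_eq_one_iff] at hd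
      exact ha1 hd
  · exact absurd (h.2 _ ha ha1) hns
  · exact absurd (h.2 _ ha ha1) hns
  · exact hasCycle_A5 h.1
  · exfalso
    obtain ⟨z, hle, -⟩ := h
    have hc := U_comm (inU _ z i (hle ha) hai) (inU _ z j (hle hb) hbj)
    apply himg
    have := congrArg (fun v => z * v * z⁻¹) hc
    simpa [mul_assoc] using this
  · obtain ⟨θ, K, hK⟩ := h
    obtain ⟨m, hm1, hm⟩ := exists_pow_card K
    have hKo : Nat.card K % 2 = 1 := by rw [parity_eq (by omega) hm, hodd]
    have hle : pslSub K ≤ (H.map π).map θ.toMonoidHom := by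
      rcases hK with e | ⟨e, -, -⟩
      · rw [e]
      · rw [e]; exact pslSub_le_pglSub K
    refine (((hasCycle_pslSub hKo).mono hle).map θ.symm.toMonoidHom θ.symm.injective).mono (le_of_eq ?_)
    rw [Subgroup.map_map, show θ.symm.toMonoidHom.comp θ.toMonoidHom = MonoidHom.id _ by ext x; simp, Subgroup.map_id]

/-- If p is odd and H is a subgroup of SL_2(q), q a power of p, with more than one Sylow p-subgroup, then the Sylow 2-subgroups of H are generalised quaternion. -/
theorem result {F : Type*} [Field F] [Fintype F] (p : ℕ) [Fact p.Prime] [CharP F p] (hp : p ≠ 2) (H : Subgroup (Matrix.SpecialLinearGroup (Fin 2) F)) (hH : 1 < Nat.card (Sylow p H)) (S : Sylow 2 H) : ∃ k : ℕ, 1 ≤ k ∧ Nonempty ((S : Subgroup H) ≃* QuaternionGroup (2 ^ k)) := by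
  classical
  have hodd : Fintype.card F % 2 = 1 := FiniteField.odd_card_of_char_ne_two (by rw [ringChar.eq F p]; exact hp)
  have h2 := two_ne_of_odd hodd
  have hu : CfsgLib.UniqueOrderP.Uniq 2 (S : Subgroup H) := by
    intro x y hx hy
    have e : ∀ z : (S : Subgroup H), orderOf z = 2 → ((z : H) : Matrix.SpecialLinearGroup (Fin 2) F) = -1 := by
      intro z hz
      have h := pow_orderOf_eq_one z
      rw [hz, sq] at h
      rcases eq_pm_one h2 (congrArg (fun w : (S : Subgroup H) => ((w : H) : Matrix.SpecialLinearGroup (Fin 2) F)) h) with e | e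
      · exfalso
        rw [show z = 1 from Subtype.ext (Subtype.ext e), orderOf_one] at hz
        norm_num at hz
      · exact e
    rw [show y = x from Subtype.ext (Subtype.ext ((e y hy).trans (e x hx).symm))]
    exact Subgroup.mem_zpowers x
  have hnc : ¬ IsCyclic (S : Subgroup H) := by
    intro hcyc
    obtain ⟨x, hx, y, hy, -, -, hxx, hyy, hx1, hy1, hne, hxy, -, -⟩ := klein_image hodd p hp hH
    obtain ⟨gx, hgx, rfl⟩ := hx
    obtain ⟨gy, hgy, rfl⟩ := hy
    set V := Subgroup.closure ({π gx, π gy} : Set (Matrix.ProjectiveSpecialLinearGroup (Fin 2) F)) with hV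
    have hcomm : ∀ u ∈ V, ∀ v ∈ V, u * v = v * u := by
      intro u hu v hv
      have h1 : V ≤ Subgroup.centralizer ({π gx, π gy} : Set (Matrix.ProjectiveSpecialLinearGroup (Fin 2) F)) := by
        rw [hV, Subgroup.closure_le]
        rintro w (rfl | rfl) <;>
          simp only [SetLike.mem_coe, Subgroup.mem_centralizer_iff, Set.mem_insert_iff, Set.mem_singleton_iff] <;>
          rintro _ (rfl | rfl) <;> first | rfl | exact hxy | exact hxy.symm
      have h3 := h1 hv
      rw [← Subgroup.centralizer_closure] at h3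
      exact Subgroup.mem_centralizer_iff.1 h3 u hu
    have hexp : ∀ u ∈ V, u * u = 1 := by
      intro u hu
      induction hu using Subgroup.closure_induction with
      | mem w hw => rcases hw with rfl | rfl <;> assumption
      | one => rw [one_mul]
      | mul u v hu hv iu iv =>
        rw [show u * v * (u * v) = u * (v * u) * v by group, hcomm v hv u hu,
          show u * (u * v) * v = (u * u) * (v * v) by group, iu, iv, one_mul]
      | inv u _ iu => rw [← mul_inv_rev, iu, inv_one]
    set W := (V.comap π).subgroupOf H with hW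
    have hWp : IsPGroup 2 W := by
      intro w
      refine ⟨2, ?_⟩
      have hw : π ((w : H) : Matrix.SpecialLinearGroup (Fin 2) F) ∈ V := Subgroup.mem_subgroupOf.1 w.2
      have h1 := hexp _ hw
      rw [← map_mul, π_eq_one] at h1
      apply Subtype.ext; apply Subtype.ext
      rcases h1 with h1 | h1 <;> simp [pow_succ, mul_assoc, ← mul_assoc, h1]
    obtain ⟨P, hP⟩ := hWp.exists_le_sylow
    obtain ⟨g, hg⟩ := MulAction.exists_smul_eq H P S
    haveI : IsCyclic (P : Subgroup H) :=
      isCyclic_of_surjective ((P.equivSMul g).trans (MulEquiv.subgroupCongr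
        (congrArg (fun Q : Sylow 2 H => (Q : Subgroup H)) hg))).symm.toMonoidHom (MulEquiv.surjective _)
    have hxW : (⟨gx, hgx⟩ : H) ∈ W := Subgroup.mem_subgroupOf.2 (Subgroup.subset_closure (by simp))
    have hyW : (⟨gy, hgy⟩ : H) ∈ W := Subgroup.mem_subgroupOf.2 (Subgroup.subset_closure (by simp))
    obtain ⟨c, hc⟩ := IsCyclic.exists_generator (α := (P : Subgroup H))
    obtain ⟨u, hu⟩ := hc ⟨_, hP hxW⟩
    obtain ⟨v, hv⟩ := hc ⟨_, hP hyW⟩
    have hcom : gx * gy = gy * gx := by
      have := ((Commute.refl c).zpow_zpow u v).eq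
      simp only at hu hv
      rw [hu, hv] at this
      simpa using congrArg (fun z : (P : Subgroup H) => ((z : H) : Matrix.SpecialLinearGroup (Fin 2) F)) this
    have sqm : ∀ g : Matrix.SpecialLinearGroup (Fin 2) F, π g * π g = 1 → π g ≠ 1 → g * g = -1 := by
      intro g h h1
      rw [← map_mul, π_eq_one] at h
      refine h.resolve_left fun e => h1 ((π_eq_one g).2 (eq_pm_one h2 e))
    have hq : (gx * gy) * (gx * gy) = 1 := by
      rw [show gx * gy * (gx * gy) = gx * (gy * gx) * gy by group, ← hcom,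
        show gx * (gx * gy) * gy = (gx * gx) * (gy * gy) by group, sqm gx hxx hx1, sqm gy hyy hy1, neg_mul_neg, one_mul]
    apply hne
    have := (π_eq_one _).2 (eq_pm_one h2 hq)
    rw [map_mul] at this
    calc π gx = π gx * (π gy * π gy) := by rw [hyy, mul_one]
      _ = π gy := by rw [← mul_assoc, this, one_mul]
  rcases CfsgLib.UniqueOrderP.cyclic_or_quaternion S.2 hu with h | ⟨-, n, hn⟩
  · exact absurd h hnc
  · refine ⟨n, Nat.one_le_iff_ne_zero.2 ?_, hn⟩
    rintro rfl
    obtain ⟨e⟩ := hn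
    have h4 : Nat.card (QuaternionGroup (2 ^ 0)) = 4 := by rw [Nat.card_eq_fintype_card, QuaternionGroup.card]; rfl
    have ho : orderOf (QuaternionGroup.xa (0 : ZMod (2 * 2 ^ 0))) = 4 := by
      haveI : NeZero ((2 : ℕ) ^ 0) := ⟨by norm_num⟩
      exact QuaternionGroup.orderOf_xa 0
    haveI : IsCyclic (QuaternionGroup (2 ^ 0)) := isCyclic_of_orderOf_eq_card _ (ho.trans h4.symm)
    exact hnc (isCyclic_of_surjective e.symm.toMonoidHom e.symm.surjective)

end Cfsg.Agent.S0275
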