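import Cfsg.Statements.S0276
import Cfsg.Agent.Lib.PSL2.Sylow2

set_option autoImplicit false
open Cfsg

namespace Cfsg.Agent.S0276

/-- For q = 3 or 5 mod 8 the Sylow 2-subgroups of PSL_2(q) are elementary abelian of order 4. -/
theorem result {F : Type*} [Field F] [Fintype F] {q : ℕ} (hF : Fintype.card F = q) (hq : q % 8 = 3 ∨ q % 8 = 5) (P : Sylow 2 (Matrix.ProjectiveSpecialLinearGroup (Fin 2) F)) : IsKleinFour (P : Subgroup (Matrix.ProjectiveSpecialLinearGroup (Fin 2) F)) := by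
  haveI : Fact (Nat.Prime 2) := ⟨Nat.prime_two⟩
  subst hF
  have hodd : Fintype.card F % 2 = 1 := by omega
  set q := Fintype.card F
  set G := Matrix.ProjectiveSpecialLinearGroup (Fin 2) F
  obtain ⟨k, a, b, hk, ha, hb, hao, hbo, hab, hba, hall, -⟩ := CfsgLib.PSL2Two.sylow_dihedral hodd P
  have hG : ∃ r, Nat.card G = 4 * r ∧ r % 2 = 1 := by
    have h : 2 * Nat.card G = q * (q ^ 2 - 1) := CfsgLib.PSL2Two.two_mul_card_PSL hodd
    obtain ⟨r, hr, hr1⟩ : ∃ r, q ^ 2 - 1 = 8 * r ∧ r % 2 = 1 := by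
      rcases hq with h | h <;> obtain ⟨m, hm⟩ : ∃ m, q = 8 * m + q % 8 := ⟨q / 8, (Nat.div_add_mod q 8).symm⟩ <;>
        rw [h] at hm <;> rw [hm]
      · exact ⟨8 * m ^ 2 + 6 * m + 1, by ring_nf; omega, by omega⟩
      · exact ⟨8 * m ^ 2 + 10 * m + 3, by ring_nf; omega, by omega⟩
    rw [hr] at h
    exact ⟨q * r, Nat.eq_of_mul_eq_mul_left (by norm_num : 0 < 2) (by rw [h]; ring),
      by rw [Nat.mul_mod, hodd, hr1]⟩
  obtain ⟨r, hGr, hr⟩ := hG
  obtain ⟨e, he⟩ := IsPGroup.iff_card.mp P.2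
  have he2 : e = 2 := by
    have h1 : 2 ^ e ∣ 4 * r := he ▸ hGr ▸ (P : Subgroup G).card_subgroup_dvd_card
    have h2 : ¬ 2 ∣ (P : Subgroup G).index := P.not_dvd_index
    have h3 := (P : Subgroup G).card_mul_index
    rw [he, hGr] at h3
    rcases lt_trichotomy e 2 with h | h | h
    · interval_cases e <;> omega
    · exact h
    · have h8 : 2 ^ 3 ∣ 4 * r := (pow_dvd_pow 2 h).trans h1
      omega
  subst he2
  have hk1 : k = 1 := by
    have hlt : Subgroup.zpowers a < (P : Subgroup G) :=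
      SetLike.lt_iff_le_and_exists.mpr ⟨Subgroup.zpowers_le.mpr ha, b, hb, hba⟩
    have hc := Set.Finite.card_lt_card (Set.toFinite _) hlt
    change Nat.card ↥(Subgroup.zpowers a) < Nat.card ↥(P : Subgroup G) at hc
    rw [Nat.card_zpowers, hao, he, Nat.pow_lt_pow_iff_right (by norm_num)] at hc
    omega
  subst hk1
  haveI : Nontrivial ↥(P : Subgroup G) := Finite.one_lt_card_iff_nontrivial.mp (by rw [he]; norm_num)
  refine ⟨he, (Monoid.exponent_eq_prime_iff Nat.prime_two).mpr fun x hx => orderOf_eq_prime ?_ hx⟩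
  have hbb : b * b = 1 := by rw [← sq]; simpa [hbo] using pow_orderOf_eq_one b
  have haa : a * a = 1 := by rw [← sq]; simpa [hao] using pow_orderOf_eq_one a
  have hc : b * a = a * b := by
    rw [← mul_inv_eq_iff_eq_mul, hab, inv_eq_of_mul_eq_one_right haa]
  apply Subtype.ext
  show ((x : G)) ^ 2 = 1
  obtain ⟨j, h | h⟩ := hall x x.2
  · rw [h, ← zpow_natCast, ← zpow_mul, mul_comm, zpow_mul, zpow_natCast, sq, haa, one_zpow]
  · rw [h, Commute.mul_pow (Commute.zpow_left (show Commute a b from hc.symm) j), sq b, hbb, mul_one,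
      ← zpow_natCast, ← zpow_mul, mul_comm, zpow_mul, zpow_natCast, sq, haa, one_zpow]

end Cfsg.Agent.S0276
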