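import Cfsg.Statements.S0281
import Cfsg.Agent.Lib.Unitary.TwoSubfield
import Cfsg.Agent.Lib.Linear.Card
import Cfsg.Agent.S0278

set_option autoImplicit false
open Cfsg

namespace Cfsg.Agent.S0281

/-- SU_2(q) is isomorphic to SL_2(q). -/
theorem result {F K : Type*} [Field F] [Fintype F] [Field K] [Fintype K] {q : ℕ} (hF : Fintype.card F = q ^ 2) (hK : Fintype.card K = q) : Nonempty (Cfsg.SU 2 F q ≃* Matrix.SpecialLinearGroup (Fin 2) K) := by
  obtain ⟨f, hf⟩ := CfsgLib.Unitary.TwoSubfield.exists_hom (F := F) hF hK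
  have h1 := Cfsg.Agent.S0278.result hF 2 (by norm_num)
  have h2 := CfsgLib.Linear.Card.card_SL (F := K) 2 (by norm_num)
  rw [Fin.prod_univ_two, hK] at h2
  simp only [Finset.prod_range_succ, Finset.prod_range_zero] at h1
  norm_num at h1 h2
  have hq := CfsgLib.Unitary.FieldNorm.two_le_q hF
  have hsq : q ≤ q ^ 2 := by nlinarith
  have hle : Nat.card (Cfsg.SU 2 F q) ≤ Nat.card (Matrix.SpecialLinearGroup (Fin 2) K) := by
    obtain ⟨j, rfl⟩ : ∃ j, q = j + 1 := ⟨q - 1, by omega⟩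
    have e : (j + 1) ^ 2 - 1 = j * (j + 2) := by
      rw [Nat.sub_eq_iff_eq_add (by nlinarith)]; ring
    have e' : (j + 1) ^ 2 - (j + 1) = j * (j + 1) := by
      rw [Nat.sub_eq_iff_eq_add (by nlinarith)]; ring
    rw [e, e'] at h2
    simp only [Nat.add_sub_cancel] at h2
    rw [e] at h1
    nlinarith [h1, h2]
  exact ⟨(MulEquiv.ofBijective f (hf.bijective_of_nat_card_le hle)).symm⟩

end Cfsg.Agent.S0281
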