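import Cfsg.Statements.S0282
import Mathlib
import Cfsg.Agent.Lib.Unitary.PSU32

set_option autoImplicit false
open Cfsg

namespace Cfsg.Agent.S0282

/-- PSU_3(2) is a solvable group of order 72. -/
theorem result {F : Type*} [Field F] [Fintype F] (hF : Fintype.card F = 4) : Nat.card (Cfsg.PSU 3 F 2) = 72 ∧ Group.IsSolvable (Cfsg.PSU 3 F 2) := by
  refine ⟨CfsgLib.Unitary.PSU32.card_PSU hF, ?_⟩
  obtain ⟨N, hN, h9, h3, ⟨e⟩⟩ := CfsgLib.Unitary.PSU32.structure_72 (F := F) hF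
  haveI := hN
  haveI : Fact (Nat.Prime 3) := ⟨Nat.prime_three⟩
  haveI : Fact (Nat.Prime 2) := ⟨Nat.prime_two⟩
  haveI h1 : Group.IsSolvable N := by
    haveI : Group.IsNilpotent N := (IsPGroup.of_card (n := 2) (by rw [h9]; rfl) : IsPGroup 3 N).isNilpotent
    infer_instance
  haveI : Group.IsSolvable (Cfsg.PSU 3 F 2 ⧸ N) := by
    haveI : Group.IsNilpotent (Cfsg.PSU 3 F 2 ⧸ N) := (IsPGroup.of_card (n := 3) (by
      rw [Nat.card_congr e.toEquiv, Nat.card_eq_fintype_card, QuaternionGroup.card]; norm_num) :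
        IsPGroup 2 (Cfsg.PSU 3 F 2 ⧸ N)).isNilpotent
    infer_instance
  exact Group.isSolvable_of_ker_le_range N.subtype (QuotientGroup.mk' N) (by simp)

end Cfsg.Agent.S0282
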