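import Cfsg.Statements.S0286
import Mathlib
import Cfsg.Agent.Lib.Orth.Models

set_option autoImplicit false
open Cfsg

namespace Cfsg.Agent.S0286

open CfsgLib.Orth.Models

/-- |GO_{2m+1}(q)| = 2 q^(m^2) prod_{i=1}^{m} (q^(2i) - 1) for q odd. -/
theorem result {F : Type*} [Field F] [Fintype F] {q : ℕ} (hF : Fintype.card F = q) (hodd : Odd q) (m : ℕ) : Nat.card (Cfsg.isometryGroup F (Cfsg.quadFormOdd m F)) = 2 * q ^ (m ^ 2) * ∏ i ∈ Finset.range m, (q ^ (2 * (i + 1)) - 1) := by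
  subst hF
  have h2 : (2 : F) ≠ 0 := by
    intro h0
    haveI : CharP F 2 := CharTwo.of_one_ne_zero_of_two_eq_zero one_ne_zero h0
    obtain ⟨k, -, hk⟩ := FiniteField.card F 2
    rw [hk] at hodd
    exact (Nat.not_even_iff_odd.2 hodd) (Nat.even_pow.2 ⟨even_two, k.ne_zero⟩)
  rw [card_isometryGroup, show Cfsg.quadFormOdd m F = ⇑(oddQ F m) from funext fun v => (oddQ_apply m v).symm,
    card_iso_odd h2 m]

end Cfsg.Agent.S0286
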