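import Cfsg.Statements.S0289
import Mathlib
import Cfsg.Agent.Lib.Orth.Models

set_option autoImplicit false
open Cfsg

namespace Cfsg.Agent.S0289

open CfsgLib.Orth.Models

/-- The hyperbolic quadratic form on F^(2m), m at least 1, has q^(2m-1) + q^m - q^(m-1) zeros (that is, (q^m - 1)(q^(m-1) + 1) non-zero isotropic vectors). -/
theorem result {F : Type*} [Field F] [Fintype F] {q : ℕ} (hF : Fintype.card F = q) (m : ℕ) (hm : 1 ≤ m) : Nat.card {v : Fin m ⊕ Fin m → F // Cfsg.quadFormPlus m F v = 0} = q ^ (2 * m - 1) + q ^ m - q ^ (m - 1) := by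
  subst hF
  obtain ⟨k, rfl⟩ : ∃ k, m = k + 1 := ⟨m - 1, by omega⟩
  have hz := card_zero_plus (F := F) (k + 1)
  rw [show {v : Fin (k + 1) ⊕ Fin (k + 1) → F // Cfsg.quadFormPlus (k + 1) F v = 0} =
    {v : Fin (k + 1) ⊕ Fin (k + 1) → F // plusQ F (k + 1) v = 0} by simp only [plusQ_apply]]
  have h1 : Fintype.card F ^ k ≤ Fintype.card F ^ (2 * (k + 1) - 1) + Fintype.card F ^ (k + 1) :=
    le_add_left (Nat.pow_le_pow_right Fintype.card_pos (Nat.le_succ k))
  rw [Nat.add_sub_cancel, show 2 * (k + 1) - 1 = 2 * k + 1 from by omega] at *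
  zify [h1]
  refine mul_left_cancel₀ (show (Fintype.card F : ℤ) ≠ 0 by exact_mod_cast Fintype.card_ne_zero) ?_
  rw [hz]; ring

end Cfsg.Agent.S0289
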