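import Cfsg.Statements.S0292
import Cfsg.Agent.Lib.Geometry.SpinorNegOne
import Cfsg.Agent.Lib.Geometry.SpinorCenter
import Cfsg.Agent.S0286

set_option autoImplicit false
open Cfsg

namespace Cfsg.Agent.S0292

/-- 2 |PΩ_{2m+1}(q)| = q^(m^2) prod_{i=1}^{m} (q^(2i) - 1), for q odd and m at least 3 (type B_m). -/
theorem result {F : Type*} [Field F] [Fintype F] {q : ℕ} (hF : Fintype.card F = q) (hodd : Odd q) (m : ℕ) (hm : 3 ≤ m) : 2 * Nat.card (Cfsg.POmega F (Cfsg.quadFormOdd m F)) = q ^ (m ^ 2) * ∏ i ∈ Finset.range m, (q ^ (2 * (i + 1)) - 1) := by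
  classical
  subst hF
  have h2 : (2 : F) ≠ 0 := fun h => by
    haveI : CharP F 2 := CharTwo.of_one_ne_zero_of_two_eq_zero one_ne_zero h
    exact Nat.not_even_iff_odd.2 hodd (by
      rw [Nat.even_iff]; exact FiniteField.even_card_of_char_two (ringChar.eq F 2))
  have hO := Cfsg.Agent.S0286.result (F := F) rfl hodd m
  rw [show Cfsg.quadFormOdd m F = ⇑(CfsgLib.Orth.Models.oddQ F m) from
    funext fun v => (CfsgLib.Orth.Models.oddQ_apply m v).symm] at hO ⊢
  have hQ := CfsgLib.Geometry.Spinor.nondeg_polarBilin (CfsgLib.Orth.Models.nondeg_odd (F := F) h2 m)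
  haveI : Nontrivial (Unit ⊕ (Fin m ⊕ Fin m)) := ⟨⟨Sum.inl (), Sum.inr (Sum.inl ⟨0, by omega⟩), by simp⟩⟩
  have hidx := CfsgLib.Geometry.Spinor.index_omega h2 hQ
  have hc : Subgroup.center (Cfsg.Omega F ⇑(CfsgLib.Orth.Models.oddQ F m)) = ⊥ := by
    rw [Subgroup.eq_bot_iff_forall]
    intro z hz
    obtain ⟨c, hc⟩ := CfsgLib.Geometry.Spinor.center_scalar h2 hQ (by simp; omega) z hz
    obtain ⟨hdet, -⟩ := (CfsgLib.Geometry.Spinor.mem_omega_iff h2 hQ).1 z.2
    rw [hc, Matrix.det_smul, Matrix.det_one, mul_one] at hdet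
    have hiso := (CfsgLib.Geometry.QuadBasic.mem_isometryGroup_iff _ z.1.1).1 z.1.2
    have hsq : c * c = 1 := by
      have h := hiso (Pi.single (Sum.inl ()) 1)
      rw [hc, Matrix.smul_mulVec, Matrix.one_mulVec, QuadraticMap.map_smul, smul_eq_mul] at h
      have h1 : CfsgLib.Orth.Models.oddQ F m (Pi.single (Sum.inl ()) 1) = 1 := by
        simp [CfsgLib.Orth.Models.oddQ_apply, Cfsg.quadFormOdd]
      rwa [h1, mul_one] at h
    have hc1 : c = 1 := by
      rw [show Fintype.card (Unit ⊕ (Fin m ⊕ Fin m)) = 2 * m + 1 by simp; omega, pow_succ, pow_mul,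
        pow_two, hsq, one_pow, one_mul] at hdet
      exact hdet
    exact Subtype.ext (Subtype.ext (Units.ext (by rw [hc, hc1, one_smul]; rfl)))
  have hcard := Subgroup.card_mul_index (Cfsg.Omega F ⇑(CfsgLib.Orth.Models.oddQ F m))
  rw [hidx, hO] at hcard
  have hq := Subgroup.card_eq_card_quotient_mul_card_subgroup
    (Subgroup.center (Cfsg.Omega F ⇑(CfsgLib.Orth.Models.oddQ F m)))
  rw [hc, Subgroup.card_bot, mul_one, ← hc] at hq
  rw [hq, mul_assoc] at hcard
  change Nat.card (Cfsg.POmega F _) * 4 = _ at hcard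
  linarith

end Cfsg.Agent.S0292
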