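import Cfsg.Statements.S0790
import Cfsg.Agent.Lib.Geometry.SpinorNegOne

set_option autoImplicit false
open Cfsg

namespace Cfsg.Agent.S0790

/-- −1 ∈ Ω⁺_2m(q) iff q^m ≡ 1 (mod 4), for q odd and m ≥ 1 (so that in the other case SO⁺_2m(q) = 2 × Ω⁺_2m(q)). -/
theorem result {F : Type*} [Field F] [Fintype F] {q : ℕ} (hF : Fintype.card F = q) (hodd : Odd q) (m : ℕ) (hm : 1 ≤ m) : (∃ g : ↥(Cfsg.isometryGroup F (Cfsg.quadFormPlus m F)), g ∈ Cfsg.Omega F (Cfsg.quadFormPlus m F) ∧ ((g : Matrix.GeneralLinearGroup (Fin m ⊕ Fin m) F) : Matrix (Fin m ⊕ Fin m) (Fin m ⊕ Fin m) F) = -1) ↔ q ^ m % 4 = 1 := by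
  classical
  subst hF
  have h2 : (2 : F) ≠ 0 := fun h => by
    haveI : CharP F 2 := CharTwo.of_one_ne_zero_of_two_eq_zero one_ne_zero h
    exact Nat.not_even_iff_odd.2 hodd (by
      rw [Nat.even_iff]; exact FiniteField.even_card_of_char_two (ringChar.eq F 2))
  haveI : Nontrivial (Fin m ⊕ Fin m) := ⟨⟨Sum.inl ⟨0, hm⟩, Sum.inr ⟨0, hm⟩, by simp⟩⟩
  rw [show Cfsg.quadFormPlus m F = ⇑(CfsgLib.Orth.Models.plusQ F m) from
    funext fun v => (CfsgLib.Orth.Models.plusQ_apply m v).symm]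
  set b : Fin m ⊕ Fin m → (Fin m ⊕ Fin m) → F := fun s =>
    match s with
    | Sum.inl i => Pi.single (Sum.inl i) 1 + Pi.single (Sum.inr i) 1
    | Sum.inr i => Pi.single (Sum.inl i) 1 - Pi.single (Sum.inr i) 1 with hb
  have hQb : ∀ s, CfsgLib.Orth.Models.plusQ F m (b s) = Sum.elim (fun _ => (1 : F)) (fun _ => -1) s := by
    intro s
    rw [CfsgLib.Orth.Models.plusQ_apply, Cfsg.quadFormPlus]
    rcases s with i | i <;>
    · rw [Finset.sum_eq_single i]
      · simp [hb]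
      · intro j _ hj; simp [hb, Pi.single_apply, hj]
      · simp
  have hort : ∀ s t, s ≠ t → QuadraticMap.polar (⇑(CfsgLib.Orth.Models.plusQ F m)) (b s) (b t) = 0 := by
    intro s t hst
    simp only [QuadraticMap.polar, CfsgLib.Orth.Models.plusQ_apply, Cfsg.quadFormPlus, ← Finset.sum_sub_distrib]
    refine Finset.sum_eq_zero fun j _ => ?_
    rcases s with i | i <;> rcases t with k | k <;>
      by_cases h1 : j = i <;> by_cases h2' : j = k <;>
      subst_vars <;> simp_all [Pi.single_apply]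
  rw [CfsgLib.Geometry.Spinor.neg_one_mem_omega_iff h2 ⟨m, by simp⟩ b
    (fun s => by rw [hQb]; rcases s with i | i <;> simp) hort,
    Finset.prod_congr rfl (fun s _ => hQb s), Fintype.prod_sum_type]
  simp only [Sum.elim_inl, Sum.elim_inr, Finset.prod_const_one, one_mul, Finset.prod_const, Finset.card_univ,
    Fintype.card_fin]
  exact CfsgLib.Geometry.Spinor.char_neg_one_pow m hodd

end Cfsg.Agent.S0790
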