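import Cfsg.Statements.S0293
import Cfsg.Agent.Lib.Geometry.OmegaCenter
import Cfsg.Agent.Lib.Orth.Models
import Cfsg.Agent.S0287
import Cfsg.Agent.S0790

set_option autoImplicit false
open Cfsg

namespace Cfsg.Agent.S0293

/-- gcd(4, q^m - 1) |PΩ^+_{2m}(q)| = q^(m(m-1)) (q^m - 1) prod_{i=1}^{m-1} (q^(2i) - 1), m at least 4 (type D_m). -/
theorem result {F : Type*} [Field F] [Fintype F] {q : ℕ} (hF : Fintype.card F = q) (m : ℕ) (hm : 4 ≤ m) : Nat.gcd 4 (q ^ m - 1) * Nat.card (Cfsg.POmega F (Cfsg.quadFormPlus m F)) = q ^ (m * (m - 1)) * (q ^ m - 1) * ∏ i ∈ Finset.range (m - 1), (q ^ (2 * (i + 1)) - 1) := by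
  classical
  subst hF
  set q := Fintype.card F with hq
  have hqf : q ≠ 0 := Fintype.card_ne_zero
  have hO := Cfsg.Agent.S0287.result (F := F) rfl m (by omega)
  have hform : Cfsg.quadFormPlus m F = ⇑(CfsgLib.Orth.Models.plusQ F m) :=
    funext fun v => (CfsgLib.Orth.Models.plusQ_apply m v).symm
  have hQ := CfsgLib.Geometry.Spinor.nondeg_polarBilin (CfsgLib.Orth.Models.nondeg_plus (F := F) m)
  haveI : Nontrivial (Fin m ⊕ Fin m) := ⟨⟨Sum.inl ⟨0, by omega⟩, Sum.inr ⟨0, by omega⟩, by simp⟩⟩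
  have hcard := CfsgLib.Geometry.OmegaCenter.card_isometry_eq (F := F) (Q := CfsgLib.Orth.Models.plusQ F m)
  have hn : Fintype.card (Fin m ⊕ Fin m) = 2 * m := by simp; omega
  by_cases h2 : (2 : F) = 0
  · haveI : CharP F 2 := CharTwo.of_one_ne_zero_of_two_eq_zero one_ne_zero h2
    haveI : Nonempty (Fin m ⊕ Fin m) := inferInstance
    have hev : Even q := Nat.even_iff.2 (FiniteField.even_card_of_char_two (ringChar.eq F 2))
    rw [CfsgLib.Geometry.OmegaIndex.index_omega_two hQ (Or.inr (by omega)),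
      CfsgLib.Geometry.OmegaCenter.center_omega_two hQ (by omega), Subgroup.card_bot, ← hform] at hcard
    rw [hcard] at hO
    have hg : Nat.gcd 4 (q ^ m - 1) = 1 := by
      have he : Even (q ^ m) := hev.pow_of_ne_zero (by omega)
      have hpos : 0 < q ^ m := pow_pos (Nat.pos_of_ne_zero hqf) _
      have hodd : (q ^ m - 1) % 2 = 1 := by rw [Nat.even_iff] at he; omega
      rw [show 4 = 2 ^ 2 from rfl]
      exact Nat.Coprime.pow_left 2 (Nat.coprime_two_left.2 (Nat.odd_iff.2 hodd))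
    rw [hg, one_mul]
    simp only [mul_assoc, ← hq] at hO ⊢
    omega
  · rw [CfsgLib.Geometry.Spinor.index_omega h2 hQ] at hcard
    have hodd : Odd q := by
      rw [Nat.odd_iff]
      exact FiniteField.odd_card_of_char_ne_two fun h => h2 (by
        haveI : CharP F 2 := ringChar.of_eq h
        exact CharTwo.two_eq_zero)
    have h790 := Cfsg.Agent.S0790.result (F := F) rfl hodd m (by omega)
    rw [hform] at h790 hO ⊢
    rcases CfsgLib.Geometry.OmegaCenter.card_center_odd (Q := CfsgLib.Orth.Models.plusQ F m) h2 hQ (by omega) with ⟨hno, hc⟩ | ⟨⟨g, hg, hg1⟩, hc⟩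
    · rw [hc, hO] at hcard
      have hm4 : q ^ m % 4 ≠ 1 := fun h => by
        obtain ⟨g, hg, hg1⟩ := h790.2 h
        exact hno g hg hg1
      have hgcd : Nat.gcd 4 (q ^ m - 1) = 2 := by
        have ho : q ^ m % 2 = 1 := Nat.odd_iff.1 (hodd.pow)
        rw [Nat.gcd_rec, show (q ^ m - 1) % 4 = 2 by omega]
        rfl
      rw [hgcd]
      simp only [mul_assoc, ← hq] at hcard ⊢
      omega
    · rw [hc, hO] at hcard
      have hm4 : q ^ m % 4 = 1 := h790.1 ⟨g, hg, hg1⟩
      have hgcd : Nat.gcd 4 (q ^ m - 1) = 4 := Nat.gcd_eq_left (by omega)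
      rw [hgcd]
      simp only [mul_assoc, ← hq] at hcard ⊢
      omega

end Cfsg.Agent.S0293
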