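import Cfsg.Statements.S0791
import Cfsg.Agent.Lib.Geometry.SpinorNegOne

set_option autoImplicit false
open Cfsg

namespace Cfsg.Agent.S0791

/-- −1 ∈ Ω⁻_2m(q) iff q^m ≡ −1 (mod 4), for q odd and m ≥ 1; for the minus-type form quadFormMinus (m−1) with anisotropic binary part. -/
theorem result {F : Type*} [Field F] [Fintype F] {q : ℕ} (hF : Fintype.card F = q) (hodd : Odd q) (m : ℕ) (hm : 1 ≤ m) (a b : F) (hab : ∀ z₁ z₂ : F, z₁ ^ 2 + a * z₁ * z₂ + b * z₂ ^ 2 = 0 → z₁ = 0 ∧ z₂ = 0) : (∃ g : ↥(Cfsg.isometryGroup F (Cfsg.quadFormMinus (m - 1) F a b)), g ∈ Cfsg.Omega F (Cfsg.quadFormMinus (m - 1) F a b) ∧ ((g : Matrix.GeneralLinearGroup ((Fin (m - 1) ⊕ Fin (m - 1)) ⊕ Fin 2) F) : Matrix ((Fin (m - 1) ⊕ Fin (m - 1)) ⊕ Fin 2) ((Fin (m - 1) ⊕ Fin (m - 1)) ⊕ Fin 2) F) = -1) ↔ q ^ m % 4 = 3 := by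
  classical
  subst hF
  have h2 : (2 : F) ≠ 0 := fun h => by
    haveI : CharP F 2 := CharTwo.of_one_ne_zero_of_two_eq_zero one_ne_zero h
    exact Nat.not_even_iff_odd.2 hodd (by
      rw [Nat.even_iff]; exact FiniteField.even_card_of_char_two (ringChar.eq F 2))
  obtain ⟨k, rfl⟩ : ∃ k, m = k + 1 := ⟨m - 1, by omega⟩
  rw [Nat.add_sub_cancel]
  haveI : Nontrivial ((Fin k ⊕ Fin k) ⊕ Fin 2) := ⟨⟨Sum.inr 0, Sum.inr 1, by simp⟩⟩
  rw [show Cfsg.quadFormMinus k F a b = ⇑(CfsgLib.Orth.Models.minusQ k a b) from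
    funext fun v => (CfsgLib.Orth.Models.minusQ_apply k a b v).symm]
  have h4 : (4 : F) ≠ 0 := by rw [show (4 : F) = 2 * 2 by norm_num]; exact mul_ne_zero h2 h2
  set d : F := b - a * a / 4 with hd
  have hns : ¬ IsSquare (-d) := by
    rintro ⟨c, hc⟩
    have h := hab (c - a / 2) 1 (by rw [hd] at hc; field_simp at hc ⊢; linear_combination -hc)
    exact one_ne_zero h.2
  have hd0 : d ≠ 0 := fun h => hns (by rw [h, neg_zero]; exact IsSquare.zero)
  set v : (Fin k ⊕ Fin k) ⊕ Fin 2 → ((Fin k ⊕ Fin k) ⊕ Fin 2) → F := fun s =>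
    match s with
    | Sum.inl (Sum.inl i) => Pi.single (Sum.inl (Sum.inl i)) 1 + Pi.single (Sum.inl (Sum.inr i)) 1
    | Sum.inl (Sum.inr i) => Pi.single (Sum.inl (Sum.inl i)) 1 - Pi.single (Sum.inl (Sum.inr i)) 1
    | Sum.inr z => if z = 0 then Pi.single (Sum.inr 0) 1
        else Pi.single (Sum.inr 1) 1 - (a / 2) • Pi.single (Sum.inr 0) 1 with hv
  have hQv : ∀ s, CfsgLib.Orth.Models.minusQ k a b (v s)
      = Sum.elim (Sum.elim (fun _ => (1 : F)) (fun _ => -1)) ![1, d] s := by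
    intro s
    rw [CfsgLib.Orth.Models.minusQ_apply, Cfsg.quadFormMinus]
    rcases s with (i | i) | z
    · rw [Finset.sum_eq_single i]
      · simp [hv]
      · intro j _ hj; simp [hv, Pi.single_apply, hj]
      · simp
    · rw [Finset.sum_eq_single i]
      · simp [hv]
      · intro j _ hj; simp [hv, Pi.single_apply, hj]
      · simp
    · fin_cases z
      · simp [hv]
      · simp [hv, hd]
        field_simp
        ring
  have hpol : ∀ x y : ((Fin k ⊕ Fin k) ⊕ Fin 2) → F,
      QuadraticMap.polar (⇑(CfsgLib.Orth.Models.minusQ k a b)) x y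
        = (∑ j : Fin k, (x (Sum.inl (Sum.inl j)) * y (Sum.inl (Sum.inr j))
            + y (Sum.inl (Sum.inl j)) * x (Sum.inl (Sum.inr j))))
          + (2 * x (Sum.inr 0) * y (Sum.inr 0) + a * (x (Sum.inr 0) * y (Sum.inr 1) + y (Sum.inr 0) * x (Sum.inr 1))
            + 2 * b * x (Sum.inr 1) * y (Sum.inr 1)) := by
    intro x y
    simp only [QuadraticMap.polar, CfsgLib.Orth.Models.minusQ_apply, Cfsg.quadFormMinus, Pi.add_apply,
      add_mul, mul_add, Finset.sum_add_distrib]
    ring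
  have hbinl : ∀ (s : Fin k ⊕ Fin k) (z : Fin 2), v (Sum.inl s) (Sum.inr z) = 0 := by
    intro s z
    rcases s with i | i <;> simp [hv]
  have hinrh : ∀ (z : Fin 2) (s : Fin k ⊕ Fin k), v (Sum.inr z) (Sum.inl s) = 0 := by
    intro z s
    fin_cases z <;> simp [hv]
  have hx : ∀ (i j : Fin k), v (Sum.inl (Sum.inl i)) (Sum.inl (Sum.inl j)) = (if j = i then 1 else 0) ∧
      v (Sum.inl (Sum.inl i)) (Sum.inl (Sum.inr j)) = (if j = i then 1 else 0) ∧
      v (Sum.inl (Sum.inr i)) (Sum.inl (Sum.inl j)) = (if j = i then 1 else 0) ∧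
      v (Sum.inl (Sum.inr i)) (Sum.inl (Sum.inr j)) = -(if j = i then 1 else 0) := by
    intro i j
    by_cases h : j = i <;> simp [hv, Pi.single_apply, h]
  have hort : ∀ s t, s ≠ t →
      QuadraticMap.polar (⇑(CfsgLib.Orth.Models.minusQ k a b)) (v s) (v t) = 0 := by
    intro s t hst
    rw [hpol]
    rcases s with s | z <;> rcases t with t | w
    · simp only [hbinl, mul_zero, add_zero]
      refine Finset.sum_eq_zero fun j _ => ?_
      rcases s with i | i <;> rcases t with l | l <;>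
        simp only [(hx i j).1, (hx i j).2.1, (hx i j).2.2.1, (hx i j).2.2.2, (hx l j).1, (hx l j).2.1,
          (hx l j).2.2.1, (hx l j).2.2.2] <;>
        by_cases h1 : j = i
      all_goals first
        | (rw [if_neg h1]; ring)
        | (subst h1
           by_cases h2' : j = l
           · subst h2'
             first | exact absurd rfl hst | (rw [if_pos rfl]; ring)
           · rw [if_neg h2']; ring)
    · simp [hbinl, hinrh]
    · simp [hbinl, hinrh]
    · simp only [hinrh, mul_zero, add_zero, Finset.sum_const_zero, zero_add]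
      fin_cases z <;> fin_cases w
      · exact absurd rfl hst
      · simp [hv]; field_simp; ring
      · simp [hv]; field_simp; ring
      · exact absurd rfl hst
  rw [CfsgLib.Geometry.Spinor.neg_one_mem_omega_iff h2 ⟨k + 1, by simp; omega⟩ v
    (fun s => by rw [hQv]; rcases s with (i | i) | z <;> (try fin_cases z) <;> simp [hd0]) hort,
    Finset.prod_congr rfl (fun s _ => hQv s), Fintype.prod_sum_type, Fintype.prod_sum_type, Fin.prod_univ_two]
  simp only [Sum.elim_inl, Sum.elim_inr, Finset.prod_const_one, one_mul, Finset.prod_const, Finset.card_univ,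
    Fintype.card_fin, Matrix.cons_val_zero, Matrix.cons_val_one]
  rw [show ((-1 : F) ^ k * d) = (-1 : F) ^ (k + 1) * (-d) by ring, map_mul,
    quadraticChar_neg_one_iff_not_isSquare.2 hns]
  have h1 := CfsgLib.Geometry.Spinor.char_neg_one_pow (F := F) (k + 1) hodd
  have h3 : Fintype.card F ^ (k + 1) % 4 = 1 ∨ Fintype.card F ^ (k + 1) % 4 = 3 := by
    rcases (hodd.pow (n := k + 1)) with ⟨j, hj⟩; omega
  rcases quadraticChar_dichotomy (show (-1 : F) ^ (k + 1) ≠ 0 by simp) with e | e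
  · rw [e]
    have := h1.1 e
    constructor <;> intro h <;> omega
  · rw [e]
    have : ¬ Fintype.card F ^ (k + 1) % 4 = 1 := fun h => by have := h1.2 h; omega
    constructor <;> intro h <;> omega

end Cfsg.Agent.S0791
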