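import Cfsg.Statements.S0295
import Cfsg.Agent.Lib.Orth.OmegaSimple
import Cfsg.Agent.Lib.Orth.Models
import Cfsg.Agent.Lib.Geometry.SpinorNegOne

set_option autoImplicit false
open Cfsg

namespace Cfsg.Agent.S0295

/-- PΩ_{2m+1}(q) is simple for q odd and m at least 3. -/
theorem result {F : Type*} [Field F] [Fintype F] (hodd : Odd (Fintype.card F)) (m : ℕ) (hm : 3 ≤ m) : IsSimpleGroup (Cfsg.POmega F (Cfsg.quadFormOdd m F)) := by
  classical
  have h2 : (2 : F) ≠ 0 := fun h => by
    haveI : CharP F 2 := CharTwo.of_one_ne_zero_of_two_eq_zero one_ne_zero h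
    exact Nat.not_even_iff_odd.2 hodd (Nat.even_iff.2 (FiniteField.even_card_of_char_two (ringChar.eq F 2)))
  rw [show Cfsg.quadFormOdd m F = ⇑(CfsgLib.Orth.Models.oddQ F m) from
    funext fun v => (CfsgLib.Orth.Models.oddQ_apply m v).symm]
  exact CfsgLib.Orth.OmegaSimple.isSimpleGroup
    (CfsgLib.Geometry.Spinor.nondeg_polarBilin (CfsgLib.Orth.Models.nondeg_odd (F := F) h2 m)) (by simp; omega)

end Cfsg.Agent.S0295
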