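import Cfsg.Statements.S0296
import Cfsg.Agent.Lib.Orth.OmegaSimple
import Cfsg.Agent.Lib.Orth.Models
import Cfsg.Agent.Lib.Geometry.SpinorNegOne

set_option autoImplicit false
open Cfsg

namespace Cfsg.Agent.S0296

/-- PΩ^+_{2m}(q) is simple for m at least 4. -/
theorem result {F : Type*} [Field F] [Fintype F] (m : ℕ) (hm : 4 ≤ m) : IsSimpleGroup (Cfsg.POmega F (Cfsg.quadFormPlus m F)) := by
  classical
  rw [show Cfsg.quadFormPlus m F = ⇑(CfsgLib.Orth.Models.plusQ F m) from
    funext fun v => (CfsgLib.Orth.Models.plusQ_apply m v).symm]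
  exact CfsgLib.Orth.OmegaSimple.isSimpleGroup
    (CfsgLib.Geometry.Spinor.nondeg_polarBilin (CfsgLib.Orth.Models.nondeg_plus (F := F) m)) (by simp; omega)

end Cfsg.Agent.S0296
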