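import Cfsg.Statements.S0298
import Cfsg.Agent.Lib.Geometry.SpinorNegOne
import Cfsg.Agent.Lib.Linear.Generation
import Cfsg.Agent.S0286
import Cfsg.Agent.S0243

set_option autoImplicit false
open Cfsg

namespace Cfsg.Agent.S0298

open scoped Matrix

/-- Traceless matrix from coordinates. -/
def E3 {F : Type*} [Field F] (x : Unit ⊕ (Fin 1 ⊕ Fin 1) → F) : Matrix (Fin 2) (Fin 2) F :=
  !![x (Sum.inl ()), x (Sum.inr (Sum.inl 0)); x (Sum.inr (Sum.inr 0)), -x (Sum.inl ())]

/-- Coordinates of a matrix. -/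
def P3 {F : Type*} [Field F] (M : Matrix (Fin 2) (Fin 2) F) : Unit ⊕ (Fin 1 ⊕ Fin 1) → F :=
  Sum.elim (fun _ => M 0 0) (Sum.elim (fun _ => M 0 1) (fun _ => M 1 0))

theorem E3_P3 {F : Type*} [Field F] (M : Matrix (Fin 2) (Fin 2) F) (h : M.trace = 0) : E3 (P3 M) = M := by
  rw [Matrix.trace_fin_two] at h
  ext i j
  fin_cases i <;> fin_cases j <;> simp [E3, P3]
  linear_combination -h

theorem P3_E3 {F : Type*} [Field F] (x : Unit ⊕ (Fin 1 ⊕ Fin 1) → F) : P3 (E3 x) = x := by
  funext s
  rcases s with ⟨⟩ | i | i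
  · rfl
  · fin_cases i; rfl
  · fin_cases i; rfl

theorem quad_E3 {F : Type*} [Field F] (x : Unit ⊕ (Fin 1 ⊕ Fin 1) → F) :
    Cfsg.quadFormOdd 1 F x = -(E3 x).det := by
  simp [E3, Cfsg.quadFormOdd, Matrix.det_fin_two_of]
  ring

/-- The adjoint action. -/
def adLin {F : Type*} [Field F] (A : Matrix.SpecialLinearGroup (Fin 2) F) :
    (Unit ⊕ (Fin 1 ⊕ Fin 1) → F) →ₗ[F] (Unit ⊕ (Fin 1 ⊕ Fin 1) → F) where
  toFun x := P3 (A.1 * E3 x * (A⁻¹).1)
  map_add' x y := by
    have h : E3 (x + y) = E3 x + E3 y := by ext i j; fin_cases i <;> fin_cases j <;> simp [E3] <;> ring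
    rw [h, mul_add, add_mul]
    funext s; rcases s with ⟨⟩ | i | i <;> simp [P3]
  map_smul' c x := by
    have h : E3 (c • x) = c • E3 x := by ext i j; fin_cases i <;> fin_cases j <;> simp [E3]
    rw [h, Matrix.mul_smul, Matrix.smul_mul]
    funext s; rcases s with ⟨⟩ | i | i <;> simp [P3]

theorem E3_adLin {F : Type*} [Field F] (A : Matrix.SpecialLinearGroup (Fin 2) F) (x : Unit ⊕ (Fin 1 ⊕ Fin 1) → F) :
    E3 (adLin A x) = A.1 * E3 x * (A⁻¹).1 := by
  refine E3_P3 _ ?_
  rw [Matrix.trace_mul_comm, ← mul_assoc, ← Matrix.SpecialLinearGroup.coe_mul, inv_mul_cancel,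
    Matrix.SpecialLinearGroup.coe_one, one_mul, Matrix.trace_fin_two]
  simp [E3]

/-- The adjoint representation. -/
noncomputable def adHom (F : Type*) [Field F] : Matrix.SpecialLinearGroup (Fin 2) F →* GL (Unit ⊕ (Fin 1 ⊕ Fin 1)) F :=
  MonoidHom.toHomUnits
    { toFun := fun A => LinearMap.toMatrix' (adLin A)
      map_one' := by
        rw [← LinearMap.toMatrix'_id]
        congr 1
        refine LinearMap.ext fun x => ?_
        change P3 ((1 : Matrix.SpecialLinearGroup (Fin 2) F).1 * E3 x * ((1 : Matrix.SpecialLinearGroup (Fin 2) F)⁻¹).1) = x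
        simp [P3_E3]
      map_mul' := fun A B => by
        rw [← LinearMap.toMatrix'_comp]
        congr 1
        refine LinearMap.ext fun x => ?_
        change P3 ((A * B).1 * E3 x * ((A * B)⁻¹).1) = P3 (A.1 * E3 (adLin B x) * (A⁻¹).1)
        rw [E3_adLin, mul_inv_rev, Matrix.SpecialLinearGroup.coe_mul, Matrix.SpecialLinearGroup.coe_mul]
        simp only [mul_assoc] }

theorem adHom_apply {F : Type*} [Field F] (A : Matrix.SpecialLinearGroup (Fin 2) F) (x : Unit ⊕ (Fin 1 ⊕ Fin 1) → F) :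
    (adHom F A).1 *ᵥ x = adLin A x := by
  change LinearMap.toMatrix' (adLin A) *ᵥ x = _
  rw [LinearMap.toMatrix'_mulVec]

theorem adHom_mem {F : Type*} [Field F] (A : Matrix.SpecialLinearGroup (Fin 2) F) :
    adHom F A ∈ Cfsg.isometryGroup F (Cfsg.quadFormOdd 1 F) := by
  intro u v
  change Cfsg.quadFormOdd 1 F ((adHom F A).1 *ᵥ u) = Cfsg.quadFormOdd 1 F u
  rw [adHom_apply, quad_E3, quad_E3, E3_adLin, Matrix.det_mul, Matrix.det_mul, A.2, (A⁻¹).2, one_mul, mul_one]

theorem adHom_ker {F : Type*} [Field F] (A : Matrix.SpecialLinearGroup (Fin 2) F) :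
    adHom F A = 1 ↔ A ∈ Subgroup.center (Matrix.SpecialLinearGroup (Fin 2) F) := by
  constructor
  · intro h
    have hc : ∀ x, A.1 * E3 x = E3 x * A.1 := by
      intro x
      have h1 : E3 (adLin A x) = E3 x := by rw [← adHom_apply, h, Units.val_one, Matrix.one_mulVec]
      rw [E3_adLin] at h1
      calc A.1 * E3 x = A.1 * E3 x * ((A⁻¹).1 * A.1) := by
            rw [← Matrix.SpecialLinearGroup.coe_mul, inv_mul_cancel, Matrix.SpecialLinearGroup.coe_one, mul_one]
        _ = E3 x * A.1 := by rw [← mul_assoc, h1]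
    rw [Subgroup.mem_center_iff]
    intro B
    refine CfsgLib.Linear.Generation.transvection_induction (fun B => B * A = A * B) ?_ ?_ B
    · intro i j hij c
      obtain ⟨x, hx⟩ : ∃ x, Matrix.single i j c = E3 x := by
        refine ⟨P3 (Matrix.single i j c), (E3_P3 _ ?_).symm⟩
        rw [Matrix.trace_fin_two]
        fin_cases i <;> fin_cases j <;> simp at hij ⊢
      refine Subtype.ext ?_
      have : (Matrix.SpecialLinearGroup.transvection hij c).1 = 1 + E3 x := by
        rw [← hx]; rfl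
      rw [Matrix.SpecialLinearGroup.coe_mul, Matrix.SpecialLinearGroup.coe_mul, this, add_mul, mul_add, one_mul,
        mul_one, hc]
    · intro B C hB hC
      change B * C * A = A * (B * C)
      rw [mul_assoc, hC, ← mul_assoc, hB, mul_assoc]
  · intro h
    obtain ⟨r, hr, hA⟩ := Matrix.SpecialLinearGroup.mem_center_iff.1 h
    refine Units.ext (Matrix.toLin'.injective (LinearMap.ext fun x => ?_))
    rw [Matrix.toLin'_apply, adHom_apply, Units.val_one, Matrix.toLin'_apply, Matrix.one_mulVec]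
    change P3 (A.1 * E3 x * (A⁻¹).1) = x
    have hcm : A.1 * E3 x = E3 x * A.1 := by rw [← hA, Matrix.scalar_apply, ← Matrix.smul_one_eq_diagonal, Matrix.smul_mul, Matrix.mul_smul, one_mul, mul_one]
    rw [hcm, mul_assoc, ← Matrix.SpecialLinearGroup.coe_mul, mul_inv_cancel, Matrix.SpecialLinearGroup.coe_one,
      mul_one, P3_E3]

/-- PΩ_3(q) is isomorphic to PSL_2(q) for q odd. -/
theorem result {F : Type*} [Field F] [Fintype F] (hodd : Odd (Fintype.card F)) : Nonempty (Cfsg.POmega F (Cfsg.quadFormOdd 1 F) ≃* Matrix.ProjectiveSpecialLinearGroup (Fin 2) F) := by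
  classical
  have h2 : (2 : F) ≠ 0 := fun h => by
    haveI : CharP F 2 := CharTwo.of_one_ne_zero_of_two_eq_zero one_ne_zero h
    exact Nat.not_even_iff_odd.2 hodd (by
      rw [Nat.even_iff]; exact FiniteField.even_card_of_char_two (ringChar.eq F 2))
  have hO := Cfsg.Agent.S0286.result (F := F) rfl hodd 1
  have hφ := adHom_mem (F := F)
  rw [show Cfsg.quadFormOdd 1 F = ⇑(CfsgLib.Orth.Models.oddQ F 1) from
    funext fun v => (CfsgLib.Orth.Models.oddQ_apply 1 v).symm] at hO hφ ⊢
  have hQ := CfsgLib.Geometry.Spinor.nondeg_polarBilin (CfsgLib.Orth.Models.nondeg_odd (F := F) h2 1)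
  haveI : Nontrivial (Unit ⊕ (Fin 1 ⊕ Fin 1)) := ⟨⟨Sum.inl (), Sum.inr (Sum.inl 0), by simp⟩⟩
  have hidx := CfsgLib.Geometry.Spinor.index_omega h2 hQ
  let φ := (adHom F).codRestrict _ hφ
  haveI : NeZero (2 : F) := ⟨h2⟩
  have hhom : ∀ χ : Matrix.SpecialLinearGroup (Fin 2) F →* ℤˣ, ∀ A, χ A = 1 := fun χ A => by
    refine CfsgLib.Linear.Generation.transvection_induction (fun A => χ A = 1) ?_ ?_ A
    · intro i j hij c
      have : Matrix.SpecialLinearGroup.transvection hij c
          = Matrix.SpecialLinearGroup.transvection hij (c / 2) * Matrix.SpecialLinearGroup.transvection hij (c / 2) := by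
        rw [← Matrix.SpecialLinearGroup.transvection_add, add_halves]
      rw [this, map_mul]
      exact Int.units_mul_self _
    · intro A B hA hB; rw [map_mul, hA, hB, one_mul]
  have hφΩ : ∀ A, φ A ∈ Cfsg.Omega F ⇑(CfsgLib.Orth.Models.oddQ F 1) := by
    intro A
    rw [← CfsgLib.Geometry.Spinor.ker_eq_omega h2 hQ, MonoidHom.mem_ker, MonoidHom.prod_apply]
    exact Prod.ext (hhom ((CfsgLib.Geometry.Spinor.detSign h2 hQ).comp φ) A)
      (hhom ((CfsgLib.Geometry.Spinor.theta _ h2 hQ).comp φ) A)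
  let ψ := φ.codRestrict _ hφΩ
  have hker : ψ.ker = Subgroup.center (Matrix.SpecialLinearGroup (Fin 2) F) := by
    ext A
    rw [MonoidHom.mem_ker, ← adHom_ker A]
    exact ⟨fun h => congrArg (fun z : Cfsg.Omega F ⇑(CfsgLib.Orth.Models.oddQ F 1) => z.1.1) h,
      fun h => Subtype.ext (Subtype.ext h)⟩
  let e₁ : Matrix.ProjectiveSpecialLinearGroup (Fin 2) F ≃* ψ.range :=
    (QuotientGroup.quotientMulEquivOfEq hker.symm).trans (QuotientGroup.quotientKerEquivRange ψ)
  have hP := Cfsg.Agent.S0243.result (F := F) rfl 2 le_rfl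
  have hcardP : Nat.card (Matrix.ProjectiveSpecialLinearGroup (Fin 2) F) * 2
      = Fintype.card F * (Fintype.card F ^ 2 - 1) := by
    obtain ⟨j, hj⟩ := hodd
    have hj1 : 1 ≤ j := by have := Fintype.one_lt_card (α := F); omega
    rw [hj] at hP ⊢
    rw [Fin.prod_univ_two] at hP
    simp only [Fin.val_zero, Fin.val_one, pow_zero, pow_one] at hP
    rw [show Nat.gcd 2 (2 * j + 1 - 1) = 2 by rw [Nat.add_sub_cancel, Nat.gcd_mul_right_right]] at hP
    rw [show 2 * j + 1 - 1 = 2 * j by omega] at hP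
    obtain ⟨a, ha⟩ : ∃ a, (2 * j + 1) ^ 2 = a + (2 * j + 1) := ⟨(2 * j + 1) ^ 2 - (2 * j + 1), by
      rw [Nat.sub_add_cancel (Nat.le_self_pow two_ne_zero _)]⟩
    have e : (2 * j + 1) ^ 2 = 4 * j * j + 4 * j + 1 := by ring
    rw [ha, Nat.add_sub_cancel, show a = (2 * j + 1) * (2 * j) by nlinarith] at hP
    rw [e] at ⊢
    rw [show (2 * j + 1) * (2 * j) + (2 * j + 1) - 1 = 4 * j * j + 4 * j by
      rw [Nat.sub_eq_iff_eq_add (by omega)]; ring] at hP
    rw [Nat.add_sub_cancel]
    have : (2 * j) * (Nat.card (Matrix.ProjectiveSpecialLinearGroup (Fin 2) F) * 2)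
        = (2 * j) * ((2 * j + 1) * (4 * j * j + 4 * j)) := by linarith
    exact Nat.eq_of_mul_eq_mul_left (by omega) this
  have hcardΩ : Nat.card (Cfsg.Omega F ⇑(CfsgLib.Orth.Models.oddQ F 1)) * 2
      = Fintype.card F * (Fintype.card F ^ 2 - 1) := by
    have h := Subgroup.card_mul_index (Cfsg.Omega F ⇑(CfsgLib.Orth.Models.oddQ F 1))
    rw [hidx, hO] at h
    simp only [Finset.prod_range_one, one_pow, pow_one, zero_add, mul_one] at h
    linarith
  have htop : ψ.range = ⊤ := by
    refine Subgroup.eq_top_of_card_eq _ ?_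
    rw [← Nat.card_congr e₁.toEquiv]
    omega
  let e := (e₁.trans (MulEquiv.subgroupCongr htop)).trans Subgroup.topEquiv
  have hc : Subgroup.center (Cfsg.Omega F ⇑(CfsgLib.Orth.Models.oddQ F 1)) = ⊥ := by
    rw [Subgroup.eq_bot_iff_forall]
    intro z hz
    obtain ⟨A, rfl⟩ : z ∈ ψ.range := by rw [htop]; trivial
    have hcen : A ∈ Subgroup.center (Matrix.SpecialLinearGroup (Fin 2) F) := by
      rw [Subgroup.mem_center_iff]
      intro B
      refine CfsgLib.Linear.Generation.transvection_induction (fun B => B * A = A * B) ?_ ?_ B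
      · intro i j hij c
        have hk : (A * Matrix.SpecialLinearGroup.transvection hij c)⁻¹ *
            (Matrix.SpecialLinearGroup.transvection hij c * A) ∈ ψ.ker := by
          rw [MonoidHom.mem_ker, map_mul, map_inv, inv_mul_eq_one, map_mul, map_mul]
          exact (Subgroup.mem_center_iff.1 hz _).symm
        rw [hker] at hk
        obtain ⟨r, hr, hR⟩ := Matrix.SpecialLinearGroup.mem_center_iff.1 hk
        set T := Matrix.SpecialLinearGroup.transvection hij c with hT
        have hTA : T.1 * A.1 = r • (A.1 * T.1) := by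
          have h1 : (A * T).1 * ((A * T)⁻¹ * (T * A)).1 = (T * A).1 := by
            rw [← Matrix.SpecialLinearGroup.coe_mul, mul_inv_cancel_left]
          rw [← hR, Matrix.SpecialLinearGroup.coe_mul, Matrix.SpecialLinearGroup.coe_mul] at h1
          rw [← h1]
          simp [Matrix.scalar_apply, ← Matrix.smul_one_eq_diagonal]
        have e1 : A.1 * (A⁻¹).1 = 1 := by
          rw [← Matrix.SpecialLinearGroup.coe_mul, mul_inv_cancel, Matrix.SpecialLinearGroup.coe_one]
        have e2 : (A⁻¹).1 * A.1 = 1 := by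
          rw [← Matrix.SpecialLinearGroup.coe_mul, inv_mul_cancel, Matrix.SpecialLinearGroup.coe_one]
        have htr : T.1.trace = r * T.1.trace := by
          calc T.1.trace = (T.1 * A.1 * (A⁻¹).1).trace := by rw [mul_assoc, e1, mul_one]
            _ = (r • (A.1 * T.1) * (A⁻¹).1).trace := by rw [hTA]
            _ = r * T.1.trace := by
              rw [Matrix.smul_mul, Matrix.trace_smul, Matrix.trace_mul_comm, ← mul_assoc, e2, one_mul, smul_eq_mul]
        have htT : T.1.trace = 2 := by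
          rw [hT]
          change (1 + Matrix.single i j c).trace = 2
          rw [Matrix.trace_fin_two]
          fin_cases i <;> fin_cases j <;> simp at hij ⊢ <;> norm_num
        rw [htT] at htr
        have hr1 : r = 1 := by
          have : (1 - r) * 2 = 0 := by linear_combination htr
          exact (sub_eq_zero.1 ((mul_eq_zero.1 this).resolve_right h2)).symm
        refine Subtype.ext ?_
        rw [Matrix.SpecialLinearGroup.coe_mul, Matrix.SpecialLinearGroup.coe_mul, hTA, hr1, one_smul]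
      · intro B C hB hC
        change B * C * A = A * (B * C)
        rw [mul_assoc, hC, ← mul_assoc, hB, mul_assoc]
    rw [← hker] at hcen
    exact hcen
  exact ⟨((QuotientGroup.quotientMulEquivOfEq hc).trans QuotientGroup.quotientBot).trans e.symm⟩

end Cfsg.Agent.S0298
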