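import Cfsg.Statements.S0301
import Cfsg.Agent.Lib.Orth.Klein
import Cfsg.Agent.Lib.Orth.PerfectImage
import Cfsg.Agent.Lib.Symplectic.Simple
import Cfsg.Agent.Lib.Symplectic.Centre
import Cfsg.Agent.Lib.Symplectic.Order
import Cfsg.Agent.Lib.Geometry.SpinorNegOne
import Cfsg.Agent.S0286

set_option autoImplicit false
open Cfsg

namespace Cfsg.Agent.S0301

open scoped Matrix

/-- Indices of four-space. -/
def e4 : Fin 4 ≃ Fin 2 ⊕ Fin 2 := (finSumFinEquiv (m := 2) (n := 2)).symm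

theorem e4_0 : e4 0 = Sum.inl 0 := rfl
theorem e4_1 : e4 1 = Sum.inl 1 := rfl
theorem e4_2 : e4 2 = Sum.inr 0 := rfl
theorem e4_3 : e4 3 = Sum.inr 1 := rfl

/-- Symplectic matrices as 4 by 4 matrices. -/
def r4 {F : Type*} [Field F] (A : Matrix (Fin 2 ⊕ Fin 2) (Fin 2 ⊕ Fin 2) F) : Matrix (Fin 4) (Fin 4) F :=
  A.submatrix e4 e4

/-- The embedding of the five-space. -/
def embF (F : Type*) [Field F] : Matrix (Fin 3 ⊕ Fin 3) (Unit ⊕ (Fin 2 ⊕ Fin 2)) F :=
  Matrix.of fun s t => match s, t with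
    | Sum.inl a, Sum.inl _ => if a = 1 then 1 else 0
    | Sum.inr a, Sum.inl _ => if a = 1 then 1 else 0
    | Sum.inl a, Sum.inr (Sum.inl i) => if (a : ℕ) = 2 * (i : ℕ) then 1 else 0
    | Sum.inr a, Sum.inr (Sum.inr i) => if (a : ℕ) = 2 * (i : ℕ) then 1 else 0
    | _, _ => 0

/-- The projection to the five-space. -/
def projF (F : Type*) [Field F] : Matrix (Unit ⊕ (Fin 2 ⊕ Fin 2)) (Fin 3 ⊕ Fin 3) F :=
  Matrix.of fun t s => match t, s with
    | Sum.inl _, Sum.inl a => if a = 1 then 1 else 0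
    | Sum.inr (Sum.inl i), Sum.inl a => if (a : ℕ) = 2 * (i : ℕ) then 1 else 0
    | Sum.inr (Sum.inr i), Sum.inr a => if (a : ℕ) = 2 * (i : ℕ) then 1 else 0
    | _, _ => 0

/-- The fixed bivector. -/
def wF (F : Type*) [Field F] : Fin 3 ⊕ Fin 3 → F := Sum.elim ![0, 1, 0] ![0, -1, 0]

theorem projF_embF {F : Type*} [Field F] : projF F * embF F = 1 := by
  ext s t
  rcases s with ⟨⟩ | s | s <;> rcases t with ⟨⟩ | t | t <;> (try fin_cases s) <;> (try fin_cases t) <;>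
    simp [projF, embF, Matrix.mul_apply, Fintype.sum_sum_type, Fin.sum_univ_three]

theorem embF_projF {F : Type*} [Field F] (y : Fin 3 ⊕ Fin 3 → F) (h : y (Sum.inr 1) = y (Sum.inl 1)) :
    embF F *ᵥ (projF F *ᵥ y) = y := by
  funext s
  rcases s with s | s <;> fin_cases s <;>
    simp [projF, embF, Matrix.mulVec, dotProduct, Fintype.sum_sum_type, Fin.sum_univ_three, Fin.sum_univ_two, h]

theorem quad_embF {F : Type*} [Field F] (x : Unit ⊕ (Fin 2 ⊕ Fin 2) → F) :
    Cfsg.quadFormPlus 3 F (embF F *ᵥ x) = Cfsg.quadFormOdd 2 F x := by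
  simp [embF, Cfsg.quadFormPlus, Cfsg.quadFormOdd, Matrix.mulVec, dotProduct, Fintype.sum_sum_type,
    Fin.sum_univ_three, Fin.sum_univ_two]
  ring

theorem wedge_wF {F : Type*} [Field F] {A : Matrix (Fin 2 ⊕ Fin 2) (Fin 2 ⊕ Fin 2) F}
    (hA : A ∈ Matrix.symplecticGroup (Fin 2) F) : CfsgLib.Orth.Klein.wedge (r4 A) *ᵥ wF F = wF F := by
  rw [SymplecticGroup.mem_iff] at hA
  funext s
  have h : ∀ p p' : Fin 2 ⊕ Fin 2, (A * Matrix.J (Fin 2) F * Aᵀ) p p' = Matrix.J (Fin 2) F p p' := fun p p' => by rw [hA]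
  rcases s with s | s <;> fin_cases s
  all_goals simp [wF, r4, CfsgLib.Orth.Klein.wedge, CfsgLib.Orth.Klein.pr, Matrix.mulVec, dotProduct,
    Fintype.sum_sum_type, Fin.sum_univ_three, e4_0, e4_1, e4_2, e4_3]
  · have := h (Sum.inl 0) (Sum.inl 1)
    simp [Matrix.J, Matrix.mul_apply, Fintype.sum_sum_type, Fin.sum_univ_two, Matrix.one_apply] at this
    linear_combination -this
  · have := h (Sum.inl 0) (Sum.inr 0)
    simp [Matrix.J, Matrix.mul_apply, Fintype.sum_sum_type, Fin.sum_univ_two, Matrix.one_apply] at this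
    linear_combination -this
  · have := h (Sum.inl 0) (Sum.inr 1)
    simp [Matrix.J, Matrix.mul_apply, Fintype.sum_sum_type, Fin.sum_univ_two, Matrix.one_apply] at this
    linear_combination -this
  · have := h (Sum.inr 0) (Sum.inr 1)
    simp [Matrix.J, Matrix.mul_apply, Fintype.sum_sum_type, Fin.sum_univ_two, Matrix.one_apply] at this
    linear_combination -this
  · have := h (Sum.inr 1) (Sum.inl 1)
    simp [Matrix.J, Matrix.mul_apply, Fintype.sum_sum_type, Fin.sum_univ_two, Matrix.one_apply] at this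
    linear_combination -this
  · have := h (Sum.inl 1) (Sum.inr 0)
    simp [Matrix.J, Matrix.mul_apply, Fintype.sum_sum_type, Fin.sum_univ_two, Matrix.one_apply] at this
    linear_combination -this

theorem r4_mul {F : Type*} [Field F] (A B : Matrix (Fin 2 ⊕ Fin 2) (Fin 2 ⊕ Fin 2) F) : r4 (A * B) = r4 A * r4 B :=
  (Matrix.submatrix_mul_equiv A B _ e4 _).symm

theorem r4_det {F : Type*} [Field F] {A : Matrix (Fin 2 ⊕ Fin 2) (Fin 2 ⊕ Fin 2) F}
    (hA : A ∈ Matrix.symplecticGroup (Fin 2) F) : (r4 A).det = 1 := by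
  have h := CfsgLib.Orth.Klein.wedge_quad (r4 A) (wF F)
  rw [wedge_wF hA] at h
  simp [wF, Cfsg.quadFormPlus, Fin.sum_univ_three] at h
  linear_combination -h

theorem preserves {F : Type*} [Field F] {A : Matrix (Fin 2 ⊕ Fin 2) (Fin 2 ⊕ Fin 2) F}
    (hA : A ∈ Matrix.symplecticGroup (Fin 2) F) (x : Unit ⊕ (Fin 2 ⊕ Fin 2) → F) :
    embF F *ᵥ (projF F *ᵥ (CfsgLib.Orth.Klein.wedge (r4 A) *ᵥ (embF F *ᵥ x)))
      = CfsgLib.Orth.Klein.wedge (r4 A) *ᵥ (embF F *ᵥ x) := by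
  refine embF_projF _ ?_
  have hq := fun y => (CfsgLib.Orth.Klein.wedge_quad (r4 A) y).trans (by rw [r4_det hA, one_mul])
  set W := CfsgLib.Orth.Klein.wedge (r4 A)
  have hpol : ∀ y, Cfsg.quadFormPlus 3 F (y + wF F) - Cfsg.quadFormPlus 3 F y - Cfsg.quadFormPlus 3 F (wF F)
      = y (Sum.inr 1) - y (Sum.inl 1) := fun y => by
    simp [wF, Cfsg.quadFormPlus, Fin.sum_univ_three]; ring
  have h1 := hpol (W *ᵥ (embF F *ᵥ x))
  have h2 := hpol (embF F *ᵥ x)
  have h3 : W *ᵥ (embF F *ᵥ x) + wF F = W *ᵥ (embF F *ᵥ x + wF F) := by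
    rw [Matrix.mulVec_add, wedge_wF hA]
  rw [h3, hq, hq, h2] at h1
  have h4 : (embF F *ᵥ x) (Sum.inr 1) - (embF F *ᵥ x) (Sum.inl 1) = 0 := by
    simp [embF, Matrix.mulVec, dotProduct, Fintype.sum_sum_type, Fin.sum_univ_two]
  linear_combination h4 - h1

/-- PΩ_5(q) is isomorphic to PSp_4(q) for q odd. -/
theorem result {F : Type*} [Field F] [Fintype F] (hodd : Odd (Fintype.card F)) : Nonempty (Cfsg.POmega F (Cfsg.quadFormOdd 2 F) ≃* Cfsg.PSp 2 F) := by
  classical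
  set q := Fintype.card F with hq
  have hq3 : 3 ≤ q := by
    have := Fintype.one_lt_card (α := F); rcases hodd with ⟨j, hj⟩; omega
  have h2 : (2 : F) ≠ 0 := fun h => by
    haveI : CharP F 2 := CharTwo.of_one_ne_zero_of_two_eq_zero one_ne_zero h
    exact Nat.not_even_iff_odd.2 hodd (by
      rw [Nat.even_iff]; exact FiniteField.even_card_of_char_two (ringChar.eq F 2))
  let ρ : Matrix.symplecticGroup (Fin 2) F →* Matrix (Unit ⊕ (Fin 2 ⊕ Fin 2)) (Unit ⊕ (Fin 2 ⊕ Fin 2)) F :=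
    { toFun := fun A => projF F * CfsgLib.Orth.Klein.wedge (r4 A.1) * embF F
      map_one' := by
        have : r4 ((1 : Matrix.symplecticGroup (Fin 2) F).1) = (1 : Matrix (Fin 4) (Fin 4) F) :=
          Matrix.submatrix_one_equiv e4
        rw [this, CfsgLib.Orth.Klein.wedge_one, Matrix.mul_one (projF F), projF_embF]
      map_mul' := fun A B => by
        refine Matrix.toLin'.injective (LinearMap.ext fun x => ?_)
        simp only [Matrix.toLin'_apply, ← Matrix.mulVec_mulVec]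
        rw [preserves B.2, Matrix.mulVec_mulVec _ (CfsgLib.Orth.Klein.wedge (r4 A.1)) (CfsgLib.Orth.Klein.wedge (r4 B.1)),
          ← CfsgLib.Orth.Klein.wedge_mul, ← r4_mul]
        rfl }
  let f : Matrix.symplecticGroup (Fin 2) F →* Cfsg.isometryGroup F (Cfsg.quadFormOdd 2 F) :=
    ρ.toHomUnits.codRestrict _ (fun A x _ => by
      change Cfsg.quadFormOdd 2 F ((projF F * CfsgLib.Orth.Klein.wedge (r4 A.1) * embF F) *ᵥ x) = Cfsg.quadFormOdd 2 F x
      rw [← quad_embF, ← quad_embF, ← Matrix.mulVec_mulVec, ← Matrix.mulVec_mulVec, preserves A.2,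
        CfsgLib.Orth.Klein.wedge_quad, r4_det A.2, one_mul])
  have hperf := CfsgLib.Symplectic.Simple.commutator_eq_top (F := F) (m := 2) (Or.inr (Or.inl ⟨rfl, hq3⟩))
  haveI hs : IsSimpleGroup (Matrix.symplecticGroup (Fin 2) F ⧸ Subgroup.center (Matrix.symplecticGroup (Fin 2) F)) :=
    CfsgLib.Symplectic.Simple.isSimpleGroup_PSp le_rfl (fun _ => hq3)
  have hne : f ≠ 1 := by
    intro h
    let d : Fin 2 ⊕ Fin 2 → F := Sum.elim ![-1, 1] ![-1, 1]
    have hd : Matrix.diagonal d ∈ Matrix.symplecticGroup (Fin 2) F := by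
      rw [CfsgLib.Symplectic.Basic.mem_iff]
      intro u v
      simp [CfsgLib.Symplectic.Basic.B_expand, Matrix.mulVec_diagonal, d, Fin.sum_univ_two]
    have h1 : ρ ⟨_, hd⟩ = 1 := by
      have : f ⟨_, hd⟩ = 1 := by rw [h]; rfl
      exact congrArg (fun z : Cfsg.isometryGroup F (Cfsg.quadFormOdd 2 F) => z.1.1) this
    have h3 := congrFun (congrFun h1 (Sum.inr (Sum.inl 0))) (Sum.inr (Sum.inl 0))
    simp [ρ, projF, embF, Matrix.mul_apply, Fintype.sum_sum_type, Fin.sum_univ_three,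
      CfsgLib.Orth.Klein.wedge, CfsgLib.Orth.Klein.pr, r4, e4_0, e4_1, d] at h3
    exact h2 (by linear_combination -h3)
  have hker := CfsgLib.Orth.PerfectImage.ker_le_center f hperf hne
  have hkc : Nat.card f.ker ≤ 2 := by
    refine (Subgroup.card_le_of_le hker).trans ?_
    rw [CfsgLib.Symplectic.Centre.card_center (by norm_num)]
    exact card_rootsOfUnity F 2
  have hO := Cfsg.Agent.S0286.result (F := F) (q := q) rfl hodd 2
  have hc : Nat.card (Cfsg.isometryGroup F (Cfsg.quadFormOdd 2 F)) = 2 * Nat.card (Matrix.symplecticGroup (Fin 2) F) := by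
    rw [hO, CfsgLib.Symplectic.Order.card_Sp, ← hq, mul_assoc]
  have hΩ : (Cfsg.Omega F (Cfsg.quadFormOdd 2 F)).index = 4 := by
    rw [show Cfsg.quadFormOdd 2 F = ⇑(CfsgLib.Orth.Models.oddQ F 2) from
      funext fun v => (CfsgLib.Orth.Models.oddQ_apply 2 v).symm]
    haveI : Nontrivial (Unit ⊕ (Fin 2 ⊕ Fin 2)) := ⟨⟨Sum.inl (), Sum.inr (Sum.inl 0), by simp⟩⟩
    exact CfsgLib.Geometry.Spinor.index_omega h2
      (CfsgLib.Geometry.Spinor.nondeg_polarBilin (CfsgLib.Orth.Models.nondeg_odd h2 2))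
  have hidx := CfsgLib.Orth.PerfectImage.index_eq f rfl hc
  have heq : f.range = Cfsg.Omega F (Cfsg.quadFormOdd 2 F) :=
    CfsgLib.Orth.Klein.eq_commutator (CfsgLib.Orth.PerfectImage.range_le_commutator f hperf)
      (Or.inr ⟨by rw [hidx]; omega, hΩ⟩)
  exact CfsgLib.Orth.Klein.quot_center_equiv f _ heq hker
    (CfsgLib.Orth.Klein.center_eq_bot_of_simple (CfsgLib.Orth.PerfectImage.commutator_quotient_eq_top hperf _))

end Cfsg.Agent.S0301
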