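import Cfsg.Statements.S0302
import Cfsg.Agent.Lib.Orth.Klein
import Cfsg.Agent.Lib.Linear.Generation
import Cfsg.Agent.Lib.Linear.Card
import Cfsg.Agent.Lib.Geometry.SpinorNegOne
import Cfsg.Agent.S0287

set_option autoImplicit false
open Cfsg

namespace Cfsg.Agent.S0302

open scoped Matrix

/-- PΩ^+_6(q) is isomorphic to PSL_4(q). -/
theorem result {F : Type*} [Field F] [Fintype F] : Nonempty (Cfsg.POmega F (Cfsg.quadFormPlus 3 F) ≃* Matrix.ProjectiveSpecialLinearGroup (Fin 4) F) := by
  classical
  set f := CfsgLib.Orth.Klein.kleinHom F with hf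
  set q := Fintype.card F with hq
  have hq2 : 2 ≤ q := Fintype.one_lt_card
  have hperf := CfsgLib.Linear.Generation.commutator_SL_eq_top (F := F) (ι := Fin 4) (Or.inl (by simp))
  haveI : IsSimpleGroup (Matrix.ProjectiveSpecialLinearGroup (Fin 4) F) :=
    CfsgLib.Linear.Generation.isSimpleGroup_PSL (Or.inl (by simp))
  have hZ : Subgroup.center (Matrix.ProjectiveSpecialLinearGroup (Fin 4) F) = ⊥ :=
    CfsgLib.Orth.Klein.center_eq_bot_of_simple
      (CfsgLib.Linear.Generation.commutator_PSL_eq_top (Or.inl (by simp)))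
  have hker : f.ker ≤ Subgroup.center (Matrix.SpecialLinearGroup (Fin 4) F) := by
    let π := QuotientGroup.mk' (Subgroup.center (Matrix.SpecialLinearGroup (Fin 4) F))
    rcases IsSimpleGroup.eq_bot_or_eq_top_of_normal (f.ker.map π)
      (Subgroup.Normal.map inferInstance π (QuotientGroup.mk'_surjective _)) with h | h
    · rw [Subgroup.map_eq_bot_iff, QuotientGroup.ker_mk'] at h; exact h
    · exfalso
      have hone : f = 1 := by
        refine MonoidHom.ext fun g => ?_
        have hcomm : ∀ x y, f x * f y = f y * f x := fun x y => by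
          have hx : π x ∈ f.ker.map π := by rw [h]; trivial
          obtain ⟨k, hk, hkx⟩ := hx
          have hz : k⁻¹ * x ∈ Subgroup.center (Matrix.SpecialLinearGroup (Fin 4) F) := QuotientGroup.eq.1 hkx
          have e : f x = f (k⁻¹ * x) := by rw [map_mul, map_inv, MonoidHom.mem_ker.1 hk, inv_one, one_mul]
          rw [e, ← map_mul, ← map_mul, Subgroup.mem_center_iff.1 hz y]
        have hg : g ∈ commutator (Matrix.SpecialLinearGroup (Fin 4) F) := by rw [hperf]; trivial
        have hle : commutator (Matrix.SpecialLinearGroup (Fin 4) F) ≤ f.ker := by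
          rw [commutator_def, Subgroup.commutator_le]
          intro x _ y _
          rw [MonoidHom.mem_ker, map_commutatorElement, commutatorElement_eq_one_iff_mul_comm]
          exact hcomm x y
        exact hle hg
      set T : Matrix.SpecialLinearGroup (Fin 4) F :=
        Matrix.SpecialLinearGroup.transvection (show (0 : Fin 4) ≠ 2 by decide) 1
      have h2 : (f T).1.1 = 1 := by rw [hone]; rfl
      have h4 := congrFun (congrFun h2 (Sum.inl 0)) (Sum.inr 2)
      rw [hf, CfsgLib.Orth.Klein.kleinHom_val] at h4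
      have hTv : T.1 = 1 + Matrix.single 0 2 1 := rfl
      simp [CfsgLib.Orth.Klein.wedge, CfsgLib.Orth.Klein.pr, hTv, Matrix.one_apply, Matrix.single_apply] at h4
  have hrange : f.range ≤ Cfsg.Omega F (Cfsg.quadFormPlus 3 F) := by
    rintro _ ⟨g, rfl⟩
    have hg : g ∈ commutator (Matrix.SpecialLinearGroup (Fin 4) F) := by rw [hperf]; trivial
    have h' := Subgroup.mem_map_of_mem f hg
    rw [commutator_def, Subgroup.map_commutator] at h'
    exact Subgroup.commutator_mono le_top le_top h'
  have hkcard : Nat.card f.ker ≤ 2 ∧ (Even q → Nat.card f.ker ≤ 1) := by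
    have hr : ∀ g : f.ker, ∃ r : F, g.1.1 = r • (1 : Matrix (Fin 4) (Fin 4) F) ∧ r ^ 2 = 1 := by
      intro g
      obtain ⟨r, -, hr⟩ := Matrix.SpecialLinearGroup.mem_center_iff.1 (hker g.2)
      rw [Matrix.scalar_apply, ← Matrix.smul_one_eq_diagonal] at hr
      refine ⟨r, hr.symm, ?_⟩
      have h := congrArg (fun A : Cfsg.isometryGroup F (Cfsg.quadFormPlus 3 F) => A.1.1) (MonoidHom.mem_ker.1 g.2)
      simp only [hf, CfsgLib.Orth.Klein.kleinHom_val, ← hr, CfsgLib.Orth.Klein.wedge_scalar] at h
      simpa using congrFun (congrFun h (Sum.inl 0)) (Sum.inl 0)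
    choose r hr1 hr2 using hr
    let i : f.ker → {x : F // x ∈ ({1, -1} : Finset F)} := fun g => ⟨r g, by
      rcases sq_eq_one_iff.1 (hr2 g) with h | h <;> simp [h]⟩
    have hi : Function.Injective i := fun a b h => Subtype.ext (Subtype.ext (by
      rw [hr1 a, hr1 b, show r a = r b from congrArg Subtype.val h]))
    have hle := Nat.card_le_card_of_injective i hi
    rw [Nat.card_eq_finsetCard] at hle
    refine ⟨hle.trans Finset.card_le_two, fun he => hle.trans (le_of_eq ?_)⟩
    haveI : CharP F 2 := ringChar.of_eq (FiniteField.even_card_iff_char_two.2 (Nat.even_iff.1 he))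
    simp [CharTwo.neg_eq]
  have hO := Cfsg.Agent.S0287.result (F := F) (q := q) rfl 3 (by norm_num)
  have hSL : Nat.card (Matrix.SpecialLinearGroup (Fin 4) F) = q ^ 6 * (q ^ 3 - 1) * ((q ^ 2 - 1) * (q ^ 4 - 1)) := by
    have h1 := CfsgLib.Linear.Card.card_SL (F := F) 4 (by norm_num)
    rw [Fin.prod_univ_four, ← hq] at h1
    have e : ∀ i : ℕ, i < 4 → q ^ 4 - q ^ i = q ^ i * (q ^ (4 - i) - 1) := fun i hi => by
      rw [Nat.mul_sub, mul_one, ← pow_add, Nat.add_sub_cancel' hi.le]
    simp only [Fin.val_zero, Fin.val_one, Fin.val_two, show ((3 : Fin 4) : ℕ) = 3 from rfl] at h1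
    rw [e 0 (by norm_num), e 1 (by norm_num), e 2 (by norm_num), e 3 (by norm_num)] at h1
    norm_num at h1
    apply Nat.eq_of_mul_eq_mul_left (show 0 < q - 1 by omega)
    rw [Nat.card_eq_fintype_card] at *
    rw [h1]
    ring
  have hidx : f.range.index = 2 * Nat.card f.ker := by
    have h1 := Subgroup.card_mul_index f.range
    have h2 : Nat.card (Matrix.SpecialLinearGroup (Fin 4) F) = Nat.card f.range * Nat.card f.ker := by
      rw [← Nat.card_congr (QuotientGroup.quotientKerEquivRange f).toEquiv]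
      exact Subgroup.card_eq_card_quotient_mul_card_subgroup _
    rw [hO] at h1
    simp only [Finset.prod_range_succ, Finset.prod_range_zero, one_mul, zero_add, mul_one,
      show (2 : ℕ) * (1 + 1) = 4 from rfl, show 3 * (3 - 1) = 6 from rfl] at h1
    have hpos : 0 < Nat.card f.range := Nat.card_pos
    apply Nat.eq_of_mul_eq_mul_left hpos
    rw [← mul_assoc, mul_comm (Nat.card f.range) 2, mul_assoc, ← h2, hSL, h1]
    ring
  have heq : f.range = Cfsg.Omega F (Cfsg.quadFormPlus 3 F) := by
    refine CfsgLib.Orth.Klein.eq_commutator hrange ?_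
    rcases Nat.even_or_odd q with he | ho
    · left; rw [hidx]; have := hkcard.2 he; omega
    · right
      have h2 : (2 : F) ≠ 0 := fun h => by
        haveI : CharP F 2 := CharTwo.of_one_ne_zero_of_two_eq_zero one_ne_zero h
        exact Nat.not_even_iff_odd.2 ho (by
          rw [Nat.even_iff]; exact FiniteField.even_card_of_char_two (ringChar.eq F 2))
      refine ⟨by rw [hidx]; have := hkcard.1; omega, ?_⟩
      rw [show Cfsg.quadFormPlus 3 F = ⇑(CfsgLib.Orth.Models.plusQ F 3) from
        funext fun v => (CfsgLib.Orth.Models.plusQ_apply 3 v).symm]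
      haveI : Nontrivial (Fin 3 ⊕ Fin 3) := ⟨⟨Sum.inl 0, Sum.inr 0, by simp⟩⟩
      exact CfsgLib.Geometry.Spinor.index_omega h2
        (CfsgLib.Geometry.Spinor.nondeg_polarBilin (CfsgLib.Orth.Models.nondeg_plus 3))
  exact CfsgLib.Orth.Klein.quot_center_equiv f _ heq hker hZ

end Cfsg.Agent.S0302
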