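import Cfsg.Statements.S0304
import Cfsg.Agent.Lib.Symplectic.Basic

set_option autoImplicit false
open Cfsg

namespace Cfsg.Agent.S0304
open scoped Matrix

open CfsgLib.Symplectic.Basic in
theorem plus_add {F : Type*} [Field F] [CharP F 2] {m : ℕ} (u v : Fin m ⊕ Fin m → F) :
    Cfsg.quadFormPlus m F (u + v)
      = Cfsg.quadFormPlus m F u + Cfsg.quadFormPlus m F v + CfsgLib.Symplectic.Basic.B u v := by
  rw [B_expand, Cfsg.quadFormPlus, Cfsg.quadFormPlus, Cfsg.quadFormPlus, ← Finset.sum_add_distrib,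
    ← Finset.sum_add_distrib]
  refine Finset.sum_congr rfl fun i _ => ?_
  simp only [Pi.add_apply, CharTwo.sub_eq_add]
  ring

theorem odd_split {F : Type*} [Field F] {m : ℕ} (w : Unit ⊕ (Fin m ⊕ Fin m) → F) :
    Cfsg.quadFormOdd m F w = w (Sum.inl ()) ^ 2 + Cfsg.quadFormPlus m F (fun s => w (Sum.inr s)) := rfl

/-- In characteristic 2, O_{2m+1}(q) is isomorphic to Sp_{2m}(q). -/
theorem result {F : Type*} [Field F] [Fintype F] [CharP F 2] (m : ℕ) : Nonempty (Cfsg.isometryGroup F (Cfsg.quadFormOdd m F) ≃* Matrix.symplecticGroup (Fin m) F) := by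
  open CfsgLib.Symplectic.Basic in
  classical
  -- facts about an isometry
  have hiso : ∀ (g : GL (Unit ⊕ (Fin m ⊕ Fin m)) F), g ∈ Cfsg.isometryGroup F (Cfsg.quadFormOdd m F) →
      ∀ w, Cfsg.quadFormOdd m F (g.1 *ᵥ w) = Cfsg.quadFormOdd m F w := fun g hg w => hg w w
  have happ : ∀ (g : Matrix (Unit ⊕ (Fin m ⊕ Fin m)) (Unit ⊕ (Fin m ⊕ Fin m)) F) (u : Fin m ⊕ Fin m → F) r,
      (g *ᵥ Sum.elim (fun _ => (0 : F)) u) r = ∑ s, g r (Sum.inr s) * u s := by
    intro g u r
    simp [Matrix.mulVec, dotProduct, Fintype.sum_sum_type]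
  have hpol : ∀ w w' : Unit ⊕ (Fin m ⊕ Fin m) → F, Cfsg.quadFormOdd m F (w + w')
      = Cfsg.quadFormOdd m F w + Cfsg.quadFormOdd m F w'
        + B (fun s => w (Sum.inr s)) (fun s => w' (Sum.inr s)) := by
    intro w w'
    rw [odd_split, odd_split, odd_split]
    change (w (Sum.inl ()) + w' (Sum.inl ())) ^ 2 + Cfsg.quadFormPlus m F ((fun s => w (Sum.inr s)) + fun s => w' (Sum.inr s)) = _
    rw [plus_add, CharTwo.add_sq]
    ring
  have hB : ∀ (g : GL (Unit ⊕ (Fin m ⊕ Fin m)) F), g ∈ Cfsg.isometryGroup F (Cfsg.quadFormOdd m F) →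
      ∀ w w', B (fun s => (g.1 *ᵥ w) (Sum.inr s)) (fun s => (g.1 *ᵥ w') (Sum.inr s))
        = B (fun s => w (Sum.inr s)) (fun s => w' (Sum.inr s)) := by
    intro g hg w w'
    have h := hpol (g.1 *ᵥ w) (g.1 *ᵥ w')
    rw [← Matrix.mulVec_add, hiso g hg, hiso g hg, hiso g hg, hpol] at h
    exact (add_left_cancel h).symm
  have hrad : ∀ (g : GL (Unit ⊕ (Fin m ⊕ Fin m)) F), g ∈ Cfsg.isometryGroup F (Cfsg.quadFormOdd m F) →
      (∀ s, g.1 (Sum.inr s) (Sum.inl ()) = 0) ∧ g.1 (Sum.inl ()) (Sum.inl ()) = 1 := by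
    intro g hg
    have he : g.1 *ᵥ Pi.single (Sum.inl ()) 1 = fun r => g.1 r (Sum.inl ()) := by
      funext r; simp
    have h0 : (fun s => g.1 (Sum.inr s) (Sum.inl ())) = (0 : Fin m ⊕ Fin m → F) := by
      refine eq_zero_of_B_left fun v => ?_
      have h := hB g hg (Pi.single (Sum.inl ()) 1) ((g⁻¹).1 *ᵥ Sum.elim (fun _ => (0 : F)) v)
      rw [he, Matrix.mulVec_mulVec, ← Units.val_mul, mul_inv_cancel, Units.val_one, Matrix.one_mulVec] at h
      simp only [Sum.elim_inr] at h
      rw [h, show (fun s => (Pi.single (Sum.inl ()) (1 : F) : Unit ⊕ (Fin m ⊕ Fin m) → F) (Sum.inr s))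
        = (0 : Fin m ⊕ Fin m → F) from funext fun s => by simp, map_zero, LinearMap.zero_apply]
    refine ⟨fun s => congrFun h0 s, ?_⟩
    have h := hiso g hg (Pi.single (Sum.inl ()) 1)
    rw [he, odd_split, odd_split] at h
    simp only [h0] at h
    have hz : Cfsg.quadFormPlus m F (fun s => (Pi.single (Sum.inl ()) (1 : F) : Unit ⊕ (Fin m ⊕ Fin m) → F) (Sum.inr s))
        = 0 := by simp [Cfsg.quadFormPlus]
    rw [hz, show Cfsg.quadFormPlus m F (0 : Fin m ⊕ Fin m → F) = 0 by simp [Cfsg.quadFormPlus],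
      Pi.single_eq_same, one_pow, add_zero] at h
    exact CharTwo.sq_injective (by simpa using h)
  have hmem : ∀ g : Cfsg.isometryGroup F (Cfsg.quadFormOdd m F),
      g.1.1.submatrix Sum.inr Sum.inr ∈ Matrix.symplecticGroup (Fin m) F := by
    intro g
    rw [mem_iff]
    intro u v
    have h := hB g.1 g.2 (Sum.elim (fun _ => (0 : F)) u) (Sum.elim (fun _ => (0 : F)) v)
    simp only [Sum.elim_inr] at h
    have e : ∀ x : Fin m ⊕ Fin m → F, g.1.1.submatrix Sum.inr Sum.inr *ᵥ x
        = fun s => (g.1.1 *ᵥ Sum.elim (fun _ => (0 : F)) x) (Sum.inr s) := fun x => funext fun s => by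
      rw [happ]; rfl
    rw [e, e]
    exact h
  let r : Cfsg.isometryGroup F (Cfsg.quadFormOdd m F) →* Matrix.symplecticGroup (Fin m) F :=
    { toFun := fun g => ⟨_, hmem g⟩
      map_one' := Subtype.ext (by
        change (1 : Matrix _ _ F).submatrix Sum.inr Sum.inr = 1
        exact Matrix.submatrix_one _ Sum.inr_injective)
      map_mul' := fun g h => Subtype.ext (by
        change (g.1.1 * h.1.1).submatrix Sum.inr Sum.inr
          = g.1.1.submatrix Sum.inr Sum.inr * h.1.1.submatrix Sum.inr Sum.inr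
        ext s t
        simp only [Matrix.submatrix_apply, Matrix.mul_apply, Fintype.sum_sum_type]
        rw [show (∑ x : Unit, g.1.1 (Sum.inr s) (Sum.inl x) * h.1.1 (Sum.inl x) (Sum.inr t)) = 0 from
          Finset.sum_eq_zero fun x _ => by rw [(hrad g.1 g.2).1 s, zero_mul], zero_add]) }
  have hinj : Function.Injective r := by
    refine (injective_iff_map_eq_one r).2 fun g hg => ?_
    have h1 : g.1.1.submatrix Sum.inr Sum.inr = 1 := congrArg Subtype.val hg
    refine Subtype.ext (Units.ext (Matrix.ext fun a b => ?_))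
    change g.1.1 a b = (1 : Matrix _ _ F) a b
    have hrr : ∀ s t, g.1.1 (Sum.inr s) (Sum.inr t) = (1 : Matrix _ _ F) s t := fun s t =>
      congrFun (congrFun h1 s) t
    rcases a with ⟨⟩ | a <;> rcases b with ⟨⟩ | b
    · rw [(hrad g.1 g.2).2, Matrix.one_apply_eq]
    · have hq := hiso g.1 g.2 (Sum.elim (fun _ => (0 : F)) (Pi.single b 1))
      rw [odd_split, odd_split] at hq
      simp only [happ, hrr, Sum.elim_inl, Sum.elim_inr] at hq
      simp [Matrix.one_apply, Pi.single_apply] at hq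
      simpa using hq
    · rw [(hrad g.1 g.2).1 a, Matrix.one_apply_ne (by simp)]
    · rw [hrr a b, Matrix.one_apply, Matrix.one_apply]
      simp
  have hsurj : Function.Surjective r := by
    intro A
    set f : (Fin m ⊕ Fin m → F) → F := fun u => Cfsg.quadFormPlus m F u + Cfsg.quadFormPlus m F (A.1 *ᵥ u) with hf
    have hadd : ∀ u v, f (u + v) = f u + f v := by
      intro u v
      simp only [hf, Matrix.mulVec_add, plus_add, B_map]
      have h2 : B u v + B u v = 0 := CharTwo.add_self_eq_zero _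
      linear_combination h2
    have hsmul : ∀ (c : F) u, f (c • u) = c ^ 2 * f u := by
      intro c u
      simp only [hf, Matrix.mulVec_smul, Cfsg.quadFormPlus, Pi.smul_apply, smul_eq_mul, mul_add, Finset.mul_sum]
      exact congrArg₂ _ (Finset.sum_congr rfl fun i _ => by ring) (Finset.sum_congr rfl fun i _ => by ring)
    choose l hl using fun s : Fin m ⊕ Fin m =>
      FiniteField.isSquare_of_char_two (ringChar.eq F 2) (f (Pi.single s 1))
    have hfl : ∀ u, (∑ s, l s * u s) ^ 2 = f u := by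
      intro u
      rw [CharTwo.sum_sq]
      let fh : (Fin m ⊕ Fin m → F) →+ F := AddMonoidHom.mk' f hadd
      conv_rhs => rw [show u = ∑ s, u s • (Pi.single s (1 : F) : Fin m ⊕ Fin m → F) from
        pi_eq_sum_univ' u]
      change _ = fh (∑ s, u s • (Pi.single s (1 : F) : Fin m ⊕ Fin m → F))
      rw [map_sum]
      refine Finset.sum_congr rfl fun s _ => ?_
      change _ = f (u s • (Pi.single s (1 : F) : Fin m ⊕ Fin m → F))
      rw [hsmul, hl s]
      ring
    have hA : IsUnit A.1.det := SymplecticGroup.symplectic_det A.2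
    set M : Matrix (Unit ⊕ (Fin m ⊕ Fin m)) (Unit ⊕ (Fin m ⊕ Fin m)) F :=
      Matrix.fromBlocks 1 (Matrix.of fun _ s => l s) 0 A.1 with hM
    have hMdet : IsUnit M.det := by
      rw [hM, Matrix.det_fromBlocks_zero₂₁, Matrix.det_one, one_mul]
      exact hA
    refine ⟨⟨Matrix.GeneralLinearGroup.mk'' M hMdet, fun w _ => ?_⟩, Subtype.ext ?_⟩
    · change Cfsg.quadFormOdd m F (M *ᵥ w) = Cfsg.quadFormOdd m F w
      rw [odd_split, odd_split]
      have hinl : (M *ᵥ w) (Sum.inl ()) = w (Sum.inl ()) + ∑ s, l s * w (Sum.inr s) := by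
        simp [hM, Matrix.mulVec, dotProduct, Fintype.sum_sum_type]
      have hinr : (fun s => (M *ᵥ w) (Sum.inr s)) = A.1 *ᵥ fun s => w (Sum.inr s) := by
        funext s
        simp [hM, Matrix.mulVec, dotProduct, Fintype.sum_sum_type]
      rw [hinl, hinr, CharTwo.add_sq, hfl]
      have h2 := CharTwo.add_self_eq_zero (Cfsg.quadFormPlus m F (A.1 *ᵥ fun s => w (Sum.inr s)))
      simp only [hf]
      linear_combination h2
    · ext s t
      rfl
  exact ⟨MulEquiv.ofBijective r ⟨hinj, hsurj⟩⟩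

end Cfsg.Agent.S0304
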