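import Cfsg.Statements.S0323
import Mathlib

set_option autoImplicit false
open scoped Pointwise
open Cfsg

namespace Cfsg.Agent.S0323

open scoped Pointwise

/-- A doubly transitive action on a set with at least three points yields a (B,N)-pair of rank one:
`B` is the stabiliser of a point `x`, `N` the setwise stabiliser of a pair `{x, y}`. -/
theorem result {G Ω : Type*} [Group G] [MulAction G Ω]
    (h2 : MulAction.IsMultiplyPretransitive G Ω 2) {x y z : Ω} (hxy : x ≠ y) (hyz : y ≠ z) (hxz : x ≠ z) :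
    ∃ P : Cfsg.BNPair G, P.B = MulAction.stabilizer G x ∧
      P.N = MulAction.stabilizer G ({x, y} : Set Ω) ∧ P.rank = 1 := by
  classical
  rw [MulAction.is_two_pretransitive_iff] at h2
  obtain ⟨s, hsx, hsy⟩ := h2 hxy hxy.symm
  set B := MulAction.stabilizer G x with hBdef
  set N := MulAction.stabilizer G ({x, y} : Set Ω) with hNdef
  have hN : ∀ g : G, g ∈ N ↔ ((g • x = x ∧ g • y = y) ∨ (g • x = y ∧ g • y = x)) := by
    intro g
    rw [hNdef, MulAction.mem_stabilizer_iff]
    have : g • ({x, y} : Set Ω) = {g • x, g • y} := by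
      rw [Set.smul_set_insert, Set.smul_set_singleton]
    rw [this, Set.pair_eq_pair_iff]
  have hB : ∀ g : G, g ∈ B ↔ g • x = x := fun g => MulAction.mem_stabilizer_iff
  have hsN : s ∈ N := (hN s).mpr (Or.inr ⟨hsx, hsy⟩)
  have hyB : ∀ w : Ω, x ≠ w → ∃ b ∈ B, b • y = w := by
    intro w hw
    obtain ⟨b, hb1, hb2⟩ := h2 hxy hw
    exact ⟨b, (hB b).mpr hb1, hb2⟩
  have hcell : ∀ (g n : G), g • x ≠ x → n • x = y →
      g ∈ DoubleCoset.doubleCoset n (B : Set G) B := by
    intro g n hg hn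
    obtain ⟨b, hb, hby⟩ := hyB (g • x) (Ne.symm hg)
    refine DoubleCoset.mem_doubleCoset.mpr ⟨b, hb, n⁻¹ * b⁻¹ * g, ?_, by group⟩
    rw [SetLike.mem_coe, hB, mul_smul, mul_smul, ← hby, inv_smul_smul, ← hn, inv_smul_smul]
  refine ⟨{ B := B, N := N, S := {s}, sup_eq_top := ?_, conj_mem := ?_, subset := ?_, sq_mem := ?_, inj := ?_,
            closure_sup := ?_, mul_mem_union := ?_, conj_ne := ?_ }, rfl, rfl, ?_⟩
  · rw [eq_top_iff]
    intro g _
    by_cases hg : g • x = x
    · exact Subgroup.mem_sup_left ((hB g).mpr hg)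
    · obtain ⟨b, hb, b', hb', he⟩ := DoubleCoset.mem_doubleCoset.mp (hcell g s hg hsx)
      rw [he]
      exact mul_mem (mul_mem (Subgroup.mem_sup_left hb) (Subgroup.mem_sup_right hsN)) (Subgroup.mem_sup_left hb')
  · rintro n hn t ⟨htB, htN⟩
    have ht1 : t • x = x := (hB t).mp htB
    have ht2 : t • y = y := by
      rcases (hN t).mp htN with h | h
      · exact h.2
      · exact absurd (ht1.symm.trans h.1) hxy
    rw [hB, mul_smul, mul_smul]
    rcases (hN n).mp hn with ⟨h1, h2⟩ | ⟨h1, h2⟩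
    · have : n⁻¹ • x = x := by rw [inv_smul_eq_iff, h1]
      rw [this, ht1, h1]
    · have : n⁻¹ • x = y := by rw [inv_smul_eq_iff, h2]
      rw [this, ht2, h2]
  · rintro _ rfl; exact hsN
  · rintro _ rfl; rw [hB, mul_smul, hsx, hsy]
  · rintro _ rfl _ rfl _; rfl
  · apply le_antisymm
    · exact sup_le ((Subgroup.closure_le _).mpr (Set.singleton_subset_iff.mpr hsN)) inf_le_right
    · intro n hn
      rcases (hN n).mp hn with h | h
      · exact Subgroup.mem_sup_right ⟨(hB n).mpr h.1, hn⟩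
      · have h3 : s⁻¹ * n ∈ B ⊓ N := Subgroup.mem_inf.mpr ⟨(hB _).mpr (by rw [mul_smul, h.1, inv_smul_eq_iff, hsx]), N.mul_mem (N.inv_mem hsN) hn⟩
        have h5 : s ∈ Subgroup.closure ({s} : Set G) ⊔ (B ⊓ N) :=
          Subgroup.mem_sup_left (Subgroup.subset_closure rfl)
        have h6 : s⁻¹ * n ∈ Subgroup.closure ({s} : Set G) ⊔ (B ⊓ N) := Subgroup.mem_sup_right h3
        have := mul_mem h5 h6
        simpa using this
  · rintro t ht n hn b hb
    obtain rfl : t = s := ht
    rcases (hN n).mp hn with h | h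
    · left
      refine DoubleCoset.mem_doubleCoset.mpr ⟨1, one_mem _, n⁻¹ * b * n, ?_, by group⟩
      exact mul_mem (mul_mem (inv_mem ((hB n).mpr h.1)) hb) ((hB n).mpr h.1)
    · by_cases hg : (t * b * n) • x = x
      · left
        have hsn : t * n ∈ B := by rw [hB, mul_smul, h.1, hsy]
        exact DoubleCoset.mem_doubleCoset.mpr ⟨(t * b * n) * (t * n)⁻¹, mul_mem ((hB _).mpr hg) (inv_mem hsn), 1, one_mem _, by group⟩
      · right; exact hcell _ _ hg h.1
  · rintro t ht h
    obtain rfl : t = s := ht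
    obtain ⟨b, hb, hbz⟩ := hyB z hxz
    have h3 : t * b * t ∈ (B : Set G) := h ▸ ⟨b, hb, rfl⟩
    rw [SetLike.mem_coe, hB, mul_smul, mul_smul, hsx, hbz, ← hsy] at h3
    exact hyz (MulAction.injective t h3).symm
  · simp [Cfsg.BNPair.rank]

end Cfsg.Agent.S0323
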