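import Cfsg.Statements.S0326


set_option autoImplicit false
open Cfsg

namespace Cfsg.Agent.S0326

/-- The Suzuki–Tits ovoid over a finite field with `q` elements has `q² + 1` points. -/
theorem result {F : Type*} [Field F] [Fintype F] (m : ℕ) :
    Nat.card (Cfsg.suzukiOvoid F m) = Fintype.card F ^ 2 + 1 := by
  classical
  let f : Option (F × F) → Cfsg.suzukiOvoid F m := fun o => match o with
    | none => ⟨Projectivization.mk F ![1, 0, 0, 0] (by simp), ![1, 0, 0, 0], by simp, rfl, Or.inl rfl⟩
    | some p => ⟨Projectivization.mk F ![p.1 * p.2 + p.1 ^ (2 ^ (m + 1) + 2) + p.2 ^ (2 ^ (m + 1)), p.2, p.1, 1] (by simp),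
        _, by simp, rfl, Or.inr ⟨p.1, p.2, rfl⟩⟩
  have hb : Function.Bijective f := by
    constructor
    · rintro (_ | ⟨a, b⟩) (_ | ⟨c, d⟩) h
      · rfl
      · have h' := congrArg Subtype.val h
        obtain ⟨u, hu⟩ := (Projectivization.mk_eq_mk_iff' F _ _ _ _).mp h'
        have h3 := congrFun hu 3
        have h0 := congrFun hu 0
        simp at h3 h0
        simp [h3] at h0
      · have h' := congrArg Subtype.val h
        obtain ⟨u, hu⟩ := (Projectivization.mk_eq_mk_iff' F _ _ _ _).mp h'
        have h3 := congrFun hu 3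
        simp at h3
      · have h' := congrArg Subtype.val h
        obtain ⟨u, hu⟩ := (Projectivization.mk_eq_mk_iff' F _ _ _ _).mp h'
        have h3 := congrFun hu 3
        have h2 := congrFun hu 2
        have h1 := congrFun hu 1
        simp at h3 h2 h1
        subst h3
        simp at h2 h1
        simp [h1, h2]
    · rintro ⟨p, v, hv, hp, h | ⟨x, y, h⟩⟩
      · subst h; exact ⟨none, Subtype.ext hp.symm⟩
      · subst h; exact ⟨some (x, y), Subtype.ext hp.symm⟩
  rw [← Nat.card_eq_of_bijective f hb, Finite.card_option, Nat.card_prod, Nat.card_eq_fintype_card, sq]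

end Cfsg.Agent.S0326
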