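import Cfsg.Statements.S0327
import Mathlib
import Cfsg.Agent.Lib.Suzuki.Structure

set_option autoImplicit false
open Cfsg

namespace Cfsg.Agent.S0327

open CfsgLib.Suzuki

/-- The Suzuki group (`m ≥ 1`) is a Zassenhaus group on the `q² + 1` points of the Suzuki–Tits ovoid. -/
theorem result {F : Type*} [Field F] [Fintype F] {m : ℕ} (hm : 1 ≤ m)
    (hF : Fintype.card F = 2 ^ (2 * m + 1)) :
    Cfsg.IsZassenhausGroup (Cfsg.Sz F m) (Cfsg.suzukiOvoid F m) := by
  have h : Hyp F m := ⟨hm, hF⟩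
  have hsimple := h.simple
  obtain ⟨a0, ha0, ha1⟩ := h.exists_gt
  refine ⟨h.faithful, h.two_trans, fun g a b c hab hbc hac ea eb ec => h.eq_one_of_three g hab hbc hac ea eb ec, ?_, ?_⟩
  · refine ⟨h.hG (Units.mk0 a0 ha0), fun e => ha1 (congrArg Units.val (h.hG_inj (e.trans (map_one _).symm))), oI F m,
      ⟨P m 0 0, P_mem _ _ _⟩, fun e => P_ne_I m _ _ (congrArg Subtype.val e).symm, Subtype.ext (hS_I _), Subtype.ext ?_⟩
    show hS m (Units.mk0 a0 ha0) • P m (0 : F) 0 = P m 0 0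
    rw [h.hS_P]; simp
  · intro N hN hNt
    rcases hN.eq_bot_or_eq_top with rfl | rfl
    · obtain ⟨⟨n, hn⟩, e⟩ := hNt.exists_smul_eq (oI F m) ⟨P m 0 0, P_mem _ _ _⟩
      have e2 := congrArg Subtype.val e
      rw [Subgroup.mem_bot] at hn
      subst hn
      exact absurd (e2.symm.trans (one_smul (Matrix.SpecialLinearGroup (Fin 4) F) (I F))) (P_ne_I m _ _)
    · refine ⟨oI F m, fun hbot => ?_⟩
      have hmem : (⟨h.hG (Units.mk0 a0 ha0), Subgroup.mem_top _⟩ : (⊤ : Subgroup (Cfsg.Sz F m))) ∈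
          MulAction.stabilizer (⊤ : Subgroup (Cfsg.Sz F m)) (oI F m) := MulAction.mem_stabilizer_iff.mpr (Subtype.ext (hS_I _))
      rw [hbot, Subgroup.mem_bot] at hmem
      exact ha1 (congrArg Units.val (h.hG_inj ((congrArg Subtype.val hmem).trans (map_one _).symm)))

end Cfsg.Agent.S0327
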