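import Cfsg.Statements.S0328
import Mathlib
import Cfsg.Agent.Lib.Suzuki.Structure

set_option autoImplicit false
open Cfsg

namespace Cfsg.Agent.S0328

open CfsgLib.Suzuki

/-- The stabiliser in the Suzuki group of the two ovoid points spanned by `(1,0,0,0)` and `(0,0,0,1)` is
isomorphic to the multiplicative group of the field (cyclic of order `q - 1`). -/
theorem result {F : Type*} [Field F] [Fintype F] {m : ℕ} (hm : 1 ≤ m)
    (hF : Fintype.card F = 2 ^ (2 * m + 1)) :
    Nonempty (↥(MulAction.stabilizer (Cfsg.Sz F m) (Cfsg.suzukiPointInfinity F) ⊓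
        MulAction.stabilizer (Cfsg.Sz F m) (Cfsg.suzukiPointZero F)) ≃* Fˣ) := by
  have h : Hyp F m := ⟨hm, hF⟩
  let f : Fˣ →* ↥(MulAction.stabilizer (Cfsg.Sz F m) (Cfsg.suzukiPointInfinity F) ⊓
        MulAction.stabilizer (Cfsg.Sz F m) (Cfsg.suzukiPointZero F)) :=
    h.hG.codRestrict _ fun d => by
      refine Subgroup.mem_inf.mpr ⟨MulAction.mem_stabilizer_iff.mpr ?_, MulAction.mem_stabilizer_iff.mpr ?_⟩
      · show hS m d • suzukiPointInfinity F = suzukiPointInfinity F
        rw [pointInfinity_eq, hS_I]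
      · show hS m d • suzukiPointZero F = suzukiPointZero F
        rw [pointZero_eq m, h.hS_P]; simp
  refine ⟨(MulEquiv.ofBijective f ⟨fun d e he => h.hG_inj (congrArg Subtype.val he), fun g => ?_⟩).symm⟩
  obtain ⟨g1, g2⟩ := Subgroup.mem_inf.mp g.2
  have e2 : (g.1 : Cfsg.Sz F m).1 • P m (0 : F) 0 = P m 0 0 := by
    rw [← pointZero_eq m]; exact MulAction.mem_stabilizer_iff.mp g2
  obtain ⟨d, hd⟩ := h.fix_two g.1.2 (MulAction.mem_stabilizer_iff.mp g1) e2
  exact ⟨d, Subtype.ext (Subtype.ext hd.symm)⟩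

end Cfsg.Agent.S0328
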