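import Cfsg.Statements.S0330
import Mathlib
import Cfsg.Agent.Lib.Suzuki.Structure

set_option autoImplicit false
open Cfsg

namespace Cfsg.Agent.S0330

open CfsgLib.Suzuki

theorem sylowFacts {F : Type*} [Field F] [Fintype F] {m : ℕ} (h : Hyp F m) :
    Monoid.exponent h.Q = 4 ∧ (∀ x : h.Q, x ∈ Subgroup.center h.Q ↔ ∃ b, (x : Cfsg.Sz F m) = h.tG 0 b) ∧
      (∀ x : h.Q, x ∈ commutator h.Q ↔ ∃ b, (x : Cfsg.Sz F m) = h.tG 0 b) := by
  have hcen : ∀ x : h.Q, x ∈ Subgroup.center h.Q ↔ ∃ b, (x : Cfsg.Sz F m) = h.tG 0 b := by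
    rintro ⟨_, a, b, rfl⟩
    rw [Subgroup.mem_center_iff]
    constructor
    · intro hx
      have key : ∀ c, sg m c * a = sg m a * c := fun c => by
        have := congrArg Subtype.val (hx ⟨h.tG c 0, _, _, rfl⟩)
        simp only [Subgroup.coe_mul, h.tG_mul] at this
        have := (h.tG_inj this).2
        linear_combination this
      rcases h.sg_fixed (x := a) (by have := key 1; rw [sg_one] at this; linear_combination -this) with rfl | rfl
      · exact ⟨b, rfl⟩
      · obtain ⟨c, c0, c1⟩ := h.exists_gt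
        have := key c
        rw [sg_one] at this
        rcases h.sg_fixed (x := c) (by linear_combination this) with e | e
        · exact absurd e c0
        · exact absurd e c1
    · rintro ⟨b', e⟩ ⟨_, c, d, rfl⟩
      obtain ⟨rfl, rfl⟩ := h.tG_inj e
      exact Subtype.ext (by simp [Subgroup.coe_mul, h.tG_mul, sg_zero, add_comm d])
  refine ⟨?_, hcen, fun x => ⟨fun hx => (hcen x).mp ?_, ?_⟩⟩
  · have h4 : ∀ x : h.Q, x ^ 4 = 1 := by
      rintro ⟨_, a, b, rfl⟩
      apply Subtype.ext
      show (h.tG a b) ^ 4 = 1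
      rw [show (h.tG a b) ^ 4 = (h.tG a b * h.tG a b) * (h.tG a b * h.tG a b) by rw [← pow_two, ← pow_two, ← pow_mul], h.tG_mul, h.tG_mul, h.add_self, h.add_self]
      simp [sg_zero, h.add_self, h.tG_zero]
    have hdvd : Monoid.exponent h.Q ∣ 4 := Monoid.exponent_dvd_of_forall_pow_eq_one h4
    have hne : ¬ Monoid.exponent h.Q ∣ 2 := fun hd => by
      have := orderOf_dvd_iff_pow_eq_one.mp ((Monoid.order_dvd_exponent (⟨h.tG 1 0, _, _, rfl⟩ : h.Q)).trans hd)
      have : h.tG 1 0 * h.tG 1 0 = 1 := congrArg Subtype.val ((pow_two _).symm.trans this)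
      rw [h.tG_mul, ← h.tG_zero] at this
      have e := (h.tG_inj this).2
      simp [sg_one] at e
    obtain ⟨k, hk, hk'⟩ := (Nat.dvd_prime_pow Nat.prime_two).mp (show Monoid.exponent h.Q ∣ 2 ^ 2 from hdvd)
    interval_cases k
    · exact absurd (by rw [hk']; norm_num) hne
    · exact absurd (by rw [hk']; norm_num) hne
    · exact hk'
  · rw [hcen]
    have hle : commutator h.Q ≤ Subgroup.center h.Q := by
      rw [commutator_eq_closure, Subgroup.closure_le]
      rintro _ ⟨⟨_, a, b, rfl⟩, ⟨_, c, d, rfl⟩, rfl⟩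
      rw [SetLike.mem_coe, hcen]
      refine ⟨sg m a * c + sg m c * a, ?_⟩
      simp only [commutatorElement_def, Subgroup.coe_mul, Subgroup.coe_inv, h.tG_inv, h.tG_mul]
      congr 1
      · linear_combination (a + c) * h.two
      · simp only [h.sg_add]
        linear_combination (b + d + sg m a * a + sg m c * c + sg m a * c) * h.two
    exact (hcen x).mp (hle hx)
  · rintro ⟨b, hb⟩
    obtain ⟨t, t0, t1⟩ := h.exists_gt
    have hv : sg m t + t ≠ 0 := fun e => by
      rcases h.sg_fixed (x := t) (by linear_combination e - t * h.two) with e' | e'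
      · exact t0 e'
      · exact t1 e'
    obtain ⟨e1, he1⟩ := ((Finite.injective_iff_surjective (f := fun c : F => c * sg m c)).mp (fun c c' e => by
      simp only at e
      rcases eq_or_ne c' 0 with rfl | hc
      · rcases mul_eq_zero.mp (show c * sg m c = 0 by rw [e]; simp) with e0 | e0
        · exact e0
        · exact h.sg_inj (by rw [e0, sg_zero])
      · have hs : sg m c' ≠ 0 := pow_ne_zero _ hc
        have : c / c' = 1 := h.mul_sg_eq_one (by
          rw [div_eq_mul_inv, sg_mul, sg_inv]; field_simp; linear_combination e)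
        exact (div_eq_one_iff_eq hc).mp this)) (b / (sg m t + t))
    simp only at he1
    have hbb : b = e1 * sg m e1 * (sg m t + t) := by rw [he1]; field_simp
    have hc := Subgroup.commutator_mem_commutator (Subgroup.mem_top (⟨h.tG (e1 * t) 0, _, _, rfl⟩ : h.Q))
      (Subgroup.mem_top (⟨h.tG e1 0, _, _, rfl⟩ : h.Q))
    rw [← commutator_def] at hc
    convert hc using 1
    apply Subtype.ext
    rw [hb]
    simp only [commutatorElement_def, Subgroup.coe_mul, Subgroup.coe_inv, h.tG_inv, h.tG_mul]
    congr 1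
    · linear_combination -(e1 * t + e1) * h.two
    · simp only [h.sg_add, sg_mul, hbb]
      linear_combination -(e1 * sg m e1 + e1 * t * sg m e1 * sg m t + sg m e1 * sg m t * e1) * h.two

/-- A Sylow 2-subgroup `P` of the Suzuki group (field with `q = 2^(2m+1)` elements, `m ≥ 1`) has order `q²` and
exponent `4`; its centre coincides with its commutator subgroup and has order `q`. -/
theorem result {F : Type*} [Field F] [Fintype F] {m : ℕ} (hm : 1 ≤ m)
    (hF : Fintype.card F = 2 ^ (2 * m + 1)) (P : Sylow 2 (Cfsg.Sz F m)) :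
    Nat.card P = (2 ^ (2 * m + 1)) ^ 2 ∧ Monoid.exponent P = 4 ∧
      Subgroup.center P = commutator P ∧ Nat.card (Subgroup.center P) = 2 ^ (2 * m + 1) := by
  have h : Hyp F m := ⟨hm, hF⟩
  obtain ⟨g, hg⟩ := h.sylow_two_conj P
  set e : h.Q ≃* P := (h.Q.equivMapOfInjective (MulAut.conj g).toMonoidHom (MulAut.conj g).injective).trans
    (MulEquiv.subgroupCongr hg.symm)
  obtain ⟨hexp, hcen, hcom⟩ := sylowFacts h
  have hcc : Subgroup.center h.Q = commutator h.Q := Subgroup.ext fun x => (hcen x).trans (hcom x).symm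
  have hcmap : Subgroup.center P = (Subgroup.center h.Q).map e.toMonoidHom := by
    ext x
    simp only [Subgroup.mem_map, Subgroup.mem_center_iff]
    constructor
    · intro hx
      exact ⟨e.symm x, fun y => e.injective (by rw [map_mul, map_mul, e.apply_symm_apply]; exact hx (e y)), e.apply_symm_apply x⟩
    · rintro ⟨y, hy, rfl⟩ z
      show z * e y = e y * z
      rw [← e.apply_symm_apply z, ← map_mul, ← map_mul, hy]
  refine ⟨by rw [← Nat.card_congr e.toEquiv, h.card_Q], by rw [← Monoid.exponent_eq_of_mulEquiv e, hexp], ?_, ?_⟩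
  · rw [hcmap, hcc, commutator_def, Subgroup.map_commutator, Subgroup.map_top_of_surjective _ e.surjective]; rfl
  · rw [hcmap, Nat.card_congr (Subgroup.equivMapOfInjective _ e.toMonoidHom e.injective).toEquiv.symm]
    have hb : Function.Bijective (fun b : F => (⟨⟨h.tG 0 b, _, _, rfl⟩, (hcen _).mpr ⟨b, rfl⟩⟩ : Subgroup.center h.Q)) := by
      constructor
      · intro b c ebc
        exact (h.tG_inj (congrArg (fun z : Subgroup.center h.Q => (z.1 : Cfsg.Sz F m)) ebc)).2
      · rintro ⟨x, hx⟩
        obtain ⟨b, hb⟩ := (hcen x).mp hx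
        exact ⟨b, Subtype.ext (Subtype.ext hb.symm)⟩
    rw [← Nat.card_eq_of_bijective _ hb, Nat.card_eq_fintype_card, h.card]

end Cfsg.Agent.S0330
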