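import Cfsg.Statements.S0335
import Mathlib
import Cfsg.Agent.Lib.Suzuki.Group

set_option autoImplicit false
open Cfsg

namespace Cfsg.Agent.S0335

open CfsgLib.Suzuki Matrix

/-- The Suzuki–Tits point set is an ovoid: any three distinct points of it are projectively independent
(no line of projective 3-space meets it in more than two points). -/
theorem result {F : Type*} [Field F] [Fintype F] {m : ℕ} (hm : 1 ≤ m)
    (hF : Fintype.card F = 2 ^ (2 * m + 1)) (p : Fin 3 ↪ Cfsg.suzukiOvoid F m) :
    Projectivization.Independent (fun i => (p i : Projectivization F (Fin 4 → F))) := by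
  have h : Hyp F m := ⟨hm, hF⟩
  have hne : ∀ i j, i ≠ j → (p i : Projectivization F (Fin 4 → F)) ≠ p j := fun i j hij e =>
    hij (p.injective (Subtype.ext e))
  obtain ⟨k, hk, kI, k0⟩ := h.move_two (p 0).2 (p 1).2 (hne 0 1 (by decide))
  rcases mem_ovoid.mp (maps_of_mem (inv_mem hk) (p 2).2) with e | ⟨x, y, e⟩
  · rw [inv_smul_eq_iff, kI] at e; exact absurd e.symm (hne 0 2 (by decide))
  have hxy : x ≠ 0 ∨ y ≠ 0 := by
    by_contra hc; push Not at hc; rw [hc.1, hc.2, inv_smul_eq_iff, k0] at e; exact hne 1 2 (by decide) e.symm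
  have hlin : LinearIndependent F ![vI, vP m (0 : F) 0, vP m x y] := by
    rw [Fintype.linearIndependent_iff]
    intro g hg
    have e3 := congrFun hg 3
    have e2 := congrFun hg 2
    have e1 := congrFun hg 1
    have e0 := congrFun hg 0
    simp [Fin.sum_univ_three, vI, vP, fo, sg_zero] at e3 e2 e1 e0
    have g2 : g 2 = 0 := by
      rcases hxy with hx | hy
      · exact e2.resolve_right hx
      · exact e1.resolve_right hy
    simp [g2] at e3 e0
    intro i; fin_cases i <;> simp [g2, e3, e0]
  have hw := hlin.map' (Matrix.mulVecLin k.1) (LinearMap.ker_eq_bot.mpr (fun u v huv => by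
    have := congrArg (fun z => ((k⁻¹ : Matrix.SpecialLinearGroup (Fin 4) F)).1 *ᵥ z) huv
    simpa [Matrix.mulVec_mulVec, Matrix.adjugate_mul, k.2] using this))
  have hnz : ∀ i, k.1 *ᵥ (![vI, vP m (0 : F) 0, vP m x y] i) ≠ 0 := fun i => hw.ne_zero i
  have heq : (fun i => (p i : Projectivization F (Fin 4 → F))) =
      fun i => Projectivization.mk F (k.1 *ᵥ (![vI, vP m (0 : F) 0, vP m x y] i)) (hnz i) := by
    funext i
    fin_cases i
    · exact kI.symm.trans (Projectivization.smul_mk _ _)
    · exact k0.symm.trans (Projectivization.smul_mk _ _)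
    · exact (inv_smul_eq_iff.mp e).trans (Projectivization.smul_mk _ _)
  rw [heq]
  exact Projectivization.Independent.mk _ hnz hw

end Cfsg.Agent.S0335
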