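import Cfsg.Statements.S0351
import Cfsg.Agent.Lib.Steiner.Count

set_option autoImplicit false
set_option linter.all false
open Cfsg

namespace Cfsg.Agent.S0351
open CfsgLib.Steiner

/-- Derived design: removing a point p from the blocks through p of an S(t+1, k+1, v) yields an S(t, k, v-1) on the points other than p. -/
theorem result {α : Type*} [Fintype α] [DecidableEq α] {t k : ℕ} {B : Set (Finset α)} (hB : Cfsg.IsSteinerSystem (t + 1) (k + 1) B) (p : α) : Cfsg.IsSteinerSystem t k {b' : Finset {a : α // a ≠ p} | ∃ b ∈ B, p ∈ b ∧ b' = Finset.subtype (fun a => a ≠ p) b} := by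
  classical
  constructor
  · rintro b' ⟨b, hb, hp, rfl⟩
    rw [Finset.card_subtype, Finset.filter_ne', Finset.card_erase_of_mem hp, hB.1 b hb]
    omega
  · intro s hs
    have hps : p ∉ s.map (Function.Embedding.subtype _) := by simp
    have hcard : (insert p (s.map (Function.Embedding.subtype _))).card = t + 1 := by
      rw [Finset.card_insert_of_notMem hps, Finset.card_map, hs]
    obtain ⟨b, ⟨hb, hsub⟩, huniq⟩ := hB.2 _ hcard
    rw [Finset.insert_subset_iff] at hsub
    refine ⟨Finset.subtype (fun a => a ≠ p) b, ⟨⟨b, hb, hsub.1, rfl⟩, fun x hx =>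
      Finset.mem_subtype.mpr (hsub.2 (Finset.mem_map.mpr ⟨x, hx, rfl⟩))⟩, ?_⟩
    rintro b' ⟨⟨c, hc, hpc, rfl⟩, hsc⟩
    rw [huniq c ⟨hc, Finset.insert_subset_iff.mpr ⟨hpc, fun x hx => by
      obtain ⟨y, hy, rfl⟩ := Finset.mem_map.mp hx
      exact Finset.mem_subtype.mp (hsc hy)⟩⟩]

end Cfsg.Agent.S0351
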