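import Cfsg.Statements.S0353
import Cfsg.Agent.Lib.Steiner.Even

set_option autoImplicit false
set_option linter.all false
open Cfsg

namespace Cfsg.Agent.S0353

/-- In an S(5, 8, 24), the symmetric difference of two blocks meeting in four points is a block. -/
theorem result {α : Type*} [Fintype α] [DecidableEq α] (hα : Fintype.card α = 24) {B : Set (Finset α)} (hB : Cfsg.IsSteinerSystem 5 8 B) {b c : Finset α} (hb : b ∈ B) (hc : c ∈ B) (h4 : (b ∩ c).card = 4) : symmDiff b c ∈ B := by
  classical
  have hev : ∀ g ∈ B, ∀ x ∈ B, Even (g ∩ x).card := by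
    intro g hg x hx
    rw [Finset.inter_comm]
    obtain ⟨m0, m1, m2, m3, m4⟩ := CfsgLib.Steiner.meet_5_8_24 hB hα hg
    have hpos := CfsgLib.Steiner.meet_pos (b := g) hx
    rcases eq_or_ne x g with rfl | hne
    · rw [Finset.inter_self, hB.1 x hx]; decide
    · have hlt := CfsgLib.Steiner.inter_lt hB hx hg hne
      generalize (x ∩ g).card = n at hlt hpos
      interval_cases n <;> first | decide | omega
  have hpar : ∀ s p q : Finset α, Even (s ∩ p).card → Even (s ∩ q).card → Even (s ∩ symmDiff p q).card := by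
    intro s p q h1 h2
    have e : s ∩ symmDiff p q = symmDiff (s ∩ p) (s ∩ q) := by
      ext x; simp only [Finset.mem_inter, Finset.mem_symmDiff]; tauto
    rw [e, symmDiff_eq_sup_sdiff_inf, Finset.sup_eq_union, Finset.inf_eq_inter,
      Finset.card_sdiff_of_subset Finset.inter_subset_union]
    have h3 := Finset.card_union_add_card_inter (s ∩ p) (s ∩ q)
    have h4 := Finset.card_le_card (Finset.inter_subset_union (s := s ∩ p) (t := s ∩ q))
    obtain ⟨i, hi⟩ := h1
    obtain ⟨j, hj⟩ := h2
    exact even_iff_two_dvd.2 ⟨i + j - ((s ∩ p) ∩ (s ∩ q)).card, by omega⟩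
  have hV : (symmDiff b c).card = 8 := by
    rw [symmDiff_eq_sup_sdiff_inf, Finset.sup_eq_union, Finset.inf_eq_inter,
      Finset.card_sdiff_of_subset Finset.inter_subset_union, h4]
    have h3 := Finset.card_union_add_card_inter b c
    have h5 := hB.1 b hb
    have h6 := hB.1 c hc
    omega
  obtain ⟨T, hT, hT5⟩ := Finset.exists_subset_card_eq (s := symmDiff b c) (n := 5) (by omega)
  obtain ⟨g, ⟨hg, hTg⟩, -⟩ := hB.2 T hT5
  suffices h : symmDiff g (symmDiff b c) = ∅ by
    rw [← symmDiff_eq_bot.1 (show symmDiff g (symmDiff b c) = ⊥ from h)]; exact hg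
  by_contra hne
  have hD : (symmDiff g (symmDiff b c)).card ≤ 4 := by
    have hge : 6 ≤ (g ∩ symmDiff b c).card := by
      obtain ⟨k, hk⟩ := hpar g b c (hev g hg b hb) (hev g hg c hc)
      have := Finset.card_le_card (Finset.subset_inter hTg hT)
      omega
    rw [symmDiff_eq_sup_sdiff_inf, Finset.sup_eq_union, Finset.inf_eq_inter,
      Finset.card_sdiff_of_subset Finset.inter_subset_union]
    have h3 := Finset.card_union_add_card_inter g (symmDiff b c)
    have h5 := hB.1 g hg
    omega
  obtain ⟨x, hx, hodd⟩ := CfsgLib.SteinerEven.odd_meet hB hα (Finset.nonempty_of_ne_empty hne) hD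
  exact Nat.not_even_iff_odd.2 hodd (hpar x g _ (hev x hx g hg) (hpar x b c (hev x hx b hb) (hev x hx c hc)))

end Cfsg.Agent.S0353
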