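import Cfsg.Statements.S0355
import Cfsg.Agent.Lib.Steiner.Count

set_option autoImplicit false
set_option linter.all false
open Cfsg

namespace Cfsg.Agent.S0355
open CfsgLib.Steiner

/-- In a Steiner system S(4, 7, 23), two distinct blocks intersect in 1 or 3 points. -/
theorem result {α : Type*} [Fintype α] [DecidableEq α] (hα : Fintype.card α = 23) {B : Set (Finset α)} (hB : Cfsg.IsSteinerSystem 4 7 B) {b c : Finset α} (hb : b ∈ B) (hc : c ∈ B) (hbc : b ≠ c) : (b ∩ c).card = 1 ∨ (b ∩ c).card = 3 := by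
  have h1 := inter_lt hB hb hc hbc
  have h2 := meet_pos (b := c) hb
  obtain ⟨m0, -, m2, -⟩ := meet_4_7_23 hB hα hc
  rcases (show (b ∩ c).card = 0 ∨ (b ∩ c).card = 1 ∨ (b ∩ c).card = 2 ∨ (b ∩ c).card = 3 by omega)
    with h | h | h | h <;> rw [h] at h2 <;> omega

end Cfsg.Agent.S0355
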