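import Cfsg.Statements.S0357
import Cfsg.Agent.Lib.Steiner.Count

set_option autoImplicit false
set_option linter.all false
open Cfsg

namespace Cfsg.Agent.S0357
open CfsgLib.Steiner

/-- In a Steiner system S(5, 6, 12), the complement of every block is again a block. -/
theorem result {α : Type*} [Fintype α] [DecidableEq α] (hα : Fintype.card α = 12) {B : Set (Finset α)} (hB : Cfsg.IsSteinerSystem 5 6 B) {b : Finset α} (hb : b ∈ B) : bᶜ ∈ B := by
  have h0 := (meet_5_6_12 hB hα hb).1
  unfold meet at h0
  obtain ⟨c, hc⟩ := Finset.card_eq_one.mp h0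
  have hmem : c ∈ (blocks B).filter fun c => (c ∩ b).card = 0 := hc ▸ Finset.mem_singleton_self c
  rw [Finset.mem_filter, mem_blocks, Finset.card_eq_zero] at hmem
  have : c = bᶜ := Finset.eq_of_subset_of_card_le
    (fun x hx => Finset.mem_compl.mpr fun hxb => by
      have : x ∈ c ∩ b := Finset.mem_inter.mpr ⟨hx, hxb⟩
      rw [hmem.2] at this
      exact Finset.notMem_empty x this)
    (by rw [Finset.card_compl, hα, hB.1 b hb, hB.1 c hmem.1])
  exact this ▸ hmem.1

end Cfsg.Agent.S0357
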