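import Cfsg.Statements.S0362
import Cfsg.Agent.Lib.Golay.Code

set_option autoImplicit false
set_option linter.all false
open Cfsg

namespace Cfsg.Agent.S0362

theorem span_mem : ∀ (l : List ℕ) (m : ℕ), m ∈ CfsgLib.Golay.spanList l →
    CfsgLib.Golay.toWord m ∈ Submodule.span (ZMod 2) (CfsgLib.Golay.toWord '' {g | g ∈ l})
  | [], m, hm => by
    simp only [CfsgLib.Golay.spanList, List.mem_singleton] at hm
    subst hm
    have : CfsgLib.Golay.toWord 0 = 0 := by funext p; simp [CfsgLib.Golay.toWord]
    rw [this]; exact Submodule.zero_mem _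
  | g :: l, m, hm => by
    simp only [CfsgLib.Golay.spanList, List.mem_flatMap, List.mem_cons, List.not_mem_nil,
      or_false] at hm
    obtain ⟨x, hx, rfl | rfl⟩ := hm
    · exact Submodule.span_mono (Set.image_mono fun a ha => List.mem_cons_of_mem g ha)
        (span_mem l _ hx)
    · rw [CfsgLib.Golay.toWord_xor]
      exact Submodule.add_mem _ (Submodule.subset_span ⟨g, List.mem_cons_self, rfl⟩)
        (Submodule.span_mono (Set.image_mono fun a ha => List.mem_cons_of_mem g ha)
          (span_mem l x hx))

/-- The length-24 code is self-orthogonal: the dot product over ZMod 2 of any two of its words vanishes (with dimension 12 this makes it self-dual). -/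
theorem result (v w : Cfsg.GolayPt → ZMod 2) (hv : v ∈ Cfsg.golayCode) (hw : w ∈ Cfsg.golayCode) : ∑ i, v i * w i = 0 := by
  have key : ∀ a ∈ CfsgLib.Golay.gens, ∀ b ∈ CfsgLib.Golay.gens,
      ∑ i, CfsgLib.Golay.toWord a i * CfsgLib.Golay.toWord b i = 0 := by decide +kernel
  have hl : ∀ w : Cfsg.GolayPt → ZMod 2, w ∈ Cfsg.golayCode →
      w ∈ Submodule.span (ZMod 2) (CfsgLib.Golay.toWord '' {g | g ∈ CfsgLib.Golay.gens}) := by
    intro w hw
    have h := CfsgLib.Golay.mem_codeList.2 ((CfsgLib.Golay.mem_golayCode_iff w).1 hw)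
    rw [← CfsgLib.Golay.toWord_toMask_support₂ w]
    generalize CfsgLib.Golay.toMask (Cfsg.support₂ w) = m at h ⊢
    exact span_mem CfsgLib.Golay.gens m h
  have h1 := hl v hv
  have h2 := hl w hw
  clear hv hw hl
  induction h1 using Submodule.span_induction with
  | mem x hx =>
    obtain ⟨a, ha, rfl⟩ := hx
    induction h2 using Submodule.span_induction with
    | mem y hy => obtain ⟨b, hb, rfl⟩ := hy; exact key a ha b hb
    | zero => simp
    | add x y _ _ hx hy => simp [mul_add, Finset.sum_add_distrib, hx, hy]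
    | smul c x _ hx => simp [mul_left_comm _ c, ← Finset.mul_sum, hx]
  | zero => simp
  | add x y _ _ hx hy => simp [add_mul, Finset.sum_add_distrib, hx, hy]
  | smul c x _ hx => simp [mul_assoc, ← Finset.mul_sum, hx]

end Cfsg.Agent.S0362
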