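import Cfsg.Statements.S0363
import Cfsg.Agent.Lib.Golay.Octads

set_option autoImplicit false
set_option linter.all false
open Cfsg

namespace Cfsg.Agent.S0363

/-- The octads of the length-24 code form a Steiner system S(5, 8, 24) on the 24 points. -/
theorem result : Cfsg.IsSteinerSystem 5 8 Cfsg.octads := by
  refine ⟨fun b hb => ((CfsgLib.Golay.mem_wordsOfWeight_iff 8 b).1 hb).2 ▸
    (CfsgLib.Golay.card_toSet _).symm ▸ by rw [CfsgLib.Golay.toSet_toMask], fun s hs => ?_⟩
  classical
  have huniq : ∀ b ∈ Cfsg.octads, ∀ c ∈ Cfsg.octads, s ⊆ b → s ⊆ c → b = c := by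
    intro b hb c hc hsb hsc
    obtain ⟨x, hx, rfl⟩ := CfsgLib.Golay.exists_mask_octad hb
    obtain ⟨y, hy, rfl⟩ := CfsgLib.Golay.exists_mask_octad hc
    rw [CfsgLib.Golay.octad_eq_of_five hx hy]
    rw [← CfsgLib.Golay.card_toSet, CfsgLib.Golay.toSet_and, ← hs]
    exact Finset.card_le_card (Finset.subset_inter hsb hsc)
  let O : Finset (Finset Cfsg.GolayPt) :=
    (CfsgLib.Golay.octList.map CfsgLib.Golay.toSet).toFinset
  have hO : ∀ o, o ∈ O ↔ o ∈ Cfsg.octads := by
    intro o
    simp only [O, List.mem_toFinset, List.mem_map]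
    constructor
    · rintro ⟨m, hm, rfl⟩; exact CfsgLib.Golay.toSet_mem_octads hm
    · intro ho; exact CfsgLib.Golay.exists_mask_octad ho
  have hOcard : O.card = 759 := by
    rw [← CfsgLib.Golay.ncard_octads, ← Set.ncard_coe_finset]
    congr 1; ext o; exact hO o
  let F : Finset (Finset Cfsg.GolayPt) := O.biUnion fun o => o.powersetCard 5
  have hcard8 : ∀ o ∈ O, o.card = 8 := by
    intro o ho
    obtain ⟨m, hm, rfl⟩ := CfsgLib.Golay.exists_mask_octad ((hO o).1 ho)
    rw [CfsgLib.Golay.card_toSet]; exact (CfsgLib.Golay.mem_octList.1 hm).2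
  have hdisj : ∀ b ∈ O, ∀ c ∈ O, b ≠ c → Disjoint (b.powersetCard 5) (c.powersetCard 5) := by
    intro b hb c hc hne
    rw [Finset.disjoint_left]
    intro t htb htc
    apply hne
    obtain ⟨x, hx, rfl⟩ := CfsgLib.Golay.exists_mask_octad ((hO b).1 hb)
    obtain ⟨y, hy, rfl⟩ := CfsgLib.Golay.exists_mask_octad ((hO c).1 hc)
    rw [Finset.mem_powersetCard] at htb htc
    rw [CfsgLib.Golay.octad_eq_of_five hx hy]
    rw [← CfsgLib.Golay.card_toSet, CfsgLib.Golay.toSet_and, ← htb.2]
    exact Finset.card_le_card (Finset.subset_inter htb.1 htc.1)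
  have hFcard : F.card = 42504 := by
    rw [Finset.card_biUnion hdisj,
      Finset.sum_congr rfl (fun o ho => by rw [Finset.card_powersetCard, hcard8 o ho])]
    rw [Finset.sum_const, hOcard, smul_eq_mul]; decide +kernel
  have hF : F = (Finset.univ : Finset Cfsg.GolayPt).powersetCard 5 := by
    apply Finset.eq_of_subset_of_card_le
    · intro t ht
      simp only [F, Finset.mem_biUnion, Finset.mem_powersetCard] at ht ⊢
      obtain ⟨o, -, -, h⟩ := ht
      exact ⟨Finset.subset_univ _, h⟩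
    · rw [hFcard, Finset.card_powersetCard, Finset.card_univ]
      exact le_of_eq (by decide +kernel)
  have hsF : s ∈ F := by rw [hF, Finset.mem_powersetCard]; exact ⟨Finset.subset_univ _, hs⟩
  simp only [F, Finset.mem_biUnion, Finset.mem_powersetCard] at hsF
  obtain ⟨o, ho, hso, -⟩ := hsF
  exact ⟨o, ⟨(hO o).1 ho, hso⟩, fun c hc => huniq c hc.1 o ((hO o).1 ho) hc.2 hso⟩

end Cfsg.Agent.S0363
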