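import Cfsg.Statements.S0369
import Cfsg.Agent.Lib.Golay.Trans

set_option autoImplicit false
set_option linter.all false
open scoped Pointwise
open Cfsg

namespace Cfsg.Agent.S0369

/-- The group of the length-24 code coincides with the automorphism group of its octad system. -/
theorem result : Cfsg.M24 = Cfsg.setSystemAut Cfsg.octads := by
  refine le_antisymm (fun g hg => ?_) (fun g hg => ?_)
  · rw [MulAction.mem_stabilizer_iff]
    have hsub : g • Cfsg.octads ⊆ Cfsg.octads := by
      rintro _ ⟨s, hs, rfl⟩
      exact CfsgLib.Golay.smul_octad hg hs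
    exact Set.eq_of_subset_of_ncard_le hsub (by rw [Set.ncard_smul_set]) (Set.toFinite _)
  · have hgo : ∀ s ∈ Cfsg.octads, g • s ∈ Cfsg.octads := fun s hs => by
      rw [← (MulAction.mem_stabilizer_iff.1 hg)]
      exact Set.smul_mem_smul_set hs
    have hgens : ∀ m ∈ CfsgLib.Golay.gens, CfsgLib.Golay.inCode m = true ∧ CfsgLib.Golay.pc m = 8 := by
      decide +kernel
    have key : ∀ l : List ℕ, l ⊆ CfsgLib.Golay.gens → ∀ m ∈ CfsgLib.Golay.spanList l,
        CfsgLib.Golay.inCode (CfsgLib.Golay.toMask (g • CfsgLib.Golay.toSet m)) = true := by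
      intro l
      induction l with
      | nil =>
        intro _ m hm
        simp only [CfsgLib.Golay.spanList, List.mem_singleton] at hm
        subst hm
        rw [CfsgLib.Golay.toSet_zero, Finset.smul_finset_empty]; decide
      | cons x l ih =>
        intro hl m hm
        simp only [CfsgLib.Golay.spanList, List.mem_flatMap, List.mem_cons, List.not_mem_nil,
          or_false] at hm
        have hxg := List.cons_subset.1 hl
        obtain ⟨y, hy, rfl | rfl⟩ := hm
        · exact ih hxg.2 _ hy
        · rw [CfsgLib.Golay.toSet_xor, CfsgLib.Golay.smul_symmDiff', CfsgLib.Golay.toMask_symmDiff]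
          refine CfsgLib.Golay.inCode_xor ?_ (ih hxg.2 y hy)
          have h1 := hgo _ (CfsgLib.Golay.toSet_mem_octads
            (CfsgLib.Golay.mem_octList.2 (hgens x hxg.1)))
          exact (CfsgLib.Golay.mem_octList.1 ((CfsgLib.Golay.mem_octads_iff _).1 h1)).1
    have hsub : g • Cfsg.supports (Cfsg.golayCode : Set (Cfsg.GolayPt → ZMod 2)) ⊆
        Cfsg.supports (Cfsg.golayCode : Set (Cfsg.GolayPt → ZMod 2)) := by
      rintro _ ⟨s, hs, rfl⟩
      rw [CfsgLib.Golay.mem_supports_iff] at hs ⊢
      have := key _ (List.Subset.refl _) _ (CfsgLib.Golay.mem_codeList.2 hs)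
      rwa [CfsgLib.Golay.toSet_toMask] at this
    exact MulAction.mem_stabilizer_iff.2
      (Set.eq_of_subset_of_ncard_le hsub (by rw [Set.ncard_smul_set]) (Set.toFinite _))

end Cfsg.Agent.S0369
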