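import Cfsg.Statements.S0370
import Cfsg.Agent.Lib.Golay.Perm

set_option autoImplicit false
set_option linter.all false
open Cfsg

namespace Cfsg.Agent.S0370

/-- The permutation x ↦ x + 1 of the residues modulo 23, fixing the extra point, lies in the group of the length-24 code. -/
theorem result : Equiv.optionCongr (Equiv.addRight (1 : ZMod 23)) ∈ Cfsg.M24 := by
  have h : CfsgLib.Golay.inM24 956302485175575353788796878166559809 = true := by decide +kernel
  convert CfsgLib.Golay.toPerm_mem_M24 h using 1
  refine (CfsgLib.Golay.toPerm_eq_of_forall (by decide +kernel) ?_).symm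
  decide +kernel

end Cfsg.Agent.S0370
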