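import Cfsg.Statements.S0371
import Cfsg.Agent.Lib.Golay.Perm

set_option autoImplicit false
set_option linter.all false
open Cfsg

namespace Cfsg.Agent.S0371

/-- Multiplication by a nonzero square residue modulo 23, fixing the extra point, lies in the group of the length-24 code. -/
theorem result (u : (ZMod 23)ˣ) (hu : IsSquare u) : Equiv.optionCongr (Units.mulLeft u) ∈ Cfsg.M24 := by
  have h : ∀ a : ZMod 23, a ≠ 0 → (∃ r, a = r * r) →
      ∃ p ∈ [984818244535754528103549039458486304, 983435072843990828779021698901151808, 982051901153124072706648311500937312, 980668730378935070469623699575545984, 977903326592794432676351619257413824, 975166140090675008210365318152896768, 973782968399780250007192978068752672, 970567384681219435340729552166356352, 969184212989482915311201746032266656, 965063883269089610517257152230401536, 962298451038133363011374430748423744], CfsgLib.Golay.inM24 p = true ∧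
        ∀ x : ZMod 23, CfsgLib.Golay.img p x.val = (a * x).val ∧ CfsgLib.Golay.img p 23 = 23 := by
    decide +kernel
  obtain ⟨p, -, hp, hx⟩ := h (u : ZMod 23) (by haveI : Fact (Nat.Prime 23) := ⟨by norm_num⟩; exact u.ne_zero) (by obtain ⟨r, rfl⟩ := hu; exact ⟨r, by simp⟩)
  have hok : CfsgLib.Golay.okPerm p = true := by
    simp only [CfsgLib.Golay.inM24, Bool.and_eq_true] at hp; exact hp.1
  convert CfsgLib.Golay.toPerm_mem_M24 hp using 1
  refine (CfsgLib.Golay.toPerm_eq_of_forall hok ?_).symm
  rintro (_ | x)
  · show CfsgLib.Golay.pt (CfsgLib.Golay.img p 23) = none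
    rw [(hx 0).2]; rfl
  · show CfsgLib.Golay.pt (CfsgLib.Golay.img p x.val) = some ((u : ZMod 23) * x)
    rw [(hx x).1]
    exact CfsgLib.Golay.pt_idx (some ((u : ZMod 23) * x))

end Cfsg.Agent.S0371
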