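import Cfsg.Statements.S0372
import Cfsg.Agent.Lib.Golay.Perm

set_option autoImplicit false
set_option linter.all false
open Cfsg

namespace Cfsg.Agent.S0372

/-- The involution x ↦ -1/x of the projective line over ZMod 23 lies in the group of the length-24 code. -/
theorem result : Cfsg.projInv ∈ Cfsg.M24 := by
  have h : CfsgLib.Golay.inM24 1795248432537898728475572672376535 = true := by decide +kernel
  convert CfsgLib.Golay.toPerm_mem_M24 h using 1
  refine (CfsgLib.Golay.toPerm_eq_of_forall (by decide +kernel) ?_).symm
  decide +kernel

end Cfsg.Agent.S0372
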