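import Cfsg.Statements.S0373
import Cfsg.Agent.Lib.Golay.Perm

set_option autoImplicit false
set_option linter.all false
open Cfsg

namespace Cfsg.Agent.S0373

/-- The cube-twist permutation (squares t ↦ t^3/9, non-squares t ↦ 9t^3, extra point fixed) lies in the group of the length-24 code. -/
theorem result : Cfsg.cubeTwist ∈ Cfsg.M24 := by
  have h : CfsgLib.Golay.inM24 974380510768821363662145534143076928 = true := by decide +kernel
  convert CfsgLib.Golay.toPerm_mem_M24 h using 1
  refine (CfsgLib.Golay.toPerm_eq_of_forall (by decide +kernel) ?_).symm
  intro x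
  simp only [Cfsg.cubeTwist, Equiv.ofBijective_apply]
  revert x
  decide +kernel

end Cfsg.Agent.S0373
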