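import Cfsg.Statements.S0374
import Cfsg.Agent.Lib.Golay.Trans

set_option autoImplicit false
set_option linter.all false
open Cfsg

namespace Cfsg.Agent.S0374

/-- The group of the length-24 code is generated by x ↦ x+1, x ↦ -1/x and the cube-twist permutation. -/
theorem result : Subgroup.closure {Equiv.optionCongr (Equiv.addRight (1 : ZMod 23)), Cfsg.projInv, Cfsg.cubeTwist} = Cfsg.M24 := by
  have h1 : CfsgLib.Golay.toPerm CfsgLib.Golay.genT =
      Equiv.optionCongr (Equiv.addRight (1 : ZMod 23)) :=
    CfsgLib.Golay.toPerm_eq_of_forall (by decide +kernel) (by decide +kernel)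
  have h2 : CfsgLib.Golay.toPerm CfsgLib.Golay.genS = Cfsg.projInv :=
    CfsgLib.Golay.toPerm_eq_of_forall (by decide +kernel) (by decide +kernel)
  have h3 : CfsgLib.Golay.toPerm CfsgLib.Golay.genC = Cfsg.cubeTwist :=
    CfsgLib.Golay.toPerm_eq_of_forall (by decide +kernel) (by decide +kernel)
  rw [← h1, ← h2, ← h3]
  exact CfsgLib.Golay.closure_gens

end Cfsg.Agent.S0374
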