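import Cfsg.Statements.S0376
import Cfsg.Agent.Lib.Golay.Trans

set_option autoImplicit false
set_option linter.all false
open Cfsg

namespace Cfsg.Agent.S0376

/-- A point stabiliser in the group of the length-24 code has order 10200960 = 2^7·3^2·5·7·11·23. -/
theorem result (p : Cfsg.GolayPt) : Nat.card (MulAction.stabilizer Cfsg.M24 p) = 10200960 := by
  have h := CfsgLib.Golay.card_fixT (k := 1) (by norm_num) ⟨![p], fun i j _ => Subsingleton.elim i j⟩
  have e : CfsgLib.Golay.fixT ![p] = MulAction.stabilizer Cfsg.M24 p := by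
    simp [CfsgLib.Golay.fixT]
  rw [← e]
  exact h.trans CfsgLib.Golay.card_fixB_two.1

end Cfsg.Agent.S0376
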