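import Cfsg.Statements.S0377
import Cfsg.Agent.Lib.Golay.SmallGroups

set_option autoImplicit false
set_option linter.all false
open Cfsg

namespace Cfsg.Agent.S0377

/-- A point stabiliser in the group of the length-24 code is simple. -/
theorem result (p : Cfsg.GolayPt) : IsSimpleGroup (MulAction.stabilizer Cfsg.M24 p) := by
  obtain ⟨e⟩ := CfsgLib.Golay.equiv_stab_pt p
  exact e.isSimpleGroup_congr.2 CfsgLib.Golay.simple_S23

end Cfsg.Agent.S0377
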