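import Cfsg.Statements.S0378
import Cfsg.Agent.Lib.Golay.Trans

set_option autoImplicit false
set_option linter.all false
open Cfsg

namespace Cfsg.Agent.S0378

/-- A two-point stabiliser in the group of the length-24 code has order 443520 = 2^7·3^2·5·7·11. -/
theorem result (p q : Cfsg.GolayPt) (hpq : p ≠ q) : Nat.card ↥(MulAction.stabilizer Cfsg.M24 p ⊓ MulAction.stabilizer Cfsg.M24 q) = 443520 := by
  have hinj : Function.Injective ![p, q] := by
    intro i j
    fin_cases i <;> fin_cases j <;> simp [hpq, Ne.symm hpq]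
  have h := CfsgLib.Golay.card_fixT (k := 2) (by norm_num) ⟨![p, q], hinj⟩
  have e : CfsgLib.Golay.fixT ![p, q] = MulAction.stabilizer Cfsg.M24 p ⊓ MulAction.stabilizer Cfsg.M24 q := by
    ext g; simp [CfsgLib.Golay.fixT, Subgroup.mem_iInf, Fin.forall_fin_two]
  rw [← e]
  exact h.trans CfsgLib.Golay.card_fixB_two.2.1

end Cfsg.Agent.S0378
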