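import Cfsg.Statements.S0381
import Cfsg.Agent.Lib.Golay.Trans

set_option autoImplicit false
set_option linter.all false
open Cfsg

namespace Cfsg.Agent.S0381

/-- The pointwise stabiliser of an octad in the group of the length-24 code has order 16 and every element of it squares to the identity. -/
theorem result (o : Finset Cfsg.GolayPt) (ho : o ∈ Cfsg.octads) : Nat.card ↥(Cfsg.M24 ⊓ fixingSubgroup (Equiv.Perm Cfsg.GolayPt) (o : Set Cfsg.GolayPt)) = 16 ∧ ∀ g ∈ Cfsg.M24 ⊓ fixingSubgroup (Equiv.Perm Cfsg.GolayPt) (o : Set Cfsg.GolayPt), g * g = 1 := by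
  obtain ⟨a, ha, hao⟩ := CfsgLib.Golay.octad_transitive
    (CfsgLib.Golay.toSet_mem_octads CfsgLib.Golay.octO_check.1) ho
  have key : ∀ g : Equiv.Perm Cfsg.GolayPt,
      g ∈ Cfsg.M24 ⊓ fixingSubgroup (Equiv.Perm Cfsg.GolayPt) (o : Set Cfsg.GolayPt) ↔
        a⁻¹ * g * a ∈ CfsgLib.Golay.fixB 6 := by
    intro g
    constructor
    · rintro ⟨hg, hfix⟩
      refine CfsgLib.Golay.mem_fixB_six (mul_mem (mul_mem (inv_mem ha) hg) ha) fun x hx => ?_
      have hax : a x ∈ o := by rw [← hao]; exact Finset.smul_mem_smul_finset (a := a) hx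
      have h1 : g (a x) = a x := (mem_fixingSubgroup_iff _).1 hfix _ hax
      rw [Equiv.Perm.mul_apply, Equiv.Perm.mul_apply, h1]
      exact a.symm_apply_apply x
    · intro h
      refine ⟨?_, (mem_fixingSubgroup_iff _).2 fun y hy => ?_⟩
      · have := mul_mem (mul_mem ha h.1) (inv_mem ha)
        simpa [mul_assoc] using this
      · rw [Finset.mem_coe, ← hao, Finset.mem_smul_finset] at hy
        obtain ⟨x, hx, rfl⟩ := hy
        have h1 := (CfsgLib.Golay.fixB_six_spec h).1 x hx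
        rw [Equiv.Perm.mul_apply, Equiv.Perm.mul_apply, Equiv.Perm.inv_eq_iff_eq] at h1
        exact h1
  refine ⟨?_, fun g hg => ?_⟩
  · rw [← CfsgLib.Golay.card_fixB_two.2.2.2.2.2]
    refine Nat.card_congr ⟨fun g => ⟨_, (key g).1 g.2⟩,
      fun g => ⟨a * g * a⁻¹, (key _).2 (by simp [mul_assoc])⟩, fun g => ?_, fun g => ?_⟩
    · apply Subtype.ext; simp [mul_assoc]
    · apply Subtype.ext; simp [mul_assoc]
  · have h1 := (CfsgLib.Golay.fixB_six_spec ((key g).1 hg)).2
    have h2 : a⁻¹ * (g * g) * a = 1 := by rw [← h1]; simp [mul_assoc]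
    simpa [mul_assoc, inv_mul_eq_one, mul_eq_one_iff_eq_inv, eq_comm] using h2

end Cfsg.Agent.S0381
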