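import Cfsg.Statements.S0384
import Cfsg.Agent.Lib.Golay.Compl

set_option autoImplicit false
set_option linter.all false
open scoped Pointwise
open Cfsg

namespace Cfsg.Agent.S0384

/-- A dodecad stabiliser is sharply 5-transitive on the dodecad. -/
theorem result (d : Finset Cfsg.GolayPt) (hd : d ∈ Cfsg.dodecads) (x y : Fin 5 ↪ Cfsg.GolayPt) (hx : ∀ i, x i ∈ d) (hy : ∀ i, y i ∈ d) : ∃! g : MulAction.stabilizer Cfsg.M24 d, ∀ i, ((g : Cfsg.M24) : Equiv.Perm Cfsg.GolayPt) (x i) = y i := by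
  obtain ⟨a, ha, e⟩ := CfsgLib.Golay.exists_dodD hd
  obtain ⟨g, hg, h⟩ := CfsgLib.Golay.S12_tuple (x.trans a⁻¹.toEmbedding) (y.trans a⁻¹.toEmbedding)
    (fun i => CfsgLib.Golay.mem_of_conj e (hx i)) (fun i => CfsgLib.Golay.mem_of_conj e (hy i))
  obtain ⟨hm, hs⟩ := CfsgLib.Golay.conj_mem_of_stab_dod ha e hg
  refine ⟨⟨⟨a * g * a⁻¹, hm⟩, hs⟩, fun i => ?_, fun k hk => ?_⟩
  · have := h i
    simp only [Function.Embedding.trans_apply, Equiv.coe_toEmbedding] at this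
    change a (g (a⁻¹ (x i))) = y i
    rw [this]; exact a.apply_symm_apply _
  · have hk2 : a⁻¹ * ((k : Cfsg.M24) : Equiv.Perm Cfsg.GolayPt) * a ∈ CfsgLib.Golay.S12 := by
      refine Subgroup.mem_inf.2 ⟨mul_mem (mul_mem (inv_mem ha) (k : Cfsg.M24).2) ha,
        CfsgLib.Golay.conj_smul.2 ?_⟩
      rw [e]; exact k.2
    have heq := CfsgLib.Golay.S12_sharp (x.trans a⁻¹.toEmbedding) (fun i => CfsgLib.Golay.mem_of_conj e (hx i)) hk2 hg
      (fun i => by
        rw [h i]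
        simp [Equiv.Perm.mul_apply, hk i])
    apply Subtype.ext; apply Subtype.ext
    change ((k : Cfsg.M24) : Equiv.Perm Cfsg.GolayPt) = a * g * a⁻¹
    rw [← heq]; simp [mul_assoc]

end Cfsg.Agent.S0384
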