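import Cfsg.Statements.S0385
import Cfsg.Agent.Lib.Golay.Inter
import Cfsg.Agent.Lib.Golay.CertDodOctOk

set_option autoImplicit false
set_option linter.all false
open scoped Pointwise
open Cfsg

namespace Cfsg.Agent.S0385

/-- The 6-point intersections of octads with a fixed dodecad form a Steiner system S(5, 6, 12) on the dodecad. -/
theorem result (d : Finset Cfsg.GolayPt) (hd : d ∈ Cfsg.dodecads) : Cfsg.IsSteinerSystem 5 6 {h : Finset {p : Cfsg.GolayPt // p ∈ d} | ∃ o ∈ Cfsg.octads, (o ∩ d).card = 6 ∧ h = Finset.subtype (fun p => p ∈ d) o} := by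
  obtain ⟨a, ha, hS⟩ := CfsgLib.Golay.exists_dodD_Sys hd
  have h246 : ∀ o ∈ Cfsg.octads, (d ∩ o).card = 2 ∨ (d ∩ o).card = 6 ∨ (d ∩ o).card = 4 := by
    intro o ho
    obtain ⟨i, hi, hk⟩ := CfsgLib.Golay.octKind.single_inter rfl CfsgLib.Golay.certDodOct_ok ha hS ho
    rw [show CfsgLib.Golay.certDodOct.1.length = 3 by decide +kernel] at hi
    obtain rfl | rfl | rfl : i = 0 ∨ i = 1 ∨ i = 2 := by omega
    · exact Or.inl (CfsgLib.Golay.pow256_inj (hk.trans (by decide +kernel)))
    · exact Or.inr (Or.inl (CfsgLib.Golay.pow256_inj (hk.trans (by decide +kernel))))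
    · exact Or.inr (Or.inr (CfsgLib.Golay.pow256_inj (hk.trans (by decide +kernel))))
  have hsub : ∀ o : Finset Cfsg.GolayPt, (Finset.subtype (fun p => p ∈ d) o).card = (o ∩ d).card := by
    intro o
    rw [Finset.card_subtype, Finset.filter_mem_eq_inter]
  refine ⟨?_, fun s hs => ?_⟩
  · rintro _ ⟨o, -, ho6, rfl⟩
    rw [hsub, ho6]
  · have hs' : (s.map (Function.Embedding.subtype _)).card = 5 := by rw [Finset.card_map, hs]
    obtain ⟨z, hz, hzs⟩ : ∃ z : Fin 5 ↪ Cfsg.GolayPt, (∀ i, z i ∈ s.map (Function.Embedding.subtype _)) ∧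
        Finset.univ.map z = s.map (Function.Embedding.subtype _) := by
      refine ⟨(Finset.equivFinOfCardEq hs').symm.toEmbedding.trans (Function.Embedding.subtype _),
        fun i => ((Finset.equivFinOfCardEq hs').symm i).2, ?_⟩
      refine Finset.eq_of_subset_of_card_le (fun x hx => ?_) (by simp [hs])
      simp only [Finset.mem_map, Finset.mem_univ, true_and] at hx
      obtain ⟨i, rfl⟩ := hx
      exact ((Finset.equivFinOfCardEq hs').symm i).2
    obtain ⟨g, hg, hgz⟩ := CfsgLib.Golay.exists_to_base 5 le_rfl z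
    have ho : g⁻¹ • CfsgLib.Golay.toSet CfsgLib.Golay.octO ∈ Cfsg.octads := CfsgLib.Golay.smul_octad (inv_mem hg) CfsgLib.Golay.toSet_octO
    have hso : s.map (Function.Embedding.subtype _) ⊆ g⁻¹ • CfsgLib.Golay.toSet CfsgLib.Golay.octO := by
      rw [← hzs]
      intro x hx
      simp only [Finset.mem_map, Finset.mem_univ, true_and] at hx
      obtain ⟨i, rfl⟩ := hx
      rw [Finset.mem_inv_smul_finset_iff, Equiv.Perm.smul_def, hgz i]
      exact (by decide +kernel : ∀ i : Fin 5, CfsgLib.Golay.bp i ∈ CfsgLib.Golay.toSet CfsgLib.Golay.octO) i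
    have hsd : s.map (Function.Embedding.subtype _) ⊆ d := by
      intro x hx
      simp only [Finset.mem_map] at hx
      obtain ⟨y, -, rfl⟩ := hx
      exact y.2
    generalize g⁻¹ • CfsgLib.Golay.toSet CfsgLib.Golay.octO = o at ho hso
    have h5 : 5 ≤ (o ∩ d).card := hs' ▸ Finset.card_le_card (Finset.subset_inter hso hsd)
    have h6 : (o ∩ d).card = 6 := by
      have := h246 o ho
      rw [Finset.inter_comm] at this
      omega
    refine ⟨Finset.subtype (fun p => p ∈ d) o, ⟨⟨o, ho, h6, rfl⟩, fun y hy => ?_⟩, ?_⟩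
    · rw [Finset.mem_subtype]
      exact hso (Finset.mem_map_of_mem _ hy)
    · rintro _ ⟨⟨o', ho', -, rfl⟩, hsub'⟩
      rw [CfsgLib.Golay.octad_unique ho' ho ?_]
      rw [← hs']
      refine Finset.card_le_card (Finset.subset_inter (fun x hx => ?_) hso)
      simp only [Finset.mem_map] at hx
      obtain ⟨y, hy, rfl⟩ := hx
      exact Finset.mem_subtype.1 (hsub' hy)

end Cfsg.Agent.S0385
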