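import Cfsg.Statements.S0386
import Cfsg.Agent.Lib.Golay.Inter
import Cfsg.Agent.Lib.Golay.CertDodOctOk

set_option autoImplicit false
set_option linter.all false
open Cfsg

namespace Cfsg.Agent.S0386

/-- For a fixed dodecad, 132 octads meet it in 6 points, 132 in 2 points and 495 in 4 points. -/
theorem result (d : Finset Cfsg.GolayPt) (hd : d ∈ Cfsg.dodecads) : {o : Finset Cfsg.GolayPt | o ∈ Cfsg.octads ∧ (o ∩ d).card = 6}.ncard = 132 ∧ {o : Finset Cfsg.GolayPt | o ∈ Cfsg.octads ∧ (o ∩ d).card = 2}.ncard = 132 ∧ {o : Finset Cfsg.GolayPt | o ∈ Cfsg.octads ∧ (o ∩ d).card = 4}.ncard = 495 := by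
  obtain ⟨a, ha, hS⟩ := CfsgLib.Golay.exists_dodD_Sys hd
  simp only [Finset.inter_comm _ d]
  exact ⟨CfsgLib.Golay.octKind.single_count rfl CfsgLib.Golay.certDodOct_ok ha hS (i := 1) (k := 6) (n := 132) (by decide +kernel) (by decide +kernel) (by decide +kernel),
    CfsgLib.Golay.octKind.single_count rfl CfsgLib.Golay.certDodOct_ok ha hS (i := 0) (k := 2) (n := 132) (by decide +kernel) (by decide +kernel) (by decide +kernel),
    CfsgLib.Golay.octKind.single_count rfl CfsgLib.Golay.certDodOct_ok ha hS (i := 2) (k := 4) (n := 495) (by decide +kernel) (by decide +kernel) (by decide +kernel)⟩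

end Cfsg.Agent.S0386
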