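import Cfsg.Statements.S0389
import Cfsg.Agent.Lib.Golay.Compl

set_option autoImplicit false
set_option linter.all false
open scoped Pointwise
open Cfsg

namespace Cfsg.Agent.S0389

/-- The stabiliser of a dodecad and a point on it is 3-transitive on the complementary dodecad. -/
theorem result (d : Finset Cfsg.GolayPt) (hd : d ∈ Cfsg.dodecads) (p : Cfsg.GolayPt) (hp : p ∈ d) (x y : Fin 3 ↪ Cfsg.GolayPt) (hx : ∀ i, x i ∉ d) (hy : ∀ i, y i ∉ d) : ∃ g ∈ MulAction.stabilizer Cfsg.M24 d ⊓ MulAction.stabilizer Cfsg.M24 p, ∀ i, (g : Equiv.Perm Cfsg.GolayPt) (x i) = y i := by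
  obtain ⟨a, ha, e, e0⟩ := CfsgLib.Golay.exists_dod_pt hd hp
  obtain ⟨g, hg, h⟩ := CfsgLib.Golay.S11_tuple_compl (x.trans a⁻¹.toEmbedding) (y.trans a⁻¹.toEmbedding)
    (fun i => CfsgLib.Golay.notMem_of_conj e (hx i)) (fun i => CfsgLib.Golay.notMem_of_conj e (hy i))
  obtain ⟨hm, hs⟩ := CfsgLib.Golay.conj_mem_of_stab_dod ha e hg.1
  refine ⟨⟨a * g * a⁻¹, hm⟩, Subgroup.mem_inf.2 ⟨hs, ?_⟩, fun i => ?_⟩
  · rw [MulAction.mem_stabilizer_iff, ← e0]
    change (a * g * a⁻¹) (a _) = a _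
    rw [CfsgLib.Golay.conj_apply', CfsgLib.Golay.mem_stab_pt.1 hg.2]
  · have := h i
    simp only [Function.Embedding.trans_apply, Equiv.coe_toEmbedding] at this
    change a (g (a⁻¹ (x i))) = y i
    rw [this]; exact a.apply_symm_apply _

end Cfsg.Agent.S0389
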