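import Cfsg.Statements.S0439
import Cfsg.Agent.Lib.Core

set_option autoImplicit false
open Cfsg

namespace Cfsg.Agent.S0439

/-- In the symmetric group of degree n ≥ 2, the set of transpositions is a conjugacy class of 3-transpositions which generates the group. -/
theorem result (n : ℕ) (hn : 2 ≤ n) : Cfsg.IsThreeTranspositionClass {σ : Equiv.Perm (Fin n) | σ.IsSwap} := by
  classical
  have hconj : ∀ x : Equiv.Perm (Fin n), x.IsSwap → ∀ g : Equiv.Perm (Fin n), (g * x * g⁻¹).IsSwap := by
    rintro x ⟨a, b, hab, rfl⟩ g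
    exact ⟨g a, g b, g.injective.ne hab, by rw [← Equiv.swap_apply_apply]⟩
  refine ⟨⟨?_, ?_⟩, ?_, Equiv.Perm.closure_isSwap⟩
  · rintro _ ⟨a, b, hab, rfl⟩
    exact orderOf_eq_prime (by rw [pow_two, Equiv.swap_mul_self]) (fun h => hab (by
      have := DFunLike.congr_fun h a
      simpa using this.symm))
  · rintro _ ⟨a, b, hab, rfl⟩ _ ⟨c, d, hcd, rfl⟩
    have share : ∀ x y z : Fin n, x ≠ y → x ≠ z →
        (Equiv.swap x y * Equiv.swap x z) ^ 2 = 1 ∨ (Equiv.swap x y * Equiv.swap x z) ^ 3 = 1 := by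
      intro x y z hxy hxz
      by_cases hyz : y = z
      · subst hyz; left; rw [Equiv.swap_mul_self, one_pow]
      · right
        rw [← (Equiv.Perm.isThreeCycle_swap_mul_swap_same hxy hxz hyz).orderOf, pow_orderOf_eq_one]
    by_cases h1 : a = c
    · subst h1; exact share a b d hab hcd
    by_cases h2 : a = d
    · subst h2; rw [Equiv.swap_comm c a]; exact share a b c hab (Ne.symm hcd)
    by_cases h3 : b = c
    · subst h3; rw [Equiv.swap_comm a b]; exact share b a d (Ne.symm hab) hcd
    by_cases h4 : b = d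
    · subst h4; rw [Equiv.swap_comm a b, Equiv.swap_comm c b]; exact share b a c (Ne.symm hab) (Ne.symm hcd)
    left
    have hd : Equiv.Perm.Disjoint (Equiv.swap a b) (Equiv.swap c d) := fun x => by
      by_cases hx : x = a ∨ x = b
      · right
        rcases hx with rfl | rfl
        · exact Equiv.swap_apply_of_ne_of_ne h1 h2
        · exact Equiv.swap_apply_of_ne_of_ne h3 h4
      · push Not at hx
        exact Or.inl (Equiv.swap_apply_of_ne_of_ne hx.1 hx.2)
    rw [hd.commute.mul_pow, pow_two, pow_two, Equiv.swap_mul_self, Equiv.swap_mul_self, one_mul]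
  · have h01 : (⟨0, by omega⟩ : Fin n) ≠ ⟨1, by omega⟩ := by simp
    refine ⟨_, ⟨_, _, h01, rfl⟩, Set.ext fun x => ⟨?_, ?_⟩⟩
    · rintro ⟨a, b, hab, rfl⟩
      exact Equiv.Perm.isConj_swap h01 hab
    · intro hx
      obtain ⟨g, rfl⟩ := isConj_iff.mp hx
      exact hconj _ ⟨_, _, h01, rfl⟩ g

end Cfsg.Agent.S0439
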