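import Cfsg.Statements.S0440
import Cfsg.Agent.Lib.Symplectic.Basic

set_option autoImplicit false
set_option linter.all false
open Cfsg
open scoped Matrix

namespace Cfsg.Agent.S0440

open CfsgLib.Symplectic.Basic

variable {n : ℕ}

local notation "F₂" => ZMod 2

theorem cases_two (c : ZMod 2) : c = 0 ∨ c = 1 := by revert c; decide

theorem T_ne_one {w : V n (ZMod 2)} (hw : w ≠ 0) : T w (1 : ZMod 2) ≠ 1 := by
  intro h
  obtain ⟨v, hv⟩ := exists_B_eq_one hw
  have hv' : B v w = (1 : ZMod 2) := by rw [B_swap, hv]; decide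
  have := T_apply w (1 : ZMod 2) v
  rw [h, hv'] at this
  simp [hw] at this

theorem T_zero_vec (c : ZMod 2) : T (0 : V n (ZMod 2)) c = 1 :=
  ext_mulVec fun x => by rw [T_apply]; simp

theorem range_T {w : V n (ZMod 2)} (hw : w ≠ 0) :
    LinearMap.range (Matrix.mulVecLin ((T w (1 : ZMod 2)).1 - 1)) = Submodule.span (ZMod 2) {w} := by
  apply le_antisymm
  · rintro _ ⟨x, rfl⟩
    rw [Matrix.mulVecLin_apply, Matrix.sub_mulVec, Matrix.one_mulVec, T_apply, add_sub_cancel_left]
    exact Submodule.smul_mem _ _ (Submodule.mem_span_singleton_self w)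
  · rw [Submodule.span_singleton_le_iff_mem]
    obtain ⟨v, hv⟩ := exists_B_eq_one hw
    have hv' : B v w = (1 : ZMod 2) := by rw [B_swap, hv]; decide
    refine ⟨v, ?_⟩
    rw [Matrix.mulVecLin_apply, Matrix.sub_mulVec, Matrix.one_mulVec, T_apply, add_sub_cancel_left, hv']
    simp

theorem mem_iff_T (g : Sp n (ZMod 2)) :
    (g.1 - 1).rank = 1 ↔ ∃ w : V n (ZMod 2), w ≠ 0 ∧ g = T w 1 := by
  constructor
  · intro h
    rw [Matrix.rank] at h
    obtain ⟨u, hu, hspan⟩ := finrank_eq_one_iff'.mp h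
    set u0 : V n (ZMod 2) := u.1 with hu0def
    have hu0 : u0 ≠ 0 := fun e => hu (Subtype.ext e)
    have hf : ∀ x, ∃ c : ZMod 2, g.1 *ᵥ x = x + c • u0 := by
      intro x
      obtain ⟨c, hc⟩ := hspan ⟨_, LinearMap.mem_range_self _ x⟩
      have e : c • u0 = (g.1 - 1).mulVecLin x := congrArg Subtype.val hc
      refine ⟨c, ?_⟩
      rw [e, Matrix.mulVecLin_apply, Matrix.sub_mulVec, Matrix.one_mulVec, add_sub_cancel]
    choose f hf using hf
    have key : ∀ x y, f x * B u0 y + f y * B x u0 = 0 := by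
      intro x y
      have := B_map g x y
      rw [hf x, hf y] at this
      simp only [map_add, map_smul, LinearMap.add_apply, LinearMap.smul_apply, smul_eq_mul, B_self, mul_zero, add_zero] at this
      linear_combination this
    obtain ⟨y, hy⟩ := exists_B_eq_one hu0
    have hfx : ∀ x, f x = -f y * B x u0 := by
      intro x
      have := key x y
      rw [hy] at this
      linear_combination this
    have hg : g = T u0 (-f y) := ext_mulVec fun x => by rw [hf, T_apply, hfx]
    rcases cases_two (-f y) with hc | hc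
    · rw [hc, T_zero] at hg
      exfalso
      apply hu
      obtain ⟨t, ht⟩ := u.2
      apply Subtype.ext
      rw [← ht, hg]; simp
    · exact ⟨u0, hu0, by rw [hg, hc]⟩
  · rintro ⟨w, hw, rfl⟩
    rw [Matrix.rank, range_T hw, finrank_span_singleton hw]

theorem T_sq (w : V n (ZMod 2)) : T w (1 : ZMod 2) * T w 1 = 1 := by
  rw [← T_add, show (1 : ZMod 2) + 1 = 0 by decide, T_zero]

/-- In the symplectic group of dimension 2n over the field with two elements (n ≥ 1), the transvections (elements g with g − 1 of rank 1) form a class of 3-transpositions. -/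

theorem result (n : ℕ) (hn : 1 ≤ n) : Cfsg.IsThreeTranspositionClass {g : Matrix.symplecticGroup (Fin n) (ZMod 2) | ((g : Matrix (Fin n ⊕ Fin n) (Fin n ⊕ Fin n) (ZMod 2)) - 1).rank = 1} := by
  have hD : {g : Matrix.symplecticGroup (Fin n) (ZMod 2) | ((g : Matrix (Fin n ⊕ Fin n) (Fin n ⊕ Fin n) (ZMod 2)) - 1).rank = 1}
      = {g | ∃ w : V n (ZMod 2), w ≠ 0 ∧ g = T w 1} := Set.ext fun g => mem_iff_T g
  rw [hD]
  have hinv : ∀ w : V n (ZMod 2), (T w (1 : ZMod 2))⁻¹ = T w 1 := fun w => inv_eq_of_mul_eq_one_right (T_sq w)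
  refine ⟨⟨?_, ?_⟩, ?_, ?_⟩
  · rintro _ ⟨w, hw, rfl⟩
    exact orderOf_eq_prime (by rw [pow_two]; exact T_sq w) (T_ne_one hw)
  · rintro _ ⟨u, hu, rfl⟩ _ ⟨v, hv, rfl⟩
    set a := T u (1 : ZMod 2) with ha
    set b := T v (1 : ZMod 2) with hb
    rcases cases_two (B v u) with h | h
    · left
      have e : a * b * a⁻¹ = b := by rw [hb, conj_T, T_fix h]
      rw [hinv] at e
      rw [pow_two, ← mul_assoc, e]
      exact T_sq v
    · right
      have h' : B u v = (1 : ZMod 2) := by rw [B_swap, h]; decide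
      have e1 : a * b * a = T (u + v) 1 := by
        conv_lhs => rw [hb]; arg 2; rw [ha, ← hinv u]
        rw [conj_T, T_apply, h]; simp [add_comm]
      have e2 : b * a * b = T (u + v) 1 := by
        conv_lhs => rw [ha]; arg 2; rw [hb, ← hinv v]
        rw [conj_T, T_apply, h']; simp
      calc (a * b) ^ 3 = (a * b * a) * (b * a * b) := by simp only [pow_succ, pow_zero, one_mul, mul_assoc]
        _ = 1 := by rw [e1, e2]; exact T_sq _
  · obtain ⟨i⟩ : Nonempty (Fin n) := ⟨⟨0, hn⟩⟩
    set e : V n (ZMod 2) := Pi.single (Sum.inl i) 1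
    have he : e ≠ 0 := by
      intro h0
      simpa [e] using congrFun h0 (Sum.inl i)
    refine ⟨T e 1, ⟨e, he, rfl⟩, Set.ext fun g => ?_⟩
    rw [show g ∈ conjugatesOf (T e (1 : ZMod 2)) ↔ IsConj (T e (1 : ZMod 2)) g from Iff.rfl, isConj_iff]
    constructor
    · rintro ⟨w, hw, rfl⟩
      obtain ⟨A, hA⟩ := exists_map_vec he hw
      exact ⟨A, by rw [conj_T, hA]⟩
    · rintro ⟨A, rfl⟩
      exact ⟨A.1 *ᵥ e, mulVec_ne_zero A he, conj_T A e 1⟩
  · rw [eq_top_iff, ← closure_T_eq_top, Subgroup.closure_le]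
    rintro _ ⟨w, c, rfl⟩
    rcases cases_two c with rfl | rfl
    · rw [T_zero]; exact Subgroup.one_mem _
    · by_cases hw : w = 0
      · subst hw; rw [T_zero_vec]; exact Subgroup.one_mem _
      · exact Subgroup.subset_closure ⟨w, hw, rfl⟩

end Cfsg.Agent.S0440
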