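import Cfsg.Statements.S0442
import Cfsg.Agent.Lib.Involution

set_option autoImplicit false
set_option linter.all false
open Cfsg

namespace Cfsg.Agent.S0442

/-- A standard trick for producing elements of an involution centraliser: for an involution a and an element g, let b be the conjugate g⁻¹ * a * g. If a * b has odd order 2m + 1 then g * (a * b) ^ m commutes with a; if a * b has even order 2m then (a * b) ^ m and (a * (g * a * g⁻¹)) ^ m commute with a. -/
theorem result {G : Type*} [Group G] (a g : G) (ha : orderOf a = 2) : (∀ m : ℕ, orderOf (a * (g⁻¹ * a * g)) = 2 * m + 1 → Commute (g * (a * (g⁻¹ * a * g)) ^ m) a) ∧ (∀ m : ℕ, orderOf (a * (g⁻¹ * a * g)) = 2 * m → Commute ((a * (g⁻¹ * a * g)) ^ m) a ∧ Commute ((a * (g * a * g⁻¹)) ^ m) a) := by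
  have hb : orderOf (g⁻¹ * a * g) = 2 := by
    simpa using CfsgLib.Involution.orderOf_conj' (g := g⁻¹) ha
  have hc : orderOf (g * a * g⁻¹) = 2 := CfsgLib.Involution.orderOf_conj' ha
  have key : ∀ b : G, orderOf b = 2 → ∀ m : ℕ, orderOf (a * b) = 2 * m → Commute ((a * b) ^ m) a := by
    intro b hb m hm
    have h1 : (a * b) ^ ((2 * m : ℕ) : ℤ) = 1 := by rw [zpow_natCast, ← hm, pow_orderOf_eq_one]
    have h2 : (a * b) ^ (-(m : ℤ)) = (a * b) ^ (m : ℤ) := by
      have e : (-(m : ℤ)) + ((2 * m : ℕ) : ℤ) = (m : ℤ) := by push_cast; ring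
      rw [← e, zpow_add, h1, mul_one, e]
    have h3 := CfsgLib.Involution.mul_zpow_eq ha hb (m : ℤ)
    rw [h2, zpow_natCast] at h3
    exact h3.symm
  refine ⟨fun m hm => ?_, fun m hm => ⟨key _ hb m hm, ?_⟩⟩
  · set x := a * (g⁻¹ * a * g) with hx
    have h1 : x ^ ((2 * m + 1 : ℕ) : ℤ) = 1 := by rw [zpow_natCast, ← hm, pow_orderOf_eq_one]
    have h3 := CfsgLib.Involution.mul_zpow_eq ha hb (m + 1 : ℤ)
    rw [← hx] at h3
    have h4 : x ^ (-((m : ℤ) + 1)) = x ^ (m : ℤ) := by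
      have e : -((m : ℤ) + 1) + ((2 * m + 1 : ℕ) : ℤ) = (m : ℤ) := by push_cast; ring
      rw [← e, zpow_add, h1, mul_one, e]
    rw [h4, zpow_add_one] at h3
    show g * x ^ m * a = a * (g * x ^ m)
    rw [← zpow_natCast]
    calc g * x ^ (m : ℤ) * a = g * (a * (x ^ (m : ℤ) * x)) := by rw [h3, mul_assoc]
      _ = g * (a * x * x ^ (m : ℤ)) := by rw [mul_assoc a x, ← zpow_add_one, ← zpow_one_add, add_comm]
      _ = g * ((a * a) * (g⁻¹ * a * g) * x ^ (m : ℤ)) := by rw [hx, mul_assoc a a]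
      _ = a * (g * x ^ (m : ℤ)) := by rw [CfsgLib.Involution.mul_self ha]; group
  · have hy : orderOf (a * (g * a * g⁻¹)) = 2 * m := by
      have e : a * (g * a * g⁻¹) = g * (a * (g⁻¹ * a * g))⁻¹ * g⁻¹ := by
        rw [mul_inv_rev, CfsgLib.Involution.inv_eq ha, CfsgLib.Involution.inv_eq hb]
        group
      rw [e, CfsgLib.Involution.orderOf_conj, orderOf_inv, hm]
    exact key _ hc m hy

end Cfsg.Agent.S0442
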