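import Cfsg.Statements.S0443
import Cfsg.Agent.Lib.Inv.TwoCentral

set_option autoImplicit false
set_option linter.all false
open Cfsg

namespace Cfsg.Agent.S0443

/-- Two definitions of a 2-central involution agree: an element t of order 2 of a finite group lies in the centre of some Sylow 2-subgroup if and only if its centraliser contains some Sylow 2-subgroup. -/
theorem result {G : Type*} [Group G] [Finite G] (t : G) (ht : orderOf t = 2) : Cfsg.IsTwoCentralInvolution t ↔ ∃ P : Sylow 2 G, (P : Subgroup G) ≤ Subgroup.centralizer ({t} : Set G) := by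
  constructor
  · rintro ⟨-, P, -, hP⟩
    exact ⟨P, fun x hx => Subgroup.mem_centralizer_singleton_iff.2 (hP x hx)⟩
  · rintro ⟨P, hP⟩
    have hc : ∀ x ∈ P, x * t = t * x := fun x hx => Subgroup.mem_centralizer_singleton_iff.1 (hP hx)
    refine ⟨ht, P, ?_, hc⟩
    have hn : Subgroup.zpowers t ≤ Subgroup.normalizer ((P : Subgroup G) : Set G) := by
      rw [Subgroup.zpowers_le, Subgroup.mem_normalizer_iff]
      intro x
      refine ⟨fun hx => ?_, fun hx => ?_⟩
      · rw [← hc x hx, mul_inv_cancel_right]; exact hx
      · have h := hc _ hx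
        have e : x = t * x * t⁻¹ := by
          have h2 : t * x = t * (t * x * t⁻¹) := by rw [← h]; group
          exact mul_left_cancel h2
        rw [e]; exact hx
    have h2 : IsPGroup 2 ↥((Subgroup.zpowers t) ⊔ (P : Subgroup G)) :=
      (CfsgLib.TwoCentral.isPGroup_zpowers ht).to_sup_of_normal_right' P.2 hn
    have := P.3 h2 le_sup_right
    have hm : t ∈ Subgroup.zpowers t ⊔ (P : Subgroup G) :=
      (le_sup_left : Subgroup.zpowers t ≤ _) (Subgroup.mem_zpowers t)
    rw [this] at hm
    exact hm

end Cfsg.Agent.S0443
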