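import Cfsg.Statements.S0445

set_option autoImplicit false
set_option linter.all false
open Cfsg
open Matrix

namespace Cfsg.Agent.S0445

/-- The matrices commuting with `1 + E₀₁` of determinant one, in coordinates. -/
def mk (r : Fin 4 → ZMod 2) (c : Fin 3 → ZMod 2) (B : Matrix (Fin 3) (Fin 3) (ZMod 2)) :
    Matrix (Fin 5) (Fin 5) (ZMod 2) :=
  !![1, r 0, r 1, r 2, r 3; 0, 1, 0, 0, 0; 0, c 0, B 0 0, B 0 1, B 0 2;
     0, c 1, B 1 0, B 1 1, B 1 2; 0, c 2, B 2 0, B 2 1, B 2 2]

theorem det_mk (r : Fin 4 → ZMod 2) (c : Fin 3 → ZMod 2) (B : Matrix (Fin 3) (Fin 3) (ZMod 2)) :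
    (mk r c B).det = B.det := by
  rw [Matrix.det_succ_column_zero, Fin.sum_univ_succ]
  have h0 : ∀ i : Fin 4, mk r c B i.succ 0 = 0 := by
    intro i; fin_cases i <;> rfl
  rw [Finset.sum_eq_zero (fun i _ => by rw [h0 i]; ring), add_zero]
  rw [Matrix.det_succ_row_zero, Fin.sum_univ_succ]
  rw [Finset.sum_eq_zero (fun i _ => by
    have : ((mk r c B).submatrix (Fin.succAbove 0) Fin.succ) 0 i.succ = 0 := by fin_cases i <;> rfl
    rw [this]; ring), add_zero]
  rw [Matrix.det_fin_three, Matrix.det_fin_three]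
  simp [mk]

theorem card_B : Nat.card {B : Fin 3 → Fin 3 → ZMod 2 // (Matrix.of B).det = 1} = 168 := by
  rw [Nat.card_eq_fintype_card, Fintype.card_subtype]
  simp only [Matrix.det_fin_three, Matrix.of_apply]
  decide +kernel

theorem commutes_iff (g : Matrix (Fin 5) (Fin 5) (ZMod 2)) :
    Matrix.transvection 0 1 1 * g = g * Matrix.transvection 0 1 1 ↔
      (g 1 0 = 0 ∧ g 2 0 = 0 ∧ g 3 0 = 0 ∧ g 4 0 = 0 ∧ g 1 2 = 0 ∧ g 1 3 = 0 ∧ g 1 4 = 0 ∧ g 1 1 = g 0 0) := by
  constructor
  · intro h
    have e := fun i j => congrFun (congrFun h i) j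
    have e00 := e 0 0
    have e02 := e 0 2
    have e03 := e 0 3
    have e04 := e 0 4
    have e01 := e 0 1
    have e21 := e 2 1
    have e31 := e 3 1
    have e41 := e 4 1
    simp [Matrix.transvection, Matrix.mul_apply, Fin.sum_univ_five, Matrix.one_apply, Matrix.single] at e00 e02 e03 e04 e01 e21 e31 e41
    exact ⟨e00, e21, e31, e41, e02, e03, e04, add_left_cancel (a := g 0 1) (e01.trans (add_comm _ _))⟩
  · rintro ⟨h1, h2, h3, h4, h5, h6, h7, h8⟩
    ext i j
    fin_cases i <;> fin_cases j <;>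
      simp [Matrix.transvection, Matrix.mul_apply, Fin.sum_univ_five, Matrix.one_apply, Matrix.single,
        h1, h2, h3, h4, h5, h6, h7, h8] <;> exact add_comm _ _

/-- In the special linear group of dimension 5 over the field with two elements, the centraliser of a transvection has order 21504 = 2 ^ 7 · 168 (it is an extension of an extraspecial group of order 2 ^ 7 by the simple group of order 168). -/

theorem result (s : Matrix.SpecialLinearGroup (Fin 5) (ZMod 2)) (hs : (s : Matrix (Fin 5) (Fin 5) (ZMod 2)) = Matrix.transvection 0 1 1) : Nat.card (Subgroup.centralizer ({s} : Set (Matrix.SpecialLinearGroup (Fin 5) (ZMod 2)))) = 21504 := by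
  classical
  let P := (Fin 4 → ZMod 2) × (Fin 3 → ZMod 2) × {B : Fin 3 → Fin 3 → ZMod 2 // (Matrix.of B).det = 1}
  have hmem : ∀ g : Matrix.SpecialLinearGroup (Fin 5) (ZMod 2),
      g ∈ Subgroup.centralizer ({s} : Set (Matrix.SpecialLinearGroup (Fin 5) (ZMod 2))) ↔
        Matrix.transvection 0 1 1 * g.1 = g.1 * Matrix.transvection 0 1 1 := by
    intro g
    rw [Subgroup.mem_centralizer_singleton_iff, ← hs]
    constructor
    · intro h; exact (congrArg Subtype.val h).symm
    · intro h; exact Subtype.ext h.symm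
  let f : P → ↥(Subgroup.centralizer ({s} : Set (Matrix.SpecialLinearGroup (Fin 5) (ZMod 2)))) := fun p =>
    ⟨⟨mk p.1 p.2.1 (Matrix.of p.2.2.1), by rw [det_mk]; exact p.2.2.2⟩,
      (hmem _).mpr ((commutes_iff _).mpr ⟨rfl, rfl, rfl, rfl, rfl, rfl, rfl, rfl⟩)⟩
  have hf : Function.Bijective f := by
    constructor
    · rintro ⟨r, c, B⟩ ⟨r', c', B'⟩ h
      have e : mk r c (Matrix.of B.1) = mk r' c' (Matrix.of B'.1) := congrArg (fun t => t.1.1) h
      have E := fun i j => congrFun (congrFun e i) j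
      refine Prod.ext ?_ (Prod.ext ?_ (Subtype.ext ?_))
      · funext k; fin_cases k
        exacts [E 0 1, E 0 2, E 0 3, E 0 4]
      · funext k; fin_cases k
        exacts [E 2 1, E 3 1, E 4 1]
      · funext i j; fin_cases i <;> fin_cases j
        exacts [E 2 2, E 2 3, E 2 4, E 3 2, E 3 3, E 3 4, E 4 2, E 4 3, E 4 4]
    · rintro ⟨g, hg⟩
      obtain ⟨h1, h2, h3, h4, h5, h6, h7, h8⟩ := (commutes_iff _).mp ((hmem g).mp hg)
      have h00 : g.1 0 0 = 1 := by
        by_contra hne
        have hz : g.1 0 0 = 0 := (by decide : ∀ x : ZMod 2, x ≠ 1 → x = 0) _ hne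
        have : g.1.det = 0 := Matrix.det_eq_zero_of_column_eq_zero 0 (fun i => by fin_cases i <;> assumption)
        rw [g.2] at this
        exact one_ne_zero this
      let B : Fin 3 → Fin 3 → ZMod 2 := fun i j => g.1 i.succ.succ j.succ.succ
      have e : mk ![g.1 0 1, g.1 0 2, g.1 0 3, g.1 0 4] ![g.1 2 1, g.1 3 1, g.1 4 1] (Matrix.of B) = g.1 := by
        ext i j; fin_cases i <;> fin_cases j <;> first
          | rfl
          | exact h00.symm
          | exact h1.symm
          | exact h2.symm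
          | exact h3.symm
          | exact h4.symm
          | exact h5.symm
          | exact h6.symm
          | exact h7.symm
          | exact (h8.trans h00).symm
      refine ⟨(![g.1 0 1, g.1 0 2, g.1 0 3, g.1 0 4], ![g.1 2 1, g.1 3 1, g.1 4 1], ⟨B, ?_⟩), ?_⟩
      · rw [← det_mk, e]; exact g.2
      · exact Subtype.ext (Subtype.ext e)
  rw [← Nat.card_eq_of_bijective f hf]
  simp only [P, Nat.card_prod, card_B, Nat.card_fun, Nat.card_zmod, Nat.card_fin]
  norm_num

end Cfsg.Agent.S0445
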