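import Cfsg.Statements.S0481
import Cfsg.Agent.Lib.Inv.TwoCentral

set_option autoImplicit false
set_option linter.all false
open Cfsg

namespace Cfsg.Agent.S0481

/-- Large extraspecial subgroups: let z be an involution of a finite group G whose centraliser C contains a normal 2-subgroup Q with centre of order 2 and all squares central, such that every element of G centralising Q lies in Q. Then C contains a Sylow 2-subgroup of G, and any involution of G whose centraliser contains a Sylow 2-subgroup of G is conjugate to z. -/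
theorem result {G : Type*} [Group G] [Finite G] (z : G) (hz : orderOf z = 2) (Q : Subgroup G) (hQC : Q ≤ Subgroup.centralizer ({z} : Set G)) (hQn : ∀ g ∈ Subgroup.centralizer ({z} : Set G), ∀ q ∈ Q, g * q * g⁻¹ ∈ Q) (hQ2 : IsPGroup 2 Q) (hZ : Nat.card (Subgroup.center Q) = 2) (hsq : ∀ x : Q, x ^ 2 ∈ Subgroup.center Q) (hlarge : Subgroup.centralizer (Q : Set G) ≤ Q) : (∃ P : Sylow 2 G, (P : Subgroup G) ≤ Subgroup.centralizer ({z} : Set G)) ∧ ∀ u : G, orderOf u = 2 → (∃ P : Sylow 2 G, (P : Subgroup G) ≤ Subgroup.centralizer ({u} : Set G)) → IsConj z u := by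
  classical
  have hzQ : z ∈ Q := hlarge (fun q hq => by
    have := Subgroup.mem_centralizer_singleton_iff.1 (hQC hq); exact this)
  have hzZ : (⟨z, hzQ⟩ : Q) ∈ Subgroup.center Q := Subgroup.mem_center_iff.2 fun q =>
    Subtype.ext (Subgroup.mem_centralizer_singleton_iff.1 (hQC q.2))
  obtain ⟨P, hP⟩ := hQ2.exists_le_sylow
  -- a central element of `P` lies in `Z(Q)`
  have key : ∀ w ∈ P, orderOf w = 2 → (∀ x ∈ P, x * w = w * x) → w = z := by
    intro w hw hw2 hc
    have hwQ : w ∈ Q := hlarge (fun q hq => hc q (hP hq))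
    have hwZ : (⟨w, hwQ⟩ : Q) ∈ Subgroup.center Q := Subgroup.mem_center_iff.2 fun q =>
      Subtype.ext (hc q (hP q.2))
    haveI : Fintype ↥(Subgroup.center Q) := Fintype.ofFinite _
    by_contra hne
    have h3 : ({1, ⟨_, hzZ⟩, ⟨_, hwZ⟩} : Finset ↥(Subgroup.center Q)).card = 3 := by
      rw [Finset.card_eq_three]
      refine ⟨1, ⟨_, hzZ⟩, ⟨_, hwZ⟩, ?_, ?_, ?_, rfl⟩
      · intro h
        exact CfsgLib.Involution.ne_one hz (congrArg (fun a : ↥(Subgroup.center Q) => ((a : Q) : G)) h).symm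
      · intro h
        exact CfsgLib.Involution.ne_one hw2 (congrArg (fun a : ↥(Subgroup.center Q) => ((a : Q) : G)) h).symm
      · intro h
        exact hne (congrArg (fun a : ↥(Subgroup.center Q) => ((a : Q) : G)) h).symm
    have := Finset.card_le_univ ({1, ⟨_, hzZ⟩, ⟨_, hwZ⟩} : Finset ↥(Subgroup.center Q))
    rw [h3, ← Nat.card_eq_fintype_card, hZ] at this
    omega
  have hPz : (P : Subgroup G) ≤ Subgroup.centralizer ({z} : Set G) := by
    obtain ⟨w, hw, hw2, hc⟩ := CfsgLib.TwoCentral.exists_central_involution P.2 (CfsgLib.TwoCentral.sylow_ne_bot (CfsgLib.TwoCentral.two_dvd_card hz) P)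
    intro x hx
    rw [← key w hw hw2 hc]
    exact Subgroup.mem_centralizer_singleton_iff.2 (hc x hx)
  refine ⟨⟨P, hPz⟩, fun u hu hex => ?_⟩
  obtain ⟨P', hP'⟩ := hex
  obtain ⟨g, hg⟩ := MulAction.exists_smul_eq G P' P
  have hmem : ∀ x, x ∈ P ↔ g⁻¹ * x * g ∈ P' := fun x => by
    rw [← hg]
    show x ∈ ((g • P' : Sylow 2 G) : Subgroup G) ↔ g⁻¹ * x * g ∈ (P' : Subgroup G)
    rw [Sylow.coe_subgroup_smul, Subgroup.mem_pointwise_smul_iff_inv_smul_mem]
    simp [MulAut.smul_def]
  have hu2 : orderOf (g * u * g⁻¹) = 2 := CfsgLib.Involution.orderOf_conj' hu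
  have hcomm : ∀ x ∈ P, x * (g * u * g⁻¹) = g * u * g⁻¹ * x := by
    intro x hx
    have h := Subgroup.mem_centralizer_singleton_iff.1 (hP' ((hmem x).1 hx))
    calc x * (g * u * g⁻¹) = g * ((g⁻¹ * x * g) * u) * g⁻¹ := by group
      _ = g * (u * (g⁻¹ * x * g)) * g⁻¹ := by rw [h]
      _ = _ := by group
  have huP : g * u * g⁻¹ ∈ P := by
    have hn : Subgroup.zpowers (g * u * g⁻¹) ≤ Subgroup.normalizer ((P : Subgroup G) : Set G) := by
      refine le_trans ?_ (Subgroup.centralizer_le_normalizer _)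
      rw [Subgroup.zpowers_le]
      exact hcomm
    have hm : g * u * g⁻¹ ∈ Subgroup.zpowers (g * u * g⁻¹) ⊔ (P : Subgroup G) :=
      (le_sup_left : Subgroup.zpowers (g * u * g⁻¹) ≤ _) (Subgroup.mem_zpowers _)
    rw [P.3 ((CfsgLib.TwoCentral.isPGroup_zpowers hu2).to_sup_of_normal_right' P.2 hn) le_sup_right] at hm
    exact hm
  exact (isConj_iff.2 ⟨g, key _ huP hu2 hcomm⟩).symm

end Cfsg.Agent.S0481
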