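import Cfsg.Statements.S0493
import Mathlib
import Cfsg.Agent.Lib.SmallSimple
import Cfsg.Agent.S0144

set_option autoImplicit false
open Cfsg

namespace Cfsg.Agent.S0493

/-- A finite simple group of order at most 100 that is not cyclic has order 60. -/
theorem result {G : Type*} [Group G] [Finite G] [IsSimpleGroup G]
    (hG : ¬ IsCyclic G) (h : Nat.card G ≤ 100) : Nat.card G = 60 := by
  have hnc : ¬ IsMulCommutative G := fun hc => hG (by
    haveI := hc
    letI : CommGroup G := IsMulCommutative.instCommGroup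
    exact IsSimpleGroup.isCyclic)
  have hnp : ∀ p q a b : ℕ, p.Prime → q.Prime → Nat.card G ≠ p ^ a * q ^ b := fun p q a b hp hq he =>
    CfsgLib.SmallSimple.not_solvable hnc (Cfsg.Agent.S0144.result p q a b hp hq he)
  -- at least three prime divisors
  have h3 : 3 ≤ (Nat.card G).primeFactors.card := by
    by_contra hlt
    obtain ⟨p, q, hp, hq, hsub⟩ : ∃ p q : ℕ, p.Prime ∧ q.Prime ∧ (Nat.card G).primeFactors ⊆ {p, q} := by
      rcases Nat.lt_or_ge (Nat.card G).primeFactors.card 1 with h0 | h1
      · exact ⟨2, 2, Nat.prime_two, Nat.prime_two, by simp [Finset.card_eq_zero.1 (by omega : (Nat.card G).primeFactors.card = 0)]⟩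
      rcases Nat.lt_or_ge (Nat.card G).primeFactors.card 2 with h2 | h2
      · obtain ⟨p, hp⟩ := Finset.card_eq_one.1 (by omega : (Nat.card G).primeFactors.card = 1)
        have := Nat.prime_of_mem_primeFactors (hp ▸ Finset.mem_singleton_self p : p ∈ (Nat.card G).primeFactors)
        exact ⟨p, p, this, this, by simp [hp]⟩
      · obtain ⟨p, q, -, hpq⟩ := Finset.card_eq_two.1 (by omega : (Nat.card G).primeFactors.card = 2)
        exact ⟨p, q, Nat.prime_of_mem_primeFactors (n := Nat.card G) (by simp [hpq]),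
          Nat.prime_of_mem_primeFactors (n := Nat.card G) (by simp [hpq]), by simp [hpq]⟩
    have hfac := Nat.prod_factorization_pow_eq_self (Nat.card_pos (α := G)).ne'
    rw [Finsupp.prod_of_support_subset (s := {p, q}) _ (by rwa [Nat.support_factorization]) _ (fun i _ => pow_zero i)] at hfac
    rcases eq_or_ne p q with rfl | hpq
    · refine hnp p p ((Nat.card G).factorization p) 0 hp hp ?_
      rw [pow_zero, mul_one]
      simpa using hfac.symm
    · refine hnp p q ((Nat.card G).factorization p) ((Nat.card G).factorization q) hp hq ?_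
      rw [Finset.prod_pair hpq] at hfac
      exact hfac.symm
  obtain ⟨S, hS, hScard⟩ := Finset.exists_subset_card_eq h3
  obtain ⟨p, q, r, hpq, hpr, hqr, rfl⟩ := Finset.card_eq_three.1 hScard
  have hp := Nat.mem_primeFactors.1 (hS (by simp : p ∈ ({p, q, r} : Finset ℕ)))
  have hq := Nat.mem_primeFactors.1 (hS (by simp : q ∈ ({p, q, r} : Finset ℕ)))
  have hr := Nat.mem_primeFactors.1 (hS (by simp : r ∈ ({p, q, r} : Finset ℕ)))
  have hdvd : p * q * r ∣ Nat.card G := by
    refine Nat.Coprime.mul_dvd_of_dvd_of_dvd ?_ (Nat.Coprime.mul_dvd_of_dvd_of_dvd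
      ((Nat.coprime_primes hp.1 hq.1).2 hpq) hp.2.1 hq.2.1) hr.2.1
    exact Nat.Coprime.mul_left ((Nat.coprime_primes hp.1 hr.1).2 hpr) ((Nat.coprime_primes hq.1 hr.1).2 hqr)
  have hlist : ∀ n ≤ 100, ∀ p q r : ℕ, p.Prime → q.Prime → r.Prime → p < q → q < r → p * q * r ∣ n → n ≠ 0 →
      n ∈ ({30, 42, 60, 66, 70, 78, 84, 90} : Finset ℕ) := by
    intro n hn p q r hp hq hr hpq hqr hd hn0
    have h1 := Nat.le_of_dvd (Nat.pos_of_ne_zero hn0) hd
    have h2 := hp.two_le
    have hb1 : p * (p + 1) * (p + 2) ≤ 100 :=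
      (Nat.mul_le_mul (Nat.mul_le_mul_left p hpq) (by omega)).trans (h1.trans hn)
    have hb2 : 2 * q * (q + 1) ≤ 100 := (Nat.mul_le_mul (Nat.mul_le_mul_right q h2) hqr).trans (h1.trans hn)
    have hb3 : 2 * 3 * r ≤ 100 :=
      (Nat.mul_le_mul_right r (Nat.mul_le_mul h2 (by omega : 3 ≤ q))).trans (h1.trans hn)
    have hp5 : p < 5 := by
      by_contra hc
      have := Nat.mul_le_mul (Nat.mul_le_mul (show 5 ≤ p by omega) (show 6 ≤ p + 1 by omega)) (show 7 ≤ p + 2 by omega)
      omega
    have hq5 : q < 7 := by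
      by_contra hc
      have := Nat.mul_le_mul (Nat.mul_le_mul_left 2 (show 7 ≤ q by omega)) (show 8 ≤ q + 1 by omega)
      omega
    have hr5 : r < 17 := by omega
    interval_cases p <;> (try norm_num at hp) <;> interval_cases q <;> (try norm_num at hq) <;>
      interval_cases r <;> (try norm_num at hr) <;> (try (exfalso; omega)) <;>
      · obtain ⟨k, rfl⟩ := hd
        have : k ≤ 3 := by omega
        interval_cases k <;> simp at hn hn0 ⊢
  have hmem : Nat.card G ∈ ({30, 42, 60, 66, 70, 78, 84, 90} : Finset ℕ) := by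
    have h0 := (Nat.card_pos (α := G)).ne'
    rcases lt_trichotomy p q with h1 | h1 | h1 <;> rcases lt_trichotomy p r with h2 | h2 | h2 <;>
      rcases lt_trichotomy q r with h4 | h4 | h4 <;> first
      | omega
      | exact hlist _ h p q r hp.1 hq.1 hr.1 (by omega) (by omega) hdvd h0
      | exact hlist _ h p r q hp.1 hr.1 hq.1 (by omega) (by omega) (by rwa [mul_right_comm]) h0
      | exact hlist _ h q p r hq.1 hp.1 hr.1 (by omega) (by omega) (by rwa [mul_comm q p]) h0
      | exact hlist _ h q r p hq.1 hr.1 hp.1 (by omega) (by omega) (by rwa [show q * r * p = p * q * r by ring]) h0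
      | exact hlist _ h r p q hr.1 hp.1 hq.1 (by omega) (by omega) (by rwa [show r * p * q = p * q * r by ring]) h0
      | exact hlist _ h r q p hr.1 hq.1 hp.1 (by omega) (by omega) (by rwa [show r * q * p = p * q * r by ring]) h0
  simp only [Finset.mem_insert, Finset.mem_singleton] at hmem
  haveI : Fact (Nat.Prime 2) := ⟨Nat.prime_two⟩
  have htwo : ∀ m : ℕ, Odd m → Nat.card G ≠ 2 * m := by
    intro m hm he
    obtain ⟨T⟩ := (inferInstance : Nonempty (Sylow 2 G))
    refine CfsgLib.SmallSimple.sylow_two_not_cyclic hnc (he ▸ even_two_mul m) T ?_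
    exact isCyclic_of_prime_card (p := 2) ((CfsgLib.SmallSimple.card_sylow_mem (k := 1) (by rw [pow_one, he])
      (by rw [← even_iff_two_dvd, Nat.not_even_iff_odd]; exact hm) T).1.trans (pow_one 2))
  rcases hmem with e | e | e | e | e | e | e | e
  · exact absurd e (htwo 15 (by decide))
  · exact absurd e (htwo 21 (by decide))
  · exact e
  · exact absurd e (htwo 33 (by decide))
  · exact absurd e (htwo 35 (by decide))
  · exact absurd e (htwo 39 (by decide))
  · exfalso
    haveI : Fact (Nat.Prime 7) := ⟨by norm_num⟩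
    obtain ⟨P⟩ := (inferInstance : Nonempty (Sylow 7 G))
    obtain ⟨-, h1, h2⟩ := CfsgLib.SmallSimple.card_sylow_mem (k := 1) (m := 12) (by rw [e]; norm_num) (by norm_num) P
    have h3 := CfsgLib.SmallSimple.card_sylow_ne_one hnc (p := 7) (by rw [e]; norm_num)
    generalize Nat.card (Sylow 7 G) = n at h1 h2 h3
    have := Nat.le_of_dvd (by norm_num) h1
    interval_cases n <;> simp_all
  · exact absurd e (htwo 45 (by decide))

end Cfsg.Agent.S0493
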