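import Cfsg.Statements.S0499
import Cfsg.Agent.Lib.FrobeniusCrit
import Cfsg.Agent.Lib.SmallSimple

set_option autoImplicit false
open Cfsg

namespace Cfsg.Agent.S0499

/-- A non-abelian finite simple group of even order has order divisible by 12, 16 or 56. -/
theorem result {G : Type*} [Group G] [Finite G] [IsSimpleGroup G]
    (hG : ¬ IsMulCommutative G) (h2 : Even (Nat.card G)) :
    12 ∣ Nat.card G ∨ 16 ∣ Nat.card G ∨ 56 ∣ Nat.card G := by
      classical
      haveI : Fact (Nat.Prime 2) := ⟨Nat.prime_two⟩
      by_cases h16 : 16 ∣ Nat.card G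
      · exact Or.inr (Or.inl h16)
      have h4 : 4 ∣ Nat.card G := by
        obtain ⟨T⟩ := (inferInstance : Nonempty (Sylow 2 G))
        by_contra h4
        apply CfsgLib.SmallSimple.sylow_two_not_cyclic hG h2 T
        obtain ⟨k, hk⟩ := T.2.exists_card_eq
        have hd : 2 ^ k ∣ Nat.card G := hk ▸ Subgroup.card_subgroup_dvd_card _
        have hk2 : k < 2 := by
          by_contra hk2
          exact h4 ((pow_dvd_pow 2 (show 2 ≤ k by omega)).trans hd)
        obtain rfl | rfl : k = 0 ∨ k = 1 := by omega
        · rw [pow_zero] at hk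
          haveI : Subsingleton (T : Subgroup G) := Finite.card_le_one_iff_subsingleton.1 hk.le
          infer_instance
        · exact isCyclic_of_prime_card (p := 2) (by rw [hk]; norm_num)
      -- a two-subgroup with a nontrivial automorphism of odd order
      obtain ⟨X, hX, g, hg, hgo, hgc⟩ : ∃ X : Subgroup G, IsPGroup 2 X ∧ ∃ g ∈ Subgroup.normalizer (X : Set G),
          (orderOf g).Coprime 2 ∧ g ∉ Subgroup.centralizer (X : Set G) := by
        by_contra hno
        push Not at hno
        have hpc := CfsgLib.FrobeniusCrit.pcOn_top (p := 2) _ G le_rfl fun X hX g hg hgo => hno X hX g hg hgo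
        set K := CfsgLib.ThompsonNPC.pcore' hpc
        have hKn : K.Normal := ⟨fun x hx g => ⟨Subgroup.mem_top _, by
          rw [show g * x * g⁻¹ = MulAut.conj g x from rfl, MulEquiv.orderOf_eq]; exact hx.2⟩⟩
        rcases hKn.eq_bot_or_eq_top with e | e
        · haveI : IsPGroup 2 G := by
            intro x
            obtain ⟨a, r, hr, he⟩ := Nat.exists_eq_two_pow_mul_odd (orderOf_pos x).ne'
            refine ⟨a, (Subgroup.eq_bot_iff_forall _).1 e _ ⟨Subgroup.mem_top _, ?_⟩⟩
            rw [orderOf_pow_of_dvd (pow_ne_zero _ two_ne_zero) ⟨r, he⟩, he, Nat.mul_div_cancel_left _ (by positivity)]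
            exact Nat.coprime_two_right.2 hr
          exact CfsgLib.SmallSimple.not_prime_pow hG (p := 2) this
        · have hodd := CfsgLib.ThompsonNPC.card_coprime_of_forall (p := 2) (K := K) fun x hx => hx.2
          rw [e, Subgroup.card_top] at hodd
          exact Nat.not_even_iff_odd.2 (Nat.coprime_two_right.1 hodd) h2
      let φ : MulAut X := MulAut.congr (MulEquiv.refl _) (
        { toFun := fun x => ⟨g * x * g⁻¹, (Subgroup.mem_normalizer_iff.1 hg _).1 x.2⟩
          invFun := fun x => ⟨g⁻¹ * x * g, (Subgroup.mem_normalizer_iff.1 hg _).2 (by simp [mul_assoc])⟩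
          left_inv := fun x => Subtype.ext (by simp [mul_assoc])
          right_inv := fun x => Subtype.ext (by simp [mul_assoc])
          map_mul' := fun x y => Subtype.ext (by simp [mul_assoc]) } : MulAut X)
      have hφn : ∀ (n : ℕ) (x : X), ((φ ^ n) x : G) = g ^ n * x * (g ^ n)⁻¹ := by
        intro n
        induction n with
        | zero => intro x; simp
        | succ n ih =>
          intro x
          rw [pow_succ', MulAut.mul_apply, pow_succ']
          show g * ((φ ^ n) x : G) * g⁻¹ = _
          rw [ih]; group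
      have hφd : orderOf φ ∣ orderOf g := orderOf_dvd_of_pow_eq_one (MulEquiv.ext fun x => Subtype.ext (by
        rw [hφn, pow_orderOf_eq_one]; simp))
      have hφ1 : φ ≠ 1 := fun e => hgc (Subgroup.mem_centralizer_iff.2 fun x hx => by
        have := hφn 1 ⟨x, hx⟩
        rw [pow_one, e, pow_one] at this
        exact (mul_inv_eq_iff_eq_mul.1 this.symm).symm)
      obtain ⟨q, hq, hqd⟩ := Nat.exists_prime_and_dvd (n := orderOf φ) (fun e => hφ1 (orderOf_eq_one_iff.1 e))
      haveI := Fact.mk hq
      have hqG : q ∣ Nat.card G := hqd.trans (hφd.trans (orderOf_dvd_natCard g))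
      have hq2 : q ≠ 2 := fun e => by
        have := Nat.Coprime.coprime_dvd_left (hqd.trans hφd) hgo
        rw [e] at this; norm_num at this
      set ψ := φ ^ (orderOf φ / q) with hψ
      have hψq : orderOf ψ = q := orderOf_pow_orderOf_div (orderOf_pos φ).ne' hqd
      haveI : Fintype X := Fintype.ofFinite X
      let σ : Equiv.Perm X := ψ.toEquiv
      let F : Subgroup X := ψ.toMonoidHom.eqLocus (MonoidHom.id X)
      have hσ : σ ^ q ^ 1 = 1 := by
        rw [pow_one]
        show ψ.toEquiv ^ q = 1
        have h' : ∀ n : ℕ, (ψ.toEquiv : Equiv.Perm X) ^ n = (ψ ^ n).toEquiv := by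
          intro n
          induction n with
          | zero => rfl
          | succ n ih => rw [pow_succ, pow_succ, ih]; rfl
        rw [h', ← hψq, pow_orderOf_eq_one]; rfl
      have hmod := Equiv.Perm.card_compl_support_modEq hσ
      have hfix : σ.supportᶜ.card = Nat.card F := by
        rw [Nat.card_eq_fintype_card, Fintype.card_of_subtype σ.supportᶜ]
        intro x
        rw [Finset.mem_compl, Equiv.Perm.mem_support, not_not]
        rfl
      rw [hfix, ← Nat.card_eq_fintype_card] at hmod
      obtain ⟨k, hk⟩ := hX.exists_card_eq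
      obtain ⟨j, hjk, hj⟩ := (Nat.dvd_prime_pow Nat.prime_two).1 (hk ▸ Subgroup.card_subgroup_dvd_card F)
      have hlt : j ≠ k := fun e => by
        have hF : F = ⊤ := Subgroup.card_eq_iff_eq_top F |>.1 (by rw [hj, e, hk])
        refine hq.ne_one (hψq.symm.trans (orderOf_eq_one_iff.2 (MulEquiv.ext fun x => ?_)))
        have hx : x ∈ F := hF ▸ Subgroup.mem_top x
        exact hx
      have hk3 : k ≤ 3 := by
        by_contra hk3
        exact h16 ((pow_dvd_pow 2 (show 4 ≤ k by omega)).trans (hk ▸ Subgroup.card_subgroup_dvd_card X))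
      rw [hj, hk] at hmod
      have hd := (Nat.modEq_iff_dvd' (Nat.pow_le_pow_right two_pos hjk)).1 hmod
      have hq37 : q = 3 ∨ (q = 7 ∧ k = 3) := by
        have hqle := Nat.le_of_dvd (Nat.sub_pos_of_lt (Nat.pow_lt_pow_right (by norm_num) (lt_of_le_of_ne hjk hlt))) hd
        interval_cases k <;> interval_cases j <;> simp_all <;> interval_cases q <;> simp_all (config := {decide := true})
      rcases hq37 with rfl | ⟨rfl, rfl⟩
      · exact Or.inl (Nat.Coprime.mul_dvd_of_dvd_of_dvd (show Nat.Coprime 4 3 by norm_num) h4 hqG)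
      · exact Or.inr (Or.inr (Nat.Coprime.mul_dvd_of_dvd_of_dvd (show Nat.Coprime 8 7 by norm_num)
          ((show (8 : ℕ) = 2 ^ 3 from rfl) ▸ hk ▸ Subgroup.card_subgroup_dvd_card X) hqG))

end Cfsg.Agent.S0499
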