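import Cfsg.Statements.S0502
import Mathlib
import Cfsg.Agent.Lib.KleinBasic

set_option autoImplicit false
open Cfsg

namespace Cfsg.Agent.S0502

open CfsgLib.KleinBasic

/-- If a finite 2-group has a normal elementary abelian subgroup of order at least 8, then any two of its Klein
four-subgroups are joined by a chain of Klein four-subgroups with consecutive members commuting elementwise. -/
theorem result {P : Type*} [Group P] [Finite P] (hP : IsPGroup 2 P)
    (E : Subgroup P) [E.Normal] (hE : IsMulCommutative E) (hE2 : ∀ e ∈ E, e ^ 2 = 1) (hE8 : 8 ≤ Nat.card E) :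
    Cfsg.IsFourConnected P := by
  classical
  have hKlein : ∀ a b : P, a * a = 1 → b * b = 1 → a * b = b * a → a ≠ 1 → b ≠ 1 → a ≠ b →
      ∃ W : Subgroup P, IsKleinFour W ∧ a ∈ W ∧ b ∈ W ∧ ∀ c : P, Commute c a → Commute c b → ∀ w ∈ W, Commute c w := fun a b h1 h2 h3 h4 h5 h6 => exists_klein a b h1 h2 h3 h4 h5 h6
  have hEc : ∀ a ∈ E, ∀ b ∈ E, a * b = b * a := fun a ha b hb => by
    haveI := hE
    exact congrArg Subtype.val (mul_comm' (⟨a, ha⟩ : E) ⟨b, hb⟩)
  -- fixed points of an involution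
  have hfix : ∀ (u : P) (C : Subgroup P), C ≤ E → u * u = 1 → (∀ c ∈ C, u * c * u⁻¹ ∈ C) →
      Nat.card C ≤ Nat.card ↥(C ⊓ Subgroup.centralizer ({u} : Set P)) * Nat.card ↥(C ⊓ Subgroup.centralizer ({u} : Set P)) := by
    intro u C hC hu hn
    let f : C →* P :=
      { toFun := fun c => c * (u * c * u⁻¹)
        map_one' := by simp
        map_mul' := fun c d => by
          show (c : P) * d * (u * (c * d) * u⁻¹) = c * (u * c * u⁻¹) * (d * (u * d * u⁻¹))
          rw [show u * ((c : P) * d) * u⁻¹ = (u * c * u⁻¹) * (u * d * u⁻¹) by group, mul_assoc (c : P), ← mul_assoc (d : P),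
            hEc _ (hC d.2) _ (hC (hn _ c.2))]
          group }
    have hrange : f.range ≤ C ⊓ Subgroup.centralizer ({u} : Set P) := by
      rintro _ ⟨c, rfl⟩
      refine ⟨C.mul_mem c.2 (hn _ c.2), Subgroup.mem_centralizer_singleton_iff.2 ?_⟩
      refine mul_inv_eq_iff_eq_mul.1 (?_ : u * ((c : P) * (u * c * u⁻¹)) * u⁻¹ = (c : P) * (u * c * u⁻¹)) |>.symm
      have h2 : u * (u * (c : P) * u⁻¹) * u⁻¹ = c := by
        rw [show u * (u * (c : P) * u⁻¹) * u⁻¹ = (u * u) * c * (u * u)⁻¹ by group, hu]; group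
      rw [show u * ((c : P) * (u * c * u⁻¹)) * u⁻¹ = (u * c * u⁻¹) * (u * (u * c * u⁻¹) * u⁻¹) by group, h2]
      exact hEc _ (hC (hn _ c.2)) _ (hC c.2)
    have hker : f.ker.map C.subtype ≤ C ⊓ Subgroup.centralizer ({u} : Set P) := by
      rintro _ ⟨c, hc, rfl⟩
      refine ⟨c.2, Subgroup.mem_centralizer_singleton_iff.2 ?_⟩
      have h : (c : P) * (u * c * u⁻¹) = 1 := hc
      have hci : (c : P)⁻¹ = c := inv_eq_of_mul_eq_one_right (by rw [← pow_two]; exact hE2 _ (hC c.2))
      have h' : u * (c : P) * u⁻¹ = c := by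
        rw [eq_inv_of_mul_eq_one_right h, hci]
      exact (mul_inv_eq_iff_eq_mul.1 h').symm
    rw [← f.ker.index_mul_card, Subgroup.index_ker]
    exact Nat.mul_le_mul (Nat.card_le_card_of_injective _ (Subgroup.inclusion_injective hrange))
      ((Nat.card_congr (f.ker.equivMapOfInjective C.subtype C.subtype_injective).toEquiv).le.trans (Nat.card_le_card_of_injective _ (Subgroup.inclusion_injective hker)))
  let R := fun A B : Subgroup P => IsKleinFour A ∧ IsKleinFour B ∧ ∀ a ∈ A, ∀ b ∈ B, a * b = b * a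
  have hR : Symmetric R := fun A B h => ⟨h.2.1, h.1, fun a ha b hb => (h.2.2 b hb a ha).symm⟩
  have key : ∀ U : Subgroup P, IsKleinFour U → ∃ W : Subgroup P, IsKleinFour W ∧ W ≤ E ∧ Relation.ReflTransGen R U W := by
    intro U hU
    haveI := hU
    have hsq : ∀ w ∈ U, w * w = 1 := fun w hw => congrArg Subtype.val (IsKleinFour.mul_self (⟨w, hw⟩ : U))
    have hUc : ∀ a ∈ U, ∀ b ∈ U, a * b = b * a := fun a ha b hb => by
      have h1 := hsq _ (U.mul_mem ha hb)
      rw [← inv_eq_iff_mul_eq_one] at h1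
      rw [← h1, mul_inv_rev, inv_eq_of_mul_eq_one_right (hsq a ha), inv_eq_of_mul_eq_one_right (hsq b hb)]
    obtain ⟨u, v, hu, hv, hu1, hv1, huv, hgen⟩ := klein_gens U hU
    have h1 : 3 ≤ Nat.card ↥(E ⊓ Subgroup.centralizer ({u} : Set P)) := by
      have := hfix u E le_rfl (hsq u hu) (fun c hc => Subgroup.Normal.conj_mem inferInstance c hc u)
      nlinarith
    have h2 : 2 ≤ Nat.card ↥(E ⊓ Subgroup.centralizer ({u} : Set P) ⊓ Subgroup.centralizer ({v} : Set P)) := by
      have := hfix v (E ⊓ Subgroup.centralizer ({u} : Set P)) inf_le_left (hsq v hv) (fun c hc => ⟨Subgroup.Normal.conj_mem inferInstance c hc.1 v, by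
        have hvu : Commute v u := hUc v hv u hu
        have hcu : Commute c u := Subgroup.mem_centralizer_singleton_iff.1 hc.2
        exact Subgroup.mem_centralizer_singleton_iff.2 ((hvu.mul_left hcu).mul_left hvu.inv_left).eq⟩)
      nlinarith
    haveI : Nontrivial ↥(E ⊓ Subgroup.centralizer ({u} : Set P) ⊓ Subgroup.centralizer ({v} : Set P)) := Finite.one_lt_card_iff_nontrivial.1 h2
    obtain ⟨⟨e, ⟨heE, heu⟩, hev⟩, he1⟩ := exists_ne (1 : ↥(E ⊓ Subgroup.centralizer ({u} : Set P) ⊓ Subgroup.centralizer ({v} : Set P)))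
    have he1' : e ≠ 1 := fun h => he1 (Subtype.ext h)
    have heU : ∀ w ∈ U, Commute e w := fun w hw => hgen e (Subgroup.mem_centralizer_singleton_iff.1 heu) (Subgroup.mem_centralizer_singleton_iff.1 hev) w hw
    obtain ⟨a, ha, ha1, hae⟩ : ∃ a ∈ U, a ≠ 1 ∧ a ≠ e := by
      by_cases h : u = e
      · exact ⟨v, hv, hv1, fun h' => huv (h.trans h'.symm)⟩
      · exact ⟨u, hu, hu1, h⟩
    have haa := hsq a ha
    have hee : e * e = 1 := by rw [← pow_two]; exact hE2 e heE
    obtain ⟨V, hV, haV, heV, hVgen⟩ := hKlein a e haa hee (heU a ha).symm.eq ha1 he1' hae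
    have h3 : 3 ≤ Nat.card ↥(E ⊓ Subgroup.centralizer ({a} : Set P)) := by
      have := hfix a E le_rfl haa (fun c hc => Subgroup.Normal.conj_mem inferInstance c hc a)
      nlinarith
    obtain ⟨f, hfE, hf1, hfe⟩ : ∃ f ∈ E ⊓ Subgroup.centralizer ({a} : Set P), f ≠ 1 ∧ f ≠ e := by
      by_contra hno
      push Not at hno
      have : Nat.card ↥(E ⊓ Subgroup.centralizer ({a} : Set P)) ≤ 2 := by
        rw [← SetLike.coe_sort_coe, Nat.card_coe_set_eq]
        refine (Set.ncard_le_ncard (t := ({1, e} : Set P)) (fun f hf => ?_) (Set.toFinite _)).trans (Set.ncard_insert_le _ _ |>.trans (by rw [Set.ncard_singleton]))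
        by_cases hf1 : f = 1
        · exact Or.inl hf1
        · exact Or.inr (hno f hf hf1)
      omega
    have hff : f * f = 1 := by rw [← pow_two]; exact hE2 f hfE.1
    obtain ⟨W, hW, heW, hfW, hWgen⟩ := hKlein e f hee hff (hEc e heE f hfE.1) he1' hf1 (Ne.symm hfe)
    have hWE : W ≤ E := fun w hw => by
      obtain h := klein_le hW heW hfW he1' hf1 (Ne.symm hfe) E heE hfE.1
      exact h hw
    have h1 : R U V := ⟨hU, hV, fun b hb c hc => (hVgen b (hUc b hb a ha) (heU b hb).symm c hc).eq⟩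
    have h2 : R V W := ⟨hV, hW, fun b hb c hc => (hWgen b ((hVgen e (heU a ha) (Commute.refl e) b hb).symm) ((hVgen f (Subgroup.mem_centralizer_singleton_iff.1 hfE.2) (hEc f hfE.1 e heE) b hb).symm) c hc).eq⟩
    exact ⟨W, hW, hWE, (Relation.ReflTransGen.single h1).trans (Relation.ReflTransGen.single h2)⟩
  have hrev : ∀ {A B : Subgroup P}, Relation.ReflTransGen R A B → Relation.ReflTransGen R B A := fun h => by
    induction h with
    | refl => exact Relation.ReflTransGen.refl
    | tail _ hbc ih => exact Relation.ReflTransGen.head (hR hbc) ih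
  intro U V hU hV
  obtain ⟨W₁, hW₁, hE₁, p₁⟩ := key U hU
  obtain ⟨W₂, hW₂, hE₂, p₂⟩ := key V hV
  exact (p₁.tail ⟨hW₁, hW₂, fun a ha b hb => hEc a (hE₁ ha) b (hE₂ hb)⟩).trans (hrev p₂)

end Cfsg.Agent.S0502
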