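import Cfsg.Statements.S0505
import Mathlib
import Cfsg.Agent.Lib.GenFitting
import Cfsg.Agent.Lib.PConstrained

set_option autoImplicit false
open Cfsg

namespace Cfsg.Agent.S0505

universe uX

/-- A solvable group without odd core has characteristic two. -/
theorem charP_of_solvable {X : Type uX} [Group X] [Finite X] (hs : Group.IsSolvable X) (hO : oddCore X = ⊥) :
    CfsgLib.CharP.HasCharP 2 X := by
  haveI : Fact (Nat.Prime 2) := ⟨Nat.prime_two⟩
  haveI := CfsgLib.Core.fittingSubgroup_normal (G := X)
  have hle : fittingSubgroup X ≤ pCore 2 X := by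
    rw [CfsgLib.Core.fittingSubgroup_eq_iSup_pCore]
    refine iSup_le fun q => ?_
    by_cases hq : (q : ℕ) = 2
    · rw [hq]
    · haveI : Fact (q : ℕ).Prime := ⟨q.2⟩
      have hn : (pCore (q : ℕ) X).Normal := by
        have := CfsgLib.Core.pCore_characteristic (G := X) (q : ℕ)
        infer_instance
      obtain ⟨k, hk⟩ := IsPGroup.iff_card.1 (CfsgLib.Core.isPGroup_pCore (G := X) (q : ℕ))
      have : pCore (q : ℕ) X ≤ oddCore X := CfsgLib.Core.le_pPrimeCore hn (by
        rw [hk]; exact (Nat.coprime_primes q.2 Nat.prime_two).2 hq |>.pow_left k)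
      rw [hO] at this
      exact this.trans bot_le
  intro c hc
  apply hle
  refine CfsgLib.GenFitting.solvable_le_fitting (R := Subgroup.centralizer (fittingSubgroup X : Set X)) (inferInstance) le_rfl ?_
  exact fun f hf => hc f (hle hf)

/-- Let G be a finite group of even order in which the centralizer of every involution is solvable and has trivial
core (no nontrivial normal subgroup of odd order). Then G is of characteristic 2 type. -/
theorem result {G : Type*} [Group G] [Finite G]
    (h2 : Even (Nat.card G))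
    (hs : ∀ t : G, orderOf t = 2 → Group.IsSolvable (Subgroup.centralizer ({t} : Set G)))
    (hc : ∀ t : G, orderOf t = 2 → Cfsg.oddCore (Subgroup.centralizer ({t} : Set G)) = ⊥) :
    Cfsg.IsCharacteristicTwoType G := by
  classical
  haveI : Fact (Nat.Prime 2) := ⟨Nat.prime_two⟩
  refine ⟨h2, fun T hT hT1 => ?_⟩
  -- an involution in the centre of `T`
  haveI : Nontrivial T := (Subgroup.nontrivial_iff_ne_bot T).2 hT1
  haveI : Nontrivial (Subgroup.center T) := hT.center_nontrivial
  obtain ⟨k, hk, hkc⟩ := (hT.to_subgroup (Subgroup.center T)).nontrivial_iff_card.mp inferInstance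
  obtain ⟨z₀, hz₀⟩ := exists_prime_orderOf_dvd_card' (G := Subgroup.center T) 2 (by rw [hkc]; exact dvd_pow_self 2 (by omega))
  set z : G := ((z₀ : T) : G) with hzdef
  have hz : orderOf z = 2 := by rw [hzdef, Subgroup.orderOf_coe, Subgroup.orderOf_coe]; exact hz₀
  have hTz : ∀ t ∈ T, t * z = z * t := fun t ht =>
    congrArg (fun w : T => (w : G)) (Subgroup.mem_center_iff.1 z₀.2 ⟨t, ht⟩)
  let H : Subgroup G := Subgroup.centralizer ({z} : Set G)
  have hTH : T ≤ H := fun t ht => Subgroup.mem_centralizer_singleton_iff.2 (hTz t ht)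
  -- `H` has characteristic two
  have hH : CfsgLib.CharP.HasCharP 2 H := charP_of_solvable (hs z hz) (hc z hz)
  have hT' : IsPGroup 2 (T.subgroupOf H) := hT.of_equiv (Subgroup.subgroupOfEquivOfLe hTH).symm
  have hCH := CfsgLib.PConstrained.charP_centralizer hH hT'
  set N : Subgroup G := Subgroup.normalizer (T : Set G) with hN
  haveI : (T.subgroupOf N).Normal := Subgroup.normal_subgroupOf_of_le_normalizer le_rfl
  let D : Subgroup N := (Subgroup.centralizer (T : Set G)).subgroupOf N
  haveI : D.Normal := by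
    refine ⟨fun c hcD g => Subgroup.mem_subgroupOf.2 fun u hu => ?_⟩
    show u * ((g : G) * c * (g : G)⁻¹) = (g : G) * c * (g : G)⁻¹ * u
    have := (Subgroup.mem_subgroupOf.1 hcD) ((g : G)⁻¹ * u * g) ((Subgroup.mem_normalizer_iff''.1 g.2 u).1 hu)
    calc u * ((g : G) * c * (g : G)⁻¹) = (g : G) * (((g : G)⁻¹ * u * g) * c) * (g : G)⁻¹ := by group
      _ = (g : G) * (c * ((g : G)⁻¹ * u * g)) * (g : G)⁻¹ := by rw [this]
      _ = (g : G) * c * (g : G)⁻¹ * u := by group
  have hCsub : Subgroup.centralizer (T : Set G) ≤ H := fun c hc' =>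
    Subgroup.mem_centralizer_singleton_iff.2 (hc' z (z₀ : T).2).symm
  have hCsub' : Subgroup.centralizer (T : Set G) ≤ N := Subgroup.centralizer_le_normalizer _
  have heq : Subgroup.centralizer ((T.subgroupOf H : Subgroup H) : Set H) = (Subgroup.centralizer (T : Set G)).subgroupOf H := by
    ext x
    constructor
    · intro h t ht
      exact congrArg (fun w : H => (w : G)) (h ⟨t, hTH ht⟩ ht)
    · intro h t ht
      exact Subtype.ext (h t ht)
  have hD : CfsgLib.CharP.HasCharP 2 D :=
    CfsgLib.CharP.charP_congr ((MulEquiv.subgroupCongr heq).trans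
      ((Subgroup.subgroupOfEquivOfLe hCsub).trans (Subgroup.subgroupOfEquivOfLe hCsub').symm)) hCH
  refine CfsgLib.CharP.charP_of_forall fun c hc1 hc2 => ?_
  have hcD : c ∈ D := by
    refine Subgroup.mem_subgroupOf.2 fun t ht => ?_
    exact congrArg (fun w : N => (w : G)) (hc2 ⟨t, Subgroup.le_normalizer ht⟩
      (CfsgLib.Core.le_pCore inferInstance (hT.of_equiv (Subgroup.subgroupOfEquivOfLe Subgroup.le_normalizer).symm) (Subgroup.mem_subgroupOf.2 ht))).symm
  exact congrArg Subtype.val (CfsgLib.CharP.eq_one_of_centralizes (c := (⟨c, hcD⟩ : D)) hD (by rwa [Subgroup.orderOf_mk])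
    fun x hx => Subtype.ext (hc2 x (CfsgLib.Core.pCore_subgroup_map_le 2 D ⟨x, hx, rfl⟩)))

end Cfsg.Agent.S0505
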