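import Cfsg.Statements.S0514
import Mathlib
import Cfsg.Agent.Lib.FrobeniusCrit

set_option autoImplicit false
open Cfsg

namespace Cfsg.Agent.S0514

open scoped Pointwise
universe u

theorem cyclic_fixed {Y : Type u} [Group Y] [Finite Y] (hY : IsPGroup 2 Y) (σ : MulAut Y) (m : ℕ) (hm : Odd m)
    (hσ : σ ^ m = 1) (r : Y) (hr : σ r ∈ Subgroup.zpowers r) : σ r = r := by
  obtain ⟨k, hk⟩ := IsPGroup.iff_orderOf.1 hY r
  obtain ⟨i, hi⟩ := (isOfFinOrder_of_finite r).mem_powers_iff_mem_zpowers.2 hr
  have hi' : r ^ i = σ r := hi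
  have hit : ∀ j : ℕ, (σ ^ j) r = r ^ (i ^ j) := by
    intro j; induction j with
    | zero => simp
    | succ j ih => rw [pow_succ', MulAut.mul_apply, ih, map_pow, ← hi', ← pow_mul, pow_succ, mul_comm]
  have h1 : r ^ (i ^ m) = r ^ 1 := by rw [← hit, hσ, pow_one]; rfl
  rw [pow_eq_pow_iff_modEq, hk] at h1
  have h2 : r ^ i = r ^ 1 := by
    rw [pow_eq_pow_iff_modEq, hk]
    rcases k with _ | k
    · exact Nat.modEq_one
    · rw [← ZMod.natCast_eq_natCast_iff] at h1 ⊢
      push_cast at h1
      have hu : IsUnit (i : ZMod (2 ^ (k + 1))) := (isUnit_pow_iff hm.pos.ne').1 (h1 ▸ isUnit_one)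
      obtain ⟨v, hv⟩ := hu
      have hvm : v ^ m = 1 := Units.ext (by rw [Units.val_pow_eq_pow_val, hv, h1, Units.val_one])
      have hv2 : v ^ (2 ^ k) = 1 := by
        have h3 := ZMod.pow_totient v
        rwa [Nat.totient_prime_pow Nat.prime_two (Nat.succ_pos k), Nat.succ_sub_one, show 2 - 1 = 1 from rfl, mul_one] at h3
      have hcop : Nat.Coprime (2 ^ k) m := (Nat.coprime_two_left.2 hm).pow_left k
      have hv1 : v = 1 := orderOf_eq_one_iff.1 (Nat.eq_one_of_dvd_coprimes hcop (orderOf_dvd_of_pow_eq_one hv2) (orderOf_dvd_of_pow_eq_one hvm))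
      rw [← hv, hv1, Units.val_one, Nat.cast_one]
  rw [← hi', h2, pow_one]

theorem aut_trivial {Y : Type u} [Group Y] [Finite Y] (hY : IsPGroup 2 Y) {n : ℕ} (f : Y →* DihedralGroup n)
    (hf : Function.Injective f) (σ : MulAut Y) (m : ℕ) (hm : Odd m) (hσ : σ ^ m = 1)
    (t : Y) (ht1 : t ≠ 1) (ht : σ t = t) : σ = 1 := by
  classical
  let R : Subgroup Y := (Subgroup.zpowers (DihedralGroup.r 1)).comap f
  haveI hRc : IsCyclic R := isCyclic_of_injective
    ((f.comp R.subtype).codRestrict (Subgroup.zpowers (DihedralGroup.r 1 : DihedralGroup n)) (fun x => x.2))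
    (fun a b h => Subtype.ext (hf (congrArg Subtype.val h)))
  have hr_mem : ∀ i : ZMod n, (DihedralGroup.r i : DihedralGroup n) ∈ Subgroup.zpowers (DihedralGroup.r 1) := fun i => by
    obtain ⟨j, rfl⟩ := ZMod.intCast_surjective i
    exact ⟨j, DihedralGroup.r_one_zpow j⟩
  have hout : ∀ y, y ∉ R → ∃ i, f y = DihedralGroup.sr i := by
    intro y hy
    cases h : f y with
    | r i => exact absurd (show f y ∈ Subgroup.zpowers (DihedralGroup.r 1 : DihedralGroup n) by rw [h]; exact hr_mem i) hy
    | sr i => exact ⟨i, rfl⟩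
  have hprod : ∀ y z, y ∉ R → z ∉ R → y * z ∈ R := by
    intro y z hy hz
    obtain ⟨i, hi⟩ := hout y hy
    obtain ⟨j, hj⟩ := hout z hz
    show f (y * z) ∈ Subgroup.zpowers (DihedralGroup.r 1 : DihedralGroup n)
    rw [map_mul, hi, hj, DihedralGroup.sr_mul_sr]
    exact hr_mem _
  have hinv2 : ∀ y, y ∉ R → y * y = 1 := fun y hy => by
    obtain ⟨i, hi⟩ := hout y hy
    apply hf
    rw [map_mul, hi, DihedralGroup.sr_mul_self, map_one]
  obtain ⟨⟨r, hrR⟩, hgen⟩ := hRc.exists_generator
  have hRz : R = Subgroup.zpowers r := by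
    refine le_antisymm (fun x hx => ?_) (Subgroup.zpowers_le.2 hrR)
    obtain ⟨j, hj⟩ := hgen ⟨x, hx⟩
    exact ⟨j, congrArg Subtype.val hj⟩
  obtain ⟨k, hk⟩ := IsPGroup.iff_orderOf.1 hY r
  have hpow : ∀ j : ℕ, ∀ x, σ x = x → (σ ^ j) x = x := fun j x hx => by
    induction j with
    | zero => rfl
    | succ j ih => rw [pow_succ, MulAut.mul_apply, hx, ih]
  by_cases hbig : r * r = 1
  · -- small case
    have hcard : Nat.card Y ≤ 4 := by
      have hR2 : Nat.card R ≤ 2 := by
        rw [hRz, Nat.card_zpowers]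
        exact orderOf_le_of_pow_eq_one (by norm_num) (by rw [pow_two]; exact hbig)
      have hi2 : R.index ≤ 2 := by
        by_cases h : ∀ y, y ∈ R
        · rw [(Subgroup.eq_top_iff' R).2 h, Subgroup.index_top]; norm_num
        · push Not at h
          obtain ⟨y, hy⟩ := h
          refine le_of_eq (Subgroup.index_eq_two_iff.2 ⟨y, fun b => ?_⟩)
          by_cases hb : b ∈ R
          · refine Or.inr ⟨hb, fun hby => hy ?_⟩
            simpa using R.mul_mem (R.inv_mem hb) hby
          · exact Or.inl ⟨hprod b y hb hy, hb⟩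
      rw [← R.index_mul_card]
      calc R.index * Nat.card R ≤ 2 * 2 := Nat.mul_le_mul hi2 hR2
        _ = 4 := rfl
    haveI : Fintype Y := Fintype.ofFinite Y
    refine MulEquiv.ext fun x => ?_
    rw [MulAut.one_apply]
    by_contra hx
    have hx2 : σ (σ x) = x := by
      by_contra hx3
      have h5 : ({1, t, x, σ x, σ (σ x)} : Finset Y).card = 5 := by
        have a1 : x ≠ 1 := fun h => hx (by rw [h, map_one])
        have a2 : x ≠ t := fun h => hx (by rw [h, ht])
        have b1 : σ x ≠ 1 := fun h => a1 (σ.injective (h.trans (map_one σ).symm))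
        have b2 : σ x ≠ t := fun h => a2 (σ.injective (h.trans ht.symm))
        have c1 : σ (σ x) ≠ 1 := fun h => b1 (σ.injective (h.trans (map_one σ).symm))
        have c2 : σ (σ x) ≠ t := fun h => b2 (σ.injective (h.trans ht.symm))
        have c3 : σ (σ x) ≠ σ x := fun h => hx (σ.injective h)
        simp [ht1.symm, a1.symm, a2.symm, b1.symm, b2.symm, c1.symm, c2.symm, Ne.symm hx, Ne.symm hx3, c3.symm]
      have := Finset.card_le_univ ({1, t, x, σ x, σ (σ x)} : Finset Y)
      rw [h5, ← Nat.card_eq_fintype_card] at this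
      omega
    obtain ⟨j, hj⟩ := hm
    have h2 : ∀ i : ℕ, (σ ^ (2 * i)) x = x := by
      intro i; induction i with
      | zero => rfl
      | succ i ih => rw [Nat.mul_succ, pow_add, MulAut.mul_apply, pow_two, MulAut.mul_apply, hx2, ih]
    apply hx
    have h3 : (σ ^ m) x = x := by rw [hσ]; rfl
    rw [hj, pow_succ', MulAut.mul_apply, h2] at h3
    exact h3
  · have hord : ∀ y, y * y ≠ 1 → y ∈ R := fun y h => by
      by_contra hy; exact h (hinv2 y hy)
    have hrσ : σ r ∈ R := hord _ (by rw [← map_mul]; exact fun h => hbig (σ.injective (h.trans (map_one σ).symm)))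
    have hfix : σ r = r := cyclic_fixed hY σ m hm hσ r (hRz ▸ hrσ)
    have hfixR : ∀ x ∈ R, σ x = x := by
      intro x hx
      rw [hRz] at hx
      obtain ⟨j, rfl⟩ := hx
      show σ (r ^ j) = r ^ j
      rw [map_zpow, hfix]
    refine MulEquiv.ext fun y => ?_
    rw [MulAut.one_apply]
    by_cases hy : y ∈ R
    · exact hfixR y hy
    have hσy : σ y ∉ R := fun h => hy (σ.injective (hfixR _ h) ▸ h)
    set a := y * σ y with ha
    have haR : a ∈ R := hprod y (σ y) hy hσy
    have hσy' : σ y = y * a := by rw [ha, ← mul_assoc, hinv2 y hy, one_mul]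
    have hit : ∀ j : ℕ, (σ ^ j) y = y * a ^ j := by
      intro j; induction j with
      | zero => simp
      | succ j ih => rw [pow_succ', MulAut.mul_apply, ih, map_mul, hσy', map_pow, hfixR a haR, mul_assoc, ← pow_succ']
    have h3 : a ^ m = 1 := by
      have := hit m
      rwa [hσ, MulAut.one_apply, left_eq_mul] at this
    obtain ⟨l, hl⟩ := IsPGroup.iff_orderOf.1 hY a
    have ha1 : a = 1 := orderOf_eq_one_iff.1 (Nat.eq_one_of_dvd_coprimes ((Nat.coprime_two_left.2 hm).pow_left l)
      (dvd_of_eq hl) (orderOf_dvd_of_pow_eq_one h3))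
    rw [hσy', ha1, mul_one]

def MulAut.conjNormal' {C : Type u} [Group C] {Y : Subgroup C} {g : C} (hg : g ∈ Subgroup.normalizer (Y : Set C)) : MulAut Y where
  toFun y := ⟨g * y * g⁻¹, (Subgroup.mem_normalizer_iff.1 hg y).1 y.2⟩
  invFun y := ⟨g⁻¹ * y * g, (Subgroup.mem_normalizer_iff''.1 hg y).1 y.2⟩
  left_inv y := Subtype.ext (by simp [mul_assoc])
  right_inv y := Subtype.ext (by simp [mul_assoc])
  map_mul' a b := Subtype.ext (by simp [mul_assoc])

theorem MulAut.conjNormal'_pow {C : Type u} [Group C] {Y : Subgroup C} {g : C} (hg : g ∈ Subgroup.normalizer (Y : Set C)) :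
    (MulAut.conjNormal' hg) ^ orderOf g = 1 := by
  have h : ∀ (j : ℕ) (y : Y), (((MulAut.conjNormal' hg) ^ j) y : C) = g ^ j * y * (g ^ j)⁻¹ := by
    intro j; induction j with
    | zero => intro y; simp
    | succ j ih =>
      intro y
      rw [pow_succ', MulAut.mul_apply]
      show g * (((MulAut.conjNormal' hg) ^ j) y : C) * g⁻¹ = _
      rw [ih, pow_succ']
      group
  refine MulEquiv.ext fun y => Subtype.ext ?_
  rw [h, pow_orderOf_eq_one]
  simp

/-- In a finite group whose Sylow 2-subgroups are dihedral of order at least 4, the centralizer of any involution has a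
normal subgroup of odd order whose index in the centralizer is a power of 2. -/
theorem result {X : Type*} [Group X] [Finite X]
    (S : Sylow 2 X) (n : ℕ) (hn : 2 ≤ n) (hS : Nonempty ((S : Subgroup X) ≃* DihedralGroup n)) (t : X)
    (ht : orderOf t = 2) :
    ∃ N : Subgroup (Subgroup.centralizer ({t} : Set X)), N.Normal ∧ Odd (Nat.card N) ∧ ∃ k : ℕ, N.index = 2 ^ k := by
  classical
  haveI : Fact (Nat.Prime 2) := ⟨Nat.prime_two⟩
  set C := Subgroup.centralizer ({t} : Set X) with hCdef
  have htC : t ∈ C := Subgroup.mem_centralizer_singleton_iff.2 rfl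
  let tc : C := ⟨t, htC⟩
  have hcen : ∀ c : C, c * tc = tc * c := fun c => Subtype.ext (Subgroup.mem_centralizer_singleton_iff.1 c.2)
  have htc2 : orderOf tc = 2 := by rw [← ht]; exact Subgroup.orderOf_mk t htC
  obtain ⟨e⟩ := hS
  have hpc : CfsgLib.ThompsonNPC.PCOn 2 (⊤ : Subgroup C) := by
    refine CfsgLib.FrobeniusCrit.pcOn_top (Nat.card C) C le_rfl fun W hW g hg hgo => ?_
    have hgm : Odd (orderOf g) := Nat.coprime_two_right.1 hgo
    set T := Subgroup.zpowers tc
    have hT : IsPGroup 2 T := IsPGroup.of_card (n := 1) (by rw [Nat.card_zpowers, htc2, pow_one])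
    haveI : T.Normal := ⟨fun a ha c => by
      obtain ⟨j, rfl⟩ := ha
      refine ⟨j, ?_⟩
      show tc ^ j = c * tc ^ j * c⁻¹
      rw [((show Commute c tc from hcen c).zpow_right j).eq, mul_inv_cancel_right]⟩
    set Y := W ⊔ T with hYdef
    have hY : IsPGroup 2 Y := hW.to_sup_of_normal_right hT
    obtain ⟨P, hP⟩ := (hY.map C.subtype).exists_le_sylow
    obtain ⟨x, hx⟩ := MulAction.exists_smul_eq X P S
    let f : Y →* DihedralGroup n :=
      e.toMonoidHom.comp ((((MulAut.conj x).toMonoidHom.comp (C.subtype.comp Y.subtype))).codRestrict (S : Subgroup X) (fun y => by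
        rw [← hx]
        show x * ((y : C) : X) * x⁻¹ ∈ MulAut.conj x • (P : Subgroup X)
        exact Subgroup.smul_mem_pointwise_smul _ _ _ (hP ⟨y, y.2, rfl⟩)))
    have hf : Function.Injective f := fun a b h => Subtype.ext (Subtype.ext ((MulAut.conj x).injective (congrArg Subtype.val (e.injective h))))
    have hgY : g ∈ Subgroup.normalizer (Y : Set C) := by
      have hconj : Y.map (MulAut.conj g).toMonoidHom = Y := by
        rw [hYdef, Subgroup.map_sup]
        congr 1
        · ext y
          rw [Subgroup.mem_map_equiv, MulAut.conj_symm_apply]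
          exact ((Subgroup.mem_normalizer_iff'').1 hg y).symm
        · rw [Subgroup.map_equiv_eq_comap_symm']
          ext y
          rw [Subgroup.mem_comap]
          show g⁻¹ * y * g ∈ T ↔ y ∈ T
          constructor
          · intro h
            have := (inferInstance : T.Normal).conj_mem _ h g
            simpa [mul_assoc] using this
          · intro h
            have := (inferInstance : T.Normal).conj_mem _ h g⁻¹
            simpa using this
      refine Subgroup.mem_normalizer_iff.2 fun y => ?_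
      conv_rhs => rw [← hconj, Subgroup.mem_map_equiv, MulAut.conj_symm_apply]
      rw [show g⁻¹ * (g * y * g⁻¹) * g = y by group]
    let σ : MulAut Y := MulAut.conjNormal' hgY
    have hσ1 := aut_trivial hY f hf σ (orderOf g) hgm (MulAut.conjNormal'_pow hgY) ⟨tc, Subgroup.mem_sup_right (Subgroup.mem_zpowers tc)⟩
      (fun h => by
        have h' : tc = 1 := congrArg Subtype.val h
        rw [h', orderOf_one] at htc2
        omega)
      (Subtype.ext (show g * tc * g⁻¹ = tc by rw [hcen g, mul_inv_cancel_right]))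
    refine Subgroup.mem_centralizer_iff.2 fun w hw => ?_
    have h1 := congrArg Subtype.val (MulEquiv.congr_fun hσ1 ⟨w, Subgroup.mem_sup_left hw⟩)
    change g * w * g⁻¹ = w at h1
    exact (mul_inv_eq_iff_eq_mul.1 h1).symm
  obtain ⟨P, N, hN, hc⟩ := CfsgLib.ThompsonNPC.hasNPC_iff.2 hpc
  haveI := hN
  refine ⟨N, hN, ?_, ?_⟩
  · rw [← show (P : Subgroup C).index = Nat.card N from hc.index_eq_card]
    exact Nat.not_even_iff_odd.1 (fun h => P.not_dvd_index h.two_dvd)
  · obtain ⟨k, hk⟩ := IsPGroup.iff_card.1 P.2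
    exact ⟨k, by rw [← hk]; exact hc.symm.index_eq_card⟩

end Cfsg.Agent.S0514
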