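import Cfsg.Statements.S0519
import Cfsg.Agent.S0636
import Cfsg.Agent.Lib.AbelianNormalCyclic
import Cfsg.Agent.Lib.CyclicMax
import Cfsg.Agent.Lib.MaximalClass
import Cfsg.Agent.Lib.TwoModels.QuatIso

set_option autoImplicit false
open Cfsg

namespace Cfsg.Agent.S0519

/-- Let P be a finite p-group in which every abelian normal subgroup is cyclic, but which has a non-cyclic abelian
subgroup. Then p = 2 and P is generalized quaternion, dihedral of order at least 16, or quasi-dihedral. -/
theorem result {P : Type*} [Group P] [Finite P] (p : ℕ) [Fact p.Prime]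
    (hP : IsPGroup p P) (hn : ∀ A : Subgroup P, A.Normal → IsMulCommutative A → IsCyclic A)
    (hm : ∃ B : Subgroup P, IsMulCommutative B ∧ ¬ IsCyclic B) :
    p = 2 ∧ ((∃ n : ℕ, Nonempty (P ≃* QuaternionGroup n)) ∨ (∃ n : ℕ, 8 ≤ n ∧ Nonempty (P ≃* DihedralGroup n)) ∨
      Cfsg.IsQuasiDihedral P) := by
    classical
    obtain ⟨B, hBc, hBn⟩ := hm
    have hPnc : ¬ IsCyclic P := fun h => hBn inferInstance
    have hp2 : p = 2 := by
      by_contra hp
      obtain ⟨A, -, hAn, hAel, hAc⟩ := Cfsg.Agent.S0636.result hp hP (⊤ : Subgroup P) (fun h => hPnc (by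
        haveI := h
        exact isCyclic_of_surjective (Subgroup.topEquiv : (⊤ : Subgroup P) ≃* P).toMonoidHom
          (Subgroup.topEquiv : (⊤ : Subgroup P) ≃* P).surjective))
      haveI := hn A hAn hAel.1
      obtain ⟨g, hg⟩ := IsCyclic.exists_generator (α := A)
      have h1 : orderOf g ∣ p := orderOf_dvd_of_pow_eq_one (Subtype.ext (by
        rw [SubmonoidClass.coe_pow]; exact hAel.2 _ g.2))
      rw [orderOf_eq_card_of_forall_mem_zpowers hg, hAc] at h1
      have h2 := (Fact.out : p.Prime).two_le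
      have h3 := Nat.le_of_dvd (by omega) h1
      nlinarith
    subst hp2
    refine ⟨rfl, ?_⟩
    obtain ⟨a, ha⟩ := CfsgLib.AbelianNormalCyclic.exists_cyclic_le_two hP (by
      rintro ⟨W, hWn, hWc, hWnc, -, -⟩
      exact hWnc (hn W hWn hWc))
    have hidx : (Subgroup.zpowers a).index = 2 := by
      rcases (Nat.dvd_prime Nat.prime_two).1 ha with h | h
      · exact absurd ⟨⟨a, fun x => by
          have := Subgroup.index_eq_one.1 h ▸ Subgroup.mem_top x
          exact this⟩⟩ hPnc
      · exact h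
    have hna : ∃ x y : P, x * y ≠ y * x := by
      by_contra hc
      push Not at hc
      haveI := hn ⊤ inferInstance ⟨⟨fun u v => Subtype.ext (hc u v)⟩⟩
      exact hPnc (isCyclic_of_surjective (Subgroup.topEquiv : (⊤ : Subgroup P) ≃* P).toMonoidHom
        (Subgroup.topEquiv : (⊤ : Subgroup P) ≃* P).surjective)
    obtain ⟨n, hcard⟩ := IsPGroup.iff_card.1 hP
    have hn3 : 3 ≤ n := by
      obtain ⟨x, y, hxy⟩ := hna
      by_contra hlt
      apply hxy
      interval_cases n
      · haveI := (Nat.card_eq_one_iff_unique.1 hcard).1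
        exact congrArg₂ (· * ·) (Subsingleton.elim x y) (Subsingleton.elim y x)
      · exact absurd (isCyclic_of_prime_card (by simpa using hcard)) hPnc
      · haveI : IsMulCommutative P := IsPGroup.isMulCommutative_of_card_eq_prime_sq hcard
        exact IsMulCommutative.is_comm.comm x y
    obtain ⟨c, b, hco, hbc, hcases⟩ := CfsgLib.CyclicMax.two_case hn3 hcard (Subgroup.zpowers a) inferInstance hidx hna
    have hcidx : (Subgroup.zpowers c).index = 2 := by
      have h := (Subgroup.zpowers c).card_mul_index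
      rw [Nat.card_zpowers, hco, hcard, show n = n - 1 + 1 by omega, pow_succ, Nat.add_sub_cancel] at h
      exact Nat.eq_of_mul_eq_mul_left (Nat.two_pow_pos _) h
    -- the four-group obstruction
    have hfour : b ^ 2 = 1 → (∀ i : ℤ, c ^ i * b * (c ^ i)⁻¹ = (c ^ 2 ^ (n - 2)) ^ i * b) → False := by
      intro hb2 hconj
      set z := c ^ 2 ^ (n - 2) with hz
      have hbb : b * b = 1 := by rw [← sq, hb2]
      have hzz : z * z = 1 := by
        rw [hz, ← pow_add, ← two_mul, ← pow_succ', show n - 2 + 1 = n - 1 by omega, ← hco, pow_orderOf_eq_one]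
      have hz1 : z ≠ 1 := fun h => by
        have h1 := orderOf_dvd_of_pow_eq_one h
        rw [hco, Nat.pow_dvd_pow_iff_le_right (by norm_num)] at h1
        omega
      have hzi : ∀ i : ℤ, z ^ i = 1 ∨ z ^ i = z := fun i => by
        rcases Int.even_or_odd i with ⟨j, rfl⟩ | ⟨j, rfl⟩
        · left; rw [← two_mul, zpow_mul, zpow_two, hzz, one_zpow]
        · right; rw [zpow_add_one, zpow_mul, zpow_two, hzz, one_zpow, one_mul]
      have hall : ∀ x : P, x * b * x⁻¹ = b ∨ x * b * x⁻¹ = z * b := by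
        intro x
        by_cases hx : x ∈ Subgroup.zpowers c
        · obtain ⟨i, rfl⟩ := Subgroup.mem_zpowers_iff.1 hx
          rcases hzi i with h | h
          · left; rw [hconj, h, one_mul]
          · right; rw [hconj, h]
        · obtain ⟨i, hi⟩ := Subgroup.mem_zpowers_iff.1
            ((Subgroup.mul_mem_iff_of_index_two hcidx (a := x) (b := b)).2 (iff_of_false hx hbc))
          have hx' : x = c ^ i * b := by rw [hi, mul_assoc, hbb, mul_one]
          have e : x * b * x⁻¹ = c ^ i * b * (c ^ i)⁻¹ := by rw [hx']; group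
          rcases hzi i with h | h
          · left; rw [e, hconj, h, one_mul]
          · right; rw [e, hconj, h]
      have hzc : z ∈ Subgroup.center P := by
        have hbz : b * z * b⁻¹ = z := by
          have h1 := hconj (2 ^ (n - 2) : ℕ)
          rw [zpow_natCast, zpow_natCast, ← hz] at h1
          have h2 : z ^ 2 ^ (n - 2) = 1 := by
            rw [show n - 2 = n - 3 + 1 by omega, pow_succ', pow_mul, sq, hzz, one_pow]
          rw [h2, one_mul] at h1
          calc b * z * b⁻¹ = (z * b * z⁻¹) * z * (z * b * z⁻¹)⁻¹ := by rw [h1]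
            _ = z * (b * z * b⁻¹) * z⁻¹ := by group
            _ = z := by
              have h3 : z * b = b * z := mul_inv_eq_iff_eq_mul.1 h1
              rw [← h3, mul_inv_cancel_right, mul_inv_cancel_right]
        refine Subgroup.mem_center_iff.2 fun x => mul_inv_eq_iff_eq_mul.1 ?_
        by_cases hx : x ∈ Subgroup.zpowers c
        · obtain ⟨i, rfl⟩ := Subgroup.mem_zpowers_iff.1 hx
          rw [hz, ((Commute.refl c).zpow_left i).pow_right _ |>.eq, mul_inv_cancel_right]
        · obtain ⟨i, hi⟩ := Subgroup.mem_zpowers_iff.1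
            ((Subgroup.mul_mem_iff_of_index_two hcidx (a := x) (b := b)).2 (iff_of_false hx hbc))
          have hx' : x = c ^ i * b := by rw [hi, mul_assoc, hbb, mul_one]
          calc x * z * x⁻¹ = c ^ i * (b * z * b⁻¹) * (c ^ i)⁻¹ := by rw [hx']; group
            _ = z := by rw [hbz, hz, ((Commute.refl c).zpow_left i).pow_right _ |>.eq, mul_inv_cancel_right]
      obtain ⟨W, hWn, hWc, hWnc, -, -⟩ := CfsgLib.AbelianNormalCyclic.four_of_conj hzz hzc hz1 hbb
        (fun h => hbc (h ▸ one_mem _)) (fun h => hbc (h ▸ ⟨(2 ^ (n - 2) : ℕ), zpow_natCast c _⟩)) hall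
      exact hWnc (hn W hWn hWc)
    rcases hcases with ⟨hb2, hinv⟩ | ⟨hb2, hinv⟩ | ⟨hn4, hb2, hinv⟩ | ⟨hn4, hb2, hinv⟩
    · by_cases hn4 : 4 ≤ n
      · haveI : NeZero (2 ^ (n - 1)) := ⟨(Nat.two_pow_pos _).ne'⟩
        refine Or.inr (Or.inl ⟨2 ^ (n - 1), ?_, CfsgLib.MaximalClass.dihedral_iso (by rw [← sq, hb2]) hco ?_ hbc hinv⟩)
        · calc 8 = 2 ^ 3 := by norm_num
            _ ≤ 2 ^ (n - 1) := Nat.pow_le_pow_right (by norm_num) (by omega)
        · rw [hcard, ← pow_succ', show n - 1 + 1 = n by omega]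
      · exfalso
        obtain rfl : n = 3 := by omega
        refine hfour hb2 fun i => ?_
        have e : b * (c ^ i)⁻¹ * b⁻¹ = c ^ i := by rw [← zpow_neg, ← conj_zpow, hinv, inv_zpow, zpow_neg, inv_inv]
        calc c ^ i * b * (c ^ i)⁻¹ = c ^ i * (b * (c ^ i)⁻¹ * b⁻¹) * b := by group
          _ = (c ^ 2 ^ (3 - 2)) ^ i * b := by
            rw [e, ← zpow_add, ← zpow_natCast c, ← zpow_mul]
            congr 2
            push_cast
            ring
    · left
      haveI : NeZero (2 ^ (n - 2)) := ⟨(Nat.two_pow_pos _).ne'⟩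
      exact ⟨2 ^ (n - 2), CfsgLib.TwoModels.quaternion_iso (by rw [hco, ← pow_succ', show n - 2 + 1 = n - 1 by omega])
        hbc (by rw [← sq, hb2]) hinv (by
          rw [hcard, show (4 : ℕ) = 2 ^ 2 by norm_num, ← pow_add, show 2 + (n - 2) = n by omega])⟩
    · exfalso
      refine hfour hb2 fun i => ?_
      set z := c ^ 2 ^ (n - 2) with hz
      have hzz : z * z = 1 := by
        rw [hz, ← pow_add, ← two_mul, ← pow_succ', show n - 2 + 1 = n - 1 by omega, ← hco, pow_orderOf_eq_one]
      have e : b * (c ^ i)⁻¹ * b⁻¹ = (c ^ i)⁻¹ * z ^ i := by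
        rw [← conj_inv, ← conj_zpow, hinv, pow_add, pow_one, ← hz,
          ((Commute.refl c).pow_right (2 ^ (n - 2))).mul_zpow, mul_inv_rev]
        have h1 : (z ^ i)⁻¹ = z ^ i := by
          rw [← inv_zpow, inv_eq_of_mul_eq_one_right hzz]
        rw [h1, ← zpow_neg, hz, ← zpow_natCast c, ← zpow_mul, ← zpow_add, ← zpow_add, add_comm]
      calc c ^ i * b * (c ^ i)⁻¹ = c ^ i * (b * (c ^ i)⁻¹ * b⁻¹) * b := by group
        _ = z ^ i * b := by rw [e, ← mul_assoc (c ^ i), mul_inv_cancel, one_mul]
    · refine Or.inr (Or.inr ⟨n - 1, by omega, ?_, c, b, hco, orderOf_eq_prime hb2 (fun h => hbc (h ▸ one_mem _)), ?_⟩)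
      · rw [hcard, show n - 1 + 1 = n by omega]
      · rw [hinv, show n - 1 - 1 = n - 2 by omega]

end Cfsg.Agent.S0519
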