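import Cfsg.Statements.S0520
import Mathlib
import Cfsg.Agent.Lib.KleinBasic

set_option autoImplicit false
open Cfsg

namespace Cfsg.Agent.S0520

open CfsgLib.KleinBasic

theorem klein_sq {G : Type*} [Group G] {W : Subgroup G} (hW : IsKleinFour W) (w : G) (hw : w ∈ W) : w * w = 1 := by
  haveI := hW
  exact congrArg Subtype.val (IsKleinFour.mul_self (⟨w, hw⟩ : W))

theorem klein_comm {G : Type*} [Group G] {W : Subgroup G} (hW : IsKleinFour W) (a : G) (ha : a ∈ W) (b : G) (hb : b ∈ W) : a * b = b * a := by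
  have h1 := klein_sq hW _ (W.mul_mem ha hb)
  rw [← inv_eq_iff_mul_eq_one] at h1
  rw [← h1, mul_inv_rev, inv_eq_of_mul_eq_one_right (klein_sq hW a ha), inv_eq_of_mul_eq_one_right (klein_sq hW b hb)]

theorem klein_equiv {A B : Type*} [Group A] [Group B] (e : A ≃* B) (h : IsKleinFour B) : IsKleinFour A :=
  ⟨(Nat.card_congr e.toEquiv).trans h.card_four, (Monoid.exponent_eq_of_mulEquiv e).trans h.exponent_two⟩

theorem klein_map {G H : Type*} [Group G] [Group H] (f : G →* H) (hf : Function.Injective f) {W : Subgroup G} (hW : IsKleinFour W) :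
    IsKleinFour (W.map f) := klein_equiv (W.equivMapOfInjective f hf).symm hW

theorem rlift {α β : Type*} {r : α → α → Prop} {p : β → β → Prop} (f : α → β) (h : ∀ a b, r a b → p (f a) (f b))
    {a b : α} (hab : Relation.ReflTransGen r a b) : Relation.ReflTransGen p (f a) (f b) := by
  induction hab with
  | refl => exact Relation.ReflTransGen.refl
  | tail _ hbc ih => exact ih.tail (h _ _ hbc)

theorem klein_pgroup {G : Type*} [Group G] {W : Subgroup G} (hW : IsKleinFour W) : IsPGroup 2 W :=
  IsPGroup.of_card (n := 2) (by rw [hW.card_four]; norm_num)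

/-- Let G be a finite group of 2-rank at least 2 and S a Sylow 2-subgroup whose commuting graph of Klein four-subgroups is
connected. Then the commuting graph of Klein four-subgroups of G is disconnected if and only if the 2-generated core — the
subgroup generated by the normalizers N_G(Q) of the subgroups Q of S that contain a Klein four-group — is a proper
subgroup of G. -/
theorem result {G : Type*} [Group G] [Finite G] (h2 : ¬ Cfsg.PRankLE 2 1 G)
    (S : Sylow 2 G) (hS : Cfsg.IsFourConnected (S : Subgroup G)) :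
    ¬ Cfsg.IsFourConnected G ↔
      (⨆ Q : {Q : Subgroup G // Q ≤ (S : Subgroup G) ∧ ¬ Cfsg.PRankLE 2 1 Q},
          Subgroup.normalizer ((Q : Subgroup G) : Set G)) ≠ ⊤ := by
  classical
  haveI : Fact (Nat.Prime 2) := ⟨Nat.prime_two⟩
  set M := ⨆ Q : {Q : Subgroup G // Q ≤ (S : Subgroup G) ∧ ¬ Cfsg.PRankLE 2 1 Q}, Subgroup.normalizer ((Q : Subgroup G) : Set G)
  let R := fun A B : Subgroup G => IsKleinFour A ∧ IsKleinFour B ∧ ∀ a ∈ A, ∀ b ∈ B, a * b = b * a
  have hrankof : ∀ (Q : Subgroup G) (W : Subgroup G), IsKleinFour W → W ≤ Q → ¬ Cfsg.PRankLE 2 1 Q := fun Q W hW hle h => by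
    have h1 := h (W.subgroupOf Q) ⟨⟨fun a b => Subtype.ext (Subtype.ext (klein_comm hW (a : Q).1 a.2 (b : Q).1 b.2))⟩⟩
      (fun a ha => Subtype.ext (by rw [Subgroup.coe_pow, pow_two]; exact klein_sq hW _ ha))
    rw [Nat.card_congr (Subgroup.subgroupOfEquivOfLe hle).toEquiv, hW.card_four] at h1
    norm_num at h1
  have hkleinof : ∀ (Q : Subgroup G), ¬ Cfsg.PRankLE 2 1 Q → ∃ W : Subgroup G, IsKleinFour W ∧ W ≤ Q := fun Q hQ => by
    simp only [Cfsg.PRankLE, not_forall, not_le] at hQ
    obtain ⟨A, hA, hA2, hcard⟩ := hQ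
    rw [pow_one] at hcard
    obtain ⟨a, b, ha, hb, ha1, hb1, hab⟩ : ∃ a b : Q, a ∈ A ∧ b ∈ A ∧ a ≠ 1 ∧ b ≠ 1 ∧ a ≠ b := by
      haveI : Fintype A := Fintype.ofFinite A
      obtain ⟨a, ha⟩ := Fintype.exists_ne_of_one_lt_card (by rw [← Nat.card_eq_fintype_card]; omega) (1 : A)
      obtain ⟨b, -, hb⟩ := Finset.exists_mem_notMem_of_card_lt_card (s := ({1, a} : Finset A)) (t := Finset.univ)
        (by rw [Finset.card_univ, ← Nat.card_eq_fintype_card]; exact Finset.card_le_two.trans_lt hcard)
      simp only [Finset.mem_insert, Finset.mem_singleton, not_or] at hb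
      exact ⟨a, b, a.2, b.2, fun e => ha (Subtype.ext e), fun e => hb.1 (Subtype.ext e), fun e => hb.2 (Subtype.ext e.symm)⟩
    have hsq : ∀ x : Q, x ∈ A → ((x : G) * x = 1) := fun x hx => by
      rw [← pow_two, ← Subgroup.coe_pow, hA2 x hx, Subgroup.coe_one]
    obtain ⟨W, hW, haW, hbW, -⟩ := exists_klein (a : G) (b : G) (hsq a ha) (hsq b hb)
      (by haveI := hA; exact congrArg (fun x : A => ((x : Q) : G)) (mul_comm' (⟨a, ha⟩ : A) ⟨b, hb⟩))
      (fun e => ha1 (Subtype.ext e)) (fun e => hb1 (Subtype.ext e)) (fun e => hab (Subtype.ext e))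
    exact ⟨W, hW, klein_le hW haW hbW (fun e => ha1 (Subtype.ext e)) (fun e => hb1 (Subtype.ext e)) (fun e => hab (Subtype.ext e)) Q a.2 b.2⟩
  have hNM : ∀ Q : Subgroup G, Q ≤ (S : Subgroup G) → ¬ Cfsg.PRankLE 2 1 Q → Subgroup.normalizer (Q : Set G) ≤ M := fun Q h1 h2 =>
    le_iSup (fun Q : {Q : Subgroup G // Q ≤ (S : Subgroup G) ∧ ¬ Cfsg.PRankLE 2 1 Q} => Subgroup.normalizer ((Q : Subgroup G) : Set G)) ⟨Q, h1, h2⟩
  -- a Klein four-subgroup of S
  obtain ⟨U₀, hU₀, hU₀S⟩ : ∃ U : Subgroup G, IsKleinFour U ∧ U ≤ (S : Subgroup G) := by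
    simp only [Cfsg.PRankLE, not_forall, not_le] at h2
    obtain ⟨A, hA, hA2, hcard⟩ := h2
    have hAp : IsPGroup 2 A := fun a => ⟨1, Subtype.ext (by simpa using hA2 a a.2)⟩
    obtain ⟨T, hT⟩ := hAp.exists_le_sylow
    obtain ⟨g, hg⟩ := MulAction.exists_smul_eq G T S
    obtain ⟨W, hW, hWA⟩ := hkleinof A fun h => by
      have h' := h ⊤ ⟨⟨fun a b => Subtype.ext (by haveI := hA; exact mul_comm' (a : A) (b : A))⟩⟩ (fun a _ => Subtype.ext (hA2 _ a.2))
      rw [Nat.card_congr Subgroup.topEquiv.toEquiv] at h'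
      omega
    refine ⟨W.map (MulAut.conj g).toMonoidHom, klein_map _ (MulAut.conj g).injective hW, ?_⟩
    rintro _ ⟨w, hw, rfl⟩
    rw [← hg]
    exact Subgroup.smul_mem_pointwise_smul _ (MulAut.conj g) _ (hT (hWA hw))
  -- the key property of M
  have hkey : ∀ n : ℕ, ∀ h : G, Nat.card (S : Subgroup G) - Nat.card ↥((S : Subgroup G) ⊓ ((h • S : Sylow 2 G) : Subgroup G)) ≤ n →
      ¬ Cfsg.PRankLE 2 1 ↥((S : Subgroup G) ⊓ ((h • S : Sylow 2 G) : Subgroup G)) → h ∈ M := by
    intro n
    induction n with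
    | zero =>
      intro h hn _
      have he := Subgroup.eq_of_le_of_card_ge (inf_le_left : (S : Subgroup G) ⊓ ((h • S : Sylow 2 G) : Subgroup G) ≤ S) (by omega)
      have hSS : h • S = S := Sylow.ext ((S.3 (h • S).2 (he ▸ inf_le_right)).symm ▸ rfl)
      exact hNM S le_rfl (hrankof _ U₀ hU₀ hU₀S) (Sylow.smul_eq_iff_mem_normalizer.1 hSS)
    | succ n ih =>
      intro h hn hr
      set D := (S : Subgroup G) ⊓ ((h • S : Sylow 2 G) : Subgroup G) with hD
      rcases eq_or_lt_of_le (inf_le_left : D ≤ (S : Subgroup G)) with he | hlt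
      · refine ih h ?_ hr
        rw [he]; omega
      have hlt' : D < ((h • S : Sylow 2 G) : Subgroup G) := lt_of_le_of_ne inf_le_right fun e => by
        have hc : Nat.card D = Nat.card (S : Subgroup G) := by
          rw [e]; exact (h • S).card_eq_multiplicity.trans S.card_eq_multiplicity.symm
        exact hlt.ne (Subgroup.eq_of_le_of_card_ge inf_le_left hc.ge)
      obtain ⟨T, hT⟩ := (S.2.comap_subtype (K := Subgroup.normalizer (D : Set G))).exists_le_sylow
      obtain ⟨T₂, hT₂⟩ := ((h • S : Sylow 2 G).2.comap_subtype (K := Subgroup.normalizer (D : Set G))).exists_le_sylow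
      obtain ⟨n₀, hn₀⟩ := MulAction.exists_smul_eq (Subgroup.normalizer (D : Set G)) T T₂
      obtain ⟨C, hC⟩ := (T.2.map (Subgroup.normalizer (D : Set G)).subtype).exists_le_sylow
      obtain ⟨c, rfl⟩ := MulAction.exists_smul_eq G S C
      have hup : ∀ (X Y : Subgroup G), D < X → X ⊓ Subgroup.normalizer (D : Set G) ≤ Y → IsPGroup 2 X → Nat.card D < Nat.card ↥(X ⊓ Y) := by
        intro X Y hX hY hXp
        haveI : Group.IsNilpotent ↥X := hXp.isNilpotent
        obtain ⟨x, hx, hxD⟩ := SetLike.exists_of_lt (Group.normalizerCondition_of_isNilpotent (D.subgroupOf X) (lt_top_iff_ne_top.2 fun h => hX.not_ge (Subgroup.subgroupOf_eq_top.1 h)))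
        have hxN : (x : G) ∈ Subgroup.normalizer (D : Set G) := by
          rw [Subgroup.mem_normalizer_iff] at hx ⊢
          intro d
          refine ⟨fun hd => (hx ⟨d, hX.le hd⟩).1 hd, fun hd => ?_⟩
          have hdX : d ∈ X := by
            have := X.mul_mem (X.mul_mem (X.inv_mem x.2) (hX.le hd)) x.2
            simpa [mul_assoc] using this
          exact (hx ⟨d, hdX⟩).2 hd
        have hlt2 : D < X ⊓ Y := lt_of_le_of_ne (le_inf hX.le ((le_inf hX.le Subgroup.le_normalizer).trans hY)) fun e =>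
          hxD (show (x : G) ∈ D from e ▸ ⟨x.2, hY ⟨x.2, hxN⟩⟩)
        exact (Set.ncard_lt_ncard hlt2 (Set.toFinite _) :)
      have hmonoD : ∀ X : Subgroup G, D ≤ X → ¬ Cfsg.PRankLE 2 1 X := fun X hX => by
        obtain ⟨W, hW, hWD⟩ := hkleinof D hr
        exact hrankof X W hW (hWD.trans hX)
      have hb1 : D < (S : Subgroup G) := hlt
      have hs1 := hup S ((c • S : Sylow 2 G) : Subgroup G) hb1 (fun x hx => hC ⟨⟨x, hx.2⟩, hT hx.1, rfl⟩) S.2
      have hcM : c ∈ M := by
        refine ih c (by omega) (hmonoD _ ?_)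
        intro d hd
        exact ⟨hd.1, hC ⟨⟨d, Subgroup.le_normalizer hd⟩, hT hd.1, rfl⟩⟩
      have hn₀M : (n₀ : G) ∈ M := hNM D inf_le_left hr n₀.2
      have hT2C : ∀ x, x ∈ ((h • S : Sylow 2 G) : Subgroup G) ⊓ Subgroup.normalizer (D : Set G) → x ∈ ((((n₀ : G) * c) • S : Sylow 2 G) : Subgroup G) := by
        intro x hx
        have h1 : (⟨x, hx.2⟩ : Subgroup.normalizer (D : Set G)) ∈ (T₂ : Subgroup _) := hT₂ hx.1
        rw [← hn₀] at h1
        obtain ⟨t, ht, hte⟩ := h1
        rw [mul_smul]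
        exact ⟨(t : G), hC (Subgroup.mem_map_of_mem _ ht), congrArg Subtype.val hte⟩
      have hs2 := hup ((h • S : Sylow 2 G) : Subgroup G) ((((n₀ : G) * c) • S : Sylow 2 G) : Subgroup G) hlt' hT2C (h • S).2
      have hfin : ((n₀ : G) * c)⁻¹ * h ∈ M := by
        have hmap : (((h • S : Sylow 2 G) : Subgroup G) ⊓ ((((n₀ : G) * c) • S : Sylow 2 G) : Subgroup G)).map (MulAut.conj ((n₀ : G) * c)⁻¹).toMonoidHom =
            (S : Subgroup G) ⊓ (((((n₀ : G) * c)⁻¹ * h) • S : Sylow 2 G) : Subgroup G) := by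
          rw [Subgroup.map_inf _ _ _ (MulAut.conj _).injective, inf_comm]
          congr 1
          · change ((((n₀ : G) * c)⁻¹ • (((n₀ : G) * c) • S) : Sylow 2 G) : Subgroup G) = _
            rw [inv_smul_smul]
          · change ((((n₀ : G) * c)⁻¹ • (h • S) : Sylow 2 G) : Subgroup G) = _
            rw [← mul_smul]
        refine ih _ ?_ ?_
        · rw [← hmap, Subgroup.card_map_of_injective (MulAut.conj _).injective]; omega
        · obtain ⟨W, hW, hWD⟩ := hkleinof D hr
          rw [← hmap]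
          refine hrankof _ _ (klein_map _ (MulAut.conj ((n₀ : G) * c)⁻¹).injective hW) (Subgroup.map_mono ?_)
          refine hWD.trans (le_inf inf_le_right fun d hd => hT2C d ⟨hd.2, Subgroup.le_normalizer hd⟩)
      have := M.mul_mem (M.mul_mem hn₀M hcM) hfin
      rwa [mul_inv_cancel_left] at this
  have hkey' : ∀ h : G, ∀ W : Subgroup G, IsKleinFour W → W ≤ (S : Subgroup G) → W ≤ ((h • S : Sylow 2 G) : Subgroup G) → h ∈ M :=
    fun h W hW h1 h2' => hkey _ h le_rfl (hrankof _ W hW (le_inf h1 h2'))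
  constructor
  · intro hnot htop
    apply hnot
    -- connectedness
    let C := fun V : Subgroup G => IsKleinFour V → Relation.ReflTransGen R U₀ V
    have hrev : ∀ {A B : Subgroup G}, Relation.ReflTransGen R A B → Relation.ReflTransGen R B A := fun h => by
      induction h with
      | refl => exact Relation.ReflTransGen.refl
      | tail _ hbc ih => exact Relation.ReflTransGen.head ⟨hbc.2.1, hbc.1, fun a ha b hb => (hbc.2.2 b hb a ha).symm⟩ ih
    have hlift : ∀ U V : Subgroup G, IsKleinFour U → IsKleinFour V → U ≤ (S : Subgroup G) → V ≤ (S : Subgroup G) → Relation.ReflTransGen R U V := by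
      intro U V hU hV hUS hVS
      have h := hS (U.subgroupOf S) (V.subgroupOf S) (klein_equiv (Subgroup.subgroupOfEquivOfLe hUS) hU) (klein_equiv (Subgroup.subgroupOfEquivOfLe hVS) hV)
      have h' := rlift (p := R) (fun X : Subgroup (S : Subgroup G) => X.map (S : Subgroup G).subtype) (fun A B hAB =>
        ⟨klein_map _ (Subgroup.subtype_injective _) hAB.1, klein_map _ (Subgroup.subtype_injective _) hAB.2.1, by
          rintro _ ⟨a, ha, rfl⟩ _ ⟨b, hb, rfl⟩
          exact congrArg Subtype.val (hAB.2.2 a ha b hb)⟩) h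
      simpa [Subgroup.map_subgroupOf_eq_of_le hUS, Subgroup.map_subgroupOf_eq_of_le hVS] using h'
    have hmapR : ∀ (g : G) {A B : Subgroup G}, Relation.ReflTransGen R A B → Relation.ReflTransGen R (A.map (MulAut.conj g).toMonoidHom) (B.map (MulAut.conj g).toMonoidHom) := fun g A B h =>
      rlift (p := R) (fun X : Subgroup G => X.map (MulAut.conj g).toMonoidHom) (fun A B hAB =>
        ⟨klein_map _ (MulAut.conj g).injective hAB.1, klein_map _ (MulAut.conj g).injective hAB.2.1, by
          rintro _ ⟨a, ha, rfl⟩ _ ⟨b, hb, rfl⟩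
          exact (map_mul _ a b).symm.trans ((congrArg _ (hAB.2.2 a ha b hb)).trans (map_mul _ b a))⟩) h
    let Stab : Subgroup G :=
      { carrier := {g | Relation.ReflTransGen R U₀ (U₀.map (MulAut.conj g).toMonoidHom)}
        one_mem' := by
          show Relation.ReflTransGen R U₀ (U₀.map (MulAut.conj (1 : G)).toMonoidHom)
          rw [show U₀.map (MulAut.conj (1 : G)).toMonoidHom = U₀ by ext x; simp [MulAut.one_def]]
        mul_mem' := fun {g g'} hg hg' => by
          have h := hmapR g hg'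
          rw [Subgroup.map_map] at h
          refine hg.trans ?_
          convert h using 2
          ext x; simp [mul_assoc]
        inv_mem' := fun {g} hg => by
          have h := hrev (hmapR g⁻¹ hg)
          rw [Subgroup.map_map] at h
          show Relation.ReflTransGen R U₀ _
          convert h using 1
          ext x; simp [mul_assoc] }
    have hMS : M ≤ Stab := iSup_le fun Q n hn => by
      obtain ⟨W, hW, hWQ⟩ := hkleinof _ Q.2.2
      have hnW : W.map (MulAut.conj n).toMonoidHom ≤ (Q : Subgroup G) := by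
        rintro _ ⟨w, hw, rfl⟩
        exact (Subgroup.mem_normalizer_iff.1 hn w).1 (hWQ hw)
      show Relation.ReflTransGen R U₀ _
      exact ((hlift _ _ hU₀ (klein_map _ (MulAut.conj n).injective hW) hU₀S (hnW.trans Q.2.1)).trans (hmapR n (hlift _ _ hW hU₀ (hWQ.trans Q.2.1) hU₀S)))
    intro U V hU hV
    have hall : ∀ V : Subgroup G, IsKleinFour V → Relation.ReflTransGen R U₀ V := by
      intro V hV
      obtain ⟨T, hT⟩ := (klein_pgroup hV).exists_le_sylow
      obtain ⟨g, hg⟩ := MulAction.exists_smul_eq G S T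
      have hgS : g ∈ Stab := hMS (htop ▸ Subgroup.mem_top g)
      have hV' : V.map (MulAut.conj g⁻¹).toMonoidHom ≤ (S : Subgroup G) := by
        rintro _ ⟨w, hw, rfl⟩
        have h1 := hT hw
        rw [← hg] at h1
        obtain ⟨s, hs, hse⟩ := h1
        have : MulAut.conj g s = w := hse
        show MulAut.conj g⁻¹ w ∈ (S : Subgroup G)
        rw [← this]
        simpa [mul_assoc] using (show s ∈ (S : Subgroup G) from hs)
      have h := hmapR g (hlift _ _ hU₀ (klein_map _ (MulAut.conj g⁻¹).injective hV) hU₀S hV')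
      rw [Subgroup.map_map] at h
      refine (show Relation.ReflTransGen R U₀ _ from hgS).trans ?_
      convert h using 1
      ext x; simp [mul_assoc]
    exact (hrev (hall U hU)).trans (hall V hV)
  · intro hM hconn
    apply hM
    rw [eq_top_iff]
    intro g _
    let Good := fun B : Subgroup G => ∃ h ∈ M, B ≤ ((h • S : Sylow 2 G) : Subgroup G)
    have hclosed : ∀ A B : Subgroup G, R A B → Good A → Good B := by
      rintro A B ⟨hA, hB, hAB⟩ ⟨h, hh, hhA⟩
      have hp : IsPGroup 2 ↥(A ⊔ B) := (klein_pgroup hA).to_sup_of_normal_right' (klein_pgroup hB) (fun a ha => by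
        rw [Subgroup.mem_normalizer_iff]
        intro b
        constructor
        · intro hb; rwa [hAB a ha b hb, mul_inv_cancel_right]
        · intro hb
          have hb' := hAB a ha _ hb
          have : b = a * b * a⁻¹ := by
            calc b = a⁻¹ * ((a * b * a⁻¹) * a) := by group
              _ = a⁻¹ * (a * (a * b * a⁻¹)) := by rw [hb']
              _ = a * b * a⁻¹ := by group
          rwa [this])
      obtain ⟨T, hT⟩ := hp.exists_le_sylow
      obtain ⟨k, rfl⟩ := MulAction.exists_smul_eq G S T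
      refine ⟨k, ?_, le_sup_right.trans hT⟩
      have hk : h⁻¹ * k ∈ M := hkey' _ (A.map (MulAut.conj h⁻¹).toMonoidHom) (klein_map _ (MulAut.conj h⁻¹).injective hA) (by
          rintro _ ⟨a, ha, rfl⟩
          obtain ⟨s, hs, hse⟩ := hhA ha
          have : MulAut.conj h s = a := hse
          show MulAut.conj h⁻¹ a ∈ (S : Subgroup G)
          rw [← this]
          simpa [mul_assoc] using (show s ∈ (S : Subgroup G) from hs)) (by
          rw [mul_smul]
          exact Subgroup.map_mono (le_sup_left.trans hT))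
      simpa using M.mul_mem hh hk
    have hgood : ∀ B : Subgroup G, Relation.ReflTransGen R U₀ B → Good B := fun B hB => by
      induction hB with
      | refl => exact ⟨1, M.one_mem, by rw [one_smul]; exact hU₀S⟩
      | tail _ hbc ih => exact hclosed _ _ hbc ih
    obtain ⟨h, hh, hle⟩ := hgood (U₀.map (MulAut.conj g).toMonoidHom) (hconn U₀ _ hU₀ (klein_map _ (MulAut.conj g).injective hU₀))
    have hk : g⁻¹ * h ∈ M := hkey' _ U₀ hU₀ hU₀S (by
      rw [mul_smul]
      intro u hu
      refine ⟨MulAut.conj g u, hle (Subgroup.mem_map_of_mem _ hu), ?_⟩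
      show MulAut.conj g⁻¹ (MulAut.conj g u) = u
      simp [mul_assoc])
    have := M.mul_mem hh (M.inv_mem hk)
    simpa [mul_assoc] using this

end Cfsg.Agent.S0520
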