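import Cfsg.Statements.S0521
import Mathlib
import Cfsg.Agent.Lib.OddStable
import Cfsg.Agent.Lib.OddQuad
import Cfsg.Agent.Lib.UniqueOrderP
import Cfsg.Agent.Lib.Solvable.Basics
import Cfsg.Agent.Lib.Core

set_option autoImplicit false
open Cfsg

namespace CfsgLib.CyclicDerivedSylow

open scoped commutatorElement

universe u

theorem image_cyclic {X Y : Type u} [Group X] [Group Y] (f : X →* Y) (A : Subgroup X)
    (h : IsCyclic (commutator A)) : IsCyclic (commutator (A.map f)) := by
  have he : (commutator A).map (f.subgroupMap A) = commutator (A.map f) := by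
    rw [commutator_def, commutator_def, Subgroup.map_commutator, Subgroup.map_top_of_surjective _ (f.subgroupMap_surjective A)]
  rw [← he]
  haveI := h
  exact isCyclic_of_surjective ((f.subgroupMap A).subgroupMap (commutator A)) ((f.subgroupMap A).subgroupMap_surjective _)

theorem main (p : ℕ) [Fact p.Prime] : ∀ (n : ℕ) (X : Type u) [Group X] [Finite X] [Group.IsSolvable X],
    Nat.card X = n → Odd (Nat.card X) → ∀ S : Sylow p X, IsCyclic (commutator (S : Subgroup X)) →
    (Cfsg.pPrimeCore p X ⊔ (S : Subgroup X)).Normal := by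
  intro n
  induction n using Nat.strong_induction_on with
  | _ n ih =>
  intro X _ _ _ hn hX S hS
  have hquot : ∀ N : Subgroup X, ∀ [N.Normal], N ≠ ⊥ →
      (Cfsg.pPrimeCore p (X ⧸ N) ⊔ (S : Subgroup X).map (QuotientGroup.mk' N)).Normal := by
    intro N _ hN
    have hs := QuotientGroup.mk'_surjective N
    haveI : Group.IsSolvable (X ⧸ N) := Group.isSolvable_of_surjective hs
    have hlt : Nat.card (X ⧸ N) < n := by
      rw [← hn, ← Subgroup.index_eq_card, ← Subgroup.card_mul_index N]
      exact lt_mul_of_one_lt_left (Nat.pos_of_ne_zero Subgroup.index_ne_zero_of_finite)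
        ((Subgroup.one_lt_card_iff_ne_bot N).2 hN)
    have := ih _ hlt (X ⧸ N) rfl (hX.of_dvd_nat (Subgroup.card_quotient_dvd_card N)) (S.mapSurjective hs)
      (by
        show IsCyclic (commutator ↥((S : Subgroup X).map (QuotientGroup.mk' N)))
        exact image_cyclic _ _ hS)
    simpa [Sylow.coe_mapSurjective] using this
  by_cases hO : Cfsg.pPrimeCore p X = ⊥
  swap
  · have h1 := hquot (Cfsg.pPrimeCore p X) hO
    rw [CfsgLib.Core.pPrimeCore_quotient_eq_bot, bot_sup_eq] at h1
    have h2 := h1.comap (QuotientGroup.mk' (Cfsg.pPrimeCore p X))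
    rwa [Subgroup.comap_map_eq, QuotientGroup.ker_mk', sup_comm] at h2
  rw [hO, bot_sup_eq]
  by_cases hp2 : p = 2
  · have h1 : (S : Subgroup X) = ⊥ := by
      obtain ⟨k, hk⟩ := S.2.exists_card_eq
      rcases Nat.eq_zero_or_pos k with rfl | hk0
      · exact Subgroup.card_eq_one.1 (by rw [hk, pow_zero])
      · exact absurd hX (Nat.not_odd_iff_even.2 (even_iff_two_dvd.2
          ((hp2 ▸ hk ▸ dvd_pow_self p hk0.ne' : 2 ∣ Nat.card (S : Subgroup X)).trans
            (Subgroup.card_subgroup_dvd_card _))))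
    rw [h1]; infer_instance
  have hcK := CfsgLib.OddQuad.centralizer_pCore_le hO
  by_cases hK : Cfsg.pCore p X = ⊥
  · have h1 : (S : Subgroup X) = ⊥ := by
      refine le_bot_iff.1 fun x _ => hK ▸ hcK ?_
      rw [hK, Subgroup.mem_centralizer_iff]
      intro y hy
      rw [Subgroup.mem_bot.1 hy, one_mul, mul_one]
    rw [h1]; infer_instance
  -- a minimal normal subgroup
  obtain ⟨V, -, hVmem, hVmin⟩ := Finite.exists_le_minimal
    (p := fun U : Subgroup X => U.Normal ∧ U ≠ ⊥ ∧ U ≤ Cfsg.pCore p X) (a := Cfsg.pCore p X)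
    ⟨inferInstance, hK, le_rfl⟩
  obtain ⟨hVn, hV1, hVK⟩ := hVmem
  haveI := hVn
  have hVp : IsPGroup p V := (CfsgLib.Core.isPGroup_pCore p).to_le hVK
  have hmin : ∀ U : Subgroup X, U.Normal → U ≤ V → U = ⊥ ∨ U = V := fun U hU hle =>
    (em (U = ⊥)).imp id fun h => le_antisymm hle (hVmin ⟨hU, h, hle.trans hVK⟩ hle)
  have hVc : ∀ x ∈ V, ∀ y ∈ V, x * y = y * x := by
    have h1 := CfsgLib.Glauberman.le_centralizer_of_minimal hV1 hVp hVp hmin
    exact fun x hx y hy => Subgroup.mem_centralizer_iff.1 (h1 hy) x hx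
  have hexp : ∀ v ∈ V, v ^ p = 1 := by
    let U : Subgroup X :=
      { carrier := {v | v ∈ V ∧ v ^ p = 1}
        one_mem' := ⟨one_mem _, one_pow _⟩
        mul_mem' := fun {a b} ha hb => ⟨mul_mem ha.1 hb.1, by
          rw [(show Commute a b from hVc a ha.1 b hb.1).mul_pow, ha.2, hb.2, one_mul]⟩
        inv_mem' := fun {a} ha => ⟨inv_mem ha.1, by rw [inv_pow, ha.2, inv_one]⟩ }
    have hUn : U.Normal := ⟨fun v hv g => ⟨hVn.conj_mem v hv.1 g, by rw [conj_pow, hv.2]; group⟩⟩
    rcases hmin U hUn (fun v hv => hv.1) with h | h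
    · exfalso
      haveI := (Subgroup.nontrivial_iff_ne_bot V).2 hV1
      obtain ⟨k, hk0, hk⟩ := hVp.nontrivial_iff_card.mp inferInstance
      obtain ⟨⟨x, hx⟩, hxo⟩ := exists_prime_orderOf_dvd_card' (G := V) p (hk ▸ dvd_pow_self p hk0.ne')
      rw [Subgroup.orderOf_mk] at hxo
      have h2 : x ∈ U := ⟨hx, by rw [← hxo, pow_orderOf_eq_one]⟩
      rw [h, Subgroup.mem_bot] at h2
      exact (Fact.out : p.Prime).ne_one (by rw [← hxo, h2, orderOf_one])
    · exact fun v hv => (h.ge hv).2
  set C := Subgroup.centralizer (V : Set X) with hC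
  have hCn : C.Normal := inferInstance
  have hVS : V ≤ (S : Subgroup X) := hVK.trans (CfsgLib.Core.pCore_le_sylow S)
  -- every element of the Sylow subgroup acts quadratically
  have hSC : (S : Subgroup X) ≤ C := by
    intro s hs
    haveI := hS
    have hquad : ∀ v ∈ V, ⁅⁅v, s⁆, s⁆ = 1 := by
      intro v hv
      have hyS : ⁅v, s⁆ ∈ (S : Subgroup X) := (S : Subgroup X).mul_mem
        ((S : Subgroup X).mul_mem ((S : Subgroup X).mul_mem (hVS hv) hs) (inv_mem (hVS hv))) (inv_mem hs)
      have hyV : ⁅v, s⁆ ∈ V := by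
        rw [commutatorElement_def, mul_assoc, mul_assoc, ← mul_assoc s]
        exact V.mul_mem hv (hVn.conj_mem _ (V.inv_mem hv) s)
      have hyC : (⟨⁅v, s⁆, hyS⟩ : (S : Subgroup X)) ∈ commutator (S : Subgroup X) := by
        rw [commutator_def]
        exact Subgroup.commutator_mem_commutator (Subgroup.mem_top (⟨v, hVS hv⟩ : (S : Subgroup X)))
          (Subgroup.mem_top ⟨s, hs⟩)
      by_cases hy1 : ⁅v, s⁆ = 1
      · rw [hy1, commutatorElement_one_left]
      set y : (S : Subgroup X) := ⟨⁅v, s⁆, hyS⟩ with hy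
      have hyo : orderOf y = p := by
        refine orderOf_eq_prime (Subtype.ext ?_) fun h => hy1 (congrArg Subtype.val h)
        exact hexp _ hyV
      have hZn : (Subgroup.zpowers y).Normal := by
        refine ⟨fun u hu e => ?_⟩
        obtain ⟨i, rfl⟩ := hu
        have hey : e * y * e⁻¹ ∈ commutator (S : Subgroup X) :=
          (inferInstance : (commutator (S : Subgroup X)).Normal).conj_mem y hyC e
        obtain ⟨j, hj⟩ := Subgroup.mem_zpowers_iff.1 (CfsgLib.UniqueOrderP.uniq_of_cyclic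
          (G := commutator (S : Subgroup X)) (p := p)
          ⟨y, hyC⟩ ⟨_, hey⟩ (by rw [Subgroup.orderOf_mk, hyo]) (by
            rw [Subgroup.orderOf_mk, ← MulAut.conj_apply, MulEquiv.orderOf_eq, hyo]))
        refine ⟨j * i, ?_⟩
        have hj' : y ^ j = e * y * e⁻¹ := by simpa using congrArg Subtype.val hj
        show y ^ (j * i) = e * y ^ i * e⁻¹
        rw [zpow_mul, hj', conj_zpow]
      haveI := hZn
      have h1 : MulAut.conjNormal (H := Subgroup.zpowers y) (⟨s, hs⟩ : (S : Subgroup X)) = 1 := by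
        obtain ⟨k, hk⟩ := IsPGroup.iff_orderOf.1 S.2 ⟨s, hs⟩
        refine orderOf_eq_one_iff.1 (Nat.eq_one_of_dvd_coprimes ?_
          ((orderOf_map_dvd _ _).trans hk.dvd) (orderOf_dvd_natCard _))
        rw [IsCyclic.card_mulAut, Nat.card_zpowers, hyo, Nat.totient_prime (Fact.out : p.Prime)]
        refine Nat.Coprime.pow_left k (((Fact.out : p.Prime).coprime_iff_not_dvd).2 fun h => ?_)
        have h2 := (Fact.out : p.Prime).two_le
        have := Nat.le_of_dvd (by omega) h
        omega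
      have h2 := congrArg Subtype.val (DFunLike.congr_fun h1 (⟨y, Subgroup.mem_zpowers y⟩ : Subgroup.zpowers y))
      rw [MulAut.conjNormal_apply, MulAut.one_apply] at h2
      have h3 : s * ⁅v, s⁆ * s⁻¹ = ⁅v, s⁆ := congrArg Subtype.val h2
      rw [commutatorElement_eq_one_iff_mul_comm]
      exact (mul_inv_eq_iff_eq_mul.1 h3).symm
    have hst := CfsgLib.OddStable.stable (G := X) (p := p) hp2 hX V hVp s hquad
    obtain ⟨Q, hQ⟩ := (S.2.to_le hVS).exists_le_sylow
    haveI : Group.IsNilpotent (Q : Subgroup X) := Q.2.isNilpotent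
    haveI : (V.subgroupOf (Q : Subgroup X)).Normal := hVn.subgroupOf _
    have hne := CfsgLib.Solvable.Basics.inf_center_ne_bot (V.subgroupOf (Q : Subgroup X)) (fun h => hV1 (by
      rw [Subgroup.subgroupOf_eq_bot] at h
      exact disjoint_self.1 (h.mono_right hQ)))
    obtain ⟨⟨z, hzQ⟩, ⟨hzV, hzc⟩, hz1⟩ := (Subgroup.bot_or_exists_ne_one _).resolve_left hne
    let D := (Cfsg.pCore p (X ⧸ C)).comap (QuotientGroup.mk' C)
    have hzD : z ∈ Subgroup.centralizer (D : Set X) := by
      rw [Subgroup.mem_centralizer_iff]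
      intro d hd
      obtain ⟨q, hq, hqd⟩ := CfsgLib.Core.pCore_le_sylow (Q.mapSurjective (QuotientGroup.mk'_surjective C)) hd
      have hc : d * q⁻¹ ∈ C := by
        rw [← QuotientGroup.eq_one_iff]
        show QuotientGroup.mk' C (d * q⁻¹) = 1
        rw [map_mul, map_inv, hqd, mul_inv_cancel]
      have h1 : q * z = z * q := congrArg Subtype.val (Subgroup.mem_center_iff.1 hzc ⟨q, hq⟩)
      have h2 : z * (d * q⁻¹) = d * q⁻¹ * z := Subgroup.mem_centralizer_iff.1 hc z hzV
      calc d * z = d * q⁻¹ * (q * z) := by group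
        _ = d * q⁻¹ * z * q := by rw [h1]; group
        _ = z * (d * q⁻¹) * q := by rw [h2]
        _ = z * d := by group
    haveI : D.Normal := inferInstance
    have hVD : V ⊓ Subgroup.centralizer (D : Set X) = V :=
      (hmin _ inferInstance inf_le_left).resolve_left fun h => hz1 (Subtype.ext (Subgroup.mem_bot.1 (h ▸
        ⟨hzV, hzD⟩ : z ∈ (⊥ : Subgroup X))))
    refine Subgroup.mem_centralizer_iff.2 fun v hv => ?_
    exact (Subgroup.mem_centralizer_iff.1 (hVD.ge hv).2 s hst).symm
  set π := QuotientGroup.mk' V with hπ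
  have hTS := hquot V hV1
  set T := Cfsg.pPrimeCore p (X ⧸ V) with hT
  have hRC : ∀ x, x ∈ C → π x ∈ T → x ∈ V := by
    let R := C ⊓ T.comap π
    haveI : R.Normal := inferInstance
    have hVR : V ≤ R := le_inf (fun v hv => Subgroup.mem_centralizer_iff.2 fun w hw => hVc w hw v hv)
      (fun v hv => by
        show π v ∈ T
        rw [show π v = 1 from (QuotientGroup.eq_one_iff _).2 hv]; exact T.one_mem)
    let RV := V.subgroupOf R
    haveI : RV.Normal := hVn.subgroupOf R
    have hidx : RV.index.Coprime p := by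
      let φ : R →* T := (π.comp R.subtype).codRestrict T fun r => r.2.2
      have hk : φ.ker = RV := by
        ext r
        rw [MonoidHom.mem_ker, Subgroup.mem_subgroupOf, ← QuotientGroup.eq_one_iff]
        exact ⟨fun h => congrArg Subtype.val h, fun h => Subtype.ext h⟩
      rw [← hk, Subgroup.index_ker]
      exact (CfsgLib.Core.card_pPrimeCore_coprime p).coprime_dvd_left (Subgroup.card_subgroup_dvd_card _)
    obtain ⟨k, hk⟩ := (hVp.comap_subtype (K := R)).exists_card_eq
    obtain ⟨H, hH⟩ := Subgroup.exists_right_complement'_of_coprime (N := RV)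
      (by rw [show Nat.card RV = p ^ k from hk]; exact (hidx.pow_right k).symm)
    have hcent : ∀ v ∈ RV, ∀ r : R, v * r = r * v := fun v hv r =>
      Subtype.ext (Subgroup.mem_centralizer_iff.1 r.2.1 v hv)
    have hHn : H.Normal := by
      refine ⟨fun h hh g => ?_⟩
      obtain ⟨⟨⟨v, hv⟩, ⟨h', hh'⟩⟩, rfl⟩ := hH.2 g
      show v * h' * h * (v * h')⁻¹ ∈ H
      have h1 := hcent v hv (h' * h * h'⁻¹)
      rw [show v * h' * h * (v * h')⁻¹ = v * (h' * h * h'⁻¹) * v⁻¹ by group, h1, mul_inv_cancel_right]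
      exact H.mul_mem (H.mul_mem hh' hh) (H.inv_mem hh')
    have hHc : (Nat.card H).Coprime p := by rw [← hH.symm.index_eq_card]; exact hidx
    have hH1 : H = ⊥ := by
      rw [← Subgroup.map_eq_bot_iff_of_injective _ R.subtype_injective]
      refine le_bot_iff.1 (hO ▸ le_trans (Subgroup.map_mono (CfsgLib.Core.le_pPrimeCore hHn hHc)) ?_)
      exact CfsgLib.Core.pPrimeCore_subgroup_map_le p R
    intro x hx hxT
    obtain ⟨⟨⟨v, hv⟩, ⟨h', hh'⟩⟩, hvh⟩ := hH.2 ⟨x, hx, hxT⟩
    rw [hH1, SetLike.mem_coe, Subgroup.mem_bot] at hh'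
    have h2 : (v : X) * (h' : X) = x := congrArg Subtype.val hvh
    rw [hh', Subgroup.coe_one, mul_one] at h2
    exact h2 ▸ hv
  have hcomm : ∀ t ∈ T, ∀ y ∈ (S : Subgroup X).map π, t * y = y * t := by
    rintro t ht _ ⟨s, hs, rfl⟩
    obtain ⟨r, rfl⟩ := QuotientGroup.mk'_surjective V t
    refine commutatorElement_eq_one_iff_mul_comm.1 ?_
    rw [← map_commutatorElement]
    refine (QuotientGroup.eq_one_iff _).2 (hRC _ ?_ ?_)
    · rw [commutatorElement_def]
      exact C.mul_mem (hCn.conj_mem s (hSC hs) r) (C.inv_mem (hSC hs))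
    · rw [map_commutatorElement, commutatorElement_def, mul_assoc, mul_assoc, ← mul_assoc (π s)]
      exact T.mul_mem ht ((inferInstance : T.Normal).conj_mem _ (T.inv_mem ht) _)
  have hSbar : ((S : Subgroup X).map π).Normal := by
    refine ⟨fun y hy g => ?_⟩
    have h1 := hTS.conj_mem y (Subgroup.mem_sup_right hy) g
    rw [← SetLike.mem_coe, Subgroup.normal_mul] at h1
    obtain ⟨t, ht, y', hy', he⟩ := Set.mem_mul.1 h1
    obtain ⟨i, hi⟩ := IsPGroup.iff_orderOf.1 (S.2.map π) ⟨y, hy⟩
    obtain ⟨j, hj⟩ := IsPGroup.iff_orderOf.1 (S.2.map π) ⟨y', hy'⟩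
    rw [Subgroup.orderOf_mk] at hi hj
    have h2 : (g * y * g⁻¹) ^ p ^ (i + j) = 1 := by
      rw [conj_pow, pow_add, pow_mul, ← hi, pow_orderOf_eq_one, one_pow, mul_one, mul_inv_cancel]
    have h3 : y' ^ p ^ (i + j) = 1 := by
      rw [pow_add, mul_comm, pow_mul, ← hj, pow_orderOf_eq_one, one_pow]
    rw [← he, (show Commute t y' from hcomm t ht y' hy').mul_pow, h3, mul_one] at h2
    have ht1 : t = 1 := by
      refine orderOf_eq_one_iff.1 (Nat.eq_one_of_dvd_coprimes
        ((CfsgLib.Core.card_pPrimeCore_coprime (G := X ⧸ V) p).pow_right (i + j)) ?_ (orderOf_dvd_of_pow_eq_one h2))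
      exact Subgroup.orderOf_dvd_natCard T ht
    rw [← he, ht1, one_mul]
    exact hy'
  have h4 := hSbar.comap π
  rwa [Subgroup.comap_map_eq, QuotientGroup.ker_mk', sup_eq_left.2 hVS] at h4

end CfsgLib.CyclicDerivedSylow

namespace Cfsg.Agent.S0521

/-- Let X be a finite solvable group of odd order, p a prime and S a Sylow p-subgroup of X whose commutator subgroup is
cyclic. Then the product of the largest normal subgroup of X of order prime to p with S is a normal subgroup of X. -/
theorem result {X : Type*} [Group X] [Finite X] [Group.IsSolvable X]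
    (hX : Odd (Nat.card X)) (p : ℕ) [Fact p.Prime] (S : Sylow p X) (hS : IsCyclic (commutator (S : Subgroup X))) :
    (Cfsg.pPrimeCore p X ⊔ (S : Subgroup X)).Normal := by
  exact CfsgLib.CyclicDerivedSylow.main p _ X rfl hX S hS

end Cfsg.Agent.S0521
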