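import Cfsg.Statements.S0525
import Cfsg.Agent.Lib.Supersolvable.Maximal
import Cfsg.Agent.Lib.Core
open CfsgLib.Supersolvable
open scoped commutatorElement Pointwise

set_option autoImplicit false
open Cfsg

namespace Cfsg.Agent.S0525

/-- A direct product of two finite supersolvable groups is supersolvable. -/
theorem result {G H : Type*} [Group G] [Group H] [Finite G] [Finite H] (hG : Cfsg.IsSupersolvable G) (hH : Cfsg.IsSupersolvable H) : Cfsg.IsSupersolvable (G × H) := by
  rw [iff_reach] at hG hH ⊢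
  have h1 : ∀ T : Subgroup G, Reach T → Reach (T.prod (⊥ : Subgroup H)) := by
    intro T hT
    induction hT with
    | bot => rw [Subgroup.bot_prod_bot]; exact Reach.bot
    | @step M g _ hn ih =>
      have e : (M ⊔ Subgroup.zpowers g).prod (⊥ : Subgroup H) = M.prod ⊥ ⊔ Subgroup.zpowers ((g, 1) : G × H) := by
        have hm : ∀ T : Subgroup G, T.prod (⊥ : Subgroup H) = T.map (MonoidHom.inl G H) := fun T => by
          ext ⟨x, y⟩; simp [Subgroup.mem_prod, eq_comm]
        rw [hm, hm, Subgroup.map_sup, MonoidHom.map_zpowers]; rfl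
      rw [e]
      exact Reach.step _ ih (e ▸ Subgroup.prod_normal _ _)
  have h2 : ∀ T : Subgroup H, Reach T → Reach ((⊤ : Subgroup G).prod T) := by
    intro T hT
    induction hT with
    | bot => exact h1 ⊤ hG
    | @step M g _ hn ih =>
      have e : (⊤ : Subgroup G).prod (M ⊔ Subgroup.zpowers g) = (⊤ : Subgroup G).prod M ⊔ Subgroup.zpowers ((1, g) : G × H) := by
        refine le_antisymm (fun z hz => ?_) (sup_le (Subgroup.prod_mono le_rfl le_sup_left) (Subgroup.zpowers_le.2 ⟨trivial, Subgroup.mem_sup_right (Subgroup.mem_zpowers g)⟩))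
        obtain ⟨x, y⟩ := z
        have hy : y ∈ M ⊔ Subgroup.zpowers g := hz.2
        have hs : M ⊔ Subgroup.zpowers g ≤ ((⊤ : Subgroup G).prod M ⊔ Subgroup.zpowers ((1, g) : G × H)).comap (MonoidHom.inr G H) :=
          sup_le (fun m hm => Subgroup.mem_sup_left ⟨trivial, hm⟩) (Subgroup.zpowers_le.2 (Subgroup.mem_sup_right (Subgroup.mem_zpowers _)))
        have e' : ((x, y) : G × H) = (x, 1) * (1, y) := by simp
        rw [e']
        exact Subgroup.mul_mem _ (Subgroup.mem_sup_left ⟨trivial, M.one_mem⟩) (hs hy)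
      rw [e]
      exact Reach.step _ ih (e ▸ Subgroup.prod_normal _ _)
  rw [← Subgroup.top_prod_top]
  exact h2 ⊤ hH

end Cfsg.Agent.S0525
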