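import Cfsg.Statements.S0526
import Cfsg.Agent.Lib.Supersolvable.Maximal
import Cfsg.Agent.Lib.Core
open CfsgLib.Supersolvable
open scoped commutatorElement Pointwise

set_option autoImplicit false
open Cfsg

namespace Cfsg.Agent.S0526

/-- In a finite supersolvable group the commutator subgroup is nilpotent. -/
theorem result {G : Type*} [Group G] [Finite G] (hG : Cfsg.IsSupersolvable G) : Group.IsNilpotent (commutator G) := by
  classical
  obtain ⟨n, H, h0, hl, hn, hc⟩ := hG
  let K : ℕ → Subgroup G := fun k => H ⟨min k n, by omega⟩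
  rw [nilpotent_iff_finite_ascending_central_series]
  refine ⟨n, fun k => (K k).subgroupOf (commutator G), ⟨?_, ?_⟩, ?_⟩
  · have : K 0 = ⊥ := by
      rw [← h0]; exact congrArg H (Fin.ext (Nat.zero_min n))
    show (K 0).subgroupOf _ = ⊥
    rw [this, Subgroup.bot_subgroupOf]
  · intro x k hx g
    rw [Subgroup.mem_subgroupOf] at hx ⊢
    rcases Nat.lt_or_ge k n with hk | hk
    · set i : Fin n := ⟨k, hk⟩
      have e0 : K k = H i.castSucc := congrArg H (Fin.ext (Nat.min_eq_left hk.le))
      have e1 : K (k + 1) = H i.succ := congrArg H (Fin.ext (Nat.min_eq_left hk))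
      rw [e1] at hx
      rw [e0]
      obtain ⟨y, hy⟩ := hc i
      haveI := hn i.castSucc
      set π := QuotientGroup.mk' (H i.castSucc) with hπ
      have hmap : (H i.succ).map π = Subgroup.zpowers (π y) := by
        rw [hy, Subgroup.map_sup, MonoidHom.map_zpowers, (Subgroup.map_eq_bot_iff _).2 (QuotientGroup.ker_mk' _).ge, bot_sup_eq]
      have hnor : (Subgroup.zpowers (π y)).Normal := hmap ▸ (hn i.succ).map π (QuotientGroup.mk'_surjective _)
      have hcj : ∀ u : G ⧸ H i.castSucc, ∃ a : ℤ, u * π y * u⁻¹ = π y ^ a := fun u => by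
        obtain ⟨a, ha⟩ := hnor.conj_mem _ (Subgroup.mem_zpowers _) u
        exact ⟨a, ha.symm⟩
      have hinv : ∀ u v : G ⧸ H i.castSucc, (u * v) * π y * (u * v)⁻¹ = (v * u) * π y * (v * u)⁻¹ := by
        intro u v
        obtain ⟨a, ha⟩ := hcj u
        obtain ⟨b, hb⟩ := hcj v
        calc (u * v) * π y * (u * v)⁻¹ = u * (v * π y * v⁻¹) * u⁻¹ := by group
          _ = u * π y ^ b * u⁻¹ := by rw [hb]
          _ = (π y ^ a) ^ b := by rw [← conj_zpow, ha]
          _ = (π y ^ b) ^ a := by rw [← zpow_mul, ← zpow_mul, mul_comm]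
          _ = v * π y ^ a * v⁻¹ := by rw [← conj_zpow, hb]
          _ = v * (u * π y * u⁻¹) * v⁻¹ := by rw [ha]
          _ = _ := by group
      have hcent : commutator G ≤ (Subgroup.centralizer {π y}).comap π := by
        rw [commutator_def, Subgroup.commutator_le]
        intro u _ v _
        rw [Subgroup.mem_comap, map_commutatorElement, Subgroup.mem_centralizer_singleton_iff]
        have h4 : ⁅π u, π v⁆ * π y * ⁅π u, π v⁆⁻¹ = π y := by
          calc ⁅π u, π v⁆ * π y * ⁅π u, π v⁆⁻¹ = (π u * π v) * ((π u)⁻¹ * (π v)⁻¹ * π y * ((π u)⁻¹ * (π v)⁻¹)⁻¹) * (π u * π v)⁻¹ := by group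
            _ = π y := by rw [hinv (π u)⁻¹ (π v)⁻¹]; group
        calc ⁅π u, π v⁆ * π y = ⁅π u, π v⁆ * π y * ⁅π u, π v⁆⁻¹ * ⁅π u, π v⁆ := by group
          _ = π y * ⁅π u, π v⁆ := by rw [h4]
      obtain ⟨a, ha⟩ : π (x : G) ∈ Subgroup.zpowers (π y) := hmap ▸ Subgroup.mem_map_of_mem π hx
      have ha' : π y ^ a = π (x : G) := ha
      have hco : Commute (π (x : G)) (π (g : G)) := by
        rw [← ha']
        exact Commute.zpow_left (Subgroup.mem_centralizer_singleton_iff.1 (hcent g.2)).symm a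
      rw [← QuotientGroup.eq_one_iff, ← QuotientGroup.mk'_apply, ← hπ]
      show π ((x : G) * (g : G) * (x : G)⁻¹ * (g : G)⁻¹) = 1
      rw [map_mul, map_mul, map_mul, map_inv, map_inv, hco.eq]
      group
    · have e : K k = ⊤ := by
        rw [← hl]; exact congrArg H (Fin.ext (Nat.min_eq_right hk))
      rw [e]; trivial
  · have : K n = ⊤ := by
      rw [← hl]; exact congrArg H (Fin.ext (Nat.min_self n))
    show (K n).subgroupOf _ = ⊤
    rw [this, Subgroup.top_subgroupOf]

end Cfsg.Agent.S0526
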