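import Cfsg.Statements.S0527
import Cfsg.Agent.Lib.Supersolvable.Maximal
import Cfsg.Agent.Lib.Core
open CfsgLib.Supersolvable
open scoped commutatorElement Pointwise

set_option autoImplicit false
open Cfsg

namespace Cfsg.Agent.S0527

/-- In a finite supersolvable group the index of any maximal subgroup is a prime number. -/
theorem result {G : Type*} [Group G] [Finite G] (hG : Cfsg.IsSupersolvable G) (M : Subgroup G) (hM : IsCoatom M) : M.index.Prime := by
  classical
  suffices ∀ T : Subgroup G, Reach T → T ≤ M ∨ M.index.Prime from
    (this ⊤ (iff_reach.1 hG)).resolve_left (fun h => hM.1 (top_le_iff.1 h))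
  intro T hT
  induction hT with
  | bot => exact Or.inl bot_le
  | @step L g hL hn ih =>
    rcases ih with ih | ih
    swap
    · exact Or.inr ih
    by_cases hg : g ∈ M
    · exact Or.inl (sup_le ih (Subgroup.zpowers_le.2 hg))
    right
    haveI := hL.normal
    have hker : (QuotientGroup.mk' L).ker ≤ M := by rw [QuotientGroup.ker_mk']; exact ih
    have hsurj := QuotientGroup.mk'_surjective L
    rw [← Subgroup.index_map_eq M hsurj hker]
    have hcm : (M.map (QuotientGroup.mk' L)).comap (QuotientGroup.mk' L) = M := Subgroup.comap_map_eq_self hker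
    refine index_prime (g := QuotientGroup.mk' L g) ?_ ?_ ?_
    · refine ⟨fun h => hM.1 (by rw [← hcm, h, Subgroup.comap_top]), fun b hb => ?_⟩
      refine Subgroup.comap_injective hsurj ?_
      rw [Subgroup.comap_top]
      refine hM.2 _ ?_
      conv_lhs => rw [← hcm]
      exact (Subgroup.comap_lt_comap_of_surjective hsurj).2 hb
    · have := hn.map (QuotientGroup.mk' L) hsurj
      rwa [Subgroup.map_sup, MonoidHom.map_zpowers, (Subgroup.map_eq_bot_iff L).2 (QuotientGroup.ker_mk' L).ge, bot_sup_eq] at this
    · intro h
      exact hg (hcm.le (Subgroup.mem_comap.2 h))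

end Cfsg.Agent.S0527
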