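import Cfsg.Statements.S0528
import Cfsg.Agent.Lib.Supersolvable.Maximal
import Cfsg.Agent.Lib.Core
open CfsgLib.Supersolvable
open scoped commutatorElement Pointwise

set_option autoImplicit false
open Cfsg

namespace Cfsg.Agent.S0528

/-- An extension of a cyclic normal subgroup by a supersolvable group is supersolvable: if N is a cyclic normal subgroup of a finite group G and G modulo N is supersolvable, then G is supersolvable. -/
theorem result {G : Type*} [Group G] [Finite G] (N : Subgroup G) [N.Normal] [IsCyclic N] (h : Cfsg.IsSupersolvable (G ⧸ N)) : Cfsg.IsSupersolvable G := by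
  obtain ⟨⟨g, hgN⟩, hg⟩ := IsCyclic.exists_generator (α := N)
  have e : N = ⊥ ⊔ Subgroup.zpowers g := by
    rw [bot_sup_eq]
    refine le_antisymm (fun x hx => ?_) (Subgroup.zpowers_le.2 hgN)
    obtain ⟨k, hk⟩ := hg ⟨x, hx⟩
    exact ⟨k, congrArg Subtype.val hk⟩
  exact of_reach_quotient (e ▸ Reach.step g Reach.bot (e ▸ inferInstance)) h

end Cfsg.Agent.S0528
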