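import Cfsg.Statements.S0530
import Cfsg.Agent.Lib.Supersolvable.Prime
import Cfsg.Agent.Lib.GroupB.Hall
open CfsgLib.Supersolvable

set_option autoImplicit false
open Cfsg

namespace Cfsg.Agent.S0530

/-- A finite group whose order is twice a prime power is supersolvable. -/
theorem result {G : Type*} [Group G] [Finite G] (p n : ℕ) (hp : p.Prime) (hG : Nat.card G = 2 * p ^ n) : Cfsg.IsSupersolvable G := by
  classical
  induction n generalizing G with
  | zero =>
    have hc : Nat.card G = 2 := by simpa using hG
    have : Fact (Nat.Prime 2) := ⟨Nat.prime_two⟩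
    have : IsCyclic G := isCyclic_of_prime_card hc
    obtain ⟨g, hg⟩ := IsCyclic.exists_generator (α := G)
    have htop : Subgroup.zpowers g = ⊤ := eq_top_iff.mpr fun x _ => hg x
    rw [iff_reach, ← htop]
    exact reach_zpowers (htop ▸ inferInstance)
  | succ n ih =>
    have hfac : Fact p.Prime := ⟨hp⟩
    obtain ⟨x, hx, hxn⟩ : ∃ x : G, orderOf x = p ∧ (Subgroup.zpowers x).Normal := by
      by_cases hp2 : p = 2
      · subst hp2
        have hPG : IsPGroup 2 G := IsPGroup.of_card (n := n + 2) (by rw [hG]; ring)
        have : Nontrivial G := Finite.one_lt_card_iff_nontrivial.mp (by rw [hG]; have := Nat.one_le_two_pow (n := n + 1); omega)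
        have := hPG.center_nontrivial
        obtain ⟨z, hz⟩ := exists_prime_orderOf_dvd_card' (G := Subgroup.center G) 2 (by
          obtain ⟨k, hk, hck⟩ := (IsPGroup.nontrivial_iff_card (hPG.to_subgroup (Subgroup.center G))).mp inferInstance
          rw [hck]; exact dvd_pow_self 2 hk.ne')
        refine ⟨z, by rwa [Subgroup.orderOf_coe], ⟨fun y hy g => ?_⟩⟩
        obtain ⟨k, rfl⟩ := hy
        rw [← conj_zpow, Subgroup.mem_center_iff.mp z.2 g, mul_inv_cancel_right]
        exact ⟨k, rfl⟩
      · obtain ⟨P⟩ : Nonempty (Sylow p G) := inferInstance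
        have hP : Nat.card P = p ^ (n + 1) := by
          rw [P.card_eq_multiplicity, hG, Nat.factorization_mul (by norm_num) (pow_ne_zero _ hp.ne_zero),
            Nat.prime_two.factorization, hp.factorization_pow]
          simp [Finsupp.single_apply, Ne.symm hp2]
        have hidx : (P : Subgroup G).index = 2 := by
          have h2 := (P : Subgroup G).card_mul_index
          change Nat.card P * _ = _ at h2
          rw [hP, hG, mul_comm 2] at h2
          exact Nat.eq_of_mul_eq_mul_left (pow_pos hp.pos _) h2
        have hPn : (P : Subgroup G).Normal := Subgroup.normal_of_index_eq_two hidx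
        have : Nontrivial P := Finite.one_lt_card_iff_nontrivial.mp (by rw [hP]; exact Nat.one_lt_pow (by omega) hp.one_lt)
        obtain ⟨z, hz⟩ := exists_prime_orderOf_dvd_card' (G := Subgroup.center P) p (by
          have := P.2.center_nontrivial
          obtain ⟨k, hk, hck⟩ := (IsPGroup.nontrivial_iff_card (P.2.to_subgroup (Subgroup.center P))).mp inferInstance
          rw [hck]; exact dvd_pow_self p hk.ne')
        obtain ⟨t, ht⟩ := exists_prime_orderOf_dvd_card' (G := G) 2 (by rw [hG]; exact dvd_mul_right _ _)
        have htP : t ∉ (P : Subgroup G) := fun h => by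
          have h1 := Subgroup.orderOf_dvd_natCard _ h
          rw [ht] at h1
          change 2 ∣ Nat.card P at h1
          rw [hP] at h1
          exact hp2 ((Nat.prime_dvd_prime_iff_eq Nat.prime_two hp).mp (Nat.prime_two.dvd_of_dvd_pow h1)).symm
        obtain ⟨a, ha, hPa, hta⟩ : ∃ a : G, orderOf a = p ∧ (∀ b ∈ (P : Subgroup G), b * a = a * b) ∧
            (t * a * t⁻¹ = a ∨ t * a * t⁻¹ = a⁻¹) := by
          set x : G := ((z : P) : G) with hxdef
          have hcen : ∀ b ∈ (P : Subgroup G), b * x = x * b := fun b hb =>
            congrArg Subtype.val (Subgroup.mem_center_iff.mp z.2 ⟨b, hb⟩)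
          have hxo : orderOf x = p := by rw [hxdef, Subgroup.orderOf_coe, Subgroup.orderOf_coe, hz]
          have hxP : x ∈ (P : Subgroup G) := (z : P).2
          have htt : t * t = 1 := by rw [← pow_two, ← ht, pow_orderOf_eq_one]
          have hti : t⁻¹ = t := inv_eq_of_mul_eq_one_right htt
          have hx' : t * x * t⁻¹ ∈ (P : Subgroup G) := hPn.conj_mem x hxP t
          have hcen' : ∀ b ∈ (P : Subgroup G), b * (t * x * t⁻¹) = (t * x * t⁻¹) * b := by
            intro b hb
            have := hcen _ (hPn.conj_mem b hb t⁻¹)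
            rw [inv_inv] at this
            calc b * (t * x * t⁻¹) = t * ((t⁻¹ * b * t) * x) * t⁻¹ := by group
              _ = t * (x * (t⁻¹ * b * t)) * t⁻¹ := by rw [this]
              _ = _ := by group
          by_cases h0 : x * (t * x * t⁻¹) = 1
          · exact ⟨x, hxo, hcen, Or.inr (inv_eq_of_mul_eq_one_right h0).symm⟩
          · refine ⟨x * (t * x * t⁻¹), orderOf_eq_prime ?_ h0, fun b hb => ?_, Or.inl ?_⟩
            · rw [(show Commute x (t * x * t⁻¹) from hcen' x hxP).mul_pow, conj_pow,
                show x ^ p = 1 from hxo ▸ pow_orderOf_eq_one x]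
              group
            · rw [← mul_assoc, hcen b hb, mul_assoc, hcen' b hb]; group
            · calc t * (x * (t * x * t⁻¹)) * t⁻¹ = (t * x * t⁻¹) * ((t * t) * x * (t⁻¹ * t⁻¹)) := by group
                _ = (t * x * t⁻¹) * x := by rw [htt, hti, htt, one_mul, mul_one]
                _ = _ := (hcen' x hxP).symm
        refine ⟨a, ha, ⟨fun y hy g => ?_⟩⟩
        obtain ⟨k, rfl⟩ := hy
        rw [← conj_zpow]
        refine Subgroup.zpow_mem _ ?_ k
        by_cases hg : g ∈ (P : Subgroup G)
        · rw [hPa g hg, mul_inv_cancel_right]; exact Subgroup.mem_zpowers a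
        · have hgt : t⁻¹ * g ∈ (P : Subgroup G) := by
            rw [Subgroup.mul_mem_iff_of_index_two hidx, inv_mem_iff]
            exact iff_of_false htP hg
          have e : g * a * g⁻¹ = t * a * t⁻¹ := by
            calc g * a * g⁻¹ = t * ((t⁻¹ * g) * a) * (t⁻¹ * g)⁻¹ * t⁻¹ := by group
              _ = t * (a * (t⁻¹ * g)) * (t⁻¹ * g)⁻¹ * t⁻¹ := by rw [hPa _ hgt]
              _ = _ := by group
          rw [e]
          rcases hta with h | h
          · rw [h]; exact Subgroup.mem_zpowers a
          · rw [h]; exact inv_mem (Subgroup.mem_zpowers a)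
    have := hxn
    refine of_reach_quotient (reach_zpowers hxn) (ih ?_)
    have h := card_quotient_zpowers (x := x)
    rw [hx, hG, pow_succ, ← mul_assoc] at h
    exact (Nat.eq_of_mul_eq_mul_right hp.pos h).symm

end Cfsg.Agent.S0530
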