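import Cfsg.Statements.S0531
import Cfsg.Agent.Lib.Supersolvable.Prime
import Cfsg.Agent.Lib.GroupB.Hall
open CfsgLib.Supersolvable

set_option autoImplicit false
open Cfsg

namespace Cfsg.Agent.S0531

/-- A finite supersolvable group has a subgroup of each order dividing its order. -/
theorem result {G : Type*} [Group G] [Finite G] (hG : Cfsg.IsSupersolvable G) : Cfsg.HasSubgroupOfEveryOrder G := by
  intro d hd
  induction hn : Nat.card G using Nat.strong_induction_on generalizing G d with
  | _ n ih =>
  by_cases h1 : Nat.card G = 1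
  · refine ⟨⊥, ?_⟩
    rw [h1, Nat.dvd_one] at hd
    rw [Subgroup.card_bot, hd]
  obtain ⟨x, hx, hxn⟩ := exists_prime_normal (iff_reach.mp hG) (fun e => h1 (by
    rw [← Subgroup.card_top, e, Subgroup.card_bot]))
  have := hxn
  set N := Subgroup.zpowers x with hN
  have hcN : Nat.card N = orderOf x := Nat.card_zpowers x
  have hcard := card_quotient_zpowers (x := x)
  have hlt : Nat.card (G ⧸ N) < n := by
    rw [← hn, hcard]; exact lt_mul_of_one_lt_right Nat.card_pos hx.one_lt
  have hQ := isSupersolvable_of_surjective (QuotientGroup.mk' N) (QuotientGroup.mk'_surjective N) hG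
  by_cases hpd : orderOf x ∣ d
  · obtain ⟨e, rfl⟩ := hpd
    obtain ⟨H, hH⟩ := ih _ hlt hQ e (Nat.dvd_of_mul_dvd_mul_left hx.pos (by rwa [mul_comm (orderOf x) (Nat.card _), ← hcard])) rfl
    refine ⟨H.comap (QuotientGroup.mk' N), ?_⟩
    rw [CfsgLib.GroupB.Hall.card_comap (QuotientGroup.mk'_surjective N), QuotientGroup.ker_mk', hH, hcN]
  · have hcop : (orderOf x).Coprime d := (Nat.Prime.coprime_iff_not_dvd hx).mpr hpd
    obtain ⟨H, hH⟩ := ih _ hlt hQ d (by
      rw [hcard] at hd
      exact hcop.symm.dvd_of_dvd_mul_right hd) rfl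
    set H' := H.comap (QuotientGroup.mk' N) with hH'
    have hc' : Nat.card H' = d * orderOf x := by
      rw [hH', CfsgLib.GroupB.Hall.card_comap (QuotientGroup.mk'_surjective N), QuotientGroup.ker_mk', hH, hcN, mul_comm]
    have hNH : N ≤ H' := by rw [hH']; exact (QuotientGroup.ker_mk' N).ge.trans (MonoidHom.ker_le_comap _ _)
    have hcN' : Nat.card (N.subgroupOf H') = orderOf x := by
      rw [Nat.card_congr (Subgroup.subgroupOfEquivOfLe hNH).toEquiv, hcN]
    have hidx : (N.subgroupOf H').index = d := by
      have := (N.subgroupOf H').card_mul_index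
      rw [hcN', hc', mul_comm d] at this
      exact Nat.eq_of_mul_eq_mul_left hx.pos this
    obtain ⟨K, hK⟩ := Subgroup.exists_left_complement'_of_coprime (N := N.subgroupOf H') (by rw [hcN', hidx]; exact hcop)
    refine ⟨K.map H'.subtype, ?_⟩
    rw [Subgroup.card_subtype]
    have := hK.card_mul_card
    rw [hcN', hc'] at this
    exact Nat.eq_of_mul_eq_mul_right hx.pos this

end Cfsg.Agent.S0531
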