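import Cfsg.Statements.S0535
import Cfsg.Agent.Lib.Solvable.ThreeSubgroups
import Cfsg.Agent.S0144

set_option autoImplicit false
open Cfsg

namespace Cfsg.Agent.S0535

/-- Suppose that for every nontrivial subgroup H of a finite group and every prime p dividing the order of H there is a proper subgroup of H whose index in H is a power of p. Then the group is solvable. -/
theorem result {G : Type*} [Group G] [Finite G] (h : ∀ H : Subgroup G, H ≠ ⊥ → ∀ p : ℕ, p.Prime → p ∣ Nat.card H → ∃ K : Subgroup H, K ≠ ⊤ ∧ ∃ k : ℕ, K.index = p ^ k) : Group.IsSolvable G := by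
  suffices aux : ∀ n, ∀ U : Subgroup G, Nat.card U = n → Group.IsSolvable U by
    have := aux _ ⊤ rfl
    exact Group.isSolvable_of_surjective (f := (Subgroup.topEquiv (G := G)).toMonoidHom) Subgroup.topEquiv.surjective
  intro n
  induction n using Nat.strong_induction_on with
  | _ n ih =>
  intro U hn
  by_cases hU : U = ⊥
  · have : Subsingleton U := by subst hU; infer_instance
    infer_instance
  have hsub : ∀ p : ℕ, p.Prime → p ∣ Nat.card U → ∃ K : Subgroup U, Group.IsSolvable K ∧ ∃ k : ℕ, K.index = p ^ k := by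
    intro p hp hpd
    obtain ⟨K, hK, k, hk⟩ := h U hU p hp hpd
    refine ⟨K, ?_, k, hk⟩
    have hlt : Nat.card (K.map U.subtype) < n := by
      rw [Subgroup.card_subtype, ← hn]
      exact lt_of_le_of_ne (Subgroup.card_le_card_group K) fun e => hK (K.eq_top_of_card_eq e)
    have := ih _ hlt _ rfl
    exact Group.isSolvable_of_surjective (f := (K.equivMapOfInjective U.subtype U.subtype_injective).symm.toMonoidHom)
      (K.equivMapOfInjective U.subtype U.subtype_injective).symm.surjective
  have hne : Nat.card U ≠ 0 := Nat.card_pos.ne'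
  rcases Nat.lt_or_ge 2 (Nat.card U).primeFactors.card with h3 | h2
  · obtain ⟨p, q, r, hp, hq, hr, hpq, hpr, hqr⟩ := Finset.two_lt_card_iff.mp h3
    rw [Nat.mem_primeFactors] at hp hq hr
    obtain ⟨H₁, s1, k1, e1⟩ := hsub p hp.1 hp.2.1
    obtain ⟨H₂, s2, k2, e2⟩ := hsub q hq.1 hq.2.1
    obtain ⟨H₃, s3, k3, e3⟩ := hsub r hr.1 hr.2.1
    refine CfsgLib.Solvable.wielandt H₁ H₂ H₃ s1 s2 s3 ?_ ?_ ?_
    · rw [e1, e2]; exact Nat.coprime_pow_primes _ _ hp.1 hq.1 hpq
    · rw [e1, e3]; exact Nat.coprime_pow_primes _ _ hp.1 hr.1 hpr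
    · rw [e2, e3]; exact Nat.coprime_pow_primes _ _ hq.1 hr.1 hqr
  · have hprod := Nat.prod_factorization_pow_eq_self hne
    rw [Finsupp.prod, Nat.support_factorization] at hprod
    have hp2 := Nat.prime_two
    generalize hs : (Nat.card U).primeFactors = s at hprod h2
    have hmem : ∀ x ∈ s, x.Prime := fun x hx => Nat.prime_of_mem_primeFactors (hs ▸ hx)
    obtain h0 | h1 | h2' : s.card = 0 ∨ s.card = 1 ∨ s.card = 2 := by omega
    · rw [Finset.card_eq_zero.mp h0, Finset.prod_empty] at hprod
      exact Cfsg.Agent.S0144.result 2 3 0 0 hp2 Nat.prime_three (by simpa using hprod.symm)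
    · obtain ⟨p, rfl⟩ := Finset.card_eq_one.mp h1
      rw [Finset.prod_singleton] at hprod
      exact Cfsg.Agent.S0144.result p 2 ((Nat.card U).factorization p) 0 (hmem p (by simp)) hp2 (by rw [pow_zero, mul_one]; exact hprod.symm)
    · obtain ⟨p, q, hpq, rfl⟩ := Finset.card_eq_two.mp h2'
      rw [Finset.prod_pair hpq] at hprod
      exact Cfsg.Agent.S0144.result p q _ _ (hmem p (by simp)) (hmem q (by simp)) hprod.symm

end Cfsg.Agent.S0535
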