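import Cfsg.Statements.S0537
import Cfsg.Agent.Lib.Schmidt
import Cfsg.Agent.Lib.PSolvable

set_option autoImplicit false
open Cfsg

namespace Cfsg.Agent.S0537

/-- A finite non-abelian group in which every proper subgroup is abelian is either of prime-power order, or is generated by a cyclic Sylow p-subgroup and a normal Sylow q-subgroup that is elementary abelian, for distinct primes p and q. -/
theorem result {G : Type*} [Group G] [Finite G] (hna : ¬ IsMulCommutative G) (h : ∀ H : Subgroup G, H ≠ ⊤ → IsMulCommutative H) : (∃ p : ℕ, p.Prime ∧ IsPGroup p G) ∨ ∃ p q : ℕ, p.Prime ∧ q.Prime ∧ p ≠ q ∧ ∃ (P : Sylow p G) (Q : Sylow q G), IsCyclic P ∧ (Q : Subgroup G).Normal ∧ Cfsg.IsElementaryAbelian q (Q : Subgroup G) ∧ (P : Subgroup G) ⊔ Q = ⊤ := by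
  classical
  by_cases hnil : Group.IsNilpotent G
  · left
    by_contra hp
    push Not at hp
    have hn : ∀ {r : ℕ} [Fact r.Prime] (R : Sylow r G), (R : Subgroup G).Normal := fun R =>
      R.normal_of_normalizerCondition Group.normalizerCondition_of_isNilpotent
    let e := Sylow.directProductOfNormal (G := G) (fun {r} _ R => hn R)
    refine hna ⟨⟨fun u v => ?_⟩⟩
    obtain ⟨f, rfl⟩ := e.surjective u
    obtain ⟨g, rfl⟩ := e.surjective v
    rw [← map_mul, ← map_mul]
    congr 1
    funext r R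
    have hr := (Nat.mem_primeFactors.mp r.2).1
    have hRt : (R : Subgroup G) ≠ ⊤ := fun e1 =>
      hp r hr (R.2.of_equiv ((MulEquiv.subgroupCongr e1).trans Subgroup.topEquiv))
    exact (h _ hRt).is_comm.comm (f r R) (g r R)
  · right
    obtain ⟨p, q, x, hp, hq, hpq, ⟨k, hk⟩, Q, hQn, hgen, hxC⟩ := CfsgLib.Schmidt.structure_thm (G := G) ⟨hnil, fun H hH => by
      haveI := h H hH
      letI : CommGroup H := { (inferInstance : Group H) with mul_comm := fun a b => Std.Commutative.comm a b }
      infer_instance⟩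
    haveI := Fact.mk hp
    haveI := Fact.mk hq
    haveI := hQn
    have hQt : (Q : Subgroup G) ≠ ⊤ := fun e => hnil (IsPGroup.isNilpotent (Q.2.of_equiv ((MulEquiv.subgroupCongr e).trans Subgroup.topEquiv)))
    have hQab : ∀ a ∈ (Q : Subgroup G), ∀ b ∈ (Q : Subgroup G), a * b = b * a := fun a ha b hb =>
      congrArg Subtype.val ((h _ hQt).is_comm.comm ⟨a, ha⟩ ⟨b, hb⟩)
    obtain ⟨P, hP⟩ := CfsgLib.Schmidt.exists_sylow_eq hpq hk Q hgen
    let W : Subgroup G :=
      { carrier := {a | a ∈ (Q : Subgroup G) ∧ a ^ q = 1}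
        one_mem' := ⟨one_mem _, one_pow _⟩
        mul_mem' := fun {a b} ha hb => ⟨mul_mem ha.1 hb.1, by
          rw [(show Commute a b from hQab a ha.1 b hb.1).mul_pow, ha.2, hb.2, one_mul]⟩
        inv_mem' := fun {a} ha => ⟨inv_mem ha.1, by rw [inv_pow, ha.2, inv_one]⟩ }
    haveI hWn : W.Normal := ⟨fun a ha g => ⟨hQn.conj_mem a ha.1 g, by rw [conj_pow, ha.2, mul_one, mul_inv_cancel]⟩⟩
    have hxQ : ∀ y ∈ (Q : Subgroup G), ∃ j, orderOf y = q ^ j := fun y hy => by
      obtain ⟨j, hj⟩ := IsPGroup.iff_orderOf.mp Q.2 ⟨y, hy⟩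
      exact ⟨j, by rwa [Subgroup.orderOf_mk] at hj⟩
    have hcopr : ∀ j : ℕ, (orderOf x).Coprime (q ^ j) := fun j => by
      rw [hk]; exact Nat.Coprime.pow _ _ ((Nat.coprime_primes hp hq).mpr hpq)
    have hWQ : (Q : Subgroup G) ≤ W := by
      by_cases htop : Subgroup.zpowers x ⊔ W = ⊤
      · intro y hy
        obtain ⟨a, ha, w, hw, rfl⟩ := Subgroup.mem_sup_of_normal_right.mp (htop ▸ Subgroup.mem_top y)
        have haQ : a ∈ (Q : Subgroup G) := by
          have := mul_mem hy (inv_mem hw.1)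
          rwa [mul_inv_cancel_right] at this
        obtain ⟨j, hj⟩ := hxQ a haQ
        obtain ⟨i, rfl⟩ := ha
        have : x ^ i = 1 := orderOf_eq_one_iff.mp (Nat.eq_one_of_dvd_coprimes (hcopr j)
          (by rw [← Nat.card_zpowers x]; exact Subgroup.orderOf_dvd_natCard _ (zpow_mem (Subgroup.mem_zpowers x) i)) hj.dvd)
        show x ^ i * w ∈ W
        rw [this, one_mul]
        exact hw
      · exfalso
        refine hxC (Subgroup.mem_centralizer_iff.mpr ?_)
        have hW : ∀ w ∈ W, x * w = w * x := fun w hw => congrArg Subtype.val ((h _ htop).is_comm.comm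
          ⟨x, Subgroup.mem_sup_left (Subgroup.mem_zpowers x)⟩ ⟨w, Subgroup.mem_sup_right hw⟩)
        have hind : ∀ j : ℕ, ∀ y ∈ (Q : Subgroup G), y ^ q ^ j = 1 → x * y = y * x := by
          intro j
          induction j with
          | zero => intro y _ hy; rw [pow_zero, pow_one] at hy; rw [hy, mul_one, one_mul]
          | succ j ih =>
            intro y hy hyj
            have h1 := ih (y ^ q) (pow_mem hy q) (by rw [← pow_mul, ← pow_succ']; exact hyj)
            have hn : y⁻¹ * (x * y * x⁻¹) ∈ W := by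
              refine ⟨mul_mem (inv_mem hy) (hQn.conj_mem y hy x), ?_⟩
              rw [(show Commute y⁻¹ (x * y * x⁻¹) from hQab _ (inv_mem hy) _ (hQn.conj_mem y hy x)).mul_pow, conj_pow, h1,
                mul_inv_cancel_right, inv_pow, inv_mul_cancel]
            obtain ⟨i, hi⟩ := hxQ _ hn.1
            exact CfsgLib.PSolvable.commute_of_coprime_shift (g := x) (n := y⁻¹ * (x * y * x⁻¹)) (by group) (hW _ hn)
              (by rw [hi]; exact hcopr i)
        intro y hy
        obtain ⟨j, hj⟩ := hxQ y hy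
        exact (hind j y hy (by rw [← hj]; exact pow_orderOf_eq_one y)).symm
    refine ⟨p, q, hp, hq, hpq, P, Q, ?_, hQn, ⟨h _ hQt, fun a ha => (hWQ ha).2⟩, by rw [hP]; exact hgen⟩
    rw [hP]
    infer_instance

end Cfsg.Agent.S0537
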