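import Cfsg.Statements.S0539
import Cfsg.Agent.Lib.GroupB.Subnormal

set_option autoImplicit false
open Pointwise
open Cfsg

namespace Cfsg.Agent.S0539

/-- Let S be a family of subnormal subgroups of a finite group that is closed under conjugation, and S₀ a proper subfamily. Then some member of S not in S₀ normalizes the join of S₀. -/
theorem result {G : Type*} [Group G] [Finite G] (S S₀ : Set (Subgroup G)) (hS : ∀ U ∈ S, U.IsSubnormal) (hconj : ∀ U ∈ S, ∀ g : G, MulAut.conj g • U ∈ S) (h₀ : S₀ ⊂ S) : ∃ X ∈ S, X ∉ S₀ ∧ X ≤ Subgroup.normalizer ((sSup S₀ : Subgroup G) : Set G) := by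
  classical
  set T := sSup S₀ with hT
  have hTn : T.IsSubnormal := CfsgLib.GroupB.Subnormal.sSup S₀ fun U hU => hS U (h₀.1 hU)
  obtain ⟨U₀, hU₀, hU₀'⟩ := Set.exists_of_ssubset h₀
  obtain ⟨M, -, ⟨hTM, U, hU, hU', hUM⟩, hmin⟩ := exists_minimal_le_of_wellFoundedLT
    (fun M : Subgroup G => T ≤ M ∧ ∃ U ∈ S, U ∉ S₀ ∧ U ≤ M) ⊤ ⟨le_top, U₀, hU₀, hU₀', le_top⟩
  refine ⟨U, hU, hU', hUM.trans ?_⟩
  rcases (hTn.comap M.subtype).lt_normal with h | ⟨K, hK, hTK, hKt⟩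
  · have hMT : M ≤ T := fun x hx => by
      have : (⟨x, hx⟩ : M) ∈ T.comap M.subtype := h.symm ▸ Subgroup.mem_top _
      exact this
    exact hMT.trans Subgroup.le_normalizer
  set K' := K.map M.subtype with hK'
  have hK'M : K' ≤ M := Subgroup.map_subtype_le K
  have hTK' : T ≤ K' := fun x hx => ⟨⟨x, hTM hx⟩, hTK hx, rfl⟩
  have hnot : ¬ M ≤ K' := fun hle => hKt.ne ((Subgroup.eq_top_iff' K).mpr fun u => by
    obtain ⟨z, hz, e⟩ := hle u.2
    exact (Subtype.ext e : z = u) ▸ hz)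
  have hall : ∀ V ∈ S, V ≤ K' → V ∈ S₀ := fun V hV hVK => by
    by_contra hV'
    exact hnot (hmin ⟨hTK', V, hV, hV', hVK⟩ hK'M)
  intro u hu
  refine Subgroup.mem_normalizer_fintype fun t ht => ?_
  have hle : T.map (MulAut.conj u).toMonoidHom ≤ T := by
    rw [Subgroup.map_le_iff_le_comap, hT]
    refine sSup_le fun V hV => Subgroup.map_le_iff_le_comap.mp ?_
    refine le_sSup (hall _ (hconj V (h₀.1 hV) u) ?_)
    rintro _ ⟨v, hv, rfl⟩
    have hvK : v ∈ K' := hTK' (le_sSup hV hv)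
    obtain ⟨w, hw, rfl⟩ := hvK
    exact ⟨⟨u, hu⟩ * w * ⟨u, hu⟩⁻¹, hK.conj_mem w hw _, rfl⟩
  exact hle ⟨t, ht, rfl⟩

end Cfsg.Agent.S0539
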