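import Cfsg.Statements.S0547
import Cfsg.Agent.Lib.PLocal.SolvablePrimitive
open CfsgLib.PLocal

set_option autoImplicit false
open Cfsg

namespace Cfsg.Agent.S0547

/-- Let a finite solvable group G act faithfully and primitively on a set, and let M be a minimal normal subgroup of G. Then M is transitive with trivial point stabilizers, and the number of points equals the order of M, which is a prime power p ^ d with d ≥ 1. -/
theorem result {G : Type*} [Group G] [Finite G] [Group.IsSolvable G] {Ω : Type*} [Nonempty Ω] [MulAction G Ω] [FaithfulSMul G Ω] (hprim : MulAction.IsPreprimitive G Ω) (M : Subgroup G) [M.Normal] (hM : M ≠ ⊥) (hmin : ∀ K : Subgroup G, K.Normal → K ≤ M → K = ⊥ ∨ K = M) : MulAction.IsPretransitive M Ω ∧ (∀ ω : Ω, MulAction.stabilizer M ω = ⊥) ∧ ∃ p d : ℕ, p.Prime ∧ 0 < d ∧ Nat.card Ω = p ^ d ∧ Nat.card M = p ^ d := by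
  classical
  obtain ⟨hab, p, d, hp, hd0, hd⟩ := minNormal_solvable M hM hmin
  haveI htr := transitive_of_minNormal hprim M hM
  have hst : ∀ ω : Ω, MulAction.stabilizer M ω = ⊥ := fun ω => by
    rw [Subgroup.eq_bot_iff_forall]
    rintro ⟨m, hm⟩ hfix
    exact Subtype.ext (fixes_all_of_centralizes M (fun a ha => hab a ha m hm) (show m • ω = ω from hfix))
  refine ⟨htr, hst, p, d, hp, hd0, ?_, hd⟩
  let ω := Classical.arbitrary Ω
  rw [← hd, ← MulAction.index_stabilizer_of_transitive M ω, hst ω, Subgroup.index_bot]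

end Cfsg.Agent.S0547
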