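import Cfsg.Statements.S0548
import Cfsg.Agent.Lib.PLocal.SolvablePrimitive
open CfsgLib.PLocal

set_option autoImplicit false
open Cfsg

namespace Cfsg.Agent.S0548

/-- Let a finite solvable group G act faithfully and primitively on a set, let M be a minimal normal subgroup and H the stabilizer of a point. Then H is a complement to M, no non-identity element of H centralizes M, and the only subgroups of M normalized by H are the trivial subgroup and M. -/
theorem result {G : Type*} [Group G] [Finite G] [Group.IsSolvable G] {Ω : Type*} [MulAction G Ω] [FaithfulSMul G Ω] (hprim : MulAction.IsPreprimitive G Ω) (M : Subgroup G) [M.Normal] (hM : M ≠ ⊥) (hmin : ∀ K : Subgroup G, K.Normal → K ≤ M → K = ⊥ ∨ K = M) (ω : Ω) : Subgroup.IsComplement' M (MulAction.stabilizer G ω) ∧ MulAction.stabilizer G ω ⊓ Subgroup.centralizer (M : Set G) = ⊥ ∧ ∀ K : Subgroup G, K ≤ M → MulAction.stabilizer G ω ≤ Subgroup.normalizer (K : Set G) → K = ⊥ ∨ K = M := by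
  classical
  obtain ⟨hab, p, d, hp, hd0, hd⟩ := minNormal_solvable M hM hmin
  haveI htr := transitive_of_minNormal hprim M hM
  set S := MulAction.stabilizer G ω with hS
  have hgen : ∀ g : G, ∃ m ∈ M, ∃ s ∈ S, g = m * s := fun g => by
    obtain ⟨⟨m, hm⟩, hmx⟩ := MulAction.exists_smul_eq M ω (g • ω)
    have hmx' : m • ω = g • ω := hmx
    refine ⟨m, hm, m⁻¹ * g, ?_, by group⟩
    rw [hS, MulAction.mem_stabilizer_iff, mul_smul, ← hmx', inv_smul_smul]
  refine ⟨Subgroup.isComplement'_of_disjoint_and_mul_eq_univ ?_ ?_, ?_, fun K hKM hSK => ?_⟩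
  · rw [Subgroup.disjoint_def]
    intro m hm hfix
    exact fixes_all_of_centralizes M (fun a ha => hab a ha m hm) hfix
  · exact Set.eq_univ_of_forall fun g => by
      obtain ⟨m, hm, s, hs, rfl⟩ := hgen g
      exact Set.mul_mem_mul hm hs
  · rw [Subgroup.eq_bot_iff_forall]
    intro g hg
    exact fixes_all_of_centralizes M (fun a ha => Subgroup.mem_centralizer_iff.1 hg.2 a ha) hg.1
  · refine hmin K ⟨fun k hk g => ?_⟩ hKM
    obtain ⟨m, hm, s, hs, rfl⟩ := hgen g
    have h1 : s * k * s⁻¹ ∈ K := ((Subgroup.mem_normalizer_iff.1 (hSK hs)) k).1 hk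
    have h2 : m * s * k * (m * s)⁻¹ = s * k * s⁻¹ := by
      calc m * s * k * (m * s)⁻¹ = (m * (s * k * s⁻¹)) * m⁻¹ := by group
        _ = (s * k * s⁻¹ * m) * m⁻¹ := by rw [hab m hm _ (hKM h1)]
        _ = _ := by group
    rw [h2]; exact h1

end Cfsg.Agent.S0548
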