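import Cfsg.Statements.S0549
import Cfsg.Agent.Lib.Core
import Cfsg.Agent.Lib.LocalBasic
open scoped commutatorElement Pointwise

set_option autoImplicit false
open Cfsg

namespace Cfsg.Agent.S0549

/-- Let U be a maximal subgroup of a finite group G whose normal core is trivial, and N a nontrivial normal subgroup with centralizer C. Then C ∩ U = 1, and either C = 1 or C is a minimal normal subgroup of G. -/
theorem result {G : Type*} [Group G] [Finite G] (U : Subgroup G) (hU : IsCoatom U) (hcore : U.normalCore = ⊥) (N : Subgroup G) [N.Normal] (hN : N ≠ ⊥) : Subgroup.centralizer (N : Set G) ⊓ U = ⊥ ∧ (Subgroup.centralizer (N : Set G) = ⊥ ∨ (Subgroup.centralizer (N : Set G) ≠ ⊥ ∧ ∀ K : Subgroup G, K.Normal → K ≤ Subgroup.centralizer (N : Set G) → K = ⊥ ∨ K = Subgroup.centralizer (N : Set G))) := by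
  have hNU : ¬ N ≤ U := fun h => hN (le_bot_iff.1 (hcore ▸ Subgroup.normal_le_normalCore.2 h))
  have htop : ∀ K : Subgroup G, ¬ K ≤ U → K ⊔ U = ⊤ := fun K hK =>
    hU.2 _ (lt_of_le_of_ne le_sup_right (fun h => hK (le_sup_left.trans h.ge)))
  set C := Subgroup.centralizer (N : Set G) with hC
  have h1 : C ⊓ U = ⊥ := by
    have hn : (C ⊓ U).Normal := by
      refine ⟨fun x hx g => ?_⟩
      obtain ⟨n, hn, u, hu, rfl⟩ := Subgroup.mem_sup_of_normal_left.1 ((htop N hNU).ge (Subgroup.mem_top g))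
      have hCn : C.Normal := Subgroup.normal_centralizer
      have h1 : u * x * u⁻¹ ∈ C ⊓ U := ⟨hCn.conj_mem x hx.1 u, U.mul_mem (U.mul_mem hu hx.2) (U.inv_mem hu)⟩
      have h2 : n * u * x * (n * u)⁻¹ = u * x * u⁻¹ := by
        have := Subgroup.mem_centralizer_iff.1 h1.1 n hn
        calc n * u * x * (n * u)⁻¹ = n * (u * x * u⁻¹) * n⁻¹ := by group
          _ = (u * x * u⁻¹) * n * n⁻¹ := by rw [this]
          _ = _ := by group
      rw [h2]; exact h1
    haveI := hn
    exact le_bot_iff.1 (hcore ▸ Subgroup.normal_le_normalCore.2 inf_le_right)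
  refine ⟨h1, ?_⟩
  by_cases hC0 : C = ⊥
  · exact Or.inl hC0
  refine Or.inr ⟨hC0, fun K hK hKC => ?_⟩
  by_cases hKU : K ≤ U
  · haveI := hK
    exact Or.inl (le_bot_iff.1 (hcore ▸ Subgroup.normal_le_normalCore.2 hKU))
  refine Or.inr (le_antisymm hKC fun c hc => ?_)
  haveI := hK
  obtain ⟨k, hk, u, hu, rfl⟩ := Subgroup.mem_sup_of_normal_left.1 ((htop K hKU).ge (Subgroup.mem_top c))
  have : u ∈ C ⊓ U := ⟨by simpa using C.mul_mem (C.inv_mem (hKC hk)) hc, hu⟩
  rw [h1, Subgroup.mem_bot] at this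
  rw [this, mul_one]; exact hk

end Cfsg.Agent.S0549
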