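import Cfsg.Statements.S0551
import Cfsg.Agent.Lib.PLocal.SolvablePrimitive
import Cfsg.Agent.Lib.PLocal.ProductSet
import Cfsg.Agent.Lib.LocalBasic

set_option autoImplicit false
open Pointwise
open Cfsg

namespace Cfsg.Agent.S0551

/-- In a finite solvable group all core-free maximal subgroups are conjugate. -/
theorem result {G : Type*} [Group G] [Finite G] [Group.IsSolvable G] (U V : Subgroup G) (hU : IsCoatom U) (hV : IsCoatom V) (hUc : U.normalCore = ⊥) (hVc : V.normalCore = ⊥) : ∃ g : G, MulAut.conj g • U = V := by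
  classical
  by_cases hG : Subsingleton G
  · exact absurd (Subsingleton.elim _ _) hU.1
  have htopne : (⊤ : Subgroup G) ≠ ⊥ := fun h => hG (Nat.card_eq_one_iff_unique.mp (by
    rw [← Subgroup.card_top, h, Subgroup.card_bot])).1
  obtain ⟨L, -, ⟨hLn, hL0⟩, hLmin⟩ := exists_minimal_le_of_wellFoundedLT
    (fun N : Subgroup G => N.Normal ∧ N ≠ ⊥) ⊤ ⟨inferInstance, htopne⟩
  have := hLn
  have hmin : ∀ K : Subgroup G, K.Normal → K ≤ L → K = ⊥ ∨ K = L := fun K hK hKN =>
    or_iff_not_imp_left.mpr fun hK0 => le_antisymm hKN (hLmin ⟨hK, hK0⟩ hKN)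
  obtain ⟨hLab, p, d, hp, hd, hcard⟩ := CfsgLib.PLocal.minNormal_solvable L hL0 hmin
  have hLp : IsPGroup p L := IsPGroup.of_card hcard
  have hcomp : ∀ W : Subgroup G, IsCoatom W → W.normalCore = ⊥ → L ⊔ W = ⊤ ∧ L ⊓ W = ⊥ ∧
      ∀ w ∈ W, (∀ l ∈ L, l * w = w * l) → w = 1 := by
    intro W hW hWc
    have hcore : ∀ X : Subgroup G, X.Normal → X ≤ W → X = ⊥ := fun X hX h =>
      le_bot_iff.mp (hWc ▸ (Subgroup.normal_le_normalCore.mpr h))
    have hsup : L ⊔ W = ⊤ := hW.2 _ (lt_of_le_of_ne le_sup_right fun e => hL0 (hcore L hLn (le_sup_left.trans e.ge)))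
    have hnorm : ∀ X : Subgroup G, L ≤ Subgroup.normalizer (X : Set G) → W ≤ Subgroup.normalizer (X : Set G) → X.Normal :=
      fun X h1 h2 => Subgroup.normalizer_eq_top_iff.mp (eq_top_iff.mpr (hsup.ge.trans (sup_le h1 h2)))
    have hinf : L ⊓ W = ⊥ := by
      have hn : (L ⊓ W).Normal := by
        refine hnorm _ ?_ ?_
        · exact le_trans (fun l hl => Subgroup.mem_centralizer_iff.mpr fun x hx => hLab x hx.1 l hl)
            (Subgroup.centralizer_le_normalizer _)
        · exact CfsgLib.LocalBasic.normalizer_inf_ge (le_top.trans (Subgroup.normalizer_eq_top_iff.mpr hLn).ge)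
            Subgroup.le_normalizer
      exact hcore _ hn inf_le_right
    refine ⟨hsup, hinf, fun w hw hc => ?_⟩
    have hn : (Subgroup.centralizer (L : Set G) ⊓ W).Normal := by
      refine hnorm _ ?_ ?_
      · exact le_trans (fun l hl => Subgroup.mem_centralizer_iff.mpr fun x hx =>
            (Subgroup.mem_centralizer_iff.mp hx.1 l hl).symm) (Subgroup.centralizer_le_normalizer _)
      · exact CfsgLib.LocalBasic.normalizer_inf_ge (le_top.trans (Subgroup.normalizer_eq_top_iff.mpr inferInstance).ge)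
          Subgroup.le_normalizer
    have := hcore _ hn inf_le_right
    have hw' : w ∈ Subgroup.centralizer (L : Set G) ⊓ W := ⟨Subgroup.mem_centralizer_iff.mpr fun l hl => hc l hl, hw⟩
    rwa [this, Subgroup.mem_bot] at hw'
  by_cases hLtop : L = ⊤
  · refine ⟨1, ?_⟩
    have e : ∀ W : Subgroup G, IsCoatom W → W.normalCore = ⊥ → W = ⊥ := fun W hW hWc => by
      simpa [hLtop] using (hcomp W hW hWc).2.1
    rw [map_one, one_smul, e U hU hUc, e V hV hVc]
  have hQne : (⊤ : Subgroup (G ⧸ L)) ≠ ⊥ := fun h => hLtop (Subgroup.index_eq_one.mp (by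
    rw [Subgroup.index_eq_card, ← Subgroup.card_top, h, Subgroup.card_bot]))
  obtain ⟨Kb, -, ⟨hKbn, hKb0⟩, hKbmin⟩ := exists_minimal_le_of_wellFoundedLT
    (fun N : Subgroup (G ⧸ L) => N.Normal ∧ N ≠ ⊥) ⊤ ⟨inferInstance, hQne⟩
  have := hKbn
  obtain ⟨-, q, e, hq, he, hcardb⟩ := CfsgLib.PLocal.minNormal_solvable Kb hKb0 (fun X hX hXK =>
    or_iff_not_imp_left.mpr fun hX0 => le_antisymm hXK (hKbmin ⟨hX, hX0⟩ hXK))
  have := Fact.mk hq
  have := Fact.mk hp
  have hsurj := QuotientGroup.mk'_surjective L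
  set K := Kb.comap (QuotientGroup.mk' L) with hK
  have hLK : L ≤ K := (QuotientGroup.ker_mk' L).ge.trans (MonoidHom.ker_le_comap _ _)
  have hKn : K.Normal := hKbn.comap _
  have hKcard : Nat.card K = Nat.card L * q ^ e := by
    have h2 := Subgroup.relIndex_ker (K := K) (QuotientGroup.mk' L)
    rw [hK, Subgroup.map_comap_eq_self_of_surjective hsurj, hcardb, QuotientGroup.ker_mk', ← hK] at h2
    have h3 := Subgroup.relIndex_mul_relIndex ⊥ L K bot_le hLK
    rw [h2, Subgroup.relIndex_bot_left, Subgroup.relIndex_bot_left] at h3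
    exact h3.symm
  have hpart : ∀ W : Subgroup G, IsCoatom W → W.normalCore = ⊥ →
      q ≠ p ∧ Nat.card ↥(W ⊓ K : Subgroup G) = q ^ e ∧ Subgroup.normalizer ((W ⊓ K : Subgroup G) : Set G) = W := by
    intro W hW hWc
    obtain ⟨hsup, hinf, hfaith⟩ := hcomp W hW hWc
    have hfac : ∀ k ∈ K, ∃ l ∈ L, ∃ w ∈ W ⊓ K, k = l * w := by
      intro k hk
      obtain ⟨l, hl, w, hw, ek⟩ := Subgroup.mem_sup_of_normal_left.mp (hsup ▸ Subgroup.mem_top k : k ∈ L ⊔ W)
      exact ⟨l, hl, w, ⟨hw, by rwa [← ek, K.mul_mem_cancel_left (hLK hl)] at hk⟩, ek.symm⟩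
    have hcd : Nat.card ↥(W ⊓ K : Subgroup G) = q ^ e := by
      have h1 := CfsgLib.PLocal.ProductSet.card_mul_eq L (W ⊓ K)
      have hset : (L : Set G) * ((W ⊓ K : Subgroup G) : Set G) = (K : Set G) := by
        refine Set.Subset.antisymm ?_ fun k hk => ?_
        · rintro _ ⟨l, hl, w, hw, rfl⟩; exact K.mul_mem (hLK hl) hw.2
        · obtain ⟨l, hl, w, hw, rfl⟩ := hfac k hk; exact Set.mul_mem_mul hl hw
      have hbot : L ⊓ (W ⊓ K) = ⊥ := le_bot_iff.mp (hinf ▸ inf_le_inf_left L inf_le_left)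
      rw [hset, hbot, Subgroup.card_bot, mul_one, SetLike.coe_sort_coe, hKcard] at h1
      exact (Nat.eq_of_mul_eq_mul_left Nat.card_pos h1).symm
    have hne : W ⊓ K ≠ ⊥ := fun h => by
      rw [h, Subgroup.card_bot] at hcd
      have := Nat.one_lt_pow he.ne' hq.one_lt
      omega
    have hWn : W ≤ Subgroup.normalizer ((W ⊓ K : Subgroup G) : Set G) :=
      CfsgLib.LocalBasic.normalizer_inf_ge Subgroup.le_normalizer (le_top.trans (Subgroup.normalizer_eq_top_iff.mpr hKn).ge)
    refine ⟨fun hqp => ?_, hcd, ?_⟩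
    · subst hqp
      have hKp : IsPGroup q K := IsPGroup.of_card (n := d + e) (by rw [hKcard, hcard, pow_add])
      set X := L ⊓ Subgroup.centralizer ((W ⊓ K : Subgroup G) : Set G) with hX
      have hXn : X.Normal := by
        refine Subgroup.normalizer_eq_top_iff.mp (eq_top_iff.mpr (hsup.ge.trans (sup_le ?_ ?_)))
        · exact le_trans (fun l hl => Subgroup.mem_centralizer_iff.mpr fun x hx => hLab x hx.1 l hl)
            (Subgroup.centralizer_le_normalizer _)
        · exact CfsgLib.LocalBasic.normalizer_inf_ge (le_top.trans (Subgroup.normalizer_eq_top_iff.mpr hLn).ge)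
            (CfsgLib.LocalBasic.normalizer_centralizer_ge hWn)
      have hX0 : X ≠ ⊥ := by
        let act : MulAction K L :=
          { smul := fun x l => ⟨x * l * (x : G)⁻¹, hLn.conj_mem l l.2 x⟩
            one_smul := fun l => Subtype.ext (show (1 : G) * l * (1 : G)⁻¹ = l by simp)
            mul_smul := fun x y l => Subtype.ext
              (show (x * y : G) * l * (x * y : G)⁻¹ = x * (y * l * (y : G)⁻¹) * (x : G)⁻¹ by group) }
        have hone : (1 : L) ∈ MulAction.fixedPoints K L := fun x =>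
          Subtype.ext (show (x : G) * ((1 : L) : G) * (x : G)⁻¹ = ((1 : L) : G) by simp)
        obtain ⟨⟨b, hb⟩, hbfix, hb1⟩ := hKp.exists_fixed_point_of_prime_dvd_card_of_fixed_point L
          (by rw [hcard]; exact dvd_pow_self q hd.ne') hone
        intro hbot
        have hmem : b ∈ X := ⟨hb, Subgroup.mem_centralizer_iff.mpr fun x hx => by
          have h1 : x * b * x⁻¹ = b := congrArg Subtype.val (hbfix ⟨x, hx.2⟩)
          calc x * b = x * b * x⁻¹ * x := by group
            _ = b * x := by rw [h1]⟩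
        rw [hbot, Subgroup.mem_bot] at hmem
        exact hb1 (Subtype.ext hmem.symm)
      have hXL : X = L := (hmin X hXn inf_le_left).resolve_left hX0
      refine hne (eq_bot_iff.mpr fun w hw => Subgroup.mem_bot.mpr (hfaith w hw.1 fun l hl => ?_))
      exact (Subgroup.mem_centralizer_iff.mp (hXL.ge hl).2 w hw).symm
    · refine ((hW.le_iff).mp hWn).resolve_left fun h => hne ?_
      exact le_bot_iff.mp (hWc ▸ (Subgroup.normal_le_normalCore (hN := Subgroup.normalizer_eq_top_iff.mp h)).mpr inf_le_left)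
  obtain ⟨hqp, hcU, hNU⟩ := hpart U hU hUc
  obtain ⟨-, hcV, hNV⟩ := hpart V hV hVc
  have hsyl : ∀ W : Subgroup G, Nat.card ↥(W ⊓ K : Subgroup G) = q ^ e → ∃ P : Sylow q K, (P : Subgroup K).map K.subtype = W ⊓ K := by
    intro W hW
    refine ⟨Sylow.ofCard ((W ⊓ K).subgroupOf K) ?_, ?_⟩
    · rw [Nat.card_congr (Subgroup.subgroupOfEquivOfLe inf_le_right).toEquiv, hW, hKcard, hcard,
        Nat.factorization_mul (pow_ne_zero _ hp.ne_zero) (pow_ne_zero _ hq.ne_zero), hp.factorization_pow, hq.factorization_pow]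
      simp [Ne.symm hqp]
    · rw [Sylow.coe_ofCard, Subgroup.map_subgroupOf_eq_of_le inf_le_right]
  obtain ⟨P, hP⟩ := hsyl U hcU
  obtain ⟨Q, hQ⟩ := hsyl V hcV
  obtain ⟨k, hk⟩ := MulAction.exists_smul_eq K P Q
  refine ⟨k, ?_⟩
  have hmap : (U ⊓ K).map (MulAut.conj (k : G)).toMonoidHom = V ⊓ K := by
    rw [← hP, ← hQ, ← hk, Sylow.coe_subgroup_smul, Subgroup.map_map]
    show (P : Subgroup K).map ((MulAut.conj (k : G)).toMonoidHom.comp K.subtype) =
      ((P : Subgroup K).map (MulAut.conj k).toMonoidHom).map K.subtype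
    rw [Subgroup.map_map]
    congr 1
  show U.map (MulAut.conj (k : G)).toMonoidHom = V
  rw [← hNU, ← hNV, Subgroup.map_equiv_normalizer_eq, hmap]

end Cfsg.Agent.S0551
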