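import Cfsg.Statements.S0552
import Cfsg.Agent.S0044
import Cfsg.Agent.Lib.Core
open scoped commutatorElement Pointwise

set_option autoImplicit false
open Cfsg

namespace Cfsg.Agent.S0552

/-- Let σ be an automorphism of a finite solvable group G fixing every element of the Fitting subgroup. If σ is not the identity then the order of σ and the order of G have a common prime factor. -/
theorem result {G : Type*} [Group G] [Finite G] [Group.IsSolvable G] (σ : G ≃* G) (hσ : ∀ x ∈ Cfsg.fittingSubgroup G, σ x = x) (hne : σ ≠ MulEquiv.refl G) : ¬ (orderOf σ).Coprime (Nat.card G) := by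
  classical
  haveI hFn := CfsgLib.Core.fittingSubgroup_normal (G := G)
  intro hcop
  refine hne (MulEquiv.ext fun g => ?_)
  have hcF : g⁻¹ * σ g ∈ Cfsg.fittingSubgroup G := by
    refine Cfsg.Agent.S0044.result (Subgroup.mem_centralizer_iff.2 fun f hf => ?_)
    have h1 : σ (g * f * g⁻¹) = g * f * g⁻¹ := hσ _ (hFn.conj_mem f hf g)
    rw [map_mul, map_mul, map_inv, hσ f hf] at h1
    calc f * (g⁻¹ * σ g) = g⁻¹ * (g * f * g⁻¹) * σ g := by group
      _ = g⁻¹ * (σ g * f * (σ g)⁻¹) * σ g := by rw [h1]
      _ = g⁻¹ * σ g * f := by group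
  set c := g⁻¹ * σ g with hc
  have hn : ∀ n : ℕ, (σ ^ n : MulAut G) g = g * c ^ n := by
    intro n
    induction n with
    | zero => simp
    | succ n ih =>
      calc (σ ^ (n + 1) : MulAut G) g = σ ((σ ^ n : MulAut G) g) := by rw [pow_succ']; rfl
        _ = σ g * c ^ n := by rw [ih, map_mul, map_pow, hσ c hcF]
        _ = g * c ^ (n + 1) := by rw [pow_succ', ← mul_assoc, show g * c = σ g by rw [hc]; group]
  have h1 : c ^ orderOf σ = 1 := by
    have h := hn (orderOf σ)
    rw [pow_orderOf_eq_one (σ : MulAut G)] at h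
    have h' : g = g * c ^ orderOf σ := h
    exact mul_left_cancel (h'.symm.trans (mul_one g).symm)
  have h2 : orderOf c = 1 := Nat.eq_one_of_dvd_coprimes hcop (orderOf_dvd_of_pow_eq_one h1) (orderOf_dvd_natCard c)
  rw [orderOf_eq_one_iff, hc, inv_mul_eq_one] at h2
  exact h2.symm

end Cfsg.Agent.S0552
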