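import Cfsg.Statements.S0553
import Cfsg.Agent.Lib.PLocal.SolvablePrimitive
import Cfsg.Agent.Lib.PLocal.ProductSet

set_option autoImplicit false
open Cfsg

namespace Cfsg.Agent.S0553

/-- Let G be a nontrivial finite solvable group in which every maximal subgroup has order coprime to its index. Then for some prime p dividing the order of G the Sylow p-subgroups of G are normal. -/
theorem result {G : Type*} [Group G] [Finite G] [Group.IsSolvable G] [Nontrivial G] (h : ∀ M : Subgroup G, IsCoatom M → (Nat.card M).Coprime M.index) : ∃ p : ℕ, p.Prime ∧ p ∣ Nat.card G ∧ ∀ P : Sylow p G, (P : Subgroup G).Normal := by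
  classical
  induction hn : Nat.card G using Nat.strong_induction_on generalizing G with
  | _ n ih =>
  obtain ⟨N, -, ⟨hNn, hN0⟩, hNmin⟩ := exists_minimal_le_of_wellFoundedLT
    (fun N : Subgroup G => N.Normal ∧ N ≠ ⊥) ⊤ ⟨inferInstance, top_ne_bot⟩
  have := hNn
  obtain ⟨-, p, e, hp, he, hcard⟩ := CfsgLib.PLocal.minNormal_solvable N hN0 (fun K hK hKN =>
    or_iff_not_imp_left.mpr fun hK0 => le_antisymm hKN (hNmin ⟨hK, hK0⟩ hKN))
  have := Fact.mk hp
  have hpG : p ∣ Nat.card G := (dvd_pow_self p he.ne').trans (hcard ▸ N.card_subgroup_dvd_card)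
  have hNP : ∀ P : Sylow p G, N ≤ (P : Subgroup G) := by
    intro P
    obtain ⟨Q, hQ⟩ := (IsPGroup.of_card hcard : IsPGroup p N).exists_le_sylow
    obtain ⟨g, hg⟩ := MulAction.exists_smul_eq G Q P
    rw [← hg, Sylow.coe_subgroup_smul]
    intro x hx
    rw [Subgroup.mem_pointwise_smul_iff_inv_smul_mem]
    refine hQ ?_
    simpa [MulAut.smul_def] using hNn.conj_mem x hx g⁻¹
  by_cases hS : ¬ p ∣ N.index
  · refine ⟨p, hp, hn ▸ hpG, fun P => ?_⟩
    have : (P : Subgroup G) = N := by
      symm
      refine Subgroup.eq_of_le_of_card_ge (hNP P) ?_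
      rw [P.card_eq_multiplicity, ← N.card_mul_index, hcard,
        Nat.factorization_mul (pow_ne_zero _ hp.ne_zero) Subgroup.index_ne_zero_of_finite]
      simp [Nat.factorization_eq_zero_of_not_dvd hS, hp.factorization_pow]
    rw [this]; exact hNn
  rw [not_not] at hS
  have hall : ∀ M : Subgroup G, IsCoatom M → N ≤ M := by
    intro M hM
    by_contra hNM
    have hsup : N ⊔ M = ⊤ := hM.2 _ (lt_of_le_of_ne le_sup_right fun e => hNM (le_sup_left.trans e.ge))
    have hdvd : M.index ∣ Nat.card N := by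
      rw [← Subgroup.relIndex_top_right M, ← hsup]
      have e1 : (N ⊔ M : Subgroup G) = M ⊔ N := sup_comm _ _
      rw [hsup, Subgroup.relIndex_top_right]
      have h1 := CfsgLib.PLocal.ProductSet.card_mul_of_factor (H := N) (K := M) (fun g => by
        obtain ⟨a, ha, b, hb, e⟩ := Subgroup.mem_sup_of_normal_left.mp (hsup ▸ Subgroup.mem_top g : g ∈ N ⊔ M)
        exact ⟨a, ha, b, hb, e.symm⟩)
      rw [← M.card_mul_index] at h1
      refine ⟨Nat.card ↥(N ⊓ M : Subgroup G), Nat.eq_of_mul_eq_mul_right (Nat.card_pos (α := M)) ?_⟩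
      rw [← h1]; ring
    have hpM : p ∣ M.index := by
      rw [hcard] at hdvd
      obtain ⟨i, -, hi⟩ := (Nat.dvd_prime_pow hp).mp hdvd
      rw [hi]
      refine dvd_pow_self p fun h0 => hM.1 (Subgroup.index_eq_one.mp ?_)
      rw [hi, h0, pow_zero]
    have hpcop : ¬ p ∣ Nat.card M := fun hd => hp.not_dvd_one ((h M hM).gcd_eq_one ▸ Nat.dvd_gcd hd hpM)
    have hNM' : N ⊓ M = ⊥ := disjoint_iff.mp (Subgroup.disjoint_of_coprime_natCard (by
      rw [hcard]; exact Nat.Coprime.pow_left _ (hp.coprime_iff_not_dvd.mpr hpcop)))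
    have hc : Subgroup.IsComplement' N M := Subgroup.isComplement'_of_disjoint_and_mul_eq_univ
      (disjoint_iff.mpr hNM') (by rw [← Subgroup.normal_mul, hsup, Subgroup.coe_top])
    exact hpcop (hc.symm.index_eq_card ▸ hS)
  have hlt : Nat.card (G ⧸ N) < n := by
    rw [← hn, N.card_eq_card_quotient_mul_card_subgroup]
    exact lt_mul_of_one_lt_right Nat.card_pos (by rw [hcard]; exact Nat.one_lt_pow he.ne' hp.one_lt)
  have : Nontrivial (G ⧸ N) := Finite.one_lt_card_iff_nontrivial.mp
    (lt_of_lt_of_le hp.one_lt (Nat.le_of_dvd Nat.card_pos hS))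
  have hsurj := QuotientGroup.mk'_surjective N
  obtain ⟨r, hr, hrd, hrn⟩ := ih _ hlt (fun M hM => by
    have hcoat : IsCoatom (M.comap (QuotientGroup.mk' N)) := by
      refine ⟨fun e => hM.1 ?_, fun K hK => ?_⟩
      · rw [← Subgroup.map_comap_eq_self_of_surjective hsurj M, e, Subgroup.map_top_of_surjective _ hsurj]
      · have hker : (QuotientGroup.mk' N).ker ≤ K := (MonoidHom.ker_le_comap _ _).trans hK.le
        have h2 : M < K.map (QuotientGroup.mk' _) := by
          have := Subgroup.map_mono (f := QuotientGroup.mk' N) hK.le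
          rw [Subgroup.map_comap_eq_self_of_surjective hsurj] at this
          refine lt_of_le_of_ne this fun e => hK.ne ?_
          rw [e, Subgroup.comap_map_eq_self hker]
        rw [← Subgroup.comap_map_eq_self hker, hM.2 _ h2, Subgroup.comap_top]
    have h1 := h _ hcoat
    rw [Subgroup.index_comap_of_surjective M hsurj] at h1
    refine h1.coprime_dvd_left ?_
    conv_lhs => rw [← Subgroup.map_comap_eq_self_of_surjective hsurj M]
    exact Subgroup.card_map_dvd _ _) rfl
  have := Fact.mk hr
  refine ⟨r, hr, hn ▸ hrd.trans (Subgroup.card_quotient_dvd_card N), fun R => ?_⟩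
  have hRn := hrn (R.mapSurjective hsurj)
  rw [Sylow.coe_mapSurjective] at hRn
  have hTn : ((R : Subgroup G) ⊔ N).Normal := by
    have := hRn.comap (QuotientGroup.mk' N)
    rwa [Subgroup.comap_map_eq, QuotientGroup.ker_mk'] at this
  by_cases hrp : r = p
  · subst hrp
    rwa [sup_eq_left.mpr (hNP R)] at hTn
  · set T := (R : Subgroup G) ⊔ N with hT
    have hfr := (R.subtype (le_sup_left : (R : Subgroup G) ≤ T)).normalizer_sup_eq_top
    rw [show ((R.subtype (le_sup_left : (R : Subgroup G) ≤ T) : Subgroup T).map T.subtype) = (R : Subgroup G) from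
      Subgroup.map_subgroupOf_eq_of_le le_sup_left] at hfr
    rw [← Subgroup.normalizer_eq_top_iff]
    by_contra hne
    obtain ⟨M, hM, hle⟩ := (eq_top_or_exists_le_coatom _).resolve_left hne
    refine hM.1 (eq_top_iff.mpr (hfr.ge.trans (sup_le hle ?_)))
    exact sup_le (Subgroup.le_normalizer.trans hle) (hall M hM)

end Cfsg.Agent.S0553
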