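import Cfsg.Statements.S0554
import Cfsg.Agent.Lib.PLocal.SolvablePrimitive

set_option autoImplicit false
open Cfsg

namespace Cfsg.Agent.S0554

/-- Let G be a finite solvable group and let S assign to each of t distinct primes, including every prime divisor of the order of G, a Sylow subgroup of G. Then every element of G is a product s_0 s_1 ⋯ s_(t-1) with s_i in S i, the factors taken in the given order. -/
theorem result {G : Type*} [Group G] [Finite G] [Group.IsSolvable G] (t : ℕ) (p : Fin t → ℕ) (hp : ∀ i, (p i).Prime) (hinj : Function.Injective p) (hall : ∀ q : ℕ, q.Prime → q ∣ Nat.card G → ∃ i, p i = q) (S : (i : Fin t) → Sylow (p i) G) : ∀ g : G, ∃ s : (i : Fin t) → G, (∀ i, s i ∈ (S i : Subgroup G)) ∧ g = (List.ofFn s).prod := by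
  suffices aux : ∀ n, ∀ (H : Type _) [Group H] [Finite H] [Group.IsSolvable H], Nat.card H = n →
      (∀ q : ℕ, q.Prime → q ∣ Nat.card H → ∃ i, p i = q) → ∀ (S : (i : Fin t) → Sylow (p i) H) (g : H),
      ∃ s : (i : Fin t) → H, (∀ i, s i ∈ (S i : Subgroup H)) ∧ g = (List.ofFn s).prod by
    exact aux _ G rfl hall S
  intro n
  induction n using Nat.strong_induction_on with
  | _ n ih =>
  intro H _ _ _ hn hall S g
  by_cases hH : Subsingleton H
  · exact ⟨fun _ => 1, fun i => (S i : Subgroup H).one_mem, Subsingleton.elim _ _⟩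
  have hne : (⊤ : Subgroup H) ≠ ⊥ := fun h =>
    hH (Subgroup.subsingleton_iff.mp (subsingleton_of_top_le_bot h.le) |> fun x => x)
  obtain ⟨N, -, ⟨hNn, hN0⟩, hNmin⟩ := exists_minimal_le_of_wellFoundedLT
    (fun N : Subgroup H => N.Normal ∧ N ≠ ⊥) ⊤ ⟨inferInstance, hne⟩
  have := hNn
  obtain ⟨-, l, d, hl, hd, hcard⟩ := CfsgLib.PLocal.minNormal_solvable N hN0 (fun K hK hKN =>
    or_iff_not_imp_left.mpr fun hK0 => le_antisymm hKN (hNmin ⟨hK, hK0⟩ hKN))
  obtain ⟨j, hj⟩ := hall l hl ((dvd_pow_self l hd.ne').trans (hcard ▸ N.card_subgroup_dvd_card))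
  have hfac : ∀ i, Fact (p i).Prime := fun i => ⟨hp i⟩
  have hNS : N ≤ (S j : Subgroup H) := by
    have hNp : IsPGroup (p j) N := IsPGroup.of_card (n := d) (by rw [hj, hcard])
    obtain ⟨Q, hQ⟩ := hNp.exists_le_sylow
    obtain ⟨h, hh⟩ := MulAction.exists_smul_eq H Q (S j)
    rw [← hh, Sylow.coe_subgroup_smul]
    intro x hx
    rw [Subgroup.mem_pointwise_smul_iff_inv_smul_mem]
    refine hQ ?_
    simpa [MulAut.smul_def] using hNn.conj_mem x hx h⁻¹
  have hlt : Nat.card (H ⧸ N) < n := by
    have h1 := N.card_eq_card_quotient_mul_card_subgroup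
    have h2 : 1 < Nat.card N := by
      have := mt Subgroup.card_eq_one.mp hN0
      have := Nat.card_pos (α := N)
      omega
    rw [← hn, h1]
    exact lt_mul_of_one_lt_right Nat.card_pos h2
  have hsurj := QuotientGroup.mk'_surjective N
  obtain ⟨s', hs', hg⟩ := ih _ hlt (H ⧸ N) rfl
    (fun q hq hqd => hall q hq (hqd.trans (Subgroup.card_quotient_dvd_card N)))
    (fun i => (S i).mapSurjective hsurj) (g : H ⧸ N)
  have hlift : ∀ i, ∃ x ∈ (S i : Subgroup H), (x : H ⧸ N) = s' i := fun i => by
    have := hs' i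
    rw [Sylow.coe_mapSurjective] at this
    exact this
  choose x hxS hx using hlift
  set L := List.ofFn x with hL
  have hmap : ((L.prod : H) : H ⧸ N) = (g : H ⧸ N) := by
    rw [hg, ← QuotientGroup.mk'_apply, map_list_prod, hL, List.map_ofFn]
    exact congrArg List.prod (congrArg List.ofFn (funext fun i => hx i))
  have hmN : L.prod⁻¹ * g ∈ N := QuotientGroup.eq.mp hmap
  set P1 := (L.take j).prod with hP1
  set P2 := (L.drop (j + 1)).prod with hP2
  set m := P2 * (L.prod⁻¹ * g) * P2⁻¹ with hm
  refine ⟨Function.update x j (x j * m), fun i => ?_, ?_⟩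
  · by_cases hij : i = j
    · subst hij
      rw [Function.update_self]
      exact (S i : Subgroup H).mul_mem (hxS i) (hNS (hNn.conj_mem _ hmN _))
    · rw [Function.update_of_ne hij]; exact hxS i
  · have e : List.ofFn (Function.update x j (x j * m)) = L.set j (x j * m) := by
      apply List.ext_getElem (by simp [hL])
      intro k hk1 hk2
      simp only [List.getElem_ofFn, List.getElem_set, hL, Function.update_apply, Fin.ext_iff, eq_comm]
    have hjl : (j : ℕ) < L.length := by simp [hL, j.2]
    rw [e, List.prod_set, if_pos hjl, ← hP1, ← hP2]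
    have hdec : L.prod = P1 * x j * P2 := by
      conv_lhs => rw [← List.take_append_drop j L]
      rw [List.prod_append, List.drop_eq_getElem_cons hjl, List.prod_cons, ← mul_assoc]
      simp [hL, hP1, hP2]
    rw [hm, hdec]
    group

end Cfsg.Agent.S0554
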