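import Cfsg.Statements.S0555
import Cfsg.Agent.Lib.Core
open scoped commutatorElement Pointwise

set_option autoImplicit false
open Cfsg

namespace Cfsg.Agent.S0555

/-- Let i ≥ 1. If in the derived series of a group the quotient of the i-th term by the (i+1)-st and the quotient of the (i+1)-st by the (i+2)-nd are both cyclic, then the (i+1)-st and (i+2)-nd terms coincide. -/
theorem result {G : Type*} [Group G] (i : ℕ) (hi : 1 ≤ i) (h₁ : IsCyclic (↥(derivedSeries G i) ⧸ (derivedSeries G (i + 1)).subgroupOf (derivedSeries G i))) (h₂ : IsCyclic (↥(derivedSeries G (i + 1)) ⧸ (derivedSeries G (i + 2)).subgroupOf (derivedSeries G (i + 1)))) : derivedSeries G (i + 1) = derivedSeries G (i + 2) := by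
  classical
  set M := derivedSeries G (i + 2) with hM
  haveI : M.Normal := derivedSeries_normal G _
  set π := QuotientGroup.mk' M with hπ
  have hsurj := QuotientGroup.mk'_surjective M
  have hmap : ∀ n, (derivedSeries G n).map π = derivedSeries (G ⧸ M) n := fun n => map_derivedSeries_eq hsurj n
  suffices h : (derivedSeries G (i + 1)).map π = ⊥ → derivedSeries G (i + 1) = M by
    apply h
    set L := (derivedSeries G (i + 1)).map π with hL
    set K := (derivedSeries G i).map π with hK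
    obtain ⟨y, hy⟩ : ∃ y ∈ L, ∀ z ∈ L, ∃ k : ℤ, z = y ^ k := by
      obtain ⟨⟨g⟩, hg⟩ := h₂.exists_generator
      refine ⟨π g, ⟨g, g.2, rfl⟩, ?_⟩
      rintro _ ⟨x, hx, rfl⟩
      obtain ⟨k, hk⟩ := hg (QuotientGroup.mk ⟨x, hx⟩)
      refine ⟨k, ?_⟩
      have hk' : ((g ^ k : ↥(derivedSeries G (i + 1))) : ↥(derivedSeries G (i + 1)) ⧸ M.subgroupOf (derivedSeries G (i + 1))) = QuotientGroup.mk ⟨x, hx⟩ := hk
      rw [QuotientGroup.eq, Subgroup.mem_subgroupOf] at hk'
      rw [← map_zpow, hπ, QuotientGroup.mk'_apply, QuotientGroup.mk'_apply]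
      exact (QuotientGroup.eq.2 hk').symm
    haveI hLn : L.Normal := Subgroup.Normal.map (derivedSeries_normal G _) π hsurj
    have hcent : ∀ z ∈ derivedSeries (G ⧸ M) 1, ∀ w ∈ L, w * z = z * w := by
      have key : derivedSeries (G ⧸ M) 1 ≤ Subgroup.centralizer {y} := by
        rw [derivedSeries_one, commutator_def, Subgroup.commutator_le]
        intro u _ v _
        rw [Subgroup.mem_centralizer_singleton_iff]
        have hc : ∀ u : G ⧸ M, ∃ k : ℤ, u * y * u⁻¹ = y ^ k := fun u => hy.2 _ (hLn.conj_mem y hy.1 u)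
        have hinv : ∀ u v : G ⧸ M, (u * v) * y * (u * v)⁻¹ = (v * u) * y * (v * u)⁻¹ := by
          intro u v
          obtain ⟨a, ha⟩ := hc u
          obtain ⟨b, hb⟩ := hc v
          calc (u * v) * y * (u * v)⁻¹ = u * (v * y * v⁻¹) * u⁻¹ := by group
            _ = u * y ^ b * u⁻¹ := by rw [hb]
            _ = (y ^ a) ^ b := by rw [← conj_zpow, ha]
            _ = (y ^ b) ^ a := by rw [← zpow_mul, ← zpow_mul, mul_comm]
            _ = v * y ^ a * v⁻¹ := by rw [← conj_zpow, hb]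
            _ = v * (u * y * u⁻¹) * v⁻¹ := by rw [ha]
            _ = _ := by group
        have h3 := hinv u⁻¹ v⁻¹
        have h4 : ⁅u, v⁆ * y * ⁅u, v⁆⁻¹ = y := by
          calc ⁅u, v⁆ * y * ⁅u, v⁆⁻¹ = (u * v) * (u⁻¹ * v⁻¹ * y * (u⁻¹ * v⁻¹)⁻¹) * (u * v)⁻¹ := by group
            _ = y := by rw [h3]; group
        calc ⁅u, v⁆ * y = ⁅u, v⁆ * y * ⁅u, v⁆⁻¹ * ⁅u, v⁆ := by group
          _ = y * ⁅u, v⁆ := by rw [h4]
      intro z hz w hw
      obtain ⟨k, rfl⟩ := hy.2 w hw
      exact (Commute.zpow_left (show Commute y z from (Subgroup.mem_centralizer_singleton_iff.1 (key hz)).symm) k).eq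
    have hK1 : K ≤ derivedSeries (G ⧸ M) 1 := by rw [hK, hmap]; exact derivedSeries_antitone _ hi
    obtain ⟨⟨g⟩, hg⟩ := h₁.exists_generator
    have hKgen : ∀ z ∈ K, ∃ k : ℤ, ∃ l ∈ L, z = π g ^ k * l := by
      rintro _ ⟨x, hx, rfl⟩
      obtain ⟨k, hk⟩ := hg (QuotientGroup.mk ⟨x, hx⟩)
      have hk' : ((g ^ k : ↥(derivedSeries G i)) : ↥(derivedSeries G i) ⧸ (derivedSeries G (i + 1)).subgroupOf (derivedSeries G i)) = QuotientGroup.mk ⟨x, hx⟩ := hk
      rw [QuotientGroup.eq, Subgroup.mem_subgroupOf] at hk'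
      refine ⟨k, π ((g : G) ^ (-k) * x), ⟨_, by rw [zpow_neg]; exact hk', rfl⟩, ?_⟩
      rw [← map_zpow, ← map_mul, zpow_neg, mul_inv_cancel_left]
    have hKc : ∀ u ∈ K, ∀ v ∈ K, u * v = v * u := by
      intro u hu v hv
      obtain ⟨a, l, hl, rfl⟩ := hKgen u hu
      obtain ⟨b, m, hm, rfl⟩ := hKgen v hv
      have hg' : π g ∈ derivedSeries (G ⧸ M) 1 := hK1 ⟨g, g.2, rfl⟩
      have hL1 : ∀ z ∈ L, z ∈ derivedSeries (G ⧸ M) 1 := fun z hz => by
        rw [hL, hmap] at hz; exact derivedSeries_antitone _ (by omega) hz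
      refine Commute.mul_left (Commute.mul_right ?_ ?_) (Commute.mul_right ?_ ?_)
      · exact Commute.zpow_zpow_self _ _ _
      · exact (Commute.zpow_left (show Commute (π g) m from (hcent _ hg' m hm).symm) a)
      · exact (Commute.zpow_right (show Commute l (π g) from (hcent _ hg' l hl)) b)
      · exact hcent _ (hL1 m hm) l hl
    rw [hL, derivedSeries_succ, Subgroup.map_commutator, ← hK, Subgroup.commutator_eq_bot_iff_le_centralizer]
    exact fun u hu => Subgroup.mem_centralizer_iff.2 fun v hv => hKc v hv u hu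
  intro h
  refine le_antisymm ?_ (derivedSeries_antitone _ (by omega))
  rwa [Subgroup.map_eq_bot_iff, hπ, QuotientGroup.ker_mk'] at h

end Cfsg.Agent.S0555
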