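import Cfsg.Statements.S0557
import Cfsg.Agent.Lib.FocalTransfer

set_option autoImplicit false
open Cfsg

namespace Cfsg.Agent.S0557

/-- Let H be a subgroup of a finite group G with order coprime to its index. If iterating the focal-subgroup construction starting from H reaches the trivial subgroup after finitely many steps, then H has a normal complement in G. -/
theorem result {G : Type*} [Group G] [Finite G] (H : Subgroup G) (hHall : (Nat.card H).Coprime H.index) (n : ℕ) (hfoc : (fun K : Subgroup G => Subgroup.focalSubgroup K)^[n] H = ⊥) : ∃ N : Subgroup G, N.Normal ∧ Subgroup.IsComplement' N H := by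
  classical
  set gens : Set G := {x | (orderOf x).Coprime (Nat.card H)} with hgens
  set E := Subgroup.closure gens with hE
  have hEn : E.Normal := ⟨fun x hx g => by
    induction hx using Subgroup.closure_induction with
    | mem y hy =>
      refine Subgroup.subset_closure ?_
      have hc : g * y * g⁻¹ = MulAut.conj g y := by simp
      show (orderOf (g * y * g⁻¹)).Coprime (Nat.card H)
      rw [hc, MulEquiv.orderOf_eq]
      exact hy
    | one => simp
    | mul a b ha hb ia ib =>
      have e : g * (a * b) * g⁻¹ = (g * a * g⁻¹) * (g * b * g⁻¹) := by group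
      rw [e]; exact E.mul_mem ia ib
    | inv a ha ia =>
      have e : g * a⁻¹ * g⁻¹ = (g * a * g⁻¹)⁻¹ := by group
      rw [e]; exact E.inv_mem ia⟩
  have hsup : E ⊔ H = ⊤ := by
    by_contra hne
    obtain ⟨q, hq, hqd⟩ := Nat.exists_prime_and_dvd
      (fun h => hne (Subgroup.index_eq_one.mp h) : (E ⊔ H).index ≠ 1)
    have := Fact.mk hq
    have hqH : q ∣ H.index := hqd.trans (Subgroup.index_dvd_of_le le_sup_right)
    obtain ⟨Q⟩ : Nonempty (Sylow q G) := inferInstance
    have hQE : (Q : Subgroup G) ≤ E := fun x hx => by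
      refine Subgroup.subset_closure ?_
      have h1 : (Nat.card ↥(Q : Subgroup G)).Coprime (Nat.card H) := by
        obtain ⟨k, hk⟩ := IsPGroup.iff_card.mp Q.2
        rw [hk]
        exact Nat.Coprime.pow_left _ (hHall.symm.coprime_dvd_left hqH)
      exact h1.coprime_dvd_left (Subgroup.orderOf_dvd_natCard _ hx)
    exact Q.not_dvd_index (hqd.trans (Subgroup.index_dvd_of_le (hQE.trans le_sup_left)))
  set K := H.subgroupOf E with hK
  have hKcard : Nat.card K ∣ Nat.card H := by
    rw [hK, ← Subgroup.inf_subgroupOf_right, Nat.card_congr (Subgroup.subgroupOfEquivOfLe inf_le_right).toEquiv]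
    exact Subgroup.card_dvd_of_le inf_le_left
  have hKind : K.index ∣ H.index :=
    (dvd_of_eq (by
    rw [hK]
    show H.relIndex E = H.index
    have h1 : (H ⊓ E).relIndex ⊤ = E.relIndex H * H.index := by
      rw [← Subgroup.relIndex_mul_relIndex (H ⊓ E) H ⊤ inf_le_left le_top, Subgroup.inf_relIndex_left,
        Subgroup.relIndex_top_right]
    have h2 : (H ⊓ E).relIndex ⊤ = H.relIndex E * E.index := by
      rw [← Subgroup.relIndex_mul_relIndex (H ⊓ E) E ⊤ inf_le_right le_top, Subgroup.inf_relIndex_right,
        Subgroup.relIndex_top_right]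
    have h3 : E.relIndex H = E.index := by
      rw [← Subgroup.relIndex_sup_left H E, hsup, Subgroup.relIndex_top_right]
    rw [h2, h3, mul_comm] at h1
    exact Nat.eq_of_mul_eq_mul_left (Nat.pos_of_ne_zero Subgroup.index_ne_zero_of_finite) h1))
  obtain ⟨hfocK, M, hMn, hMK, hMsup⟩ := CfsgLib.FocalTransfer.coprime_focal K
    (((hHall.coprime_dvd_left hKcard).coprime_dvd_right hKind).symm.coprime_dvd_right
      (Subgroup.relIndex_dvd_card _ _))
  have hMind : M.index ∣ Nat.card H := by
    have h1 : M.index = M.relIndex K := by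
      rw [← Subgroup.relIndex_sup_left K M, hMsup, Subgroup.relIndex_top_right]
    rw [h1]
    exact (Subgroup.relIndex_dvd_card _ _).trans hKcard
  have hMtop : M = ⊤ := by
    rw [eq_top_iff]
    rintro ⟨x, hx⟩ -
    have key : ∀ (y : G) (hy : y ∈ E), (⟨y, hy⟩ : E) ∈ M := by
      intro y hy
      induction hy using Subgroup.closure_induction with
      | mem y hy =>
        set z : E := ⟨y, Subgroup.subset_closure hy⟩
        rw [← QuotientGroup.eq_one_iff (N := M), ← orderOf_eq_one_iff]
        refine Nat.eq_one_of_dvd_coprimes (hy : (orderOf y).Coprime (Nat.card H)) ?_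
          ((orderOf_dvd_natCard _).trans hMind)
        have : orderOf z = orderOf y := by rw [Subgroup.orderOf_mk]
        rw [← this]
        exact orderOf_map_dvd (QuotientGroup.mk' M) z
      | one => exact M.one_mem
      | mul a b ha hb ia ib => exact M.mul_mem ia ib
      | inv a ha ia => exact M.inv_mem ia
    exact key x hx
  have hfixed : K ≤ Subgroup.focalSubgroup K := by
    rw [hfocK, ← hMK, hMtop, top_inf_eq]
  have hmono : ∀ A B : Subgroup G, A ≤ B → Subgroup.focalSubgroup A ≤ Subgroup.focalSubgroup B := by
    intro A B hAB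
    rw [Subgroup.focalSubgroup_def, Subgroup.closure_le]
    rintro _ ⟨hz, x, hx, u, rfl⟩
    exact CfsgLib.FocalTransfer.focal_mem (hAB hx) (hAB hz)
  have hall : ∀ i, E ⊓ H ≤ (fun K : Subgroup G => Subgroup.focalSubgroup K)^[i] H := by
    intro i
    induction i with
    | zero => exact inf_le_right
    | succ i ih =>
      rw [Function.iterate_succ_apply']
      refine le_trans ?_ (hmono _ _ ih)
      rintro x ⟨hxE, hxH⟩
      have h1 : (⟨x, hxE⟩ : E) ∈ Subgroup.focalSubgroup K := hfixed (Subgroup.mem_subgroupOf.mpr hxH)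
      have h2 : Subgroup.focalSubgroup K ≤ (Subgroup.focalSubgroup (E ⊓ H)).comap E.subtype := by
        rw [Subgroup.focalSubgroup_def, Subgroup.closure_le]
        rintro _ ⟨hz, y, hy, u, rfl⟩
        rw [SetLike.mem_coe, Subgroup.mem_comap, map_commutatorElement]
        refine CfsgLib.FocalTransfer.focal_mem ⟨y.2, Subgroup.mem_subgroupOf.mp hy⟩ ?_
        rw [← map_commutatorElement]
        refine ⟨?_, Subgroup.mem_subgroupOf.mp hz⟩
        simp only [Subgroup.coe_subtype]
        exact SetLike.coe_mem _
      exact h2 h1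
  refine ⟨E, hEn, Subgroup.isComplement'_of_disjoint_and_mul_eq_univ ?_ ?_⟩
  · rw [disjoint_iff, eq_bot_iff]
    exact hfoc ▸ hall n
  · rw [← Subgroup.normal_mul, hsup, Subgroup.coe_top]

end Cfsg.Agent.S0557
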