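import Cfsg.Statements.S0558
import Cfsg.Agent.S0071
import Cfsg.Agent.Lib.GroupB.Coprime
import Cfsg.Agent.Lib.GroupB.FrobBasic

set_option autoImplicit false
open Cfsg

namespace Cfsg.Agent.S0558

open CfsgLib.GroupB.Coprime in
theorem aux {G : Type*} [Group G] [Finite G] (H : Subgroup G) (hnot : ∀ p : ℕ, p.Prime → ∀ P : Sylow p G, (P : Subgroup G) ≠ H) (hnorm : ∀ p : ℕ, p.Prime → p ∣ Nat.card H → ∀ P : Sylow p H, Subgroup.normalizer (((P : Subgroup H).map H.subtype : Subgroup G) : Set G) = H)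
    (p : ℕ) [Fact p.Prime] (hpH : p ∣ Nat.card H) :
    ∃ K : Subgroup G, K.Normal ∧ K.index = p ^ (Nat.card H).factorization p ∧ ¬ p ∣ Nat.card K := by
  classical
  -- every Sylow subgroup of `H` is normal in `H` and a Sylow subgroup of `G`
  have hnormal : ∀ q : ℕ, ∀ [Fact q.Prime], q ∣ Nat.card H → ∀ R : Sylow q H, (R : Subgroup H).Normal ∧
      ∃ S : Sylow q G, (S : Subgroup G) = (R : Subgroup H).map H.subtype := by
    intro q _ hq R
    have hN := hnorm q Fact.out hq R
    have hn : (R : Subgroup H).Normal := by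
      constructor
      intro x hx h
      have := (conj_mem_iff (hN.symm.le h.2 : (h : G) ∈ Subgroup.normalizer (((R : Subgroup H).map H.subtype : Subgroup G) : Set G))).mpr
        (Subgroup.mem_map_of_mem H.subtype hx : (x : G) ∈ (R : Subgroup H).map H.subtype)
      obtain ⟨y, hy, e⟩ := this
      exact (show h * x * h⁻¹ = y from Subtype.ext e.symm) ▸ hy
    refine ⟨hn, ?_⟩
    set P := (R : Subgroup H).map H.subtype with hP
    obtain ⟨S, hS⟩ := (R.2.map H.subtype).exists_le_sylow
    refine ⟨S, le_antisymm ?_ hS⟩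
    by_contra hne
    have hlt : P.subgroupOf (S : Subgroup G) < ⊤ := lt_top_iff_ne_top.mpr fun h => hne (Subgroup.subgroupOf_eq_top.mp h)
    haveI := S.2.isNilpotent
    obtain ⟨s, hs, hsP⟩ := SetLike.exists_of_lt (Group.normalizerCondition_of_isNilpotent (G := S) _ hlt)
    refine hsP (Subgroup.mem_subgroupOf.mpr ?_)
    have hsN : (s : G) ∈ Subgroup.normalizer (P : Set G) := by
      rw [Subgroup.mem_normalizer_iff]
      intro n
      have hmem := Subgroup.mem_normalizer_iff.mp hs
      constructor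
      · intro hnP
        exact (hmem ⟨n, hS hnP⟩).mp hnP
      · intro hnP
        have hnS : n ∈ (S : Subgroup G) := by
          have := S.1.mul_mem (S.1.mul_mem (S.1.inv_mem s.2) (hS hnP)) s.2
          simpa [mul_assoc] using this
        exact (hmem ⟨n, hnS⟩).mpr hnP
    rw [hN] at hsN
    obtain ⟨k, hk⟩ := IsPGroup.iff_orderOf.mp S.2 s
    have hp1 : IsPGroup q (Subgroup.zpowers (⟨s, hsN⟩ : H)) := IsPGroup.of_card (n := k) (by
      rw [Nat.card_zpowers, ← hk, ← Subgroup.orderOf_coe, ← Subgroup.orderOf_coe])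
    haveI := hn
    have hle : Subgroup.zpowers (⟨s, hsN⟩ : H) ⊔ (R : Subgroup H) = (R : Subgroup H) :=
      R.is_maximal' (hp1.to_sup_of_normal_right R.2) le_sup_right
    exact ⟨⟨s, hsN⟩, hle ▸ Subgroup.mem_sup_left (Subgroup.mem_zpowers _), rfl⟩
  let P₀ : Sylow p H := default
  obtain ⟨hP₀n, P, hP⟩ := hnormal p hpH P₀
  -- another prime
  obtain ⟨q, hq, hqH, hqp⟩ : ∃ q, q.Prime ∧ q ∣ Nat.card H ∧ q ≠ p := by
    by_contra hcon
    push Not at hcon
    refine hnot p Fact.out P (hP.trans ?_)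
    have hpg : IsPGroup p H := by
      obtain ⟨k, m, hm, e⟩ := Nat.exists_eq_pow_mul_and_not_dvd (Nat.card_pos (α := H)).ne' p (Fact.out : p.Prime).ne_one
      refine IsPGroup.of_card (n := k) ?_
      rcases eq_or_ne m 1 with rfl | hm1
      · rwa [mul_one] at e
      · obtain ⟨r, hr, hrm⟩ := Nat.exists_prime_and_dvd hm1
        exact absurd ((hcon r hr (hrm.trans (e ▸ dvd_mul_left m _))) ▸ hrm) hm
    rw [P₀.is_maximal' (Q := ⊤) (hpg.to_subgroup ⊤) le_top |>.symm, ← MonoidHom.range_eq_map, Subgroup.range_subtype]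
  haveI := Fact.mk hq
  let R₀ : Sylow q H := default
  obtain ⟨hR₀n, R, hR⟩ := hnormal q hqH R₀
  have hcomm : ∀ x ∈ (P : Subgroup G), ∀ y ∈ (R : Subgroup G), Commute x y := by
    rw [hP, hR]
    rintro _ ⟨x, hx, rfl⟩ _ ⟨y, hy, rfl⟩
    exact (Subgroup.commute_of_normal_of_disjoint _ _ hP₀n hR₀n
      (IsPGroup.disjoint_of_ne p q (Ne.symm hqp) _ _ P₀.2 R₀.2) x y hx hy).map H.subtype
  have hNR : Subgroup.normalizer ((R : Subgroup G) : Set G) = H := by rw [hR]; exact hnorm q hq hqH R₀
  -- `H` splits over `P`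
  haveI := hP₀n
  obtain ⟨T, hT⟩ := Subgroup.exists_right_complement'_of_coprime (N := (P₀ : Subgroup H)) P₀.card_coprime_index
  have hsplit : ∀ Q : Subgroup G, Q ≤ (P : Subgroup G) → ∀ g ∈ Subgroup.normalizer (Q : Set G), Nat.Coprime (orderOf g) p →
      g ∈ Subgroup.centralizer (Q : Set G) := by
    intro Q hQ g hg hgp
    set C := Subgroup.centralizer (Q : Set G) with hC
    have hRC : (R : Subgroup G) ≤ C := fun y hy => Subgroup.mem_centralizer_iff.mpr fun x hx => (hcomm x (hQ hx) y hy).eq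
    have hgN : g ∈ Subgroup.normalizer (C : Set G) := by
      rw [Subgroup.mem_normalizer_iff]
      have key : ∀ g ∈ Subgroup.normalizer (Q : Set G), ∀ n ∈ C, g * n * g⁻¹ ∈ C := by
        intro g hg n hn
        refine Subgroup.mem_centralizer_iff.mpr fun x hx => ?_
        have hx' : g⁻¹ * x * g ∈ Q := by
          have := (conj_mem_iff (Subgroup.inv_mem _ hg)).mpr hx
          simpa using this
        have h1 := Subgroup.mem_centralizer_iff.mp hn _ hx'
        calc x * (g * n * g⁻¹) = g * ((g⁻¹ * x * g) * n) * g⁻¹ := by group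
          _ = g * (n * (g⁻¹ * x * g)) * g⁻¹ := by rw [h1]
          _ = _ := by group
      exact fun n => ⟨key g hg n, fun h => by simpa [mul_assoc] using key g⁻¹ (Subgroup.inv_mem _ hg) _ h⟩
    have hRs : IsSylowOf q (R : Subgroup G) C := by
      refine ⟨hRC, le_antisymm ?_ ?_⟩
      · obtain ⟨k, hk⟩ := IsPGroup.iff_card.mp R.2
        have h1 : q ^ k ∣ Nat.card C := hk ▸ Subgroup.card_dvd_of_le hRC
        rw [hk]
        exact Nat.pow_le_pow_right hq.pos ((hq.pow_dvd_iff_le_factorization Nat.card_pos.ne').mp h1)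
      · rw [R.card_eq_multiplicity]
        exact Nat.pow_le_pow_right hq.pos ((Nat.factorization_le_iff_dvd Nat.card_pos.ne' Nat.card_pos.ne').mpr
          (Subgroup.card_subgroup_dvd_card C) q)
    obtain ⟨c, hc, hcR⟩ := (hRs.map_conj hgN).exists_conj hRs
    have hcg : c * g ∈ H := by
      rw [← hNR, mem_normalizer_iff_map_conj_eq]
      refine Eq.trans ?_ hcR
      rw [CfsgLib.GroupB.SchurZassenhaus.map_conj_map_conj]
    obtain ⟨⟨⟨s, hs⟩, ⟨t, ht⟩⟩, hst⟩ := hT.2 ⟨c * g, hcg⟩
    have hst' : (s : G) * (t : G) = c * g := congrArg Subtype.val hst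
    have htC : (t : G) ∈ C := Subgroup.mem_centralizer_iff.mpr fun x hx => by
      have hx' := hP.le (hQ hx)
      obtain ⟨x₀, hx₀, rfl⟩ := hx'
      have hnil : Commute x₀ t := by
        haveI : Group.IsNilpotent H := ((Group.isNilpotent_of_finite_tfae (G := H)).out 0 3).mpr (by
          intro r hr S
          by_cases hrd : r ∣ Nat.card H
          · exact (hnormal r hrd S).1
          · have hbot : (S : Subgroup H) = ⊥ := by
              obtain ⟨k, hk⟩ := IsPGroup.iff_card.mp S.2
              rcases Nat.eq_zero_or_pos k with h | h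
              · exact Subgroup.eq_bot_of_card_eq _ (by rw [hk, h, pow_zero])
              · exact absurd ((dvd_pow_self r h.ne').trans (hk ▸ Subgroup.card_subgroup_dvd_card _)) hrd
            rw [hbot]; infer_instance)
        refine CfsgLib.GroupB.FrobBasic.commute_of_coprime ?_
        obtain ⟨j, hj⟩ := IsPGroup.iff_orderOf.mp P₀.2 ⟨x₀, hx₀⟩
        rw [Subgroup.orderOf_mk] at hj
        rw [hj]
        refine Nat.Coprime.pow_left j ((Fact.out : p.Prime).coprime_iff_not_dvd.mpr fun hd => ?_)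
        have h1 := hd.trans (Subgroup.orderOf_dvd_natCard T ht)
        rw [← hT.symm.index_eq_card] at h1
        exact P₀.not_dvd_index h1
      exact congrArg Subtype.val hnil.eq
    set N := Subgroup.normalizer (Q : Set G)
    have hCN : C ≤ N := fun y hy => Subgroup.mem_normalizer_iff.mpr fun x => by
      constructor
      · intro hx
        rw [← Subgroup.mem_centralizer_iff.mp hy x hx]; simpa using hx
      · intro hx
        have h1 := Subgroup.mem_centralizer_iff.mp (C.inv_mem hy) _ hx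
        have h2 : x = y * x * y⁻¹ := by
          calc x = y⁻¹ * (y * x * y⁻¹) * y := by group
            _ = (y * x * y⁻¹) * y⁻¹ * y := by rw [h1]
            _ = y * x * y⁻¹ := by group
        rwa [h2]
    let ψ := Subgroup.normalizerMonoidHom Q
    have hker : ∀ y (hy : y ∈ C), ψ ⟨y, hCN hy⟩ = 1 := fun y hy => MulEquiv.ext fun x => Subtype.ext (by
      show y * (x : G) * y⁻¹ = x
      rw [← Subgroup.mem_centralizer_iff.mp hy x x.2, mul_inv_cancel_right])
    have hsN : (s : G) ∈ N := by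
      have : (s : G) = c * g * (t : G)⁻¹ := by rw [← hst']; group
      rw [this]
      exact N.mul_mem (N.mul_mem (hCN hc) hg) (N.inv_mem (hCN htC))
    have heq : ψ ⟨g, hg⟩ = ψ ⟨(s : G), hsN⟩ := by
      have e : (⟨g, hg⟩ : N) = ⟨c⁻¹, hCN (C.inv_mem hc)⟩ * ⟨(s : G), hsN⟩ * ⟨(t : G), hCN htC⟩ :=
        Subtype.ext (show g = c⁻¹ * (s : G) * (t : G) by rw [mul_assoc, hst']; group)
      rw [e, map_mul, map_mul, hker c⁻¹ (C.inv_mem hc), hker (t : G) htC, one_mul, mul_one]
    have h1 : orderOf (ψ ⟨g, hg⟩) ∣ orderOf g := (orderOf_map_dvd ψ _).trans (by rw [Subgroup.orderOf_mk])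
    obtain ⟨j, hj⟩ := IsPGroup.iff_orderOf.mp P₀.2 ⟨s, hs⟩
    rw [Subgroup.orderOf_mk] at hj
    have h2 : orderOf (ψ ⟨g, hg⟩) ∣ p ^ j := by
      rw [heq, ← hj]
      exact (orderOf_map_dvd ψ _).trans (by rw [Subgroup.orderOf_mk, Subgroup.orderOf_coe])
    have h3 := orderOf_eq_one_iff.mp (Nat.eq_one_of_dvd_coprimes (hgp.pow_right j) h1 h2)
    refine Subgroup.mem_centralizer_iff.mpr fun x hx => ?_
    have h4 : g * x * g⁻¹ = x := congrArg Subtype.val (show (ψ ⟨g, hg⟩) (⟨x, hx⟩ : Q) = (1 : MulAut Q) ⟨x, hx⟩ by rw [h3])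
    exact (mul_inv_eq_iff_eq_mul.mp h4).symm
  obtain ⟨K, hKn, hK⟩ := (Cfsg.Agent.S0071.result P).mpr hsplit
  refine ⟨K, hKn, ?_, ?_⟩
  · rw [hK.symm.index_eq_card, hP, Subgroup.card_map_of_injective H.subtype_injective, P₀.card_eq_multiplicity]
  · intro hd
    rw [← hK.index_eq_card] at hd
    exact P.not_dvd_index hd

/-- Let H be a subgroup of a finite group G that is not a Sylow subgroup of G for any prime, and suppose that for every prime p dividing the order of H and every Sylow p-subgroup P of H the normalizer of P in G is exactly H. Then some normal subgroup of G is a complement to H. -/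
theorem result {G : Type*} [Group G] [Finite G] (H : Subgroup G) (hnot : ∀ p : ℕ, p.Prime → ∀ P : Sylow p G, (P : Subgroup G) ≠ H) (hnorm : ∀ p : ℕ, p.Prime → p ∣ Nat.card H → ∀ P : Sylow p H, Subgroup.normalizer (((P : Subgroup H).map H.subtype : Subgroup G) : Set G) = H) : ∃ N : Subgroup G, N.Normal ∧ Subgroup.IsComplement' N H := by
  classical
  have key : ∀ p : (Nat.card H).primeFactors, ∃ K : Subgroup G, K.Normal ∧
      K.index = (p : ℕ) ^ (Nat.card H).factorization p ∧ ¬ (p : ℕ) ∣ Nat.card K := fun p =>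
    haveI := Fact.mk (Nat.prime_of_mem_primeFactors p.2)
    aux H hnot hnorm p (Nat.dvd_of_mem_primeFactors p.2)
  choose K hKn hKi hKp using key
  refine ⟨⨅ p, K p, Subgroup.normal_iInf_normal hKn, ?_⟩
  have hidx : (⨅ p, K p).index ≤ Nat.card H := by
    refine (Subgroup.index_iInf_le _).trans (le_of_eq ?_)
    simp only [hKi]
    rw [Finset.prod_coe_sort (Nat.card H).primeFactors (fun p => p ^ (Nat.card H).factorization p),
      ← Nat.prod_factorization_eq_prod_primeFactors (fun p e => p ^ e), Nat.prod_factorization_pow_eq_self Nat.card_pos.ne']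
  have hdis : Disjoint (⨅ p, K p) H := by
    rw [Subgroup.disjoint_def]
    intro x hx hxH
    refine orderOf_eq_one_iff.mp (by_contra fun h1 => ?_)
    obtain ⟨r, hr, hrd⟩ := Nat.exists_prime_and_dvd h1
    have hrH : r ∈ (Nat.card H).primeFactors :=
      Nat.mem_primeFactors.mpr ⟨hr, hrd.trans (Subgroup.orderOf_dvd_natCard H hxH), Nat.card_pos.ne'⟩
    exact hKp ⟨r, hrH⟩ (hrd.trans (Subgroup.orderOf_dvd_natCard _ ((Subgroup.mem_iInf.mp hx) ⟨r, hrH⟩)))
  have hle : Nat.card (⨅ p, K p : Subgroup G) * Nat.card H ≤ Nat.card G := by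
    rw [← Nat.card_prod]
    exact Nat.card_le_card_of_injective _ (Subgroup.mul_injective_of_disjoint hdis)
  refine Subgroup.isComplement'_of_card_mul_and_disjoint (le_antisymm hle ?_) hdis
  calc Nat.card G = Nat.card (⨅ p, K p : Subgroup G) * (⨅ p, K p).index := (Subgroup.card_mul_index _).symm
    _ ≤ _ := Nat.mul_le_mul_left _ hidx

end Cfsg.Agent.S0558
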