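import Cfsg.Statements.S0560
import Cfsg.Agent.Lib.PLocal.ProductSet

set_option autoImplicit false
open Pointwise
open Cfsg

namespace Cfsg.Agent.S0560

/-- Let the finite group G be the product HK of two subgroups and p a prime. Then there are Sylow p-subgroups P of H and Q of K and a Sylow p-subgroup R of G whose underlying set is the product set of P and Q. -/
theorem result {G : Type*} [Group G] [Finite G] (H K : Subgroup G) (hHK : ∀ g : G, ∃ h ∈ H, ∃ k ∈ K, g = h * k) (p : ℕ) [Fact p.Prime] : ∃ (P : Sylow p H) (Q : Sylow p K) (R : Sylow p G), ((R : Subgroup G) : Set G) = (((P : Subgroup H).map H.subtype : Subgroup G) : Set G) * (((Q : Subgroup K).map K.subtype : Subgroup G) : Set G) := by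
  classical
  obtain ⟨P0⟩ : Nonempty (Sylow p H) := inferInstance
  obtain ⟨Q0⟩ : Nonempty (Sylow p K) := inferInstance
  obtain ⟨R1, hR1⟩ := (P0.2.map H.subtype).exists_le_sylow
  obtain ⟨R2, hR2⟩ := (Q0.2.map K.subtype).exists_le_sylow
  obtain ⟨g, hg⟩ := MulAction.exists_smul_eq G R1 R2
  obtain ⟨k, hk, h, hh, rfl⟩ := CfsgLib.PLocal.ProductSet.factor_symm hHK g
  refine ⟨(⟨h, hh⟩ : H) • P0, (⟨k, hk⟩ : K)⁻¹ • Q0, h • R1, ?_⟩
  set P := (⟨h, hh⟩ : H) • P0 with hP
  set Q := (⟨k, hk⟩ : K)⁻¹ • Q0 with hQ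
  set R := h • R1 with hR
  set Pg := ((P : Subgroup H).map H.subtype : Subgroup G) with hPg
  set Qg := ((Q : Subgroup K).map K.subtype : Subgroup G) with hQg
  have hkey : R = k⁻¹ • R2 := by rw [← hg, mul_smul, inv_smul_smul]
  have hPR : Pg ≤ R := by
    rintro _ ⟨x, hx, rfl⟩
    rw [hP, SetLike.mem_coe, Sylow.coe_subgroup_smul, Subgroup.mem_pointwise_smul_iff_inv_smul_mem] at hx
    rw [hR, Sylow.coe_subgroup_smul, Subgroup.mem_pointwise_smul_iff_inv_smul_mem]
    have := hR1 (Subgroup.mem_map_of_mem H.subtype hx)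
    simpa [MulAut.smul_def] using this
  have hQR : Qg ≤ R := by
    rintro _ ⟨x, hx, rfl⟩
    rw [hQ, SetLike.mem_coe, Sylow.coe_subgroup_smul, Subgroup.mem_pointwise_smul_iff_inv_smul_mem] at hx
    rw [hkey, Sylow.coe_subgroup_smul, Subgroup.mem_pointwise_smul_iff_inv_smul_mem]
    have := hR2 (Subgroup.mem_map_of_mem K.subtype hx)
    simpa [MulAut.smul_def] using this
  have hsub : (Pg : Set G) * (Qg : Set G) ⊆ ((R : Subgroup G) : Set G) := by
    rintro _ ⟨a, ha, b, hb, rfl⟩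
    exact (R : Subgroup G).mul_mem (hPR ha) (hQR hb)
  refine (Set.eq_of_subset_of_ncard_le hsub ?_ (Set.toFinite _)).symm
  rw [← Nat.card_coe_set_eq, ← Nat.card_coe_set_eq]
  change Nat.card ↥(R : Subgroup G) ≤ _
  have e1 := CfsgLib.PLocal.ProductSet.card_mul_eq Pg Qg
  have e2 := CfsgLib.PLocal.ProductSet.card_mul_of_factor hHK
  have cR := R.card_eq_multiplicity
  have cP : Nat.card Pg = p ^ (Nat.card H).factorization p := by
    rw [hPg, Subgroup.card_subtype]; exact P.card_eq_multiplicity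
  have cQ : Nat.card Qg = p ^ (Nat.card K).factorization p := by
    rw [hQg, Subgroup.card_subtype]; exact Q.card_eq_multiplicity
  obtain ⟨d, hd⟩ := (IsPGroup.iff_card (p := p) (G := ↥(Pg ⊓ Qg : Subgroup G))).mp
    ((P.2.map H.subtype).to_le inf_le_left)
  have hple : Nat.card ↥(Pg ⊓ Qg : Subgroup G) ∣ Nat.card ↥(H ⊓ K : Subgroup G) :=
    Subgroup.card_dvd_of_le (inf_le_inf (Subgroup.map_subtype_le _) (Subgroup.map_subtype_le _))
  have hp := (Fact.out : p.Prime)
  have hd' : d ≤ (Nat.card ↥(H ⊓ K : Subgroup G)).factorization p := by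
    rw [← hp.pow_dvd_iff_le_factorization Nat.card_pos.ne', ← hd]; exact hple
  have e3 := congrArg (fun n => n.factorization p) e2
  simp only [Nat.factorization_mul Nat.card_pos.ne' Nat.card_pos.ne', Finsupp.coe_add, Pi.add_apply] at e3
  have hpos : 0 < Nat.card ↥(Pg ⊓ Qg : Subgroup G) := Nat.card_pos
  refine Nat.le_of_mul_le_mul_right ?_ hpos
  rw [e1, cP, cQ, cR, hd, ← pow_add, ← pow_add]
  exact Nat.pow_le_pow_right hp.pos (by omega)

end Cfsg.Agent.S0560
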