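import Cfsg.Statements.S0562
import Cfsg.Agent.Lib.LocalBasic

set_option autoImplicit false
open Cfsg

namespace Cfsg.Agent.S0562

/-- Let the finite group G be the product HK of subgroups, A normal in H, B normal in K, and L the normalizer of the subgroup generated by A and B. Then every element of L is a product of an element of L ∩ H and an element of L ∩ K. -/
theorem result {G : Type*} [Group G] [Finite G] (H K A B : Subgroup G) (hHK : ∀ g : G, ∃ h ∈ H, ∃ k ∈ K, g = h * k) (hA : A ≤ H) (hAn : (A.subgroupOf H).Normal) (hB : B ≤ K) (hBn : (B.subgroupOf K).Normal) : ∀ g ∈ Subgroup.normalizer ((A ⊔ B : Subgroup G) : Set G), ∃ h ∈ Subgroup.normalizer ((A ⊔ B : Subgroup G) : Set G) ⊓ H, ∃ k ∈ Subgroup.normalizer ((A ⊔ B : Subgroup G) : Set G) ⊓ K, g = h * k := by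
  intro g hg
  obtain ⟨h, hh, k, hk, rfl⟩ := hHK g
  set J := A ⊔ B with hJ
  have hg' := CfsgLib.LocalBasic.conj_map_eq_of_mem_normalizer hg
  have eB : B.map (MulAut.conj k).toMonoidHom ≤ B := by
    rintro _ ⟨b, hb, rfl⟩
    simpa [Subgroup.mem_subgroupOf] using hBn.conj_mem ⟨b, hB hb⟩ (by simpa [Subgroup.mem_subgroupOf] using hb) ⟨k, hk⟩
  have eA : A.map (MulAut.conj h).toMonoidHom ≤ A := by
    rintro _ ⟨a, ha, rfl⟩
    simpa [Subgroup.mem_subgroupOf] using hAn.conj_mem ⟨a, hA ha⟩ (by simpa [Subgroup.mem_subgroupOf] using ha) ⟨h, hh⟩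
  have eBk : B.map (MulAut.conj k).toMonoidHom = B := Subgroup.eq_of_le_of_card_ge eB
    (Nat.card_congr (B.equivMapOfInjective _ (MulAut.conj k).injective).toEquiv).le
  have eAh : A.map (MulAut.conj h).toMonoidHom = A := Subgroup.eq_of_le_of_card_ge eA
    (Nat.card_congr (A.equivMapOfInjective _ (MulAut.conj h).injective).toEquiv).le
  have hcomp : (J.map (MulAut.conj k).toMonoidHom).map (MulAut.conj h).toMonoidHom = J := by
    rw [Subgroup.map_map]
    convert hg' using 2
    ext x
    simp [mul_assoc]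
  have hle : J ≤ J.map (MulAut.conj k).toMonoidHom := by
    refine sup_le ?_ (eBk.ge.trans (Subgroup.map_mono le_sup_right))
    intro a ha
    have : h * a * h⁻¹ ∈ J := (le_sup_left : A ≤ J) (eA ⟨a, ha, by simp⟩)
    rw [← hcomp] at this
    obtain ⟨y, hy, hya⟩ := this
    have : y = a := by simpa [mul_assoc] using hya
    rwa [← this]
  have hk' : k ∈ Subgroup.normalizer (J : Set G) := CfsgLib.LocalBasic.mem_normalizer_of_conj_map_eq
    (Subgroup.eq_of_le_of_card_ge hle (Nat.card_congr (J.equivMapOfInjective _ (MulAut.conj k).injective).toEquiv).ge).symm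
  refine ⟨h, ⟨?_, hh⟩, k, ⟨hk', hk⟩, rfl⟩
  have := Subgroup.mul_mem _ hg (Subgroup.inv_mem _ hk')
  simpa using this

end Cfsg.Agent.S0562
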