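import Cfsg.Statements.S0567
import Cfsg.Agent.Lib.Core
import Cfsg.Agent.Lib.LocalBasic
open scoped commutatorElement Pointwise

set_option autoImplicit false
open Cfsg

namespace Cfsg.Agent.S0567

/-- A subgroup H of a group G is subnormal exactly when, for some m, the subgroup obtained from G by taking the commutator with H m times in succession is contained in H. -/
theorem result {G : Type*} [Group G] (H : Subgroup G) : H.IsSubnormal ↔ ∃ m : ℕ, (fun K : Subgroup G => ⁅K, H⁆)^[m] ⊤ ≤ H := by
  obtain ⟨T, hT⟩ : ∃ T : ℕ → Subgroup G, T = fun m => (fun K : Subgroup G => ⁅K, H⁆)^[m] ⊤ := ⟨_, rfl⟩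
  suffices hmain : H.IsSubnormal ↔ ∃ m, T m ≤ H by rw [hT] at hmain; exact hmain
  have hT0 : T 0 = ⊤ := by rw [hT]; rfl
  have hTs : ∀ m, T (m + 1) = ⁅T m, H⁆ := fun m => by rw [hT]; exact Function.iterate_succ_apply' _ _ _
  constructor
  · intro h
    obtain ⟨n, f, hmono, hnor, hf0, hfn⟩ := Subgroup.IsSubnormal.exists_chain h
    refine ⟨n, ?_⟩
    have key : ∀ i ≤ n, T i ≤ f (n - i) := by
      intro i hi
      induction i with
      | zero => rw [hT0, Nat.sub_zero, hfn]
      | succ i ih =>
        rw [hTs, show n - i = n - (i + 1) + 1 by omega] at *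
        set j := n - (i + 1) with hj
        rw [Subgroup.commutator_le]
        intro x hx y hy
        have hxj : x ∈ f (j + 1) := ih (by omega) hx
        have hyj : y ∈ f j := hmono (Nat.zero_le j) (hf0.symm ▸ hy)
        rw [commutatorElement_def]
        exact (f j).mul_mem (((Subgroup.normal_subgroupOf_iff (hmono (Nat.le_succ j))).1 (hnor j)) _ _ hyj hxj) ((f j).inv_mem hyj)
    exact ((key n le_rfl).trans (by rw [Nat.sub_self, hf0]))
  · rintro ⟨m, hm⟩
    have key : ∀ i, (H ⊔ T i).IsSubnormal := by
      intro i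
      induction i with
      | zero => rw [hT0, sup_top_eq]; exact Subgroup.IsSubnormal.top
      | succ i ih =>
        set S := H ⊔ T (i + 1) with hS
        have hle : S ≤ H ⊔ T i := by
          refine sup_le le_sup_left ?_
          rw [hTs, Subgroup.commutator_le]
          intro x hx y hy
          have h1 : x ∈ H ⊔ T i := Subgroup.mem_sup_right hx
          have h2 : y ∈ H ⊔ T i := Subgroup.mem_sup_left hy
          rw [commutatorElement_def]
          exact Subgroup.mul_mem _ (Subgroup.mul_mem _ (Subgroup.mul_mem _ h1 h2) (Subgroup.inv_mem _ h1)) (Subgroup.inv_mem _ h2)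
        refine Subgroup.IsSubnormal.step _ _ hle ih ((Subgroup.normal_subgroupOf_iff_le_normalizer hle).2 ?_)
        have hc : ∀ a ∈ T i, ∀ x ∈ S, a * x * a⁻¹ ∈ S := by
          intro a ha
          have hgen : ∀ h ∈ H, a * h * a⁻¹ ∈ S := fun h hh => by
            have h1 : ⁅a, h⁆ ∈ T (i + 1) := hTs i ▸ Subgroup.commutator_mem_commutator ha hh
            rw [show a * h * a⁻¹ = ⁅a, h⁆ * h by rw [commutatorElement_def]; group]
            exact mul_mem (Subgroup.mem_sup_right h1) (Subgroup.mem_sup_left hh)
          have hle' : S ≤ S.comap (MulAut.conj a).toMonoidHom := by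
            refine sup_le (fun h hh => hgen h hh) ?_
            rw [hTs, Subgroup.commutator_le]
            intro b hb h hh
            show a * ⁅b, h⁆ * a⁻¹ ∈ S
            have h1 : ⁅a * b, h⁆ ∈ T (i + 1) := hTs i ▸ Subgroup.commutator_mem_commutator (mul_mem ha hb) hh
            have h2 : ⁅a, h⁆ ∈ T (i + 1) := hTs i ▸ Subgroup.commutator_mem_commutator ha hh
            rw [show a * ⁅b, h⁆ * a⁻¹ = ⁅a * b, h⁆ * ⁅a, h⁆⁻¹ by simp only [commutatorElement_def]; group]
            exact Subgroup.mem_sup_right (mul_mem h1 (inv_mem h2))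
          exact fun x hx => hle' hx
        refine sup_le ((le_sup_left : H ≤ S).trans Subgroup.le_normalizer) fun a ha => ?_
        rw [Subgroup.mem_normalizer_iff]
        intro x
        refine ⟨hc a ha x, fun hx => ?_⟩
        have := hc a⁻¹ (inv_mem ha) _ hx
        rwa [show a⁻¹ * (a * x * a⁻¹) * a⁻¹⁻¹ = x by group] at this
    have := key m
    rwa [sup_eq_left.2 hm] at this

end Cfsg.Agent.S0567
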