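import Cfsg.Statements.S0572
import Cfsg.Agent.Lib.Core
open scoped commutatorElement Pointwise

set_option autoImplicit false
open Cfsg

namespace Cfsg.Agent.S0572

/-- Itô's Theorem: if a group G is the product AB of two abelian subgroups, then the commutator subgroup of G is abelian, i.e. the second term of the derived series is trivial. -/
theorem result {G : Type*} [Group G] (A B : Subgroup G) [IsMulCommutative A] [IsMulCommutative B] (hAB : ∀ g : G, ∃ a ∈ A, ∃ b ∈ B, g = a * b) : derivedSeries G 2 = ⊥ := by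
  have hA : ∀ a ∈ A, ∀ a' ∈ A, a * a' = a' * a := fun a ha a' ha' => congrArg Subtype.val (mul_comm' (⟨a, ha⟩ : A) ⟨a', ha'⟩)
  have hB : ∀ a ∈ B, ∀ a' ∈ B, a * a' = a' * a := fun a ha a' ha' => congrArg Subtype.val (mul_comm' (⟨a, ha⟩ : B) ⟨a', ha'⟩)
  have hBA : ∀ g : G, ∃ b ∈ B, ∃ a ∈ A, g = b * a := fun g => by
    obtain ⟨a, ha, b, hb, h⟩ := hAB g⁻¹
    exact ⟨b⁻¹, B.inv_mem hb, a⁻¹, A.inv_mem ha, by rw [← inv_inv g, h, mul_inv_rev]⟩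
  have r1 : ∀ a₁ ∈ A, ∀ b₃ ∈ B, ∀ a₃ ∈ A, ⁅a₁, b₃ * a₃⁆ = ⁅a₁, b₃⁆ := fun a₁ h₁ b₃ _ a₃ h₃ => by
    calc ⁅a₁, b₃ * a₃⁆ = a₁ * b₃ * (a₃ * a₁⁻¹) * a₃⁻¹ * b₃⁻¹ := by group
      _ = a₁ * b₃ * (a₁⁻¹ * a₃) * a₃⁻¹ * b₃⁻¹ := by rw [hA a₃ h₃ a₁⁻¹ (A.inv_mem h₁)]
      _ = ⁅a₁, b₃⁆ := by group
  have r2 : ∀ a₄ ∈ A, ∀ b₄ ∈ B, ∀ b ∈ B, ⁅a₄ * b₄, b⁆ = ⁅a₄, b⁆ := fun a₄ _ b₄ h₄ b hb => by
    calc ⁅a₄ * b₄, b⁆ = a₄ * (b₄ * b) * b₄⁻¹ * a₄⁻¹ * b⁻¹ := by group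
      _ = a₄ * (b * b₄) * b₄⁻¹ * a₄⁻¹ * b⁻¹ := by rw [hB b₄ h₄ b hb]
      _ = ⁅a₄, b⁆ := by group
  have cA : ∀ a' ∈ A, ∀ a ∈ A, a' * a * a'⁻¹ = a := fun a' h' a h => by rw [hA a' h' a h, mul_inv_cancel_right]
  have cB : ∀ a' ∈ B, ∀ a ∈ B, a' * a * a'⁻¹ = a := fun a' h' a h => by rw [hB a' h' a h, mul_inv_cancel_right]
  have conjA : ∀ a' ∈ A, ∀ a ∈ A, ∀ b ∈ B, ∀ b₃ ∈ B, ∀ a₃ ∈ A, a' * b * a'⁻¹ = b₃ * a₃ → a' * ⁅a, b⁆ * a'⁻¹ = ⁅a, b₃⁆ := by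
    intro a' h' a ha b _ b₃ hb₃ a₃ ha₃ he
    rw [← r1 a ha b₃ hb₃ a₃ ha₃, ← he]
    conv_rhs => rw [← cA a' h' a ha]
    group
  have conjB : ∀ b' ∈ B, ∀ a ∈ A, ∀ b ∈ B, ∀ a₄ ∈ A, ∀ b₄ ∈ B, b' * a * b'⁻¹ = a₄ * b₄ → b' * ⁅a, b⁆ * b'⁻¹ = ⁅a₄, b⁆ := by
    intro b' h' a _ b hb a₄ ha₄ b₄ hb₄ he
    rw [← r2 a₄ ha₄ b₄ hb₄ b hb, ← he]
    conv_rhs => rw [← cB b' h' b hb]
    group
  let S : Set G := {x | ∃ a ∈ A, ∃ b ∈ B, x = ⁅a, b⁆}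
  have hS : ∀ x ∈ S, ∀ g : G, g * x * g⁻¹ ∈ S := by
    rintro _ ⟨a, ha, b, hb, rfl⟩ g
    obtain ⟨a', ha', b', hb', rfl⟩ := hAB g
    obtain ⟨a₄, ha₄, b₄, hb₄, he⟩ := hAB (b' * a * b'⁻¹)
    obtain ⟨b₃, hb₃, a₃, ha₃, he'⟩ := hBA (a' * b * a'⁻¹)
    refine ⟨a₄, ha₄, b₃, hb₃, ?_⟩
    calc a' * b' * ⁅a, b⁆ * (a' * b')⁻¹ = a' * (b' * ⁅a, b⁆ * b'⁻¹) * a'⁻¹ := by group
      _ = _ := by rw [conjB b' hb' a ha b hb a₄ ha₄ b₄ hb₄ he, conjA a' ha' a₄ ha₄ b hb b₃ hb₃ a₃ ha₃ he']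
  have hcom : ∀ x ∈ S, ∀ y ∈ S, x * y = y * x := by
    rintro _ ⟨a₁, h₁, b₁, k₁, rfl⟩ _ ⟨a₂, h₂, b₂, k₂, rfl⟩
    have key : ∀ a₂ ∈ A, ∀ b₂ ∈ B, (a₂ * b₂) * ⁅a₁, b₁⁆ * (a₂ * b₂)⁻¹ = (b₂ * a₂) * ⁅a₁, b₁⁆ * (b₂ * a₂)⁻¹ := by
      intro a₂ h₂ b₂ k₂
      obtain ⟨a₄, ha₄, b₄, hb₄, he⟩ := hAB (b₂ * a₁ * b₂⁻¹)
      obtain ⟨b₃, hb₃, a₃, ha₃, he'⟩ := hBA (a₂ * b₁ * a₂⁻¹)
      calc (a₂ * b₂) * ⁅a₁, b₁⁆ * (a₂ * b₂)⁻¹ = a₂ * (b₂ * ⁅a₁, b₁⁆ * b₂⁻¹) * a₂⁻¹ := by group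
        _ = ⁅a₄, b₃⁆ := by rw [conjB b₂ k₂ a₁ h₁ b₁ k₁ a₄ ha₄ b₄ hb₄ he, conjA a₂ h₂ a₄ ha₄ b₁ k₁ b₃ hb₃ a₃ ha₃ he']
        _ = b₂ * (a₂ * ⁅a₁, b₁⁆ * a₂⁻¹) * b₂⁻¹ := by rw [conjA a₂ h₂ a₁ h₁ b₁ k₁ b₃ hb₃ a₃ ha₃ he', conjB b₂ k₂ a₁ h₁ b₃ hb₃ a₄ ha₄ b₄ hb₄ he]
        _ = _ := by group
    have e := key a₂⁻¹ (A.inv_mem h₂) b₂⁻¹ (B.inv_mem k₂)
    have e2 : ⁅a₂, b₂⁆ * ⁅a₁, b₁⁆ * ⁅a₂, b₂⁆⁻¹ = ⁅a₁, b₁⁆ := by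
      calc ⁅a₂, b₂⁆ * ⁅a₁, b₁⁆ * ⁅a₂, b₂⁆⁻¹ = (b₂⁻¹ * a₂⁻¹)⁻¹ * ((a₂⁻¹ * b₂⁻¹) * ⁅a₁, b₁⁆ * (a₂⁻¹ * b₂⁻¹)⁻¹) * (b₂⁻¹ * a₂⁻¹) := by group
        _ = _ := by rw [e]; group
    exact (mul_inv_eq_iff_eq_mul.1 e2).symm
  haveI hN : (Subgroup.closure S).Normal := ⟨fun x hx g => by
    induction hx using Subgroup.closure_induction with
    | mem x hx => exact Subgroup.subset_closure (hS x hx g)
    | one => simp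
    | mul x y _ _ hx hy => simpa [mul_assoc] using Subgroup.mul_mem _ hx hy
    | inv x _ hx => simpa [mul_assoc] using Subgroup.inv_mem _ hx⟩
  haveI : IsMulCommutative (Subgroup.closure S) := Subgroup.isMulCommutative_closure hcom
  have hle : commutator G ≤ Subgroup.closure S := by
    rw [commutator_def, Subgroup.commutator_le]
    intro g _ g' _
    rw [← QuotientGroup.eq_one_iff (N := Subgroup.closure S), ← QuotientGroup.mk'_apply, map_commutatorElement, commutatorElement_eq_one_iff_mul_comm]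
    have hmix : ∀ a ∈ A, ∀ b ∈ B, (QuotientGroup.mk' (Subgroup.closure S) a) * QuotientGroup.mk' _ b = QuotientGroup.mk' _ b * QuotientGroup.mk' _ a := fun a ha b hb => by
      rw [← commutatorElement_eq_one_iff_mul_comm, ← map_commutatorElement, QuotientGroup.mk'_apply, QuotientGroup.eq_one_iff]
      exact Subgroup.subset_closure ⟨a, ha, b, hb, rfl⟩
    obtain ⟨a, ha, b, hb, rfl⟩ := hAB g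
    obtain ⟨a', ha', b', hb', rfl⟩ := hAB g'
    rw [map_mul, map_mul]
    refine Commute.mul_left (Commute.mul_right ?_ ?_) (Commute.mul_right ?_ ?_)
    · exact Commute.map (show Commute a a' from hA a ha a' ha') _
    · exact hmix a ha b' hb'
    · exact (hmix a' ha' b hb).symm
    · exact Commute.map (show Commute b b' from hB b hb b' hb') _
  rw [derivedSeries_succ, derivedSeries_one, Subgroup.commutator_eq_bot_iff_le_centralizer]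
  intro x hx
  rw [Subgroup.mem_centralizer_iff]
  intro y hy
  exact congrArg Subtype.val (mul_comm' (⟨y, hle hy⟩ : Subgroup.closure S) ⟨x, hle hx⟩)

end Cfsg.Agent.S0572
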