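import Cfsg.Statements.S0573
import Cfsg.Agent.S0572
import Cfsg.Agent.Lib.Solvable.Basics
import Cfsg.Agent.Lib.GroupB.Coprime

set_option autoImplicit false
open Cfsg

namespace Cfsg.Agent.S0573

theorem normal_le_center {G : Type*} [Group G] {K : Subgroup G} (h : K ≤ Subgroup.center G) : K.Normal :=
  ⟨fun n hn g => by rwa [(Subgroup.mem_center_iff.mp (h hn) g), mul_inv_cancel_right]⟩

theorem case_centralizer {G : Type*} [Group G] (A B : Subgroup G) [IsMulCommutative A] [IsMulCommutative B]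
    (hAB : ∀ g : G, ∃ a ∈ A, ∃ b ∈ B, g = a * b) (hZ : Subgroup.center G = ⊥) {w : G} (hw : w ∈ A) (hw1 : w ≠ 1)
    (hwV : ∀ v ∈ commutator G, Commute w v) : ∃ N : Subgroup G, N.Normal ∧ N ≠ ⊥ ∧ N ≤ A := by
  set N := A ⊔ commutator G with hN
  haveI : N.Normal := ⟨fun n hn g => by
    have h1 : g * n * g⁻¹ * n⁻¹ ∈ commutator G := Subgroup.commutator_mem_commutator (Subgroup.mem_top g) (Subgroup.mem_top n)
    simpa [mul_assoc] using N.mul_mem (Subgroup.mem_sup_right (S := A) h1) hn⟩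
  have hA : ∀ a ∈ A, ∀ a' ∈ A, Commute a a' := fun a ha a' ha' => congrArg Subtype.val (mul_comm' (⟨a, ha⟩ : A) ⟨a', ha'⟩)
  have hB : ∀ a ∈ B, ∀ a' ∈ B, Commute a a' := fun a ha a' ha' => congrArg Subtype.val (mul_comm' (⟨a, ha⟩ : B) ⟨a', ha'⟩)
  haveI : (Subgroup.centralizer (N : Set G)).Normal := Subgroup.normal_centralizer
  refine ⟨N ⊓ Subgroup.centralizer (N : Set G), inferInstance, fun h => hw1 ?_, ?_⟩
  · have hmem : w ∈ N ⊓ Subgroup.centralizer (N : Set G) := by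
      refine ⟨Subgroup.mem_sup_left hw, ?_⟩
      rw [hN, Subgroup.sup_eq_closure, Subgroup.centralizer_closure]
      refine Subgroup.mem_centralizer_iff.mpr ?_
      rintro y (hy | hy)
      · exact (hA w hw y hy).symm
      · exact (hwV y hy).symm
    rwa [h, Subgroup.mem_bot] at hmem
  · intro z hz
    obtain ⟨a, ha, b, hb, rfl⟩ := hAB z
    have hbA : ∀ y ∈ A, Commute b y := fun y hy => by
      have h1 : Commute (a * b) y := ((Subgroup.mem_centralizer_iff.mp hz.2) y (Subgroup.mem_sup_left hy)).symm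
      simpa using (hA a⁻¹ (A.inv_mem ha) y hy).mul_left h1
    have hbc : b ∈ Subgroup.center G := by
      rw [Subgroup.mem_center_iff]
      intro g
      obtain ⟨a', ha', b', hb', rfl⟩ := hAB g
      exact ((hbA a' ha').mul_right (hB b hb b' hb')).symm
    rw [hZ, Subgroup.mem_bot] at hbc
    rw [hbc, mul_one]
    exact ha

/-- If a nontrivial finite group G is the product AB of abelian subgroups A and B, then some nontrivial normal subgroup of G is contained in A or in B. -/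
theorem result {G : Type*} [Group G] [Finite G] [Nontrivial G] (A B : Subgroup G) [IsMulCommutative A] [IsMulCommutative B] (hAB : ∀ g : G, ∃ a ∈ A, ∃ b ∈ B, g = a * b) : ∃ N : Subgroup G, N.Normal ∧ N ≠ ⊥ ∧ (N ≤ A ∨ N ≤ B) := by
  classical
  have hA : ∀ a ∈ A, ∀ a' ∈ A, Commute a a' := fun a ha a' ha' => congrArg Subtype.val (mul_comm' (⟨a, ha⟩ : A) ⟨a', ha'⟩)
  have hB : ∀ a ∈ B, ∀ a' ∈ B, Commute a a' := fun a ha a' ha' => congrArg Subtype.val (mul_comm' (⟨a, ha⟩ : B) ⟨a', ha'⟩)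
  by_cases hZ : Subgroup.center G = ⊥
  swap
  · obtain ⟨z, hz, hz1⟩ := (Subgroup.bot_or_exists_ne_one _).resolve_left hZ
    obtain ⟨a, ha, b, hb, rfl⟩ := hAB z
    have hac : a ∈ Subgroup.center G := by
      rw [Subgroup.mem_center_iff]
      intro g
      obtain ⟨a', ha', b', hb', rfl⟩ := hAB g
      have h1 : Commute (a * b) b' := (Subgroup.mem_center_iff.mp hz b').symm
      have h2 : Commute a b' := by simpa using h1.mul_left (hB b⁻¹ (B.inv_mem hb) b' hb')
      exact ((hA a ha a' ha').mul_right h2).symm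
    by_cases ha1 : a = 1
    · subst ha1
      rw [one_mul] at hz hz1
      refine ⟨B ⊓ Subgroup.center G, normal_le_center inf_le_right, fun h => hz1 ?_, Or.inr inf_le_left⟩
      exact Subgroup.mem_bot.mp (h ▸ Subgroup.mem_inf.mpr ⟨hb, hz⟩)
    · refine ⟨A ⊓ Subgroup.center G, normal_le_center inf_le_right, fun h => ha1 ?_, Or.inl inf_le_left⟩
      exact Subgroup.mem_bot.mp (h ▸ Subgroup.mem_inf.mpr ⟨ha, hac⟩)
  have hAB1 : ∀ c ∈ A, c ∈ B → c = 1 := by
    intro c hca hcb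
    have h : c ∈ Subgroup.center G := by
      rw [Subgroup.mem_center_iff]
      intro g
      obtain ⟨a', ha', b', hb', rfl⟩ := hAB g
      exact ((hA c hca a' ha').mul_right (hB c hcb b' hb')).symm
    rwa [hZ, Subgroup.mem_bot] at h
  have hBA : ∀ g : G, ∃ b ∈ B, ∃ a ∈ A, g = b * a := fun g => by
    obtain ⟨a, ha, b, hb, h⟩ := hAB g⁻¹
    exact ⟨b⁻¹, B.inv_mem hb, a⁻¹, A.inv_mem ha, by rw [← inv_inv g, h, mul_inv_rev]⟩
  by_cases hgoodA : ∃ w ∈ A, w ≠ 1 ∧ ∀ v ∈ commutator G, Commute w v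
  · obtain ⟨w, hw, hw1, hwV⟩ := hgoodA
    obtain ⟨N, h1, h2, h3⟩ := case_centralizer A B hAB hZ hw hw1 hwV
    exact ⟨N, h1, h2, Or.inl h3⟩
  by_cases hgoodB : ∃ w ∈ B, w ≠ 1 ∧ ∀ v ∈ commutator G, Commute w v
  · obtain ⟨w, hw, hw1, hwV⟩ := hgoodB
    obtain ⟨N, h1, h2, h3⟩ := case_centralizer B A hBA hZ hw hw1 hwV
    exact ⟨N, h1, h2, Or.inr h3⟩
  exfalso
  set V := commutator G with hV
  have hVab : ∀ u ∈ V, ∀ v ∈ V, Commute u v := by
    have h := Cfsg.Agent.S0572.result A B hAB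
    rw [derivedSeries_succ, derivedSeries_one, Subgroup.commutator_eq_bot_iff_le_centralizer] at h
    exact fun u hu v hv => (Subgroup.mem_centralizer_iff.mp (h hu) v hv).symm
  have hV1 : V ≠ ⊥ := fun h => by
    have h' := (commutator_eq_bot_iff_center_eq_top G).mp h
    rw [hZ] at h'
    exact bot_ne_top h'
  obtain ⟨p, hp, hpd⟩ := Nat.exists_prime_and_dvd (fun h => hV1 (Subgroup.eq_bot_of_card_eq V h))
  haveI := Fact.mk hp
  -- the `p`-part of `G'`
  let M : Subgroup G :=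
    { carrier := {v | v ∈ V ∧ ∃ k, v ^ p ^ k = 1}
      one_mem' := ⟨one_mem _, 0, one_pow _⟩
      mul_mem' := fun {x y} ⟨hx, i, hi⟩ ⟨hy, j, hj⟩ => ⟨V.mul_mem hx hy, i + j, by
        rw [(hVab x hx y hy).mul_pow, pow_add, pow_mul, hi, one_pow, one_mul, mul_comm (p ^ i), pow_mul, hj, one_pow]⟩
      inv_mem' := fun {x} ⟨hx, i, hi⟩ => ⟨V.inv_mem hx, i, by rw [inv_pow, hi, inv_one]⟩ }
  haveI hMn : M.Normal := ⟨fun x ⟨hx, i, hi⟩ g =>
    ⟨(inferInstance : (commutator G).Normal).conj_mem x hx g, i, by rw [conj_pow, hi]; simp⟩⟩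
  have hMp : IsPGroup p M := fun x => by
    obtain ⟨-, k, hk⟩ := x.2
    exact ⟨k, Subtype.ext (by simpa using hk)⟩
  have hM1 : M ≠ ⊥ := fun h => by
    obtain ⟨v, hv⟩ := exists_prime_orderOf_dvd_card' (G := V) p hpd
    have hmem : (v : G) ∈ M := ⟨v.2, 1, by rw [pow_one, ← hv, ← Subgroup.orderOf_coe, pow_orderOf_eq_one]⟩
    rw [h, Subgroup.mem_bot] at hmem
    rw [← Subgroup.orderOf_coe, hmem, orderOf_one] at hv
    exact hp.one_lt.ne hv
  have hMB : ∀ c ∈ M, c ∈ B → c = 1 := fun c hc hcB => by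
    by_contra h
    exact hgoodB ⟨c, hcB, h, fun v hv => hVab c hc.1 v hv⟩
  -- `A₀` is as large as `M`
  set A₀ := A ⊓ (M ⊔ B) with hA₀
  have hsplit : ∀ a ∈ A₀, ∃ x ∈ M, ∃ b ∈ B, x * b = a := fun a ha =>
    (CfsgLib.GroupB.Coprime.mem_sup_of_le_normalizer (by rw [Subgroup.normalizer_eq_top (H := M)]; exact le_top)).mp ha.2
  choose f hfM g hgB hfg using hsplit
  let F : A₀ → M := fun a => ⟨f a a.2, hfM a a.2⟩
  have hF : Function.Bijective F := by
    constructor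
    · intro a a' h
      have h' : f a a.2 = f a' a'.2 := congrArg Subtype.val h
      have h1 : (a' : G)⁻¹ * a = (g a' a'.2)⁻¹ * g a a.2 := by
        conv_lhs => rw [← hfg a a.2, ← hfg a' a'.2, h']
        group
      have h2 := hAB1 _ (A.mul_mem (A.inv_mem a'.2.1) a.2.1) (h1 ▸ B.mul_mem (B.inv_mem (hgB _ _)) (hgB _ _))
      exact Subtype.ext (inv_mul_eq_one.mp h2).symm
    · intro x
      obtain ⟨a, ha, b, hb, hab⟩ := hAB (x : G)
      have ha0 : a ∈ A₀ := ⟨ha, by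
        rw [show a = (x : G) * b⁻¹ by rw [hab]; group]
        exact Subgroup.mul_mem _ (Subgroup.mem_sup_left x.2) (Subgroup.mem_sup_right (B.inv_mem hb))⟩
      refine ⟨⟨a, ha0⟩, Subtype.ext ?_⟩
      have h1 : (x : G)⁻¹ * f a ha0 = b⁻¹ * (g a ha0)⁻¹ := by
        calc (x : G)⁻¹ * f a ha0 = (a * b)⁻¹ * (f a ha0 * g a ha0) * (g a ha0)⁻¹ := by rw [hab]; group
          _ = _ := by rw [hfg a ha0]; group
      have h2 := hMB _ (M.mul_mem (M.inv_mem x.2) (hfM a ha0)) (h1 ▸ B.mul_mem (B.inv_mem hb) (B.inv_mem (hgB _ _)))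
      exact (inv_mul_eq_one.mp h2).symm
  obtain ⟨m, hm⟩ := IsPGroup.iff_card.mp hMp
  have hH : IsPGroup p (M ⊔ A₀ : Subgroup G) :=
    hMp.to_sup_of_normal_left (IsPGroup.of_card (n := m) (by rw [Nat.card_eq_of_bijective F hF, hm]))
  set H := M ⊔ A₀ with hHdef
  haveI := hH.isNilpotent
  haveI : (M.subgroupOf H).Normal := hMn.subgroupOf H
  have hMH : M.subgroupOf H ≠ ⊥ := fun h => by
    rw [Subgroup.subgroupOf_eq_bot, disjoint_iff, inf_eq_left.mpr le_sup_left] at h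
    exact hM1 h
  obtain ⟨⟨x, hxH⟩, hx, hx1⟩ := (Subgroup.bot_or_exists_ne_one _).resolve_left
    (CfsgLib.Solvable.Basics.inf_center_ne_bot (M.subgroupOf H) hMH)
  have hxM : x ∈ M := hx.1
  have hx1' : x ≠ 1 := fun h => hx1 (Subtype.ext h)
  have hxc : ∀ y ∈ H, Commute x y := fun y hy =>
    (congrArg Subtype.val (Subgroup.mem_center_iff.mp hx.2 ⟨y, hy⟩)).symm
  obtain ⟨a, ha, b, hb, hab⟩ := hAB x
  have ha0 : a ∈ A₀ := ⟨ha, by
    rw [show a = x * b⁻¹ by rw [hab]; group]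
    exact Subgroup.mul_mem _ (Subgroup.mem_sup_left hxM) (Subgroup.mem_sup_right (B.inv_mem hb))⟩
  have hbA₀ : ∀ y ∈ A₀, Commute b y := fun y hy => by
    have h1 : Commute (a * b) y := hab ▸ hxc y (Subgroup.mem_sup_right hy)
    simpa using (hA a⁻¹ (A.inv_mem ha) y hy.1).mul_left h1
  have hbM : ∀ y ∈ M, Commute b y := fun y hy => by
    obtain ⟨a', ha', b', hb', hy'⟩ := hAB y
    have ha0' : a' ∈ A₀ := ⟨ha', by
      rw [show a' = y * b'⁻¹ by rw [hy']; group]
      exact Subgroup.mul_mem _ (Subgroup.mem_sup_left hy) (Subgroup.mem_sup_right (B.inv_mem hb'))⟩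
    rw [hy']
    exact (hbA₀ a' ha0').mul_right (hB b hb b' hb')
  have haM : ∀ y ∈ M, Commute a y := fun y hy => by
    have h1 : Commute (a * b) y := hab ▸ hxc y (Subgroup.mem_sup_left hy)
    simpa using h1.mul_left (hbM y hy).inv_left
  -- `a` is central modulo `M`
  have hmod : ∀ v : G, a * v * a⁻¹ * v⁻¹ ∈ M := by
    intro v
    let π := QuotientGroup.mk' M
    have hab' : π a = π b⁻¹ := by
      have : π x = 1 := (QuotientGroup.eq_one_iff x).mpr hxM
      rw [hab, map_mul] at this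
      rw [map_inv, eq_inv_iff_mul_eq_one, this]
    obtain ⟨a', ha', b', hb', rfl⟩ := hAB v
    have hc : Commute (π a) (π (a' * b')) := by
      rw [map_mul]
      refine ((hA a ha a' ha').map π).mul_right ?_
      rw [hab']
      exact (hB b⁻¹ (B.inv_mem hb) b' hb').map π
    refine (QuotientGroup.eq_one_iff _).mp ?_
    show π (a * (a' * b') * a⁻¹ * (a' * b')⁻¹) = 1
    rw [map_mul, map_mul, map_mul, map_inv, map_inv, hc.eq]
    group
  have haV : ∀ v ∈ V, Commute a v := by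
    intro v hv
    obtain ⟨k, m', hm', ho⟩ := Nat.exists_eq_pow_mul_and_not_dvd (orderOf_pos v).ne' p hp.ne_one
    have h1 : Commute a (v ^ m') := haM _ ⟨V.pow_mem hv _, k, by
      rw [← pow_mul, mul_comm, ← ho, pow_orderOf_eq_one]⟩
    have h2 : Commute a (v ^ p ^ k) := by
      set w := v ^ p ^ k with hw
      have hwV : w ∈ V := V.pow_mem hv _
      obtain ⟨-, j, hj⟩ := hmod w
      have h3 : (a * w * a⁻¹ * w⁻¹) ^ m' = 1 := by
        have hw' : w ^ m' = 1 := by rw [hw, ← pow_mul, ← ho, pow_orderOf_eq_one]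
        rw [((hVab _ ((inferInstance : (commutator G).Normal).conj_mem w hwV a) w hwV).inv_right).mul_pow,
          conj_pow, inv_pow, hw']
        simp
      have h4 := Nat.eq_one_of_dvd_coprimes ((hp.coprime_iff_not_dvd.mpr hm').pow_left j)
        (orderOf_dvd_of_pow_eq_one hj) (orderOf_dvd_of_pow_eq_one h3)
      exact mul_inv_eq_iff_eq_mul.mp (mul_inv_eq_one.mp (orderOf_eq_one_iff.mp h4))
    have hg := Nat.gcd_eq_gcd_ab m' (p ^ k)
    rw [Nat.Coprime.gcd_eq_one ((hp.coprime_iff_not_dvd.mpr hm').pow_left k).symm, Nat.cast_one] at hg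
    rw [← zpow_one v, hg, zpow_add, zpow_mul, zpow_mul, zpow_natCast, zpow_natCast]
    exact (h1.zpow_right _).mul_right (h2.zpow_right _)
  by_cases ha1 : a = 1
  · rw [ha1, one_mul] at hab
    exact hgoodB ⟨b, hb, hab ▸ hx1', fun v hv => hVab b (hab ▸ hxM.1) v hv⟩
  · exact hgoodA ⟨a, ha, ha1, haV⟩

end Cfsg.Agent.S0573
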