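import Cfsg.Statements.S0575
import Cfsg.Agent.Lib.Core
open scoped commutatorElement Pointwise

set_option autoImplicit false
open Cfsg

namespace Cfsg.Agent.S0575

/-- If H is a normal subgroup of a finite group G, then the Frattini subgroup of H, viewed in G, lies in the Frattini subgroup of G. -/
theorem result {G : Type*} [Group G] [Finite G] (H : Subgroup G) [H.Normal] : (frattini ↥H).map H.subtype ≤ frattini G := by
  haveI hN : ((frattini ↥H).map H.subtype).Normal := by
    haveI := frattini_characteristic (G := ↥H)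
    exact ConjAct.normal_of_characteristic_of_normal
  refine le_iInf fun M => le_iInf fun hM => ?_
  by_contra hle
  have htop : (frattini ↥H).map H.subtype ⊔ M = ⊤ := hM.2 _ (lt_of_le_of_ne le_sup_right (fun he => hle (le_sup_left.trans he.ge)))
  have h1 : M.subgroupOf H = ⊤ := by
    apply frattini_nongenerating
    rw [eq_top_iff]
    rintro ⟨x, hx⟩ -
    obtain ⟨_, ⟨n, hn, rfl⟩, m, hm, e⟩ := Subgroup.mem_sup_of_normal_left.1 (htop.ge (Subgroup.mem_top x))
    have hmH : m ∈ H := by
      have : m = (n : G)⁻¹ * x := by rw [← e]; simp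
      rw [this]; exact H.mul_mem (H.inv_mem n.2) hx
    have : (⟨x, hx⟩ : H) = n * ⟨m, hmH⟩ := Subtype.ext e.symm
    rw [this]
    exact Subgroup.mul_mem _ (Subgroup.mem_sup_right hn) (Subgroup.mem_sup_left hm)
  exact hle (fun z ⟨w, _, hw⟩ => hw ▸ Subgroup.mem_subgroupOf.1 (h1.ge (Subgroup.mem_top w)))

end Cfsg.Agent.S0575
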