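import Cfsg.Statements.S0576


set_option autoImplicit false
open Cfsg

namespace Cfsg.Agent.S0576

/-- Let H be a normal subgroup of a finite group G with H contained in the Frattini subgroup of G. Then the group of inner automorphisms of H is contained in the Frattini subgroup of the automorphism group of H. -/
theorem result {G : Type*} [Group G] [Finite G] (H : Subgroup G) [H.Normal] (hH : H ≤ frattini G) : (MulAut.conj : ↥H →* MulAut ↥H).range ≤ frattini (MulAut ↥H) := by
  classical
  let φ : G →* MulAut ↥H := MulAut.conjNormal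
  set A := φ.range with hA
  set I := (MulAut.conj : ↥H →* MulAut ↥H).range with hI
  have hIA : I = H.map φ := by
    ext a
    constructor
    · rintro ⟨h, rfl⟩
      exact ⟨h, h.2, by ext x; simp [φ]⟩
    · rintro ⟨h, hh, rfl⟩
      exact ⟨⟨h, hh⟩, by ext x; simp [φ]⟩
  have hIn : I.Normal := by
    refine ⟨?_⟩
    rintro _ ⟨h, rfl⟩ a
    exact ⟨a h, by ext x; simp⟩
  rw [show frattini (MulAut ↥H) = Order.radical (Subgroup (MulAut ↥H)) from rfl, Order.radical]
  refine le_iInf₂ fun M hM => ?_
  by_contra hIM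
  have hsup : I ⊔ M = ⊤ := hM.2 _ (lt_of_le_of_ne le_sup_right fun e => hIM (le_sup_left.trans e.ge))
  have key : M.comap φ ⊔ H = ⊤ := by
    rw [eq_top_iff]
    intro g _
    have := hIn
    obtain ⟨i, hi, m, hm, e⟩ := Subgroup.mem_sup_of_normal_left.mp (hsup ▸ Subgroup.mem_top (φ g) : φ g ∈ I ⊔ M)
    rw [hIA] at hi
    obtain ⟨h, hh, rfl⟩ := hi
    have hmem : h⁻¹ * g ∈ M.comap φ := by
      rw [Subgroup.mem_comap, map_mul, map_inv, ← e, inv_mul_cancel_left]; exact hm
    have h2 := mul_mem (Subgroup.mem_sup_right hh : h ∈ M.comap φ ⊔ H) (Subgroup.mem_sup_left hmem)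
    rwa [mul_inv_cancel_left] at h2
  have htop : M.comap φ = ⊤ := frattini_nongenerating (by
    rw [eq_top_iff, ← key]
    exact sup_le_sup_left hH _)
  refine hIM ?_
  rw [hIA]
  rintro _ ⟨h, hh, rfl⟩
  exact (htop ▸ Subgroup.mem_top h : h ∈ M.comap φ)

end Cfsg.Agent.S0576
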