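import Cfsg.Statements.S0578
import Cfsg.Agent.Lib.Core
open scoped commutatorElement Pointwise

set_option autoImplicit false
open Cfsg

namespace Cfsg.Agent.S0578

/-- If in a finite group the normalizer of each abelian subgroup coincides with its centralizer, then the group is abelian. -/
theorem result {G : Type*} [Group G] [Finite G] (h : ∀ A : Subgroup G, IsMulCommutative A → Subgroup.normalizer (A : Set G) = Subgroup.centralizer (A : Set G)) : IsMulCommutative G := by
  classical
  have hP : ∀ (p : ℕ) [Fact p.Prime] (P : Sylow p G), Subgroup.normalizer ((P : Subgroup G) : Set G) ≤ Subgroup.centralizer ((P : Subgroup G) : Set G) := by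
    intro p _ P
    have habP : IsMulCommutative (P : Subgroup G) := by
      by_contra hna
      haveI : Nontrivial ((P : Subgroup G) ⧸ Subgroup.center (P : Subgroup G)) := by
        rw [← not_subsingleton_iff_nontrivial]
        intro hss
        refine hna ⟨⟨fun a b => ?_⟩⟩
        have : (a : (P : Subgroup G)) ∈ Subgroup.center (P : Subgroup G) := (QuotientGroup.eq_one_iff a).1 (Subsingleton.elim _ _)
        exact (Subgroup.mem_center_iff.1 this b).symm
      haveI := (P.isPGroup'.to_quotient (Subgroup.center (P : Subgroup G))).center_nontrivial
      obtain ⟨⟨zq, hzq⟩, hne⟩ := exists_ne (1 : Subgroup.center ((P : Subgroup G) ⧸ Subgroup.center (P : Subgroup G)))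
      obtain ⟨x, rfl⟩ := QuotientGroup.mk_surjective zq
      have hxZ : x ∉ Subgroup.center (P : Subgroup G) := fun hh => hne (Subtype.ext ((QuotientGroup.eq_one_iff x).2 hh))
      let A0 : Subgroup (P : Subgroup G) := Subgroup.closure (insert x (Subgroup.center (P : Subgroup G) : Set (P : Subgroup G)))
      haveI hA0 : IsMulCommutative A0 := Subgroup.isMulCommutative_closure (by
        rintro a (rfl | ha) b (rfl | hb)
        · rfl
        · exact Subgroup.mem_center_iff.1 hb _
        · exact (Subgroup.mem_center_iff.1 ha _).symm
        · exact (Subgroup.mem_center_iff.1 ha _).symm)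
      have hA : IsMulCommutative (A0.map (P : Subgroup G).subtype) := Subgroup.map_isMulCommutative _ _
      refine hxZ (Subgroup.mem_center_iff.2 fun g => Subtype.ext ?_)
      have hg : (g : G) ∈ Subgroup.normalizer ((A0.map (P : Subgroup G).subtype : Subgroup G) : Set G) := by
        have hn : g ∈ Subgroup.normalizer (A0 : Set (P : Subgroup G)) := by
          have hcm : ∀ a ∈ A0, ∀ k : (P : Subgroup G), k * a * k⁻¹ ∈ A0 := by
            intro a ha k
            induction ha using Subgroup.closure_induction with
            | mem a ha =>
              rcases ha with hax | ha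
              · rw [hax]
                have h1 : (x : (P : Subgroup G))⁻¹ * (k * x * k⁻¹) ∈ Subgroup.center (P : Subgroup G) := by
                  rw [← QuotientGroup.eq]
                  simp only [QuotientGroup.mk_mul, QuotientGroup.mk_inv]
                  rw [Subgroup.mem_center_iff.1 hzq (k : (P : Subgroup G) ⧸ Subgroup.center (P : Subgroup G)), mul_inv_cancel_right]
                have := A0.mul_mem (Subgroup.subset_closure (Set.mem_insert x _)) (Subgroup.subset_closure (Set.mem_insert_of_mem _ h1))
                rwa [← mul_assoc, mul_inv_cancel, one_mul] at this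
              · rw [Subgroup.mem_center_iff.1 ha k, mul_inv_cancel_right]
                exact Subgroup.subset_closure (Set.mem_insert_of_mem _ ha)
            | one => simp
            | mul a b _ _ ha hb => simpa [mul_assoc] using A0.mul_mem ha hb
            | inv a _ ha => simpa [mul_assoc] using A0.inv_mem ha
          rw [Subgroup.mem_normalizer_iff]
          intro a
          refine ⟨fun ha => hcm a ha g, fun ha => ?_⟩
          have := hcm _ ha g⁻¹
          simpa [mul_assoc] using this
        exact Subgroup.le_normalizer_map _ ⟨g, hn, rfl⟩
      rw [h _ hA] at hg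
      exact ((Subgroup.mem_centralizer_iff.1 hg) (x : G) ⟨x, Subgroup.subset_closure (Set.mem_insert x _), rfl⟩).symm
    rw [h _ habP]
  refine ⟨⟨fun a b => ?_⟩⟩
  have hc : Nat.card ↥(commutator G) = 1 := by
    by_contra hne
    obtain ⟨p, hp, hd⟩ := Nat.exists_prime_and_dvd hne
    haveI := Fact.mk hp
    obtain ⟨P⟩ : Nonempty (Sylow p G) := inferInstance
    have hab : ∀ u v : (P : Subgroup G), u * v = v * u := fun u v => Subtype.ext ((Subgroup.mem_centralizer_iff.1 (hP p P (Subgroup.le_normalizer v.2))) u u.2)
    have hle : commutator G ≤ (MonoidHom.transferSylow P (hP p P)).ker := by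
      rw [commutator_def, Subgroup.commutator_le]
      intro u _ v _
      rw [MonoidHom.mem_ker, map_commutatorElement, commutatorElement_eq_one_iff_mul_comm]
      exact hab _ _
    exact MonoidHom.not_dvd_card_ker_transferSylow P (hP p P) (hd.trans (Subgroup.card_dvd_of_le hle))
  have : ⁅a, b⁆ ∈ commutator G := Subgroup.commutator_mem_commutator trivial trivial
  rwa [Subgroup.card_eq_one.1 hc, Subgroup.mem_bot, commutatorElement_eq_one_iff_mul_comm] at this

end Cfsg.Agent.S0578
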