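import Cfsg.Statements.S0581
import Cfsg.Agent.Lib.Schmidt
import Cfsg.Agent.Lib.GroupB.Hall
import Cfsg.Agent.Lib.GroupB.Frobenius

set_option autoImplicit false
open Pointwise
open Cfsg

namespace Cfsg.Agent.S0581

universe u

open CfsgLib.GroupB in
theorem aux (n : ℕ) : ∀ (G : Type u) [Group G] [Finite G] (H K : Subgroup G), Nat.card K = n → Group.IsNilpotent H →
    (Nat.card H).Coprime H.index → (∀ p : ℕ, p.Prime → p ∣ Nat.card K → p ∣ Nat.card H) →
    ∃ x : G, ∀ k ∈ K, x⁻¹ * k * x ∈ H := by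
  induction n using Nat.strong_induction_on with
  | _ n ih =>
    intro G _ _ H K hn hH hHall hK
    classical
    rcases eq_or_ne K ⊥ with rfl | hK0
    · exact ⟨1, fun k hk => by rw [Subgroup.mem_bot.mp hk]; simp⟩
    haveI := hH
    -- proper subgroups of `K` are nilpotent
    have hprop : ∀ L : Subgroup K, L ≠ ⊤ → Group.IsNilpotent L := by
      intro L hL
      have hlt : Nat.card (L.map K.subtype) < n := by
        rw [Subgroup.card_map_of_injective K.subtype_injective, ← hn]
        exact lt_of_le_of_ne (Nat.le_of_dvd Nat.card_pos (Subgroup.card_subgroup_dvd_card L))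
          (fun e => hL ((Subgroup.card_eq_iff_eq_top L).mp e))
      obtain ⟨x, hx⟩ := ih _ hlt G H (L.map K.subtype) rfl hH hHall
        (fun p hp hd => hK p hp (hd.trans (Subgroup.card_dvd_of_le (Subgroup.map_subtype_le L))))
      let f : L →* H :=
        { toFun := fun l => ⟨x⁻¹ * ((l : K) : G) * x, hx _ ⟨l, l.2, rfl⟩⟩
          map_one' := Subtype.ext (by simp)
          map_mul' := fun a b => Subtype.ext (by simp [mul_assoc]) }
      exact Group.nilpotent_of_mulEquiv (MonoidHom.ofInjective (f := f) fun a b hab => by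
        have h := congrArg Subtype.val hab
        exact Subtype.ext (Subtype.ext (mul_left_cancel (mul_right_cancel h)))).symm
    -- a normal Sylow subgroup of `K`
    obtain ⟨p, hp, P₀, hP₀n, hP₀⟩ : ∃ p, p.Prime ∧ ∃ P₀ : Sylow p K, (P₀ : Subgroup K).Normal ∧ (P₀ : Subgroup K) ≠ ⊥ := by
      by_cases hKn : Group.IsNilpotent K
      · haveI : Nontrivial K := (Subgroup.nontrivial_iff_ne_bot K).mpr hK0
        obtain ⟨p, hp, hpd⟩ := Nat.exists_prime_and_dvd (Finite.one_lt_card (α := K)).ne'
        haveI := Fact.mk hp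
        refine ⟨p, hp, default, ?_, Sylow.ne_bot_of_dvd_card _ hpd⟩
        have h4 := ((Group.isNilpotent_of_finite_tfae (G := K)).out 0 3 : Group.IsNilpotent K ↔ _).mp hKn
        exact h4 p ⟨hp⟩ default
      · obtain ⟨-, q, x, -, hq, -, -, Q, hQn, -, hQx⟩ :=
          CfsgLib.Schmidt.structure_thm (G := K) ⟨hKn, hprop⟩
        refine ⟨q, hq, Q, hQn, fun e => hQx ?_⟩
        rw [e]
        exact Subgroup.mem_centralizer_iff.mpr fun y hy => by simp [Subgroup.mem_bot.mp hy]
    haveI := Fact.mk hp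
    haveI := hP₀n
    obtain ⟨Q₀, hQ₀⟩ := Subgroup.exists_right_complement'_of_coprime (N := (P₀ : Subgroup K)) P₀.card_coprime_index
    have hpH : p ∣ Nat.card H := hK p hp ((P₀.2.card_eq_or_dvd.resolve_left
      (fun e => hP₀ (Subgroup.eq_bot_of_card_eq _ e))).trans (Subgroup.card_subgroup_dvd_card _))
    have hfac : (Nat.card G).factorization p = (Nat.card H).factorization p := by
      rw [← Subgroup.card_mul_index H, Nat.factorization_mul Nat.card_pos.ne' Subgroup.index_ne_zero_of_finite,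
        Finsupp.add_apply, Nat.factorization_eq_zero_of_not_dvd (fun h => hp.ne_one
          (Nat.eq_one_of_dvd_coprimes hHall hpH h)), add_zero]
    let P : Sylow p H := default
    let S : Sylow p G := Sylow.ofCard ((P : Subgroup H).map H.subtype) (by
      rw [Subgroup.card_map_of_injective H.subtype_injective, P.card_eq_multiplicity, hfac])
    obtain ⟨T, hT⟩ := (P₀.2.map K.subtype).exists_le_sylow
    obtain ⟨g, hg⟩ := MulAction.exists_smul_eq G S T
    -- move `K` so that its Sylow subgroup lies in `H`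
    have hPg : ∀ k ∈ (P₀ : Subgroup K).map K.subtype, g⁻¹ * k * g ∈ (S : Subgroup G) := by
      intro k hk
      have h := hT hk
      rw [← hg] at h
      obtain ⟨s, hs, hsk⟩ := h
      rw [← hsk]
      show g⁻¹ * (g * s * g⁻¹) * g ∈ _
      rw [show g⁻¹ * (g * s * g⁻¹) * g = s by group]
      exact hs
    let c : G →* G := (MulAut.conj g⁻¹).toMonoidHom
    set K' := K.map c with hK'
    set A := ((P₀ : Subgroup K).map K.subtype).map c with hA
    set B := (Q₀.map K.subtype).map c with hB
    have hAS : A ≤ (S : Subgroup G) := by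
      rintro _ ⟨k, hk, rfl⟩
      show g⁻¹ * k * g⁻¹⁻¹ ∈ _
      rw [inv_inv]; exact hPg k hk
    -- the `p`-complement of `H`
    obtain ⟨H₁, hH₁⟩ := Hall.exists_isPiHall (Hall.piSep_of_isSolvable (G := H) {q | q ≠ p})
    have hH₁p : ¬ p ∣ Nat.card H₁ := fun h => hH₁.1 p hp h rfl
    set M := Subgroup.normalizer (A : Set G) with hM
    set H' := H₁.map H.subtype with hH'
    have hH'M : H' ≤ M := by
      refine Coprime.le_normalizer_of_conj_mem ?_
      rintro _ ⟨h, hh, rfl⟩ a ha
      obtain ⟨s, hs, hsa⟩ := hAS ha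
      have hc : Commute h s := FrobBasic.commute_of_coprime (by
        obtain ⟨j, hj⟩ := IsPGroup.iff_orderOf.mp P.2 ⟨s, hs⟩
        rw [Subgroup.orderOf_mk] at hj
        rw [hj]
        refine Nat.Coprime.pow_right j (((Nat.Prime.coprime_iff_not_dvd hp).mpr fun hd => hH₁p ?_).symm)
        exact hd.trans (Subgroup.orderOf_dvd_natCard H₁ hh))
      have : (h : G) * a * (h : G)⁻¹ = a := by
        rw [← hsa]
        exact mul_inv_eq_iff_eq_mul.mpr (congrArg Subtype.val hc.eq)
      show (h : G) * a * (h : G)⁻¹ ∈ A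
      rw [this]; exact ha
    have hBM : B ≤ M := by
      refine Coprime.le_normalizer_of_conj_mem ?_
      rintro _ ⟨_, ⟨q, -, rfl⟩, rfl⟩ _ ⟨_, ⟨k, hk, rfl⟩, rfl⟩
      exact ⟨_, ⟨q * k * q⁻¹, hP₀n.conj_mem k hk q, rfl⟩, by simp only [map_mul, map_inv]⟩
    have hBcard : Nat.card B = Nat.card Q₀ := by
      rw [hB, Subgroup.card_map_of_injective (MulAut.conj g⁻¹).injective,
        Subgroup.card_map_of_injective K.subtype_injective]
    have hQn : Nat.card (B.subgroupOf M) < n := by
      rw [Nat.card_congr (Subgroup.subgroupOfEquivOfLe hBM).toEquiv, hBcard, ← hn, ← hQ₀.card_mul]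
      haveI : Nontrivial (P₀ : Subgroup K) := (Subgroup.nontrivial_iff_ne_bot _).mpr hP₀
      exact lt_mul_left Nat.card_pos Finite.one_lt_card
    haveI : Group.IsNilpotent H' := Group.nilpotent_of_surjective
      ((H₁.equivMapOfInjective H.subtype H.subtype_injective).toMonoidHom) (MulEquiv.surjective _)
    have hH'hall : (Nat.card (H'.subgroupOf M)).Coprime (H'.subgroupOf M).index := by
      rw [Nat.card_congr (Subgroup.subgroupOfEquivOfLe hH'M).toEquiv, hH',
        Subgroup.card_map_of_injective H.subtype_injective]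
      refine Nat.coprime_of_dvd fun r hr h1 h2 => ?_
      have hrne : r ≠ p := fun e => hH₁p (e ▸ h1)
      have h3 : r ∣ H'.index := h2.trans (Subgroup.relIndex_dvd_index_of_le hH'M)
      rw [hH', Subgroup.index_map_subtype] at h3
      rcases hr.dvd_mul.mp h3 with h | h
      · exact hH₁.2 r hr hrne h
      · exact hr.ne_one (Nat.eq_one_of_dvd_coprimes hHall (h1.trans (Subgroup.card_subgroup_dvd_card H₁)) h)
    obtain ⟨m, hm⟩ := ih _ hQn M (H'.subgroupOf M) (B.subgroupOf M) rfl
      (Group.nilpotent_of_surjective (Subgroup.subgroupOfEquivOfLe hH'M).symm.toMonoidHom (MulEquiv.surjective _))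
      hH'hall (by
        intro r hr hd
        rw [Nat.card_congr (Subgroup.subgroupOfEquivOfLe hBM).toEquiv, hBcard] at hd
        rw [Nat.card_congr (Subgroup.subgroupOfEquivOfLe hH'M).toEquiv, hH',
          Subgroup.card_map_of_injective H.subtype_injective]
        have hrne : r ≠ p := fun e => hp.not_dvd_one <| by
          have h1 : p ∣ (P₀ : Subgroup K).index := by rw [hQ₀.symm.index_eq_card]; exact e ▸ hd
          exact absurd h1 P₀.not_dvd_index
        have h1 : r ∣ Nat.card H := hK r hr (hd.trans (Subgroup.card_subgroup_dvd_card Q₀))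
        rw [← Subgroup.card_mul_index H₁] at h1
        exact (hr.dvd_mul.mp h1).resolve_right fun h => hH₁.2 r hr hrne h)
    refine ⟨g * (m : G), ?_⟩
    intro k hk
    obtain ⟨⟨a, b⟩, hab⟩ := hQ₀.2 ⟨k, hk⟩
    have hk' : k = ((a : K) : G) * ((b : K) : G) := congrArg Subtype.val hab.symm
    have hca : c ((a : K) : G) ∈ A := ⟨_, ⟨a, a.2, rfl⟩, rfl⟩
    have hcb : c ((b : K) : G) ∈ B := ⟨_, ⟨b, b.2, rfl⟩, rfl⟩
    have h1 : (m : G)⁻¹ * c ((a : K) : G) * (m : G) ∈ H := by
      have := (Coprime.conj_mem_iff (Subgroup.inv_mem _ m.2)).mpr hca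
      rw [inv_inv] at this
      exact Subgroup.map_subtype_le _ (hAS this)
    have h2 : (m : G)⁻¹ * c ((b : K) : G) * (m : G) ∈ H :=
      Subgroup.map_subtype_le H₁ (hm ⟨_, hBM hcb⟩ hcb)
    have h3 := H.mul_mem h1 h2
    have e : (g * (m : G))⁻¹ * k * (g * m) = (m : G)⁻¹ * c ((a : K) : G) * m * ((m : G)⁻¹ * c ((b : K) : G) * m) := by
      show _ = (m : G)⁻¹ * (g⁻¹ * ((a : K) : G) * g⁻¹⁻¹) * m * ((m : G)⁻¹ * (g⁻¹ * ((b : K) : G) * g⁻¹⁻¹) * m)
      rw [hk']; group
    rw [e]; exact h3

/-- Let H be a nilpotent subgroup of a finite group G whose order is coprime to its index, and K a subgroup every prime divisor of whose order divides the order of H. Then K lies in some conjugate of H. -/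
theorem result {G : Type*} [Group G] [Finite G] (H K : Subgroup G) (hH : Group.IsNilpotent H) (hHall : (Nat.card H).Coprime H.index) (hK : ∀ p : ℕ, p.Prime → p ∣ Nat.card K → p ∣ Nat.card H) : ∃ x : G, K ≤ MulAut.conj x • H := by
  obtain ⟨x, hx⟩ := aux _ G H K rfl hH hHall hK
  exact ⟨x, fun k hk => CfsgLib.GroupB.Frobenius.mem_conj_smul_iff.mpr (hx k hk)⟩

end Cfsg.Agent.S0581
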