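import Cfsg.Statements.S0583
import Cfsg.Agent.Lib.Core
open scoped commutatorElement Pointwise

set_option autoImplicit false
open Cfsg

namespace Cfsg.Agent.S0583

/-- In a finite group the Fitting subgroup is contained in the centralizer of each minimal normal subgroup. -/
theorem result {G : Type*} [Group G] [Finite G] (M : Subgroup G) [M.Normal] (hM : M ≠ ⊥) (hmin : ∀ K : Subgroup G, K.Normal → K ≤ M → K = ⊥ ∨ K = M) : Cfsg.fittingSubgroup G ≤ Subgroup.centralizer (M : Set G) := by
  haveI hF := CfsgLib.Core.fittingSubgroup_normal (G := G)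
  have hcomm : ⁅M, Cfsg.fittingSubgroup G⁆ = ⊥ := by
    rcases hmin _ (inferInstance : (M ⊓ Cfsg.fittingSubgroup G).Normal) inf_le_left with h | h
    · exact le_bot_iff.1 ((Subgroup.commutator_le_inf M (Cfsg.fittingSubgroup G)).trans h.le)
    have hMF : M ≤ Cfsg.fittingSubgroup G := h ▸ inf_le_right
    rcases hmin _ (Subgroup.commutator_normal M (Cfsg.fittingSubgroup G)) (Subgroup.commutator_le_left M _) with h' | h'
    · exact h'
    exfalso
    haveI := CfsgLib.Core.isNilpotent_fittingSubgroup (G := G)
    have hall : ∀ n, M ≤ (Cfsg.fittingSubgroup G).lowerCentralSeries n := by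
      intro n
      induction n with
      | zero => exact hMF
      | succ n ih => rw [← h', Subgroup.lowerCentralSeries_succ]; exact Subgroup.commutator_mono ih le_rfl
    exact hM (le_bot_iff.1 ((hall _).trans (Subgroup.lowerCentralSeries_eq_bot_of_nilpotencyClass_le le_rfl).le))
  rwa [Subgroup.commutator_comm, Subgroup.commutator_eq_bot_iff_le_centralizer] at hcomm

end Cfsg.Agent.S0583
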