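import Cfsg.Statements.S0584
import Cfsg.Agent.Lib.Supersolvable.Maximal
import Cfsg.Agent.Lib.Core
open CfsgLib.Supersolvable
open scoped commutatorElement Pointwise

set_option autoImplicit false
open Cfsg

namespace Cfsg.Agent.S0584

/-- Let B ≤ A be normal subgroups of a finite group G with B contained in the Frattini subgroup of G. If A modulo B is nilpotent then A is nilpotent. -/
theorem result {G : Type*} [Group G] [Finite G] (A B : Subgroup G) [A.Normal] [B.Normal] (hBA : B ≤ A) (hB : B ≤ frattini G) (h : Group.IsNilpotent (↥A ⧸ B.subgroupOf A)) : Group.IsNilpotent A := by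
  classical
  have tA : Group.IsNilpotent ↥A ↔ ∀ (p : ℕ) (_hp : Fact p.Prime) (P : Sylow p ↥A), (↑P : Subgroup ↥A).Normal :=
    (Group.isNilpotent_of_finite_tfae (G := ↥A)).out 0 3
  have tQ : Group.IsNilpotent (↥A ⧸ B.subgroupOf A) ↔ ∀ (p : ℕ) (_hp : Fact p.Prime) (P : Sylow p (↥A ⧸ B.subgroupOf A)), (↑P : Subgroup (↥A ⧸ B.subgroupOf A)).Normal :=
    (Group.isNilpotent_of_finite_tfae (G := ↥A ⧸ B.subgroupOf A)).out 0 3
  refine tA.2 fun p hp P => ?_
  set π := QuotientGroup.mk' (B.subgroupOf A) with hπ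
  have hsurj := QuotientGroup.mk'_surjective (B.subgroupOf A)
  have hQn := (tQ.1 h) p hp (P.mapSurjective hsurj)
  set K := (((P : Subgroup ↥A).map π).comap π).map A.subtype with hK
  have hKn : K.Normal := by
    refine ⟨?_⟩
    rintro _ ⟨x, hx, rfl⟩ g
    refine ⟨⟨g * x * g⁻¹, Subgroup.Normal.conj_mem ‹A.Normal› _ x.2 g⟩, ?_, rfl⟩
    obtain ⟨k, hk⟩ := (P.mapSurjective hsurj).isPGroup' ⟨π x, by rw [Sylow.coe_mapSurjective]; exact hx⟩
    have hk' : (x : G) ^ p ^ k ∈ B := by
      have h1 : π x ^ p ^ k = 1 := congrArg Subtype.val hk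
      rw [hπ, QuotientGroup.mk'_apply, ← QuotientGroup.mk_pow, QuotientGroup.eq_one_iff, Subgroup.mem_subgroupOf] at h1
      simpa using h1
    set z : ↥A := ⟨g * x * g⁻¹, Subgroup.Normal.conj_mem ‹A.Normal› _ x.2 g⟩ with hz
    have hzk : π z ^ p ^ k = 1 := by
      rw [hπ, QuotientGroup.mk'_apply, ← QuotientGroup.mk_pow, QuotientGroup.eq_one_iff, Subgroup.mem_subgroupOf]
      rw [SubgroupClass.coe_pow, hz]
      show (g * (x : G) * g⁻¹) ^ p ^ k ∈ B
      rw [conj_pow]
      exact Subgroup.Normal.conj_mem ‹B.Normal› _ hk' g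
    have hle : Subgroup.zpowers (π z) ≤ (P.mapSurjective hsurj : Subgroup (↥A ⧸ B.subgroupOf A)) := by
      have hp' : IsPGroup p (Subgroup.zpowers (π z)) := by
        intro w
        obtain ⟨w, j, rfl⟩ := w
        refine ⟨k, Subtype.ext ?_⟩
        show (π z ^ j) ^ p ^ k = 1
        rw [← zpow_natCast, ← zpow_mul, mul_comm, zpow_mul, zpow_natCast, hzk, one_zpow]
      obtain ⟨Q, hQ⟩ := hp'.exists_le_sylow
      letI := Sylow.unique_of_normal (P.mapSurjective hsurj) hQn
      rwa [Subsingleton.elim Q (P.mapSurjective hsurj)] at hQ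
    have := hle (Subgroup.mem_zpowers (π z))
    rwa [Sylow.coe_mapSurjective] at this
  have hPK : (P : Subgroup ↥A).map A.subtype ≤ K := Subgroup.map_mono (Subgroup.le_comap_map _ _)
  have hKA : K ≤ A := Subgroup.map_subtype_le _
  let P' : Sylow p ↥K := (P.subtype (le_top : (P : Subgroup ↥A) ≤ ⊤)) |> fun _ => by
    refine IsPGroup.toSylow (P := ((P : Subgroup ↥A).map A.subtype).subgroupOf K) ?_ ?_
    · exact (P.isPGroup'.map A.subtype).of_equiv (Subgroup.subgroupOfEquivOfLe hPK).symm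
    · intro hd
      refine P.not_dvd_index (hd.trans ?_)
      have h1 : Nat.card ↥A = Nat.card ↥(P : Subgroup ↥A) * (P : Subgroup ↥A).index := (Subgroup.card_mul_index _).symm
      have hPc : Nat.card ↥(((P : Subgroup ↥A).map A.subtype).subgroupOf K) = Nat.card ↥(P : Subgroup ↥A) := by
        rw [Nat.card_congr (Subgroup.subgroupOfEquivOfLe hPK).toEquiv]
        exact Nat.card_congr ((P : Subgroup ↥A).equivMapOfInjective A.subtype A.subtype_injective).toEquiv.symm
      have h2 : Nat.card ↥K = Nat.card ↥(P : Subgroup ↥A) * (((P : Subgroup ↥A).map A.subtype).subgroupOf K).index := by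
        rw [← hPc, Subgroup.card_mul_index]
      obtain ⟨c, hc⟩ := Subgroup.card_dvd_of_le hKA
      refine ⟨c, Nat.eq_of_mul_eq_mul_left (Nat.card_pos (α := ↥(P : Subgroup ↥A))) ?_⟩
      rw [← mul_assoc, ← h2, ← hc, h1]
  have hP' : ((P' : Subgroup ↥K).map K.subtype) = (P : Subgroup ↥A).map A.subtype := by
    show (((P : Subgroup ↥A).map A.subtype).subgroupOf K).map K.subtype = _
    rw [Subgroup.subgroupOf_map_subtype, inf_eq_left.2 hPK]
  haveI := hKn
  have hfr := Sylow.normalizer_sup_eq_top P'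
  rw [hP'] at hfr
  set N := Subgroup.normalizer (((P : Subgroup ↥A).map A.subtype : Subgroup G) : Set G) with hN
  have hKle : K ≤ N ⊔ frattini G := by
    rintro _ ⟨x, hx, rfl⟩
    obtain ⟨y, hy, hyx⟩ := hx
    have h3 : y⁻¹ * x ∈ B.subgroupOf A := QuotientGroup.eq.1 hyx
    have h4 := Subgroup.mul_mem (N ⊔ frattini G) (Subgroup.mem_sup_left (Subgroup.le_normalizer (Subgroup.mem_map_of_mem A.subtype hy)))
      (Subgroup.mem_sup_right (hB (Subgroup.mem_subgroupOf.1 h3)))
    simpa using h4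
  have htop : N = ⊤ := frattini_nongenerating (top_le_iff.1 (hfr.ge.trans (sup_le le_sup_left hKle)))
  haveI : ((P : Subgroup ↥A).map A.subtype).Normal := Subgroup.normalizer_eq_top_iff.1 htop
  have := Subgroup.Normal.subgroupOf (inferInstance : ((P : Subgroup ↥A).map A.subtype).Normal) A
  rwa [Subgroup.subgroupOf, Subgroup.comap_map_eq_self_of_injective A.subtype_injective] at this

end Cfsg.Agent.S0584
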