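import Cfsg.Statements.S0585
import Cfsg.Agent.Lib.Core
open scoped commutatorElement Pointwise

set_option autoImplicit false
open Cfsg

namespace Cfsg.Agent.S0585

/-- If the Frattini subgroup of a finite group G is trivial, then every abelian normal subgroup of G has a complement in G. -/
theorem result {G : Type*} [Group G] [Finite G] (hΦ : frattini G = ⊥) (A : Subgroup G) [A.Normal] [IsMulCommutative A] : ∃ H : Subgroup G, Subgroup.IsComplement' A H := by
  classical
  obtain ⟨H, hH, hmin⟩ := (wellFounded_lt (α := Subgroup G)).has_min {H | A ⊔ H = ⊤} ⟨⊤, sup_top_eq _⟩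
  refine ⟨H, ?_⟩
  have hH' : A ⊔ H = ⊤ := hH
  have hd : A ⊓ H = ⊥ := by
    haveI : (A ⊓ H).Normal := by
      refine ⟨fun d hd g => ?_⟩
      obtain ⟨a, ha, h, hh, rfl⟩ := Subgroup.mem_sup_of_normal_left.1 (hH'.ge (Subgroup.mem_top g))
      have h1 : h * d * h⁻¹ ∈ A ⊓ H := ⟨Subgroup.Normal.conj_mem ‹A.Normal› d hd.1 h, H.mul_mem (H.mul_mem hh hd.2) (H.inv_mem hh)⟩
      have h2 : a * h * d * (a * h)⁻¹ = h * d * h⁻¹ := by
        have := congrArg Subtype.val (mul_comm' (⟨a, ha⟩ : A) ⟨_, h1.1⟩)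
        calc a * h * d * (a * h)⁻¹ = (a * (h * d * h⁻¹)) * a⁻¹ := by group
          _ = (h * d * h⁻¹ * a) * a⁻¹ := by rw [show a * (h * d * h⁻¹) = h * d * h⁻¹ * a from this]
          _ = _ := by group
      rw [h2]; exact h1
    by_contra hne
    have : ¬ A ⊓ H ≤ frattini G := by rw [hΦ]; exact fun h => hne (le_bot_iff.1 h)
    obtain ⟨M, hM, hM'⟩ : ∃ M : Subgroup G, IsCoatom M ∧ ¬ A ⊓ H ≤ M := by
      by_contra hh
      push_neg at hh
      exact this (le_iInf fun M => le_iInf fun hM => hh M hM)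
    have htop : A ⊓ H ⊔ M = ⊤ := hM.2 _ (lt_of_le_of_ne le_sup_right (fun he => hM' (le_sup_left.trans he.ge)))
    refine hmin (H ⊓ M) ?_ (lt_of_le_of_ne inf_le_left (fun he => hM' (inf_le_right.trans (inf_eq_left.1 he))))
    show A ⊔ H ⊓ M = ⊤
    rw [eq_top_iff, ← hH']
    refine sup_le le_sup_left fun x hx => ?_
    obtain ⟨d, hd, m, hm, rfl⟩ := Subgroup.mem_sup_of_normal_left.1 (htop.ge (Subgroup.mem_top x))
    refine Subgroup.mul_mem _ (Subgroup.mem_sup_left hd.1) (Subgroup.mem_sup_right ⟨?_, hm⟩)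
    have := H.mul_mem (H.inv_mem hd.2) hx
    rwa [inv_mul_cancel_left] at this
  exact Subgroup.isComplement'_of_disjoint_and_mul_eq_univ (disjoint_iff.2 hd) (by rw [← Subgroup.normal_mul, hH']; rfl)

end Cfsg.Agent.S0585
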