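import Cfsg.Statements.S0586
import Cfsg.Agent.Lib.Solvable.Frattini
import Cfsg.Agent.Lib.Core
import Cfsg.Agent.Lib.LocalBasic
open CfsgLib.Solvable
open scoped commutatorElement

set_option autoImplicit false
open Cfsg

namespace Cfsg.Agent.S0586

/-- If the Frattini subgroup of a finite group G is trivial, then the Fitting subgroup of G equals the join of all abelian minimal normal subgroups of G. -/
theorem result {G : Type*} [Group G] [Finite G] (hΦ : frattini G = ⊥) : Cfsg.fittingSubgroup G = sSup {N : Subgroup G | N.Normal ∧ N ≠ ⊥ ∧ IsMulCommutative N ∧ ∀ K : Subgroup G, K.Normal → K ≤ N → K = ⊥ ∨ K = N} := by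
  classical
  set S := {N : Subgroup G | N.Normal ∧ N ≠ ⊥ ∧ IsMulCommutative N ∧ ∀ K : Subgroup G, K.Normal → K ≤ N → K = ⊥ ∨ K = N}
  set F := Cfsg.fittingSubgroup G with hF
  have hFn : F.Normal := CfsgLib.Core.fittingSubgroup_normal
  have hge : sSup S ≤ F := sSup_le fun N hN => CfsgLib.Core.le_fittingSubgroup hN.1 (by
    have := hN.2.2.1
    exact @CommGroup.isNilpotent N { (inferInstance : Group N) with mul_comm := fun a b => this.is_comm.comm a b })
  have hFab : ∀ x ∈ F, ∀ y ∈ F, x * y = y * x := fun x hx y hy => by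
    have h := commutator_le_frattini (F := F) CfsgLib.Core.isNilpotent_fittingSubgroup (Subgroup.commutator_mem_commutator hx hy)
    rw [hΦ, Subgroup.mem_bot, commutatorElement_eq_one_iff_mul_comm] at h
    exact h
  refine le_antisymm ?_ hge
  have hAn : (sSup S).Normal := by
    refine ⟨fun x hx g => ?_⟩
    rw [sSup_eq_iSup'] at hx
    induction hx using Subgroup.iSup_induction' generalizing g with
    | hp N x hx => exact le_sSup N.2 (N.2.1.conj_mem x hx g)
    | h1 => simp
    | hmul a b _ _ ia ib =>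
      have e : g * (a * b) * g⁻¹ = (g * a * g⁻¹) * (g * b * g⁻¹) := by group
      rw [e]; exact mul_mem (ia g) (ib g)
  obtain ⟨U, hU, hUA⟩ := exists_complement_of_frattini_bot hΦ (sSup S) fun x hx y hy => hFab x (hge hx) y (hge hy)
  have hFU : F ⊓ U = ⊥ := by
    by_contra hne
    have hn : (F ⊓ U).Normal := by
      rw [← Subgroup.normalizer_eq_top_iff, eq_top_iff, ← hU]
      refine sup_le ?_ ?_
      · exact le_trans (fun a ha => Subgroup.mem_centralizer_iff.mpr fun x hx => hFab x hx.1 a (hge ha))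
          (Subgroup.centralizer_le_normalizer _)
      · exact CfsgLib.LocalBasic.normalizer_inf_ge (le_top.trans (Subgroup.normalizer_eq_top_iff.mpr hFn).ge) Subgroup.le_normalizer
    obtain ⟨N, hNle, ⟨hNn, hN0⟩, hNmin⟩ := exists_minimal_le_of_wellFoundedLT
      (fun N : Subgroup G => N.Normal ∧ N ≠ ⊥) (F ⊓ U) ⟨hn, hne⟩
    have hNS : N ∈ S := ⟨hNn, hN0, ⟨⟨fun a b => Subtype.ext (hFab a (hNle a.2).1 b (hNle b.2).1)⟩⟩, fun K hK hKN =>
      or_iff_not_imp_left.mpr fun hK0 => le_antisymm hKN (hNmin ⟨hK, hK0⟩ hKN)⟩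
    exact hN0 (le_bot_iff.mp (hUA ▸ le_inf (le_sSup hNS) (hNle.trans inf_le_right)))
  intro f hf
  have := hAn
  obtain ⟨a, ha, u, hu, e⟩ := Subgroup.mem_sup_of_normal_left.mp (hU ▸ Subgroup.mem_top f : f ∈ sSup S ⊔ U)
  have hu' : u ∈ F ⊓ U := ⟨(F.mul_mem_cancel_left (hge ha)).mp (e ▸ hf), hu⟩
  rw [hFU, Subgroup.mem_bot] at hu'
  rw [← e, hu', mul_one]
  exact ha

end Cfsg.Agent.S0586
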