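import Cfsg.Statements.S0587
import Cfsg.Agent.Lib.Core
import Cfsg.Agent.Lib.LocalBasic
open scoped commutatorElement Pointwise

set_option autoImplicit false
open Cfsg
open CfsgLib

namespace Cfsg.Agent.S0587

/-- Let G be a finite group whose largest normal p-subgroup L is nontrivial, and M a maximal subgroup of G with trivial normal core. Then L is elementary abelian, M is a complement to L, L is a minimal normal subgroup of G, the centralizer of L is L, and for every prime q such that the largest normal q-subgroup of M is nontrivial, the order of L is congruent to 1 modulo q and q ≠ p. -/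
theorem result {G : Type*} [Group G] [Finite G] (p : ℕ) [Fact p.Prime] (hL : Cfsg.pCore p G ≠ ⊥) (M : Subgroup G) (hM : IsCoatom M) (hcore : M.normalCore = ⊥) : Cfsg.IsElementaryAbelian p (Cfsg.pCore p G) ∧ Subgroup.IsComplement' (Cfsg.pCore p G) M ∧ (∀ K : Subgroup G, K.Normal → K ≤ Cfsg.pCore p G → K = ⊥ ∨ K = Cfsg.pCore p G) ∧ Subgroup.centralizer ((Cfsg.pCore p G : Subgroup G) : Set G) = Cfsg.pCore p G ∧ ∀ (q : ℕ) [Fact q.Prime], Cfsg.pCore q ↥M ≠ ⊥ → Nat.card (Cfsg.pCore p G) % q = 1 % q ∧ q ≠ p := by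
  classical
  set L := Cfsg.pCore p G with hLdef
  have hLn : L.Normal := (have := Core.pCore_characteristic (G := G) p; inferInstance)
  have hLp : IsPGroup p L := Core.isPGroup_pCore p
  have hnormal : ∀ X Y : Subgroup G, Y ⊔ M = ⊤ → Y ≤ Subgroup.normalizer (X : Set G) →
      M ≤ Subgroup.normalizer (X : Set G) → X.Normal := fun X Y h h1 h2 =>
    Subgroup.normalizer_eq_top_iff.mp (eq_top_iff.mpr (h.ge.trans (sup_le h1 h2)))
  have hMcore : ∀ X : Subgroup G, X.Normal → X ≤ M → X = ⊥ := fun X hX h =>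
    le_bot_iff.mp (hcore ▸ (Subgroup.normal_le_normalCore.mpr h))
  have hgen : ∀ X : Subgroup G, X.Normal → X ≠ ⊥ → X ⊔ M = ⊤ := fun X hX h =>
    hM.2 _ (lt_of_le_of_ne le_sup_right fun e => h (hMcore X hX (e.symm ▸ le_sup_left)))
  have := hLn
  have : Nontrivial L := (Subgroup.nontrivial_iff_ne_bot L).mpr hL
  have hzne : Subgroup.center L ≠ ⊥ := hLp.bot_lt_center.ne'
  set Z := (Subgroup.center L).map L.subtype with hZ
  set A := Subgroup.closure {x : G | x ∈ Z ∧ x ^ p = 1} with hA
  have hZn : Z.Normal := inferInstance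
  have hAn : A.Normal := by
    refine ⟨fun x hx g => ?_⟩
    induction hx using Subgroup.closure_induction with
    | mem y hy => exact Subgroup.subset_closure ⟨hZn.conj_mem y hy.1 g, by rw [conj_pow, hy.2]; group⟩
    | one => simp
    | mul a b ha hb ia ib =>
      have e : g * (a * b) * g⁻¹ = (g * a * g⁻¹) * (g * b * g⁻¹) := by group
      rw [e]; exact mul_mem ia ib
    | inv a ha ia =>
      have e : g * a⁻¹ * g⁻¹ = (g * a * g⁻¹)⁻¹ := by group
      rw [e]; exact inv_mem ia
  have hAZ : A ≤ Z := (Subgroup.closure_le _).mpr fun x hx => hx.1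
  have hAL : A ≤ L := hAZ.trans (Subgroup.map_subtype_le _)
  have hcentral : ∀ a ∈ A, ∀ l ∈ L, l * a = a * l := fun a ha l hl => by
    obtain ⟨z, hz, rfl⟩ := hAZ ha
    exact congrArg Subtype.val (Subgroup.mem_center_iff.mp hz ⟨l, hl⟩)
  have hAne : A ≠ ⊥ := by
    intro hbot
    obtain ⟨⟨z, hz⟩, hne⟩ := Subgroup.ne_bot_iff_exists_ne_one.mp hzne
    obtain ⟨k, hk, hk'⟩ : ∃ k, 0 < k ∧ orderOf z = p ^ k := by
      obtain ⟨k, hk⟩ := IsPGroup.iff_orderOf.mp hLp z
      refine ⟨k, Nat.pos_of_ne_zero fun h0 => hne (Subtype.ext ?_), hk⟩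
      exact orderOf_eq_one_iff.mp (by rw [hk, h0, pow_zero])
    have h2 : ((z ^ (p ^ (k - 1)) : L) : G) ∈ A := Subgroup.subset_closure
      ⟨Subgroup.mem_map_of_mem _ (pow_mem hz _), by
        rw [← Subgroup.coe_pow, ← pow_mul, ← pow_succ, Nat.sub_add_cancel hk, ← hk', pow_orderOf_eq_one,
          Subgroup.coe_one]⟩
    rw [hbot, Subgroup.mem_bot, OneMemClass.coe_eq_one] at h2
    have h3 := orderOf_dvd_of_pow_eq_one h2
    rw [hk'] at h3
    have := (Nat.pow_dvd_pow_iff_le_right (Fact.out : p.Prime).one_lt).mp h3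
    omega
  have hAel : Cfsg.IsElementaryAbelian p A := by
    refine ⟨⟨⟨fun a b => Subtype.ext (hcentral b b.2 a (hAL a.2))⟩⟩, fun a ha => ?_⟩
    induction ha using Subgroup.closure_induction with
    | mem y hy => exact hy.2
    | one => exact one_pow p
    | mul a b ha hb ia ib =>
      rw [(show Commute a b from (hcentral a ha b (hAL hb)).symm).mul_pow, ia, ib, one_mul]
    | inv a ha ia => rw [inv_pow, ia, inv_one]
  have hsupA := hgen A hAn hAne
  have hLcent : L ≤ Subgroup.centralizer (A : Set G) := fun l hl =>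
    Subgroup.mem_centralizer_iff.mpr fun a ha => (hcentral a ha l hl).symm
  have hAcent : A ≤ Subgroup.centralizer (A : Set G) := hAL.trans hLcent
  have hCA : Subgroup.centralizer (A : Set G) ⊓ M = ⊥ := by
    refine hMcore _ (hnormal _ A hsupA ?_ ?_) inf_le_right
    · refine le_trans ?_ (Subgroup.centralizer_le_normalizer _)
      exact fun a ha => Subgroup.mem_centralizer_iff.mpr fun c hc =>
        (Subgroup.mem_centralizer_iff.mp hc.1 a ha).symm
    · refine LocalBasic.normalizer_inf_ge ?_ Subgroup.le_normalizer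
      exact le_top.trans (Subgroup.normalizer_eq_top_iff.mpr inferInstance).ge
  have hdec : ∀ g : G, ∃ a ∈ A, ∃ m ∈ M, g = a * m := fun g => by
    have := hAn
    obtain ⟨a, ha, m, hm, e⟩ := Subgroup.mem_sup_of_normal_left.mp (hsupA ▸ Subgroup.mem_top g : g ∈ A ⊔ M)
    exact ⟨a, ha, m, hm, e.symm⟩
  have hCle : Subgroup.centralizer (A : Set G) = A := by
    refine le_antisymm (fun c hc => ?_) hAcent
    obtain ⟨a, ha, m, hm, rfl⟩ := hdec c
    have : m ∈ Subgroup.centralizer (A : Set G) ⊓ M := ⟨by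
      have := mul_mem (inv_mem (hAcent ha)) hc
      rwa [inv_mul_cancel_left] at this, hm⟩
    rw [hCA, Subgroup.mem_bot] at this
    rw [this, mul_one]
    exact ha
  have hLA : L = A := le_antisymm (hLcent.trans hCle.le) hAL
  have hCL : Subgroup.centralizer (L : Set G) = L := by rw [hLA, hCle]
  have hLM : L ⊓ M = ⊥ := by rw [← hCL]; rw [hLA]; exact hCA
  refine ⟨hLA ▸ hAel, ?_, ?_, hCL, ?_⟩
  · refine Subgroup.isComplement'_of_disjoint_and_mul_eq_univ (disjoint_iff.mpr hLM) ?_
    rw [← Subgroup.normal_mul, hgen L hLn hL, Subgroup.coe_top]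
  · intro K hK hKL
    refine or_iff_not_imp_left.mpr fun hK0 => le_antisymm hKL fun l hl => ?_
    have := hK
    obtain ⟨k, hk, m, hm, e⟩ := Subgroup.mem_sup_of_normal_left.mp (hgen K hK hK0 ▸ Subgroup.mem_top l : l ∈ K ⊔ M)
    have hmem : m ∈ L ⊓ M := ⟨(L.mul_mem_cancel_left (hKL hk)).mp (e ▸ hl), hm⟩
    rw [hLM, Subgroup.mem_bot] at hmem
    rw [← e, hmem, mul_one]
    exact hk
  · intro q hq hQ
    set Q := (Cfsg.pCore q M).map M.subtype with hQd
    have hMQ : M ≤ Subgroup.normalizer (Q : Set G) := by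
      have := Core.pCore_characteristic (G := M) q
      have h1 := Subgroup.le_normalizer_map (H := Cfsg.pCore q M) M.subtype
      rw [Subgroup.normalizer_eq_top, ← MonoidHom.range_eq_map, Subgroup.range_subtype] at h1
      exact h1
    have hX : L ⊓ Subgroup.centralizer (Q : Set G) = ⊥ := by
      refine (fun (h : L ⊓ Subgroup.centralizer (Q : Set G) = ⊥ ∨ L ⊓ Subgroup.centralizer (Q : Set G) = L) => h.resolve_right fun e => hQ ?_) ?_
      · have h2 : Q ≤ Subgroup.centralizer (L : Set G) ⊓ M :=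
          le_inf (fun x hx => Subgroup.mem_centralizer_iff.mpr fun l hl =>
            (Subgroup.mem_centralizer_iff.mp ((e.ge.trans inf_le_right) hl) x hx).symm)
            (Subgroup.map_subtype_le _)
        rw [hCL, hLM, hQd, le_bot_iff, Subgroup.map_eq_bot_iff_of_injective _ M.subtype_injective] at h2
        exact h2
      · have hn : (L ⊓ Subgroup.centralizer (Q : Set G)).Normal := by
          refine hnormal _ L (hgen L hLn hL) ?_ ?_
          · refine le_trans ?_ (Subgroup.centralizer_le_normalizer _)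
            exact fun l hl => Subgroup.mem_centralizer_iff.mpr fun x hx =>
              Subgroup.mem_centralizer_iff.mp (hCL.ge hl) x hx.1
          · exact LocalBasic.normalizer_inf_ge (le_top.trans (Subgroup.normalizer_eq_top_iff.mpr inferInstance).ge)
              (LocalBasic.normalizer_centralizer_ge hMQ)
        refine or_iff_not_imp_left.mpr fun hne => le_antisymm inf_le_left fun l hl => ?_
        have := hn
        obtain ⟨k, hk, m, hm, e⟩ := Subgroup.mem_sup_of_normal_left.mp
          (hgen _ hn hne ▸ Subgroup.mem_top l : l ∈ _ ⊔ M)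
        have hmem : m ∈ L ⊓ M := ⟨(L.mul_mem_cancel_left hk.1).mp (e ▸ hl), hm⟩
        rw [hLM, Subgroup.mem_bot] at hmem
        rw [← e, hmem, mul_one]
        exact hk
    let act : MulAction Q L :=
      { smul := fun x l => ⟨x * l * (x : G)⁻¹, hLn.conj_mem l l.2 x⟩
        one_smul := fun l => Subtype.ext (show (1 : G) * l * (1 : G)⁻¹ = l by simp)
        mul_smul := fun x y l => Subtype.ext
          (show (x * y : G) * l * (x * y : G)⁻¹ = x * (y * l * (y : G)⁻¹) * (x : G)⁻¹ by group) }
    have hfix : Nat.card (MulAction.fixedPoints Q L) = 1 := by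
      rw [Nat.card_eq_one_iff_exists]
      refine ⟨⟨1, fun x => Subtype.ext (show (x : G) * ((1 : L) : G) * (x : G)⁻¹ = ((1 : L) : G) by simp)⟩, fun l => ?_⟩
      obtain ⟨l, hl⟩ := l
      have hmem : (l : G) ∈ L ⊓ Subgroup.centralizer (Q : Set G) := ⟨l.2,
        Subgroup.mem_centralizer_iff.mpr fun x hx => by
          have h1 : x * (l : G) * x⁻¹ = l := congrArg Subtype.val (hl ⟨x, hx⟩)
          calc x * l = x * l * x⁻¹ * x := by group
            _ = l * x := by rw [h1]⟩
      rw [hX, Subgroup.mem_bot, OneMemClass.coe_eq_one] at hmem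
      exact Subtype.ext hmem
    have hmod := ((Core.isPGroup_pCore q).map M.subtype : IsPGroup q Q).card_modEq_card_fixedPoints L
    rw [hfix] at hmod
    refine ⟨hmod, fun hqp => ?_⟩
    subst hqp
    obtain ⟨n, hn, hc⟩ := IsPGroup.nontrivial_iff_card hLp |>.mp inferInstance
    rw [Nat.ModEq, hc, Nat.one_mod_eq_one.mpr (Fact.out : q.Prime).ne_one,
      Nat.mod_eq_zero_of_dvd (dvd_pow_self q hn.ne')] at hmod
    exact zero_ne_one hmod

end Cfsg.Agent.S0587
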