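import Cfsg.Statements.S0588
import Cfsg.Agent.Lib.Core
open scoped commutatorElement Pointwise

set_option autoImplicit false
open Cfsg

namespace Cfsg.Agent.S0588

/-- If a subgroup H of a finite group G contains the centralizer of every non-identity element of H, then the order of H is coprime to its index. -/
theorem result {G : Type*} [Group G] [Finite G] (H : Subgroup G) (h : ∀ x ∈ H, x ≠ 1 → Subgroup.centralizer ({x} : Set G) ≤ H) : (Nat.card H).Coprime H.index := by
  refine Nat.coprime_of_dvd fun p hp hd hi => ?_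
  haveI := Fact.mk hp
  obtain ⟨S⟩ : Nonempty (Sylow p H) := inferInstance
  obtain ⟨T, hT⟩ := (S.isPGroup'.map H.subtype).exists_le_sylow
  obtain ⟨x, hx⟩ := exists_prime_orderOf_dvd_card' (G := H) p hd
  obtain ⟨S', hS'⟩ := (IsPGroup.of_card (p := p) (n := 1) (by rw [Nat.card_zpowers, hx, pow_one]) : IsPGroup p (Subgroup.zpowers x)).exists_le_sylow
  obtain ⟨T, hT⟩ := (S'.isPGroup'.map H.subtype).exists_le_sylow
  have hxT : (x : G) ∈ (T : Subgroup G) := hT ⟨x, hS' (Subgroup.mem_zpowers x), rfl⟩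
  have hx1 : (x : G) ≠ 1 := fun h => by
    rw [show x = 1 from Subtype.ext h, orderOf_one] at hx; exact hp.ne_one hx.symm
  haveI : Nontrivial (T : Subgroup G) := ⟨⟨⟨x, hxT⟩, 1, fun h => hx1 (congrArg Subtype.val h)⟩⟩
  haveI := T.isPGroup'.center_nontrivial
  obtain ⟨z, hz⟩ := exists_ne (1 : Subgroup.center (T : Subgroup G))
  have hz1 : ((z : (T : Subgroup G)) : G) ≠ 1 := fun h => hz (Subtype.ext (Subtype.ext h))
  have hzH : ((z : (T : Subgroup G)) : G) ∈ H := h x x.2 hx1 (Subgroup.mem_centralizer_singleton_iff.2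
    (congrArg Subtype.val (Subgroup.mem_center_iff.1 z.2 ⟨x, hxT⟩)).symm)
  have hTH : (T : Subgroup G) ≤ H := fun t ht => h _ hzH hz1 (Subgroup.mem_centralizer_singleton_iff.2
    (congrArg Subtype.val (Subgroup.mem_center_iff.1 z.2 ⟨t, ht⟩)))
  exact T.not_dvd_index (hi.trans (Subgroup.index_dvd_of_le hTH))

end Cfsg.Agent.S0588
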