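import Cfsg.Statements.S0590
import Cfsg.Agent.Lib.PLocal.Elementary
import Cfsg.Agent.Lib.LocalBasic
open CfsgLib.PLocal
open scoped commutatorElement Pointwise

set_option autoImplicit false
open Cfsg

namespace Cfsg.Agent.S0590

/-- Quadratic action on an elementary abelian p-group forces the acting group modulo the kernel of the action to be elementary abelian. -/
theorem result {G : Type*} [Group G] [Finite G] {p : ℕ} [Fact p.Prime] (V H : Subgroup G) (hV : Cfsg.IsElementaryAbelian p V) (hHV : H ≤ Subgroup.normalizer (V : Set G)) (hq : ⁅⁅V, H⁆, H⁆ = ⊥) : ⁅H, H⁆ ≤ Subgroup.centralizer (V : Set G) ∧ ∀ a ∈ H, a ^ p ∈ Subgroup.centralizer (V : Set G) := by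
  refine ⟨?_, fun a ha => ?_⟩
  · rw [← Subgroup.commutator_eq_bot_iff_le_centralizer]
    refine Subgroup.commutator_commutator_eq_bot_of_rotate ?_ ?_
    · rw [Subgroup.commutator_comm H V]; exact hq
    · exact hq
  · rw [Subgroup.mem_centralizer_iff]
    intro v hv
    set h := a * v * a⁻¹ * v⁻¹ with hh
    have hhV : h ∈ V := V.mul_mem ((Subgroup.mem_normalizer_iff.1 (hHV ha) v).1 hv) (V.inv_mem hv)
    have hah : a * h = h * a := by
      have : ⁅⁅v, a⁆, a⁆ = 1 := by
        have := Subgroup.commutator_mem_commutator (Subgroup.commutator_mem_commutator hv ha) ha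
        rwa [hq, Subgroup.mem_bot] at this
      have h1 := (commutatorElement_eq_one_iff_mul_comm.1 this).symm
      have h2 : ⁅v, a⁆ = h⁻¹ := by rw [hh]; group
      rw [h2] at h1
      have h3 := (show Commute a h⁻¹ from h1).inv_right
      rw [inv_inv] at h3
      exact h3
    have key : ∀ n : ℕ, a ^ n * v * (a ^ n)⁻¹ = h ^ n * v := by
      intro n
      induction n with
      | zero => simp
      | succ n ih =>
        calc a ^ (n + 1) * v * (a ^ (n + 1))⁻¹ = a * (a ^ n * v * (a ^ n)⁻¹) * a⁻¹ := by rw [pow_succ']; group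
          _ = (a * h ^ n) * v * a⁻¹ := by rw [ih]; group
          _ = (h ^ n * a) * v * a⁻¹ := by rw [(Commute.pow_right (show Commute a h from hah) n).eq]
          _ = h ^ n * (a * v * a⁻¹ * v⁻¹) * v := by group
          _ = h ^ (n + 1) * v := by rw [← hh, pow_succ]
    have := key p
    rw [hV.2 h hhV, one_mul, mul_inv_eq_iff_eq_mul] at this
    exact this.symm

end Cfsg.Agent.S0590
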