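import Cfsg.Statements.S0591
import Cfsg.Agent.Lib.PLocal.Elementary
import Cfsg.Agent.Lib.LocalBasic
open CfsgLib.PLocal
open scoped commutatorElement Pointwise

set_option autoImplicit false
open Cfsg

namespace Cfsg.Agent.S0591

/-- For a quadratically acting element a on an elementary abelian p-group V, the fixed points C_V(a) have order at least the square root of the order of V. -/
theorem result {G : Type*} [Group G] [Finite G] {p : ℕ} [Fact p.Prime] (V : Subgroup G) (hV : Cfsg.IsElementaryAbelian p V) (a : G) (ha : a ∈ Subgroup.normalizer (V : Set G)) (hq : ⁅⁅V, Subgroup.zpowers a⁆, Subgroup.zpowers a⁆ = ⊥) : Nat.card V ≤ Nat.card ↥(V ⊓ Subgroup.centralizer (Subgroup.zpowers a : Set G)) ^ 2 := by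
  have hVc : ∀ x ∈ V, ∀ y ∈ V, x * y = y * x := fun x hx y hy => by
    haveI := hV.1
    exact congrArg Subtype.val (mul_comm' (⟨x, hx⟩ : V) ⟨y, hy⟩)
  have hn : ∀ v ∈ V, a * v * a⁻¹ ∈ V := fun v hv => (Subgroup.mem_normalizer_iff.1 ha v).1 hv
  let φ : V →* V := MonoidHom.mk' (fun v => ⟨a * v * a⁻¹ * (v : G)⁻¹, V.mul_mem (hn v v.2) (V.inv_mem v.2)⟩) (fun x y => by
    apply Subtype.ext
    show a * ((x : G) * y) * a⁻¹ * ((x : G) * y)⁻¹ = a * x * a⁻¹ * (x : G)⁻¹ * (a * y * a⁻¹ * (y : G)⁻¹)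
    calc a * ((x : G) * y) * a⁻¹ * ((x : G) * y)⁻¹ = a * x * a⁻¹ * ((a * y * a⁻¹ * (y : G)⁻¹) * (x : G)⁻¹) := by group
      _ = a * x * a⁻¹ * ((x : G)⁻¹ * (a * y * a⁻¹ * (y : G)⁻¹)) := by
            rw [hVc _ (V.mul_mem (hn y y.2) (V.inv_mem y.2)) _ (V.inv_mem x.2)]
      _ = _ := by group)
  set C := V ⊓ Subgroup.centralizer (Subgroup.zpowers a : Set G)
  have hC : ∀ x : G, a * x = x * a → x ∈ V → x ∈ C := fun x hx hxV => ⟨hxV, Subgroup.mem_centralizer_iff.2 (by
    rintro _ ⟨k, rfl⟩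
    exact (Commute.zpow_left (show Commute a x from hx) k).eq)⟩
  have h1 : Nat.card φ.ker ≤ Nat.card C := by
    refine Nat.card_le_card_of_injective (fun x => ⟨((x : V) : G), hC _ ?_ (x : V).2⟩) (fun x y h => Subtype.ext (Subtype.ext (by simpa using h)))
    have := congrArg Subtype.val x.2
    exact (mul_inv_eq_iff_eq_mul.1 (mul_inv_eq_one.1 this))
  have h2 : Nat.card φ.range ≤ Nat.card C := by
    refine Nat.card_le_card_of_injective (fun x => ⟨((x : V) : G), hC _ ?_ (x : V).2⟩) (fun x y h => Subtype.ext (Subtype.ext (by simpa using h)))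
    obtain ⟨⟨v, hv⟩, hv'⟩ := x.2
    rw [← hv']
    show a * (a * v * a⁻¹ * v⁻¹) = (a * v * a⁻¹ * v⁻¹) * a
    have hq' : ⁅⁅v, a⁆, a⁆ = 1 := by
      have := Subgroup.commutator_mem_commutator (Subgroup.commutator_mem_commutator hv (Subgroup.mem_zpowers a)) (Subgroup.mem_zpowers a)
      rwa [hq, Subgroup.mem_bot] at this
    have h3 : Commute ⁅v, a⁆ a := commutatorElement_eq_one_iff_mul_comm.1 hq'
    rw [show a * v * a⁻¹ * v⁻¹ = ⁅v, a⁆⁻¹ by group]
    exact h3.inv_left.symm.eq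
  calc Nat.card V = Nat.card φ.ker * Nat.card φ.range := by
        rw [← Subgroup.index_ker, Subgroup.card_mul_index]
    _ ≤ _ := by rw [pow_two]; exact Nat.mul_le_mul h1 h2

end Cfsg.Agent.S0591
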