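import Cfsg.Statements.S0592
import Cfsg.Agent.Lib.Dickson.Section

set_option autoImplicit false
open Cfsg

namespace Cfsg.Agent.S0592

open scoped commutatorElement

/-- The tautological representation. -/
def ρ₀ {K : Type*} [Field K] {W : Type*} [AddCommGroup W] [Module K W] (H : Subgroup (W ≃ₗ[K] W)) :
    ↥H →* Module.End K W where
  toFun x := ((x : W ≃ₗ[K] W) : W →ₗ[K] W)
  map_one' := rfl
  map_mul' _ _ := rfl

theorem exists_eigen {K : Type*} [Field K] [Fintype K] {V : Type*} [AddCommGroup V] [Module K V]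
    (T : Module.End K V) {v : V} (hv0 : v ≠ 0) (hv : (T ^ (Fintype.card K - 1)) v = v) :
    ∃ (l : K) (u : V), u ≠ 0 ∧ T u = l • u := by
  classical
  have hq : 1 < Fintype.card K := Fintype.one_lt_card
  have hprod : (Polynomial.aeval T) (Finset.univ.prod fun a : K => Polynomial.X - Polynomial.C a) v = 0 := by
    have h0 : (Polynomial.X ^ Fintype.card K - Polynomial.X : Polynomial K) =
        Finset.univ.prod fun a : K => Polynomial.X - Polynomial.C a := by
      have h := Polynomial.C_leadingCoeff_mul_prod_multiset_X_sub_C (p := (Polynomial.X ^ Fintype.card K - Polynomial.X : Polynomial K)) (by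
        rw [FiniteField.roots_X_pow_card_sub_X, FiniteField.X_pow_card_sub_X_natDegree_eq K hq]; rfl)
      rw [FiniteField.roots_X_pow_card_sub_X] at h
      have hm : (Polynomial.X ^ Fintype.card K - Polynomial.X : Polynomial K).leadingCoeff = 1 :=
        Polynomial.Monic.leadingCoeff (Polynomial.monic_X_pow_sub (Polynomial.degree_X.trans_lt (by exact_mod_cast hq)))
      rw [hm, Polynomial.C_1, one_mul] at h
      exact h.symm
    rw [← h0, map_sub, map_pow, Polynomial.aeval_X, LinearMap.sub_apply, sub_eq_zero,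
      show Fintype.card K = Fintype.card K - 1 + 1 by omega, pow_succ', Module.End.mul_apply, hv]
  have key : ∀ s : Finset K, (Polynomial.aeval T) (s.prod fun a : K => Polynomial.X - Polynomial.C a) v = 0 →
      ∃ (l : K) (u : V), u ≠ 0 ∧ T u = l • u := by
    intro s
    induction s using Finset.induction_on with
    | empty => intro h; simp at h; exact absurd h hv0
    | insert a s has ih =>
      intro h
      rw [Finset.prod_insert has, map_mul, Module.End.mul_apply] at h
      by_cases h0 : (Polynomial.aeval T) (s.prod fun a : K => Polynomial.X - Polynomial.C a) v = 0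
      · exact ih h0
      · refine ⟨a, _, h0, ?_⟩
        rw [map_sub, Polynomial.aeval_X, Polynomial.aeval_C, LinearMap.sub_apply, sub_eq_zero] at h
        rw [h]; simp
  exact key _ hprod

/-- Two quadratically acting generators of a linear group that is not a p-group, with the p'-part of the order of their product dividing q - 1, give a homomorphism onto a subgroup of SL(2, q) that is not a p-group. -/
theorem result {K : Type*} [Field K] [Fintype K] {p : ℕ} [Fact p.Prime] [CharP K p] {W : Type*} [AddCommGroup W] [Module K W] [FiniteDimensional K W] [Finite W] [Nontrivial W] (H : Subgroup (W ≃ₗ[K] W)) (a b : W ≃ₗ[K] W) (hH : H = Subgroup.closure {a, b}) (ha : ∀ w : W, a (a w - w) = a w - w) (hb : ∀ w : W, b (b w - w) = b w - w) (hnp : ¬ IsPGroup p H) (hk : ∃ e k : ℕ, orderOf (a * b) = p ^ e * k ∧ k ∣ Fintype.card K - 1) : ∃ φ : H →* Matrix.SpecialLinearGroup (Fin 2) K, ¬ IsPGroup p φ.range := by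
  have hp2' : ∀ x : ↥H, (ρ₀ H x : Module.End K W) = ((x : W ≃ₗ[K] W) : W →ₗ[K] W) := fun _ => rfl
  have hmem : a ∈ H ∧ b ∈ H := by
    rw [hH]; exact ⟨Subgroup.subset_closure (Or.inl rfl), Subgroup.subset_closure (Or.inr rfl)⟩
  set a' : ↥H := ⟨a, hmem.1⟩
  set b' : ↥H := ⟨b, hmem.2⟩
  have hgen : Subgroup.closure ({a', b'} : Set ↥H) = ⊤ := by
    refine Subgroup.map_injective H.subtype_injective ?_
    rw [MonoidHom.map_closure, ← MonoidHom.range_eq_map, Subgroup.range_subtype, Set.image_pair]
    exact hH.symm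
  haveI : Finite (W ≃ₗ[K] W) := Finite.of_injective _ DFunLike.coe_injective
  have hnp' : ¬ CfsgLib.Dickson.PImage p (ρ₀ H) := fun h => hnp fun x => by
    obtain ⟨n, hn⟩ := h x
    exact ⟨n, Subtype.ext (LinearEquiv.ext fun w => LinearMap.congr_fun hn w)⟩
  obtain ⟨V, _, _, _, π, hirr, hnpπ, hker, hquad, -⟩ := CfsgLib.Dickson.exists_irreducible p _ W le_rfl (ρ₀ H) hnp'
  have hqa := hquad a' (LinearMap.ext fun w => by
    show a (a w - w) - (a w - w) = 0
    rw [ha, sub_self])
  have hqb := hquad b' (LinearMap.ext fun w => by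
    show b (b w - w) - (b w - w) = 0
    rw [hb, sub_self])
  set A := π a' - 1 with hA
  set B := π b' - 1 with hB
  haveI : Nontrivial V := by
    by_contra hsub
    rw [not_nontrivial_iff_subsingleton] at hsub
    exact hnpπ fun g => ⟨0, LinearMap.ext fun x => Subsingleton.elim _ _⟩
  obtain ⟨e, k, hek, hkq⟩ := hk
  set T := π (a' * b') with hT
  have hTpow : T ^ ((Fintype.card K - 1) * p ^ e) = 1 := by
    obtain ⟨c, hc⟩ := hkq
    rw [hc, mul_comm, ← mul_assoc, pow_mul, hT, ← map_pow, hker _ ?_, one_pow]
    refine LinearMap.ext fun w => ?_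
    have h : (a * b) ^ (p ^ e * k) = 1 := hek ▸ pow_orderOf_eq_one _
    have h' : (((a' * b') ^ (p ^ e * k) : ↥H) : W ≃ₗ[K] W) = 1 := by rw [SubgroupClass.coe_pow]; exact h
    show (((a' * b') ^ (p ^ e * k) : ↥H) : W ≃ₗ[K] W) w = w
    rw [h']; rfl
  haveI : CharP (Module.End K V) p := charP_of_injective_algebraMap (algebraMap K (Module.End K V)).injective p
  obtain ⟨v, hv0, hv⟩ : ∃ v : V, v ≠ 0 ∧ (T ^ (Fintype.card K - 1)) v = v := by
    by_contra hall
    push Not at hall
    have hinj : Function.Injective ((T ^ (Fintype.card K - 1) - 1 : Module.End K V)) := by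
      rw [← LinearMap.ker_eq_bot, LinearMap.ker_eq_bot']
      intro x hx
      by_contra hx0
      exact hall x hx0 (sub_eq_zero.mp hx)
    have h0 : (T ^ (Fintype.card K - 1) - 1) ^ p ^ e = 0 := by
      rw [sub_pow_char_pow_of_commute (p := p) e (Commute.one_right _), ← pow_mul, hTpow, one_pow, sub_self]
    have : Function.Injective (((T ^ (Fintype.card K - 1) - 1) ^ p ^ e : Module.End K V)) := by
      rw [Module.End.coe_pow]; exact hinj.iterate _
    rw [h0] at this
    obtain ⟨x, hx⟩ := exists_ne (0 : V)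
    exact hx (this (show (0 : Module.End K V) x = (0 : Module.End K V) 0 by simp))
  obtain ⟨l, u, hu0, hu⟩ := exists_eigen T hv0 hv
  have hl : l ≠ 0 := by
    intro h0
    rw [h0, zero_smul] at hu
    have h : (π (a' * b')⁻¹) (T u) = u := by
      rw [hT]
      show (π (a' * b')⁻¹ * π (a' * b')) u = u
      rw [← map_mul, inv_mul_cancel, map_one]; rfl
    rw [hu, map_zero] at h
    exact hu0 h.symm
  set C := A * B + B * A with hC
  have hsum : T + π (a' * b')⁻¹ = 2 + C := by
    have hinv : ∀ (x : ↥H), (π x - 1) * (π x - 1) = 0 → π x⁻¹ = 2 - π x := fun x hx => by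
      have h1 : (2 - π x) * π x = 1 := by
        have : (2 - π x) * π x = 1 - (π x - 1) * (π x - 1) := by noncomm_ring
        rw [this, hx, sub_zero]
      calc π x⁻¹ = ((2 - π x) * π x) * π x⁻¹ := by rw [h1, one_mul]
        _ = 2 - π x := by rw [mul_assoc, ← map_mul, mul_inv_cancel, map_one, mul_one]
    rw [hT, mul_inv_rev, map_mul, map_mul, hinv b' hqb, hinv a' hqa, hC, hA, hB]
    simp only [← one_add_one_eq_two]
    noncomm_ring
  have hTu' : π (a' * b')⁻¹ u = l⁻¹ • u := by
    rw [eq_inv_smul_iff₀ hl, ← map_smul, ← hu, hT]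
    show (π (a' * b')⁻¹ * π (a' * b')) u = u
    rw [← map_mul, inv_mul_cancel, map_one]; rfl
  set c : K := l + l⁻¹ - 2 with hc
  have hCu : C u = c • u := by
    have h := LinearMap.congr_fun hsum u
    simp only [LinearMap.add_apply] at h
    rw [hu, hTu'] at h
    have h2 : (2 : Module.End K V) u = (2 : K) • u := by
      rw [two_smul, ← one_add_one_eq_two]; rfl
    rw [h2] at h
    rw [hc, sub_smul, add_smul, h]
    abel
  have hcA : Commute A C := by
    show A * (A * B + B * A) = (A * B + B * A) * A
    rw [mul_add, add_mul, ← mul_assoc A A B, hqa, zero_mul, zero_add, mul_assoc B A A, hqa, mul_zero, add_zero,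
      mul_assoc]
  have hcB : Commute B C := by
    show B * (A * B + B * A) = (A * B + B * A) * B
    rw [mul_add, add_mul, ← mul_assoc B B A, hqb, zero_mul, add_zero, mul_assoc A B B, hqb, mul_zero, zero_add,
      mul_assoc]
  have hCc : C = c • 1 := by
    have key : ∀ (x : ↥H) (X : Module.End K V), π x = 1 + X → Commute X C →
        ∀ z ∈ LinearMap.ker (C - c • 1), π x z ∈ LinearMap.ker (C - c • 1) := by
      intro x X hX hXC z hz
      rw [LinearMap.mem_ker] at hz ⊢
      have hcom : Commute (π x) (C - c • 1) := by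
        rw [hX]
        exact ((Commute.one_left C).add_left hXC).sub_right ((Commute.one_right _).smul_right c)
      have h := LinearMap.congr_fun hcom.eq z
      rw [Module.End.mul_apply, Module.End.mul_apply, hz, map_zero] at h
      exact h.symm
    rcases hirr (LinearMap.ker (C - c • 1)) (CfsgLib.Dickson.invariant_of_generators π hgen _
        (key a' A (by rw [hA]; abel) hcA) (key b' B (by rw [hB]; abel) hcB)) with h | h
    · exfalso
      have : u ∈ LinearMap.ker (C - c • 1) := by
        rw [LinearMap.mem_ker, LinearMap.sub_apply, hCu]; simp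
      rw [h, Submodule.mem_bot] at this
      exact hu0 this
    · exact sub_eq_zero.mp (LinearMap.ker_eq_top.mp h)
  obtain ⟨σ, hσ, -⟩ := CfsgLib.Dickson.exists_matrix_hom (p := p) π hgen hqa hqb hCc hirr hnpπ
  refine ⟨σ, fun hS => hnpπ fun g => ?_⟩
  obtain ⟨n, hn⟩ := hS ⟨σ g, g, rfl⟩
  refine ⟨n, (hσ _).mp ?_⟩
  rw [map_pow]
  exact congrArg Subtype.val hn

end Cfsg.Agent.S0592
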