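import Cfsg.Statements.S0594
import Cfsg.Agent.Lib.Dickson.Section
import Cfsg.Agent.Lib.LawFree.SL2

set_option autoImplicit false
open Cfsg

namespace Cfsg.Agent.S0594

open scoped commutatorElement

/-- For odd p, two quadratic generators of a faithful group that is not a p-group, one of which acts nontrivially on a normal subgroup of order prime to p, force p = 3 and a section isomorphic to SL(2,3). -/
theorem result {G : Type*} [Group G] [Finite G] {p : ℕ} [Fact p.Prime] (hp : p ≠ 2) (V H : Subgroup G) (hV : Cfsg.IsElementaryAbelian p V) (hHV : H ≤ Subgroup.normalizer (V : Set G)) (hf : H ⊓ Subgroup.centralizer (V : Set G) = ⊥) (a b : G) (hab : H = Subgroup.closure {a, b}) (ha : ⁅⁅V, Subgroup.zpowers a⁆, Subgroup.zpowers a⁆ = ⊥) (hb : ⁅⁅V, Subgroup.zpowers b⁆, Subgroup.zpowers b⁆ = ⊥) (hnp : ¬ IsPGroup p H) (Q : Subgroup G) (hQH : Q ≤ H) (hQn : H ≤ Subgroup.normalizer (Q : Set G)) (hQ : (Nat.card Q).Coprime p) (hQa : ⁅Q, Subgroup.zpowers a⁆ ≠ ⊥)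 : p = 3 ∧ ∃ (K L : Subgroup G) (hL : (L.subgroupOf K).Normal), K ≤ H ∧ Nonempty ((K ⧸ L.subgroupOf K) ≃* Matrix.SpecialLinearGroup (Fin 2) (ZMod 3)) := by
  obtain ⟨hab', hexp⟩ := hV
  have hcomm : ∀ a ∈ V, ∀ b ∈ V, a * b = b * a := fun a ha b hb =>
    congrArg Subtype.val (hab'.is_comm.comm (⟨a, ha⟩ : ↥V) ⟨b, hb⟩)
  have haH : a ∈ H := by rw [hab]; exact Subgroup.subset_closure (Or.inl rfl)
  have haq := CfsgLib.Dickson.quad_elements ha
  obtain ⟨q, hqQ, hqne⟩ : ∃ q ∈ Q, q * a * q⁻¹ ≠ a := by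
    by_contra hall
    push Not at hall
    refine hQa (Subgroup.commutator_eq_bot_iff_le_centralizer.mpr fun x hx => Subgroup.mem_centralizer_iff.mpr ?_)
    intro y hy
    obtain ⟨i, rfl⟩ := Subgroup.mem_zpowers_iff.mp hy
    exact ((show Commute x a from mul_inv_eq_iff_eq_mul.mp (hall x hx)).zpow_right i).eq.symm
  set a' := q * a * q⁻¹ with ha'
  have ha'H : a' ∈ H := mul_mem (mul_mem (hQH hqQ) haH) (inv_mem (hQH hqQ))
  have ha'q : ∀ v ∈ V, ⁅⁅v, a'⁆, a'⁆ = 1 := by
    intro v hv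
    have hv' : q⁻¹ * v * q ∈ V := by
      have := (Subgroup.mem_normalizer_iff.mp (hHV (inv_mem (hQH hqQ))) v).mp hv
      simpa using this
    have h := congrArg (MulAut.conj q) (haq _ hv')
    rw [map_one, map_commutatorElement, map_commutatorElement] at h
    simpa [ha', mul_assoc] using h
  set L := Subgroup.closure ({a, a'} : Set G) with hL
  have hLH : L ≤ H := (Subgroup.closure_le _).mpr (by
    rintro z (rfl | hz)
    · exact haH
    · rw [Set.mem_singleton_iff.mp hz]; exact ha'H)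
  have hdiff : a' * a⁻¹ ∈ Q := by
    rw [ha', show q * a * q⁻¹ * a⁻¹ = q * (a * q⁻¹ * a⁻¹) by group]
    exact mul_mem hqQ ((Subgroup.mem_normalizer_iff.mp (hQn haH) _).mp (inv_mem hqQ))
  have hone : ∀ z ∈ Q, ∀ k : ℕ, z ^ p ^ k = 1 → z = 1 := by
    intro z hz k hk
    refine orderOf_eq_one_iff.mp (Nat.eq_one_of_dvd_coprimes (hQ.pow_right k) ?_ (orderOf_dvd_of_pow_eq_one hk))
    exact Subgroup.orderOf_mk z hz ▸ orderOf_dvd_natCard (⟨z, hz⟩ : ↥Q)
  obtain ⟨K, f, hKL, hfs⟩ := CfsgLib.Dickson.exists_section_group hp hcomm hexp (hHV haH) (hHV ha'H) haq ha'q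
    fun hpp => hqne (by
      have hmem : a' * a⁻¹ ∈ L := mul_mem (Subgroup.subset_closure (Or.inr rfl)) (inv_mem (Subgroup.subset_closure (Or.inl rfl)))
      obtain ⟨k, hk⟩ := hpp _ hmem
      have h : (a' * a⁻¹) ^ p ^ k ∈ H ⊓ Subgroup.centralizer (V : Set G) := ⟨pow_mem (hLH hmem) _, hk⟩
      rw [hf, Subgroup.mem_bot] at h
      exact mul_inv_eq_one.mp (hone _ hdiff k h))
  have hKH : K ≤ H := hKL.trans hLH
  have hp3 : p = 3 := by
    by_contra h3
    haveI hQK : (Q.subgroupOf K).Normal :=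
      Subgroup.normal_subgroupOf_of_le_normalizer (hKH.trans hQn)
    set N := (Q.subgroupOf K).map f
    haveI : N.Normal := hQK.map f hfs
    have hcard : Nat.card N ∣ Nat.card Q := (Subgroup.card_map_dvd _ f).trans
      (Subgroup.card_comap_dvd_of_injective _ _ K.subtype_injective)
    -- everything in `K` is a power of `a` modulo `Q`
    set M := Subgroup.normalizer (Q : Set G)
    haveI : (Q.subgroupOf M).Normal := Subgroup.normal_subgroupOf_of_le_normalizer le_rfl
    have hKM : K ≤ M := hKH.trans hQn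
    have hLM : L ≤ M := hLH.trans hQn
    let μ := QuotientGroup.mk' (Q.subgroupOf M)
    have hpow : ∀ x (hx : x ∈ L), μ ⟨x, hLM hx⟩ ∈ Subgroup.zpowers (μ ⟨a, hQn haH⟩) := by
      intro x hx
      have hle : L.subgroupOf M ≤ (Subgroup.zpowers (μ ⟨a, hQn haH⟩)).comap μ := by
        intro y hy
        have hy' : (y : G) ∈ ((Subgroup.zpowers (μ ⟨a, hQn haH⟩)).comap μ).map M.subtype := by
          refine (Subgroup.closure_le _).mpr ?_ hy
          rintro z (rfl | hz)
          · exact ⟨⟨z, hQn haH⟩, Subgroup.mem_zpowers _, rfl⟩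
          · refine ⟨⟨a', hQn ha'H⟩, ?_, (Set.mem_singleton_iff.mp hz).symm⟩
            have : μ ⟨a', hQn ha'H⟩ = μ ⟨a, hQn haH⟩ := by
              have h1 : (⟨a', hQn ha'H⟩ : ↥M) = ⟨a' * a⁻¹, Subgroup.le_normalizer hdiff⟩ * ⟨a, hQn haH⟩ :=
                Subtype.ext (by simp)
              have h2 : μ ⟨a' * a⁻¹, Subgroup.le_normalizer hdiff⟩ = 1 :=
                (QuotientGroup.eq_one_iff _).mpr (Subgroup.mem_subgroupOf.mpr hdiff)
              rw [h1, map_mul, h2, one_mul]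
            show μ ⟨a', hQn ha'H⟩ ∈ Subgroup.zpowers (μ ⟨a, hQn haH⟩)
            rw [this]; exact Subgroup.mem_zpowers _
        obtain ⟨w, hw, hwy⟩ := hy'
        exact Subtype.ext hwy ▸ hw
      exact hle (show (⟨x, hLM hx⟩ : ↥M) ∈ L.subgroupOf M from hx)
    have hNtop : ∀ s, s ∈ N := by
      intro s
      letI : CommGroup (Matrix.SpecialLinearGroup (Fin 2) (ZMod p) ⧸ N) :=
        { (inferInstance : Group (Matrix.SpecialLinearGroup (Fin 2) (ZMod p) ⧸ N)) with
          mul_comm := fun x y => by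
            obtain ⟨x, rfl⟩ := QuotientGroup.mk'_surjective N x
            obtain ⟨y, rfl⟩ := QuotientGroup.mk'_surjective N y
            obtain ⟨k₁, rfl⟩ := hfs x
            obtain ⟨k₂, rfl⟩ := hfs y
            rw [← map_mul, ← map_mul, ← map_mul, ← map_mul]
            refine (QuotientGroup.eq).mpr ⟨(k₁ * k₂)⁻¹ * (k₂ * k₁), ?_, by rw [map_mul, map_inv]⟩
            obtain ⟨i, hi⟩ := Subgroup.mem_zpowers_iff.mp (hpow _ (hKL k₁.2))
            obtain ⟨j, hj⟩ := Subgroup.mem_zpowers_iff.mp (hpow _ (hKL k₂.2))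
            let m₁ : ↥M := ⟨k₁, hKM k₁.2⟩
            let m₂ : ↥M := ⟨k₂, hKM k₂.2⟩
            have h : μ ((m₁ * m₂)⁻¹ * (m₂ * m₁)) = 1 := by
              rw [map_mul, map_inv, map_mul, map_mul, show μ m₁ = μ ⟨a, hQn haH⟩ ^ i from hi.symm,
                show μ m₂ = μ ⟨a, hQn haH⟩ ^ j from hj.symm, ← zpow_add, ← zpow_add, add_comm j i, inv_mul_cancel]
            have h2 := (QuotientGroup.eq_one_iff _).mp h
            exact h2 }
      have h4 : 4 ≤ Fintype.card (ZMod p) := by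
        rw [ZMod.card]
        have h2 := (Fact.out : p.Prime).two_le
        omega
      exact (QuotientGroup.eq_one_iff _).mp (DFunLike.congr_fun (CfsgLib.LawFree.sl2_hom_comm_eq_one h4 (QuotientGroup.mk' N)) s)
    have hp_dvd : p ∣ Nat.card N := by
      set t : Matrix.SpecialLinearGroup (Fin 2) (ZMod p) :=
        Matrix.SpecialLinearGroup.transvection (show (0 : Fin 2) ≠ 1 by decide) 1
      have hto : orderOf t = p := orderOf_eq_prime (CfsgLib.Dickson.transvection_pow (p := p) _).1 fun h => by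
        have := congrFun (congrFun (congrArg Subtype.val h) 0) 1
        simp [t, Matrix.SpecialLinearGroup.transvection_coe, Matrix.single] at this
      refine (dvd_of_eq hto.symm).trans ?_
      exact Subgroup.orderOf_mk t (hNtop t) ▸ orderOf_dvd_natCard (⟨t, hNtop t⟩ : ↥N)
    exact (Fact.out : p.Prime).ne_one
      (Nat.eq_one_of_dvd_coprimes hQ (hp_dvd.trans hcard) dvd_rfl)
  obtain ⟨R, hR, e⟩ := CfsgLib.Dickson.section_of_surjective K f hfs
  subst hp3
  exact ⟨rfl, K, R, hR, hKH, e⟩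

end Cfsg.Agent.S0594
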