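import Cfsg.Statements.S0597
import Cfsg.Agent.Lib.Core
import Cfsg.Agent.Lib.LocalBasic
import Cfsg.Agent.Lib.GroupB.Subnormal

set_option autoImplicit false
open Cfsg
open CfsgLib
open scoped commutatorElement

namespace Cfsg.Agent.S0597

/-- If two subnormal subgroups of a faithful group on an elementary abelian p-group satisfy [V, E₁, E₂] = 1, then their commutator lies in the largest normal p-subgroup. -/
theorem result {G : Type*} [Group G] [Finite G] {p : ℕ} [Fact p.Prime] (V H : Subgroup G) (hV : Cfsg.IsElementaryAbelian p V) (hHV : H ≤ Subgroup.normalizer (V : Set G)) (hf : H ⊓ Subgroup.centralizer (V : Set G) = ⊥) (E₁ E₂ : Subgroup G) (h₁ : E₁ ≤ H) (h₂ : E₂ ≤ H) (hs₁ : (E₁.subgroupOf H).IsSubnormal) (hs₂ : (E₂.subgroupOf H).IsSubnormal) (hc : ⁅⁅V, E₁⁆, E₂⁆ = ⊥) : ⁅E₁, E₂⁆ ≤ (Cfsg.pCore p H).map H.subtype := by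
  classical
  obtain ⟨⟨hcm⟩, hVp⟩ := hV
  have hVc : ∀ x ∈ V, ∀ y ∈ V, x * y = y * x := fun x hx y hy => congrArg Subtype.val (hcm.comm (⟨x, hx⟩ : V) ⟨y, hy⟩)
  set W := ⁅V, E₁⁆ with hW
  set E := E₁ ⊔ E₂ with hE
  have hEH : E ≤ H := sup_le h₁ h₂
  have hWV : W ≤ V := Subgroup.commutator_le.mpr fun v hv e he => by
    rw [commutatorElement_def, mul_assoc, mul_assoc, ← mul_assoc e]
    exact V.mul_mem hv ((Subgroup.mem_normalizer_iff.mp (hHV (h₁ he)) v⁻¹).mp (V.inv_mem hv))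
  have hE2W : E₂ ≤ Subgroup.centralizer (W : Set G) :=
    Subgroup.le_centralizer_iff.mp (Subgroup.commutator_eq_bot_iff_le_centralizer.mp hc)
  have hEW : E ≤ Subgroup.normalizer (W : Set G) := sup_le
    (LocalBasic.normalizer_commutator_ge (h₁.trans hHV) Subgroup.le_normalizer)
    (hE2W.trans (Subgroup.centralizer_le_normalizer _))
  let D : Subgroup G :=
    { carrier := {e | e ∈ E ∧ (∀ w ∈ W, e * w = w * e) ∧ ∀ v ∈ V, e * v * e⁻¹ * v⁻¹ ∈ W}
      one_mem' := ⟨E.one_mem, fun w _ => by simp, fun v _ => by simp⟩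
      mul_mem' := by
        rintro a b ⟨ha, ha1, ha2⟩ ⟨hb, hb1, hb2⟩
        refine ⟨E.mul_mem ha hb, fun w hw => by rw [mul_assoc, hb1 w hw, ← mul_assoc, ha1 w hw, mul_assoc], fun v hv => ?_⟩
        have hbv : b * v * b⁻¹ ∈ V := (Subgroup.mem_normalizer_iff.mp (hHV (hEH hb)) v).mp hv
        have e : a * b * v * (a * b)⁻¹ * v⁻¹ = (a * (b * v * b⁻¹) * a⁻¹ * (b * v * b⁻¹)⁻¹) * (b * v * b⁻¹ * v⁻¹) := by
          group
        rw [e]
        exact W.mul_mem (ha2 _ hbv) (hb2 v hv)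
      inv_mem' := by
        rintro a ⟨ha, ha1, ha2⟩
        refine ⟨E.inv_mem ha, fun w hw => ?_, fun v hv => ?_⟩
        · rw [inv_mul_eq_iff_eq_mul, ← mul_assoc, ha1 w hw, mul_inv_cancel_right]
        · have hav : a⁻¹ * v * a ∈ V := by
            have := (Subgroup.mem_normalizer_iff.mp (hHV (H.inv_mem (hEH ha))) v).mp hv
            rwa [inv_inv] at this
          have := W.inv_mem (ha2 _ hav)
          have e : a⁻¹ * v * a⁻¹⁻¹ * v⁻¹ = (a * (a⁻¹ * v * a) * a⁻¹ * (a⁻¹ * v * a)⁻¹)⁻¹ := by group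
          rw [e]; exact this }
  have hDE : D ≤ E := fun x hx => hx.1
  have hDn : ∀ g ∈ E, ∀ d ∈ D, g * d * g⁻¹ ∈ D := by
    rintro g hg d ⟨hd, hd1, hd2⟩
    refine ⟨E.mul_mem (E.mul_mem hg hd) (E.inv_mem hg), fun w hw => ?_, fun v hv => ?_⟩
    · have hw' : g⁻¹ * w * g ∈ W := by
        have := (Subgroup.mem_normalizer_iff.mp (hEW (E.inv_mem hg)) w).mp hw
        rwa [inv_inv] at this
      calc g * d * g⁻¹ * w = g * (d * (g⁻¹ * w * g)) * g⁻¹ := by group
        _ = g * ((g⁻¹ * w * g) * d) * g⁻¹ := by rw [hd1 _ hw']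
        _ = _ := by group
    · have hv' : g⁻¹ * v * g ∈ V := by
        have := (Subgroup.mem_normalizer_iff.mp (hHV (H.inv_mem (hEH hg))) v).mp hv
        rwa [inv_inv] at this
      have := (Subgroup.mem_normalizer_iff.mp (hEW hg) _).mp (hd2 _ hv')
      have e : g * d * g⁻¹ * v * (g * d * g⁻¹)⁻¹ * v⁻¹ = g * (d * (g⁻¹ * v * g) * d⁻¹ * (g⁻¹ * v * g)⁻¹) * g⁻¹ := by group
      rw [e]; exact this
  have hDp : IsPGroup p D := by
    rintro ⟨d, hd, hd1, hd2⟩
    refine ⟨1, Subtype.ext ?_⟩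
    have hmem : d ^ p ∈ H ⊓ Subgroup.centralizer (V : Set G) := by
      refine ⟨H.pow_mem (hEH hd) p, Subgroup.mem_centralizer_iff.mpr fun v hv => ?_⟩
      obtain ⟨w, hw⟩ : ∃ w, w = d * v * d⁻¹ * v⁻¹ := ⟨_, rfl⟩
      have hwW : w ∈ W := hw ▸ hd2 v hv
      have hit : ∀ n : ℕ, d ^ n * v * (d ^ n)⁻¹ = w ^ n * v := by
        intro n
        induction n with
        | zero => simp
        | succ n ih =>
          calc d ^ (n + 1) * v * (d ^ (n + 1))⁻¹ = d * (d ^ n * v * (d ^ n)⁻¹) * d⁻¹ := by group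
            _ = (d * w ^ n) * v * d⁻¹ := by rw [ih]; group
            _ = w ^ n * (d * v * d⁻¹) := by rw [hd1 _ (W.pow_mem hwW n)]; group
            _ = w ^ n * (w * v) := by rw [show d * v * d⁻¹ = w * v by rw [hw]; group]
            _ = _ := by rw [pow_succ, mul_assoc]
      have hp' := hit p
      rw [hVp w (hWV hwW), one_mul, mul_inv_eq_iff_eq_mul] at hp'
      exact hp'.symm
    rw [hf, Subgroup.mem_bot] at hmem
    simpa using hmem
  have hcomm : ⁅E₁, E₂⁆ ≤ D := by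
    have hT : ∀ a ∈ E₁, ∀ v ∈ V, a * v * a⁻¹ * v⁻¹ ∈ W := fun a ha v hv => by
      have := W.inv_mem (Subgroup.commutator_mem_commutator hv ha : ⁅v, a⁆ ∈ W)
      rwa [commutatorElement_inv, commutatorElement_def] at this
    refine Subgroup.commutator_le.mpr fun a ha b hb => ⟨?_, fun w hw => ?_, fun v hv => ?_⟩
    · exact E.mul_mem (E.mul_mem (E.mul_mem (Subgroup.mem_sup_left ha) (Subgroup.mem_sup_right hb))
        (E.inv_mem (Subgroup.mem_sup_left ha))) (E.inv_mem (Subgroup.mem_sup_right hb))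
    · have hbw : ∀ c ∈ E₂, ∀ u ∈ W, u * c = c * u := fun c hc u hu =>
        Subgroup.mem_centralizer_iff.mp (hE2W hc) u hu
      have hw' : a⁻¹ * w * a ∈ W := by
        have := (Subgroup.mem_normalizer_iff.mp (hEW (E.inv_mem (Subgroup.mem_sup_left ha))) w).mp hw
        rwa [inv_inv] at this
      rw [commutatorElement_def]
      calc a * b * a⁻¹ * b⁻¹ * w = a * b * a⁻¹ * (b⁻¹ * w) := by group
        _ = a * b * a⁻¹ * (w * b⁻¹) := by rw [hbw _ (E₂.inv_mem hb) w hw]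
        _ = a * (b * (a⁻¹ * w * a)) * a⁻¹ * b⁻¹ := by group
        _ = a * ((a⁻¹ * w * a) * b) * a⁻¹ * b⁻¹ := by rw [hbw _ hb _ hw']
        _ = _ := by group
    · have hH : ∀ g ∈ H, ∀ x ∈ V, g * x * g⁻¹ ∈ V := fun g hg x hx => (Subgroup.mem_normalizer_iff.mp (hHV hg) x).mp hx
      set v1 := b⁻¹ * v * b with hv1'
      have hv1 : v1 ∈ V := by simpa using hH _ (H.inv_mem (h₂ hb)) v hv
      have hu : a⁻¹ * v1 * a * v1⁻¹ ∈ W := by simpa using hT _ (E₁.inv_mem ha) v1 hv1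
      set u := a⁻¹ * v1 * a * v1⁻¹ with hu'
      have hv2 : u * v ∈ V := V.mul_mem (hWV hu) hv
      have hub : b * u = u * b := (Subgroup.mem_centralizer_iff.mp (hE2W hb) u hu).symm
      have e : ⁅a, b⁆ * v * ⁅a, b⁆⁻¹ * v⁻¹ = (a * (u * v) * a⁻¹ * (u * v)⁻¹) * u := by
        have e1 : ⁅a, b⁆ * v * ⁅a, b⁆⁻¹ = a * (b * (a⁻¹ * v1 * a) * b⁻¹) * a⁻¹ := by
          rw [hv1', commutatorElement_def]; group
        have e2 : b * (a⁻¹ * v1 * a) * b⁻¹ = u * v := by
          calc b * (a⁻¹ * v1 * a) * b⁻¹ = b * (u * v1) * b⁻¹ := by rw [hu']; group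
            _ = (b * u) * b⁻¹ * v := by rw [hv1']; group
            _ = u * v := by rw [hub]; group
        rw [e1, e2]
        have : v⁻¹ = (u * v)⁻¹ * u := by group
        conv_lhs => rw [this]
        group
      rw [e]
      exact W.mul_mem (hT a ha _ hv2) hu
  refine hcomm.trans ?_
  have hEs : (E.subgroupOf H).IsSubnormal := by
    rw [hE, Subgroup.subgroupOf_sup h₁ h₂]
    exact GroupB.Subnormal.sup hs₁ hs₂
  have hDs : (D.subgroupOf H).IsSubnormal := by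
    refine Subgroup.IsSubnormal.trans (K := E.subgroupOf H) ?_ ?_ hEs
    · intro x hx; exact hDE hx
    · refine Subgroup.Normal.isSubnormal ⟨fun x hx g => ?_⟩
      simpa [Subgroup.mem_subgroupOf] using hDn _ (Subgroup.mem_subgroupOf.mp g.2) _
        (Subgroup.mem_subgroupOf.mp (Subgroup.mem_subgroupOf.mp hx))
  have hle := Core.isPGroup_subnormal_le_pCore hDs hDp.comap_subtype
  calc D = (D.subgroupOf H).map H.subtype := (Subgroup.map_subgroupOf_eq_of_le (hDE.trans hEH)).symm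
    _ ≤ _ := Subgroup.map_mono hle

end Cfsg.Agent.S0597
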