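import Cfsg.Statements.S0599
import Cfsg.Agent.Lib.PLocal.Elementary
import Cfsg.Agent.Lib.PLocal.CommutatorDescent
open CfsgLib.PLocal
open scoped commutatorElement Pointwise

set_option autoImplicit false
open Cfsg

namespace Cfsg.Agent.S0599

/-- The Timmesfeld replacement Theorem: replacing a best offender A by C_A([U, A]) gives a best offender with fixed points [U, A]C_V(A), still nontrivial on V if A was. -/
theorem result {G : Type*} [Group G] [Finite G] {p : ℕ} [Fact p.Prime] (V A : Subgroup G) (hV : Cfsg.IsElementaryAbelian p V) (hAV : A ≤ Subgroup.normalizer (V : Set G)) (hA : Cfsg.IsBestOffenderOn p V A) (U : Subgroup G) (hU : U ≤ V) : Cfsg.IsBestOffenderOn p V (A ⊓ Subgroup.centralizer ((⁅U, A⁆ : Subgroup G) : Set G)) ∧ V ⊓ Subgroup.centralizer ((A ⊓ Subgroup.centralizer ((⁅U, A⁆ : Subgroup G) : Set G) : Subgroup G) : Set G) = ⁅U, A⁆ ⊔ (V ⊓ Subgroup.centralizer (A : Set G)) ∧ (⁅V, A⁆ ≠ ⊥ → ⁅V, A ⊓ Subgroup.centralizer ((⁅U,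 A⁆ : Subgroup G) : Set G)⁆ ≠ ⊥) := by
  classical
  obtain ⟨hmax, hab, hpow⟩ := hA
  have hVc : ∀ x ∈ V, ∀ y ∈ V, x * y = y * x := fun x hx y hy => congrArg Subtype.val (hV.1.is_comm.comm (⟨x, hx⟩ : V) ⟨y, hy⟩)
  have hg := replacement hVc hAV hab hmax hU
  refine ⟨⟨fun B hB => ?_, (Subgroup.commutator_mono inf_le_left inf_le_left).trans hab, fun a ha => hpow a ha.1⟩, hg.1, fun hne => ?_⟩
  · exact (hmax B (hB.trans inf_le_left)).trans hg.2.ge
  · exact replacement_nontrivial (el_isPGroup hV) hVc hAV (fun a ha => ⟨1, by rw [pow_one]; exact hpow a ha⟩) hU hg hne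

end Cfsg.Agent.S0599
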