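import Cfsg.Statements.S0600
import Cfsg.Agent.Lib.Core
import Cfsg.Agent.Lib.LocalBasic
open scoped commutatorElement Pointwise

set_option autoImplicit false
open Cfsg

namespace Cfsg.Agent.S0600

/-- A normal elementary abelian p-subgroup generated by the fixed points of the Sylow p-subgroups admits no nontrivial normal p-subgroup of G modulo its centralizer. -/
theorem result {G : Type*} [Group G] [Finite G] {p : ℕ} [Fact p.Prime] (V : Subgroup G) [V.Normal] (hV : Cfsg.IsElementaryAbelian p V) (hgen : V = ⨆ S : Sylow p G, V ⊓ Subgroup.centralizer ((S : Subgroup G) : Set G)) : Cfsg.pCore p (G ⧸ Subgroup.centralizer (V : Set G)) = ⊥ := by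
  classical
  set C := Subgroup.centralizer (V : Set G) with hC
  set π := QuotientGroup.mk' C with hπ
  rw [← Subgroup.map_comap_eq_self_of_surjective (QuotientGroup.mk'_surjective C) (Cfsg.pCore p (G ⧸ C)),
    Subgroup.map_eq_bot_iff, QuotientGroup.ker_mk']
  refine Subgroup.le_centralizer_iff.1 ?_
  conv_lhs => rw [hgen]
  refine iSup_le fun S => ?_
  intro v hv
  rw [Subgroup.mem_centralizer_iff]
  intro x hx
  have h1 : π x ∈ (S.mapSurjective (QuotientGroup.mk'_surjective C) : Subgroup (G ⧸ C)) := CfsgLib.Core.pCore_le_sylow _ hx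
  rw [Sylow.coe_mapSurjective] at h1
  obtain ⟨s, hs, hsx⟩ := h1
  have h2 : s⁻¹ * x ∈ C := QuotientGroup.eq.1 hsx
  have hvV : v ∈ V := hv.1
  have e1 : Commute v s := (Subgroup.mem_centralizer_iff.1 hv.2 s hs).symm
  have e2 : Commute v (s⁻¹ * x) := Subgroup.mem_centralizer_iff.1 h2 v hvV
  have := e1.mul_right e2
  rw [mul_inv_cancel_left] at this
  exact this.eq.symm

end Cfsg.Agent.S0600
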