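import Cfsg.Statements.S0601
import Cfsg.Agent.Lib.Core
import Cfsg.Agent.Lib.LocalBasic
open scoped commutatorElement Pointwise

set_option autoImplicit false
open Cfsg

namespace Cfsg.Agent.S0601

/-- When O_p(G) contains its centralizer, the normal closure of Ω₁(Z(S)) is elementary abelian and G has no nontrivial normal p-subgroup modulo its centralizer. -/
theorem result {G : Type*} [Group G] [Finite G] {p : ℕ} [Fact p.Prime] (hc : Subgroup.centralizer (Cfsg.pCore p G : Set G) ≤ Cfsg.pCore p G) : (⨆ S : Sylow p G, Cfsg.omegaOne p (((S : Subgroup G)) ⊓ Subgroup.centralizer ((S : Subgroup G) : Set G))).Normal ∧ Cfsg.IsElementaryAbelian p (⨆ S : Sylow p G, Cfsg.omegaOne p (((S : Subgroup G)) ⊓ Subgroup.centralizer ((S : Subgroup G) : Set G))) ∧ ∀ D : Subgroup G, D.Normal → Subgroup.centralizer ((⨆ S : Sylow p G, Cfsg.omegaOne p (((S : Subgroup G)) ⊓ Subgroup.centralizer ((S : Subgroup G) : Set G)) : Subgroup G) : Set G) ≤ D → (∃ k : ℕ, (Subgroup.centralizer ((⨆ S : Sylow p G, Cfsg.omegaOne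 p (((S : Subgroup G)) ⊓ Subgroup.centralizer ((S : Subgroup G) : Set G)) : Subgroup G) : Set G)).relIndex D = p ^ k) → D = Subgroup.centralizer ((⨆ S : Sylow p G, Cfsg.omegaOne p (((S : Subgroup G)) ⊓ Subgroup.centralizer ((S : Subgroup G) : Set G)) : Subgroup G) : Set G) := by
  classical
  set Zs : Sylow p G → Subgroup G := fun S =>
    Cfsg.omegaOne p (((S : Subgroup G)) ⊓ Subgroup.centralizer ((S : Subgroup G) : Set G)) with hZs
  set Z := ⨆ S, Zs S with hZ
  change Z.Normal ∧ IsElementaryAbelian p Z ∧ ∀ D : Subgroup G, D.Normal →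
    Subgroup.centralizer (Z : Set G) ≤ D →
    (∃ k : ℕ, (Subgroup.centralizer (Z : Set G)).relIndex D = p ^ k) → D = Subgroup.centralizer (Z : Set G)
  set O := Cfsg.pCore p G with hO
  have hmem : ∀ (S : Sylow p G), ∀ x ∈ Zs S, x ∈ O ∧ (∀ y ∈ (S : Subgroup G), y * x = x * y) ∧ x ^ p = 1 := by
    intro S x hx
    induction hx using Subgroup.closure_induction with
    | mem y hy =>
      have h1 : ∀ z ∈ (S : Subgroup G), z * y = y * z := fun z hz => Subgroup.mem_centralizer_iff.mp hy.1.2 z hz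
      exact ⟨hc (Subgroup.mem_centralizer_iff.mpr fun z hz => h1 z (CfsgLib.Core.pCore_le_sylow S hz)), h1, hy.2⟩
    | one => exact ⟨O.one_mem, fun y _ => by simp, one_pow p⟩
    | mul a b _ _ ia ib =>
      refine ⟨O.mul_mem ia.1 ib.1, fun y hy => by rw [← mul_assoc, ia.2.1 y hy, mul_assoc, ib.2.1 y hy, mul_assoc], ?_⟩
      have hab : Commute a b := ib.2.1 a (CfsgLib.Core.pCore_le_sylow S ia.1)
      rw [hab.mul_pow, ia.2.2, ib.2.2, one_mul]
    | inv a _ ia =>
      exact ⟨O.inv_mem ia.1, fun y hy => ((show Commute y a from ia.2.1 y hy).inv_right).eq, by rw [inv_pow, ia.2.2, inv_one]⟩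
  have hcomm : ∀ a ∈ Z, a ∈ O ∧ ∀ y ∈ O, y * a = a * y := by
    intro a ha
    induction ha using Subgroup.iSup_induction' with
    | hp S x hx => exact ⟨(hmem S x hx).1, fun y hy => (hmem S x hx).2.1 y (CfsgLib.Core.pCore_le_sylow S hy)⟩
    | h1 => exact ⟨O.one_mem, fun y _ => by simp⟩
    | hmul a b _ _ ia ib =>
      exact ⟨O.mul_mem ia.1 ib.1, fun y hy => by rw [← mul_assoc, ia.2 y hy, mul_assoc, ib.2 y hy, mul_assoc]⟩
  have hel : IsElementaryAbelian p Z := by
    refine ⟨⟨⟨fun a b => Subtype.ext ((hcomm b b.2).2 a (hcomm a a.2).1)⟩⟩, fun a ha => ?_⟩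
    induction ha using Subgroup.iSup_induction' with
    | hp S x hx => exact (hmem S x hx).2.2
    | h1 => exact one_pow p
    | hmul a b ha hb ia ib => rw [(show Commute a b from (hcomm b hb).2 a (hcomm a ha).1).mul_pow, ia, ib, one_mul]
  have hn : Z.Normal := by
    refine ⟨fun x hx g => ?_⟩
    induction hx using Subgroup.iSup_induction' with
    | hp S x hx =>
      refine Subgroup.mem_iSup_of_mem (g • S) ?_
      induction hx using Subgroup.closure_induction with
      | mem y hy =>
        refine Subgroup.subset_closure ⟨⟨?_, ?_⟩, by rw [conj_pow, hy.2]; group⟩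
        · show g * y * g⁻¹ ∈ ((g • S : Sylow p G) : Subgroup G)
          rw [Sylow.coe_subgroup_smul, Subgroup.mem_pointwise_smul_iff_inv_smul_mem]
          have e : (MulAut.conj g)⁻¹ • (g * y * g⁻¹) = y := by simp [MulAut.smul_def, mul_assoc]
          rw [e]; exact hy.1.1
        · refine Subgroup.mem_centralizer_iff.mpr fun z hz => ?_
          rw [SetLike.mem_coe, Sylow.coe_subgroup_smul, Subgroup.mem_pointwise_smul_iff_inv_smul_mem] at hz
          have hz' : g⁻¹ * z * g ∈ (S : Subgroup G) := by simpa [MulAut.smul_def, mul_assoc] using hz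
          calc z * (g * y * g⁻¹) = g * ((g⁻¹ * z * g) * y) * g⁻¹ := by group
            _ = g * (y * (g⁻¹ * z * g)) * g⁻¹ := by rw [Subgroup.mem_centralizer_iff.mp hy.1.2 _ hz']
            _ = _ := by group
      | one => simp
      | mul a b _ _ ia ib =>
        have e : g * (a * b) * g⁻¹ = (g * a * g⁻¹) * (g * b * g⁻¹) := by group
        rw [e]; exact mul_mem ia ib
      | inv a _ ia =>
        have e : g * a⁻¹ * g⁻¹ = (g * a * g⁻¹)⁻¹ := by group
        rw [e]; exact inv_mem ia
    | h1 => simp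
    | hmul a b _ _ ia ib =>
      have e : g * (a * b) * g⁻¹ = (g * a * g⁻¹) * (g * b * g⁻¹) := by group
      rw [e]; exact mul_mem ia ib
  refine ⟨hn, hel, fun D hD hCD hk => le_antisymm ?_ hCD⟩
  obtain ⟨k, hk⟩ := hk
  suffices hDS : ∀ S : Sylow p G, D ≤ Subgroup.centralizer (Zs S : Set G) by
    rw [hZ, Subgroup.le_centralizer_iff, iSup_le_iff]
    exact fun S => Subgroup.le_centralizer_iff.mp (hDS S)
  intro S
  have hDn := hD
  set C := Subgroup.centralizer (Z : Set G) with hC
  have h1 : C ≤ D ⊓ Subgroup.centralizer (Zs S : Set G) :=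
    le_inf hCD (Subgroup.centralizer_le (SetLike.coe_subset_coe.mpr (le_iSup Zs S)))
  have h2 : (S : Subgroup G) ⊓ D ≤ D ⊓ Subgroup.centralizer (Zs S : Set G) :=
    le_inf inf_le_right (inf_le_left.trans fun y hy =>
      Subgroup.mem_centralizer_iff.mpr fun x hx => ((hmem S x hx).2.1 y hy).symm)
  have hdiv : ((S : Subgroup G) ⊓ D).relIndex D ∣ (S : Subgroup G).index := by
    rw [Subgroup.inf_relIndex_right]
    have e1 : ((S : Subgroup G) ⊓ D).relIndex ⊤ = D.relIndex (S : Subgroup G) * (S : Subgroup G).index := by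
      rw [← Subgroup.relIndex_mul_relIndex _ (S : Subgroup G) ⊤ inf_le_left le_top, Subgroup.inf_relIndex_left,
        Subgroup.relIndex_top_right]
    have e2 : ((S : Subgroup G) ⊓ D).relIndex ⊤ = (S : Subgroup G).relIndex D * D.index := by
      rw [← Subgroup.relIndex_mul_relIndex _ D ⊤ inf_le_right le_top, Subgroup.inf_relIndex_right,
        Subgroup.relIndex_top_right]
    obtain ⟨m, hm⟩ := Subgroup.relIndex_dvd_index_of_normal D (S : Subgroup G)
    refine ⟨m, Nat.eq_of_mul_eq_mul_left (Nat.pos_of_ne_zero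
      (Subgroup.index_ne_zero_of_finite (H := D.subgroupOf (S : Subgroup G)))) ?_⟩
    show D.relIndex (S : Subgroup G) * (S : Subgroup G).index = _
    rw [← e1, e2, hm]; show _ = D.relIndex (S : Subgroup G) * _
    ring
  have hp := (Fact.out : p.Prime)
  set T := D ⊓ Subgroup.centralizer (Zs S : Set G) with hT
  have hd1 : T.relIndex D ∣ p ^ k := hk ▸ Subgroup.relIndex_dvd_of_le_left D h1
  have hd2 : T.relIndex D ∣ (S : Subgroup G).index := (Subgroup.relIndex_dvd_of_le_left D h2).trans hdiv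
  have hcop : Nat.Coprime (p ^ k) (S : Subgroup G).index :=
    Nat.Coprime.pow_left _ (hp.coprime_iff_not_dvd.mpr S.not_dvd_index)
  have : D ≤ T := Subgroup.relIndex_eq_one.mp (Nat.eq_one_of_dvd_coprimes hcop hd1 hd2)
  exact this.trans inf_le_right

end Cfsg.Agent.S0601
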