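import Cfsg.Statements.S0604
import Cfsg.Agent.Lib.PLocal.Elementary
import Cfsg.Agent.Lib.LocalBasic
open CfsgLib.PLocal
open scoped commutatorElement Pointwise

set_option autoImplicit false
open Cfsg

namespace Cfsg.Agent.S0604

/-- The Thompson subgroup of G is the join of the Thompson subgroups of its Sylow p-subgroups. -/
theorem result {G : Type*} [Group G] [Finite G] {p : ℕ} [Fact p.Prime] : Cfsg.thompsonSubgroup p G = ⨆ S : Sylow p G, Cfsg.thompsonSubgroupOf p (S : Subgroup G) := by
  simp only [fun S : Sylow p G => thompsonOf_eq_sSup (S : Subgroup G) (exists_max_le_sylow S)]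
  refine le_antisymm (sSup_le fun A hA => ?_) (iSup_le fun S => sSup_le fun A hA => le_sSup hA.1)
  obtain ⟨S, hS⟩ := (el_isPGroup hA.1).exists_le_sylow
  exact le_iSup_of_le S (le_sSup ⟨hA, hS⟩)

end Cfsg.Agent.S0604
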