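import Cfsg.Statements.S0605
import Cfsg.Agent.Lib.PLocal.Elementary
import Cfsg.Agent.Lib.LocalBasic
open CfsgLib.PLocal
open scoped commutatorElement Pointwise

set_option autoImplicit false
open Cfsg

namespace Cfsg.Agent.S0605

/-- Elements of order p in the centralizer of the Thompson subgroup belong to the Thompson subgroup (so to its centre). -/
theorem result {G : Type*} [Group G] [Finite G] {p : ℕ} [Fact p.Prime] (x : G) (hx : x ∈ Subgroup.centralizer (Cfsg.thompsonSubgroup p G : Set G)) (ho : orderOf x = p) : x ∈ Cfsg.thompsonSubgroup p G := by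
  obtain ⟨A, hA⟩ := exists_max (G := G) (p := p)
  exact (le_sSup hA : A ≤ Cfsg.thompsonSubgroup p G) (mem_of_max_of_commute hA (ho ▸ pow_orderOf_eq_one x)
    (fun a ha => (Subgroup.mem_centralizer_iff.1 hx) a ((le_sSup hA : A ≤ Cfsg.thompsonSubgroup p G) ha)))

end Cfsg.Agent.S0605
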