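import Cfsg.Statements.S0606
import Cfsg.Agent.Lib.PLocal.Elementary
import Cfsg.Agent.Lib.LocalBasic
open CfsgLib.PLocal
open scoped commutatorElement Pointwise

set_option autoImplicit false
open Cfsg

namespace Cfsg.Agent.S0606

/-- Elementary abelian p-subgroups of maximal order are best offenders on any normal elementary abelian p-subgroup. -/
theorem result {G : Type*} [Group G] [Finite G] {p : ℕ} [Fact p.Prime] (V : Subgroup G) [V.Normal] (hV : Cfsg.IsElementaryAbelian p V) (A : Subgroup G) (hA : A ∈ Cfsg.maxElementaryAbelianSubgroups p G) : Cfsg.IsBestOffenderOn p V A := by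
  have hAc : ∀ a ∈ A, ∀ b ∈ A, a * b = b * a := fun a ha b hb => by
    haveI := hA.1.1
    exact congrArg Subtype.val (mul_comm' (⟨a, ha⟩ : A) ⟨b, hb⟩)
  refine ⟨fun B hB => ?_, ?_, fun a ha => by rw [hA.1.2 a ha]; exact one_mem _⟩
  · set C := V ⊓ Subgroup.centralizer (B : Set G) with hC
    have hel : Cfsg.IsElementaryAbelian p (B ⊔ C) := el_sup (el_mono hA.1 hB) (el_mono hV inf_le_left)
      (fun b hb c hc => Subgroup.mem_centralizer_iff.1 hc.2 b hb)
    have h1 := CfsgLib.LocalBasic.card_mul_le B C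
    have h2 : Nat.card ↥((B : Set G) * (C : Set G)) ≤ Nat.card A := by
      refine le_trans (Nat.card_mono (Set.toFinite _) ?_) (hA.2 _ hel)
      rintro _ ⟨x, hx, y, hy, rfl⟩
      exact Subgroup.mul_mem _ (Subgroup.mem_sup_left hx) (Subgroup.mem_sup_right hy)
    have h3 : Nat.card ↥(B ⊓ C : Subgroup G) ≤ Nat.card ↥(V ⊓ Subgroup.centralizer (A : Set G)) := by
      refine Subgroup.card_le_of_le (fun x hx => ⟨hx.2.1, Subgroup.mem_centralizer_iff.2 fun a ha => hAc a ha x (hB hx.1)⟩)
    calc Nat.card B * Nat.card C ≤ _ := h1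
      _ ≤ _ := Nat.mul_le_mul h2 h3
  · rw [Subgroup.commutator_le]
    intro a ha b hb
    rw [commutatorElement_eq_one_iff_mul_comm.2 (hAc a ha b hb)]
    exact one_mem _

end Cfsg.Agent.S0606
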