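import Cfsg.Statements.S0607
import Cfsg.Agent.Lib.PLocal.Elementary
import Cfsg.Agent.Lib.PLocal.CommutatorDescent
open CfsgLib.PLocal
open scoped commutatorElement Pointwise

set_option autoImplicit false
open Cfsg

namespace Cfsg.Agent.S0607

/-- The replacement Theorem for the Thompson subgroup: from A of maximal order among elementary abelian p-subgroups one obtains A₀ = [V, A] C_A([V, A]) of the same kind, quadratic on V and nontrivial on V when A is. -/
theorem result {G : Type*} [Group G] [Finite G] {p : ℕ} [Fact p.Prime] (V : Subgroup G) [V.Normal] (hV : Cfsg.IsElementaryAbelian p V) (A : Subgroup G) (hA : A ∈ Cfsg.maxElementaryAbelianSubgroups p G) : (⁅V, A⁆ ⊔ (A ⊓ Subgroup.centralizer ((⁅V, A⁆ : Subgroup G) : Set G))) ∈ Cfsg.maxElementaryAbelianSubgroups p G ∧ ⁅⁅V, ⁅V, A⁆ ⊔ (A ⊓ Subgroup.centralizer ((⁅V, A⁆ : Subgroup G) : Set G))⁆, ⁅V, A⁆ ⊔ (A ⊓ Subgroup.centralizer ((⁅V, A⁆ : Subgroup G) : Set G))⁆ = ⊥ ∧ (⁅V, A⁆ ≠ ⊥ → ⁅V, ⁅V, A⁆ ⊔ (A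 ⊓ Subgroup.centralizer ((⁅V, A⁆ : Subgroup G) : Set G))⁆ ≠ ⊥) := by
  classical
  have hVc : ∀ x ∈ V, ∀ y ∈ V, x * y = y * x := fun x hx y hy => congrArg Subtype.val (hV.1.is_comm.comm (⟨x, hx⟩ : V) ⟨y, hy⟩)
  have hAc : ∀ x ∈ A, ∀ y ∈ A, x * y = y * x := fun x hx y hy => congrArg Subtype.val (hA.1.1.is_comm.comm (⟨x, hx⟩ : A) ⟨y, hy⟩)
  have hAV : A ≤ Subgroup.normalizer (V : Set G) := le_top.trans (Subgroup.normalizer_eq_top_iff.mpr inferInstance).ge
  have hab : ⁅A, A⁆ ≤ Subgroup.centralizer (V : Set G) := by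
    refine Subgroup.commutator_le.mpr fun a ha b hb => ?_
    rw [commutatorElement_eq_one_iff_mul_comm.mpr (hAc a ha b hb)]
    exact one_mem _
  have hsup : ∀ P Q : Subgroup G, P ≤ Subgroup.centralizer (Q : Set G) →
      Nat.card ↥(P ⊔ Q : Subgroup G) * Nat.card ↥(P ⊓ Q : Subgroup G) = Nat.card P * Nat.card Q :=
    fun P Q h => card_sup_of_comm (h.trans (Subgroup.centralizer_le_normalizer _))
  set Z := V ⊓ Subgroup.centralizer (A : Set G) with hZ
  have hZA : Z ≤ A := fun z hz => mem_of_max_of_commute hA (hV.2 z hz.1) fun a ha =>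
    Subgroup.mem_centralizer_iff.mp hz.2 a ha
  have hmax : ∀ B : Subgroup G, B ≤ A → fixWeight V B ≤ fixWeight V A := by
    intro B hB
    set C := V ⊓ Subgroup.centralizer (B : Set G) with hC
    have hBC : B ≤ Subgroup.centralizer (C : Set G) := Subgroup.le_centralizer_iff.mp inf_le_right
    have hel : IsElementaryAbelian p (B ⊔ C) := by
      refine el_sup (el_mono hA.1 hB) (el_mono hV inf_le_left) fun b hb c hc => ?_
      exact Subgroup.mem_centralizer_iff.mp hc.2 b hb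
    have h1 := hA.2 _ hel
    have h2 : Nat.card ↥(B ⊓ C : Subgroup G) ≤ Nat.card Z := Subgroup.card_le_of_le fun x hx =>
      ⟨hx.2.1, Subgroup.mem_centralizer_iff.mpr fun a ha => hAc a ha x (hB hx.1)⟩
    show Nat.card B * Nat.card C ≤ Nat.card A * Nat.card Z
    rw [← hsup B C hBC]
    exact Nat.mul_le_mul h1 h2
  have hg := replacement hVc hAV hab hmax (le_refl V)
  set X := ⁅V, A⁆ with hX
  set B := A ⊓ Subgroup.centralizer (X : Set G) with hB
  have hXV : X ≤ V := commutator_le_of_le_normalizer hAV le_rfl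
  have hXB : ∀ x ∈ X, ∀ b ∈ B, x * b = b * x := fun x hx b hb => Subgroup.mem_centralizer_iff.mp hb.2 x hx
  have hel : IsElementaryAbelian p (X ⊔ B) := el_sup (el_mono hV hXV) (el_mono hA.1 inf_le_left) hXB
  have hZB : Z ≤ B := fun z hz => ⟨hZA hz, Subgroup.mem_centralizer_iff.mpr fun x hx => hVc x (hXV hx) z hz.1⟩
  have hXZV : X ⊔ Z ≤ V := sup_le hXV inf_le_left
  have hcard : Nat.card A ≤ Nat.card ↥(X ⊔ B : Subgroup G) := by
    have e : (X ⊔ B : Subgroup G) = (X ⊔ Z) ⊔ B := by rw [sup_assoc, sup_eq_right.mpr hZB]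
    have hc : X ⊔ Z ≤ Subgroup.centralizer (B : Set G) :=
      sup_le (fun x hx => Subgroup.mem_centralizer_iff.mpr fun b hb => (hXB x hx b hb).symm)
        (inf_le_right.trans (Subgroup.centralizer_le (SetLike.coe_subset_coe.mpr inf_le_left)))
    have h1 := hsup (X ⊔ Z) B hc
    have hinf : Nat.card ↥((X ⊔ Z) ⊓ B : Subgroup G) ≤ Nat.card Z := Subgroup.card_le_of_le fun x hx =>
      ⟨hXZV hx.1, Subgroup.mem_centralizer_iff.mpr fun a ha => hAc a ha x hx.2.1⟩
    have h2 : Nat.card A * Nat.card Z = Nat.card B * Nat.card ↥(X ⊔ Z : Subgroup G) := by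
      have h := hg.2
      rw [fixWeight, fixWeight, hg.1] at h
      exact h.symm
    rw [e]
    refine Nat.le_of_mul_le_mul_right ?_ (Nat.card_pos (α := Z))
    rw [h2, mul_comm (Nat.card B), ← h1]
    exact Nat.mul_le_mul_left _ hinf
  have hVA0 : ⁅V, X ⊔ B⁆ ≤ X := by
    rw [Subgroup.commutator_comm]
    refine CfsgLib.LocalBasic.commutator_sup_le ?_ ?_ ?_ ?_
    · exact le_trans (fun x hx => Subgroup.mem_centralizer_iff.mpr fun y hy => hVc y (hXV hy) x (hXV hx))
        (Subgroup.centralizer_le_normalizer _)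
    · exact inf_le_right.trans (Subgroup.centralizer_le_normalizer _)
    · exact (Subgroup.commutator_eq_bot_iff_le_centralizer.mpr fun x hx =>
        Subgroup.mem_centralizer_iff.mpr fun y hy => hVc y hy x (hXV hx)).le.trans bot_le
    · exact (Subgroup.commutator_comm B V).le.trans (Subgroup.commutator_mono le_rfl inf_le_left)
  refine ⟨⟨hel, fun C hC => (hA.2 C hC).trans hcard⟩, ?_, fun hne h => ?_⟩
  · refine le_bot_iff.mp ((Subgroup.commutator_mono hVA0 le_rfl).trans ?_)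
    exact (Subgroup.commutator_eq_bot_iff_le_centralizer.mpr fun x hx =>
      Subgroup.mem_centralizer_iff.mpr fun y hy => congrArg Subtype.val
        (hel.1.is_comm.comm (⟨y, hy⟩ : ↥(X ⊔ B)) ⟨x, Subgroup.mem_sup_left hx⟩)).le
  · refine replacement_nontrivial (el_isPGroup hV) hVc hAV (fun a ha => ⟨1, by rw [pow_one, hA.1.2 a ha]; exact one_mem _⟩) le_rfl hg hne ?_
    exact le_bot_iff.mp ((Subgroup.commutator_mono le_rfl le_sup_right).trans h.le)

end Cfsg.Agent.S0607
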