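import Cfsg.Statements.S0608
import Cfsg.Agent.Lib.Core
import Cfsg.Agent.Lib.LocalBasic
import Cfsg.Agent.Lib.PConstrained
import Cfsg.Agent.Lib.PLocal.Omega
open CfsgLib CfsgLib.PLocal
open scoped commutatorElement Pointwise

set_option autoImplicit false
open Cfsg

namespace Cfsg.Agent.S0608

/-- With trivial p'-core, Thompson factorizability is equivalent to J(G) centralizing the subgroup generated by all Ω₁(Z(S)), S Sylow. -/
theorem result {G : Type*} [Group G] [Finite G] {p : ℕ} [Fact p.Prime] (hO : Cfsg.pPrimeCore p G = ⊥) : Cfsg.IsThompsonFactorizable p G ↔ Cfsg.thompsonSubgroup p G ≤ Subgroup.centralizer ((⨆ S : Sylow p G, Cfsg.omegaOne p (((S : Subgroup G)) ⊓ Subgroup.centralizer ((S : Subgroup G) : Set G)) : Subgroup G) : Set G) := by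
  classical
  set Z := ⨆ S : Sylow p G, omegaOne p (((S : Subgroup G)) ⊓ Subgroup.centralizer ((S : Subgroup G) : Set G)) with hZ
  have hOmap : ∀ (S : Sylow p G) (g : G),
      (omegaOne p ((S : Subgroup G) ⊓ Subgroup.centralizer ((S : Subgroup G) : Set G))).map (MulAut.conj g).toMonoidHom =
        omegaOne p (((g • S : Sylow p G) : Subgroup G) ⊓ Subgroup.centralizer (((g • S : Sylow p G) : Subgroup G) : Set G)) := by
    intro S g
    rw [omegaCenter_map _ (MulAut.conj g).injective]
    rfl
  have hJmap : ∀ (S : Sylow p G) (g : G),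
      (thompsonSubgroupOf p (S : Subgroup G)).map (MulAut.conj g).toMonoidHom =
        thompsonSubgroupOf p ((g • S : Sylow p G) : Subgroup G) := by
    intro S g
    rw [← thompsonOf_map]
    · rfl
    · exact (MulAut.conj g).injective.comp Subtype.val_injective
  have hJcent : ∀ S : Sylow p G, thompsonSubgroupOf p (S : Subgroup G) ≤
      Subgroup.centralizer ((omegaOne p ((S : Subgroup G) ⊓ Subgroup.centralizer ((S : Subgroup G) : Set G)) : Subgroup G) : Set G) := by
    intro S
    refine (Subgroup.map_subtype_le _).trans ?_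
    rw [Subgroup.le_centralizer_iff]
    exact (Subgroup.closure_le _).mpr fun x hx => hx.1.2
  constructor
  · intro hfac
    refine sSup_le fun A hA => ?_
    obtain ⟨T, hAT⟩ := (el_isPGroup hA.1).exists_le_sylow
    rw [Subgroup.le_centralizer_iff]
    refine iSup_le fun S => ?_
    rw [Subgroup.le_centralizer_iff]
    obtain ⟨g, rfl⟩ := MulAction.exists_smul_eq G S T
    obtain ⟨x, hx, c, hc, n, hn, rfl⟩ := hfac S g
    rw [hO, Subgroup.mem_bot] at hx
    subst hx
    have hAJ : A ≤ thompsonSubgroupOf p (((1 * c * n) • S : Sylow p G) : Subgroup G) := by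
      rw [thompsonOf_eq_sSup _ (exists_max_le_sylow _)]
      exact le_sSup ⟨hA, hAT⟩
    rw [one_mul, mul_smul, ← hJmap, ← hJmap,
      LocalBasic.conj_map_eq_of_mem_normalizer hn] at hAJ
    refine hAJ.trans ?_
    rintro _ ⟨y, hy, rfl⟩
    have hy' := hJcent S hy
    exact mul_mem (mul_mem hc hy') (inv_mem hc)
  · intro hle S g
    refine ⟨1, one_mem _, ?_⟩
    have hZn : Z.Normal := by
      refine Subgroup.normalizer_eq_top_iff.mp (eq_top_iff.mpr fun g _ => LocalBasic.mem_normalizer_of_conj_map_eq ?_)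
      rw [hZ, Subgroup.map_iSup]
      simp only [hOmap]
      exact (MulAction.toPerm g).iSup_comp
        (g := fun T : Sylow p G => omegaOne p ((T : Subgroup G) ⊓ Subgroup.centralizer ((T : Subgroup G) : Set G)))
    set C := Subgroup.centralizer (Z : Set G) with hC
    have hCn : C.Normal := inferInstance
    set U := (S : Subgroup G) ⊓ C with hU
    obtain ⟨P0, hP0⟩ := (S.2.to_le (inf_le_left : U ≤ _)).comap_subtype.exists_le_sylow (G := C)
    have hP0eq : (P0 : Subgroup C).map C.subtype = U := by
      symm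
      refine Subgroup.eq_of_le_of_card_ge ?_ ?_
      · have := Subgroup.map_mono (f := C.subtype) hP0
        rwa [show Subgroup.comap C.subtype U = U.subgroupOf C from rfl, Subgroup.map_subgroupOf_eq_of_le inf_le_right] at this
      · obtain ⟨T, hT⟩ := (P0.2.map C.subtype).exists_le_sylow
        obtain ⟨h, rfl⟩ := MulAction.exists_smul_eq G S T
        have hle' : (P0 : Subgroup C).map C.subtype ≤ U.map (MulAut.conj h).toMonoidHom := by
          intro x hx
          have hxS := hT hx
          rw [Sylow.coe_subgroup_smul] at hxS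
          obtain ⟨y, hy, rfl⟩ := hxS
          refine ⟨y, ⟨hy, ?_⟩, rfl⟩
          obtain ⟨z, -, hz⟩ := hx
          have h2 := hCn.conj_mem _ (hz ▸ z.2 : MulAut.conj h y ∈ C) h⁻¹
          simpa [mul_assoc] using h2
        calc Nat.card ((P0 : Subgroup C).map C.subtype) ≤ Nat.card (U.map (MulAut.conj h).toMonoidHom) :=
              Subgroup.card_le_of_le hle'
          _ = Nat.card U := Subgroup.card_map_of_injective (MulAut.conj h).injective
    have hfr : Subgroup.normalizer (U : Set G) ⊔ C = ⊤ := hP0eq ▸ P0.normalizer_sup_eq_top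
    have hJle : ∀ A ∈ maxElementaryAbelianSubgroups p G, A ≤ C := fun A hA => (le_sSup hA).trans hle
    have hJU : thompsonSubgroupOf p U = thompsonSubgroupOf p (S : Subgroup G) := by
      obtain ⟨A, hA, hAS⟩ := exists_max_le_sylow (p := p) S
      rw [thompsonOf_eq_sSup _ ⟨A, hA, le_inf hAS (hJle A hA)⟩, thompsonOf_eq_sSup _ ⟨A, hA, hAS⟩]
      congr 1
      ext B
      exact ⟨fun h => ⟨h.1, h.2.trans inf_le_left⟩, fun h => ⟨h.1, le_inf h.2 (hJle B h.1)⟩⟩
    obtain ⟨c, hc, n, hn0, e⟩ : ∃ c ∈ C, ∃ n ∈ Subgroup.normalizer (U : Set G), g = c * n := by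
      obtain ⟨c, hc, n, hn, e⟩ := Subgroup.mem_sup_of_normal_left.mp
        (show g ∈ C ⊔ Subgroup.normalizer (U : Set G) by rw [sup_comm, hfr]; trivial)
      exact ⟨c, hc, n, hn, e.symm⟩
    have hn : n ∈ Subgroup.normalizer (thompsonSubgroupOf p (S : Subgroup G) : Set G) := by
      refine LocalBasic.mem_normalizer_of_conj_map_eq ?_
      rw [← hJU, ← thompsonOf_map _ _ ((MulAut.conj n).injective.comp Subtype.val_injective),
        LocalBasic.conj_map_eq_of_mem_normalizer hn0]
    refine ⟨c, Subgroup.centralizer_le (SetLike.coe_subset_coe.mpr (le_iSup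
      (fun T : Sylow p G => omegaOne p ((T : Subgroup G) ⊓ Subgroup.centralizer ((T : Subgroup G) : Set G))) S)) hc,
      n, hn, by rw [one_mul, e]⟩

end Cfsg.Agent.S0608
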