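import Cfsg.Statements.S0609
import Cfsg.Agent.Lib.Core
import Cfsg.Agent.Lib.LocalBasic
import Cfsg.Agent.Lib.PConstrained
import Cfsg.Agent.Lib.PLocal.Omega
open CfsgLib CfsgLib.PLocal
open scoped commutatorElement Pointwise

set_option autoImplicit false
open Cfsg

namespace Cfsg.Agent.S0609

/-- Thompson factorizability passes to and from the quotient by the largest normal subgroup of order prime to p. -/
theorem result {G : Type*} [Group G] [Finite G] {p : ℕ} [Fact p.Prime] : Cfsg.IsThompsonFactorizable p G ↔ Cfsg.IsThompsonFactorizable p (G ⧸ Cfsg.pPrimeCore p G) := by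
  classical
  set K := Cfsg.pPrimeCore p G with hK
  set π := QuotientGroup.mk' K with hπ
  have hsurj := QuotientGroup.mk'_surjective K
  have hker : (Nat.card π.ker).Coprime p := by
    rw [hπ, QuotientGroup.ker_mk']; exact Core.card_pPrimeCore_coprime p
  have key : ∀ S : Sylow p G,
      Subgroup.centralizer ((omegaOne p (((S.mapSurjective hsurj : Subgroup (G ⧸ K))) ⊓
          Subgroup.centralizer ((S.mapSurjective hsurj : Subgroup (G ⧸ K)) : Set (G ⧸ K))) : Subgroup (G ⧸ K)) : Set (G ⧸ K)) =
        (Subgroup.centralizer ((omegaOne p ((S : Subgroup G) ⊓ Subgroup.centralizer ((S : Subgroup G) : Set G)) : Subgroup G) : Set G)).map π ∧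
      Subgroup.normalizer ((thompsonSubgroupOf p (S.mapSurjective hsurj : Subgroup (G ⧸ K)) : Subgroup (G ⧸ K)) : Set (G ⧸ K)) =
        (Subgroup.normalizer ((thompsonSubgroupOf p (S : Subgroup G) : Subgroup G) : Set G)).map π := by
    intro S
    have hinj : Function.Injective (π.comp (S : Subgroup G).subtype) := by
      rw [← MonoidHom.ker_eq_bot_iff, eq_bot_iff]
      rintro ⟨x, hx⟩ hxk
      have h1 : x ∈ (S : Subgroup G) ⊓ π.ker := ⟨hx, hxk⟩
      rw [PConstrained.inf_eq_bot_of_coprime S.2 hker, Subgroup.mem_bot] at h1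
      exact Subgroup.mem_bot.mpr (Subtype.ext h1)
    rw [Sylow.coe_mapSurjective]
    constructor
    · rw [← omegaCenter_map_of_injOn π _ hinj]
      refine (PConstrained.centralizer_map_eq π hsurj hker (S.2.to_le ?_)).symm
      exact (Subgroup.closure_le _).mpr fun x hx => hx.1.1
    · rw [thompsonOf_map π _ hinj]
      exact (PConstrained.normalizer_map_eq π hsurj hker (S.2.to_le (Subgroup.map_subtype_le _))).symm
  constructor
  · intro h T g
    obtain ⟨S, rfl⟩ := Sylow.mapSurjective_surjective hsurj p T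
    obtain ⟨g, rfl⟩ := hsurj g
    obtain ⟨x, hx, c, hc, n, hn, rfl⟩ := h S g
    refine ⟨1, one_mem _, π c, ?_, π n, ?_, ?_⟩
    · rw [(key S).1]; exact Subgroup.mem_map_of_mem π hc
    · rw [(key S).2]; exact Subgroup.mem_map_of_mem π hn
    · rw [map_mul, map_mul, one_mul, show π x = 1 from (QuotientGroup.eq_one_iff x).mpr hx, one_mul]
  · intro h S g
    obtain ⟨x, hx, c, hc, n, hn, e⟩ := h (S.mapSurjective hsurj) (π g)
    rw [Core.pPrimeCore_quotient_eq_bot, Subgroup.mem_bot] at hx
    subst hx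
    rw [(key S).1] at hc
    rw [(key S).2] at hn
    obtain ⟨c, hc, rfl⟩ := hc
    obtain ⟨n, hn, rfl⟩ := hn
    refine ⟨g * (c * n)⁻¹, ?_, c, hc, n, hn, by group⟩
    rw [← QuotientGroup.eq_one_iff]
    show π (g * (c * n)⁻¹) = 1
    rw [map_mul, map_inv, e, map_mul, one_mul, mul_inv_cancel]

end Cfsg.Agent.S0609
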