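import Cfsg.Statements.S0622
import Cfsg.Agent.Lib.Core
import Cfsg.Agent.Lib.LocalBasic
import Cfsg.Agent.Lib.PConstrained
import Cfsg.Agent.Lib.PLocal.Omega
open CfsgLib CfsgLib.PLocal
open scoped commutatorElement Pointwise

set_option autoImplicit false
universe u
open Cfsg

namespace Cfsg.Agent.S0622

theorem stable_comp {p : ℕ} {S S' H : Type u} [Group S] [Group S'] [Finite S] [Group H] (η : S ≃* S') (τ : S' →* H)
    (h : IsStableEmbedding p τ) : IsStableEmbedding p (τ.comp η.toMonoidHom) := by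
  have : Finite S' := Finite.of_equiv _ η.toEquiv
  obtain ⟨hinj, hfin, ⟨P, hP⟩, hcc, hJ, hst⟩ := h
  have hJeq : (thompsonSubgroup p S).map (τ.comp η.toMonoidHom) = (thompsonSubgroup p S').map τ := by
    rw [← thompson_map η, Subgroup.map_map]
  have hΩeq : (omegaCenterThompson p S).map (τ.comp η.toMonoidHom) = (omegaCenterThompson p S').map τ := by
    rw [← Subgroup.map_map, omegaCenterThompson, omegaCenterThompson, omegaCenter_map η.toMonoidHom η.injective,
      thompson_map η]
  refine ⟨hinj.comp η.injective, hfin, ⟨P, ?_⟩, hcc, hJeq ▸ hJ, fun V _ hV => hst V (hΩeq ▸ hV)⟩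
  rw [hP, MonoidHom.range_comp, MonoidHom.range_eq_top.mpr (show Function.Surjective η.toMonoidHom from η.surjective),
    ← MonoidHom.range_eq_map]

theorem stable_le {p : ℕ} {S S' : Type u} [Group S] [Group S'] [Finite S] (η : S ≃* S') :
    (stableNormalClosure p S).map η.toMonoidHom ≤ stableNormalClosure p S' := by
  refine le_sInf fun W' hW' => ?_
  rw [Subgroup.map_le_iff_le_comap]
  refine sInf_le ⟨?_, fun H _ τ hτ => ?_⟩
  · refine (Subgroup.closure_le _).mpr fun x hx => hW'.1 (Subgroup.subset_closure ⟨?_, ?_⟩)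
    · rw [Subgroup.mem_center_iff]
      intro z
      obtain ⟨z, rfl⟩ := η.surjective z
      simp only [MulEquiv.coe_toMonoidHom, ← map_mul, Subgroup.mem_center_iff.mp hx.1 z]
    · show (η x) ^ p = 1
      rw [← map_pow, hx.2, map_one]
  · have : Finite S' := Finite.of_equiv _ η.toEquiv
    have h1 := hW'.2 H _ (stable_comp η.symm τ hτ)
    rwa [← Subgroup.map_map, Subgroup.map_equiv_eq_comap_symm'] at h1

/-- Basic properties of the stable normal closure W(S) of Ω₁(Z(S)) in a finite p-group: characteristic, squeezed between Ω₁(Z(S)) and Ω₁(Z(J(S))), nontrivial for S ≠ 1, and transported by group isomorphisms. -/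
theorem result {S : Type u} [Group S] [Finite S] {p : ℕ} [Fact p.Prime] (hS : IsPGroup p S) : (Cfsg.stableNormalClosure p S).Characteristic ∧ Cfsg.omegaOne p (Subgroup.center S) ≤ Cfsg.stableNormalClosure p S ∧ Cfsg.stableNormalClosure p S ≤ Cfsg.omegaCenterThompson p S ∧ (Nontrivial S → Cfsg.stableNormalClosure p S ≠ ⊥) ∧ ∀ (S' : Type u) [Group S'] (η : S ≃* S'), (Cfsg.stableNormalClosure p S).map η.toMonoidHom = Cfsg.stableNormalClosure p S' := by
  classical
  set J := thompsonSubgroup p S with hJ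
  set Ω := omegaCenterThompson p S with hΩ
  have hZΩ : omegaOne p (Subgroup.center S) ≤ Ω := by
    refine (Subgroup.closure_le _).mpr fun z hz => Subgroup.subset_closure ⟨⟨?_, ?_⟩, hz.2⟩
    · obtain ⟨A, hA⟩ := exists_max (G := S) (p := p)
      exact (le_sSup hA : A ≤ J) (mem_of_max_of_commute hA hz.2 fun a _ => Subgroup.mem_center_iff.mp hz.1 a)
    · exact Subgroup.mem_centralizer_iff.mpr fun a _ => Subgroup.mem_center_iff.mp hz.1 a
  have hΩmem : ∀ (H : Type u) [Group H] (τ : S →* H), IsStableEmbedding p τ → (Ω.map τ).Normal := by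
    intro H _ τ hτ
    have hJn : (J.map τ).Normal := hτ.2.2.2.2.1
    rw [hΩ, omegaCenterThompson, omegaCenter_map τ hτ.1]
    refine ⟨fun x hx g => ?_⟩
    have hmap : (omegaOne p (J.map τ ⊓ Subgroup.centralizer (J.map τ : Set H))).map (MulAut.conj g).toMonoidHom =
        omegaOne p (J.map τ ⊓ Subgroup.centralizer (J.map τ : Set H)) := by
      rw [omegaCenter_map _ (MulAut.conj g).injective,
        LocalBasic.conj_map_eq_of_mem_normalizer (Subgroup.normalizer_eq_top_iff.mpr hJn ▸ Subgroup.mem_top g)]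
    rw [← hmap]
    exact ⟨x, hx, rfl⟩
  have heq : ∀ (S' : Type u) [Group S'] (η : S ≃* S'), (stableNormalClosure p S).map η.toMonoidHom = stableNormalClosure p S' := by
    intro S' _ η
    have : Finite S' := Finite.of_equiv _ η.toEquiv
    refine le_antisymm (stable_le η) ?_
    have h1 := Subgroup.map_mono (f := η.toMonoidHom) (stable_le (p := p) η.symm)
    rw [Subgroup.map_map] at h1
    have e : η.toMonoidHom.comp η.symm.toMonoidHom = MonoidHom.id S' := by ext x; simp
    rwa [e, Subgroup.map_id] at h1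
  refine ⟨Subgroup.characteristic_iff_map_eq.mpr fun e => heq S e, le_sInf fun W hW => hW.1, sInf_le ⟨hZΩ, hΩmem⟩, fun hnt hbot => ?_, heq⟩
  have hc : Subgroup.center S ≠ ⊥ := hS.bot_lt_center.ne'
  obtain ⟨⟨z, hz⟩, hz1⟩ := Subgroup.ne_bot_iff_exists_ne_one.mp hc
  obtain ⟨k, hk⟩ := IsPGroup.iff_orderOf.mp hS z
  have hk0 : k ≠ 0 := fun h => hz1 (Subtype.ext (orderOf_eq_one_iff.mp (by rw [hk, h, pow_zero])))
  have h2 : z ^ p ^ (k - 1) ∈ omegaOne p (Subgroup.center S) := Subgroup.subset_closure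
    ⟨pow_mem hz _, by rw [← pow_mul, ← pow_succ, Nat.sub_add_cancel (Nat.pos_of_ne_zero hk0), ← hk, pow_orderOf_eq_one]⟩
  have h3 : z ^ p ^ (k - 1) ∈ stableNormalClosure p S :=
    (show omegaOne p (Subgroup.center S) ≤ stableNormalClosure p S from le_sInf fun W hW => hW.1) h2
  rw [hbot, Subgroup.mem_bot] at h3
  have h4 := orderOf_dvd_of_pow_eq_one h3
  rw [hk] at h4
  have := (Nat.pow_dvd_pow_iff_le_right (Fact.out : p.Prime).one_lt).mp h4
  omega

end Cfsg.Agent.S0622
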