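import Cfsg.Statements.S0623
import Cfsg.Agent.S0622

set_option autoImplicit false
open Cfsg

namespace Cfsg.Agent.S0623

open scoped commutatorElement
open Subgroup

theorem quad_iff {G : Type*} [Group G] (V : Subgroup G) (y : G) :
    ⁅⁅V, zpowers y⁆, zpowers y⁆ = ⊥ ↔ ∀ v ∈ V, Commute y ⁅v, y⁆ := by
  constructor
  · intro h v hv
    have h1 := commutator_mem_commutator (commutator_mem_commutator hv (mem_zpowers y)) (mem_zpowers y)
    rw [h, mem_bot, commutatorElement_eq_one_iff_commute] at h1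
    exact h1.symm
  · intro h
    rw [commutator_eq_bot_iff_le_centralizer, commutator_le]
    intro v hv z hz
    rw [mem_centralizer_iff]
    obtain ⟨i, rfl⟩ := mem_zpowers_iff.mp hz
    suffices hc : Commute y ⁅v, y ^ i⁆ by
      intro w hw
      obtain ⟨j, rfl⟩ := mem_zpowers_iff.mp hw
      exact (hc.zpow_left j).eq
    induction i with
    | zero => simp
    | succ i ih =>
      have e : ⁅v, y ^ ((i : ℤ) + 1)⁆ = ⁅v, y⁆ * (y * ⁅v, y ^ (i : ℤ)⁆ * y⁻¹) := by
        rw [_root_.zpow_add_one, commutatorElement_def, commutatorElement_def, commutatorElement_def]; group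
      rw [e]
      exact (h v hv).mul_right (((Commute.refl y).mul_right (ih (zpow_mem (mem_zpowers y) _))).mul_right (Commute.refl y).inv_right)
    | pred i ih =>
      have e : ⁅v, y ^ (-(i : ℤ) - 1)⁆ = y⁻¹ * ⁅v, y⁆⁻¹ * y * (y⁻¹ * ⁅v, y ^ (-(i : ℤ))⁆ * y) := by
        rw [_root_.zpow_sub_one, commutatorElement_def, commutatorElement_def, commutatorElement_def]; group
      rw [e]
      exact (((Commute.refl y).inv_right.mul_right (h v hv).inv_right).mul_right (Commute.refl y)).mul_right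
        (((Commute.refl y).inv_right.mul_right (ih (zpow_mem (mem_zpowers y) _))).mul_right (Commute.refl y))


/-- No element of a finite p-group acts quadratically and nontrivially on the stable normal closure W(S). -/
theorem result {S : Type*} [Group S] [Finite S] {p : ℕ} [Fact p.Prime] (hS : IsPGroup p S) (x : S) (hq : ⁅⁅Cfsg.stableNormalClosure p S, Subgroup.zpowers x⁆, Subgroup.zpowers x⁆ = ⊥) : ⁅Cfsg.stableNormalClosure p S, Subgroup.zpowers x⁆ = ⊥ := by
  classical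
  set W := Cfsg.stableNormalClosure p S with hWdef
  have hΩ := (Cfsg.Agent.S0622.result (p := p) hS).2.2.1
  let T : Set S := {y | ⁅⁅W, zpowers y⁆, zpowers y⁆ = ⊥}
  have hx : x ∈ T := hq
  suffices hle : W ≤ W ⊓ centralizer T by
    rw [commutator_eq_bot_iff_le_centralizer]
    intro v hv
    rw [mem_centralizer_iff]
    intro z hz
    obtain ⟨j, rfl⟩ := mem_zpowers_iff.mp hz
    exact ((show Commute x v from mem_centralizer_iff.mp (mem_inf.mp (hle hv)).2 x hx).zpow_left j).eq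
  refine sInf_le ⟨le_inf (le_sInf fun W' hW' => hW'.1) ?_, fun H _ τ hτ => ?_⟩
  · refine (closure_le _).mpr fun z hz => mem_centralizer_iff.mpr fun y _ => ?_
    exact mem_center_iff.mp hz.1 y
  obtain ⟨hinj, hfin, ⟨P, hP⟩, -, -, hst⟩ := id hτ
  haveI : (W.map τ).Normal := by
    refine ⟨?_⟩
    rintro _ ⟨w, hw, rfl⟩ g
    obtain ⟨y, hy⟩ : ∃ y, τ y = g * τ w * g⁻¹ := by
      have hmem := (Subgroup.Normal.conj_mem (H := (Cfsg.omegaCenterThompson p S).map τ) ?_ _ ⟨w, hΩ hw, rfl⟩ g)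
      · obtain ⟨y, -, hy⟩ := hmem; exact ⟨y, hy⟩
      · have hJn : ((Cfsg.thompsonSubgroup p S).map τ).Normal := hτ.2.2.2.2.1
        rw [Cfsg.omegaCenterThompson, CfsgLib.PLocal.omegaCenter_map τ hinj]
        refine ⟨fun z hz g => ?_⟩
        have hmap : (Cfsg.omegaOne p ((Cfsg.thompsonSubgroup p S).map τ ⊓ centralizer ((Cfsg.thompsonSubgroup p S).map τ : Set H))).map (MulAut.conj g).toMonoidHom =
            Cfsg.omegaOne p ((Cfsg.thompsonSubgroup p S).map τ ⊓ centralizer ((Cfsg.thompsonSubgroup p S).map τ : Set H)) := by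
          rw [CfsgLib.PLocal.omegaCenter_map _ (MulAut.conj g).injective,
            CfsgLib.LocalBasic.conj_map_eq_of_mem_normalizer (Subgroup.normalizer_eq_top_iff.mpr hJn ▸ Subgroup.mem_top g)]
        rw [← hmap]
        exact ⟨z, hz, rfl⟩
    refine ⟨y, ?_, hy⟩
    refine mem_sInf.mpr fun W' hW' => ?_
    obtain ⟨y', hy', e⟩ := (hW'.2 H τ hτ).conj_mem _ ⟨w, mem_sInf.mp hw W' hW', rfl⟩ g
    exact hinj (e.trans hy.symm) ▸ hy'
  have hstab := hst (W.map τ) (map_mono hΩ)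
  set D := centralizer ((W.map τ : Subgroup H) : Set H) with hD
  have hdecomp : ∀ l : H, (QuotientGroup.mk l : H ⧸ D) ∈ Cfsg.pCore p (H ⧸ D) → ∃ s : S, ∃ d ∈ D, l = τ s * d := by
    intro l hl
    have hle : Cfsg.pCore p (H ⧸ D) ≤ (P : Subgroup H).map (QuotientGroup.mk' D) :=
      CfsgLib.Core.pCore_le_sylow (P.mapSurjective (QuotientGroup.mk'_surjective D))
    obtain ⟨u, hu, e⟩ := hle hl
    rw [SetLike.mem_coe, hP] at hu
    obtain ⟨s, rfl⟩ := hu
    exact ⟨s, (τ s)⁻¹ * l, (QuotientGroup.eq).mp e, by group⟩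
  have hquad : ∀ s : S, s ∈ T ↔ ∀ v ∈ W.map τ, Commute (τ s) ⁅v, τ s⁆ := by
    intro s
    show ⁅⁅W, zpowers s⁆, zpowers s⁆ = ⊥ ↔ _
    rw [quad_iff]
    constructor
    · rintro h _ ⟨v, hv, rfl⟩
      rw [← map_commutatorElement]; exact (h v hv).map τ
    · intro h v hv
      have h1 := h _ ⟨v, hv, rfl⟩
      rw [← map_commutatorElement] at h1
      exact hinj (by simpa [map_mul] using h1.eq)
  refine ⟨?_⟩
  rintro _ ⟨w, ⟨hwW, hwT⟩, rfl⟩ g
  obtain ⟨w', hw', e⟩ := (inferInstance : (W.map τ).Normal).conj_mem _ ⟨w, hwW, rfl⟩ g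
  refine ⟨w', ⟨hw', mem_centralizer_iff.mpr fun y hy => hinj ?_⟩, e⟩
  have hy' := (hquad y).mp hy
  set l := g⁻¹ * τ y * g with hl
  have hlq : ∀ v ∈ W.map τ, Commute l ⁅v, l⁆ := by
    intro v hv
    have h1 := (hy' _ ((inferInstance : (W.map τ).Normal).conj_mem v hv g)).map (MulAut.conj g⁻¹).toMonoidHom
    simp only [map_commutatorElement, MulEquiv.coe_toMonoidHom, MulAut.conj_apply, inv_inv] at h1
    rw [show g⁻¹ * (g * v * g⁻¹) * g = v by group] at h1
    exact h1
  obtain ⟨s, d, hd, hsd⟩ := hdecomp l (hstab l ((quad_iff _ _).mpr hlq))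
  have hs : s ∈ T := (hquad s).mpr fun v hv => by
    have hc : ∀ u ∈ W.map τ, Commute d u := fun u hu => ((mem_centralizer_iff.mp hd u hu).symm : d * u = u * d)
    have h1 : ⁅v, l⁆ = ⁅v, τ s⁆ := by
      rw [hsd, commutatorElement_def, commutatorElement_def]
      calc v * (τ s * d) * v⁻¹ * (τ s * d)⁻¹ = v * τ s * (d * v⁻¹) * d⁻¹ * (τ s)⁻¹ := by group
        _ = v * τ s * (v⁻¹ * d) * d⁻¹ * (τ s)⁻¹ := by rw [(hc v⁻¹ (inv_mem hv)).eq]
        _ = _ := by group
    have h2 : ⁅v, τ s⁆ ∈ W.map τ := by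
      rw [commutatorElement_def, mul_assoc v, mul_assoc v]
      exact mul_mem hv ((inferInstance : (W.map τ).Normal).conj_mem _ (inv_mem hv) (τ s))
    have h3 := hlq v hv
    rw [h1, hsd] at h3
    show τ s * ⁅v, τ s⁆ = ⁅v, τ s⁆ * τ s
    refine mul_right_cancel (b := d) ?_
    calc τ s * ⁅v, τ s⁆ * d = τ s * d * ⁅v, τ s⁆ := by rw [mul_assoc, ← (hc _ h2).eq, mul_assoc]
      _ = ⁅v, τ s⁆ * (τ s * d) := h3.eq
      _ = _ := by rw [mul_assoc]
  have hfix : Commute l (τ w) := by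
    rw [hsd]
    exact ((show Commute s w from mem_centralizer_iff.mp hwT s hs).map τ).mul_left
      ((mem_centralizer_iff.mp hd _ ⟨w, hwW, rfl⟩).symm : d * τ w = τ w * d)
  have h4 := hfix.map (MulAut.conj g).toMonoidHom
  simp only [MulEquiv.coe_toMonoidHom, MulAut.conj_apply] at h4
  rw [hl, show g * (g⁻¹ * τ y * g) * g⁻¹ = τ y by group] at h4
  rw [map_mul, map_mul, e]
  exact h4.eq

end Cfsg.Agent.S0623
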