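import Cfsg.Statements.S0624
import Cfsg.Agent.S0623
import Cfsg.Agent.Lib.ExponentSix
import Cfsg.Agent.Lib.PReduced
import Cfsg.Agent.Lib.PLocal.CommutatorDescent

set_option autoImplicit false
open Cfsg

namespace Cfsg.Agent.S0624

open scoped commutatorElement
open Subgroup

variable {G : Type*} [Group G] [Finite G] {p : ℕ} [Fact p.Prime]

/-- A maximal elementary abelian subgroup by order inside `S`. -/
def MaxS (p : ℕ) (S A : Subgroup G) : Prop :=
  A ≤ S ∧ Cfsg.IsElementaryAbelian p A ∧ ∀ B ≤ S, Cfsg.IsElementaryAbelian p B → Nat.card B ≤ Nat.card A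

theorem maxS_le_J {S A : Subgroup G} (h : MaxS p S A) : A ≤ Cfsg.thompsonSubgroupOf p S := by
  have hmem : A.subgroupOf S ∈ Cfsg.maxElementaryAbelianSubgroups p S := by
    refine ⟨CfsgLib.PLocal.el_comap S.subtype S.subtype_injective h.2.1, fun B hB => ?_⟩
    rw [Nat.card_congr (B.equivMapOfInjective _ S.subtype_injective).toEquiv,
      Nat.card_congr (Subgroup.subgroupOfEquivOfLe h.1).toEquiv]
    exact h.2.2 _ (map_subtype_le B) (CfsgLib.PLocal.el_map S.subtype hB)
  rw [show A = (A.subgroupOf S).map S.subtype by rw [subgroupOf_map_subtype, inf_eq_left.2 h.1]]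
  exact map_mono (le_sSup hmem)

theorem J_le {S U : Subgroup G} (hU : ∀ A, MaxS p S A → A ≤ U) : Cfsg.thompsonSubgroupOf p S ≤ U := by
  rw [Cfsg.thompsonSubgroupOf, map_le_iff_le_comap]
  refine sSup_le fun B hB => ?_
  rw [← map_le_iff_le_comap]
  refine hU _ ⟨map_subtype_le B, CfsgLib.PLocal.el_map S.subtype hB.1, fun C hCS hC => ?_⟩
  rw [card_map_of_injective S.subtype_injective, ← Nat.card_congr (Subgroup.subgroupOfEquivOfLe hCS).toEquiv]
  exact hB.2 _ (CfsgLib.PLocal.el_comap S.subtype S.subtype_injective hC)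

theorem el_of_comm {A : Subgroup G} (hc : ∀ x ∈ A, ∀ y ∈ A, x * y = y * x) (hp : ∀ x ∈ A, x ^ p = 1) :
    Cfsg.IsElementaryAbelian p A :=
  ⟨⟨⟨fun x y => Subtype.ext (hc x x.2 y y.2)⟩⟩, hp⟩

theorem el_comm {A : Subgroup G} (h : Cfsg.IsElementaryAbelian p A) {x y : G} (hx : x ∈ A) (hy : y ∈ A) : x * y = y * x :=
  congrArg Subtype.val (h.1.is_comm.comm (⟨x, hx⟩ : A) ⟨y, hy⟩)


/-- The analogue of the ZJ-Theorem: in an action-p-stable group whose largest normal p-subgroup contains its centralizer, the characteristic subgroup W(S) of a Sylow p-subgroup S is normal. -/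
theorem result {G : Type*} [Group G] [Finite G] {p : ℕ} [Fact p.Prime] (hst : Cfsg.IsActionPStable p G) (hc : Subgroup.centralizer (Cfsg.pCore p G : Set G) ≤ Cfsg.pCore p G) (S : Sylow p G) : (((Cfsg.stableNormalClosure p ↥(S : Subgroup G)).map (S : Subgroup G).subtype)).Normal := by
  classical
  set Q := Cfsg.pCore p G with hQdef
  haveI hQn : Q.Normal := Cfsg.pCore_normal p G
  have hQp : IsPGroup p Q := CfsgLib.Core.isPGroup_pCore p
  have hQS : Q ≤ (S : Subgroup G) := CfsgLib.Core.pCore_le_sylow S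
  set Wg := (Cfsg.stableNormalClosure p ↥(S : Subgroup G)).map (S : Subgroup G).subtype with hWg
  set J := Cfsg.thompsonSubgroupOf p (S : Subgroup G) with hJdef
  have hWS : Wg ≤ (S : Subgroup G) := map_subtype_le _
  have hWΩ : Cfsg.stableNormalClosure p ↥(S : Subgroup G) ≤ Cfsg.omegaCenterThompson p ↥(S : Subgroup G) :=
    (Cfsg.Agent.S0622.result (p := p) S.2).2.2.1
  have hWcent : ∀ w ∈ Wg, ∀ j ∈ J, w * j = j * w := by
    rintro _ ⟨w, hw, rfl⟩ _ ⟨j, hj, rfl⟩
    have hle : Cfsg.omegaCenterThompson p ↥(S : Subgroup G) ≤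
        centralizer (Cfsg.thompsonSubgroup p ↥(S : Subgroup G) : Set ↥(S : Subgroup G)) :=
      (closure_le _).mpr fun z hz => hz.1.2
    show (w : G) * j = j * w
    exact congrArg Subtype.val (mem_centralizer_iff.mp (hle (hWΩ hw)) j hj).symm
  have hWel : Cfsg.IsElementaryAbelian p Wg := by
    refine CfsgLib.PLocal.el_map _ (CfsgLib.PLocal.el_mono ?_ hWΩ)
    have hc' : ∀ x ∈ {x : ↥(S : Subgroup G) | x ∈ Cfsg.thompsonSubgroup p ↥(S : Subgroup G) ⊓
        centralizer (Cfsg.thompsonSubgroup p ↥(S : Subgroup G) : Set _) ∧ x ^ p = 1},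
        ∀ y ∈ {x : ↥(S : Subgroup G) | x ∈ Cfsg.thompsonSubgroup p ↥(S : Subgroup G) ⊓
        centralizer (Cfsg.thompsonSubgroup p ↥(S : Subgroup G) : Set _) ∧ x ^ p = 1}, x * y = y * x :=
      fun x hx y hy => mem_centralizer_iff.mp hy.1.2 x hx.1.1
    have := CfsgLib.Glauberman.abExp_closure (e := p) hc' fun x hx => hx.2
    exact ⟨⟨⟨fun a b => Subtype.ext (this.1 a a.2 b b.2)⟩⟩, this.2⟩
  -- `W` is normal in `N(J)`
  have hSN : (S : Subgroup G) ≤ normalizer (J : Set G) := by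
    haveI := CfsgLib.PLocal.thompson_characteristic (G := ↥(S : Subgroup G)) (p := p)
    intro x hx
    refine CfsgLib.Glauberman.mem_normalizer_of_conj_mem ?_
    rintro _ ⟨j, hj, rfl⟩
    exact ⟨⟨x, hx⟩ * j * ⟨x, hx⟩⁻¹, (inferInstance : (Cfsg.thompsonSubgroup p ↥(S : Subgroup G)).Normal).conj_mem j hj _, rfl⟩
  set N := normalizer (J : Set G) with hNdef
  have hτ : Cfsg.IsStableEmbedding p (Subgroup.inclusion hSN) := by
    refine ⟨Subgroup.inclusion_injective hSN, inferInstance, ⟨S.subtype hSN, ?_⟩, ?_, ?_, ?_⟩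
    · rw [Sylow.coe_subtype]; exact (Subgroup.inclusion_range hSN).symm
    · intro x hx
      have hQN : Q.subgroupOf N ≤ Cfsg.pCore p N :=
        CfsgLib.Core.le_pCore inferInstance (hQp.comap_of_injective N.subtype N.subtype_injective)
      have hxQ : (x : G) ∈ Q := hc (mem_centralizer_iff.mpr fun q hq => congrArg Subtype.val
        (mem_centralizer_iff.mp hx ⟨q, hSN (hQS hq)⟩ (hQN hq)))
      exact hQN hxQ
    · refine ⟨fun x hx g => ?_⟩
      obtain ⟨j, hj, rfl⟩ := hx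
      have h1 : ((g : G) * (j : G) * (g : G)⁻¹) ∈ J := (mem_normalizer_iff.mp g.2 _).mp ⟨j, hj, rfl⟩
      obtain ⟨j', hj', e⟩ := h1
      exact ⟨j', hj', Subtype.ext e⟩
    · intro V hVn hV
      exact @hst.2.2 S V hVn (by
        have := map_mono (f := N.subtype) hV
        rwa [map_map, show N.subtype.comp (Subgroup.inclusion hSN) = (S : Subgroup G).subtype from by ext; rfl] at this)
  have hWn : ((Cfsg.stableNormalClosure p ↥(S : Subgroup G)).map (Subgroup.inclusion hSN)).Normal := by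
    refine ⟨?_⟩
    rintro _ ⟨w, hw, rfl⟩ g
    have hnormΩ : ((Cfsg.omegaCenterThompson p ↥(S : Subgroup G)).map (Subgroup.inclusion hSN)).Normal := by
      haveI hJn := hτ.2.2.2.2.1
      rw [Cfsg.omegaCenterThompson, CfsgLib.PLocal.omegaCenter_map _ hτ.1]
      refine ⟨fun z hz g => ?_⟩
      have hmap : (Cfsg.omegaOne p ((Cfsg.thompsonSubgroup p ↥(S : Subgroup G)).map (Subgroup.inclusion hSN) ⊓
          centralizer ((Cfsg.thompsonSubgroup p ↥(S : Subgroup G)).map (Subgroup.inclusion hSN) : Set ↥N))).map (MulAut.conj g).toMonoidHom =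
          Cfsg.omegaOne p ((Cfsg.thompsonSubgroup p ↥(S : Subgroup G)).map (Subgroup.inclusion hSN) ⊓
          centralizer ((Cfsg.thompsonSubgroup p ↥(S : Subgroup G)).map (Subgroup.inclusion hSN) : Set ↥N)) := by
        rw [CfsgLib.PLocal.omegaCenter_map _ (MulAut.conj g).injective,
          CfsgLib.LocalBasic.conj_map_eq_of_mem_normalizer (Subgroup.normalizer_eq_top_iff.mpr hJn ▸ Subgroup.mem_top g)]
      rw [← hmap]
      exact ⟨z, hz, rfl⟩
    obtain ⟨y, -, hy⟩ := hnormΩ.conj_mem _ ⟨w, hWΩ hw, rfl⟩ g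
    refine ⟨y, mem_sInf.mpr fun W' hW' => ?_, hy⟩
    obtain ⟨y', hy', e⟩ := (hW'.2 _ _ hτ).conj_mem _ ⟨w, mem_sInf.mp hw W' hW', rfl⟩ g
    exact hτ.1 (e.trans hy.symm) ▸ hy'
  have hNW : ∀ g ∈ N, ∀ w ∈ Wg, g * w * g⁻¹ ∈ Wg := by
    rintro g hg _ ⟨w, hw, rfl⟩
    obtain ⟨y, hy, e⟩ := hWn.conj_mem _ ⟨w, hw, rfl⟩ ⟨g, hg⟩
    exact ⟨y, hy, congrArg Subtype.val e⟩
  have hSW : ∀ g ∈ (S : Subgroup G), ∀ w ∈ Wg, g * w * g⁻¹ ∈ Wg := fun g hg => hNW g (hSN hg)
  -- `W ≤ O_p(G)`
  have hWQ : Wg ≤ Q := by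
    intro a ha
    set Φ := (frattini ↥Q).map Q.subtype with hΦ
    have hq : ⁅⁅Q, zpowers a⁆, zpowers a⁆ ≤ Φ := by
      refine le_of_eq_of_le ?_ bot_le
      rw [commutator_eq_bot_iff_le_centralizer]
      refine le_trans (b := Wg) ?_ ?_
      · rw [commutator_le]
        intro q hq z hz
        have hzW : z ∈ Wg := zpowers_le.mpr ha hz
        rw [commutatorElement_def]
        exact mul_mem (hSW q (hQS hq) z hzW) (inv_mem hzW)
      · exact fun w hw => mem_centralizer_iff.mpr fun z hz => el_comm hWel (zpowers_le.mpr ha hz) hw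
    obtain ⟨D, hDn, hCD, ⟨k, hk⟩, haD⟩ := hst.2.1 a hq
    have hker : IsPGroup p (Cfsg.sectionKernel Q Φ) := CfsgLib.ExponentSix.isPGroup_of_trivial hQp (hQp.to_le hc)
      fun g hg x => by
        have h1 : ⁅g, (x : G)⁆ ∈ Φ := by
          rw [← QuotientGroup.eq_one_iff (N := Φ), ← QuotientGroup.mk'_apply, map_commutatorElement,
            commutatorElement_eq_one_iff_commute]
          exact (mem_centralizer_iff.mp hg _ ⟨(x : G), x.2, rfl⟩).symm
        obtain ⟨y, hy, e⟩ := h1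
        have e' : (MulAut.conjNormal g : MulAut Q) x * x⁻¹ = y := Subtype.ext (by
          rw [Subgroup.coe_mul, MulAut.conjNormal_apply, Subgroup.coe_inv, ← commutatorElement_def]; exact e.symm)
        rw [e']; exact hy
    have hDp : IsPGroup p D := by
      obtain ⟨j, hj⟩ := hker.exists_card_eq
      refine IsPGroup.of_card (n := j + k) ?_
      rw [pow_add, ← hj, ← hk]
      rw [← Subgroup.relIndex_bot_left D, ← Subgroup.relIndex_bot_left (Cfsg.sectionKernel Q Φ)]
      exact (Subgroup.relIndex_mul_relIndex ⊥ _ D bot_le hCD).symm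
    exact CfsgLib.Core.le_pCore hDn hDp haD
  -- `V`
  set V := normalClosure (Wg : Set G) with hVdef
  have hVQ : V ≤ Q := normalClosure_le_normal hWQ
  have hquad : ∀ g : G, ∀ x ∈ Wg, ∀ w ∈ Wg, (g * x * g⁻¹) * w = w * (g * x * g⁻¹) := by
    intro g x hx w hw
    have hxQ : g * x * g⁻¹ ∈ Q := hQn.conj_mem x (hWQ hx) g
    have hQW : ∀ q ∈ Q, ∀ y ∈ Wg, q * (g * y * g⁻¹) * q⁻¹ ∈ Wg.map (MulAut.conj g).toMonoidHom := by
      intro q hq y hy
      refine ⟨(g⁻¹ * q * g) * y * (g⁻¹ * q * g)⁻¹, hSW _ (hQS (by simpa using hQn.conj_mem q hq g⁻¹)) y hy, ?_⟩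
      show g * ((g⁻¹ * q * g) * y * (g⁻¹ * q * g)⁻¹) * g⁻¹ = _
      group
    set xs : ↥(S : Subgroup G) := ⟨g * x * g⁻¹, hQS hxQ⟩ with hxs
    have h1 : ⁅⁅Cfsg.stableNormalClosure p ↥(S : Subgroup G), zpowers xs⁆, zpowers xs⁆ = ⊥ := by
      rw [Cfsg.Agent.S0623.quad_iff]
      intro v hv
      show xs * ⁅v, xs⁆ = ⁅v, xs⁆ * xs
      apply Subtype.ext
      obtain ⟨u, hu, e⟩ := hQW v (hWQ ⟨v, hv, rfl⟩) x hx
      have e' : ((⁅v, xs⁆ : ↥(S : Subgroup G)) : G) = (g * u * g⁻¹) * (g * x * g⁻¹)⁻¹ := by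
        show (v : G) * (g * x * g⁻¹) * (v : G)⁻¹ * (g * x * g⁻¹)⁻¹ = _
        rw [← e]; rfl
      rw [Subgroup.coe_mul, Subgroup.coe_mul, e']
      have hux : u * x = x * u := el_comm hWel hu hx
      calc g * x * g⁻¹ * (g * u * g⁻¹ * (g * x * g⁻¹)⁻¹) = g * (x * u) * x⁻¹ * g⁻¹ := by group
        _ = g * (u * x) * x⁻¹ * g⁻¹ := by rw [hux]
        _ = g * u * g⁻¹ * (g * x * g⁻¹)⁻¹ * (g * x * g⁻¹) := by group
    have h2 := Cfsg.Agent.S0623.result S.2 xs h1
    obtain ⟨w', hw', rfl⟩ := hw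
    have h3 := commutator_mem_commutator hw' (mem_zpowers xs)
    rw [h2, mem_bot, commutatorElement_eq_one_iff_commute] at h3
    exact (congrArg Subtype.val h3.eq).symm
  have hVel : Cfsg.IsElementaryAbelian p V := by
    have hc' : ∀ x ∈ Group.conjugatesOfSet (Wg : Set G), ∀ y ∈ Group.conjugatesOfSet (Wg : Set G), x * y = y * x := by
      intro x hx y hy
      obtain ⟨u, hu, hux⟩ := Group.mem_conjugatesOfSet_iff.mp hx
      obtain ⟨v, hv, hvy⟩ := Group.mem_conjugatesOfSet_iff.mp hy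
      obtain ⟨g, rfl⟩ := isConj_iff.mp hux
      obtain ⟨h, rfl⟩ := isConj_iff.mp hvy
      have := hquad (h⁻¹ * g) u hu v hv
      calc g * u * g⁻¹ * (h * v * h⁻¹) = h * (h⁻¹ * g * u * (h⁻¹ * g)⁻¹ * v) * h⁻¹ := by group
        _ = h * (v * (h⁻¹ * g * u * (h⁻¹ * g)⁻¹)) * h⁻¹ := by rw [this]
        _ = _ := by group
    have := CfsgLib.Glauberman.abExp_closure (e := p) hc' fun x hx => by
      obtain ⟨u, hu, hux⟩ := Group.mem_conjugatesOfSet_iff.mp hx
      obtain ⟨g, rfl⟩ := isConj_iff.mp hux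
      rw [conj_pow, hWel.2 u hu]; group
    exact el_of_comm this.1 this.2
  have hWV : Wg ≤ V := le_normalClosure
  set C := centralizer (V : Set G) with hC
  set L := (Cfsg.pCore p (G ⧸ C)).comap (QuotientGroup.mk' C) with hL
  haveI : (Cfsg.pCore p (G ⧸ C)).Normal := Cfsg.pCore_normal p _
  haveI hLn : L.Normal := Subgroup.Normal.comap inferInstance _
  have hCL : C ≤ L := fun c hc => by
    rw [hL, mem_comap]
    rw [show (QuotientGroup.mk' C) c = 1 from (QuotientGroup.eq_one_iff c).mpr hc]; exact one_mem _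
  -- elements of `L` normalise `W`
  have hLW : ∀ l ∈ L, ∀ w ∈ Wg, l * w * l⁻¹ ∈ Wg := by
    intro l hl w hw
    have hle : Cfsg.pCore p (G ⧸ C) ≤ (S : Subgroup G).map (QuotientGroup.mk' C) :=
      CfsgLib.Core.pCore_le_sylow (S.mapSurjective (QuotientGroup.mk'_surjective C))
    obtain ⟨s, hs, e⟩ := hle hl
    have hd : s⁻¹ * l ∈ C := QuotientGroup.eq.mp e
    have hcw : (s⁻¹ * l) * w = w * (s⁻¹ * l) := (mem_centralizer_iff.mp hd w (hWV hw)).symm
    have : l * w * l⁻¹ = s * w * s⁻¹ := by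
      calc l * w * l⁻¹ = s * ((s⁻¹ * l) * w) * (s⁻¹ * l)⁻¹ * s⁻¹ := by group
        _ = _ := by rw [hcw]; group
    rw [this]; exact hSW s hs w hw
  have hLnorm : ∀ l ∈ L, l ∈ normalizer (Wg : Set G) := fun l hl =>
    CfsgLib.Glauberman.mem_normalizer_of_conj_mem (hLW l hl)
  -- conjugate a subgroup of `L` into `S`
  have hconj : ∀ X : Subgroup G, X ≤ L → IsPGroup p X → ∃ l ∈ L, X.map (MulAut.conj l).toMonoidHom ≤ (S : Subgroup G) := by
    intro X hXL hXp
    obtain ⟨P, hP⟩ := CfsgLib.PReduced.exists_sylow_inf S (C := L) (Subgroup.normalizer_eq_top_iff.mpr hLn ▸ le_top)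
    obtain ⟨T, hT⟩ := (hXp.comap_subtype (K := L)).exists_le_sylow
    obtain ⟨l, hl⟩ := MulAction.exists_smul_eq L T P
    refine ⟨l, l.2, ?_⟩
    rintro _ ⟨x, hx, rfl⟩
    have hxT : l * ⟨x, hXL hx⟩ * l⁻¹ ∈ (P : Subgroup L) := by
      rw [← hl, Sylow.coe_subgroup_smul]
      exact Subgroup.smul_mem_pointwise_smul _ (MulAut.conj l) _ (hT hx)
    rw [hP] at hxT
    exact (mem_inf.mp (mem_subgroupOf.mp hxT)).1
  have hmaxconj : ∀ A, MaxS p (S : Subgroup G) A → ∀ g : G, A.map (MulAut.conj g).toMonoidHom ≤ (S : Subgroup G) →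
      MaxS p (S : Subgroup G) (A.map (MulAut.conj g).toMonoidHom) := fun A hA g hle => by
    refine ⟨hle, CfsgLib.PLocal.el_map _ hA.2.1, fun B hB hBe => ?_⟩
    rw [card_map_of_injective (MulAut.conj g).injective]; exact hA.2.2 B hB hBe
  -- a member inside `L` contains `V`
  have hinL : ∀ A, MaxS p (S : Subgroup G) A → A ≤ L → V ≤ A := by
    intro A hA hAL
    refine (closure_le A).mpr fun x hx => ?_
    obtain ⟨w, hw, hwx⟩ := Group.mem_conjugatesOfSet_iff.mp hx
    obtain ⟨g, rfl⟩ := isConj_iff.mp hwx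
    have hxS : g * w * g⁻¹ ∈ (S : Subgroup G) := hQS (hQn.conj_mem w (hWQ hw) g)
    have hX : A.map (MulAut.conj g⁻¹).toMonoidHom ≤ L := by
      rintro _ ⟨a, ha, rfl⟩; exact hLn.conj_mem a (hAL ha) _
    obtain ⟨l, hl, hlS⟩ := hconj _ hX ((S.2.to_le hA.1).map _)
    rw [map_map, show (MulAut.conj l).toMonoidHom.comp (MulAut.conj g⁻¹).toMonoidHom = (MulAut.conj (l * g⁻¹)).toMonoidHom by
      ext; simp [mul_assoc]] at hlS
    have hJ := maxS_le_J (hmaxconj A hA _ hlS)
    have hcomm : ∀ a ∈ A, a * (g * w * g⁻¹) = (g * w * g⁻¹) * a := by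
      intro a ha
      have h1 := hWcent _ (hLW l hl w hw) _ (hJ ⟨a, ha, rfl⟩)
      simp only [MulEquiv.coe_toMonoidHom, MulAut.conj_apply] at h1
      calc a * (g * w * g⁻¹) = g * l⁻¹ * ((l * g⁻¹ * a * (l * g⁻¹)⁻¹) * (l * w * l⁻¹)) * (g * l⁻¹)⁻¹ := by group
        _ = g * l⁻¹ * ((l * w * l⁻¹) * (l * g⁻¹ * a * (l * g⁻¹)⁻¹)) * (g * l⁻¹)⁻¹ := by rw [h1]
        _ = _ := by group
    have hel : Cfsg.IsElementaryAbelian p (A ⊔ zpowers (g * w * g⁻¹) : Subgroup G) :=
      CfsgLib.PLocal.el_sup hA.2.1 (CfsgLib.PLocal.el_zpowers (by rw [conj_pow, hWel.2 w hw]; group)) fun a ha y hy => by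
        obtain ⟨j, rfl⟩ := mem_zpowers_iff.mp hy
        exact ((show Commute a (g * w * g⁻¹) from hcomm a ha).zpow_right j).eq
    have hcard := hA.2.2 _ (sup_le hA.1 (zpowers_le.mpr hxS)) hel
    rw [eq_of_le_of_card_ge le_sup_left hcard]
    exact mem_sup_right (mem_zpowers _)
  have hVst := hst.1 V hVel
  -- every member lies in `L`
  have hall : ∀ A, MaxS p (S : Subgroup G) A → A ≤ L := by
    by_contra hcon
    push Not at hcon
    haveI : Nonempty {A : Subgroup G // MaxS p (S : Subgroup G) A ∧ ¬ A ≤ L} := by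
      obtain ⟨A, hA, hA'⟩ := hcon; exact ⟨⟨A, hA, hA'⟩⟩
    obtain ⟨⟨A, hA, hAL⟩, hbest⟩ := Finite.exists_max
      fun A : {A : Subgroup G // MaxS p (S : Subgroup G) A ∧ ¬ A ≤ L} => Nat.card ↥(A.1 ⊓ V)
    have hVc : ∀ x ∈ V, ∀ y ∈ V, x * y = y * x := fun x hx y hy => el_comm hVel hx hy
    have hAV : A ≤ normalizer (V : Set G) := normalizer_eq_top_iff.mpr (inferInstance : V.Normal) ▸ le_top
    have hab : ⁅A, A⁆ ≤ centralizer (V : Set G) := by
      rw [commutator_le]
      intro a ha b hb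
      rw [commutatorElement_eq_one_iff_commute.mpr (el_comm hA.2.1 ha hb)]
      exact one_mem _
    have hCA : V ⊓ centralizer (A : Set G) = A ⊓ V := by
      apply le_antisymm
      · rintro v ⟨hv, hvc⟩
        refine ⟨?_, hv⟩
        have hel : Cfsg.IsElementaryAbelian p (A ⊔ zpowers v : Subgroup G) :=
          CfsgLib.PLocal.el_sup hA.2.1 (CfsgLib.PLocal.el_zpowers (hVel.2 v hv)) fun a ha y hy => by
            obtain ⟨j, rfl⟩ := mem_zpowers_iff.mp hy
            exact ((show Commute a v from mem_centralizer_iff.mp hvc a ha).zpow_right j).eq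
        have hcard := hA.2.2 _ (sup_le hA.1 (zpowers_le.mpr (hQS (hVQ hv)))) hel
        show v ∈ A
        rw [eq_of_le_of_card_ge le_sup_left hcard]
        exact mem_sup_right (mem_zpowers v)
      · rintro v ⟨hvA, hv⟩
        exact ⟨hv, mem_centralizer_iff.mpr fun a ha => el_comm hA.2.1 ha hvA⟩
    have hB : ∀ B ≤ A, Nat.card ↥(B ⊔ (V ⊓ centralizer (B : Set G)) : Subgroup G) ≤ Nat.card A := fun B hB => by
      refine hA.2.2 _ (sup_le (hB.trans hA.1) (inf_le_left.trans (hVQ.trans hQS))) ?_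
      exact CfsgLib.PLocal.el_sup (CfsgLib.PLocal.el_mono hA.2.1 hB) (CfsgLib.PLocal.el_mono hVel inf_le_left)
        fun b hb v hv => mem_centralizer_iff.mp hv.2 b hb
    have hBnorm : ∀ B : Subgroup G, B ≤ normalizer ((V ⊓ centralizer (B : Set G) : Subgroup G) : Set G) := fun B b hb =>
      CfsgLib.Glauberman.mem_normalizer_of_conj_mem fun v hv => by
        rw [show b * v = v * b from mem_centralizer_iff.mp hv.2 b hb, mul_inv_cancel_right]; exact hv
    have hmax : ∀ B : Subgroup G, B ≤ A → CfsgLib.PLocal.fixWeight V B ≤ CfsgLib.PLocal.fixWeight V A := by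
      intro B hBA
      rw [CfsgLib.PLocal.fixWeight, CfsgLib.PLocal.fixWeight, hCA, ← CfsgLib.PLocal.card_sup_of_comm (hBnorm B)]
      exact Nat.mul_le_mul (hB B hBA) (card_le_of_le fun x hx => ⟨hBA hx.1, hx.2.1⟩)
    obtain ⟨hseed, hweight⟩ := CfsgLib.PLocal.replacement hVc hAV hab hmax (le_refl V)
    set X := ⁅V, A⁆ with hX
    set B := A ⊓ centralizer (X : Set G) with hBdef
    by_cases hXA : X ≤ A
    · refine hAL fun a ha => hVst a ?_
      rw [Cfsg.Agent.S0623.quad_iff]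
      intro v hv
      exact el_comm hA.2.1 ha (hXA (commutator_mem_commutator hv ha))
    · have hXV : X ≤ V := CfsgLib.PLocal.commutator_le_of_le_normalizer hAV le_rfl
      set A' : Subgroup G := B ⊔ (V ⊓ centralizer (B : Set G)) with hA'
      have hAVB : A ⊓ V ≤ B := fun x hx => ⟨hx.1, mem_centralizer_iff.mpr fun y hy => hVc y (hXV hy) x hx.2⟩
      have hge : Nat.card A ≤ Nat.card A' := by
        have e1 : B ⊓ (V ⊓ centralizer (B : Set G)) = A ⊓ V := by
          refine le_antisymm (fun x hx => ⟨hx.1.1, hx.2.1⟩) fun x hx => ⟨hAVB hx, hx.2, ?_⟩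
          exact mem_centralizer_iff.mpr fun b hb => el_comm hA.2.1 hb.1 hx.1
        have e2 := CfsgLib.PLocal.card_sup_of_comm (hBnorm B)
        rw [e1, ← hA'] at e2
        rw [CfsgLib.PLocal.fixWeight, CfsgLib.PLocal.fixWeight, ← e2, hCA] at hweight
        exact (Nat.eq_of_mul_eq_mul_right Nat.card_pos hweight).ge
      have hA'max : MaxS p (S : Subgroup G) A' := by
        refine ⟨sup_le (inf_le_left.trans hA.1) (inf_le_left.trans (hVQ.trans hQS)), ?_, fun D hD hDe => (hA.2.2 D hD hDe).trans hge⟩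
        exact CfsgLib.PLocal.el_sup (CfsgLib.PLocal.el_mono hA.2.1 inf_le_left) (CfsgLib.PLocal.el_mono hVel inf_le_left)
          fun b hb v hv => mem_centralizer_iff.mp hv.2 b hb
      have hA'L : A' ≤ L := by
        by_contra hnot
        have h1 := hbest ⟨A', hA'max, hnot⟩
        have hlt : A ⊓ V < A' ⊓ V := by
          refine lt_of_le_not_ge (le_inf (hAVB.trans le_sup_left) inf_le_right) fun hge' => hXA ?_
          refine le_trans (le_inf ?_ hXV) (hge'.trans inf_le_left)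
          refine le_trans ?_ le_sup_right
          rw [hseed]; exact le_sup_left
        have h2 : Nat.card ↥(A ⊓ V) < Nat.card ↥(A' ⊓ V) :=
          lt_of_le_of_ne (card_le_of_le hlt.le) fun he => hlt.ne (eq_of_le_of_card_ge hlt.le he.ge)
        exact absurd h1 (not_le.mpr h2)
      have hVA' := hinL A' hA'max hA'L
      have hVB : V ≤ V ⊓ centralizer (B : Set G) := fun v hv => ⟨hv, mem_centralizer_iff.mpr fun b hb =>
        el_comm hA'max.2.1 (mem_sup_left hb) (hVA' hv)⟩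
      have hVX : X ≤ ⁅X, A⁆ := by
        rw [hX, commutator_le]
        intro v hv a ha
        have hv' := hVB hv
        rw [hseed, ← SetLike.mem_coe,
          coe_mul_of_left_le_normalizer_right X (V ⊓ centralizer (A : Set G))
            (fun y hy => CfsgLib.Glauberman.mem_normalizer_of_conj_mem fun z hz => by
              rw [hVc y (hXV hy) z hz.1, mul_inv_cancel_right]; exact hz)] at hv'
        obtain ⟨y, hy, z, hz, rfl⟩ := hv'
        have hza : z * a = a * z := (mem_centralizer_iff.mp hz.2 a ha).symm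
        have e : ⁅y * z, a⁆ = ⁅y, a⁆ := by
          rw [commutatorElement_def, commutatorElement_def]
          calc y * z * a * (y * z)⁻¹ * a⁻¹ = y * (z * a) * z⁻¹ * y⁻¹ * a⁻¹ := by group
            _ = _ := by rw [hza]; group
        rw [e]
        exact commutator_mem_commutator hy ha
      have hX0 : X = ⊥ := CfsgLib.PLocal.eq_bot_of_le_commutator (hQp.to_le hVQ) hAV
        (fun a ha => ⟨1, by rw [pow_one, hA.2.1.2 a ha]; exact one_mem _⟩) hXV hVX
      exact hXA (hX0 ▸ bot_le)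
  have hJL : J ≤ L := J_le hall
  have hJp : IsPGroup p J := S.2.to_le (map_subtype_le _)
  have hnorm : ∀ g : G, g ∈ normalizer (Wg : Set G) := by
    intro g
    obtain ⟨l, hl, hlS⟩ := hconj (J.map (MulAut.conj g).toMonoidHom)
      (by rintro _ ⟨j, hj, rfl⟩; exact hLn.conj_mem j (hJL hj) _) (hJp.map _)
    rw [map_map, show (MulAut.conj l).toMonoidHom.comp (MulAut.conj g).toMonoidHom = (MulAut.conj (l * g)).toMonoidHom by
      ext; simp [mul_assoc]] at hlS
    have hle : J.map (MulAut.conj (l * g)).toMonoidHom ≤ J := by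
      rw [map_le_iff_le_comap]
      refine J_le fun A hA => ?_
      rw [← map_le_iff_le_comap]
      exact maxS_le_J (hmaxconj A hA _ ((map_mono (maxS_le_J hA)).trans hlS))
    have hlg : l * g ∈ N := CfsgLib.Glauberman.mem_normalizer_of_conj_mem fun j hj => hle ⟨j, hj, rfl⟩
    have h2 : l * g ∈ normalizer (Wg : Set G) := CfsgLib.Glauberman.mem_normalizer_of_conj_mem (hNW _ hlg)
    simpa using mul_mem (inv_mem (hLnorm l hl)) h2
  exact normalizer_eq_top_iff.mp (eq_top_iff.mpr fun g _ => hnorm g)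

end Cfsg.Agent.S0624
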