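import Cfsg.Statements.S0627
import Cfsg.Agent.S0624
import Cfsg.Agent.Lib.ActionPStable
import Cfsg.Agent.Lib.GroupB.Coprime

set_option autoImplicit false
open Cfsg

namespace Cfsg.Agent.S0627

/-- In a p-separable group with p at least 5, the normalizer of W(S) supplements the largest normal subgroup of order prime to p. -/
theorem result {G : Type*} [Group G] [Finite G] {p : ℕ} [Fact p.Prime] (hp : 5 ≤ p) (hsep : Cfsg.IsPSolvable p G) (S : Sylow p G) : Cfsg.pPrimeCore p G ⊔ Subgroup.normalizer (((Cfsg.stableNormalClosure p ↥(S : Subgroup G)).map (S : Subgroup G).subtype) : Set G) = ⊤ := by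
  classical
  haveI hKn : (Cfsg.pPrimeCore p G).Normal := by
    haveI := CfsgLib.Core.pPrimeCore_characteristic (G := G) p
    infer_instance
  set K := Cfsg.pPrimeCore p G
  set f := QuotientGroup.mk' K
  have hf : Function.Surjective f := QuotientGroup.mk'_surjective K
  have hinj : Function.Injective (f.comp (S : Subgroup G).subtype) := by
    rw [injective_iff_map_eq_one]
    intro x hx
    have h1 : (x : G) ∈ K := (QuotientGroup.eq_one_iff _).mp hx
    obtain ⟨j, hj⟩ := IsPGroup.iff_orderOf.mp S.2 x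
    refine orderOf_eq_one_iff.mp (Nat.eq_one_of_dvd_coprimes
      ((CfsgLib.Core.card_pPrimeCore_coprime (G := G) p).pow_right j) ?_ hj.dvd)
    rw [← Subgroup.orderOf_coe]
    exact Subgroup.orderOf_dvd_natCard K h1
  have hps : Cfsg.IsPSolvable p (G ⧸ K) := CfsgLib.PSolvable.map f hf hsep
  have hcc : Subgroup.centralizer (Cfsg.pCore p (G ⧸ K) : Set (G ⧸ K)) ≤ Cfsg.pCore p (G ⧸ K) :=
    CfsgLib.PSolvable.centralizer_pCore_le (CfsgLib.Core.pPrimeCore_quotient_eq_bot p) (CfsgLib.PSolvable.subgroup hps _)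
  have hst := CfsgLib.ActionPStable.of_slFree (G := G ⧸ K) (p := p) (by omega)
    (CfsgLib.ActionPStable.slFree_of_pSolvable hp hps)
  have hZn := Cfsg.Agent.S0624.result hst hcc (S.mapSurjective hf)
  let η : ↥(S : Subgroup G) ≃* ↥((S.mapSurjective hf : Sylow p (G ⧸ K)) : Subgroup (G ⧸ K)) :=
    (MonoidHom.ofInjective hinj).trans (MulEquiv.subgroupCongr (by
      show (f.comp (S : Subgroup G).subtype).range = (S : Subgroup G).map f
      rw [MonoidHom.range_comp, Subgroup.range_subtype]))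
  set Z := (Cfsg.stableNormalClosure p ↥(S : Subgroup G)).map (S : Subgroup G).subtype with hZdef
  have hmap : Z.map f = (Cfsg.stableNormalClosure p ↥((S.mapSurjective hf : Sylow p (G ⧸ K)) : Subgroup (G ⧸ K))).map
      ((S.mapSurjective hf : Sylow p (G ⧸ K)) : Subgroup (G ⧸ K)).subtype := by
    rw [← (Cfsg.Agent.S0622.result (p := p) S.2).2.2.2.2 _ η, hZdef, Subgroup.map_map, Subgroup.map_map]
    rfl
  rw [← hmap] at hZn
  set M := (Z.map f).comap f with hM
  haveI : M.Normal := hZn.comap f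
  have hZS : Z ≤ (S : Subgroup G) := Subgroup.map_subtype_le _
  have hMeq : M = Z ⊔ K := by rw [hM, Subgroup.comap_map_eq, QuotientGroup.ker_mk']
  have hZM : Z ≤ M := hMeq ▸ le_sup_left
  have hKZ : K ⊓ Z = ⊥ := by
    rw [eq_bot_iff]
    rintro x ⟨hxK, hxZ⟩
    have h1 : (⟨x, hZS hxZ⟩ : ↥(S : Subgroup G)) = 1 := hinj (by
      rw [map_one]; exact (QuotientGroup.eq_one_iff x).mpr hxK)
    exact Subgroup.mem_bot.mpr (congrArg Subtype.val h1)
  have hnd : ¬ p ∣ (Z.subgroupOf M).index := by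
    intro hd
    have hdiv : Z.relIndex M ∣ Nat.card ↥K := by
      have h1 := CfsgLib.GroupB.Coprime.card_sup_eq (N := K) (K := Z)
        (by rw [Subgroup.normalizer_eq_top K]; exact le_top) hKZ
      rw [sup_comm, ← hMeq, ← Subgroup.relIndex_bot_left M,
        ← Subgroup.relIndex_mul_relIndex ⊥ Z M bot_le hZM, Subgroup.relIndex_bot_left, mul_comm (Nat.card ↥K)] at h1
      exact dvd_of_eq (Nat.eq_of_mul_eq_mul_left Nat.card_pos h1)
    exact (Fact.out : p.Prime).ne_one (Nat.eq_one_of_dvd_coprimes (CfsgLib.Core.card_pPrimeCore_coprime (G := G) p) (hd.trans hdiv) dvd_rfl)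
  have hZp : IsPGroup p ↥(Z.subgroupOf M) := (S.2.to_le hZS).comap_subtype
  have := Sylow.normalizer_sup_eq_top (hZp.toSylow hnd)
  rw [show ((hZp.toSylow hnd : Sylow p ↥M) : Subgroup ↥M).map M.subtype = Z from
    Subgroup.map_subgroupOf_eq_of_le hZM] at this
  rw [eq_top_iff, ← this]
  exact sup_le le_sup_right (hMeq.le.trans (sup_le (Subgroup.le_normalizer.trans le_sup_right) le_sup_left))

end Cfsg.Agent.S0627
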