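import Cfsg.Statements.S0630
import Cfsg.Agent.Lib.PConstrained

set_option autoImplicit false
open Cfsg

namespace Cfsg.Agent.S0630

/-- p-constraint passes to and from the quotient by the largest normal subgroup of order prime to p. -/
theorem result {G : Type*} [Group G] [Finite G] {p : ℕ} [Fact p.Prime] : Cfsg.IsPConstrained p G ↔ Cfsg.IsPConstrained p (G ⧸ Cfsg.pPrimeCore p G) := by
  haveI := CfsgLib.PConstrained.pPrimeCore_normal (G := G) (p := p)
  haveI := CfsgLib.PConstrained.pPrimeCore_normal (G := G ⧸ Cfsg.pPrimeCore p G) (p := p)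
  constructor
  · intro h
    exact CfsgLib.PConstrained.isPConstrained_of_surjective (MonoidHom.id _) Function.surjective_id
      (by rw [(MonoidHom.ker_eq_bot_iff _).2 Function.injective_id, Subgroup.card_bot]; exact Nat.coprime_one_left p)
      (CfsgLib.PConstrained.isPConstrained_iff.1 h)
  · intro h
    rw [CfsgLib.PConstrained.isPConstrained_iff] at h ⊢
    exact CfsgLib.CharP.charP_congr ((QuotientGroup.quotientMulEquivOfEq
      (CfsgLib.Core.pPrimeCore_quotient_eq_bot p)).trans QuotientGroup.quotientBot) h

end Cfsg.Agent.S0630
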