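import Cfsg.Statements.S0641
import Cfsg.Agent.Lib.PLocal.Elementary
import Cfsg.Agent.Lib.LocalBasic
open CfsgLib.PLocal
open scoped commutatorElement Pointwise

set_option autoImplicit false
open Cfsg

namespace Cfsg.Agent.S0641

/-- Regularity of a p-group passes to quotient groups. -/
theorem result {G : Type*} [Group G] {p : ℕ} [Fact p.Prime] (hG : Cfsg.IsRegularPGroup p G) (N : Subgroup G) [N.Normal] : Cfsg.IsRegularPGroup p (G ⧸ N) := by
  refine ⟨hG.1.to_quotient N, fun a b n => ?_⟩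
  obtain ⟨a, rfl⟩ := QuotientGroup.mk'_surjective N a
  obtain ⟨b, rfl⟩ := QuotientGroup.mk'_surjective N b
  obtain ⟨c, hc, he⟩ := hG.2 a b n
  refine ⟨QuotientGroup.mk' N c, ?_, by rw [← map_mul, ← map_pow, he, map_mul, map_mul, map_pow, map_pow]⟩
  have hcl : (Subgroup.closure ({a, b} : Set G)).map (QuotientGroup.mk' N) = Subgroup.closure ({QuotientGroup.mk' N a, QuotientGroup.mk' N b} : Set (G ⧸ N)) := by
    rw [MonoidHom.map_closure, Set.image_pair]
  rw [← hcl, ← Subgroup.map_commutator]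
  have : (Cfsg.powerClosure p n ⁅Subgroup.closure ({a, b} : Set G), Subgroup.closure ({a, b} : Set G)⁆).map (QuotientGroup.mk' N) ≤
      Cfsg.powerClosure p n (⁅Subgroup.closure ({a, b} : Set G), Subgroup.closure ({a, b} : Set G)⁆.map (QuotientGroup.mk' N)) := by
    rw [Cfsg.powerClosure, MonoidHom.map_closure, Subgroup.closure_le]
    rintro _ ⟨_, ⟨x, hx, rfl⟩, rfl⟩
    exact Subgroup.subset_closure ⟨_, Subgroup.mem_map_of_mem _ hx, map_pow _ _ _⟩
  exact this (Subgroup.mem_map_of_mem _ hc)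

end Cfsg.Agent.S0641
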