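import Cfsg.Statements.S0642
import Cfsg.Agent.Lib.PLocal.Elementary
import Cfsg.Agent.Lib.LocalBasic
open CfsgLib.PLocal
open scoped commutatorElement Pointwise

set_option autoImplicit false
open Cfsg

namespace Cfsg.Agent.S0642

/-- Among finite 2-groups the regular ones are exactly the abelian ones. -/
theorem result {G : Type*} [Group G] [Finite G] (hG : IsPGroup 2 G) : Cfsg.IsRegularPGroup 2 G ↔ ∀ a b : G, a * b = b * a := by
  classical
  constructor
  · intro hR a b
    set H := Subgroup.closure ({a, b} : Set G) with hH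
    set K := ⁅H, H⁆ with hK
    set P := Cfsg.powerClosure 2 1 K with hP
    have haH : a ∈ H := Subgroup.subset_closure (Set.mem_insert _ _)
    have hbH : b ∈ H := Subgroup.subset_closure (Set.mem_insert_of_mem _ rfl)
    have hPK : P ≤ K := (Subgroup.closure_le _).2 (by rintro _ ⟨x, hx, rfl⟩; exact K.pow_mem hx _)
    have hPn : ∀ g ∈ H, ∀ x ∈ P, g * x * g⁻¹ ∈ P := by
      intro g hg x hx
      have hKn : ∀ y ∈ K, g * y * g⁻¹ ∈ K := fun y hy => (Subgroup.mem_normalizer_iff.1 (CfsgLib.LocalBasic.normalizer_commutator_ge (Subgroup.le_normalizer) (Subgroup.le_normalizer) hg) y).1 hy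
      induction hx using Subgroup.closure_induction with
      | mem x hx =>
        obtain ⟨y, hy, rfl⟩ := hx
        exact Subgroup.subset_closure ⟨g * y * g⁻¹, hKn y hy, conj_pow.symm⟩
      | one => simp
      | mul x y _ _ h1 h2 => simpa [mul_assoc] using P.mul_mem h1 h2
      | inv x _ h1 => simpa [mul_assoc] using P.inv_mem h1
    obtain ⟨c, hc, he⟩ := hR.2 a b 1
    simp only [pow_one] at he
    have hcm : a⁻¹ * b * a * b⁻¹ ∈ P := by
      have h1 := hPn (b ^ 2) (H.pow_mem hbH 2) c hc
      have e : c = (b ^ 2)⁻¹ * (a⁻¹ * b * a * b⁻¹) * b ^ 2 := by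
        have : c = (a ^ 2 * b ^ 2)⁻¹ * (a * b) ^ 2 := by rw [he]; group
        rw [this, pow_two (a * b)]; group
      rw [e] at h1
      simpa [mul_assoc] using h1
    haveI : (P.subgroupOf H).Normal := ⟨fun x hx g => Subgroup.mem_subgroupOf.2 (hPn g g.2 x (Subgroup.mem_subgroupOf.1 hx))⟩
    set π := QuotientGroup.mk' (P.subgroupOf H) with hπ
    have hab : Commute (π ⟨a, haH⟩) (π ⟨b, hbH⟩) := by
      have h1 : π (⟨a, haH⟩⁻¹ * ⟨b, hbH⟩ * ⟨a, haH⟩ * ⟨b, hbH⟩⁻¹) = 1 := (QuotientGroup.eq_one_iff _).2 hcm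
      rw [map_mul, map_mul, map_mul, map_inv, map_inv, mul_inv_eq_one, mul_assoc, inv_mul_eq_iff_eq_mul] at h1
      exact h1.symm
    have hall : ∀ x y : H, π x * π y = π y * π x := by
      have hgen : ∀ x : H, π x ∈ Subgroup.closure ({π ⟨a, haH⟩, π ⟨b, hbH⟩} : Set (H ⧸ P.subgroupOf H)) := by
        rintro ⟨x, hx⟩
        induction hx using Subgroup.closure_induction with
        | mem x hx =>
          rcases hx with rfl | hxb
          · exact Subgroup.subset_closure (Set.mem_insert _ _)
          · exact Subgroup.subset_closure (Set.mem_insert_of_mem _ (congrArg π (Subtype.ext hxb)))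
        | one => exact (map_one π).symm ▸ one_mem _
        | mul x y hx hy h1 h2 =>
          have : π ⟨x * y, H.mul_mem hx hy⟩ = π ⟨x, hx⟩ * π ⟨y, hy⟩ := map_mul π ⟨x, hx⟩ ⟨y, hy⟩
          rw [this]; exact mul_mem h1 h2
        | inv x hx h1 =>
          have : π ⟨x⁻¹, H.inv_mem hx⟩ = (π ⟨x, hx⟩)⁻¹ := map_inv π ⟨x, hx⟩
          rw [this]; exact inv_mem h1
      haveI := Subgroup.isMulCommutative_closure (k := ({π ⟨a, haH⟩, π ⟨b, hbH⟩} : Set (H ⧸ P.subgroupOf H))) (by
        rintro u (rfl | rfl) v (rfl | rfl)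
        exacts [rfl, hab.eq, hab.eq.symm, rfl])
      exact fun x y => congrArg Subtype.val (mul_comm' (⟨π x, hgen x⟩ : Subgroup.closure ({π ⟨a, haH⟩, π ⟨b, hbH⟩} : Set (H ⧸ P.subgroupOf H))) ⟨π y, hgen y⟩)
    have hKP : K ≤ P := by
      rw [hK, Subgroup.commutator_le]
      intro x hx y hy
      have h1 : π ⁅(⟨x, hx⟩ : H), ⟨y, hy⟩⁆ = 1 := by rw [map_commutatorElement, commutatorElement_eq_one_iff_mul_comm]; exact hall _ _
      exact Subgroup.mem_subgroupOf.1 ((QuotientGroup.eq_one_iff _).1 h1)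
    have hK1 : K = ⊥ := by
      by_contra hne
      haveI : Nontrivial ↥K := (Subgroup.nontrivial_iff_ne_bot K).2 hne
      haveI : Group.IsNilpotent ↥K := (hG.to_subgroup K).isNilpotent
      obtain ⟨M, hM, -⟩ := (IsCoatomic.eq_top_or_exists_le_coatom (⊥ : Subgroup ↥K)).resolve_left bot_ne_top
      haveI hMn : M.Normal := Subgroup.NormalizerCondition.normal_of_coatom M normalizerCondition_of_isNilpotent hM
      haveI : Nontrivial (↥K ⧸ M) := QuotientGroup.nontrivial_iff.2 hM.1
      have hQ : IsPGroup 2 (↥K ⧸ M) := (hG.to_subgroup K).to_quotient M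
      have hsimple : IsSimpleGroup (↥K ⧸ M) := ⟨fun N hN => by
        rcases eq_or_lt_of_le (QuotientGroup.le_comap_mk' M N) with h | h
        · left
          rw [← Subgroup.map_comap_eq_self_of_surjective (QuotientGroup.mk'_surjective M) N, ← h, Subgroup.map_eq_bot_iff, QuotientGroup.ker_mk']
        · right
          rw [← Subgroup.map_comap_eq_self_of_surjective (QuotientGroup.mk'_surjective M) N, hM.2 _ h, Subgroup.map_top_of_surjective _ (QuotientGroup.mk'_surjective M)]⟩
      have hsq : ∀ z : ↥K ⧸ M, z ^ 2 = 1 := by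
        haveI := hQ.center_nontrivial
        have hc : Subgroup.center (↥K ⧸ M) = ⊤ := (hsimple.eq_bot_or_eq_top_of_normal _ inferInstance).resolve_left ((Subgroup.nontrivial_iff_ne_bot _).1 inferInstance)
        letI : CommGroup (↥K ⧸ M) := { (inferInstance : Group (↥K ⧸ M)) with mul_comm := fun x y => (Subgroup.mem_center_iff.1 (hc ▸ Subgroup.mem_top y) x) }
        have hp : (Nat.card (↥K ⧸ M)).Prime := IsSimpleGroup.prime_card
        obtain ⟨n, hn⟩ := IsPGroup.iff_card.1 hQ
        have h2 : Nat.card (↥K ⧸ M) = 2 := by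
          rw [hn] at hp ⊢
          rcases n with - | n
          · exact absurd hp Nat.not_prime_one
          · rw [show n = 0 by by_contra h; exact Nat.Prime.not_prime_pow (x := 2) (n := n + 1) (by omega) hp, zero_add, pow_one]
        intro z
        rw [← h2]; exact pow_card_eq_one'
      have hle : K ≤ M.map K.subtype := by
        refine hKP.trans ((Subgroup.closure_le _).2 ?_)
        rintro _ ⟨x, hx, rfl⟩
        refine ⟨⟨x, hx⟩ ^ 2, ?_, by simp⟩
        rw [SetLike.mem_coe, ← QuotientGroup.eq_one_iff, QuotientGroup.mk_pow]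
        exact hsq _
      refine hM.1 (eq_top_iff.2 fun x _ => ?_)
      obtain ⟨y, hy, hyx⟩ := hle x.2
      exact (Subtype.ext hyx : y = x) ▸ hy
    have h1 : ⁅a, b⁆ ∈ K := Subgroup.commutator_mem_commutator haH hbH
    rwa [hK1, Subgroup.mem_bot, commutatorElement_eq_one_iff_mul_comm] at h1
  · intro hc
    refine ⟨hG, fun a b n => ⟨1, one_mem _, ?_⟩⟩
    rw [mul_one, (show Commute a b from hc a b).mul_pow]

end Cfsg.Agent.S0642
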