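import Cfsg.Statements.S0656
import Cfsg.Agent.Lib.Dickson.Section

set_option autoImplicit false
open Cfsg

namespace Cfsg.Agent.S0656

open scoped commutatorElement

/-- For odd p, a faithful group on an elementary abelian p-group with no nontrivial normal p-subgroup in which some nontrivial p-element acts quadratically has a section isomorphic to SL(2, p). -/
theorem result {G : Type*} [Group G] [Finite G] {p : ℕ} [Fact p.Prime] (hp : p ≠ 2) (V H : Subgroup G) (hV : Cfsg.IsElementaryAbelian p V) (hHV : H ≤ Subgroup.normalizer (V : Set G)) (hf : H ⊓ Subgroup.centralizer (V : Set G) = ⊥) (hO : Cfsg.pCore p ↥H = ⊥) (x : G) (hxH : x ∈ H) (hx1 : x ≠ 1) (hxp : ∃ k : ℕ, orderOf x = p ^ k) (hq : ⁅⁅V, Subgroup.zpowers x⁆, Subgroup.zpowers x⁆ = ⊥) : ∃ (K L : Subgroup G) (hL : (L.subgroupOf K).Normal), K ≤ H ∧ Nonempty ((K ⧸ L.subgroupOf K) ≃* Matrix.SpecialLinearGroup (Fin 2) (ZMod p)) := by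
  obtain ⟨hab, hexp⟩ := hV
  have hcomm : ∀ a ∈ V, ∀ b ∈ V, a * b = b * a := fun a ha b hb =>
    congrArg Subtype.val (hab.is_comm.comm (⟨a, ha⟩ : ↥V) ⟨b, hb⟩)
  set x' : ↥H := ⟨x, hxH⟩
  obtain ⟨g, hg⟩ : ∃ g : ↥H, ¬ IsPGroup p ↥(Subgroup.zpowers x' ⊔ (Subgroup.zpowers x').map (MulAut.conj g).toMonoidHom) := by
    by_contra hall
    push Not at hall
    obtain ⟨N, hN, hNp, hle⟩ := CfsgLib.BaerSuzuki.baer_suzuki _ hall
    have h := CfsgLib.Core.le_pCore hN hNp (hle (Subgroup.mem_zpowers x'))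
    rw [hO, Subgroup.mem_bot] at h
    exact hx1 (congrArg Subtype.val h)
  set y : G := (g : G) * x * (g : G)⁻¹ with hy
  have hxq := CfsgLib.Dickson.quad_elements hq
  have hyq : ∀ v ∈ V, ⁅⁅v, y⁆, y⁆ = 1 := by
    intro v hv
    have hv' : (g : G)⁻¹ * v * g ∈ V := by
      have := (Subgroup.mem_normalizer_iff.mp (hHV (inv_mem g.2)) v).mp hv
      simpa using this
    have h := congrArg (MulAut.conj (g : G)) (hxq _ hv')
    rw [map_one, map_commutatorElement, map_commutatorElement] at h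
    simpa [hy, mul_assoc] using h
  have hyH : y ∈ H := mul_mem (mul_mem g.2 hxH) (inv_mem g.2)
  have hle : Subgroup.closure ({x, y} : Set G) ≤ H := (Subgroup.closure_le _).mpr (by
    rintro z (rfl | hz)
    · exact hxH
    · rw [Set.mem_singleton_iff.mp hz]; exact hyH)
  obtain ⟨K, f, hKle, hfs⟩ := CfsgLib.Dickson.exists_section_group hp hcomm hexp (hHV hxH) (hHV hyH) hxq hyq
    fun hpp => hg (by
      intro z
      have hzc : (z : ↥H).1 ∈ Subgroup.closure ({x, y} : Set G) := by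
        have h : Subgroup.zpowers x' ⊔ (Subgroup.zpowers x').map (MulAut.conj g).toMonoidHom ≤
            (Subgroup.closure ({x, y} : Set G)).comap H.subtype := by
          rw [MonoidHom.map_zpowers]
          exact sup_le (Subgroup.zpowers_le.mpr (Subgroup.subset_closure (Or.inl rfl)))
            (Subgroup.zpowers_le.mpr (Subgroup.subset_closure (Or.inr rfl)))
        exact h z.2
      obtain ⟨k, hk⟩ := hpp _ hzc
      refine ⟨k, Subtype.ext (Subtype.ext ?_)⟩
      have h : (z : ↥H).1 ^ p ^ k ∈ H ⊓ Subgroup.centralizer (V : Set G) := ⟨pow_mem (z : ↥H).2 _, hk⟩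
      rw [hf, Subgroup.mem_bot] at h
      exact h)
  obtain ⟨R, hR, e⟩ := CfsgLib.Dickson.section_of_surjective K f hfs
  exact ⟨K, R, hR, hKle.trans hle, e⟩

end Cfsg.Agent.S0656
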