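import Cfsg.Statements.S0657
import Cfsg.Agent.Lib.Dickson.Section

set_option autoImplicit false
open Cfsg

namespace Cfsg.Agent.S0657

/-- For odd p, a group that fails to be p-stable modulo its largest normal subgroup of order prime to p, and whose upper p-series does not stop there, has a section isomorphic to SL(2, p). -/
theorem result {G : Type*} [Group G] [Finite G] {p : ℕ} [Fact p.Prime] (hp : p ≠ 2) (hO : Cfsg.pPrimeCore p G < Cfsg.pPrimePCore p G) (hns : ¬ Cfsg.IsPStable p (G ⧸ Cfsg.pPrimeCore p G)) : ∃ (K L : Subgroup G) (hL : (L.subgroupOf K).Normal), K ≤ ⊤ ∧ Nonempty ((K ⧸ L.subgroupOf K) ≃* Matrix.SpecialLinearGroup (Fin 2) (ZMod p)) := by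
  by_contra hcon
  haveI hn : (Cfsg.pPrimeCore p G).Normal := inferInstance
  have hG : CfsgLib.Dickson.SLFree p G := fun K f hfs => hcon (by
    obtain ⟨R, hR, e⟩ := CfsgLib.Dickson.section_of_surjective K f hfs
    exact ⟨K, R, hR, le_top, e⟩)
  have hfree : CfsgLib.Dickson.SLFree p (G ⧸ Cfsg.pPrimeCore p G) :=
    hG.of_surjective _ (QuotientGroup.mk'_surjective _)
  refine hns ⟨(Fact.out : p.Prime).odd_of_ne_two hp, fun hbot => hO.ne ?_, fun A P _ hP _ _ _ hq => ?_⟩
  · rw [Cfsg.pPrimePCore, hbot, MonoidHom.comap_bot, QuotientGroup.ker_mk']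
  · rintro _ ⟨⟨a, ha⟩, haA, rfl⟩
    refine CfsgLib.Dickson.normalizer_mem_pCore hP ha (CfsgLib.Dickson.stable_of_slFree hp (hfree.of_subgroup _))
      fun v hv => ?_
    exact Subgroup.mem_bot.mp (hq ▸ Subgroup.commutator_mem_commutator (Subgroup.commutator_mem_commutator hv haA) haA)

end Cfsg.Agent.S0657
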