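import Cfsg.Statements.S0660


set_option autoImplicit false
open Cfsg
open scoped IsMulCommutative

namespace Cfsg.Agent.S0660

/-- Under a coprime action on an abelian group, an invariant subgroup that is complemented admits an invariant complement. -/
theorem result {G : Type*} [Group G] [Finite G] (V A U : Subgroup G) (hVab : IsMulCommutative V) (hAV : A ≤ Subgroup.normalizer (V : Set G)) (hcop : (Nat.card A).Coprime (Nat.card V)) (hUV : U ≤ V) (hAU : A ≤ Subgroup.normalizer (U : Set G)) (W : Subgroup G) (hWV : W ≤ V) (hUW : U ⊓ W = ⊥) (hUWV : U ⊔ W = V) : ∃ W' : Subgroup G, W' ≤ V ∧ A ≤ Subgroup.normalizer (W' : Set G) ∧ U ⊓ W' = ⊥ ∧ U ⊔ W' = V := by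
  classical
  have := Fintype.ofFinite A
  have := hVab
  have hdec : ∀ v : V, ∃ u : V, (u : G) ∈ U ∧ (u⁻¹ * v : G) ∈ W := by
    intro v
    let UW : Subgroup V := U.subgroupOf V ⊔ W.subgroupOf V
    have hv : v ∈ UW := by
      have : UW = ⊤ := by
        show U.subgroupOf V ⊔ W.subgroupOf V = ⊤
        rw [← Subgroup.subgroupOf_sup hUV hWV, hUWV, Subgroup.subgroupOf_self]
      rw [this]; trivial
    obtain ⟨a, ha, b, hb, rfl⟩ := Subgroup.mem_sup.mp hv
    exact ⟨a, Subgroup.mem_subgroupOf.mp ha, by simpa [Subgroup.mem_subgroupOf] using hb⟩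
  choose f hfU hfW using hdec
  have huniq : ∀ (v u : V), (u : G) ∈ U → (u⁻¹ * v : G) ∈ W → f v = u := by
    intro v u hu hw
    apply Subtype.ext
    have h1 : ((f v : G))⁻¹ * u ∈ U ⊓ W := by
      refine ⟨U.mul_mem (U.inv_mem (hfU v)) hu, ?_⟩
      have := W.mul_mem (hfW v) (W.inv_mem hw)
      simpa [mul_assoc] using this
    rw [hUW, Subgroup.mem_bot] at h1
    exact inv_mul_eq_one.mp h1
  let fh : V →* V :=
    { toFun := f
      map_one' := huniq 1 1 U.one_mem (by simp)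
      map_mul' := fun v w => huniq _ _ (U.mul_mem (hfU v) (hfU w)) (by
        have e : ((f v * f w)⁻¹ * (v * w) : V) = ((f v)⁻¹ * v) * ((f w)⁻¹ * w) := by
          rw [mul_inv]; exact mul_mul_mul_comm _ _ _ _
        have e' := congrArg (fun x : V => (x : G)) e
        simp only [Subgroup.coe_mul, Subgroup.coe_inv] at e' ⊢
        rw [e']
        exact W.mul_mem (hfW v) (hfW w)) }
  have hconj : ∀ (a : A) (v : V), (a : G) * v * (a : G)⁻¹ ∈ V := fun a v =>
    (Subgroup.mem_normalizer_iff.mp (hAV a.2) _).mp v.2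
  let c : A → V →* V := fun a =>
    { toFun := fun v => ⟨(a : G) * v * (a : G)⁻¹, hconj a v⟩
      map_one' := by simp
      map_mul' := fun u v => Subtype.ext (by simp [mul_assoc]) }
  have cmul : ∀ a b v, c (a * b) v = c a (c b v) := fun a b v => Subtype.ext (by simp [c, mul_assoc])
  have cone : ∀ v, c 1 v = v := fun v => Subtype.ext (by simp [c])
  let φ : V →* V := ∏ a : A, (c a).comp (fh.comp (c a⁻¹))
  have hφ : ∀ v, φ v = ∏ a : A, c a (f (c a⁻¹ v)) := fun v => by
    simp only [φ, MonoidHom.finsetProd_apply]; rfl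
  have hcU : ∀ (a : A) (u : V), (u : G) ∈ U → ((c a u : V) : G) ∈ U := fun a u hu =>
    (Subgroup.mem_normalizer_iff.mp (hAU a.2) _).mp hu
  have hφU : ∀ v, φ v ∈ U.subgroupOf V := fun v => by
    rw [hφ]
    exact Subgroup.prod_mem _ fun a _ => hcU a _ (hfU _)
  have hφu : ∀ u : V, (u : G) ∈ U → φ u = u ^ Nat.card A := by
    intro u hu
    rw [hφ, Nat.card_eq_fintype_card, ← Finset.card_univ, ← Finset.prod_const]
    refine Finset.prod_congr rfl fun a _ => ?_
    rw [huniq _ (c a⁻¹ u) (hcU a⁻¹ u hu) (by simp), ← cmul, mul_inv_cancel, cone]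
  have heq : ∀ b v, φ (c b v) = c b (φ v) := by
    intro b v
    rw [hφ, hφ, map_prod]
    refine Fintype.prod_equiv (Equiv.mulLeft b⁻¹) _ _ fun a => ?_
    simp only [Equiv.coe_mulLeft, ← cmul, mul_inv_rev, inv_inv, mul_inv_cancel_left]
  refine ⟨φ.ker.map V.subtype, Subgroup.map_subtype_le _, ?_, ?_, ?_⟩
  · have key : ∀ b : A, ∀ n ∈ φ.ker.map V.subtype, (b : G) * n * (b : G)⁻¹ ∈ φ.ker.map V.subtype := by
      rintro b _ ⟨v, hv, rfl⟩
      refine ⟨c b v, ?_, rfl⟩
      rw [SetLike.mem_coe, MonoidHom.mem_ker] at hv ⊢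
      rw [heq, hv, map_one]
    intro b hb
    rw [Subgroup.mem_normalizer_iff]
    intro n
    refine ⟨key ⟨b, hb⟩ n, fun h => ?_⟩
    simpa [mul_assoc] using key ⟨b⁻¹, A.inv_mem hb⟩ _ h
  · rw [eq_bot_iff]
    rintro _ ⟨hu, v, hv, rfl⟩
    rw [SetLike.mem_coe, MonoidHom.mem_ker] at hv
    have h1 : v ^ Nat.card A = 1 := (hφu v hu).symm.trans hv
    have : v = 1 := by
      rw [← orderOf_eq_one_iff]
      exact Nat.eq_one_of_dvd_coprimes hcop (orderOf_dvd_of_pow_eq_one h1) (orderOf_dvd_natCard v)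
    simp [this]
  · refine le_antisymm (sup_le hUV (Subgroup.map_subtype_le _)) fun x hx => ?_
    let v : V := ⟨x, hx⟩
    obtain ⟨m, hm⟩ : ∃ m : ℕ, ((φ v) ^ Nat.card A) ^ m = φ v :=
      exists_pow_eq_self_of_coprime (hcop.coprime_dvd_right (orderOf_dvd_natCard _))
    have hu : ((φ v) ^ m : V) ∈ U.subgroupOf V := Subgroup.pow_mem _ (hφU v) m
    have h1 : φ ((φ v) ^ m) = φ v := by
      rw [hφu _ (Subgroup.mem_subgroupOf.mp hu), ← pow_mul, mul_comm, pow_mul, hm]
    have hk : (((φ v) ^ m)⁻¹ * v : V) ∈ φ.ker := by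
      rw [MonoidHom.mem_ker, map_mul, map_inv, h1, inv_mul_cancel]
    have : x = (((φ v) ^ m : V) : G) * ((((φ v) ^ m)⁻¹ * v : V) : G) := by
      rw [← Subgroup.coe_mul, mul_inv_cancel_left]
    rw [this]
    exact mul_mem (Subgroup.mem_sup_left (Subgroup.mem_subgroupOf.mp hu)) (Subgroup.mem_sup_right (Subgroup.mem_map_of_mem _ hk))

end Cfsg.Agent.S0660
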