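import Cfsg.Statements.S0661
import Cfsg.Agent.Lib.PConstrained

set_option autoImplicit false
open Cfsg

namespace Cfsg.Agent.S0661

/-- If, modulo the largest normal subgroup of order prime to p, the largest normal p-subgroup contains its centralizer, then for every p-subgroup P the p'-core of N_G(P) is just O_p'(G) ∩ N_G(P). -/
theorem result {G : Type*} [Group G] [Finite G] {p : ℕ} [Fact p.Prime] (hc : Subgroup.centralizer (Cfsg.pCore p (G ⧸ Cfsg.pPrimeCore p G) : Set (G ⧸ Cfsg.pPrimeCore p G)) ≤ Cfsg.pCore p (G ⧸ Cfsg.pPrimeCore p G)) (P : Subgroup G) (hP : IsPGroup p P) : (Cfsg.pPrimeCore p ↥(Subgroup.normalizer (P : Set G))).map (Subgroup.normalizer (P : Set G)).subtype = Cfsg.pPrimeCore p G ⊓ Subgroup.normalizer (P : Set G) := by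
  classical
  set K := Cfsg.pPrimeCore p G with hK
  set π := QuotientGroup.mk' K with hπ
  have hker : (Nat.card π.ker).Coprime p := by
    rw [hπ, QuotientGroup.ker_mk']; exact CfsgLib.Core.card_pPrimeCore_coprime p
  set N := Subgroup.normalizer (P : Set G) with hN
  have hmap : N.map π = Subgroup.normalizer ((P.map π : Subgroup (G ⧸ K)) : Set (G ⧸ K)) :=
    CfsgLib.PConstrained.normalizer_map_eq π (QuotientGroup.mk'_surjective K) hker hP
  have hchar : Cfsg.pPrimeCore p ↥(N.map π) = ⊥ := by
    rw [hmap]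
    exact CfsgLib.PConstrained.charP_pPrimeCore_eq_bot (CfsgLib.PConstrained.charP_normalizer hc (hP.map π))
  refine le_antisymm (le_inf ?_ (Subgroup.map_subtype_le _)) ?_
  · rintro _ ⟨x, hx, rfl⟩
    have h1 := CfsgLib.Core.pPrimeCore_map_le (π.subgroupMap N) (MonoidHom.subgroupMap_surjective _ _) p
      (Subgroup.mem_map_of_mem _ hx)
    rw [hchar, Subgroup.mem_bot] at h1
    exact (QuotientGroup.eq_one_iff _).mp (congrArg Subtype.val h1)
  · have hle : K.subgroupOf N ≤ Cfsg.pPrimeCore p N := by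
      have := CfsgLib.Core.pPrimeCore_characteristic (G := G) p
      refine CfsgLib.Core.le_pPrimeCore inferInstance ((CfsgLib.Core.card_pPrimeCore_coprime (G := G) p).coprime_dvd_left ?_)
      rw [← Subgroup.inf_subgroupOf_right, Nat.card_congr (Subgroup.subgroupOfEquivOfLe inf_le_right).toEquiv]
      exact Subgroup.card_dvd_of_le inf_le_left
    exact fun x hx => ⟨⟨x, hx.2⟩, hle (show (⟨x, hx.2⟩ : N) ∈ K.subgroupOf N from hx.1), rfl⟩

end Cfsg.Agent.S0661
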