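import Cfsg.Statements.S0663
import Cfsg.Agent.Lib.LocalBasic
open CfsgLib
open scoped commutatorElement Pointwise

set_option autoImplicit false
open Cfsg

namespace Cfsg.Agent.S0663

/-- A p-group acts uniserially on a p-group N of order p^n exactly when the iterated commutator chain from N has length n; in that case the chain terms are all the invariant subgroups of N and they are normal in N. -/
theorem result {L : Type*} [Group L] [Finite L] {p : ℕ} [Fact p.Prime] (N G : Subgroup L) (hN : IsPGroup p N) (hG : IsPGroup p G) (hGN : G ≤ Subgroup.normalizer (N : Set L)) (n : ℕ) (hn : Nat.card N = p ^ n) : ((∀ H : Subgroup L, H ≤ N → G ≤ Subgroup.normalizer (H : Set L) → H ≠ ⊥ → (⁅H, G⁆).relIndex H = p) ↔ Cfsg.iterCommutator N G (n - 1) ≠ ⊥ ∨ n = 0) ∧ ((∀ H : Subgroup L, H ≤ N → G ≤ Subgroup.normalizer (H : Set L) → H ≠ ⊥ → (⁅H, G⁆).relIndex H = p) → ∀ H : Subgroup L, H ≤ N → G ≤ Subgroup.normalizer (H : Set L) → (∃ i ≤ n, H = Cfsg.iterCommutator N G i) ∧ N ≤ Subgroup.normalizer (H : Set L)) := by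
  classical
  have hp := (Fact.out : p.Prime)
  set P := N ⊔ G with hP
  have hPp : IsPGroup p P := hN.to_sup_of_normal_left' hG hGN
  have hPnil : Group.IsNilpotent P := hPp.isNilpotent
  have hNn : P ≤ Subgroup.normalizer (N : Set L) := sup_le Subgroup.le_normalizer hGN
  -- the chain with all of `P`
  set M : ℕ → Subgroup L := fun j => Cfsg.iterCommutator N P j with hM
  have hMP : ∀ j, M j ≤ P ∧ P ≤ Subgroup.normalizer (M j : Set L) := by
    intro j
    induction j with
    | zero => exact ⟨le_sup_left, hNn⟩
    | succ j ih =>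
      exact ⟨(Subgroup.commutator_mono ih.1 le_rfl).trans (Subgroup.commutator_le_self P),
        LocalBasic.normalizer_commutator_ge ih.2 Subgroup.le_normalizer⟩
  have hMle : ∀ j, M (j + 1) ≤ M j := by
    intro j
    refine Subgroup.commutator_le.mpr fun x hx g hg => ?_
    rw [commutatorElement_def, mul_assoc, mul_assoc, ← mul_assoc g]
    exact (M j).mul_mem hx ((Subgroup.mem_normalizer_iff.mp ((hMP j).2 hg) _).mp ((M j).inv_mem hx))
  have hMlt : ∀ X : Subgroup L, X ≤ P → X ≠ ⊥ → ¬ X ≤ ⁅X, P⁆ := by
    intro X hX hne h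
    obtain ⟨k, hk⟩ := (Subgroup.isNilpotent_iff_lowerCentralSeries P).mp hPnil
    refine hne (le_bot_iff.mp (hk ▸ ?_))
    suffices ∀ i, X ≤ P.lowerCentralSeries i from this k
    intro i
    induction i with
    | zero => exact hX
    | succ i ih => rw [Subgroup.lowerCentralSeries_succ]; exact h.trans (Subgroup.commutator_mono ih le_rfl)
  have hcard : ∀ X : Subgroup L, X ≤ P → ∃ a, Nat.card X = p ^ a := fun X hX => IsPGroup.iff_card.mp (hPp.to_le hX)
  have hrel : ∀ X Y : Subgroup L, Y ≤ X → X ≤ P → Y ≠ X →
      p * Nat.card Y ≤ Nat.card X ∧ (Y.relIndex X ≠ p → p ^ 2 * Nat.card Y ≤ Nat.card X) := by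
    intro X Y hYX hX hne
    obtain ⟨a, ha⟩ := hcard X hX
    obtain ⟨b, -, hb⟩ := (Nat.dvd_prime_pow hp).mp (ha ▸ Subgroup.relIndex_dvd_card Y X)
    have hb0 : b ≠ 0 := fun h => hne (le_antisymm hYX (Subgroup.relIndex_eq_one.mp (by rw [hb, h, pow_zero])))
    have e := Subgroup.relIndex_mul_relIndex ⊥ Y X bot_le hYX
    rw [Subgroup.relIndex_bot_left, Subgroup.relIndex_bot_left, hb] at e
    refine ⟨?_, fun hb1 => ?_⟩
    · rw [← e, mul_comm]; exact Nat.mul_le_mul_left _ (Nat.le_self_pow hb0 p)
    · rw [← e, mul_comm]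
      refine Nat.mul_le_mul_left _ (Nat.pow_le_pow_right hp.pos ?_)
      by_contra hlt
      exact hb1 (by rw [hb, show b = 1 by omega, pow_one])
  set C : ℕ → Subgroup L := fun j => Cfsg.iterCommutator N G j with hC
  have hCM : ∀ j, C j ≤ M j := by
    intro j
    induction j with
    | zero => exact le_rfl
    | succ j ih => exact Subgroup.commutator_mono ih le_sup_right
  have hCN : ∀ j, C j ≤ N ∧ G ≤ Subgroup.normalizer (C j : Set L) := by
    intro j
    induction j with
    | zero => exact ⟨le_rfl, hGN⟩
    | succ j ih =>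
      refine ⟨(Subgroup.commutator_mono ih.1 le_rfl).trans ?_, LocalBasic.normalizer_commutator_ge ih.2 Subgroup.le_normalizer⟩
      refine Subgroup.commutator_le.mpr fun x hx g hg => ?_
      rw [commutatorElement_def, mul_assoc, mul_assoc, ← mul_assoc g]
      exact N.mul_mem hx ((Subgroup.mem_normalizer_iff.mp (hGN hg) _).mp (N.inv_mem hx))
  have hMbound : ∀ j ≤ n, Nat.card (M j) * p ^ j ≤ p ^ n ∨ M j = ⊥ := by
    intro j hj
    induction j with
    | zero => left; rw [pow_zero, mul_one]; exact hn.le
    | succ j ih =>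
      by_cases hb : M (j + 1) = ⊥
      · exact Or.inr hb
      · have hbj : M j ≠ ⊥ := fun h => hb (le_bot_iff.mp (h ▸ hMle j))
        have h1 := (hrel _ _ (hMle j) (hMP j).1 fun e => hMlt _ (hMP j).1 hbj e.ge).1
        left
        calc Nat.card (M (j + 1)) * p ^ (j + 1) = (p * Nat.card (M (j + 1))) * p ^ j := by ring
          _ ≤ Nat.card (M j) * p ^ j := Nat.mul_le_mul_right _ h1
          _ ≤ p ^ n := (ih (by omega)).resolve_right hbj
  have hMn : M n = ⊥ := by
    rcases hMbound n le_rfl with h | h
    · refine Subgroup.card_eq_one.mp (le_antisymm ?_ Nat.card_pos)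
      exact Nat.le_of_mul_le_mul_right (by rwa [one_mul]) (pow_pos hp.pos n)
    · exact h
  -- the uniserial condition gives the full chain
  have hfwd : (∀ H : Subgroup L, H ≤ N → G ≤ Subgroup.normalizer (H : Set L) → H ≠ ⊥ → (⁅H, G⁆).relIndex H = p) →
      ∀ j ≤ n, Nat.card (C j) * p ^ j = p ^ n := by
    intro hU j hj
    induction j with
    | zero => rw [pow_zero, mul_one]; exact hn
    | succ j ih =>
      have h0 := ih (by omega)
      have hne : C j ≠ ⊥ := fun h => by
        rw [h, Subgroup.card_bot, one_mul] at h0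
        have := Nat.pow_right_injective hp.two_le h0
        omega
      have h1 := hU _ (hCN j).1 (hCN j).2 hne
      have hle : C (j + 1) ≤ C j := by
        refine Subgroup.commutator_le.mpr fun x hx g hg => ?_
        rw [commutatorElement_def, mul_assoc, mul_assoc, ← mul_assoc g]
        exact (C j).mul_mem hx ((Subgroup.mem_normalizer_iff.mp ((hCN j).2 hg) _).mp ((C j).inv_mem hx))
      have e := Subgroup.relIndex_mul_relIndex ⊥ (C (j + 1)) (C j) bot_le hle
      rw [Subgroup.relIndex_bot_left, Subgroup.relIndex_bot_left] at e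
      rw [← h0, ← e, show (C (j + 1)).relIndex (C j) = p from h1]
      ring
  -- the full chain gives everything
  have hback : (Cfsg.iterCommutator N G (n - 1) ≠ ⊥ ∨ n = 0) →
      ∀ H : Subgroup L, H ≤ N → G ≤ Subgroup.normalizer (H : Set L) →
        (∃ i ≤ n, H = C i ∧ (i < n → (C (i + 1)).relIndex H = p)) ∧ N ≤ Subgroup.normalizer (H : Set L) := by
    intro hne
    have hexact : ∀ j ≤ n, C j = M j ∧ Nat.card (M j) * p ^ j = p ^ n := by
      rcases Nat.eq_zero_or_pos n with rfl | hn0
      · intro j hj
        obtain rfl : j = 0 := by omega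
        exact ⟨rfl, by rw [show Nat.card (M 0) = p ^ 0 from hn]; simp⟩
      replace hne := hne.resolve_right (by omega)
      have hClt : ∀ j, j + 1 ≤ n → C (j + 1) ≠ C j ∧ C (j + 1) ≤ C j := by
        intro j hj
        have hle : C (j + 1) ≤ C j := by
          refine Subgroup.commutator_le.mpr fun x hx g hg => ?_
          rw [commutatorElement_def, mul_assoc, mul_assoc, ← mul_assoc g]
          exact (C j).mul_mem hx ((Subgroup.mem_normalizer_iff.mp ((hCN j).2 hg) _).mp ((C j).inv_mem hx))
        refine ⟨fun e => hne ?_, hle⟩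
        have hbot : C j = ⊥ := by
          by_contra hb
          exact hMlt (C j) ((hCN j).1.trans le_sup_left) hb (e.ge.trans (Subgroup.commutator_mono le_rfl le_sup_right))
        have hanti : ∀ i, C (j + i) = ⊥ := by
          intro i
          induction i with
          | zero => exact hbot
          | succ i ih =>
            show ⁅C (j + i), G⁆ = ⊥
            rw [ih, Subgroup.commutator_bot_left]
        have := hanti (n - 1 - j)
        rwa [show j + (n - 1 - j) = n - 1 by omega] at this
      have hlow : ∀ i ≤ n, p ^ i ≤ Nat.card (C (n - i)) := by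
        intro i hi
        induction i with
        | zero => rw [pow_zero]; exact Nat.card_pos
        | succ i ih =>
          have h1 := hClt (n - (i + 1)) (by omega)
          have h2 := (hrel _ _ h1.2 ((hCN _).1.trans le_sup_left) h1.1).1
          rw [show n - (i + 1) + 1 = n - i by omega] at h2
          calc p ^ (i + 1) = p * p ^ i := by ring
            _ ≤ p * Nat.card (C (n - i)) := Nat.mul_le_mul_left _ (ih (by omega))
            _ ≤ _ := h2
      intro j hj
      have h1 := hlow (n - j) (by omega)
      rw [show n - (n - j) = j by omega] at h1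
      have h2 : Nat.card (M j) * p ^ j ≤ p ^ n := by
        rcases hMbound j hj with h | h
        · exact h
        · rw [h, Subgroup.card_bot, one_mul]; exact Nat.pow_le_pow_right hp.pos hj
      have h3 : p ^ (n - j) * p ^ j = p ^ n := by rw [← pow_add, Nat.sub_add_cancel hj]
      have hle : Nat.card (M j) ≤ p ^ (n - j) := Nat.le_of_mul_le_mul_right (h2.trans h3.ge) (pow_pos hp.pos j)
      refine ⟨Subgroup.eq_of_le_of_card_ge (hCM j) (hle.trans h1), le_antisymm h2 ?_⟩
      rw [← h3]
      exact Nat.mul_le_mul_right _ (h1.trans (Subgroup.card_le_of_le (hCM j)))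
    intro H hH hGH
    obtain ⟨i, hi, hHi, himax⟩ : ∃ i ≤ n, H ≤ C i ∧ (i < n → ¬ H ≤ C (i + 1)) := by
      refine ⟨Nat.findGreatest (fun i => H ≤ C i) n, Nat.findGreatest_le n,
        Nat.findGreatest_spec (P := fun i => H ≤ C i) (Nat.zero_le n) hH, fun h => ?_⟩
      exact Nat.findGreatest_is_greatest (P := fun i => H ≤ C i) (Nat.lt_succ_self _) h
    have hnormC : ∀ j ≤ n, N ≤ Subgroup.normalizer (C j : Set L) := fun j hj => by
      rw [(hexact j hj).1]; exact le_sup_left.trans (hMP j).2
    have hHC : H = C i := by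
      rcases eq_or_lt_of_le hi with rfl | hlt
      · rw [(hexact i le_rfl).1, hMn] at hHi ⊢
        exact le_antisymm hHi bot_le
      have hsup : C i ≤ H ⊔ C (i + 1) := by
        have hle : C (i + 1) ≤ C i := by rw [(hexact i hi).1, (hexact (i + 1) hlt).1]; exact hMle i
        by_contra hnot
        have h2 := (hrel (H ⊔ C (i + 1)) (C (i + 1)) le_sup_right
          (sup_le (hH.trans le_sup_left) ((hCN _).1.trans le_sup_left))
          fun e => himax hlt (le_sup_left.trans e.ge)).1
        have h3 := (hrel (C i) (H ⊔ C (i + 1)) (sup_le hHi hle) ((hCN i).1.trans le_sup_left)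
          fun e => hnot e.ge).1
        have e1 := (hexact i hi).2
        have e2 := (hexact (i + 1) hlt).2
        rw [← (hexact i hi).1] at e1
        rw [← (hexact (i + 1) hlt).1] at e2
        have h4 : p * (p * Nat.card (C (i + 1))) * p ^ i ≤ Nat.card (C i) * p ^ i :=
          Nat.mul_le_mul_right _ ((Nat.mul_le_mul_left p h2).trans h3)
        have h5 : p * (p * Nat.card (C (i + 1))) * p ^ i = p * p ^ n := by rw [← e2]; ring
        rw [h5, e1] at h4
        have := hp.two_le
        nlinarith [pow_pos hp.pos n]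
      have hall : ∀ j, i + 1 ≤ j → j ≤ n → C i ≤ H ⊔ C j := by
        intro j hj
        induction j, hj using Nat.le_induction with
        | base => exact fun _ => hsup
        | succ j hj ih =>
          intro hjn
          refine hsup.trans (sup_le le_sup_left ?_)
          show ⁅C i, G⁆ ≤ _
          refine (Subgroup.commutator_mono (ih (by omega)) le_rfl).trans ?_
          refine LocalBasic.commutator_sup_le ?_ ?_ ?_ le_sup_right
          · exact LocalBasic.normalizer_sup_ge Subgroup.le_normalizer (hH.trans (hnormC _ hjn))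
          · intro y hy
            refine LocalBasic.mem_normalizer_of_conj_map_eq ?_
            have hy' : ∀ z ∈ C j, ∀ x ∈ H ⊔ C (j + 1), z * x * z⁻¹ ∈ H ⊔ C (j + 1) := by
              intro z hz x hx
              have hzM : z ∈ M j := (hexact j (by omega)).1 ▸ hz
              have hxP : x ∈ P := (sup_le (hH.trans le_sup_left) ((hCN (j + 1)).1.trans le_sup_left) : H ⊔ C (j + 1) ≤ P) hx
              have h1 : ⁅z, x⁆ ∈ C (j + 1) := by
                rw [(hexact (j + 1) hjn).1]
                exact Subgroup.commutator_mem_commutator hzM hxP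
              have := (H ⊔ C (j + 1)).mul_mem (Subgroup.mem_sup_right h1) hx
              rwa [commutatorElement_def, inv_mul_cancel_right] at this
            refine le_antisymm ?_ fun x hx => ?_
            · rintro _ ⟨x, hx, rfl⟩; exact hy' y hy x hx
            · exact ⟨y⁻¹ * x * y⁻¹⁻¹, hy' _ ((C j).inv_mem hy) x hx, by simp [mul_assoc]⟩
          · refine le_trans (Subgroup.commutator_le.mpr fun h hh g hg => ?_) le_sup_left
            rw [commutatorElement_def, mul_assoc, mul_assoc, ← mul_assoc g]
            exact H.mul_mem hh ((Subgroup.mem_normalizer_iff.mp (hGH hg) _).mp (H.inv_mem hh))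
      have := hall n hlt le_rfl
      rw [(hexact n le_rfl).1, hMn, sup_bot_eq] at this
      exact le_antisymm hHi this
    refine ⟨⟨i, hi, hHC, fun hlt => ?_⟩, hHC ▸ hnormC i hi⟩
    have e1 := (hexact i hi).2
    have e2 := (hexact (i + 1) hlt).2
    rw [hHC, (hexact i hi).1, (hexact (i + 1) hlt).1]
    have e := Subgroup.relIndex_mul_relIndex ⊥ (M (i + 1)) (M i) bot_le (hMle i)
    rw [Subgroup.relIndex_bot_left, Subgroup.relIndex_bot_left] at e
    refine Nat.eq_of_mul_eq_mul_left (Nat.mul_pos (Nat.card_pos (α := M (i + 1))) (pow_pos hp.pos i)) ?_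
    calc Nat.card (M (i + 1)) * p ^ i * (M (i + 1)).relIndex (M i)
        = (Nat.card (M (i + 1)) * (M (i + 1)).relIndex (M i)) * p ^ i := by ring
      _ = p ^ n := by rw [e, e1]
      _ = Nat.card (M (i + 1)) * p ^ i * p := by rw [← e2]; ring
  have hiff : (∀ H : Subgroup L, H ≤ N → G ≤ Subgroup.normalizer (H : Set L) → H ≠ ⊥ → (⁅H, G⁆).relIndex H = p) ↔
      Cfsg.iterCommutator N G (n - 1) ≠ ⊥ ∨ n = 0 := by
    constructor
    · intro hU
      rcases Nat.eq_zero_or_pos n with h | h
      · exact Or.inr h
      · refine Or.inl fun hb => ?_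
        have := hfwd hU (n - 1) (by omega)
        rw [show C (n - 1) = ⊥ from hb, Subgroup.card_bot, one_mul] at this
        have := Nat.pow_right_injective hp.two_le this
        omega
    · intro hne H hH hGH hH0
      obtain ⟨⟨i, hi, rfl, hidx⟩, -⟩ := hback hne H hH hGH
      rcases eq_or_lt_of_le hi with rfl | hlt
      · exact absurd (le_bot_iff.mp ((hCM i).trans hMn.le)) hH0
      · exact hidx hlt
  exact ⟨hiff, fun hU H hH hGH => by
    obtain ⟨⟨i, hi, e, -⟩, hn'⟩ := hback (hiff.mp hU) H hH hGH
    exact ⟨⟨i, hi, e⟩, hn'⟩⟩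

end Cfsg.Agent.S0663
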