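import Cfsg.Statements.S0666
import Cfsg.Agent.Lib.GroupB.FrobBasic

set_option autoImplicit false
open Cfsg

namespace Cfsg.Agent.S0666

/-- A Frobenius group acting on a nontrivial abelian group of order prime to that of its kernel, with the kernel acting without nontrivial fixed points, has a complement with a nontrivial fixed point. -/
theorem result {G : Type*} [Group G] [Finite G] (V F : Subgroup G) (hVab : IsMulCommutative V) (hV1 : V ≠ ⊥) (hFV : F ≤ Subgroup.normalizer (V : Set G)) (H : Subgroup ↥F) (hH : Cfsg.IsFrobeniusComplement H) (hcop : (Nat.card V).Coprime (Nat.card (Cfsg.frobeniusKernel H))) (hCK : V ⊓ Subgroup.centralizer (Subtype.val '' Cfsg.frobeniusKernel H : Set G) = ⊥) : V ⊓ Subgroup.centralizer ((H.map F.subtype : Subgroup G) : Set G) ≠ ⊥ := by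
  classical
  obtain ⟨K, hK, hKn, -⟩ := CfsgLib.GroupB.Frobenius.exists_kernel_subgroup hH
  haveI := hKn
  intro hbot
  apply hV1
  rw [eq_bot_iff]
  intro v hv
  letI : CommGroup V := { (inferInstance : Group V) with mul_comm := hVab.is_comm.comm }
  let φ : F →* MulAut V := V.normalizerMonoidHom.comp (Subgroup.inclusion hFV)
  haveI : Fintype F := Fintype.ofFinite _
  have hfix : ∀ (D : Subgroup F) (w : V), ∀ g ∈ D,
      φ g (∏ d : D, φ (d : F) w) = ∏ d : D, φ (d : F) w := by
    intro D w g hg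
    rw [map_prod]
    exact Fintype.prod_equiv (Equiv.mulLeft ⟨g, hg⟩) _ _ fun d => by simp
  have hφval : ∀ (g : F) (w : V), (φ g w : G) = (g : G) * w * (g : G)⁻¹ := fun g w => rfl
  have hKfix : ∀ w : V, (∀ g ∈ K, φ g w = w) → w = 1 := by
    intro w h
    have hw : (w : G) ∈ V ⊓ Subgroup.centralizer (Subtype.val '' Cfsg.frobeniusKernel H : Set G) := by
      refine ⟨w.2, Subgroup.mem_centralizer_iff.mpr ?_⟩
      rintro _ ⟨g, hg, rfl⟩
      exact mul_inv_eq_iff_eq_mul.mp ((hφval g w).symm.trans (congrArg Subtype.val (h g (by rw [← hK] at hg; exact hg))))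
    rw [hCK, Subgroup.mem_bot] at hw
    exact Subtype.ext hw
  have hHfix : ∀ w : V, (∀ g ∈ H, φ g w = w) → w = 1 := by
    intro w h
    have hw : (w : G) ∈ V ⊓ Subgroup.centralizer ((H.map F.subtype : Subgroup G) : Set G) := by
      refine ⟨w.2, Subgroup.mem_centralizer_iff.mpr ?_⟩
      rintro _ ⟨g, hg, rfl⟩
      exact mul_inv_eq_iff_eq_mul.mp ((hφval g w).symm.trans (congrArg Subtype.val (h g hg)))
    rw [hbot, Subgroup.mem_bot] at hw
    exact Subtype.ext hw
  set w0 : V := ⟨v, hv⟩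
  have hPK : ∏ d : K, φ (d : F) w0 = 1 := hKfix _ (hfix K w0)
  have hPH : ∀ w, ∏ d : H, φ (d : F) w = 1 := fun w => hHfix _ (hfix H w)
  have hPF : ∏ d : F, φ d w0 = 1 := by
    refine hKfix _ fun g _ => ?_
    rw [map_prod]
    exact Fintype.prod_equiv (Equiv.mulLeft g) _ _ fun d => by simp
  rw [← Fintype.prod_subtype_mul_prod_subtype (fun x => x ∈ Cfsg.frobeniusKernel H)] at hPF
  have h1 : ∏ d : {x : F // x ∈ Cfsg.frobeniusKernel H}, φ (d : F) w0 = 1 := by
    rw [← hPK]
    exact Fintype.prod_equiv (Equiv.subtypeEquivRight fun x => by rw [← hK]; rfl) _ _ fun d => rfl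
  rw [h1, one_mul] at hPF
  haveI : Fintype (F ⧸ H) := Fintype.ofFinite _
  rw [← Fintype.prod_equiv (CfsgLib.GroupB.Frobenius.coverEquiv hH) (fun p => φ (p.1.out * ((p.2.1 : H) : F) * p.1.out⁻¹) w0)
    (fun d => φ (d : F) w0) (fun p => rfl), Fintype.prod_prod_type] at hPF
  have h2 : ∀ c : F ⧸ H, ∏ h : {h : H // h ≠ 1}, φ (c.out * ((h.1 : H) : F) * c.out⁻¹) w0 = w0⁻¹ := by
    intro c
    have h3 := hPH (φ c.out⁻¹ w0)
    rw [← Fintype.prod_equiv (Equiv.optionSubtypeNe (1 : H)) (fun o => φ ((Equiv.optionSubtypeNe (1 : H) o : H) : F) (φ c.out⁻¹ w0))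
      (fun d => φ (d : F) (φ c.out⁻¹ w0)) (fun o => rfl), Fintype.prod_option] at h3
    simp only [Equiv.optionSubtypeNe_none, Equiv.optionSubtypeNe_some, Subgroup.coe_one, map_one, MulAut.one_apply] at h3
    have h5 := congrArg (φ c.out) (eq_inv_of_mul_eq_one_right h3)
    rw [map_prod, map_inv φ, map_inv (φ c.out), MulAut.apply_inv_self] at h5
    refine Eq.trans (Fintype.prod_congr _ _ fun h => ?_) h5
    rw [map_mul, map_mul, map_inv]; rfl
  rw [Finset.prod_congr rfl (fun c _ => h2 c), Finset.prod_const, Finset.card_univ, inv_pow, inv_eq_one,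
    Fintype.card_eq_nat_card, ← Subgroup.index_eq_card, ← CfsgLib.GroupB.Frobenius.card_kernel hH] at hPF
  have hv1 : w0 = 1 := by
    rw [← orderOf_eq_one_iff]
    exact Nat.eq_one_of_dvd_coprimes hcop (orderOf_dvd_natCard w0) (orderOf_dvd_of_pow_eq_one hPF)
  exact congrArg Subtype.val hv1

end Cfsg.Agent.S0666
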