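import Cfsg.Statements.S0668
import Mathlib

set_option autoImplicit false
open Cfsg

namespace Cfsg.Agent.S0668

/-- The equivariant linear maps between the permutation modules of two finite `G`-sets form a space whose dimension is the number of `G`-orbits on the product of the two sets. -/
theorem result {G : Type*} [Group G] {K : Type*} [Field K] {Ω₁ Ω₂ : Type*} [Fintype Ω₁] [Fintype Ω₂] [MulAction G Ω₁] [MulAction G Ω₂] : Module.finrank K ((Cfsg.permRep K G Ω₁).linHom (Cfsg.permRep K G Ω₂)).invariants = Nat.card (MulAction.orbitRel.Quotient G (Ω₁ × Ω₂)) := by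
  classical
  let V : Submodule K ((Ω₁ → K) →ₗ[K] (Ω₂ → K)) :=
    ((Cfsg.permRep K G Ω₁).linHom (Cfsg.permRep K G Ω₂)).invariants
  have hmem : ∀ f, f ∈ V ↔ ∀ (g : G) (v : Ω₁ → K) (y : Ω₂),
      f (fun x => v (g • x)) (g⁻¹ • y) = f v y := by
    intro f
    constructor
    · intro h g v y
      have := congrFun (LinearMap.congr_fun (h g) v) y
      simpa [Representation.linHom_apply, Cfsg.permRep] using this
    · intro h g
      refine LinearMap.pi_ext' fun v => LinearMap.ext_ring (funext fun y => ?_)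
      simpa [Representation.linHom_apply, Cfsg.permRep] using h g (Pi.single v 1) y
  let Q := MulAction.orbitRel.Quotient G (Ω₁ × Ω₂)
  have hwd : ∀ f : V, ∀ p q : Ω₁ × Ω₂, p ∈ MulAction.orbit G q →
      (f : (Ω₁ → K) →ₗ[K] (Ω₂ → K)) (Pi.single p.1 1) p.2 =
        (f : (Ω₁ → K) →ₗ[K] (Ω₂ → K)) (Pi.single q.1 1) q.2 := by
    rintro ⟨f, hf⟩ _ ⟨x, y⟩ ⟨g, rfl⟩
    show f (Pi.single (g • x) 1) (g • y) = f (Pi.single x 1) y
    rw [← (hmem f).1 hf g (Pi.single (g • x) 1) (g • y), inv_smul_smul]
    refine congrArg (fun v => f v y) (funext fun z => ?_)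
    simp [Pi.single_apply]
  let T : V →ₗ[K] (Q → K) :=
    { toFun := fun f q => Quotient.liftOn q
        (fun p => (f : (Ω₁ → K) →ₗ[K] (Ω₂ → K)) (Pi.single p.1 1) p.2) (hwd f)
      map_add' := fun f₁ f₂ => funext fun q => Quotient.inductionOn q fun p => rfl
      map_smul' := fun c f => funext fun q => Quotient.inductionOn q fun p => rfl }
  have hbij : Function.Bijective T := by
    constructor
    · intro f₁ f₂ h
      apply Subtype.ext
      refine LinearMap.pi_ext' fun x => LinearMap.ext_ring (funext fun y => ?_)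
      have h1 : (f₁ : (Ω₁ → K) →ₗ[K] (Ω₂ → K)) (Pi.single x 1) y =
          (f₂ : (Ω₁ → K) →ₗ[K] (Ω₂ → K)) (Pi.single x 1) y := congrFun h (Quotient.mk _ (x, y))
      simpa using h1
    · intro c
      let f : (Ω₁ → K) →ₗ[K] (Ω₂ → K) :=
        { toFun := fun v y => ∑ x, c (Quotient.mk _ (x, y)) * v x
          map_add' := fun v w => funext fun y => by simp [mul_add, Finset.sum_add_distrib]
          map_smul' := fun a v => funext fun y => by
            simp [Finset.mul_sum, mul_left_comm] }
      refine ⟨⟨f, (hmem f).2 fun g v y => ?_⟩, funext fun q => Quotient.inductionOn q fun p => ?_⟩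
      · show ∑ x, c (Quotient.mk _ (x, g⁻¹ • y)) * v (g • x) = ∑ x, c (Quotient.mk _ (x, y)) * v x
        refine Fintype.sum_equiv (MulAction.toPerm g) _ _ fun x => ?_
        show c _ * v (g • x) = c (Quotient.mk _ (g • x, y)) * v (g • x)
        congr 2
        exact Quotient.sound ⟨g⁻¹, by simp⟩
      · show ∑ x, c (Quotient.mk _ (x, p.2)) * (Pi.single p.1 (1 : K) : Ω₁ → K) x = _
        simp [Pi.single_apply]
  show Module.finrank K V = _
  rw [(LinearEquiv.ofBijective T hbij).finrank_eq, Module.finrank_pi, Nat.card_eq_fintype_card]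

end Cfsg.Agent.S0668
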