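import Cfsg.Statements.S0669


set_option autoImplicit false
open Cfsg

namespace Cfsg.Agent.S0669

/-- The rank of a transitive action: orbits on ordered pairs correspond to orbits of a point stabiliser. -/
theorem result {G : Type*} [Group G] {Ω : Type*} [Finite Ω] [MulAction G Ω] [MulAction.IsPretransitive G Ω] (a : Ω) : Nat.card (MulAction.orbitRel.Quotient G (Ω × Ω)) = Nat.card (MulAction.orbitRel.Quotient (MulAction.stabilizer G a) Ω) := by
  classical
  let φ : MulAction.orbitRel.Quotient (MulAction.stabilizer G a) Ω →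
      MulAction.orbitRel.Quotient G (Ω × Ω) :=
    Quotient.lift (fun b => Quotient.mk _ (a, b)) (by
      intro b b' h
      obtain ⟨⟨g, hg⟩, rfl⟩ := h
      exact Quotient.sound ⟨g, Prod.ext hg rfl⟩)
  refine (Nat.card_eq_of_bijective φ ⟨?_, ?_⟩).symm
  · intro x y
    refine Quotient.inductionOn₂ x y fun b b' h => ?_
    obtain ⟨g, hg⟩ := Quotient.exact h
    exact Quotient.sound ⟨⟨g, congrArg Prod.fst hg⟩, congrArg Prod.snd hg⟩
  · intro q
    refine Quotient.inductionOn q fun p => ?_
    obtain ⟨g, hg⟩ := MulAction.exists_smul_eq G p.1 a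
    exact ⟨Quotient.mk _ (g • p.2), Quotient.sound ⟨g, Prod.ext hg rfl⟩⟩

end Cfsg.Agent.S0669
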