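import Cfsg.Statements.S0670
import Cfsg.Agent.Lib.Perm.ModularFixed
import Mathlib

set_option autoImplicit false
set_option linter.style.haveILetI false
open Cfsg

namespace Cfsg.Agent.S0670

/-- In characteristic `p`, the permutation module of a transitive action of degree `p ^ f` has the line of constant functions as its only irreducible submodule: every non-zero subrepresentation contains it. -/
theorem result {G : Type*} [Group G] [Finite G] {K : Type*} [Field K] {p f : ℕ} [Fact p.Prime] [CharP K p] {Ω : Type*} [Fintype Ω] [MulAction G Ω] [MulAction.IsPretransitive G Ω] (hf : 1 ≤ f) (hcard : Fintype.card Ω = p ^ f) (W : Subrepresentation (Cfsg.permRep K G Ω)) (hW : W.toSubmodule ≠ ⊥) : (Cfsg.permConstants K G Ω).toSubmodule ≤ W.toSubmodule := by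
  obtain ⟨P⟩ : Nonempty (Sylow p G) := inferInstance
  haveI := CfsgLib.Perm.ModularFixed.sylow_transitive (Ω := Ω) (f := f) (by rw [Nat.card_eq_fintype_card, hcard]) P
  obtain ⟨w, hwW, hw0, hwfix⟩ := CfsgLib.Perm.ModularFixed.exists_fixed P.isPGroup'
    ((Cfsg.permRep K G Ω).comp (P : Subgroup G).subtype) W.toSubmodule hW (fun g v hv => W.apply_mem_toSubmodule _ hv)
  obtain ⟨x0, hx0⟩ := Function.ne_iff.1 hw0
  have hconst : ∀ x, w x = w x0 := by
    intro x
    obtain ⟨g, hg⟩ := MulAction.exists_smul_eq (P : Subgroup G) x x0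
    have h := congrFun (hwfix g) x0
    have e : ((g : G)⁻¹ • x0) = x := by rw [inv_smul_eq_iff]; exact hg.symm
    show w x = w x0
    rw [← e]
    exact h
  have h1 : (fun _ => (1 : K)) = (w x0)⁻¹ • w := by
    funext x
    rw [Pi.smul_apply, smul_eq_mul, hconst x, inv_mul_cancel₀ hx0]
  show Submodule.span K {fun _ => (1 : K)} ≤ W.toSubmodule
  rw [Submodule.span_singleton_le_iff_mem, h1]
  exact W.toSubmodule.smul_mem _ hwW

end Cfsg.Agent.S0670
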