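import Cfsg.Statements.S0671
import Mathlib
import Cfsg.Agent.Lib.Perm.ModularFixed

set_option autoImplicit false
open Cfsg

namespace Cfsg.Agent.S0671

set_option linter.style.haveILetI false

/-- If the heart of the permutation module in characteristic `p` of a transitive action of degree `p ^ f` has no trivial composition factor, the action is doubly transitive. The hypothesis is phrased without composition series: no invariant subspaces `W < W'` between the constants and the sum-zero functions with trivial action on the quotient. -/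
theorem result {G : Type*} [Group G] [Finite G] {K : Type*} [Field K] {p f : ℕ} [Fact p.Prime] [CharP K p] {Ω : Type*} [Fintype Ω] [MulAction G Ω] [MulAction.IsPretransitive G Ω] (hf : 1 ≤ f) (hcard : Fintype.card Ω = p ^ f) (h : ∀ W W' : Subrepresentation (Cfsg.permRep K G Ω), (Cfsg.permConstants K G Ω).toSubmodule ≤ W.toSubmodule → W.toSubmodule < W'.toSubmodule → W'.toSubmodule ≤ (Cfsg.permSumZero K G Ω).toSubmodule → ∃ g : G, ∃ v ∈ W'.toSubmodule, Cfsg.permRep K G Ω g v - v ∉ W.toSubmodule) : MulAction.IsMultiplyPretransitive G Ω 2 := by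
  classical
  set ρ := Cfsg.permRep K G Ω with hρ
  obtain ⟨P⟩ : Nonempty (Sylow p G) := inferInstance
  haveI htP := CfsgLib.Perm.ModularFixed.sylow_transitive (G := G) (Ω := Ω) (by rw [Nat.card_eq_fintype_card]; exact hcard) P
  haveI : Nonempty Ω := Fintype.card_pos_iff.1 (by rw [hcard]; exact pow_pos (Fact.out : p.Prime).pos f)
  obtain ⟨a₀⟩ : Nonempty Ω := inferInstance
  -- every non-zero invariant subspace contains the constants
  have hone : ∀ W : Submodule K (Ω → K), W ≠ ⊥ → (∀ g, ∀ w ∈ W, ρ g w ∈ W) → (fun _ => (1 : K)) ∈ W := by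
    intro W hW hinv
    obtain ⟨w, hw, hw0, hfix⟩ := CfsgLib.Perm.ModularFixed.exists_fixed (P := (P : Subgroup G)) P.isPGroup'
      (ρ.comp (P : Subgroup G).subtype) W hW (fun g => hinv g)
    have hconst : ∀ x, w x = w a₀ := by
      intro x
      obtain ⟨g, hg⟩ := MulAction.exists_smul_eq (P : Subgroup G) a₀ x
      have := congrFun (hfix g) x
      rw [← this]
      show w ((g : G)⁻¹ • x) = _
      rw [← hg]
      show w ((g : G)⁻¹ • ((g : G) • a₀)) = _
      rw [inv_smul_smul]
    have hc : w a₀ ≠ 0 := fun h0 => hw0 (funext fun x => by rw [hconst x, h0]; rfl)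
    have := W.smul_mem (w a₀)⁻¹ hw
    rwa [show (w a₀)⁻¹ • w = fun _ => (1 : K) from funext fun x => by simp [hconst x, hc]] at this
  -- every proper invariant subspace consists of functions with sum zero
  have hproper : ∀ W : Submodule K (Ω → K), W ≠ ⊤ → (∀ g, ∀ w ∈ W, ρ g w ∈ W) → W ≤ (Cfsg.permSumZero K G Ω).toSubmodule := by
    intro W hW hinv
    obtain ⟨l, hl0, hl⟩ := Submodule.exists_le_ker_of_lt_top W (lt_top_iff_ne_top.2 hW)
    let U : Submodule K (Ω → K) :=
      { carrier := {u | ∀ w ∈ W, ∑ x, u x * w x = 0}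
        zero_mem' := fun w _ => by simp
        add_mem' := fun {u v} hu hv w hw => by simp [add_mul, Finset.sum_add_distrib, hu w hw, hv w hw]
        smul_mem' := fun c u hu w hw => by simp [mul_assoc, ← Finset.mul_sum, hu w hw] }
    have hlx : ∀ w : Ω → K, l w = ∑ x, l (Pi.single x 1) * w x := by
      intro w
      conv_lhs => rw [show w = ∑ x, w x • (Pi.single x (1 : K) : Ω → K) from funext fun y => by simp [Pi.single_apply]]
      rw [map_sum]
      exact Finset.sum_congr rfl fun x _ => by rw [map_smul, smul_eq_mul, mul_comm]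
    have hU0 : U ≠ ⊥ := by
      rw [Submodule.ne_bot_iff]
      refine ⟨fun x => l (Pi.single x 1), fun w hw => ?_, fun e => hl0 (LinearMap.ext fun w => ?_)⟩
      · rw [← hlx]; exact hl hw
      · rw [hlx]; simp [congrFun e]
    have hUinv : ∀ g, ∀ u ∈ U, ρ g u ∈ U := by
      intro g u hu w hw
      rw [← hu (ρ g⁻¹ w) (hinv g⁻¹ w hw)]
      refine (Fintype.sum_equiv (MulAction.toPerm g) _ _ fun x => ?_).symm
      show u x * w ((g⁻¹)⁻¹ • x) = u (g⁻¹ • g • x) * w (g • x)
      rw [inv_inv, inv_smul_smul]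
    intro w hw
    have := hone U hU0 hUinv w hw
    simpa [Cfsg.permSumZero] using this
  refine (MulAction.is_two_pretransitive_iff).2 fun {a b c d} hab hcd => ?_
  -- the operator of the orbital of `(a, b)`
  let ind : Ω → Ω → K := fun x y => if ∃ g : G, g • a = x ∧ g • b = y then 1 else 0
  have hind : ∀ (g : G) x y, ind (g • x) (g • y) = ind x y := fun g x y => by
    refine if_congr ⟨?_, ?_⟩ rfl rfl
    · rintro ⟨h, h1, h2⟩; exact ⟨g⁻¹ * h, by rw [mul_smul, h1, inv_smul_smul], by rw [mul_smul, h2, inv_smul_smul]⟩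
    · rintro ⟨h, h1, h2⟩; exact ⟨g * h, by rw [mul_smul, h1], by rw [mul_smul, h2]⟩
  set c₀ : K := ∑ y, ind a₀ y with hc₀
  let ψ : (Ω → K) →ₗ[K] (Ω → K) :=
    { toFun := fun v x => (∑ y, ind x y * v y) - c₀ * v x
      map_add' := fun u v => funext fun x => by simp [mul_add, Finset.sum_add_distrib]; ring
      map_smul' := fun t u => funext fun x => by simp [Finset.mul_sum, mul_sub, mul_left_comm] }
  have hequi : ∀ (g : G) v, ψ (ρ g v) = ρ g (ψ v) := by
    intro g v
    funext x
    show (∑ y, ind x y * v (g⁻¹ • y)) - c₀ * v (g⁻¹ • x) = (∑ y, ind (g⁻¹ • x) y * v y) - c₀ * v (g⁻¹ • x)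
    congr 1
    refine Fintype.sum_equiv (MulAction.toPerm g⁻¹) _ _ fun y => ?_
    show _ = ind (g⁻¹ • x) (g⁻¹ • y) * v (g⁻¹ • y)
    rw [hind]
  have hψ1 : ψ (fun _ => (1 : K)) = 0 := by
    funext x
    obtain ⟨g, hg⟩ := MulAction.exists_smul_eq G a₀ x
    show (∑ y, ind x y * 1) - c₀ * 1 = 0
    simp only [mul_one]
    rw [sub_eq_zero, hc₀, ← hg]
    exact (Fintype.sum_equiv (MulAction.toPerm g) (fun y => ind a₀ y) (fun y => ind (g • a₀) y) fun y => (hind g a₀ y).symm).symm
  -- the image of `ψ` consists of constants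
  have himg : ∀ v, ψ v ∈ Submodule.span K {fun _ : Ω => (1 : K)} := by
    set I := LinearMap.range ψ with hI
    set S := (Cfsg.permSumZero K G Ω).toSubmodule.map ψ with hS
    have hIinv : ∀ g, ∀ w ∈ I, ρ g w ∈ I := by
      rintro g _ ⟨v, rfl⟩
      exact ⟨ρ g v, hequi g v⟩
    have hSinv : ∀ g, ∀ w ∈ S, ρ g w ∈ S := by
      rintro g _ ⟨v, hv, rfl⟩
      exact ⟨ρ g v, (Cfsg.permSumZero K G Ω).apply_mem_toSubmodule g hv, hequi g v⟩
    have hItop : I ≠ ⊤ := by
      intro e
      have hinj := LinearMap.injective_iff_surjective.2 (LinearMap.range_eq_top.1 e)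
      have := hinj (hψ1.trans (map_zero ψ).symm)
      exact one_ne_zero (congrFun this a₀)
    -- the sum-zero functions have codimension one
    set e₀ : Ω → K := Pi.single a₀ 1 with he₀
    have hdec : ∀ v : Ω → K, v - (∑ x, v x) • e₀ ∈ (Cfsg.permSumZero K G Ω).toSubmodule := fun v => by
      show ∑ x, (v - (∑ x, v x) • e₀) x = 0
      simp [he₀, Finset.sum_sub_distrib, ← Finset.mul_sum]
    by_cases hSbot : S = ⊥
    · intro v
      have hv : ψ v = (∑ x, v x) • ψ e₀ := by
        have : ψ (v - (∑ x, v x) • e₀) ∈ S := Submodule.mem_map_of_mem (hdec v)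
        rw [hSbot, Submodule.mem_bot, map_sub, map_smul, sub_eq_zero] at this
        exact this
      rw [hv]
      refine Submodule.smul_mem _ _ (Submodule.mem_span_singleton.2 ⟨ψ e₀ a₀, funext fun x => ?_⟩)
      obtain ⟨g, hg⟩ := MulAction.exists_smul_eq G a₀ x
      have h1 : ρ g (ψ e₀) = ψ e₀ := by
        rw [← hequi]
        have : ψ (ρ g e₀ - e₀) ∈ S := Submodule.mem_map_of_mem (by
          show ∑ y, (ρ g e₀ - e₀) y = 0
          simp only [Pi.sub_apply, Finset.sum_sub_distrib, sub_eq_zero]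
          exact Fintype.sum_equiv (MulAction.toPerm g⁻¹) _ _ fun y => rfl)
        rwa [hSbot, Submodule.mem_bot, map_sub, sub_eq_zero] at this
      have := congrFun h1 x
      rw [← this]
      show ψ e₀ a₀ * 1 = ψ e₀ (g⁻¹ • x)
      rw [mul_one, ← hg, inv_smul_smul]
    exfalso
    have hSI : S ≤ I := LinearMap.map_le_range
    let WS : Subrepresentation (Cfsg.permRep K G Ω) := ⟨S, fun g v hv => hSinv g v hv⟩
    let WI : Subrepresentation (Cfsg.permRep K G Ω) := ⟨I, fun g v hv => hIinv g v hv⟩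
    have hlt : S < I := by
      refine lt_of_le_of_ne hSI fun e => ?_
      -- otherwise the restriction to the sum-zero functions has the same rank as `ψ`
      have hk : (fun _ => (1 : K)) ∈ (Cfsg.permSumZero K G Ω).toSubmodule := by
        show ∑ _x : Ω, (1 : K) = 0
        simp [hcard, CharP.cast_eq_zero K p, zero_pow (by omega : f ≠ 0)]
      obtain ⟨z, hz, hz'⟩ := Submodule.mem_map.1 (e.symm ▸ LinearMap.mem_range_self ψ e₀ : ψ e₀ ∈ S)
      have hker : e₀ - z ∈ LinearMap.ker ψ := by rw [LinearMap.mem_ker, map_sub, hz', sub_self]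
      have hkinv : ∀ g, ∀ w ∈ LinearMap.ker ψ, ρ g w ∈ LinearMap.ker ψ := fun g w hw => by
        rw [LinearMap.mem_ker, hequi, LinearMap.mem_ker.1 hw, map_zero]
      by_cases hkt : LinearMap.ker ψ = ⊤
      · exact hSbot ((Submodule.eq_bot_iff _).2 fun w hw => by
          obtain ⟨v, -, rfl⟩ := Submodule.mem_map.1 hw
          exact LinearMap.mem_ker.1 (hkt ▸ Submodule.mem_top))
      have := hproper _ hkt hkinv hker
      have h1 : ∑ x, (e₀ - z) x = 0 := this
      rw [Finset.sum_congr rfl fun x _ => Pi.sub_apply e₀ z x, Finset.sum_sub_distrib, show ∑ x, z x = 0 from hz, sub_zero, he₀,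
        Fintype.sum_pi_single'] at h1
      exact one_ne_zero h1
    have hle : (Cfsg.permConstants K G Ω).toSubmodule ≤ WS.toSubmodule :=
      (Submodule.span_singleton_le_iff_mem _ _).2 (hone S hSbot hSinv)
    obtain ⟨g, v, hv, hg⟩ := h WS WI hle hlt (hproper I hItop hIinv)
    obtain ⟨u, rfl⟩ := hv
    refine hg ⟨ρ g u - u, ?_, by rw [map_sub, hequi]⟩
    show ∑ y, (ρ g u - u) y = 0
    simp only [Pi.sub_apply, Finset.sum_sub_distrib, sub_eq_zero]
    exact Fintype.sum_equiv (MulAction.toPerm g⁻¹) _ _ fun y => rfl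
  -- hence the orbital of `(a, b)` is everything off the diagonal
  have hk : ∀ x z : Ω, x ≠ z → ind x z = ψ (Pi.single z 1) x := fun x z hxz => by
    show ind x z = (∑ y, ind x y * (Pi.single z 1 : Ω → K) y) - c₀ * (Pi.single z 1 : Ω → K) x
    simp [Pi.single_apply, hxz]
  have hconst : ∀ z x y : Ω, ψ (Pi.single z 1) x = ψ (Pi.single z 1) y := fun z x y => by
    obtain ⟨t, ht⟩ := Submodule.mem_span_singleton.1 (himg (Pi.single z 1))
    rw [← ht]; rfl
  have hall : ∀ x z : Ω, x ≠ z → ind x z = ψ (Pi.single a₀ 1) a₀ := by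
    intro x z hxz
    obtain ⟨g, hg⟩ := MulAction.exists_smul_eq G a₀ z
    have e : ρ g (Pi.single a₀ 1) = Pi.single z 1 := by
      funext y
      show (Pi.single a₀ 1 : Ω → K) (g⁻¹ • y) = _
      simp only [Pi.single_apply, inv_smul_eq_iff, hg]
    rw [hk x z hxz, ← e, hequi]
    show ψ (Pi.single a₀ 1) (g⁻¹ • x) = _
    exact hconst _ _ _
  have hone' : ψ (Pi.single a₀ 1) a₀ = 1 := by
    rw [← hall a b hab]
    exact if_pos ⟨1, one_smul _ _, one_smul _ _⟩
  have h1 : ind c d = 1 := (hall c d hcd).trans hone'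
  by_contra hno
  rw [show ind c d = 0 from if_neg hno] at h1
  exact zero_ne_one h1

end Cfsg.Agent.S0671
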