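import Cfsg.Statements.S0672
import Mathlib

set_option autoImplicit false
set_option linter.style.haveILetI false
open Cfsg

namespace Cfsg.Agent.S0672

open scoped Pointwise


/-- Let a finite group act faithfully and doubly transitively with point stabilisers of even order, and let `K` have characteristic `p` dividing the degree. If the heart of the permutation module admits no non-zero equivariant map to the permutation module on unordered pairs (phrased: every intertwining map from the sum-zero functions vanishing on the constants is zero), the action is triply transitive. -/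
theorem result {G : Type*} [Group G] [Finite G] {K : Type*} [Field K] {p : ℕ} [Fact p.Prime] [CharP K p] {Ω : Type*} [Fintype Ω] [DecidableEq Ω] [MulAction G Ω] [FaithfulSMul G Ω] (h2 : MulAction.IsMultiplyPretransitive G Ω 2) (hp : p ∣ Fintype.card Ω) (heven : ∀ a : Ω, Even (Nat.card (MulAction.stabilizer G a))) (h : ∀ f : Representation.IntertwiningMap (Cfsg.permSumZero K G Ω).toRepresentation (Cfsg.permRep K G (Set.powersetCard Ω 2)), (∀ v : (Cfsg.permSumZero K G Ω).toSubmodule, (v : Ω → K) ∈ (Cfsg.permConstants K G Ω).toSubmodule → f v = 0) → f = 0) : MulAction.IsMultiplyPretransitive G Ω 3 := by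
  classical
  by_contra hnot
  have hn3 : 3 ≤ Fintype.card Ω := by
    by_contra hlt
    refine hnot ⟨fun x y => ?_⟩
    have := Fintype.card_le_of_injective x x.injective
    simp at this
    omega
  have hG2 : ∀ {x y z w : Ω}, x ≠ y → z ≠ w → ∃ g : G, g • x = z ∧ g • y = w := fun h h' =>
    (MulAction.is_two_pretransitive_iff (G := G) (α := Ω)).1 h2 h h'
  let Pair := ↥(Set.powersetCard Ω 2)
  -- weights give intertwining maps
  let F : (Pair → Ω → K) → ((Ω → K) →ₗ[K] (Pair → K)) := fun w =>
    { toFun := fun v s => ∑ c, w s c * v c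
      map_add' := fun u v => funext fun s => by simp [mul_add, Finset.sum_add_distrib]
      map_smul' := fun r v => funext fun s => by simp [Finset.mul_sum, mul_left_comm] }
  have hker : ∀ w : Pair → Ω → K, (∀ g : G, ∀ s c, w (g • s) (g • c) = w s c) → (∀ s, ∑ c, w s c = 0) →
      ∀ v : Ω → K, ∑ x, v x = 0 → ∀ s, ∑ c, w s c * v c = 0 := by
    intro w hinv hsum v hv s
    let f : Representation.IntertwiningMap (Cfsg.permSumZero K G Ω).toRepresentation (Cfsg.permRep K G Pair) :=
      { toLinearMap := (F w).comp (Cfsg.permSumZero K G Ω).toSubmodule.subtype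
        isIntertwining' := fun g => LinearMap.ext fun u => funext fun s => by
          show ∑ c, w s c * (u : Ω → K) (g⁻¹ • c) = ∑ c, w (g⁻¹ • s) c * (u : Ω → K) c
          refine Fintype.sum_equiv (MulAction.toPerm g⁻¹) _ _ fun c => ?_
          rw [MulAction.toPerm_apply, hinv] }
    have hf := h f fun u hu => by
      obtain ⟨r, hr⟩ := Submodule.mem_span_singleton.1 hu
      funext s
      show ∑ c, w s c * (u : Ω → K) c = 0
      rw [← hr]
      simp [← Finset.sum_mul, hsum]
    exact congrFun (congrArg (fun φ : Representation.IntertwiningMap _ _ => φ ⟨v, hv⟩) hf) s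
  have pairOf : ∀ {a b : Ω}, a ≠ b → ∃ s : Pair, (s : Finset Ω) = {a, b} := fun {a b} hab =>
    ⟨⟨{a, b}, by simp [Set.powersetCard, Finset.card_pair hab]⟩, rfl⟩
  by_cases hp2 : p = 2
  · -- the sum over a pair
    subst hp2
    obtain ⟨a, b, c, hab, hac, hbc⟩ := Fintype.two_lt_card_iff.1 (show 2 < Fintype.card Ω by omega)
    obtain ⟨s, hs⟩ := pairOf hab
    have hk := hker (fun s c => if c ∈ (s : Finset Ω) then 1 else 0) (fun g s c => by
        refine if_congr ?_ rfl rfl
        show g • c ∈ g • (s : Finset Ω) ↔ _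
        exact Finset.smul_mem_smul_finset_iff g) (fun t => by
        rw [Finset.sum_boole, Finset.filter_mem_eq_inter, Finset.univ_inter,
          show (t : Finset Ω).card = 2 from t.2]
        exact CharP.cast_eq_zero K 2)
      (Pi.single a 1 - Pi.single c 1) (by simp [Finset.sum_sub_distrib]) s
    simp [mul_sub, Finset.sum_sub_distrib, Pi.single_apply, hs, hac.symm, hbc.symm] at hk
  have h2K : (2 : K) ≠ 0 := fun h2' => hp2 (by
    have h' : ((2 : ℕ) : K) = 0 := by exact_mod_cast h2'
    rw [CharP.cast_eq_zero_iff K p] at h'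
    exact (Nat.prime_dvd_prime_iff_eq Fact.out Nat.prime_two).1 h')
  -- some setwise stabiliser of a pair is not transitive on the other points
  obtain ⟨a, b, x, y, hab, hx, hy, hno⟩ : ∃ a b x y : Ω, a ≠ b ∧ (x ≠ a ∧ x ≠ b) ∧ (y ≠ a ∧ y ≠ b) ∧
      ∀ g : G, g • ({a, b} : Finset Ω) = {a, b} → g • x ≠ y := by
    by_contra hall
    push Not at hall
    apply hnot
    obtain ⟨a⟩ : Nonempty Ω := Fintype.card_pos_iff.1 (by omega)
    obtain ⟨t, ht⟩ := exists_prime_orderOf_dvd_card' (G := MulAction.stabilizer G a) 2 (even_iff_two_dvd.1 (heven a))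
    have ht1 : (t : G) ≠ 1 := fun e => by
      have : t = 1 := Subtype.ext e
      rw [this, orderOf_one] at ht
      omega
    have htt : (t : G) * t = 1 := by
      have := pow_orderOf_eq_one t
      rw [ht, pow_two] at this
      exact congrArg Subtype.val this
    obtain ⟨c, hc⟩ : ∃ c : Ω, (t : G) • c ≠ c := by
      by_contra hh
      push Not at hh
      exact ht1 (FaithfulSMul.eq_of_smul_eq_smul (α := Ω) fun z => by rw [hh, one_smul])
    set d := (t : G) • c with hd
    have hdc : (t : G) • d = c := by rw [hd, ← mul_smul, htt, one_smul]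
    have hta : (t : G) • a = a := t.2
    have hca : c ≠ a := fun e => hc (by rw [hd, e, hta])
    have hda : d ≠ a := fun e => hca (by rw [← hdc, e, hta])
    -- the pointwise stabiliser of `c, d` is transitive
    have htr : ∀ z, z ≠ c → z ≠ d → ∃ g : G, g • c = c ∧ g • d = d ∧ g • a = z := by
      intro z hzc hzd
      obtain ⟨g, hg, hgz⟩ := hall c d a z (Ne.symm hc) ⟨Ne.symm hca, Ne.symm hda⟩ ⟨hzc, hzd⟩
      have h1 : g • c ∈ ({c, d} : Finset Ω) := hg ▸ Finset.smul_mem_smul_finset (by simp)
      have h2' : g • d ∈ ({c, d} : Finset Ω) := hg ▸ Finset.smul_mem_smul_finset (by simp)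
      simp only [Finset.mem_insert, Finset.mem_singleton] at h1 h2'
      rcases h1 with h1 | h1
      · refine ⟨g, h1, h2'.resolve_left fun e => hc ?_, hgz⟩
        exact (smul_left_cancel g (h1.trans e.symm)).symm
      · have hgd : g • d = c := h2'.resolve_right fun e => hc (smul_left_cancel g (e.trans h1.symm))
        exact ⟨g * t, by rw [mul_smul, ← hd, hgd], by rw [mul_smul, hdc, h1], by rw [mul_smul, hta, hgz]⟩
    refine ⟨fun u v => ?_⟩
    have key : ∀ u : Fin 3 ↪ Ω, ∃ g : G, g • u 0 = c ∧ g • u 1 = d ∧ g • u 2 = a := by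
      intro u
      obtain ⟨g, hg0, hg1⟩ := hG2 (u.injective.ne (show (0 : Fin 3) ≠ 1 by decide)) (Ne.symm hc)
      obtain ⟨k, hk0, hk1, hk2⟩ := htr (g • u 2)
        (fun e => u.injective.ne (show (2 : Fin 3) ≠ 0 by decide) (smul_left_cancel g (e.trans hg0.symm)))
        (fun e => u.injective.ne (show (2 : Fin 3) ≠ 1 by decide) (smul_left_cancel g (e.trans hg1.symm)))
      refine ⟨k⁻¹ * g, ?_, ?_, ?_⟩ <;> rw [mul_smul]
      · rw [hg0, inv_smul_eq_iff, hk0]
      · rw [hg1, inv_smul_eq_iff, hk1]
      · rw [inv_smul_eq_iff, hk2]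
    obtain ⟨g, g0, g1, g2⟩ := key u
    obtain ⟨k, k0, k1, k2⟩ := key v
    refine ⟨k⁻¹ * g, Function.Embedding.ext fun i => ?_⟩
    show (k⁻¹ * g) • u i = v i
    rw [mul_smul, inv_smul_eq_iff]
    fin_cases i
    · exact g0.trans k0.symm
    · exact g1.trans k1.symm
    · exact g2.trans k2.symm
  haveI : NeZero (2 : K) := ⟨h2K⟩
  obtain ⟨s0, hs0⟩ := pairOf hab
  let R : Pair → Ω → Prop := fun s c => ∃ g : G, g • s0 = s ∧ g • x = c
  have hR : ∀ (g : G) s c, R (g • s) (g • c) ↔ R s c := fun g s c =>
    ⟨fun ⟨k, hk1, hk2⟩ => ⟨g⁻¹ * k, by rw [mul_smul, hk1, inv_smul_smul], by rw [mul_smul, hk2, inv_smul_smul]⟩,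
      fun ⟨k, hk1, hk2⟩ => ⟨g * k, by rw [mul_smul, hk1], by rw [mul_smul, hk2]⟩⟩
  let m : K := ∑ c, if R s0 c then 1 else 0
  let w : Pair → Ω → K := fun s c => (if R s c then 1 else 0) - (if c ∈ (s : Finset Ω) then m / 2 else 0)
  have hwinv : ∀ g : G, ∀ s c, w (g • s) (g • c) = w s c := fun g s c => by
    show (if R (g • s) (g • c) then (1 : K) else 0) - _ = _
    rw [if_congr (hR g s c) rfl rfl, if_congr (show g • c ∈ ((g • s : Pair) : Finset Ω) ↔ c ∈ (s : Finset Ω) from
      Finset.smul_mem_smul_finset_iff g) rfl rfl]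
  have hsum : ∀ s, ∑ c, w s c = 0 := by
    intro s
    obtain ⟨c', d', hcd, hs⟩ := Finset.card_eq_two.1 (s.2 : (s : Finset Ω).card = 2)
    obtain ⟨g, hg1, hg2⟩ := hG2 hab hcd
    have hgs : g • s0 = s := Subtype.ext (by
      show g • (s0 : Finset Ω) = (s : Finset Ω)
      rw [hs0, hs, Finset.smul_finset_insert, Finset.smul_finset_singleton, hg1, hg2])
    have e : ∑ c, w s c = ∑ c, w s0 c := (Fintype.sum_equiv (MulAction.toPerm g) _ _ fun c => by
      rw [MulAction.toPerm_apply, ← hgs, hwinv]).symm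
    rw [e]
    show ∑ c, ((if R s0 c then (1 : K) else 0) - if c ∈ (s0 : Finset Ω) then m / 2 else 0) = 0
    rw [Finset.sum_sub_distrib, Finset.sum_ite_mem, Finset.univ_inter, Finset.sum_const,
      show (s0 : Finset Ω).card = 2 from s0.2, two_nsmul, add_halves, sub_self]
  have hxy : x ≠ y := fun e => hno 1 (one_smul _ _) (by rw [one_smul, e])
  have hk := hker w hwinv hsum (Pi.single x 1 - Pi.single y 1) (by simp [Finset.sum_sub_distrib]) s0
  have hRx : R s0 x := ⟨1, one_smul _ _, one_smul _ _⟩
  have hRy : ¬ R s0 y := fun ⟨g, hg1, hg2⟩ => hno g (by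
    have := congrArg (fun s : Pair => (s : Finset Ω)) hg1
    rw [← hs0]; exact this) hg2
  simp [w, mul_sub, Finset.sum_sub_distrib, Pi.single_apply, hs0, hRx, hRy, hx.1, hx.2, hy.1, hy.2] at hk

end Cfsg.Agent.S0672
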