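import Cfsg.Statements.S0673
import Mathlib

set_option autoImplicit false
open Cfsg

namespace Cfsg.Agent.S0673

/-- In characteristic `p`, the translation-invariant subspaces of the space of functions on `ZMod p` are exactly the spaces of polynomial functions of degree less than `r`, one for each `r ≤ p`, of dimension `r`. -/
theorem result {p : ℕ} [Fact p.Prime] {K : Type*} [Field K] [CharP K p] (W : Submodule K (ZMod p → K)) (hW : ∀ f ∈ W, (fun j => f (j - 1)) ∈ W) : ∃ r : ℕ, r ≤ p ∧ Module.finrank K W = r ∧ ∀ f : ZMod p → K, f ∈ W ↔ ∃ P : Polynomial K, P.degree < r ∧ ∀ j : ZMod p, f j = P.eval (ZMod.cast j : K) := by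
  classical
  let Δ : (ZMod p → K) →ₗ[K] (ZMod p → K) :=
    { toFun := fun f j => f (j - 1) - f j
      map_add' := fun f g => funext fun j => by simp; ring
      map_smul' := fun c f => funext fun j => by simp [mul_sub] }
  haveI : NeZero p := ⟨(Fact.out : p.Prime).ne_zero⟩
  -- the kernels of the iterates are small
  have hker : ∀ r : ℕ, Module.finrank K (LinearMap.ker (Δ ^ r)) ≤ r := by
    intro r
    induction r with
    | zero => rw [pow_zero, show (1 : (ZMod p → K) →ₗ[K] (ZMod p → K)) = LinearMap.id from rfl, LinearMap.ker_id, finrank_bot]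
    | succ r ih =>
      have h1 : Module.finrank K (LinearMap.ker Δ) ≤ 1 := by
        have hle : LinearMap.ker Δ ≤ Submodule.span K {fun _ => (1 : K)} := by
          intro f hf
          rw [Submodule.mem_span_singleton]
          refine ⟨f 0, funext fun j => ?_⟩
          have hstep : ∀ j, f (j + 1) = f j := fun j => by
            have := congrFun hf (j + 1)
            simp [Δ, sub_eq_zero] at this
            exact this.symm
          have hn : ∀ i : ℕ, f (i : ZMod p) = f 0 := by
            intro i
            induction i with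
            | zero => simp
            | succ i ih => rw [Nat.cast_succ, hstep, ih]
          simp only [Pi.smul_apply, smul_eq_mul, mul_one]
          rw [← ZMod.natCast_zmod_val j, hn]
        exact (Submodule.finrank_mono hle).trans ((finrank_span_le_card _).trans (by simp))
      let φ := ((Δ ^ r).comp (LinearMap.ker (Δ ^ (r + 1))).subtype)
      have hφ := LinearMap.finrank_range_add_finrank_ker φ
      have hr : Module.finrank K (LinearMap.range φ) ≤ 1 := by
        refine (Submodule.finrank_mono ?_).trans h1
        rintro _ ⟨f, rfl⟩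
        show Δ ((Δ ^ r) (f : ZMod p → K)) = 0
        rw [← Module.End.mul_apply, ← pow_succ']
        exact f.2
      have hk : Module.finrank K (LinearMap.ker φ) ≤ Module.finrank K (LinearMap.ker (Δ ^ r)) :=
        LinearMap.finrank_le_finrank_of_injective
          (f := LinearMap.codRestrict _ ((LinearMap.ker (Δ ^ (r + 1))).subtype.comp (LinearMap.ker φ).subtype) (fun f => f.2))
          (fun f g h => Subtype.ext (Subtype.ext (congrArg Subtype.val h :)))
      omega
  set r := Module.finrank K W with hr
  have hrp : r ≤ p := (Submodule.finrank_le W).trans (by rw [Module.finrank_fintype_fun_eq_card, ZMod.card])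
  have hWinv : ∀ f ∈ W, Δ f ∈ W := fun f hf => W.sub_mem (hW f hf) hf
  -- `Δ` is nilpotent
  have hΔp : ∀ f, (Δ ^ p) f = 0 := by
    let T : (ZMod p → K) →ₗ[K] (ZMod p → K) :=
      { toFun := fun f j => f (j - 1), map_add' := fun _ _ => rfl, map_smul' := fun _ _ => rfl }
    have hT : ∀ (i : ℕ) f j, (T ^ i) f j = f (j - i) := by
      intro i
      induction i with
      | zero => intro f j; simp
      | succ i ih =>
        intro f j
        rw [pow_succ', Module.End.mul_apply]
        show (T ^ i) f (j - 1) = _
        rw [ih, Nat.cast_succ]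
        congr 1; ring
    haveI : Nontrivial (ZMod p → K) := inferInstance
    haveI : CharP ((ZMod p → K) →ₗ[K] (ZMod p → K)) p :=
      charP_of_injective_algebraMap (FaithfulSMul.algebraMap_injective K _) p
    intro f
    have e : Δ = T - 1 := LinearMap.ext fun f => rfl
    rw [e, sub_pow_char_of_commute p (Commute.one_right T), one_pow]
    funext j
    show (T ^ p) f j - f j = 0
    rw [hT, ZMod.natCast_self, sub_zero, sub_self]
  have hWker : W ≤ LinearMap.ker (Δ ^ r) := by
    let D : W →ₗ[K] W := Δ.restrict hWinv
    have hD : ∀ (i : ℕ) (w : W), ((D ^ i) w : ZMod p → K) = (Δ ^ i) (w : ZMod p → K) := by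
      intro i
      induction i with
      | zero => intro w; simp
      | succ i ih => intro w; rw [pow_succ', pow_succ', Module.End.mul_apply, Module.End.mul_apply, ← ih]; rfl
    have hnil : IsNilpotent D := ⟨p, LinearMap.ext fun w => Subtype.ext (by rw [hD, hΔp]; rfl)⟩
    intro f hf
    have h : D ^ r = 0 := by
      have := D.aeval_self_charpoly
      rwa [IsNilpotent.charpoly_eq_X_pow_finrank hnil, map_pow, Polynomial.aeval_X] at this
    have := congrArg Subtype.val (LinearMap.congr_fun h ⟨f, hf⟩)
    rw [hD] at this
    exact this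
  -- polynomial functions of small degree
  let E : Polynomial K →ₗ[K] (ZMod p → K) :=
    { toFun := fun P j => P.eval (ZMod.cast j : K)
      map_add' := fun P Q => funext fun j => by simp
      map_smul' := fun c P => funext fun j => by simp }
  have hcast : ∀ j : ZMod p, (ZMod.cast (j - 1) : K) = (ZMod.cast j : K) - 1 := fun j => by
    rw [ZMod.cast_sub dvd_rfl, ZMod.cast_one dvd_rfl]
  have hstep : ∀ (d : ℕ) (P : Polynomial K), P.degree < (d + 1 : ℕ) → ∃ Q : Polynomial K, Q.degree < (d : ℕ) ∧ Δ (E P) = E Q := by
    intro d P hP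
    refine ⟨P.comp (Polynomial.X - Polynomial.C 1) - P, ?_, funext fun j => ?_⟩
    · by_cases h0 : P.comp (Polynomial.X - Polynomial.C 1) - P = 0
      · rw [h0, Polynomial.degree_zero]; exact WithBot.bot_lt_coe _
      have hdeg : (P.comp (Polynomial.X - Polynomial.C 1)).degree = P.degree := by
        by_cases hP0 : P = 0
        · simp [hP0]
        have hne : P.comp (Polynomial.X - Polynomial.C 1) ≠ 0 := fun h => hP0 (by
          have := congrArg (fun Q : Polynomial K => Q.comp (Polynomial.X + Polynomial.C 1)) h
          simp only [Polynomial.comp_assoc, Polynomial.sub_comp, Polynomial.X_comp, Polynomial.C_comp,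
            Polynomial.zero_comp, add_sub_cancel_right, Polynomial.comp_X] at this
          exact this)
        rw [Polynomial.degree_eq_natDegree hne, Polynomial.degree_eq_natDegree hP0, Polynomial.natDegree_comp,
          Polynomial.natDegree_X_sub_C, mul_one]
      have hP0 : P ≠ 0 := fun h => h0 (by simp [h])
      refine lt_of_lt_of_le (Polynomial.degree_sub_lt hdeg (fun h => h0 (by rw [h, zero_sub, neg_eq_zero]; exact absurd (by rw [← Polynomial.degree_eq_bot, ← hdeg, h, Polynomial.degree_zero]) hP0)) ?_) ?_
      · rw [Polynomial.leadingCoeff_comp (by rw [Polynomial.natDegree_X_sub_C]; norm_num), Polynomial.leadingCoeff_X_sub_C, one_pow, mul_one]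
      · rw [hdeg, Polynomial.degree_eq_natDegree hP0] at *
        have : P.natDegree < d + 1 := by exact_mod_cast hP
        exact_mod_cast Nat.le_of_lt_succ this
    · show P.eval (ZMod.cast (j - 1) : K) - P.eval (ZMod.cast j : K) = _
      simp [E, hcast]
  have hpoly : ∀ (d : ℕ) (P : Polynomial K), P.degree < (d : ℕ) → (Δ ^ d) (E P) = 0 := by
    intro d
    induction d with
    | zero =>
      intro P hP
      have : P = 0 := by
        rw [← Polynomial.degree_eq_bot]
        exact Nat.WithBot.lt_zero_iff.1 (by exact_mod_cast hP)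
      simp [this]
    | succ d ih =>
      intro P hP
      obtain ⟨Q, hQ, hQ'⟩ := hstep d P hP
      rw [pow_succ, Module.End.mul_apply, hQ', ih Q hQ]
  let Φ : Polynomial.degreeLT K r →ₗ[K] (ZMod p → K) := E.comp (Polynomial.degreeLT K r).subtype
  have hΦ : Function.Injective Φ := by
    rw [← LinearMap.ker_eq_bot, LinearMap.ker_eq_bot']
    intro P hP
    apply Subtype.ext
    refine Polynomial.eq_zero_of_degree_lt_of_eval_finset_eq_zero
      (Finset.univ.image fun j : ZMod p => (ZMod.cast j : K)) ?_ ?_
    · rw [Finset.card_image_of_injective _ (show Function.Injective (fun j : ZMod p => (ZMod.cast j : K)) from ZMod.castHom_injective K), Finset.card_univ, ZMod.card]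
      exact lt_of_lt_of_le (Polynomial.mem_degreeLT.1 P.2) (by exact_mod_cast hrp)
    · intro x hx
      obtain ⟨j, -, rfl⟩ := Finset.mem_image.1 hx
      exact congrFun hP j
  have hΦker : LinearMap.range Φ ≤ LinearMap.ker (Δ ^ r) := by
    rintro _ ⟨P, rfl⟩
    exact hpoly r P (Polynomial.mem_degreeLT.1 P.2)
  have hΦr : Module.finrank K (LinearMap.range Φ) = r := by
    rw [LinearMap.finrank_range_of_inj hΦ, (Polynomial.degreeLTEquiv K r).finrank_eq, Module.finrank_fintype_fun_eq_card, Fintype.card_fin]
  have e1 : W = LinearMap.ker (Δ ^ r) := Submodule.eq_of_le_of_finrank_le hWker (hker r)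
  have e2 : LinearMap.range Φ = LinearMap.ker (Δ ^ r) := Submodule.eq_of_le_of_finrank_le hΦker ((hker r).trans hΦr.ge)
  refine ⟨r, hrp, hr.symm, fun f => ?_⟩
  rw [e1, ← e2]
  constructor
  · rintro ⟨P, rfl⟩
    exact ⟨P, Polynomial.mem_degreeLT.1 P.2, fun j => rfl⟩
  · rintro ⟨P, hP, hf⟩
    exact ⟨⟨P, Polynomial.mem_degreeLT.2 hP⟩, funext fun j => (hf j).symm⟩

end Cfsg.Agent.S0673
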