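import Cfsg.Statements.S0674
import Mathlib
import Cfsg.Agent.S0673
import Cfsg.Agent.Lib.Perm.BurnsidePrime

set_option autoImplicit false
open Cfsg

namespace Cfsg.Agent.S0674

set_option linter.style.haveILetI false

open Polynomial

/-- A transitive group of prime degree contains a full cycle; label the points by it. -/
theorem exists_cycle {α : Type*} [Fintype α] [DecidableEq α] {p : ℕ} [Fact p.Prime] (hα : Fintype.card α = p)
    (G : Subgroup (Equiv.Perm α)) [MulAction.IsPretransitive G α] :
    ∃ (e : ZMod p ≃ α) (σ : G), ∀ i, (σ : Equiv.Perm α) (e i) = e (i + 1) := by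
  classical
  have hp : p.Prime := Fact.out
  obtain ⟨a⟩ : Nonempty α := Fintype.card_pos_iff.1 (hα ▸ hp.pos)
  have hdvd : p ∣ Nat.card G := by
    have h := MulAction.index_stabilizer_of_transitive G (x := a)
    rw [Nat.card_eq_fintype_card, hα] at h
    rw [← h]
    exact Subgroup.index_dvd_card _
  obtain ⟨σ, hσ⟩ := exists_prime_orderOf_dvd_card' p hdvd
  have hσ' : orderOf (σ : Equiv.Perm α) = p := by rw [Subgroup.orderOf_coe, hσ]
  have hcyc : (σ : Equiv.Perm α).IsCycle :=
    Equiv.Perm.isCycle_of_prime_order'' (by rw [hα]; exact hp) (by rw [hσ', hα])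
  have hfull : (σ : Equiv.Perm α).support = Finset.univ := by
    apply Finset.eq_univ_of_card
    rw [← hcyc.orderOf, hσ', hα]
  let e0 : ZMod p → α := fun i => ((σ : Equiv.Perm α) ^ i.val) a
  have hmod : ∀ n : ℕ, ((σ : Equiv.Perm α) ^ n) a = e0 (n : ZMod p) := by
    intro n
    show _ = ((σ : Equiv.Perm α) ^ (n : ZMod p).val) a
    rw [ZMod.val_natCast, ← hσ', pow_mod_orderOf]
  have hsurj : Function.Surjective e0 := fun b => by
    have hs : ∀ z : α, (σ : Equiv.Perm α) z ≠ z := fun z => Equiv.Perm.mem_support.1 (hfull ▸ Finset.mem_univ z)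
    obtain ⟨i, hi⟩ := hcyc.exists_pow_eq (hs a) (hs b)
    exact ⟨i, (hmod i).symm.trans hi⟩
  refine ⟨Equiv.ofBijective e0 ((Fintype.bijective_iff_surjective_and_card e0).2 ⟨hsurj, by rw [ZMod.card, hα]⟩), σ, fun i => ?_⟩
  show (σ : Equiv.Perm α) (((σ : Equiv.Perm α) ^ i.val) a) = e0 (i + 1)
  rw [← Equiv.Perm.mul_apply, ← pow_succ', hmod, Nat.cast_add, ZMod.natCast_zmod_val, Nat.cast_one]

/-- A function on `ZMod p` whose powers below `r` agree with polynomials of degree below `r` is affine. -/
theorem affine_of_powers {p : ℕ} [Fact p.Prime] {K : Type*} [Field K] [CharP K p] (π : ZMod p → ZMod p) {r : ℕ}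
    (hr2 : 2 ≤ r) (hrp : 2 * r ≤ p + 1)
    (h : ∀ k < r, ∃ P : K[X], P.degree < r ∧ ∀ j : ZMod p, ((π j).cast : K) ^ k = P.eval (j.cast : K)) :
    ∃ a b : ZMod p, ∀ x, π x = a * x + b := by
  classical
  haveI : NeZero p := ⟨(Fact.out : p.Prime).ne_zero⟩
  set c : ZMod p →+* K := ZMod.castHom dvd_rfl K with hc
  set Q := Lagrange.interpolate (Finset.univ : Finset (ZMod p)) id π with hQ
  have hQe : ∀ j, Q.eval j = π j := fun j => Lagrange.eval_interpolate_at_node (v := id) π (Set.injOn_id _) (Finset.mem_univ j)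
  have hinj : Function.Injective fun j : ZMod p => (j.cast : K) := c.injective
  have heq : ∀ k, Q.natDegree * k < p → k < r → Q.natDegree * k < r := by
    intro k hk hkr
    obtain ⟨P, hP, hPe⟩ := h k hkr
    have hdeg : ((Q.map c) ^ k).natDegree = Q.natDegree * k := by
      rw [natDegree_pow, natDegree_map_eq_of_injective c.injective, mul_comm]
    have hPn : P.natDegree < r := by
      by_cases h0 : P = 0
      · rw [h0, natDegree_zero]; omega
      · exact (natDegree_lt_iff_degree_lt h0).2 hP
    have heqP : (Q.map c) ^ k = P := by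
      refine eq_of_natDegree_lt_card_of_eval_eq _ _ hinj (fun j => ?_) ?_
      · show ((Q.map c) ^ k).eval (c j) = P.eval (c j)
        rw [eval_pow, eval_map, eval₂_at_apply, hQe]
        exact hPe j
      · rw [hdeg, ZMod.card]; exact max_lt hk (by omega)
    rw [← hdeg, heqP]; exact hPn
  have hQd : Q.natDegree < p := by
    have := Lagrange.degree_interpolate_lt (s := (Finset.univ : Finset (ZMod p))) π (v := id) (Set.injOn_id _)
    rw [← hQ, Finset.card_univ, ZMod.card] at this
    by_cases h0 : Q = 0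
    · rw [h0, natDegree_zero]; exact (Fact.out : p.Prime).pos
    · exact (natDegree_lt_iff_degree_lt h0).2 this
  have hdr : Q.natDegree < r := by
    have := heq 1 (by rw [mul_one]; exact hQd) (by omega)
    rwa [mul_one] at this
  set d := Q.natDegree with hd
  have hd1 : d ≤ 1 := by
    by_contra hd2
    have h1 := Nat.div_mul_le_self (r + d - 1) d
    have h2 : r ≤ d * ((r + d - 1) / d) := by
      have := Nat.lt_mul_div_succ (r + d - 1) (show 0 < d by omega)
      rw [Nat.mul_succ] at this
      omega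
    set k := (r + d - 1) / d with hk
    rw [mul_comm] at h1
    have hkr : k < r := by
      have : 2 * k ≤ d * k := Nat.mul_le_mul_right k (by omega)
      omega
    have := heq k (by omega) hkr
    omega
  refine ⟨Q.coeff 1, Q.coeff 0, fun x => ?_⟩
  rw [← hQe x]
  conv_lhs => rw [eq_X_add_C_of_natDegree_le_one hd1]
  simp

theorem sum_cast_pow {p : ℕ} [Fact p.Prime] {K : Type*} [Field K] [CharP K p] {m : ℕ} (hm : m < p - 1) :
    ∑ j : ZMod p, (j.cast : K) ^ m = 0 := by
  haveI : NeZero p := ⟨(Fact.out : p.Prime).ne_zero⟩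
  show ∑ j : ZMod p, (ZMod.castHom dvd_rfl K j) ^ m = 0
  simp only [← map_pow, ← map_sum]
  rw [FiniteField.sum_pow_lt_card_sub_one (K := ZMod p) m (by rwa [ZMod.card]), map_zero]

theorem sum_cast_pow_top {p : ℕ} [Fact p.Prime] {K : Type*} [Field K] [CharP K p] :
    ∑ j : ZMod p, (j.cast : K) ^ (p - 1) = -1 := by
  classical
  have hp : p.Prime := Fact.out
  haveI : NeZero p := ⟨hp.ne_zero⟩
  show ∑ j : ZMod p, (ZMod.castHom dvd_rfl K j) ^ (p - 1) = -1
  simp only [← map_pow, ← map_sum]
  rw [← Finset.add_sum_erase _ _ (Finset.mem_univ (0 : ZMod p)), zero_pow (by have := hp.two_le; omega), zero_add,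
    Finset.sum_congr rfl fun j hj => ZMod.pow_card_sub_one_eq_one (Finset.ne_of_mem_erase hj), Finset.sum_const,
    Finset.card_erase_of_mem (Finset.mem_univ _), Finset.card_univ, ZMod.card, nsmul_one, map_natCast,
    Nat.cast_sub hp.one_le, CharP.cast_eq_zero, Nat.cast_one, zero_sub]


/-- Let `G` be a non-solvable transitive permutation group of prime degree `p` and `K` a field of characteristic `p`. Then the heart of the permutation module is irreducible: an invariant subspace containing the constants and contained in the sum-zero functions is one or the other. -/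
theorem result {α : Type*} [Fintype α] [DecidableEq α] {p : ℕ} [Fact p.Prime] (hα : Fintype.card α = p) (G : Subgroup (Equiv.Perm α)) [MulAction.IsPretransitive G α] (hG : ¬ Group.IsSolvable G) {K : Type*} [Field K] [CharP K p] (W : Subrepresentation (Cfsg.permRep K G α)) (h₁ : (Cfsg.permConstants K G α).toSubmodule ≤ W.toSubmodule) (h₂ : W.toSubmodule ≤ (Cfsg.permSumZero K G α).toSubmodule) : W = Cfsg.permConstants K G α ∨ W = Cfsg.permSumZero K G α := by
  classical
  have hp : p.Prime := Fact.out
  haveI : NeZero p := ⟨hp.ne_zero⟩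
  obtain ⟨e, σ, hσ⟩ := exists_cycle hα G
  let L : (α → K) →ₗ[K] (ZMod p → K) := LinearMap.funLeft K K e
  have hL : Function.Injective L := LinearMap.funLeft_injective_of_surjective K K e e.surjective
  set W' := W.toSubmodule.map L with hW'
  have hinv : ∀ (g : G), ∀ f ∈ W', (fun j => f (e.symm ((g : Equiv.Perm α) (e j)))) ∈ W' := by
    rintro g _ ⟨w, hw, rfl⟩
    refine ⟨_, W.apply_mem_toSubmodule g⁻¹ hw, funext fun j => ?_⟩
    show w ((g⁻¹)⁻¹ • e j) = w (e (e.symm ((g : Equiv.Perm α) (e j))))
    rw [inv_inv, Equiv.apply_symm_apply]; rfl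
  have hshift : ∀ f ∈ W', (fun j => f (j - 1)) ∈ W' := by
    intro f hf
    have := hinv σ⁻¹ f hf
    convert this using 2 with j
    show f (j - 1) = f (e.symm ((σ : Equiv.Perm α).symm (e j)))
    congr 1
    rw [eq_comm, Equiv.symm_apply_eq, Equiv.symm_apply_eq, hσ, sub_add_cancel]
  obtain ⟨r, hrp, hrd, hr⟩ := Cfsg.Agent.S0673.result W' hshift
  have hmono : ∀ m, m < r → (fun j : ZMod p => (j.cast : K) ^ m) ∈ W' := fun m hm =>
    (hr _).2 ⟨X ^ m, lt_of_le_of_lt (degree_X_pow_le m) (by exact_mod_cast hm), fun j => by simp⟩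
  have hone : (fun _ : ZMod p => (1 : K)) ∈ W' := ⟨fun _ => 1, h₁ (Submodule.mem_span_singleton_self _), rfl⟩
  have hsum : ∀ f ∈ W', ∑ j, f j = 0 := by
    rintro _ ⟨w, hw, rfl⟩
    rw [← show ∑ x, w x = 0 from h₂ hw]
    exact Fintype.sum_equiv e _ _ fun j => rfl
  have hr1 : 1 ≤ r := by
    rcases Nat.eq_zero_or_pos r with rfl | hr0
    · obtain ⟨P, hP, hPe⟩ := (hr _).1 hone
      have h0 : P = 0 := by
        rw [← degree_eq_bot]; exact Nat.WithBot.lt_zero_iff.1 (by exact_mod_cast hP)
      have := hPe 0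
      simp [h0] at this
    · exact hr0
  have hrlt : r < p := by
    rcases hrp.lt_or_eq with h | h
    · exact h
    · exfalso
      have := hsum _ (hmono (p - 1) (by have := hp.two_le; omega))
      rw [sum_cast_pow_top] at this
      exact neg_ne_zero.2 one_ne_zero this
  have hWdim : Module.finrank K W.toSubmodule = r := by
    rw [← hrd, hW']
    exact (Submodule.equivMapOfInjective L hL W.toSubmodule).finrank_eq
  by_cases hc1 : r = 1
  · refine Or.inl (Subrepresentation.toSubmodule_injective (Submodule.eq_of_le_of_finrank_le h₁ ?_).symm)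
    rw [hWdim, hc1]
    exact Submodule.one_le_finrank_iff.2 (fun h => by
      have := (Submodule.span_singleton_eq_bot).1 h
      exact one_ne_zero (congrFun this (e 0)))
  by_cases hc2 : r = p - 1
  · refine Or.inr (Subrepresentation.toSubmodule_injective (Submodule.eq_of_le_of_finrank_le h₂ ?_))
    have hne : (Cfsg.permSumZero K G α).toSubmodule ≠ ⊤ := fun h => by
      have : (Pi.single (e 0) 1 : α → K) ∈ (Cfsg.permSumZero K G α).toSubmodule := h ▸ Submodule.mem_top
      exact one_ne_zero ((Fintype.sum_pi_single' (e 0) (1 : K)).symm.trans this)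
    have := Submodule.finrank_lt hne
    rw [Module.finrank_fintype_fun_eq_card, hα] at this
    omega
  exfalso
  refine hG ?_
  -- the transported group consists of affine maps
  let c : Equiv.Perm α ≃* Equiv.Perm (ZMod p) := e.symm.permCongrHom
  suffices haff : ∀ g : G, ∃ a b : ZMod p, ∀ x, e.symm ((g : Equiv.Perm α) (e x)) = a * x + b by
    have hs : Group.IsSolvable (G.map c.toMonoidHom) := by
      refine CfsgLib.Perm.BurnsidePrime.solvable_of_affine _ ?_
      rintro _ ⟨g, hg, rfl⟩
      exact haff ⟨g, hg⟩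
    haveI : Group.IsSolvable ↥(G.map (c : Equiv.Perm α →* Equiv.Perm (ZMod p))) := hs
    exact Group.isSolvable_of_isSolvable_injective (f := (c.subgroupMap G).toMonoidHom) (c.subgroupMap G).injective
  intro g
  by_cases hhalf : 2 * r ≤ p + 1
  · refine affine_of_powers (K := K) _ (by omega) hhalf fun k hk => ?_
    exact (hr _).1 (hinv g _ (hmono k hk))
  -- otherwise use the annihilator
  let U : Submodule K (ZMod p → K) :=
    { carrier := {u | ∀ w ∈ W', ∑ x, u x * w x = 0}
      zero_mem' := fun w _ => by simp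
      add_mem' := fun {u v} hu hv w hw => by simp [add_mul, Finset.sum_add_distrib, hu w hw, hv w hw]
      smul_mem' := fun c u hu w hw => by simp [mul_assoc, ← Finset.mul_sum, hu w hw] }
  have hUinv : ∀ (g : G), ∀ u ∈ U, (fun j => u (e.symm ((g : Equiv.Perm α) (e j)))) ∈ U := by
    intro g u hu w hw
    rw [← hu _ (hinv g⁻¹ w hw)]
    refine Fintype.sum_equiv ((e.trans (g : Equiv.Perm α)).trans e.symm) _ _ fun j => ?_
    show _ = u (e.symm ((g : Equiv.Perm α) (e j))) * w (e.symm ((g : Equiv.Perm α).symm (e (e.symm ((g : Equiv.Perm α) (e j))))))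
    rw [Equiv.apply_symm_apply, Equiv.symm_apply_apply, Equiv.symm_apply_apply]
  have hUshift : ∀ u ∈ U, (fun j => u (j - 1)) ∈ U := by
    intro u hu
    have := hUinv σ⁻¹ u hu
    convert this using 2 with j
    show u (j - 1) = u (e.symm ((σ : Equiv.Perm α).symm (e j)))
    congr 1
    rw [eq_comm, Equiv.symm_apply_eq, Equiv.symm_apply_eq, hσ, sub_add_cancel]
  obtain ⟨r', hr'p, -, hr'⟩ := Cfsg.Agent.S0673.result U hUshift
  have hUmono : ∀ m, m < p - r → (fun j : ZMod p => (j.cast : K) ^ m) ∈ U := by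
    intro m hm w hw
    obtain ⟨P, hP, hPe⟩ := (hr w).1 hw
    have hPn : P.natDegree < r := by
      by_cases h0 : P = 0
      · rw [h0, natDegree_zero]; omega
      · exact (natDegree_lt_iff_degree_lt h0).2 hP
    simp only [hPe, eval_eq_sum_range' hPn, Finset.mul_sum]
    rw [Finset.sum_comm]
    refine Finset.sum_eq_zero fun i hi => ?_
    have : ∑ j : ZMod p, (j.cast : K) ^ m * (P.coeff i * (j.cast : K) ^ i) = P.coeff i * ∑ j : ZMod p, (j.cast : K) ^ (m + i) := by
      rw [Finset.mul_sum]
      exact Finset.sum_congr rfl fun j _ => by rw [pow_add]; ring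
    rw [this, sum_cast_pow (by have := Finset.mem_range.1 hi; omega), mul_zero]
  have hr'le : r' ≤ p - r := by
    by_contra hlt
    have hmem : (fun j : ZMod p => (j.cast : K) ^ (p - r)) ∈ U :=
      (hr' _).2 ⟨X ^ (p - r), lt_of_le_of_lt (degree_X_pow_le _) (by exact_mod_cast Nat.lt_of_not_le hlt), fun j => by simp⟩
    have := hmem _ (hmono (r - 1) (by omega))
    simp only [← pow_add] at this
    rw [show p - r + (r - 1) = p - 1 by omega, sum_cast_pow_top] at this
    exact neg_ne_zero.2 one_ne_zero this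
  refine affine_of_powers (K := K) _ (r := p - r) (by omega) (by omega) fun k hk => ?_
  obtain ⟨P, hP, hPe⟩ := (hr' _).1 (hUinv g _ (hUmono k hk))
  exact ⟨P, lt_of_lt_of_le hP (by exact_mod_cast hr'le), hPe⟩

end Cfsg.Agent.S0674
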