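import Cfsg.Statements.S0677
import Mathlib
import Cfsg.Agent.Lib.Perm.PrimeDegree
import Cfsg.Agent.Lib.Perm.JordanNormal

set_option autoImplicit false
open Cfsg

namespace Cfsg.Agent.S0677

set_option linter.style.haveILetI false
set_option maxHeartbeats 800000
open scoped Pointwise commutatorElement

/-- Reading a permutation in the labels. -/
theorem affine_of_normalize {p : ℕ} [Fact p.Prime] (f : ZMod p → ZMod p) {m : ℕ}
    (hf : ∀ x, f (x + 1) = f x + (m : ZMod p)) : ∀ x, f x = (m : ZMod p) * x + f 0 := by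
  have : ∀ n : ℕ, f n = (m : ZMod p) * n + f 0 := by
    intro n
    induction n with
    | zero => simp
    | succ n ih => rw [Nat.cast_succ, hf, ih]; ring
  intro x
  rw [← ZMod.natCast_zmod_val x]; exact this _


/-- In a transitive permutation group of prime degree `p` whose Sylow `p`-normaliser has even order, the point stabilisers are the only subgroups of index `p`. -/
theorem result {α : Type*} [Fintype α] [DecidableEq α] {p : ℕ} [Fact p.Prime] (hα : Fintype.card α = p) (G : Subgroup (Equiv.Perm α)) [MulAction.IsPretransitive G α] (P : Sylow p G) (heven : Even (Nat.card (Subgroup.normalizer ((P : Subgroup G) : Set G)))) (H : Subgroup G) (hH : H.index = p) : ∃ a : α, H = MulAction.stabilizer G a := by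
  classical
  have hp : p.Prime := Fact.out
  haveI : NeZero p := ⟨hp.ne_zero⟩
  obtain ⟨a₀⟩ : Nonempty α := Fintype.card_pos_iff.1 (hα ▸ hp.pos)
  have hstab : ∀ a : α, (MulAction.stabilizer G a).index = p := fun a => by
    rw [MulAction.index_stabilizer_of_transitive G (x := a), Nat.card_eq_fintype_card, hα]
  suffices hfix : ∃ a : α, H ≤ MulAction.stabilizer G a by
    obtain ⟨a, ha⟩ := hfix
    refine ⟨a, Subgroup.eq_of_le_of_card_ge ha ?_⟩
    have h1 := H.card_mul_index
    have h2 := (MulAction.stabilizer G a).card_mul_index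
    rw [hH] at h1
    rw [hstab a] at h2
    exact (Nat.eq_of_mul_eq_mul_right hp.pos (h2.trans h1.symm)).le
  by_cases hp2 : p = 2
  · subst hp2
    refine ⟨a₀, fun h hh => ?_⟩
    have h1 := H.card_mul_index
    have hle : Nat.card G ∣ 2 := by
      have := Subgroup.card_subgroup_dvd_card G
      rwa [Nat.card_eq_fintype_card (α := Equiv.Perm α), Fintype.card_perm, hα, Nat.factorial_two] at this
    have := Nat.le_of_dvd (by norm_num) hle
    rw [hH] at h1
    have hc : Nat.card H = 1 := by
      have := Nat.card_pos (α := H)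
      omega
    rw [(Subgroup.card_eq_one.1 hc)] at hh
    rw [Subgroup.mem_bot.1 hh]
    exact Subgroup.one_mem _
  obtain ⟨e, σ, hσ⟩ := CfsgLib.Perm.PrimeDegree.exists_cycle hα G
  let F : G → ZMod p → ZMod p := fun g x => e.symm ((g : Equiv.Perm α) (e x))
  have hFe : ∀ g x, e (F g x) = (g : Equiv.Perm α) (e x) := fun g x => e.apply_symm_apply _
  have hFmul : ∀ g h x, F (g * h) x = F g (F h x) := fun g h x => by
    show e.symm ((g : Equiv.Perm α) ((h : Equiv.Perm α) (e x))) = e.symm ((g : Equiv.Perm α) (e (F h x)))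
    rw [hFe]
  have hFinj : ∀ g, Function.Injective (F g) := fun g x y h => e.injective ((g : Equiv.Perm α).injective (e.symm.injective h))
  have hFone : ∀ x, F 1 x = x := fun x => e.symm_apply_apply x
  have hFext : ∀ g h : G, (∀ x, F g x = F h x) → g = h := fun g h hgh => Subtype.ext (Equiv.ext fun a => by
    have := congrArg e (hgh (e.symm a))
    rwa [hFe, hFe, Equiv.apply_symm_apply] at this)
  have hFσ : ∀ (i : ℕ) x, F (σ ^ i) x = x + (i : ZMod p) := by
    intro i
    induction i with
    | zero => intro x; rw [pow_zero, hFone]; simp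
    | succ i ih =>
      intro x
      rw [pow_succ', hFmul, ih, Nat.cast_succ, ← add_assoc]
      show e.symm ((σ : Equiv.Perm α) (e (x + i))) = _
      rw [hσ, Equiv.symm_apply_apply]
  have hσo : orderOf σ = p := by
    refine orderOf_eq_prime (hFext _ _ fun x => by rw [hFσ, hFone, ZMod.natCast_self, add_zero]) fun h => ?_
    have := hFσ 1 0
    rw [pow_one, h, hFone, Nat.cast_one, zero_add] at this
    exact zero_ne_one this
  obtain ⟨hdec, hcop, hpH⟩ := CfsgLib.Perm.PrimeDegree.exists_pow_mul hα σ hσo H hH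
  suffices hz : ∃ z, ∀ h ∈ H, F h z = z by
    obtain ⟨z, hz⟩ := hz
    exact ⟨e z, fun h hh => by
      show (h : Equiv.Perm α) (e z) = e z
      rw [← hFe, hz h hh]⟩
  rcases CfsgLib.Perm.BurnsidePrime.burnside (α := α) (hα.symm ▸ hp) G with hsolv | h2
  · -- solvable: every element is affine
    haveI : Nontrivial G := by
      refine ⟨σ, 1, fun h => ?_⟩
      rw [h, orderOf_one] at hσo
      exact hp.ne_one hσo.symm
    obtain ⟨A, hAn, hA1, hAc⟩ : ∃ A : Subgroup G, A.Normal ∧ A ≠ ⊥ ∧ IsMulCommutative A := by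
      have hex : ∃ n, derivedSeries G n = ⊥ := (Group.isSolvable_def G).1 hsolv
      have hn0 : Nat.find hex ≠ 0 := fun h => by
        have := Nat.find_spec hex
        rw [h, derivedSeries_zero] at this
        exact top_ne_bot this
      refine ⟨derivedSeries G (Nat.find hex - 1), derivedSeries_normal G _, Nat.find_min hex (by omega),
        isMulCommutative_iff.2 fun u v => ?_⟩
      have hspec := Nat.find_spec hex
      rw [show Nat.find hex = Nat.find hex - 1 + 1 by omega, derivedSeries_succ] at hspec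
      have : ⁅(u : G), (v : G)⁆ = 1 := by
        have h9 := Subgroup.commutator_mem_commutator u.2 v.2
        rw [hspec] at h9
        exact Subgroup.mem_bot.1 h9
      exact Subtype.ext (commutatorElement_eq_one_iff_mul_comm.1 this)
    haveI := hAn
    haveI := MulAction.IsPreprimitive.of_prime_card (G := G) (X := α) (by rw [Nat.card_eq_fintype_card, hα]; exact hp)
    haveI htA := CfsgLib.Perm.isPretransitive_of_normal (α := α) hA1
    have hAp : Nat.card A = p := by
      have hfree : ∀ u : A, (u : G) • a₀ = a₀ → u = 1 := by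
        intro u hu
        apply Subtype.ext; apply Subtype.ext
        refine Equiv.ext fun w => ?_
        obtain ⟨v, rfl⟩ := MulAction.exists_smul_eq A a₀ w
        show (u : G) • (v : G) • a₀ = (v : G) • a₀
        rw [← mul_smul, show (u : G) * v = v * u from congrArg Subtype.val (mul_comm' u v), mul_smul, hu]
      rw [← hα, ← Nat.card_eq_fintype_card]
      refine Nat.card_eq_of_bijective (fun u : A => (u : G) • a₀) ⟨fun u v huv => ?_, fun w => MulAction.exists_smul_eq A a₀ w⟩
      exact (inv_mul_eq_one.1 (hfree (v⁻¹ * u) (by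
        show ((v : G)⁻¹ * (u : G)) • a₀ = a₀
        rw [mul_smul]; exact inv_smul_eq_iff.2 huv))).symm
    have hσA : σ ∈ A := by
      by_contra hn
      have h1 : orderOf (σ : G ⧸ A) = p := orderOf_eq_prime (by rw [← QuotientGroup.mk_pow, ← hσo, pow_orderOf_eq_one]; rfl)
        (fun h => hn ((QuotientGroup.eq_one_iff σ).1 h))
      have h2 := orderOf_dvd_natCard (σ : G ⧸ A)
      rw [h1] at h2
      have h4 := A.card_mul_index
      have h5 : Nat.card G ∣ p * (p - 1).factorial := by
        rw [Nat.mul_factorial_pred hp.ne_zero, ← hα, ← Fintype.card_perm, ← Nat.card_eq_fintype_card]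
        exact Subgroup.card_subgroup_dvd_card G
      rw [← h4, hAp] at h5
      have := (hp.dvd_factorial).1 (h2.trans (Nat.dvd_of_mul_dvd_mul_left hp.pos h5))
      have := hp.two_le
      omega
    have haff : ∀ g : G, ∃ m : ℕ, ∀ x, F g x = (m : ZMod p) * x + F g 0 := by
      intro g
      have hgen : g * σ * g⁻¹ ∈ Subgroup.zpowers σ := by
        rw [Subgroup.eq_of_le_of_card_ge (H := Subgroup.zpowers σ) (K := A) (Subgroup.zpowers_le.2 hσA) (by rw [Nat.card_zpowers, hσo, hAp])]
        exact hAn.conj_mem _ hσA g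
      obtain ⟨m, -, hm⟩ := Finset.mem_image.1 (mem_zpowers_iff_mem_range_orderOf.1 hgen)
      refine ⟨m, affine_of_normalize _ fun x => ?_⟩
      rw [← hFσ m, ← hFmul, show σ ^ m * g = g * σ by rw [hm]; group, hFmul]
      rw [show F σ x = x + 1 by simpa using hFσ 1 x]
    choose m hm using haff
    by_cases hall : ∀ h ∈ H, (m h : ZMod p) = 1
    · refine ⟨0, fun h hh => ?_⟩
      have heq : h = σ ^ (F h 0).val := hFext _ _ fun x => by rw [hm, hall h hh, one_mul, hFσ, ZMod.natCast_zmod_val]
      have hd := hcop _ (heq ▸ hh)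
      rw [← ZMod.natCast_zmod_val (F h 0), (ZMod.natCast_eq_zero_iff _ _).2 hd]
    push Not at hall
    obtain ⟨h₀, hh₀, hm₀⟩ := hall
    have huniq : ∀ x y, F h₀ x = x → F h₀ y = y → x = y := fun x y hx hy => by
      rw [hm] at hx hy
      have : ((m h₀ : ZMod p) - 1) * (x - y) = 0 := by linear_combination hx - hy
      exact sub_eq_zero.1 ((mul_eq_zero.1 this).resolve_left (sub_ne_zero.2 hm₀))
    obtain ⟨z, hzdef⟩ : ∃ z, F h₀ z = z := ⟨F h₀ 0 / (1 - (m h₀ : ZMod p)), by
      rw [hm]
      have : (1 - (m h₀ : ZMod p)) ≠ 0 := sub_ne_zero.2 (Ne.symm hm₀)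
      field_simp
      ring⟩
    refine ⟨z, fun h hh => ?_⟩
    have hcomm : h₀ * h = h * h₀ := by
      have hk : ∀ x, F (h₀ * h) x = F (h * h₀) x + ((F h₀ (F h 0)) - (F h (F h₀ 0))) := fun x => by
        rw [hFmul, hFmul, hm h₀ (F h x), hm h x, hm h (F h₀ x), hm h₀ x, hm h₀ (F h 0), hm h (F h₀ 0)]
        ring
      set c := (F h₀ (F h 0)) - (F h (F h₀ 0))
      have heq : h₀ * h = σ ^ c.val * (h * h₀) := hFext _ _ fun x => by
        rw [hk, hFmul (σ ^ c.val), hFσ, ZMod.natCast_zmod_val]
      have hd := hcop c.val (by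
        rw [show σ ^ c.val = (h₀ * h) * (h * h₀)⁻¹ by rw [heq]; group]
        exact H.mul_mem (H.mul_mem hh₀ hh) (H.inv_mem (H.mul_mem hh hh₀)))
      obtain ⟨k, hk'⟩ := hd
      rw [heq, hk', pow_mul, ← hσo, pow_orderOf_eq_one, one_pow, one_mul]
    exact huniq _ _ (by rw [← hFmul, hcomm, hFmul, hzdef]) hzdef
  -- doubly transitive: difference sets
  obtain ⟨t, ht⟩ := exists_prime_orderOf_dvd_card' 2 (even_iff_two_dvd.1 heven)
  obtain ⟨s₀, b, hb⟩ : ∃ (s₀ : G) (b : ZMod p), ∀ x, F s₀ x = -x + b := by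
    obtain ⟨g', hg'⟩ : ∃ g' : G, ∀ q ∈ (P : Subgroup G), g' * q * g'⁻¹ ∈ Subgroup.zpowers σ := by
      have hs : IsPGroup p (Subgroup.zpowers σ) := IsPGroup.of_card (n := 1) (by rw [Nat.card_zpowers, hσo, pow_one])
      obtain ⟨Q, hQ⟩ := hs.exists_le_sylow
      have hQc : Nat.card (Q : Subgroup G) ≤ p := by
        obtain ⟨i, hi⟩ := IsPGroup.iff_card.1 Q.isPGroup'
        rw [hi]
        by_contra hi'
        have hi2 : 2 ≤ i := by
          by_contra h
          interval_cases i
          · rw [pow_zero] at hi'; exact hi' hp.one_le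
          · rw [pow_one] at hi'; exact hi' le_rfl
        have h5 : Nat.card G ∣ p * (p - 1).factorial := by
          rw [Nat.mul_factorial_pred hp.ne_zero, ← hα, ← Fintype.card_perm, ← Nat.card_eq_fintype_card]
          exact Subgroup.card_subgroup_dvd_card G
        have h6 : p * p ∣ p * (p - 1).factorial := by
          rw [← pow_two]
          exact ((Nat.pow_dvd_pow p hi2).trans (hi ▸ (Q : Subgroup G).card_subgroup_dvd_card)).trans h5
        have := (hp.dvd_factorial).1 (Nat.dvd_of_mul_dvd_mul_left hp.pos h6)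
        have := hp.two_le
        omega
      have hQeq : Subgroup.zpowers σ = (Q : Subgroup G) := Subgroup.eq_of_le_of_card_ge hQ (by rw [Nat.card_zpowers, hσo]; exact hQc)
      obtain ⟨g', hg'⟩ := MulAction.exists_smul_eq G P Q
      refine ⟨g', fun q hq => ?_⟩
      rw [hQeq, ← hg', Sylow.coe_subgroup_smul]
      exact Subgroup.smul_mem_pointwise_smul _ (MulAut.conj g') _ hq
    obtain ⟨s, hs⟩ : ∃ s : G, s = g' * (t : G) * g'⁻¹ := ⟨_, rfl⟩
    have hso : orderOf s = 2 := by rw [hs, ← MulAut.conj_apply, MulEquiv.orderOf_eq, Subgroup.orderOf_coe, ht]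
    -- `σ` lies in the conjugate of `P`
    have hsn : s * σ * s⁻¹ ∈ Subgroup.zpowers σ := by
      have hPc : Nat.card (P : Subgroup G) = p := by
        have hle := Nat.card_le_card_of_injective (fun q : (P : Subgroup G) => (⟨g' * q * g'⁻¹, hg' q q.2⟩ : Subgroup.zpowers σ))
          (fun u v h => Subtype.ext (mul_left_cancel (mul_right_cancel (congrArg Subtype.val h))))
        rw [Nat.card_zpowers, hσo] at hle
        obtain ⟨i, hi⟩ := IsPGroup.iff_card.1 P.isPGroup'
        have h1 : 1 ≤ i := by
          by_contra h0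
          have := P.dvd_card_of_dvd_card (hσo ▸ orderOf_dvd_natCard σ)
          rw [hi, show i = 0 by omega, pow_zero] at this
          exact hp.not_dvd_one this
        exact le_antisymm hle (hi ▸ Nat.le_self_pow (by omega) p)
      have hbij := (Nat.bijective_iff_injective_and_card (fun q : (P : Subgroup G) => (⟨g' * q * g'⁻¹, hg' q q.2⟩ : Subgroup.zpowers σ))).2
        ⟨fun u v h => Subtype.ext (mul_left_cancel (mul_right_cancel (congrArg Subtype.val h))), by rw [hPc, Nat.card_zpowers, hσo]⟩
      obtain ⟨q, hq⟩ := hbij.2 ⟨σ, Subgroup.mem_zpowers σ⟩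
      have hq' : g' * (q : G) * g'⁻¹ = σ := congrArg Subtype.val hq
      have hmem : (t : G) * q * (t : G)⁻¹ ∈ (P : Subgroup G) := (Subgroup.mem_normalizer_iff.1 t.2 q).1 q.2
      have := hg' _ hmem
      rwa [show s * σ * s⁻¹ = g' * ((t : G) * q * (t : G)⁻¹) * g'⁻¹ by rw [← hq', hs]; group]
    obtain ⟨m, -, hm⟩ := Finset.mem_image.1 (mem_zpowers_iff_mem_range_orderOf.1 hsn)
    have haff := affine_of_normalize (F s) (m := m) fun x => by
      rw [← hFσ m, ← hFmul, show σ ^ m * s = s * σ by rw [hm]; group, hFmul]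
      rw [show F σ x = x + 1 by simpa using hFσ 1 x]
    have hss : ∀ x, F s (F s x) = x := fun x => by
      rw [← hFmul, ← pow_two, ← hso, pow_orderOf_eq_one, hFone]
    have hm1 : (m : ZMod p) * m = 1 := by
      have e1 := hss 1
      have e0 := hss 0
      rw [haff (F s 1), haff 1] at e1
      rw [haff (F s 0)] at e0
      linear_combination e1 - e0
    rcases mul_self_eq_one_iff.1 hm1 with h | h
    · exfalso
      have e0 := hss 0
      rw [haff (F s 0), h, one_mul] at e0
      have hF0 : F s 0 = 0 := by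
        have h2 : (2 : ZMod p) ≠ 0 := fun hh => hp2 (((Nat.prime_dvd_prime_iff_eq hp Nat.prime_two).1 ((ZMod.natCast_eq_zero_iff 2 p).1 (by exact_mod_cast hh))))
        exact (mul_eq_zero.1 (show (2 : ZMod p) * F s 0 = 0 by linear_combination e0)).resolve_left h2
      have : s = 1 := hFext _ _ fun x => by rw [haff, h, hF0, hFone, one_mul, add_zero]
      rw [this, orderOf_one] at hso
      omega
    · exact ⟨s, F s 0, fun x => by rw [haff x, h, neg_one_mul]⟩
  obtain ⟨it, ht', hht', ete⟩ := hdec s₀
  let D : Finset (ZMod p) := Finset.univ.filter fun x => ∃ h ∈ H, F h 0 = x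
  have hHD : ∀ h ∈ H, ∀ x, F h x ∈ D ↔ x ∈ D := by
    intro h hh x
    simp only [D, Finset.mem_filter, Finset.mem_univ, true_and]
    refine ⟨?_, ?_⟩
    · rintro ⟨k, hk, hk'⟩
      exact ⟨h⁻¹ * k, H.mul_mem (H.inv_mem hh) hk, by rw [hFmul, hk', ← hFmul, inv_mul_cancel, hFone]⟩
    · rintro ⟨k, hk, rfl⟩
      exact ⟨h * k, H.mul_mem hh hk, hFmul h k 0⟩
  have h0D : (0 : ZMod p) ∈ D := Finset.mem_filter.2 ⟨Finset.mem_univ _, 1, H.one_mem, hFone 0⟩
  have hDu : ∃ v, v ∉ D := by
    by_contra hall
    push Not at hall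
    haveI : MulAction.IsPretransitive H α := by
      refine MulAction.isPretransitive_iff_base (G := H) (e 0) |>.2 fun a => ?_
      obtain ⟨h, hh, hha⟩ := (Finset.mem_filter.1 (hall (e.symm a))).2
      refine ⟨⟨h, hh⟩, ?_⟩
      show (h : Equiv.Perm α) (e 0) = a
      rw [← hFe, hha, Equiv.apply_symm_apply]
    have h := MulAction.index_stabilizer_of_transitive H (x := e 0)
    rw [Nat.card_eq_fintype_card, hα] at h
    exact hpH (h ▸ Subgroup.index_dvd_card _)
  obtain ⟨v₀, hv₀⟩ := hDu
  -- no non-trivial period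
  have hper : ∀ k : ZMod p, (∀ u, u ∈ D ↔ u + k ∈ D) → k = 0 := by
    intro k hk
    by_contra hk0
    have hn : ∀ n : ℕ, ((n : ZMod p) * k) ∈ D := by
      intro n
      induction n with
      | zero => rwa [Nat.cast_zero, zero_mul]
      | succ n ih => rw [Nat.cast_succ, add_mul, one_mul]; exact (hk _).1 ih
    have := hn (v₀ / k).val
    rw [ZMod.natCast_zmod_val, div_mul_cancel₀ _ hk0] at this
    exact hv₀ this
  -- the multiplier `-1`
  set b' := b - (it : ZMod p) with hb'
  have hsym : ∀ x, x ∈ D ↔ b' - x ∈ D := by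
    intro x
    rw [← hHD ht' hht' x]
    have : F s₀ x = F ht' x + (it : ZMod p) := by rw [ete, hFmul, hFσ]
    rw [hb x] at this
    rw [show b' - x = F ht' x by rw [hb']; linear_combination this]
  let S : ZMod p → Finset (ZMod p) := fun d => Finset.univ.filter fun x => x ∈ D ∧ x + d ∈ D
  have hle : ∀ d d' : ZMod p, d ≠ 0 → d' ≠ 0 → (S d).card ≤ (S d').card := by
    intro d d' hd hd'
    obtain ⟨g, g1, g2⟩ := (MulAction.is_two_pretransitive_iff (G := G) (α := α)).1 h2 (e.injective.ne (Ne.symm hd)) (e.injective.ne (Ne.symm hd'))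
    have hg0 : F g 0 = 0 := by rw [show F g 0 = e.symm (g • e 0) from rfl, g1, Equiv.symm_apply_apply]
    have hgd : F g d = d' := by rw [show F g d = e.symm (g • e d) from rfl, g2, Equiv.symm_apply_apply]
    choose j h' hh' ej using fun x : ZMod p => hdec (g * σ ^ (-x).val)
    have hT : ∀ x u, u + x ∈ D ↔ F g u - (j x : ZMod p) ∈ D := by
      intro x u
      rw [← hHD (h' x) (hh' x) (u + x)]
      have e1 : F (g * σ ^ (-x).val) (u + x) = F g u := by
        rw [hFmul, hFσ, ZMod.natCast_zmod_val, add_neg_cancel_right]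
      rw [← e1, ej x, hFmul, hFσ, add_sub_cancel_right]
    refine Finset.card_le_card_of_injOn (fun x => - (j x : ZMod p)) (fun x hx => ?_) (fun x hx y hy hxy => ?_)
    · simp only [S, Finset.coe_filter, Finset.mem_univ, true_and, Set.mem_ofPred_eq] at hx ⊢
      refine ⟨?_, ?_⟩
      · have := (hT x 0).1 (by rw [zero_add]; exact hx.1)
        rwa [hg0, zero_sub] at this
      · have := (hT x d).1 (by rw [add_comm]; exact hx.2)
        rwa [hgd, sub_eq_add_neg, add_comm] at this
    · have hjj : (j x : ZMod p) = j y := neg_injective hxy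
      exact (sub_eq_zero.1 (hper (y - x) fun u => by
        have e1 := hT x (u - x)
        have e2 := hT y (u - x)
        rw [sub_add_cancel] at e1
        rw [← hjj, show u - x + y = u + (y - x) by ring] at e2
        exact e1.trans e2.symm)).symm
  have h2' : (2 : ZMod p) ≠ 0 := fun hh => hp2 ((Nat.prime_dvd_prime_iff_eq hp Nat.prime_two).1 ((ZMod.natCast_eq_zero_iff 2 p).1 (by exact_mod_cast hh)))
  have hpar : ∀ d : ZMod p, ((S d).card : ZMod 2) = if (b' - d) / 2 ∈ D then 1 else 0 := by
    intro d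
    set u := (b' - d) / 2 with hu
    have hu2 : u + u = b' - d := by rw [hu]; field_simp; ring
    have hmemS : ∀ x, x ∈ S d → b' - d - x ∈ S d := fun x hx => by
      simp only [S, Finset.mem_filter, Finset.mem_univ, true_and] at hx ⊢
      exact ⟨by rw [sub_sub, add_comm d x]; exact (hsym _).1 hx.2, by rw [show b' - d - x + d = b' - x by ring]; exact (hsym _).1 hx.1⟩
    have hfix : ∀ x, b' - d - x = x → x = u := fun x hx => by
      have : (2 : ZMod p) * (x - u) = 0 := by linear_combination -hx - hu2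
      exact sub_eq_zero.1 ((mul_eq_zero.1 this).resolve_left h2')
    have hz : ∑ x ∈ (S d).erase u, (1 : ZMod 2) = 0 := Finset.sum_involution (fun x _ => b' - d - x)
      (fun x _ => by decide) (fun x hx _ h => (Finset.mem_erase.1 hx).1 (hfix x h))
      (fun x hx => Finset.mem_erase.2 ⟨fun h => (Finset.mem_erase.1 hx).1 (by linear_combination -h - hu2),
        hmemS x (Finset.mem_erase.1 hx).2⟩) (fun x _ => by ring)
    have huS : u ∈ S d ↔ u ∈ D := by
      simp only [S, Finset.mem_filter, Finset.mem_univ, true_and]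
      refine ⟨fun h => h.1, fun h => ⟨h, ?_⟩⟩
      rw [show u + d = b' - u by linear_combination hu2]
      exact (hsym u).1 h
    rw [Finset.card_eq_sum_ones, Nat.cast_sum, Nat.cast_one]
    by_cases huD : u ∈ D
    · rw [if_pos huD, ← Finset.add_sum_erase _ _ (huS.2 huD), hz, add_zero]
    · rw [if_neg huD, ← Finset.erase_eq_of_notMem (fun h => huD (huS.1 h))]
      exact hz
  set c := b' / 2 with hc
  have hsame : ∀ x y : ZMod p, x ≠ c → y ≠ c → x ∈ D → y ∈ D := by
    intro x y hx hy hxD
    have hdx : ∀ z : ZMod p, z ≠ c → b' - 2 * z ≠ 0 ∧ (b' - (b' - 2 * z)) / 2 = z := fun z hz =>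
      ⟨fun h => hz (by rw [hc, eq_div_iff h2']; linear_combination -h), by field_simp; ring⟩
    obtain ⟨nx, ex⟩ := hdx x hx
    obtain ⟨ny, ey⟩ := hdx y hy
    have h1 := hpar (b' - 2 * x)
    have h2'' := hpar (b' - 2 * y)
    rw [ex, if_pos hxD, le_antisymm (hle _ _ nx ny) (hle _ _ ny nx)] at h1
    rw [ey, h1] at h2''
    by_contra hyD
    rw [if_neg hyD] at h2''
    exact one_ne_zero h2''
  refine ⟨c, fun h hh => ?_⟩
  by_contra hne
  have hiff := hHD h hh c
  have hallsame : ∀ x, x ∈ D ↔ c ∈ D := by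
    intro x
    by_cases hx : x = c
    · rw [hx]
    rw [← hiff]
    exact ⟨hsame _ _ hx hne, hsame _ _ hne hx⟩
  exact hv₀ ((hallsame v₀).2 ((hallsame 0).1 h0D))

end Cfsg.Agent.S0677
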