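import Cfsg.Statements.S0678
import Mathlib
import Cfsg.Agent.S0144
import Cfsg.Agent.Lib.TwoSylow
import Cfsg.Agent.Lib.Perm.BurnsidePrime
import Cfsg.Agent.Lib.Perm.JordanNormal

set_option autoImplicit false
open Cfsg

namespace Cfsg.Agent.S0678

set_option linter.style.haveILetI false
set_option maxHeartbeats 1600000
open scoped Pointwise

theorem sv {N : Type*} [Group N] [Finite N] (K : Subgroup N) [K.Normal] (p q a b p' q' a' b' : ℕ)
    (hp : p.Prime) (hq : q.Prime) (hp' : p'.Prime) (hq' : q'.Prime)
    (h1 : Nat.card K = p ^ a * q ^ b) (h2 : K.index = p' ^ a' * q' ^ b') : Group.IsSolvable N := by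
  haveI := Cfsg.Agent.S0144.result p q a b hp hq h1
  haveI := Cfsg.Agent.S0144.result (G := N ⧸ K) p' q' a' b' hp' hq' h2
  exact solvable_of_ker_le_range K.subtype (QuotientGroup.mk' K) (by rw [QuotientGroup.ker_mk', Subgroup.range_subtype])

variable {α : Type*} [Fintype α] [DecidableEq α]

/-- A subgroup containing a Sylow subgroup of the symmetric group contains a conjugate of any `p`-element. -/
theorem exists_conj_mem (G : Subgroup (Equiv.Perm α)) {p e : ℕ} [Fact p.Prime] (hG : p ^ e ∣ Nat.card G)
    (he : ¬ p ^ (e + 1) ∣ (Fintype.card α).factorial) (x : Equiv.Perm α) (hx : orderOf x = p) :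
    ∃ c : Equiv.Perm α, c * x * c⁻¹ ∈ G := by
  obtain ⟨Q⟩ : Nonempty (Sylow p G) := inferInstance
  obtain ⟨i, hi⟩ := IsPGroup.iff_card.1 Q.isPGroup'
  have hle : e ≤ i := by
    by_contra h
    have := Q.pow_dvd_card_of_pow_dvd_card hG
    rw [hi, Nat.pow_dvd_pow_iff_le_right (Fact.out : p.Prime).one_lt] at this
    omega
  have hQ : IsPGroup p ((Q : Subgroup G).map G.subtype) := Q.isPGroup'.map _
  obtain ⟨R, hR⟩ := hQ.exists_le_sylow
  obtain ⟨j, hj⟩ := IsPGroup.iff_card.1 R.isPGroup'
  have hjd : j ≤ e := by
    by_contra h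
    refine he ((Nat.pow_dvd_pow p (by omega : e + 1 ≤ j)).trans ?_)
    rw [← hj, ← Fintype.card_perm, ← Nat.card_eq_fintype_card]
    exact Subgroup.card_subgroup_dvd_card _
  have hRQ : (Q : Subgroup G).map G.subtype = (R : Subgroup (Equiv.Perm α)) := Subgroup.eq_of_le_of_card_ge hR (by
    rw [Subgroup.card_map_of_injective G.subtype_injective, hi, hj]
    exact Nat.pow_le_pow_right (Fact.out : p.Prime).pos (hjd.trans hle))
  obtain ⟨S, hS⟩ := (IsPGroup.of_card (p := p) (G := Subgroup.zpowers x) (n := 1)
    (by rw [Nat.card_zpowers, hx, pow_one])).exists_le_sylow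
  obtain ⟨c, hc⟩ := MulAction.exists_smul_eq (Equiv.Perm α) S R
  refine ⟨c, ?_⟩
  have : c * x * c⁻¹ ∈ (R : Subgroup (Equiv.Perm α)) := by
    rw [← hc, Sylow.coe_subgroup_smul]
    exact Subgroup.smul_mem_pointwise_smul _ (MulAut.conj c) _ (hS (Subgroup.mem_zpowers x))
  rw [← hRQ] at this
  obtain ⟨y, -, hy⟩ := this
  exact hy ▸ y.2


/-- A non-solvable transitive permutation group on 7 points that does not contain the alternating group is a simple group of order 168. -/
theorem result {α : Type*} [Fintype α] [DecidableEq α] (hα : Fintype.card α = 7) (G : Subgroup (Equiv.Perm α)) [MulAction.IsPretransitive G α] (hG : ¬ Group.IsSolvable G) (hA : ¬ alternatingGroup α ≤ G) : Nat.card G = 168 ∧ IsSimpleGroup G := by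
  classical
  haveI : Fact (Nat.Prime 7) := ⟨by norm_num⟩
  haveI : Fact (Nat.Prime 3) := ⟨Nat.prime_three⟩
  haveI : Fact (Nat.Prime 2) := ⟨Nat.prime_two⟩
  haveI hprim : MulAction.IsPreprimitive G α :=
    MulAction.IsPreprimitive.of_prime_card (by rw [Nat.card_eq_fintype_card, hα]; norm_num)
  obtain ⟨a, b, c, hab, hac, hbc⟩ := Fintype.two_lt_card_iff.1 (show 2 < Fintype.card α by omega)
  have hdvd : Nat.card G ∣ 5040 := by
    have := Subgroup.card_subgroup_dvd_card G
    rwa [Nat.card_eq_fintype_card (α := Equiv.Perm α), Fintype.card_perm, hα, show Nat.factorial 7 = 5040 by decide] at this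
  have h9 : ¬ 9 ∣ Nat.card G := by
    intro h
    have hx : (Equiv.swap b a * Equiv.swap b c).IsThreeCycle :=
      Equiv.Perm.isThreeCycle_swap_mul_swap_same (Ne.symm hab) hbc hac
    obtain ⟨d, hd⟩ := exists_conj_mem G (p := 3) (e := 2) (by simpa using h) (by rw [hα]; decide) _ hx.orderOf
    refine hA (Equiv.Perm.alternatingGroup_le_of_isPreprimitive_of_isThreeCycle_mem hprim ?_ hd)
    rw [← card_support_eq_three_iff, Equiv.Perm.card_support_conj, hx.card_support]
  have h16 : ¬ 16 ∣ Nat.card G := by
    intro h
    obtain ⟨d, hd⟩ := exists_conj_mem G (p := 2) (e := 4) (by simpa using h) (by rw [hα]; decide) (Equiv.swap a b)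
      (orderOf_eq_prime (by rw [pow_two, Equiv.swap_mul_self]) (fun h => hab (by
        have := congrArg (fun u : Equiv.Perm α => u b) h
        simpa using this)))
    refine hA ?_
    rw [Equiv.Perm.subgroup_eq_top_of_isPreprimitive_of_isSwap_mem hprim _ ?_ hd]
    · exact le_top
    · rw [← Equiv.Perm.card_support_eq_two, Equiv.Perm.card_support_conj, Equiv.Perm.card_support_swap hab]
  have h42 : 42 ∣ Nat.card G := by
    have h2 : MulAction.IsMultiplyPretransitive G α 2 :=
      (CfsgLib.Perm.BurnsidePrime.burnside (α := α) (by rw [hα]; norm_num) G).resolve_left hG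
    have e1 := (MulAction.stabilizer G a).card_mul_index
    rw [MulAction.index_stabilizer_of_transitive G (x := a), Nat.card_eq_fintype_card (α := α), hα] at e1
    haveI : MulAction.IsPretransitive (MulAction.stabilizer G a) (SubMulAction.ofStabilizer G a) := by
      refine ⟨fun x y => ?_⟩
      obtain ⟨g, g1, g2⟩ := (MulAction.is_two_pretransitive_iff (G := G) (α := α)).1 h2 (Ne.symm x.2) (Ne.symm y.2)
      exact ⟨⟨g, g1⟩, Subtype.ext g2⟩
    have hbm : b ∈ SubMulAction.ofStabilizer G a := Ne.symm hab
    have e2 := MulAction.index_stabilizer_of_transitive (MulAction.stabilizer G a) (x := (⟨b, hbm⟩ : SubMulAction.ofStabilizer G a))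
    have hsix : Nat.card (SubMulAction.ofStabilizer G a) = 6 := by
      show Nat.card {x : α // x ≠ a} = 6
      rw [Nat.card_eq_fintype_card, Fintype.card_subtype_compl, Fintype.card_subtype_eq, hα]
    have h6 : 6 ∣ Nat.card (MulAction.stabilizer G a) := by
      rw [← hsix, ← e2]
      exact Subgroup.index_dvd_card _
    rw [← e1]
    obtain ⟨k, hk⟩ := h6
    exact ⟨k, by rw [hk]; ring⟩
  obtain ⟨P⟩ : Nonempty (Sylow 7 G) := inferInstance
  have hP : Nat.card (P : Subgroup G) = 7 := by
    obtain ⟨i, hi⟩ := IsPGroup.iff_card.1 P.isPGroup'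
    have h1 : i ≤ 1 := by
      by_contra h
      have h2 : 7 ^ 2 ∣ 5040 := ((Nat.pow_dvd_pow 7 (by omega)).trans (hi ▸ (P : Subgroup G).card_subgroup_dvd_card)).trans hdvd
      norm_num at h2
    have h2 : 1 ≤ i := by
      by_contra h
      have := P.dvd_card_of_dvd_card (dvd_trans (by norm_num) h42)
      rw [hi, show i = 0 by omega] at this
      norm_num at this
    rw [hi, show i = 1 by omega, pow_one]
  obtain ⟨σ, hσ⟩ := (isCyclic_of_prime_card hP).exists_generator
  have hσo : orderOf (((σ : G) : Equiv.Perm α)) = 7 := by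
    rw [Subgroup.orderOf_coe, Subgroup.orderOf_coe, orderOf_eq_card_of_forall_mem_zpowers hσ, hP]
  set τ : Equiv.Perm α := ((σ : G) : Equiv.Perm α) with hτ
  have hcyc : τ.IsCycle := Equiv.Perm.isCycle_of_prime_order'' (by rw [hα]; norm_num) (by rw [hσo, hα])
  have hfull : τ.support = Finset.univ := by
    apply Finset.eq_univ_of_card
    rw [← hcyc.orderOf, hσo, hα]
  have hmove : ∀ z, τ z ≠ z := fun z => Equiv.Perm.mem_support.1 (hfull ▸ Finset.mem_univ z)
  have hC : Subgroup.centralizer ((P : Subgroup G) : Set G) ≤ (P : Subgroup G) := by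
    intro u hu
    obtain ⟨i, hi⟩ := hcyc.exists_pow_eq (hmove a) (hmove ((u : Equiv.Perm α) a))
    have hcomm : Commute (u : Equiv.Perm α) τ := by
      have h := Subgroup.mem_centralizer_iff.1 hu _ σ.2
      exact (congrArg Subtype.val h).symm
    have : u = (σ : G) ^ i := by
      apply Subtype.ext
      ext z
      obtain ⟨j, hj⟩ := hcyc.exists_pow_eq (hmove a) (hmove z)
      show (u : Equiv.Perm α) z = ((((σ : G) ^ i : G)) : Equiv.Perm α) z
      rw [SubmonoidClass.coe_pow, ← hτ, ← hj, ← Equiv.Perm.mul_apply, (hcomm.pow_right j).eq, Equiv.Perm.mul_apply, ← hi,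
        ← Equiv.Perm.mul_apply, ← Equiv.Perm.mul_apply, ← pow_add, ← pow_add, add_comm]
    rw [this]
    exact Subgroup.pow_mem _ σ.2 i
  haveI hcycP : IsCyclic (P : Subgroup G) := isCyclic_of_prime_card hP
  have hNdvd : Nat.card (Subgroup.normalizer ((P : Subgroup G) : Set G)) ∣ 7 * 6 := by
    have hker := (Subgroup.normalizerMonoidHom (P : Subgroup G)).ker.card_mul_index
    rw [← hker]
    refine Nat.mul_dvd_mul ?_ ?_
    · rw [Subgroup.normalizerMonoidHom_ker]
      have h13 := Subgroup.card_dvd_of_le hC
      rw [hP] at h13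
      rw [Nat.card_congr (Subgroup.subgroupOfEquivOfLe (Subgroup.centralizer_le_normalizer _)).toEquiv]
      exact h13
    · rw [Subgroup.index_ker]
      refine (Subgroup.card_subgroup_dvd_card _).trans ?_
      rw [IsCyclic.card_mulAut, hP, Nat.totient_prime (by norm_num)]
  have hmod : (Subgroup.normalizer ((P : Subgroup G) : Set G)).index % 7 = 1 := by
    have := card_sylow_modEq_one 7 G
    rw [P.card_eq_index_normalizer] at this
    exact this
  have hmul := (Subgroup.normalizer ((P : Subgroup G) : Set G)).index_mul_card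
  -- the possible orders
  obtain ⟨k, hk⟩ := h42
  have hk120 : k ∣ 120 := by
    rw [hk, show 5040 = 42 * 120 by norm_num] at hdvd
    exact Nat.dvd_of_mul_dvd_mul_left (by norm_num) hdvd
  have hdec : ∀ k ∈ Nat.divisors 120, ¬ 3 ∣ k → ¬ 8 ∣ k → k ∈ ({1, 2, 4, 5, 10, 20} : Finset ℕ) := by decide
  have hkS := hdec k (Nat.mem_divisors.2 ⟨hk120, by norm_num⟩)
    (fun ⟨j, hj⟩ => h9 ⟨14 * j, by rw [hk, hj]; ring⟩) (fun ⟨j, hj⟩ => h16 ⟨21 * j, by rw [hk, hj]; ring⟩)
  simp only [Finset.mem_insert, Finset.mem_singleton] at hkS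
  have hN42 := Nat.le_of_dvd (by norm_num) hNdvd
  obtain ⟨d, hd⟩ : 7 ∣ Nat.card (Subgroup.normalizer ((P : Subgroup G) : Set G)) := by
    have hle : ((P : Subgroup G)) ≤ Subgroup.normalizer (((P : Subgroup G)) : Set _) := Subgroup.le_normalizer
    have hh := Subgroup.card_dvd_of_le hle
    rwa [hP] at hh
  have hd6 : d ∈ ({1, 2, 3, 6} : Finset ℕ) := by
    have hdec' : ∀ d ∈ Nat.divisors 6, d ∈ ({1, 2, 3, 6} : Finset ℕ) := by decide
    refine hdec' d (Nat.mem_divisors.2 ⟨?_, by norm_num⟩)
    rw [hd] at hNdvd
    exact Nat.dvd_of_mul_dvd_mul_left (by norm_num) hNdvd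
  simp only [Finset.mem_insert, Finset.mem_singleton] at hd6
  set m := (Subgroup.normalizer ((P : Subgroup G) : Set G)).index with hm
  rw [hd, hk] at hmul
  have hfinal : Nat.card G = 168 := by
    rcases hkS with rfl | rfl | rfl | rfl | rfl | rfl
    · -- order 42
      exfalso
      have hm1 : m = 1 := by rcases hd6 with rfl | rfl | rfl | rfl <;> omega
      have hnor : (P : Subgroup G).Normal := Subgroup.normalizer_eq_top_iff.1 (Subgroup.index_eq_one.1 hm1)
      haveI := hnor
      refine hG (sv (P : Subgroup G) 7 2 1 0 2 3 1 1 (by norm_num) Nat.prime_two Nat.prime_two Nat.prime_three (by rw [hP]; norm_num) ?_)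
      have := (P : Subgroup G).card_mul_index
      rw [hP, hk] at this
      omega
    · exfalso; rcases hd6 with rfl | rfl | rfl | rfl <;> omega
    · rw [hk]
    · -- order 210
      exfalso
      haveI : Fact (Nat.card G).minFac.Prime := ⟨Nat.minFac_prime (by rw [hk]; norm_num)⟩
      obtain ⟨T⟩ : Nonempty (Sylow 2 G) := inferInstance
      have hT : Nat.card (T : Subgroup G) = 2 := by
        obtain ⟨i, hi⟩ := IsPGroup.iff_card.1 T.isPGroup'
        have h1 : i ≤ 1 := by
          by_contra h
          have h2 := (Nat.pow_dvd_pow 2 (by omega : 2 ≤ i)).trans (hi ▸ (T : Subgroup G).card_subgroup_dvd_card)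
          rw [hk] at h2
          norm_num at h2
        have h2 : 1 ≤ i := by
          by_contra h
          have := T.dvd_card_of_dvd_card (by rw [hk]; norm_num)
          rw [hi, show i = 0 by omega] at this
          norm_num at this
        rw [hi, show i = 1 by omega, pow_one]
      obtain ⟨N, hN⟩ := CfsgLib.TwoSylow.exists_index_two (even_iff_two_dvd.2 (by rw [hk]; norm_num)) T (isCyclic_of_prime_card hT)
      haveI := Subgroup.normal_of_index_eq_two hN
      have hNc : Nat.card N = 105 := by
        have := N.card_mul_index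
        rw [hN, hk] at this
        omega
      refine hG ?_
      haveI : Group.IsSolvable N := by
        obtain ⟨R⟩ : Nonempty (Sylow 7 N) := inferInstance
        have hR : Nat.card (R : Subgroup N) = 7 := by
          rw [R.card_eq_multiplicity, hNc, Nat.factorization_def _ (by norm_num : Nat.Prime 7),
            show 105 = 7 * 15 by norm_num, padicValNat.mul (by norm_num) (by norm_num), padicValNat.self (by norm_num),
            padicValNat.eq_zero_of_not_dvd (by norm_num : ¬ 7 ∣ 15)]
          norm_num
        have hr1 := card_sylow_modEq_one 7 N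
        rw [R.card_eq_index_normalizer] at hr1
        have hr2 := (Subgroup.normalizer ((R : Subgroup N) : Set N)).index_mul_card
        rw [hNc] at hr2
        obtain ⟨r, hr⟩ : 7 ∣ Nat.card (Subgroup.normalizer ((R : Subgroup N) : Set N)) := by
          have hle : ((R : Subgroup N)) ≤ Subgroup.normalizer (((R : Subgroup N)) : Set _) := Subgroup.le_normalizer
          have hh := Subgroup.card_dvd_of_le hle
          rwa [hR] at hh
        rw [hr] at hr2
        have hri : (Subgroup.normalizer ((R : Subgroup N) : Set N)).index * r = 15 := by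
          have : 7 * ((Subgroup.normalizer ((R : Subgroup N) : Set N)).index * r) = 7 * 15 := by rw [← mul_assoc, mul_comm 7, mul_assoc]; exact hr2
          exact Nat.eq_of_mul_eq_mul_left (by norm_num) this
        have hdec15 : ∀ n ∈ Nat.divisors 15, n % 7 = 1 → n = 1 ∨ n = 15 := by decide
        rcases hdec15 _ (Nat.mem_divisors.2 ⟨⟨r, hri.symm⟩, by norm_num⟩) hr1 with h | h
        · haveI : (R : Subgroup N).Normal := Subgroup.normalizer_eq_top_iff.1 (Subgroup.index_eq_one.1 h)
          refine sv (R : Subgroup N) 7 2 1 0 3 5 1 1 (by norm_num) Nat.prime_two Nat.prime_three (by norm_num) (by rw [hR]; norm_num) ?_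
          have := (R : Subgroup N).card_mul_index
          rw [hR, hNc] at this
          omega
        · have hr1' : r = 1 := by rw [h] at hri; omega
          have hNR : Subgroup.normalizer ((R : Subgroup N) : Set N) = (R : Subgroup N) :=
            (Subgroup.eq_of_le_of_card_ge Subgroup.le_normalizer (by rw [hr, hR, hr1'])).symm
          haveI hRc : IsCyclic (R : Subgroup N) := isCyclic_of_prime_card hR
          have hcent : Subgroup.normalizer ((R : Subgroup N) : Set N) ≤ Subgroup.centralizer ((R : Subgroup N) : Set N) := by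
            rw [hNR]
            intro x hx y hy
            exact congrArg Subtype.val (mul_comm' (⟨y, hy⟩ : (R : Subgroup N)) ⟨x, hx⟩)
          have hcompl := MonoidHom.ker_transferSylow_isComplement' R hcent
          refine sv (MonoidHom.transferSylow R hcent).ker 3 5 1 1 7 2 1 0 Nat.prime_three (by norm_num) (by norm_num) Nat.prime_two ?_ ?_
          · have := hcompl.card_mul_card
            rw [hR, hNc] at this
            omega
          · rw [hcompl.symm.index_eq_card, hR]; norm_num
      haveI : Group.IsSolvable (G ⧸ N) := Cfsg.Agent.S0144.result 2 3 1 0 Nat.prime_two Nat.prime_three hN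
      exact solvable_of_ker_le_range N.subtype (QuotientGroup.mk' N) (by rw [QuotientGroup.ker_mk', Subgroup.range_subtype])
    · exfalso; rcases hd6 with rfl | rfl | rfl | rfl <;> omega
    · -- index six in the symmetric group
      exfalso
      have hidx : G.index = 6 := by
        have := G.card_mul_index
        rw [hk, Nat.card_eq_fintype_card (α := Equiv.Perm α), Fintype.card_perm, hα, show Nat.factorial 7 = 5040 by decide] at this
        omega
      set K := G.normalCore with hK
      have hKi : K.index ∣ 720 := by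
        have e : K = (MulAction.toPermHom (Equiv.Perm α) (Equiv.Perm α ⧸ G)).ker := by rw [hK, Subgroup.normalCore_eq_ker]
        rw [e, Subgroup.index_ker]
        refine (Subgroup.card_subgroup_dvd_card _).trans ?_
        rw [Nat.card_perm, show Nat.card (Equiv.Perm α ⧸ G) = 6 from hidx, show Nat.factorial 6 = 720 by decide]
      have hsimp : IsSimpleGroup (alternatingGroup α) := alternatingGroup.isSimpleGroup (by rw [Nat.card_eq_fintype_card, hα]; norm_num)
      rcases hsimp.eq_bot_or_eq_top_of_normal (K.subgroupOf (alternatingGroup α)) inferInstance with h | h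
      · haveI : Nontrivial α := Fintype.one_lt_card_iff_nontrivial.1 (by omega)
        have h1 := Subgroup.relIndex_bot_left (alternatingGroup α)
        have h2 : K.relIndex (alternatingGroup α) = Nat.card (alternatingGroup α) := by
          rw [Subgroup.relIndex, h, Subgroup.index_bot]
        have h3 := K.relIndex_le_of_le_right (le_top : alternatingGroup α ≤ ⊤) (by rw [Subgroup.relIndex_top_right]; exact Subgroup.index_ne_zero_of_finite)
        rw [h2, Subgroup.relIndex_top_right, nat_card_alternatingGroup, Nat.card_eq_fintype_card, hα, show Nat.factorial 7 = 5040 by decide] at h3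
        have := Nat.le_of_dvd (by norm_num) hKi
        omega
      · exact hA ((Subgroup.subgroupOf_eq_top.1 h).trans G.normalCore_le)
  refine ⟨hfinal, ?_⟩
  haveI : Nontrivial G := Finite.one_lt_card_iff_nontrivial.1 (by rw [hfinal]; norm_num)
  refine ⟨fun N hN => ?_⟩
  by_contra hcon
  push Not at hcon
  obtain ⟨hN1, hNt⟩ := hcon
  haveI := hN
  haveI := CfsgLib.Perm.isPretransitive_of_normal (α := α) hN1
  have hN7 : 7 ∣ Nat.card N := by
    have := MulAction.index_stabilizer_of_transitive N (x := a)
    rw [Nat.card_eq_fintype_card, hα] at this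
    rw [← this]
    exact Subgroup.index_dvd_card _
  have hNmul := N.card_mul_index
  rw [hfinal] at hNmul
  obtain ⟨r, hr⟩ := hN7
  have hidx1 : N.index ≠ 1 := fun h => hNt (Subgroup.index_eq_one.1 h)
  have hr24 : r * N.index = 24 := by
    rw [hr, mul_assoc] at hNmul
    omega
  have hdec24 : ∀ r ∈ Nat.divisors 24, r = 24 ∨ r ∈ ({1, 2, 3, 4, 6, 8, 12} : Finset ℕ) := by decide
  rcases hdec24 r (Nat.mem_divisors.2 ⟨⟨N.index, hr24.symm⟩, by norm_num⟩) with rfl | hr'
  · omega
  simp only [Finset.mem_insert, Finset.mem_singleton] at hr'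
  have key : r = 8 ∨ r = 1 ∨ r = 2 ∨ r = 3 ∨ r = 4 ∨ r = 6 ∨ r = 12 := by omega
  rcases key with rfl | hsmall
  · refine hG (sv N 7 2 1 3 3 2 1 0 (by norm_num) Nat.prime_two Nat.prime_three Nat.prime_two (by rw [hr]; norm_num) ?_)
    omega
  -- otherwise a Sylow subgroup of `N` is normal in `G`
  obtain ⟨R⟩ : Nonempty (Sylow 7 N) := inferInstance
  have hR1 : (Subgroup.normalizer ((R : Subgroup N) : Set N)).index % 7 = 1 := by
    have := card_sylow_modEq_one 7 N
    rw [R.card_eq_index_normalizer] at this
    exact this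
  have hR2 := (Subgroup.normalizer ((R : Subgroup N) : Set N)).index_mul_card
  rw [hr] at hR2
  have hRP : Nat.card (R : Subgroup N) = 7 := by
    obtain ⟨i, hi⟩ := IsPGroup.iff_card.1 R.isPGroup'
    have h1 : i ≤ 1 := by
      by_contra h
      have h2 : 7 ^ 2 ∣ 5040 := ((Nat.pow_dvd_pow 7 (by omega)).trans (hi ▸ (R : Subgroup N).card_subgroup_dvd_card)).trans
        ((N.card_subgroup_dvd_card).trans hdvd)
      norm_num at h2
    have h2 : 1 ≤ i := by
      by_contra h
      have := R.dvd_card_of_dvd_card (hr ▸ Dvd.intro _ rfl)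
      rw [hi, show i = 0 by omega] at this
      norm_num at this
    rw [hi, show i = 1 by omega, pow_one]
  obtain ⟨t, ht⟩ : 7 ∣ Nat.card (Subgroup.normalizer ((R : Subgroup N) : Set N)) := by
    have hle : ((R : Subgroup N)) ≤ Subgroup.normalizer (((R : Subgroup N)) : Set _) := Subgroup.le_normalizer
    have hh := Subgroup.card_dvd_of_le hle
    rwa [hRP] at hh
  rw [ht] at hR2
  have hit : (Subgroup.normalizer ((R : Subgroup N) : Set N)).index * t = r := by
    have : 7 * ((Subgroup.normalizer ((R : Subgroup N) : Set N)).index * t) = 7 * r := by rw [← mul_assoc, mul_comm 7, mul_assoc]; exact hR2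
    exact Nat.eq_of_mul_eq_mul_left (by norm_num) this
  have hone : (Subgroup.normalizer ((R : Subgroup N) : Set N)).index = 1 := by
    have hle := Nat.le_of_dvd (by omega) (Dvd.intro t hit)
    have hpos : (Subgroup.normalizer ((R : Subgroup N) : Set N)).index ≠ 0 := Subgroup.index_ne_zero_of_finite
    rcases hsmall with rfl | rfl | rfl | rfl | rfl | rfl
    all_goals
      rcases (show (Subgroup.normalizer ((R : Subgroup N) : Set N)).index = 1 ∨ (Subgroup.normalizer ((R : Subgroup N) : Set N)).index = 8 by omega) with h | h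
      · exact h
      · rw [h] at hit; omega
  haveI hRn : (R : Subgroup N).Normal := Subgroup.normalizer_eq_top_iff.1 (Subgroup.index_eq_one.1 hone)
  haveI hRc : (R : Subgroup N).Characteristic := R.characteristic_of_normal hRn
  haveI : ((R : Subgroup N).map N.subtype).Normal := inferInstance
  refine hG (sv ((R : Subgroup N).map N.subtype) 7 2 1 0 2 3 3 1 (by norm_num) Nat.prime_two Nat.prime_two Nat.prime_three ?_ ?_)
  · rw [Subgroup.card_map_of_injective N.subtype_injective, hRP]; norm_num
  · have h5 := ((R : Subgroup N).map N.subtype).card_mul_index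
    rw [Subgroup.card_map_of_injective N.subtype_injective, hRP, hfinal] at h5
    omega

end Cfsg.Agent.S0678
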