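import Cfsg.Statements.S0680
import Mathlib
import Cfsg.Agent.Lib.Perm.SharpTwo

set_option autoImplicit false
open Cfsg

namespace Cfsg.Agent.S0680

set_option linter.style.haveILetI false
open scoped Pointwise

/-- A finite sharply doubly transitive permutation group has degree a prime power `p ^ j`; a Sylow `p`-subgroup is normal, elementary abelian and regular, and consists of the identity together with the elements without fixed points. (Frobenius' Theorem is not needed.) -/
theorem result {α : Type*} [Fintype α] [DecidableEq α] (G : Subgroup (Equiv.Perm α)) [MulAction.IsMultiplyPretransitive G α 2] (hsharp : ∀ x : Fin 2 ↪ α, MulAction.stabilizer G x = ⊥) (h2 : 2 ≤ Fintype.card α) : ∃ p j : ℕ, p.Prime ∧ 1 ≤ j ∧ Fintype.card α = p ^ j ∧ ∀ (hp : Fact p.Prime) (P : Sylow p G), (P : Subgroup G).Normal ∧ IsMulCommutative (P : Subgroup G) ∧ (∀ x ∈ (P : Subgroup G), x ^ p = 1) ∧ MulAction.IsPretransitive (P : Subgroup G) α ∧ (∀ a : α, MulAction.stabilizer (P : Subgroup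 G) a = ⊥) ∧ ∀ g : G, g ∈ (P : Subgroup G) ↔ g = 1 ∨ ∀ a : α, g • a ≠ a := by
  classical
  obtain ⟨p, j, N, hp, hj, hn, hcard, hnor, hmem, hcomm, hexp, hfree, htrans⟩ := CfsgLib.Perm.SharpTwo.exists_regular hsharp h2
  refine ⟨p, j, hp, hj, hn, fun _ P => ?_⟩
  have hcop : Nat.Coprime p (Fintype.card α - 1) := (Nat.Prime.coprime_iff_not_dvd hp).2 fun hd => by
    have := Nat.dvd_sub (show p ∣ Fintype.card α by rw [hn]; exact dvd_pow_self p (by omega)) hd
    rw [show Fintype.card α - (Fintype.card α - 1) = 1 by omega] at this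
    exact hp.not_dvd_one this
  have hNP : N ≤ (P : Subgroup G) := by
    haveI := hnor
    obtain ⟨Q, hQ⟩ := (IsPGroup.of_card hcard).exists_le_sylow
    obtain ⟨g, hg⟩ := MulAction.exists_smul_eq G Q P
    intro x hx
    rw [← hg, Sylow.coe_subgroup_smul, Subgroup.mem_pointwise_smul_iff_inv_smul_mem]
    exact hQ (by simpa [MulAut.smul_def] using hnor.conj_mem x hx g⁻¹)
  have hPN : (P : Subgroup G) = N := by
    refine le_antisymm (le_of_eq (Subgroup.eq_of_le_of_card_ge hNP ?_).symm) hNP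
    obtain ⟨i, hi⟩ := IsPGroup.iff_card.1 P.isPGroup'
    have h1 := (P : Subgroup G).card_subgroup_dvd_card
    rw [CfsgLib.Perm.SharpTwo.card_group hsharp h2, hi] at h1
    rw [hcard, hi, ← hn]
    exact Nat.le_of_dvd (by omega) ((Nat.Coprime.pow_left i hcop).dvd_of_dvd_mul_right h1)
  rw [hPN]
  refine ⟨hnor, ⟨⟨fun u v => Subtype.ext (hcomm u u.2 v v.2)⟩⟩, hexp, ⟨fun a b => ?_⟩, fun a => ?_, hmem⟩
  · obtain ⟨g, hg, hgb⟩ := htrans a b
    exact ⟨⟨g, hg⟩, hgb⟩
  · rw [Subgroup.eq_bot_iff_forall]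
    exact fun g hg => Subtype.ext (hfree a g g.2 hg)

end Cfsg.Agent.S0680
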