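import Cfsg.Statements.S0681
import Mathlib

set_option autoImplicit false
open Cfsg

namespace Cfsg.Agent.S0681

/-- The affine maps `x ↦ x * a + b`, `a ≠ 0`, of a near-field form a sharply doubly transitive permutation group. -/
theorem result {F : Type*} [Cfsg.NearField F] : ∃ H : Subgroup (Equiv.Perm F), (∀ σ : Equiv.Perm F, σ ∈ H ↔ ∃ a b : F, a ≠ 0 ∧ ∀ x : F, σ x = x * a + b) ∧ MulAction.IsMultiplyPretransitive H F 2 ∧ ∀ x : Fin 2 ↪ F, MulAction.stabilizer H x = ⊥ := by
  classical
  have hzm : ∀ a : F, (0 : F) * a = 0 := fun a => by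
    have h := Cfsg.NearField.right_distrib (0 : F) 0 a
    rw [add_zero] at h
    exact left_eq_add.1 h
  have hnm : ∀ b a : F, (-b) * a = -(b * a) := fun b a => by
    refine eq_neg_of_add_eq_zero_left ?_
    rw [← Cfsg.NearField.right_distrib, neg_add_cancel, hzm]
  have hsm : ∀ x y a : F, (x - y) * a = x * a - y * a := fun x y a => by
    rw [sub_eq_add_neg, sub_eq_add_neg, Cfsg.NearField.right_distrib, hnm]
  let H : Subgroup (Equiv.Perm F) :=
    { carrier := {σ | ∃ a b : F, a ≠ 0 ∧ ∀ x : F, σ x = x * a + b}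
      one_mem' := ⟨1, 0, (Cfsg.NearField.zero_ne_one (F := F)).symm, fun x => by simp⟩
      mul_mem' := by
        rintro σ τ ⟨a, b, ha, hσ⟩ ⟨c, d, hc, hτ⟩
        refine ⟨c * a, d * a + b, fun h => hc ?_, fun x => ?_⟩
        · obtain ⟨a', ha', -⟩ := Cfsg.NearField.exists_inv a ha
          have h1 := congrArg (· * a') h
          simp only [mul_assoc, ha', mul_one, hzm] at h1
          exact h1
        · simp only [Equiv.Perm.coe_mul, Function.comp_apply, hσ, hτ, Cfsg.NearField.right_distrib,
            mul_assoc, add_assoc]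
      inv_mem' := by
        rintro σ ⟨a, b, ha, hσ⟩
        obtain ⟨a', ha', ha''⟩ := Cfsg.NearField.exists_inv a ha
        refine ⟨a', -(b * a'), fun h => ?_, fun x => ?_⟩
        · rw [h, Cfsg.NearField.mul_zero] at ha'
          exact Cfsg.NearField.zero_ne_one ha'
        · apply σ.injective
          rw [show σ (σ⁻¹ x) = x from Equiv.apply_symm_apply σ x, hσ, ← hnm, ← Cfsg.NearField.right_distrib, mul_assoc, ha'', mul_one,
            neg_add_cancel_right] }
  refine ⟨H, fun σ => Iff.rfl, ?_, ?_⟩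
  · rw [MulAction.is_two_pretransitive_iff]
    intro x0 x1 y0 y1 hx hy
    obtain ⟨d, hd, -⟩ := Cfsg.NearField.exists_inv _ (sub_ne_zero.2 hx.symm)
    set a := d * (y1 - y0) with ha
    have hxa : (x1 - x0) * a = y1 - y0 := by rw [ha, ← mul_assoc, hd, one_mul]
    have ha0 : a ≠ 0 := fun h => hy (by
      rw [h, Cfsg.NearField.mul_zero] at hxa; exact (sub_eq_zero.1 hxa.symm).symm)
    obtain ⟨a', ha', -⟩ := Cfsg.NearField.exists_inv a ha0
    let f : F → F := fun x => x * a + (-(x0 * a) + y0)
    have hf : Function.Bijective f := by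
      constructor
      · intro x y h
        have h1 := congrArg (· * a') (add_right_cancel h)
        simp only [mul_assoc, ha', mul_one] at h1
        exact h1
      · intro y
        obtain ⟨a'', h1, h2⟩ := Cfsg.NearField.exists_inv a ha0
        exact ⟨(y - (-(x0 * a) + y0)) * a'', by
          show _ * a + _ = y
          rw [mul_assoc, h2, mul_one, sub_add_cancel]⟩
    refine ⟨⟨Equiv.ofBijective f hf, a, _, ha0, fun x => rfl⟩, ?_, ?_⟩
    · show x0 * a + (-(x0 * a) + y0) = y0
      rw [add_neg_cancel_left]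
    · show x1 * a + (-(x0 * a) + y0) = y1
      rw [← add_assoc, ← sub_eq_add_neg (x1 * a), ← hsm, hxa, sub_add_cancel]
  · intro x
    rw [eq_bot_iff]
    rintro ⟨σ, a, b, ha, hσ⟩ hs
    rw [Subgroup.mem_bot]
    have h : ∀ i, σ (x i) = x i := fun i => congrArg (fun f : Fin 2 ↪ F => f i) hs
    have h1 : (x 1 - x 0) * a = (x 1 - x 0) * 1 := by
      rw [mul_one, hsm, eq_comm]
      conv_lhs => rw [← h 1, ← h 0, hσ, hσ]
      rw [add_sub_add_right_eq_sub]
    obtain ⟨d, -, hd⟩ := Cfsg.NearField.exists_inv _ (sub_ne_zero.2 (x.injective.ne (by decide : (1 : Fin 2) ≠ 0)))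
    have ha1 : a = 1 := by
      have h2 := congrArg (d * ·) h1
      simp only [← mul_assoc, hd, one_mul] at h2
      exact h2
    have hb : b = 0 := by
      have h2 := h 0
      rw [hσ, ha1, mul_one, add_eq_left] at h2
      exact h2
    apply Subtype.ext
    ext z
    show σ z = z
    rw [hσ, ha1, hb, mul_one, add_zero]

end Cfsg.Agent.S0681
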