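import Cfsg.Statements.S0682
import Mathlib

set_option autoImplicit false
open Cfsg

namespace Cfsg.Agent.S0682

/-- A finite near-field has prime-power order; its additive group is commutative of prime exponent. -/
theorem result {F : Type*} [Cfsg.NearField F] [Finite F] : ∃ p j : ℕ, p.Prime ∧ 1 ≤ j ∧ Nat.card F = p ^ j ∧ (∀ x y : F, x + y = y + x) ∧ ∀ x : F, p • x = 0 := by
  classical
  obtain ⟨u, hu⟩ : ∃ u : F, u ≠ 0 := ⟨1, (Cfsg.NearField.zero_ne_one (F := F)).symm⟩
  have hinj : ∀ a : F, a ≠ 0 → Function.Injective fun x : F => x * a := fun a ha x y h => by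
    obtain ⟨b, hb, -⟩ := Cfsg.NearField.exists_inv a ha
    have h1 := congrArg (· * b) h
    simp only [mul_assoc, hb, mul_one] at h1
    exact h1
  let μ : F → F →+ F := fun a => AddMonoidHom.mk' (fun x => x * a) (fun x y => Cfsg.NearField.right_distrib x y a)
  have hord : ∀ x : F, x ≠ 0 → addOrderOf x = addOrderOf u := by
    intro x hx
    obtain ⟨b, hb, hb'⟩ := Cfsg.NearField.exists_inv u hu
    have hne : b * x ≠ 0 := fun h => hx (by
      calc x = u * (b * x) := by rw [← mul_assoc, hb, one_mul]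
        _ = 0 := by rw [h, Cfsg.NearField.mul_zero])
    have h1 := addOrderOf_injective (μ (b * x)) (hinj _ hne) u
    rwa [show μ (b * x) u = x by show u * (b * x) = x; rw [← mul_assoc, hb, one_mul]] at h1
  obtain ⟨p, hp, hpd⟩ := Nat.exists_prime_and_dvd (fun h => hu (AddMonoid.addOrderOf_eq_one_iff.1 h) : addOrderOf u ≠ 1)
  haveI : Fact p.Prime := ⟨hp⟩
  haveI := Fintype.ofFinite F
  obtain ⟨m, hm⟩ := hpd
  have hm0 : 0 < m := Nat.pos_of_ne_zero fun h => (addOrderOf_pos u).ne' (by rw [hm, h, mul_zero])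
  have hmu : m • u ≠ 0 := fun h => by
    have h1 := Nat.le_of_dvd hm0 (addOrderOf_dvd_of_nsmul_eq_zero h)
    rw [hm] at h1
    exact absurd h1 (Nat.not_le.2 ((Nat.lt_mul_iff_one_lt_left hm0).2 hp.one_lt))
  have hop : addOrderOf u = p := by
    rw [← hord _ hmu]
    refine addOrderOf_eq_prime ?_ hmu
    rw [← mul_nsmul', ← hm, addOrderOf_nsmul_eq_zero]
  have hall : ∀ x : F, p • x = 0 := fun x => by
    by_cases hx : x = 0
    · rw [hx, nsmul_zero]
    · rw [← hop, ← hord x hx, addOrderOf_nsmul_eq_zero]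
  have hP : IsPGroup p (Multiplicative F) := fun g => ⟨1, by
    rw [pow_one]; exact Multiplicative.toAdd.injective (hall g.toAdd)⟩
  haveI : Nontrivial (Multiplicative F) := ⟨⟨Multiplicative.ofAdd u, 1, fun h => hu (Multiplicative.ofAdd.injective h)⟩⟩
  obtain ⟨j, hj0, hj⟩ := hP.nontrivial_iff_card.1 inferInstance
  haveI := IsPGroup.center_nontrivial hP
  obtain ⟨⟨z, hz⟩, hz1⟩ := exists_ne (1 : Subgroup.center (Multiplicative F))
  have hcomm : ∀ x y : F, x + y = y + x := by
    intro x y
    by_cases hx : x = 0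
    · rw [hx, zero_add, add_zero]
    have hz0 : z.toAdd ≠ 0 := fun h => hz1 (Subtype.ext (Multiplicative.toAdd.injective h))
    obtain ⟨b, hb, hb'⟩ := Cfsg.NearField.exists_inv _ hz0
    have hne : b * x ≠ 0 := fun h => hx (by
      calc x = z.toAdd * (b * x) := by rw [← mul_assoc, hb, one_mul]
        _ = 0 := by rw [h, Cfsg.NearField.mul_zero])
    obtain ⟨c, hc, hc'⟩ := Cfsg.NearField.exists_inv _ hne
    have h1 : y * c + z.toAdd = z.toAdd + y * c :=
      congrArg Multiplicative.toAdd (Subgroup.mem_center_iff.1 hz (Multiplicative.ofAdd (y * c)))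
    have h2 := congrArg (fun w : F => w * (b * x)) h1
    simp only [Cfsg.NearField.right_distrib, mul_assoc, hc', mul_one] at h2
    rw [← mul_assoc, hb, one_mul] at h2
    exact h2.symm
  exact ⟨p, j, hp, hj0, (Nat.card_congr Multiplicative.ofAdd).trans hj, hcomm, hall⟩

end Cfsg.Agent.S0682
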