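import Cfsg.Statements.S0683
import Mathlib
import Cfsg.Agent.Lib.Perm.SharpTwo

set_option autoImplicit false
open Cfsg

namespace Cfsg.Agent.S0683

set_option linter.style.haveILetI false

/-- A finite sharply doubly transitive permutation group is the affine group of a near-field: the permuted set carries a near-field structure for which the group consists exactly of the maps `x ↦ x * a + b` with `a ≠ 0`. -/
theorem result {α : Type*} [Fintype α] [DecidableEq α] (H : Subgroup (Equiv.Perm α)) [MulAction.IsMultiplyPretransitive H α 2] (hsharp : ∀ x : Fin 2 ↪ α, MulAction.stabilizer H x = ⊥) (h2 : 2 ≤ Fintype.card α) : ∃ _ : Cfsg.NearField α, ∀ σ : Equiv.Perm α, σ ∈ H ↔ ∃ a b : α, a ≠ 0 ∧ ∀ x : α, σ x = x * a + b := by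
  classical
  obtain ⟨p, j, N, hp, hj, hn, hcard, hnor, hmem, hcomm, hexp, hfree, htrans⟩ := CfsgLib.Perm.SharpTwo.exists_regular hsharp h2
  obtain ⟨o, e, hoe⟩ := Fintype.exists_pair_of_one_lt_card (α := α) h2
  -- translations
  choose t ht hto using htrans o
  have ht_uniq : ∀ x : α, ∀ g ∈ N, g • o = x → g = t x := fun x g hg hgx =>
    (inv_mul_eq_one.1 (hfree o _ (N.mul_mem (N.inv_mem hg) (ht x)) (by rw [mul_smul, hto, ← hgx, inv_smul_smul])))
  -- multiplications
  have hex : ∀ a : α, a ≠ o → ∃ g : H, g • o = o ∧ g • e = a := fun a ha =>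
    (MulAction.is_two_pretransitive_iff (G := H) (α := α)).1 inferInstance hoe (Ne.symm ha)
  let m : α → H := fun a => if ha : a = o then 1 else (hex a ha).choose
  have hm : ∀ a : α, a ≠ o → m a • o = o ∧ m a • e = a := fun a ha => by
    simp only [m, dif_neg ha]
    exact (hex a ha).choose_spec
  have hm_uniq : ∀ a : α, a ≠ o → ∀ g : H, g • o = o → g • e = a → g = m a := fun a ha g h1 h2' =>
    CfsgLib.Perm.SharpTwo.eq_of_two hsharp hoe (h1.trans (hm a ha).1.symm) (h2'.trans (hm a ha).2.symm)
  let mul' : α → α → α := fun x a => if a = o then o else m a • x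
  have mul_def : ∀ x a, a ≠ o → mul' x a = m a • x := fun x a ha => if_neg ha
  have mul_o : ∀ x, mul' x o = o := fun x => if_pos rfl
  have hne : ∀ x a, x ≠ o → a ≠ o → mul' x a ≠ o := fun x a hx ha h => hx (by
    rw [mul_def x a ha] at h
    exact MulAction.injective (m a) (h.trans (hm a ha).1.symm))
  letI iadd : Add α := ⟨fun x y => t y • x⟩
  letI izero : Zero α := ⟨o⟩
  letI ineg : Neg α := ⟨fun x => (t x)⁻¹ • o⟩
  letI imul : Mul α := ⟨mul'⟩
  letI ione : One α := ⟨e⟩
  have hassoc : ∀ x y z : α, x + y + z = x + (y + z) := by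
    intro x y z
    show t z • t y • x = t (t z • y) • x
    rw [← mul_smul, ← ht_uniq (t z • y) (t z * t y) (N.mul_mem (ht z) (ht y)) (by rw [mul_smul, hto])]
  letI addG : AddGroup α := AddGroup.ofLeftAxioms hassoc
    (fun x => hto x) (fun x => by show t x • (t x)⁻¹ • o = o; exact smul_inv_smul _ _)
  have hrd : ∀ x y a : α, mul' (x + y) a = mul' x a + mul' y a := by
    intro x y a
    show mul' (t y • x) a = t (mul' y a) • mul' x a
    by_cases ha : a = o
    · rw [ha, mul_o, mul_o, mul_o, hto]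
    rw [mul_def _ _ ha, mul_def _ _ ha, mul_def _ _ ha]
    rw [← ht_uniq (m a • y) (m a * t y * (m a)⁻¹) (hnor.conj_mem _ (ht y) _) ?_]
    · rw [mul_smul, mul_smul, inv_smul_smul]
    · rw [mul_smul, mul_smul, inv_smul_eq_iff.2 (hm a ha).1.symm, hto]
  have hmassoc : ∀ x a b : α, mul' (mul' x a) b = mul' x (mul' a b) := by
    intro x a b
    by_cases hb : b = o
    · rw [hb, mul_o, mul_o, mul_o]
    by_cases ha : a = o
    · rw [ha, mul_o, mul_def o b hb, (hm b hb).1, mul_o]
    rw [mul_def _ (mul' a b) (hne a b ha hb), mul_def _ b hb, mul_def x a ha, ← mul_smul]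
    congr 1
    refine hm_uniq _ (hne a b ha hb) _ ?_ ?_
    · rw [mul_smul, (hm a ha).1, (hm b hb).1]
    · rw [mul_smul, (hm a ha).2, mul_def a b hb]
  have hone : ∀ x : α, mul' e x = x := fun x => by
    by_cases hx : x = o
    · rw [hx, mul_o]
    · rw [mul_def _ _ hx, (hm x hx).2]
  have hmone : ∀ x : α, mul' x e = x := fun x => by
    rw [mul_def _ _ (Ne.symm hoe), ← hm_uniq e (Ne.symm hoe) 1 (one_smul _ _) (one_smul _ _), one_smul]
  let NF : Cfsg.NearField α :=
    { addG with
      mul := mul'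
      one := e
      mul_assoc := hmassoc
      one_mul := hone
      mul_one := hmone
      right_distrib := hrd
      mul_zero := mul_o
      zero_ne_one := hoe
      exists_inv := fun a (ha : a ≠ o) => by
        have hb : (m a)⁻¹ • e ≠ o := fun h => hoe (by
          rw [inv_smul_eq_iff, (hm a ha).1] at h
          exact h.symm)
        refine ⟨(m a)⁻¹ • e, ?_, ?_⟩
        · show mul' a ((m a)⁻¹ • e) = e
          rw [mul_def _ _ hb, ← hm_uniq _ hb (m a)⁻¹ (inv_smul_eq_iff.2 (hm a ha).1.symm) rfl, inv_smul_eq_iff]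
          exact (hm a ha).2.symm
        · show mul' ((m a)⁻¹ • e) a = e
          rw [mul_def _ _ ha, smul_inv_smul] }
  refine ⟨NF, fun σ => ⟨fun hσ => ?_, ?_⟩⟩
  · set g : H := ⟨σ, hσ⟩ with hg
    set m' : H := (t (g • o))⁻¹ * g with hm'
    have hm'o : m' • o = o := by rw [hm', mul_smul, inv_smul_eq_iff, hto]
    have hane : m' • e ≠ o := fun h => hoe (MulAction.injective m' (hm'o.trans h.symm))
    refine ⟨m' • e, g • o, hane, fun x => ?_⟩
    show g • x = t (g • o) • mul' x (m' • e)
    rw [mul_def _ _ hane, ← hm_uniq _ hane m' hm'o rfl, hm', mul_smul, smul_inv_smul]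
  · rintro ⟨a, b, ha, hσ⟩
    have : σ = ((t b * m a : H) : Equiv.Perm α) := Equiv.ext fun x => by
      rw [hσ x]
      show t b • mul' x a = (t b * m a) • x
      rw [mul_def _ _ ha, mul_smul]
    rw [this]
    exact (t b * m a).2

end Cfsg.Agent.S0683
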