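import Cfsg.Statements.S0684
import Cfsg.Agent.Lib.RegularLinear

set_option autoImplicit false
open Cfsg

namespace Cfsg.Agent.S0684

open CfsgLib.RegularLinear


/-- Point stabiliser of a sharply doubly transitive group not of semilinear type: a maximal normal abelian subgroup `A` of a linear group `H` that is regular on non-zero vectors and has no irreducible cyclic normal subgroup is cyclic and reducible, and the order of `A` divides `p ^ k - 1` for `k` the dimension of a minimal `A`-invariant subspace. -/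
theorem result {p : ℕ} [Fact p.Prime] {V : Type*} [AddCommGroup V] [Module (ZMod p) V] [Finite V] (H : Subgroup (V ≃ₗ[ZMod p] V)) (hreg : ∀ v w : V, v ≠ 0 → w ≠ 0 → ∃! h : H, (h : V ≃ₗ[ZMod p] V) v = w) (hI : ∀ A : Subgroup H, A.Normal → IsCyclic A → ∃ W : Submodule (ZMod p) V, W ≠ ⊥ ∧ W ≠ ⊤ ∧ ∀ a ∈ A, ∀ v ∈ W, ((a : H) : V ≃ₗ[ZMod p] V) v ∈ W) (A : Subgroup H) (hAn : A.Normal) (hAc : IsMulCommutative A) (hAmax : ∀ B : Subgroup H, B.Normal → IsMulCommutative B → A ≤ B → B = A) : IsCyclic A ∧ ∃ W : Submodule (ZMod p) V, W ≠ ⊥ ∧ W ≠ ⊤ ∧ (∀ a ∈ A, ∀ v ∈ W, ((a : H) : V ≃ₗ[ZMod p] V) v ∈ W) ∧ (∀ W' : Submodule (ZMod p) V, W' ≤ W → (∀ a ∈ A, ∀ v ∈ W', ((a : H) : V ≃ₗ[ZMod p] V) v ∈ W') → W' = ⊥ ∨ W' = W) ∧ Nat.card A ∣ p ^ Module.finrank (ZMod p) W - 1 := by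
  have ht : Trans H := fun v w hv hw => (hreg v w hv hw).exists
  have hnt : Nontrivial V := by
    obtain ⟨W, h0, h1, -⟩ := hI ⊥ inferInstance inferInstance
    rcases subsingleton_or_nontrivial V with hs | hn
    · exact absurd (Subsingleton.elim W ⊤) h1
    · exact hn
  have hfin := finite_group (H := H)
  have hz := abelian_zero ht (B := A) hAc
  have hF := isField_alg hz
  have hcyc := isCyclic_of_isField hF
  obtain ⟨W, hW⟩ := exists_min A
  obtain ⟨X, hX0, hX1, hX⟩ := hI A hAn hcyc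
  have hne : ∀ U, Min A U → U ≠ ⊤ := fun U hU h =>
    (hU.2.2 X (h ▸ le_top) hX).elim hX0 (fun h' => hX1 (h'.trans h))
  refine ⟨hcyc, W, hW.1, hne W hW, hW.2.1, hW.2.2, ?_⟩
  have h := card_dvd_of_isField (B := A) hF
  rw [← card_min hz hW, Module.natCard_eq_pow_finrank (K := ZMod p) (V := W), Nat.card_zmod] at h
  exact h

end Cfsg.Agent.S0684
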