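import Cfsg.Statements.S0685
import Cfsg.Agent.Lib.RegularLinear

set_option autoImplicit false
open Cfsg

namespace Cfsg.Agent.S0685

open CfsgLib.RegularLinear


/-- In a linear group over the prime field that is regular on non-zero vectors and has no irreducible cyclic normal subgroup, a maximal normal abelian subgroup is properly contained in its centraliser, which is non-abelian. -/
theorem result {p : ℕ} [Fact p.Prime] {V : Type*} [AddCommGroup V] [Module (ZMod p) V] [Finite V] (H : Subgroup (V ≃ₗ[ZMod p] V)) (hreg : ∀ v w : V, v ≠ 0 → w ≠ 0 → ∃! h : H, (h : V ≃ₗ[ZMod p] V) v = w) (hI : ∀ A : Subgroup H, A.Normal → IsCyclic A → ∃ W : Submodule (ZMod p) V, W ≠ ⊥ ∧ W ≠ ⊤ ∧ ∀ a ∈ A, ∀ v ∈ W, ((a : H) : V ≃ₗ[ZMod p] V) v ∈ W) (A : Subgroup H) (hAn : A.Normal) (hAc : IsMulCommutative A) (hAmax : ∀ B : Subgroup H, B.Normal → IsMulCommutative B → A ≤ B → B = A) : A < Subgroup.centralizer (A : Set H) ∧ ¬ IsMulCommutative (Subgroup.centralizer (A : Set H)) := by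
  have ht : Trans H := fun v w hv hw => (hreg v w hv hw).exists
  have hnt : Nontrivial V := by
    obtain ⟨W, h0, h1, -⟩ := hI ⊥ inferInstance inferInstance
    rcases subsingleton_or_nontrivial V with hs | hn
    · exact absurd (Subsingleton.elim W ⊤) h1
    · exact hn
  have hfin := finite_group (H := H)
  have hz := abelian_zero ht (B := A) hAc
  have hF := isField_alg hz
  have hcyc := isCyclic_of_isField hF
  obtain ⟨W, hW⟩ := exists_min A
  obtain ⟨X, hX0, hX1, hX⟩ := hI A hAn hcyc
  have hne : ∀ U, Min A U → U ≠ ⊤ := fun U hU h =>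
    (hU.2.2 X (h ▸ le_top) hX).elim hX0 (fun h' => hX1 (h'.trans h))
  have hle : A ≤ Subgroup.centralizer (A : Set H) := fun a ha b hb =>
    congrArg Subtype.val (mul_comm' (⟨b, hb⟩ : A) ⟨a, ha⟩)
  have hne' : Subgroup.centralizer (A : Set H) ≠ A := by
    intro hCA
    obtain ⟨⟨a, ha⟩, hgen⟩ := hcyc.exists_generator
    have hcent : ∀ g : H, g * a = a * g → g ∈ A := by
      intro g hg
      rw [← hCA]
      intro b hb
      obtain ⟨k, hk⟩ := hgen ⟨b, hb⟩
      have hk' : a ^ k = b := congrArg Subtype.val hk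
      rw [← hk']
      exact ((show Commute g a from hg).zpow_right k).symm.eq
    let f : H → A := fun g => ⟨g * a * g⁻¹, hAn.conj_mem a ha g⟩
    have hrep : ∀ g : H, ((Function.invFun f (f g))⁻¹ * g) ∈ A := by
      intro g
      refine hcent _ ?_
      set g₀ := Function.invFun f (f g) with hg₀
      have : g₀ * a * g₀⁻¹ = g * a * g⁻¹ := congrArg Subtype.val (Function.invFun_eq (f := f) ⟨g, rfl⟩)
      calc g₀⁻¹ * g * a = g₀⁻¹ * (g * a * g⁻¹) * g := by group
        _ = g₀⁻¹ * (g₀ * a * g₀⁻¹) * g := by rw [this]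
        _ = a * (g₀⁻¹ * g) := by group
    have h1 : Nat.card H ≤ Nat.card A * Nat.card A := by
      rw [← Nat.card_prod]
      refine Nat.card_le_card_of_injective (fun g => (f g, (⟨_, hrep g⟩ : A))) fun g g' e => ?_
      have e1 := (Prod.mk.inj e).1
      have e2 : (Function.invFun f (f g))⁻¹ * g = (Function.invFun f (f g'))⁻¹ * g' :=
        congrArg Subtype.val (Prod.mk.inj e).2
      rw [e1] at e2
      exact mul_left_cancel e2
    have h2 := Nat.le_of_dvd (by
      have := finite_alg (B := A)
      have h1' : 1 < Nat.card (Alg A) := by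
        rw [← card_min hz hW]
        have : Nontrivial W := Submodule.nontrivial_iff_ne_bot.mpr hW.1
        exact Finite.one_lt_card
      omega) (card_dvd_of_isField (B := A) hF)
    obtain ⟨v, hv⟩ : ∃ v, v ∉ W := by
      by_contra h
      push Not at h
      exact hne W hW (Submodule.eq_top_iff'.mpr h)
    obtain ⟨W', hW', hvW⟩ := exists_min_mem ht A (v := v) (fun h => hv (h ▸ W.zero_mem))
    have h3 : Nat.card W * Nat.card W' ≤ Nat.card V := by
      rw [← Nat.card_prod]
      refine Nat.card_le_card_of_injective (fun x => (x.1 : V) + x.2) fun x y e => ?_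
      have e' : (x.1 : V) - y.1 = y.2 - x.2 := by
        rw [sub_eq_sub_iff_add_eq_add]; exact e.trans (add_comm _ _)
      by_cases h0 : (x.1 : V) - y.1 = 0
      · exact Prod.ext (Subtype.ext (sub_eq_zero.mp h0)) (Subtype.ext (sub_eq_zero.mp (e'.symm.trans h0)).symm)
      · have hsame := hW.eq hW' (W.sub_mem x.1.2 y.1.2) (e' ▸ W'.sub_mem y.2.2 x.2.2) h0
        exact absurd (hsame ▸ hvW) hv
    rw [card_min hz hW, card_min hz hW', card_eq hreg] at h3
    have hk0 : 0 < Nat.card A := Nat.card_pos
    generalize Nat.card (Alg A) = q at h2 h3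
    generalize Nat.card H = h at h1 h3
    generalize Nat.card A = k at h1 h2 hk0
    have h4 : k + 1 ≤ q := by omega
    have h5 := Nat.mul_le_mul h4 h4
    nlinarith
  refine ⟨lt_of_le_of_ne hle (Ne.symm hne'), fun hc => hne' (hAmax _ inferInstance hc hle)⟩

end Cfsg.Agent.S0685
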