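import Cfsg.Statements.S0687
import Cfsg.Agent.Lib.RegularLinear

set_option autoImplicit false
open Cfsg

namespace Cfsg.Agent.S0687

open CfsgLib.RegularLinear


/-- In a linear group over the prime field that is regular on non-zero vectors and has no irreducible cyclic normal subgroup, a normal subgroup `N` minimal among the non-abelian normal subgroups centralising a maximal normal abelian subgroup `A` is irreducible on `V`, and its centraliser is `A`. -/
theorem result {p : ℕ} [Fact p.Prime] {V : Type*} [AddCommGroup V] [Module (ZMod p) V] [Finite V] (H : Subgroup (V ≃ₗ[ZMod p] V)) (hreg : ∀ v w : V, v ≠ 0 → w ≠ 0 → ∃! h : H, (h : V ≃ₗ[ZMod p] V) v = w) (hI : ∀ A : Subgroup H, A.Normal → IsCyclic A → ∃ W : Submodule (ZMod p) V, W ≠ ⊥ ∧ W ≠ ⊤ ∧ ∀ a ∈ A, ∀ v ∈ W, ((a : H) : V ≃ₗ[ZMod p] V) v ∈ W) (A : Subgroup H) (hAn : A.Normal) (hAc : IsMulCommutative A) (hAmax : ∀ B : Subgroup H, B.Normal → IsMulCommutative B → A ≤ B → B = A) (N : Subgroup H) (hNn : N.Normal) (hNle : N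 ≤ Subgroup.centralizer (A : Set H)) (hNna : ¬ IsMulCommutative N) (hNmin : ∀ M : Subgroup H, M.Normal → M ≤ N → ¬ IsMulCommutative M → M = N) : (∀ W : Submodule (ZMod p) V, (∀ n ∈ N, ∀ v ∈ W, ((n : H) : V ≃ₗ[ZMod p] V) v ∈ W) → W = ⊥ ∨ W = ⊤) ∧ Subgroup.centralizer (N : Set H) = A := by
  have ht : Trans H := fun v w hv hw => (hreg v w hv hw).exists
  have hnt : Nontrivial V := by
    obtain ⟨W, h0, h1, -⟩ := hI ⊥ inferInstance inferInstance
    rcases subsingleton_or_nontrivial V with hs | hn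
    · exact absurd (Subsingleton.elim W ⊤) h1
    · exact hn
  have hirr : ∀ W : Submodule (ZMod p) V, Inv N W → W = ⊥ ∨ W = ⊤ := by
    by_contra h
    push Not at h
    obtain ⟨X, hX, hX0, hX1⟩ := h
    exact hNna (comm_of_isField (isField_alg fun r hr v hv hrv => red ht hX hX0 hX1 hr hv hrv))
  refine ⟨hirr, hAmax _ inferInstance ?_ fun a ha n hn => ((hNle hn) a ha).symm⟩
  refine comm_of_isField (isField_alg fun r hr v hv hrv => schur hirr (fun n hn => ?_) hv hrv)
  refine (alg_comm (fun d hd => ?_) r hr).symm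
  rw [← map_mul, ← map_mul]
  exact congrArg L (hd n hn).symm

end Cfsg.Agent.S0687
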