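import Cfsg.Statements.S0691
import Mathlib

set_option autoImplicit false
open Cfsg

namespace Cfsg.Agent.S0691

open Matrix

set_option linter.style.haveILetI false

abbrev Q := ℕ × ℕ × ℕ × ℕ

def toM (x : Q) : Matrix (Fin 2) (Fin 2) (ZMod 5) :=
  !![(x.1 : ZMod 5), (x.2.1 : ZMod 5); (x.2.2.1 : ZMod 5), (x.2.2.2 : ZMod 5)]

def mulQ (x y : Q) : Q :=
  ((x.1 * y.1 + x.2.1 * y.2.2.1) % 5, (x.1 * y.2.1 + x.2.1 * y.2.2.2) % 5,
   (x.2.2.1 * y.1 + x.2.2.2 * y.2.2.1) % 5, (x.2.2.1 * y.2.1 + x.2.2.2 * y.2.2.2) % 5)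

def elems : List Q := [(4, 1, 2, 2), (4, 4, 3, 2), (2, 3, 4, 4), (2, 2, 1, 4), (3, 2, 1, 1), (1, 3, 4, 3), (1, 4, 3, 3), (3, 1, 2, 1), (1, 1, 2, 3), (3, 4, 3, 1), (4, 3, 4, 2), (0, 1, 4, 0), (3, 0, 0, 2), (3, 3, 4, 1), (2, 1, 2, 4), (4, 2, 1, 2), (0, 2, 2, 0), (2, 4, 3, 4), (0, 3, 3, 0), (4, 0, 0, 4), (1, 2, 1, 3), (0, 4, 1, 0), (2, 0, 0, 3), (1, 0, 0, 1)]

def gens : List Q := [(2, 0, 0, 3), (0, 4, 1, 0), (1, 2, 1, 3)]

def builds : List Q → Bool
  | [] => true
  | x :: rest => (x == (1, 0, 0, 1) || rest.any fun y => gens.any fun g => mulQ y g == x) && builds rest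

theorem elems_builds : builds elems = true := by decide +kernel

theorem elems_closed : (∀ x ∈ elems, ∀ g ∈ gens, mulQ x g ∈ elems) ∧ (1, 0, 0, 1) ∈ elems := by decide +kernel

theorem elems_good : elems.Nodup ∧ (∀ x ∈ elems, x.1 < 5 ∧ x.2.1 < 5 ∧ x.2.2.1 < 5 ∧ x.2.2.2 < 5) := by
  decide +kernel

theorem elems_fpf : ∀ x ∈ elems,
    ((x.1 + 5 - 1) * (x.2.2.2 + 5 - 1) + (5 - 1) * (x.2.1 * x.2.2.1)) % 5 = 0 → x = (1, 0, 0, 1) := by
  decide +kernel

theorem toM_mulQ (x y : Q) : toM (mulQ x y) = toM x * toM y := by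
  ext i j
  fin_cases i <;> fin_cases j <;> simp [toM, mulQ, Matrix.mul_apply, Fin.sum_univ_two]

theorem toM_inj {x y : Q} (hx : x ∈ elems) (hy : y ∈ elems) (h : toM x = toM y) : x = y := by
  obtain ⟨a1, a2, a3, a4⟩ := elems_good.2 x hx
  obtain ⟨b1, b2, b3, b4⟩ := elems_good.2 y hy
  obtain ⟨x1, x2, x3, x4⟩ := x
  obtain ⟨y1, y2, y3, y4⟩ := y
  have key : ∀ a b : ℕ, a < 5 → b < 5 → (a : ZMod 5) = b → a = b := fun a b ha hb hab => by
    have := congrArg ZMod.val hab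
    rwa [ZMod.val_natCast, ZMod.val_natCast, Nat.mod_eq_of_lt ha, Nat.mod_eq_of_lt hb] at this
  have h00 := congrFun (congrFun h 0) 0
  have h01 := congrFun (congrFun h 0) 1
  have h10 := congrFun (congrFun h 1) 0
  have h11 := congrFun (congrFun h 1) 1
  simp [toM] at h00 h01 h10 h11
  simp only [Prod.mk.injEq]
  exact ⟨key _ _ a1 b1 h00, key _ _ a2 b2 h01, key _ _ a3 b3 h10, key _ _ a4 b4 h11⟩

theorem main (S : Set (Matrix.GeneralLinearGroup (Fin 2) (ZMod 5)))
    (hS : ∀ g ∈ S, ∃ x ∈ gens, (g : Matrix (Fin 2) (Fin 2) (ZMod 5)) = toM x)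
    (hS' : ∀ x ∈ gens, ∃ g ∈ S, (g : Matrix (Fin 2) (Fin 2) (ZMod 5)) = toM x) :
    Nat.card (Subgroup.closure S) = 24 ∧
      ∀ v w : Fin 2 → ZMod 5, v ≠ 0 → w ≠ 0 → ∃! h : Subgroup.closure S,
        Matrix.mulVec ((h : Matrix.GeneralLinearGroup (Fin 2) (ZMod 5)) : Matrix (Fin 2) (Fin 2) (ZMod 5)) v = w := by
  classical
  haveI : Fact (Nat.Prime 5) := ⟨by norm_num⟩
  haveI : Finite (Matrix.GeneralLinearGroup (Fin 2) (ZMod 5)) := inferInstance
  have hmem : ∀ g ∈ Subgroup.closure S, ∃ x ∈ elems, (g : Matrix (Fin 2) (Fin 2) (ZMod 5)) = toM x := by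
    intro g hg
    rw [← Subgroup.mem_toSubmonoid, Subgroup.closure_toSubmonoid_of_finite] at hg
    induction hg using Submonoid.closure_induction_right with
    | one => exact ⟨_, elems_closed.2, by ext i j; fin_cases i <;> fin_cases j <;> simp [toM]⟩
    | mul_right a _ b hb ih =>
      obtain ⟨x, hx, hax⟩ := ih
      obtain ⟨y, hy, hby⟩ := hS b hb
      exact ⟨mulQ x y, elems_closed.1 x hx y hy, by rw [toM_mulQ, Units.val_mul, hax, hby]⟩
  have hbuild : ∀ l : List Q, builds l = true → ∀ x ∈ l, ∃ g ∈ Subgroup.closure S,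
      (g : Matrix (Fin 2) (Fin 2) (ZMod 5)) = toM x := by
    intro l
    induction l with
    | nil => simp
    | cons y rest ih =>
      intro hb
      rw [builds, Bool.and_eq_true] at hb
      obtain ⟨h1, h2⟩ := hb
      intro x hx
      rcases List.mem_cons.1 hx with rfl | hx
      · rw [Bool.or_eq_true, beq_iff_eq, List.any_eq_true] at h1
        rcases h1 with rfl | ⟨z, hz, hz'⟩
        · exact ⟨1, Subgroup.one_mem _, by ext i j; fin_cases i <;> fin_cases j <;> simp [toM]⟩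
        · rw [List.any_eq_true] at hz'
          obtain ⟨g, hg, hzg⟩ := hz'
          rw [beq_iff_eq] at hzg
          obtain ⟨a, ha, haz⟩ := ih h2 z hz
          obtain ⟨b, hb, hbg⟩ := hS' g hg
          exact ⟨a * b, Subgroup.mul_mem _ ha (Subgroup.subset_closure hb), by
            rw [← hzg, toM_mulQ, Units.val_mul, haz, hbg]⟩
      · exact ih h2 x hx
  have hex := hbuild elems elems_builds
  choose f hf hfM using hmem
  choose k hk hkM using hex
  let e : Subgroup.closure S ≃ elems.toFinset :=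
    { toFun := fun g => ⟨f g g.2, List.mem_toFinset.2 (hf g g.2)⟩
      invFun := fun x => ⟨k x (List.mem_toFinset.1 x.2), hk _ _⟩
      left_inv := fun g => Subtype.ext (Units.ext (by
        show (k _ _ : Matrix.GeneralLinearGroup (Fin 2) (ZMod 5)).val = _
        rw [hkM, ← hfM g g.2]))
      right_inv := fun x => Subtype.ext (toM_inj (hf _ _) (List.mem_toFinset.1 x.2) (by rw [← hfM, hkM])) }
  have hcard : Nat.card (Subgroup.closure S) = 24 := by
    rw [Nat.card_congr e, Nat.card_eq_fintype_card, Fintype.card_coe, List.toFinset_card_of_nodup elems_good.1]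
    rfl
  refine ⟨hcard, fun v w hv hw => ?_⟩
  have hfix : ∀ g : Subgroup.closure S, ((g : Matrix.GeneralLinearGroup (Fin 2) (ZMod 5)) : Matrix (Fin 2) (Fin 2) (ZMod 5)) *ᵥ v = v → g = 1 := by
    intro g hg
    have hm : f g g.2 ∈ elems := hf g g.2
    obtain ⟨a1, a2, a3, a4⟩ := elems_good.2 _ hm
    have hdet : (toM (f g g.2) - 1).det = 0 := by
      rw [← Matrix.exists_mulVec_eq_zero_iff]
      exact ⟨v, hv, by rw [Matrix.sub_mulVec, ← hfM, hg, Matrix.one_mulVec, sub_self]⟩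
    have hx := elems_fpf _ hm (by
      have hz : ((((f g g.2).1 + 5 - 1) * ((f g g.2).2.2.2 + 5 - 1) + (5 - 1) * ((f g g.2).2.1 * (f g g.2).2.2.1) : ℕ) : ZMod 5) = 0 := by
        rw [Matrix.det_fin_two] at hdet
        simp [toM] at hdet
        rw [Nat.cast_add, Nat.cast_mul, Nat.cast_mul, Nat.cast_mul, Nat.cast_sub (by omega), Nat.cast_sub (by omega),
          Nat.cast_sub (by omega), Nat.cast_add, Nat.cast_add, ZMod.natCast_self]
        linear_combination hdet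
      exact Nat.mod_eq_zero_of_dvd ((ZMod.natCast_eq_zero_iff _ _).1 hz))
    apply Subtype.ext
    apply Units.ext
    rw [hfM g g.2, hx]
    ext i j
    fin_cases i <;> fin_cases j <;> simp [toM]
  let T := {u : Fin 2 → ZMod 5 // u ≠ 0}
  let φ : Subgroup.closure S → T := fun g => ⟨((g : Matrix.GeneralLinearGroup (Fin 2) (ZMod 5)) : Matrix (Fin 2) (Fin 2) (ZMod 5)) *ᵥ v, fun h => hv (by
    have := congrArg (fun u => (((g : Matrix.GeneralLinearGroup (Fin 2) (ZMod 5))⁻¹ : Matrix.GeneralLinearGroup (Fin 2) (ZMod 5)) : Matrix (Fin 2) (Fin 2) (ZMod 5)) *ᵥ u) h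
    simp only [Matrix.mulVec_mulVec, ← Units.val_mul, inv_mul_cancel, Units.val_one, Matrix.one_mulVec, Matrix.mulVec_zero] at this
    exact this)⟩
  have hinj : Function.Injective φ := fun a b hab => by
    have h := congrArg Subtype.val hab
    refine (inv_mul_eq_one.1 (hfix (a⁻¹ * b) ?_))
    show ((((a : Matrix.GeneralLinearGroup (Fin 2) (ZMod 5))⁻¹ : Matrix.GeneralLinearGroup (Fin 2) (ZMod 5)) : Matrix (Fin 2) (Fin 2) (ZMod 5)) * ((b : Matrix.GeneralLinearGroup (Fin 2) (ZMod 5)) : Matrix (Fin 2) (Fin 2) (ZMod 5))) *ᵥ v = v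
    rw [← Matrix.mulVec_mulVec, ← show _ = ((b : Matrix.GeneralLinearGroup (Fin 2) (ZMod 5)) : Matrix (Fin 2) (Fin 2) (ZMod 5)) *ᵥ v from h,
      Matrix.mulVec_mulVec, ← Units.val_mul, inv_mul_cancel, Units.val_one, Matrix.one_mulVec]
  have hbij : Function.Bijective φ := (Nat.bijective_iff_injective_and_card φ).2 ⟨hinj, by
    rw [hcard, Nat.card_eq_fintype_card, Fintype.card_subtype_compl, Fintype.card_subtype_eq]
    simp⟩
  obtain ⟨g, hg⟩ := hbij.2 ⟨w, hw⟩
  exact ⟨g, congrArg Subtype.val hg, fun g' hg' => hinj ((Subtype.ext hg').trans hg.symm)⟩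


/-- An exceptional sharply doubly transitive group of degree 5^2: the listed matrices generate a subgroup of GL(2,5) of order 24 acting regularly on the non-zero vectors. -/
theorem result (A : Matrix.GeneralLinearGroup (Fin 2) (ZMod 5)) (B : Matrix.GeneralLinearGroup (Fin 2) (ZMod 5)) (C : Matrix.GeneralLinearGroup (Fin 2) (ZMod 5)) (hA : (A : Matrix (Fin 2) (Fin 2) (ZMod 5)) = !![2, 0; 0, -2]) (hB : (B : Matrix (Fin 2) (Fin 2) (ZMod 5)) = !![0, -1; 1, 0]) (hC : (C : Matrix (Fin 2) (Fin 2) (ZMod 5)) = !![1, 2; 1, -2]) : Nat.card (Subgroup.closure ({A, B, C} : Set (Matrix.GeneralLinearGroup (Fin 2) (ZMod 5)))) = 24 ∧ ∀ v w : Fin 2 → ZMod 5, v ≠ 0 → w ≠ 0 → ∃! h : Subgroup.closure ({A, B, C} : Set (Matrix.GeneralLinearGroup (Fin 2) (ZMod 5))), Matrix.mulVec ((h : Matrix.GeneralLinearGroup (Fin 2) (ZMod 5)) : Matrix (Fin 2) (Fin 2) (ZMod 5)) v = w := by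
  refine main _ ?_ ?_
  · rintro g (rfl | rfl | rfl)
    · exact ⟨(2, 0, 0, 3), by simp [gens], by rw [hA]; ext i j; fin_cases i <;> fin_cases j <;> decide⟩
    · exact ⟨(0, 4, 1, 0), by simp [gens], by rw [hB]; ext i j; fin_cases i <;> fin_cases j <;> decide⟩
    · exact ⟨(1, 2, 1, 3), by simp [gens], by rw [hC]; ext i j; fin_cases i <;> fin_cases j <;> decide⟩
  · intro x hx
    simp only [gens, List.mem_cons, List.not_mem_nil, or_false] at hx
    rcases hx with rfl | rfl | rfl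
    · exact ⟨A, by simp, by rw [hA]; ext i j; fin_cases i <;> fin_cases j <;> decide⟩
    · exact ⟨B, by simp, by rw [hB]; ext i j; fin_cases i <;> fin_cases j <;> decide⟩
    · exact ⟨C, by simp, by rw [hC]; ext i j; fin_cases i <;> fin_cases j <;> decide⟩

end Cfsg.Agent.S0691
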