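import Cfsg.Statements.S0693
import Mathlib
import Cfsg.Agent.Lib.Perm.SharpFiftyNine

set_option autoImplicit false
open Cfsg

namespace Cfsg.Agent.S0693

open CfsgLib.SharpFiftyNine

/-- An exceptional sharply doubly transitive group of degree 59^2: the listed matrices generate a subgroup of GL(2,59) of order 3480 acting regularly on the non-zero vectors. -/
theorem result (A : Matrix.GeneralLinearGroup (Fin 2) (ZMod 59)) (B : Matrix.GeneralLinearGroup (Fin 2) (ZMod 59)) (C : Matrix.GeneralLinearGroup (Fin 2) (ZMod 59)) (hA : (A : Matrix (Fin 2) (Fin 2) (ZMod 59)) = !![0, -1; 1, 0]) (hB : (B : Matrix (Fin 2) (Fin 2) (ZMod 59)) = !![9, 15; -10, -10]) (hC : (C : Matrix (Fin 2) (Fin 2) (ZMod 59)) = !![4, 0; 0, 4]) : Nat.card (Subgroup.closure ({A, B, C} : Set (Matrix.GeneralLinearGroup (Fin 2) (ZMod 59)))) = 3480 ∧ ∀ v w : Fin 2 → ZMod 59, v ≠ 0 → w ≠ 0 → ∃! h : Subgroup.closure ({A, B, C} : Set (Matrix.GeneralLinearGroup (Fin 2) (ZMod 59))), Matrix.mulVec ((h : Matrix.GeneralLinearGroup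 (Fin 2) (ZMod 59)) : Matrix (Fin 2) (Fin 2) (ZMod 59)) v = w := by
  classical
  have h58 : (58 : ZMod 59) = -1 := by decide
  have hAq : (A : Matrix (Fin 2) (Fin 2) (ZMod 59)) = toM qA := by
    rw [hA]; ext i j; fin_cases i <;> fin_cases j <;> decide
  have hBq : (B : Matrix (Fin 2) (Fin 2) (ZMod 59)) = toM qB := by
    rw [hB]; ext i j; fin_cases i <;> fin_cases j <;> decide
  have hC' : (C : Matrix (Fin 2) (Fin 2) (ZMod 59)) = (4 : ZMod 59) • (1 : Matrix (Fin 2) (Fin 2) (ZMod 59)) := by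
    rw [hC]; ext i j; fin_cases i <;> fin_cases j <;> decide
  have hCpow : ∀ i : ℕ, ((C ^ i : Matrix.GeneralLinearGroup (Fin 2) (ZMod 59)) : Matrix (Fin 2) (Fin 2) (ZMod 59)) =
      (4 : ZMod 59) ^ i • (1 : Matrix (Fin 2) (Fin 2) (ZMod 59)) := by
    intro i
    rw [Units.val_pow_eq_pow_val, hC', smul_pow, one_pow]
  have h4 : (4 : ZMod 59) ^ 29 = 1 := by decide
  haveI : Fact (Nat.Prime 59) := ⟨by norm_num⟩
  have h4mod : ∀ n : ℕ, (4 : ZMod 59) ^ n = (4 : ZMod 59) ^ (n % 29) := by
    intro n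
    conv_lhs => rw [← Nat.mod_add_div n 29, pow_add, pow_mul, h4, one_pow, mul_one]
  set H := Subgroup.closure ({A, B, C} : Set (Matrix.GeneralLinearGroup (Fin 2) (ZMod 59))) with hH
  set H₀ := Subgroup.closure ({A, B} : Set (Matrix.GeneralLinearGroup (Fin 2) (ZMod 59))) with hH₀
  have hinv : ∀ (K : Subgroup (Matrix.GeneralLinearGroup (Fin 2) (ZMod 59)))
      (T : Set (Matrix.GeneralLinearGroup (Fin 2) (ZMod 59))), K = Subgroup.closure T →
      ∀ P : Matrix.GeneralLinearGroup (Fin 2) (ZMod 59) → Prop, P 1 →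
      (∀ k, P k → ∀ t ∈ T, P (k * t)) → ∀ g ∈ K, P g := by
    rintro K T rfl P h1 hT g hg
    suffices h : ∀ k, P k → P (k * g) by simpa using h 1 h1
    induction hg using Subgroup.closure_induction with
    | mem t ht => exact fun k hk => hT k hk t ht
    | one => exact fun k hk => by simpa using hk
    | mul a b _ _ ha hb => exact fun k hk => by rw [← mul_assoc]; exact hb _ (ha k hk)
    | inv a _ ha =>
      intro k hk
      have hp : ∀ n : ℕ, P (k * a ^ n) := by
        intro n
        induction n with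
        | zero => simpa using hk
        | succ n ih => rw [pow_succ, ← mul_assoc]; exact ha _ ih
      have h2 := hp (orderOf a - 1)
      have he : a ^ (orderOf a - 1) = a⁻¹ := by
        refine (inv_eq_of_mul_eq_one_right ?_).symm
        rw [← pow_succ', Nat.sub_add_cancel (orderOf_pos a), pow_orderOf_eq_one]
      rwa [he] at h2
  have hH₀mem : ∀ g ∈ H₀, ∃ x ∈ elems, (g : Matrix (Fin 2) (Fin 2) (ZMod 59)) = toM x := by
    refine hinv H₀ _ hH₀ _ ⟨qI, qI_mem, by rw [toM_qI]; rfl⟩ ?_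
    rintro k ⟨x, hx, hk⟩ t (rfl | rfl)
    · exact ⟨_, (elems_closed x hx).1, by rw [toM_mulQ, Units.val_mul, hk, hAq]⟩
    · exact ⟨_, (elems_closed x hx).2, by rw [toM_mulQ, Units.val_mul, hk, hBq]⟩
  have hHmem : ∀ g ∈ H, ∃ x ∈ elems, ∃ i < 29,
      (g : Matrix (Fin 2) (Fin 2) (ZMod 59)) = (4 : ZMod 59) ^ i • toM x := by
    refine hinv H _ hH _ ⟨qI, qI_mem, 0, by norm_num, by rw [toM_qI, pow_zero, one_smul]; rfl⟩ ?_
    rintro k ⟨x, hx, i, hi, hk⟩ t (rfl | rfl | rfl)
    · exact ⟨_, (elems_closed x hx).1, i, hi, by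
        rw [toM_mulQ, Units.val_mul, hk, hAq, smul_mul_assoc]⟩
    · exact ⟨_, (elems_closed x hx).2, i, hi, by
        rw [toM_mulQ, Units.val_mul, hk, hBq, smul_mul_assoc]⟩
    · refine ⟨x, hx, (i + 1) % 29, Nat.mod_lt _ (by norm_num), ?_⟩
      rw [← h4mod, Units.val_mul, hk, hC', mul_smul_comm, mul_one, smul_smul, pow_succ']
  have hbuild : ∀ l : List Quad, builds l = true → ∀ x ∈ l, ∃ g ∈ H₀,
      (g : Matrix (Fin 2) (Fin 2) (ZMod 59)) = toM x := by
    intro l
    induction l with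
    | nil => simp
    | cons y rest ih =>
      intro hb
      rw [builds, Bool.and_eq_true] at hb
      obtain ⟨h1, h2⟩ := hb
      intro x hx
      rcases List.mem_cons.1 hx with rfl | hx
      · rw [Bool.or_eq_true, List.any_eq_true] at h1
        rcases h1 with h1 | ⟨z, hz, h1⟩
        · rw [beq_iff_eq] at h1
          exact ⟨1, one_mem _, by rw [h1, toM_qI]; rfl⟩
        · obtain ⟨g, hg, hge⟩ := ih h2 z hz
          rw [Bool.or_eq_true, beq_iff_eq, beq_iff_eq] at h1
          rcases h1 with h1 | h1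
          · exact ⟨g * A, mul_mem hg (Subgroup.subset_closure (by simp)), by
              rw [← h1, toM_mulQ, Units.val_mul, hge, hAq]⟩
          · exact ⟨g * B, mul_mem hg (Subgroup.subset_closure (by simp)), by
              rw [← h1, toM_mulQ, Units.val_mul, hge, hBq]⟩
      · exact ih h2 x hx
  have hle : H₀ ≤ H := Subgroup.closure_mono (by
    intro t ht
    rcases ht with rfl | rfl <;> simp)
  have hCH : C ∈ H := Subgroup.subset_closure (by simp)
  choose γ hγ hγe using fun x : elems.toFinset =>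
    hbuild elems elems_builds x.1 (List.mem_toFinset.1 x.2)
  let φ : elems.toFinset × Fin 29 → H := fun xi =>
    ⟨C ^ (xi.2 : ℕ) * γ xi.1, mul_mem (pow_mem hCH _) (hle (hγ xi.1))⟩
  have hφe : ∀ xi, ((φ xi : Matrix.GeneralLinearGroup (Fin 2) (ZMod 59)) : Matrix (Fin 2) (Fin 2) (ZMod 59)) =
      (4 : ZMod 59) ^ (xi.2 : ℕ) • toM xi.1 := by
    intro xi
    show ((C ^ (xi.2 : ℕ) * γ xi.1 : Matrix.GeneralLinearGroup (Fin 2) (ZMod 59)) : Matrix (Fin 2) (Fin 2) (ZMod 59)) = _
    rw [Units.val_mul, hCpow, hγe, smul_mul_assoc, one_mul]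
  have hφbij : Function.Bijective φ := by
    constructor
    · rintro ⟨x, i⟩ ⟨y, j⟩ h
      have h' : C ^ (i : ℕ) * γ x = C ^ (j : ℕ) * γ y := congrArg Subtype.val h
      -- the quotient is a scalar in `H₀`
      obtain ⟨z, hz, hze⟩ := hH₀mem (γ x * (γ y)⁻¹) (mul_mem (hγ x) (inv_mem (hγ y)))
      set k := ((29 - (i : ℕ)) + (j : ℕ)) % 29 with hk
      have hC29 : C ^ 29 = 1 := Units.ext (by rw [hCpow, h4, one_smul]; rfl)
      have he : γ x * (γ y)⁻¹ = C ^ k := by
        rw [hk, ← pow_eq_pow_mod _ hC29, pow_add]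
        apply mul_left_cancel (a := C ^ (i : ℕ))
        rw [← mul_assoc, ← mul_assoc, ← pow_add, h', Nat.add_sub_cancel' (le_of_lt i.2), hC29, one_mul,
          mul_inv_cancel_right]
      rw [he, hCpow] at hze
      have hk29 : k < 29 := Nat.mod_lt _ (by norm_num)
      have hzk : z = (4 ^ k % 59, 0, 0, 4 ^ k % 59) := by
        obtain ⟨z1, z2, z3, z4⟩ := z
        obtain ⟨a1, a2, a3, a4⟩ := elems_reduced _ hz
        have e : ∀ {m n : ℕ}, m < 59 → n < 59 → (m : ZMod 59) = (n : ZMod 59) → m = n := by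
          intro m n hm hn hmn
          have := congrArg ZMod.val hmn
          rwa [ZMod.val_natCast_of_lt hm, ZMod.val_natCast_of_lt hn] at this
        have h00 := congrFun (congrFun hze 0) 0
        have h01 := congrFun (congrFun hze 0) 1
        have h10 := congrFun (congrFun hze 1) 0
        have h11 := congrFun (congrFun hze 1) 1
        simp only [toM, Matrix.smul_apply, Matrix.one_apply_eq, Matrix.of_apply, Matrix.cons_val_zero,
          Matrix.cons_val_one, smul_eq_mul, mul_one, ne_eq, zero_ne_one, not_false_eq_true,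
          Matrix.one_apply_ne, mul_zero, one_ne_zero] at h00 h01 h10 h11
        refine Prod.ext (e a1 (Nat.mod_lt _ (by norm_num)) ?_) (Prod.ext (e a2 (by norm_num) ?_)
          (Prod.ext (e a3 (by norm_num) ?_) (e a4 (Nat.mod_lt _ (by norm_num)) ?_)))
        · rw [ZMod.natCast_mod, Nat.cast_pow]; exact h00.symm
        · rw [Nat.cast_zero]; exact h01.symm
        · rw [Nat.cast_zero]; exact h10.symm
        · rw [ZMod.natCast_mod, Nat.cast_pow]; exact h11.symm
      have hk0 := elems_scalar z hz k (List.mem_range.2 hk29) hzk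
      rw [hk0, pow_zero, mul_inv_eq_one] at he
      have hij : i = j := by
        apply Fin.ext
        rw [hk] at hk0
        have := i.2; have := j.2
        omega
      subst hij
      refine Prod.ext (Subtype.ext (toM_injOn (List.mem_toFinset.1 x.2) (List.mem_toFinset.1 y.2) ?_)) rfl
      rw [← hγe, ← hγe, he]
    · rintro ⟨g, hg⟩
      obtain ⟨x, hx, i, hi, hge⟩ := hHmem g hg
      refine ⟨(⟨x, List.mem_toFinset.2 hx⟩, ⟨i, hi⟩), Subtype.ext (Units.ext ?_)⟩
      rw [hφe, hge]
  have hcard : Nat.card H = 3480 := by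
    rw [← Nat.card_eq_of_bijective φ hφbij, Nat.card_prod, Nat.card_eq_fintype_card, Fintype.card_coe,
      List.toFinset_card_of_nodup elems_nodup, elems_length, Nat.card_fin]
  refine ⟨hcard, ?_⟩
  -- no non-identity element fixes a non-zero vector
  have hfree : ∀ (g : H) (v : Fin 2 → ZMod 59), v ≠ 0 →
      Matrix.mulVec ((g : Matrix.GeneralLinearGroup (Fin 2) (ZMod 59)) : Matrix (Fin 2) (Fin 2) (ZMod 59)) v = v →
      g = 1 := by
    intro g v hv hgv
    obtain ⟨x, hx, i, hi, hge⟩ := hHmem g.1 g.2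
    set M := (4 : ZMod 59) ^ i • toM x with hM
    have hdet : (M - 1).det = 0 := Matrix.exists_mulVec_eq_zero_iff.1
      ⟨v, hv, by rw [Matrix.sub_mulVec, Matrix.one_mulVec, ← hge, hgv, sub_self]⟩
    have h0 : (((4 ^ i * x.1 + 58) * (4 ^ i * x.2.2.2 + 58) +
        58 * (4 ^ i * x.2.1 * (4 ^ i * x.2.2.1)) : ℕ) : ZMod 59) = 0 := by
      rw [Matrix.det_fin_two] at hdet
      simp [hM, toM] at hdet
      push_cast
      rw [h58]
      linear_combination hdet
    rw [ZMod.natCast_eq_zero_iff] at h0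
    obtain ⟨h1, h2⟩ := elems_eigen x hx i (List.mem_range.2 hi) (Nat.mod_eq_zero_of_dvd h0)
    apply Subtype.ext
    apply Units.ext
    rw [hge, hM, h1, h2, pow_zero, one_smul, toM_qI]
    rfl
  intro v w hv hw
  let act : H → {u : Fin 2 → ZMod 59 // u ≠ 0} := fun h =>
    ⟨Matrix.mulVec ((h : Matrix.GeneralLinearGroup (Fin 2) (ZMod 59)) : Matrix (Fin 2) (Fin 2) (ZMod 59)) v, by
      intro h0
      apply hv
      have := congrArg (Matrix.mulVec ((h⁻¹ : H) : Matrix.GeneralLinearGroup (Fin 2) (ZMod 59)).1) h0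
      simpa only [Matrix.mulVec_mulVec, ← Units.val_mul, Subgroup.coe_inv, inv_mul_cancel, Units.val_one,
        Matrix.one_mulVec, Matrix.mulVec_zero] using this⟩
  have hinj : Function.Injective act := by
    intro a b hab
    have h1 := congrArg Subtype.val hab
    have h2 : Matrix.mulVec (((b⁻¹ * a : H) : Matrix.GeneralLinearGroup (Fin 2) (ZMod 59)).1) v = v := by
      have h3 := congrArg (Matrix.mulVec ((b⁻¹ : H) : Matrix.GeneralLinearGroup (Fin 2) (ZMod 59)).1) h1
      simpa only [act, Matrix.mulVec_mulVec, ← Units.val_mul, Subgroup.coe_inv, Subgroup.coe_mul, inv_mul_cancel,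
        Units.val_one, Matrix.one_mulVec] using h3
    exact (inv_mul_eq_one.1 (hfree _ v hv h2)).symm
  have hcard' : Nat.card H = Nat.card {u : Fin 2 → ZMod 59 // u ≠ 0} := by
    rw [hcard, Nat.card_eq_fintype_card, Fintype.card_subtype_compl, Fintype.card_subtype_eq,
      Fintype.card_fun, ZMod.card, Fintype.card_fin]
    rfl
  obtain ⟨h, hh⟩ := ((Nat.bijective_iff_injective_and_card act).2 ⟨hinj, hcard'⟩).2 ⟨w, hw⟩
  refine ⟨h, congrArg Subtype.val hh, fun h' hh' => hinj (Subtype.ext ?_)⟩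
  exact hh'.trans (congrArg Subtype.val hh).symm

end Cfsg.Agent.S0693
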