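import Cfsg.Statements.S0694
import Mathlib

set_option autoImplicit false
set_option linter.style.haveILetI false
open Cfsg

namespace Cfsg.Agent.S0694

/-- `v_2 (q + 1) = 1` for `q ≡ 1 mod 4` -/
theorem v2_succ {q : ℕ} (h : 4 ∣ q - 1) (hq : 1 < q) : padicValNat 2 (q + 1) = 1 := by
  haveI : Fact (Nat.Prime 2) := ⟨Nat.prime_two⟩
  have h1 : 1 ≤ padicValNat 2 (q + 1) := (padicValNat_dvd_iff_le (by omega)).1 (by rw [pow_one]; omega)
  have h2 : ¬ 2 ≤ padicValNat 2 (q + 1) := fun hh => by
    have := (padicValNat_dvd_iff_le (show q + 1 ≠ 0 by omega)).2 hh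
    norm_num at this
    omega
  omega

theorem pow_sub_pos {q i : ℕ} (hq : 1 < q) (hi : i ≠ 0) : q ^ i - 1 ≠ 0 := by
  have := Nat.one_lt_pow hi hq
  omega

/-- lifting the exponent -/
theorem lte {q r : ℕ} [hr : Fact r.Prime] (hq : 1 < q) (hd : r ∣ q - 1) (h4 : r = 2 → 4 ∣ q - 1) {i : ℕ} (hi : i ≠ 0) :
    padicValNat r (q ^ i - 1) = padicValNat r (q - 1) + padicValNat r i := by
  have hnd : ¬ r ∣ q := fun h => by
    have := Nat.dvd_sub h hd
    rw [show q - (q - 1) = 1 by omega] at this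
    exact hr.out.not_dvd_one this
  rcases hr.out.eq_two_or_odd' with rfl | hodd
  · have e := v2_succ (h4 rfl) hq
    rcases Nat.even_or_odd i with he | ho
    · have := padicValNat.pow_two_sub_one hq hnd hi he
      omega
    · have h2 := padicValNat.pow_two_sub_one hq hnd (show 2 * i ≠ 0 by omega) (even_two_mul i)
      have hsplit : q ^ (2 * i) - 1 = (q ^ i + 1) * (q ^ i - 1) := by
        rw [← Nat.sq_sub_sq, one_pow, ← pow_mul, mul_comm i 2]
      have h4i : 4 ∣ q ^ i - 1 := (h4 rfl).trans (Nat.sub_dvd_pow_sub_pow q 1 i |>.trans (by rw [one_pow]))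
      rw [hsplit, padicValNat.mul (by omega) (pow_sub_pos hq hi),
        v2_succ h4i (Nat.one_lt_pow hi hq), padicValNat.mul (by norm_num) hi, padicValNat.self (by norm_num)] at h2
      omega
  · have := padicValNat.pow_sub_pow hodd (y := 1) hq hd hnd hi
    rwa [one_pow] at this


/-- The Dickson pair condition: for a prime power `q` and `n > 1`, (every prime factor of `n` divides `q - 1`, and `4 ∣ n → 4 ∣ q - 1`) holds exactly when `q ^ n ≡ 1` modulo `n * (q - 1)` but `q ^ i` is not, for `0 < i < n`. -/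
theorem result (q n : ℕ) (hq : IsPrimePow q) (hn : 1 < n) : ((∀ r : ℕ, r.Prime → r ∣ n → r ∣ q - 1) ∧ (4 ∣ n → 4 ∣ q - 1)) ↔ (q ^ n ≡ 1 [MOD n * (q - 1)] ∧ ∀ i : ℕ, 0 < i → i < n → ¬ q ^ i ≡ 1 [MOD n * (q - 1)]) := by
  have hq1 : 1 < q := hq.one_lt
  have hM : n * (q - 1) ≠ 0 := Nat.mul_ne_zero (by omega) (by omega)
  have hmod : ∀ i, q ^ i ≡ 1 [MOD n * (q - 1)] ↔ n * (q - 1) ∣ q ^ i - 1 := fun i =>
    ⟨fun h => (Nat.modEq_iff_dvd' (Nat.one_le_pow _ _ (by omega))).1 h.symm,
      fun h => ((Nat.modEq_iff_dvd' (Nat.one_le_pow _ _ (by omega))).2 h).symm⟩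
  simp only [hmod]
  constructor
  · rintro ⟨hprimes, h4⟩
    refine ⟨?_, fun i hi hin hdiv => ?_⟩
    · rw [Nat.dvd_iff_prime_pow_dvd_dvd]
      intro r k hr hk
      haveI : Fact r.Prime := ⟨hr⟩
      rw [padicValNat_dvd_iff_le hM, padicValNat.mul (by omega) (by omega)] at hk
      rw [padicValNat_dvd_iff_le (pow_sub_pos hq1 (by omega))]
      by_cases hrn : r ∣ n
      · by_cases hok : r = 2 → 4 ∣ q - 1
        · rw [lte hq1 (hprimes r hr hrn) hok (by omega)]; omega
        · push Not at hok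
          obtain ⟨rfl, hq4⟩ := hok
          have hd := hprimes 2 hr hrn
          have hnd : ¬ 2 ∣ q := by omega
          have h := padicValNat.pow_two_sub_one hq1 hnd (show n ≠ 0 by omega) (even_iff_two_dvd.2 hrn)
          have : 1 ≤ padicValNat 2 (q + 1) := (padicValNat_dvd_iff_le (by omega)).1 (by rw [pow_one]; omega)
          omega
      · rw [padicValNat.eq_zero_of_not_dvd hrn, zero_add] at hk
        exact hk.trans ((padicValNat_dvd_iff_le (pow_sub_pos hq1 (by omega))).1
          ((pow_padicValNat_dvd).trans (by simpa using Nat.sub_dvd_pow_sub_pow q 1 n)))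
    · have hni : n ∣ i := by
        rw [Nat.dvd_iff_prime_pow_dvd_dvd]
        intro r k hr hk
        haveI : Fact r.Prime := ⟨hr⟩
        rw [padicValNat_dvd_iff_le (by omega)] at hk ⊢
        rcases Nat.eq_zero_or_pos k with rfl | hk0
        · exact Nat.zero_le _
        have hrn : r ∣ n := dvd_of_one_le_padicValNat (by omega)
        have hd := hprimes r hr hrn
        have hb : padicValNat r n + padicValNat r (q - 1) ≤ padicValNat r (q ^ i - 1) := by
          rw [← padicValNat.mul (by omega) (by omega)]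
          exact (padicValNat_dvd_iff_le (pow_sub_pos hq1 (by omega))).1 (pow_padicValNat_dvd.trans hdiv)
        by_cases hok : r = 2 → 4 ∣ q - 1
        · rw [lte hq1 hd hok (by omega)] at hb; omega
        · push Not at hok
          obtain ⟨rfl, hq4⟩ := hok
          have hv : padicValNat 2 n ≤ 1 := by
            by_contra hv
            exact hq4 (h4 (by simpa using (padicValNat_dvd_iff_le (show n ≠ 0 by omega)).2 (show 2 ≤ padicValNat 2 n by omega)))
          have h1 : 1 ≤ padicValNat 2 (q - 1) := (padicValNat_dvd_iff_le (by omega)).1 (by rwa [pow_one])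
          rcases Nat.even_or_odd i with he | ho
          · have := (padicValNat_dvd_iff_le (show i ≠ 0 by omega)).1 (show 2 ^ 1 ∣ i by rw [pow_one]; exact even_iff_two_dvd.1 he)
            omega
          · exfalso
            have h4d : 2 ^ 2 ∣ q ^ i - 1 := (padicValNat_dvd_iff_le (pow_sub_pos hq1 (by omega))).2 (by omega)
            obtain ⟨j, rfl⟩ := ho
            have hq3 : q % 4 = 3 := by omega
            have : q ^ (2 * j + 1) % 4 = 3 := by
              rw [Nat.pow_mod, hq3, pow_succ, pow_mul, Nat.mul_mod, Nat.pow_mod]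
              norm_num
            norm_num at h4d
            omega
      have := Nat.le_of_dvd hi hni
      omega
  · rintro ⟨hdiv, hmin⟩
    have hqpos : ∀ r : ℕ, r.Prime → r ∣ n → ¬ r ∣ q := fun r hr hrn hrq => by
      have h1 : r ∣ q ^ n - 1 := (hrn.trans (Dvd.intro _ rfl)).trans hdiv
      have h2 := Nat.dvd_sub (dvd_pow hrq (show n ≠ 0 by omega)) h1
      rw [show q ^ n - (q ^ n - 1) = 1 by have := Nat.one_le_pow n q (by omega); omega] at h2
      exact hr.not_dvd_one h2
    -- a component bound that misses the full power of `r` contradicts minimality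
    have key : ∀ r : ℕ, r.Prime → r ∣ n →
        (∀ s k : ℕ, s.Prime → s ^ k ∣ n * (q - 1) → ∃ B, s ^ k ∣ q ^ B - 1 ∧ Nat.gcd n B ∣ n / r) → False := by
      intro r hr hrn hcomp
      refine hmin (n / r) (Nat.div_pos (Nat.le_of_dvd (by omega) hrn) hr.pos) (Nat.div_lt_self (by omega) hr.one_lt) ?_
      rw [Nat.dvd_iff_prime_pow_dvd_dvd]
      intro s k hs hk
      obtain ⟨B, hB, hg⟩ := hcomp s k hs hk
      have h := Nat.dvd_gcd (hk.trans hdiv) hB
      rw [Nat.pow_sub_one_gcd_pow_sub_one] at h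
      exact h.trans (Nat.pow_sub_one_dvd_pow_sub_one _ hg)
    have hgcd : ∀ r : ℕ, r.Prime → r ∣ n → ∀ B : ℕ, ¬ r ^ padicValNat r n ∣ B → Nat.gcd n B ∣ n / r := by
      intro r hr hrn B hB
      haveI : Fact r.Prime := ⟨hr⟩
      rw [Nat.dvd_div_iff_mul_dvd hrn]
      have hg : Nat.gcd n B ∣ n := Nat.gcd_dvd_left _ _
      obtain ⟨c, hc⟩ := hg
      have hrc : r ∣ c := by
        by_contra hrc
        refine hB (dvd_trans ?_ (Nat.gcd_dvd_right n B))
        refine (Nat.Coprime.pow_left _ ((Nat.Prime.coprime_iff_not_dvd hr).2 hrc)).dvd_of_dvd_mul_right (n := c) ?_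
        rw [← hc]; exact pow_padicValNat_dvd
      calc r * Nat.gcd n B ∣ c * Nat.gcd n B := Nat.mul_dvd_mul_right hrc _
        _ = n := by rw [mul_comm]; exact hc.symm
    have hsP : ∀ s k : ℕ, s.Prime → s ∣ q - 1 → s ^ k ∣ q ^ (s ^ k) - 1 := by
      intro s k hs hd
      rcases Nat.eq_zero_or_pos k with rfl | hk0
      · simp
      have h : ((s : ℤ) ^ (k + 1)) ∣ (q : ℤ) ^ (s ^ k) - 1 ^ (s ^ k) := dvd_sub_pow_of_dvd_sub (by
        obtain ⟨t, ht⟩ := hd
        exact ⟨(t : ℤ), by rw [← Int.natCast_mul, ← ht, Nat.cast_sub (by omega)]; simp⟩) k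
      rw [one_pow] at h
      have h' : s ^ (k + 1) ∣ q ^ (s ^ k) - 1 := by
        rw [← Int.natCast_dvd_natCast, Nat.cast_sub (Nat.one_le_pow _ _ (by omega))]
        exact_mod_cast h
      exact (pow_dvd_pow s (Nat.le_succ k)).trans h'
    have hprimes : ∀ r : ℕ, r.Prime → r ∣ n → r ∣ q - 1 := by
      by_contra hno
      push Not at hno
      obtain ⟨r0, hr0, hr0n, hr0q⟩ := hno
      set S := n.primeFactors.filter fun r => ¬ r ∣ q - 1
      have hS : S.Nonempty := ⟨r0, Finset.mem_filter.2 ⟨Nat.mem_primeFactors.2 ⟨hr0, hr0n, by omega⟩, hr0q⟩⟩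
      obtain ⟨hrS, hmax⟩ : S.max' hS ∈ S ∧ ∀ s ∈ S, s ≤ S.max' hS := ⟨S.max'_mem hS, fun s hs => S.le_max' s hs⟩
      set r := S.max' hS
      obtain ⟨hrmem, hrq⟩ := Finset.mem_filter.1 hrS
      obtain ⟨hr, hrn, -⟩ := Nat.mem_primeFactors.1 hrmem
      haveI : Fact r.Prime := ⟨hr⟩
      refine key r hr hrn fun s k hs hk => ?_
      rcases Nat.eq_zero_or_pos k with rfl | hk0
      · exact ⟨1, by simp, by simp⟩
      by_cases hsq : s ∣ q - 1
      · refine ⟨s ^ k, hsP s k hs hsq, hgcd r hr hrn _ fun h => hrq ?_⟩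
        have : r ∣ s := hr.dvd_of_dvd_pow ((dvd_pow_self r (one_le_padicValNat_of_dvd (by omega) hrn |> fun h => by omega)).trans h)
        rwa [(Nat.prime_dvd_prime_iff_eq hr hs).1 this]
      · have hsn : s ^ k ∣ n := (Nat.Coprime.pow_left k ((Nat.Prime.coprime_iff_not_dvd hs).2 hsq)).dvd_of_dvd_mul_right hk
        have hsn1 : s ∣ n := (dvd_pow_self s (by omega)).trans hsn
        have hsr : s ≤ r := hmax s (Finset.mem_filter.2 ⟨Nat.mem_primeFactors.2 ⟨hs, hsn1, by omega⟩, hsq⟩)
        have hcop : Nat.Coprime q (s ^ k) := Nat.Coprime.pow_right _ (((Nat.Prime.coprime_iff_not_dvd hs).2 (hqpos s hs hsn1)).symm)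
        refine ⟨Nat.totient (s ^ k), (Nat.modEq_iff_dvd' (Nat.one_le_pow _ _ (by omega))).1 (Nat.ModEq.pow_totient hcop).symm,
          hgcd r hr hrn _ ?_⟩
        rw [Nat.totient_prime_pow hs hk0]
        intro h
        have hcop' : Nat.Coprime (r ^ padicValNat r n) (s - 1) :=
          Nat.Coprime.pow_left _ ((Nat.Prime.coprime_iff_not_dvd hr).2 fun hh => by
            have := Nat.le_of_dvd (show 0 < s - 1 by have := hs.two_le; omega) hh
            have := hs.two_le
            omega)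
        have h' := hcop'.dvd_of_dvd_mul_right h
        rcases eq_or_ne s r with heq | hne
        · rw [heq] at h' hsn
          have hk' : k ≤ padicValNat r n := (padicValNat_dvd_iff_le (by omega)).1 hsn
          have := (Nat.pow_dvd_pow_iff_le_right hr.one_lt).1 h'
          omega
        · have : r ∣ s := hr.dvd_of_dvd_pow ((dvd_pow_self r (one_le_padicValNat_of_dvd (by omega) hrn |> fun h => by omega)).trans h')
          exact hne ((Nat.prime_dvd_prime_iff_eq hr hs).1 this).symm
    refine ⟨hprimes, fun h4n => ?_⟩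
    by_contra hq4
    haveI : Fact (Nat.Prime 2) := ⟨Nat.prime_two⟩
    have h2n : 2 ∣ n := (by norm_num : (2 : ℕ) ∣ 4).trans h4n
    have hq2 := hprimes 2 Nat.prime_two h2n
    have he : 2 ≤ padicValNat 2 n := (padicValNat_dvd_iff_le (by omega)).1 (by simpa using h4n)
    refine key 2 Nat.prime_two h2n fun s k hs hk => ?_
    rcases eq_or_ne s 2 with rfl | hs2
    · refine ⟨2 ^ (padicValNat 2 n - 1), ?_, hgcd 2 Nat.prime_two h2n _ fun h => by
        have := (Nat.pow_dvd_pow_iff_le_right (by norm_num : 1 < 2)).1 h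
        omega⟩
      rw [padicValNat_dvd_iff_le hM, padicValNat.mul (by omega) (by omega)] at hk
      have h1 : padicValNat 2 (q - 1) ≤ 1 := by
        by_contra hh
        exact hq4 (by simpa using (padicValNat_dvd_iff_le (show q - 1 ≠ 0 by omega)).2 (show 2 ≤ padicValNat 2 (q - 1) by omega))
      rw [padicValNat_dvd_iff_le (pow_sub_pos hq1 (by positivity))]
      have := padicValNat.pow_two_sub_one_ge hq1 (show ¬ 2 ∣ q by omega) (show 2 ^ (padicValNat 2 n - 1) ≠ 0 by positivity)
        (Nat.even_pow.2 ⟨even_two, by omega⟩)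
      rw [padicValNat.prime_pow] at this
      omega
    · have hsq : k = 0 ∨ s ∣ q - 1 := by
        rcases Nat.eq_zero_or_pos k with h | h
        · exact Or.inl h
        · rcases hs.dvd_mul.1 ((dvd_pow_self s (by omega)).trans hk) with h' | h'
          · exact Or.inr (hprimes s hs h')
          · exact Or.inr h'
      rcases hsq with rfl | hsq
      · exact ⟨1, by simp, by simp⟩
      refine ⟨s ^ k, hsP s k hs hsq, hgcd 2 Nat.prime_two h2n _ fun h => hs2 ?_⟩
      exact ((Nat.prime_dvd_prime_iff_eq Nat.prime_two hs).1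
        (Nat.prime_two.dvd_of_dvd_pow ((dvd_pow_self 2 (by omega)).trans h))).symm

end Cfsg.Agent.S0694
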