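import Cfsg.Statements.S0696
import Cfsg.Agent.Lib.Perm.RegularNormal

set_option autoImplicit false
open Cfsg

namespace Cfsg.Agent.S0696

/-- A triply primitive group of degree at least 3 having a regular normal subgroup has degree 3 or 4. -/
theorem result {G : Type*} [Group G] {X : Type*} [Fintype X] [MulAction G X] (hX : 3 ≤ Fintype.card X) (h3 : MulAction.IsMultiplyPreprimitive G X 3) (N : Subgroup G) [N.Normal] (htrans : MulAction.IsPretransitive N X) (hreg : ∀ x : X, MulAction.stabilizer N x = ⊥) : Fintype.card X = 3 ∨ Fintype.card X = 4 := by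
  classical
  have h2 : MulAction.IsMultiplyPreprimitive G X 2 :=
    MulAction.isMultiplyPreprimitive_of_le G X h3 (by norm_num)
      (by rw [ENat.card_eq_coe_fintype_card]; exact_mod_cast hX)
  rcases CfsgLib.Perm.regular_normal_doubly_primitive (by omega) h2 htrans hreg with
    h | ⟨hcomm, hsq, -⟩
  · exact Or.inl h
  by_cases hc3 : Fintype.card X = 3
  · exact Or.inl hc3
  right
  have hinv : ∀ x ∈ N, x⁻¹ = x := fun x hx =>
    inv_eq_of_mul_eq_one_right (by rw [← sq]; exact hsq x hx)
  obtain ⟨a⟩ : Nonempty X := Fintype.card_pos_iff.1 (by omega)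
  obtain ⟨b, hba⟩ := Fintype.exists_ne_of_one_lt_card (by omega) a
  obtain ⟨⟨n₀, hn₀⟩, hb⟩ := htrans.exists_smul_eq a b
  change n₀ • a = b at hb
  have hs : ({a, b} : Set X).encard + 1 = (3 : ℕ) := by
    rw [Set.encard_pair hba.symm]; norm_num
  haveI := h3
  have hprim := MulAction.IsMultiplyPreprimitive.isPreprimitive_ofFixingSubgroup G 3 hs
  obtain ⟨c, hca, hcb⟩ : ∃ c, c ≠ a ∧ c ≠ b := by
    by_contra hall
    push Not at hall
    have hsub : (Finset.univ : Finset X) ⊆ {a, b} := fun x _ => by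
      by_cases hx : x = a
      · simp [hx]
      · simp [hall x hx]
    have := Finset.card_le_card hsub
    rw [Finset.card_univ, Finset.card_pair hba.symm] at this
    omega
  obtain ⟨⟨n, hn⟩, hc⟩ := htrans.exists_smul_eq a c
  change n • a = c at hc
  have hnn₀ : n * n₀ ∈ N := mul_mem hn hn₀
  let d := (n * n₀) • a
  have hn₀1 : n₀ ≠ 1 := fun h => hba (by rw [← hb, h, one_smul])
  have hn1 : n ≠ 1 := fun h => hca (by rw [← hc, h, one_smul])
  have hne : n ≠ n₀ := fun h => hcb (by rw [← hb, ← hc, h])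
  have hda : d ≠ a := fun h => hne (by
    have := CfsgLib.Perm.regular_inj hreg hnn₀ N.one_mem (h.trans (one_smul G a).symm)
    rw [mul_eq_one_iff_eq_inv, hinv n₀ hn₀] at this
    exact this)
  have hdb : d ≠ b := fun h => hn1 (by
    have := CfsgLib.Perm.regular_inj hreg hnn₀ hn₀ (h.trans hb.symm)
    simpa using this)
  have hdc : c ≠ d := fun h => hn₀1 (by
    have := CfsgLib.Perm.regular_inj hreg hn hnn₀ (hc.trans h)
    simpa using this.symm)
  have hmemC : ∀ x : X, x ≠ a → x ≠ b → x ∉ ({a, b} : Set X) := fun x h1 h2 h => by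
    rcases h with h | h
    exacts [h1 h, h2 h]
  let B : Set (SubMulAction.ofFixingSubgroup G ({a, b} : Set X)) :=
    {x | (x : X) = c ∨ (x : X) = d}
  have hB : MulAction.IsBlock (fixingSubgroup G ({a, b} : Set X)) B := by
    rw [MulAction.isBlock_iff_smul_eq_of_nonempty]
    rintro ⟨g, hg⟩ ⟨z, ⟨y, hy, rfl⟩, hz⟩
    have hga : g • a = a := (mem_fixingSubgroup_iff G).1 hg a (Or.inl rfl)
    have hgb : g • b = b := (mem_fixingSubgroup_iff G).1 hg b (Or.inr rfl)
    have hm : g * n * g⁻¹ ∈ N := ‹N.Normal›.conj_mem n hn g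
    have hcn₀ : g * n₀ * g⁻¹ = n₀ := CfsgLib.Perm.regular_inj hreg
      (‹N.Normal›.conj_mem n₀ hn₀ g) hn₀
      (by rw [← CfsgLib.Perm.smul_smul_eq_conj hga, hb, hgb])
    have e1 : g • c = (g * n * g⁻¹) • a := by
      rw [← hc, CfsgLib.Perm.smul_smul_eq_conj hga]
    have e2 : g • d = (g * n * g⁻¹ * n₀) • a := by
      rw [show g • d = (g * (n * n₀) * g⁻¹) • a from CfsgLib.Perm.smul_smul_eq_conj hga]
      congr 1
      nth_rewrite 2 [← hcn₀]
      group
    have hn₀₂ : n₀ * n₀ = 1 := by rw [← sq]; exact hsq n₀ hn₀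
    have hz' : g • (y : X) = c ∨ g • (y : X) = d := hz
    have hcases : g * n * g⁻¹ = n ∨ g * n * g⁻¹ = n * n₀ := by
      rcases hy with hy | hy <;> rw [hy] at hz'
      · rw [e1, ← hc] at hz'
        exact hz'.imp (CfsgLib.Perm.regular_inj hreg hm hn)
          (CfsgLib.Perm.regular_inj hreg hm hnn₀)
      · rw [e2, ← hc] at hz'
        rcases hz' with h | h
        · right
          calc g * n * g⁻¹ = g * n * g⁻¹ * n₀ * n₀ := by rw [mul_assoc _ n₀ n₀, hn₀₂, mul_one]
            _ = n * n₀ := by rw [CfsgLib.Perm.regular_inj hreg (mul_mem hm hn₀) hn h]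
        · left
          exact mul_right_cancel (CfsgLib.Perm.regular_inj hreg (mul_mem hm hn₀) hnn₀ h)
    have him : ∀ w : X, g • w = c ∨ g • w = d ↔ w = c ∨ w = d := by
      intro w
      have key : ∀ {p q : X}, g • p = q → (g • w = q ↔ w = p) := fun hpq =>
        ⟨fun h => MulAction.injective g (h.trans hpq.symm), fun h => by rw [h, hpq]⟩
      rcases hcases with h | h <;> rw [h] at e1 e2
      · rw [hc] at e1
        exact or_congr (key e1) (key e2)
      · rw [mul_assoc, hn₀₂, mul_one, hc] at e2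
        exact (or_congr (key e2) (key e1)).trans or_comm
    ext w
    rw [Set.mem_smul_set_iff_inv_smul_mem]
    have := him (((⟨g, hg⟩ : fixingSubgroup G ({a, b} : Set X))⁻¹ • w :
      SubMulAction.ofFixingSubgroup G ({a, b} : Set X)) : X)
    rw [show g • (((⟨g, hg⟩ : fixingSubgroup G ({a, b} : Set X))⁻¹ • w :
      SubMulAction.ofFixingSubgroup G ({a, b} : Set X)) : X) = (w : X) from
      smul_inv_smul g (w : X)] at this
    exact this.symm
  rcases hprim.isTrivialBlock_of_isBlock hB with h | h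
  · exact absurd (congrArg Subtype.val (h (x := ⟨c, hmemC c hca hcb⟩) (Or.inl rfl)
      (y := ⟨d, hmemC d hda hdb⟩) (Or.inr rfl))) hdc
  · have huniv : (Finset.univ : Finset X) = {a, b, c, d} := by
      ext x
      simp only [Finset.mem_univ, Finset.mem_insert, Finset.mem_singleton, true_iff]
      by_cases hxa : x = a
      · exact Or.inl hxa
      by_cases hxb : x = b
      · exact Or.inr (Or.inl hxb)
      exact Or.inr (Or.inr (Set.eq_univ_iff_forall.1 h ⟨x, hmemC x hxa hxb⟩))
    rw [← Finset.card_univ, huniv, Finset.card_insert_of_notMem, Finset.card_insert_of_notMem,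
      Finset.card_pair hdc]
    · simp [hcb.symm, hdb.symm]
    · simp [hba.symm, hca.symm, hda.symm]

end Cfsg.Agent.S0696
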