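import Cfsg.Statements.S0697
import Mathlib
import Cfsg.Agent.Lib.Perm.JordanNormal

set_option autoImplicit false
open Cfsg

namespace Cfsg.Agent.S0697

/-- In a `k`-primitive permutation group which is not the whole symmetric group, a non-trivial non-regular normal subgroup is `k`-transitive. -/
theorem result {α : Type*} [Fintype α] [DecidableEq α] (G : Subgroup (Equiv.Perm α)) {k : ℕ} (hk : 1 ≤ k) (hkn : k ≤ Fintype.card α) (hG : MulAction.IsMultiplyPreprimitive G α k) (htop : G ≠ ⊤) (H : Subgroup G) [H.Normal] (hH : H ≠ ⊥) (hnr : ∃ a : α, MulAction.stabilizer H a ≠ ⊥) : MulAction.IsMultiplyPretransitive H α k := by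
  obtain ⟨a, ha⟩ := hnr
  refine CfsgLib.Perm.normal_multiply_transitive k hk G α H ?_ hG hH fun _ => ⟨a, ha⟩
  by_contra hlt
  push Not at hlt
  rw [Nat.card_eq_fintype_card] at hlt
  haveI := hG
  have hsurj := CfsgLib.Perm.surjective_of_multiply_transitive (G := G) (α := α) (j := k)
    (by rw [Nat.card_eq_fintype_card]; omega) (by rw [Nat.card_eq_fintype_card]; exact hkn)
    (MulAction.IsMultiplyPreprimitive.isMultiplyPretransitive G α k)
  refine htop ((Subgroup.eq_top_iff' G).2 fun σ => ?_)
  obtain ⟨g, hg⟩ := hsurj σ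
  have h1 : (g : Equiv.Perm α) = σ := by rw [← hg]; ext x; rfl
  exact h1 ▸ g.2

end Cfsg.Agent.S0697
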