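import Cfsg.Statements.S0698
import Mathlib
import Cfsg.Agent.Lib.Perm.JordanNormal

set_option autoImplicit false
open Cfsg

namespace Cfsg.Agent.S0698

/-- Jordan's Theorem on normal subgroups of multiply transitive groups: if `G` is `k`-transitive (`k > 1`) of degree greater than `k`, a non-trivial normal subgroup is `(k-1)`-transitive, except possibly for `k = 3` when it may be an elementary abelian 2-group. -/
theorem result {α : Type*} [Fintype α] [DecidableEq α] (G : Subgroup (Equiv.Perm α)) {k : ℕ} (hk : 1 < k) (hdeg : k < Fintype.card α) (hG : MulAction.IsMultiplyPretransitive G α k) (N : Subgroup G) [N.Normal] (hN : N ≠ ⊥) : MulAction.IsMultiplyPretransitive N α (k - 1) ∨ (k = 3 ∧ IsMulCommutative N ∧ ∀ n ∈ N, n ^ 2 = 1) := by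
  classical
  obtain ⟨j, rfl⟩ : ∃ j, k = j + 1 := ⟨k - 1, by omega⟩
  haveI := hG
  have hP : MulAction.IsMultiplyPreprimitive G α j :=
    MulAction.isMultiplyPreprimitive_of_isMultiplyPretransitive_succ G α
      (by rw [ENat.card_eq_coe_fintype_card]; exact_mod_cast hdeg.le)
  rw [Nat.add_sub_cancel]
  by_cases hreg : 2 ≤ j ∧ ∀ a : α, MulAction.stabilizer N a = ⊥
  · right
    obtain ⟨hj, hreg⟩ := hreg
    have h2 : MulAction.IsMultiplyPreprimitive G α 2 :=
      MulAction.isMultiplyPreprimitive_of_le G α hP hj
        (by rw [ENat.card_eq_coe_fintype_card]; exact_mod_cast (by omega : j ≤ Fintype.card α))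
    haveI : MulAction.IsPreprimitive G α := (MulAction.is_one_preprimitive_iff G α).1
      (MulAction.isMultiplyPreprimitive_of_le G α h2 (by norm_num)
        (by rw [ENat.card_eq_coe_fintype_card]; exact_mod_cast (by omega : 2 ≤ Fintype.card α)))
    have htr := CfsgLib.Perm.isPretransitive_of_normal (α := α) hN
    rcases CfsgLib.Perm.regular_normal_doubly_primitive (by omega) h2 htr hreg with h | ⟨hc, hsq, -⟩
    · omega
    refine ⟨?_, hc, hsq⟩
    by_contra hk3
    have h3 : MulAction.IsMultiplyPreprimitive G α 3 :=
      MulAction.isMultiplyPreprimitive_of_le G α hP (by omega)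
        (by rw [ENat.card_eq_coe_fintype_card]; exact_mod_cast (by omega : j ≤ Fintype.card α))
    rcases CfsgLib.Perm.regular_normal_triply_primitive (by omega) h3 htr hreg with h | h <;> omega
  · left
    refine CfsgLib.Perm.normal_multiply_transitive j (by omega) G α N
      (by rw [Nat.card_eq_fintype_card]; omega) hP hN fun hj => ?_
    by_contra h
    push Not at h
    exact hreg ⟨hj, h⟩

end Cfsg.Agent.S0698
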