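import Cfsg.Statements.S0699
import Mathlib
import Cfsg.Agent.S0698
import Cfsg.Agent.Lib.Perm.JordanNormal
import Cfsg.Agent.Lib.StronglyEmbedded2

set_option autoImplicit false
open Cfsg

namespace Cfsg.Agent.S0699

/-- Wagner's Theorem: a non-trivial normal subgroup of a triply transitive permutation group of odd degree at least 5 is triply transitive. -/
theorem result {α : Type*} [Fintype α] [DecidableEq α] (G : Subgroup (Equiv.Perm α)) (hodd : Odd (Fintype.card α)) (h5 : 5 ≤ Fintype.card α) (hG : MulAction.IsMultiplyPretransitive G α 3) (N : Subgroup G) [N.Normal] (hN : N ≠ ⊥) : MulAction.IsMultiplyPretransitive N α 3 := by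
  classical
  haveI hG3 := hG
  have hn : Fintype.card α = Nat.card α := Nat.card_eq_fintype_card.symm
  haveI hG2 : MulAction.IsMultiplyPretransitive G α 2 :=
    MulAction.isMultiplyPretransitive_of_le (n := 3) (by norm_num) (by rw [← hn]; omega)
  haveI hprim : MulAction.IsPreprimitive G α := MulAction.isPreprimitive_of_is_two_pretransitive hG2
  haveI hNt : MulAction.IsPretransitive N α := CfsgLib.Perm.isPretransitive_of_normal hN
  have hN2 : MulAction.IsMultiplyPretransitive N α 2 := by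
    rcases Cfsg.Agent.S0698.result G (by norm_num : 1 < 3) (by omega) hG N hN with h | ⟨-, -, hsq⟩
    · exact h
    · exfalso
      obtain ⟨a⟩ : Nonempty α := Fintype.card_pos_iff.1 (by omega)
      haveI : Fact (Nat.Prime 2) := ⟨Nat.prime_two⟩
      have hp : IsPGroup 2 N := fun z => ⟨1, Subtype.ext (by simpa using hsq z z.2)⟩
      obtain ⟨k, hk⟩ := IsPGroup.iff_card.1 hp
      have h1 := MulAction.index_stabilizer_of_transitive N a
      have h2 : Nat.card α ∣ 2 ^ k := hk ▸ h1 ▸ Subgroup.index_dvd_card _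
      obtain ⟨i, -, hi⟩ := (Nat.dvd_prime_pow Nat.prime_two).1 h2
      rw [← hn] at hi
      rw [hi] at hodd h5
      rcases i with _ | i
      · simp at h5
      · exact absurd hodd (by simp [pow_succ, parity_simps])
  have htwo : ∀ a b c d : α, a ≠ b → c ≠ d → ∃ g ∈ N, g • a = c ∧ g • b = d := by
    intro a b c d hab hcd
    obtain ⟨⟨g, hg⟩, h1, h2⟩ := (MulAction.is_two_pretransitive_iff (G := N) (α := α)).1 hN2 hab hcd
    exact ⟨g, hg, h1, h2⟩
  -- two points of a triple can be interchanged by `N` fixing the third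
  have hswap : ∀ a b c : α, a ≠ b → a ≠ c → b ≠ c → ∃ g ∈ N, g • a = a ∧ g • b = c ∧ g • c = b := by
    obtain ⟨x, y, hxy⟩ : ∃ x y : α, x ≠ y := Fintype.one_lt_card_iff.1 (by omega)
    obtain ⟨g, hg, hgx, hgy⟩ := htwo x y y x hxy hxy.symm
    have hodd_pow : ∀ i : ℕ, g ^ (2 * i + 1) • x = y := by
      intro i
      induction i with
      | zero => simpa using hgx
      | succ i ih => rw [show 2 * (i + 1) + 1 = 2 + (2 * i + 1) by ring, pow_add, mul_smul, ih, sq,
          mul_smul, hgy, hgx]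
    have heven : 2 ∣ orderOf g := by
      by_contra h
      obtain ⟨i, hi⟩ := Nat.not_even_iff_odd.1 (fun he => h (even_iff_two_dvd.1 he))
      have := hodd_pow i
      rw [← hi, pow_orderOf_eq_one, one_smul] at this
      exact hxy this
    obtain ⟨m, hm⟩ := heven
    set t := g ^ m with ht
    have hm0 : 0 < m := by
      rcases Nat.eq_zero_or_pos m with h | h
      · rw [h, mul_zero] at hm; exact absurd hm (orderOf_pos g).ne'
      · exact h
    have hto : orderOf t = 2 := by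
      rw [ht, orderOf_pow_of_dvd hm0.ne' (hm ▸ dvd_mul_left m 2), hm, Nat.mul_div_cancel _ hm0]
    have htt : ∀ z : α, t • t • z = z := fun z => by
      rw [smul_smul, CfsgLib.Involution.mul_self hto, one_smul]
    let σ : Equiv.Perm α := (t : Equiv.Perm α)
    have hσ : σ ^ 2 ^ 1 = 1 := by
      rw [pow_one, sq, ← Subgroup.coe_mul, CfsgLib.Involution.mul_self hto, Subgroup.coe_one]
    have hmod := Equiv.Perm.card_compl_support_modEq (p := 2) hσ
    obtain ⟨c₀, hc₀⟩ : ∃ c₀, t • c₀ = c₀ := by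
      refine Classical.byContradiction fun h => ?_
      push Not at h
      have h0 : σ.supportᶜ = ∅ := by
        ext z
        simp [σ]
        exact h z
      rw [h0, Finset.card_empty, Nat.ModEq] at hmod
      rw [Nat.odd_iff] at hodd
      omega
    obtain ⟨p, hp⟩ : ∃ p, t • p ≠ p := by
      refine Classical.byContradiction fun h => ?_
      push Not at h
      exact CfsgLib.Involution.ne_one hto (Subtype.ext (Equiv.ext h))
    intro a b c hab hac hbc
    have hinj1 : Function.Injective ![c₀, p, t • p] := by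
      have h1 : c₀ ≠ p := fun e => hp (by rw [← e]; exact hc₀)
      have h2 : c₀ ≠ t • p := fun e => h1 (MulAction.injective t (hc₀.trans e))
      intro i j h
      fin_cases i <;> fin_cases j <;> first | rfl | (exfalso; simp at h; first | exact h1 h | exact h1 h.symm | exact h2 h | exact h2 h.symm | exact hp h | exact hp h.symm)
    have hinj2 : Function.Injective ![a, b, c] := by
      intro i j h
      fin_cases i <;> fin_cases j <;> first | rfl | (exfalso; simp at h; first | exact hab h | exact hab h.symm | exact hac h | exact hac h.symm | exact hbc h | exact hbc h.symm)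
    obtain ⟨k, hk⟩ := hG.exists_smul_eq ⟨_, hinj1⟩ ⟨_, hinj2⟩
    have hka : k • c₀ = a := congrArg (fun f : Fin 3 ↪ α => f 0) hk
    have hkb : k • p = b := congrArg (fun f : Fin 3 ↪ α => f 1) hk
    have hkc : k • t • p = c := congrArg (fun f : Fin 3 ↪ α => f 2) hk
    refine ⟨k * t * k⁻¹, ‹N.Normal›.conj_mem t (N.pow_mem hg m) k, ?_, ?_, ?_⟩
    · rw [← hka, mul_smul, inv_smul_smul, mul_smul, hc₀]
    · rw [← hkb, ← hkc, mul_smul, inv_smul_smul, mul_smul]
    · rw [← hkb, ← hkc, mul_smul, inv_smul_smul, mul_smul, htt]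
  let P : α → α → Subgroup G := fun x y => N ⊓ MulAction.stabilizer G x ⊓ MulAction.stabilizer G y
  have hPmem : ∀ {x y : α} {g : G}, g ∈ P x y ↔ (g ∈ N ∧ g • x = x) ∧ g • y = y := Iff.rfl
  suffices hK : ∀ a b c d : α, a ≠ b → a ≠ c → a ≠ d → b ≠ c → b ≠ d →
      ∃ g ∈ P a b, g • c = d by
    refine ⟨fun x y => ?_⟩
    have hx : ∀ {i j : Fin 3}, i ≠ j → x i ≠ x j := fun h => x.injective.ne h
    have hy : ∀ {i j : Fin 3}, i ≠ j → y i ≠ y j := fun h => y.injective.ne h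
    obtain ⟨g, hg, hg0, hg1⟩ := htwo _ _ _ _ (hx (i := 0) (j := 1) (by decide))
      (hy (i := 0) (j := 1) (by decide))
    have h0 : y 0 ≠ g • x 2 := by
      rw [← hg0]; exact fun e => hx (by decide) (MulAction.injective g e)
    have h1 : y 1 ≠ g • x 2 := by
      rw [← hg1]; exact fun e => hx (by decide) (MulAction.injective g e)
    obtain ⟨h, hh, hh2⟩ := hK (y 0) (y 1) (g • x 2) (y 2) (hy (by decide)) h0 (hy (by decide)) h1
      (hy (by decide))
    obtain ⟨⟨hhN, hh0⟩, hh1⟩ := hPmem.1 hh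
    refine ⟨⟨h * g, N.mul_mem hhN hg⟩, ?_⟩
    ext i
    show (h * g) • x i = y i
    fin_cases i
    · rw [mul_smul]; exact (congrArg (h • ·) hg0).trans hh0
    · rw [mul_smul]; exact (congrArg (h • ·) hg1).trans hh1
    · rw [mul_smul]; exact hh2
  intro a b c d hab hac had hbc hbd
  set K := P a b with hKdef
  -- the orbits of `K` off `a, b` have odd length
  have horb : ∀ z : α, a ≠ z → b ≠ z → Odd (Nat.card (MulAction.orbit K z)) := by
    have heq : ∀ z z' : α, a ≠ z → b ≠ z → a ≠ z' → b ≠ z' →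
        Nat.card (MulAction.orbit K z) ≤ Nat.card (MulAction.orbit K z') := by
      intro z z' haz hbz haz' hbz'
      have hi1 : Function.Injective ![a, b, z] := by
        intro i j h
        fin_cases i <;> fin_cases j <;> first | rfl | (exfalso; simp at h; first | exact hab h | exact hab h.symm | exact haz h | exact haz h.symm | exact hbz h | exact hbz h.symm)
      have hi2 : Function.Injective ![a, b, z'] := by
        intro i j h
        fin_cases i <;> fin_cases j <;> first | rfl | (exfalso; simp at h; first | exact hab h | exact hab h.symm | exact haz' h | exact haz' h.symm | exact hbz' h | exact hbz' h.symm)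
      obtain ⟨k, hk⟩ := hG.exists_smul_eq ⟨_, hi1⟩ ⟨_, hi2⟩
      have hka : k • a = a := congrArg (fun f : Fin 3 ↪ α => f 0) hk
      have hkb : k • b = b := congrArg (fun f : Fin 3 ↪ α => f 1) hk
      have hkz : k • z = z' := congrArg (fun f : Fin 3 ↪ α => f 2) hk
      refine Nat.card_le_card_of_injective
        (fun w : MulAction.orbit K z => (⟨k • w.1, ?_⟩ : MulAction.orbit K z')) ?_
      · obtain ⟨⟨g, hg⟩, hgw⟩ := w.2
        obtain ⟨⟨hgN, hga⟩, hgb⟩ := hPmem.1 hg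
        refine ⟨⟨k * g * k⁻¹, hPmem.2 ⟨⟨‹N.Normal›.conj_mem g hgN k, ?_⟩, ?_⟩⟩, ?_⟩
        · nth_rewrite 1 [← hka]; rw [mul_smul, inv_smul_smul, mul_smul, hga, hka]
        · nth_rewrite 1 [← hkb]; rw [mul_smul, inv_smul_smul, mul_smul, hgb, hkb]
        · show (k * g * k⁻¹) • z' = k • w.1
          rw [← hgw, ← hkz, mul_smul, inv_smul_smul, mul_smul]
          rfl
      · exact fun u v h => Subtype.ext (MulAction.injective k (congrArg Subtype.val h :))
    intro z haz hbz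
    let R : Finset α := ({a, b} : Finset α)ᶜ
    have hR : ∀ w, w ∈ R ↔ a ≠ w ∧ b ≠ w := fun w => by simp [R, eq_comm]
    let F : α → Finset α := fun w => (MulAction.orbit K w).toFinset
    have hfib : ∀ B ∈ R.image F, (R.filter fun w => F w = B).card = Nat.card (MulAction.orbit K z) := by
      intro B hB
      obtain ⟨w, hw, rfl⟩ := Finset.mem_image.1 hB
      have hw' := (hR w).1 hw
      have : (R.filter fun v => F v = F w) = F w := by
        ext v
        simp only [Finset.mem_filter, F, Set.toFinset_inj, MulAction.orbit_eq_iff, Set.mem_toFinset]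
        refine ⟨fun h => h.2, fun h => ⟨?_, h⟩⟩
        obtain ⟨⟨g, hg⟩, rfl⟩ := h
        obtain ⟨⟨-, hga⟩, hgb⟩ := hPmem.1 hg
        refine (hR _).2 ⟨fun e => hw'.1 (MulAction.injective g ?_), fun e => hw'.2 (MulAction.injective g ?_)⟩
        · exact hga.trans e
        · exact hgb.trans e
      rw [this, Set.toFinset_card, ← Nat.card_eq_fintype_card]
      exact le_antisymm (heq _ _ hw'.1 hw'.2 haz hbz) (heq _ _ haz hbz hw'.1 hw'.2)
    have hsum := Finset.card_eq_sum_card_image F R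
    rw [Finset.sum_congr rfl hfib, Finset.sum_const, smul_eq_mul, Finset.card_compl,
      Finset.card_pair hab] at hsum
    rw [← Nat.not_even_iff_odd]
    intro he
    have h2 : Even (Fintype.card α - 2) := hsum ▸ he.mul_left _
    rw [Nat.odd_iff] at hodd
    rw [Nat.even_iff] at h2
    omega
  obtain ⟨S₀⟩ := (inferInstance : Nonempty (Sylow 2 K))
  haveI : Fact (Nat.Prime 2) := ⟨Nat.prime_two⟩
  set S := (S₀ : Subgroup K).map K.subtype with hS
  have hSp : IsPGroup 2 S := S₀.2.map _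
  have hSK : S ≤ K := Subgroup.map_subtype_le _
  have hScard : Nat.card S = 2 ^ (Nat.card K).factorization 2 := by
    rw [hS, Subgroup.card_map_of_injective K.subtype_injective, S₀.card_eq_multiplicity]
  -- every orbit off `a, b` contains a point fixed by `S`
  have hfix : ∀ z : α, a ≠ z → b ≠ z → ∃ g ∈ K, ∀ s ∈ S, s • g • z = g • z := by
    intro z haz hbz
    have hm := (S₀.2 : IsPGroup 2 (S₀ : Subgroup K)).card_modEq_card_fixedPoints (MulAction.orbit K z)
    have hne : Nat.card (MulAction.fixedPoints (S₀ : Subgroup K) (MulAction.orbit K z)) ≠ 0 := by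
      intro h0
      rw [h0] at hm
      exact (Nat.odd_iff.1 (horb z haz hbz)).symm.trans hm |> absurd <| by decide
    obtain ⟨⟨⟨w, ⟨g, hgw⟩⟩, hw⟩⟩ := (Nat.card_ne_zero.1 hne).1
    refine ⟨g, g.2, ?_⟩
    rintro _ ⟨s, hs, rfl⟩
    have h1 := congrArg Subtype.val (hw ⟨s, hs⟩)
    show (s : G) • ((g : G) • z) = (g : G) • z
    rw [show (g : G) • z = w from hgw]
    exact h1
  obtain ⟨gc, hgcK, hgc⟩ := hfix c hac hbc
  obtain ⟨gd, hgdK, hgd⟩ := hfix d had hbd
  suffices hcd : ∃ g ∈ K, g • gc • c = gd • d by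
    obtain ⟨g, hg, hge⟩ := hcd
    refine ⟨gd⁻¹ * g * gc, K.mul_mem (K.mul_mem (K.inv_mem hgdK) hg) hgcK, ?_⟩
    rw [mul_smul, mul_smul, hge, inv_smul_smul]
  -- all two-point stabilisers have the same order
  have hPcard : ∀ x y : α, x ≠ y → Nat.card (P x y) ≤ Nat.card K := by
    intro x y hxy
    obtain ⟨k, hk, hkx, hky⟩ := htwo x y a b hxy hab
    refine Nat.card_le_card_of_injective (fun g : P x y => (⟨k * g.1 * k⁻¹, ?_⟩ : K)) ?_
    · obtain ⟨⟨hgN, hgx⟩, hgy⟩ := hPmem.1 g.2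
      refine hPmem.2 ⟨⟨N.mul_mem (N.mul_mem hk hgN) (N.inv_mem hk), ?_⟩, ?_⟩
      · rw [← hkx, mul_smul, inv_smul_smul, mul_smul, hgx]
      · rw [← hky, mul_smul, inv_smul_smul, mul_smul, hgy]
    · exact fun u v h => Subtype.ext (mul_left_cancel (mul_right_cancel (congrArg Subtype.val h :)))
  have hmax : ∀ (x y : α), x ≠ y → ∀ R : Subgroup G, IsPGroup 2 R → S ≤ R → R ≤ P x y → R = S := by
    intro x y hxy R hR hSR hRP
    obtain ⟨j, hj⟩ := IsPGroup.iff_card.1 hR
    refine (Subgroup.eq_of_le_of_card_ge hSR ?_).symm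
    rw [hj, hScard]
    refine Nat.pow_le_pow_right (by norm_num) ?_
    have h1 : Nat.card R ∣ Nat.card (P x y) := Subgroup.card_dvd_of_le hRP
    obtain ⟨k, hk, hkx, hky⟩ := htwo x y a b hxy hab
    have h2 : Nat.card (R.map (MulAut.conj k).toMonoidHom) ∣ Nat.card K := by
      refine Subgroup.card_dvd_of_le ?_
      rintro _ ⟨g, hg, rfl⟩
      obtain ⟨⟨hgN, hgx⟩, hgy⟩ := hPmem.1 (hRP hg)
      refine hPmem.2 ⟨⟨N.mul_mem (N.mul_mem hk hgN) (N.inv_mem hk), ?_⟩, ?_⟩
      · show (k * g * k⁻¹) • a = a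
        rw [← hkx, mul_smul, inv_smul_smul, mul_smul, hgx]
      · show (k * g * k⁻¹) • b = b
        rw [← hky, mul_smul, inv_smul_smul, mul_smul, hgy]
    rw [Subgroup.card_map_of_injective (MulAut.conj k).injective, hj] at h2
    exact (Nat.prime_two.pow_dvd_iff_le_factorization Nat.card_pos.ne').1 h2
  let F : Set α := MulAction.fixedPoints S α
  have haF : a ∈ F := fun s => ((hPmem.1 (hSK s.2)).1).2
  have hbF : b ∈ F := fun s => (hPmem.1 (hSK s.2)).2
  let M : Subgroup G := N ⊓ Subgroup.normalizer (S : Set G)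
  have hMF : ∀ g ∈ M, ∀ z ∈ F, g • z ∈ F := by
    rintro g hg z hz ⟨s, hs⟩
    show s • g • z = g • z
    have h1 : g⁻¹ * s * g ∈ S := (Subgroup.mem_normalizer_iff''.1 hg.2 s).1 hs
    have h2 := hz ⟨_, h1⟩
    rw [show s • g • z = g • ((g⁻¹ * s * g) • z) by rw [smul_smul, smul_smul]; congr 1; group]
    exact congrArg (g • ·) h2
  let φ : M →* Equiv.Perm F :=
    MonoidHom.mk' (fun g =>
      { toFun := fun z => ⟨(g : G) • z.1, hMF g g.2 z z.2⟩
        invFun := fun z => ⟨((g⁻¹ : M) : G) • z.1, hMF _ (g⁻¹).2 z z.2⟩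
        left_inv := fun z => Subtype.ext (inv_smul_smul (g : G) z.1)
        right_inv := fun z => Subtype.ext (smul_inv_smul (g : G) z.1) })
      (fun g h => Equiv.ext fun z => Subtype.ext (mul_smul (g : G) (h : G) z.1))
  -- a 2-element image fixing two points is trivial
  have hL2 : ∀ (g : M) (x y : F), (x : α) ≠ y → φ g x = x → φ g y = y →
      (∃ j, φ g ^ 2 ^ j = 1) → φ g = 1 := by
    rintro g x y hxy hgx hgy ⟨j, hj⟩
    have hgP : (g : G) ∈ P x y :=
      hPmem.2 ⟨⟨g.2.1, congrArg Subtype.val hgx⟩, congrArg Subtype.val hgy⟩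
    have hSP : S ≤ P x y := fun s hs => hPmem.2 ⟨⟨((hPmem.1 (hSK hs)).1).1, x.2 ⟨s, hs⟩⟩, y.2 ⟨s, hs⟩⟩
    obtain ⟨e, m, hm, hord⟩ := Nat.exists_eq_two_pow_mul_odd (orderOf_pos (g : G)).ne'
    have h2 : IsPGroup 2 (Subgroup.zpowers ((g : G) ^ m)) := by
      refine IsPGroup.of_card (n := e) ?_
      rw [Nat.card_zpowers, orderOf_pow_of_dvd hm.pos.ne' (hord ▸ dvd_mul_left _ _), hord,
        Nat.mul_div_cancel _ hm.pos]
    have hR := hmax x y hxy (Subgroup.zpowers ((g : G) ^ m) ⊔ S)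
      (h2.to_sup_of_normal_right' hSp (Subgroup.zpowers_le.2 (pow_mem g.2.2 m))) le_sup_right
      (sup_le (Subgroup.zpowers_le.2 (pow_mem hgP m)) hSP)
    have hgS : (g : G) ^ m ∈ S := hR ▸ Subgroup.mem_sup_left (Subgroup.mem_zpowers _)
    have hm1 : φ g ^ m = 1 := by
      rw [← map_pow]
      exact Equiv.ext fun z => Subtype.ext (z.2 ⟨_, hgS⟩)
    exact orderOf_eq_one_iff.1 (Nat.eq_one_of_dvd_coprimes (hm.coprime_two_left.pow_left j)
      (orderOf_dvd_of_pow_eq_one hj) (orderOf_dvd_of_pow_eq_one hm1))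
  -- Frattini argument
  have hfrat : ∀ (L : Subgroup G) (x y : α), x ≠ y → L ≤ P x y → S ≤ L → ∀ g ∈ N,
      (∀ s ∈ S, g * s * g⁻¹ ∈ L) → ∃ h ∈ L, h * g ∈ M := by
    intro L x y hxy hLP hSL g hgN hgS
    obtain ⟨Q, hQ⟩ := (hSp.comap_subtype (K := L)).exists_le_sylow
    have hQS : (Q : Subgroup L).map L.subtype = S := by
      refine hmax x y hxy _ (Q.2.map _) (fun s hs => ⟨⟨s, hSL hs⟩, hQ hs, rfl⟩) ?_
      rintro _ ⟨s, hs, rfl⟩
      exact hLP s.2
    have hp2 : IsPGroup 2 ((S.map (MulAut.conj g).toMonoidHom).subgroupOf L) :=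
      (hSp.map _).comap_subtype
    obtain ⟨Q', hQ'⟩ := hp2.exists_le_sylow
    obtain ⟨h, hh⟩ := MulAction.exists_smul_eq L Q' Q
    refine ⟨h, h.2, N.mul_mem ((hPmem.1 (hLP h.2)).1).1 hgN, ?_⟩
    show (h : G) * g ∈ Subgroup.normalizer (S : Set G)
    rw [Subgroup.mem_normalizer_iff_map_conj_eq]
    refine Subgroup.eq_of_le_of_card_ge ?_
      (le_of_eq (Subgroup.card_map_of_injective (MulAut.conj ((h : G) * g)).injective).symm)
    rintro _ ⟨s, hs, rfl⟩
    rw [← hQS]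
    refine ⟨h * ⟨g * s * g⁻¹, hgS s hs⟩ * h⁻¹, ?_, by simp [mul_assoc]⟩
    rw [← hh]
    exact Subgroup.mem_map_of_mem _ (hQ' ⟨s, hs, rfl⟩)
  -- interchanging `b` and a further point of `F`
  have hswapF : ∀ z : F, a ≠ z → b ≠ z → ∃ g : M, φ g ⟨a, haF⟩ = ⟨a, haF⟩ ∧
      φ g ⟨b, hbF⟩ = z ∧ φ g z = ⟨b, hbF⟩ := by
    rintro ⟨z, hz⟩ haz hbz
    obtain ⟨g, hg, hga, hgb, hgz⟩ := hswap a b z hab haz hbz
    let L : Subgroup G := P a b ⊓ MulAction.stabilizer G z
    obtain ⟨h, ⟨hh, hhz⟩, hM⟩ := hfrat L a b hab inf_le_left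
      (fun s hs => ⟨hSK hs, hz ⟨s, hs⟩⟩) g hg (fun s hs => by
        obtain ⟨⟨hsN, hsa⟩, hsb⟩ := hPmem.1 (hSK hs)
        have hsz : s • z = z := hz ⟨s, hs⟩
        refine ⟨hPmem.2 ⟨⟨N.mul_mem (N.mul_mem hg hsN) (N.inv_mem hg), ?_⟩, ?_⟩, ?_⟩
        · nth_rewrite 1 [← hga]; rw [mul_smul, inv_smul_smul, mul_smul, hsa, hga]
        · rw [← hgz, mul_smul, inv_smul_smul, mul_smul, hsz]
        · show (g * s * g⁻¹) • z = z
          rw [← hgb, mul_smul, inv_smul_smul, mul_smul, hsb])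
    obtain ⟨⟨-, hha⟩, hhb⟩ := hPmem.1 hh
    refine ⟨⟨h * g, hM⟩, Subtype.ext ?_, Subtype.ext ?_, Subtype.ext ?_⟩
    · show (h * g) • a = a
      rw [mul_smul, hga, hha]
    · show (h * g) • b = z
      rw [mul_smul, hgb]; exact hhz
    · show (h * g) • z = b
      rw [mul_smul, hgz, hhb]
  obtain ⟨w, hwM, hwa, hwb⟩ : ∃ g, g ∈ M ∧ g • a = b ∧ g • b = a := by
    obtain ⟨g, hg, hga, hgb⟩ := htwo a b b a hab hab.symm
    obtain ⟨h, hh, hM⟩ := hfrat K a b hab le_rfl hSK g hg (fun s hs => by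
      obtain ⟨⟨hsN, hsa⟩, hsb⟩ := hPmem.1 (hSK hs)
      refine hPmem.2 ⟨⟨N.mul_mem (N.mul_mem hg hsN) (N.inv_mem hg), ?_⟩, ?_⟩
      · rw [← hgb, mul_smul, inv_smul_smul, mul_smul, hsb]
      · rw [← hga, mul_smul, inv_smul_smul, mul_smul, hsa])
    obtain ⟨⟨-, hha⟩, hhb⟩ := hPmem.1 hh
    exact ⟨h * g, hM, by rw [mul_smul, hga, hhb], by rw [mul_smul, hgb, hha]⟩
  set Q := φ.range with hQdef
  let H : Subgroup Q := MulAction.stabilizer Q (⟨a, haF⟩ : F)
  let u : Q := ⟨φ ⟨w, hwM⟩, MonoidHom.mem_range.2 ⟨_, rfl⟩⟩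
  have huH : u ∉ H := fun h => hab
    ((congrArg Subtype.val (MulAction.mem_stabilizer_iff.1 h)).symm.trans
      (show ((u • (⟨a, haF⟩ : F) : F) : α) = b from hwa))
  -- an involution of `H` sending `b` to a given further point
  have hinv : ∀ z : F, a ≠ z → b ≠ z →
      ∃ q : Q, orderOf q = 2 ∧ q ∈ H ∧ (q : Equiv.Perm F) ⟨b, hbF⟩ = z := by
    intro z haz hbz
    obtain ⟨g, hga, hgb, hgz⟩ := hswapF z haz hbz
    obtain ⟨e, m, ⟨i, rfl⟩, hord⟩ := Nat.exists_eq_two_pow_mul_odd (orderOf_pos (φ g)).ne'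
    have hpow : ∀ k : ℕ, (φ g ^ (2 * k + 1)) ⟨b, hbF⟩ = z ∧ (φ g ^ (2 * k + 1)) ⟨a, haF⟩ = ⟨a, haF⟩ := by
      intro k
      induction k with
      | zero => exact ⟨by simpa using hgb, by simpa using hga⟩
      | succ k ih =>
        rw [show 2 * (k + 1) + 1 = 1 + (1 + (2 * k + 1)) by ring, pow_add, pow_add, pow_one]
        simp only [Equiv.Perm.mul_apply, ih.1, ih.2, hga, hgz, hgb, and_self]
    obtain ⟨hqb, hqa⟩ := hpow i
    set q := φ g ^ (2 * i + 1) with hq
    have hqz : q z = ⟨b, hbF⟩ := by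
      have h1 : ∀ k : ℕ, (φ g ^ (2 * k + 1)) z = ⟨b, hbF⟩ := by
        intro k
        induction k with
        | zero => simpa using hgz
        | succ k ih =>
          rw [show 2 * (k + 1) + 1 = 1 + (1 + (2 * k + 1)) by ring, pow_add, pow_add, pow_one]
          simp only [Equiv.Perm.mul_apply, ih, hgb, hgz]
      exact h1 i
    have hsq : φ ((g ^ (2 * i + 1)) ^ 2) = 1 := by
      refine hL2 _ ⟨a, haF⟩ ⟨b, hbF⟩ hab ?_ ?_ ⟨e, ?_⟩
      · rw [map_pow, map_pow, ← hq, sq, Equiv.Perm.mul_apply, hqa, hqa]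
      · rw [map_pow, map_pow, ← hq, sq, Equiv.Perm.mul_apply, hqb, hqz]
      · rw [map_pow, map_pow, ← pow_mul, ← pow_mul]
        refine orderOf_dvd_iff_pow_eq_one.1 (hord ▸ ⟨2, ?_⟩)
        ring
    rw [map_pow, map_pow, ← hq] at hsq
    refine ⟨⟨q, ⟨g ^ (2 * i + 1), by rw [map_pow]⟩⟩, orderOf_eq_prime (Subtype.ext hsq) ?_,
      Subtype.ext (congrArg Subtype.val hqa :), hqb⟩
    intro h
    apply hbz
    have h1 : q = 1 := congrArg Subtype.val h
    rw [h1] at hqb
    exact congrArg Subtype.val hqb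
  obtain ⟨q₁, hq₁, hq₁H, hq₁b⟩ := hinv ⟨gc • c, fun s => hgc s s.2⟩
    (fun e => hac (MulAction.injective gc (((hPmem.1 hgcK).1).2.trans e)))
    (fun e => hbc (MulAction.injective gc ((hPmem.1 hgcK).2.trans e)))
  obtain ⟨q₂, hq₂, hq₂H, hq₂b⟩ := hinv ⟨gd • d, fun s => hgd s s.2⟩
    (fun e => had (MulAction.injective gd (((hPmem.1 hgdK).1).2.trans e)))
    (fun e => hbd (MulAction.injective gd ((hPmem.1 hgdK).2.trans e)))
  have hSE : Cfsg.IsStronglyEmbedded H := by
    refine ⟨fun h => huH (h ▸ Subgroup.mem_top u), ?_, fun v hv => ?_⟩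
    · rw [even_iff_two_dvd, ← hq₁, ← Subgroup.orderOf_mk q₁ hq₁H]
      exact orderOf_dvd_natCard _
    by_contra hodd'
    rw [Nat.not_odd_iff_even, even_iff_two_dvd] at hodd'
    obtain ⟨⟨q, hqmem⟩, hqo⟩ := exists_prime_orderOf_dvd_card' 2 hodd'
    rw [Subgroup.orderOf_mk] at hqo
    obtain ⟨hqH, r, hr, hrq⟩ := Subgroup.mem_inf.1 hqmem
    obtain ⟨g, hg⟩ := q.2
    apply CfsgLib.Involution.ne_one hqo
    apply Subtype.ext
    rw [← hg]
    have hqx : q • (v • (⟨a, haF⟩ : F)) = v • ⟨a, haF⟩ := by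
      rw [← hrq, MulEquiv.coe_toMonoidHom, MulAut.conj_apply, mul_smul, inv_smul_smul, mul_smul,
        MulAction.mem_stabilizer_iff.1 hr]
    refine hL2 g ⟨a, haF⟩ (v • (⟨a, haF⟩ : F)) (fun e => hv (Subtype.ext e).symm) ?_ ?_ ⟨1, ?_⟩
    · rw [hg]; exact MulAction.mem_stabilizer_iff.1 hqH
    · rw [hg]; exact hqx
    · rw [hg, pow_one, ← hqo]
      exact congrArg Subtype.val (pow_orderOf_eq_one q)
  obtain ⟨δ, hδ, hδe⟩ := CfsgLib.StronglyEmbedded.conj_by_two_point hSE huH hq₁ hq₁H hq₂ hq₂H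
  obtain ⟨hδa, r, hr, hrδ⟩ := Subgroup.mem_inf.1 hδ
  obtain ⟨g, hg⟩ := δ.2
  have hua : u • (⟨a, haF⟩ : F) = ⟨b, hbF⟩ := Subtype.ext hwa
  have hδb : δ • (⟨b, hbF⟩ : F) = ⟨b, hbF⟩ := by
    rw [← hrδ, ← hua, MulEquiv.coe_toMonoidHom, MulAut.conj_apply, mul_smul, inv_smul_smul, mul_smul,
      MulAction.mem_stabilizer_iff.1 hr]
  refine ⟨g, hPmem.2 ⟨⟨g.2.1, ?_⟩, ?_⟩, ?_⟩
  · have h1 : φ g ⟨a, haF⟩ = ⟨a, haF⟩ := by rw [hg]; exact MulAction.mem_stabilizer_iff.1 hδa
    exact congrArg Subtype.val h1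
  · have h1 : φ g ⟨b, hbF⟩ = ⟨b, hbF⟩ := by rw [hg]; exact hδb
    exact congrArg Subtype.val h1
  · have h3 : δ * q₁ = q₂ * δ := by rw [← hδe, inv_mul_cancel_right]
    have h4 := congrArg (fun q : Q => q • (⟨b, hbF⟩ : F)) h3
    simp only [mul_smul, hδb] at h4
    rw [show q₁ • (⟨b, hbF⟩ : F) = _ from hq₁b, show q₂ • (⟨b, hbF⟩ : F) = _ from hq₂b] at h4
    have h1 : φ g ⟨gc • c, fun s => hgc s s.2⟩ = ⟨gd • d, fun s => hgd s s.2⟩ := by rw [hg]; exact h4
    exact congrArg Subtype.val h1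

end Cfsg.Agent.S0699
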