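import Cfsg.Statements.S0700
import Mathlib
import Cfsg.Agent.Lib.Perm.JordanNormal
import Cfsg.Agent.Lib.GroupB.Frobenius

set_option autoImplicit false
open Cfsg

namespace Cfsg.Agent.S0700

set_option linter.style.haveILetI false
set_option linter.unusedSectionVars false
open scoped Pointwise

/-- A finite nontrivial group whose non-identity elements all have one order has prime exponent and nontrivial centre. -/
theorem exponent_prime {K : Type*} [Group K] [Finite K] [Nontrivial K]
    (h : ∀ x y : K, x ≠ 1 → y ≠ 1 → orderOf x = orderOf y) :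
    ∃ p : ℕ, p.Prime ∧ (∀ x : K, x ^ p = 1) ∧ Subgroup.center K ≠ ⊥ := by
  obtain ⟨p, hp, hpK⟩ := Nat.exists_prime_and_dvd (show Nat.card K ≠ 1 from Finite.one_lt_card.ne')
  haveI : Fact p.Prime := ⟨hp⟩
  obtain ⟨x, hx⟩ := exists_prime_orderOf_dvd_card' (G := K) p hpK
  have hx1 : x ≠ 1 := fun e => hp.ne_one (by rw [← hx, e, orderOf_one])
  have hexp : ∀ y : K, y ^ p = 1 := fun y => by
    by_cases hy : y = 1
    · rw [hy, one_pow]
    · rw [← hx, h x y hx1 hy, pow_orderOf_eq_one]
  have hP : IsPGroup p K := fun y => ⟨1, by rw [pow_one]; exact hexp y⟩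
  refine ⟨p, hp, hexp, fun hc => ?_⟩
  haveI := hP.center_nontrivial
  exact (Subgroup.nontrivial_iff_ne_bot _).1 this hc

variable {α : Type*} [Fintype α] [DecidableEq α] {G : Subgroup (Equiv.Perm α)}

theorem smul_eq_one_of_forall {g : G} (h : ∀ x : α, g • x = x) : g = 1 :=
  Subtype.ext (Equiv.ext h)

theorem two_le_card (N : Subgroup G) (hN : N ≠ ⊥) : 2 ≤ Fintype.card α := by
  by_contra hc
  haveI : Subsingleton α := Fintype.card_le_one_iff_subsingleton.1 (by omega)
  exact hN ((Subgroup.eq_bot_iff_forall _).2 fun x _ => smul_eq_one_of_forall fun y => Subsingleton.elim _ _)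

/-- Non-regular minimal normal subgroups of doubly transitive groups act primitively. -/
theorem preprimitive (hG : MulAction.IsMultiplyPretransitive G α 2) (N : Subgroup G) [hNn : N.Normal] (hN : N ≠ ⊥)
    (hmin : ∀ M : Subgroup G, M.Normal → M ≤ N → M = ⊥ ∨ M = N) {a₁ : α} (hns : MulAction.stabilizer N a₁ ≠ ⊥) :
    MulAction.IsPreprimitive N α := by
  classical
  haveI := MulAction.isPreprimitive_of_is_two_pretransitive hG
  haveI htr : MulAction.IsPretransitive N α := CfsgLib.Perm.isPretransitive_of_normal (α := α) hN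
  refine { isTrivialBlock_of_isBlock := fun {B₀} hB₀ => ?_ }
  by_contra hnt
  have hne : ((Finset.univ : Finset (Finset α)).filter fun B : Finset α =>
      MulAction.IsBlock N (B : Set α) ∧ 2 ≤ B.card ∧ B ≠ Finset.univ).Nonempty := by
    rw [MulAction.IsTrivialBlock, not_or] at hnt
    refine ⟨B₀.toFinset, Finset.mem_filter.2 ⟨Finset.mem_univ _, by simpa using hB₀, ?_, fun e => hnt.2 ?_⟩⟩
    · obtain ⟨x, hx, y, hy, hxy⟩ := Set.not_subsingleton_iff.1 hnt.1
      exact Finset.one_lt_card.2 ⟨x, Set.mem_toFinset.2 hx, y, Set.mem_toFinset.2 hy, hxy⟩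
    · rw [← Set.toFinset_eq_univ]; exact e
  obtain ⟨B, hB, hBmin⟩ := Finset.exists_min_image _ Finset.card hne
  simp only [Finset.mem_filter, Finset.mem_univ, true_and] at hB hBmin
  obtain ⟨hBb, hB2, hBu⟩ := hB
  -- the translates of `B` are blocks of `N`
  have htrans : ∀ g : G, MulAction.IsBlock N (g • (B : Set α)) := by
    intro g
    rw [MulAction.isBlock_iff_smul_eq_or_disjoint]
    intro n
    set n' : N := ⟨g⁻¹ * (n : G) * g, by simpa using hNn.conj_mem _ n.2 g⁻¹⟩ with hn'
    have e : n • g • (B : Set α) = g • n' • (B : Set α) := by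
      show (n : G) • g • (B : Set α) = g • (g⁻¹ * (n : G) * g) • (B : Set α)
      rw [smul_smul, smul_smul]; congr 1; group
    rcases MulAction.isBlock_iff_smul_eq_or_disjoint.1 hBb n' with h | h
    · left; rw [e, h]
    · right; rw [e]; exact Set.disjoint_image_of_injective (MulAction.injective g) h
  have hline : ∀ x y : α, x ≠ y → ∃ L : Set α, x ∈ L ∧ y ∈ L ∧ ∃ g : G, L = g • (B : Set α) := by
    intro x y hxy
    obtain ⟨u, hu, v, hv, huv⟩ := Finset.one_lt_card.1 hB2
    obtain ⟨g, g1, g2⟩ := (MulAction.is_two_pretransitive_iff (G := G) (α := α)).1 hG huv hxy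
    exact ⟨g • (B : Set α), Set.mem_smul_set.2 ⟨u, hu, g1⟩, Set.mem_smul_set.2 ⟨v, hv, g2⟩, g, rfl⟩
  have huniq : ∀ (g h : G) (x y : α), x ≠ y → x ∈ g • (B : Set α) → y ∈ g • (B : Set α) →
      x ∈ h • (B : Set α) → y ∈ h • (B : Set α) → g • (B : Set α) = h • (B : Set α) := by
    intro g h x y hxy hx hy hx' hy'
    have hcard : ∀ k : G, (k • (B : Set α)).toFinset.card = B.card := fun k => by
      rw [← Set.ncard_eq_toFinset_card', Set.ncard_smul_set, Set.ncard_coe_finset]
    have key : ∀ k k' : G, x ∈ k • (B : Set α) → y ∈ k • (B : Set α) → x ∈ k' • (B : Set α) → y ∈ k' • (B : Set α) →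
        k • (B : Set α) ⊆ k' • (B : Set α) := by
      intro k k' a1 a2 a3 a4
      set I := (k • (B : Set α) ∩ k' • (B : Set α)).toFinset with hI
      have hblock : MulAction.IsBlock N (I : Set α) := by rw [hI, Set.coe_toFinset]; exact (htrans k).inter (htrans k')
      have h2 : 2 ≤ I.card := Finset.one_lt_card.2 ⟨x, Set.mem_toFinset.2 ⟨a1, a3⟩, y, Set.mem_toFinset.2 ⟨a2, a4⟩, hxy⟩
      have hsub : I ⊆ (k • (B : Set α)).toFinset := fun z hz => by
        rw [hI, Set.mem_toFinset] at hz
        exact Set.mem_toFinset.2 hz.1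
      have hne' : I ≠ Finset.univ := fun e => by
        have := Finset.card_le_card hsub
        rw [e, hcard, Finset.card_univ] at this
        exact hBu (Finset.eq_univ_of_card B (le_antisymm (Finset.card_le_univ _) this))
      have hge := hBmin I ⟨hblock, h2, hne'⟩
      have heq := Finset.eq_of_subset_of_card_le hsub (by rw [hcard]; exact hge)
      intro z hz
      have : z ∈ I := heq ▸ Set.mem_toFinset.2 hz
      rw [hI, Set.mem_toFinset] at this
      exact this.2
    exact (key g h hx hy hx' hy').antisymm (key h g hx' hy' hx hy)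
  -- a stabiliser fixes the lines through its point
  have hfixline : ∀ (n : N) (g : G) (x : α), n • x = x → x ∈ g • (B : Set α) → ∀ z ∈ g • (B : Set α), n • z ∈ g • (B : Set α) := by
    intro n g x hx hxL z hz
    have := (htrans g).smul_eq_of_mem hxL (show n • x ∈ g • (B : Set α) by rwa [hx])
    rw [← this]
    exact Set.smul_mem_smul_set hz
  have hoff : ∀ (n : N) (x y c : α) (g : G), x ≠ y → n • x = x → n • y = y → x ∈ g • (B : Set α) → y ∈ g • (B : Set α) →
      c ∉ g • (B : Set α) → n • c = c := by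
    intro n x y c g hxy hx hy hxL hyL hc
    obtain ⟨-, hx1, hc1, g1, rfl⟩ := hline x c (fun e => hc (e ▸ hxL))
    obtain ⟨-, hy2, hc2, g2, rfl⟩ := hline y c (fun e => hc (e ▸ hyL))
    by_contra hcc
    have m1 := hfixline n g1 x hx hx1 c hc1
    have m2 := hfixline n g2 y hy hy2 c hc2
    have e12 := huniq g1 g2 (n • c) c hcc m1 hc1 m2 hc2
    have := huniq g g1 x y hxy hxL hyL hx1 (e12 ▸ hy2)
    exact hc (this ▸ hc1)
  have htwo : ∀ (n : N) (x y : α), x ≠ y → n • x = x → n • y = y → n = 1 := by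
    intro n x y hxy hx hy
    obtain ⟨-, hxL, hyL, g, rfl⟩ := hline x y hxy
    apply Subtype.ext
    refine smul_eq_one_of_forall fun z => ?_
    show n • z = z
    by_cases hz : z ∈ g • (B : Set α)
    · obtain ⟨c, hc⟩ : ∃ c, c ∉ g • (B : Set α) := by
        by_contra hall
        push Not at hall
        refine hBu (Finset.eq_univ_of_card B ?_)
        rw [← Set.ncard_coe_finset, ← Set.ncard_smul_set g, Set.eq_univ_of_forall hall, Set.ncard_univ, Nat.card_eq_fintype_card]
      have hcx : n • c = c := hoff n x y c g hxy hx hy hxL hyL hc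
      by_cases hzx : z = x
      · rw [hzx]; exact hx
      obtain ⟨-, hxL', hcL', g', rfl⟩ := hline x c (fun e => hc (e ▸ hxL))
      refine hoff n x c z g' (fun e => hc (e ▸ hxL)) hx hcx hxL' hcL' fun hzL => hc ?_
      rw [huniq g g' x z (Ne.symm hzx) hxL hz hxL' hzL]
      exact hcL'
    · exact hoff n x y z g hxy hx hy hxL hyL hz
  -- `N` is a Frobenius group
  have hn2 := two_le_card N hN
  set H := MulAction.stabilizer N a₁ with hH
  have hfrob : Cfsg.IsFrobeniusComplement H := by
    refine ⟨hns, fun e => ?_, fun g hg => ?_⟩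
    · obtain ⟨b, hb⟩ := Fintype.exists_ne_of_one_lt_card hn2 a₁
      obtain ⟨n, hn⟩ := MulAction.exists_smul_eq N a₁ b
      exact hb (hn ▸ (e ▸ Subgroup.mem_top n : n ∈ H))
    · rw [Subgroup.eq_bot_iff_forall]
      intro x hx
      have h2 := CfsgLib.GroupB.Frobenius.mem_conj_smul_iff.1 hx.2
      have h3 : (g⁻¹ * x * g) • a₁ = a₁ := h2
      rw [mul_smul, mul_smul, inv_smul_eq_iff] at h3
      exact htwo x a₁ (g • a₁) (fun e => hg e.symm) hx.1 h3
  obtain ⟨K, hK, -, hKc⟩ := CfsgLib.GroupB.Frobenius.exists_kernel_subgroup hfrob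
  have hmem : ∀ x : N, x ∈ K ↔ x = 1 ∨ ∀ z : α, x • z ≠ z := by
    intro x
    rw [← SetLike.mem_coe, hK, CfsgLib.GroupB.Frobenius.mem_kernel_iff]
    refine or_congr Iff.rfl ⟨fun h z hz => ?_, fun h g hg => ?_⟩
    · obtain ⟨g, rfl⟩ := MulAction.exists_smul_eq N a₁ z
      exact h g (show (g⁻¹ * x * g) • a₁ = a₁ by rw [mul_smul, mul_smul, hz, inv_smul_smul])
    · have h3 : (g⁻¹ * x * g) • a₁ = a₁ := hg
      rw [mul_smul, mul_smul, inv_smul_eq_iff] at h3
      exact h _ h3
  have hKn : (K.map N.subtype).Normal := by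
    refine ⟨fun x hx g => ?_⟩
    obtain ⟨k, hk, rfl⟩ := hx
    refine ⟨⟨g * (k : G) * g⁻¹, hNn.conj_mem _ k.2 g⟩, (hmem _).2 ?_, rfl⟩
    rcases (hmem k).1 hk with rfl | hfree
    · left; exact Subtype.ext (by simp)
    · right
      intro z hz
      refine hfree (g⁻¹ • z) ?_
      show (k : G) • g⁻¹ • z = g⁻¹ • z
      have hz' : (g * (k : G) * g⁻¹) • z = z := hz
      rw [mul_smul, mul_smul] at hz'
      rw [eq_inv_smul_iff]; exact hz'
  rcases hmin _ hKn (Subgroup.map_subtype_le K) with h | h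
  · have hK1 : K = ⊥ := (Subgroup.map_eq_bot_iff_of_injective _ N.subtype_injective).1 h
    rw [hK1, Subgroup.isComplement'_bot_left] at hKc
    exact hfrob.2.1 hKc
  · have hKt : K = ⊤ := (Subgroup.eq_top_iff' K).2 fun x =>
      (Subgroup.mem_map_iff_mem N.subtype_injective).1 (h.symm ▸ x.2 : (x : G) ∈ K.map N.subtype)
    rw [hKt, Subgroup.isComplement'_top_left] at hKc
    exact hns hKc


/-- Burnside's Theorem on doubly transitive groups: a minimal normal subgroup of a finite doubly transitive permutation group is elementary abelian and regular, or simple and primitive. -/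
theorem result {α : Type*} [Fintype α] [DecidableEq α] (G : Subgroup (Equiv.Perm α)) (hG : MulAction.IsMultiplyPretransitive G α 2) (N : Subgroup G) [N.Normal] (hN : N ≠ ⊥) (hmin : ∀ M : Subgroup G, M.Normal → M ≤ N → M = ⊥ ∨ M = N) : (IsMulCommutative N ∧ (∃ p : ℕ, p.Prime ∧ ∀ n ∈ N, n ^ p = 1) ∧ ∀ a : α, MulAction.stabilizer N a = ⊥) ∨ (IsSimpleGroup N ∧ MulAction.IsPreprimitive N α) := by
  classical
  have hn2 := two_le_card N hN
  haveI := MulAction.isPreprimitive_of_is_two_pretransitive hG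
  haveI htr : MulAction.IsPretransitive N α := CfsgLib.Perm.isPretransitive_of_normal (α := α) hN
  by_cases hreg : ∀ a : α, MulAction.stabilizer N a = ⊥
  · left
    obtain ⟨a⟩ : Nonempty α := Fintype.card_pos_iff.1 (by omega)
    haveI : Nontrivial N := (Subgroup.nontrivial_iff_ne_bot N).2 hN
    have hord : ∀ x y : N, x ≠ 1 → y ≠ 1 → orderOf x = orderOf y := by
      intro x y hx hy
      have hne : ∀ z : N, z ≠ 1 → a ≠ (z : G) • a := fun z hz e => hz (by
        have : z ∈ MulAction.stabilizer N a := e.symm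
        rwa [hreg a, Subgroup.mem_bot] at this)
      obtain ⟨g, g1, g2⟩ := (MulAction.is_two_pretransitive_iff (G := G) (α := α)).1 hG (hne x hx) (hne y hy)
      set z : N := ⟨g * (x : G) * g⁻¹, ‹N.Normal›.conj_mem _ x.2 g⟩ with hz
      have hza : (z : G) • a = (y : G) • a := by
        show (g * (x : G) * g⁻¹) • a = _
        rw [mul_smul, mul_smul, inv_smul_eq_iff.2 g1.symm, g2]
      have hzy : z = y := by
        have : y⁻¹ * z ∈ MulAction.stabilizer N a := by
          show ((y : G)⁻¹ * (z : G)) • a = a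
          rw [mul_smul, hza, inv_smul_smul]
        rw [hreg a, Subgroup.mem_bot, inv_mul_eq_one] at this
        exact this.symm
      rw [← hzy, ← Subgroup.orderOf_coe z, ← Subgroup.orderOf_coe x]
      exact (MulEquiv.orderOf_eq (MulAut.conj g) (x : G)).symm
    obtain ⟨p, hp, hexp, hZ⟩ := exponent_prime hord
    refine ⟨?_, ⟨p, hp, fun n hn => congrArg Subtype.val (hexp ⟨n, hn⟩)⟩, hreg⟩
    rcases hmin ((Subgroup.center N).map N.subtype) inferInstance (Subgroup.map_subtype_le _) with h | h
    · exact absurd ((Subgroup.map_eq_bot_iff_of_injective _ N.subtype_injective).1 h) hZ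
    · refine isMulCommutative_iff.2 fun u v => ?_
      have hv : v ∈ Subgroup.center N :=
        (Subgroup.mem_map_iff_mem N.subtype_injective).1 (h.symm ▸ v.2 : (v : G) ∈ (Subgroup.center N).map N.subtype)
      exact Subgroup.mem_center_iff.1 hv u
  right
  push Not at hreg
  obtain ⟨a₁, ha₁⟩ := hreg
  haveI hprim := preprimitive hG N hN hmin ha₁
  refine ⟨?_, hprim⟩
  haveI : Nontrivial N := (Subgroup.nontrivial_iff_ne_bot N).2 hN
  obtain ⟨M, ⟨hMn, hM1⟩, hMmin⟩ := wellFounded_lt.has_min {M : Subgroup N | M.Normal ∧ M ≠ ⊥} ⟨⊤, inferInstance, top_ne_bot⟩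
  haveI := hMn
  suffices hMtop : M = ⊤ by
    refine ⟨fun L hL => ?_⟩
    by_contra h
    push Not at h
    exact hMmin L ⟨hL, h.1⟩ (hMtop ▸ lt_top_iff_ne_top.2 h.2)
  by_contra hMtop
  haveI : FaithfulSMul N α := ⟨fun {x y} h => Subtype.ext (Subtype.ext (Equiv.ext h))⟩
  have htrM : ∀ L : Subgroup N, L.Normal → L ≠ ⊥ → MulAction.IsPretransitive L α := fun L hL h1 => by
    haveI := hL
    exact CfsgLib.Perm.isPretransitive_of_normal (α := α) h1
  -- conjugates of `M`
  let φ : G → (N →* N) := fun g => (MulAut.conjNormal g : MulAut N).toMonoidHom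
  have hconjmin : ∀ g : G, (M.map (φ g)).Normal ∧ M.map (φ g) ≠ ⊥ ∧
      (M.map (φ g) = M ∨ ∀ u ∈ M, ∀ v ∈ M.map (φ g), Commute u v) := by
    intro g
    have hn' : (M.map (φ g)).Normal := hMn.map _ (MulAut.conjNormal g : MulAut N).surjective
    refine ⟨hn', fun h => hM1 ((Subgroup.map_eq_bot_iff_of_injective _ (MulAut.conjNormal g : MulAut N).injective).1 h), ?_⟩
    haveI := hn'
    by_cases hbot : M ⊓ M.map (φ g) = ⊥
    · exact Or.inr fun u hu v hv => Subgroup.commute_of_normal_of_disjoint _ _ hMn hn' (disjoint_iff.2 hbot) u v hu hv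
    · left
      have he : M ⊓ M.map (φ g) = M := by
        by_contra hne
        exact hMmin _ ⟨inferInstance, hbot⟩ (lt_of_le_of_ne inf_le_left hne)
      exact (Subgroup.eq_of_le_of_card_ge (inf_eq_left.1 he) (by
        rw [Subgroup.card_map_of_injective (f := φ g) (MulAut.conjNormal g : MulAut N).injective])).symm
  -- some conjugate differs from `M`
  obtain ⟨g₀, hg₀⟩ : ∃ g : G, M.map (φ g) ≠ M := by
    by_contra hall
    push Not at hall
    have hnG : (M.map N.subtype).Normal := by
      refine ⟨fun x hx g => ?_⟩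
      obtain ⟨m, hm, rfl⟩ := hx
      refine ⟨φ g m, ?_, MulAut.conjNormal_apply g m⟩
      conv_lhs => rw [← hall g]
      exact Subgroup.mem_map_of_mem _ hm
    rcases hmin _ hnG (Subgroup.map_subtype_le M) with h | h
    · exact hM1 ((Subgroup.map_eq_bot_iff_of_injective _ N.subtype_injective).1 h)
    · exact hMtop ((Subgroup.eq_top_iff' M).2 fun x =>
        (Subgroup.mem_map_iff_mem N.subtype_injective).1 (h.symm ▸ x.2 : (x : G) ∈ M.map N.subtype))
  obtain ⟨hM'n, hM'1, hM'c⟩ := hconjmin g₀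
  have hcomm : ∀ u ∈ M, ∀ v ∈ M.map (φ g₀), Commute u v := hM'c.resolve_left hg₀
  haveI htM := htrM M hMn hM1
  haveI htM' := htrM _ hM'n hM'1
  -- commuting transitive groups are semiregular
  have semi : ∀ (L L' : Subgroup N), MulAction.IsPretransitive L' α → (∀ u ∈ L, ∀ v ∈ L', Commute u v) →
      ∀ u ∈ L, ∀ z : α, u • z = z → u = 1 := by
    intro L L' ht hc u hu z hz
    apply Subtype.ext
    refine smul_eq_one_of_forall fun w => ?_
    obtain ⟨v, rfl⟩ := MulAction.exists_smul_eq L' z w
    show u • (v : N) • z = (v : N) • z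
    rw [← mul_smul, (hc u hu v v.2).eq, mul_smul, hz]
  have hMfree := semi M _ htM' hcomm
  obtain ⟨a⟩ : Nonempty α := Fintype.card_pos_iff.1 (by omega)
  -- all elements of `M` have one order
  haveI : Nontrivial M := (Subgroup.nontrivial_iff_ne_bot M).2 hM1
  have hord : ∀ x y : M, x ≠ 1 → y ≠ 1 → orderOf x = orderOf y := by
    intro x y hx hy
    have hne : ∀ z : M, z ≠ 1 → a ≠ (z : N) • a := fun z hz e => hz (Subtype.ext (hMfree z z.2 a e.symm))
    obtain ⟨g, g1, g2⟩ := (MulAction.is_two_pretransitive_iff (G := G) (α := α)).1 hG (hne x hx) (hne y hy)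
    set v : N := φ g x with hv
    have hvM : v ∈ M.map (φ g) := Subgroup.mem_map_of_mem _ x.2
    have hva : v • a = (y : N) • a := by
      show ((MulAut.conjNormal g (x : N) : N) : G) • a = _
      rw [MulAut.conjNormal_apply, mul_smul, mul_smul, inv_smul_eq_iff.2 g1.symm]
      exact g2
    have hvo : orderOf v = orderOf (x : N) := MulEquiv.orderOf_eq (MulAut.conjNormal g : MulAut N) (x : N)
    have hfree : ∀ (k : ℕ) (z : α), v ^ k • z = z → v ^ k = 1 := by
      intro k z hz
      have := hMfree _ (Subgroup.pow_mem _ x.2 k) (g⁻¹ • z) ?_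
      · rw [hv, ← map_pow, this, map_one]
      · show (((x : N) ^ k : N) : G) • g⁻¹ • z = g⁻¹ • z
        have hz' : ((MulAut.conjNormal g ((x : N) ^ k) : N) : G) • z = z := by
          rw [map_pow]; exact hz
        rw [MulAut.conjNormal_apply, mul_smul, mul_smul] at hz'
        rw [eq_inv_smul_iff]; exact hz'
    rw [← Subgroup.orderOf_coe x, ← Subgroup.orderOf_coe y, ← hvo]
    rcases (hconjmin g).2.2 with he | hc
    · have : (y : N)⁻¹ * v = 1 := hMfree _ (M.mul_mem (M.inv_mem y.2) (he ▸ hvM)) a (by rw [mul_smul, hva, inv_smul_smul])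
      rw [inv_mul_eq_one.1 this]
    · have hpow : ∀ k : ℕ, v ^ k • a = (y : N) ^ k • a := by
        intro k
        induction k with
        | zero => simp
        | succ k ih =>
          rw [pow_succ, mul_smul, hva, ← mul_smul, ← ((hc _ y.2 _ hvM).pow_right k).eq, mul_smul, ih, ← mul_smul, ← pow_succ']
      refine orderOf_eq_orderOf_iff.2 fun k => ⟨fun h => ?_, fun h => ?_⟩
      · refine hMfree _ (Subgroup.pow_mem _ y.2 k) a ?_
        rw [← hpow, h, one_smul]
      · refine hfree k a ?_
        rw [hpow, h, one_smul]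
  obtain ⟨p, hp, hexp, hZ⟩ := exponent_prime hord
  have hMab : ∀ u ∈ M, ∀ v ∈ M, Commute u v := by
    have h : (Subgroup.center M).map M.subtype = M := by
      by_contra hne
      exact hMmin _ ⟨inferInstance, fun h => hZ ((Subgroup.map_eq_bot_iff_of_injective _ M.subtype_injective).1 h)⟩
        (lt_of_le_of_ne (Subgroup.map_subtype_le _) hne)
    intro u hu v hv
    have hv' : (⟨v, hv⟩ : M) ∈ Subgroup.center M :=
      (Subgroup.mem_map_iff_mem M.subtype_injective).1 (show M.subtype ⟨v, hv⟩ ∈ _ from h.symm ▸ hv)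
    exact congrArg Subtype.val (Subgroup.mem_center_iff.1 hv' ⟨u, hu⟩)
  refine hg₀ ((Subgroup.eq_of_le_of_card_ge ?_ ?_))
  · intro v hv
    obtain ⟨m, hm⟩ := MulAction.exists_smul_eq M a (v • a)
    have hz : (m : N)⁻¹ * v = 1 := by
      apply Subtype.ext
      refine smul_eq_one_of_forall fun w => ?_
      obtain ⟨u, rfl⟩ := MulAction.exists_smul_eq M a w
      show ((m : N)⁻¹ * v) • (u : N) • a = (u : N) • a
      have hc : Commute ((m : N)⁻¹ * v) (u : N) :=
        Commute.mul_left (hMab _ m.2 _ u.2).inv_left (hcomm _ u.2 _ hv).symm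
      rw [← mul_smul, hc.eq, mul_smul, mul_smul (m : N)⁻¹, ← hm]
      exact congrArg _ (inv_smul_smul _ _)
    rw [← inv_mul_eq_one.1 hz]
    exact m.2
  · rw [Subgroup.card_map_of_injective (f := φ g₀) (MulAut.conjNormal g₀ : MulAut N).injective]

end Cfsg.Agent.S0700
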