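import Cfsg.Statements.S0701


set_option autoImplicit false
open Cfsg

namespace Cfsg.Agent.S0701

/-- The centraliser in the full symmetric group of a transitive permutation group `G` is semiregular, and it is transitive if and only if `G` is regular. -/
theorem result {α : Type*} (G : Subgroup (Equiv.Perm α)) [MulAction.IsPretransitive G α] : (∀ c ∈ Subgroup.centralizer (G : Set (Equiv.Perm α)), ∀ a : α, c a = a → c = 1) ∧ (MulAction.IsPretransitive (Subgroup.centralizer (G : Set (Equiv.Perm α))) α ↔ ∀ a : α, MulAction.stabilizer G a = ⊥) := by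
  have hcomm : ∀ c ∈ Subgroup.centralizer (G : Set (Equiv.Perm α)), ∀ (g : G) (x : α),
      c (g • x) = g • c x := by
    intro c hc g x
    have := Subgroup.mem_centralizer_iff.1 hc (g : Equiv.Perm α) g.2
    exact (congrArg (fun e : Equiv.Perm α => e x) this).symm
  refine ⟨fun c hc a ha => Equiv.ext fun b => ?_, ?_, ?_⟩
  · obtain ⟨g, rfl⟩ := MulAction.exists_smul_eq G a b
    rw [hcomm c hc g a, ha]
    rfl
  · intro ht a
    refine (Subgroup.eq_bot_iff_forall _).2 fun g hg => Subtype.ext (Equiv.ext fun b => ?_)
    obtain ⟨⟨c, hc⟩, rfl⟩ := ht.exists_smul_eq a b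
    show g • c a = c a
    rw [← hcomm c hc g a, MulAction.mem_stabilizer_iff.1 hg]
  · intro hreg
    have huniq : ∀ {a : α} {g g' : G}, g • a = g' • a → g = g' := by
      intro a g g' h
      have : g'⁻¹ * g ∈ MulAction.stabilizer G a := by
        rw [MulAction.mem_stabilizer_iff, mul_smul, h, inv_smul_smul]
      rw [hreg a, Subgroup.mem_bot, inv_mul_eq_one] at this
      exact this.symm
    refine ⟨fun a b => ?_⟩
    choose gg hgg using fun (p x : α) => MulAction.exists_smul_eq G p x
    let f : α → α → α → α := fun p q x => gg p x • q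
    have hf : ∀ (p q : α) (g : G), f p q (g • p) = g • q := fun p q g => by
      show gg p (g • p) • q = g • q
      rw [huniq (hgg p (g • p))]
    have hinv : ∀ p q x, f q p (f p q x) = x := fun p q x => by
      show f q p (gg p x • q) = x
      rw [hf, hgg]
    let c : Equiv.Perm α := ⟨f a b, f b a, hinv a b, hinv b a⟩
    have hc : c ∈ Subgroup.centralizer (G : Set (Equiv.Perm α)) := by
      rw [Subgroup.mem_centralizer_iff]
      intro h hh
      ext x
      obtain ⟨g, rfl⟩ := MulAction.exists_smul_eq G a x
      show h (f a b (g • a)) = f a b ((⟨h, hh⟩ : G) • g • a)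
      rw [← mul_smul, hf, hf, mul_smul]
      rfl
    refine ⟨⟨c, hc⟩, ?_⟩
    show f a b a = b
    have := hf a b 1
    simpa using this

end Cfsg.Agent.S0701
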