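import Cfsg.Statements.S0702
import Mathlib

set_option autoImplicit false
open Cfsg

namespace Cfsg.Agent.S0702

/-- For a transitive permutation group `G` on a finite set, the centraliser of `G` in the symmetric group is isomorphic to `N_G(G_ω)/G_ω`, and its orbit of `ω` is the set of fixed points of `G_ω`. -/
theorem result {α : Type*} [Finite α] (G : Subgroup (Equiv.Perm α)) [MulAction.IsPretransitive G α] (a : α) : Nonempty (Subgroup.centralizer (G : Set (Equiv.Perm α)) ≃* Subgroup.normalizer ((MulAction.stabilizer G a : Subgroup G) : Set G) ⧸ (MulAction.stabilizer G a).subgroupOf (Subgroup.normalizer ((MulAction.stabilizer G a : Subgroup G) : Set G))) ∧ MulAction.orbit (Subgroup.centralizer (G : Set (Equiv.Perm α))) a = MulAction.fixedPoints (MulAction.stabilizer G a) α := by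
  set S := MulAction.stabilizer G a with hS
  set N := Subgroup.normalizer (S : Set G) with hN
  set C := Subgroup.centralizer (G : Set (Equiv.Perm α)) with hC
  have hcomm : ∀ c ∈ C, ∀ (g : G) (x : α), c (g • x) = g • c x := by
    intro c hc g x
    exact (congrArg (fun e : Equiv.Perm α => e x)
      (Subgroup.mem_centralizer_iff.1 hc (g : Equiv.Perm α) g.2)).symm
  choose gg hgg using fun x : α => MulAction.exists_smul_eq G a x
  let f : N → α → α := fun n x => (gg x * (n : G)⁻¹) • a
  have hf : ∀ (n : N) (g : G), f n (g • a) = (g * (n : G)⁻¹) • a := by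
    intro n g
    have h1 : (gg (g • a))⁻¹ * g ∈ S := by
      rw [hS, MulAction.mem_stabilizer_iff, mul_smul, inv_smul_eq_iff, hgg]
    have h2 := (Subgroup.mem_normalizer_iff.1 n.2 ((gg (g • a))⁻¹ * g)).1 h1
    rw [hS, MulAction.mem_stabilizer_iff] at h2
    show (gg (g • a) * (n : G)⁻¹) • a = _
    conv_lhs => arg 2; rw [← h2]
    rw [← mul_smul]
    congr 1
    group
  have hmul : ∀ (n m : N) (x : α), f n (f m x) = f (n * m) x := by
    intro n m x
    obtain ⟨g, rfl⟩ := MulAction.exists_smul_eq G a x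
    rw [hf m, hf n, hf (n * m)]
    simp [mul_assoc]
  have hone : ∀ x : α, f 1 x = x := fun x => by
    show (gg x * (((1 : N) : G))⁻¹) • a = x
    simp [hgg]
  let c : N → Equiv.Perm α := fun n =>
    ⟨f n, f n⁻¹, fun x => by rw [hmul, inv_mul_cancel, hone],
      fun x => by rw [hmul, mul_inv_cancel, hone]⟩
  have hcC : ∀ n, c n ∈ C := by
    intro n
    rw [hC, Subgroup.mem_centralizer_iff]
    intro h hh
    ext x
    obtain ⟨g, rfl⟩ := MulAction.exists_smul_eq G a x
    show h (f n (g • a)) = f n ((⟨h, hh⟩ : G) • g • a)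
    rw [← mul_smul, hf, hf, mul_assoc, mul_smul]
    rfl
  let φ : N →* C := MonoidHom.mk' (fun n => ⟨c n, hcC n⟩) fun n m =>
    Subtype.ext (Equiv.ext fun x => (hmul n m x).symm)
  have hφa : ∀ n : N, ((φ n : C) : Equiv.Perm α) a = (n : G)⁻¹ • a := fun n => by
    have h4 : f n a = (n : G)⁻¹ • a := by simpa using hf n 1
    exact h4
  have hfix : ∀ g : G, (∀ s ∈ S, s • g • a = g • a) → g ∈ N := by
    intro g hg
    have h1 : S ≤ MulAction.stabilizer G (g • a) := fun s hs => hg s hs
    have h2 : S = MulAction.stabilizer G (g • a) := by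
      refine Subgroup.eq_of_le_of_card_ge h1 (le_of_eq ?_)
      rw [MulAction.stabilizer_smul_eq_stabilizer_map_conj,
        Subgroup.card_map_of_injective (MulAut.conj g).injective]
    rw [hN, Subgroup.mem_normalizer_iff]
    intro s
    conv_rhs => rw [h2]
    rw [hS, MulAction.mem_stabilizer_iff, MulAction.mem_stabilizer_iff, mul_smul, mul_smul,
      inv_smul_smul, smul_left_cancel_iff]
  have hsurj : Function.Surjective φ := by
    rintro ⟨d, hd⟩
    obtain ⟨g, hg⟩ := MulAction.exists_smul_eq G a (d a)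
    have hgN : g ∈ N := hfix g fun s hs => by
      rw [hg, ← hcomm d hd s a, MulAction.mem_stabilizer_iff.1 hs]
    refine ⟨⟨g, hgN⟩⁻¹, Subtype.ext (Equiv.ext fun x => ?_)⟩
    obtain ⟨k, rfl⟩ := MulAction.exists_smul_eq G a x
    rw [hcomm d hd, ← hg]
    show f _ (k • a) = _
    rw [hf, mul_smul]
    simp
  have hker : φ.ker = S.subgroupOf N := by
    ext n
    rw [MonoidHom.mem_ker, Subgroup.mem_subgroupOf, ← S.inv_mem_iff, hS,
      MulAction.mem_stabilizer_iff]
    constructor
    · intro h
      rw [← hφa n, h]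
      rfl
    · intro h
      refine Subtype.ext (Equiv.ext fun x => ?_)
      obtain ⟨k, rfl⟩ := MulAction.exists_smul_eq G a x
      show f n (k • a) = k • a
      rw [hf, mul_smul, h]
  refine ⟨⟨((QuotientGroup.quotientMulEquivOfEq hker.symm).trans
    (QuotientGroup.quotientKerEquivOfSurjective φ hsurj)).symm⟩, ?_⟩
  ext x
  constructor
  · rintro ⟨⟨d, hd⟩, rfl⟩
    rintro ⟨s, hs⟩
    show s • d a = d a
    rw [← hcomm d hd s a, MulAction.mem_stabilizer_iff.1 hs]
  · intro hx
    obtain ⟨g, rfl⟩ := MulAction.exists_smul_eq G a x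
    have hgN : g ∈ N := hfix g fun s hs => hx ⟨s, hs⟩
    refine ⟨φ ⟨g, hgN⟩⁻¹, ?_⟩
    show ((φ _ : C) : Equiv.Perm α) a = g • a
    rw [hφa]
    simp

end Cfsg.Agent.S0702
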