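import Cfsg.Statements.S0703
import Mathlib

set_option autoImplicit false
open Cfsg

namespace Cfsg.Agent.S0703

/-- An abelian transitive minimal normal subgroup `M` of a permutation group on a finite set is self-centralising in the symmetric group, regular, elementary abelian, and is the unique minimal normal subgroup. -/
theorem result {α : Type*} [Finite α] (G : Subgroup (Equiv.Perm α)) (M : Subgroup G) [M.Normal] (hM : M ≠ ⊥) (hmin : ∀ L : Subgroup G, L.Normal → L ≤ M → L = ⊥ ∨ L = M) (hab : IsMulCommutative M) (htrans : MulAction.IsPretransitive M α) : Subgroup.centralizer ((M.map G.subtype : Subgroup (Equiv.Perm α)) : Set (Equiv.Perm α)) = M.map G.subtype ∧ (∀ a : α, MulAction.stabilizer M a = ⊥) ∧ (∃ p : ℕ, p.Prime ∧ ∀ m ∈ M, m ^ p = 1) ∧ ∀ L : Subgroup G, L.Normal → L ≠ ⊥ → (∀ L' : Subgroup G, L'.Normal → L' ≤ L → L' = ⊥ ∨ L' = L) → L = M := by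
  classical
  haveI := htrans
  haveI := hab
  have hcomm : ∀ m ∈ M, ∀ n ∈ M, m * n = n * m := fun m hm n hn =>
    congrArg Subtype.val (mul_comm' (⟨m, hm⟩ : M) ⟨n, hn⟩)
  -- a permutation commuting with `M` and agreeing with an element of `M` somewhere lies in `M`
  have hreg : ∀ a : α, MulAction.stabilizer M a = ⊥ := by
    intro a
    refine (Subgroup.eq_bot_iff_forall _).2 fun m hm => ?_
    apply Subtype.ext
    apply Subtype.ext
    refine Equiv.ext fun x => ?_
    obtain ⟨n, rfl⟩ := MulAction.exists_smul_eq M a x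
    show m • n • a = n • a
    rw [smul_smul, mul_comm', mul_smul, MulAction.mem_stabilizer_iff.1 hm]
  have hcent : Subgroup.centralizer ((M.map G.subtype : Subgroup (Equiv.Perm α)) : Set (Equiv.Perm α)) =
      M.map G.subtype := by
    refine le_antisymm (fun c hc => ?_) ?_
    · rcases isEmpty_or_nonempty α with h | ⟨⟨a⟩⟩
      · rw [Subsingleton.elim c 1]; exact one_mem _
      obtain ⟨m, hm⟩ := MulAction.exists_smul_eq M a (c a)
      refine ⟨(m : G), m.2, Equiv.ext fun x => ?_⟩
      obtain ⟨n, rfl⟩ := MulAction.exists_smul_eq M a x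
      have h1 := congrArg (fun e : Equiv.Perm α => e a)
        (Subgroup.mem_centralizer_iff.1 hc ((n : G) : Equiv.Perm α) ⟨(n : G), n.2, rfl⟩)
      show m • n • a = c (n • a)
      refine Eq.trans ?_ h1
      rw [smul_smul, mul_comm', mul_smul, hm]
      rfl
    · rintro _ ⟨m, hm, rfl⟩
      rw [Subgroup.mem_centralizer_iff]
      rintro _ ⟨n, hn, rfl⟩
      rw [← map_mul, ← map_mul, hcomm n hn m hm]
  refine ⟨hcent, hreg, ?_, ?_⟩
  · haveI : Finite G := Subtype.finite
    haveI : Nontrivial M := (Subgroup.nontrivial_iff_ne_bot M).2 hM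
    obtain ⟨p, hp, hpdvd⟩ := Nat.exists_prime_and_dvd
      (show Nat.card M ≠ 1 from (Finite.one_lt_card (α := M)).ne')
    refine ⟨p, hp, ?_⟩
    haveI := Fact.mk hp
    obtain ⟨⟨x, hx⟩, hxo⟩ := exists_prime_orderOf_dvd_card' (G := M) p hpdvd
    rw [Subgroup.orderOf_mk] at hxo
    let L : Subgroup G :=
      { carrier := {m | m ∈ M ∧ m ^ p = 1}
        one_mem' := ⟨M.one_mem, one_pow p⟩
        mul_mem' := fun {a b} ha hb => ⟨M.mul_mem ha.1 hb.1, by
          rw [(show Commute a b from hcomm a ha.1 b hb.1).mul_pow, ha.2, hb.2, one_mul]⟩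
        inv_mem' := fun {a} ha => ⟨M.inv_mem ha.1, by rw [inv_pow, ha.2, inv_one]⟩ }
    have hLn : L.Normal := ⟨fun m hm g => ⟨‹M.Normal›.conj_mem m hm.1 g, by
      rw [conj_pow, hm.2, mul_one, mul_inv_cancel]⟩⟩
    rcases hmin L hLn (fun m hm => hm.1) with h | h
    · have : x ∈ L := ⟨hx, by rw [← hxo, pow_orderOf_eq_one]⟩
      rw [h, Subgroup.mem_bot] at this
      rw [this, orderOf_one] at hxo
      exact absurd hxo.symm hp.ne_one
    · intro m hm
      rw [← h] at hm
      exact hm.2
  · intro L hL hLne hLmin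
    by_contra hne
    have hinf : L ⊓ M = ⊥ := by
      haveI := hL
      rcases hmin (L ⊓ M) inferInstance inf_le_right with h | h
      · exact h
      · rcases hLmin M ‹_› (inf_eq_right.1 h) with h' | h'
        · exact absurd h' hM
        · exact absurd h'.symm hne
    apply hne
    have hle : L ≤ M := by
      intro l hl
      have h1 : (l : Equiv.Perm α) ∈
          Subgroup.centralizer ((M.map G.subtype : Subgroup (Equiv.Perm α)) : Set (Equiv.Perm α)) := by
        rw [Subgroup.mem_centralizer_iff]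
        rintro _ ⟨m, hm, rfl⟩
        have := Subgroup.commute_of_normal_of_disjoint L M hL ‹_› (disjoint_iff.2 hinf) l m hl hm
        exact congrArg Subtype.val this.eq.symm
      rw [hcent] at h1
      obtain ⟨m, hm, hml⟩ := h1
      rwa [← show m = l from Subtype.ext hml]
    rcases hmin L hL hle with h | h
    · exact absurd h hLne
    · exact h

end Cfsg.Agent.S0703
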