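import Cfsg.Statements.S0704
import Mathlib

set_option autoImplicit false
open Cfsg

namespace Cfsg.Agent.S0704

/-- Two distinct transitive minimal normal subgroups `M`, `N` of a permutation group are regular, non-abelian, isomorphic, each other's centraliser in the symmetric group, and the only minimal normal subgroups. -/
theorem result {α : Type*} (G : Subgroup (Equiv.Perm α)) (M N : Subgroup G) [M.Normal] [N.Normal] (hM : M ≠ ⊥) (hN : N ≠ ⊥) (hMmin : ∀ L : Subgroup G, L.Normal → L ≤ M → L = ⊥ ∨ L = M) (hNmin : ∀ L : Subgroup G, L.Normal → L ≤ N → L = ⊥ ∨ L = N) (hMN : M ≠ N) (hMt : MulAction.IsPretransitive M α) (hNt : MulAction.IsPretransitive N α) : (∀ a : α, MulAction.stabilizer M a = ⊥) ∧ (∀ a : α, MulAction.stabilizer N a = ⊥) ∧ ¬ IsMulCommutative M ∧ Nonempty (M ≃* N) ∧ Subgroup.centralizer ((M.map G.subtype : Subgroup (Equiv.Perm α)) : Set (Equiv.Perm α)) = N.map G.subtype ∧ Subgroup.centralizer ((N.map G.subtype : Subgroup (Equiv.Perm α)) : Set (Equiv.Perm α)) = M.map G.subtype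 ∧ ∀ L : Subgroup G, L.Normal → L ≠ ⊥ → (∀ L' : Subgroup G, L'.Normal → L' ≤ L → L' = ⊥ ∨ L' = L) → L = M ∨ L = N := by
  classical
  have hinf : ∀ {A B : Subgroup G}, A.Normal → B.Normal →
      (∀ L : Subgroup G, L.Normal → L ≤ A → L = ⊥ ∨ L = A) →
      (∀ L : Subgroup G, L.Normal → L ≤ B → L = ⊥ ∨ L = B) → A ≠ ⊥ → A ≠ B →
      ∀ a ∈ A, ∀ b ∈ B, a * b = b * a := by
    intro A B hA hB hAmin hBmin hAne hAB a ha b hb
    haveI := hA; haveI := hB
    refine (Subgroup.commute_of_normal_of_disjoint A B hA hB (disjoint_iff.2 ?_) a b ha hb).eq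
    rcases hAmin (A ⊓ B) inferInstance inf_le_left with h | h
    · exact h
    · rcases hBmin A hA (inf_eq_left.1 h) with h' | h'
      · exact absurd h' hAne
      · exact absurd h' hAB
  have hcomm := hinf ‹M.Normal› ‹N.Normal› hMmin hNmin hM hMN
  have hα : Nonempty α := by
    by_contra h
    rw [not_nonempty_iff] at h
    exact hM ((Subgroup.eq_bot_iff_forall _).2 fun x _ => Subtype.ext (Subsingleton.elim _ _))
  obtain ⟨a⟩ := hα
  -- a permutation commuting with a transitive group is determined by one value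
  have hdet : ∀ (A : Subgroup G), MulAction.IsPretransitive A α → ∀ c d : Equiv.Perm α,
      (∀ x ∈ A, (x : Equiv.Perm α) * c = c * x) → (∀ x ∈ A, (x : Equiv.Perm α) * d = d * x) →
      ∀ p : α, c p = d p → c = d := by
    intro A hA c d hc hd p hp
    refine Equiv.ext fun q => ?_
    obtain ⟨⟨x, hx⟩, rfl⟩ := hA.exists_smul_eq p q
    show c ((x : Equiv.Perm α) p) = d ((x : Equiv.Perm α) p)
    rw [← Equiv.Perm.mul_apply, ← hc x hx, ← Equiv.Perm.mul_apply, ← hd x hx,
      Equiv.Perm.mul_apply, Equiv.Perm.mul_apply, hp]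
  have hregM : ∀ p : α, MulAction.stabilizer M p = ⊥ := fun p =>
    (Subgroup.eq_bot_iff_forall _).2 fun m hm => Subtype.ext (Subtype.ext
      (hdet N hNt _ 1 (fun x hx => congrArg Subtype.val (hcomm m m.2 x hx).symm)
        (fun x _ => by rw [mul_one, one_mul]) p hm))
  have hregN : ∀ p : α, MulAction.stabilizer N p = ⊥ := fun p =>
    (Subgroup.eq_bot_iff_forall _).2 fun m hm => Subtype.ext (Subtype.ext
      (hdet M hMt _ 1 (fun x hx => congrArg Subtype.val (hcomm x hx m m.2))
        (fun x _ => by rw [mul_one, one_mul]) p hm))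
  have hcent : ∀ (A B : Subgroup G), MulAction.IsPretransitive A α → MulAction.IsPretransitive B α →
      (∀ x ∈ A, ∀ y ∈ B, x * y = y * x) →
      Subgroup.centralizer ((A.map G.subtype : Subgroup (Equiv.Perm α)) : Set (Equiv.Perm α)) =
        B.map G.subtype := by
    intro A B hA hB hAB
    refine le_antisymm (fun c hc => ?_) ?_
    · obtain ⟨⟨y, hy⟩, hya⟩ := hB.exists_smul_eq a (c a)
      refine ⟨y, hy, hdet A hA _ c (fun x hx => congrArg Subtype.val (hAB x hx y hy))
        (fun x hx => Subgroup.mem_centralizer_iff.1 hc _ ⟨x, hx, rfl⟩) a hya⟩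
    · rintro _ ⟨y, hy, rfl⟩
      rw [Subgroup.mem_centralizer_iff]
      rintro _ ⟨x, hx, rfl⟩
      rw [← map_mul, ← map_mul, hAB x hx y hy]
  have hCM := hcent M N hMt hNt hcomm
  have hCN := hcent N M hNt hMt fun x hx y hy => (hcomm y hy x hx).symm
  refine ⟨hregM, hregN, ?_, ?_, hCM, hCN, ?_⟩
  · intro hab
    have hle : M ≤ N := by
      intro m hm
      have h1 : (m : Equiv.Perm α) ∈
          Subgroup.centralizer ((M.map G.subtype : Subgroup (Equiv.Perm α)) : Set (Equiv.Perm α)) := by
        rw [Subgroup.mem_centralizer_iff]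
        rintro _ ⟨x, hx, rfl⟩
        haveI := hab
        exact congrArg (fun z : M => ((z : G) : Equiv.Perm α)) (mul_comm' (⟨x, hx⟩ : M) ⟨m, hm⟩)
      rw [hCM] at h1
      obtain ⟨n, hn, hnm⟩ := h1
      rwa [← show n = m from Subtype.ext hnm]
    rcases hNmin M ‹_› hle with h | h
    exacts [hM h, hMN h]
  · have hinjM : ∀ m m' : M, m • a = m' • a → m = m' := by
      intro m m' h
      have : m'⁻¹ * m ∈ MulAction.stabilizer M a := by
        rw [MulAction.mem_stabilizer_iff, mul_smul, h, inv_smul_smul]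
      rw [hregM a, Subgroup.mem_bot, inv_mul_eq_one] at this
      exact this.symm
    have hinjN : ∀ m m' : N, m • a = m' • a → m = m' := by
      intro m m' h
      have : m'⁻¹ * m ∈ MulAction.stabilizer N a := by
        rw [MulAction.mem_stabilizer_iff, mul_smul, h, inv_smul_smul]
      rw [hregN a, Subgroup.mem_bot, inv_mul_eq_one] at this
      exact this.symm
    choose φ hφ using fun m : M => hNt.exists_smul_eq a (m⁻¹ • a)
    have hsw : ∀ (m : M) (n : N) (x : α), n • m • x = m • n • x := fun m n x => by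
      show ((n : G) : Equiv.Perm α) (((m : G) : Equiv.Perm α) x) =
        ((m : G) : Equiv.Perm α) (((n : G) : Equiv.Perm α) x)
      rw [← Equiv.Perm.mul_apply, ← Equiv.Perm.mul_apply, ← Subgroup.coe_mul, ← Subgroup.coe_mul,
        hcomm m m.2 n n.2]
    refine ⟨MulEquiv.ofBijective (MonoidHom.mk' φ fun x y => hinjN _ _ ?_) ⟨?_, ?_⟩⟩
    · rw [hφ, mul_smul (φ x), hφ, hsw, hφ, mul_inv_rev, mul_smul]
    · intro x y hxy
      have h1 : φ x = φ y := hxy
      have h2 := hφ x
      rw [h1, hφ] at h2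
      exact inv_injective (hinjM _ _ h2).symm
    · intro n
      obtain ⟨m, hm⟩ := hMt.exists_smul_eq a (n • a)
      exact ⟨m⁻¹, hinjN _ _ (by rw [MonoidHom.mk'_apply, hφ, inv_inv, hm])⟩
  · intro L hL hLne hLmin
    by_contra hne
    push Not at hne
    have h1 := hinf hL ‹M.Normal› hLmin hMmin hLne hne.1
    have hle : L ≤ N := by
      intro l hl
      have h3 : (l : Equiv.Perm α) ∈
          Subgroup.centralizer ((M.map G.subtype : Subgroup (Equiv.Perm α)) : Set (Equiv.Perm α)) := by
        rw [Subgroup.mem_centralizer_iff]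
        rintro _ ⟨m, hm, rfl⟩
        exact congrArg Subtype.val (h1 l hl m hm).symm
      rw [hCM] at h3
      obtain ⟨n, hn, hnl⟩ := h3
      rwa [← show n = l from Subtype.ext hnl]
    rcases hNmin L hL hle with h | h
    exacts [hLne h, hne.2 h]

end Cfsg.Agent.S0704
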