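import Cfsg.Statements.S0705
import Mathlib

set_option autoImplicit false
open scoped Pointwise
open Cfsg

namespace Cfsg.Agent.S0705

open scoped Pointwise

/-- A generously `k`-transitive permutation group (every `(k+1)`-subset has its full symmetric group induced by the setwise stabiliser) of degree greater than `k` is `k`-transitive, and for a `k`-subset the setwise and pointwise stabilisers have the same orbits outside it. -/
theorem result {α : Type*} [Fintype α] [DecidableEq α] (G : Subgroup (Equiv.Perm α)) {k : ℕ} (hk : k < Fintype.card α) (hgen : ∀ s : Finset α, s.card = k + 1 → ∀ σ : Equiv.Perm ↥s, ∃ g ∈ G, ∀ x : ↥s, g (x : α) = σ x) : MulAction.IsMultiplyPretransitive G α k ∧ ∀ s : Finset α, s.card = k → ∀ a b : α, a ∉ s → b ∉ s → (∃ g ∈ G, g • s = s ∧ g a = b) → ∃ g ∈ G, (∀ x ∈ s, g x = x) ∧ g a = b := by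
  have ext1 : ∀ t : Finset α, t.card ≤ k + 1 → ∃ s : Finset α, t ⊆ s ∧ s.card = k + 1 :=
    fun t ht => by
      obtain ⟨s, h1, -, h3⟩ := Finset.exists_subsuperset_card_eq (t.subset_univ) ht
        (by rw [Finset.card_univ]; omega)
      exact ⟨s, h1, h3⟩
  refine ⟨⟨fun x y => ?_⟩, ?_⟩
  · suffices H : ∀ n (x : Fin k ↪ α), (Finset.univ.filter fun i => x i ≠ y i).card ≤ n →
        ∃ g : G, g • x = y from H _ x le_rfl
    intro n
    induction n with
    | zero =>
      intro x hx
      refine ⟨1, ?_⟩
      ext i
      show (1 : G) • x i = y i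
      rw [one_smul]
      by_contra hne
      have : i ∈ Finset.univ.filter (fun i => x i ≠ y i) := by simp [hne]
      rw [Finset.card_eq_zero.1 (Nat.le_zero.1 hx)] at this
      simp at this
    | succ n ih =>
      intro x hx
      by_cases hall : ∀ i, x i = y i
      · exact ⟨1, by ext i; show (1 : G) • x i = y i; rw [one_smul]; exact hall i⟩
      push Not at hall
      obtain ⟨i, hi⟩ := hall
      obtain ⟨s, hs, hscard⟩ := ext1 (insert (y i) (Finset.univ.map x))
        (le_trans (Finset.card_insert_le _ _) (by simp))
      have hxi : x i ∈ s := hs (Finset.mem_insert_of_mem (by simp))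
      have hyi : y i ∈ s := hs (Finset.mem_insert_self _ _)
      obtain ⟨g, hgG, hg⟩ := hgen s hscard (Equiv.swap ⟨x i, hxi⟩ ⟨y i, hyi⟩)
      have hgx : ∀ j, g (x j) = Equiv.swap (x i) (y i) (x j) := by
        intro j
        have hxj : x j ∈ s := hs (Finset.mem_insert_of_mem (by simp))
        rw [hg ⟨x j, hxj⟩]
        simp only [Equiv.swap_apply_def, Subtype.ext_iff]
        split_ifs <;> rfl
      obtain ⟨h, hh⟩ := ih ((⟨g, hgG⟩ : G) • x) (by
        have hsub : (Finset.univ.filter fun j => ((⟨g, hgG⟩ : G) • x) j ≠ y j) ⊆
            (Finset.univ.filter fun j => x j ≠ y j).erase i := by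
          intro j hj
          simp only [Finset.mem_filter, Finset.mem_univ, true_and, Finset.mem_erase] at hj ⊢
          have hval : ((⟨g, hgG⟩ : G) • x) j = g (x j) := rfl
          rw [hval, hgx] at hj
          refine ⟨?_, ?_⟩
          · rintro rfl
            exact hj (Equiv.swap_apply_left _ _)
          · intro hxy
            apply hj
            rw [Equiv.swap_apply_of_ne_of_ne, hxy]
            · intro e
              have := x.injective e
              exact hi (this ▸ hxy)
            · intro e
              rw [hxy] at e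
              have := y.injective e
              exact hi (this ▸ hxy)
        have := Finset.card_le_card hsub
        rw [Finset.card_erase_of_mem (by simp [hi])] at this
        omega)
      refine ⟨h * ⟨g, hgG⟩, ?_⟩
      rw [← hh]
      ext j
      rfl
  · rintro s hs a b ha hb ⟨g, hg, hgs, hgab⟩
    have hmem : ∀ x, x ∈ s → g⁻¹ x ∈ s := by
      intro x hx
      rw [← hgs, Finset.mem_smul_finset] at hx
      obtain ⟨z, hz, rfl⟩ := hx
      simpa using hz
    let τ : Equiv.Perm α := g⁻¹
    have hinj : Function.Injective (fun x : α => if x ∈ s then g⁻¹ x else x) := by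
      intro x y e
      simp only at e
      split_ifs at e with h1 h2
      · exact (g⁻¹).injective e
      · exact absurd (e ▸ hmem x h1) h2
      · rename_i h2
        exact absurd (e.symm ▸ hmem y h2) h1
      · exact e
    let t := insert b s
    let f : ↥t → ↥t := fun x => ⟨if (x : α) ∈ s then g⁻¹ x else x, by
      by_cases h : (x : α) ∈ s
      · rw [if_pos h]; exact Finset.mem_insert_of_mem (hmem _ h)
      · rw [if_neg h]; exact x.2⟩
    have hf : Function.Injective f := fun x y e =>
      Subtype.ext (hinj (congrArg Subtype.val e))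
    obtain ⟨g', hg', hg'eq⟩ := hgen t (by rw [Finset.card_insert_of_notMem hb, hs])
      (Equiv.ofBijective f ⟨hf, Finite.injective_iff_surjective.1 hf⟩)
    refine ⟨g' * g, mul_mem hg' hg, fun x hx => ?_, ?_⟩
    · have hgx : g x ∈ s := by
        rw [← hgs]
        exact Finset.smul_mem_smul_finset hx
      have := hg'eq ⟨g x, Finset.mem_insert_of_mem hgx⟩
      rw [Equiv.Perm.mul_apply, this]
      show (if g x ∈ s then g⁻¹ (g x) else g x) = x
      rw [if_pos hgx]
      simp
    · have := hg'eq ⟨b, Finset.mem_insert_self _ _⟩
      rw [Equiv.Perm.mul_apply, hgab, this]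
      show (if b ∈ s then g⁻¹ b else b) = b
      rw [if_neg hb]

end Cfsg.Agent.S0705
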