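import Cfsg.Statements.S0706
import Mathlib

set_option autoImplicit false
set_option maxHeartbeats 800000
open Cfsg

namespace Cfsg.Agent.S0706


section
variable {α : Type*} [Fintype α] [DecidableEq α] {G : Subgroup (Equiv.Perm α)} {k : ℕ}

theorem gen (hgen : ∀ s : Finset α, s.card = k + 1 → ∀ σ : Equiv.Perm ↥s, ∃ g ∈ G, ∀ x : ↥s, g (x : α) = σ x)
    (s : Finset α) (hs : s.card = k + 1) (π : Equiv.Perm α) (hπ : ∀ x, π x ∈ s ↔ x ∈ s) :
    ∃ g : G, ∀ x ∈ s, g • x = π x := by
  obtain ⟨g, hg, h⟩ := hgen s hs (π.subtypePerm hπ)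
  exact ⟨⟨g, hg⟩, fun x hx => h ⟨x, hx⟩⟩

theorem move (hgen : ∀ s : Finset α, s.card = k + 1 → ∀ σ : Equiv.Perm ↥s, ∃ g ∈ G, ∀ x : ↥s, g (x : α) = σ x)
    (Γ : Finset α) (hΓ : Γ.card = k) : ∀ n : ℕ, ∀ Γ' : Finset α, Γ'.card = k → (Γ' \ Γ).card = n →
    ∃ g : G, Γ'.image (fun x => g • x) = Γ := by
  intro n
  induction n with
  | zero =>
    intro Γ' hc h0
    refine ⟨1, ?_⟩
    simp only [one_smul, Finset.image_id']
    exact Finset.eq_of_subset_of_card_le (Finset.sdiff_eq_empty_iff_subset.mp (Finset.card_eq_zero.mp h0)) (by omega)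
  | succ n ih =>
    intro Γ' hc hn
    obtain ⟨a, ha⟩ := Finset.card_pos.mp (show 0 < (Γ' \ Γ).card by omega)
    rw [Finset.mem_sdiff] at ha
    obtain ⟨b, hb, hb'⟩ : ∃ b ∈ Γ, b ∉ Γ' := by
      by_contra h
      push Not at h
      exact ha.2 (Finset.eq_of_subset_of_card_le h (by omega) ▸ ha.1)
    obtain ⟨g, hg⟩ := gen hgen (insert b Γ') (by rw [Finset.card_insert_of_notMem hb', hc]) (Equiv.swap a b)
      (fun x => by
        by_cases h1 : x = a
        · subst h1; simp [ha.1]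
        · by_cases h2 : x = b
          · subst h2; simp [ha.1]
          · rw [Equiv.swap_apply_of_ne_of_ne h1 h2])
    have hab : a ≠ b := fun h => ha.2 (h ▸ hb)
    have e : Γ'.image (fun x => g • x) = insert b (Γ'.erase a) := by
      ext y
      simp only [Finset.mem_image, Finset.mem_insert, Finset.mem_erase]
      constructor
      · rintro ⟨x, hx, rfl⟩
        rw [hg x (Finset.mem_insert_of_mem hx)]
        by_cases h1 : x = a
        · subst h1; exact Or.inl (Equiv.swap_apply_left x b)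
        · rw [Equiv.swap_apply_of_ne_of_ne h1 (fun h => hb' (by rw [← h]; exact hx))]; exact Or.inr ⟨h1, hx⟩
      · rintro (rfl | ⟨h1, hy⟩)
        · exact ⟨a, ha.1, by rw [hg a (Finset.mem_insert_of_mem ha.1), Equiv.swap_apply_left]⟩
        · exact ⟨y, hy, by rw [hg y (Finset.mem_insert_of_mem hy), Equiv.swap_apply_of_ne_of_ne h1 (fun h => hb' (by rw [← h]; exact hy))]⟩
    have hd : (Γ'.image (fun x => g • x)) \ Γ = (Γ' \ Γ).erase a := by
      rw [e]
      ext y
      simp only [Finset.mem_sdiff, Finset.mem_insert, Finset.mem_erase]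
      constructor
      · rintro ⟨rfl | h, hy⟩
        · exact absurd hb hy
        · exact ⟨h.1, h.2, hy⟩
      · rintro ⟨h1, h2, h3⟩
        exact ⟨Or.inr ⟨h1, h2⟩, h3⟩
    obtain ⟨g', hg'⟩ := ih _ (by rw [Finset.card_image_of_injective _ (MulAction.injective g), hc])
      (by rw [hd, Finset.card_erase_of_mem (Finset.mem_sdiff.mpr ha), hn]; omega)
    refine ⟨g' * g, ?_⟩
    rw [← hg', Finset.image_image]
    simp only [Function.comp_def, mul_smul]

/-- Elements preserving `C` and fixing `D` pointwise. -/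
def sub (G : Subgroup (Equiv.Perm α)) (C D : Finset α) : Subgroup G where
  carrier := {g | (∀ x, g • x ∈ C ↔ x ∈ C) ∧ ∀ x ∈ D, g • x = x}
  one_mem' := ⟨fun x => by rw [one_smul], fun x _ => one_smul _ x⟩
  mul_mem' := fun {a b} ha hb => ⟨fun x => by rw [mul_smul, ha.1, hb.1],
    fun x hx => by rw [mul_smul, hb.2 x hx, ha.2 x hx]⟩
  inv_mem' := fun {a} ha => ⟨fun x => by rw [← ha.1, smul_inv_smul],
    fun x hx => by conv_lhs => rw [← ha.2 x hx, inv_smul_smul]⟩

end


/-- In a generously `k`-transitive permutation group, for a prime `p ≤ k` and a `k`-set `Γ`, there are no `p` points outside `Γ` lying in distinct orbits of the pointwise stabiliser of `Γ` all of length prime to `p` (at most `p - 1` such orbits). -/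
theorem result {α : Type*} [Fintype α] [DecidableEq α] (G : Subgroup (Equiv.Perm α)) {k : ℕ} (hk : k < Fintype.card α) (hgen : ∀ s : Finset α, s.card = k + 1 → ∀ σ : Equiv.Perm ↥s, ∃ g ∈ G, ∀ x : ↥s, g (x : α) = σ x) {p : ℕ} (hp : p.Prime) (hpk : p ≤ k) (Γ : Finset α) (hΓ : Γ.card = k) (f : Fin p → α) (hf : ∀ i, f i ∉ Γ) (hdist : ∀ i j, i ≠ j → f j ∉ MulAction.orbit (fixingSubgroup G (Γ : Set α)) (f i)) : ∃ i, p ∣ Nat.card (MulAction.orbit (fixingSubgroup G (Γ : Set α)) (f i)) := by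
  classical
  by_contra hcon
  push Not at hcon
  have hfact := Fact.mk hp
  obtain ⟨C, hCΓ, hC⟩ := Finset.exists_subset_card_eq (show p ≤ Γ.card by omega)
  set K := sub G C (Γ \ C) with hK
  have hKmem : ∀ g : G, g ∈ K ↔ (∀ x, g • x ∈ C ↔ x ∈ C) ∧ ∀ x ∈ Γ \ C, g • x = x := fun g => Iff.rfl
  set H := fixingSubgroup G (Γ : Set α) with hH
  let φ : K →* Equiv.Perm C :=
    { toFun := fun g => ((g : G) : Equiv.Perm α).subtypePerm g.2.1
      map_one' := rfl
      map_mul' := fun _ _ => rfl }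
  have hπC : ∀ (σ : Equiv.Perm C) (x : α), Equiv.Perm.ofSubtype σ x ∈ C ↔ x ∈ C := fun σ x => by
    by_cases hx : x ∈ C
    · rw [Equiv.Perm.ofSubtype_apply_of_mem σ hx]; simp [hx]
    · rw [Equiv.Perm.ofSubtype_apply_of_not_mem σ hx]
  -- lifting with a fixed further point
  have hlift : ∀ (σ : Equiv.Perm C) (β : α), β ∉ Γ → ∃ g : K, φ g = σ ∧ (g : G) • β = β := by
    intro σ β hβ
    have hfix : ∀ x, x ∉ C → Equiv.Perm.ofSubtype σ x = x := fun x hx =>
      Equiv.Perm.ofSubtype_apply_of_not_mem σ hx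
    obtain ⟨g, hg⟩ := gen hgen (insert β Γ) (by rw [Finset.card_insert_of_notMem hβ, hΓ])
      (Equiv.Perm.ofSubtype σ) (fun x => by
        by_cases hx : x ∈ C
        · simp [Finset.mem_insert, hCΓ hx, hCΓ ((hπC σ x).mpr hx)]
        · rw [hfix x hx])
    have h1 : ∀ x ∈ C, g • x = Equiv.Perm.ofSubtype σ x := fun x hx => hg x (Finset.mem_insert_of_mem (hCΓ hx))
    have hgC : g ∈ K := by
      refine (hKmem g).mpr ⟨fun x => ⟨fun hx => ?_, fun hx => by rw [h1 x hx, hπC]; exact hx⟩, fun x hx => ?_⟩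
      · obtain ⟨y, hy⟩ := (Equiv.Perm.ofSubtype σ).surjective (g • x)
        have hyC : y ∈ C := (hπC σ y).mp (hy ▸ hx)
        rw [← h1 y hyC] at hy
        exact (MulAction.injective g hy) ▸ hyC
      · rw [Finset.mem_sdiff] at hx
        rw [hg x (Finset.mem_insert_of_mem hx.1), hfix x hx.2]
    refine ⟨⟨g, hgC⟩, Equiv.ext fun x => Subtype.ext ?_, ?_⟩
    · show g • (x : α) = _
      rw [h1 x x.2, Equiv.Perm.ofSubtype_apply_of_mem σ x.2]
    · rw [hg β (Finset.mem_insert_self _ _), hfix β fun h => hβ (hCΓ h)]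
  have i₀ : Fin p := ⟨0, hp.pos⟩
  have hφ : Function.Surjective φ := fun σ => (hlift σ (f i₀) (hf i₀)).imp fun g h => h.1
  have hmemH : ∀ g : G, g ∈ H ↔ ∀ x ∈ Γ, g • x = x := fun g => mem_fixingSubgroup_iff G
  have hHK : H ≤ K := fun g hg => (hKmem g).mpr ⟨fun x => by
    constructor <;> intro h
    · have := (hmemH g).mp hg (g • x) (hCΓ h)
      rwa [MulAction.injective g this] at h
    · rwa [(hmemH g).mp hg x (hCΓ h)],
    fun x hx => (hmemH g).mp hg x (Finset.mem_sdiff.mp hx).1⟩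
  have hker : φ.ker = H.subgroupOf K := by
    ext g
    rw [MonoidHom.mem_ker, Subgroup.mem_subgroupOf, hmemH]
    constructor
    · intro h x hx
      by_cases hxC : x ∈ C
      · exact congrArg Subtype.val (Equiv.congr_fun h ⟨x, hxC⟩)
      · exact g.2.2 x (Finset.mem_sdiff.mpr ⟨hx, hxC⟩)
    · exact fun h => Equiv.ext fun x => Subtype.ext (h x (hCΓ x.2))
  have hcardK : Nat.card K = p.factorial * Nat.card H := by
    rw [Subgroup.card_eq_card_quotient_mul_card_subgroup φ.ker,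
      Nat.card_congr (QuotientGroup.quotientKerEquivOfSurjective φ hφ).toEquiv, hker,
      Nat.card_congr (Subgroup.subgroupOfEquivOfLe hHK).toEquiv, Nat.card_perm, Nat.card_eq_fintype_card,
      Fintype.card_coe, hC]
  set v := (Nat.card H).factorization p with hv
  obtain ⟨Q, hQ⟩ := Sylow.exists_subgroup_card_pow_prime (G := K) p (n := v + 1) (by
    rw [hcardK, pow_succ']
    exact mul_dvd_mul (Nat.dvd_factorial hp.pos le_rfl) (Nat.ordProj_dvd _ _))
  have hQp : IsPGroup p Q := IsPGroup.of_card hQ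
  have hinv : ∀ (g : K) (β x : α), β ∉ Γ → x ∈ MulAction.orbit H β → (g : G) • x ∈ MulAction.orbit H β := by
    rintro g β _ hβ ⟨h₀, rfl⟩
    obtain ⟨g', hg', hgβ⟩ := hlift (φ g) β hβ
    have hk : ((g'⁻¹ * g : K) : G) ∈ H := by
      have : g'⁻¹ * g ∈ φ.ker := by rw [MonoidHom.mem_ker, map_mul, map_inv, hg', inv_mul_cancel]
      rwa [hker, Subgroup.mem_subgroupOf] at this
    have hn : ∀ h ∈ H, (g' : G) * h * (g' : G)⁻¹ ∈ H := by
      intro h hh
      have : (g' * ⟨h, hHK hh⟩ * g'⁻¹ : K) ∈ φ.ker := by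
        have h1 : (⟨h, hHK hh⟩ : K) ∈ φ.ker := by rw [hker, Subgroup.mem_subgroupOf]; exact hh
        exact (MonoidHom.normal_ker φ).conj_mem _ h1 g'
      rwa [hker, Subgroup.mem_subgroupOf] at this
    refine ⟨⟨_, hn _ (mul_mem hk h₀.2)⟩, ?_⟩
    show ((g' : G) * (((g'⁻¹ * g : K) : G) * (h₀ : G)) * (g' : G)⁻¹) • β = (g : G) • ((h₀ : G) • β)
    have hgβ' : (g' : G)⁻¹ • β = β := by conv_lhs => rw [← hgβ, inv_smul_smul]
    rw [mul_smul, hgβ', ← mul_smul]
    congr 1
    rw [Subgroup.coe_mul, Subgroup.coe_inv]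
    group
  have hfix : ∀ i, ∃ β ∈ MulAction.orbit H (f i), ∀ g ∈ Q, (g : G) • β = β := by
    intro i
    let : MulAction Q (MulAction.orbit H (f i)) :=
      { smul := fun g x => ⟨((g : K) : G) • (x : α), hinv g _ _ (hf i) x.2⟩
        one_smul := fun x => Subtype.ext (one_smul G (x : α))
        mul_smul := fun g h x => Subtype.ext (mul_smul ((g : K) : G) ((h : K) : G) (x : α)) }
    obtain ⟨β, hβ⟩ := hQp.nonempty_fixed_point_of_prime_not_dvd_card (MulAction.orbit H (f i)) (hcon i)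
    exact ⟨β, β.2, fun g hg => congrArg Subtype.val (hβ ⟨g, hg⟩)⟩
  choose β hβo hβQ using hfix
  have hβΓ : ∀ i, β i ∉ Γ := by
    intro i hi
    obtain ⟨h, hh⟩ := hβo i
    have hh' : (h : G) • f i = β i := hh
    have h1 := (hmemH h).mp h.2 (β i) hi
    exact hf i (by rw [MulAction.injective (h : G) (hh'.trans h1.symm)]; exact hi)
  have hβinj : Function.Injective β := fun i j e => by
    by_contra hij
    refine hdist i j hij ?_
    have := hβo j
    rw [← e, ← MulAction.orbit_eq_iff, (MulAction.orbit_eq_iff).mpr (hβo i)] at this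
    exact this ▸ MulAction.mem_orbit_self _
  set Γ' := (Γ \ C) ∪ Finset.univ.image β with hΓ'
  have hdisj : Disjoint (Γ \ C) (Finset.univ.image β) := by
    rw [Finset.disjoint_left]
    intro x hx hx'
    obtain ⟨i, -, rfl⟩ := Finset.mem_image.mp hx'
    exact hβΓ i (Finset.mem_sdiff.mp hx).1
  obtain ⟨g, hg⟩ := move hgen Γ hΓ _ Γ' (by
    rw [hΓ', Finset.card_union_of_disjoint hdisj, Finset.card_image_of_injective _ hβinj,
      Finset.card_sdiff_of_subset hCΓ, hC, hΓ, Finset.card_univ, Fintype.card_fin]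
    omega) rfl
  have hle : (Q.map K.subtype).map (MulAut.conj g).toMonoidHom ≤ H := by
    rintro _ ⟨_, ⟨q, hq, rfl⟩, rfl⟩
    rw [hmemH]
    intro x hx
    rw [← hg] at hx
    obtain ⟨y, hy, rfl⟩ := Finset.mem_image.mp hx
    show (g * (q : G) * g⁻¹) • g • y = g • y
    rw [mul_smul, inv_smul_smul, mul_smul]
    congr 1
    rcases Finset.mem_union.mp hy with h | h
    · exact q.2.2 y h
    · obtain ⟨i, -, rfl⟩ := Finset.mem_image.mp h
      exact hβQ i q hq
  have hd := Subgroup.card_dvd_of_le hle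
  rw [Subgroup.card_map_of_injective (MulAut.conj g).injective, Subgroup.card_map_of_injective K.subtype_injective, hQ] at hd
  exact absurd ((hp.pow_dvd_iff_le_factorization (Nat.card_pos.ne')).mp hd) (by omega)

end Cfsg.Agent.S0706
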