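import Cfsg.Statements.S0707
import Mathlib.GroupTheory.SpecificGroups.Cyclic


set_option autoImplicit false
open Cfsg

namespace Cfsg.Agent.S0707

open scoped Pointwise

/-- In a primitive permutation group, distinct points have distinct stabilisers unless the group is regular of prime degree. -/
theorem result {α : Type*} (G : Subgroup (Equiv.Perm α)) [MulAction.IsPreprimitive G α] (h : ¬ (Nat.card α).Prime ∨ ∃ a : α, MulAction.stabilizer G a ≠ ⊥) {a b : α} (hab : a ≠ b) : MulAction.stabilizer G a ≠ MulAction.stabilizer G b := by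
  intro hS
  haveI : Nontrivial α := ⟨a, b, hab⟩
  let S := MulAction.stabilizer G a
  have hco : ∀ x : α, IsCoatom (MulAction.stabilizer G x) :=
    fun x => MulAction.IsPreprimitive.isCoatom_stabilizer_of_isPreprimitive G x
  let F : Set α := {x | MulAction.stabilizer G x = S}
  have hF : MulAction.IsBlock G F := by
    rw [MulAction.isBlock_iff_smul_eq_of_nonempty]
    rintro g ⟨_, ⟨x, hx, rfl⟩, hgx⟩
    have hgx' : S.map (MulAut.conj g).toMonoidHom = S := by
      have := MulAction.stabilizer_smul_eq_stabilizer_map_conj g x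
      rw [show MulAction.stabilizer G x = S from hx,
        show MulAction.stabilizer G (g • x) = S from hgx] at this
      exact this.symm
    ext y
    rw [Set.mem_smul_set_iff_inv_smul_mem]
    have := MulAction.stabilizer_smul_eq_stabilizer_map_conj g (g⁻¹ • y)
    rw [smul_inv_smul] at this
    show MulAction.stabilizer G (g⁻¹ • y) = S ↔ MulAction.stabilizer G y = S
    rw [this]
    conv_rhs => rw [← hgx']
    exact (Subgroup.map_injective (MulAut.conj g).injective).eq_iff.symm
  have hall : ∀ x : α, MulAction.stabilizer G x = S := by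
    rcases MulAction.IsPreprimitive.isTrivialBlock_of_isBlock hF with h1 | h1
    · exact absurd (h1 (show a ∈ F from rfl) (show b ∈ F from hS.symm)) hab
    · exact Set.eq_univ_iff_forall.1 h1
  have hbot : S = ⊥ := by
    refine (Subgroup.eq_bot_iff_forall _).2 fun g hg => Subtype.ext (Equiv.ext fun x => ?_)
    have : g ∈ MulAction.stabilizer G x := by rw [hall x]; exact hg
    exact this
  rcases h with h | ⟨x, hx⟩
  swap
  · exact hx ((hall x).trans hbot)
  apply h
  have hcb : IsCoatom (⊥ : Subgroup G) := hbot ▸ hco a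
  have hgen : ∀ g : G, g ≠ 1 → Subgroup.zpowers g = ⊤ := fun g hg =>
    hcb.2 _ (bot_lt_iff_ne_bot.2 fun h0 => hg (Subgroup.zpowers_eq_bot.1 h0))
  obtain ⟨g, -, hg⟩ := SetLike.exists_of_lt hcb.lt_top
  rw [Subgroup.mem_bot] at hg
  have hcard : Nat.card G = orderOf g := by
    rw [← Nat.card_zpowers, hgen g hg, Subgroup.card_top]
  have hα : Nat.card α = Nat.card G := by
    have h5 := MulAction.index_stabilizer_of_transitive G a
    rw [show MulAction.stabilizer G a = ⊥ from hbot, Subgroup.index_bot] at h5
    exact h5.symm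
  rw [hα, hcard]
  rcases Nat.eq_zero_or_pos (orderOf g) with h0 | h0
  · exfalso
    have h2 : g ^ 2 ≠ 1 := fun h2 => by
      have := orderOf_dvd_of_pow_eq_one h2
      rw [h0, zero_dvd_iff] at this
      exact absurd this two_ne_zero
    obtain ⟨k, hk⟩ := Subgroup.mem_zpowers_iff.1 ((hgen _ h2).ge (Subgroup.mem_top g))
    rw [← zpow_natCast, ← zpow_mul] at hk
    have h3 : g ^ ((2 : ℤ) * k - 1) = 1 := by
      rw [zpow_sub_one, show ((2 : ℤ)) = ((2 : ℕ) : ℤ) from rfl, hk, mul_inv_cancel]
    have := orderOf_dvd_iff_zpow_eq_one.2 h3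
    rw [h0, Nat.cast_zero, zero_dvd_iff] at this
    omega
  · refine Nat.prime_def_lt.2 ⟨?_, fun d hd hdvd => ?_⟩
    · by_contra hlt
      exact hg (orderOf_eq_one_iff.1 (by omega))
    · by_contra hd1
      have hd0 : 0 < d := Nat.pos_of_dvd_of_pos hdvd h0
      have hne : g ^ d ≠ 1 := fun h1 =>
        absurd (Nat.le_of_dvd hd0 (orderOf_dvd_of_pow_eq_one h1)) (by omega)
      have h4 : orderOf (g ^ d) = orderOf g := by
        rw [← Nat.card_zpowers, hgen _ hne, Subgroup.card_top, hcard]
      rw [orderOf_pow_of_dvd hd0.ne' hdvd] at h4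
      exact absurd h4 (Nat.div_lt_self h0 (by omega)).ne

end Cfsg.Agent.S0707
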