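import Cfsg.Statements.S0708
import Mathlib

set_option autoImplicit false
set_option maxHeartbeats 2000000
open Cfsg

namespace Cfsg.Agent.S0708


section
variable {G : Type*} [Group G] {Ω : Type*} [MulAction G Ω]

/-- Distinctness of four points. -/
def D4 (a b c d : Ω) : Prop := a ≠ b ∧ a ≠ c ∧ a ≠ d ∧ b ≠ c ∧ b ≠ d ∧ c ≠ d

/-- The embedding given by four points. -/
def emb {a b c d : Ω} (h : D4 a b c d) : Fin 4 ↪ Ω :=
  ⟨![a, b, c, d], by
    obtain ⟨h1, h2, h3, h4, h5, h6⟩ := h
    intro i j e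
    fin_cases i <;> fin_cases j <;> simp_all [eq_comm]⟩

theorem eq_one_of_fix (hsharp : ∀ x : Fin 4 ↪ Ω, MulAction.stabilizer G x = ⊥) {g : G} {a b c d : Ω}
    (h : D4 a b c d) (ha : g • a = a) (hb : g • b = b) (hc : g • c = c) (hd : g • d = d) : g = 1 := by
  rw [← Subgroup.mem_bot, ← hsharp (emb h), MulAction.mem_stabilizer_iff]
  ext i
  fin_cases i <;> first | exact ha | exact hb | exact hc | exact hd

theorem eq_of_agree (hsharp : ∀ x : Fin 4 ↪ Ω, MulAction.stabilizer G x = ⊥) {g k : G} {a b c d : Ω}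
    (h : D4 a b c d) (ha : g • a = k • a) (hb : g • b = k • b) (hc : g • c = k • c) (hd : g • d = k • d) : g = k := by
  have := eq_one_of_fix hsharp (g := k⁻¹ * g) h (by rw [mul_smul, ha, inv_smul_smul]) (by rw [mul_smul, hb, inv_smul_smul])
    (by rw [mul_smul, hc, inv_smul_smul]) (by rw [mul_smul, hd, inv_smul_smul])
  exact (inv_mul_eq_one.mp this).symm

theorem exists_map (h4 : MulAction.IsMultiplyPretransitive G Ω 4) {a b c d a' b' c' d' : Ω}
    (h : D4 a b c d) (h' : D4 a' b' c' d') : ∃ g : G, g • a = a' ∧ g • b = b' ∧ g • c = c' ∧ g • d = d' := by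
  obtain ⟨g, hg⟩ := h4.exists_smul_eq (emb h) (emb h')
  refine ⟨g, ?_, ?_, ?_, ?_⟩
  · exact DFunLike.congr_fun hg 0
  · exact DFunLike.congr_fun hg 1
  · exact DFunLike.congr_fun hg 2
  · exact DFunLike.congr_fun hg 3

theorem fix_bound (hsharp : ∀ x : Fin 4 ↪ Ω, MulAction.stabilizer G x = ⊥) {g : G} (hg : g ≠ 1) :
    {z : Ω | g • z = z}.Finite ∧ {z : Ω | g • z = z}.ncard ≤ 3 := by
  by_contra hcon
  obtain ⟨t, ht, htc⟩ : ∃ t : Finset Ω, (∀ z ∈ t, g • z = z) ∧ t.card = 4 := by
    by_cases hf : {z : Ω | g • z = z}.Finite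
    · have h4 : 4 ≤ hf.toFinset.card := by
        rw [← Set.ncard_eq_toFinset_card _ hf]
        by_contra h
        exact hcon ⟨hf, by omega⟩
      obtain ⟨t, ht, htc⟩ := Finset.exists_subset_card_eq h4
      exact ⟨t, fun z hz => hf.mem_toFinset.mp (ht hz), htc⟩
    · obtain ⟨t, ht, htc⟩ := Set.Infinite.exists_subset_card_eq hf 4
      exact ⟨t, fun z hz => ht hz, htc⟩
  let e := t.equivFin.symm.trans (Equiv.refl _)
  have hinj : Function.Injective (fun i : Fin 4 => ((e (Fin.cast htc.symm i) : t) : Ω)) := fun i j h =>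
    Fin.cast_injective _ (e.injective (Subtype.ext h))
  refine hg ?_
  rw [← Subgroup.mem_bot, ← hsharp ⟨_, hinj⟩, MulAction.mem_stabilizer_iff]
  ext i
  exact ht _ (e (Fin.cast htc.symm i)).2

end


/-- Tits' argument: a sharply 4-transitive group (no finiteness assumed) has finite degree at most 11, and at most 6 when the degree is even. -/
theorem result {G : Type*} [Group G] {Ω : Type*} [MulAction G Ω] (h4 : MulAction.IsMultiplyPretransitive G Ω 4) (hsharp : ∀ x : Fin 4 ↪ Ω, MulAction.stabilizer G x = ⊥) (hne : Nonempty (Fin 4 ↪ Ω)) : Finite Ω ∧ Nat.card Ω ≤ 11 ∧ (Even (Nat.card Ω) → Nat.card Ω ≤ 6) := by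
  classical
  obtain ⟨e⟩ := hne
  set a1 := e 0; set a2 := e 1; set a3 := e 2; set a4 := e 3
  have n12 : a1 ≠ a2 := e.injective.ne (by decide)
  have n13 : a1 ≠ a3 := e.injective.ne (by decide)
  have n14 : a1 ≠ a4 := e.injective.ne (by decide)
  have n23 : a2 ≠ a3 := e.injective.ne (by decide)
  have n24 : a2 ≠ a4 := e.injective.ne (by decide)
  have n34 : a3 ≠ a4 := e.injective.ne (by decide)
  have D : D4 a1 a2 a3 a4 := ⟨n12, n13, n14, n23, n24, n34⟩
  obtain ⟨s, hs1, hs2, hs3, hs4⟩ := exists_map h4 D (⟨n12, n14, n13, n24, n23, n34.symm⟩ : D4 a1 a2 a4 a3)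
  obtain ⟨u, hu1, hu2, hu3, hu4⟩ := exists_map h4 D (⟨n12.symm, n23, n24, n13, n14, n34⟩ : D4 a2 a1 a3 a4)
  have ext4 : ∀ {g k : G}, g • a1 = k • a1 → g • a2 = k • a2 → g • a3 = k • a3 → g • a4 = k • a4 → g = k :=
    fun h1 h2 h3 h4' => eq_of_agree hsharp D h1 h2 h3 h4'
  have hss : s * s = 1 := ext4 (by rw [mul_smul, hs1, hs1, one_smul]) (by rw [mul_smul, hs2, hs2, one_smul])
    (by rw [mul_smul, hs3, hs4, one_smul]) (by rw [mul_smul, hs4, hs3, one_smul])
  have huu : u * u = 1 := ext4 (by rw [mul_smul, hu1, hu2, one_smul]) (by rw [mul_smul, hu2, hu1, one_smul])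
    (by rw [mul_smul, hu3, hu3, one_smul]) (by rw [mul_smul, hu4, hu4, one_smul])
  have hsu : s * u = u * s := ext4 (by rw [mul_smul, mul_smul, hu1, hs2, hs1, hu1]) (by rw [mul_smul, mul_smul, hu2, hs1, hs2, hu2])
    (by rw [mul_smul, mul_smul, hu3, hs3, hu4]) (by rw [mul_smul, mul_smul, hu4, hs4, hu3])
  obtain ⟨w, hw⟩ : ∃ w, w = s * u := ⟨_, rfl⟩
  have hs : s ≠ 1 := fun h => n34 (by rw [h, one_smul] at hs3; exact hs3)
  have hu : u ≠ 1 := fun h => n12 (by rw [h, one_smul] at hu1; exact hu1)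
  have hw1 : w • a1 = a2 := by rw [hw, mul_smul, hu1, hs2]
  have hwne : w ≠ 1 := fun h => n12 (by rw [h, one_smul] at hw1; exact hw1)
  have ss : ∀ z : Ω, s • s • z = z := fun z => by rw [← mul_smul, hss, one_smul]
  have uu : ∀ z : Ω, u • u • z = z := fun z => by rw [← mul_smul, huu, one_smul]
  have us : ∀ z : Ω, u • s • z = w • z := fun z => by rw [← mul_smul, ← hsu, ← hw]
  have su : ∀ z : Ω, s • u • z = w • z := fun z => by rw [← mul_smul, ← hw]
  have sw : ∀ z : Ω, s • w • z = u • z := fun z => by rw [← su, ss]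
  have ws : ∀ z : Ω, w • s • z = u • z := fun z => by rw [← us (s • z), ss]
  have uw : ∀ z : Ω, u • w • z = s • z := fun z => by rw [← us, uu]
  have wu : ∀ z : Ω, w • u • z = s • z := fun z => by rw [← su, uu]
  have ww : ∀ z : Ω, w • w • z = z := fun z => by rw [← su z, ws, uu]
  -- a third fixed point of `s`
  have third : ∀ z z' : Ω, s • z = z → z ≠ a1 → z ≠ a2 → s • z' = z' → z' ≠ a1 → z' ≠ a2 → z = z' := by
    intro z z' hz h1 h2 hz' h1' h2'
    by_contra hne'
    exact hs (eq_one_of_fix hsharp (⟨n12, h1.symm, h1'.symm, h2.symm, h2'.symm, hne'⟩ : D4 a1 a2 z z') hs1 hs2 hz hz')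
  have thirdu : ∀ z : Ω, u • z = z → z ≠ a3 → z ≠ a4 → s • z = z := by
    intro z hz h3 h4'
    by_contra hne'
    refine hu (eq_one_of_fix hsharp (⟨n34, h3.symm, fun h => ?_, h4'.symm, fun h => ?_, fun h => hne' h.symm⟩ : D4 a3 a4 z (s • z)) hu3 hu4 hz ?_)
    · exact h4' (by rw [← ss z, ← h, hs3])
    · exact h3 (by rw [← ss z, ← h, hs4])
    · rw [us, ← su, hz]
  -- centraliser of the four group
  have cent : ∀ c : G, c * s = s * c → c * u = u * c → c = 1 ∨ c = s ∨ c = u ∨ c = w := by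
    intro c hcs hcu
    have fs : ∀ z : Ω, s • z = z → s • c • z = c • z := fun z hz => by rw [← mul_smul, ← hcs, mul_smul, hz]
    have fu : ∀ z : Ω, u • z = z → u • c • z = c • z := fun z hz => by rw [← mul_smul, ← hcu, mul_smul, hz]
    have e1 : ∀ z : Ω, s • z = z → u • z ≠ z → z = a1 ∨ z = a2 := by
      intro z hz hzu
      by_contra h
      push Not at h
      refine hzu (third (u • z) z ?_ ?_ ?_ hz h.1 h.2)
      · rw [su, ← us, hz]
      · intro h'; exact h.2 (by rw [← uu z, h', hu1])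
      · intro h'; exact h.1 (by rw [← uu z, h', hu2])
    have nuc : ∀ z : Ω, u • z ≠ z → u • c • z ≠ c • z := fun z hz h => hz (by
      have : c • u • z = c • z := by rw [← mul_smul, hcu, mul_smul, h]
      exact MulAction.injective c this)
    have e1' : c • a1 = a1 ∨ c • a1 = a2 :=
      e1 _ (fs _ hs1) (nuc _ (by rw [hu1]; exact n12.symm))
    have e3 : c • a3 = a3 ∨ c • a3 = a4 := by
      by_contra h
      push Not at h
      have h1 := thirdu (c • a3) (fu _ hu3) h.1 h.2
      have h2 : c • s • a3 = c • a3 := by rw [← mul_smul, hcs, mul_smul, h1]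
      exact n34 (by rw [← MulAction.injective c h2, hs3])
    have c2 : c • a2 = u • c • a1 := by rw [← hu1, ← mul_smul, hcu, mul_smul]
    have c4 : c • a4 = s • c • a3 := by rw [← hs3, ← mul_smul, hcs, mul_smul]
    rcases e1' with h1 | h1 <;> rcases e3 with h3 | h3
    · left; exact ext4 (by rw [h1, one_smul]) (by rw [c2, h1, hu1, one_smul]) (by rw [h3, one_smul]) (by rw [c4, h3, hs3, one_smul])
    · right; left; exact ext4 (by rw [h1, hs1]) (by rw [c2, h1, hu1, hs2]) (by rw [h3, hs3]) (by rw [c4, h3, hs4])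
    · right; right; left; exact ext4 (by rw [h1, hu1]) (by rw [c2, h1, hu2]) (by rw [h3, hu3]) (by rw [c4, h3, hs3, hu4])
    · right; right; right; exact ext4 (by rw [h1, hw1]) (by rw [c2, h1, hu2, ← su a2, hu2, hs1])
        (by rw [h3, ← su a3, hu3, hs3]) (by rw [c4, h3, hs4, ← su a4, hu4, hs4])
  set Reg : Ω → Prop := fun x => s • x ≠ x ∧ u • x ≠ x ∧ w • x ≠ x with hReg
  have DQ : ∀ x, Reg x → D4 x (s • x) (u • x) (w • x) := fun x hx =>
    ⟨hx.1.symm, hx.2.1.symm, hx.2.2.symm, fun h => hx.2.2 (by rw [← us, h, uu]),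
      fun h => hx.2.1 (by rw [← sw, ← h, ss]), fun h => hx.1 (by rw [← wu, h, ww])⟩
  -- the transposition attached to a regular point
  have tau : ∀ x, Reg x → ∃ t : G, t • x = x ∧ t • s • x = s • x ∧ t • u • x = w • x ∧ t • w • x = u • x ∧
      t * s = s * t ∧ t * u = w * t ∧ t * t = 1 ∧ t ≠ 1 := by
    intro x hx
    have h := DQ x hx
    obtain ⟨d1, d2, d3, d4, d5, d6⟩ := h
    obtain ⟨t, t1, t2, t3, t4⟩ := exists_map h4 (DQ x hx) (⟨d1, d3, d2, d5, d4, d6.symm⟩ : D4 x (s • x) (w • x) (u • x))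
    refine ⟨t, t1, t2, t3, t4, ?_, ?_, ?_, fun h' => ?_⟩
    · refine eq_of_agree hsharp (DQ x hx) ?_ ?_ ?_ ?_
      · rw [mul_smul, mul_smul, t2, t1]
      · rw [mul_smul, mul_smul, ss, t1, t2, ss]
      · rw [mul_smul, mul_smul, su, t4, t3, sw]
      · rw [mul_smul, mul_smul, sw, t3, t4, su]
    · refine eq_of_agree hsharp (DQ x hx) ?_ ?_ ?_ ?_
      · rw [mul_smul, mul_smul, t3, t1]
      · rw [mul_smul, mul_smul, us, t4, t2, ws]
      · rw [mul_smul, mul_smul, uu, t1, t3, ww]
      · rw [mul_smul, mul_smul, uw, t2, t4, wu]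
    · refine eq_of_agree hsharp (DQ x hx) ?_ ?_ ?_ ?_
      · rw [mul_smul, t1, t1, one_smul]
      · rw [mul_smul, t2, t2, one_smul]
      · rw [mul_smul, t3, t4, one_smul]
      · rw [mul_smul, t4, t3, one_smul]
    · rw [h', one_smul] at t3; exact d6 t3
  have onlyQ : ∀ x y, Reg x → Reg y → y = x ∨ y = s • x ∨ y = u • x ∨ y = w • x := by
    intro x y hx hy
    by_contra hcon
    push Not at hcon
    obtain ⟨t, t1, t2, -, -, tS, tU, tT, tne⟩ := tau x hx
    obtain ⟨r, r1, r2, r3, r4, rS, rU, rT, -⟩ := tau y hy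
    have hc : (r⁻¹ * t) * s = s * (r⁻¹ * t) := by
      have : r⁻¹ * s = s * r⁻¹ := by rw [inv_mul_eq_iff_eq_mul, ← mul_assoc, rS, mul_assoc, mul_inv_cancel, mul_one]
      rw [mul_assoc, tS, ← mul_assoc, this, mul_assoc]
    have hc' : (r⁻¹ * t) * u = u * (r⁻¹ * t) := by
      have : r⁻¹ * w = u * r⁻¹ := by rw [inv_mul_eq_iff_eq_mul, ← mul_assoc, rU, mul_assoc, mul_inv_cancel, mul_one]
      rw [mul_assoc, tU, ← mul_assoc, this, mul_assoc]
    obtain ⟨z, hz, hzne⟩ : ∃ z : Ω, (t • z = z ∧ t • s • z = s • z) ∧ (z = y ∨ z = u • y) := by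
      rcases cent _ hc hc' with h | h | h | h <;> rw [inv_mul_eq_iff_eq_mul] at h <;> subst h
      · exact ⟨y, ⟨by rw [mul_one, r1], by rw [mul_one, r2]⟩, Or.inl rfl⟩
      · exact ⟨u • y, ⟨by rw [mul_smul, su, r4], by rw [mul_smul, ss, r3, su]⟩, Or.inr rfl⟩
      · exfalso
        have h1 : (r * u) • (r * u) • y = y := by rw [← mul_smul, tT, one_smul]
        rw [mul_smul r u y, r3, mul_smul, uw, r2] at h1
        exact hy.1 h1
      · exfalso
        have h1 : (r * w) • (r * w) • y = y := by rw [← mul_smul, tT, one_smul]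
        rw [mul_smul r w y, r4, mul_smul, wu, r2] at h1
        exact hy.1 h1
    have hn : z ≠ x ∧ z ≠ s • x ∧ z ≠ s • z := by
      rcases hzne with h | h
      · rw [h]; exact ⟨hcon.1, hcon.2.1, hy.1.symm⟩
      · rw [h]
        refine ⟨fun h' => hcon.2.2.1 ?_, fun h' => hcon.2.2.2 ?_, ?_⟩
        · rw [← h', uu]
        · rw [← us x, ← h', uu]
        · rw [su]; exact (DQ y hy).2.2.2.2.2
    exact tne (eq_one_of_fix hsharp (⟨hx.1.symm, hn.1.symm, fun h => hn.2.1 (by rw [h, ss]), hn.2.1.symm,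
      fun h => hn.1 (MulAction.injective s h).symm, hn.2.2⟩ : D4 x (s • x) z (s • z)) t1 t2 hz.1 hz.2)
  -- bounding the points
  obtain ⟨Q, hQ, hQc⟩ : ∃ Q : Finset Ω, (∀ y, Reg y → y ∈ Q) ∧ Q.card ≤ 4 := by
    by_cases h : ∃ x, Reg x
    · obtain ⟨x, hx⟩ := h
      refine ⟨{x, s • x, u • x, w • x}, fun y hy => ?_, Finset.card_le_four⟩
      simp only [Finset.mem_insert, Finset.mem_singleton]
      exact onlyQ x y hx hy
    · exact ⟨∅, fun y hy => absurd ⟨y, hy⟩ h, by simp⟩
  obtain ⟨hWf, hWc⟩ := fix_bound hsharp hwne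
  obtain ⟨hSf, hSc⟩ := fix_bound hsharp hs
  have hcover : ∀ z : Ω, s • z = z ∨ z = a3 ∨ z = a4 ∨ w • z = z ∨ z ∈ Q := by
    intro z
    by_cases h1 : s • z = z
    · exact Or.inl h1
    by_cases h2 : u • z = z
    · by_contra h
      push Not at h
      exact h1 (thirdu z h2 h.2.1 h.2.2.1)
    by_cases h3 : w • z = z
    · exact Or.inr (Or.inr (Or.inr (Or.inl h3)))
    exact Or.inr (Or.inr (Or.inr (Or.inr (hQ z ⟨h1, h2, h3⟩))))
  set A : Finset Ω := hSf.toFinset ∪ {a3, a4} ∪ hWf.toFinset ∪ Q with hA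
  have hAall : ∀ z, z ∈ A := by
    intro z
    simp only [hA, Finset.mem_union, Set.Finite.mem_toFinset, Finset.mem_insert, Finset.mem_singleton]
    rcases hcover z with h | h | h | h | h <;> simp [h]
  have hfin : Finite Ω := Finite.of_surjective (fun z : A => (z : Ω)) fun z => ⟨⟨z, hAall z⟩, rfl⟩
  have : Fintype Ω := Fintype.ofFinite Ω
  have hAu : A = Finset.univ := Finset.eq_univ_of_forall hAall
  have hSc' : hSf.toFinset.card ≤ 3 := by rw [← Set.ncard_eq_toFinset_card _ hSf]; exact hSc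
  have hWc' : hWf.toFinset.card ≤ 3 := by rw [← Set.ncard_eq_toFinset_card _ hWf]; exact hWc
  have hN : Nat.card Ω = A.card := by rw [Nat.card_eq_fintype_card, hAu, Finset.card_univ]
  have h11 : Nat.card Ω ≤ 11 := by
    rw [hN, hA]
    by_cases ha : ∃ z, s • z = z ∧ z ≠ a1 ∧ z ≠ a2
    · obtain ⟨a, ha, ha1, ha2⟩ := ha
      have haw : a ∈ hWf.toFinset := by
        rw [Set.Finite.mem_toFinset]
        show w • a = a
        have h : u • a = a := third (u • a) a (by rw [su, ← us, ha]) (fun h => ha2 (by rw [← uu a, h, hu1]))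
          (fun h => ha1 (by rw [← uu a, h, hu2])) ha ha1 ha2
        rw [← us, ha, h]
      have e : hSf.toFinset ∪ {a3, a4} ∪ hWf.toFinset ∪ Q =
          (hSf.toFinset.erase a) ∪ {a3, a4} ∪ hWf.toFinset ∪ Q := by
        ext z
        simp only [Finset.mem_union, Finset.mem_erase]
        by_cases hz : z = a
        · have hwa : w • a = a := by simpa using haw
          rw [hz]; simp [hwa]
        · simp [hz]
      rw [e]
      have h1 := Finset.card_erase_of_mem (a := a) (s := hSf.toFinset) (by rw [Set.Finite.mem_toFinset]; exact ha)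
      have h2 := Finset.card_le_two (a := a3) (b := a4)
      have := Finset.card_union_le (hSf.toFinset.erase a ∪ {a3, a4} ∪ hWf.toFinset) Q
      have := Finset.card_union_le (hSf.toFinset.erase a ∪ {a3, a4}) hWf.toFinset
      have := Finset.card_union_le (hSf.toFinset.erase a) {a3, a4}
      omega
    · push Not at ha
      have h1 : hSf.toFinset.card ≤ 2 := by
        refine (Finset.card_le_card (t := {a1, a2}) fun z hz => ?_).trans Finset.card_le_two
        rw [Set.Finite.mem_toFinset] at hz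
        by_cases h : z = a1
        · simp [h]
        · simp [ha z hz h]
      have h2 := Finset.card_le_two (a := a3) (b := a4)
      have := Finset.card_union_le (hSf.toFinset ∪ {a3, a4} ∪ hWf.toFinset) Q
      have := Finset.card_union_le (hSf.toFinset ∪ {a3, a4}) hWf.toFinset
      have := Finset.card_union_le hSf.toFinset {a3, a4}
      omega
  refine ⟨hfin, h11, fun heven => ?_⟩
  rw [Nat.card_eq_fintype_card] at heven
  have par : ∀ (g : G), g * g = 1 → Even (Finset.univ.filter fun z : Ω => g • z = z).card := by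
    intro g hg
    let f : Function.End Ω := fun z => g • z
    have h := Equiv.Perm.card_fixedPoints_modEq (p := 2) (n := 1) (f := f) (by
      rw [pow_one, pow_two]; funext z
      show g • g • z = z
      rw [← mul_smul, hg, one_smul])
    have e : Fintype.card (Function.fixedPoints f) = (Finset.univ.filter fun z : Ω => g • z = z).card := by
      rw [← Fintype.card_subtype]
      exact Fintype.card_congr (Equiv.subtypeEquivRight fun z => Iff.rfl)
    rw [e] at h
    exact Nat.even_iff.mpr ((Eq.symm h).trans (Nat.even_iff.mp heven))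
  have eS : Finset.univ.filter (fun z : Ω => s • z = z) = {a1, a2} := by
    refine (Finset.eq_of_subset_of_card_le (fun z hz => ?_) ?_).symm
    · simp only [Finset.mem_insert, Finset.mem_singleton] at hz
      rcases hz with h | h <;> subst h <;> simp [hs1, hs2]
    · rw [Finset.card_pair n12]
      have h1 := Nat.even_iff.mp (par s hss)
      have h2 : (Finset.univ.filter fun z : Ω => s • z = z).card ≤ 3 := by
        refine le_trans (le_of_eq ?_) hSc'
        congr 1; ext z; simp
      omega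
  have hWc2 : hWf.toFinset.card ≤ 2 := by
    have h1 := Nat.even_iff.mp (par w (by rw [hw, mul_assoc, ← mul_assoc u, ← hsu, mul_assoc, huu, mul_one, hss]))
    have e : hWf.toFinset = Finset.univ.filter fun z : Ω => w • z = z := by ext z; simp
    rw [← e] at h1
    omega
  have eS' : hSf.toFinset = {a1, a2} := by rw [← eS]; ext z; simp
  by_cases hx : ∃ x, Reg x
  swap
  · have hA6 : A.card ≤ 6 := by
      have hsub : A ⊆ {a1, a2} ∪ {a3, a4} ∪ hWf.toFinset := fun z _ => by
        simp only [Finset.mem_union, Set.Finite.mem_toFinset, Finset.mem_insert, Finset.mem_singleton]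
        rcases hcover z with h | h | h | h | h
        · have : z ∈ ({a1, a2} : Finset Ω) := eS ▸ Finset.mem_filter.mpr ⟨Finset.mem_univ z, h⟩
          simp only [Finset.mem_insert, Finset.mem_singleton] at this
          tauto
        · simp [h]
        · simp [h]
        · simp [h]
        · by_contra hh
          push Not at hh
          refine hx ⟨z, fun h' => ?_, fun h' => ?_, hh.2⟩
          · have : z ∈ ({a1, a2} : Finset Ω) := eS ▸ Finset.mem_filter.mpr ⟨Finset.mem_univ z, h'⟩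
            simp only [Finset.mem_insert, Finset.mem_singleton] at this
            tauto
          · have h'' := thirdu z h' hh.1.2.1 hh.1.2.2
            have : z ∈ ({a1, a2} : Finset Ω) := eS ▸ Finset.mem_filter.mpr ⟨Finset.mem_univ z, h''⟩
            simp only [Finset.mem_insert, Finset.mem_singleton] at this
            tauto
      refine (Finset.card_le_card hsub).trans ?_
      have := Finset.card_union_le (({a1, a2} : Finset Ω) ∪ {a3, a4}) hWf.toFinset
      have := Finset.card_union_le ({a1, a2} : Finset Ω) {a3, a4}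
      have := Finset.card_le_two (a := a1) (b := a2)
      have := Finset.card_le_two (a := a3) (b := a4)
      omega
    rw [hN]; exact hA6
  exfalso
  obtain ⟨x, hx⟩ := hx
  obtain ⟨t, t1, t2, -, -, tS, tU, tT, tne⟩ := tau x hx
  have fixS : ∀ z : Ω, s • z = z → z = a1 ∨ z = a2 := fun z hz => by
    have : z ∈ ({a1, a2} : Finset Ω) := eS ▸ Finset.mem_filter.mpr ⟨Finset.mem_univ z, hz⟩
    simpa using this
  have hta : t • a1 = a2 := by
    refine (fixS _ (by rw [← mul_smul, ← tS, mul_smul, hs1])).resolve_left fun h => ?_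
    have h2 : t • a2 = a2 := by
      refine (fixS _ (by rw [← mul_smul, ← tS, mul_smul, hs2])).resolve_left fun h' => ?_
      exact n12 (MulAction.injective t (h.trans h'.symm))
    refine tne (eq_one_of_fix hsharp (⟨hx.1.symm, fun e => hx.1 ?_, fun e => hx.1 ?_, fun e => hx.1 ?_, fun e => hx.1 ?_, n12⟩ :
      D4 x (s • x) a1 a2) t1 t2 h h2)
    · rw [e, hs1]
    · rw [e, hs2]
    · rw [e, ← ss x, e, hs1]
    · rw [e, ← ss x, e, hs2]
  have hta2 : t • a2 = a1 := by rw [← hta, ← mul_smul, tT, one_smul]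
  obtain ⟨g, hg⟩ : ∃ g, g = t * u := ⟨_, rfl⟩
  have hg1 : g • a1 = a1 := by rw [hg, mul_smul, hu1, hta2]
  have hg2 : g • a2 = a2 := by rw [hg, mul_smul, hu2, hta]
  have hgg : g * g = s := by
    rw [hg]
    calc t * u * (t * u) = w * (t * t) * u := by rw [tU]; simp only [mul_assoc]; rw [← tU]
      _ = s := by rw [tT, mul_one, hw, mul_assoc, huu, mul_one]
  set O : Finset Ω := (Finset.univ.erase a1).erase a2 with hO
  have memO : ∀ z, z ∈ O ↔ z ≠ a1 ∧ z ≠ a2 := fun z => by
    rw [hO, Finset.mem_erase, Finset.mem_erase]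
    simp only [Finset.mem_univ, and_true]
    exact And.comm
  have hOc : O.card = Fintype.card Ω - 2 := by
    rw [hO, Finset.card_erase_of_mem (Finset.mem_erase.mpr ⟨n12.symm, Finset.mem_univ _⟩),
      Finset.card_erase_of_mem (Finset.mem_univ _), Finset.card_univ]
    omega
  let K := {k : G // k • a1 = a1 ∧ k • a2 = a2}
  have KO : ∀ (k : K) z, z ∈ O → (k : G) • z ∈ O := fun k z hz => by
    rw [memO] at hz ⊢
    exact ⟨fun h => hz.1 (MulAction.injective (k : G) (h.trans k.2.1.symm)),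
      fun h => hz.2 (MulAction.injective (k : G) (h.trans k.2.2.symm))⟩
  have hO3 : a3 ∈ O := (memO _).mpr ⟨n13.symm, n23.symm⟩
  have hO4 : a4 ∈ O := (memO _).mpr ⟨n14.symm, n24.symm⟩
  -- elements of the two point stabiliser
  have mk2 : ∀ p q p' q', p ∈ O → q ∈ O → p' ∈ O → q' ∈ O → p ≠ q → p' ≠ q' →
      ∃ k : K, (k : G) • p = p' ∧ (k : G) • q = q' := by
    intro p q p' q' hp hq hp' hq' hpq hpq'
    rw [memO] at hp hq hp' hq'
    obtain ⟨k, k1, k2, k3, k4⟩ := exists_map h4
      (⟨n12, hp.1.symm, hq.1.symm, hp.2.symm, hq.2.symm, hpq⟩ : D4 a1 a2 p q)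
      (⟨n12, hp'.1.symm, hq'.1.symm, hp'.2.symm, hq'.2.symm, hpq'⟩ : D4 a1 a2 p' q')
    exact ⟨⟨k, k1, k2⟩, k3, k4⟩
  have uniq2 : ∀ (k k' : K) p q, p ∈ O → q ∈ O → p ≠ q → (k : G) • p = (k' : G) • p → (k : G) • q = (k' : G) • q → k = k' := by
    intro k k' p q hp hq hpq h h'
    rw [memO] at hp hq
    exact Subtype.ext (eq_of_agree hsharp (⟨n12, hp.1.symm, hq.1.symm, hp.2.symm, hq.2.symm, hpq⟩ : D4 a1 a2 p q)
      (k.2.1.trans k'.2.1.symm) (k.2.2.trans k'.2.2.symm) h h')
  have hKf : Finite K := Finite.of_injective (fun k : K => ((⟨_, KO k _ hO3⟩, ⟨_, KO k _ hO4⟩) : O × O)) fun k k' h => by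
    simp only [Prod.mk.injEq, Subtype.mk.injEq] at h
    exact uniq2 k k' _ _ hO3 hO4 n34 h.1 h.2
  have : Fintype K := Fintype.ofFinite K
  have hK : Fintype.card K ≤ O.offDiag.card := by
    rw [← Finset.card_univ]
    refine Finset.card_le_card_of_injOn (fun k : K => ((k : G) • a3, (k : G) • a4)) (fun k _ => ?_) fun k _ k' _ h => ?_
    · rw [Finset.mem_coe, Finset.mem_offDiag]
      exact ⟨KO k _ hO3, KO k _ hO4, fun h => n34 (MulAction.injective (k : G) h)⟩
    · exact uniq2 k k' _ _ hO3 hO4 n34 (Prod.mk.inj h).1 (Prod.mk.inj h).2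
  choose q hq hqz using fun z : O => Finset.exists_mem_ne (show 1 < O.card from Finset.one_lt_card.mpr ⟨a3, hO3, a4, hO4, n34⟩) (z : Ω)
  have hst : ∀ (z : O) (r : ↥((O.erase (z : Ω)).erase (q z))), ∃ k : K, (k : G) • (z : Ω) = z ∧ (k : G) • q z = r := by
    intro z r
    have hr := Finset.mem_erase.mp r.2
    have hr2 := Finset.mem_erase.mp hr.2
    exact mk2 _ _ _ _ z.2 (hq z) z.2 hr2.2 (hqz z).symm hr2.1.symm
  choose st hst1 hst2 using hst
  have hcj : ∀ y : ↥(O.erase a3), ∃ k : K, (k : G) • a3 = a3 ∧ (k : G) • a4 = (y : Ω) := by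
    intro y
    obtain ⟨hy1, hy2⟩ := Finset.mem_erase.mp y.2
    exact mk2 _ _ _ _ hO3 hO4 hO3 hy2 n34 hy1.symm
  choose cj hcj1 hcj2 using hcj
  let F : Bool ⊕ (↥(O.erase a3) ⊕ Σ z : O, ↥((O.erase (z : Ω)).erase (q z))) → K
    | .inl true => ⟨1, one_smul _ _, one_smul _ _⟩
    | .inl false => ⟨g, hg1, hg2⟩
    | .inr (.inl y) => ⟨(cj y : G) * s * (cj y : G)⁻¹, by
        rw [mul_smul, mul_smul, inv_smul_eq_iff.mpr (cj y).2.1.symm, hs1, (cj y).2.1], by
        rw [mul_smul, mul_smul, inv_smul_eq_iff.mpr (cj y).2.2.symm, hs2, (cj y).2.2]⟩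
    | .inr (.inr ⟨z, r⟩) => st z r
  have stne : ∀ z r, (st z r : G) ≠ 1 := fun z r h => by
    have := hst2 z r
    rw [h, one_smul] at this
    exact (Finset.mem_erase.mp r.2).1 this.symm
  have cjv : ∀ y, ((cj y : G) * s * (cj y : G)⁻¹) • a3 = (y : Ω) := fun y => by
    rw [mul_smul, mul_smul, inv_smul_eq_iff.mpr (hcj1 y).symm, hs3, hcj2]
  have cjsq : ∀ y, ((cj y : G) * s * (cj y : G)⁻¹) * ((cj y : G) * s * (cj y : G)⁻¹) = 1 := fun y => by
    rw [show (cj y : G) * s * (cj y : G)⁻¹ * ((cj y : G) * s * (cj y : G)⁻¹) = (cj y : G) * (s * s) * (cj y : G)⁻¹ by group,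
      hss, mul_one, mul_inv_cancel]
  have gne : g ≠ 1 := fun h => hs (by rw [← hgg, h, mul_one])
  have gfree : ∀ z : O, g • (z : Ω) ≠ z := fun z h => by
    have : s • (z : Ω) = z := by rw [← hgg, mul_smul, h, h]
    rcases fixS _ this with h' | h'
    · exact ((memO _).mp z.2).1 h'
    · exact ((memO _).mp z.2).2 h'
  have cjfree : ∀ y (z : O), ((cj y : G) * s * (cj y : G)⁻¹) • (z : Ω) ≠ z := fun y z h => by
    have h' : s • ((cj y : G)⁻¹ • (z : Ω)) = (cj y : G)⁻¹ • (z : Ω) := by
      rw [eq_inv_smul_iff, ← mul_smul, ← mul_smul]; exact h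
    rcases fixS _ h' with h'' | h''
    · exact ((memO _).mp z.2).1 ((inv_smul_eq_iff.mp h'').trans (cj y).2.1)
    · exact ((memO _).mp z.2).2 ((inv_smul_eq_iff.mp h'').trans (cj y).2.2)
  have cjne : ∀ y : ↥(O.erase a3), (cj y : G) * s * (cj y : G)⁻¹ ≠ 1 := fun y h => by
    have := cjv y
    rw [h, one_smul] at this
    exact (Finset.mem_erase.mp y.2).1 this.symm
  have hinj : Function.Injective F := by
    rintro ((_|_) | (y | ⟨z, r⟩)) ((_|_) | (y' | ⟨z', r'⟩)) h <;> have h' := congrArg Subtype.val h <;>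
      simp only [F] at h'
    all_goals first
      | rfl
      | exact absurd h' gne
      | exact absurd h'.symm gne
      | exact absurd h' (cjne _)
      | exact absurd h'.symm (cjne _)
      | exact absurd h' (stne _ _)
      | exact absurd h'.symm (stne _ _)
      | exact absurd (hgg.symm.trans (by rw [h']; exact cjsq _)) hs
      | exact absurd (hgg.symm.trans (by rw [← h']; exact cjsq _)) hs
      | exact absurd (by rw [h']; exact hst1 _ _) (gfree z')
      | exact absurd (by rw [← h']; exact hst1 _ _) (gfree z)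
      | exact absurd (by rw [h']; exact hst1 _ _) (cjfree y z')
      | exact absurd (by rw [← h']; exact hst1 _ _) (cjfree y' z)
      | skip
    · have := cjv y
      rw [h', cjv y'] at this
      rw [Subtype.ext this.symm]
    · have hzz : z = z' := by
        by_contra hne'
        refine stne z r ?_
        have h2 : (st z r : G) • (z' : Ω) = z' := by rw [h']; exact hst1 _ _
        exact congrArg Subtype.val (uniq2 (st z r) ⟨1, one_smul _ _, one_smul _ _⟩ _ _ z.2 z'.2
          (fun e' => hne' (Subtype.ext e')) (by rw [hst1, one_smul]) (by rw [h2, one_smul]))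
      subst hzz
      have := hst2 z r
      rw [h', hst2 z r'] at this
      rw [Subtype.ext this.symm]
  have hle := (Fintype.card_le_of_injective F hinj).trans hK
  have hr : ∀ z : O, Fintype.card ↥((O.erase (z : Ω)).erase (q z)) = O.card - 2 := fun z => by
    rw [Fintype.card_coe, Finset.card_erase_of_mem (Finset.mem_erase.mpr ⟨hqz z, hq z⟩), Finset.card_erase_of_mem z.2]
    omega
  rw [Fintype.card_sum, Fintype.card_sum, Fintype.card_bool, Fintype.card_sigma, Fintype.card_coe,
    Finset.card_erase_of_mem hO3, Finset.offDiag_card, Finset.sum_congr rfl (fun z _ => hr z), Finset.sum_const,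
    Finset.card_univ, Fintype.card_coe, smul_eq_mul] at hle
  obtain ⟨m, hm⟩ : ∃ m, O.card = m + 2 := ⟨O.card - 2, by
    have : 1 < O.card := Finset.one_lt_card.mpr ⟨a3, hO3, a4, hO4, n34⟩
    omega⟩
  rw [hm, Nat.add_sub_cancel, show (m + 2) * (m + 2) - (m + 2) = (m + 2) * (m + 1) by
    rw [Nat.mul_succ (m + 2) (m + 1), Nat.add_sub_cancel]] at hle
  simp only [mul_add, add_mul, mul_one, one_mul] at hle
  omega

end Cfsg.Agent.S0708
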