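import Cfsg.Statements.S0709
import Mathlib

set_option autoImplicit false
set_option maxHeartbeats 1000000
open Cfsg

namespace Cfsg.Agent.S0709

/-- Witt's Lemma for constructing transitive extensions. Points `q 1, …, q t` (`t ≥ 2`) of a finite set are given; `G` fixes `q i` for `i ≥ 3` and is doubly transitive on the remaining points; `s 1 ∈ G` swaps `q 1, q 2`; for `2 ≤ i ≤ t-1`, `s i` swaps `q i, q (i+1)` and fixes the other `q j`; with `H` the stabiliser of `q 1, q 2` in `G`: `s i ^ 2 ∈ H`, `(s i * s (i+1)) ^ 3 ∈ H`, `(s i * s j) ^ 2 ∈ H` for `j ≥ i + 2`, and `s i` (`i ≥ 2`) normalises the stabiliser of `q 2` in `G`. Then `G` and the `s i` generate a `t`-transitive group whose pointwise stabiliser of the `q`'s is `H`. -/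
theorem result {α : Type*} [Fintype α] [DecidableEq α] (t : ℕ) (ht : 2 ≤ t) (q : ℕ → α) (hq : ∀ i j : ℕ, 1 ≤ i → i ≤ t → 1 ≤ j → j ≤ t → q i = q j → i = j) (G : Subgroup (Equiv.Perm α)) (hfix : ∀ g ∈ G, ∀ i : ℕ, 3 ≤ i → i ≤ t → g (q i) = q i) (h2 : ∀ a b c d : α, (∀ i, 3 ≤ i → i ≤ t → a ≠ q i ∧ b ≠ q i ∧ c ≠ q i ∧ d ≠ q i) → a ≠ b → c ≠ d → ∃ g ∈ G, g a = c ∧ g b = d) (s : ℕ → Equiv.Perm α) (hs1 : s 1 ∈ G) (hs1q : s 1 (q 1) = q 2 ∧ s 1 (q 2) = q 1) (hsq : ∀ i : ℕ, 2 ≤ i → i + 1 ≤ t → s i (q i) = q (i + 1) ∧ s i (q (i + 1)) = q i ∧ ∀ j : ℕ, 1 ≤ j → j ≤ t → j ≠ i → j ≠ i + 1 → s i (q j) = q j) (H : Subgroup (Equiv.Perm α)) (hH : H = G ⊓ MulAction.stabilizer (Equiv.Perm α) (q 1) ⊓ MulAction.stabilizer (Equiv.Perm α) (q 2)) (hsq2 : ∀ i : ℕ, 1 ≤ i → i + 1 ≤ t → s i ^ 2 ∈ H) (hbraid : ∀ i : ℕ, 1 ≤ i → i + 2 ≤ t → (s i * s (i + 1)) ^ 3 ∈ H) (hcomm : ∀ i j : ℕ, 1 ≤ i → i + 2 ≤ j → j + 1 ≤ t → (s i * s j) ^ 2 ∈ H ∧ (s j * s i) ^ 2 ∈ H) (hnorm : ∀ i : ℕ, 2 ≤ i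 → i + 1 ≤ t → ∀ g ∈ G ⊓ MulAction.stabilizer (Equiv.Perm α) (q 2), s i * g * (s i)⁻¹ ∈ G ⊓ MulAction.stabilizer (Equiv.Perm α) (q 2)) : MulAction.IsMultiplyPretransitive ↥(Subgroup.closure ((G : Set (Equiv.Perm α)) ∪ {x | ∃ i : ℕ, 2 ≤ i ∧ i + 1 ≤ t ∧ x = s i})) α t ∧ Subgroup.closure ((G : Set (Equiv.Perm α)) ∪ {x | ∃ i : ℕ, 2 ≤ i ∧ i + 1 ≤ t ∧ x = s i}) ⊓ fixingSubgroup (Equiv.Perm α) {x | ∃ i : ℕ, 1 ≤ i ∧ i ≤ t ∧ x = q i} = H := by
  classical
  obtain ⟨A, hA⟩ : ∃ A, A = G ⊓ MulAction.stabilizer (Equiv.Perm α) (q 2) := ⟨_, rfl⟩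
  let L : ℕ → Subgroup (Equiv.Perm α) := fun i =>
    if i ≤ 1 then A else Subgroup.closure ((G : Set (Equiv.Perm α)) ∪ {x | ∃ j : ℕ, 2 ≤ j ∧ j + 1 ≤ i ∧ x = s j})
  have L1 : ∀ i ≤ 1, L i = A := fun i h => if_pos h
  have L2 : ∀ i, 2 ≤ i → L i = Subgroup.closure ((G : Set (Equiv.Perm α)) ∪ {x | ∃ j : ℕ, 2 ≤ j ∧ j + 1 ≤ i ∧ x = s j}) :=
    fun i h => if_neg (by omega)
  have gsub : ∀ i, 2 ≤ i → G ≤ L i := fun i h g hg => by
    rw [L2 i h]; exact Subgroup.subset_closure (Or.inl hg)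
  have sL : ∀ i j, 1 ≤ j → j + 1 ≤ i → s j ∈ L i := by
    intro i j hj hji
    rcases Nat.lt_or_ge j 2 with h | h
    · rw [show j = 1 by omega]; exact gsub i (by omega) hs1
    · rw [L2 i (by omega)]; exact Subgroup.subset_closure (Or.inr ⟨j, h, hji, rfl⟩)
  have mono : ∀ i, 1 ≤ i → L i ≤ L (i + 1) := by
    intro i hi
    rcases Nat.lt_or_ge i 2 with h | h
    · rw [show i = 1 by omega, L1 1 le_rfl, hA]; exact inf_le_left.trans (gsub 2 le_rfl)
    · rw [L2 i h, L2 (i + 1) (by omega)]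
      exact Subgroup.closure_mono (Set.union_subset_union_right _ fun x ⟨j, h1, h2, h3⟩ => ⟨j, h1, by omega, h3⟩)
  have HA : H ≤ A := by
    rw [hH, hA]; exact fun g hg => ⟨hg.1.1, hg.2⟩
  have HL : ∀ i, 1 ≤ i → H ≤ L i := by
    intro i hi
    induction i, hi using Nat.le_induction with
    | base => rw [L1 1 le_rfl]; exact HA
    | succ i hi ih => exact ih.trans (mono i hi)
  have qne : ∀ i j, 1 ≤ i → i ≤ t → 1 ≤ j → j ≤ t → i ≠ j → q i ≠ q j :=
    fun i j a b c d h e => h (hq i j a b c d e)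
  let Om : ℕ → α → Prop := fun i x => ∀ j, i < j → j ≤ t → x ≠ q j
  have T1 : ∀ x, Om 1 x → ∃ g ∈ A, g (q 1) = x := by
    intro x hx
    obtain ⟨g, hg, g1, g2⟩ := h2 (q 1) (q 2) x (q 2) (fun i h3 hit => ⟨qne _ _ le_rfl (by omega) (by omega) hit (by omega),
      qne _ _ (by omega) ht (by omega) hit (by omega), hx i (by omega) hit, qne _ _ (by omega) ht (by omega) hit (by omega)⟩)
      (qne _ _ le_rfl (by omega) (by omega) ht (by omega)) (hx 2 (by omega) ht)
    exact ⟨g, by rw [hA]; exact ⟨hg, g2⟩, g1⟩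
  have T2 : ∀ x, Om 2 x → ∃ g ∈ G, g (q 2) = x := by
    intro x hx
    have f1 : ∀ i, 3 ≤ i → i ≤ t → q 1 ≠ q i := fun i h3 hit => qne _ _ le_rfl (by omega) (by omega) hit (by omega)
    have f2 : ∀ i, 3 ≤ i → i ≤ t → q 2 ≠ q i := fun i h3 hit => qne _ _ (by omega) ht (by omega) hit (by omega)
    have h12 : q 1 ≠ q 2 := qne _ _ le_rfl (by omega) (by omega) ht (by omega)
    by_cases hx1 : x = q 1
    · exact ⟨s 1, hs1, by rw [hx1]; exact hs1q.2⟩
    · obtain ⟨g, hg, g1, -⟩ := h2 (q 2) (q 1) x (q 1) (fun i h3 hit => ⟨f2 i h3 hit, f1 i h3 hit, hx i (by omega) hit, f1 i h3 hit⟩) h12.symm hx1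
      exact ⟨g, hg, g1⟩
  -- a double coset decomposition
  have dec : ∀ i, 2 ≤ i → i ≤ t → (∀ g ∈ L i, g (q i) = q i → g ∈ L (i - 1)) →
      (∀ g ∈ L i, ∀ j, i < j → j ≤ t → g (q j) = q j) → (∀ x, Om (i - 1) x → ∃ g ∈ L (i - 1), g (q (i - 1)) = x) →
      ∀ g ∈ L i, g ∈ L (i - 1) ∨ ∃ a ∈ L (i - 1), ∃ b ∈ L (i - 1), g = a * s (i - 1) * b := by
    intro i hi hit hstab hfx htr g hg
    by_cases hgq : g (q i) = q i
    · exact Or.inl (hstab g hg hgq)
    have hs' : s (i - 1) (q (i - 1)) = q i ∧ s (i - 1) (q i) = q (i - 1) := by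
      rcases Nat.lt_or_ge i 3 with h | h
      · rw [show i = 2 by omega]; exact hs1q
      · have := hsq (i - 1) (by omega) (by omega)
        rw [show i - 1 + 1 = i by omega] at this
        exact ⟨this.1, this.2.1⟩
    obtain ⟨a, ha, haq⟩ := htr (g (q i)) (fun j hj hjt => by
      rcases Nat.lt_or_ge i j with h | h
      · intro e
        rw [← hfx g hg j h hjt] at e
        exact qne i j (by omega) hit (by omega) hjt (by omega) (g.injective e)
      · rw [show j = i by omega]; exact hgq)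
    have haL : a ∈ L i := by
      have := mono (i - 1) (by omega) ha
      rwa [show i - 1 + 1 = i by omega] at this
    refine Or.inr ⟨a, ha, (s (i - 1))⁻¹ * a⁻¹ * g, hstab _ ?_ ?_, by group⟩
    · exact mul_mem (mul_mem (inv_mem (sL i (i - 1) (by omega) (by omega))) (inv_mem haL)) hg
    · rw [Equiv.Perm.mul_apply, Equiv.Perm.mul_apply, show a⁻¹ (g (q i)) = q (i - 1) from by
        rw [← haq]; exact a.symm_apply_apply _]
      rw [← hs'.2]; exact (s (i - 1)).symm_apply_apply _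
  have sq' : ∀ i, 1 ≤ i → i + 1 ≤ t → (s i)⁻¹ * (s i)⁻¹ ∈ H := fun i h1 h2' => by
    have := inv_mem (hsq2 i h1 h2')
    rwa [pow_two, mul_inv_rev] at this
  have hle2 : L 2 ≤ G := by
    rw [L2 2 le_rfl, Subgroup.closure_le]
    exact Set.union_subset subset_rfl fun x ⟨j, h1, h3, _⟩ => absurd h3 (by omega)
  have decA := dec 2 le_rfl ht (fun g hg hg2 => by rw [L1 (2 - 1) le_rfl, hA]; exact ⟨hle2 hg, hg2⟩)
    (fun g hg j hj hjt => hfix g (hle2 hg) j (by omega) hjt) (fun x hx => by rw [L1 (2 - 1) le_rfl]; exact T1 x hx)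
  -- normalising
  have nrm : ∀ i k, 1 ≤ i → i + 1 ≤ k → k + 1 ≤ t → ∀ g ∈ L i, s k * g * (s k)⁻¹ ∈ L i := by
    intro i k hi hik hkt g hg
    rcases Nat.lt_or_ge i 2 with h | h
    · rw [L1 i (by omega), hA] at hg ⊢
      exact hnorm k (by omega) hkt g hg
    have hcom : ∀ j, 1 ≤ j → j + 1 ≤ i → s k * s j * (s k)⁻¹ ∈ L i := by
      intro j hj hji
      have h1 := (hcomm j k hj (by omega) hkt).2
      have e : s k * s j * (s k)⁻¹ = (s k * s j) ^ 2 * (s j)⁻¹ * ((s k)⁻¹ * (s k)⁻¹) := by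
        rw [pow_two]; group
      rw [e]
      exact mul_mem (mul_mem (HL i hi h1) (inv_mem (sL i j hj hji))) (HL i hi (sq' k (by omega) hkt))
    have hAn : ∀ a ∈ A, s k * a * (s k)⁻¹ ∈ L i := fun a ha => by
      rw [hA] at ha
      exact gsub i h (hnorm k (by omega) hkt a ha).1
    rw [L2 i h] at hg
    induction hg using Subgroup.closure_induction with
    | mem x hx =>
      rcases hx with hx | ⟨j, hj, hji, rfl⟩
      · rcases decA x (gsub 2 le_rfl hx) with h' | ⟨a, ha, b, hb, rfl⟩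
        · rw [L1 (2 - 1) le_rfl] at h'; exact hAn x h'
        · rw [L1 (2 - 1) le_rfl] at ha hb
          rw [show s k * (a * s (2 - 1) * b) * (s k)⁻¹ =
            s k * a * (s k)⁻¹ * (s k * s 1 * (s k)⁻¹) * (s k * b * (s k)⁻¹) by group]
          exact mul_mem (mul_mem (hAn a ha) (hcom 1 le_rfl (by omega))) (hAn b hb)
      · exact hcom j (by omega) hji
    | one => simp
    | mul x y _ _ hx hy => rw [show s k * (x * y) * (s k)⁻¹ = s k * x * (s k)⁻¹ * (s k * y * (s k)⁻¹) by group]; exact mul_mem hx hy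
    | inv x _ hx => rw [show s k * x⁻¹ * (s k)⁻¹ = (s k * x * (s k)⁻¹)⁻¹ by group]; exact inv_mem hx
  -- the main induction
  have main : ∀ i, 2 ≤ i → i ≤ t → (∀ g ∈ L i, ∀ j, i < j → j ≤ t → g (q j) = q j) ∧
      (∀ g ∈ L i, g (q i) = q i → g ∈ L (i - 1)) ∧ (∀ x, Om i x → ∃ g ∈ L i, g (q i) = x) ∧
      (∀ x, Om (i - 1) x → ∃ g ∈ L (i - 1), g (q (i - 1)) = x) := by
    intro i hi
    induction i, hi using Nat.le_induction with
    | base =>
      intro _
      have hle : L 2 ≤ G := by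
        rw [L2 2 le_rfl, Subgroup.closure_le]
        exact Set.union_subset subset_rfl fun x ⟨j, h1, h3, _⟩ => absurd h3 (by omega)
      exact ⟨fun g hg j hj hjt => hfix g (hle hg) j (by omega) hjt,
        fun g hg h => by rw [L1 (2 - 1) le_rfl, hA]; exact ⟨hle hg, h⟩,
        fun x hx => (T2 x hx).imp fun g h => ⟨gsub 2 le_rfl h.1, h.2⟩, fun x hx => by rw [L1 (2 - 1) le_rfl]; exact T1 x hx⟩
    | succ i hi ih =>
      intro hit
      obtain ⟨ihfix, ihstab, ihtr, ihtr'⟩ := ih (by omega)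
      obtain ⟨si1, si2, si3⟩ := hsq i hi hit
      have hL' : L (i - 1) ≤ L i := by
        have := mono (i - 1) (by omega)
        rwa [show i - 1 + 1 = i by omega] at this
      have hS2 : (s i)⁻¹ * (s i)⁻¹ ∈ L i := HL i (by omega) (sq' i (by omega) hit)
      have hS2' : s i * s i ∈ L i := by
        have := HL i (by omega) (hsq2 i (by omega) hit)
        rwa [pow_two] at this
      let U : Equiv.Perm α → Prop := fun g => g ∈ L i ∨ ∃ a ∈ L i, ∃ b ∈ L i, g = a * s i * b
      have Ul : ∀ c ∈ L i, ∀ g, U g → U (c * g) := by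
        rintro c hc g (h | ⟨a, ha, b, hb, rfl⟩)
        · exact Or.inl (mul_mem hc h)
        · exact Or.inr ⟨c * a, mul_mem hc ha, b, hb, by group⟩
      have Ur : ∀ c ∈ L i, ∀ g, U g → U (g * c) := by
        rintro c hc g (h | ⟨a, ha, b, hb, rfl⟩)
        · exact Or.inl (mul_mem h hc)
        · exact Or.inr ⟨a, ha, b * c, mul_mem hb hc, by group⟩
      have Us : ∀ g, U g → U (s i * g) := by
        rintro g (h | ⟨a, ha, b, hb, rfl⟩)
        · exact Or.inr ⟨1, one_mem _, g, h, by group⟩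
        · rw [show s i * (a * s i * b) = s i * a * s i * b by group]
          refine Ur b hb _ ?_
          have hn := nrm (i - 1) i (by omega) (by omega) hit
          rcases dec i hi (by omega) ihstab ihfix ihtr' a ha with h | ⟨c, hc, d, hd, rfl⟩
          · exact Or.inl (by
              rw [show s i * a * s i = s i * a * (s i)⁻¹ * (s i * s i) by group]
              exact mul_mem (hL' (hn a h)) hS2')
          · have e : s i * s (i - 1) * s i =
                ((s (i - 1))⁻¹ * (s (i - 1) * s i) ^ 3) * s i * (((s i)⁻¹ * (s i)⁻¹) * (s (i - 1))⁻¹) := by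
              simp only [pow_succ, pow_zero, one_mul]; group
            rw [show s i * (c * s (i - 1) * d) * s i = s i * c * (s i)⁻¹ * (s i * s (i - 1) * s i) *
              ((s i)⁻¹ * (s i)⁻¹ * (s i * d * (s i)⁻¹) * (s i * s i)) by group]
            refine Ur _ (mul_mem (mul_mem hS2 (hL' (hn d hd))) hS2') _ (Ul _ (hL' (hn c hc)) _ ?_)
            rw [e]
            have hs' := sL i (i - 1) (by omega) (by omega)
            have hb3 : (s (i - 1) * s i) ^ 3 ∈ H := by
              have := hbraid (i - 1) (by omega) (by omega)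
              rwa [show i - 1 + 1 = i by omega] at this
            exact Or.inr ⟨_, mul_mem (inv_mem hs') (HL i (by omega) hb3), _, mul_mem hS2 (inv_mem hs'), rfl⟩
      have hU : ∀ g ∈ L (i + 1), U g := by
        intro g hg
        rw [L2 (i + 1) (by omega)] at hg
        have key : ∀ x ∈ (G : Set (Equiv.Perm α)) ∪ {x | ∃ j : ℕ, 2 ≤ j ∧ j + 1 ≤ i + 1 ∧ x = s j}, x ∈ L i ∨ x = s i := by
          rintro x (hx | ⟨j, hj, hji, rfl⟩)
          · exact Or.inl (gsub i hi hx)
          · rcases Nat.lt_or_ge j i with h | h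
            · exact Or.inl (sL i j (by omega) h)
            · exact Or.inr (by rw [show j = i by omega])
        induction hg using Subgroup.closure_induction_left with
        | one => exact Or.inl (one_mem _)
        | mul_left x hx y _ ih' =>
          rcases key x hx with h | h
          · exact Ul x h y ih'
          · rw [h]; exact Us y ih'
        | inv_mul_cancel x hx y _ ih' =>
          rcases key x hx with h | h
          · exact Ul _ (inv_mem h) y ih'
          · rw [h, show (s i)⁻¹ * y = (s i)⁻¹ * (s i)⁻¹ * (s i * y) by group]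
            exact Ul _ hS2 _ (Us y ih')
      refine ⟨?_, ?_, ?_, fun x hx => ?_⟩
      · intro g hg j hj hjt
        have e : s i (q j) = q j := si3 j (by omega) hjt (by omega) (by omega)
        rcases hU g hg with h | ⟨a, ha, b, hb, rfl⟩
        · exact ihfix g h j (by omega) hjt
        · rw [Equiv.Perm.mul_apply, Equiv.Perm.mul_apply, ihfix b hb j (by omega) hjt, e, ihfix a ha j (by omega) hjt]
      · intro g hg hgq
        rcases hU g hg with h | ⟨a, ha, b, hb, rfl⟩
        · exact h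
        · rw [Equiv.Perm.mul_apply, Equiv.Perm.mul_apply, ihfix b hb (i + 1) (by omega) hit, si2] at hgq
          exact absurd (a.injective (hgq.trans (ihfix a ha (i + 1) (by omega) hit).symm))
            (qne i (i + 1) (by omega) (by omega) (by omega) hit (by omega))
      · intro x hx
        by_cases hx1 : x = q (i + 1)
        · exact ⟨1, one_mem _, by simp [hx1]⟩
        obtain ⟨a, ha, haq⟩ := ihtr x fun j hj hjt => by
          rcases Nat.lt_or_ge (i + 1) j with h | h
          · exact hx j h hjt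
          · rw [show j = i + 1 by omega]; exact hx1
        exact ⟨a * s i, mul_mem (mono i (by omega) ha) (sL (i + 1) i (by omega) le_rfl),
          by rw [Equiv.Perm.mul_apply, si2, haq]⟩
      · exact ihtr x hx
  have ftr : ∀ i, 1 ≤ i → i ≤ t → (∀ g ∈ L i, ∀ j, i < j → j ≤ t → g (q j) = q j) →
      ∀ x : ℕ → α, (∀ j, 1 ≤ j → j ≤ i → Om i (x j)) → (∀ j k, 1 ≤ j → j ≤ i → 1 ≤ k → k ≤ i → x j = x k → j = k) →
      ∃ g ∈ L i, ∀ j, 1 ≤ j → j ≤ i → g (q j) = x j := by
    intro i hi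
    induction i, hi using Nat.le_induction with
    | base =>
      intro _ _ x hx _
      obtain ⟨g, hg, e⟩ := T1 (x 1) (hx 1 le_rfl le_rfl)
      exact ⟨g, by rw [L1 1 le_rfl]; exact hg, fun j h1 h2' => by rw [show j = 1 by omega]; exact e⟩
    | succ i hi ih =>
      intro hit hfx x hx hinj
      obtain ⟨a, ha, haq⟩ := (main (i + 1) (by omega) hit).2.2.1 (x (i + 1)) (hx _ (by omega) le_rfl)
      obtain ⟨g, hg, e⟩ := ih (by omega) (fun g hg j hj hjt => by
          rcases Nat.lt_or_ge i 2 with h | h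
          · rw [show i = 1 by omega, L1 1 le_rfl, hA] at hg
            rcases Nat.lt_or_ge j 3 with h' | h'
            · rw [show j = 2 by omega]; exact hg.2
            · exact hfix g hg.1 j h' hjt
          · exact (main i h (by omega)).1 g hg j hj hjt)
        (fun j => a⁻¹ (x j)) (fun j h1 h2' l hl hlt e' => by
          have e'' : x j = a (q l) := by rw [← e']; exact (a.apply_symm_apply _).symm
          rcases Nat.lt_or_ge (i + 1) l with h | h
          · exact hx j h1 (by omega) l h hlt (by rw [e'', hfx a ha l h hlt])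
          · rw [show l = i + 1 by omega, haq] at e''
            have := hinj j (i + 1) h1 (by omega) (by omega) le_rfl e''
            omega)
        (fun j k a1 b1 c1 d1 e' => hinj j k a1 (by omega) c1 (by omega) (a⁻¹.injective e'))
      refine ⟨a * g, mul_mem ha (mono i hi hg), fun j h1 h2' => ?_⟩
      rcases Nat.lt_or_ge i j with h | h
      · rw [show j = i + 1 by omega, Equiv.Perm.mul_apply]
        rcases Nat.lt_or_ge i 2 with h' | h'
        · rw [show i = 1 by omega, L1 1 le_rfl, hA] at hg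
          rw [show i + 1 = 2 by omega] at haq ⊢
          rw [show g (q 2) = q 2 from hg.2]; exact haq
        · rw [(main i h' (by omega)).1 g hg (i + 1) (by omega) hit, haq]
      · rw [Equiv.Perm.mul_apply, e j h1 h]; exact a.apply_symm_apply _
  obtain ⟨mfix, -⟩ := main t ht le_rfl
  rw [← L2 t ht]
  constructor
  · refine ⟨fun x y => ?_⟩
    have get : ∀ x : Fin t ↪ α, ∃ g ∈ L t, ∀ j : Fin t, g (q ((j : ℕ) + 1)) = x j := by
      intro x
      obtain ⟨g, hg, e⟩ := ftr t (by omega) le_rfl mfix (fun j => x ⟨(j - 1) % t, Nat.mod_lt _ (by omega)⟩)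
        (fun j _ _ l hl hlt => by omega) (fun j k a1 b1 c1 d1 e' => by
          have := congrArg Fin.val (x.injective e')
          simp only at this
          rw [Nat.mod_eq_of_lt (by omega), Nat.mod_eq_of_lt (by omega)] at this
          omega)
      refine ⟨g, hg, fun j => ?_⟩
      rw [e _ (by omega) (by omega)]
      congr 1
      ext
      rw [Nat.add_sub_cancel]
      exact Nat.mod_eq_of_lt j.2
    obtain ⟨g, hg, eg⟩ := get x
    obtain ⟨g', hg', eg'⟩ := get y
    refine ⟨⟨g' * g⁻¹, mul_mem hg' (inv_mem hg)⟩, ?_⟩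
    ext j
    show (g' * g⁻¹) (x j) = y j
    rw [Equiv.Perm.mul_apply, ← eg j, ← eg' j]
    congr 1
    exact g.symm_apply_apply _
  · refine le_antisymm ?_ fun g hg => ?_
    · rintro g ⟨hg, hgf'⟩
      have hgf := (mem_fixingSubgroup_iff (M := Equiv.Perm α)).mp hgf'
      have down : ∀ d, d ≤ t - 1 → g ∈ L (t - d) := by
        intro d
        induction d with
        | zero => exact fun _ => hg
        | succ d ihd =>
          intro hd
          have := (main (t - d) (by omega) (by omega)).2.1 g (ihd (by omega)) (hgf _ ⟨t - d, by omega, by omega, rfl⟩)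
          rwa [show t - d - 1 = t - (d + 1) by omega] at this
      have h1 := down (t - 1) le_rfl
      rw [L1 _ (by omega), hA] at h1
      rw [hH]
      exact ⟨⟨h1.1, hgf _ ⟨1, le_rfl, by omega, rfl⟩⟩, h1.2⟩
    · refine ⟨HL t (by omega) hg, (mem_fixingSubgroup_iff _).mpr ?_⟩
      rintro _ ⟨j, hj, hjt, rfl⟩
      rw [hH] at hg
      rcases Nat.lt_or_ge j 3 with h | h
      · rcases Nat.lt_or_ge j 2 with h' | h'
        · rw [show j = 1 by omega]; exact hg.1.2
        · rw [show j = 2 by omega]; exact hg.2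
      · exact hfix g hg.1.1 j h hjt

end Cfsg.Agent.S0709
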