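import Cfsg.Statements.S0710
import Mathlib

set_option autoImplicit false
open Cfsg

namespace Cfsg.Agent.S0710

set_option linter.style.haveILetI false

/-- No transitive permutation group on 13 points has order `13 * 12 * 11 * 10 * 9 * 8`. -/
theorem result {α : Type*} [Fintype α] [DecidableEq α] (hα : Fintype.card α = 13) (G : Subgroup (Equiv.Perm α)) [MulAction.IsPretransitive G α] : Nat.card G ≠ 13 * 12 * 11 * 10 * 9 * 8 := by
  classical
  intro hG
  haveI : Fact (Nat.Prime 13) := ⟨by norm_num⟩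
  obtain ⟨P⟩ : Nonempty (Sylow 13 G) := inferInstance
  have hP : Nat.card (P : Subgroup G) = 13 := by
    rw [P.card_eq_multiplicity, hG]
    have hf : (13 * 12 * 11 * 10 * 9 * 8 : ℕ).factorization 13 = 1 := by
      rw [show 13 * 12 * 11 * 10 * 9 * 8 = 13 * 95040 by norm_num,
        Nat.factorization_mul (by norm_num) (by norm_num), Finsupp.add_apply,
        (show Nat.Prime 13 by norm_num).factorization_self, Nat.factorization_eq_zero_of_not_dvd (show ¬ 13 ∣ 95040 by norm_num)]
    rw [hf, pow_one]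
  obtain ⟨σ, hσ⟩ := (isCyclic_of_prime_card hP).exists_generator
  have hσo : orderOf (((σ : G) : Equiv.Perm α)) = 13 := by
    rw [Subgroup.orderOf_coe, Subgroup.orderOf_coe, orderOf_eq_card_of_forall_mem_zpowers hσ, hP]
  set τ : Equiv.Perm α := ((σ : G) : Equiv.Perm α) with hτ
  have hcyc : τ.IsCycle := Equiv.Perm.isCycle_of_prime_order'' (by rw [hα]; norm_num) (by rw [hσo, hα])
  have hfull : τ.support = Finset.univ := by
    apply Finset.eq_univ_of_card
    rw [← hcyc.orderOf, hσo, hα]
  have hmove : ∀ z, τ z ≠ z := fun z => Equiv.Perm.mem_support.1 (hfull ▸ Finset.mem_univ z)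
  have hC : Subgroup.centralizer ((P : Subgroup G) : Set G) ≤ (P : Subgroup G) := by
    intro c hc
    obtain ⟨a⟩ : Nonempty α := Fintype.card_pos_iff.1 (by omega)
    obtain ⟨i, hi⟩ := hcyc.exists_pow_eq (hmove a) (hmove ((c : Equiv.Perm α) a))
    have hcomm : Commute (c : Equiv.Perm α) τ := by
      have h := Subgroup.mem_centralizer_iff.1 hc _ σ.2
      exact (congrArg Subtype.val h).symm
    have : c = (σ : G) ^ i := by
      apply Subtype.ext
      ext z
      obtain ⟨j, hj⟩ := hcyc.exists_pow_eq (hmove a) (hmove z)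
      show (c : Equiv.Perm α) z = ((((σ : G) ^ i : G)) : Equiv.Perm α) z
      rw [SubmonoidClass.coe_pow, ← hτ, ← hj, ← Equiv.Perm.mul_apply, (hcomm.pow_right j).eq, Equiv.Perm.mul_apply, ← hi,
        ← Equiv.Perm.mul_apply, ← Equiv.Perm.mul_apply, ← pow_add, ← pow_add, add_comm]
    rw [this]
    exact Subgroup.pow_mem _ σ.2 i
  set N := Subgroup.normalizer ((P : Subgroup G) : Set G) with hN
  have hNdvd : Nat.card N ∣ 13 * 12 := by
    have hker := (Subgroup.normalizerMonoidHom (P : Subgroup G)).ker.card_mul_index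
    show Nat.card (Subgroup.normalizer ((P : Subgroup G) : Set G)) ∣ _
    rw [← hker]
    refine Nat.mul_dvd_mul ?_ ?_
    · rw [Subgroup.normalizerMonoidHom_ker]
      have h13 := Subgroup.card_dvd_of_le hC
      rw [hP] at h13
      rw [Nat.card_congr (Subgroup.subgroupOfEquivOfLe (Subgroup.centralizer_le_normalizer _)).toEquiv]
      exact h13
    · rw [Subgroup.index_ker]
      refine (Subgroup.card_subgroup_dvd_card _).trans ?_
      haveI : IsCyclic (P : Subgroup G) := isCyclic_of_prime_card hP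
      rw [IsCyclic.card_mulAut, hP, Nat.totient_prime (by norm_num)]
  have h13N : 13 ∣ Nat.card N := hP ▸ Subgroup.card_dvd_of_le Subgroup.le_normalizer
  obtain ⟨d, hd⟩ := h13N
  have hd12 : d ∣ 12 := by
    rw [hd] at hNdvd
    exact Nat.dvd_of_mul_dvd_mul_left (by norm_num) hNdvd
  have hcount : N.index ≡ 1 [MOD 13] := by
    have := card_sylow_modEq_one 13 G
    rwa [P.card_eq_index_normalizer] at this
  have hmul := N.index_mul_card
  rw [hG, hd] at hmul
  unfold Nat.ModEq at hcount
  have hdec : ∀ d ∈ Nat.divisors 12, d ∈ ({1, 2, 3, 4, 6, 12} : Finset ℕ) := by decide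
  have : d ∈ ({1, 2, 3, 4, 6, 12} : Finset ℕ) :=
    hdec d (Nat.mem_divisors.2 ⟨hd12, (by norm_num : (12 : ℕ) ≠ 0)⟩)
  fin_cases this <;> omega

end Cfsg.Agent.S0710
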