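import Cfsg.Statements.S0711
import Mathlib

set_option autoImplicit false
open Cfsg

namespace Cfsg.Agent.S0711

set_option linter.style.haveILetI false
set_option maxHeartbeats 800000

/-- A `k`-transitive permutation group (`k ≥ 3`) with a non-identity element of support smaller than `2k - 2` contains a non-identity element of support at most 3, and therefore contains the alternating group. -/
theorem result {α : Type*} [Fintype α] [DecidableEq α] (G : Subgroup (Equiv.Perm α)) {k : ℕ} (hk : 3 ≤ k) (hkn : k ≤ Fintype.card α) (hG : MulAction.IsMultiplyPretransitive G α k) (g : Equiv.Perm α) (hg : g ∈ G) (hg1 : g ≠ 1) (hsupp : g.support.card < 2 * k - 2) : (∃ h : Equiv.Perm α, h ∈ G ∧ h ≠ 1 ∧ h.support.card ≤ 3) ∧ alternatingGroup α ≤ G := by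
  classical
  set n := Fintype.card α with hn
  -- fixing a small set and moving one further point
  have hmove : ∀ (T : Finset α) (y y' : α), y ∉ T → y' ∉ T → T.card + 1 ≤ k →
      ∃ h : Equiv.Perm α, h ∈ G ∧ (∀ x ∈ T, h x = x) ∧ h y = y' := by
    intro T y y' hy hy' hT
    let i : Fin (insert y T).card ↪ α := (insert y T).equivFin.symm.toEmbedding.trans (Function.Embedding.subtype _)
    let j : Fin (insert y T).card ↪ α := ⟨fun l => if i l = y then y' else i l, fun l l' hll => by
      have hmem : ∀ l, i l ≠ y → i l ∈ T := fun l hl => (Finset.mem_insert.1 ((insert y T).equivFin.symm l).2).resolve_left hl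
      simp only at hll
      by_cases h1 : i l = y <;> by_cases h2 : i l' = y
      · exact i.injective (h1.trans h2.symm)
      · rw [if_pos h1, if_neg h2] at hll
        exact absurd (hll ▸ hmem l' h2) hy'
      · rw [if_neg h1, if_pos h2] at hll
        exact absurd (hll ▸ hmem l h1) hy'
      · rw [if_neg h1, if_neg h2] at hll
        exact i.injective hll⟩
    haveI := hG
    haveI : MulAction.IsMultiplyPretransitive G α (insert y T).card :=
      MulAction.isMultiplyPretransitive_of_le (n := k) (by rw [Finset.card_insert_of_notMem hy]; exact hT)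
        (by rw [Nat.card_eq_fintype_card]; exact hkn)
    obtain ⟨h, hh⟩ := MulAction.exists_smul_eq G i j
    have key : ∀ x ∈ insert y T, (h : Equiv.Perm α) x = if x = y then y' else x := by
      intro x hx
      have := congrArg (fun v : Fin (insert y T).card ↪ α => v ((insert y T).equivFin ⟨x, hx⟩)) hh
      simpa [i, j, MulAction.compHom_smul_def, Subgroup.smul_def] using this
    refine ⟨h, h.2, fun x hx => ?_, ?_⟩
    · rw [key x (Finset.mem_insert_of_mem hx), if_neg (show ¬ x = y from fun e => hy (e ▸ hx))]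
    · rw [key y (Finset.mem_insert_self _ _), if_pos rfl]
  -- the descent
  have descent : ∀ g : Equiv.Perm α, g ∈ G → g ≠ 1 → g.support.card < 2 * k - 2 → 3 < g.support.card →
      (k = n) ∨ ∃ d ∈ G, d ≠ 1 ∧ d.support.card < g.support.card := by
    intro g hg hg1 hlt h3
    set Γ := g.support with hΓ
    set m := Γ.card with hm
    have hΓg : ∀ x, x ∈ Γ → g x ∈ Γ := fun x hx => Equiv.Perm.apply_mem_support.2 hx
    have hdiff : ∀ h ∈ G, h * g * h⁻¹ ≠ g → ∀ A : Finset α, (∀ x ∈ A, h x = x ∧ h (g x) = g x) →
        ∀ bound : ℕ, ((Γ ∪ Γ.image h) \ A).card ≤ bound →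
        ∃ d ∈ G, d ≠ 1 ∧ d.support.card ≤ bound := by
      intro h hh hne A hA bound hb
      refine ⟨g⁻¹ * (h * g * h⁻¹), G.mul_mem (G.inv_mem hg) (G.mul_mem (G.mul_mem hh hg) (G.inv_mem hh)),
        fun e => hne (inv_mul_eq_one.1 e).symm, le_trans (Finset.card_le_card ?_) hb⟩
      intro x hx
      rw [Equiv.Perm.mem_support] at hx
      rw [Finset.mem_sdiff]
      refine ⟨?_, fun hxA => hx ?_⟩
      · by_contra hu
        rw [Finset.mem_union, not_or, hΓ, Equiv.Perm.notMem_support] at hu
        refine hx ?_
        have h2 : g (h⁻¹ x) = h⁻¹ x := Equiv.Perm.notMem_support.1 fun hs =>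
          hu.2 (Finset.mem_image.2 ⟨_, hs, by rw [Equiv.Perm.inv_def, Equiv.apply_symm_apply]⟩)
        show g⁻¹ (h (g (h⁻¹ x))) = x
        rw [h2, Equiv.Perm.inv_def, Equiv.Perm.inv_def, Equiv.apply_symm_apply]
        exact g.symm_apply_eq.2 hu.1.symm
      · obtain ⟨e1, e2⟩ := hA x hxA
        show g⁻¹ (h (g (h⁻¹ x))) = x
        rw [show h⁻¹ x = x from h.symm_apply_eq.2 e1.symm, e2, Equiv.Perm.inv_def, Equiv.symm_apply_apply]
    by_cases hfull : m = n
    · by_cases hkn' : k = n
      · exact Or.inl hkn'
      have hk4 : 4 ≤ k := by omega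
      obtain ⟨x, hx⟩ : Γ.Nonempty := Finset.card_pos.1 (by omega)
      have hgx : g x ≠ x := Equiv.Perm.mem_support.1 hx
      obtain ⟨y, -, hy⟩ := Finset.exists_mem_notMem_of_card_lt_card (s := ({x, g x} : Finset α)) (t := Finset.univ)
        (by rw [Finset.card_univ]; exact lt_of_le_of_lt Finset.card_le_two (by omega))
      simp only [Finset.mem_insert, Finset.mem_singleton, not_or] at hy
      obtain ⟨hyx, hygx⟩ := hy
      have hbound : ∀ h : Equiv.Perm α, ((Γ ∪ Γ.image h) \ {x}).card ≤ m - 1 := fun h => by
        refine le_trans (Finset.card_le_card (Finset.sdiff_subset_sdiff (Finset.subset_univ _) le_rfl)) ?_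
        rw [← Finset.compl_eq_univ_sdiff, Finset.card_compl, Finset.card_singleton, hfull]
      right
      by_cases hgy : g y = x
      · obtain ⟨z, -, hz⟩ := Finset.exists_mem_notMem_of_card_lt_card (s := ({x, g x, y} : Finset α)) (t := Finset.univ)
          (by rw [Finset.card_univ]; exact lt_of_le_of_lt Finset.card_le_three (by omega))
        simp only [Finset.mem_insert, Finset.mem_singleton, not_or] at hz
        obtain ⟨hzx, hzgx, hzy⟩ := hz
        obtain ⟨h, hh, hfix, hhy⟩ := hmove {x, g x} y z (by simp [hyx, hygx]) (by simp [hzx, hzgx])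
          (le_trans (Nat.succ_le_succ Finset.card_le_two) (by omega))
        have hne : h * g * h⁻¹ ≠ g := fun e => by
          have hx' : h x = x := hfix x (by simp)
          have := congrArg (fun u : Equiv.Perm α => u z) e
          simp only [Equiv.Perm.mul_apply] at this
          rw [show h⁻¹ z = y from h.symm_apply_eq.2 hhy.symm, hgy, hx', ← hgy] at this
          exact hzy (g.injective this).symm
        obtain ⟨d, hd, hd1, hdc⟩ := hdiff h hh hne {x} (fun u hu => by
          rw [Finset.mem_singleton] at hu; subst hu; exact ⟨hfix u (by simp), hfix (g u) (by simp)⟩) _ (hbound h)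
        exact ⟨d, hd, hd1, by omega⟩
      · have hgy' : g y ≠ g x := fun e => hyx (g.injective e)
        have hgyy : g y ≠ y := Equiv.Perm.mem_support.1 (by
          rw [← hΓ, Finset.eq_univ_of_card Γ hfull]; exact Finset.mem_univ y)
        obtain ⟨z, -, hz⟩ := Finset.exists_mem_notMem_of_card_lt_card (s := ({x, g x, y, g y} : Finset α)) (t := Finset.univ)
          (by rw [Finset.card_univ]; exact lt_of_le_of_lt Finset.card_le_four (by omega))
        simp only [Finset.mem_insert, Finset.mem_singleton, not_or] at hz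
        obtain ⟨hzx, hzgx, hzy, hzgy⟩ := hz
        obtain ⟨h, hh, hfix, hhy⟩ := hmove {x, g x, y} (g y) z (by simp [hgy, hgy', hgyy]) (by simp [hzx, hzgx, hzy])
          (le_trans (Nat.succ_le_succ Finset.card_le_three) hk4)
        have hne : h * g * h⁻¹ ≠ g := fun e => by
          have hy' : h y = y := hfix y (by simp)
          have := congrArg (fun u : Equiv.Perm α => u y) e
          simp only [Equiv.Perm.mul_apply] at this
          rw [show h⁻¹ y = y from h.symm_apply_eq.2 hy'.symm, hhy] at this
          exact hzgy this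
        obtain ⟨d, hd, hd1, hdc⟩ := hdiff h hh hne {x} (fun u hu => by
          rw [Finset.mem_singleton] at hu; subst hu; exact ⟨hfix u (by simp), hfix (g u) (by simp)⟩) _ (hbound h)
        exact ⟨d, hd, hd1, by omega⟩
    right
    have hmn : m < n := lt_of_le_of_ne (Finset.card_le_univ _) hfull
    -- a consecutive piece of the support
    have hpiece : ∀ t, t < m → ∃ T : Finset α, T ⊆ Γ ∧ T.card = t ∧ (T.filter fun x => g x ∉ T).card ≤ 1 := by
      intro t ht
      induction t with
      | zero => exact ⟨∅, Finset.empty_subset _, rfl, by simp⟩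
      | succ t ih =>
        obtain ⟨T, hTΓ, hTc, hTe⟩ := ih (by omega)
        obtain ⟨v, hvΓ, hvT, hv⟩ : ∃ v ∈ Γ, v ∉ T ∧ ∀ x ∈ T, g x ∉ T → g x = v := by
          by_cases hemp : (T.filter fun x => g x ∉ T) = ∅
          · obtain ⟨v, hv, hv'⟩ := Finset.exists_mem_notMem_of_card_lt_card (s := T) (t := Γ) (by omega)
            exact ⟨v, hv, hv', fun x hx hgx => absurd (Finset.mem_filter.2 ⟨hx, hgx⟩) (by rw [hemp]; exact Finset.notMem_empty x)⟩
          · obtain ⟨x, hx⟩ := Finset.nonempty_of_ne_empty hemp
            rw [Finset.mem_filter] at hx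
            refine ⟨g x, hΓg x (hTΓ hx.1), hx.2, fun z hz hgz => ?_⟩
            rw [Finset.card_le_one.1 hTe z (Finset.mem_filter.2 ⟨hz, hgz⟩) x (Finset.mem_filter.2 hx)]
        refine ⟨insert v T, Finset.insert_subset hvΓ hTΓ, by rw [Finset.card_insert_of_notMem hvT, hTc], ?_⟩
        refine le_trans (Finset.card_le_card (t := {v}) fun z hz => ?_) (Finset.card_singleton v).le
        rw [Finset.mem_filter, Finset.mem_insert, Finset.mem_insert, not_or] at hz
        rw [Finset.mem_singleton]
        exact hz.1.resolve_right fun hzT => hz.2.1 (hv z hzT hz.2.2)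
    obtain ⟨T, hTΓ, hTc, hTe⟩ := hpiece (min k m - 1) (by omega)
    set E := T.filter fun x => g x ∉ T with hE
    set A := T.filter fun x => g x ∈ T with hA
    have hAE : A.card + E.card = T.card := Finset.card_filter_add_card_filter_not _
    have hAprop : ∀ (h : Equiv.Perm α), (∀ x ∈ T, h x = x) → ∀ x ∈ A, h x = x ∧ h (g x) = g x := fun h hfix x hx =>
      ⟨hfix x (Finset.mem_filter.1 hx).1, hfix _ (Finset.mem_filter.1 hx).2⟩
    have hcount : ∀ (h : Equiv.Perm α) (S : Finset α), S ⊆ Γ → S ⊆ Γ.image h → A ⊆ S →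
        ((Γ ∪ Γ.image h) \ A).card ≤ 2 * m - S.card - A.card := by
      intro h S h1 h2 h3'
      have e1 := Finset.card_union_add_card_inter Γ (Γ.image h)
      rw [Finset.card_image_of_injective _ h.injective, ← hm] at e1
      have e2 := Finset.card_le_card (Finset.subset_inter h1 h2)
      rw [Finset.card_sdiff_of_subset ((h3'.trans h1).trans Finset.subset_union_left)]
      omega
    have hTimg : ∀ (h : Equiv.Perm α), (∀ x ∈ T, h x = x) → T ⊆ Γ.image h := fun h hfix x hx =>
      Finset.mem_image.2 ⟨x, hTΓ hx, hfix x hx⟩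
    obtain ⟨out, -, hout⟩ := Finset.exists_mem_notMem_of_card_lt_card (s := Γ) (t := Finset.univ) (by rw [Finset.card_univ]; exact hmn)
    by_cases hE0 : E = ∅
    · -- a union of cycles
      obtain ⟨y, hy, hy'⟩ := Finset.exists_mem_notMem_of_card_lt_card (s := T) (t := Γ) (by omega)
      obtain ⟨h, hh, hfix, hhy⟩ := hmove T y out hy' (fun e => hout (hTΓ e)) (by omega)
      have hne : h * g * h⁻¹ ≠ g := fun e => by
        have := congrArg (fun u : Equiv.Perm α => u out) e
        simp only [Equiv.Perm.mul_apply] at this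
        rw [show h⁻¹ out = y from h.symm_apply_eq.2 hhy.symm, Equiv.Perm.notMem_support.1 hout, ← hhy] at this
        exact Equiv.Perm.mem_support.1 hy (h.injective this)
      obtain ⟨d, hd, hd1, hdc⟩ := hdiff h hh hne A (hAprop h hfix) _
        (hcount h T hTΓ (hTimg h hfix) (Finset.filter_subset _ _))
      rw [hE0, Finset.card_empty, add_zero] at hAE
      exact ⟨d, hd, hd1, by omega⟩
    obtain ⟨x, hx⟩ := Finset.nonempty_of_ne_empty hE0
    rw [hE, Finset.mem_filter] at hx
    obtain ⟨hxT, hgxT⟩ := hx
    have hE1 : E.card = 1 := le_antisymm hTe (Finset.card_pos.2 (Finset.nonempty_of_ne_empty hE0))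
    by_cases hkm : k < m
    · obtain ⟨y', hy', hy''⟩ := Finset.exists_mem_notMem_of_card_lt_card (s := insert (g x) T) (t := Γ)
        (by rw [Finset.card_insert_of_notMem hgxT]; omega)
      rw [Finset.mem_insert, not_or] at hy''
      obtain ⟨h, hh, hfix, hhy⟩ := hmove T (g x) y' hgxT hy''.2 (by omega)
      have hne : h * g * h⁻¹ ≠ g := fun e => by
        have := congrArg (fun u : Equiv.Perm α => u x) e
        simp only [Equiv.Perm.mul_apply] at this
        rw [show h⁻¹ x = x from h.symm_apply_eq.2 (hfix x hxT).symm, hhy] at this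
        exact hy''.1 this
      obtain ⟨d, hd, hd1, hdc⟩ := hdiff h hh hne A (hAprop h hfix) _
        (hcount h (insert y' T) (Finset.insert_subset hy' hTΓ)
          (Finset.insert_subset (Finset.mem_image.2 ⟨g x, hΓg x (hTΓ hxT), hhy⟩) (hTimg h hfix))
          ((Finset.filter_subset _ _).trans (Finset.subset_insert _ _)))
      rw [Finset.card_insert_of_notMem hy''.2] at hdc
      exact ⟨d, hd, hd1, by omega⟩
    · obtain ⟨h, hh, hfix, hhy⟩ := hmove T (g x) out hgxT (fun e => hout (hTΓ e)) (by omega)
      have hne : h * g * h⁻¹ ≠ g := fun e => by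
        have := congrArg (fun u : Equiv.Perm α => u x) e
        simp only [Equiv.Perm.mul_apply] at this
        rw [show h⁻¹ x = x from h.symm_apply_eq.2 (hfix x hxT).symm, hhy] at this
        exact hout (this ▸ hΓg x (hTΓ hxT))
      obtain ⟨d, hd, hd1, hdc⟩ := hdiff h hh hne A (hAprop h hfix) _
        (hcount h T hTΓ (hTimg h hfix) (Finset.filter_subset _ _))
      exact ⟨d, hd, hd1, by omega⟩
  -- primitivity
  haveI h2 : MulAction.IsMultiplyPretransitive G α 2 := by
    haveI := hG
    exact MulAction.isMultiplyPretransitive_of_le (n := k) (by omega) (by rw [Nat.card_eq_fintype_card]; exact hkn)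
  have hprim : MulAction.IsPreprimitive G α := MulAction.isPreprimitive_of_is_two_pretransitive h2
  have hfinal : ∀ h : Equiv.Perm α, h ∈ G → h ≠ 1 → h.support.card ≤ 3 → alternatingGroup α ≤ G := by
    intro h hh h1 hc
    have := Equiv.Perm.two_le_card_support_of_ne_one h1
    rcases (show h.support.card = 2 ∨ h.support.card = 3 by omega) with h' | h'
    · rw [Equiv.Perm.subgroup_eq_top_of_isPreprimitive_of_isSwap_mem hprim _ (Equiv.Perm.card_support_eq_two.1 h') hh]
      exact le_top
    · exact Equiv.Perm.alternatingGroup_le_of_isPreprimitive_of_isThreeCycle_mem hprim (card_support_eq_three_iff.1 h') hh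
  have main : ∀ (m : ℕ) (g : Equiv.Perm α), g ∈ G → g ≠ 1 → g.support.card = m → m < 2 * k - 2 →
      ∃ h : Equiv.Perm α, h ∈ G ∧ h ≠ 1 ∧ h.support.card ≤ 3 := by
    intro m
    induction m using Nat.strong_induction_on with
    | _ m ih =>
      intro g hg hg1 hgm hlt
      rcases Nat.lt_or_ge 3 m with h3 | h3
      · rcases descent g hg hg1 (hgm ▸ hlt) (hgm ▸ h3) with hkn' | ⟨d, hd, hd1, hdc⟩
        · -- full symmetric group
          obtain ⟨a, b, hab⟩ := Fintype.exists_pair_of_one_lt_card (α := α) (by omega)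
          haveI := hG
          let e : Fin k ↪ α := (finCongr hkn').toEmbedding.trans (Fintype.equivFin α).symm.toEmbedding
          obtain ⟨h, hh⟩ := MulAction.exists_smul_eq G e (e.trans (Equiv.swap a b).toEmbedding)
          have : (h : Equiv.Perm α) = Equiv.swap a b := Equiv.ext fun z => by
            obtain ⟨l, rfl⟩ : ∃ l, e l = z := ⟨(finCongr hkn').symm (Fintype.equivFin α z), by simp [e]⟩
            exact congrArg (fun v : Fin k ↪ α => v l) hh
          refine ⟨Equiv.swap a b, this ▸ h.2, fun e' => hab ?_, ?_⟩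
          · have := congrArg (fun u : Equiv.Perm α => u a) e'
            simpa using this.symm
          · rw [Equiv.Perm.card_support_swap hab]; omega
        · exact ih _ (hgm ▸ hdc) d hd hd1 rfl (by omega)
      · exact ⟨g, hg, hg1, hgm ▸ h3⟩
  obtain ⟨h, hh, h1, hc⟩ := main _ g hg hg1 rfl hsupp
  exact ⟨⟨h, hh, h1, hc⟩, hfinal h hh h1 hc⟩

end Cfsg.Agent.S0711
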