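import Cfsg.Statements.S0712
import Mathlib

set_option autoImplicit false
open Cfsg

namespace Cfsg.Agent.S0712

/-- Jordan: a primitive group in which the pointwise stabiliser of a set `s` is doubly transitive on the complement of `s` (which has at least 2 points) is `(|s| + 2)`-transitive. -/
theorem result {α : Type*} [Fintype α] [DecidableEq α] (G : Subgroup (Equiv.Perm α)) (hG : MulAction.IsPreprimitive G α) (s : Set α) {m : ℕ} (hsm : s.ncard = m) (hm : m + 2 ≤ Fintype.card α) (h2 : MulAction.IsMultiplyPretransitive (fixingSubgroup G s) (SubMulAction.ofFixingSubgroup G s) 2) : MulAction.IsMultiplyPretransitive G α (m + 2) := by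
  classical
  haveI := h2
  have hcard : Nat.card α = Fintype.card α := Nat.card_eq_fintype_card
  have hm1 : MulAction.IsMultiplyPretransitive G α m := by
    rcases m with _ | n
    · refine ⟨fun x y => ⟨1, ?_⟩⟩
      ext i
      exact i.elim0
    · have h3 := hG.isMultiplyPreprimitive hsm (by omega)
        (MulAction.isPreprimitive_of_is_two_pretransitive h2)
      exact MulAction.isMultiplyPretransitive_of_le' (G := G) (α := α) (n := n + 2)
        (m := n + 1) (by omega) (by rw [ENat.card_eq_coe_natCard]; exact_mod_cast (by omega : n + 2 ≤ Nat.card α))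
  let e : Fin m ≃ s := (Fintype.equivFinOfCardEq (by rw [← Nat.card_eq_fintype_card, Nat.card_coe_set_eq, hsm])).symm
  let es : Fin m ↪ α := e.toEmbedding.trans (Function.Embedding.subtype _)
  have key : ∀ x : Fin (m + 2) ↪ α, ∃ g : G, (∀ i : Fin m, g • x (Fin.castAdd 2 i) = es i) ∧
      ∀ j : Fin 2, g • x (Fin.natAdd m j) ∉ s := by
    intro x
    obtain ⟨g, hg⟩ := hm1.exists_smul_eq ((Fin.castAddEmb 2).trans x) es
    refine ⟨g, fun i => congrArg (fun f : Fin m ↪ α => f i) hg, fun j hj => ?_⟩
    have h4 : g • x (Fin.natAdd m j) = g • x (Fin.castAdd 2 (e.symm ⟨_, hj⟩)) := by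
      rw [show g • x (Fin.castAdd 2 (e.symm ⟨_, hj⟩)) = es (e.symm ⟨_, hj⟩) from
        congrArg (fun f : Fin m ↪ α => f _) hg]
      simp [es]
    have h5 := congrArg Fin.val (x.injective (MulAction.injective g h4))
    simp only [Fin.val_natAdd, Fin.val_castAdd] at h5
    omega
  refine ⟨fun x y => ?_⟩
  obtain ⟨g, hg, hg'⟩ := key x
  obtain ⟨g', hg1, hg1'⟩ := key y
  let u : Fin 2 ↪ SubMulAction.ofFixingSubgroup G s :=
    ⟨fun j => ⟨g • x (Fin.natAdd m j), hg' j⟩, fun i j h =>
      Fin.natAdd_injective 2 m (x.injective (MulAction.injective g (congrArg Subtype.val h)))⟩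
  let v : Fin 2 ↪ SubMulAction.ofFixingSubgroup G s :=
    ⟨fun j => ⟨g' • y (Fin.natAdd m j), hg1' j⟩, fun i j h =>
      Fin.natAdd_injective 2 m (y.injective (MulAction.injective g' (congrArg Subtype.val h)))⟩
  obtain ⟨k, hk⟩ := h2.exists_smul_eq u v
  refine ⟨g'⁻¹ * k.1 * g, ?_⟩
  ext i
  show (g'⁻¹ * k.1 * g) • x i = y i
  rw [mul_smul, mul_smul, inv_smul_eq_iff]
  induction i using Fin.addCases with
  | left i =>
    rw [hg i, hg1 i]
    exact (mem_fixingSubgroup_iff G).1 k.2 _ (e i).2
  | right j => exact congrArg Subtype.val (congrArg (fun f : Fin 2 ↪ _ => f j) hk)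

end Cfsg.Agent.S0712
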