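import Cfsg.Statements.S0713
import Mathlib

set_option autoImplicit false
open Cfsg

namespace Cfsg.Agent.S0713

set_option linter.style.haveILetI false
set_option maxHeartbeats 800000
open scoped Pointwise

/-- Jordan's Theorem: a primitive permutation group of degree `n ≥ 5` containing a `p`-cycle for a prime `p ≤ n - 3` contains the alternating group. -/
theorem result {α : Type*} [Fintype α] [DecidableEq α] (G : Subgroup (Equiv.Perm α)) (hG : MulAction.IsPreprimitive G α) {p : ℕ} (hp : p.Prime) (hn : 5 ≤ Fintype.card α) (hpn : p + 3 ≤ Fintype.card α) {g : Equiv.Perm α} (hgc : g.IsCycle) (hgp : g.support.card = p) (hg : g ∈ G) : alternatingGroup α ≤ G := by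
  classical
  haveI : Fact p.Prime := ⟨hp⟩
  by_cases hp3 : p = 3
  · exact Equiv.Perm.alternatingGroup_le_of_isPreprimitive_of_isThreeCycle_mem hG
      (card_support_eq_three_iff.1 (hgp.trans hp3)) hg
  set S : Set α := (g.support : Set α)ᶜ with hS
  set n := Fintype.card α with hn'
  have hScard : S.ncard = n - p := by
    rw [hS, Set.ncard_compl, Nat.card_eq_fintype_card, Set.ncard_coe_finset, hgp]
  -- multiple transitivity from Jordan's criterion
  have hk : MulAction.IsMultiplyPretransitive G α (n - p + 1) := by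
    have hcyc := Equiv.Perm.isPretransitive_of_isCycle_mem (G := G) hgc hg
    have hprim : MulAction.IsPreprimitive (fixingSubgroup G S) (SubMulAction.ofFixingSubgroup G S) := by
      haveI := hcyc
      apply MulAction.IsPreprimitive.of_prime_card
      convert hp
      rw [← hgp, ← Nat.card_eq_finsetCard]
      exact Nat.card_congr (Equiv.subtypeEquivRight fun x => by simp [SubMulAction.mem_ofFixingSubgroup_iff, hS])
    have h := hG.isMultiplyPreprimitive (s := S) (n := n - p - 1) (by rw [hScard]; omega)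
      (by rw [Nat.card_eq_fintype_card]; have := hp.two_le; omega) hprim
    rw [show n - p - 1 + 2 = n - p + 1 by omega] at h
    exact MulAction.IsMultiplyPreprimitive.isMultiplyPretransitive ..
  have hkm : MulAction.IsMultiplyPretransitive G α (n - p) := by
    haveI := hk
    exact MulAction.isMultiplyPretransitive_of_le (n := n - p + 1) (by omega) (by rw [Nat.card_eq_fintype_card]; have := hp.one_le; omega)
  -- the group fixing `S` pointwise has cyclic Sylow `p`-subgroups of order `p`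
  set F := fixingSubgroup G S with hF
  set gG : G := ⟨g, hg⟩ with hgG
  have hgF : gG ∈ F := by
    rw [hF, mem_fixingSubgroup_iff]
    intro x hx
    exact Equiv.Perm.notMem_support.1 hx
  have hgord : orderOf g = p := by rw [hgc.orderOf, hgp]
  have hFcard : ∀ Q : Sylow p F, Nat.card (Q : Subgroup F) = p := by
    intro Q
    let r : F →* Equiv.Perm g.support :=
      { toFun := fun f => ((f : G) : Equiv.Perm α).subtypePerm (fun x => by
          constructor <;> intro hx <;> by_contra hx'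
          · have h1 : ((f : G) : Equiv.Perm α) x = x := (mem_fixingSubgroup_iff G).1 f.2 x hx'
            exact hx' (h1 ▸ hx)
          · have h1 : ((f : G) : Equiv.Perm α) (((f : G) : Equiv.Perm α) x) = ((f : G) : Equiv.Perm α) x := (mem_fixingSubgroup_iff G).1 f.2 _ hx'
            rw [((f : G) : Equiv.Perm α).injective h1] at hx'
            exact hx' hx)
        map_one' := Equiv.ext fun _ => rfl
        map_mul' := fun _ _ => Equiv.ext fun _ => rfl }
    have hr : Function.Injective r := by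
      intro f f' h
      apply Subtype.ext; apply Subtype.ext; apply Equiv.ext
      intro x
      by_cases hx : x ∈ g.support
      · exact congrArg Subtype.val (Equiv.Perm.congr_fun h ⟨x, hx⟩)
      · exact ((mem_fixingSubgroup_iff G).1 f.2 x hx).trans ((mem_fixingSubgroup_iff G).1 f'.2 x hx).symm
    obtain ⟨i, hi⟩ := IsPGroup.iff_card.1 Q.isPGroup'
    have hd : p ^ i ∣ p.factorial := by
      rw [← hi]
      refine (Subgroup.card_subgroup_dvd_card _).trans ((Subgroup.card_dvd_of_injective r hr).trans ?_)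
      rw [Nat.card_eq_fintype_card, Fintype.card_perm, Fintype.card_coe, hgp]
    have hge : 1 ≤ i := by
      rcases Nat.eq_zero_or_pos i with rfl | h
      · exfalso
        have h1 : p ∣ Nat.card F := hgord ▸ (by
          have := orderOf_dvd_natCard (⟨gG, hgF⟩ : F)
          rwa [← Subgroup.orderOf_coe, ← Subgroup.orderOf_coe] at this)
        have := Q.dvd_card_of_dvd_card h1
        rw [hi, pow_zero] at this
        exact hp.not_dvd_one this
      · exact h
    have hle : i ≤ 1 := by
      by_contra hi2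
      have h2 : p * p ∣ p * (p - 1).factorial := by
        rw [Nat.mul_factorial_pred hp.ne_zero, ← pow_two]
        exact (Nat.pow_dvd_pow p (by omega)).trans hd
      have := (hp.dvd_factorial).1 (Nat.dvd_of_mul_dvd_mul_left hp.pos h2)
      have := hp.two_le
      omega
    rw [hi, show i = 1 by omega, pow_one]
  -- normalising elements inducing any permutation of `S`
  have hlift : ∀ σ : Equiv.Perm α, (∀ x, x ∈ S ↔ σ x ∈ S) → ∃ h : Equiv.Perm α, h ∈ G ∧
      (∃ i : ℕ, h * g * h⁻¹ = g ^ i) ∧ ∀ x ∈ S, h x = σ x := by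
    intro σ hσ
    let e : Fin (n - p) ↪ α := (Finset.equivFinOfCardEq (s := g.supportᶜ) (n := n - p)
      (by rw [Finset.card_compl, hgp])).symm.toEmbedding.trans (Function.Embedding.subtype _)
    have he : ∀ x ∈ S, ∃ j, e j = x := fun x hx =>
      ⟨Finset.equivFinOfCardEq (by rw [Finset.card_compl, hgp]) ⟨x, Finset.mem_compl.2 hx⟩, by simp [e]⟩
    haveI := hkm
    obtain ⟨h, hh⟩ := MulAction.exists_smul_eq G e (e.trans σ.toEmbedding)
    have hh' : ∀ x ∈ S, (h : Equiv.Perm α) x = σ x := fun x hx => by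
      obtain ⟨j, rfl⟩ := he x hx
      exact congrArg (fun v : Fin (n - p) ↪ α => v j) hh
    have hS' : ∀ x, x ∈ S → (h : Equiv.Perm α).symm x ∈ S := fun x hx => by
      have h1 : σ.symm x ∈ S := (hσ _).2 (by rwa [Equiv.apply_symm_apply])
      have h2 := hh' _ h1
      rw [Equiv.apply_symm_apply] at h2
      rwa [← h2, Equiv.symm_apply_apply, ]
    have hcF : h * gG * h⁻¹ ∈ F := by
      rw [hF, mem_fixingSubgroup_iff]
      intro x hx
      show (h : Equiv.Perm α) (g ((h : Equiv.Perm α).symm x)) = x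
      rw [Equiv.Perm.notMem_support.1 (hS' x hx), Equiv.apply_symm_apply]
    have hz : ∀ u : F, orderOf u = p → IsPGroup p (Subgroup.zpowers u) := fun u hu =>
      IsPGroup.of_card (n := 1) (by rw [Nat.card_zpowers, hu, pow_one])
    have o1 : orderOf (⟨gG, hgF⟩ : F) = p := by rw [← Subgroup.orderOf_coe, ← Subgroup.orderOf_coe]; exact hgord
    have o2 : orderOf (⟨h * gG * h⁻¹, hcF⟩ : F) = p := by
      rw [← Subgroup.orderOf_coe]
      show orderOf (MulAut.conj h gG) = p
      rw [MulEquiv.orderOf_eq, ← Subgroup.orderOf_coe]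
      exact hgord
    obtain ⟨Q1, hQ1⟩ := (hz _ o1).exists_le_sylow
    obtain ⟨Q2, hQ2⟩ := (hz _ o2).exists_le_sylow
    have e1 : (Q1 : Subgroup F) = Subgroup.zpowers (⟨gG, hgF⟩ : F) :=
      (Subgroup.eq_of_le_of_card_ge hQ1 (by rw [hFcard Q1, Nat.card_zpowers, o1])).symm
    obtain ⟨f, hf⟩ := MulAction.exists_smul_eq F Q2 Q1
    have hm : f * (⟨h * gG * h⁻¹, hcF⟩ : F) * f⁻¹ ∈ Subgroup.zpowers (⟨gG, hgF⟩ : F) := by
      rw [← e1, ← hf, Sylow.coe_subgroup_smul]
      exact Subgroup.smul_mem_pointwise_smul _ (MulAut.conj f) _ (hQ2 (Subgroup.mem_zpowers _))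
    obtain ⟨i, hi⟩ := mem_zpowers_iff_mem_range_orderOf.1 hm |> Finset.mem_image.1
    refine ⟨((f : G) * h : G), ((f : G) * h).2, ⟨i, ?_⟩, fun x hx => ?_⟩
    · have := congrArg (fun u : F => ((u : G) : Equiv.Perm α)) hi.2
      simp only [SubmonoidClass.coe_pow, Subgroup.coe_mul, InvMemClass.coe_inv] at this
      rw [show g = (gG : Equiv.Perm α) from rfl, this]
      simp only [Subgroup.coe_mul]
      group
    · show ((f : G) : Equiv.Perm α) ((h : Equiv.Perm α) x) = σ x
      rw [hh' x hx]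
      exact (mem_fixingSubgroup_iff G).1 f.2 _ ((hσ x).1 hx)
  -- three points of `S`
  obtain ⟨a, ha, b, hb, c, hc, hab, hac, hbc⟩ := Finset.two_lt_card.1
    (show 2 < g.supportᶜ.card by rw [Finset.card_compl, hgp]; omega)
  rw [Finset.mem_compl] at ha hb hc
  have hswap : ∀ u v : α, u ∈ S → v ∈ S → ∀ x, x ∈ S ↔ Equiv.swap u v x ∈ S := by
    intro u v hu hv x
    rcases eq_or_ne x u with rfl | hxu
    · simp [hu, hv]
    rcases eq_or_ne x v with rfl | hxv
    · simp [hu, hv]
    · rw [Equiv.swap_apply_of_ne_of_ne hxu hxv]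
  have haS : a ∈ S := ha
  have hbS : b ∈ S := hb
  have hcS : c ∈ S := hc
  obtain ⟨n1, hn1, ⟨i, hi⟩, hn1'⟩ := hlift (Equiv.swap a b) (hswap a b haS hbS)
  obtain ⟨n2, hn2, ⟨j, hj⟩, hn2'⟩ := hlift (Equiv.swap b c) (hswap b c hbS hcS)
  set w : Equiv.Perm α := (n1 * n2) * (n2 * n1)⁻¹ with hw
  have hwG : w ∈ G := G.mul_mem (G.mul_mem hn1 hn2) (G.inv_mem (G.mul_mem hn2 hn1))
  have hconj : ∀ (u : Equiv.Perm α) (r : ℕ) (k : ℕ), u * g * u⁻¹ = g ^ r → u * g ^ k * u⁻¹ = g ^ (r * k) :=
    fun u r k h => by rw [← conj_pow, h, pow_mul]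
  have e12 : (n1 * n2) * g * (n1 * n2)⁻¹ = g ^ (i * j) := by
    rw [show (n1 * n2) * g * (n1 * n2)⁻¹ = n1 * (n2 * g * n2⁻¹) * n1⁻¹ by group, hj, hconj n1 i j hi]
  have e21 : (n2 * n1) * g * (n2 * n1)⁻¹ = g ^ (j * i) := by
    rw [show (n2 * n1) * g * (n2 * n1)⁻¹ = n2 * (n1 * g * n1⁻¹) * n2⁻¹ by group, hi, hconj n2 j i hj]
  have hwc : Commute w g := by
    have h1 : Commute w (g ^ (i * j)) := by
      show w * g ^ (i * j) = g ^ (i * j) * w
      conv_lhs => rw [mul_comm i j, ← e21]
      conv_rhs => rw [← e12]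
      rw [hw]; group
    have hgen : g ∈ Subgroup.zpowers (g ^ (i * j)) := by
      have hnd : ¬ p ∣ i * j := fun hd => by
        have h0 : g ^ (i * j) = 1 := orderOf_dvd_iff_pow_eq_one.1 (hgord ▸ hd)
        rw [h0] at e12
        exact hgc.ne_one (by simpa using conj_eq_one_iff.1 e12)
      obtain ⟨m, hm⟩ := exists_pow_eq_self_of_coprime (x := g) (n := i * j)
        (by rw [hgord]; exact (hp.coprime_iff_not_dvd.2 hnd).symm)
      exact ⟨m, by simpa using hm⟩
    obtain ⟨z, hz⟩ := hgen
    rw [← hz]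
    exact h1.zpow_right z
  set u : Equiv.Perm α := Equiv.swap a b * Equiv.swap b c * (Equiv.swap a b * Equiv.swap b c) with hu
  have h3 : (Equiv.swap a b * Equiv.swap b c).IsThreeCycle := by
    rw [Equiv.swap_comm a b]
    exact Equiv.Perm.isThreeCycle_swap_mul_swap_same (Ne.symm hab) hbc hac
  have hu3 : u.IsThreeCycle := h3.isThreeCycle_sq
  have huS : ∀ x, x ∈ S ↔ u x ∈ S := fun x => by
    rw [hswap b c hbS hcS x, hswap a b haS hbS _, hswap b c hbS hcS _, hswap a b haS hbS _]; rfl
  have hwS : ∀ x ∈ S, w x = u x := by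
    intro x hx
    have hinv1 : ∀ (k : Equiv.Perm α) (σ : Equiv.Perm α), (∀ y ∈ S, k y = σ y) → ∀ y, σ y ∈ S → y ∈ S → k⁻¹ (σ y) = y :=
      fun k σ h y _ hy => by rw [← h y hy, Equiv.Perm.inv_def, Equiv.symm_apply_apply]
    have s1 : ∀ y ∈ S, n1⁻¹ y = Equiv.swap a b y := fun y hy => by
      have := hinv1 n1 _ hn1' (Equiv.swap a b y) (by rwa [Equiv.swap_apply_self]) ((hswap a b haS hbS y).1 hy)
      rwa [Equiv.swap_apply_self] at this
    have s2 : ∀ y ∈ S, n2⁻¹ y = Equiv.swap b c y := fun y hy => by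
      have := hinv1 n2 _ hn2' (Equiv.swap b c y) (by rwa [Equiv.swap_apply_self]) ((hswap b c hbS hcS y).1 hy)
      rwa [Equiv.swap_apply_self] at this
    have m1 := (hswap b c hbS hcS x).1 hx
    have m2 := (hswap a b haS hbS _).1 m1
    have m3 := (hswap b c hbS hcS _).1 m2
    rw [hw, mul_inv_rev]
    show n1 (n2 (n1⁻¹ (n2⁻¹ x))) = _
    rw [s2 x hx, s1 _ m1, hn2' _ m2, hn1' _ m3]
    rfl
  -- `w ^ p` is a three-cycle
  obtain ⟨x₀, hx₀, hx₀'⟩ := hgc
  have hwsupp : ∃ k : ℤ, ∀ x, x ∈ g.support → w x = (g ^ k) x := by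
    have h0 : g (w x₀) ≠ w x₀ := fun h => hx₀ (w.injective (by rw [← Equiv.Perm.mul_apply, hwc.eq]; exact h))
    obtain ⟨k, hk⟩ := hx₀' h0
    refine ⟨k, fun x hx => ?_⟩
    obtain ⟨l, rfl⟩ := hx₀' (Equiv.Perm.mem_support.1 hx)
    rw [← Equiv.Perm.mul_apply, (hwc.zpow_right l).eq, Equiv.Perm.mul_apply, ← hk, ← Equiv.Perm.mul_apply,
      ← Equiv.Perm.mul_apply, ← zpow_add, ← zpow_add, add_comm]
  obtain ⟨k, hk⟩ := hwsupp
  have hwp : w ^ p = u ^ p := by
    apply Equiv.ext
    intro x
    by_cases hx : x ∈ g.support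
    · have hmem : ∀ l : ℤ, (g ^ l) x ∈ g.support := fun l => Equiv.Perm.zpow_apply_mem_support.2 hx
      have h1 : ∀ r : ℕ, (w ^ r) x = ((g ^ k) ^ r) x := by
        intro r
        induction r with
        | zero => rfl
        | succ r ih =>
          rw [pow_succ', pow_succ', Equiv.Perm.mul_apply, Equiv.Perm.mul_apply, ih]
          exact hk _ (by rw [← zpow_natCast, ← zpow_mul]; exact hmem _)
      have hgp1 : (g ^ k) ^ p = 1 := by rw [← zpow_natCast, zpow_comm, zpow_natCast, ← hgord, pow_orderOf_eq_one, one_zpow]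
      have hux : u x = x := by
        have hxne : ∀ v, v ∈ S → x ≠ v := fun v hv h => hv (h ▸ hx)
        show Equiv.swap a b (Equiv.swap b c (Equiv.swap a b (Equiv.swap b c x))) = x
        simp only [Equiv.swap_apply_of_ne_of_ne (hxne b hbS) (hxne c hcS), Equiv.swap_apply_of_ne_of_ne (hxne a haS) (hxne b hbS)]
      rw [h1, hgp1, Equiv.Perm.pow_apply_eq_self_of_apply_eq_self hux, Equiv.Perm.one_apply]
    · have h1 : ∀ r : ℕ, (w ^ r) x = (u ^ r) x ∧ (u ^ r) x ∈ S := by
        intro r
        induction r with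
        | zero => exact ⟨rfl, hx⟩
        | succ r ih =>
          rw [pow_succ', pow_succ', Equiv.Perm.mul_apply, Equiv.Perm.mul_apply, ih.1]
          exact ⟨hwS _ ih.2, (huS _).1 ih.2⟩
      exact (h1 p).1
  have hup : (u ^ p).IsThreeCycle := by
    have : p % 3 = 1 ∨ p % 3 = 2 := by
      have : ¬ 3 ∣ p := fun h => hp3 ((Nat.prime_dvd_prime_iff_eq Nat.prime_three hp).1 h).symm
      omega
    have hu31 : u ^ 3 = 1 := hu3.orderOf ▸ pow_orderOf_eq_one u
    rw [← Nat.mod_add_div p 3, pow_add, pow_mul, hu31, one_pow, mul_one]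
    rcases this with h | h <;> rw [h]
    · rwa [pow_one]
    · rw [pow_two]; exact hu3.isThreeCycle_sq
  exact Equiv.Perm.alternatingGroup_le_of_isPreprimitive_of_isThreeCycle_mem hG hup (hwp ▸ G.pow_mem hwG p)

end Cfsg.Agent.S0713
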