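import Cfsg.Statements.S0714
import Mathlib

set_option autoImplicit false
open Cfsg

namespace Cfsg.Agent.S0714

set_option linter.style.haveILetI false

/-- Over any field, the permutation module of the alternating group of degree at least 5 has exactly four invariant subspaces: zero, the constant functions, the functions with coordinate sum zero, and everything. -/
theorem result {α : Type*} [Fintype α] [DecidableEq α] (hα : 5 ≤ Fintype.card α) {K : Type*} [Field K] (W : Subrepresentation (Cfsg.permRep K (alternatingGroup α) α)) : W.toSubmodule = ⊥ ∨ W = Cfsg.permConstants K (alternatingGroup α) α ∨ W = Cfsg.permSumZero K (alternatingGroup α) α ∨ W.toSubmodule = ⊤ := by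
  classical
  let D : α → α → (α → K) := fun a b => Pi.single a 1 - Pi.single b 1
  have hsingle : ∀ (g : alternatingGroup α) (a : α), Cfsg.permRep K (alternatingGroup α) α g (Pi.single a 1) = Pi.single ((g : Equiv.Perm α) a) 1 := by
    intro g a
    funext x
    show (Pi.single a 1 : α → K) ((g : Equiv.Perm α).symm x) = _
    simp only [Pi.single_apply]
    exact if_congr (Equiv.symm_apply_eq _) rfl rfl
  have hD : ∀ (g : alternatingGroup α) (a b : α), Cfsg.permRep K (alternatingGroup α) α g (D a b) = D ((g : Equiv.Perm α) a) ((g : Equiv.Perm α) b) := by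
    intro g a b
    simp only [D, map_sub, hsingle]
  have hinv : ∀ (g : alternatingGroup α) (v : α → K), v ∈ W.toSubmodule → Cfsg.permRep K (alternatingGroup α) α g v ∈ W.toSubmodule :=
    fun g v hv => W.apply_mem_toSubmodule g hv
  have h3 : ∀ a b c : α, a ≠ b → a ≠ c → b ≠ c → ∃ g : alternatingGroup α, (g : Equiv.Perm α) a = b ∧
      (g : Equiv.Perm α) b = c ∧ ∀ x, x ≠ a → x ≠ b → x ≠ c → (g : Equiv.Perm α) x = x := by
    intro a b c hab hac hbc
    refine ⟨⟨Equiv.swap a b * Equiv.swap b c, by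
      rw [Equiv.Perm.mem_alternatingGroup, map_mul, Equiv.Perm.sign_swap hab, Equiv.Perm.sign_swap hbc]; rfl⟩, ?_, ?_, ?_⟩
    · show Equiv.swap a b (Equiv.swap b c a) = b
      rw [Equiv.swap_apply_of_ne_of_ne hab hac, Equiv.swap_apply_left]
    · show Equiv.swap a b (Equiv.swap b c b) = c
      rw [Equiv.swap_apply_left, Equiv.swap_apply_of_ne_of_ne (Ne.symm hac) (Ne.symm hbc)]
    · intro x ha hb hc
      show Equiv.swap a b (Equiv.swap b c x) = x
      rw [Equiv.swap_apply_of_ne_of_ne hb hc, Equiv.swap_apply_of_ne_of_ne ha hb]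
  by_cases hW : ∀ f ∈ W.toSubmodule, ∀ i j, f i = f j
  · have hle : W.toSubmodule ≤ (Cfsg.permConstants K (alternatingGroup α) α).toSubmodule := by
      intro f hf
      obtain ⟨i⟩ : Nonempty α := Fintype.card_pos_iff.1 (by omega)
      exact Submodule.mem_span_singleton.2 ⟨f i, funext fun x => by simp [hW f hf x i]⟩
    by_cases hbot : W.toSubmodule = ⊥
    · exact Or.inl hbot
    refine Or.inr (Or.inl (Subrepresentation.ext (le_antisymm hle ?_)))
    obtain ⟨f, hf, hf0⟩ := (Submodule.ne_bot_iff _).1 hbot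
    obtain ⟨c, rfl⟩ := Submodule.mem_span_singleton.1 (hle hf)
    have hc : c ≠ 0 := fun h => hf0 (by rw [h, zero_smul])
    intro v hv
    obtain ⟨d, rfl⟩ := Submodule.mem_span_singleton.1 hv
    have := W.toSubmodule.smul_mem (d / c) hf
    rwa [smul_smul, div_mul_cancel₀ d hc] at this
  push Not at hW
  obtain ⟨f, hf, i, j, hij⟩ := hW
  have hij' : i ≠ j := fun h => hij (by rw [h])
  -- three further points
  obtain ⟨l, m, x, hl, hm, hx, hlm, hlx, hmx⟩ : ∃ l m x : α, (l ≠ i ∧ l ≠ j) ∧ (m ≠ i ∧ m ≠ j) ∧ (x ≠ i ∧ x ≠ j) ∧ l ≠ m ∧ l ≠ x ∧ m ≠ x := by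
    have hc : 2 < (((Finset.univ : Finset α).erase i).erase j).card := by
      rw [Finset.card_erase_of_mem (by simp [Ne.symm hij']), Finset.card_erase_of_mem (Finset.mem_univ _), Finset.card_univ]
      omega
    obtain ⟨l, hl, m, hm, x, hx, h1, h2, h3⟩ := Finset.two_lt_card.1 hc
    simp only [Finset.mem_erase, Finset.mem_univ, and_true] at hl hm hx
    exact ⟨l, m, x, ⟨hl.2, hl.1⟩, ⟨hm.2, hm.1⟩, ⟨hx.2, hx.1⟩, h1, h2, h3⟩
  obtain ⟨hli, hlj⟩ := hl
  obtain ⟨hmi, hmj⟩ := hm
  obtain ⟨hxi, hxj⟩ := hx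
  let t : alternatingGroup α := ⟨Equiv.swap i j * Equiv.swap l m, by
    rw [Equiv.Perm.mem_alternatingGroup, map_mul, Equiv.Perm.sign_swap hij', Equiv.Perm.sign_swap hlm]; rfl⟩
  have hh : (f i - f j) • D i j + (f l - f m) • D l m ∈ W.toSubmodule := by
    have := W.toSubmodule.sub_mem hf (hinv t⁻¹ f hf)
    convert this using 1
    funext y
    show _ = f y - f ((((t⁻¹ : alternatingGroup α)⁻¹ : alternatingGroup α) : Equiv.Perm α) y)
    rw [inv_inv]
    show _ = f y - f (Equiv.swap i j (Equiv.swap l m y))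
    simp only [D, Pi.add_apply, Pi.smul_apply, Pi.sub_apply, Pi.single_apply, smul_eq_mul]
    rcases eq_or_ne y i with rfl | hyi
    · rw [Equiv.swap_apply_of_ne_of_ne (Ne.symm hli) (Ne.symm hmi), Equiv.swap_apply_left]
      simp [hij', Ne.symm hli, Ne.symm hmi]
    rcases eq_or_ne y j with rfl | hyj
    · rw [Equiv.swap_apply_of_ne_of_ne (Ne.symm hlj) (Ne.symm hmj), Equiv.swap_apply_right]
      simp [hyi, Ne.symm hlj, Ne.symm hmj]
    rcases eq_or_ne y l with rfl | hyl
    · rw [Equiv.swap_apply_left, Equiv.swap_apply_of_ne_of_ne hmi hmj]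
      simp [hyi, hyj, hlm]
    rcases eq_or_ne y m with rfl | hym
    · rw [Equiv.swap_apply_right, Equiv.swap_apply_of_ne_of_ne hli hlj]
      simp [hyi, hyj, hyl]
    rw [Equiv.swap_apply_of_ne_of_ne hyl hym, Equiv.swap_apply_of_ne_of_ne hyi hyj]
    simp [hyi, hyj, hyl, hym]
  -- one difference of two basis vectors
  obtain ⟨a, b, hab, hDab⟩ : ∃ a b, a ≠ b ∧ D a b ∈ W.toSubmodule := by
    by_cases hd : f l - f m = 0
    · refine ⟨i, j, hij', ?_⟩
      rw [hd, zero_smul, add_zero] at hh
      have := W.toSubmodule.smul_mem (f i - f j)⁻¹ hh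
      rwa [smul_smul, inv_mul_cancel₀ (sub_ne_zero.2 hij), one_smul] at this
    obtain ⟨v, v1, v2, v3⟩ := h3 l m x hlm hlx hmx
    have h2mem : D l m - D m x ∈ W.toSubmodule := by
      have := W.toSubmodule.sub_mem hh (hinv v _ hh)
      rw [map_add, map_smul, map_smul, hD, hD, v1, v2, v3 i (Ne.symm hli) (Ne.symm hmi) (Ne.symm hxi),
        v3 j (Ne.symm hlj) (Ne.symm hmj) (Ne.symm hxj), add_sub_add_left_eq_sub, ← smul_sub] at this
      have := W.toSubmodule.smul_mem (f l - f m)⁻¹ this
      rwa [smul_smul, inv_mul_cancel₀ hd, one_smul] at this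
    by_cases h2 : (2 : K) = 0
    · refine ⟨l, x, hlx, ?_⟩
      convert h2mem using 1
      funext y
      simp only [D, Pi.sub_apply]
      linear_combination ((Pi.single m 1 : α → K) y - (Pi.single x 1 : α → K) y) * h2
    obtain ⟨u, u1, u2, u3⟩ := h3 m i j hmi hmj hij'
    have := W.toSubmodule.sub_mem h2mem (hinv u _ h2mem)
    rw [map_sub, hD, hD, u1, u3 l (Ne.symm (Ne.symm hlm)) hli hlj, u3 x (Ne.symm hmx) hxi hxj] at this
    refine ⟨i, m, Ne.symm hmi, ?_⟩
    have := W.toSubmodule.smul_mem (2 : K)⁻¹ this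
    convert this using 1
    funext y
    simp only [D, Pi.smul_apply, Pi.sub_apply, smul_eq_mul]
    field_simp
    ring
  have hall : ∀ c d : α, c ≠ d → D c d ∈ W.toSubmodule := by
    intro c d hcd
    haveI : MulAction.IsMultiplyPretransitive (alternatingGroup α) α 2 :=
      haveI := alternatingGroup.isMultiplyPretransitive α
      MulAction.isMultiplyPretransitive_of_le (n := Nat.card α - 2) (by rw [Nat.card_eq_fintype_card]; omega) (Nat.sub_le _ _)
    obtain ⟨g, g1, g2⟩ := (MulAction.is_two_pretransitive_iff (G := alternatingGroup α) (α := α)).1 inferInstance hab hcd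
    have := hinv g _ hDab
    rw [hD] at this
    rwa [show (g : Equiv.Perm α) a = c from g1, show (g : Equiv.Perm α) b = d from g2] at this
  have hsum : (Cfsg.permSumZero K (alternatingGroup α) α).toSubmodule ≤ W.toSubmodule := by
    intro v hv
    have hv0 : ∑ y, v y = 0 := hv
    have e : v = ∑ y, v y • D y i := by
      funext z
      simp only [D, Finset.sum_apply, Pi.smul_apply, Pi.sub_apply, smul_eq_mul, mul_sub, Finset.sum_sub_distrib,
        ← Finset.sum_mul, hv0, zero_mul, sub_zero, Pi.single_apply, mul_ite, mul_one, mul_zero, Finset.sum_ite_eq,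
        Finset.mem_univ, if_true]
      by_cases hz : z = i <;> simp [hz, hv0]
    rw [e]
    refine Submodule.sum_mem _ fun y _ => ?_
    by_cases hy : y = i
    · simp [D, hy]
    exact W.toSubmodule.smul_mem _ (hall y i hy)
  by_cases hle : W.toSubmodule ≤ (Cfsg.permSumZero K (alternatingGroup α) α).toSubmodule
  · exact Or.inr (Or.inr (Or.inl (Subrepresentation.ext (le_antisymm hle hsum))))
  obtain ⟨w, hw, hw'⟩ := SetLike.not_le_iff_exists.1 hle
  have hs : ∑ y, w y ≠ 0 := hw'
  refine Or.inr (Or.inr (Or.inr (eq_top_iff.2 fun v _ => ?_)))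
  have h0 : v - ((∑ y, v y) / ∑ y, w y) • w ∈ (Cfsg.permSumZero K (alternatingGroup α) α).toSubmodule := by
    show ∑ y, (v - ((∑ y, v y) / ∑ y, w y) • w) y = 0
    simp only [Pi.sub_apply, Pi.smul_apply, smul_eq_mul, Finset.sum_sub_distrib, ← Finset.mul_sum]
    rw [div_mul_cancel₀ _ hs, sub_self]
  have := W.toSubmodule.add_mem (hsum h0) (W.toSubmodule.smul_mem ((∑ y, v y) / ∑ y, w y) hw)
  rwa [sub_add_cancel] at this

end Cfsg.Agent.S0714
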