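import Cfsg.Statements.S0715
import Mathlib
import Cfsg.Agent.Lib.Perm.Hecke

set_option autoImplicit false
open Cfsg

namespace Cfsg.Agent.S0715

/-- If a natural number `f` divides the degree of every non-principal irreducible constituent of the permutation character of a transitive group, then `f` divides every non-trivial subdegree. -/
theorem result {G : Type*} [Group G] [Fintype G] {Ω : Type*} [Fintype Ω] [MulAction G Ω] [MulAction.IsPretransitive G Ω] (f : ℕ) (hf : ∀ χ : G → ℂ, Cfsg.IsIrrCharacter G χ → χ ≠ (fun _ => 1) → Cfsg.classInner (fun g : G => (Nat.card (MulAction.fixedBy Ω g) : ℂ)) χ ≠ 0 → ∃ m : ℕ, χ 1 = (f : ℂ) * m) (a b : Ω) (hab : b ≠ a) : f ∣ Nat.card (MulAction.orbit (MulAction.stabilizer G a) b) := by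
  classical
  set c := (Nat.card (MulAction.stabilizer G a) : ℂ) with hc
  have hc0 : c ≠ 0 := Nat.cast_ne_zero.2 Nat.card_pos.ne'
  let A : Matrix Ω Ω ℤ := Matrix.of fun x y => if ∃ g : G, g • a = y ∧ g • b = x then 1 else 0
  let M : Matrix Ω Ω ℂ := A.map (fun z => (z : ℂ))
  have hM : CfsgLib.Perm.Hecke.Invariant G M := by
    intro g x y
    have hiff : (∃ h : G, h • a = g • y ∧ h • b = g • x) ↔ ∃ h : G, h • a = y ∧ h • b = x := by
      constructor
      · rintro ⟨h, h1, h2⟩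
        exact ⟨g⁻¹ * h, by rw [mul_smul, h1, inv_smul_smul], by rw [mul_smul, h2, inv_smul_smul]⟩
      · rintro ⟨h, h1, h2⟩
        exact ⟨g * h, by rw [mul_smul, h1], by rw [mul_smul, h2]⟩
    simp only [M, A, Matrix.map_apply, Matrix.of_apply]
    congr 1
    simp only [hiff]
  set k := Nat.card (MulAction.orbit (MulAction.stabilizer G a) b) with hk
  have hcol : ∀ x, M x a = if x ∈ MulAction.orbit (MulAction.stabilizer G a) b then 1 else 0 := by
    intro x
    simp only [M, A, Matrix.map_apply, Matrix.of_apply]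
    simp only [show (∃ g : G, g • a = a ∧ g • b = x) ↔ x ∈ MulAction.orbit (MulAction.stabilizer G a) b from
      ⟨fun ⟨g, h1, h2⟩ => ⟨⟨g, h1⟩, h2⟩, fun ⟨g, h2⟩ => ⟨g, g.2, h2⟩⟩]
    split_ifs <;> simp
  have hone : ∑ g : G, M (g • a) a = c * k := by
    rw [CfsgLib.Perm.Hecke.sum_smul_eq a (fun x => M x a), ← hc]
    simp only [hcol, Finset.sum_boole]
    rw [hk, Nat.card_eq_fintype_card, Fintype.card_subtype]
  let τ : Cfsg.IrrCharacter G → ℂ := fun χ => c⁻¹ * ∑ g : G, M (g • a) a * (χ : G → ℂ) g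
  have hτint : ∀ χ, IsIntegral ℤ (τ χ) := fun χ => by
    obtain ⟨n, ρ, hρ, hχ⟩ := χ.2
    have := CfsgLib.Perm.Hecke.isIntegral_trace ρ a A hM
    rw [CfsgLib.Perm.Hecke.trace_op, hχ] at this
    exact this
  have hτ0 : ∀ χ : Cfsg.IrrCharacter G,
      Cfsg.classInner (fun g : G => (Nat.card (MulAction.fixedBy Ω g) : ℂ)) (χ : G → ℂ) = 0 → τ χ = 0 := by
    intro χ h0
    obtain ⟨n, ρ, hρ, hχ⟩ := χ.2
    set e := CfsgLib.Perm.Hecke.op ρ a (1 : Matrix Ω Ω ℂ) with he
    have h1inv : CfsgLib.Perm.Hecke.Invariant G (1 : Matrix Ω Ω ℂ) := fun g x y => by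
      simp [Matrix.one_apply]
    have hee : e * e = e := by rw [he, CfsgLib.Perm.Hecke.op_mul ρ a _ _ h1inv, one_mul]
    -- the trace of `e` is the multiplicity
    have hsum : ∑ g : G, (if g • a = a then (1 : ℂ) else 0) * (χ : G → ℂ) g = 0 := by
      have hcl := CfsgLib.Chars.IsCharacter.isClassFunction (CfsgLib.Chars.isCharacter_irr χ)
      have h2 : ∀ x : Ω, ∑ g : G, (if g • x = x then (1 : ℂ) else 0) * starRingEnd ℂ ((χ : G → ℂ) g) =
          ∑ g : G, (if g • a = a then (1 : ℂ) else 0) * starRingEnd ℂ ((χ : G → ℂ) g) := by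
        intro x
        obtain ⟨t, rfl⟩ := MulAction.exists_smul_eq G a x
        refine (Fintype.sum_equiv (MulAut.conj t).toEquiv _ _ fun g => ?_).symm
        show _ = (if (t * g * t⁻¹) • t • a = t • a then (1 : ℂ) else 0) * starRingEnd ℂ ((χ : G → ℂ) (t * g * t⁻¹))
        rw [hcl g t, mul_smul, inv_smul_smul, mul_smul]
        simp
      have h3 : ∑ g : G, (Nat.card (MulAction.fixedBy Ω g) : ℂ) * starRingEnd ℂ ((χ : G → ℂ) g) =
          (Fintype.card Ω : ℂ) * ∑ g : G, (if g • a = a then (1 : ℂ) else 0) * starRingEnd ℂ ((χ : G → ℂ) g) := by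
        rw [← nsmul_eq_mul, ← Finset.card_univ, ← Finset.sum_const,
          ← Finset.sum_congr rfl (fun x _ => h2 x), Finset.sum_comm]
        refine Finset.sum_congr rfl fun g _ => ?_
        rw [← Finset.sum_mul, Finset.sum_boole, Nat.card_eq_fintype_card, Fintype.card_subtype]
        simp [MulAction.mem_fixedBy]
      rw [Cfsg.classInner, mul_eq_zero, or_iff_right (inv_ne_zero (Nat.cast_ne_zero.2 Nat.card_pos.ne')),
        h3, mul_eq_zero, or_iff_right (Nat.cast_ne_zero.2 (Fintype.card_pos_iff.2 ⟨a⟩).ne')] at h0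
      have h4 := congrArg (starRingEnd ℂ) h0
      rw [map_sum, map_zero] at h4
      refine Eq.trans ?_ h4
      exact Finset.sum_congr rfl fun g _ => by rw [map_mul, Complex.conj_conj]; split_ifs <;> simp
    have htr : LinearMap.trace ℂ _ e = 0 := by
      rw [he, CfsgLib.Perm.Hecke.trace_op, hχ, mul_eq_zero]
      right
      simpa [Matrix.one_apply] using hsum
    have he0 : e = 0 := by
      have hproj : LinearMap.IsProj (LinearMap.range e) e :=
        ⟨fun x => LinearMap.mem_range_self e x, by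
          rintro _ ⟨y, rfl⟩
          exact LinearMap.congr_fun hee y⟩
      rw [hproj.trace, Nat.cast_eq_zero, Submodule.finrank_eq_zero, LinearMap.range_eq_bot] at htr
      exact htr
    have hT : CfsgLib.Perm.Hecke.op ρ a M = 0 := by
      rw [← one_mul M, ← CfsgLib.Perm.Hecke.op_mul ρ a M 1 h1inv, ← he, he0, mul_zero]
    have := CfsgLib.Perm.Hecke.trace_op ρ a M
    rw [hT, map_zero, hχ] at this
    exact this.symm
  let one : Cfsg.IrrCharacter G := ⟨fun _ => 1, CfsgLib.Chars.isIrrCharacter_one G⟩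
  have hreg : ∑ χ : Cfsg.IrrCharacter G, (χ : G → ℂ) 1 * τ χ = 0 := by
    simp only [τ, Finset.mul_sum]
    rw [Finset.sum_comm]
    refine Finset.sum_eq_zero fun g _ => ?_
    have h1 : ∑ χ : Cfsg.IrrCharacter G, (χ : G → ℂ) 1 * (c⁻¹ * (M (g • a) a * (χ : G → ℂ) g)) =
        c⁻¹ * (M (g • a) a * ∑ χ : Cfsg.IrrCharacter G, (χ : G → ℂ) 1 * (χ : G → ℂ) g) := by
      rw [Finset.mul_sum, Finset.mul_sum]
      exact Finset.sum_congr rfl fun χ _ => by ring
    rw [h1, CfsgLib.Chars.sum_deg_mul]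
    split_ifs with hg
    · rw [hg, one_smul, hcol, if_neg]
      · simp
      rintro ⟨⟨h, hh⟩, hb⟩
      exact hab (MulAction.injective h (hb.trans hh.symm))
    · simp
  have hτ1 : τ one = k := by
    show c⁻¹ * ∑ g : G, M (g • a) a * 1 = _
    simp only [mul_one]
    rw [hone, ← mul_assoc, inv_mul_cancel₀ hc0, one_mul]
  have hexm : ∀ χ : Cfsg.IrrCharacter G, χ ≠ one → ∃ z : ℂ, IsIntegral ℤ z ∧ (χ : G → ℂ) 1 * τ χ = (f : ℂ) * z := by
    intro χ hne
    by_cases h0 : Cfsg.classInner (fun g : G => (Nat.card (MulAction.fixedBy Ω g) : ℂ)) (χ : G → ℂ) = 0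
    · exact ⟨0, isIntegral_zero, by rw [hτ0 χ h0]; ring⟩
    · obtain ⟨m, hm⟩ := hf χ χ.2 (fun e => hne (Subtype.ext e)) h0
      refine ⟨(m : ℂ) * τ χ, ?_, by rw [hm]; ring⟩
      exact IsIntegral.mul (by simpa using (isIntegral_algebraMap (R := ℤ) (A := ℂ) (x := (m : ℤ)))) (hτint χ)
  choose! z hz1 hz2 using hexm
  rw [← Finset.add_sum_erase _ _ (Finset.mem_univ one), hτ1, show (one : G → ℂ) 1 = 1 from rfl, one_mul,
    Finset.sum_congr rfl (fun χ hχ => hz2 χ (Finset.ne_of_mem_erase hχ)), ← Finset.mul_sum] at hreg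
  have hS : IsIntegral ℤ (∑ χ ∈ Finset.univ.erase one, z χ) :=
    IsIntegral.sum _ fun χ hχ => hz1 χ (Finset.ne_of_mem_erase hχ)
  rcases Nat.eq_zero_or_pos f with rfl | hf0
  · rw [Nat.cast_zero, zero_mul, add_zero, Nat.cast_eq_zero] at hreg
    rw [hreg]
  · have hdiv : IsIntegral ℤ ((k : ℂ) / (f : ℂ)) := by
      rw [show (k : ℂ) / (f : ℂ) = -∑ χ ∈ Finset.univ.erase one, z χ by
        rw [div_eq_iff (Nat.cast_ne_zero.2 hf0.ne')]
        linear_combination hreg]
      exact hS.neg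
    exact CfsgLib.Chars.exists_int_of_isIntegral_div hf0.ne' hdiv

end Cfsg.Agent.S0715
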