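import Cfsg.Statements.S0716
import Mathlib
import Cfsg.Agent.Lib.Perm.Centraliser
import Cfsg.Agent.S0669
import Cfsg.Agent.S0715

set_option autoImplicit false
open Cfsg

namespace Cfsg.Agent.S0716

set_option linter.style.haveILetI false
open CfsgLib.Chars CfsgLib.Perm.Centraliser
open scoped ComplexConjugate
set_option maxHeartbeats 800000

/-- (a) If all non-principal irreducible constituents of the permutation character of a transitive group have the same degree `f`, the character is multiplicity-free and all non-trivial subdegrees equal `f`. (b) A transitive group of rank at most 5 has multiplicity-free permutation character. -/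
theorem result {G : Type*} [Group G] [Fintype G] {Ω : Type*} [Fintype Ω] [MulAction G Ω] [MulAction.IsPretransitive G Ω] (a : Ω) : ((f : ℕ) → (∀ χ : G → ℂ, Cfsg.IsIrrCharacter G χ → χ ≠ (fun _ => 1) → Cfsg.classInner (fun g : G => (Nat.card (MulAction.fixedBy Ω g) : ℂ)) χ ≠ 0 → χ 1 = f) → (∀ χ : G → ℂ, Cfsg.IsIrrCharacter G χ → Cfsg.classInner (fun g : G => (Nat.card (MulAction.fixedBy Ω g) : ℂ)) χ = 0 ∨ Cfsg.classInner (fun g : G => (Nat.card (MulAction.fixedBy Ω g) : ℂ)) χ = 1) ∧ ∀ b : Ω, b ≠ a → Nat.card (MulAction.orbit (MulAction.stabilizer G a) b) = f) ∧ (Nat.card (MulAction.orbitRel.Quotient (MulAction.stabilizer G a) Ω) ≤ 5 → ∀ χ : G → ℂ, Cfsg.IsIrrCharacter G χ → Cfsg.classInner (fun g : G => (Nat.card (MulAction.fixedBy Ω g) : ℂ)) χ = 0 ∨ Cfsg.classInner (fun g : G => (Nat.card (MulAction.fixedBy Ω g) : ℂ)) χ = 1) := by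
  classical

  have hm : ∀ (χ : G → ℂ) (hχ : Cfsg.IsIrrCharacter G χ),
      Cfsg.classInner (fun g : G => (Nat.card (MulAction.fixedBy Ω g) : ℂ)) χ = (mult Ω (⟨χ, hχ⟩ : Cfsg.IrrCharacter G) : ℂ) :=
    fun χ hχ => mult_spec (⟨χ, hχ⟩ : Cfsg.IrrCharacter G)

  set one : Cfsg.IrrCharacter G := ⟨fun _ => 1, isIrrCharacter_one G⟩ with hone
  have hm1 : mult Ω one = 1 := by
    have h := MulAction.sum_card_fixedBy_eq_card_orbits_mul_card_group G Ω
    haveI : Subsingleton (MulAction.orbitRel.Quotient G Ω) := (MulAction.pretransitive_iff_subsingleton_quotient G Ω).1 inferInstance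
    rw [Fintype.card_eq_one_iff.2 ⟨Quotient.mk'' a, fun q => Subsingleton.elim _ _⟩, one_mul] at h
    have h2 := mult_spec (Ω := Ω) one
    have h2' : (Nat.card G : ℂ)⁻¹ * ∑ g : G, (Nat.card (MulAction.fixedBy Ω g) : ℂ) * conj (1 : ℂ) = (mult Ω one : ℂ) := h2
    simp only [map_one, mul_one] at h2'
    rw [← Nat.cast_sum] at h2'
    simp only [Nat.card_eq_fintype_card] at h2'
    rw [h, inv_mul_cancel₀ (Nat.cast_ne_zero.2 Fintype.card_ne_zero)] at h2'
    exact_mod_cast h2'.symm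
  -- the suborbits
  set Q := MulAction.orbitRel.Quotient (MulAction.stabilizer G a) Ω with hQ
  set q₀ : Q := Quotient.mk'' a with hq₀
  have hrank : Nat.card Q = ∑ χ : Cfsg.IrrCharacter G, mult Ω χ ^ 2 := by
    rw [← rank_eq (G := G) (Ω := Ω), Cfsg.Agent.S0669.result a]
  have hsum : Fintype.card Ω = ∑ q : Q, Nat.card q.orbit := by
    rw [← Nat.card_eq_fintype_card, Nat.card_congr (MulAction.selfEquivSigmaOrbits' (MulAction.stabilizer G a) Ω), Nat.card_sigma]
  have horb : ∀ x : Ω, Nat.card (MulAction.orbitRel.Quotient.orbit (Quotient.mk'' x : Q)) = Nat.card (MulAction.orbit (MulAction.stabilizer G a) x) := fun x => by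
    rw [MulAction.orbitRel.Quotient.orbit_mk]
  have horb0 : Nat.card q₀.orbit = 1 := by
    rw [hq₀, horb]
    have : MulAction.orbit (MulAction.stabilizer G a) a = {a} := Set.eq_singleton_iff_unique_mem.2
      ⟨MulAction.mem_orbit_self (M := MulAction.stabilizer G a) a, fun y ⟨g, hg⟩ => hg.symm.trans g.2⟩
    rw [this, Nat.card_eq_fintype_card, Fintype.card_ofFinset]
    rfl
  have hdeg : Fintype.card Ω = 1 + ∑ χ ∈ Finset.univ.erase one, mult Ω χ * Cfsg.charDegree (χ : G → ℂ) := by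
    rw [card_eq (G := G) (Ω := Ω), ← Finset.add_sum_erase _ _ (Finset.mem_univ one), hm1, one_mul]
    congr 1
    have : (1 : ℂ) = (Cfsg.charDegree (one : G → ℂ) : ℂ) := irr_apply_one one
    exact_mod_cast this.symm
  have hsq : ∑ χ : Cfsg.IrrCharacter G, mult Ω χ ^ 2 = 1 + ∑ χ ∈ Finset.univ.erase one, mult Ω χ ^ 2 := by
    rw [← Finset.add_sum_erase _ _ (Finset.mem_univ one), hm1, one_pow]
  -- the key inequality
  have key : ∀ f : ℕ, (∀ χ : Cfsg.IrrCharacter G, χ ≠ one → mult Ω χ ≠ 0 → Cfsg.charDegree (χ : G → ℂ) = f) →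
      f * (∑ χ ∈ Finset.univ.erase one, mult Ω χ ^ 2) ≤ f * (∑ χ ∈ Finset.univ.erase one, mult Ω χ) ∧
      ((∀ χ, χ ≠ one → mult Ω χ ≤ 1) → ∀ b : Ω, b ≠ a → Nat.card (MulAction.orbit (MulAction.stabilizer G a) b) = f) := by
    intro f hf
    have hge : ∀ q ∈ (Finset.univ : Finset Q).erase q₀, f ≤ Nat.card q.orbit := by
      intro q hq
      induction q using Quotient.inductionOn' with
      | _ x =>
        have hx : x ≠ a := fun e => (Finset.mem_erase.1 hq).1 (by rw [e, hq₀])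
        refine (horb x).symm ▸ Nat.le_of_dvd (Nat.card_pos_iff.2 ⟨⟨⟨x, MulAction.mem_orbit_self x⟩⟩, inferInstance⟩)
          (Cfsg.Agent.S0715.result f (fun χ hχ hne h0 => ⟨1, ?_⟩) a x hx)
        have := hf ⟨χ, hχ⟩ (fun e => hne (congrArg Subtype.val e)) (fun e => h0 (by rw [hm χ hχ, e, Nat.cast_zero]))
        rw [Nat.cast_one, mul_one, ← this]
        exact irr_apply_one (⟨χ, hχ⟩ : Cfsg.IrrCharacter G)
    have hval : ∑ χ ∈ Finset.univ.erase one, mult Ω χ * Cfsg.charDegree (χ : G → ℂ) = f * ∑ χ ∈ Finset.univ.erase one, mult Ω χ := by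
      rw [Finset.mul_sum]
      refine Finset.sum_congr rfl fun χ hχ => ?_
      by_cases h0 : mult Ω χ = 0
      · rw [h0, zero_mul, mul_zero]
      · rw [hf χ (Finset.ne_of_mem_erase hχ) h0, mul_comm]
    have hcq : ((Finset.univ : Finset Q).erase q₀).card = ∑ χ ∈ Finset.univ.erase one, mult Ω χ ^ 2 := by
      rw [Finset.card_erase_of_mem (Finset.mem_univ _), Finset.card_univ, ← Nat.card_eq_fintype_card, hrank, hsq, Nat.add_sub_cancel_left]
    have hrest : ∑ q ∈ (Finset.univ : Finset Q).erase q₀, Nat.card q.orbit = f * ∑ χ ∈ Finset.univ.erase one, mult Ω χ := by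
      have := hsum
      rw [← Finset.add_sum_erase _ _ (Finset.mem_univ q₀), horb0, hdeg, hval] at this
      omega
    refine ⟨?_, fun hle b hb => ?_⟩
    · rw [← hrest, ← hcq, mul_comm, ← smul_eq_mul]
      exact Finset.card_nsmul_le_sum _ _ _ hge
    · have heq : ∑ χ ∈ Finset.univ.erase one, mult Ω χ ^ 2 = ∑ χ ∈ Finset.univ.erase one, mult Ω χ :=
        Finset.sum_congr rfl fun χ hχ => by
          have := hle χ (Finset.ne_of_mem_erase hχ)
          interval_cases (mult Ω χ) <;> rfl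
      have hb' : (Quotient.mk'' b : Q) ∈ (Finset.univ : Finset Q).erase q₀ := Finset.mem_erase.2 ⟨fun e => hb (by
        obtain ⟨g, hg⟩ := Quotient.eq''.1 e
        exact hg.symm.trans g.2), Finset.mem_univ _⟩
      have hall := (Finset.sum_eq_sum_iff_of_le hge).1 (by rw [hrest, Finset.sum_const, smul_eq_mul, hcq, heq, mul_comm])
      rw [← horb]
      exact (hall _ hb').symm
  refine ⟨fun f hf => ?_, fun hr χ hχ => ?_⟩
  · have hf' : ∀ χ : Cfsg.IrrCharacter G, χ ≠ one → mult Ω χ ≠ 0 → Cfsg.charDegree (χ : G → ℂ) = f := fun χ hne h0 => by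
      have := hf χ χ.2 (fun e => hne (Subtype.ext e)) (by rw [hm _ χ.2]; exact Nat.cast_ne_zero.2 h0)
      rw [irr_apply_one] at this
      exact_mod_cast this
    obtain ⟨h1, h2⟩ := key f hf'
    have hle : ∀ χ, χ ≠ one → mult Ω χ ≤ 1 := by
      intro χ hne
      by_cases h0 : mult Ω χ = 0
      · omega
      have hf0 : 0 < f := hf' χ hne h0 ▸ charDegree_pos χ
      have h3 := Nat.le_of_mul_le_mul_left h1 hf0
      by_contra hgt
      have : ∑ ψ ∈ Finset.univ.erase one, mult Ω ψ < ∑ ψ ∈ Finset.univ.erase one, mult Ω ψ ^ 2 :=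
        Finset.sum_lt_sum (fun ψ _ => Nat.le_self_pow two_ne_zero _) ⟨χ, Finset.mem_erase.2 ⟨hne, Finset.mem_univ _⟩, by
          calc mult Ω χ = mult Ω χ * 1 := (mul_one _).symm
            _ < mult Ω χ * mult Ω χ := Nat.mul_lt_mul_of_pos_left (by omega) (by omega)
            _ = _ := (pow_two _).symm⟩
      omega
    refine ⟨fun χ hχ => ?_, h2 hle⟩
    rw [hm χ hχ]
    by_cases he : (⟨χ, hχ⟩ : Cfsg.IrrCharacter G) = one
    · right; rw [he, hm1, Nat.cast_one]
    · have := hle _ he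
      interval_cases (mult Ω (⟨χ, hχ⟩ : Cfsg.IrrCharacter G)) <;> simp
  · rw [hm χ hχ]
    set c : Cfsg.IrrCharacter G := ⟨χ, hχ⟩ with hc
    by_cases he : c = one
    · right; rw [he, hm1, Nat.cast_one]
    rw [hrank, hsq] at hr
    have hsplit := Finset.add_sum_erase _ (fun ψ => mult Ω ψ ^ 2) (Finset.mem_erase.2 ⟨he, Finset.mem_univ c⟩)
    have hc2 : mult Ω c ≤ 2 := by
      have := Nat.le_self_pow two_ne_zero (mult Ω c)
      by_contra hgt
      have : 9 ≤ mult Ω c ^ 2 := by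
        calc 9 = 3 ^ 2 := rfl
          _ ≤ _ := Nat.pow_le_pow_left (by omega) 2
      omega
    rcases (show mult Ω c = 0 ∨ mult Ω c = 1 ∨ mult Ω c = 2 by omega) with h | h | h
    · left; rw [h, Nat.cast_zero]
    · right; rw [h, Nat.cast_one]
    · exfalso
      rw [h] at hsplit
      have hz : ∀ ψ ∈ (Finset.univ.erase one).erase c, mult Ω ψ = 0 := fun ψ hψ => by
        have := Finset.single_le_sum (fun ρ _ => Nat.zero_le (mult Ω ρ ^ 2)) hψ
        have : mult Ω ψ ^ 2 = 0 := by omega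
        exact eq_zero_of_pow_eq_zero this
      obtain ⟨h1, -⟩ := key (Cfsg.charDegree (c : G → ℂ)) fun ψ hne h0 => by
        by_cases hp : ψ = c
        · rw [hp]
        · exact absurd (hz ψ (Finset.mem_erase.2 ⟨hp, Finset.mem_erase.2 ⟨hne, Finset.mem_univ _⟩⟩)) h0
      have h3 := Nat.le_of_mul_le_mul_left h1 (charDegree_pos c)
      rw [← Finset.add_sum_erase _ _ (Finset.mem_erase.2 ⟨he, Finset.mem_univ c⟩),
        ← Finset.add_sum_erase (Finset.univ.erase one) (fun ψ => mult Ω ψ) (Finset.mem_erase.2 ⟨he, Finset.mem_univ c⟩), h,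
        Finset.sum_eq_zero hz, Finset.sum_eq_zero (fun ψ hψ => by rw [hz ψ hψ]; rfl)] at h3
      omega

end Cfsg.Agent.S0716
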