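import Cfsg.Statements.S0717
import Mathlib
import Cfsg.Agent.Lib.Perm.Centraliser

set_option autoImplicit false
open Cfsg

namespace Cfsg.Agent.S0717

set_option linter.style.haveILetI false
open CfsgLib.Chars CfsgLib.Perm.Centraliser
open scoped ComplexConjugate

/-- All suborbits of a transitive group are self-paired (every pair of points is interchanged by some group element) if and only if the permutation character is multiplicity-free and each of its irreducible constituents is real-valued. -/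
theorem result {G : Type*} [Group G] [Fintype G] {Ω : Type*} [Fintype Ω] [MulAction G Ω] [MulAction.IsPretransitive G Ω] : (∀ a b : Ω, ∃ g : G, g • a = b ∧ g • b = a) ↔ ∀ χ : G → ℂ, Cfsg.IsIrrCharacter G χ → Cfsg.classInner (fun g : G => (Nat.card (MulAction.fixedBy Ω g) : ℂ)) χ ≠ 0 → Cfsg.classInner (fun g : G => (Nat.card (MulAction.fixedBy Ω g) : ℂ)) χ = 1 ∧ ∀ g : G, (starRingEnd ℂ) (χ g) = χ g := by
  classical

  have hm : ∀ (χ : G → ℂ) (hχ : Cfsg.IsIrrCharacter G χ),
      Cfsg.classInner (fun g : G => (Nat.card (MulAction.fixedBy Ω g) : ℂ)) χ = (mult Ω (⟨χ, hχ⟩ : Cfsg.IrrCharacter G) : ℂ) :=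
    fun χ hχ => mult_spec (⟨χ, hχ⟩ : Cfsg.IrrCharacter G)

  have hEnt : ∀ (χ : Cfsg.IrrCharacter G) (x y : Ω), E χ (Pi.single y 1) x =
      ∑ g : G, if g⁻¹ • x = y then conj ((χ : G → ℂ) g) else 0 := by
    intro χ x y
    rw [E, repSum_apply, Finset.sum_apply]
    refine Finset.sum_congr rfl fun g _ => ?_
    rw [Pi.smul_apply, smul_eq_mul, permRep_apply, Pi.single_apply, mul_ite, mul_one, mul_zero]
  have hconj : ∀ (χ : Cfsg.IrrCharacter G) (g : G), (χ : G → ℂ) g⁻¹ = conj ((χ : G → ℂ) g) := fun χ g =>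
    IsCharacter.map_inv (isCharacter_irr χ) g
  constructor
  · intro hpair
    have hsym : ∀ T : (Ω → ℂ) →ₗ[ℂ] (Ω → ℂ), Equi (G := G) T → ∀ x y, T (Pi.single y 1) x = T (Pi.single x 1) y := by
      intro T hT x y
      obtain ⟨g, g1, g2⟩ := hpair x y
      have := congrFun (LinearMap.congr_fun (hT g) (Pi.single y 1)) y
      simp only [LinearMap.comp_apply] at this
      rw [permRep_single, g2, permRep_apply, inv_smul_eq_iff.2 g1.symm] at this
      exact this.symm
    have hcomm : ∀ S T : (Ω → ℂ) →ₗ[ℂ] (Ω → ℂ), Equi (G := G) S → Equi (G := G) T → S ∘ₗ T = T ∘ₗ S := by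
      intro S T hS hT
      refine comp_comm_of_symm (hsym S hS) (hsym T hT) (hsym _ fun g => ?_)
      rw [LinearMap.comp_assoc, hS g, ← LinearMap.comp_assoc, hT g, LinearMap.comp_assoc]
    intro χ hχ hne
    set c : Cfsg.IrrCharacter G := ⟨χ, hχ⟩ with hc
    rw [hm χ hχ, ← hc] at hne ⊢
    have hne' : mult Ω c ≠ 0 := fun h => hne (by rw [h, Nat.cast_zero])
    have hle := mult_le_one_of_comm hcomm c
    refine ⟨by rw [show mult Ω c = 1 by omega, Nat.cast_one], ?_⟩
    obtain ⟨n, v, i, hv, hact⟩ := exists_embed c hne'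
    -- the operator is symmetric, hence equal to the one of the conjugate character
    have hop : E c = repSum (Cfsg.permRep ℂ G Ω) (c : G → ℂ) := by
      refine (Pi.basisFun ℂ Ω).ext fun y => funext fun x => ?_
      rw [Pi.basisFun_apply, hsym _ (equi_E c) x y, hEnt, repSum_apply, Finset.sum_apply]
      refine Fintype.sum_equiv (Equiv.inv G) _ _ fun g => ?_
      rw [Equiv.inv_apply, Pi.smul_apply, smul_eq_mul, permRep_apply, inv_inv, Pi.single_apply, mul_ite, mul_one, mul_zero,
        hconj c g]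
      exact if_congr ⟨fun h => by rw [← h, smul_inv_smul], fun h => by rw [← h, inv_smul_smul]⟩ rfl rfl
    let cbar : Cfsg.IrrCharacter G := ⟨fun g => conj (χ g), isIrrCharacter_conj c⟩
    have h1 := hact _ (IsCharacter.isClassFunction (isCharacter_irr c))
    have h2 := hact _ (isClassFunction_conj c)
    rw [← hop] at h1
    have h3 := h1.symm.trans h2
    rw [sum_conj_mul, if_pos rfl] at h3
    have e : ∑ g : G, (c : G → ℂ) g * (c : G → ℂ) g = if c = cbar then (Nat.card G : ℂ) else 0 := by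
      rw [← sum_conj_mul]
      exact Finset.sum_congr rfl fun g _ => by simp [cbar, hc]
    rw [e] at h3
    intro g
    by_cases hcc : c = cbar
    · exact (congrFun (congrArg Subtype.val hcc) g).symm
    · rw [if_neg hcc, zero_div, zero_smul, eq_comm, smul_eq_zero, or_iff_left hv] at h3
      exact absurd h3 (div_ne_zero (natCast_card_ne_zero G) (irr_one_ne_zero c))
  · intro h a b
    have hle : ∀ χ : Cfsg.IrrCharacter G, mult Ω χ ≤ 1 := by
      intro χ
      by_cases h0 : mult Ω χ = 0
      · omega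
      have := (h χ χ.2 (by rw [hm _ χ.2]; exact Nat.cast_ne_zero.2 h0)).1
      rw [hm _ χ.2, Nat.cast_eq_one] at this
      exact this.le
    have hsym : ∀ T : (Ω → ℂ) →ₗ[ℂ] (Ω → ℂ), Equi (G := G) T → ∀ x y, T (Pi.single y 1) x = T (Pi.single x 1) y := by
      intro T hT
      refine Submodule.span_induction (p := fun (T : (Ω → ℂ) →ₗ[ℂ] (Ω → ℂ)) _ => ∀ x y, T (Pi.single y 1) x = T (Pi.single x 1) y)
        ?_ ?_ ?_ ?_ ((comm_of_mult_le_one hle).1 T hT)
      · rintro _ ⟨⟨χ, hχ⟩, rfl⟩ x y
        have hreal := (h χ χ.2 (by rw [hm _ χ.2]; exact Nat.cast_ne_zero.2 hχ)).2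
        show E χ _ x = E χ _ y
        rw [hEnt, hEnt]
        refine Fintype.sum_equiv (Equiv.inv G) _ _ fun g => ?_
        rw [Equiv.inv_apply, inv_inv, hconj χ g, hreal g, hreal g]
        exact if_congr ⟨fun h => by rw [← h, smul_inv_smul], fun h => by rw [← h, inv_smul_smul]⟩ rfl rfl
      · simp
      · intro u v _ _ hu hv x y
        simp [hu x y, hv x y]
      · intro r u _ hu x y
        simp [hu x y]
    -- the operator of the orbital of `(a, b)`
    let ind : Ω → Ω → ℂ := fun x y => if ∃ g : G, g • a = x ∧ g • b = y then 1 else 0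
    have hind : ∀ (g : G) x y, ind (g • x) (g • y) = ind x y := fun g x y => by
      refine if_congr ⟨?_, ?_⟩ rfl rfl
      · rintro ⟨h, h1, h2⟩; exact ⟨g⁻¹ * h, by rw [mul_smul, h1, inv_smul_smul], by rw [mul_smul, h2, inv_smul_smul]⟩
      · rintro ⟨h, h1, h2⟩; exact ⟨g * h, by rw [mul_smul, h1], by rw [mul_smul, h2]⟩
    let T : (Ω → ℂ) →ₗ[ℂ] (Ω → ℂ) :=
      { toFun := fun v x => ∑ y, ind x y * v y
        map_add' := fun u v => funext fun x => by simp [mul_add, Finset.sum_add_distrib]
        map_smul' := fun t u => funext fun x => by simp [Finset.mul_sum, mul_left_comm] }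
    have hTe : ∀ x y, T (Pi.single y 1) x = ind x y := fun x y => by
      show ∑ z, ind x z * (Pi.single y (1 : ℂ) : Ω → ℂ) z = _
      simp [Pi.single_apply]
    have hT : Equi (G := G) T := fun g => LinearMap.ext fun v => funext fun x => by
      show ∑ y, ind x y * v (g⁻¹ • y) = ∑ y, ind (g⁻¹ • x) y * v y
      refine Fintype.sum_equiv (MulAction.toPerm g⁻¹) _ _ fun y => ?_
      show _ = ind (g⁻¹ • x) (g⁻¹ • y) * v (g⁻¹ • y)
      rw [hind]
    have h1 := hsym T hT b a
    rw [hTe, hTe, show ind a b = 1 from if_pos ⟨1, one_smul _ _, one_smul _ _⟩] at h1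
    by_contra hno
    rw [show ind b a = 0 from if_neg (fun ⟨g, g1, g2⟩ => hno ⟨g, g1, g2⟩)] at h1
    exact zero_ne_one h1

end Cfsg.Agent.S0717
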