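import Cfsg.Statements.S0718
import Mathlib
import Cfsg.Agent.Lib.Perm.Centraliser

set_option autoImplicit false
open Cfsg

namespace Cfsg.Agent.S0718

set_option linter.style.haveILetI false
open CfsgLib.Chars CfsgLib.Perm.Centraliser
open scoped ComplexConjugate

/-- Multiplicity-freeness of the permutation character is equivalent to commutativity of the centraliser ring, i.e. of the algebra of `G`-equivariant endomorphisms of the complex permutation module. -/
theorem result {G : Type*} [Group G] [Fintype G] {Ω : Type*} [Fintype Ω] [MulAction G Ω] : (∀ χ : G → ℂ, Cfsg.IsIrrCharacter G χ → Cfsg.classInner (fun g : G => (Nat.card (MulAction.fixedBy Ω g) : ℂ)) χ = 0 ∨ Cfsg.classInner (fun g : G => (Nat.card (MulAction.fixedBy Ω g) : ℂ)) χ = 1) ↔ ∀ S T : (Ω → ℂ) →ₗ[ℂ] (Ω → ℂ), S ∈ ((Cfsg.permRep ℂ G Ω).linHom (Cfsg.permRep ℂ G Ω)).invariants → T ∈ ((Cfsg.permRep ℂ G Ω).linHom (Cfsg.permRep ℂ G Ω)).invariants → S ∘ₗ T = T ∘ₗ S := by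
  classical

  have hm : ∀ (χ : G → ℂ) (hχ : Cfsg.IsIrrCharacter G χ),
      Cfsg.classInner (fun g : G => (Nat.card (MulAction.fixedBy Ω g) : ℂ)) χ = (mult Ω (⟨χ, hχ⟩ : Cfsg.IrrCharacter G) : ℂ) :=
    fun χ hχ => mult_spec (⟨χ, hχ⟩ : Cfsg.IrrCharacter G)

  constructor
  · intro h S T hS hT
    refine (comm_of_mult_le_one fun χ => ?_).2 S T ((mem_invariants_iff S).1 hS) ((mem_invariants_iff T).1 hT)
    rcases h χ χ.2 with h0 | h1
    · rw [hm _ χ.2] at h0; have : mult Ω χ = 0 := by exact_mod_cast h0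
      omega
    · rw [hm _ χ.2] at h1; have : mult Ω χ = 1 := by exact_mod_cast h1
      omega
  · intro h χ hχ
    have := mult_le_one_of_comm (fun S T hS hT => h S T ((mem_invariants_iff S).2 hS) ((mem_invariants_iff T).2 hT)) (⟨χ, hχ⟩ : Cfsg.IrrCharacter G)
    rw [hm χ hχ]
    interval_cases (mult Ω (⟨χ, hχ⟩ : Cfsg.IrrCharacter G)) <;> simp

end Cfsg.Agent.S0718
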