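import Cfsg.Statements.S0719
import Cfsg.Agent.Lib.Perm.Centraliser
import Cfsg.Agent.Lib.Chars.Orth
import Cfsg.Agent.Lib.Chars.Rep
import Mathlib

set_option autoImplicit false
open Cfsg

namespace Cfsg.Agent.S0719

open CfsgLib.Chars CfsgLib.Perm.Centraliser
open scoped ComplexConjugate

variable {G : Type*} [Group G] [Fintype G] {Ω : Type*} [Fintype Ω] [MulAction G Ω]

/-- simultaneous eigenvectors and the trace formula -/
theorem spectral (h : ∀ χ : IrrCharacter G, mult Ω χ ≤ 1) :
    ∃ w : IrrCharacter G → (Ω → ℂ),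
      (∀ χ, mult Ω χ ≠ 0 → w χ ≠ 0 ∧ repSum (permRep ℂ G Ω) (fun g => conj ((χ : G → ℂ) g)) (w χ) =
        ((Nat.card G : ℂ) / (χ : G → ℂ) 1) • w χ) ∧
      ∀ T : (Ω → ℂ) →ₗ[ℂ] (Ω → ℂ), Equi (G := G) T → ∃ l : IrrCharacter G → ℂ,
        (∀ χ, mult Ω χ ≠ 0 → T (w χ) = l χ • w χ) ∧
        LinearMap.trace ℂ _ T = ∑ χ : IrrCharacter G, (mult Ω χ : ℂ) * (l χ * (χ : G → ℂ) 1) := by
  classical
  have hex : ∀ χ : IrrCharacter G, ∃ w : Ω → ℂ, mult Ω χ ≠ 0 → w ≠ 0 ∧ ∀ f : G → ℂ, IsClassFunction G f →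
      repSum (permRep ℂ G Ω) f w = ((∑ g : G, f g * (χ : G → ℂ) g) / (χ : G → ℂ) 1) • w := by
    intro χ
    by_cases hm : mult Ω χ = 0
    · exact ⟨0, fun h => absurd hm h⟩
    · obtain ⟨n, v, i, hv, hact⟩ := exists_embed χ hm
      exact ⟨i v, fun _ => ⟨hv, hact⟩⟩
  choose w hw using hex
  refine ⟨w, fun χ hχ => ⟨(hw χ hχ).1, by rw [(hw χ hχ).2 _ (isClassFunction_conj χ), sum_conj_mul, if_pos rfl]⟩,
    fun T hT => ?_⟩
  obtain ⟨c, hc⟩ := (Submodule.mem_span_range_iff_exists_fun ℂ).1 ((comm_of_mult_le_one h).1 T hT)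
  let c' : IrrCharacter G → ℂ := fun χ => if hχ : mult Ω χ ≠ 0 then c ⟨χ, hχ⟩ else 0
  refine ⟨fun χ => c' χ * (Nat.card G : ℂ) / (χ : G → ℂ) 1, fun χ hχ => ?_, ?_⟩
  · rw [← hc, LinearMap.sum_apply, Finset.sum_eq_single ⟨χ, hχ⟩]
    · rw [LinearMap.smul_apply, E, (hw χ hχ).2 _ (isClassFunction_conj χ), sum_conj_mul, if_pos rfl, smul_smul]
      simp only [c', dif_pos hχ]
      rw [mul_div_assoc]
    · intro b _ hb
      rw [LinearMap.smul_apply, E, (hw χ hχ).2 _ (isClassFunction_conj b.1), sum_conj_mul,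
        if_neg (fun e => hb (Subtype.ext e.symm)), zero_div, zero_smul, smul_zero]
    · intro hh; exact absurd (Finset.mem_univ _) hh
  · have e1 : ∀ χ : IrrCharacter G, LinearMap.trace ℂ _ (E (Ω := Ω) χ) = (Nat.card G : ℂ) * mult Ω χ := by
      intro χ
      rw [E, repSum, map_sum]
      simp only [map_smul, smul_eq_mul]
      have h1 : ∀ g, LinearMap.trace ℂ _ (permRep ℂ G Ω g) = π G Ω g := fun g => congrFun character_eq g
      simp only [h1]
      have h2 := mult_spec (Ω := Ω) χ
      rw [classInner, inv_mul_eq_iff_eq_mul₀ (natCast_card_ne_zero G)] at h2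
      rw [← h2]
      exact Finset.sum_congr rfl fun g _ => mul_comm _ _
    rw [← hc, map_sum]
    simp only [map_smul, smul_eq_mul, e1]
    rw [← Finset.sum_subset (Finset.subset_univ (Finset.univ.filter fun χ : IrrCharacter G => mult Ω χ ≠ 0))
      (fun χ _ hχ => by
        have : mult Ω χ = 0 := by simpa using hχ
        simp [this]),
      Finset.sum_subtype (Finset.univ.filter fun χ : IrrCharacter G => mult Ω χ ≠ 0) (p := fun χ => mult Ω χ ≠ 0)
        (fun χ => by simp)]
    refine Finset.sum_congr rfl fun χ _ => ?_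
    simp only [c', dif_pos χ.2]
    field_simp [irr_one_ne_zero χ.1]

set_option maxHeartbeats 1000000 in
/-- the parameters of one suborbit -/
theorem suborbit (hprim : MulAction.IsPreprimitive G Ω) {m : ℕ} (hm : Fintype.card Ω = 2 * m) (a₀ : Ω)
    (hrank : Nat.card (MulAction.orbitRel.Quotient (MulAction.stabilizer G a₀) Ω) = 3) (χ₁ χ₂ : G → ℂ)
    (h₁ : Cfsg.IsIrrCharacter G χ₁) (h₂ : Cfsg.IsIrrCharacter G χ₂)
    (hπ : (fun g : G => (Nat.card (MulAction.fixedBy Ω g) : ℂ)) = fun g => 1 + χ₁ g + χ₂ g)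
    (hd₁ : χ₁ 1 = (m : ℂ) - 1) (hd₂ : χ₂ 1 = m) (b : Ω) (hb : b ≠ a₀) :
    ∃ a : ℕ, 0 < a ∧ m = 2 * a ^ 2 + 2 * a + 1 ∧
      (Nat.card (MulAction.orbit (MulAction.stabilizer G a₀) b) = a * (2 * a + 1) ∨
        Nat.card (MulAction.orbit (MulAction.stabilizer G a₀) b) = (a + 1) * (2 * a + 1)) := by
  classical
  let H := MulAction.stabilizer G a₀
  let q : Ω → MulAction.orbitRel.Quotient H Ω := Quotient.mk''
  have hq : ∀ x y : Ω, q x = q y ↔ x ∈ MulAction.orbit H y := fun x y => Quotient.eq''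
  haveI : Finite (MulAction.orbitRel.Quotient H Ω) := Quotient.finite _
  haveI := Fintype.ofFinite (MulAction.orbitRel.Quotient H Ω)
  have hQ : Fintype.card (MulAction.orbitRel.Quotient H Ω) = 3 := by rw [← Nat.card_eq_fintype_card]; exact hrank
  have ha₀ : ∀ x, q x = q a₀ → x = a₀ := by
    intro x hx
    obtain ⟨h, hh⟩ := (hq x a₀).1 hx
    rw [← hh]; exact h.2
  -- a third orbit
  obtain ⟨c, hca, hcb⟩ : ∃ c, q c ≠ q a₀ ∧ q c ≠ q b := by
    by_contra hh
    push Not at hh
    have hs : (Finset.univ : Finset (MulAction.orbitRel.Quotient H Ω)) ⊆ {q a₀, q b} := by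
      intro z _
      obtain ⟨x, rfl⟩ := Quotient.mk''_surjective z
      by_cases h : q x = q a₀
      · exact Finset.mem_insert.2 (Or.inl h)
      · exact Finset.mem_insert.2 (Or.inr (Finset.mem_singleton.2 (hh x h)))
    have := Finset.card_le_card hs
    have := Finset.card_le_two (a := q a₀) (b := q b)
    rw [Finset.card_univ, hQ] at *
    omega
  have hqb : q b ≠ q a₀ := fun h => hb (ha₀ b h)
  have hall : ∀ x, x = a₀ ∨ q x = q b ∨ q x = q c := by
    intro x
    by_contra hh
    push Not at hh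
    have h1 : q x ≠ q a₀ := fun h => hh.1 (ha₀ x h)
    have hc4 : ({q a₀, q b, q c, q x} : Finset _).card = 4 := by
      rw [Finset.card_insert_of_notMem, Finset.card_insert_of_notMem, Finset.card_insert_of_notMem,
        Finset.card_singleton]
      · simp [Ne.symm hh.2.2]
      · simp [Ne.symm hcb, Ne.symm hh.2.1]
      · simp [Ne.symm hqb, Ne.symm hca, Ne.symm h1]
    have := Finset.card_le_univ ({q a₀, q b, q c, q x} : Finset _)
    rw [hQ, hc4] at this
    omega
  let O := Finset.univ.filter fun x => q x = q b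
  let O' := Finset.univ.filter fun x => q x = q c
  let k := O.card
  have hk : Nat.card (MulAction.orbit H b) = k := by
    rw [Nat.card_eq_fintype_card, ← Set.toFinset_card]
    congr 1
    ext x
    simp [O, hq]
  have hkc : O'.card + k + 1 = 2 * m := by
    have hu : (Finset.univ : Finset Ω) = insert a₀ (O ∪ O') := by
      ext x
      simpa [O, O'] using hall x
    have hdj : Disjoint O O' := by
      rw [Finset.disjoint_left]
      intro x h1 h2
      simp [O, O'] at h1 h2
      exact hcb (h2.symm.trans h1)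
    have hna : a₀ ∉ O ∪ O' := by simp [O, O', Ne.symm hqb, Ne.symm hca]
    have := congrArg Finset.card hu
    rw [Finset.card_univ, hm, Finset.card_insert_of_notMem hna, Finset.card_union_of_disjoint hdj] at this
    omega
  have hk0 : 0 < k := Finset.card_pos.2 ⟨b, by simp [O]⟩
  have hc0 : 0 < O'.card := Finset.card_pos.2 ⟨c, by simp [O']⟩
  have hm2 : 2 ≤ m := by omega
  haveI htr : MulAction.IsPretransitive G Ω := hprim.toIsPretransitive
  -- the orbital
  let R : Ω → Ω → Prop := fun x y => ∃ g : G, g • a₀ = x ∧ g • b = y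
  have Rinv : ∀ (g : G) x y, R x y → R (g • x) (g • y) := by
    rintro g x y ⟨h, rfl, rfl⟩; exact ⟨g * h, mul_smul _ _ _, mul_smul _ _ _⟩
  have Rinv' : ∀ (g : G) x y, R (g • x) (g • y) ↔ R x y := fun g x y =>
    ⟨fun h => by simpa using Rinv g⁻¹ _ _ h, Rinv g x y⟩
  have Ra₀ : ∀ y, R a₀ y ↔ q y = q b := by
    intro y
    rw [hq]
    constructor
    · rintro ⟨g, h1, h2⟩; exact ⟨⟨g, h1⟩, h2⟩
    · rintro ⟨⟨g, h1⟩, h2⟩; exact ⟨g, h1, h2⟩
  have row : ∀ x, (Finset.univ.filter fun y => R x y).card = k := by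
    intro x
    obtain ⟨g, rfl⟩ := MulAction.exists_smul_eq G a₀ x
    refine Finset.card_bij' (fun y _ => g⁻¹ • y) (fun y _ => g • y) ?_ ?_ (fun y _ => smul_inv_smul g y)
      (fun y _ => inv_smul_smul g y)
    · intro y hy
      simp [O] at hy ⊢
      rw [← Ra₀, ← Rinv' g, smul_inv_smul]; exact hy
    · intro y hy
      simp [O] at hy ⊢
      rw [Rinv' g, Ra₀]; exact hy
  have col : ∀ y, (Finset.univ.filter fun x => R x y).card = k := by
    have hconst : ∀ y, (Finset.univ.filter fun x => R x y).card = (Finset.univ.filter fun x => R x a₀).card := by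
      intro y
      obtain ⟨g, rfl⟩ := MulAction.exists_smul_eq G a₀ y
      refine Finset.card_bij' (fun x _ => g⁻¹ • x) (fun x _ => g • x) ?_ ?_ (fun x _ => smul_inv_smul g x)
        (fun x _ => inv_smul_smul g x)
      · intro x hx
        simp at hx ⊢
        rw [← Rinv' g, smul_inv_smul]; exact hx
      · intro x hx
        simp at hx ⊢
        rw [Rinv' g]; exact hx
    have hsum : ∑ x : Ω, (Finset.univ.filter fun y => R x y).card = ∑ y : Ω, (Finset.univ.filter fun x => R x y).card := by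
      simp only [Finset.card_filter]
      exact Finset.sum_comm
    simp only [row, hconst, Finset.sum_const, Finset.card_univ, smul_eq_mul] at hsum
    intro y
    rw [hconst y]
    exact (Nat.eq_of_mul_eq_mul_left (by omega) hsum).symm
  have hsymm : ∀ x y, R x y → R y x := by
    have key : ∀ y, R a₀ y → R y a₀ := by
      have hin : ∀ y, R y a₀ → q y = q b := by
        intro y hy
        rcases hall y with h | h | h
        · rw [h] at hy; exact absurd ((Ra₀ a₀).1 hy).symm hqb
        · exact h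
        · exfalso
          have hsub : O' ⊆ Finset.univ.filter fun x => R x a₀ := by
            intro z hz
            simp [O'] at hz ⊢
            obtain ⟨g, hg⟩ := (hq z y).1 (hz.trans h.symm)
            have h' := Rinv (g : G) y a₀ hy
            rw [show (g : G) • a₀ = a₀ from g.2, show (g : G) • y = z from hg] at h'
            exact h'
          have hsub2 : (Finset.univ.filter fun x => R x a₀) ⊆ O' := by
            intro z hz
            simp [O'] at hz ⊢
            rcases hall z with h' | h' | h'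
            · rw [h'] at hz; exact absurd ((Ra₀ a₀).1 hz).symm hqb
            · exfalso
              have hzs : O ⊆ Finset.univ.filter fun x => R x a₀ := by
                intro z' hz'
                simp [O] at hz' ⊢
                obtain ⟨g, hg⟩ := (hq z' z).1 (hz'.trans h'.symm)
                have h'' := Rinv (g : G) z a₀ hz
                rw [show (g : G) • a₀ = a₀ from g.2, show (g : G) • z = z' from hg] at h''
                exact h''
              have hu := Finset.card_le_card (Finset.union_subset hzs hsub)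
              rw [col, Finset.card_union_of_disjoint] at hu
              · omega
              · rw [Finset.disjoint_left]
                intro w h1 h2
                simp [O, O'] at h1 h2
                exact hcb (h2.symm.trans h1)
            · exact h'
          have := Finset.card_le_card hsub
          have := Finset.card_le_card hsub2
          rw [col] at *
          omega
      have heq : (Finset.univ.filter fun x => R x a₀) = O := by
        refine Finset.eq_of_subset_of_card_le (fun z hz => by simp [O] at hz ⊢; exact hin z hz) ?_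
        rw [col]
      intro y hy
      have : y ∈ O := by simp [O]; exact (Ra₀ y).1 hy
      rw [← heq] at this
      simpa using this
    rintro x y ⟨g, rfl, rfl⟩
    exact Rinv g _ _ (key b ((Ra₀ b).2 rfl))
  -- the matrices
  let A : Matrix Ω Ω ℂ := Matrix.of fun x y => if R x y then 1 else 0
  let J : Matrix Ω Ω ℂ := Matrix.of fun _ _ => 1
  have equi : ∀ M : Matrix Ω Ω ℂ, (∀ (g : G) x y, M (g • x) (g • y) = M x y) → Equi (G := G) (Matrix.toLin' M) := by
    intro M hM g
    refine LinearMap.ext fun f => funext fun x => ?_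
    simp only [LinearMap.comp_apply, Matrix.toLin'_apply, Matrix.mulVec, dotProduct, permRep_apply]
    refine Fintype.sum_equiv (MulAction.toPerm g⁻¹) _ _ fun y => ?_
    show M x y * f (g⁻¹ • y) = M (g⁻¹ • x) (g⁻¹ • y) * f (g⁻¹ • y)
    rw [hM]
  have hAinv : ∀ (g : G) x y, A (g • x) (g • y) = A x y := fun g x y => by simp [A, Rinv']
  have hA := equi A hAinv
  have hJ := equi J fun g x y => by simp [J]
  -- the constituents
  let t : IrrCharacter G := ⟨fun _ => 1, isIrrCharacter_one G⟩
  let p₁ : IrrCharacter G := ⟨χ₁, h₁⟩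
  let p₂ : IrrCharacter G := ⟨χ₂, h₂⟩
  have h12 : p₁ ≠ p₂ := fun h => by
    have := congrFun (congrArg Subtype.val h) 1
    simp [p₁, p₂, hd₁, hd₂] at this
  have ht2 : t ≠ p₂ := fun h => by
    have := congrFun (congrArg Subtype.val h) 1
    simp [t, p₂, hd₂] at this
    first | omega | exact absurd (Nat.cast_eq_one.1 this.symm) (by omega) | exact absurd (Nat.cast_eq_one.1 this) (by omega)
  have hmult0 : ∀ χ : IrrCharacter G, mult Ω χ = (if t = χ then 1 else 0) + (if p₁ = χ then 1 else 0) + (if p₂ = χ then 1 else 0) := by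
    intro χ
    have h := mult_spec (Ω := Ω) χ
    have e : π G Ω = fun g => (t : G → ℂ) g + (p₁ : G → ℂ) g + (p₂ : G → ℂ) g := hπ
    have e2 : classInner (π G Ω) (χ : G → ℂ) =
        classInner (t : G → ℂ) χ + classInner (p₁ : G → ℂ) χ + classInner (p₂ : G → ℂ) χ := by
      rw [e]; simp [classInner, add_mul, Finset.sum_add_distrib, mul_add]
    rw [e2, classInner_irr, classInner_irr, classInner_irr] at h
    exact_mod_cast h.symm
  have ht1 : t ≠ p₁ := by
    intro h
    have hm0 := hmult0 t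
    rw [if_pos rfl, if_pos h.symm, if_neg (Ne.symm ht2)] at hm0
    have hs := mult_spec (Ω := Ω) t
    rw [hm0] at hs
    have hb' := MulAction.sum_card_fixedBy_eq_card_orbits_mul_card_group G Ω
    have h1 : Fintype.card (MulAction.orbitRel.Quotient G Ω) = 1 := by
      rw [Fintype.card_eq_one_iff]
      refine ⟨Quotient.mk'' a₀, fun z => ?_⟩
      obtain ⟨x, rfl⟩ := Quotient.mk''_surjective z
      obtain ⟨g, rfl⟩ := MulAction.exists_smul_eq G a₀ x
      exact Quotient.eq''.2 ⟨g, rfl⟩
    rw [h1, one_mul] at hb'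
    rw [classInner, inv_mul_eq_iff_eq_mul₀ (natCast_card_ne_zero G)] at hs
    simp only [t, π, map_one, mul_one, Nat.card_eq_fintype_card] at hs
    rw [← Nat.cast_sum, hb', ← Nat.cast_mul] at hs
    have := Nat.cast_injective hs
    have : 0 < Fintype.card G := Fintype.card_pos
    omega
  have hle : ∀ χ : IrrCharacter G, mult Ω χ ≤ 1 := fun χ => by
    rw [hmult0 χ]
    by_cases a1 : t = χ
    · subst a1; rw [if_pos rfl, if_neg (Ne.symm ht1), if_neg (Ne.symm ht2)]
    rw [if_neg a1]
    by_cases a2 : p₁ = χ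
    · subst a2; rw [if_pos rfl, if_neg (Ne.symm h12)]
    rw [if_neg a2]
    split_ifs <;> omega
  have mt : mult Ω t ≠ 0 := by rw [hmult0, if_pos rfl]; omega
  have m1 : mult Ω p₁ ≠ 0 := by rw [hmult0 p₁, if_pos (show p₁ = p₁ from rfl)]; omega
  have m2 : mult Ω p₂ ≠ 0 := by rw [hmult0 p₂, if_pos (show p₂ = p₂ from rfl)]; omega
  obtain ⟨w, hw, hT⟩ := spectral (Ω := Ω) hle
  have tr3 : ∀ l : IrrCharacter G → ℂ, ∑ χ : IrrCharacter G, (mult Ω χ : ℂ) * (l χ * (χ : G → ℂ) 1) =
      l t + ((m : ℂ) - 1) * l p₁ + m * l p₂ := by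
    intro l
    simp only [hmult0, Nat.cast_add, Nat.cast_ite, Nat.cast_one, Nat.cast_zero, add_mul, Finset.sum_add_distrib,
      ite_mul, one_mul, zero_mul, Finset.sum_ite_eq, Finset.mem_univ, if_true]
    simp [t, p₁, p₂, hd₁, hd₂, mul_comm]
  -- the constant vector
  obtain ⟨hwt, hwt'⟩ := hw t mt
  have hconst : ∀ x y, w t x = w t y := by
    intro x y
    obtain ⟨h, rfl⟩ := MulAction.exists_smul_eq G x y
    have e1 := congrFun hwt' x
    have e2 := congrFun hwt' (h • x)
    simp only [repSum_apply, t, map_one, one_smul, Finset.sum_apply, permRep_apply, Pi.smul_apply, smul_eq_mul,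
      div_one] at e1 e2
    have : ∑ g : G, w t (g⁻¹ • x) = ∑ g : G, w t (g⁻¹ • h • x) :=
      Fintype.sum_equiv (Equiv.mulLeft h) _ _ fun g => by simp [mul_smul]
    rw [e1, e2] at this
    exact mul_left_cancel₀ (natCast_card_ne_zero G) this
  obtain ⟨x₀, hx₀⟩ := Function.ne_iff.1 hwt
  have rowA : ∀ x, ∑ y, A x y = (k : ℂ) := fun x => by
    rw [← row x, ← Finset.sum_boole]
    rfl
  obtain ⟨lA, hlA, htA⟩ := hT _ hA
  obtain ⟨lJ, hlJ, htJ⟩ := hT _ hJ
  have eigT : ∀ (M : Matrix Ω Ω ℂ) (s : ℂ) (l : IrrCharacter G → ℂ), (∀ x, ∑ y, M x y = s) →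
      Matrix.toLin' M (w t) = l t • w t → l t = s := by
    intro M s l hs h
    have := congrFun h x₀
    simp only [Matrix.toLin'_apply, Matrix.mulVec, dotProduct, hconst _ x₀, ← Finset.sum_mul, hs, Pi.smul_apply,
      smul_eq_mul] at this
    exact (mul_right_cancel₀ hx₀ this).symm
  have lAt : lA t = k := eigT A k lA rowA (hlA t mt)
  have lJt : lJ t = 2 * (m : ℂ) := eigT J _ lJ (fun x => by simp [J, hm]) (hlJ t mt)
  have trA : (k : ℂ) + ((m : ℂ) - 1) * lA p₁ + m * lA p₂ = 0 := by
    rw [← lAt, ← tr3, ← htA, Matrix.trace_toLin'_eq, Matrix.trace]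
    refine Finset.sum_eq_zero fun x _ => ?_
    simp only [Matrix.diag_apply, A, Matrix.of_apply]
    rw [if_neg]
    intro h
    obtain ⟨g, rfl, h2⟩ := h
    exact hb (MulAction.injective g h2)
  have scal : ∀ {l l' : ℂ} {v : Ω → ℂ}, v ≠ 0 → l • v = l' • v → l = l' := fun hv h => smul_left_injective ℂ hv h
  have lJ0 : ∀ χ, mult Ω χ ≠ 0 → lJ χ = 0 ∨ lJ χ = 2 * (m : ℂ) := by
    intro χ hχ
    have hJJ : J * J = (2 * m : ℂ) • J := by ext x y; simp [J, Matrix.mul_apply, hm]
    have h1 := congrArg (fun M => Matrix.toLin' M (w χ)) hJJ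
    simp only [Matrix.toLin'_mul, LinearMap.comp_apply, hlJ χ hχ, map_smul, LinearMap.smul_apply, smul_smul] at h1
    have := scal (hw χ hχ).1 h1
    by_cases h : lJ χ = 0
    · exact Or.inl h
    · exact Or.inr (mul_right_cancel₀ h this)
  have hJtr : ((m : ℂ) - 1) * lJ p₁ + m * lJ p₂ = 0 := by
    have h := tr3 lJ
    rw [← htJ, Matrix.trace_toLin'_eq, Matrix.trace, lJt] at h
    simp [J, hm] at h
    linear_combination -h
  have hJ12 : lJ p₁ = 0 ∧ lJ p₂ = 0 := by
    have hm0 : (m : ℂ) ≠ 0 := by exact_mod_cast (show m ≠ 0 by omega)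
    have hm1 : (m : ℂ) - 1 ≠ 0 := sub_ne_zero.2 (by exact_mod_cast (show m ≠ 1 by omega))
    rcases lJ0 p₁ m1 with h | h <;> rcases lJ0 p₂ m2 with h' | h' <;> rw [h, h'] at hJtr
    · exact ⟨h, h'⟩
    · exfalso; apply hm0; simpa using hJtr
    · exfalso
      rw [mul_zero, add_zero] at hJtr
      rcases mul_eq_zero.1 hJtr with e | e
      exacts [hm1 e, mul_ne_zero two_ne_zero hm0 e]
    · exfalso
      have : (2 * (m : ℂ)) * (2 * m - 1) = 0 := by linear_combination hJtr
      rcases mul_eq_zero.1 this with e | e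
      · exact mul_ne_zero two_ne_zero hm0 e
      · have : ((2 * m : ℕ) : ℂ) = 1 := by push_cast; linear_combination e
        have := Nat.cast_eq_one.1 this
        omega
  -- the square
  let N : Ω → ℕ := fun y => (Finset.univ.filter fun z => R a₀ z ∧ R z y).card
  let lam := N b
  let mu := N c
  have hsq : A * A = (k : ℂ) • 1 + (lam : ℂ) • A + (mu : ℂ) • (J - 1 - A) := by
    have hinv : ∀ (g : G) x y, (Finset.univ.filter fun z => R (g • x) z ∧ R z (g • y)).card =
        (Finset.univ.filter fun z => R x z ∧ R z y).card := by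
      intro g x y
      refine Finset.card_bij' (fun z _ => g⁻¹ • z) (fun z _ => g • z) ?_ ?_ (fun z _ => smul_inv_smul g z)
        (fun z _ => inv_smul_smul g z)
      · intro z hz
        simp at hz ⊢
        rw [← Rinv' g, ← Rinv' g (g⁻¹ • z), smul_inv_smul]; exact hz
      · intro z hz
        simp at hz ⊢
        rw [Rinv' g, Rinv' g z]; exact hz
    have horb : ∀ y z, q y = q z → N y = N z := by
      intro y z h
      obtain ⟨g, rfl⟩ := (hq y z).1 h
      have := hinv (g : G) a₀ z
      rwa [show (g : G) • a₀ = a₀ from g.2] at this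
    ext x y
    obtain ⟨g, rfl⟩ := MulAction.exists_smul_eq G a₀ x
    obtain ⟨y, rfl⟩ : ∃ y', g • y' = y := ⟨g⁻¹ • y, smul_inv_smul g y⟩
    have hl : (A * A) (g • a₀) (g • y) = (N y : ℂ) := by
      rw [Matrix.mul_apply]
      show _ = (((Finset.univ.filter fun z => R a₀ z ∧ R z y).card : ℕ) : ℂ)
      rw [← hinv g a₀ y, ← Finset.sum_boole]
      refine Finset.sum_congr rfl fun z _ => ?_
      simp only [A, Matrix.of_apply]
      by_cases u1 : R (g • a₀) z <;> by_cases u2 : R z (g • y) <;> simp [u1, u2]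
    rw [hl]
    simp only [Matrix.add_apply, Matrix.smul_apply, Matrix.sub_apply, Matrix.one_apply, J, Matrix.of_apply,
      smul_eq_mul, hAinv]
    simp only [A, Matrix.of_apply, Ra₀]
    rcases hall y with rfl | h | h
    · rw [if_pos rfl, if_neg hqb.symm]
      have : N y = k := by
        show (Finset.univ.filter fun z => R y z ∧ R z y).card = k
        rw [← row y]
        congr 1
        exact Finset.filter_congr fun z _ => ⟨fun h => h.1, fun h => ⟨h, hsymm _ _ h⟩⟩
      rw [this]; ring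
    · rw [if_pos h, if_neg (fun e => hqb (by rw [← h, ← MulAction.injective g e])), horb y b h]
      ring
    · rw [if_neg (fun e => hcb (h.symm.trans e)), if_neg (fun e => hca (by rw [← h, ← MulAction.injective g e])), horb y c h]
      ring
  have hquad : ∀ χ, mult Ω χ ≠ 0 → lA χ * lA χ = k + lam * lA χ + mu * (lJ χ - 1 - lA χ) := by
    intro χ hχ
    have h1 := congrArg (fun M => Matrix.toLin' M (w χ)) hsq
    simp only [Matrix.toLin'_mul, LinearMap.comp_apply, hlA χ hχ, map_smul, smul_smul, map_add, map_sub,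
      LinearMap.add_apply, LinearMap.smul_apply, LinearMap.sub_apply, Matrix.toLin'_one, LinearMap.id_apply,
      hlJ χ hχ] at h1
    apply scal (hw χ hχ).1
    rw [h1]
    module
  have q1 := hquad p₁ m1
  have q2 := hquad p₂ m2
  rw [hJ12.1] at q1
  rw [hJ12.2] at q2
  have trA2 : (k : ℂ) * k + ((m : ℂ) - 1) * (lA p₁ * lA p₁) + m * (lA p₂ * lA p₂) = 2 * m * k := by
    obtain ⟨l2, hl2, ht2'⟩ := hT (Matrix.toLin' (A * A)) (equi _ fun g x y => by
      rw [Matrix.mul_apply, Matrix.mul_apply]
      refine Fintype.sum_equiv (MulAction.toPerm g⁻¹) _ _ fun z => ?_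
      show A (g • x) z * A z (g • y) = A x (g⁻¹ • z) * A (g⁻¹ • z) y
      conv_lhs => rw [← smul_inv_smul g z, hAinv, hAinv])
    have e : ∀ χ, mult Ω χ ≠ 0 → l2 χ = lA χ * lA χ := by
      intro χ hχ
      apply scal (hw χ hχ).1
      rw [← hl2 χ hχ, Matrix.toLin'_mul, LinearMap.comp_apply, hlA χ hχ, map_smul, hlA χ hχ, smul_smul]
    rw [tr3, e t mt, e p₁ m1, e p₂ m2, lAt, Matrix.trace_toLin'_eq, Matrix.trace] at ht2'
    have : ∀ x, (A * A).diag x = (k : ℂ) := by
      intro x
      rw [Matrix.diag_apply, Matrix.mul_apply, ← rowA x]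
      refine Finset.sum_congr rfl fun z _ => ?_
      simp only [A, Matrix.of_apply]
      split_ifs with u1 u2 <;> simp_all
    simp only [this, Finset.sum_const, Finset.card_univ, hm, nsmul_eq_mul] at ht2'
    push_cast at ht2'
    linear_combination -ht2'
  -- integrality
  obtain ⟨r, hr⟩ : ∃ r : ℂ, r = lA p₁ := ⟨_, rfl⟩
  obtain ⟨s, hs⟩ : ∃ s : ℂ, s = lA p₂ := ⟨_, rfl⟩
  rw [← hr, ← hs] at trA trA2
  rw [← hr] at q1
  rw [← hs] at q2
  have hm0 : (m : ℂ) ≠ 0 := by exact_mod_cast (show m ≠ 0 by omega)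
  have hrs : r ≠ s := by
    intro h
    subst h
    have h2 : (2 * (m : ℂ)) * k * ((k : ℂ) - (2 * m - 1)) = 0 := by
      linear_combination ((2 : ℂ) * m - 1) * trA2 + ((k : ℂ) - (2 * m - 1) * r) * trA
    have hk' : (k : ℂ) ≠ 0 := by exact_mod_cast (show k ≠ 0 by omega)
    rcases mul_eq_zero.1 h2 with e | e
    · exact mul_ne_zero (mul_ne_zero two_ne_zero hm0) hk' e
    · have : ((k + 1 : ℕ) : ℂ) = ((2 * m : ℕ) : ℂ) := by push_cast; linear_combination e
      have := Nat.cast_injective this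
      omega
  obtain ⟨u, hu⟩ : ∃ u : ℤ, u = (lam : ℤ) - mu := ⟨_, rfl⟩
  have hsum : r + s = (u : ℂ) := by
    apply mul_left_cancel₀ (sub_ne_zero.2 hrs)
    rw [hu]; push_cast
    linear_combination q1 - q2
  obtain ⟨ρ, hρ⟩ : ∃ ρ : ℤ, ρ = (k : ℤ) + m * u := ⟨_, rfl⟩
  have hrρ : r = (ρ : ℂ) := by
    rw [hρ]; push_cast
    linear_combination (-1 : ℂ) * trA + (m : ℂ) * hsum
  have heq : 2 * ρ ^ 2 - 2 * ρ * (2 * u + 1) + u ^ 2 + m * u * (u + 2) = 0 := by
    have hs' : s = (u : ℂ) - (ρ : ℂ) := by rw [← hrρ]; linear_combination hsum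
    have hkk : (k : ℂ) = (ρ : ℂ) - m * u := by rw [hρ]; push_cast; ring
    have h : ((m : ℂ)) * ((2 * ρ ^ 2 - 2 * ρ * (2 * u + 1) + u ^ 2 + m * u * (u + 2) : ℤ) : ℂ) = 0 := by
      rw [hrρ, hs', hkk] at trA2
      push_cast
      linear_combination trA2
    exact_mod_cast (mul_eq_zero.1 h).resolve_left hm0
  have hu2 : -2 ≤ u ∧ u ≤ 0 := by
    have hD : (2 * ρ - (2 * u + 1)) ^ 2 + (2 * (m : ℤ) - 2) * (u * (u + 2)) = 1 := by linear_combination 2 * heq
    have h2 : (2 : ℤ) ≤ 2 * (m : ℤ) - 2 := by omega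
    have h3 : 0 ≤ (2 * ρ - (2 * u + 1)) ^ 2 := sq_nonneg _
    constructor <;> by_contra hh
    · have : 3 ≤ u * (u + 2) := by nlinarith
      nlinarith
    · have : 3 ≤ u * (u + 2) := by nlinarith
      nlinarith
  -- no graph of valency one
  have hone : ∀ e : Ω, e ≠ a₀ → (∀ x, q x = q e → x = e) → False := by
    intro e he hfix
    have hle' : MulAction.stabilizer G a₀ ≤ MulAction.stabilizer G e := fun h hh =>
      hfix _ ((hq _ _).2 ⟨⟨h, hh⟩, rfl⟩)
    haveI : Nontrivial Ω := ⟨⟨e, a₀, he⟩⟩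
    obtain ⟨hne, hmax⟩ := (MulAction.isCoatom_stabilizer_iff_preprimitive G a₀).2 hprim
    rcases eq_or_lt_of_le hle' with h | h
    · -- the common stabiliser fixes a whole block
      have hblock : MulAction.IsBlock G {x : Ω | MulAction.stabilizer G x = MulAction.stabilizer G a₀} := by
        rw [MulAction.isBlock_iff_smul_eq_of_nonempty]
        rintro g ⟨x, ⟨y, hy, rfl⟩, hx⟩
        have hy' : MulAction.stabilizer G y = MulAction.stabilizer G a₀ := hy
        have hx' : MulAction.stabilizer G (g • y) = MulAction.stabilizer G a₀ := hx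
        rw [MulAction.stabilizer_smul_eq_stabilizer_map_conj, hy'] at hx'
        ext z
        constructor
        · rintro ⟨z', hz', rfl⟩
          show MulAction.stabilizer G (g • z') = _
          rw [MulAction.stabilizer_smul_eq_stabilizer_map_conj, show MulAction.stabilizer G z' = _ from hz', hx']
        · intro hz
          refine ⟨g⁻¹ • z, ?_, smul_inv_smul g z⟩
          show MulAction.stabilizer G (g⁻¹ • z) = _
          rw [MulAction.stabilizer_smul_eq_stabilizer_map_conj, show MulAction.stabilizer G z = _ from hz]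
          conv_lhs => rw [← hx', Subgroup.map_map]
          convert Subgroup.map_id _
          ext z''
          simp [mul_assoc]
      rcases hprim.isTrivialBlock_of_isBlock hblock with hb' | hb'
      · exact he (hb' (show e ∈ {x : Ω | MulAction.stabilizer G x = MulAction.stabilizer G a₀} from h.symm) rfl)
      · -- stabiliser normal, hence trivial orbits
        have hfixall : ∀ (h : H) (x : Ω), h • x = x := fun h x => by
          have hx : MulAction.stabilizer G x = MulAction.stabilizer G a₀ := by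
            have : x ∈ {x : Ω | MulAction.stabilizer G x = MulAction.stabilizer G a₀} := hb' ▸ Set.mem_univ x
            exact this
          exact (hx.symm ▸ h.2 : (h : G) ∈ MulAction.stabilizer G x)
        have hinj : Function.Injective q := fun x y hxy => by
          obtain ⟨h, hh⟩ := (hq x y).1 hxy
          rw [← hh]; exact hfixall h y
        have := Fintype.card_le_of_injective q hinj
        rw [hm, hQ] at this
        omega
    · have htop := hmax _ h
      obtain ⟨g, hg⟩ := MulAction.exists_smul_eq G e a₀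
      exact he (((show g • e = e from (htop ▸ Subgroup.mem_top g : g ∈ MulAction.stabilizer G e))).symm.trans hg)
  rw [hk]
  obtain ⟨hl, hh⟩ := hu2
  have hcase : u = -2 ∨ u = -1 ∨ u = 0 := by omega
  rcases hcase with rfl | rfl | rfl
  · exfalso
    have : (ρ + 1) * (ρ + 2) = 0 := by linarith
    rcases mul_eq_zero.1 this with e | e
    · omega
    · have hc1 : O'.card = 1 := by omega
      obtain ⟨x', hx'⟩ := Finset.card_eq_one.1 hc1
      refine hone c (fun h => hca (by rw [h])) fun x hx => ?_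
      have h1 : x ∈ O' := by simp [O', hx]
      have h2 : c ∈ O' := by simp [O']
      rw [hx', Finset.mem_singleton] at h1 h2
      rw [h1, h2]
  · have hm' : (m : ℤ) = 2 * ρ ^ 2 + 2 * ρ + 1 := by linarith
    rcases le_or_gt 0 ρ with h | h
    · obtain ⟨a, rfl⟩ := Int.eq_ofNat_of_zero_le h
      have hm'' : m = 2 * a ^ 2 + 2 * a + 1 := by exact_mod_cast hm'
      refine ⟨a, ?_, hm'', Or.inr ?_⟩
      · rcases Nat.eq_zero_or_pos a with rfl | h' <;> omega
      · have : (k : ℤ) = (a + 1) * (2 * a + 1) := by linarith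
        exact_mod_cast this
    · obtain ⟨a, ha⟩ : ∃ a : ℕ, ρ = -(a : ℤ) - 1 := ⟨(-ρ - 1).toNat, by omega⟩
      subst ha
      have hm'' : m = 2 * a ^ 2 + 2 * a + 1 := by
        have : (m : ℤ) = 2 * (a : ℤ) ^ 2 + 2 * a + 1 := by rw [hm']; ring
        exact_mod_cast this
      refine ⟨a, ?_, hm'', Or.inl ?_⟩
      · rcases Nat.eq_zero_or_pos a with rfl | h' <;> omega
      · have : (k : ℤ) = a * (2 * a + 1) := by linarith
        exact_mod_cast this
  · exfalso
    have : ρ * (ρ - 1) = 0 := by linarith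
    rcases mul_eq_zero.1 this with e | e
    · omega
    · have hk1 : k = 1 := by omega
      obtain ⟨x', hx'⟩ := Finset.card_eq_one.1 hk1
      refine hone b hb fun x hx => ?_
      have h1 : x ∈ O := by simp [O, hx]
      have h2 : b ∈ O := by simp [O]
      rw [hx', Finset.mem_singleton] at h1 h2
      rw [h1, h2]

/-- Groups of Wielandt type: if a primitive group of degree `2m` has rank 3 and permutation character `1 + χ₁ + χ₂` with irreducible `χ₁, χ₂` of degrees `m - 1` and `m`, then `m = 2a² + 2a + 1` for some positive integer `a` and the two non-trivial subdegrees are `a(2a+1)` and `(a+1)(2a+1)`. -/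
theorem result {G : Type*} [Group G] [Fintype G] {Ω : Type*} [Fintype Ω] [MulAction G Ω] (hprim : MulAction.IsPreprimitive G Ω) {m : ℕ} (hm : Fintype.card Ω = 2 * m) (a₀ : Ω) (hrank : Nat.card (MulAction.orbitRel.Quotient (MulAction.stabilizer G a₀) Ω) = 3) (χ₁ χ₂ : G → ℂ) (h₁ : Cfsg.IsIrrCharacter G χ₁) (h₂ : Cfsg.IsIrrCharacter G χ₂) (hπ : (fun g : G => (Nat.card (MulAction.fixedBy Ω g) : ℂ)) = fun g => 1 + χ₁ g + χ₂ g) (hd₁ : χ₁ 1 = (m : ℂ) - 1) (hd₂ : χ₂ 1 = m) : ∃ a : ℕ, 0 < a ∧ m = 2 * a ^ 2 + 2 * a + 1 ∧ ∀ b : Ω, b ≠ a₀ → Nat.card (MulAction.orbit (MulAction.stabilizer G a₀) b) = a * (2 * a + 1) ∨ Nat.card (MulAction.orbit (MulAction.stabilizer G a₀) b) = (a + 1) * (2 * a + 1) := by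
  classical
  haveI : MulAction.IsPretransitive G Ω := hprim.toIsPretransitive
  obtain ⟨b₀, hb₀⟩ : ∃ b, b ≠ a₀ := by
    by_contra hh
    push Not at hh
    haveI : Subsingleton Ω := ⟨fun x y => by rw [hh x, hh y]⟩
    have h1 := Fintype.card_le_one_iff_subsingleton.2 ‹Subsingleton Ω›
    rw [hm] at h1
    have hq : Nat.card (MulAction.orbitRel.Quotient (MulAction.stabilizer G a₀) Ω) ≤ 1 := by
      rw [Finite.card_le_one_iff_subsingleton]
      exact inferInstanceAs (Subsingleton (Quotient (MulAction.orbitRel (MulAction.stabilizer G a₀) Ω)))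
    omega
  obtain ⟨a, ha, hma, -⟩ := suborbit hprim hm a₀ hrank χ₁ χ₂ h₁ h₂ hπ hd₁ hd₂ b₀ hb₀
  refine ⟨a, ha, hma, fun b hb => ?_⟩
  obtain ⟨a', -, hma', h⟩ := suborbit hprim hm a₀ hrank χ₁ χ₂ h₁ h₂ hπ hd₁ hd₂ b hb
  have : a' = a := by
    rcases lt_trichotomy a' a with h1 | h1 | h1
    · exfalso; nlinarith
    · exact h1
    · exfalso; nlinarith
  subst this
  exact h

end Cfsg.Agent.S0719
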