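import Cfsg.Statements.S0722
import Mathlib

set_option autoImplicit false
open Cfsg

namespace Cfsg.Agent.S0722

/-- In a primitive group `H`, with `N` a minimal normal subgroup and `K` a point stabiliser, `K ⊓ N` is maximal among proper `K`-invariant subgroups of `N`. -/
theorem result {α : Type*} [Finite α] (H : Subgroup (Equiv.Perm α)) [MulAction.IsPreprimitive H α] (N : Subgroup H) [N.Normal] (hN : N ≠ ⊥) (hmin : ∀ M : Subgroup H, M.Normal → M ≤ N → M = ⊥ ∨ M = N) (a : α) (X : Subgroup H) (hX : X ≤ N) (hKX : MulAction.stabilizer H a ⊓ N ≤ X) (hinv : MulAction.stabilizer H a ≤ Subgroup.normalizer (X : Set H)) : X = MulAction.stabilizer H a ⊓ N ∨ X = N := by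
  classical
  have hle : ∀ {u : H}, u ∈ MulAction.stabilizer H a → u ∈ N → u ∈ X := fun h1 h2 => hKX ⟨h1, h2⟩
  rcases subsingleton_or_nontrivial α with hs | hs
  · right
    exact le_antisymm hX fun u hu => hle (Subsingleton.elim _ _) hu
  have hco := MulAction.IsPreprimitive.isCoatom_stabilizer_of_isPreprimitive (G := H) a
  have hsup : MulAction.stabilizer H a ≤ X ⊔ MulAction.stabilizer H a := le_sup_right
  rcases hsup.eq_or_lt with h | h
  · left
    exact le_antisymm (le_inf (h ▸ le_sup_left) hX) hKX
  · right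
    have htop := hco.2 _ h
    refine le_antisymm hX fun u hu => ?_
    have h1 : u ∈ ((X ⊔ MulAction.stabilizer H a : Subgroup H) : Set H) := by rw [htop]; trivial
    rw [sup_comm, Subgroup.coe_mul_of_left_le_normalizer_right _ _ hinv] at h1
    obtain ⟨s, hs', x, hx, rfl⟩ := h1
    refine X.mul_mem (hle hs' ?_) hx
    have := N.mul_mem hu (N.inv_mem (hX hx))
    simpa using this

end Cfsg.Agent.S0722
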