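import Cfsg.Statements.S0724
import Mathlib

set_option autoImplicit false
open Cfsg

namespace Cfsg.Agent.S0724

/-- Blichfeldt's Theorem: if a finite set `L` of natural numbers contains the number of fixed points of every non-identity element of a permutation group `G` of degree `n`, then the order of `G` divides `∏ (n - l)` over `l ∈ L`. -/
theorem result {α : Type*} [Fintype α] [DecidableEq α] (G : Subgroup (Equiv.Perm α)) (L : Finset ℕ) (hL : ∀ g ∈ G, g ≠ 1 → Nat.card (MulAction.fixedBy α g) ∈ L) : Nat.card G ∣ ∏ l ∈ L, (Fintype.card α - l) := by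
  classical
  haveI : Fintype G := Fintype.ofFinite G
  let π : G → ℤ := fun g => (Nat.card (MulAction.fixedBy α (g : Equiv.Perm α)) : ℤ)
  have hpow : ∀ j : ℕ, (Nat.card G : ℤ) ∣ ∑ g : G, π g ^ j := by
    intro j
    have h1 := MulAction.sum_card_fixedBy_eq_card_orbits_mul_card_group G (Fin j → α)
    have h2 : ∀ g : G, Fintype.card (MulAction.fixedBy (Fin j → α) g) =
        Nat.card (MulAction.fixedBy α (g : Equiv.Perm α)) ^ j := by
      intro g
      rw [← Nat.card_eq_fintype_card]
      let e : MulAction.fixedBy (Fin j → α) g ≃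
          (Fin j → MulAction.fixedBy α (g : Equiv.Perm α)) :=
        { toFun := fun f i => ⟨f.1 i, congrFun f.2 i⟩
          invFun := fun f => ⟨fun i => (f i).1, funext fun i => (f i).2⟩
          left_inv := fun _ => rfl
          right_inv := fun _ => rfl }
      rw [Nat.card_congr e, Nat.card_fun, Nat.card_fin]
    refine ⟨(Fintype.card (MulAction.orbitRel.Quotient G (Fin j → α)) : ℤ), ?_⟩
    simp only [π]
    rw [mul_comm, Nat.card_eq_fintype_card]
    exact_mod_cast (by rw [← Finset.sum_congr rfl fun g _ => h2 g]; exact h1)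
  have hpoly : ∀ (M : Finset ℕ) (j : ℕ),
      (Nat.card G : ℤ) ∣ ∑ g : G, π g ^ j * ∏ l ∈ M, (π g - l) := by
    intro M
    induction M using Finset.induction_on with
    | empty => intro j; simpa using hpow j
    | insert a s has ih =>
      intro j
      have e : ∀ g : G, π g ^ j * ∏ l ∈ insert a s, (π g - l) =
          π g ^ (j + 1) * ∏ l ∈ s, (π g - l) - a * (π g ^ j * ∏ l ∈ s, (π g - l)) := by
        intro g
        rw [Finset.prod_insert has]
        ring
      simp only [e, Finset.sum_sub_distrib, ← Finset.mul_sum]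
      exact dvd_sub (ih _) (Dvd.dvd.mul_left (ih _) _)
  by_cases hbig : ∃ l ∈ L, Fintype.card α ≤ l
  · obtain ⟨l, hl, hle⟩ := hbig
    rw [Finset.prod_eq_zero hl (Nat.sub_eq_zero_of_le hle)]
    exact dvd_zero _
  push Not at hbig
  have h3 := hpoly L 0
  rw [Finset.sum_eq_single (1 : G)] at h3
  · have h4 : (π 1) = Fintype.card α := by
      simp [π, Nat.card_eq_fintype_card]
    rw [pow_zero, one_mul, h4] at h3
    rw [← Int.natCast_dvd_natCast, Nat.cast_prod]
    refine h3.trans (dvd_of_eq (Finset.prod_congr rfl fun l hl => ?_))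
    rw [Nat.cast_sub (hbig l hl).le]
  · intro g _ hg
    rw [Finset.prod_eq_zero (hL g g.2 fun h => hg (Subtype.ext h)) (sub_self _), mul_zero]
  · simp

end Cfsg.Agent.S0724
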