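import Cfsg.Statements.S0728
import Mathlib

set_option autoImplicit false
open Cfsg

namespace Cfsg.Agent.S0728

set_option linter.style.haveILetI false
set_option maxHeartbeats 1600000

/-- In a sharply triply transitive group of even degree at least 6 (degree `q + 1`, `q` odd), a two-point stabiliser has at most one subgroup of order 3. -/
theorem result {α : Type*} [Fintype α] [DecidableEq α] (heven : Even (Fintype.card α)) (h6 : 6 ≤ Fintype.card α) (G : Subgroup (Equiv.Perm α)) (h3 : MulAction.IsMultiplyPretransitive G α 3) (hsharp : ∀ x : Fin 3 ↪ α, MulAction.stabilizer G x = ⊥) {a b : α} (hab : a ≠ b) (A B : Subgroup G) (hA : A ≤ MulAction.stabilizer G a ⊓ MulAction.stabilizer G b) (hB : B ≤ MulAction.stabilizer G a ⊓ MulAction.stabilizer G b) (hA3 : Nat.card A = 3) (hB3 : Nat.card B = 3) : A = B := by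
  classical
  set n := Fintype.card α with hn
  have key : ∀ (g : G) (x y z : α), x ≠ y → x ≠ z → y ≠ z → g • x = x → g • y = y → g • z = z → g = 1 := by
    intro g x y z hxy hxz hyz hx hy hz
    let e : Fin 3 ↪ α := ⟨![x, y, z], by
      intro i j hij
      fin_cases i <;> fin_cases j <;> simp_all⟩
    have : g ∈ MulAction.stabilizer G e := Function.Embedding.ext fun i => by
      show g • e i = e i
      fin_cases i <;> assumption
    rw [hsharp e] at this
    exact Subgroup.mem_bot.1 this
  haveI : Fact (Nat.Prime 3) := ⟨Nat.prime_three⟩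
  -- every element of order three fixes exactly two points
  obtain ⟨u, hu⟩ := exists_prime_orderOf_dvd_card' (G := A) 3 (by rw [hA3])
  have hu' : orderOf (u : G) = 3 := by rw [Subgroup.orderOf_coe, hu]
  have hmod : ∀ g : G, orderOf g = 3 → Nat.card (MulAction.fixedBy α g) % 3 = n % 3 := by
    intro g hg
    have hp : IsPGroup 3 (Subgroup.zpowers g) := IsPGroup.of_card (n := 1) (by rw [Nat.card_zpowers, hg, pow_one])
    have h := hp.card_modEq_card_fixedPoints α
    have he : MulAction.fixedPoints (Subgroup.zpowers g) α = MulAction.fixedBy α g := by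
      ext x
      refine ⟨fun h => h ⟨g, Subgroup.mem_zpowers g⟩, fun h => ?_⟩
      rintro ⟨u, i, rfl⟩
      exact MulAction.fixedBy_subset_fixedBy_zpow α g i h
    rw [he, Nat.card_eq_fintype_card (α := α)] at h
    exact h.symm
  have hle : ∀ g : G, orderOf g = 3 → Nat.card (MulAction.fixedBy α g) ≤ 2 := by
    intro g hg
    by_contra hh
    push Not at hh
    rw [Nat.card_eq_fintype_card] at hh
    obtain ⟨x, y, z, hxy, hxz, hyz⟩ := Fintype.two_lt_card_iff.1 hh
    have := key g x y z (Subtype.coe_injective.ne hxy) (Subtype.coe_injective.ne hxz) (Subtype.coe_injective.ne hyz) x.2 y.2 z.2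
    rw [this, orderOf_one] at hg
    omega
  have hn3 : n % 3 = 2 := by
    have h1 := hmod _ hu'
    have h2 := hle _ hu'
    have h3 : 2 ≤ Nat.card (MulAction.fixedBy α (u : G)) := by
      rw [Nat.card_eq_fintype_card]
      exact Fintype.one_lt_card_iff.2 ⟨⟨a, (hA u.2).1⟩, ⟨b, (hA u.2).2⟩, fun e => hab (congrArg Subtype.val e)⟩
    omega
  have hfix2 : ∀ g : G, orderOf g = 3 → Nat.card (MulAction.fixedBy α g) = 2 := fun g hg => by
    have := hmod g hg; have := hle g hg; omega
  let T := {g : G // orderOf g = 3}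
  -- pairs (element, moved point) are ordered triples
  have cube : ∀ g : T, ∀ x : α, (g : G) • (g : G) • (g : G) • x = x := fun g x => by
    have h3 : ((g : G) * (g : G) * (g : G)) = 1 := by
      have := pow_orderOf_eq_one (g : G)
      rwa [g.2, pow_succ, pow_succ, pow_one] at this
    rw [← mul_smul, ← mul_smul, h3, one_smul]
  let e3 : (Σ g : T, {x : α // (g : G) • x ≠ x}) → (Fin 3 ↪ α) := fun q =>
    ⟨![(q.2 : α), (q.1 : G) • (q.2 : α), (q.1 : G) • (q.1 : G) • (q.2 : α)], by
      have h0 := q.2.2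
      have h1 : (q.1 : G) • (q.1 : G) • (q.2 : α) ≠ (q.1 : G) • (q.2 : α) := fun h => h0 (smul_left_cancel _ h)
      have h2 : (q.1 : G) • (q.1 : G) • (q.2 : α) ≠ (q.2 : α) := fun h => h0 (by
        conv_rhs => rw [← cube q.1 (q.2 : α), h])
      intro i j hij
      fin_cases i <;> fin_cases j <;> simp_all [Ne.symm h0, Ne.symm h2]⟩
  have hinj : Function.Injective e3 := by
    rintro ⟨g, x⟩ ⟨g', x'⟩ h
    have hx : (x : α) = x' := congrArg (fun e : Fin 3 ↪ α => e 0) h
    have hgx : (g : G) • (x : α) = (g' : G) • (x' : α) := congrArg (fun e : Fin 3 ↪ α => e 1) h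
    have hggx : (g : G) • (g : G) • (x : α) = (g' : G) • (g' : G) • (x' : α) := congrArg (fun e : Fin 3 ↪ α => e 2) h
    have hgg : g = g' := by
      apply Subtype.ext
      have e1 : ((g' : G)⁻¹ * g) • (x : α) = x := by rw [mul_smul, hgx, inv_smul_smul, hx]
      have e2 : ((g' : G)⁻¹ * g) • ((g : G) • (x : α)) = (g : G) • (x : α) := by
        rw [mul_smul, hggx, inv_smul_smul, hgx]
      have e3' : ((g' : G)⁻¹ * g) • ((g : G) • (g : G) • (x : α)) = (g : G) • (g : G) • (x : α) := by
        rw [mul_smul, cube, inv_smul_eq_iff, hggx, hx, cube]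
      have := key _ _ _ _ (Ne.symm x.2) (fun h => x.2 (by conv_rhs => rw [← cube g (x : α), ← h]))
        (fun h => x.2 (smul_left_cancel _ h).symm) e1 e2 e3'
      exact (inv_mul_eq_one.1 this).symm
    subst hgg
    exact congrArg (Sigma.mk g) (Subtype.ext hx)
  have hsurj : Function.Surjective e3 := by
    intro e
    let e' : Fin 3 ↪ α := ⟨![e 1, e 2, e 0], by
      intro i j hij
      fin_cases i <;> fin_cases j <;> simp_all [e.injective.eq_iff]⟩
    haveI := h3
    obtain ⟨g, hg⟩ := MulAction.exists_smul_eq G e e'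
    have g0 : g • e 0 = e 1 := congrArg (fun v : Fin 3 ↪ α => v 0) hg
    have g1 : g • e 1 = e 2 := congrArg (fun v : Fin 3 ↪ α => v 1) hg
    have g2 : g • e 2 = e 0 := congrArg (fun v : Fin 3 ↪ α => v 2) hg
    have h3' : g ^ 3 = 1 := key _ (e 0) (e 1) (e 2) (e.injective.ne (by decide)) (e.injective.ne (by decide))
      (e.injective.ne (by decide))
      (by rw [pow_succ, pow_succ, pow_one, mul_smul, mul_smul, g0, g1, g2])
      (by rw [pow_succ, pow_succ, pow_one, mul_smul, mul_smul, g1, g2, g0])
      (by rw [pow_succ, pow_succ, pow_one, mul_smul, mul_smul, g2, g0, g1])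
    have hg3 : orderOf g = 3 := orderOf_eq_prime h3' fun h => by
      rw [h, one_smul] at g0
      exact absurd (e.injective g0) (by decide)
    refine ⟨⟨⟨g, hg3⟩, ⟨e 0, by rw [g0]; exact e.injective.ne (by decide)⟩⟩, Function.Embedding.ext fun i => ?_⟩
    fin_cases i
    · rfl
    · exact g0
    · show g • g • e 0 = e 2
      rw [g0, g1]
  have hmov : ∀ g : T, Nat.card {x : α // (g : G) • x ≠ x} = n - 2 := by
    intro g
    rw [Nat.card_eq_fintype_card, Fintype.card_subtype_compl, ← hn]
    have := hfix2 g g.2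
    rw [Nat.card_eq_fintype_card] at this
    congr 1
  have hA' : Nat.card T * (n - 2) = n * (n - 1) * (n - 2) := by
    have h := Nat.card_congr (Equiv.ofBijective e3 ⟨hinj, hsurj⟩)
    rw [Nat.card_sigma, Finset.sum_congr rfl fun g _ => hmov g, Finset.sum_const, Finset.card_univ,
      ← Nat.card_eq_fintype_card, smul_eq_mul, Nat.card_eq_fintype_card (α := Fin 3 ↪ α), Fintype.card_embedding_eq,
      Fintype.card_fin] at h
    rw [h, ← hn]
    simp [Nat.descFactorial]
    ring
  -- pairs (element, ordered pair of fixed points)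
  let Fx : α × α → Type _ := fun q => {g : T // (g : G) • q.1 = q.1 ∧ (g : G) • q.2 = q.2}
  have hconst : ∀ q : {q : α × α // q.1 ≠ q.2}, Nat.card (Fx q.1) = Nat.card (Fx (a, b)) := by
    rintro ⟨⟨x, y⟩, hxy⟩
    have h2 : MulAction.IsMultiplyPretransitive G α 2 := by
      haveI := h3
      exact MulAction.isMultiplyPretransitive_of_le (n := 3) (by norm_num) (by rw [Nat.card_eq_fintype_card]; omega)
    obtain ⟨g, g1, g2⟩ := (MulAction.is_two_pretransitive_iff (G := G) (α := α)).1 h2 hxy hab
    have conjord : ∀ (g h : G), orderOf (g * h * g⁻¹) = orderOf h := fun g h => by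
      rw [← MulAut.conj_apply, MulEquiv.orderOf_eq]
    exact Nat.card_congr
      { toFun := fun h => ⟨⟨g * (h.1 : G) * g⁻¹, by rw [conjord]; exact h.1.2⟩,
          by show (g * (h.1 : G) * g⁻¹) • a = a
             rw [mul_smul, mul_smul, ← g1, inv_smul_smul, h.2.1],
          by show (g * (h.1 : G) * g⁻¹) • b = b
             rw [mul_smul, mul_smul, ← g2, inv_smul_smul, h.2.2]⟩
        invFun := fun h => ⟨⟨g⁻¹ * (h.1 : G) * g, by
            have := conjord g⁻¹ (h.1 : G)
            rw [inv_inv] at this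
            rw [this]; exact h.1.2⟩,
          by show (g⁻¹ * (h.1 : G) * g) • x = x
             rw [mul_smul, mul_smul, g1, h.2.1, ← g1, inv_smul_smul],
          by show (g⁻¹ * (h.1 : G) * g) • y = y
             rw [mul_smul, mul_smul, g2, h.2.2, ← g2, inv_smul_smul]⟩
        left_inv := fun h => Subtype.ext (Subtype.ext (by show g⁻¹ * (g * (h.1 : G) * g⁻¹) * g = (h.1 : G); group))
        right_inv := fun h => Subtype.ext (Subtype.ext (by show g * (g⁻¹ * (h.1 : G) * g) * g⁻¹ = (h.1 : G); group)) }
  let swap : (Σ g : T, {q : {q : α × α // q.1 ≠ q.2} // (g : G) • q.1.1 = q.1.1 ∧ (g : G) • q.1.2 = q.1.2}) ≃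
      (Σ q : {q : α × α // q.1 ≠ q.2}, Fx q.1) :=
    { toFun := fun z => ⟨z.2.1, ⟨z.1, z.2.2⟩⟩
      invFun := fun z => ⟨z.2.1, ⟨z.1, z.2.2⟩⟩
      left_inv := fun _ => rfl
      right_inv := fun _ => rfl }
  have hpairs : ∀ g : T, Nat.card {q : {q : α × α // q.1 ≠ q.2} // (g : G) • q.1.1 = q.1.1 ∧ (g : G) • q.1.2 = q.1.2} = 2 := by
    intro g
    rw [Nat.card_congr (β := {q : MulAction.fixedBy α (g : G) × MulAction.fixedBy α (g : G) // q.1 ≠ q.2})
      { toFun := fun q => ⟨(⟨q.1.1.1, q.2.1⟩, ⟨q.1.1.2, q.2.2⟩), fun h => q.1.2 (congrArg Subtype.val h)⟩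
        invFun := fun q => ⟨⟨(q.1.1.1, q.1.2.1), fun h => q.2 (Subtype.ext h)⟩, q.1.1.2, q.1.2.2⟩
        left_inv := fun _ => rfl
        right_inv := fun _ => rfl }]
    have h2 := hfix2 g g.2
    rw [Nat.card_eq_fintype_card] at h2
    rw [Nat.card_eq_fintype_card, Fintype.card_subtype_compl, Fintype.card_prod, h2]
    have : Fintype.card {q : MulAction.fixedBy α (g : G) × MulAction.fixedBy α (g : G) // q.1 = q.2} = 2 := by
      rw [← h2]
      exact Fintype.card_congr
        { toFun := fun q => q.1.1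
          invFun := fun x => ⟨(x, x), rfl⟩
          left_inv := fun q => Subtype.ext (Prod.ext rfl q.2)
          right_inv := fun _ => rfl }
    omega
  have hB' : Nat.card T * 2 = n * (n - 1) * Nat.card (Fx (a, b)) := by
    have h := Nat.card_congr swap
    rw [Nat.card_sigma, Nat.card_sigma, Finset.sum_congr rfl fun g _ => hpairs g,
      Finset.sum_congr rfl fun q _ => hconst q, Finset.sum_const, Finset.sum_const, Finset.card_univ,
      Finset.card_univ, ← Nat.card_eq_fintype_card, smul_eq_mul, smul_eq_mul] at h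
    rw [h]
    congr 1
    rw [Fintype.card_subtype_compl, Fintype.card_prod, ← hn]
    have : Fintype.card {q : α × α // q.1 = q.2} = n := by
      rw [hn]
      exact Fintype.card_congr
        { toFun := fun q => q.1.1
          invFun := fun x => ⟨(x, x), rfl⟩
          left_inv := fun q => Subtype.ext (Prod.ext rfl q.2)
          right_inv := fun _ => rfl }
    rw [this, Nat.mul_sub_one]
  have hm : Nat.card (Fx (a, b)) = 2 := by
    have h1 : Nat.card T = n * (n - 1) := Nat.eq_of_mul_eq_mul_right (by omega) hA'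
    rw [h1] at hB'
    exact (Nat.eq_of_mul_eq_mul_left (Nat.mul_pos (by omega) (by omega)) hB').symm
  -- two subgroups of order three share their elements of order three
  have hall : ∀ (C : Subgroup G), C ≤ MulAction.stabilizer G a ⊓ MulAction.stabilizer G b → Nat.card C = 3 →
      ∀ g : G, orderOf g = 3 → g • a = a → g • b = b → g ∈ C := by
    intro C hC hC3 g hg ga gb
    let ι : {c : C // c ≠ 1} → Fx (a, b) := fun c =>
      ⟨⟨(c.1 : G), orderOf_eq_prime (congrArg Subtype.val (show c.1 ^ 3 = 1 by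
        have := pow_card_eq_one' (x := c.1); rwa [hC3] at this)) fun h => c.2 (Subtype.ext h)⟩, (hC c.1.2).1, (hC c.1.2).2⟩
    have hι : Function.Injective ι := fun c d h => by
      exact Subtype.ext (Subtype.ext (congrArg (fun z : Fx (a, b) => ((z.1 : T) : G)) h))
    have hc2 : Nat.card {c : C // c ≠ 1} = 2 := by
      rw [Nat.card_eq_fintype_card, Fintype.card_subtype_compl, Fintype.card_subtype_eq, ← Nat.card_eq_fintype_card, hC3]
    have hb : Function.Bijective ι := (Nat.bijective_iff_injective_and_card ι).2 ⟨hι, by rw [hc2, hm]⟩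
    obtain ⟨c, hc⟩ := hb.2 ⟨⟨g, hg⟩, ga, gb⟩
    have := congrArg (fun z : Fx (a, b) => ((z.1 : T) : G)) hc
    exact (show ((c.1 : C) : G) = g from this) ▸ c.1.2
  have hle' : ∀ (C D : Subgroup G), C ≤ MulAction.stabilizer G a ⊓ MulAction.stabilizer G b →
      D ≤ MulAction.stabilizer G a ⊓ MulAction.stabilizer G b → Nat.card C = 3 → Nat.card D = 3 → C ≤ D := by
    intro C D hC hD hC3 hD3 c hc
    by_cases h1 : c = 1
    · rw [h1]; exact D.one_mem
    refine hall D hD hD3 c (orderOf_eq_prime ?_ h1) (hC hc).1 (hC hc).2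
    have := pow_card_eq_one' (x := (⟨c, hc⟩ : C))
    rw [hC3] at this
    exact congrArg Subtype.val this
  exact le_antisymm (hle' A B hA hB hA3 hB3) (hle' B A hB hA hB3 hA3)

end Cfsg.Agent.S0728
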