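import Cfsg.Statements.S0733
import Mathlib

set_option autoImplicit false
open Cfsg

namespace Cfsg.Agent.S0733

open scoped Pointwise

/-- A permutation group of affine type — generated by the translations of a finite vector space `V` over `ZMod p` together with a group `G₀` of linear automorphisms — is primitive on `V` if and only if `G₀` is irreducible on `V`. -/
theorem result {p : ℕ} [Fact p.Prime] {V : Type*} [AddCommGroup V] [Module (ZMod p) V] [Finite V] [Nontrivial V] (G₀ : Subgroup (V ≃ₗ[ZMod p] V)) (G : Subgroup (Equiv.Perm V)) (hG : ∀ σ : Equiv.Perm V, σ ∈ G ↔ ∃ g ∈ G₀, ∃ b : V, ∀ x : V, σ x = (g : V ≃ₗ[ZMod p] V) x + b) : MulAction.IsPreprimitive G V ↔ ∀ W : Submodule (ZMod p) V, (∀ g ∈ G₀, ∀ v ∈ W, (g : V ≃ₗ[ZMod p] V) v ∈ W) → W = ⊥ ∨ W = ⊤ := by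
  classical
  have htrans : MulAction.IsPretransitive G V := ⟨fun x y => ⟨⟨Equiv.addRight (y - x), (hG _).2
    ⟨1, G₀.one_mem, y - x, fun z => rfl⟩⟩, by show x + (y - x) = y; abel⟩⟩
  constructor
  · intro hp W hW
    have hB : MulAction.IsBlock G (W : Set V) := by
      rw [MulAction.isBlock_iff_smul_eq_or_disjoint]
      rintro ⟨σ, hσ⟩
      obtain ⟨g, hg, b, hb⟩ := (hG σ).1 hσ
      have himg : (⟨σ, hσ⟩ : G) • (W : Set V) = {v | v - b ∈ W} := by
        ext v
        simp only [Set.mem_smul_set, Set.mem_setOf_eq, SetLike.mem_coe]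
        constructor
        · rintro ⟨w, hw, rfl⟩
          show σ w - b ∈ W
          rw [hb, add_sub_cancel_right]
          exact hW g hg w hw
        · intro hv
          refine ⟨(g⁻¹ : V ≃ₗ[ZMod p] V) (v - b), hW _ (G₀.inv_mem hg) _ hv, ?_⟩
          show σ _ = v
          rw [hb, show g ((g⁻¹ : V ≃ₗ[ZMod p] V) (v - b)) = v - b from g.apply_symm_apply _, sub_add_cancel]
      rw [himg]
      by_cases hbW : b ∈ W
      · left
        ext v
        exact ⟨fun h => by simpa using W.add_mem h hbW, fun h => W.sub_mem h hbW⟩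
      · right
        rw [Set.disjoint_left]
        intro v hv hv'
        exact hbW (by simpa using W.sub_mem hv' hv)
    rcases hp.isTrivialBlock_of_isBlock hB with h | h
    · left
      rw [Submodule.eq_bot_iff]
      exact fun w hw => h hw W.zero_mem
    · right
      exact SetLike.coe_injective h
  · intro hirr
    refine MulAction.IsPreprimitive.of_isTrivialBlock_base (0 : V) fun {B} h0 hB => ?_
    have hst : ∀ σ : G, ∀ x ∈ B, σ • x ∈ B → σ • B = B := by
      intro σ x hx hσx
      rcases MulAction.isBlock_iff_smul_eq_or_disjoint.1 hB σ with h | h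
      · exact h
      · exact absurd hσx (Set.disjoint_left.1 h (Set.smul_mem_smul_set hx))
    have hadd : ∀ x ∈ B, ∀ y ∈ B, x + y ∈ B := by
      intro x hx y hy
      have h1 : (⟨Equiv.addRight y, (hG _).2 ⟨1, G₀.one_mem, y, fun z => rfl⟩⟩ : G) • B = B :=
        hst _ 0 h0 (by show (0 : V) + y ∈ B; rwa [zero_add])
      rw [← h1]
      exact ⟨x, hx, rfl⟩
    let W : Submodule (ZMod p) V :=
      { carrier := B
        add_mem' := fun hx hy => hadd _ hx _ hy
        zero_mem' := h0
        smul_mem' := fun c x hx => by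
          rw [← ZMod.natCast_zmod_val c, Nat.cast_smul_eq_nsmul]
          generalize c.val = k
          induction k with
          | zero => rw [zero_nsmul]; exact h0
          | succ k ih => rw [succ_nsmul]; exact hadd _ ih _ hx }
    have hinv : ∀ g ∈ G₀, ∀ v ∈ W, (g : V ≃ₗ[ZMod p] V) v ∈ W := by
      intro g hg v hv
      have h1 : (⟨g.toEquiv, (hG _).2 ⟨g, hg, 0, fun z => (add_zero _).symm⟩⟩ : G) • B = B :=
        hst _ 0 h0 (by show g 0 ∈ B; rwa [map_zero])
      show g v ∈ B
      rw [← h1]
      exact ⟨v, hv, rfl⟩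
    rcases hirr W hinv with h | h
    · left
      intro x hx y hy
      have hx' : x ∈ W := hx
      have hy' : y ∈ W := hy
      rw [h, Submodule.mem_bot] at hx' hy'
      rw [hx', hy']
    · right
      exact congrArg (fun U : Submodule (ZMod p) V => (U : Set V)) h

end Cfsg.Agent.S0733
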