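import Cfsg.Statements.S0734


set_option autoImplicit false
open Cfsg

namespace Cfsg.Agent.S0734

open scoped Pointwise

/-- Higman's criterion for primitivity: a transitive action on a finite set is primitive if and only if every non-trivial orbital graph (edges = images of a fixed pair of distinct points) is connected. -/
theorem result {G : Type*} [Group G] {Ω : Type*} [Finite Ω] [MulAction G Ω] [MulAction.IsPretransitive G Ω] [Nontrivial Ω] : MulAction.IsPreprimitive G Ω ↔ ∀ a b : Ω, a ≠ b → (SimpleGraph.fromRel fun x y : Ω => ∃ g : G, g • a = x ∧ g • b = y).Connected := by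
  constructor
  · intro hp a b hab
    let Γ : SimpleGraph Ω := SimpleGraph.fromRel fun x y : Ω => ∃ g : G, g • a = x ∧ g • b = y
    show Γ.Connected
    have hadj : ∀ (g : G) (x y : Ω), Γ.Adj x y → Γ.Adj (g • x) (g • y) := by
      intro g x y hxy
      rw [SimpleGraph.fromRel_adj] at hxy ⊢
      refine ⟨fun e => hxy.1 (MulAction.injective g e), ?_⟩
      rcases hxy.2 with ⟨h, h1, h2⟩ | ⟨h, h1, h2⟩
      · exact Or.inl ⟨g * h, by rw [mul_smul, h1], by rw [mul_smul, h2]⟩
      · exact Or.inr ⟨g * h, by rw [mul_smul, h1], by rw [mul_smul, h2]⟩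
    have hreach : ∀ (g : G) (x y : Ω), Γ.Reachable x y → Γ.Reachable (g • x) (g • y) :=
      fun g x y h => h.map ⟨(g • ·), fun {x y} h => hadj g x y h⟩
    let B : Set Ω := {x | Γ.Reachable a x}
    have hB : MulAction.IsBlock G B := by
      rw [MulAction.isBlock_iff_smul_eq_of_nonempty]
      rintro g ⟨_, ⟨x, hx, rfl⟩, hgx⟩
      have hga : Γ.Reachable a (g • a) := SimpleGraph.Reachable.trans hgx (hreach g a x hx).symm
      ext y
      rw [Set.mem_smul_set_iff_inv_smul_mem]
      constructor
      · intro hy
        have := hreach g _ _ hy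
        rw [smul_inv_smul] at this
        exact hga.trans this
      · intro hy
        have := hreach g⁻¹ _ _ (hga.symm.trans hy)
        rwa [inv_smul_smul] at this
    have huniv : B = Set.univ := by
      rcases hp.isTrivialBlock_of_isBlock hB with h1 | h1
      · have hb : b ∈ B := SimpleGraph.Adj.reachable (by
          rw [SimpleGraph.fromRel_adj]
          exact ⟨hab, Or.inl ⟨1, one_smul _ _, one_smul _ _⟩⟩)
        exact absurd (h1 (SimpleGraph.Reachable.refl a) hb) hab
      · exact h1
    have hr : ∀ x, Γ.Reachable a x := Set.eq_univ_iff_forall.1 huniv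
    haveI : Nonempty Ω := ⟨a⟩
    exact ⟨fun x y => (hr x).symm.trans (hr y)⟩
  · intro hc
    constructor
    intro B hB
    rcases B.subsingleton_or_nontrivial with h1 | ⟨a, ha, b, hb, hab⟩
    · exact Or.inl h1
    refine Or.inr (Set.eq_univ_iff_forall.2 fun y => ?_)
    let Γ : SimpleGraph Ω := SimpleGraph.fromRel fun x y : Ω => ∃ g : G, g • a = x ∧ g • b = y
    have hstep : ∀ x y, Γ.Adj x y → x ∈ B → y ∈ B := by
      intro x y hxy hx
      rw [SimpleGraph.fromRel_adj] at hxy
      rcases hxy.2 with ⟨g, h1, h2⟩ | ⟨g, h1, h2⟩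
      · have : g • B = B := hB.smul_eq_of_nonempty ⟨x, ⟨a, ha, h1⟩, hx⟩
        rw [← this, ← h2]
        exact Set.smul_mem_smul_set hb
      · have : g • B = B := hB.smul_eq_of_nonempty ⟨x, ⟨b, hb, h2⟩, hx⟩
        rw [← this, ← h1]
        exact Set.smul_mem_smul_set ha
    obtain ⟨p⟩ := (hc a b hab).preconnected a y
    have hwalk : ∀ {u v : Ω}, Γ.Walk u v → u ∈ B → v ∈ B := by
      intro u v w
      induction w with
      | nil => exact id
      | cons h _ ih => exact fun hu => ih (hstep _ _ h hu)
    exact hwalk p ha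

end Cfsg.Agent.S0734
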