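import Cfsg.Statements.S0735
import Mathlib

set_option autoImplicit false
set_option linter.style.haveILetI false
open Cfsg

namespace Cfsg.Agent.S0735

open scoped Pointwise


/-- A 2-homogeneous permutation group (transitive on 2-subsets) of even order is doubly transitive; a non-trivial 2-homogeneous group is primitive. -/
theorem result {α : Type*} [Fintype α] [DecidableEq α] (G : Subgroup (Equiv.Perm α)) (h2 : MulAction.IsPretransitive G (Set.powersetCard α 2)) (hα : 3 ≤ Fintype.card α) : (Even (Nat.card G) → MulAction.IsMultiplyPretransitive G α 2) ∧ (G ≠ ⊥ → MulAction.IsPreprimitive G α) := by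
  classical
  have pairOf : ∀ {a b : α}, a ≠ b → ∃ s : ↥(Set.powersetCard α 2), (s : Finset α) = {a, b} := fun {a b} hab =>
    ⟨⟨{a, b}, by simp [Set.powersetCard, Finset.card_pair hab]⟩, rfl⟩
  have hmove : ∀ {a b c d : α}, a ≠ b → c ≠ d → ∃ g : G, (g • a = c ∧ g • b = d) ∨ (g • a = d ∧ g • b = c) := by
    intro a b c d hab hcd
    obtain ⟨s, hs⟩ := pairOf hab
    obtain ⟨s', hs'⟩ := pairOf hcd
    obtain ⟨g, hg⟩ := MulAction.exists_smul_eq G s s'
    refine ⟨g, ?_⟩
    have h : g • ({a, b} : Finset α) = {c, d} := by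
      rw [← hs, ← hs', ← hg]; rfl
    have h1 : g • a ∈ ({c, d} : Finset α) := h ▸ Finset.smul_mem_smul_finset (by simp)
    have h2' : g • b ∈ ({c, d} : Finset α) := h ▸ Finset.smul_mem_smul_finset (by simp)
    simp only [Finset.mem_insert, Finset.mem_singleton] at h1 h2'
    rcases h1 with h1 | h1
    · exact Or.inl ⟨h1, h2'.resolve_left fun e => hab (smul_left_cancel g (h1.trans e.symm))⟩
    · exact Or.inr ⟨h1, h2'.resolve_right fun e => hab (smul_left_cancel g (h1.trans e.symm))⟩
  refine ⟨fun heven => ?_, fun _ => ?_⟩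
  · rw [MulAction.is_two_pretransitive_iff]
    intro a b c d hab hcd
    obtain ⟨t, ht⟩ := exists_prime_orderOf_dvd_card' (G := G) 2 (even_iff_two_dvd.1 heven)
    have ht1 : t ≠ 1 := fun e => by rw [e, orderOf_one] at ht; omega
    have htt : t * t = 1 := by have := pow_orderOf_eq_one t; rwa [ht, pow_two] at this
    obtain ⟨u, hu⟩ : ∃ u : α, t • u ≠ u := by
      by_contra hh
      push Not at hh
      exact ht1 (FaithfulSMul.eq_of_smul_eq_smul (α := α) fun z => by rw [hh, one_smul])
    have htu : t • t • u = u := by rw [← mul_smul, htt, one_smul]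
    have key : ∀ {c d : α}, c ≠ d → ∃ g : G, g • u = c ∧ g • (t • u) = d := by
      intro c d hcd
      obtain ⟨g, ⟨h1, h2'⟩ | ⟨h1, h2'⟩⟩ := hmove (Ne.symm hu) hcd
      · exact ⟨g, h1, h2'⟩
      · exact ⟨g * t, by rw [mul_smul, h2'], by rw [mul_smul, htu, h1]⟩
    obtain ⟨g, g1, g2⟩ := key hab
    obtain ⟨k, k1, k2⟩ := key hcd
    exact ⟨k * g⁻¹, by rw [mul_smul, ← g1, inv_smul_smul, k1], by rw [mul_smul, ← g2, inv_smul_smul, k2]⟩
  · haveI htr : MulAction.IsPretransitive G α := by
      refine ⟨fun a b => ?_⟩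
      by_cases hab : a = b
      · exact ⟨1, by rw [one_smul, hab]⟩
      obtain ⟨c, hca, hcb⟩ : ∃ c, c ≠ a ∧ c ≠ b := by
        have : ((Finset.univ.erase a).erase b).Nonempty := by
          rw [← Finset.card_pos, Finset.card_erase_of_mem (by simp [Ne.symm hab]),
            Finset.card_erase_of_mem (by simp), Finset.card_univ]
          omega
        obtain ⟨c, hc⟩ := this
        simp only [Finset.mem_erase] at hc
        exact ⟨c, hc.2.1, hc.1⟩
      obtain ⟨g, ⟨h1, h2'⟩ | ⟨h1, h2'⟩⟩ := hmove (Ne.symm hca) (Ne.symm hcb)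
      · exact ⟨g, h1⟩
      · exact ⟨g * g, by rw [mul_smul, h1, h2']⟩
    refine MulAction.IsPreprimitive.mk fun {B} hB => ?_
    by_cases hsub : B.Subsingleton
    · exact Or.inl hsub
    right
    obtain ⟨a, ha, b, hb, hab⟩ := Set.not_subsingleton_iff.1 hsub
    ext c
    simp only [Set.mem_univ, iff_true]
    by_cases hca : c = a
    · rw [hca]; exact ha
    obtain ⟨g, ⟨h1, h2'⟩ | ⟨h1, h2'⟩⟩ := hmove hab (Ne.symm hca)
    all_goals
      have hgB : g • B = B := by
        rcases hB.smul_eq_or_disjoint g with e | e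
        · exact e
        · exfalso
          have hmem : a ∈ g • B := by
            first | exact ⟨a, ha, h1⟩ | exact ⟨b, hb, h2'⟩
          exact Set.disjoint_left.1 e hmem ha
      rw [← hgB]
      first | exact ⟨b, hb, h2'⟩ | exact ⟨a, ha, h1⟩

end Cfsg.Agent.S0735
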