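import Cfsg.Statements.S0736
import Mathlib

set_option autoImplicit false
open Cfsg
open scoped Pointwise

namespace Cfsg.Agent.S0736


theorem pred_mul_div_mod {p m : ℕ} (hp : 0 < p) (hm : 0 < m) :
    (m * p - 1) % p = p - 1 ∧ (m * p - 1) / p = m - 1 := by
  obtain ⟨m, rfl⟩ := Nat.exists_eq_succ_of_ne_zero hm.ne'
  have e : (m + 1) * p - 1 = p - 1 + p * m := by rw [add_mul, one_mul, mul_comm]; omega
  rw [Nat.succ_eq_add_one, e, Nat.add_mul_mod_self_left, Nat.add_mul_div_left _ _ hp,
    Nat.mod_eq_of_lt (by omega), Nat.div_eq_of_lt (by omega)]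
  simp

theorem choose_modEq {p : ℕ} [Fact p.Prime] (e c : ℕ) (hc : 0 < c) :
    Nat.choose ((c + 1) * p ^ e - 1) (c * p ^ e - 1) ≡ c [MOD p] := by
  have hp := (Fact.out : p.Prime)
  induction e with
  | zero =>
    simp only [pow_zero, mul_one, Nat.add_sub_cancel]
    rw [← Nat.choose_symm (Nat.sub_le c 1), show c - (c - 1) = 1 by omega, Nat.choose_one_right]
  | succ e ih =>
    refine Choose.choose_modEq_choose_mod_mul_choose_div_nat.trans ?_
    rw [pow_succ, ← mul_assoc, ← mul_assoc,
      (pred_mul_div_mod hp.pos (Nat.mul_pos (Nat.succ_pos c) (Nat.pow_pos hp.pos))).1,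
      (pred_mul_div_mod hp.pos (Nat.mul_pos hc (Nat.pow_pos hp.pos))).1,
      (pred_mul_div_mod hp.pos (Nat.mul_pos (Nat.succ_pos c) (Nat.pow_pos hp.pos))).2,
      (pred_mul_div_mod hp.pos (Nat.mul_pos hc (Nat.pow_pos hp.pos))).2, Nat.choose_self, one_mul]
    exact ih


/-- A `k`-homogeneous permutation group of degree `n`, `k ≥ 2`, with `k + q - 1 ≤ n` for every prime power `q` dividing `k`, is `(k-1)`-homogeneous. -/
theorem result {α : Type*} [Fintype α] [DecidableEq α] (G : Subgroup (Equiv.Perm α)) {k : ℕ} (hk : 2 ≤ k) (hG : MulAction.IsPretransitive G (Set.powersetCard α k)) (hq : ∀ q : ℕ, IsPrimePow q → q ∣ k → k + q - 1 ≤ Fintype.card α) : MulAction.IsPretransitive G (Set.powersetCard α (k - 1)) := by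
  classical
  set n := Fintype.card α with hn
  have hkn : k ≤ n := by
    have hp := Nat.minFac_prime (show k ≠ 1 by omega)
    have := hq _ hp.isPrimePow (Nat.minFac_dvd k)
    have := hp.two_le
    omega
  refine ⟨fun A B => ?_⟩
  -- the orbit of `A`
  let X : Finset α → Prop := fun S => ∃ g : G, (A : Finset α).image (fun x => g • x) = S
  have hX : ∀ (g : G) (S : Finset α), X S → X (S.image fun x => g • x) := by
    rintro g S ⟨g', rfl⟩
    exact ⟨g * g', by simp only [Finset.image_image, Function.comp_def, mul_smul]⟩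
  set cnt : Finset α → ℕ := fun T => ((T.powersetCard (k - 1)).filter X).card with hcnt
  have hle : ∀ (g : G) (T : Finset α), cnt T ≤ cnt (T.image fun x => g • x) := by
    intro g T
    refine Finset.card_le_card_of_injOn (fun S => S.image fun x => g • x) (fun S hS => ?_)
      ((Finset.image_injective (MulAction.injective g)).injOn)
    rw [Finset.mem_coe, Finset.mem_filter, Finset.mem_powersetCard] at hS ⊢
    exact ⟨⟨Finset.image_subset_image hS.1.1, by rw [Finset.card_image_of_injective _ (MulAction.injective g), hS.1.2]⟩,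
      hX g S hS.2⟩
  have hconst : ∀ T T' : Finset α, T.card = k → T'.card = k → cnt T = cnt T' := by
    have h1 : ∀ T T' : Finset α, T.card = k → T'.card = k → cnt T ≤ cnt T' := by
      intro T T' hT hT'
      obtain ⟨g, hg⟩ := hG.exists_smul_eq ⟨T, hT⟩ ⟨T', hT'⟩
      have : T.image (fun x => g • x) = T' := by
        rw [← Finset.smul_finset_def]
        exact congrArg Subtype.val hg
      exact this ▸ hle g T
    exact fun T T' hT hT' => le_antisymm (h1 T T' hT hT') (h1 T' T hT' hT)
  obtain ⟨T₀, hAT, -, hT₀⟩ := Finset.exists_subsuperset_card_eq (Finset.subset_univ (A : Finset α))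
    (show (A : Finset α).card ≤ k by rw [Set.powersetCard.card_eq]; omega) (by rw [Finset.card_univ]; exact hkn)
  set a := cnt T₀ with ha
  have hapos : 0 < a := Finset.card_pos.mpr ⟨A, Finset.mem_filter.mpr
    ⟨Finset.mem_powersetCard.mpr ⟨hAT, Set.powersetCard.card_eq A⟩, 1, by simp⟩⟩
  have hale : a ≤ k := by
    refine (Finset.card_filter_le _ _).trans ?_
    rw [Finset.card_powersetCard, hT₀, ← Nat.choose_symm (Nat.sub_le k 1), show k - (k - 1) = 1 by omega,
      Nat.choose_one_right]
  have hdvd : ∀ u, k ≤ u → u ≤ n → k ∣ a * Nat.choose u (k - 1) := by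
    intro u hu hun
    obtain ⟨U, -, hU⟩ := Finset.exists_subset_card_eq (s := (Finset.univ : Finset α)) (n := u) (by rw [Finset.card_univ]; exact hun)
    have h1 := Finset.sum_card_bipartiteAbove_eq_sum_card_bipartiteBelow (r := fun S T => S ⊆ T)
      (s := (U.powersetCard (k - 1)).filter X) (t := U.powersetCard k)
    have h2 : ∀ T ∈ U.powersetCard k, (Finset.bipartiteBelow (fun S T => S ⊆ T) ((U.powersetCard (k - 1)).filter X) T).card = a := by
      intro T hT
      rw [Finset.mem_powersetCard] at hT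
      rw [ha, ← hconst T T₀ hT.2 hT₀, hcnt]
      congr 1
      ext S
      simp only [Finset.bipartiteBelow, Finset.mem_filter, Finset.mem_powersetCard]
      exact ⟨fun h => ⟨⟨h.2, h.1.1.2⟩, h.1.2⟩, fun h => ⟨⟨⟨h.1.1.trans hT.1, h.1.2⟩, h.2⟩, h.1.1⟩⟩
    have h3 : ∀ S ∈ (U.powersetCard (k - 1)).filter X, (Finset.bipartiteAbove (fun S T => S ⊆ T) (U.powersetCard k) S).card = u - (k - 1) := by
      intro S hS
      rw [Finset.mem_filter, Finset.mem_powersetCard] at hS
      rw [← hU, ← hS.1.2, ← Finset.card_sdiff_of_subset hS.1.1]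
      symm
      refine Finset.card_bij (fun x _ => insert x S) (fun x hx => ?_) (fun x hx y hy e => ?_) (fun T hT => ?_)
      · rw [Finset.mem_sdiff] at hx
        simp only [Finset.bipartiteAbove, Finset.mem_filter, Finset.mem_powersetCard]
        exact ⟨⟨Finset.insert_subset hx.1 hS.1.1, by rw [Finset.card_insert_of_notMem hx.2, hS.1.2]; omega⟩,
          Finset.subset_insert _ _⟩
      · have hm : x ∈ insert y S := e ▸ Finset.mem_insert_self x S
        rcases Finset.mem_insert.mp hm with h | h
        · exact h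
        · exact absurd h (Finset.mem_sdiff.mp hx).2
      · simp only [Finset.bipartiteAbove, Finset.mem_filter, Finset.mem_powersetCard] at hT
        obtain ⟨x, hx⟩ := Finset.card_eq_one.mp (show (T \ S).card = 1 by
          rw [Finset.card_sdiff_of_subset hT.2, hT.1.2, hS.1.2]; omega)
        have hx' : x ∈ T ∧ x ∉ S := Finset.mem_sdiff.mp (hx ▸ Finset.mem_singleton_self x)
        refine ⟨x, Finset.mem_sdiff.mpr ⟨hT.1.1 hx'.1, hx'.2⟩, ?_⟩
        rw [Finset.insert_eq, ← hx, Finset.sdiff_union_of_subset hT.2]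
    rw [Finset.sum_congr rfl h2, Finset.sum_congr rfl h3, Finset.sum_const, Finset.sum_const, smul_eq_mul, smul_eq_mul,
      Finset.card_powersetCard, hU] at h1
    refine ⟨((U.powersetCard (k - 1)).filter X).card, Nat.eq_of_mul_eq_mul_right (show 0 < u - (k - 1) by omega) ?_⟩
    have h4 := Nat.choose_succ_right_eq u (k - 1)
    rw [show k - 1 + 1 = k by omega] at h4
    calc a * u.choose (k - 1) * (u - (k - 1)) = u.choose k * a * k := by rw [mul_assoc, ← h4]; ring
      _ = _ := by rw [← h1]; ring
  have hka : k ∣ a := by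
    rw [Nat.dvd_iff_prime_pow_dvd_dvd]
    intro p e hp hpe
    obtain ⟨p', hp'⟩ : ∃ p', p' = p := ⟨p, rfl⟩
    have hfact := Fact.mk hp
    obtain ⟨e', c, hc, rfl⟩ := Nat.exists_eq_pow_mul_and_not_dvd (show k ≠ 0 by omega) p hp.ne_one
    rcases Nat.eq_zero_or_pos e' with h0 | h0
    · subst h0
      rw [pow_zero, one_mul] at hpe
      rcases Nat.eq_zero_or_pos e with h | h
      · rw [h, pow_zero]; exact one_dvd _
      · exact absurd ((dvd_pow_self p h.ne').trans hpe) hc
    have hee : e ≤ e' := by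
      by_contra h
      push Not at h
      obtain ⟨d, hd⟩ := (pow_dvd_pow p h).trans hpe
      rw [pow_succ, mul_assoc] at hd
      exact hc ⟨d, Nat.eq_of_mul_eq_mul_left (Nat.pow_pos hp.pos) hd⟩
    refine (pow_dvd_pow p hee).trans ?_
    have hu : p ^ e' * c + p ^ e' - 1 ≤ n := hq _ (hp.isPrimePow.pow h0.ne') (Dvd.intro c rfl)
    have h1 := hdvd (p ^ e' * c + p ^ e' - 1) (by have := Nat.pow_pos (n := e') hp.pos; omega) hu
    refine Nat.Coprime.dvd_of_dvd_mul_right (Nat.Coprime.pow_left _ (hp.coprime_iff_not_dvd.mpr ?_))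
      ((Dvd.intro c rfl).trans h1)
    have hc0 : 0 < c := Nat.pos_of_ne_zero fun h => hc (h ▸ dvd_zero p)
    intro hd
    have h2 := choose_modEq (p := p) e' c hc0
    rw [add_mul, one_mul, mul_comm c] at h2
    exact hc (h2.dvd_iff dvd_rfl |>.mp hd)
  have hak : a = k := le_antisymm hale (Nat.le_of_dvd hapos hka)
  obtain ⟨T, hBT, -, hT⟩ := Finset.exists_subsuperset_card_eq (Finset.subset_univ (B : Finset α))
    (show (B : Finset α).card ≤ k by rw [Set.powersetCard.card_eq]; omega) (by rw [Finset.card_univ]; exact hkn)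
  have hfull : (T.powersetCard (k - 1)).filter X = T.powersetCard (k - 1) := by
    refine Finset.eq_of_subset_of_card_le (Finset.filter_subset _ _) ?_
    rw [show ((T.powersetCard (k - 1)).filter X).card = k from (hconst T T₀ hT hT₀).trans hak,
      Finset.card_powersetCard, hT, ← Nat.choose_symm (Nat.sub_le k 1), show k - (k - 1) = 1 by omega,
      Nat.choose_one_right]
  obtain ⟨g, hg⟩ := (Finset.mem_filter.mp (hfull.symm ▸ Finset.mem_powersetCard.mpr ⟨hBT, Set.powersetCard.card_eq B⟩)).2
  exact ⟨g, Subtype.ext (show g • (A : Finset α) = B by rw [Finset.smul_finset_def]; exact hg)⟩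

end Cfsg.Agent.S0736
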