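import Cfsg.Statements.S0738
import Mathlib
import Cfsg.Agent.S0144

set_option autoImplicit false
open Cfsg

namespace Cfsg.Agent.S0738

set_option linter.style.haveILetI false
open scoped commutatorElement

/-- Let a finite Zassenhaus group of degree `n + 1` have two-point stabilisers of order `d` with `2d ≥ n - 1`. Then a normal subgroup of a point stabiliser acting regularly on the remaining points is elementary abelian, and the degree is a prime power plus one. -/
theorem result {G Ω : Type*} [Group G] [Finite G] [MulAction G Ω] [Fintype Ω] (hZ : Cfsg.IsZassenhausGroup G Ω) {a b : Ω} (hab : a ≠ b) (hd : Fintype.card Ω - 2 ≤ 2 * Nat.card ↥(MulAction.stabilizer G a ⊓ MulAction.stabilizer G b)) (F : Subgroup G) (hFle : F ≤ MulAction.stabilizer G a) (hFn : (F.subgroupOf (MulAction.stabilizer G a)).Normal) (hreg : ∀ y z : Ω, y ≠ a → z ≠ a → ∃! u : F, (u : G) • y = z) : IsMulCommutative F ∧ ∃ p f : ℕ, p.Prime ∧ (∀ u ∈ F, u ^ p = 1) ∧ Fintype.card Ω = p ^ f + 1 := by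
  classical
  haveI := Fintype.ofFinite G
  obtain ⟨-, -, hthree, -, -⟩ := hZ
  set H := MulAction.stabilizer G a ⊓ MulAction.stabilizer G b with hH
  set d := Nat.card H with hd'
  have hFfix : ∀ u : F, (u : G) • a = a := fun u => hFle u.2
  have hbij : Function.Bijective fun u : F => (⟨(u : G) • b, fun e => hab (by
      have := congrArg (fun z => (u : G)⁻¹ • z) e
      simp only [inv_smul_smul] at this
      rw [inv_smul_eq_iff.2 (hFfix u).symm] at this
      exact this.symm)⟩ : {z : Ω // z ≠ a}) := by
    refine ⟨fun u v h => ?_, fun z => ?_⟩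
    · obtain ⟨w, -, hw⟩ := hreg b ((u : G) • b) (Ne.symm hab) (fun e => hab (by
        have := congrArg (fun z => (u : G)⁻¹ • z) e
        simp only [inv_smul_smul] at this
        rw [inv_smul_eq_iff.2 (hFfix u).symm] at this
        exact this.symm))
      exact (hw u rfl).trans (hw v (congrArg Subtype.val h).symm).symm
    · obtain ⟨u, hu, -⟩ := hreg b z (Ne.symm hab) z.2
      exact ⟨u, Subtype.ext hu⟩
  have hn : Nat.card F = Fintype.card Ω - 1 := by
    rw [Nat.card_eq_of_bijective _ hbij, Nat.card_eq_fintype_card, Fintype.card_subtype_compl, Fintype.card_subtype_eq]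
  have hconjF : ∀ (h : H) (u : F), (h : G) * (u : G) * (h : G)⁻¹ ∈ F := fun h u =>
    Subgroup.mem_subgroupOf.1 (hFn.conj_mem (⟨(u : G), hFle u.2⟩ : MulAction.stabilizer G a)
      (Subgroup.mem_subgroupOf.2 u.2) ⟨h, h.2.1⟩)
  let c : H → F → F := fun h u => ⟨(h : G) * (u : G) * (h : G)⁻¹, hconjF h u⟩
  have hfree : ∀ (h h' : H) (u : F), u ≠ 1 → c h u = c h' u → h = h' := by
    intro h h' u hu e
    have e' : (h : G) * (u : G) * (h : G)⁻¹ = (h' : G) * (u : G) * (h' : G)⁻¹ := congrArg Subtype.val e
    set k : H := h'⁻¹ * h with hk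
    have hk' : Commute (k : G) (u : G) := by
      show (h' : G)⁻¹ * (h : G) * (u : G) = (u : G) * ((h' : G)⁻¹ * (h : G))
      calc (h' : G)⁻¹ * (h : G) * (u : G) = (h' : G)⁻¹ * ((h : G) * (u : G) * (h : G)⁻¹) * (h : G) := by group
        _ = (h' : G)⁻¹ * ((h' : G) * (u : G) * (h' : G)⁻¹) * (h : G) := by rw [e']
        _ = _ := by group
    have hz : (u : G) • b ≠ b := fun e => hu (hbij.1 (a₁ := u) (a₂ := 1) (Subtype.ext (by simp [e])))
    have hk1 : (k : G) = 1 := hthree k a b ((u : G) • b) hab (Ne.symm hz) (fun e => hab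
        (MulAction.injective (u : G) ((hFfix u).trans e))) k.2.1 k.2.2
      (by rw [← mul_smul, hk'.eq, mul_smul, show (k : G) • b = b from k.2.2])
    exact (inv_mul_eq_one.1 (show k = 1 from Subtype.ext hk1)).symm
  -- invariant subgroups
  have hbound : Fintype.card Ω - 2 ≤ 2 * d := hd
  have hinvS : ∀ S : Subgroup F, S ≠ ⊥ → (∀ (h : H) (u : F), u ∈ S → c h u ∈ S) → S = ⊤ := by
    intro S hS hinv
    by_contra htop
    obtain ⟨u, hu, hu1⟩ := (Subgroup.bot_or_exists_ne_one S).resolve_left hS
    obtain ⟨v, hv⟩ : ∃ v, v ∉ S := by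
      by_contra hall
      push Not at hall
      exact htop ((Subgroup.eq_top_iff' S).2 hall)
    have h1 : d ≤ Nat.card {x : S // x ≠ 1} := by
      refine Nat.card_le_card_of_injective (fun h => ⟨⟨c h u, hinv h u hu⟩, fun e => hu1 ?_⟩) fun h h' e =>
        hfree h h' u hu1 (congrArg (fun x : {x : S // x ≠ 1} => (x.1 : F)) e)
      have e' : (h : G) * (u : G) * (h : G)⁻¹ = 1 := congrArg (fun x : S => ((x : F) : G)) e
      exact Subtype.ext (conj_eq_one_iff.1 e')
    have h2 : d ≤ Nat.card {x : F // x ∉ S} := by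
      refine Nat.card_le_card_of_injective (fun h => ⟨c h v, fun hm => hv ?_⟩) fun h h' e =>
        hfree h h' v (fun e => hv (e ▸ S.one_mem)) (congrArg Subtype.val e)
      have := hinv h⁻¹ _ hm
      convert this using 1
      exact Subtype.ext (by simp [c, mul_assoc])
    rw [Nat.card_eq_fintype_card, Fintype.card_subtype_compl, Fintype.card_subtype_eq, ← Nat.card_eq_fintype_card] at h1
    have h2' : Nat.card {x : F // x ∉ S} = Nat.card F - Nat.card S := by
      rw [Nat.card_eq_fintype_card, Fintype.card_subtype_compl, ← Nat.card_eq_fintype_card]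
      congr 1
      exact (Nat.card_eq_fintype_card).symm
    obtain ⟨m, hm⟩ := S.card_subgroup_dvd_card
    have hdpos : 0 < d := Nat.card_pos
    have hSF : Nat.card S ≤ Nat.card F := Subgroup.card_le_card_group S
    rw [hn] at hm h2' hSF
    have e1 : Nat.card S = d + 1 := by omega
    have e2 : Fintype.card Ω - 1 = 2 * d + 1 := by omega
    rw [e1, e2] at hm
    rcases (show m = 1 ∨ 2 ≤ m ∨ m = 0 by omega) with rfl | h | rfl
    · omega
    · have := Nat.mul_le_mul_left (d + 1) h
      omega
    · omega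
  -- at most two primes divide the order, so `F` is solvable
  have hΩ : 2 ≤ Fintype.card Ω := Fintype.one_lt_card_iff.2 ⟨a, b, hab⟩
  by_cases htriv : Nat.card F = 1
  · haveI : Subsingleton F := (Nat.card_eq_one_iff_unique.1 htriv).1
    refine ⟨isMulCommutative_iff.2 fun x y => Subsingleton.elim _ _, 2, 0, Nat.prime_two, fun u hu => ?_, by rw [pow_zero]; omega⟩
    have : (⟨u, hu⟩ : F) = 1 := Subsingleton.elim _ _
    rw [show u = 1 from congrArg Subtype.val this, one_pow]
  have hcord : ∀ (h : H) (u : F), orderOf (c h u) = orderOf u := fun h u => by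
    rw [← Subgroup.orderOf_coe (c h u), ← Subgroup.orderOf_coe u]
    exact MulEquiv.orderOf_eq (MulAut.conj (h : G)) (u : G)
  have hthreeP : ∀ p q r : ℕ, p.Prime → q.Prime → r.Prime → p ∣ Nat.card F → q ∣ Nat.card F → r ∣ Nat.card F →
      p = q ∨ p = r ∨ q = r := by
    intro p q r hp hq hr dp dq dr
    by_contra hall
    push Not at hall
    obtain ⟨npq, npr, nqr⟩ := hall
    haveI : Fact p.Prime := ⟨hp⟩
    haveI : Fact q.Prime := ⟨hq⟩
    haveI : Fact r.Prime := ⟨hr⟩
    obtain ⟨x, hx⟩ := exists_prime_orderOf_dvd_card' p dp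
    obtain ⟨y, hy⟩ := exists_prime_orderOf_dvd_card' q dq
    obtain ⟨z, hz⟩ := exists_prime_orderOf_dvd_card' r dr
    let w : Fin 3 → F := ![x, y, z]
    let o : Fin 3 → ℕ := ![p, q, r]
    have hwo : ∀ i, orderOf (w i) = o i := fun i => by fin_cases i <;> assumption
    have ho1 : ∀ i, o i ≠ 1 := fun i => by fin_cases i <;> exact Nat.Prime.ne_one (by assumption)
    have hoinj : Function.Injective o := fun i j h => by
      fin_cases i <;> fin_cases j <;> simp [o] at h ⊢ <;> omega
    have h1 : Nat.card (H × Fin 3) ≤ Nat.card {u : F // u ≠ 1} := by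
      refine Nat.card_le_card_of_injective (fun q => ⟨c q.1 (w q.2), fun e => ho1 q.2 (by rw [← hwo, ← hcord q.1, e, orderOf_one])⟩) ?_
      rintro ⟨h, i⟩ ⟨h', j⟩ e
      have e' : c h (w i) = c h' (w j) := congrArg Subtype.val e
      have hij : i = j := hoinj (by rw [← hwo, ← hwo, ← hcord h, ← hcord h' (w j), e'])
      subst hij
      rw [hfree h h' (w i) (fun e0 => ho1 i (by rw [← hwo, e0, orderOf_one])) e']
    rw [Nat.card_prod, Nat.card_fin, Nat.card_eq_fintype_card (α := {u : F // u ≠ 1}), Fintype.card_subtype_compl,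
      Fintype.card_subtype_eq, ← Nat.card_eq_fintype_card, hn] at h1
    have hdpos : 0 < d := Nat.card_pos
    omega
  obtain ⟨p, hp, hpd⟩ := Nat.exists_prime_and_dvd htriv
  haveI : Fact p.Prime := ⟨hp⟩
  haveI : Group.IsSolvable F := by
    set n := Nat.card F with hnF
    have hn0 : n ≠ 0 := Nat.card_pos.ne'
    set m := n / p ^ n.factorization p with hm
    have hnm : n = p ^ n.factorization p * m := (Nat.ordProj_mul_ordCompl_eq_self n p).symm
    by_cases hm1 : m = 1
    · exact Cfsg.Agent.S0144.result p 2 (n.factorization p) 0 hp Nat.prime_two (by rw [pow_zero]; rw [hm1] at hnm; exact hnm)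
    obtain ⟨q, hq, hqd⟩ := Nat.exists_prime_and_dvd hm1
    have hqp : q ≠ p := fun e => by rw [e] at hqd; exact Nat.not_dvd_ordCompl hp hn0 hqd
    have hall : ∀ {r : ℕ}, r.Prime → r ∣ m → r = q := by
      intro r hr hrd
      have hrp : r ≠ p := fun e => by rw [e] at hrd; exact Nat.not_dvd_ordCompl hp hn0 hrd
      rcases hthreeP p q r hp hq hr hpd (hqd.trans (Nat.ordCompl_dvd n p)) (hrd.trans (Nat.ordCompl_dvd n p)) with e | e | e
      · exact absurd e.symm hqp
      · exact absurd e.symm hrp
      · exact e.symm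
    have hmq := Nat.eq_prime_pow_of_unique_prime_dvd (Nat.ordCompl_pos p hn0).ne' @hall
    exact Cfsg.Agent.S0144.result p q _ _ hp hq (by rw [← hmq]; exact hnm)
  haveI : Nontrivial F := Finite.one_lt_card_iff_nontrivial.1 (by have := Nat.card_pos (α := F); omega)
  have hcomm : commutator F = ⊥ := by
    by_contra hne
    refine (Group.IsSolvable.commutator_lt_top_of_nontrivial F).ne (hinvS _ hne fun h u hu => ?_)
    let ch : F →* F := { toFun := c h, map_one' := Subtype.ext (by simp [c]), map_mul' := fun u v => Subtype.ext (by simp [c, mul_assoc]) }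
    have hmap : (commutator F).map ch ≤ commutator F := by
      rw [commutator_def, Subgroup.map_commutator]
      exact Subgroup.commutator_mono le_top le_top
    exact hmap (Subgroup.mem_map_of_mem ch hu)
  haveI hab' : IsMulCommutative F := isMulCommutative_iff.2 fun u v => by
    have h := Subgroup.commutator_mem_commutator (Subgroup.mem_top u) (Subgroup.mem_top v)
    rw [← commutator_def, hcomm, Subgroup.mem_bot] at h
    exact commutatorElement_eq_one_iff_mul_comm.1 h
  let S : Subgroup F :=
    { carrier := {x | x ^ p = 1}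
      one_mem' := one_pow p
      mul_mem' := fun {x y} hx hy => by
        show (x * y) ^ p = 1
        rw [Commute.mul_pow (mul_comm' x y), show x ^ p = 1 from hx, show y ^ p = 1 from hy, one_mul]
      inv_mem' := fun {x} hx => by
        show x⁻¹ ^ p = 1
        rw [inv_pow, show x ^ p = 1 from hx, inv_one] }
  have hS : S = ⊤ := by
    refine hinvS S ?_ fun h u hu => ?_
    · obtain ⟨x, hx⟩ := exists_prime_orderOf_dvd_card' p hpd
      intro hbot
      have : x ∈ S := show x ^ p = 1 by rw [← hx]; exact pow_orderOf_eq_one x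
      rw [hbot, Subgroup.mem_bot] at this
      rw [this, orderOf_one] at hx
      exact hp.ne_one hx.symm
    · show (c h u) ^ p = 1
      apply Subtype.ext
      show ((h : G) * (u : G) * (h : G)⁻¹) ^ p = 1
      rw [conj_pow, show (u : G) ^ p = 1 from congrArg Subtype.val hu, mul_one, mul_inv_cancel]
  have hexp : ∀ x : F, x ^ p = 1 := fun x => show x ∈ S by rw [hS]; exact Subgroup.mem_top x
  obtain ⟨f, hf⟩ := IsPGroup.iff_card.1 (show IsPGroup p F from fun x => ⟨1, by rw [pow_one]; exact hexp x⟩)
  exact ⟨hab', p, f, hp, fun u hu => congrArg Subtype.val (hexp ⟨u, hu⟩), by omega⟩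

end Cfsg.Agent.S0738
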