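import Cfsg.Statements.S0739
import Mathlib
import Cfsg.Agent.Lib.GroupB.FrobType

set_option autoImplicit false
open Cfsg

namespace Cfsg.Agent.S0739

set_option linter.style.haveILetI false
set_option maxHeartbeats 1600000

open scoped Pointwise

/-- Two elements of prime order `q` in a cyclic group generate the same subgroup. -/
theorem mem_zpowers_of_orderOf {K : Type*} [Group K] [Finite K] [IsCyclic K] {q : ℕ} (hq : q.Prime) {w v : K}
    (hw : orderOf w = q) (hv : orderOf v = q) : v ∈ Subgroup.zpowers w := by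
  classical
  haveI := Fintype.ofFinite K
  have h1 : (Finset.univ.filter fun x : K => x ∈ Subgroup.zpowers w) = Finset.univ.filter fun x : K => x ^ q = 1 := by
    refine Finset.eq_of_subset_of_card_le (fun x hx => ?_) ?_
    · simp only [Finset.mem_filter, Finset.mem_univ, true_and] at hx ⊢
      obtain ⟨k, rfl⟩ := hx
      show (w ^ k) ^ q = 1
      rw [← zpow_natCast (w ^ k), ← zpow_mul, mul_comm, zpow_mul, zpow_natCast, ← hw, pow_orderOf_eq_one, one_zpow]
    · refine (IsCyclic.card_pow_eq_one_le hq.pos).trans (le_of_eq ?_)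
      rw [← Fintype.card_subtype, ← Nat.card_eq_fintype_card]
      exact ((Nat.card_zpowers w).trans hw).symm
  have : v ∈ Finset.univ.filter fun x : K => x ^ q = 1 :=
    Finset.mem_filter.2 ⟨Finset.mem_univ _, hv ▸ pow_orderOf_eq_one v⟩
  rw [← h1, Finset.mem_filter] at this
  exact this.2

theorem exists_orderOf_pow {K : Type*} [Group K] [Finite K] {q : ℕ} [Fact q.Prime] (hK : IsPGroup q K) {y : K} (hy : y ≠ 1) :
    ∃ k : ℕ, orderOf (y ^ k) = q := by
  obtain ⟨i, hi⟩ := IsPGroup.iff_orderOf.1 hK y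
  have hi0 : i ≠ 0 := fun h => hy (orderOf_eq_one_iff.1 (by rw [hi, h, pow_zero]))
  refine ⟨q ^ (i - 1), ?_⟩
  rw [orderOf_pow' _ (pow_ne_zero _ (Fact.out : q.Prime).ne_zero), hi,
    Nat.gcd_eq_right (Nat.pow_dvd_pow q (Nat.sub_le i 1)), Nat.pow_div (Nat.sub_le i 1) (Fact.out : q.Prime).pos,
    show i - (i - 1) = 1 by omega, pow_one]


/-- In a finite Zassenhaus group whose two-point stabiliser `H = G_{a,b}` has odd order `d`, and which has no normal `q`-complement for any prime `q ∣ d`, `H` is cyclic, `C_G(H) = H`, and every element swapping `a` and `b` inverts each element of `H`. -/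
theorem result {G Ω : Type*} [Group G] [Finite G] [MulAction G Ω] [Fintype Ω] (hZ : Cfsg.IsZassenhausGroup G Ω) {a b : Ω} (hab : a ≠ b) (hodd : Odd (Nat.card ↥(MulAction.stabilizer G a ⊓ MulAction.stabilizer G b))) (hnil : ∀ q : ℕ, q.Prime → q ∣ Nat.card ↥(MulAction.stabilizer G a ⊓ MulAction.stabilizer G b) → ¬ ∃ N : Subgroup G, N.Normal ∧ N.index = q ^ (Nat.card G).factorization q) : IsCyclic ↥(MulAction.stabilizer G a ⊓ MulAction.stabilizer G b) ∧ Subgroup.centralizer ((MulAction.stabilizer G a ⊓ MulAction.stabilizer G b : Subgroup G) : Set G) = MulAction.stabilizer G a ⊓ MulAction.stabilizer G b ∧ ∀ s : G, s • a = b → s • b = a → ∀ h ∈ MulAction.stabilizer G a ⊓ MulAction.stabilizer G b, s * h * s⁻¹ = h⁻¹ := by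
  classical
  haveI := Fintype.ofFinite G
  obtain ⟨hF, h2, hthree, ⟨g₀, hg₀, a', b', hab', ga', gb'⟩, -⟩ := hZ
  haveI : MulAction.IsPretransitive G Ω := MulAction.isPretransitive_of_is_two_pretransitive (G := G) (α := Ω)
  set H := MulAction.stabilizer G a ⊓ MulAction.stabilizer G b with hH
  set d := Nat.card H with hd
  set N := Fintype.card Ω with hN
  have hfix2 : ∀ h : G, h ∈ H → h ≠ 1 → ∀ x : Ω, h • x = x → x = a ∨ x = b := by
    intro h hh h1 x hx
    by_contra hc
    push Not at hc
    exact h1 (hthree h a b x hab (Ne.symm hc.2) (Ne.symm hc.1) hh.1 hh.2 hx)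
  obtain ⟨h₁, hh₁, hh₁1⟩ : ∃ h : G, h ∈ H ∧ h ≠ 1 := by
    obtain ⟨g, g1, g2⟩ := (MulAction.is_two_pretransitive_iff (G := G) (α := Ω)).1 h2 hab' hab
    refine ⟨g * g₀ * g⁻¹, ⟨?_, ?_⟩, fun e => hg₀ (conj_eq_one_iff.1 e)⟩
    · show (g * g₀ * g⁻¹) • a = a
      rw [mul_smul, mul_smul, inv_smul_eq_iff.2 g1.symm, ga', g1]
    · show (g * g₀ * g⁻¹) • b = b
      rw [mul_smul, mul_smul, inv_smul_eq_iff.2 g2.symm, gb', g2]
  obtain ⟨c₀, hc₀a, hc₀b⟩ : ∃ x : Ω, x ≠ a ∧ x ≠ b := by
    by_contra hall
    push Not at hall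
    refine hh₁1 (hF.eq_of_smul_eq_smul (α := Ω) fun x => ?_)
    rw [one_smul]
    by_cases hx : x = a
    · rw [hx]; exact hh₁.1
    · rw [hall x hx]; exact hh₁.2
  -- orders
  set A := MulAction.stabilizer G a with hA
  have hHA : H ≤ A := inf_le_left
  have hsub : H.subgroupOf A = MulAction.stabilizer A b := by
    ext x
    exact ⟨fun h => h.2, fun h => ⟨x.2, h⟩⟩
  have hAcard : Nat.card A = d * (N - 1) := by
    rw [← (H.subgroupOf A).card_mul_index, Nat.card_congr (Subgroup.subgroupOfEquivOfLe hHA).toEquiv, ← hd, hsub,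
      MulAction.index_stabilizer]
    congr 1
    have : MulAction.orbit A b = {x : Ω | x ≠ a} := by
      ext x
      refine ⟨?_, fun hx => ?_⟩
      · rintro ⟨g, rfl⟩ e
        exact hab (MulAction.injective (g : G) ((g.2 : (g : G) • a = a).trans e.symm))
      · obtain ⟨g, g1, g2⟩ := (MulAction.is_two_pretransitive_iff (G := G) (α := Ω)).1 h2 hab (Ne.symm (show x ≠ a from hx))
        exact ⟨⟨g, g1⟩, g2⟩
    rw [this, ← Nat.card_coe_set_eq]
    show Nat.card {x : Ω // x ≠ a} = N - 1
    rw [Nat.card_eq_fintype_card, Fintype.card_subtype_compl, Fintype.card_subtype_eq]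
  have hGcard : Nat.card G = N * (d * (N - 1)) := by
    rw [← A.card_mul_index, hAcard, hA, MulAction.index_stabilizer_of_transitive G (x := a), Nat.card_eq_fintype_card, mul_comm]
  -- a point stabiliser is a Frobenius group with complement `H`
  have hfrob : Cfsg.IsFrobeniusComplement (H.subgroupOf A) := by
    refine ⟨fun e => ?_, fun e => ?_, fun g hg => ?_⟩
    · have hm : (⟨h₁, hHA hh₁⟩ : A) ∈ H.subgroupOf A := hh₁
      rw [e, Subgroup.mem_bot] at hm
      exact hh₁1 (congrArg Subtype.val hm)
    · obtain ⟨g, g1, g2⟩ := (MulAction.is_two_pretransitive_iff (G := G) (α := Ω)).1 h2 hab (Ne.symm hc₀a)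
      have hm : (⟨g, g1⟩ : A) ∈ H.subgroupOf A := e ▸ Subgroup.mem_top _
      exact hc₀b (g2.symm.trans hm.2)
    · rw [Subgroup.eq_bot_iff_forall]
      intro x hx
      have h2' : g⁻¹ * x * g ∈ H.subgroupOf A := CfsgLib.GroupB.Frobenius.mem_conj_smul_iff.1 hx.2
      have h3 : ((g : G)⁻¹ * (x : G) * (g : G)) • b = b := h2'.2
      rw [mul_smul, mul_smul, inv_smul_eq_iff] at h3
      by_contra hx1
      rcases hfix2 (x : G) hx.1 (fun e => hx1 (Subtype.ext e)) _ h3 with e | e
      · exact hab (MulAction.injective (g : G) ((g.2 : (g : G) • a = a).trans e.symm))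
      · exact hg ⟨g.2, e⟩
  haveI hZg : IsZGroup H := by
    refine ⟨fun p hp P => ?_⟩
    haveI := Fact.mk hp
    by_cases hp2 : p = 2
    · obtain ⟨i, hi⟩ := IsPGroup.iff_card.1 P.isPGroup'
      have hi0 : i = 0 := by
        by_contra h
        have hdvd : 2 ∣ Nat.card H := hp2 ▸ (dvd_pow_self p h).trans (hi ▸ (P : Subgroup H).card_subgroup_dvd_card)
        exact (Nat.not_even_iff_odd.2 hodd) (even_iff_two_dvd.2 hdvd)
      haveI : Subsingleton (P : Subgroup H) := (Nat.card_eq_one_iff_unique.1 (by rw [hi, hi0, pow_zero])).1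
      infer_instance
    · let e := Subgroup.subgroupOfEquivOfLe hHA
      have hc := (CfsgLib.GroupB.FrobType.smallSylow hfrob).1 p ((P : Subgroup H).map e.symm.toMonoidHom) hp hp2 (P.isPGroup'.map _)
      haveI := hc
      exact isCyclic_of_surjective _ ((P : Subgroup H).equivMapOfInjective e.symm.toMonoidHom e.symm.injective).symm.surjective
  -- conjugation by a swapping element
  have hnormal : ∀ (s : G), s • a = b → s • b = a → ∀ h : H, s * (h : G) * s⁻¹ ∈ H := by
    intro s sa sb h
    refine ⟨?_, ?_⟩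
    · show (s * (h : G) * s⁻¹) • a = a
      rw [mul_smul, mul_smul, inv_smul_eq_iff.2 sb.symm, show (h : G) • b = b from h.2.2, sb]
    · show (s * (h : G) * s⁻¹) • b = b
      rw [mul_smul, mul_smul, inv_smul_eq_iff.2 sa.symm, show (h : G) • a = a from h.2.1, sa]
  let cs : (s : G) → s • a = b → s • b = a → (H →* H) := fun s sa sb =>
    { toFun := fun h => ⟨s * (h : G) * s⁻¹, hnormal s sa sb h⟩
      map_one' := Subtype.ext (by simp)
      map_mul' := fun h k => Subtype.ext (by simp [mul_assoc]) }
  -- swapping elements invert modulo the commutator subgroup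
  have main : ∀ (s : G) (sa : s • a = b) (sb : s • b = a) (h : H), cs s sa sb h * h ∈ commutator H := by
    intro s sa sb
    set K := ((Abelianization.of (G := H)).comp (cs s sa sb) * Abelianization.of).ker with hK
    suffices hKtop : K = ⊤ by
      intro h
      have hm : h ∈ K := hKtop ▸ Subgroup.mem_top h
      rw [hK, MonoidHom.mem_ker, MonoidHom.mul_apply, MonoidHom.comp_apply, ← map_mul] at hm
      exact (QuotientGroup.eq_one_iff _).1 hm
    have hsyl : ∀ q : ℕ, q.Prime → ∀ Q : Sylow q H, (Q : Subgroup H) ≤ K := by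
      intro q hq Q x hx
      haveI := Fact.mk hq
      rw [hK, MonoidHom.mem_ker, MonoidHom.mul_apply, MonoidHom.comp_apply]
      by_cases hqc : q ∣ Nat.card (commutator H)
      · have hall : ∀ y : (Q : Subgroup H), Abelianization.of (y : H) = 1 := by
          intro y
          obtain ⟨i, hi⟩ := IsPGroup.iff_orderOf.1 Q.isPGroup' y
          have h1 : orderOf (Abelianization.of (y : H)) ∣ q ^ i := by
            rw [← hi, ← Subgroup.orderOf_coe]; exact orderOf_map_dvd _ _
          have h2 : orderOf (Abelianization.of (y : H)) ∣ (commutator H).index := orderOf_dvd_natCard _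
          have hcop : Nat.Coprime (q ^ i) (commutator H).index :=
            ((IsZGroup.coprime_commutator_index H).coprime_dvd_left hqc).pow_left i
          exact orderOf_eq_one_iff.1 (Nat.eq_one_of_dvd_one (hcop ▸ Nat.dvd_gcd h1 h2))
        have hmem : x ∈ commutator H := (QuotientGroup.eq_one_iff x).1 (hall ⟨x, hx⟩)
        have h1 : Abelianization.of (cs s sa sb x) = 1 :=
          Abelianization.commutator_subset_ker ((Abelianization.of (G := H)).comp (cs s sa sb)) hmem
        rw [h1, hall ⟨x, hx⟩, one_mul]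
      by_cases hqd : q ∣ d
      swap
      · obtain ⟨i, hi⟩ := IsPGroup.iff_card.1 Q.isPGroup'
        have hi0 : i = 0 := by
          by_contra h
          exact hqd ((dvd_pow_self q h).trans (hi ▸ (Q : Subgroup H).card_subgroup_dvd_card))
        have hQ1 : (Q : Subgroup H) = ⊥ := Subgroup.card_eq_one.1 (by rw [hi, hi0, pow_zero])
        rw [hQ1, Subgroup.mem_bot] at hx
        rw [hx]; simp
      have hq2 : q ≠ 2 := fun e => (Nat.not_even_iff_odd.2 hodd) (even_iff_two_dvd.2 (e ▸ hqd))
      -- `q` does not divide `N (N - 1)`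
      obtain ⟨x₁, hx₁⟩ := exists_prime_orderOf_dvd_card' (G := H) q hqd
      have hx₁1 : (x₁ : G) ≠ 1 := fun e => hq.ne_one (by rw [← hx₁, ← Subgroup.orderOf_coe, e, orderOf_one])
      have hNq : N % q = 2 % q := by
        have hp : IsPGroup q (Subgroup.zpowers (x₁ : G)) := IsPGroup.of_card (n := 1) (by rw [Nat.card_zpowers, Subgroup.orderOf_coe, hx₁, pow_one])
        have h := hp.card_modEq_card_fixedPoints Ω
        have he : MulAction.fixedPoints (Subgroup.zpowers (x₁ : G)) Ω = {a, b} := by
          ext z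
          refine ⟨fun hz => hfix2 _ x₁.2 hx₁1 z (hz ⟨_, Subgroup.mem_zpowers _⟩), fun hz => ?_⟩
          rintro ⟨u, i, rfl⟩
          refine MulAction.fixedBy_subset_fixedBy_zpow Ω (x₁ : G) i ?_
          rcases hz with rfl | rfl
          · exact x₁.2.1
          · exact x₁.2.2
        rw [he, Nat.card_coe_set_eq, Set.ncard_pair hab, Nat.card_eq_fintype_card] at h
        exact h
      have hq3 : 3 ≤ q := by have := hq.two_le; omega
      rw [Nat.mod_eq_of_lt (show 2 < q by omega)] at hNq
      have hqN : ¬ q ∣ N := fun h => by rw [Nat.mod_eq_zero_of_dvd h] at hNq; omega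
      have hqN1 : ¬ q ∣ N - 1 := fun h => by
        obtain ⟨t, ht⟩ := h
        have : N = q * t + 1 := by
          have : 0 < N := Fintype.card_pos_iff.2 ⟨a⟩
          omega
        rw [this, Nat.mul_add_mod, Nat.mod_eq_of_lt (show 1 < q by omega)] at hNq
        omega
      set Q₀ := (Q : Subgroup H).map H.subtype with hQ₀
      have hQc : Nat.card Q₀ = q ^ (Nat.card G).factorization q := by
        rw [hQ₀, Subgroup.card_map_of_injective H.subtype_injective, Q.card_eq_multiplicity, ← hd, hGcard,
          Nat.factorization_mul (fun h => hqN (by rw [h]; exact dvd_zero q)) (Nat.mul_ne_zero Nat.card_pos.ne' (fun h => hqN1 (by rw [h]; exact dvd_zero q))),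
          Nat.factorization_mul Nat.card_pos.ne' (fun h => hqN1 (by rw [h]; exact dvd_zero q)), Finsupp.add_apply, Finsupp.add_apply,
          Nat.factorization_eq_zero_of_not_dvd hqN, Nat.factorization_eq_zero_of_not_dvd hqN1, zero_add, add_zero]
      let P : Sylow q G := Sylow.ofCard Q₀ hQc
      have hPe : (P : Subgroup G) = Q₀ := Sylow.coe_ofCard _ _
      haveI hQcyc : IsCyclic (Q : Subgroup H) := inferInstance
      haveI hPcyc : IsCyclic Q₀ :=
        isCyclic_of_surjective _ ((Q : Subgroup H).equivMapOfInjective _ H.subtype_injective).surjective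
      obtain ⟨u, hu, hu'⟩ : ∃ u ∈ Subgroup.normalizer (Q₀ : Set G), u ∉ Subgroup.centralizer (Q₀ : Set G) := by
        by_contra hall
        push Not at hall
        have hle : Subgroup.normalizer ((P : Subgroup G) : Set G) ≤ Subgroup.centralizer ((P : Subgroup G) : Set G) := by
          rw [hPe]; exact hall
        haveI : IsMulCommutative P := by
          show IsMulCommutative (P : Subgroup G)
          rw [hPe]; infer_instance
        have hcompl := MonoidHom.ker_transferSylow_isComplement' P hle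
        refine hnil q hq hqd ⟨(MonoidHom.transferSylow P hle).ker, inferInstance, ?_⟩
        rw [hcompl.symm.index_eq_card, hPe, hQc]
      have hQH : Q₀ ≤ H := Subgroup.map_subtype_le _
      have hQne : ∃ z ∈ Q₀, z ≠ 1 := by
        by_contra hall
        push Not at hall
        exact hu' (Subgroup.mem_centralizer_iff.2 fun z hz => by rw [hall z hz, one_mul, mul_one])
      obtain ⟨z₀, hz₀, hz₀1⟩ := hQne
      have huperm : ∀ y : Ω, (y = a ∨ y = b) → u • y = a ∨ u • y = b := by
        intro y hy
        refine hfix2 z₀ (hQH hz₀) hz₀1 _ ?_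
        have hm : u⁻¹ * z₀ * u ∈ Q₀ := (Subgroup.mem_normalizer_iff''.1 hu z₀).1 hz₀
        have hy' : (u⁻¹ * z₀ * u) • y = y := by
          rcases hy with rfl | rfl
          · exact (hQH hm).1
          · exact (hQH hm).2
        rw [mul_smul, mul_smul, inv_smul_eq_iff] at hy'
        exact hy'
      have hNH : ∀ v : G, v ∈ H → v ∈ Subgroup.normalizer (Q₀ : Set G) → ∀ z ∈ Q₀, v * z = z * v := by
        intro v hv hvn z hz
        rcases Sylow.normalizer_le_centralizer_or_le_commutator Q with hle | hle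
        · obtain ⟨z', hz', rfl⟩ := hz
          have hvn' : (⟨v, hv⟩ : H) ∈ Subgroup.normalizer ((Q : Subgroup H) : Set H) := by
            rw [Subgroup.mem_normalizer_iff]
            intro w
            have hiff := Subgroup.mem_normalizer_iff.1 hvn (w : G)
            constructor
            · intro hw
              exact (Subgroup.mem_map_iff_mem H.subtype_injective).1 (hiff.1 (Subgroup.mem_map_of_mem _ hw) :
                H.subtype (⟨v, hv⟩ * w * ⟨v, hv⟩⁻¹) ∈ Q₀)
            · intro hw
              exact (Subgroup.mem_map_iff_mem H.subtype_injective).1 (hiff.2 (Subgroup.mem_map_of_mem _ hw) : H.subtype w ∈ Q₀)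
          exact (congrArg Subtype.val (Subgroup.mem_centralizer_iff.1 (hle hvn') z' hz')).symm
        · exfalso
          obtain ⟨z', hz', hz'e⟩ := hz₀
          have hz'1 : z' ≠ 1 := fun e => hz₀1 (by rw [← hz'e, e, map_one])
          obtain ⟨i, hi⟩ := IsPGroup.iff_orderOf.1 Q.isPGroup' ⟨z', hz'⟩
          have hi0 : i ≠ 0 := fun h => hz'1 (congrArg Subtype.val (orderOf_eq_one_iff.1 (by rw [hi, h, pow_zero])) :)
          refine hqc ((dvd_pow_self q hi0).trans ?_)
          rw [← hi, ← Subgroup.orderOf_coe]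
          exact (Subgroup.orderOf_coe (⟨z', hle hz'⟩ : commutator H)) ▸ orderOf_dvd_natCard _
      have hswap : u • a = b ∧ u • b = a := by
        rcases huperm a (Or.inl rfl) with e | e
        · exfalso
          have e' : u • b = b := (huperm b (Or.inr rfl)).resolve_left fun e' => hab (MulAction.injective u (e.trans e'.symm))
          exact hu' (Subgroup.mem_centralizer_iff.2 fun z hz => (hNH u ⟨e, e'⟩ hu z hz).symm)
        · exact ⟨e, (huperm b (Or.inr rfl)).resolve_right fun e' => hab (MulAction.injective u (e.trans e'.symm))⟩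
      -- `u` inverts `Q₀`
      let σ : Q₀ → Q₀ := fun z => ⟨u * (z : G) * u⁻¹, (Subgroup.mem_normalizer_iff.1 hu z).1 z.2⟩
      have hσmul : ∀ y z, σ (y * z) = σ y * σ z := fun y z => Subtype.ext (by simp [σ, mul_assoc])
      have hσpow : ∀ (y : Q₀) (k : ℕ), σ (y ^ k) = σ y ^ k := fun y k => Subtype.ext (by simp [σ, conj_pow])
      have hσσ : ∀ z, σ (σ z) = z := fun z => by
        apply Subtype.ext
        show u * (u * (z : G) * u⁻¹) * u⁻¹ = z
        have hc := hNH (u * u) ⟨show (u * u) • a = a by rw [mul_smul, hswap.1, hswap.2], show (u * u) • b = b by rw [mul_smul, hswap.2, hswap.1]⟩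
          ((Subgroup.normalizer (Q₀ : Set G)).mul_mem hu hu) z z.2
        rw [show u * (u * (z : G) * u⁻¹) * u⁻¹ = (u * u) * (z : G) * (u * u)⁻¹ by group, hc, mul_inv_cancel_right]
      obtain ⟨x', hx', hx'2⟩ : ∃ z : Q₀, (z : G) ∈ Q₀ ∧ σ z ≠ z := by
        by_contra hall
        push Not at hall
        refine hu' (Subgroup.mem_centralizer_iff.2 fun z hz => ?_)
        have := congrArg Subtype.val (hall ⟨z, hz⟩ hz)
        exact (mul_inv_eq_iff_eq_mul.1 this).symm
      have hinv : ∀ z : Q₀, σ z = z⁻¹ := by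
        intro z
        by_contra hne
        set y := z * σ z with hy
        have hyfix : σ y = y := by rw [hy, hσmul, hσσ]; exact mul_comm' _ _
        have hy1 : y ≠ 1 := fun e => hne (eq_inv_of_mul_eq_one_right e)
        set w := x'⁻¹ * σ x' with hw
        have hw1 : w ≠ 1 := fun e => hx'2 (inv_mul_eq_one.1 e).symm
        have hwinv : σ w = w⁻¹ := by
          rw [hw, hσmul, mul_inv_rev, inv_inv]
          have : σ x'⁻¹ = (σ x')⁻¹ := Subtype.ext (by simp [σ, mul_assoc])
          rw [this, hσσ]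
        have hQp : IsPGroup q Q₀ := IsPGroup.of_card hQc
        obtain ⟨k, hk⟩ := exists_orderOf_pow hQp hy1
        obtain ⟨l, hl⟩ := exists_orderOf_pow hQp hw1
        obtain ⟨r, hr⟩ := mem_zpowers_iff_mem_range_orderOf.1 (mem_zpowers_of_orderOf hq hk hl) |> Finset.mem_image.1
        have e1 : σ (w ^ l) = w ^ l := by rw [← hr.2, hσpow, hσpow, hyfix]
        rw [hσpow, hwinv, inv_pow, inv_eq_iff_mul_eq_one, ← pow_two] at e1
        have := orderOf_dvd_of_pow_eq_one e1
        rw [hl] at this
        exact hq2 ((Nat.prime_dvd_prime_iff_eq hq Nat.prime_two).1 this)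
      -- transfer to `s`
      have hh0 : s⁻¹ * u ∈ H := ⟨show (s⁻¹ * u) • a = a by rw [mul_smul, hswap.1, inv_smul_eq_iff, sa],
        show (s⁻¹ * u) • b = b by rw [mul_smul, hswap.2, inv_smul_eq_iff, sb]⟩
      set h₀ : H := ⟨s⁻¹ * u, hh0⟩ with hh₀
      have e : cs s sa sb (h₀ * x * h₀⁻¹) = x⁻¹ := by
        apply Subtype.ext
        have := congrArg Subtype.val (hinv ⟨(x : G), x, hx, rfl⟩)
        show s * ((s⁻¹ * u) * (x : G) * (s⁻¹ * u)⁻¹) * s⁻¹ = (x : G)⁻¹
        refine Eq.trans ?_ (show u * (x : G) * u⁻¹ = (x : G)⁻¹ from this)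
        group
      have h5 : Abelianization.of (cs s sa sb (h₀ * x * h₀⁻¹)) = Abelianization.of (cs s sa sb x) := by
        simp only [map_mul, map_inv, mul_inv_cancel_comm]
      rw [← h5, e, map_inv, inv_mul_cancel]
    refine Subgroup.eq_top_of_card_eq K (le_antisymm (Subgroup.card_le_card_group K) (Nat.le_of_dvd Nat.card_pos ?_))
    rw [← Nat.factorization_prime_le_iff_dvd Nat.card_pos.ne' Nat.card_pos.ne']
    intro q hq
    haveI := Fact.mk hq
    obtain ⟨Q⟩ : Nonempty (Sylow q H) := inferInstance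
    have := Subgroup.card_dvd_of_le (hsyl q hq Q)
    rw [Q.card_eq_multiplicity] at this
    exact (hq.pow_dvd_iff_le_factorization Nat.card_pos.ne').1 this
  -- the commutator subgroup is central
  obtain ⟨s, sa, sb⟩ := (MulAction.is_two_pretransitive_iff (G := G) (α := Ω)).1 h2 hab (Ne.symm hab)
  have sa' : s⁻¹ • a = b := inv_smul_eq_iff.2 sb.symm
  have sb' : s⁻¹ • b = a := inv_smul_eq_iff.2 sa.symm
  haveI hcyc := IsZGroup.isCyclic_commutator H
  have hcentral : commutator H ≤ Subgroup.center H := by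
    intro x hx
    rw [Subgroup.mem_center_iff]
    intro h
    have hact : ∀ (h : H) (y : H), y ∈ commutator H → h * y * h⁻¹ ∈ commutator H := fun h y hy =>
      (inferInstance : (commutator H).Normal).conj_mem y hy h
    obtain ⟨g, hg⟩ := IsCyclic.exists_generator (α := commutator H)
    obtain ⟨r, hr⟩ := Subgroup.mem_zpowers_iff.1 (hg ⟨h * g * h⁻¹, hact h g g.2⟩)
    have hpow : ∀ y ∈ commutator H, h * y * h⁻¹ = y ^ r := by
      intro y hy
      obtain ⟨k, hk⟩ := Subgroup.mem_zpowers_iff.1 (hg ⟨y, hy⟩)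
      have hk' : (g : H) ^ k = y := congrArg Subtype.val hk
      have hr' : (g : H) ^ r = h * g * h⁻¹ := congrArg Subtype.val hr
      rw [← hk', ← conj_zpow, ← hr', ← zpow_mul, ← zpow_mul, mul_comm]
    have hpre : cs s⁻¹ sa' sb' x ∈ commutator H := by
      have : (commutator H).map (cs s⁻¹ sa' sb') ≤ commutator H := by
        rw [commutator_def, Subgroup.map_commutator]
        exact Subgroup.commutator_mono le_top le_top
      exact this (Subgroup.mem_map_of_mem _ hx)
    have hback : cs s sa sb (cs s⁻¹ sa' sb' x) = x := Subtype.ext (by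
      show s * (s⁻¹ * (x : G) * (s⁻¹)⁻¹) * s⁻¹ = x
      group)
    have e1 := congrArg (cs s sa sb) (hpow _ hpre)
    rw [map_mul, map_mul, map_inv, map_zpow, hback] at e1
    set h' := cs s sa sb h * h with hh'
    have hh'C : h' ∈ commutator H := main s sa sb h
    have hcomm : h' * x = x * h' := congrArg Subtype.val (mul_comm' (⟨h', hh'C⟩ : commutator H) ⟨x, hx⟩)
    have e2 : x ^ (r * r) = x := by
      have e3 : h' * x * h'⁻¹ = x := by rw [hcomm, mul_inv_cancel_right]
      rw [hh', show cs s sa sb h * h * x * (cs s sa sb h * h)⁻¹ = cs s sa sb h * (h * x * h⁻¹) * (cs s sa sb h)⁻¹ by group,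
        hpow x hx, ← conj_zpow, e1, ← zpow_mul] at e3
      exact e3
    have e4 : Commute (h * h) x := by
      show h * h * x = x * (h * h)
      rw [← mul_inv_eq_iff_eq_mul, show h * h * x * (h * h)⁻¹ = h * (h * x * h⁻¹) * h⁻¹ by group, hpow x hx, ← conj_zpow, hpow x hx,
        ← zpow_mul, e2]
    have hcop : Nat.Coprime 2 (orderOf h) :=
      Nat.Coprime.coprime_dvd_right (orderOf_dvd_natCard h) (Nat.coprime_two_left.2 hodd)
    obtain ⟨m, hm⟩ := exists_pow_eq_self_of_coprime (x := h) hcop
    rw [← pow_two] at e4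
    exact ((hm ▸ e4.pow_left m : Commute h x).eq)
  have hab_comm : ∀ x y : H, x * y = y * x := by
    haveI : IsCyclic (Abelianization H) := inferInstance
    exact commutative_of_cyclic_center_quotient (Abelianization.of (G := H)) (by rw [Abelianization.ker_of]; exact hcentral)
  haveI : IsMulCommutative H := isMulCommutative_iff.2 hab_comm
  have hbot : commutator H = ⊥ := (commutator_eq_bot_iff_center_eq_top H).2 (eq_top_iff.2 fun x _ => Subgroup.mem_center_iff.2 fun y => hab_comm y x)
  have hinvall : ∀ (t : G), t • a = b → t • b = a → ∀ h ∈ H, t * h * t⁻¹ = h⁻¹ := by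
    intro t ta tb h hh
    have hm := main t ta tb ⟨h, hh⟩
    rw [hbot, Subgroup.mem_bot] at hm
    exact eq_inv_of_mul_eq_one_left (congrArg Subtype.val hm :)
  haveI : Group.IsNilpotent H := by
    letI : CommGroup H := { (inferInstance : Group H) with mul_comm := hab_comm }
    exact CommGroup.isNilpotent
  refine ⟨inferInstance, le_antisymm (fun c hc => ?_) (fun c hc => ?_), hinvall⟩
  · have hcc : c * h₁ = h₁ * c := (Subgroup.mem_centralizer_iff.1 hc h₁ hh₁).symm
    have hperm : ∀ y : Ω, h₁ • y = y → c • y = a ∨ c • y = b := fun y hy =>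
      hfix2 h₁ hh₁ hh₁1 _ (by rw [← mul_smul, ← hcc, mul_smul, hy])
    rcases hperm a hh₁.1 with e | e
    · exact ⟨e, (hperm b hh₁.2).resolve_left fun e' => hab (MulAction.injective c (e.trans e'.symm))⟩
    · exfalso
      have e' : c • b = a := (hperm b hh₁.2).resolve_right fun e' => hab (MulAction.injective c (e.trans e'.symm))
      have h6 := hinvall c e e' h₁ hh₁
      rw [hcc, mul_inv_cancel_right, eq_inv_iff_mul_eq_one, ← pow_two] at h6
      refine hh₁1 (orderOf_eq_one_iff.1 (Nat.eq_one_of_dvd_one ?_))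
      have hodd' : Nat.Coprime 2 d := Nat.coprime_two_left.2 hodd
      exact hodd' ▸ Nat.dvd_gcd (orderOf_dvd_of_pow_eq_one h6) ((Subgroup.orderOf_coe (⟨h₁, hh₁⟩ : H)) ▸ orderOf_dvd_natCard _)
  · exact Subgroup.mem_centralizer_iff.2 fun k hk => congrArg Subtype.val (hab_comm ⟨k, hk⟩ ⟨c, hc⟩)

end Cfsg.Agent.S0739
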