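import Cfsg.Statements.S0740
import Mathlib

set_option autoImplicit false
open Cfsg

namespace Cfsg.Agent.S0740

set_option linter.style.haveILetI false

/-- In a finite Zassenhaus group any two points `a ≠ b` are swapped by an involution; every such involution has exactly one fixed point when the degree is odd and 0 or 2 fixed points when the degree is even; and if the two-point stabiliser has even order, some such involution has exactly 2 fixed points. -/
theorem result {G Ω : Type*} [Group G] [Finite G] [MulAction G Ω] [Fintype Ω] (hZ : Cfsg.IsZassenhausGroup G Ω) {a b : Ω} (hab : a ≠ b) : (∃ s : G, orderOf s = 2 ∧ s • a = b ∧ s • b = a) ∧ (∀ s : G, orderOf s = 2 → s • a = b → s • b = a → (Odd (Fintype.card Ω) → Nat.card (MulAction.fixedBy Ω s) = 1) ∧ (Even (Fintype.card Ω) → Nat.card (MulAction.fixedBy Ω s) = 0 ∨ Nat.card (MulAction.fixedBy Ω s) = 2)) ∧ (Even (Fintype.card Ω) → Even (Nat.card ↥(MulAction.stabilizer G a ⊓ MulAction.stabilizer G b)) → ∃ s : G, orderOf s = 2 ∧ s • a =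 b ∧ s • b = a ∧ Nat.card (MulAction.fixedBy Ω s) = 2) := by
  classical
  obtain ⟨hF, h2, hthree, -, -⟩ := hZ
  have hG2 : ∀ {x y z w : Ω}, x ≠ y → z ≠ w → ∃ g : G, g • x = z ∧ g • y = w := fun h h' =>
    (MulAction.is_two_pretransitive_iff (G := G) (α := Ω)).1 h2 h h'
  -- conjugating an involution that moves a point
  have hswap : ∀ t : G, orderOf t = 2 → ∀ c : Ω, t • c ≠ c → ∃ g : G, orderOf (g * t * g⁻¹) = 2 ∧
      (g * t * g⁻¹) • a = b ∧ (g * t * g⁻¹) • b = a ∧
      Nat.card (MulAction.fixedBy Ω (g * t * g⁻¹)) = Nat.card (MulAction.fixedBy Ω t) := by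
    intro t ht c hc
    have htt : t * t = 1 := by have := pow_orderOf_eq_one t; rwa [ht, pow_two] at this
    obtain ⟨g, g1, g2⟩ := hG2 (Ne.symm hc) hab
    have e1 : g⁻¹ • a = c := by rw [← g1, inv_smul_smul]
    have e2 : g⁻¹ • b = t • c := by rw [← g2, inv_smul_smul]
    refine ⟨g, ?_, ?_, ?_, ?_⟩
    · rw [← MulAut.conj_apply, MulEquiv.orderOf_eq, ht]
    · rw [mul_smul, mul_smul, e1, g2]
    · rw [mul_smul, mul_smul, e2, ← mul_smul t, htt, one_smul, g1]
    · refine Nat.card_congr
        { toFun := fun x => ⟨g⁻¹ • (x : Ω), ?_⟩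
          invFun := fun x => ⟨g • (x : Ω), ?_⟩
          left_inv := fun x => Subtype.ext (smul_inv_smul _ _)
          right_inv := fun x => Subtype.ext (inv_smul_smul _ _) }
      · have h : (g * t * g⁻¹) • (x : Ω) = x := x.2
        show t • (g⁻¹ • (x : Ω)) = g⁻¹ • (x : Ω)
        rw [mul_smul, mul_smul] at h
        rw [eq_inv_smul_iff, h]
      · show (g * t * g⁻¹) • (g • (x : Ω)) = g • (x : Ω)
        rw [mul_smul, inv_smul_smul, mul_smul, show t • (x : Ω) = x from x.2]
  have hmoves : ∀ t : G, orderOf t = 2 → ∃ c : Ω, t • c ≠ c := by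
    intro t ht
    by_contra hh
    push Not at hh
    have : t = 1 := hF.eq_of_smul_eq_smul (α := Ω) fun z => by rw [hh z, one_smul]
    rw [this, orderOf_one] at ht
    omega
  -- fixed point counts
  have hfix : ∀ t : G, orderOf t = 2 → Nat.card (MulAction.fixedBy Ω t) ≤ 2 ∧
      Nat.card (MulAction.fixedBy Ω t) % 2 = Fintype.card Ω % 2 := by
    intro t ht
    constructor
    · by_contra hh
      push Not at hh
      rw [Nat.card_eq_fintype_card] at hh
      obtain ⟨x, y, z, hxy, hxz, hyz⟩ := Fintype.two_lt_card_iff.1 hh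
      have := hthree t x y z (Subtype.coe_injective.ne hxy) (Subtype.coe_injective.ne hyz) (Subtype.coe_injective.ne hxz) x.2 y.2 z.2
      rw [this, orderOf_one] at ht
      omega
    · haveI : Fact (Nat.Prime 2) := ⟨Nat.prime_two⟩
      have hp : IsPGroup 2 (Subgroup.zpowers t) := IsPGroup.of_card (n := 1) (by rw [Nat.card_zpowers, ht, pow_one])
      have h := hp.card_modEq_card_fixedPoints Ω
      have he : MulAction.fixedPoints (Subgroup.zpowers t) Ω = MulAction.fixedBy Ω t := by
        ext x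
        refine ⟨fun h => h ⟨t, Subgroup.mem_zpowers t⟩, fun h => ?_⟩
        rintro ⟨u, i, rfl⟩
        exact MulAction.fixedBy_subset_fixedBy_zpow Ω t i h
      rw [he, Nat.card_eq_fintype_card (α := Ω)] at h
      exact h.symm
  refine ⟨?_, fun t ht ha hb => ?_, fun hev hH => ?_⟩
  · have heven : 2 ∣ Nat.card G := by
      obtain ⟨g, g1, g2⟩ := hG2 hab (Ne.symm hab)
      have hgo : 2 ∣ orderOf g := by
        by_contra hodd
        obtain ⟨m, hm⟩ := exists_pow_eq_self_of_coprime ((Nat.prime_two.coprime_iff_not_dvd).2 hodd)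
        refine hab ?_
        have hsq : (g ^ 2) • a = a := by rw [pow_two, mul_smul, g1, g2]
        have : ∀ m : ℕ, ((g ^ 2) ^ m) • a = a := by
          intro m
          induction m with
          | zero => simp
          | succ m ih => rw [pow_succ, mul_smul, hsq, ih]
        have h := this m
        rw [hm] at h
        rw [← g1, h]
      exact hgo.trans (orderOf_dvd_natCard g)
    obtain ⟨t, ht⟩ := exists_prime_orderOf_dvd_card' 2 heven
    obtain ⟨c, hc⟩ := hmoves t ht
    obtain ⟨g, h1, h2', h3, -⟩ := hswap t ht c hc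
    exact ⟨_, h1, h2', h3⟩
  · obtain ⟨hle, hpar⟩ := hfix t ht
    refine ⟨fun ho => ?_, fun he => ?_⟩
    · rw [Nat.odd_iff] at ho; omega
    · rw [Nat.even_iff] at he; omega
  · obtain ⟨z, hz⟩ := exists_prime_orderOf_dvd_card' 2 (even_iff_two_dvd.1 hH)
    have hz' : orderOf (z : G) = 2 := by rw [Subgroup.orderOf_coe, hz]
    obtain ⟨c, hc⟩ := hmoves _ hz'
    obtain ⟨g, h1, h2', h3, h4⟩ := hswap _ hz' c hc
    refine ⟨_, h1, h2', h3, ?_⟩
    rw [h4]
    obtain ⟨hle, -⟩ := hfix _ hz'
    have hge : 2 ≤ Nat.card (MulAction.fixedBy Ω (z : G)) := by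
      rw [Nat.card_eq_fintype_card]
      exact Fintype.one_lt_card_iff.2 ⟨⟨a, z.2.1⟩, ⟨b, z.2.2⟩, fun e => hab (congrArg Subtype.val e)⟩
    omega

end Cfsg.Agent.S0740
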