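import Cfsg.Statements.S0741
import Mathlib

set_option autoImplicit false
open Cfsg

namespace Cfsg.Agent.S0741

set_option linter.style.haveILetI false
open scoped commutatorElement

/-- If the two-point stabilisers of a finite Zassenhaus group of degree `n + 1` have even order `d`, then `2d ≥ n - 1`. -/
theorem result {G Ω : Type*} [Group G] [Finite G] [MulAction G Ω] [Fintype Ω] (hZ : Cfsg.IsZassenhausGroup G Ω) {a b : Ω} (hab : a ≠ b) (heven : Even (Nat.card ↥(MulAction.stabilizer G a ⊓ MulAction.stabilizer G b))) : Fintype.card Ω - 2 ≤ 2 * Nat.card ↥(MulAction.stabilizer G a ⊓ MulAction.stabilizer G b) := by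
  classical
  haveI := Fintype.ofFinite G
  obtain ⟨hF, h2, hthree, -, -⟩ := hZ
  set H := MulAction.stabilizer G a ⊓ MulAction.stabilizer G b with hH
  obtain ⟨t, ht⟩ := exists_prime_orderOf_dvd_card' (G := H) 2 (even_iff_two_dvd.1 heven)
  let X : Finset G := Finset.univ.filter fun i => orderOf i = 2 ∧ 2 ≤ (Finset.univ.filter fun x : Ω => i • x = x).card
  let P : Finset (Ω × Ω) := Finset.univ.filter fun q => q.1 ≠ q.2
  have hfix : ∀ i ∈ X, (Finset.univ.filter fun x : Ω => i • x = x).card = 2 := by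
    intro i hi
    simp only [X, Finset.mem_filter, Finset.mem_univ, true_and] at hi
    refine le_antisymm ?_ hi.2
    by_contra hh
    obtain ⟨x, hx, y, hy, z, hz, hxy, hxz, hyz⟩ := Finset.two_lt_card.1 (not_le.1 hh)
    simp only [Finset.mem_filter, Finset.mem_univ, true_and] at hx hy hz
    rw [hthree i x y z hxy hyz hxz hx hy hz, orderOf_one] at hi
    exact absurd hi.1 (by norm_num)
  -- conjugates of `t` fix every pair
  have hconj : ∀ q ∈ P, ∃ g : G, g • q.1 = a ∧ g • q.2 = b ∧ g⁻¹ * (t : G) * g ∈ X ∧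
      (g⁻¹ * (t : G) * g) • q.1 = q.1 ∧ (g⁻¹ * (t : G) * g) • q.2 = q.2 := by
    intro q hq
    simp only [P, Finset.mem_filter, Finset.mem_univ, true_and] at hq
    obtain ⟨g, g1, g2⟩ := (MulAction.is_two_pretransitive_iff (G := G) (α := Ω)).1 h2 hq hab
    have e1 : (g⁻¹ * (t : G) * g) • q.1 = q.1 := by
      rw [mul_smul, mul_smul, g1, show (t : G) • a = a from t.2.1, ← g1, inv_smul_smul]
    have e2 : (g⁻¹ * (t : G) * g) • q.2 = q.2 := by
      rw [mul_smul, mul_smul, g2, show (t : G) • b = b from t.2.2, ← g2, inv_smul_smul]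
    refine ⟨g, g1, g2, ?_, e1, e2⟩
    simp only [X, Finset.mem_filter, Finset.mem_univ, true_and]
    refine ⟨?_, Finset.one_lt_card.2 ⟨q.1, Finset.mem_filter.2 ⟨Finset.mem_univ _, e1⟩, q.2, Finset.mem_filter.2 ⟨Finset.mem_univ _, e2⟩, hq⟩⟩
    have := MulEquiv.orderOf_eq (MulAut.conj g⁻¹) (t : G)
    rw [MulAut.conj_apply, inv_inv] at this
    rw [this, Subgroup.orderOf_coe, ht]
  have hA : P.card ≤ 2 * X.card := by
    have h := Finset.sum_card_bipartiteAbove_eq_sum_card_bipartiteBelow (s := X) (t := P) (fun i q => i • q.1 = q.1 ∧ i • q.2 = q.2)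
    have hl : ∀ i ∈ X, (P.bipartiteAbove (fun i q => i • q.1 = q.1 ∧ i • q.2 = q.2) i).card = 2 := by
      intro i hi
      have e : P.bipartiteAbove (fun i q => i • q.1 = q.1 ∧ i • q.2 = q.2) i = (Finset.univ.filter fun x : Ω => i • x = x).offDiag := by
        ext q
        simp only [P, Finset.bipartiteAbove, Finset.mem_filter, Finset.mem_univ, true_and, Finset.mem_offDiag]
        tauto
      rw [e, Finset.offDiag_card, hfix i hi]
    rw [Finset.sum_congr rfl hl, Finset.sum_const, smul_eq_mul, mul_comm] at h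
    rw [h]
    calc P.card = ∑ _q ∈ P, 1 := (Finset.card_eq_sum_ones P)
      _ ≤ _ := Finset.sum_le_sum fun q hq => by
        obtain ⟨g, -, -, h1, h2', h3⟩ := hconj q hq
        exact Finset.card_pos.2 ⟨_, (Finset.mem_bipartiteBelow _).2 ⟨h1, h2', h3⟩⟩
  have hB : X.card * (Fintype.card Ω - 2) ≤ P.card * Nat.card H := by
    have h := Finset.sum_card_bipartiteAbove_eq_sum_card_bipartiteBelow (s := X) (t := P) (fun i q => i • q.1 = q.2)
    have hl : ∀ i ∈ X, (P.bipartiteAbove (fun i q => i • q.1 = q.2) i).card = Fintype.card Ω - 2 := by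
      intro i hi
      have e : P.bipartiteAbove (fun i q => i • q.1 = q.2) i =
          ((Finset.univ.filter fun x : Ω => i • x = x)ᶜ).image fun x => (x, i • x) := by
        ext ⟨x, y⟩
        simp only [P, Finset.bipartiteAbove, Finset.mem_filter, Finset.mem_univ, true_and, Finset.mem_image, Finset.mem_compl]
        constructor
        · rintro ⟨hne, rfl⟩
          exact ⟨x, fun e => hne e.symm, rfl⟩
        · rintro ⟨z, hz, e⟩
          obtain ⟨rfl, rfl⟩ := Prod.mk.injEq .. ▸ e
          exact ⟨fun e => hz e.symm, rfl⟩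
      rw [e, Finset.card_image_of_injective _ (fun x y h => congrArg Prod.fst h), Finset.card_compl, hfix i hi]
    rw [Finset.sum_congr rfl hl, Finset.sum_const, smul_eq_mul] at h
    rw [h, ← smul_eq_mul]
    refine Finset.sum_le_card_nsmul _ _ _ fun q hq => ?_
    by_cases hne : (X.bipartiteBelow (fun i q => i • q.1 = q.2) q).Nonempty
    · obtain ⟨i₀, hi₀⟩ := hne
      obtain ⟨g, g1, g2, -, -, -⟩ := hconj q hq
      have hsw : ∀ i ∈ X.bipartiteBelow (fun i q => i • q.1 = q.2) q, i • q.1 = q.2 ∧ i • q.2 = q.1 := by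
        intro i hi
        obtain ⟨hiX, hi1⟩ := (Finset.mem_bipartiteBelow _).1 hi
        simp only [X, Finset.mem_filter, Finset.mem_univ, true_and] at hiX
        refine ⟨hi1, ?_⟩
        rw [← hi1, ← mul_smul, ← pow_two, ← hiX.1, pow_orderOf_eq_one, one_smul]
      obtain ⟨s1, s2⟩ := hsw i₀ hi₀
      let F : {i // i ∈ X.bipartiteBelow (fun i q => i • q.1 = q.2) q} → H := fun i =>
        ⟨g * (i₀⁻¹ * (i : G)) * g⁻¹, by
          obtain ⟨r1, r2⟩ := hsw i i.2
          refine ⟨?_, ?_⟩
          · show (g * (i₀⁻¹ * (i : G)) * g⁻¹) • a = a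
            rw [mul_smul, mul_smul, mul_smul, ← g1, inv_smul_smul, r1, ← s1, inv_smul_smul]
          · show (g * (i₀⁻¹ * (i : G)) * g⁻¹) • b = b
            rw [mul_smul, mul_smul, mul_smul, ← g2, inv_smul_smul, r2, ← s2, inv_smul_smul]⟩
      have hFi : Function.Injective F := fun i j hij => Subtype.ext (mul_left_cancel (mul_left_cancel (mul_right_cancel (congrArg Subtype.val hij))))
      calc _ = Nat.card {i // i ∈ X.bipartiteBelow (fun i q => i • q.1 = q.2) q} := (Nat.card_eq_finsetCard _).symm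
        _ ≤ Nat.card H := Nat.card_le_card_of_injective F hFi
    · rw [Finset.not_nonempty_iff_eq_empty.1 hne]; simp
  have hX : 0 < X.card := by
    obtain ⟨g, -, -, h1, -⟩ := hconj (a, b) (Finset.mem_filter.2 ⟨Finset.mem_univ _, hab⟩)
    exact Finset.card_pos.2 ⟨_, h1⟩
  refine Nat.le_of_mul_le_mul_left ?_ hX
  calc _ ≤ _ := hB
    _ ≤ 2 * X.card * Nat.card H := Nat.mul_le_mul_right _ hA
    _ = _ := by ring

end Cfsg.Agent.S0741
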