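import Cfsg.Statements.S0744
import Cfsg.Agent.Lib.Perm.Gleason

set_option autoImplicit false
open Cfsg

namespace Cfsg.Agent.S0744

/-- If for some `k > 1` the pointwise stabilisers of all `(k-1)`-subsets have the same order `> 1` and those of all `k`-subsets have the same order, then the group is `(k-1)`-transitive. -/
theorem result {α : Type*} [Fintype α] [DecidableEq α] (G : Subgroup (Equiv.Perm α)) {k : ℕ} (hk : 1 < k) (hkn : k ≤ Fintype.card α) (l m : ℕ) (hl : 1 < l) (hkm1 : ∀ s : Finset α, s.card = k - 1 → Nat.card (fixingSubgroup G (s : Set α)) = l) (hkm : ∀ s : Finset α, s.card = k → Nat.card (fixingSubgroup G (s : Set α)) = m) : MulAction.IsMultiplyPretransitive G α (k - 1) := by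
  classical
  obtain ⟨s₀, -, hs₀⟩ := Finset.exists_subset_card_eq
    (s := (Finset.univ : Finset α)) (n := k - 1) (by rw [Finset.card_univ]; omega)
  have hlm : m ∣ l ∧ m < l := by
    obtain ⟨x, hx⟩ : ∃ x, x ∉ s₀ := by
      by_contra hall
      push Not at hall
      rw [Finset.eq_univ_of_forall hall, Finset.card_univ] at hs₀
      omega
    have hm := hkm (insert x s₀) (by rw [Finset.card_insert_of_notMem hx, hs₀]; omega)
    have hl' := hkm1 s₀ hs₀
    have hle : fixingSubgroup G ((insert x s₀ : Finset α) : Set α) ≤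
        fixingSubgroup G (s₀ : Set α) :=
      fixingSubgroup_antitone G α (by simp)
    refine ⟨hm ▸ hl' ▸ Subgroup.card_dvd_of_le hle, lt_of_le_of_ne
      (hm ▸ hl' ▸ Nat.le_of_dvd Nat.card_pos (Subgroup.card_dvd_of_le hle)) fun he => ?_⟩
    have hbot : fixingSubgroup G (s₀ : Set α) = ⊥ := by
      refine (Subgroup.eq_bot_iff_forall _).2 fun g hg => Subtype.ext (Equiv.ext fun y => ?_)
      by_cases hy : y ∈ s₀
      · exact (mem_fixingSubgroup_iff G).1 hg y hy
      · have hmy := hkm (insert y s₀) (by rw [Finset.card_insert_of_notMem hy, hs₀]; omega)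
        have hle' : fixingSubgroup G ((insert y s₀ : Finset α) : Set α) ≤
            fixingSubgroup G (s₀ : Set α) :=
          fixingSubgroup_antitone G α (by simp)
        rw [← Subgroup.eq_of_le_of_card_ge hle' (by rw [hl', hmy, he])] at hg
        exact (mem_fixingSubgroup_iff G).1 hg y (by simp)
    rw [hbot, Subgroup.card_bot] at hl'
    omega
  obtain ⟨⟨r, hr⟩, hml⟩ := hlm
  have hm0 : 0 < m := by
    rcases Nat.eq_zero_or_pos m with h | h
    · rw [h, zero_mul] at hr; omega
    · exact h
  have hr1 : r ≠ 1 := fun h => by rw [h, mul_one] at hr; omega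
  obtain ⟨p, hp, hpr⟩ := Nat.exists_prime_and_dvd hr1
  haveI := Fact.mk hp
  refine CfsgLib.Perm.gleason hp (k - 1) (by rw [Nat.card_eq_fintype_card]; omega) fun s hs => ?_
  obtain ⟨P⟩ := (inferInstance : Nonempty (Sylow p (fixingSubgroup G (s : Set α))))
  refine ⟨(P : Subgroup _).map (fixingSubgroup G (s : Set α)).subtype, P.2.map _, ?_⟩
  ext x
  constructor
  · intro hx
    by_contra hxs
    have hmx := hkm (insert x s) (by rw [Finset.card_insert_of_notMem hxs, hs]; omega)
    have hsub : (P : Subgroup _).map (fixingSubgroup G (s : Set α)).subtype ≤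
        fixingSubgroup G ((insert x s : Finset α) : Set α) := by
      rintro g ⟨g', hg', rfl⟩
      rw [mem_fixingSubgroup_iff]
      intro y hy
      rcases Finset.mem_insert.1 hy with rfl | hy
      · exact hx ⟨g', ⟨g', hg', rfl⟩⟩
      · exact (mem_fixingSubgroup_iff G).1 g'.2 y hy
    have hdvd := Subgroup.card_dvd_of_le hsub
    rw [hmx, Subgroup.card_map_of_injective (Subgroup.subtype_injective _),
      P.card_eq_multiplicity, hkm1 s hs] at hdvd
    have hpm : p ^ (m.factorization p + 1) ∣ p ^ l.factorization p := by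
      refine pow_dvd_pow p ?_
      rw [hr, Nat.factorization_mul hm0.ne' (by rintro rfl; omega)]
      have := hp.factorization_pos_of_dvd (n := r) (by rintro rfl; omega) hpr
      rw [Finsupp.add_apply]
      omega
    exact Nat.pow_succ_factorization_not_dvd hm0.ne' hp (hpm.trans hdvd)
  · intro hxs g
    obtain ⟨g, g', hg', rfl⟩ := g
    exact (mem_fixingSubgroup_iff G).1 g'.2 x hxs

end Cfsg.Agent.S0744
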