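import Cfsg.Statements.S0752
import Mathlib

set_option autoImplicit false
open Cfsg

namespace Cfsg.Agent.S0752

/-- Classification of alternating forms: for an alternating bilinear form B on a finite-dimensional space over any field there is a basis indexed by (Fin m ⊕ Fin m) ⊕ Fin k such that B (e_i, f_j) = δ_ij, the e's are pairwise orthogonal, the f's are pairwise orthogonal, and the last k basis vectors are orthogonal to everything (they span the radical). -/
theorem result {F V : Type*} [Field F] [AddCommGroup V] [Module F V] [FiniteDimensional F V] (B : LinearMap.BilinForm F V) (hA : B.IsAlt) : ∃ (m k : ℕ) (b : Module.Basis ((Fin m ⊕ Fin m) ⊕ Fin k) F V), (∀ i j : Fin m, B (b (Sum.inl (Sum.inl i))) (b (Sum.inl (Sum.inr j))) = if i = j then 1 else 0) ∧ (∀ i j : Fin m, B (b (Sum.inl (Sum.inl i))) (b (Sum.inl (Sum.inl j))) = 0) ∧ (∀ i j : Fin m, B (b (Sum.inl (Sum.inr i))) (b (Sum.inl (Sum.inr j))) = 0) ∧ (∀ (j : Fin k) (v : V), B (b (Sum.inr j)) v = 0) := by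
  suffices H : ∀ (d : ℕ) (W : Submodule F V), Module.finrank F W = d →
      ∃ (m k : ℕ) (v : (Fin m ⊕ Fin m) ⊕ Fin k → V), 2 * m + k = d ∧ (∀ i, v i ∈ W) ∧ W ≤ Submodule.span F (Set.range v) ∧
        (∀ i j : Fin m, B (v (Sum.inl (Sum.inl i))) (v (Sum.inl (Sum.inr j))) = if i = j then 1 else 0) ∧
        (∀ i j : Fin m, B (v (Sum.inl (Sum.inl i))) (v (Sum.inl (Sum.inl j))) = 0) ∧
        (∀ i j : Fin m, B (v (Sum.inl (Sum.inr i))) (v (Sum.inl (Sum.inr j))) = 0) ∧
        (∀ (j : Fin k), ∀ x ∈ W, B (v (Sum.inr j)) x = 0) by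
    obtain ⟨m, k, v, hd, -, hspan, h1, h2, h3, h4⟩ := H _ ⊤ rfl
    have hcard : Fintype.card ((Fin m ⊕ Fin m) ⊕ Fin k) = Module.finrank F V := by
      simp at hd ⊢; omega
    refine ⟨m, k, basisOfTopLeSpanOfCardEqFinrank v hspan hcard, ?_, ?_, ?_, ?_⟩ <;>
      simp only [coe_basisOfTopLeSpanOfCardEqFinrank]
    exacts [h1, h2, h3, fun j x => h4 j x trivial]
  intro d
  induction d using Nat.strong_induction_on with
  | _ d ih =>
  intro W hW
  by_cases hzero : ∀ x ∈ W, ∀ y ∈ W, B x y = 0
  · subst hW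
    let e := Module.finBasis F W
    refine ⟨0, Module.finrank F W, Sum.elim (fun i => i.elim (fun j => j.elim0) fun j => j.elim0) (fun j => (e j : V)),
      by simp, ?_, ?_, fun i => i.elim0, fun i => i.elim0, fun i => i.elim0, fun j x hx => hzero _ (e j).2 x hx⟩
    · rintro ((i | i) | j)
      · exact i.elim0
      · exact i.elim0
      · exact (e j).2
    · intro x hx
      have := congrArg (fun z : W => (z : V)) (e.sum_repr ⟨x, hx⟩)
      simp only [Submodule.coe_sum, Submodule.coe_smul] at this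
      rw [← this]
      exact Submodule.sum_mem _ fun i _ => Submodule.smul_mem _ _ (Submodule.subset_span ⟨Sum.inr i, rfl⟩)
  · push Not at hzero
    obtain ⟨x, hx, y₀, hy₀, hxy₀⟩ := hzero
    obtain ⟨y, hy, hxy⟩ : ∃ y ∈ W, B x y = 1 := ⟨(B x y₀)⁻¹ • y₀, W.smul_mem _ hy₀, by simp [hxy₀]⟩
    have hyx : B y x = -1 := by rw [← LinearMap.IsAlt.neg hA x y, hxy]
    set K := W ⊓ (LinearMap.ker (B x) ⊓ LinearMap.ker (B y)) with hK
    have hmem : ∀ z, z ∈ K ↔ z ∈ W ∧ B x z = 0 ∧ B y z = 0 := fun z => by simp [hK]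
    have hdec : ∀ z ∈ W, z - B x z • y + B y z • x ∈ K := fun z hz => by
      refine (hmem _).2 ⟨W.add_mem (W.sub_mem hz (W.smul_mem _ hy)) (W.smul_mem _ hx), ?_, ?_⟩
      · simp [hxy, hA x]
      · simp [hyx, hA y]
    have hlt : Module.finrank F K < d := by
      rw [← hW]
      refine Submodule.finrank_lt_finrank_of_lt (lt_of_le_of_ne inf_le_left fun h => ?_)
      have := ((hmem y).1 (h.symm ▸ hy)).2.1
      rw [hxy] at this
      exact one_ne_zero this
    obtain ⟨m, k, v, hd, hvK, hspan, h1, h2, h3, h4⟩ := ih _ hlt K rfl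
    have hperp : ∀ i, B x (v i) = 0 ∧ B y (v i) = 0 ∧ B (v i) x = 0 ∧ B (v i) y = 0 := fun i => by
      obtain ⟨-, e1, e2⟩ := (hmem _).1 (hvK i)
      exact ⟨e1, e2, by rw [← LinearMap.IsAlt.neg hA x, e1, neg_zero], by rw [← LinearMap.IsAlt.neg hA y, e2, neg_zero]⟩
    let v' : (Fin (m + 1) ⊕ Fin (m + 1)) ⊕ Fin k → V :=
      Sum.elim (Sum.elim (Fin.cons x fun i => v (Sum.inl (Sum.inl i))) (Fin.cons y fun i => v (Sum.inl (Sum.inr i))))
        (fun j => v (Sum.inr j))
    have hspan' : W ≤ Submodule.span F (Set.range v') := by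
      have hK' : Submodule.span F (Set.range v) ≤ Submodule.span F (Set.range v') := Submodule.span_mono (by
        rintro _ ⟨(i | i) | j, rfl⟩
        · exact ⟨Sum.inl (Sum.inl i.succ), by simp [v']⟩
        · exact ⟨Sum.inl (Sum.inr i.succ), by simp [v']⟩
        · exact ⟨Sum.inr j, rfl⟩)
      intro z hz
      rw [show z = (z - B x z • y + B y z • x) + B x z • y - B y z • x by abel]
      refine Submodule.sub_mem _ (Submodule.add_mem _ (hK' (hspan (hdec z hz))) (Submodule.smul_mem _ _ ?_)) (Submodule.smul_mem _ _ ?_)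
      · exact Submodule.subset_span ⟨Sum.inl (Sum.inr 0), rfl⟩
      · exact Submodule.subset_span ⟨Sum.inl (Sum.inl 0), rfl⟩
    have hdim : 2 * (m + 1) + k = d := by
      have hle : d ≤ 2 * (m + 1) + k := by
        rw [← hW]
        refine (Submodule.finrank_mono hspan').trans ((finrank_range_le_card v').trans (le_of_eq ?_))
        simp; omega
      have hge : Module.finrank F K + 2 ≤ d := by
        have hxyd : K ⊓ Submodule.span F (Set.range ![x, y]) = ⊥ := by
          refine (Submodule.eq_bot_iff _).2 fun z hz => ?_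
          obtain ⟨hzK, hzs⟩ := hz
          obtain ⟨c, rfl⟩ := (Submodule.mem_span_range_iff_exists_fun _).1 hzs
          obtain ⟨-, e1, e2⟩ := (hmem _).1 hzK
          simp [Fin.sum_univ_two, hxy, hyx, hA x, hA y] at e1 e2 ⊢
          simp [e1, e2]
        have hli : LinearIndependent F ![x, y] := by
          rw [LinearIndependent.pair_iff]
          intro s t hst
          have a1 := congrArg (B x) hst
          have a2 := congrArg (B y) hst
          simp [hxy, hyx, hA x, hA y] at a1 a2
          exact ⟨a2, a1⟩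
        have := Submodule.finrank_sup_add_finrank_inf_eq K (Submodule.span F (Set.range ![x, y]))
        rw [hxyd, finrank_bot, finrank_span_eq_card hli, Fintype.card_fin] at this
        have hle2 : Module.finrank F ↑(K ⊔ Submodule.span F (Set.range ![x, y])) ≤ d := by
          rw [← hW]
          refine Submodule.finrank_mono (sup_le inf_le_left (Submodule.span_le.2 ?_))
          rintro _ ⟨i, rfl⟩; fin_cases i <;> assumption
        omega
      omega
    refine ⟨m + 1, k, v', hdim, ?_, hspan', ?_, ?_, ?_, ?_⟩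
    · rintro ((i | i) | j)
      · refine Fin.cases ?_ (fun l => ?_) i
        · simpa [v'] using hx
        · simpa [v'] using ((hmem _).1 (hvK _)).1
      · refine Fin.cases ?_ (fun l => ?_) i
        · simpa [v'] using hy
        · simpa [v'] using ((hmem _).1 (hvK _)).1
      · exact ((hmem _).1 (hvK _)).1
    · intro i j
      refine Fin.cases ?_ (fun a => ?_) i <;> refine Fin.cases ?_ (fun b => ?_) j <;>
        simp [v', hxy, h1, hperp, (Fin.succ_ne_zero _).symm]
    · intro i j
      refine Fin.cases ?_ (fun a => ?_) i <;> refine Fin.cases ?_ (fun b => ?_) j <;>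
        simp [v', hA x, h2, hperp]
    · intro i j
      refine Fin.cases ?_ (fun a => ?_) i <;> refine Fin.cases ?_ (fun b => ?_) j <;>
        simp [v', hA y, h3, hperp]
    · intro j z hz
      have := h4 j _ (hdec z hz)
      simpa [v', (hperp (Sum.inr j)).2.2] using this

end Cfsg.Agent.S0752
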