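import Cfsg.Statements.S0753
import Mathlib


set_option autoImplicit false
open Cfsg

namespace Cfsg.Agent.S0753

/-- If σ is a ring endomorphism of the field F other than the identity and B is a σ-sesquilinear conjugate-symmetric form with B v v = 0 for every v, then B = 0. -/
theorem result {F V : Type*} [Field F] [AddCommGroup V] [Module F V] (σ : F →+* F) (hσ : σ ≠ RingHom.id F) (B : V →ₛₗ[σ] V →ₗ[F] F) (hS : B.IsSymm) (h0 : ∀ v : V, B v v = 0) : B = 0 := by
  have hadd : ∀ u v, B u v + B v u = 0 := by
    intro u v
    have := h0 (u + v)
    simp [map_add, LinearMap.add_apply, h0] at this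
    rw [add_comm] at this
    linear_combination this
  -- σ (B u v) = B v u = - B u v
  have hneg : ∀ u v, σ (B u v) = - B u v := by
    intro u v
    rw [hS.eq u v]; linear_combination hadd u v
  have hid : ∀ u v, B u v = 0 := by
    intro u v
    by_contra hne
    apply hσ
    ext a
    have h1 := hneg u (a • v)
    rw [map_smul, smul_eq_mul, map_mul, hneg u v] at h1
    simp only [RingHom.id_apply]
    have : (σ a - a) * B u v = 0 := by linear_combination -h1
    exact sub_eq_zero.mp ((mul_eq_zero.mp this).resolve_right hne)
  ext u v
  simp [hid]

end Cfsg.Agent.S0753
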