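import Cfsg.Statements.S0754
import Mathlib


set_option autoImplicit false
open Cfsg

namespace Cfsg.Agent.S0754

/-- In a field F with q^2 elements, every non-zero μ with μ^q = μ (that is, μ in the subfield of order q) has exactly q + 1 solutions λ of λ^(q+1) = μ. -/
theorem result {F : Type*} [Field F] [Fintype F] {q : ℕ} (hF : Fintype.card F = q ^ 2) (μ : F) (hμ : μ ≠ 0) (hμq : μ ^ q = μ) : Nat.card {x : F // x ^ (q + 1) = μ} = q + 1 := by
  classical
  have hq : 2 ≤ q := by
    have := Fintype.one_lt_card (α := F)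
    rw [hF] at this
    by_contra h
    interval_cases q <;> simp at this
  obtain ⟨g, hg⟩ := IsCyclic.exists_ofOrder_eq_natCard (α := Fˣ)
  have hcard : Nat.card Fˣ = (q + 1) * (q - 1) := by
    rw [Nat.card_units, Nat.card_eq_fintype_card, hF, ← Nat.sq_sub_sq, one_pow]
  have hroot : (μ : F) ^ (q - 1) = 1 := by
    have : μ ^ (q - 1) * μ = 1 * μ := by rw [← pow_succ, Nat.sub_add_cancel (by omega), hμq, one_mul]
    exact mul_right_cancel₀ hμ this
  obtain ⟨j, hj⟩ : ∃ j : ℕ, g ^ j = Units.mk0 μ hμ := by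
    have h : Units.mk0 μ hμ ∈ Subgroup.zpowers g := by
      rw [Subgroup.eq_top_of_card_eq (Subgroup.zpowers g) (by rw [Nat.card_zpowers, hg])]; trivial
    exact (mem_powers_iff_mem_zpowers.mpr h)
  have hdvd : q + 1 ∣ j := by
    have h1 : g ^ (j * (q - 1)) = 1 := by
      rw [pow_mul, hj]; ext; simpa using hroot
    have := orderOf_dvd_of_pow_eq_one h1
    rw [hg, hcard] at this
    exact Nat.dvd_of_mul_dvd_mul_right (by omega) this
  obtain ⟨k, hk⟩ := hdvd
  have hx0 : ∃ x : F, x ^ (q + 1) = μ := by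
    refine ⟨((g ^ k : Fˣ) : F), ?_⟩
    rw [← Units.val_pow_eq_pow_val, ← pow_mul, mul_comm, ← hk, hj]; rfl
  have hne : NeZero (q + 1) := ⟨by omega⟩
  have hprim : IsPrimitiveRoot ((g ^ (q - 1) : Fˣ) : F) (q + 1) := by
    rw [IsPrimitiveRoot.coe_units_iff]
    refine IsPrimitiveRoot.iff_def _ _ |>.mpr ⟨by rw [← pow_mul, mul_comm, ← hcard, pow_card_eq_one'], ?_⟩
    intro l hl
    rw [← pow_mul] at hl
    have := orderOf_dvd_of_pow_eq_one hl
    rw [hg, hcard, mul_comm (q + 1)] at this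
    exact Nat.dvd_of_mul_dvd_mul_left (by omega) this
  obtain ⟨x, hx⟩ := hx0
  have key : {y : F | y ^ (q + 1) = μ} = ((Polynomial.nthRoots (q + 1) μ).toFinset : Set F) := by
    ext y; simp [Polynomial.mem_nthRoots (Nat.succ_pos q)]
  have hnd := hprim.nthRoots_nodup hμ
  have hc : Multiset.card (Polynomial.nthRoots (q + 1) μ) = q + 1 := by
    rw [hprim.card_nthRoots]
    simp [show ∃ a, a ^ (q + 1) = μ from ⟨x, hx⟩]
  change Nat.card ↥{y : F | y ^ (q + 1) = μ} = q + 1
  rw [key, Nat.card_coe_set_eq, Set.ncard_coe_finset, Multiset.toFinset_card_of_nodup hnd, hc]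

end Cfsg.Agent.S0754
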