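import Cfsg.Statements.S0755
import Mathlib
import Cfsg.Agent.Lib.Forms.Represent

set_option autoImplicit false
open Cfsg

namespace Cfsg.Agent.S0755

open CfsgLib.Forms

/-- Classification of Hermitian forms over finite fields: if σ is a non-identity involutive automorphism of the finite field F and B is a non-degenerate conjugate-symmetric σ-sesquilinear form on the finite-dimensional space V, then V has a B-orthonormal basis. -/
theorem result {F V : Type*} [Field F] [Finite F] [AddCommGroup V] [Module F V] [FiniteDimensional F V] (σ : F →+* F) (hσ : σ ≠ RingHom.id F) (hσ2 : ∀ a : F, σ (σ a) = a) (B : V →ₛₗ[σ] V →ₗ[F] F) (hS : B.IsSymm) (hB : B.Nondegenerate) : ∃ b : Module.Basis (Fin (Module.finrank F V)) F V, ∀ i j, B (b i) (b j) = if i = j then 1 else 0 := by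
  obtain ⟨v, hv, hv1⟩ := Diag.exists_family B hS.eq hB.1 rfl (fun _ a => a = 1) (fun _ a h => by simp [h]) (by
    intro W hpos hnd
    obtain ⟨x, hxW, hx0⟩ : ∃ x ∈ W, B x x ≠ 0 := by
      by_contra h
      push Not at h
      obtain ⟨a, ha⟩ : ∃ a : W, a ≠ 0 := by
        haveI := Module.finrank_pos_iff.1 hpos
        exact exists_ne 0
      obtain ⟨c, hc, hac⟩ : ∃ c ∈ W, B a c ≠ 0 := by
        by_contra h'
        push Not at h'
        exact ha (Subtype.ext (hnd a a.2 h'))
      have hskew : ∀ p q, p ∈ W → q ∈ W → B p q + σ (B p q) = 0 := fun p q hp hq => by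
        have := h (p + q) (W.add_mem hp hq)
        rw [hS.eq]
        simpa [h p hp, h q hq, map_add, add_comm] using this
      have e1 : ∀ t : F, t + σ t = 0 := fun t => by
        have := hskew a ((t / B a c) • c) a.2 (W.smul_mem _ hc)
        simpa [hac] using this
      have h1 : (1 : F) + 1 = 0 := by simpa using e1 1
      exact hσ (RingHom.ext fun t => by rw [RingHom.id_apply]; linear_combination e1 t - t * h1)
    -- norms are surjective onto the fixed field
    obtain ⟨a, ha⟩ : ∃ a, B x x = a := ⟨_, rfl⟩
    rw [ha] at hx0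
    have hfix : σ a⁻¹ = a⁻¹ := by rw [map_inv₀, ← ha, hS.eq]
    obtain ⟨s, hs⟩ := Represent.exists_norm σ hσ hσ2 hfix
    exact ⟨s • x, W.smul_mem _ hxW, by
      simp only [LinearMap.map_smulₛₗ, LinearMap.smul_apply, RingHom.id_apply, smul_eq_mul, ha]
      rw [show s * (σ s * a) = (σ s * s) * a by ring, hs, inv_mul_cancel₀ hx0]
    ⟩)
  have hli := Diag.indep B v hv (fun i => by rw [hv1]; exact one_ne_zero)
  refine ⟨basisOfLinearIndependentOfCardEqFinrank' _ hli (by simp), fun i j => ?_⟩
  simp only [coe_basisOfLinearIndependentOfCardEqFinrank']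
  split
  · subst_vars; exact hv1 _
  · exact hv _ _ ‹_›

end Cfsg.Agent.S0755
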