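import Cfsg.Statements.S0757
import Mathlib
import Cfsg.Agent.Lib.Forms.Classify

set_option autoImplicit false
open Cfsg

namespace Cfsg.Agent.S0757

open CfsgLib.Forms

/-- The two diagonal forms Σ x_i^2 and Σ_(i<n) x_i^2 + α x_n^2 on F^(n+1), with α a non-square and 2 ≠ 0 in F, are inequivalent quadratic forms (so over a finite field of odd order there are exactly two classes of non-singular symmetric bilinear forms in each dimension). -/
theorem result {F : Type*} [Field F] (h2 : (2 : F) ≠ 0) (n : ℕ) (α : F) (hα : ¬ IsSquare α) : ¬ (QuadraticMap.weightedSumSquares F (fun _ : Fin (n + 1) => (1 : F))).Equivalent (QuadraticMap.weightedSumSquares F (fun i : Fin (n + 1) => if i = Fin.last n then α else (1 : F))) := by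
  rintro ⟨f⟩
  set w : Fin (n + 1) → F := fun i => if i = Fin.last n then α else 1 with hw
  set Q₂ := QuadraticMap.weightedSumSquares F w with hQ₂
  set Q₁ := QuadraticMap.weightedSumSquares F (fun _ : Fin (n + 1) => (1 : F)) with hQ₁
  have std : ∀ (c : Fin (n + 1) → F) i j, QuadraticMap.polar (QuadraticMap.weightedSumSquares F c)
      (Pi.basisFun F (Fin (n + 1)) i) (Pi.basisFun F (Fin (n + 1)) j) = if i = j then 2 * c i else 0 := by
    intro c i j
    simp only [QuadraticMap.polar, QuadraticMap.weightedSumSquares_apply, Pi.basisFun_apply, smul_eq_mul,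
      ← Finset.sum_sub_distrib]
    split_ifs with h
    · subst h
      rw [Finset.sum_eq_single i (fun k _ hk => by simp [hk]) (by simp)]
      simp; ring
    · refine Finset.sum_eq_zero fun k _ => ?_
      by_cases hi : k = i
      · subst hi; simp [h]
      · simp [hi]
  let u := (Pi.basisFun F (Fin (n + 1))).map f.toLinearEquiv
  have hu : ∀ i j, QuadraticMap.polar Q₂ (u i) (u j) = if i = j then (2 : F) else 0 := by
    intro i j
    have e : ∀ v, Q₂ (f.toLinearEquiv v) = Q₁ v := fun v => f.map_app v
    have : QuadraticMap.polar Q₂ (u i) (u j) =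
        QuadraticMap.polar Q₁ (Pi.basisFun F (Fin (n + 1)) i) (Pi.basisFun F (Fin (n + 1)) j) := by
      simp only [QuadraticMap.polar, u, Module.Basis.map_apply, ← map_add, e]
    rw [this, hQ₁, std]
    simp
  have hsq := Classify.disc_rel (QuadraticMap.polarBilin Q₂) u (Pi.basisFun F (Fin (n + 1)))
    (fun i j h => by rw [QuadraticMap.polarBilin_apply_apply, hu, if_neg h])
    (fun i j h => by rw [QuadraticMap.polarBilin_apply_apply, hQ₂, std, if_neg h])
  have hww : ∀ i, QuadraticMap.polar Q₂ (Pi.basisFun F (Fin (n + 1)) i) (Pi.basisFun F (Fin (n + 1)) i) = 2 * w i :=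
    fun i => by rw [hQ₂, std, if_pos rfl]
  simp only [QuadraticMap.polarBilin_apply_apply, hu, hww, if_true, Finset.prod_mul_distrib, Finset.prod_const,
    Finset.card_univ, Fintype.card_fin] at hsq
  have hp : ∏ i, w i = α := by simp [hw]
  rw [hp] at hsq
  obtain ⟨r, hr⟩ := hsq
  have h2n : (2 : F) ^ (n + 1) ≠ 0 := pow_ne_zero _ h2
  exact hα ⟨r / 2 ^ (n + 1), by field_simp; linear_combination hr⟩

end Cfsg.Agent.S0757
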