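import Cfsg.Statements.S0758
import Mathlib

set_option autoImplicit false
open Cfsg

namespace Cfsg.Agent.S0758

/-- For a finite field F of odd order q and a non-square α: the form x² + y² is isotropic iff q ≡ 1 mod 4, and the form x² + α y² is isotropic iff q ≡ 3 mod 4. -/
theorem result {F : Type*} [Field F] [Fintype F] (h2 : (2 : F) ≠ 0) (α : F) (hα : ¬ IsSquare α) : ((∃ x y : F, (x ≠ 0 ∨ y ≠ 0) ∧ x ^ 2 + y ^ 2 = 0) ↔ Fintype.card F % 4 = 1) ∧ ((∃ x y : F, (x ≠ 0 ∨ y ≠ 0) ∧ x ^ 2 + α * y ^ 2 = 0) ↔ Fintype.card F % 4 = 3) := by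
  haveI := Classical.decEq F
  have hF : ringChar F ≠ 2 := fun h => h2 (by
    haveI : CharP F 2 := ringChar.of_eq h
    exact CharTwo.two_eq_zero)
  have hodd := FiniteField.odd_card_of_char_ne_two hF
  have iso : ∀ b : F, (∃ x y : F, (x ≠ 0 ∨ y ≠ 0) ∧ x ^ 2 + b * y ^ 2 = 0) ↔ IsSquare (-b) := by
    refine fun b => ⟨?_, ?_⟩
    · rintro ⟨x, y, hne, h⟩
      have hy : y ≠ 0 := by
        rintro rfl
        rcases hne with hx | hy
        · exact hx (pow_eq_zero_iff two_ne_zero |>.1 (by linear_combination h))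
        · exact hy rfl
      exact ⟨x / y, by field_simp; linear_combination -h⟩
    · rintro ⟨r, hr⟩
      exact ⟨r, 1, Or.inr one_ne_zero, by linear_combination -hr⟩
  refine ⟨?_, ?_⟩
  · have h := iso 1
    simp only [one_mul] at h
    rw [h, FiniteField.isSquare_neg_one_iff]
    omega
  · rw [iso α]
    have hα0 : α ≠ 0 := by rintro rfl; exact hα IsSquare.zero
    have key : IsSquare (-α) ↔ ¬ IsSquare (-1 : F) := by
      rw [← quadraticChar_one_iff_isSquare (neg_ne_zero.2 hα0), ← quadraticChar_neg_one_iff_not_isSquare,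
        show -α = -1 * α by ring, map_mul, quadraticChar_neg_one_iff_not_isSquare.2 hα]
      constructor <;> intro h <;> linarith
    rw [key, FiniteField.isSquare_neg_one_iff, not_not]

end Cfsg.Agent.S0758
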