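import Cfsg.Statements.S0759
import Mathlib
import Cfsg.Agent.Lib.Forms.TensorType

set_option autoImplicit false
open Cfsg

namespace Cfsg.Agent.S0759

open CfsgLib.Forms.TensorType

/-- Type of the orthonormal form: over a finite field of odd order q and for m ≥ 1, the quadratic form Σ_(i<2m) x_i² on F^(2m) admits an m-dimensional subspace on which it vanishes identically if and only if it is not the case that q ≡ 3 (mod 4) and m is odd. -/
theorem result {F : Type*} [Field F] [Fintype F] (h2 : (2 : F) ≠ 0) (m : ℕ) (hm : 1 ≤ m) : (∃ W : Submodule F (Fin (2 * m) → F), Module.finrank F W = m ∧ ∀ w ∈ W, ∑ i, w i ^ 2 = 0) ↔ ¬ (Fintype.card F % 4 = 3 ∧ Odd m) := by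
  classical
  let B : LinearMap.BilinForm F (Fin (2 * m) → F) := Matrix.toBilin' 1
  have hB : ∀ x y, B x y = ∑ i, x i * y i := fun x y => by
    rw [Matrix.toBilin'_apply']; simp [dotProduct]
  have hmat : LinearMap.BilinForm.toMatrix (Pi.basisFun F (Fin (2 * m))) B = 1 := by
    ext i j
    rw [LinearMap.BilinForm.toMatrix_apply, hB]
    simp [Pi.single_apply, Matrix.one_apply, eq_comm]
  have h := half_iff h2 B (fun x y => by rw [hB, hB]; exact Finset.sum_congr rfl fun i _ => mul_comm _ _)
    (Pi.basisFun F (Fin (2 * m))) (by rw [hmat, Matrix.det_one]; exact one_ne_zero) m hm (by simp)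
  rw [hmat, Matrix.det_one, mul_one] at h
  have hq : IsSquare ((-1 : F) ^ m) ↔ ¬ (Fintype.card F % 4 = 3 ∧ Odd m) := by
    rcases Nat.even_or_odd m with he | ho
    · simp [he.neg_one_pow, Nat.not_odd_iff_even.2 he]
    · rw [ho.neg_one_pow, FiniteField.isSquare_neg_one_iff]
      simp [ho]
  rw [← hq, ← h]
  constructor
  · rintro ⟨W, hW, hz⟩
    refine ⟨W, hW, fun x hx y hy => ?_⟩
    have hzero : ∀ w ∈ W, B w w = 0 := fun w hw => by
      rw [hB, ← hz w hw]; exact Finset.sum_congr rfl fun i _ => (pow_two _).symm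
    have h1 := hzero _ (add_mem hx hy)
    simp only [map_add, LinearMap.add_apply, hzero x hx, hzero y hy, zero_add, add_zero] at h1
    have hc : B y x = B x y := by rw [hB, hB]; exact Finset.sum_congr rfl fun i _ => mul_comm _ _
    rw [hc, ← two_mul] at h1
    exact (mul_eq_zero.1 h1).resolve_left h2
  · rintro ⟨X, hX, hz⟩
    refine ⟨X, hX, fun w hw => ?_⟩
    rw [← hz w hw w hw, hB]
    exact Finset.sum_congr rfl fun i _ => pow_two _

end Cfsg.Agent.S0759
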