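import Cfsg.Statements.S0760
import Mathlib
import Cfsg.Agent.Lib.Forms.WittQuad

set_option autoImplicit false
open Cfsg

namespace Cfsg.Agent.S0760

open CfsgLib.Forms

/-- Witt index is well defined: if Q is a quadratic form on a finite-dimensional space V over a finite field with non-degenerate polar form, and W₁, W₂ are subspaces on which Q vanishes that are maximal with this property, then W₁ and W₂ have the same dimension, and twice this dimension is at most dim V. -/
theorem result {F V : Type*} [Field F] [Finite F] [AddCommGroup V] [Module F V] [FiniteDimensional F V] (Q : QuadraticForm F V) (hQ : (QuadraticMap.polarBilin Q).Nondegenerate) (W₁ W₂ : Submodule F V) (h₁ : ∀ w ∈ W₁, Q w = 0) (h₂ : ∀ w ∈ W₂, Q w = 0) (hmax₁ : ∀ W : Submodule F V, W₁ ≤ W → (∀ w ∈ W, Q w = 0) → W = W₁) (hmax₂ : ∀ W : Submodule F V, W₂ ≤ W → (∀ w ∈ W, Q w = 0) → W = W₂) : Module.finrank F W₁ = Module.finrank F W₂ ∧ 2 * Module.finrank F W₁ ≤ Module.finrank F V := by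
  have key : ∀ A C : Submodule F V, (∀ w ∈ A, Q w = 0) → (∀ w ∈ C, Q w = 0) →
      (∀ W : Submodule F V, A ≤ W → (∀ w ∈ W, Q w = 0) → W = A) →
      Module.finrank F A ≤ Module.finrank F C → Module.finrank F A = Module.finrank F C := by
    intro A C hA hC hmax hle
    obtain ⟨f, hf⟩ := exists_linearIndependent_of_le_finrank (R := F) (M := C) hle
    let S := Submodule.span F (Set.range fun i => (f i : V))
    have hSC : S ≤ C := Submodule.span_le.2 (by rintro _ ⟨i, rfl⟩; exact (f i).2)
    have hS : Module.finrank F S = Module.finrank F A := by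
      have hli : LinearIndependent F fun i => (f i : V) := hf.map' C.subtype (Submodule.ker_subtype C)
      exact (finrank_span_eq_card hli).trans (Fintype.card_fin _)
    let φ : A ≃ₗ[F] S := LinearEquiv.ofFinrankEq _ _ hS.symm
    obtain ⟨g, hg, hgA⟩ := WittQuad.extend Q hQ A S φ (fun x => by rw [hC _ (hSC (φ x).2), hA _ x.2])
    have hle' : A ≤ C.comap g.toLinearMap := fun a ha => by
      show g a ∈ C
      rw [hgA ⟨a, ha⟩]
      exact hSC (φ _).2
    have heq := hmax _ hle' (fun w hw => by rw [← hg w]; exact hC _ hw)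
    rw [← heq, ← LinearEquiv.finrank_map_eq g (C.comap g.toLinearMap),
      Submodule.map_comap_eq_of_surjective g.surjective]
  have heq : Module.finrank F W₁ = Module.finrank F W₂ := by
    rcases le_total (Module.finrank F W₁) (Module.finrank F W₂) with h | h
    · exact key _ _ h₁ h₂ hmax₁ h
    · exact (key _ _ h₂ h₁ hmax₂ h).symm
  refine ⟨heq, ?_⟩
  let P : LinearMap.BilinForm F V := QuadraticMap.polarBilin Q
  have hperp : W₁ ≤ W₁.orthogonalBilin P := fun a ha b hb => by
    show QuadraticMap.polar Q b a = 0
    rw [QuadraticMap.polar, h₁ _ (W₁.add_mem hb ha), h₁ _ hb, h₁ _ ha]; simp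
  have hd := Submodule.finrank_mono hperp
  have hr : LinearMap.BilinForm.IsRefl P := fun a b h => by
    simpa [P, QuadraticMap.polar_comm Q b a] using h
  have := LinearMap.BilinForm.finrank_orthogonal hQ W₁
  rw [show W₁.orthogonalBilin P = LinearMap.BilinForm.orthogonal P W₁ from rfl, this] at hd
  omega

end Cfsg.Agent.S0760
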