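import Cfsg.Statements.S0762
import Mathlib

set_option autoImplicit false
open Cfsg

namespace Cfsg.Agent.S0762

/-- In characteristic two over a finite field, a quadratic form on a space of dimension at least 3 vanishes on some non-zero vector. -/
theorem result {F V : Type*} [Field F] [Finite F] [CharP F 2] [AddCommGroup V] [Module F V] [FiniteDimensional F V] (Q : QuadraticForm F V) (h3 : 3 ≤ Module.finrank F V) : ∃ v : V, v ≠ 0 ∧ Q v = 0 := by
  haveI := Fintype.ofFinite F
  obtain ⟨u, hu⟩ : ∃ u : V, u ≠ 0 := by haveI := Module.finrank_pos_iff.1 (show 0 < Module.finrank F V by omega); exact exists_ne 0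
  by_cases hQu : Q u = 0
  · exact ⟨u, hu, hQu⟩
  obtain ⟨w, hwk, hwu⟩ : ∃ w ∈ LinearMap.ker (QuadraticMap.polarBilin Q u), w ∉ Submodule.span F {u} := by
    by_contra h
    push Not at h
    have h1 := Submodule.finrank_mono (s := LinearMap.ker (QuadraticMap.polarBilin Q u)) h
    rw [finrank_span_singleton hu] at h1
    have h2 := LinearMap.finrank_range_add_finrank_ker (QuadraticMap.polarBilin Q u)
    have h3 := Submodule.finrank_le (LinearMap.range (QuadraticMap.polarBilin Q u))
    rw [Module.finrank_self] at h3
    omega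
  obtain ⟨s, hs⟩ := FiniteField.isSquare_of_char_two (ringChar.eq F 2) (Q w / Q u)
  refine ⟨w + s • u, fun h => hwu ?_, ?_⟩
  · rw [eq_neg_of_add_eq_zero_left h]
    exact (Submodule.span F {u}).neg_mem ((Submodule.span F {u}).smul_mem _ (Submodule.mem_span_singleton_self u))
  · have hp : QuadraticMap.polar Q w u = 0 := by rw [QuadraticMap.polar_comm]; exact hwk
    rw [QuadraticMap.map_add ⇑Q, QuadraticMap.map_smul, QuadraticMap.polar_smul_right, hp, smul_eq_mul, smul_eq_mul, ← hs, div_mul_cancel₀ _ hQu]
    linear_combination Q w * CharTwo.two_eq_zero (R := F)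

end Cfsg.Agent.S0762
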