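import Cfsg.Statements.S0763
import Mathlib

set_option autoImplicit false
open Cfsg

namespace Cfsg.Agent.S0763

/-- Binary quadratic forms in characteristic two over a finite field: if Q is a quadratic form on a 2-dimensional space whose polar form is non-degenerate, then either there are vectors v, w with Q v = Q w = 0 and polar value 1 (Q is xy in these coordinates), or there are v, w and μ with Q v = 1, Q w = μ, polar value 1 and x² + x + μ without roots in F (Q is x² + xy + μy²). -/
theorem result {F V : Type*} [Field F] [Finite F] [CharP F 2] [AddCommGroup V] [Module F V] (Q : QuadraticForm F V) (h2 : Module.finrank F V = 2) (hQ : (QuadraticMap.polarBilin Q).Nondegenerate) : (∃ v w : V, LinearIndependent F ![v, w] ∧ Q v = 0 ∧ Q w = 0 ∧ QuadraticMap.polar Q v w = 1) ∨ (∃ (v w : V) (μ : F), LinearIndependent F ![v, w] ∧ (∀ x : F, x ^ 2 + x + μ ≠ 0) ∧ Q v = 1 ∧ Q w = μ ∧ QuadraticMap.polar Q v w = 1) := by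
  haveI := Fintype.ofFinite F
  have h2F : (2 : F) = 0 := CharTwo.two_eq_zero
  haveI : FiniteDimensional F V := Module.finite_of_finrank_eq_succ h2
  have self : ∀ v, QuadraticMap.polar Q v v = 0 := fun v => by
    rw [QuadraticMap.polar_self]; simp [smul_eq_mul, h2F]
  have indep : ∀ v w, QuadraticMap.polar Q v w = 1 → LinearIndependent F ![v, w] := fun v w h => by
    rw [LinearIndependent.pair_iff]
    intro s t hst
    have e1 := congrArg (fun z => QuadraticMap.polar Q z w) hst
    have e2 := congrArg (fun z => QuadraticMap.polar Q v z) hst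
    simp [QuadraticMap.polar_add_left, QuadraticMap.polar_add_right, QuadraticMap.polar_smul_left,
      QuadraticMap.polar_smul_right, self, h] at e1 e2
    exact ⟨e1, e2⟩
  have partner : ∀ v, v ≠ 0 → ∃ w, QuadraticMap.polar Q v w = 1 := fun v hv => by
    by_contra h
    push Not at h
    refine hv (hQ.1 v fun w => ?_)
    by_contra hne
    refine h ((QuadraticMap.polar Q v w)⁻¹ • w) ?_
    rw [QuadraticMap.polar_smul_right, smul_eq_mul, inv_mul_cancel₀ (show QuadraticMap.polar Q v w ≠ 0 from hne)]
  by_cases hs : ∃ v, v ≠ 0 ∧ Q v = 0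
  · obtain ⟨v, hv, hQv⟩ := hs
    obtain ⟨w, hw⟩ := partner v hv
    refine Or.inl ⟨v, w + (-Q w) • v, indep _ _ ?_, hQv, ?_, ?_⟩ <;>
      simp [QuadraticMap.map_add ⇑Q, QuadraticMap.map_smul, QuadraticMap.polar_neg_right, QuadraticMap.polar_add_right,
        QuadraticMap.polar_smul_right, self, hw, hQv, QuadraticMap.polar_comm Q w v]
  · push Not at hs
    obtain ⟨v₀, hv₀⟩ : ∃ u : V, u ≠ 0 := by haveI := Module.finrank_pos_iff.1 (show 0 < Module.finrank F V by omega); exact exists_ne 0
    obtain ⟨r, hr⟩ := FiniteField.isSquare_of_char_two (ringChar.eq F 2) (Q v₀)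
    have hr0 : r ≠ 0 := fun h => hs v₀ hv₀ (by simp [hr, h])
    obtain ⟨v, hQv⟩ : ∃ v, Q v = 1 := ⟨r⁻¹ • v₀, by rw [QuadraticMap.map_smul, hr, smul_eq_mul]; field_simp⟩
    have hv : v ≠ 0 := fun h => by simp [h] at hQv
    obtain ⟨w, hw⟩ := partner v hv
    refine Or.inr ⟨v, w, Q w, indep _ _ hw, fun x hx => ?_, hQv, rfl, hw⟩
    refine hs (x • v + w) (fun h => ?_) ?_
    · have := (LinearIndependent.pair_iff.1 (indep _ _ hw)) x 1 (by rw [one_smul]; exact h)
      exact one_ne_zero this.2
    · rw [QuadraticMap.map_add ⇑Q, QuadraticMap.map_smul, QuadraticMap.polar_smul_left, hw, hQv, smul_eq_mul, smul_eq_mul]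
      linear_combination hx

end Cfsg.Agent.S0763
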