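import Cfsg.Statements.S0764
import Mathlib


set_option autoImplicit false
open Cfsg
open scoped Matrix

namespace Cfsg.Agent.S0764

/-- Symplectic transvections are isometries: for every vector v and scalar c the matrix of x ↦ x + c f(x, v) v lies in the symplectic group. -/
theorem result {F : Type*} [Field F] (m : ℕ) (v : Fin m ⊕ Fin m → F) (c : F) : Cfsg.sympTransvection m v c ∈ Matrix.symplecticGroup (Fin m) F := by
  classical
  have hJ : (Matrix.J (Fin m) F).transpose = -Matrix.J (Fin m) F := Matrix.J_transpose _ _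
  set J := Matrix.J (Fin m) F with hJdef
  have hvJv : v ⬝ᵥ (J *ᵥ v) = 0 := by
    simp [hJdef, Matrix.J, Matrix.fromBlocks_mulVec, dotProduct, Fintype.sum_sum_type,
      Matrix.neg_mulVec, mul_comm]
  set w := J *ᵥ v with hw
  have hwT : Matrix.vecMul v J = -w := by
    rw [← Matrix.mulVec_transpose, hJ, Matrix.neg_mulVec]
  rw [SymplecticGroup.mem_iff', Cfsg.sympTransvection, ← hJdef, ← hw]
  simp only [Matrix.transpose_add, Matrix.transpose_one, Matrix.transpose_smul, Matrix.transpose_vecMulVec]
  rw [Matrix.add_mul, Matrix.one_mul, Matrix.smul_mul, Matrix.mul_add, Matrix.mul_one, Matrix.add_mul,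
    Matrix.mul_smul, Matrix.mul_vecMulVec, ← hw, Matrix.vecMulVec_mul, hwT, Matrix.smul_mul, Matrix.mul_smul,
    Matrix.vecMulVec_mul_vecMulVec]
  simp [Matrix.vecMulVec_neg, dotProduct_comm w v, hvJv]

end Cfsg.Agent.S0764
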