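import Cfsg.Statements.S0767
import Mathlib


set_option autoImplicit false
open Cfsg
open scoped Matrix

namespace Cfsg.Agent.S0767

/-- The root group of a point: T_v(c) T_v(d) = T_v(c + d), and for A in the symplectic group with A v = a v, the conjugate A T_v(c) A⁻¹ is again some T_v(d). -/
theorem result {F : Type*} [Field F] (m : ℕ) (v : Fin m ⊕ Fin m → F) : (∀ c d : F, Cfsg.sympTransvection m v c * Cfsg.sympTransvection m v d = Cfsg.sympTransvection m v (c + d)) ∧ ∀ (A : Matrix (Fin m ⊕ Fin m) (Fin m ⊕ Fin m) F) (a : F), A ∈ Matrix.symplecticGroup (Fin m) F → A.mulVec v = a • v → ∀ c : F, ∃ d : F, A * Cfsg.sympTransvection m v c * A⁻¹ = Cfsg.sympTransvection m v d := by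
  classical
  set J := Matrix.J (Fin m) F with hJdef
  have hvJv : (J *ᵥ v) ⬝ᵥ v = 0 := by
    simp [hJdef, Matrix.J, Matrix.fromBlocks_mulVec, dotProduct, Fintype.sum_sum_type,
      Matrix.neg_mulVec, mul_comm]
  constructor
  · intro c d
    simp only [Cfsg.sympTransvection, ← hJdef]
    rw [Matrix.add_mul, Matrix.one_mul, Matrix.smul_mul, Matrix.mul_add, Matrix.mul_one, Matrix.mul_smul,
      Matrix.vecMulVec_mul_vecMulVec, hvJv]
    simp [add_smul]; abel
  · intro A a hA hv c
    have hdet : IsUnit A.det := SymplecticGroup.symplectic_det hA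
    have h1 : A⁻¹ *ᵥ v = a⁻¹ • v ∨ a = 0 := by
      by_cases ha : a = 0
      · exact Or.inr ha
      · left
        have := congrArg (fun z => A⁻¹ *ᵥ z) hv
        simp only [Matrix.mulVec_mulVec, Matrix.nonsing_inv_mul _ hdet, Matrix.one_mulVec, Matrix.mulVec_smul] at this
        conv_rhs => rw [this, smul_smul, inv_mul_cancel₀ ha, one_smul]
    -- Aᵀ J A = J
    have hS : A.transpose * J * A = J := SymplecticGroup.mem_iff'.mp hA
    have h2 : Matrix.vecMul (J *ᵥ v) A⁻¹ = a • (J *ᵥ v) ∨ a = 0 := by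
      rcases h1 with h1 | h1
      · left
        rw [← Matrix.mulVec_transpose, Matrix.transpose_nonsing_inv]
        have h3 : A.transpose *ᵥ (J *ᵥ v) = a⁻¹ • (J *ᵥ v) := by
          conv_rhs => rw [← Matrix.mulVec_smul, ← h1, ← hS, Matrix.mulVec_mulVec, Matrix.mul_assoc,
            Matrix.mul_nonsing_inv _ hdet, Matrix.mul_one]
          rw [Matrix.mulVec_mulVec]
        have hdetT : IsUnit A.transpose.det := by rwa [Matrix.det_transpose]
        have h5 : J *ᵥ v = a⁻¹ • (A.transpose⁻¹ *ᵥ (J *ᵥ v)) := by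
          conv_rhs => rw [← Matrix.mulVec_smul, ← h3, Matrix.mulVec_mulVec (J *ᵥ v),
            Matrix.nonsing_inv_mul _ hdetT, Matrix.one_mulVec]
        by_cases ha : a = 0
        · have h6 : J *ᵥ v = 0 := by rw [h5, ha, inv_zero, zero_smul]
          rw [h6]; simp
        · conv_rhs => rw [h5, smul_smul, mul_inv_cancel₀ ha, one_smul]
      · exact Or.inr h1
    rcases h2 with h2 | h2
    · refine ⟨c * (a * a), ?_⟩
      simp only [Cfsg.sympTransvection, ← hJdef]
      rw [Matrix.mul_add, Matrix.mul_one, Matrix.add_mul, Matrix.mul_nonsing_inv _ hdet, Matrix.mul_smul,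
        Matrix.smul_mul, Matrix.mul_vecMulVec, hv, Matrix.vecMulVec_mul, h2]
      simp [Matrix.smul_vecMulVec, Matrix.vecMulVec_smul', smul_smul, mul_assoc]
    · subst h2
      rw [zero_smul] at hv
      have : v = 0 := by
        have := congrArg (fun z => A⁻¹ *ᵥ z) hv
        simpa [Matrix.mulVec_mulVec, Matrix.nonsing_inv_mul _ hdet] using this
      subst this
      exact ⟨0, by simp [Cfsg.sympTransvection, Matrix.mul_nonsing_inv _ hdet]⟩

end Cfsg.Agent.S0767
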