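import Cfsg.Statements.S0770
import Mathlib

set_option autoImplicit false
open Cfsg

namespace Cfsg.Agent.S0770

open Matrix
variable {F : Type*} [Field F] {n : ℕ}

/-- diagonal units -/
def dg (c : Fin n → Fˣ) : GL (Fin n) F :=
  Units.map (Matrix.diagonalRingHom (Fin n) F).toMonoidHom (MulEquiv.piUnits.symm c)

theorem dg_val (c : Fin n → Fˣ) : ((dg c : GL (Fin n) F) : Matrix (Fin n) (Fin n) F) = diagonal fun i => (c i : F) := rfl

theorem mem_range {g : GL (Fin n) F} :
    g ∈ (Units.map (Matrix.diagonalRingHom (Fin n) F).toMonoidHom).range ↔ ∃ c, dg c = g := by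
  constructor
  · rintro ⟨u, rfl⟩; exact ⟨MulEquiv.piUnits u, by simp [dg]⟩
  · rintro ⟨c, rfl⟩; exact ⟨_, rfl⟩

/-- For a field with at least 3 elements, an invertible matrix normalises the subgroup of invertible diagonal matrices of GL_n if and only if it is monomial (exactly one non-zero entry in each row). -/
theorem result {F : Type*} [Field F] (hF : ∃ a : F, a ≠ 0 ∧ a ≠ 1) (n : ℕ) (g : Matrix.GeneralLinearGroup (Fin n) F) : g ∈ Subgroup.normalizer ((Units.map (Matrix.diagonalRingHom (Fin n) F).toMonoidHom).range : Subgroup (Matrix.GeneralLinearGroup (Fin n) F)) ↔ ∀ i : Fin n, ∃! j : Fin n, (g : Matrix (Fin n) (Fin n) F) i j ≠ 0 := by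
  classical
  obtain ⟨a, ha0, ha1⟩ := hF
  set G : Matrix (Fin n) (Fin n) F := Units.val g with hG
  have hrow : ∀ i, ∃ j, G i j ≠ 0 := fun i => by
    by_contra! h
    have := congrFun (congrFun (show G * ((g⁻¹ : GL (Fin n) F) : Matrix (Fin n) (Fin n) F) = 1 from g.mul_inv) i) i
    simp [Matrix.mul_apply, h] at this
  have heq : ∀ c c' : Fin n → Fˣ, g * dg c = dg c' * g ↔ ∀ i j, G i j ≠ 0 → (c j : F) = c' i := by
    intro c c'
    rw [Units.ext_iff, Units.val_mul, Units.val_mul, dg_val, dg_val, ← Matrix.ext_iff]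
    refine forall₂_congr fun i j => ?_
    rw [Matrix.mul_diagonal, Matrix.diagonal_mul, mul_comm _ (G i j)]
    exact ⟨fun h h0 => mul_left_cancel₀ h0 h, fun h => by
      by_cases h0 : G i j = 0
      · show G i j * _ = G i j * _; rw [h0, zero_mul, zero_mul]
      · exact congrArg (G i j * ·) (h h0)⟩
  constructor
  · intro hg i
    obtain ⟨j, hj⟩ := hrow i
    refine ⟨j, hj, fun k hk => ?_⟩
    by_contra hne
    set c : Fin n → Fˣ := Function.update 1 j (Units.mk0 a ha0)
    obtain ⟨c', hc'⟩ := mem_range.1 ((Subgroup.mem_normalizer_iff.1 hg _).1 (mem_range.2 ⟨c, rfl⟩))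
    have h := (heq c c').1 (by rw [hc']; group)
    have h1 := (h i j hj).trans (h i k hk).symm
    simp [c, hne] at h1
    exact ha1 h1
  · intro h
    choose π hπ huniq using h
    have hsurj : Function.Surjective π := by
      intro j
      by_contra! hj
      have := congrFun (congrFun (show ((g⁻¹ : GL (Fin n) F) : Matrix (Fin n) (Fin n) F) * G = 1 from g.inv_mul) j) j
      have hz : ∀ i, G i j = 0 := fun i => by_contra fun h0 => hj i (huniq i j h0).symm
      simp [Matrix.mul_apply, hz] at this
    have hinj := Finite.injective_iff_surjective.2 hsurj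
    let e : Fin n ≃ Fin n := Equiv.ofBijective π ⟨hinj, hsurj⟩
    have key : ∀ c, g * dg c * g⁻¹ = dg (c ∘ π) := fun c => by
      rw [mul_inv_eq_iff_eq_mul, heq]
      exact fun i j h0 => by rw [huniq i j h0]; rfl
    refine Subgroup.mem_normalizer_iff.2 fun x => ⟨?_, ?_⟩
    · rintro hx
      obtain ⟨c, rfl⟩ := mem_range.1 hx
      exact mem_range.2 ⟨_, (key c).symm⟩
    · intro hx
      obtain ⟨c, hc⟩ := mem_range.1 hx
      refine mem_range.2 ⟨c ∘ e.symm, ?_⟩
      have := key (c ∘ e.symm)
      rw [show (c ∘ e.symm) ∘ π = c from funext fun i => congrArg c (e.symm_apply_apply i), hc] at this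
      exact mul_left_cancel (mul_right_cancel this)

end Cfsg.Agent.S0770
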