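import Cfsg.Statements.S0776
import Mathlib
import Cfsg.Agent.Lib.Forms.Families
import Cfsg.Agent.Lib.Symplectic.Basic

set_option autoImplicit false
open Cfsg

namespace Cfsg.Agent.S0776

open scoped Matrix
open CfsgLib.Forms.Families CfsgLib.Symplectic.Basic

theorem symp_sum {F : Type*} [Field F] {m k : ℕ} {σ : F → F} (hσ : ∀ c, σ c = c)
    (h : Form σ (Cfsg.sympForm m F)) (e g : Fin k → (Fin m ⊕ Fin m → F))
    (hee : ∀ i j, Cfsg.sympForm m F (e i) (e j) = 0) (hgg : ∀ i j, Cfsg.sympForm m F (g i) (g j) = 0)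
    (hge : ∀ i j, Cfsg.sympForm m F (g i) (e j) = if i = j then 1 else 0) (a a' : Fin k ⊕ Fin k → F) :
    Cfsg.sympForm m F (∑ i, a i • Sum.elim e g i) (∑ i, a' i • Sum.elim e g i) = Cfsg.sympForm k F a a' := by
  have heg : ∀ i j, Cfsg.sympForm m F (e i) (g j) = if i = j then -1 else 0 := fun i j => by
    rw [← B_eq, B_swap, B_eq, hge]
    rcases eq_or_ne i j with rfl | hne
    · simp
    · simp [hne, hne.symm]
  rw [expand h, ← B_eq (m := k), B_expand]
  simp only [Fintype.sum_sum_type, Sum.elim_inl, Sum.elim_inr, hee, hgg, hge, heg, hσ, mul_zero, mul_ite, mul_one,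
    Finset.sum_const_zero, Finset.sum_ite_eq, Finset.mem_univ, if_true, zero_add, add_zero, mul_neg]
  rw [← Finset.sum_add_distrib]
  exact Finset.sum_congr rfl fun i _ => by ring

/-- symplectic matrices as linear transformations -/
noncomputable def spEquiv {F : Type*} [Field F] (m : ℕ) :
    Matrix.symplecticGroup (Fin m) F ≃* ↥(Cfsg.preserving (Cfsg.glToMat (Fin m ⊕ Fin m) F) (Cfsg.sympForm m F)) where
  toFun A := ⟨⟨A.1, (A⁻¹).1, congrArg Subtype.val (mul_inv_cancel A), congrArg Subtype.val (inv_mul_cancel A)⟩,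
    fun u v => by
      show Cfsg.sympForm m F (A.1 *ᵥ u) (A.1 *ᵥ v) = _
      rw [← B_eq, ← B_eq]; exact B_map A u v⟩
  invFun g := ⟨g.1.1, (mem_iff g.1.1).2 fun u v => by rw [B_eq, B_eq]; exact g.2 u v⟩
  left_inv A := rfl
  right_inv g := Subtype.ext (Units.ext rfl)
  map_mul' A B := Subtype.ext (Units.ext rfl)

/-- If W ≤ F^(2m) is a 2k-dimensional subspace on which the symplectic form is non-degenerate, then the stabiliser of W in Sp_2m(F) is isomorphic to Sp_2k(F) × Sp_(2m−2k)(F). -/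
theorem result {F : Type*} [Field F] (m k : ℕ) (hk : k ≤ m) (W : Submodule F (Fin m ⊕ Fin m → F)) (hWk : Module.finrank F W = 2 * k) (hW : ∀ u ∈ W, (∀ v ∈ W, Cfsg.sympForm m F u v = 0) → u = 0) : Nonempty (↥(Cfsg.stabilizing (Cfsg.spToMat m F) (W : Set (Fin m ⊕ Fin m → F))) ≃* Matrix.symplecticGroup (Fin k) F × Matrix.symplecticGroup (Fin (m - k)) F) := by
  have h : Form id (Cfsg.sympForm m F) :=
    { add_left := fun x y v => by rw [← B_eq, ← B_eq, ← B_eq, map_add, LinearMap.add_apply]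
      smul_left := fun c x v => by rw [← B_eq, ← B_eq, map_smul, LinearMap.smul_apply, smul_eq_mul]
      add_right := fun v x y => by rw [← B_eq, ← B_eq, ← B_eq, map_add]
      smul_right := fun c v x => by rw [← B_eq, ← B_eq, map_smul, smul_eq_mul]; rfl
      refl := fun x y e => by rw [← B_eq, B_swap, B_eq, e, neg_zero] }
  have halt : ∀ x, Cfsg.sympForm m F x x = 0 := fun x => by rw [← B_eq, B_self]
  have hnd : ∀ u, (∀ v, Cfsg.sympForm m F u v = 0) → u = 0 := fun u hu =>
    eq_zero_of_B_left fun v => by rw [B_eq]; exact hu v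
  obtain ⟨hd, hW'⟩ := complement h hnd hW
  simp only [hWk, Fintype.card_sum, Fintype.card_fin] at hd
  obtain ⟨e, g, he, hg, hee, hgg, hge⟩ := symplectic_family h (fun _ => rfl) halt k W hWk hW
  obtain ⟨e', g', he', hg', hee', hgg', hge'⟩ :=
    symplectic_family h (fun _ => rfl) halt (m - k) (perp h W) (by omega) hW'
  have hnk : ∀ (l : ℕ) (a : Fin l ⊕ Fin l → F), (∀ a', Cfsg.sympForm l F a a' = 0) → a = 0 := fun l a ha =>
    eq_zero_of_B_left fun v => by rw [B_eq]; exact ha v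
  obtain ⟨E, hE, hEW, -⟩ := exists_split h (Sum.elim e g) (Sum.elim e' g') (fun a a' => symp_sum (fun _ => rfl) h e g hee hgg hge a a')
    (fun a a' => symp_sum (fun _ => rfl) h e' g' hee' hgg' hge' a a')
    (fun i j => h.refl _ _ (by
      have hi : Sum.elim e g i ∈ W := by rcases i with i | i <;> simp [he, hg]
      have hj : Sum.elim e' g' j ∈ perp h W := by rcases j with j | j <;> simp [he', hg']
      exact hj _ hi)) (hnk k) (hnk (m - k))
    (by simp only [Fintype.card_sum, Fintype.card_fin]; omega) W (fun i => by rcases i with i | i <;> simp [he, hg])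
    (by rw [hWk, Fintype.card_sum, Fintype.card_fin]; omega)
  have hz : ∀ (l : ℕ) (a : Fin l ⊕ Fin l → F), Cfsg.sympForm l F a 0 = 0 ∧ Cfsg.sympForm l F 0 a = 0 := fun l a => by
    constructor <;> rw [← B_eq] <;> simp
  obtain ⟨iso⟩ := CfsgLib.Forms.SplitStab.stab_equiv E hE (hz k) (hz (m - k))
    (fun u hu => hnk k u fun x => by rw [← B_eq, B_swap, B_eq, hu x, neg_zero]) W hEW
  let S := Cfsg.stabilizing (Cfsg.spToMat m F) (W : Set (Fin m ⊕ Fin m → F))
  let iso₀ : ↥S ≃* ↥(Cfsg.stabilizing (Cfsg.glToMat (Fin m ⊕ Fin m) F) (W : Set (Fin m ⊕ Fin m → F)) ⊓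
      Cfsg.preserving (Cfsg.glToMat (Fin m ⊕ Fin m) F) (Cfsg.sympForm m F)) :=
    { toFun := fun A => ⟨(spEquiv m A.1).1, A.2, (spEquiv m A.1).2⟩
      invFun := fun g => ⟨(spEquiv m).symm ⟨g.1, g.2.2⟩, g.2.1⟩
      left_inv := fun A => rfl
      right_inv := fun g => Subtype.ext (Units.ext rfl)
      map_mul' := fun A B => Subtype.ext (Units.ext rfl) }
  exact ⟨iso₀.trans (iso.trans ((spEquiv k).symm.prodCongr (spEquiv (m - k)).symm))⟩

end Cfsg.Agent.S0776
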