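import Cfsg.Statements.S0778
import Mathlib
import Cfsg.Agent.Lib.Symplectic.Basic

set_option autoImplicit false
open Cfsg

namespace Cfsg.Agent.S0778

open scoped Matrix
open CfsgLib.Symplectic.Basic

/-- The elements of Sp_2m(F) stabilising both W = ⟨e_1..e_m⟩ and U = ⟨f_1..f_m⟩ form a subgroup isomorphic to GL_m(F) (block-diagonal matrices diag(X, X^(−ᵀ)) up to the sign convention of J), for m ≥ 1 or m = 0 alike. -/
theorem result {F : Type*} [Field F] (m : ℕ) : Nonempty (↥(Cfsg.stabilizing (Cfsg.spToMat m F) {v : Fin m ⊕ Fin m → F | ∀ i : Fin m, v (Sum.inr i) = 0} ⊓ Cfsg.stabilizing (Cfsg.spToMat m F) {v : Fin m ⊕ Fin m → F | ∀ i : Fin m, v (Sum.inl i) = 0}) ≃* Matrix.GeneralLinearGroup (Fin m) F) := by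
  classical
  set L := Cfsg.stabilizing (Cfsg.spToMat m F) {v : Fin m ⊕ Fin m → F | ∀ i : Fin m, v (Sum.inr i) = 0} ⊓
    Cfsg.stabilizing (Cfsg.spToMat m F) {v : Fin m ⊕ Fin m → F | ∀ i : Fin m, v (Sum.inl i) = 0} with hL
  have h0 : ∀ g : L, g.1.1.toBlocks₂₁ = 0 ∧ g.1.1.toBlocks₁₂ = 0 := by
    intro g
    obtain ⟨h1, h2⟩ := Subgroup.mem_inf.1 g.2
    constructor <;> ext i j
    · have := (h1 (Pi.single (Sum.inl j) 1)).1 (fun k => by simp) i
      simpa [Matrix.toBlocks₂₁] using this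
    · have := (h2 (Pi.single (Sum.inr j) 1)).1 (fun k => by simp) i
      simpa [Matrix.toBlocks₁₂] using this
  have hform : ∀ g : L, g.1.1.toBlocks₂₂ᵀ * g.1.1.toBlocks₁₁ = 1 := by
    intro g
    ext i j
    have h := B_map g.1 (Pi.single (Sum.inr i) 1) (Pi.single (Sum.inl j) 1)
    have z1 : ∀ k, g.1.1 (Sum.inl k) (Sum.inr i) = 0 := fun k => congrFun (congrFun (h0 g).2 k) i
    rw [B_expand, B_expand] at h
    simpa [Matrix.mul_apply, Matrix.toBlocks₁₁, Matrix.toBlocks₂₂, Pi.single_apply, Matrix.one_apply, z1, eq_comm] using h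
  have hunit : ∀ g : L, IsUnit g.1.1.toBlocks₁₁.det := fun g => Matrix.isUnit_det_of_left_inverse (hform g)
  have hblocks : ∀ g : L, g.1.1 = Matrix.fromBlocks g.1.1.toBlocks₁₁ 0 0 g.1.1.toBlocks₂₂ := fun g => by
    conv_lhs => rw [← Matrix.fromBlocks_toBlocks g.1.1]
    rw [(h0 g).1, (h0 g).2]
  let φ : L →* Matrix.GeneralLinearGroup (Fin m) F :=
    MonoidHom.mk' (fun g => Matrix.GeneralLinearGroup.mk'' g.1.1.toBlocks₁₁ (hunit g)) fun g h => by
      refine Units.ext ?_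
      show (g.1.1 * h.1.1).toBlocks₁₁ = g.1.1.toBlocks₁₁ * h.1.1.toBlocks₁₁
      conv_lhs => rw [hblocks g, hblocks h, Matrix.fromBlocks_multiply]
      simp
  refine ⟨MulEquiv.ofBijective φ ⟨?_, ?_⟩⟩
  · intro g h hgh
    have e11 : g.1.1.toBlocks₁₁ = h.1.1.toBlocks₁₁ := congrArg Units.val hgh
    have e22 : g.1.1.toBlocks₂₂ = h.1.1.toBlocks₂₂ := by
      have a := Matrix.inv_eq_left_inv (hform g)
      have b := Matrix.inv_eq_left_inv (hform h)
      rw [e11, b] at a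
      exact Matrix.transpose_injective a.symm
    refine Subtype.ext (Subtype.ext ?_)
    rw [hblocks g, hblocks h, e11, e22]
  · intro X
    let A : Matrix (Fin m ⊕ Fin m) (Fin m ⊕ Fin m) F :=
      Matrix.fromBlocks (X : Matrix (Fin m) (Fin m) F) 0 0 ((↑X⁻¹ : Matrix (Fin m) (Fin m) F))ᵀ
    have hA : A ∈ Matrix.symplecticGroup (Fin m) F := by
      rw [SymplecticGroup.fromBlocks_mem_iff]
      refine ⟨by simp, by simp, ?_⟩
      simp [← Matrix.transpose_mul, ← Units.val_mul]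
    have hmem : (⟨A, hA⟩ : Sp m F) ∈ L := by
      refine Subgroup.mem_inf.2 ⟨fun v => ?_, fun v => ?_⟩
      · have hv : ∀ i, (A *ᵥ v) (Sum.inr i) = (((↑X⁻¹ : Matrix (Fin m) (Fin m) F))ᵀ *ᵥ (v ∘ Sum.inr)) i := fun i => by
          simp [A, Matrix.fromBlocks_mulVec]
        show (∀ i, v (Sum.inr i) = 0) ↔ ∀ i, (A *ᵥ v) (Sum.inr i) = 0
        simp only [hv]
        constructor
        · intro h i
          rw [show v ∘ Sum.inr = 0 from funext h, Matrix.mulVec_zero]; rfl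
        · intro h i
          have h2 : ((↑X : Matrix (Fin m) (Fin m) F))ᵀ *ᵥ (((↑X⁻¹ : Matrix (Fin m) (Fin m) F))ᵀ *ᵥ (v ∘ Sum.inr)) = v ∘ Sum.inr := by
            rw [Matrix.mulVec_mulVec, ← Matrix.transpose_mul, ← Units.val_mul, inv_mul_cancel, Units.val_one,
              Matrix.transpose_one, Matrix.one_mulVec]
          rw [show ((↑X⁻¹ : Matrix (Fin m) (Fin m) F))ᵀ *ᵥ (v ∘ Sum.inr) = 0 from funext h, Matrix.mulVec_zero] at h2
          exact (congrFun h2 i).symm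
      · have hv : ∀ i, (A *ᵥ v) (Sum.inl i) = ((↑X : Matrix (Fin m) (Fin m) F) *ᵥ (v ∘ Sum.inl)) i := fun i => by
          simp [A, Matrix.fromBlocks_mulVec]
        show (∀ i, v (Sum.inl i) = 0) ↔ ∀ i, (A *ᵥ v) (Sum.inl i) = 0
        simp only [hv]
        constructor
        · intro h i
          rw [show v ∘ Sum.inl = 0 from funext h, Matrix.mulVec_zero]; rfl
        · intro h i
          have h2 : (↑X⁻¹ : Matrix (Fin m) (Fin m) F) *ᵥ ((↑X : Matrix (Fin m) (Fin m) F) *ᵥ (v ∘ Sum.inl)) = v ∘ Sum.inl := by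
            rw [Matrix.mulVec_mulVec, ← Units.val_mul, inv_mul_cancel, Units.val_one, Matrix.one_mulVec]
          rw [show (↑X : Matrix (Fin m) (Fin m) F) *ᵥ (v ∘ Sum.inl) = 0 from funext h, Matrix.mulVec_zero] at h2
          exact (congrFun h2 i).symm
    exact ⟨⟨⟨A, hA⟩, hmem⟩, Units.ext (by show A.toBlocks₁₁ = _; simp [A])⟩

end Cfsg.Agent.S0778
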