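import Cfsg.Statements.S0779
import Mathlib
import Cfsg.Agent.Lib.Unitary.Basic

set_option autoImplicit false
open Cfsg

namespace Cfsg.Agent.S0779

open CfsgLib.Unitary.Basic CfsgLib.Unitary.FieldNorm

/-- Unitary transvections: let |F| = q², h the standard Hermitian form Σ x_i y_i^q and v ≠ 0 with h(v, v) = 0. The linear map x ↦ x + c h(x, v) v is an isometry of h if and only if c = 0 or c^(q−1) = −1. -/
theorem result {F : Type*} [Field F] [Fintype F] {q : ℕ} (hF : Fintype.card F = q ^ 2) (n : ℕ) (v : Fin n → F) (hv : v ≠ 0) (hv0 : Cfsg.hermForm n F q v v = 0) (c : F) : (∀ x y : Fin n → F, Cfsg.hermForm n F q ((Cfsg.unitaryTransvection n q v c).mulVec x) ((Cfsg.unitaryTransvection n q v c).mulVec y) = Cfsg.hermForm n F q x y) ↔ (c = 0 ∨ c ^ (q - 1) = -1) := by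
  have hq := q_ne_zero hF
  obtain ⟨i, hi⟩ := Function.ne_iff.1 hv
  constructor
  · intro h
    have hs : c + c ^ q = 0 := by
      have h1 := h (Pi.single i 1) (Pi.single i 1)
      simp only [umat_mulVec, H_add_left, H_add_right hF, H_smul_left, H_smul_right, mul_pow, hv0] at h1
      rw [H_single_right hq v, H_single_left v i, pow_q_q hF] at h1
      have h2 : (c + c ^ q) * (v i ^ q * v i) = 0 := by linear_combination h1
      exact (mul_eq_zero.1 h2).resolve_right (mul_ne_zero (pow_ne_zero _ hi) hi)
    by_cases hc : c = 0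
    · exact Or.inl hc
    · refine Or.inr (mul_right_cancel₀ hc ?_)
      rw [← pow_succ, Nat.sub_add_cancel (by omega)]
      linear_combination hs
  · intro h x y
    refine umat_preserves hF v c ?_ x y
    rw [hv0, mul_zero, add_zero]
    rcases h with rfl | h
    · rw [zero_pow hq, add_zero]
    · have : c ^ q = c ^ (q - 1) * c := by rw [← pow_succ, Nat.sub_add_cancel (by omega)]
      rw [this, h]; ring

end Cfsg.Agent.S0779
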