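import Cfsg.Statements.S0783
import Mathlib
import Cfsg.Agent.Lib.Unitary.Order

set_option autoImplicit false
open Cfsg

namespace Cfsg.Agent.S0783

open scoped Matrix
open CfsgLib.Unitary.FieldNorm CfsgLib.Unitary.Basic CfsgLib.Unitary.Count CfsgLib.Unitary.Order

theorem centre_scalar {F : Type*} [Field F] [Fintype F] {q n : ℕ} (hF : Fintype.card F = q ^ 2) (hn : 1 ≤ n)
    (g : Cfsg.GU n F q) (hg : g ∈ Subgroup.center (Cfsg.GU n F q)) :
    ∃ c : F, g.1.1 = c • (1 : Matrix (Fin n) (Fin n) F) := by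
  classical
  obtain ⟨t, ht, ht1, -⟩ := exists_unit_ne_one hF
  have hoff : ∀ i k : Fin n, i ≠ k → g.1.1 i k = 0 := by
    intro i k hik
    let d : Fin n → F := fun l => if l = i then t else 1
    have hd : ∀ l, d l ^ (q + 1) = 1 := fun l => by
      simp only [d]; split_ifs
      · exact ht
      · exact one_pow _
    have h := congrArg (fun z : Cfsg.GU n F q => z.1.1 i k)
      (Subgroup.mem_center_iff.1 hg (mkGU hF (Matrix.diagonal d) (diag_preserves hF d hd)))
    change (Matrix.diagonal d * g.1.1) i k = (g.1.1 * Matrix.diagonal d) i k at h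
    rw [Matrix.diagonal_mul, Matrix.mul_diagonal] at h
    simp only [d, if_true, if_neg hik.symm, mul_one] at h
    by_contra hne
    exact ht1 (mul_right_cancel₀ hne (h.trans (one_mul _).symm))
  have hdiag : ∀ i k : Fin n, g.1.1 i i = g.1.1 k k := by
    intro i k
    rcases eq_or_ne i k with rfl | hik
    · rfl
    let P : Matrix (Fin n) (Fin n) F := (Equiv.swap i k).permMatrix F
    have hpres : ∀ x y, Cfsg.hermForm n F q (P *ᵥ x) (P *ᵥ y) = Cfsg.hermForm n F q x y := fun x y => by
      simp only [P, Matrix.permMatrix_mulVec]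
      exact Equiv.sum_comp (Equiv.swap i k) (fun l => x l * y l ^ q)
    have h := congrArg (fun z : Cfsg.GU n F q => z.1.1 i k) (Subgroup.mem_center_iff.1 hg (mkGU hF P hpres))
    change (P * g.1.1) i k = (g.1.1 * P) i k at h
    rw [Matrix.mul_apply, Matrix.mul_apply, Finset.sum_eq_single k, Finset.sum_eq_single i] at h
    · have hP : P i k = 1 := by simp [P, PEquiv.toMatrix_apply, Equiv.swap_apply_left]
      rw [hP, one_mul, mul_one] at h
      exact h.symm
    · intro l _ hl; rw [hoff i l (Ne.symm hl), zero_mul]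
    · simp
    · intro l _ hl; rw [hoff l k hl, mul_zero]
    · simp
  refine ⟨g.1.1 ⟨0, hn⟩ ⟨0, hn⟩, ?_⟩
  ext i k
  rcases eq_or_ne i k with rfl | hik
  · simp [hdiag i ⟨0, hn⟩]
  · simp [hoff i k hik, hik]

/-- PGU_n(q)/PSU_n(q) is cyclic of order (n, q+1): for n ≥ 2 and |F| = q² there is a surjective homomorphism from GU_n(q) onto the cyclic group of order gcd(n, q + 1) whose kernel is generated by the determinant-one elements together with the centre. -/
theorem result {F : Type*} [Field F] [Fintype F] {q : ℕ} (hF : Fintype.card F = q ^ 2) (n : ℕ) (hn : 2 ≤ n) : ∃ φ : ↥(Cfsg.GU n F q) →* Multiplicative (ZMod (Nat.gcd n (q + 1))), Function.Surjective φ ∧ φ.ker = (Matrix.GeneralLinearGroup.det : Matrix.GeneralLinearGroup (Fin n) F →* Fˣ).ker.subgroupOf (Cfsg.GU n F q) ⊔ Subgroup.center ↥(Cfsg.GU n F q) := by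
  classical
  let μ := (powMonoidHom (q + 1) : Fˣ →* Fˣ).ker
  have hμ : Nat.card μ = q + 1 := card_ker_succ hF
  let e : Multiplicative (ZMod (Nat.card μ)) ≃* μ := zmodCyclicMulEquiv inferInstance
  let d := Nat.gcd n (q + 1)
  have hdvd : d ∣ Nat.card μ := hμ ▸ Nat.gcd_dvd_right n (q + 1)
  let c : Multiplicative (ZMod (Nat.card μ)) →* Multiplicative (ZMod d) :=
    AddMonoidHom.toMultiplicative (ZMod.castHom hdvd (ZMod d)).toAddMonoidHom
  have hcsurj : Function.Surjective c := fun y => by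
    obtain ⟨x, hx⟩ := ZMod.castHom_surjective hdvd y.toAdd
    exact ⟨Multiplicative.ofAdd x, congrArg Multiplicative.ofAdd hx⟩
  have hcker : ∀ x, c x = 1 ↔ ∃ z, z ^ n = x := by
    intro x
    constructor
    · intro hx
      have h0 : (ZMod.castHom hdvd (ZMod d)) x.toAdd = 0 := congrArg Multiplicative.toAdd hx
      haveI : NeZero (Nat.card μ) := ⟨by omega⟩
      rw [ZMod.castHom_apply, ← ZMod.natCast_val, ZMod.natCast_eq_zero_iff] at h0
      obtain ⟨a, ha⟩ := h0
      refine ⟨Multiplicative.ofAdd ((Nat.gcdA n (q + 1) : ZMod (Nat.card μ)) * a), ?_⟩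
      rw [← ofAdd_nsmul, ← ofAdd_toAdd x]
      congr 1
      rw [nsmul_eq_mul, ← ZMod.natCast_zmod_val x.toAdd, ha, Nat.cast_mul, ← mul_assoc]
      congr 1
      have hb := congrArg (Int.cast : ℤ → ZMod (Nat.card μ)) (Nat.gcd_eq_gcd_ab n (q + 1))
      push_cast at hb
      rw [hb, show (q : ZMod (Nat.card μ)) + 1 = ((q + 1 : ℕ) : ZMod (Nat.card μ)) by push_cast; ring, ← hμ,
        ZMod.natCast_self, zero_mul, add_zero]
    · rintro ⟨z, rfl⟩
      obtain ⟨j, hj⟩ := Nat.gcd_dvd_left n (q + 1)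
      rw [map_pow, hj, pow_mul]
      refine (congrArg (· ^ j) ?_).trans (one_pow j)
      rw [← ofAdd_toAdd (c z), ← ofAdd_nsmul, ← ofAdd_zero]
      congr 1
      rw [nsmul_eq_mul, ZMod.natCast_self, zero_mul]
  let δ : ↥(Cfsg.GU n F q) →* μ :=
    (Matrix.GeneralLinearGroup.det.comp (Cfsg.GU n F q).subtype).codRestrict μ fun g =>
      MonoidHom.mem_ker.2 (Units.ext (by simpa using det_norm hF g))
  let φ : ↥(Cfsg.GU n F q) →* Multiplicative (ZMod d) := c.comp (e.symm.toMonoidHom.comp δ)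
  have hscal : ∀ z : μ, ∃ s : Cfsg.GU n F q, s ∈ Subgroup.center (Cfsg.GU n F q) ∧ δ s = z ^ n := fun z => by
    have hz : ((z : Fˣ) : F) ^ (q + 1) = 1 := by simpa using congrArg Units.val (MonoidHom.mem_ker.1 z.2)
    refine ⟨mkGU hF (Matrix.diagonal fun _ => ((z : Fˣ) : F)) (diag_preserves hF _ fun _ => hz), ?_, ?_⟩
    · rw [Subgroup.mem_center_iff]
      intro g
      refine Subtype.ext (Units.ext ?_)
      show g.1.1 * Matrix.diagonal (fun _ => ((z : Fˣ) : F)) = Matrix.diagonal (fun _ => ((z : Fˣ) : F)) * g.1.1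
      exact (Matrix.scalar_commute _ (mul_comm _) _).symm.eq
    · refine Subtype.ext (Units.ext ?_)
      show (Matrix.diagonal fun _ : Fin n => ((z : Fˣ) : F)).det = ((z ^ n : μ) : Fˣ)
      rw [Matrix.det_diagonal, Finset.prod_const, Finset.card_univ, Fintype.card_fin]
      simp
  refine ⟨φ, hcsurj.comp (e.symm.surjective.comp ?_), le_antisymm ?_ ?_⟩
  · intro u
    have hu : ((u : Fˣ) : F) ^ (q + 1) = 1 := by simpa using congrArg Units.val (MonoidHom.mem_ker.1 u.2)
    let D : Fin n → F := fun i => if i = ⟨0, by omega⟩ then ((u : Fˣ) : F) else 1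
    have hD : ∀ i, D i ^ (q + 1) = 1 := fun i => by
      simp only [D]; split_ifs
      · exact hu
      · exact one_pow _
    refine ⟨mkGU hF (Matrix.diagonal D) (diag_preserves hF D hD), Subtype.ext (Units.ext ?_)⟩
    show (Matrix.diagonal D).det = ((u : Fˣ) : F)
    simp [Matrix.det_diagonal, D]
  · intro g hg
    obtain ⟨z, hz⟩ := (hcker _).1 (MonoidHom.mem_ker.1 hg)
    obtain ⟨s, hs, hds⟩ := hscal (e z)
    have hgs : δ (g * s⁻¹) = 1 := by
      have h1 : δ g = e z ^ n := by
        rw [← map_pow, hz]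
        exact (e.apply_symm_apply _).symm
      rw [map_mul, map_inv, hds, h1, mul_inv_cancel]
    rw [show g = g * s⁻¹ * s by group]
    refine Subgroup.mul_mem_sup ?_ hs
    show Matrix.GeneralLinearGroup.det (g * s⁻¹).1 = 1
    exact congrArg Subtype.val hgs
  · refine sup_le (fun g hg => ?_) (fun g hg => ?_)
    · have : δ g = 1 := Subtype.ext hg
      simp [φ, this]
    · obtain ⟨a, ha⟩ := centre_scalar hF (by omega) g hg
      have hdet : g.1.1.det = a ^ n := by rw [ha, Matrix.det_smul, Matrix.det_one, mul_one, Fintype.card_fin]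
      have hnorm : a ^ (q + 1) = 1 := by
        have h := GU_H g (Pi.single ⟨0, by omega⟩ 1) (Pi.single ⟨0, by omega⟩ 1)
        simp only [ha, Matrix.smul_mulVec, Matrix.one_mulVec, H_smul_left, H_smul_right] at h
        rw [H_single_right (q_ne_zero hF)] at h
        simp only [Pi.single_eq_same, mul_one] at h
        rw [pow_succ]; exact h
      have ha0 : a ≠ 0 := fun h0 => by rw [h0, zero_pow (Nat.succ_ne_zero q)] at hnorm; exact zero_ne_one hnorm
      let z : μ := ⟨Units.mk0 a ha0, MonoidHom.mem_ker.2 (Units.ext (by simpa using hnorm))⟩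
      have h1 : δ g = z ^ n := Subtype.ext (Units.ext (by simpa [δ, z] using hdet))
      refine MonoidHom.mem_ker.2 ((hcker _).2 ⟨e.symm z, ?_⟩)
      show e.symm z ^ n = e.symm (δ g)
      rw [← map_pow, h1]

end Cfsg.Agent.S0783
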