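import Cfsg.Statements.S0784
import Mathlib


set_option autoImplicit false
open Cfsg
open scoped Matrix

namespace Cfsg.Agent.S0784

/-- Reflections: if Q(v) ≠ 0 then the matrix R = 1 − Q(v)⁻¹ · v f(v, ·)ᵀ preserves Q, maps v to −v, fixes each x with f(v, x) = 0, and has determinant −1 (in characteristic two, −1 = 1 and R is the orthogonal transvection of v). -/
theorem result {F : Type*} [Field F] {n : ℕ} (Q : QuadraticForm F (Fin n → F)) (v : Fin n → F) (hv : Q v ≠ 0) : (∀ x, Q ((Cfsg.reflectionMatrix ⇑Q v).mulVec x) = Q x) ∧ (Cfsg.reflectionMatrix ⇑Q v).mulVec v = -v ∧ (∀ x, QuadraticMap.polar ⇑Q v x = 0 → (Cfsg.reflectionMatrix ⇑Q v).mulVec x = x) ∧ (Cfsg.reflectionMatrix ⇑Q v).det = -1 := by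
  classical
  have hw : ∀ x, Cfsg.polarVec (⇑Q) v ⬝ᵥ x = QuadraticMap.polar (⇑Q) v x := by
    intro x
    have h : QuadraticMap.polar (⇑Q) v x = (QuadraticMap.polarBilin Q v) x := rfl
    rw [h]
    conv_rhs => rw [← (Pi.basisFun F (Fin n)).sum_repr x]
    rw [map_sum]
    simp only [map_smul, smul_eq_mul, Pi.basisFun_repr, Pi.basisFun_apply, dotProduct, Cfsg.polarVec,
      QuadraticMap.polarBilin_apply_apply]
    exact Finset.sum_congr rfl (fun i _ => mul_comm _ _)
  have hR : ∀ x, (Cfsg.reflectionMatrix (⇑Q) v) *ᵥ x = x - ((Q v)⁻¹ * QuadraticMap.polar (⇑Q) v x) • v := by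
    intro x
    rw [Cfsg.reflectionMatrix, Matrix.sub_mulVec, Matrix.one_mulVec, Matrix.smul_mulVec, Matrix.vecMulVec_mulVec, hw]
    simp [smul_smul, MulOpposite.smul_eq_mul_unop]
  have hvv : QuadraticMap.polar (⇑Q) v v = 2 * Q v := by
    rw [QuadraticMap.polar_self, two_nsmul, two_mul]
  refine ⟨?_, ?_, ?_, ?_⟩
  · intro x
    rw [hR]
    set a := (Q v)⁻¹ * QuadraticMap.polar (⇑Q) v x with ha
    have hexp : Q (x - a • v) = Q x + a * a * Q v - a * QuadraticMap.polar (⇑Q) v x := by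
      have h2 : QuadraticMap.polar (⇑Q) x ((-a) • v) = (-a) * QuadraticMap.polar (⇑Q) v x := by
        rw [QuadraticMap.polar_smul_right, QuadraticMap.polar_comm, smul_eq_mul]
      rw [QuadraticMap.polar, QuadraticMap.map_smul, smul_eq_mul, neg_smul, ← sub_eq_add_neg] at h2
      linear_combination h2
    rw [hexp]
    have : a * Q v = QuadraticMap.polar (⇑Q) v x := by rw [ha]; field_simp
    linear_combination a * this
  · rw [hR, hvv, show (Q v)⁻¹ * (2 * Q v) = 2 by field_simp, two_smul]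
    abel
  · intro x hx
    rw [hR, hx]; simp
  · rw [Cfsg.reflectionMatrix, sub_eq_add_neg, ← Matrix.smul_vecMulVec, ← Matrix.neg_vecMulVec,
      Matrix.vecMulVec_eq Unit, Matrix.det_one_add_replicateCol_mul_replicateRow]
    simp [dotProduct_neg, dotProduct_smul, hw, hvv]
    field_simp
    ring

end Cfsg.Agent.S0784
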