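import Cfsg.Statements.S0787
import Cfsg.Agent.Lib.Geometry.OmegaIndex

set_option autoImplicit false
open Cfsg

namespace Cfsg.Agent.S0787

/-- Existence and uniqueness of Ω: if F is finite, n ≥ 2, Q is a quadratic form on F^n with non-degenerate polar form and (|F|, n) ≠ (2, 4), then the group of isometries of determinant one has a unique subgroup of index 2. -/
theorem result {F : Type*} [Field F] [Fintype F] {n : ℕ} (hn : 2 ≤ n) (Q : QuadraticForm F (Fin n → F)) (hQ : (QuadraticMap.polarBilin Q).Nondegenerate) (h : Fintype.card F ≠ 2 ∨ n ≠ 4) : ∃! H : Subgroup ↥(Cfsg.specialIsometryGroup F ⇑Q), H.index = 2 := by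
  classical
  haveI : Nontrivial (Fin n) := Fin.nontrivial_iff_two_le.2 hn
  refine CfsgLib.Geometry.OmegaIndex.unique_index_two hQ ?_
  rcases h with h | h
  · left
    by_contra hc
    simp only [not_exists, not_and, not_not] at hc
    apply h
    have : (Finset.univ : Finset F) = {0, 1} := by
      ext x; simp only [Finset.mem_univ, Finset.mem_insert, Finset.mem_singleton, true_iff]
      by_cases hx : x = 0
      · exact Or.inl hx
      · exact Or.inr (hc x hx)
    rw [← Finset.card_univ, this, Finset.card_pair zero_ne_one]
  · right; simpa using h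

end Cfsg.Agent.S0787
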