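import Cfsg.Statements.S0793
import Cfsg.Agent.Lib.Geometry.QuadBasic

set_option autoImplicit false
open Cfsg

namespace Cfsg.Agent.S0793

open scoped Matrix

/-- Root elements: if Q(u) = Q(v) = 0 and f(u, v) = 0 (f the polar form), then for every c the Siegel matrix T_(u,v)(c) preserves Q, fixes u and v, and T(c) T(d) = T(c + d). -/
theorem result {F : Type*} [Field F] {n : ℕ} (Q : QuadraticForm F (Fin n → F)) (u v : Fin n → F) (hu : Q u = 0) (hv : Q v = 0) (huv : QuadraticMap.polar ⇑Q u v = 0) : (∀ c x, Q ((Cfsg.siegelMatrix ⇑Q u v c).mulVec x) = Q x) ∧ (∀ c, (Cfsg.siegelMatrix ⇑Q u v c).mulVec u = u ∧ (Cfsg.siegelMatrix ⇑Q u v c).mulVec v = v) ∧ ∀ c d, Cfsg.siegelMatrix ⇑Q u v c * Cfsg.siegelMatrix ⇑Q u v d = Cfsg.siegelMatrix ⇑Q u v (c + d) := by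
  classical
  open CfsgLib.Geometry.QuadBasic in
  set f := QuadraticMap.polar (⇑Q) with hf
  have hS : ∀ c x, (Cfsg.siegelMatrix (⇑Q) u v c) *ᵥ x = x + ((c * f u x) • v - (c * f v x) • u) := by
    intro c x
    rw [Cfsg.siegelMatrix, Matrix.add_mulVec, Matrix.one_mulVec, Matrix.smul_mulVec, Matrix.sub_mulVec,
      Matrix.vecMulVec_mulVec, Matrix.vecMulVec_mulVec, CfsgLib.Geometry.QuadBasic.polarVec_dotProduct,
      CfsgLib.Geometry.QuadBasic.polarVec_dotProduct]
    simp [smul_sub, smul_smul, hf]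
  have hvu : f v u = 0 := by rw [hf, QuadraticMap.polar_comm]; exact huv
  have hu2 : f u u = 0 := by rw [hf, QuadraticMap.polar_self, hu]; simp
  have hv2 : f v v = 0 := by rw [hf, QuadraticMap.polar_self, hv]; simp
  have hfix : ∀ c, (Cfsg.siegelMatrix (⇑Q) u v c) *ᵥ u = u ∧ (Cfsg.siegelMatrix (⇑Q) u v c) *ᵥ v = v := by
    intro c
    constructor
    · rw [hS, hu2, hvu]; simp
    · rw [hS, hv2, show f u v = 0 from huv]; simp
  refine ⟨?_, hfix, ?_⟩
  · intro c x
    rw [hS, sub_eq_add_neg, ← neg_smul, ← add_assoc, CfsgLib.Geometry.QuadBasic.map_add_smul,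
      CfsgLib.Geometry.QuadBasic.map_add_smul]
    rw [hu, hv, ← hf, show f u (x + (c * f u x) • v) = f u x + (c * f u x) * f u v by
      rw [hf, QuadraticMap.polar_add_right, QuadraticMap.polar_smul_right, smul_eq_mul], show f u v = 0 from huv]
    ring
  · intro c d
    apply Matrix.ext_of_mulVec_single
    intro i
    rw [← Matrix.mulVec_mulVec, hS d, Matrix.mulVec_add, Matrix.mulVec_sub, Matrix.mulVec_smul, Matrix.mulVec_smul,
      (hfix c).1, (hfix c).2, hS, hS]
    module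

end Cfsg.Agent.S0793
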