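import Cfsg.Statements.S0794
import Cfsg.Agent.Lib.Geometry.QuadBasic
import Cfsg.Agent.S0793

set_option autoImplicit false
open Cfsg

namespace Cfsg.Agent.S0794
open scoped Matrix commutatorElement

/-- For q odd, n ≥ 5 and Q with non-degenerate polar form: an isometry whose matrix is a Siegel transformation T_(u,v)(c) (u, v singular and orthogonal) is a commutator in the isometry group, so lies in Ω. -/
theorem result {F : Type*} [Field F] [Fintype F] (h2 : (2 : F) ≠ 0) {n : ℕ} (hn : 5 ≤ n) (Q : QuadraticForm F (Fin n → F)) (hQ : (QuadraticMap.polarBilin Q).Nondegenerate) (u v : Fin n → F) (hu : Q u = 0) (hv : Q v = 0) (huv : QuadraticMap.polar ⇑Q u v = 0) (c : F) (g : ↥(Cfsg.isometryGroup F ⇑Q)) (hg : ((g : Matrix.GeneralLinearGroup (Fin n) F) : Matrix (Fin n) (Fin n) F) = Cfsg.siegelMatrix ⇑Q u v c) : g ∈ commutatorSet ↥(Cfsg.isometryGroup F ⇑Q) ∧ g ∈ Cfsg.Omega F ⇑Q := by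
  classical
  open CfsgLib.Geometry.QuadBasic in
  set f := QuadraticMap.polar (⇑Q) with hf
  have hT : ∀ d x, (Cfsg.siegelMatrix (⇑Q) u v d) *ᵥ x = x + ((d * f u x) • v - (d * f v x) • u) := by
    intro d x
    rw [Cfsg.siegelMatrix, Matrix.add_mulVec, Matrix.one_mulVec, Matrix.smul_mulVec, Matrix.sub_mulVec,
      Matrix.vecMulVec_mulVec, Matrix.vecMulVec_mulVec, polarVec_dotProduct, polarVec_dotProduct]
    simp [smul_sub, smul_smul, hf]
  obtain ⟨-, -, hTT⟩ := Cfsg.Agent.S0793.result Q u v hu hv huv
  suffices hmem : g ∈ commutatorSet ↥(Cfsg.isometryGroup F ⇑Q) by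
    refine ⟨hmem, ?_⟩
    have h : g ∈ commutator ↥(Cfsg.isometryGroup F ⇑Q) := by
      rw [commutator_eq_closure]
      exact Subgroup.subset_closure hmem
    exact h
  by_cases hind : ∃ w, f w u = 1 ∧ f w v = 0
  · obtain ⟨w, hwu, hwv⟩ := hind
    have hvu : f v u = 0 := by rw [hf, QuadraticMap.polar_comm]; exact huv
    have huu : f u u = 0 := by rw [hf, QuadraticMap.polar_self, hu]; simp
    have hvv : f v v = 0 := by rw [hf, QuadraticMap.polar_self, hv]; simp
    set u' := w + (-Q w) • u with hu'
    have hfuu' : f u u' = 1 := by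
      rw [hu', hf, QuadraticMap.polar_add_right, QuadraticMap.polar_smul_right, ← hf, huu,
        show f u w = f w u from QuadraticMap.polar_comm _ _ _, hwu]
      simp
    have hfvu' : f v u' = 0 := by
      rw [hu', hf, QuadraticMap.polar_add_right, QuadraticMap.polar_smul_right, ← hf, hvu,
        show f v w = f w v from QuadraticMap.polar_comm _ _ _, hwv]
      simp
    have hfu'u : f u' u = 1 := by rw [hf, QuadraticMap.polar_comm]; exact hfuu'
    have hQu' : Q u' = 0 := by
      rw [hu', map_add_smul, hu, ← hf, show f u w = f w u from QuadraticMap.polar_comm _ _ _, hwu]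
      ring
    have hfu'u' : f u' u' = 0 := by rw [hf, QuadraticMap.polar_self, hQu']; simp
    -- the stretching map
    let S : F → Matrix (Fin n) (Fin n) F := fun l =>
      1 + (l - 1) • Matrix.vecMulVec u (Cfsg.polarVec (⇑Q) u') + (l⁻¹ - 1) • Matrix.vecMulVec u' (Cfsg.polarVec (⇑Q) u)
    have hS : ∀ l x, S l *ᵥ x = x + (((l - 1) * f u' x) • u + ((l⁻¹ - 1) * f u x) • u') := by
      intro l x
      simp only [S, Matrix.add_mulVec, Matrix.one_mulVec, Matrix.smul_mulVec, Matrix.vecMulVec_mulVec,
        polarVec_dotProduct, op_smul_eq_smul, smul_smul, hf, add_assoc]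
    have hSiso : ∀ l : F, l ≠ 0 → ∀ x, Q (S l *ᵥ x) = Q x := by
      intro l hl x
      rw [hS, ← add_assoc, map_add_smul, map_add_smul, hu, hQu', ← hf,
        show f u' (x + ((l - 1) * f u' x) • u) = f u' x + ((l - 1) * f u' x) * f u' u by
          rw [hf, QuadraticMap.polar_add_right, QuadraticMap.polar_smul_right, smul_eq_mul], hfu'u]
      field_simp
      ring
    have hSS : ∀ l : F, l ≠ 0 → S l * S l⁻¹ = 1 := by
      intro l hl
      refine Matrix.toLin'.injective (LinearMap.ext fun x => ?_)
      simp only [Matrix.toLin'_apply, ← Matrix.mulVec_mulVec, Matrix.one_mulVec, hS, hf,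
        QuadraticMap.polar_add_right, QuadraticMap.polar_smul_right, smul_eq_mul]
      simp only [← hf, hfu'u, huu, hfuu', hfu'u', inv_inv]
      match_scalars <;> field_simp <;> ring
    let h0 : Matrix.GeneralLinearGroup (Fin n) F := ⟨S 2, S 2⁻¹, hSS 2 h2,
      by simpa using hSS (2 : F)⁻¹ (inv_ne_zero h2)⟩
    let h : ↥(Cfsg.isometryGroup F ⇑Q) := ⟨h0, (mem_isometryGroup_iff _ _).2 (hSiso 2 h2)⟩
    have key : h * g = g * g * h := by
      refine Subtype.ext (Units.ext ?_)
      simp only [Subgroup.coe_mul, Units.val_mul, hg, hTT]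
      refine Matrix.toLin'.injective (LinearMap.ext fun x => ?_)
      change (S 2 * Cfsg.siegelMatrix (⇑Q) u v c) *ᵥ x = (Cfsg.siegelMatrix (⇑Q) u v (c + c) * S 2) *ᵥ x
      rw [← Matrix.mulVec_mulVec, ← Matrix.mulVec_mulVec]
      simp only [hS, hT, hf, QuadraticMap.polar_add_right, QuadraticMap.polar_sub_right,
        QuadraticMap.polar_smul_right, smul_eq_mul]
      simp only [← hf, hfu'u, huu, hfuu', hfu'u', hfvu', hvu, hvv,
        show f u v = 0 from huv, show f u' v = 0 from (QuadraticMap.polar_comm _ _ _).trans hfvu']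
      match_scalars <;> field_simp <;> ring
    refine ⟨h, g, ?_⟩
    rw [commutatorElement_def, key]
    group
  · have hzero : g = 1 := by
      refine Subtype.ext (Units.ext ?_)
      change g.1.1 = 1
      rw [hg]
      refine Matrix.toLin'.injective (LinearMap.ext fun x => ?_)
      simp only [Matrix.toLin'_apply, Matrix.one_mulVec, hT]
      -- u and v are dependent
      have hdep : ¬ LinearIndependent F ![u, v] := by
        intro hli
        refine hind ?_
        obtain ⟨φ, hφu, hφv⟩ : ∃ φ : Module.Dual F (Fin n → F), φ u = 1 ∧ φ v = 0 := by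
          have hnot : u ∉ Submodule.span F ({v} : Set (Fin n → F)) := by
            intro hm
            obtain ⟨t, ht⟩ := Submodule.mem_span_singleton.1 hm
            have := LinearIndependent.pair_iff.1 hli 1 (-t) (by rw [one_smul, neg_smul, ht, add_neg_cancel])
            exact one_ne_zero this.1
          obtain ⟨φ, hφ, hφW⟩ := Submodule.exists_dual_map_eq_bot_of_notMem hnot inferInstance
          refine ⟨(φ u)⁻¹ • φ, by simp [hφ], ?_⟩
          have hv0 : φ v = 0 := by
            have : φ v ∈ (Submodule.span F ({v} : Set (Fin n → F))).map φ :=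
              ⟨v, Submodule.mem_span_singleton_self v, rfl⟩
            rw [hφW] at this
            exact (Submodule.mem_bot F).1 this
          simp [hv0]
        have hsurj : Function.Surjective (QuadraticMap.polarBilin Q) :=
          (LinearMap.injective_iff_surjective_of_finrank_eq_finrank
            (Subspace.dual_finrank_eq (K := F) (V := Fin n → F)).symm).1 (LinearMap.ker_eq_bot.1
              (LinearMap.separatingLeft_iff_ker_eq_bot.1 hQ.1))
        obtain ⟨w, hw⟩ := hsurj φ
        exact ⟨w, by rw [← hφu, ← hw]; rfl, by rw [← hφv, ← hw]; rfl⟩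
      rw [LinearIndependent.pair_iff] at hdep
      push Not at hdep
      obtain ⟨s, t, hst, hne⟩ := hdep
      by_cases hs : s = 0
      · have ht : t ≠ 0 := hne hs
        rw [hs, zero_smul, zero_add] at hst
        have : v = 0 := (smul_eq_zero.1 hst).resolve_left ht
        subst this
        simp [hf]
      · have : u = (-(t / s)) • v := by
          rw [neg_smul, div_eq_inv_mul, ← smul_smul, ← smul_neg, ← eq_neg_of_add_eq_zero_left hst, inv_smul_smul₀ hs]
        rw [this, hf, QuadraticMap.polar_smul_left, smul_eq_mul]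
        module
    rw [hzero]
    exact ⟨1, 1, by simp [commutatorElement_def]⟩

end Cfsg.Agent.S0794
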