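import Cfsg.Statements.S0795
import Cfsg.Agent.Lib.Orth.Siegel

set_option autoImplicit false
open Cfsg

namespace Cfsg.Agent.S0795

open scoped Matrix

/-- Generation of Ω by root elements: for q odd, n ≥ 5 and Q with non-degenerate polar form on F^n, the commutator subgroup of the isometry group equals the subgroup generated by the isometries whose matrices are Siegel transformations T_(u,v)(c) with u, v singular and orthogonal. -/
theorem result {F : Type*} [Field F] [Fintype F] (h2 : (2 : F) ≠ 0) {n : ℕ} (hn : 5 ≤ n) (Q : QuadraticForm F (Fin n → F)) (hQ : (QuadraticMap.polarBilin Q).Nondegenerate) : Cfsg.Omega F ⇑Q = Subgroup.closure {g : ↥(Cfsg.isometryGroup F ⇑Q) | ∃ (u v : Fin n → F) (c : F), Q u = 0 ∧ Q v = 0 ∧ QuadraticMap.polar ⇑Q u v = 0 ∧ ((g : Matrix.GeneralLinearGroup (Fin n) F) : Matrix (Fin n) (Fin n) F) = Cfsg.siegelMatrix ⇑Q u v c} := by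
  classical
  have hn' : 5 ≤ Fintype.card (Fin n) := by simpa using hn
  set K := Subgroup.closure {g : ↥(Cfsg.isometryGroup F ⇑Q) | ∃ (u v : Fin n → F) (c : F), Q u = 0 ∧ Q v = 0 ∧ QuadraticMap.polar ⇑Q u v = 0 ∧ ((g : Matrix.GeneralLinearGroup (Fin n) F) : Matrix (Fin n) (Fin n) F) = Cfsg.siegelMatrix ⇑Q u v c} with hK
  have hS : ∀ (u v : Fin n → F) (c : F) (hu : Q u = 0) (hv : Q v = 0) (huv : CfsgLib.Orth.Siegel.B Q u v = 0)
      (h : CfsgLib.Orth.Siegel.B Q u (c • v) = 0),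
      (CfsgLib.Orth.Siegel.S u (c • v) hu h).1.1 = Cfsg.siegelMatrix ⇑Q u v c := by
    intro u v c hu hv huv h
    refine Matrix.toLin'.injective (LinearMap.ext fun z => ?_)
    simp only [Matrix.toLin'_apply]
    rw [CfsgLib.Orth.Siegel.S_apply, Cfsg.siegelMatrix, Matrix.add_mulVec, Matrix.one_mulVec, Matrix.smul_mulVec,
      Matrix.sub_mulVec, Matrix.vecMulVec_mulVec, Matrix.vecMulVec_mulVec,
      CfsgLib.Geometry.QuadBasic.polarVec_dotProduct, CfsgLib.Geometry.QuadBasic.polarVec_dotProduct,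
      CfsgLib.Orth.Siegel.Q_smul, hv]
    simp only [op_smul_eq_smul, map_smul, smul_eq_mul, CfsgLib.Orth.Siegel.B_apply, mul_zero, zero_mul, add_zero,
      QuadraticMap.polar_comm _ z u, QuadraticMap.polar_comm _ z v]
    module
  rw [CfsgLib.Orth.Siegel.omega_eq_E hQ hn']
  refine le_antisymm ((Subgroup.closure_le _).2 ?_) ((Subgroup.closure_le _).2 ?_)
  · rintro _ ⟨u, x, hu, hx, rfl⟩
    by_cases hu0 : u = 0
    · have : CfsgLib.Orth.Siegel.S u x hu hx = 1 := CfsgLib.Orth.Siegel.ext_mulVec fun z => by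
        simp [CfsgLib.Orth.Siegel.S_apply, hu0]
      rw [SetLike.mem_coe, this]; exact one_mem _
    obtain ⟨v, hv, huv⟩ := CfsgLib.Orth.Siegel.exists_partner hQ hu hu0
    obtain ⟨z, w, hz, hw, hzw, huz, -, huw, -⟩ := CfsgLib.Orth.Siegel.exists_pair_perp hQ hn' hu hv huv
    have hx' : x ∈ Submodule.span F {p | p ∈ LinearMap.ker (CfsgLib.Orth.Siegel.B Q u) ∧ Q p = 0} :=
      CfsgLib.Orth.Siegel.span_singular (LinearMap.mem_ker.2 huz) (LinearMap.mem_ker.2 huw) hz hw hzw
        (LinearMap.mem_ker.2 hx)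
    suffices h : ∀ p, p ∈ Submodule.span F {p | p ∈ LinearMap.ker (CfsgLib.Orth.Siegel.B Q u) ∧ Q p = 0} →
        CfsgLib.Orth.Siegel.B Q u p = 0 ∧ ∀ c : F, ∀ hh, CfsgLib.Orth.Siegel.S u (c • p) hu hh ∈ K by
      have := (h x hx').2 1 (by rw [one_smul]; exact hx)
      rwa [CfsgLib.Orth.Siegel.S_congr hu _ hu hx rfl (one_smul F x)] at this
    intro p hp
    induction hp using Submodule.span_induction with
    | mem q hq =>
      have hq1 := LinearMap.mem_ker.1 hq.1
      exact ⟨hq1, fun c hh => Subgroup.subset_closure ⟨u, q, c, hu, hq.2, hq1, hS u q c hu hq.2 hq1 hh⟩⟩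
    | zero =>
      refine ⟨map_zero _, fun c hh => ?_⟩
      rw [CfsgLib.Orth.Siegel.S_congr hu hh hu (map_zero _) rfl (smul_zero c), CfsgLib.Orth.Siegel.S_zero]
      exact one_mem _
    | add q r _ _ hq hr =>
      refine ⟨by rw [map_add, hq.1, hr.1, add_zero], fun c hh => ?_⟩
      have h1 : CfsgLib.Orth.Siegel.B Q u (c • q) = 0 := by rw [map_smul, hq.1, smul_zero]
      have h2 : CfsgLib.Orth.Siegel.B Q u (c • r) = 0 := by rw [map_smul, hr.1, smul_zero]
      rw [CfsgLib.Orth.Siegel.S_congr hu hh hu (show CfsgLib.Orth.Siegel.B Q u (c • q + c • r) = 0 by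
        rw [map_add, h1, h2, add_zero]) rfl (smul_add c q r), ← CfsgLib.Orth.Siegel.S_mul hu h1 h2]
      exact mul_mem (hq.2 c h1) (hr.2 c h2)
    | smul d q _ hq =>
      refine ⟨by rw [map_smul, hq.1, smul_zero], fun c hh => ?_⟩
      rw [CfsgLib.Orth.Siegel.S_congr hu hh hu (show CfsgLib.Orth.Siegel.B Q u ((c * d) • q) = 0 by
        rw [map_smul, hq.1, smul_zero]) rfl (smul_smul c d q)]
      exact hq.2 _ _
  · rintro g ⟨u, v, c, hu, hv, huv, hg⟩
    have h : CfsgLib.Orth.Siegel.B Q u (c • v) = 0 := by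
      rw [map_smul, CfsgLib.Orth.Siegel.B_apply, huv, smul_zero]
    have : g = CfsgLib.Orth.Siegel.S u (c • v) hu h := Subtype.ext (Units.ext (hg.trans (hS u v c hu hv huv h).symm))
    rw [this]; exact CfsgLib.Orth.Siegel.S_mem_E _ _

end Cfsg.Agent.S0795
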