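import Cfsg.Statements.S0796
import Mathlib

set_option autoImplicit false
open Cfsg

namespace Cfsg.Agent.S0796

/-- If G is finite and acts faithfully and primitively on X, H is the stabiliser of a point, A is a normal subgroup of H whose normal closure in G is G, then for every non-trivial normal subgroup K of G the quotient G ⧸ K is isomorphic to A ⧸ B for some normal subgroup B of A. -/
theorem result {G X : Type*} [Group G] [Finite G] [MulAction G X] [FaithfulSMul G X] (hprim : MulAction.IsPreprimitive G X) (x : X) (A : Subgroup G) (hA : A ≤ MulAction.stabilizer G x) (hAn : (A.subgroupOf (MulAction.stabilizer G x)).Normal) (hgen : Subgroup.normalClosure (A : Set G) = ⊤) (K : Subgroup G) [K.Normal] (hK : K ≠ ⊥) : ∃ (B : Subgroup A) (_ : B.Normal), Nonempty (G ⧸ K ≃* A ⧸ B) := by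
  classical
  set H := MulAction.stabilizer G x with hH
  haveI := hprim
  have htop : ∀ g : G, ∃ k ∈ K, ∃ h ∈ H, g = k * h := by
    haveI : MulAction.IsPretransitive K X := by
      refine MulAction.IsQuasiPreprimitive.isPretransitive_of_normal fun hfix => hK ?_
      refine (Subgroup.eq_bot_iff_forall _).2 fun k hk => FaithfulSMul.eq_of_smul_eq_smul fun y : X => ?_
      have : y ∈ MulAction.fixedPoints K X := by rw [hfix]; trivial
      rw [one_smul]
      exact this ⟨k, hk⟩
    intro g
    obtain ⟨k, hk⟩ := MulAction.exists_smul_eq K x (g • x)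
    refine ⟨k, k.2, (k : G)⁻¹ * g, ?_, by group⟩
    rw [hH, MulAction.mem_stabilizer_iff, mul_smul, ← hk, Subgroup.smul_def, inv_smul_smul]
  have hsup : A ⊔ K = ⊤ := by
    rw [eq_top_iff, ← hgen]
    refine (Subgroup.closure_le _).2 ?_
    intro b hb
    obtain ⟨a, ha, hab⟩ := Group.mem_conjugatesOfSet_iff.1 hb
    obtain ⟨g, rfl⟩ := isConj_iff.1 hab
    obtain ⟨k, hk, h, hh, rfl⟩ := htop g
    have hha : h * a * h⁻¹ ∈ A := by
      have := hAn.conj_mem ⟨a, hA ha⟩ ha ⟨h, hh⟩
      simpa [Subgroup.mem_subgroupOf] using this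
    have hk' : k ∈ A ⊔ K := Subgroup.mem_sup_right hk
    rw [show k * h * a * (k * h)⁻¹ = k * (h * a * h⁻¹) * k⁻¹ by group]
    exact (A ⊔ K).mul_mem ((A ⊔ K).mul_mem hk' (Subgroup.mem_sup_left hha)) ((A ⊔ K).inv_mem hk')
  let f : A →* G ⧸ K := (QuotientGroup.mk' K).comp A.subtype
  have hf : Function.Surjective f := by
    intro q
    obtain ⟨g, rfl⟩ := QuotientGroup.mk'_surjective K q
    have hg : g ∈ A ⊔ K := by rw [hsup]; trivial
    obtain ⟨a, ha, k, hk, rfl⟩ := Subgroup.mem_sup_of_normal_right.1 hg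
    exact ⟨⟨a, ha⟩, by simp [f, (QuotientGroup.eq_one_iff k).2 hk]⟩
  exact ⟨f.ker, inferInstance, ⟨(QuotientGroup.quotientKerEquivOfSurjective f hf).symm⟩⟩

end Cfsg.Agent.S0796
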