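import Cfsg.Statements.S0797
import Mathlib
import Cfsg.Agent.Lib.Forms.SphereParity
import Cfsg.Agent.Lib.Forms.WittQuad
import Cfsg.Agent.Lib.Geometry.QuadBasic

set_option autoImplicit false
open Cfsg

namespace Cfsg.Agent.S0797

open CfsgLib.Forms CfsgLib.Geometry
open scoped Matrix

variable {F : Type*} [Field F] {n : ℕ} (Q : QuadraticForm F (Fin n → F))

/-- reflection as a member of the isometry group -/
noncomputable def refl (w : Fin n → F) (hw : Q w ≠ 0) : ↥(Cfsg.isometryGroup F ⇑Q) :=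
  ⟨QuadBasic.reflectionGL Q w hw, QuadBasic.reflectionGL_mem Q w hw⟩

theorem act_refl (w : Fin n → F) (hw : Q w ≠ 0) (x : Fin n → F) :
    ((refl Q w hw).1 : Matrix (Fin n) (Fin n) F) *ᵥ x = x - ((Q w)⁻¹ * QuadraticMap.polar Q w x) • w :=
  QuadBasic.reflection_mulVec Q w x

theorem act_isometry (g : ↥(Cfsg.isometryGroup F ⇑Q)) (x : Fin n → F) :
    Q ((g.1 : Matrix (Fin n) (Fin n) F) *ᵥ x) = Q x := (QuadBasic.mem_isometryGroup_iff _ _).1 g.2 x

theorem act_polar (g : ↥(Cfsg.isometryGroup F ⇑Q)) (x y : Fin n → F) :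
    QuadraticMap.polar Q ((g.1 : Matrix (Fin n) (Fin n) F) *ᵥ x) ((g.1 : Matrix (Fin n) (Fin n) F) *ᵥ y) =
      QuadraticMap.polar Q x y := by
  simp [QuadraticMap.polar, ← Matrix.mulVec_add, act_isometry]

theorem ext_act {g h : ↥(Cfsg.isometryGroup F ⇑Q)}
    (e : ∀ x, (g.1 : Matrix (Fin n) (Fin n) F) *ᵥ x = (h.1 : Matrix (Fin n) (Fin n) F) *ᵥ x) : g = h :=
  Subtype.ext (Units.ext (Matrix.toLin'.injective (LinearMap.ext fun x => by simpa using e x)))

theorem act_mul (g h : ↥(Cfsg.isometryGroup F ⇑Q)) (x : Fin n → F) :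
    ((g * h).1 : Matrix (Fin n) (Fin n) F) *ᵥ x =
      (g.1 : Matrix (Fin n) (Fin n) F) *ᵥ ((h.1 : Matrix (Fin n) (Fin n) F) *ᵥ x) :=
  (Matrix.mulVec_mulVec _ _ _).symm

/-- every subgroup containing all reflections is everything -/
theorem generated [Finite F] (h2 : (2 : F) ≠ 0) (hQ : (QuadraticMap.polarBilin Q).Nondegenerate) (hn : 1 ≤ n)
    (P : Subgroup ↥(Cfsg.isometryGroup F ⇑Q)) (hP : ∀ w hw, refl Q w hw ∈ P) : P = ⊤ := by
  classical
  obtain ⟨α, hα⟩ := FiniteField.exists_nonsquare (F := F) (fun h => h2 (by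
    haveI : CharP F 2 := ringChar.of_eq h
    exact CharTwo.two_eq_zero))
  obtain ⟨k, rfl⟩ : ∃ k, n = k + 1 := ⟨n - 1, by omega⟩
  obtain ⟨b, a, ha, hb⟩ := Classify.exists_basis h2 Q hQ (n := k) (by simp) hα
  have hbo : ∀ i j, i ≠ j → QuadraticMap.polar Q (b i) (b j) = 0 := fun i j h => by
    simpa [h] using hb i j
  have hbn : ∀ i, Q (b i) ≠ 0 := fun i h => by
    have := Classify.two_mul_apply Q (b i)
    rw [hb, h, mul_zero, if_pos rfl] at this
    split_ifs at this
    · rcases ha with rfl | rfl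
      · exact one_ne_zero this.symm
      · exact hα (this ▸ IsSquare.zero)
    · exact one_ne_zero this.symm
  rw [eq_top_iff]
  intro g _
  generalize hd : (Finset.univ.filter fun i => (g.1 : Matrix (Fin (k + 1)) (Fin (k + 1)) F) *ᵥ b i ≠ b i).card = d
  induction d using Nat.strong_induction_on generalizing g with
  | _ d ih =>
  by_cases h0 : ∀ i, (g.1 : Matrix (Fin (k + 1)) (Fin (k + 1)) F) *ᵥ b i = b i
  · rw [show g = 1 from ext_act Q fun x => by
      rw [← b.sum_repr x, Matrix.mulVec_sum]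
      simp [Matrix.mulVec_smul, h0, Matrix.mulVec_sum]]
    exact P.one_mem
  push Not at h0
  obtain ⟨i, hi⟩ := h0
  set y := (g.1 : Matrix (Fin (k + 1)) (Fin (k + 1)) F) *ᵥ b i with hy
  have hQy : Q y = Q (b i) := act_isometry Q g _
  have hperp : ∀ j, (g.1 : Matrix (Fin (k + 1)) (Fin (k + 1)) F) *ᵥ b j = b j → QuadraticMap.polar Q y (b j) = 0 ∧
      QuadraticMap.polar Q (b i) (b j) = 0 := fun j hj => by
    have hij : i ≠ j := fun h => hi (by rw [hy, h, hj])
    refine ⟨?_, hbo i j hij⟩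
    rw [← hj, hy, act_polar, hbo i j hij]
  obtain ⟨p, hp, hpi, hpj⟩ : ∃ p ∈ P, (p.1 : Matrix (Fin (k + 1)) (Fin (k + 1)) F) *ᵥ b i = y ∧
      ∀ j, (g.1 : Matrix (Fin (k + 1)) (Fin (k + 1)) F) *ᵥ b j = b j →
        (p.1 : Matrix (Fin (k + 1)) (Fin (k + 1)) F) *ᵥ b j = b j := by
    have hsum : Q (y - b i) + Q (y + b i) = (2 * 2) * Q (b i) := by
      rw [sub_eq_add_neg, QuadraticMap.map_add ⇑Q, QuadraticMap.map_add ⇑Q y, QuadraticMap.map_neg,
        QuadraticMap.polar_neg_right, hQy]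
      ring
    by_cases hm : Q (y - b i) = 0
    · have hw : Q (y + b i) ≠ 0 := fun h => mul_ne_zero (mul_ne_zero h2 h2) (hbn i) (by rw [← hsum, hm, h, add_zero])
      have hy0 : Q y ≠ 0 := by rw [hQy]; exact hbn i
      refine ⟨refl Q y hy0 * refl Q (y + b i) hw, P.mul_mem (hP _ _) (hP _ _), ?_, fun j hj => ?_⟩
      · have e : QuadraticMap.polar Q (y + b i) (b i) = Q (y + b i) := by
          rw [QuadraticMap.polar_add_left, QuadraticMap.polar_self, QuadraticMap.map_add ⇑Q y, hQy]; ring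
        rw [act_mul, act_refl, act_refl, e, inv_mul_cancel₀ hw, one_smul, show b i - (y + b i) = -y by abel,
          QuadraticMap.polar_neg_right, QuadraticMap.polar_self]
        match_scalars
        field_simp
        ring
      · obtain ⟨e1, e2⟩ := hperp j hj
        rw [act_mul, act_refl Q (y + b i) hw, QuadraticMap.polar_add_left, e1, e2, add_zero, mul_zero, zero_smul,
          sub_zero, act_refl, e1, mul_zero, zero_smul, sub_zero]
    · refine ⟨refl Q (y - b i) hm, hP _ _, ?_, fun j hj => ?_⟩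
      · have e : QuadraticMap.polar Q (y - b i) (b i) = -Q (y - b i) := by
          rw [sub_eq_add_neg, QuadraticMap.polar_add_left, QuadraticMap.polar_neg_left, QuadraticMap.polar_self,
            QuadraticMap.map_add ⇑Q y, QuadraticMap.map_neg, QuadraticMap.polar_neg_right, hQy]
          ring
        rw [act_refl, e, mul_neg, inv_mul_cancel₀ hm]
        simp
      · obtain ⟨e1, e2⟩ := hperp j hj
        rw [act_refl, QuadraticMap.polar_sub_left, e1, e2, sub_zero, mul_zero, zero_smul, sub_zero]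
  have hinv : ∀ x, (p⁻¹.1 : Matrix (Fin (k + 1)) (Fin (k + 1)) F) *ᵥ ((p.1 : Matrix (Fin (k + 1)) (Fin (k + 1)) F) *ᵥ x) = x :=
    fun x => by rw [← act_mul, inv_mul_cancel]; simp
  have hfix : ∀ j, (g.1 : Matrix (Fin (k + 1)) (Fin (k + 1)) F) *ᵥ b j = b j →
      ((p⁻¹ * g).1 : Matrix (Fin (k + 1)) (Fin (k + 1)) F) *ᵥ b j = b j := fun j hj => by
    rw [act_mul, hj]; nth_rewrite 1 [← hpj j hj]; exact hinv _
  have hnew : ((p⁻¹ * g).1 : Matrix (Fin (k + 1)) (Fin (k + 1)) F) *ᵥ b i = b i := by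
    rw [act_mul, ← hy, ← hpi]; exact hinv _
  have hlt : (Finset.univ.filter fun j =>
      ((p⁻¹ * g).1 : Matrix (Fin (k + 1)) (Fin (k + 1)) F) *ᵥ b j ≠ b j).card < d := by
    rw [← hd]
    refine Finset.card_lt_card ⟨fun j hj => ?_, fun h => ?_⟩
    · simp only [Finset.mem_filter, Finset.mem_univ, true_and] at hj ⊢
      exact fun h' => hj (hfix j h')
    · have := h (show i ∈ _ by simpa using hi)
      simp only [Finset.mem_filter, Finset.mem_univ, true_and] at this
      exact this hnew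
  have := ih _ hlt (show p⁻¹ * g ∈ ⊤ from trivial) rfl
  simpa using P.mul_mem hp this

/-- O^ε_2m(q) ≅ Ω.2² for q odd: if F is finite of odd characteristic, n ≥ 2 is even and Q has non-degenerate polar form on F^n, the isometry group of Q has exactly three subgroups of index 2. -/
theorem result {F : Type*} [Field F] [Fintype F] (h2 : (2 : F) ≠ 0) {n : ℕ} (hn : 2 ≤ n) (heven : Even n) (Q : QuadraticForm F (Fin n → F)) (hQ : (QuadraticMap.polarBilin Q).Nondegenerate) : Nat.card {H : Subgroup ↥(Cfsg.isometryGroup F ⇑Q) // H.index = 2} = 3 := by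
  classical
  obtain ⟨α, hα⟩ := FiniteField.exists_nonsquare (F := F) (SphereParity.ringChar_ne h2)
  have hα0 : α ≠ 0 := by rintro rfl; exact hα IsSquare.zero
  obtain ⟨k, rfl⟩ : ∃ k, n = k + 1 := ⟨n - 1, by omega⟩
  obtain ⟨b, a, ha, hb⟩ := Classify.exists_basis h2 Q hQ (n := k) (by simp) hα
  -- a vector of value one and one of value α
  obtain ⟨w₁, hw₁⟩ : ∃ w, Q w = 1 := by
    have hij : (0 : Fin (k + 1)) ≠ ⟨1, by omega⟩ := fun h => absurd (congrArg Fin.val h) Nat.zero_ne_one
    have hd : ∀ i, QuadraticMap.polarBilin Q (b i) (b i) ≠ 0 := fun i => by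
      rw [hb, if_pos rfl]
      split_ifs
      · rcases ha with rfl | rfl
        exacts [one_ne_zero, hα0]
      · exact one_ne_zero
    obtain ⟨s, t, hst⟩ := Represent.exists_add_eq h2 (hd 0) (hd ⟨1, by omega⟩) 2
    refine ⟨s • b 0 + t • b ⟨1, by omega⟩, mul_left_cancel₀ h2 ?_⟩
    have o : QuadraticMap.polar Q (b 0) (b ⟨1, by omega⟩) = 0 := by simpa [hij] using hb 0 ⟨1, by omega⟩
    simp only [QuadraticMap.polarBilin_apply_apply, QuadraticMap.polar_self, two_nsmul] at hst
    rw [QuadraticMap.map_add ⇑Q, QuadraticMap.map_smul, QuadraticMap.map_smul, QuadraticMap.polar_smul_left,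
      QuadraticMap.polar_smul_right, o]
    simp only [smul_eq_mul]
    linear_combination hst
  -- a similitude with multiplier α
  obtain ⟨σ, hσ⟩ : ∃ σ : (Fin (k + 1) → F) ≃ₗ[F] (Fin (k + 1) → F), ∀ v, Q (σ v) = α * Q v := by
    have e : QuadraticMap.polarBilin (α • Q) = α • QuadraticMap.polarBilin Q :=
      LinearMap.ext fun x => LinearMap.ext fun y => by simp [QuadraticMap.polar_smul]
    have hQ' : (QuadraticMap.polarBilin (α • Q)).Nondegenerate := by
      rw [e]
      exact ⟨fun x hx => hQ.1 x fun y => by simpa [hα0] using hx y,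
        fun x hx => hQ.2 x fun y => by simpa [hα0] using hx y⟩
    obtain ⟨b', a', ha', hb'⟩ := Classify.exists_basis h2 (α • Q) hQ' (n := k) (by simp) hα
    have hsq := Classify.disc_rel (QuadraticMap.polarBilin (α • Q)) b b'
      (fun i j h => by rw [e, LinearMap.smul_apply, LinearMap.smul_apply, hb, if_neg h, smul_zero])
      (fun i j h => by rw [hb', if_neg h])
    have e1 : ∀ i, QuadraticMap.polarBilin (α • Q) (b i) (b i) = α * if i = Fin.last k then a else 1 := fun i => by
      rw [e, LinearMap.smul_apply, LinearMap.smul_apply, hb, if_pos rfl, smul_eq_mul]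
    rw [Finset.prod_congr rfl fun i _ => e1 i, Finset.prod_congr rfl fun i _ => (hb' i i).trans (if_pos rfl),
      Finset.prod_mul_distrib, Finset.prod_const] at hsq
    simp only [Finset.prod_ite_eq', Finset.mem_univ, if_true, Finset.card_univ, Fintype.card_fin] at hsq
    obtain ⟨l, hl⟩ := heven
    have haa : a' = a := by
      obtain ⟨r, hr⟩ := hsq
      have hx : IsSquare (a * a') := ⟨r / α ^ l, by
        have := pow_ne_zero l hα0
        field_simp
        rw [hl] at hr; linear_combination hr⟩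
      rcases ha with rfl | rfl <;> rcases ha' with rfl | rfl
      · rfl
      · exact absurd (by simpa using hx) hα
      · exact absurd (by simpa using hx) hα
      · rfl
    exact ⟨b'.equiv b (Equiv.refl _), fun v => by
      rw [Classify.isometry_of_basis h2 (α • Q) Q b' b 1 (fun i j => by rw [hb, hb', haa, one_mul]) v]; simp⟩
  set w₂ := σ w₁ with hw₂def
  have hw₂ : Q w₂ = α := by rw [hw₂def, hσ, hw₁, mul_one]
  have hne₁ : Q w₁ ≠ 0 := by rw [hw₁]; exact one_ne_zero
  have hne₂ : Q w₂ ≠ 0 := by rw [hw₂]; exact hα0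
  -- every reflection is conjugate to one of two
  have hclass : ∀ w hw, ∃ g : ↥(Cfsg.isometryGroup F ⇑Q), refl Q w hw = g * refl Q w₁ hne₁ * g⁻¹ ∨
      refl Q w hw = g * refl Q w₂ hne₂ * g⁻¹ := by
    intro w hw
    obtain ⟨c, hc, hcv⟩ : ∃ c : F, c ≠ 0 ∧ (c * c * Q w = 1 ∨ c * c * Q w = α) := by
      by_cases hs : IsSquare (Q w)
      · obtain ⟨r, hr⟩ := hs
        have hr0 : r ≠ 0 := fun h => hw (by rw [hr, h, mul_zero])
        exact ⟨r⁻¹, inv_ne_zero hr0, Or.inl (by rw [hr]; field_simp)⟩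
      · obtain ⟨r, hr⟩ := Represent.normal_form.isSquare_mul_of_nonsquare.{_, 0} h2 hα hs
        have hr0 : r ≠ 0 := fun h => mul_ne_zero hα0 hw (by rw [hr, h, zero_mul])
        exact ⟨r / Q w, div_ne_zero hr0 hw, Or.inr (by field_simp; linear_combination -hr)⟩
    have mk : ∀ u (hu : Q u ≠ 0), c * c * Q w = Q u → ∃ g : ↥(Cfsg.isometryGroup F ⇑Q),
        refl Q w hw = g * refl Q u hu * g⁻¹ := by
      intro u hu he
      have hu0 : u ≠ 0 := fun h => hu (by simp [h])
      have hcw : c • w ≠ 0 := smul_ne_zero hc (fun h => hw (by simp [h]))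
      obtain ⟨L, hL, -, hLu⟩ := WittQuad.step Q hQ ⊥ u (c • w) (by simpa using hu0) (by simpa using hcw)
        (fun z hz t => by
          obtain rfl : z = 0 := by simpa using hz
          simp [QuadraticMap.map_smul, he])
      let G₀ : Matrix.GeneralLinearGroup (Fin (k + 1)) F :=
        ⟨LinearMap.toMatrix' L.toLinearMap, LinearMap.toMatrix' L.symm.toLinearMap,
          by rw [← LinearMap.toMatrix'_comp, LinearEquiv.comp_coe, LinearEquiv.symm_trans_self]; exact LinearMap.toMatrix'_id,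
          by rw [← LinearMap.toMatrix'_comp, LinearEquiv.comp_coe, LinearEquiv.self_trans_symm]; exact LinearMap.toMatrix'_id⟩
      let g : ↥(Cfsg.isometryGroup F ⇑Q) := ⟨G₀, (QuadBasic.mem_isometryGroup_iff _ _).2 fun v => by
        show Q (LinearMap.toMatrix' L.toLinearMap *ᵥ v) = Q v
        rw [LinearMap.toMatrix'_mulVec]; exact hL v⟩
      have hg : (g.1 : Matrix (Fin (k + 1)) (Fin (k + 1)) F) *ᵥ u = c • w := by
        show LinearMap.toMatrix' L.toLinearMap *ᵥ u = _
        rw [LinearMap.toMatrix'_mulVec]; exact hLu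
      refine ⟨g, eq_mul_inv_iff_mul_eq.2 (ext_act Q fun x => ?_)⟩
      rw [act_mul, act_mul, act_refl, act_refl, Matrix.mulVec_sub, Matrix.mulVec_smul, hg]
      have e1 : QuadraticMap.polar Q (c • w) ((g.1 : Matrix (Fin (k + 1)) (Fin (k + 1)) F) *ᵥ x) = QuadraticMap.polar Q u x := by
        rw [← hg, act_polar]
      rw [QuadraticMap.polar_smul_left, smul_eq_mul] at e1
      rw [← e1, ← he]
      match_scalars <;> field_simp
    rcases hcv with h | h
    · obtain ⟨g, hg⟩ := mk w₁ hne₁ (by rw [hw₁, h])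
      exact ⟨g, Or.inl hg⟩
    · obtain ⟨g, hg⟩ := mk w₂ hne₂ (by rw [hw₂, h])
      exact ⟨g, Or.inr hg⟩
  -- index two subgroups are determined by two memberships
  have det : ∀ H H' : Subgroup ↥(Cfsg.isometryGroup F ⇑Q), H.index = 2 → H'.index = 2 →
      (refl Q w₁ hne₁ ∈ H ↔ refl Q w₁ hne₁ ∈ H') → (refl Q w₂ hne₂ ∈ H ↔ refl Q w₂ hne₂ ∈ H') → H = H' := by
    intro H H' hH hH' e1 e2
    let P : Subgroup ↥(Cfsg.isometryGroup F ⇑Q) :=
      { carrier := {g | g ∈ H ↔ g ∈ H'}
        one_mem' := by simp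
        mul_mem' := fun {x y} (hx : _ ↔ _) (hy : _ ↔ _) => by
          show _ ↔ _
          rw [Subgroup.mul_mem_iff_of_index_two hH, Subgroup.mul_mem_iff_of_index_two hH', hx, hy]
        inv_mem' := fun {x} (hx : _ ↔ _) => by show _ ↔ _; rw [inv_mem_iff, inv_mem_iff]; exact hx }
    haveI := Subgroup.normal_of_index_eq_two hH
    haveI := Subgroup.normal_of_index_eq_two hH'
    have hPtop := generated Q h2 hQ (by omega) P fun w hw => by
      show _ ↔ _
      obtain ⟨g, h | h⟩ := hclass w hw <;>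
        rw [h, ← Subgroup.Normal.mem_comm_iff inferInstance, ← mul_assoc, inv_mul_cancel, one_mul,
          ← Subgroup.Normal.mem_comm_iff (H := H') inferInstance, ← mul_assoc, inv_mul_cancel, one_mul] <;> assumption
    exact Subgroup.ext fun g => (show g ∈ P by rw [hPtop]; trivial)
  -- determinant
  let D : ↥(Cfsg.isometryGroup F ⇑Q) →* F := (Matrix.detMonoidHom).comp
    ((Units.coeHom _).comp (Cfsg.isometryGroup F ⇑Q).subtype)
  have hD : ∀ g, D g = 1 ∨ D g = -1 := fun g => by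
    have := QuadBasic.det_sq_of_isometry Q hQ (g.1 : Matrix _ _ F) (act_isometry Q g)
    exact mul_self_eq_one_iff.1 this
  have hDr : ∀ w hw, D (refl Q w hw) = -1 := fun w hw => QuadBasic.reflection_det Q w hw
  have h11 : (1 : F) ≠ -1 := fun h => h2 (by linear_combination h)
  let K₁ : Subgroup ↥(Cfsg.isometryGroup F ⇑Q) := D.ker
  have hK₁ : K₁.index = 2 := by
    refine Subgroup.index_eq_two_iff.2 ⟨refl Q w₁ hne₁, fun g => ?_⟩
    simp only [K₁, MonoidHom.mem_ker, map_mul, hDr]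
    rcases hD g with h | h <;> simp [h, h11, h11.symm]
  -- action on the sphere
  let S := {v : Fin (k + 1) → F // Q v = 1}
  let φ : ↥(Cfsg.isometryGroup F ⇑Q) →* Equiv.Perm S :=
    { toFun := fun g =>
        { toFun := fun v => ⟨(g.1 : Matrix (Fin (k + 1)) (Fin (k + 1)) F) *ᵥ v.1, by rw [act_isometry, v.2]⟩
          invFun := fun v => ⟨(g⁻¹.1 : Matrix (Fin (k + 1)) (Fin (k + 1)) F) *ᵥ v.1, by rw [act_isometry, v.2]⟩
          left_inv := fun v => Subtype.ext ((act_mul Q g⁻¹ g v.1).symm.trans (by rw [inv_mul_cancel]; simp))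
          right_inv := fun v => Subtype.ext ((act_mul Q g g⁻¹ v.1).symm.trans (by rw [mul_inv_cancel]; simp)) }
      map_one' := Equiv.ext fun v => Subtype.ext (by simp)
      map_mul' := fun g h => Equiv.ext fun v => Subtype.ext (act_mul Q g h v.1) }
  have hsign : ∀ w hw, Equiv.Perm.sign (φ (refl Q w hw)) =
      (-1) ^ ((Nat.card S - Nat.card {v : Fin (k + 1) → F // Q v = 1 ∧ QuadraticMap.polar Q w v = 0}) / 2) := by
    intro w hw
    rw [Equiv.Perm.sign_of_pow_two_eq_one, Nat.card_eq_fintype_card, Nat.card_eq_fintype_card]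
    · congr 2; congr 1
      refine Fintype.card_congr ((Equiv.subtypeEquivRight fun v => ?_).trans
        (Equiv.subtypeSubtypeEquivSubtypeInter _ fun v => QuadraticMap.polar Q w v = 0))
      have hw0 : w ≠ 0 := fun h => hw (by simp [h])
      rw [Function.mem_fixedPoints, Function.IsFixedPt, Subtype.ext_iff]
      show ((refl Q w hw).1 : Matrix (Fin (k + 1)) (Fin (k + 1)) F) *ᵥ v.1 = v.1 ↔ _
      rw [act_refl, sub_eq_self, smul_eq_zero]
      simp [hw, hw0]
    · refine Equiv.ext fun v => Subtype.ext ?_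
      rw [pow_two]
      show ((refl Q w hw).1 : Matrix (Fin (k + 1)) (Fin (k + 1)) F) *ᵥ
        (((refl Q w hw).1 : Matrix (Fin (k + 1)) (Fin (k + 1)) F) *ᵥ v.1) = v.1
      rw [act_refl, act_refl, QuadraticMap.polar_sub_right, QuadraticMap.polar_smul_right, QuadraticMap.polar_self]
      have e : (Q w)⁻¹ * Q w = 1 := inv_mul_cancel₀ hw
      simp only [smul_eq_mul, two_nsmul]
      match_scalars
      · ring
      · linear_combination (2 * (Q w)⁻¹ * QuadraticMap.polar Q w v.1) * e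
  have hsne : Equiv.Perm.sign (φ (refl Q w₁ hne₁)) ≠ Equiv.Perm.sign (φ (refl Q w₂ hne₂)) := by
    set W := LinearMap.ker (QuadraticMap.polarBilin Q w₁) with hW
    have hmemW : ∀ v, v ∈ W ↔ QuadraticMap.polar Q w₁ v = 0 := fun v => LinearMap.mem_ker
    have hw11 : QuadraticMap.polar Q w₁ w₁ = 2 := by rw [QuadraticMap.polar_self, hw₁]; simp
    obtain ⟨m, hm⟩ : ∃ m, k = 2 * m + 1 := by obtain ⟨l, hl⟩ := heven; exact ⟨l - 1, by omega⟩
    have hdimW : Module.finrank F W = 2 * m + 1 := by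
      have h1 := LinearMap.finrank_range_add_finrank_ker (QuadraticMap.polarBilin Q w₁)
      rw [LinearMap.range_eq_top.2 (LinearMap.surjective (fun h => by
        have := LinearMap.congr_fun h w₁
        simp [hw11, h2] at this)), finrank_top, Module.finrank_self, ← hW, Module.finrank_fin_fun] at h1
      omega
    let R := Q.comp W.subtype
    have hR : (QuadraticMap.polarBilin R).Nondegenerate := by
      have key : ∀ x : W, (∀ y : W, QuadraticMap.polar Q x y = 0) → x = 0 := fun x hx => by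
        refine Subtype.ext (hQ.1 _ fun z => ?_)
        have hz : z - (QuadraticMap.polar Q w₁ z / 2) • w₁ ∈ W := (hmemW _).2 (by
          rw [QuadraticMap.polar_sub_right, QuadraticMap.polar_smul_right, hw11, smul_eq_mul, div_mul_cancel₀ _ h2, sub_self])
        have h1 := hx ⟨_, hz⟩
        rw [QuadraticMap.polar_sub_right, QuadraticMap.polar_smul_right, QuadraticMap.polar_comm Q (x : Fin (k + 1) → F) w₁,
          (hmemW _).1 x.2, smul_zero, sub_zero] at h1
        exact h1
      exact ⟨fun x hx => key x hx, fun x hx => key x fun y => by rw [QuadraticMap.polar_comm]; exact hx y⟩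
    obtain ⟨p, q, hp, hq, hpq⟩ := SphereParity.values_mod_four h2 hdimW R hR
      (show ¬ IsSquare α⁻¹ from fun h => hα (by simpa using h.inv))
    have e1 : Nat.card {v : Fin (k + 1) → F // Q v = 1 ∧ QuadraticMap.polar Q w₁ v = 0} = 2 * p := by
      rw [← hp]
      exact Nat.card_congr
        { toFun := fun v => ⟨⟨v.1, (hmemW _).2 v.2.2⟩, v.2.1⟩
          invFun := fun v => ⟨v.1.1, v.2, (hmemW _).1 v.1.2⟩
          left_inv := fun v => rfl
          right_inv := fun v => rfl }
    have e2 : Nat.card {v : Fin (k + 1) → F // Q v = 1 ∧ QuadraticMap.polar Q w₂ v = 0} = 2 * q := by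
      rw [← hq]
      have hps : ∀ v, QuadraticMap.polar Q w₂ (σ v) = α * QuadraticMap.polar Q w₁ v := fun v => by
        simp [QuadraticMap.polar, hw₂def, ← map_add, hσ]; ring
      refine (Nat.card_congr (Equiv.subtypeEquiv σ.toEquiv fun v => ?_)).symm.trans (Nat.card_congr
        { toFun := fun v : {v : Fin (k + 1) → F // Q v = α⁻¹ ∧ QuadraticMap.polar Q w₁ v = 0} =>
            ⟨⟨v.1, (hmemW _).2 v.2.2⟩, v.2.1⟩
          invFun := fun v => ⟨v.1.1, v.2, (hmemW _).1 v.1.2⟩
          left_inv := fun v => rfl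
          right_inv := fun v => rfl })
      show _ ↔ (Q (σ v) = 1 ∧ QuadraticMap.polar Q w₂ (σ v) = 0)
      rw [hps, hσ, mul_eq_zero, or_iff_right hα0, ← eq_inv_mul_iff_mul_eq₀ hα0, mul_one]
    obtain ⟨N, hN⟩ : ∃ N, Nat.card S = N := ⟨_, rfl⟩
    have le1 : 2 * p ≤ N := by
      rw [← e1, ← hN]
      exact Nat.card_le_card_of_injective (fun v => ⟨v.1, v.2.1⟩) fun x y h => Subtype.ext (congrArg Subtype.val h : _)
    have le2 : 2 * q ≤ N := by
      rw [← e2, ← hN]
      exact Nat.card_le_card_of_injective (fun v => ⟨v.1, v.2.1⟩) fun x y h => Subtype.ext (congrArg Subtype.val h : _)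
    have par : ∀ j : ℕ, (-1 : ℤˣ) ^ j = if j % 2 = 0 then 1 else -1 := fun j => by
      simp only [← Nat.even_iff]
      exact neg_one_pow_eq_ite
    rw [hsign, hsign, e1, e2, hN, par, par]
    rcases Nat.mod_two_eq_zero_or_one ((N - 2 * p) / 2) with h | h <;>
      rcases Nat.mod_two_eq_zero_or_one ((N - 2 * q) / 2) with h' | h' <;> rw [h, h'] <;>
      first | (exfalso; omega) | decide
  let K₂ : Subgroup ↥(Cfsg.isometryGroup F ⇑Q) := (Equiv.Perm.sign.comp φ).ker
  have hK₂mem : refl Q w₁ hne₁ ∈ K₂ ↔ ¬ refl Q w₂ hne₂ ∈ K₂ := by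
    simp only [K₂, MonoidHom.mem_ker, MonoidHom.comp_apply]
    rcases Int.units_eq_one_or (Equiv.Perm.sign (φ (refl Q w₁ hne₁))) with h | h <;>
      rcases Int.units_eq_one_or (Equiv.Perm.sign (φ (refl Q w₂ hne₂))) with h' | h' <;>
      simp_all
  have hK₂ : K₂.index = 2 := by
    obtain ⟨r, hr⟩ : ∃ r, r ∉ K₂ := by
      by_cases h : refl Q w₁ hne₁ ∈ K₂
      · exact ⟨_, hK₂mem.1 h⟩
      · exact ⟨_, h⟩
    refine Subgroup.index_eq_two_iff.2 ⟨r, fun g => ?_⟩
    simp only [K₂, MonoidHom.mem_ker, map_mul] at hr ⊢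
    rcases Int.units_eq_one_or ((Equiv.Perm.sign.comp φ) g) with h | h <;>
      rcases Int.units_eq_one_or ((Equiv.Perm.sign.comp φ) r) with h' | h' <;> simp_all
  have hn1 : ∀ w hw, refl Q w hw ∉ K₁ := fun w hw h => h11 ((MonoidHom.mem_ker.1 h).symm.trans (hDr w hw))
  clear_value K₁ K₂
  let K₃ : Subgroup ↥(Cfsg.isometryGroup F ⇑Q) :=
    { carrier := {g | g ∈ K₁ ↔ g ∈ K₂}
      one_mem' := by simp
      mul_mem' := fun {x y} (hx : _ ↔ _) (hy : _ ↔ _) => by
        show _ ↔ _
        rw [Subgroup.mul_mem_iff_of_index_two hK₁, Subgroup.mul_mem_iff_of_index_two hK₂, hx, hy]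
      inv_mem' := fun {x} (hx : _ ↔ _) => by show _ ↔ _; rw [inv_mem_iff, inv_mem_iff]; exact hx }
  have hm3 : ∀ g, g ∈ K₃ ↔ (g ∈ K₁ ↔ g ∈ K₂) := fun g => Iff.rfl
  clear_value K₃
  have hK₃ : K₃.index = 2 := by
    obtain ⟨w, hw, hr⟩ : ∃ w hw, refl Q w hw ∈ K₂ := by
      by_cases h : refl Q w₁ hne₁ ∈ K₂
      · exact ⟨_, _, h⟩
      · exact ⟨_, hne₂, Classical.byContradiction fun h' => h (hK₂mem.2 h')⟩
    refine Subgroup.index_eq_two_iff.2 ⟨refl Q w hw, fun g => ?_⟩
    rw [hm3, hm3, Subgroup.mul_mem_iff_of_index_two hK₁, Subgroup.mul_mem_iff_of_index_two hK₂]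
    have := hn1 w hw
    rw [xor_iff_iff_not]
    by_cases g1 : g ∈ K₁ <;> by_cases g2 : g ∈ K₂ <;> simp [g1, g2, this, hr]
  let f : Fin 3 → {H : Subgroup ↥(Cfsg.isometryGroup F ⇑Q) // H.index = 2} := ![⟨K₁, hK₁⟩, ⟨K₂, hK₂⟩, ⟨K₃, hK₃⟩]
  have hf : Function.Bijective f := by
    have a1 := hn1 w₁ hne₁
    have a2 := hn1 w₂ hne₂
    have b1 := hm3 (refl Q w₁ hne₁)
    have b2 := hm3 (refl Q w₂ hne₂)
    have n12 : K₁ ≠ K₂ := fun h => by rw [h] at a1 a2; tauto
    have n13 : K₁ ≠ K₃ := fun h => by rw [h] at a1 a2; rw [h] at b1 b2; tauto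
    have n23 : K₂ ≠ K₃ := fun h => by rw [h] at hK₂mem b1 b2; tauto
    refine ⟨?_, ?_⟩
    · intro i j hij
      have := congrArg Subtype.val hij
      fin_cases i <;> fin_cases j <;> first | rfl | (simp [f] at this; first | exact absurd this n12 | exact absurd this.symm n12 | exact absurd this n13 | exact absurd this.symm n13 | exact absurd this n23 | exact absurd this.symm n23)
    · rintro ⟨H, hH⟩
      by_cases h1 : refl Q w₁ hne₁ ∈ H <;> by_cases h2' : refl Q w₂ hne₂ ∈ H
      · exfalso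
        have hPtop := generated Q h2 hQ (by omega) H fun w hw => by
          haveI := Subgroup.normal_of_index_eq_two hH
          obtain ⟨g, h | h⟩ := hclass w hw <;> rw [h] <;> exact Subgroup.Normal.conj_mem inferInstance _ ‹_› g
        rw [hPtop, Subgroup.index_top] at hH
        exact absurd hH (by omega)
      · rcases Classical.em (refl Q w₁ hne₁ ∈ K₂) with h | h
        · exact ⟨1, Subtype.ext (det K₂ H hK₂ hH (iff_of_true h h1) (iff_of_false (hK₂mem.1 h) h2'))⟩
        · have h' : refl Q w₂ hne₂ ∈ K₂ := Classical.byContradiction fun hh => h (hK₂mem.2 hh)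
          exact ⟨2, Subtype.ext (det K₃ H hK₃ hH (iff_of_true (b1.2 (iff_of_false a1 h)) h1)
            (iff_of_false (fun hh => a2 ((b2.1 hh).2 h')) h2'))⟩
      · rcases Classical.em (refl Q w₁ hne₁ ∈ K₂) with h | h
        · exact ⟨2, Subtype.ext (det K₃ H hK₃ hH (iff_of_false (fun hh => a1 ((b1.1 hh).2 h)) h1)
            (iff_of_true (b2.2 (iff_of_false a2 (hK₂mem.1 h))) h2'))⟩
        · have h' : refl Q w₂ hne₂ ∈ K₂ := Classical.byContradiction fun hh => h (hK₂mem.2 hh)
          exact ⟨1, Subtype.ext (det K₂ H hK₂ hH (iff_of_false h h1) (iff_of_true h' h2'))⟩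
      · exact ⟨0, Subtype.ext (det K₁ H hK₁ hH (iff_of_false a1 h1) (iff_of_false a2 h2'))⟩
  rw [← Nat.card_congr (Equiv.ofBijective f hf), Nat.card_fin]

end Cfsg.Agent.S0797
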