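import Cfsg.Statements.S0798
import Cfsg.Agent.Lib.Geometry.Spinor

set_option autoImplicit false
open Cfsg

namespace Cfsg.Agent.S0798

open scoped Matrix
open CfsgLib.Geometry CfsgLib.Geometry.QuadBasic

section
variable {F : Type*} [Field F] {n : ℕ} {Q : QuadraticForm F (Fin n → F)}


theorem beta_self (x : Fin n → F) : QuadraticMap.polar (⇑Q) x x = 2 * Q x := by
  rw [QuadraticMap.polar_self, two_nsmul, two_mul]

theorem Q_comb (u v : Fin n → F) (a b : F) :
    Q (a • u + b • v) = a * a * Q u + b * b * Q v + a * b * QuadraticMap.polar (⇑Q) u v := by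
  rw [map_add_smul, QuadraticMap.map_smul, QuadraticMap.polar_smul_right, QuadraticMap.polar_comm, smul_eq_mul]
  ring

theorem R_plane (u v : Fin n → F) (a b x y : F) (hw : Q (a • u + b • v) ≠ 0) :
    (Reflections.R Q (a • u + b • v) hw).1.1 *ᵥ (x • u + y • v)
      = (x - (Q (a • u + b • v))⁻¹ * (2 * Q u * a * x + QuadraticMap.polar (⇑Q) u v * (a * y + b * x) + 2 * Q v * b * y) * a) • u
        + (y - (Q (a • u + b • v))⁻¹ * (2 * Q u * a * x + QuadraticMap.polar (⇑Q) u v * (a * y + b * x) + 2 * Q v * b * y) * b) • v := by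
  rw [Reflections.R_apply]
  have : QuadraticMap.polar (⇑Q) (a • u + b • v) (x • u + y • v) = 2 * Q u * a * x + QuadraticMap.polar (⇑Q) u v * (a * y + b * x) + 2 * Q v * b * y := by
    simp only [QuadraticMap.polar_add_left, QuadraticMap.polar_add_right, QuadraticMap.polar_smul_left,
      QuadraticMap.polar_smul_right, beta_self, smul_eq_mul, QuadraticMap.polar_comm (⇑Q) v u]
    ring
  rw [this]; module

/-- A reflection in the plane inverts the product of two others. -/
theorem inverts (u v : Fin n → F) (a b : F) (hu : Q u ≠ 0) (hv : Q v ≠ 0) (hw : Q (a • u + b • v) ≠ 0)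
    (hD : QuadraticMap.polar (⇑Q) u v * QuadraticMap.polar (⇑Q) u v - 4 * Q u * Q v ≠ 0) :
    Reflections.R Q (a • u + b • v) hw * (Reflections.R Q v hv * Reflections.R Q u hu) * Reflections.R Q (a • u + b • v) hw
      = Reflections.R Q u hu * Reflections.R Q v hv := by
  refine Subtype.ext (Units.ext (Matrix.toLin'.injective (LinearMap.ext fun x => ?_)))
  simp only [Subgroup.coe_mul, Units.val_mul, Matrix.toLin'_apply, ← Matrix.mulVec_mulVec]
  set D := QuadraticMap.polar (⇑Q) u v * QuadraticMap.polar (⇑Q) u v - 4 * Q u * Q v with hDdef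
  obtain ⟨c, e, r, rfl, hru, hrv⟩ : ∃ (c e : F) (r : Fin n → F), x = (c • u + e • v) + r ∧ QuadraticMap.polar (⇑Q) u r = 0 ∧ QuadraticMap.polar (⇑Q) v r = 0 := by
    refine ⟨(QuadraticMap.polar (⇑Q) u v * QuadraticMap.polar (⇑Q) v x - 2 * Q v * QuadraticMap.polar (⇑Q) u x) / D, (QuadraticMap.polar (⇑Q) u v * QuadraticMap.polar (⇑Q) u x - 2 * Q u * QuadraticMap.polar (⇑Q) v x) / D,
      x - (((QuadraticMap.polar (⇑Q) u v * QuadraticMap.polar (⇑Q) v x - 2 * Q v * QuadraticMap.polar (⇑Q) u x) / D) • u + ((QuadraticMap.polar (⇑Q) u v * QuadraticMap.polar (⇑Q) u x - 2 * Q u * QuadraticMap.polar (⇑Q) v x) / D) • v), by abel, ?_, ?_⟩ <;>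
      simp only [QuadraticMap.polar_sub_right, QuadraticMap.polar_add_right, QuadraticMap.polar_smul_right, beta_self,
        smul_eq_mul, QuadraticMap.polar_comm (⇑Q) v u] <;>
      field_simp <;> rw [hDdef] <;> ring
  have hrw : QuadraticMap.polar (⇑Q) (a • u + b • v) r = 0 := by
    simp [QuadraticMap.polar_add_left, QuadraticMap.polar_smul_left, hru, hrv]
  obtain ⟨P, hP⟩ : ∃ P, P = c • u + e • v := ⟨_, rfl⟩
  rw [← hP]
  simp only [Matrix.mulVec_add, Reflections.R_fix _ hw hrw, Reflections.R_fix _ hu hru, Reflections.R_fix _ hv hrv]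
  congr 1
  rw [hP]
  have hu' : ∀ x y : F, (Reflections.R Q u hu).1.1 *ᵥ (x • u + y • v) = (-x - (Q u)⁻¹ * QuadraticMap.polar (⇑Q) u v * y) • u + y • v := by
    intro x y
    rw [Reflections.R_apply, QuadraticMap.polar_add_right, QuadraticMap.polar_smul_right, QuadraticMap.polar_smul_right,
      beta_self, smul_eq_mul, smul_eq_mul]
    match_scalars <;> field_simp <;> ring
  have hv' : ∀ x y : F, (Reflections.R Q v hv).1.1 *ᵥ (x • u + y • v) = x • u + (-y - (Q v)⁻¹ * QuadraticMap.polar (⇑Q) u v * x) • v := by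
    intro x y
    rw [Reflections.R_apply, QuadraticMap.polar_add_right, QuadraticMap.polar_smul_right, QuadraticMap.polar_smul_right,
      beta_self, smul_eq_mul, smul_eq_mul, QuadraticMap.polar_comm (⇑Q) v u]
    match_scalars <;> field_simp <;> ring
  rw [R_plane u v a b c e hw, hu', hv', R_plane, hv', hu']
  have hw' : a * a * Q u + b * b * Q v + a * b * QuadraticMap.polar (⇑Q) u v ≠ 0 := Q_comb u v a b ▸ hw
  simp only [Q_comb]
  clear hu' hv' hP hrw hru hrv hw
  generalize Q u = A at *
  generalize Q v = C at *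
  generalize QuadraticMap.polar (⇑Q) u v = E at *
  obtain ⟨Qw, hQw⟩ : ∃ w, w = a * a * A + b * b * C + a * b * E := ⟨_, rfl⟩
  rw [← hQw] at hw' ⊢
  match_scalars <;> field_simp <;> rw [hQw] <;> ring

/-- An anisotropic vector in the common perp of few vectors spanning a non-degenerate space. -/
theorem perp_aniso (h2 : (2 : F) ≠ 0) (hQ : (QuadraticMap.polarBilin Q).Nondegenerate) {k : ℕ} (s : Fin k → (Fin n → F))
    (hk : k < n)
    (hproj : ∀ x, ∃ p ∈ Submodule.span F (Set.range s), ∀ i, QuadraticMap.polar (⇑Q) (s i) (x - p) = 0) :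
    ∃ y, (∀ i, QuadraticMap.polar (⇑Q) (s i) y = 0) ∧ Q y ≠ 0 := by
  let L : (Fin n → F) →ₗ[F] (Fin k → F) := LinearMap.pi fun i => QuadraticMap.polarBilin Q (s i)
  obtain ⟨y, hy, hy0⟩ : ∃ y, L y = 0 ∧ y ≠ 0 := by
    by_contra h
    simp only [not_exists, not_and, not_not] at h
    have := LinearMap.finrank_le_finrank_of_injective ((injective_iff_map_eq_zero L).2 h)
    simp at this
    omega
  have hyi : ∀ i, QuadraticMap.polar (⇑Q) (s i) y = 0 := fun i => congrFun hy i
  by_contra hcon
  simp only [not_exists, not_and, not_not] at hcon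
  refine hy0 (hQ.1 y fun x => ?_)
  show QuadraticMap.polar (⇑Q) y x = 0
  obtain ⟨p, hp, hxp⟩ := hproj x
  have h1 : QuadraticMap.polar (⇑Q) y p = 0 := by
    clear hxp
    induction hp using Submodule.span_induction with
    | mem z hz => obtain ⟨i, rfl⟩ := hz; rw [QuadraticMap.polar_comm]; exact hyi i
    | zero => rw [QuadraticMap.polar_zero_right]
    | add a b _ _ ha hb => rw [QuadraticMap.polar_add_right, ha, hb, add_zero]
    | smul c a _ ha => rw [QuadraticMap.polar_smul_right, ha, smul_zero]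
  have h2' : Q (y + (x - p)) = 0 := hcon _ fun i => by rw [QuadraticMap.polar_add_right, hyi i, hxp i, add_zero]
  have e : QuadraticMap.polar (⇑Q) y (x - p) = 0 := by
    rw [QuadraticMap.polar, h2', hcon y hyi, hcon (x - p) hxp]; ring
  rw [show x = p + (x - p) by abel, QuadraticMap.polar_add_right, h1, e, add_zero]

/-- A vector of the class moving `v` out of the degenerate plane through `u`. -/
theorem exists_x [Fintype F] [DecidableEq F] (h2 : (2 : F) ≠ 0) (hQ : (QuadraticMap.polarBilin Q).Nondegenerate)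
    (heven : Even n) (h43 : ¬ (n = 4 ∧ Fintype.card F = 3)) (c : F) (hc : c ≠ 0)
    (u v : Fin n → F) (hu : Q u ≠ 0) (hD : QuadraticMap.polar (⇑Q) u v * QuadraticMap.polar (⇑Q) u v - 4 * Q u * Q v = 0) (hne : v ≠ (QuadraticMap.polar (⇑Q) u v / (2 * Q u)) • u) :
    ∃ x, ∃ t : F, t ≠ 0 ∧ Q x = c * t ^ 2 ∧ QuadraticMap.polar (⇑Q) x v * QuadraticMap.polar (⇑Q) u x ≠ 0 ∧ QuadraticMap.polar (⇑Q) x v * QuadraticMap.polar (⇑Q) u x ≠ 2 * QuadraticMap.polar (⇑Q) u v * Q x := by
  classical
  set t := QuadraticMap.polar (⇑Q) u v / (2 * Q u) with ht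
  set s := v - t • u with hs
  have hs0 : s ≠ 0 := sub_ne_zero.2 hne
  have hus : QuadraticMap.polar (⇑Q) u s = 0 := by
    rw [hs, QuadraticMap.polar_sub_right, QuadraticMap.polar_smul_right, beta_self, smul_eq_mul, ht]; field_simp; ring
  have hQs : Q s = 0 := by
    have : s = (1 : F) • v + (-t) • u := by rw [hs]; module
    rw [this, Q_comb, QuadraticMap.polar_comm (⇑Q) v u, ht]
    field_simp
    linear_combination -hD
  obtain ⟨f, hsf, huf, hQf⟩ : ∃ f, QuadraticMap.polar (⇑Q) s f = 1 ∧ QuadraticMap.polar (⇑Q) u f = 0 ∧ Q f = 0 := by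
    obtain ⟨f0, hf0⟩ : ∃ f0, QuadraticMap.polar (⇑Q) s f0 = 1 := by
      by_contra h
      simp only [not_exists] at h
      refine hs0 (hQ.1 s fun y => ?_)
      by_contra hy
      exact h ((QuadraticMap.polar (⇑Q) s y)⁻¹ • y) (by rw [QuadraticMap.polar_smul_right, smul_eq_mul]; exact inv_mul_cancel₀ hy)
    let f1 := f0 + (-(QuadraticMap.polar (⇑Q) u f0 / (2 * Q u))) • u
    have h1 : QuadraticMap.polar (⇑Q) s f1 = 1 := by
      simp only [f1, QuadraticMap.polar_add_right, QuadraticMap.polar_smul_right, QuadraticMap.polar_comm (⇑Q) s u, hus,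
        smul_zero, add_zero, hf0]
    have h3 : QuadraticMap.polar (⇑Q) u f1 = 0 := by
      simp only [f1, QuadraticMap.polar_add_right, QuadraticMap.polar_smul_right, beta_self, smul_eq_mul]; field_simp; ring
    refine ⟨(1 : F) • f1 + (-(Q f1)) • s, ?_, ?_, ?_⟩
    · simp [QuadraticMap.polar_add_right, QuadraticMap.polar_smul_right, beta_self, hQs, h1]
    · simp [QuadraticMap.polar_add_right, QuadraticMap.polar_smul_right, hus, h3]
    · rw [Q_comb, QuadraticMap.polar_comm (⇑Q) f1 s, h1, hQs]; ring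
  have hn3 : 3 ≤ n := by
    have hli : LinearIndependent F ![u, s, f] := by
      rw [Fintype.linearIndependent_iff]
      intro g hg
      simp only [Fin.sum_univ_three, Matrix.cons_val_zero, Matrix.cons_val_one, Matrix.cons_val_two, Matrix.tail_cons,
        Matrix.head_cons] at hg
      have e1 := congrArg (fun y => QuadraticMap.polar (⇑Q) u y) hg
      have e2 := congrArg (fun y => QuadraticMap.polar (⇑Q) s y) hg
      have e3 := congrArg (fun y => QuadraticMap.polar (⇑Q) f y) hg
      simp only [QuadraticMap.polar_add_right, QuadraticMap.polar_smul_right, beta_self, smul_eq_mul,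
        QuadraticMap.polar_zero_right, hus, huf, hsf, hQs, hQf, QuadraticMap.polar_comm (⇑Q) s u,
        QuadraticMap.polar_comm (⇑Q) f u, QuadraticMap.polar_comm (⇑Q) f s] at e1 e2 e3
      intro i
      fin_cases i
      · simpa [h2, hu] using e1
      · simpa using e3
      · simpa using e2
    have := hli.fintype_card_le_finrank
    simpa using this
  have hn4 : 4 ≤ n := by rw [Nat.even_iff] at heven; omega
  have sproj : ∀ x, ∀ p, p = (QuadraticMap.polar (⇑Q) u x / (2 * Q u)) • u + QuadraticMap.polar (⇑Q) f x • s + QuadraticMap.polar (⇑Q) s x • f →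
      QuadraticMap.polar (⇑Q) u (x - p) = 0 ∧ QuadraticMap.polar (⇑Q) s (x - p) = 0 ∧ QuadraticMap.polar (⇑Q) f (x - p) = 0 := by
    rintro x p rfl
    simp only [QuadraticMap.polar_sub_right, QuadraticMap.polar_add_right, QuadraticMap.polar_smul_right, beta_self,
      smul_eq_mul, hus, huf, hsf, hQs, hQf, QuadraticMap.polar_comm (⇑Q) s u, QuadraticMap.polar_comm (⇑Q) f u,
      QuadraticMap.polar_comm (⇑Q) f s]
    refine ⟨?_, by ring, by ring⟩
    field_simp; ring
  obtain ⟨y0, hy0, hQy0⟩ := perp_aniso h2 hQ ![u, s, f] (by omega) (fun x => ⟨_,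
    Submodule.add_mem _ (Submodule.add_mem _ (Submodule.smul_mem _ _ (Submodule.subset_span ⟨0, rfl⟩))
      (Submodule.smul_mem _ _ (Submodule.subset_span ⟨1, rfl⟩))) (Submodule.smul_mem _ _ (Submodule.subset_span ⟨2, rfl⟩)),
    fun i => by
      have h := sproj x _ rfl
      fin_cases i
      exacts [h.1, h.2.1, h.2.2]⟩)
  have hy0u : QuadraticMap.polar (⇑Q) u y0 = 0 := hy0 0
  have hy0s : QuadraticMap.polar (⇑Q) s y0 = 0 := hy0 1
  have hy0f : QuadraticMap.polar (⇑Q) f y0 = 0 := hy0 2
  -- the vector without the isotropic component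
  obtain ⟨a, y, t', ha, ht', hyu, hys, hyf, hval⟩ : ∃ (a : F) (y : Fin n → F) (t' : F), a ≠ 0 ∧ t' ≠ 0 ∧
      QuadraticMap.polar (⇑Q) u y = 0 ∧ QuadraticMap.polar (⇑Q) s y = 0 ∧ QuadraticMap.polar (⇑Q) f y = 0 ∧ a * a * Q u + Q y = c * t' ^ 2 := by
    obtain ⟨a0, e0, h0⟩ := CfsgLib.Forms.Represent.exists_add_eq h2 hu hQy0 c
    by_cases ha0 : a0 = 0
    · by_cases hq : Fintype.card F = 3
      · -- a second vector is available
        have hn5 : 5 ≤ n := by
          have hn : n ≠ 4 := fun h => h43 ⟨h, hq⟩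
          omega
        obtain ⟨y1, hy1, hQy1⟩ := perp_aniso h2 hQ ![u, s, f, y0] (by omega) (fun x =>
          ⟨(QuadraticMap.polar (⇑Q) u x / (2 * Q u)) • u + QuadraticMap.polar (⇑Q) f x • s + QuadraticMap.polar (⇑Q) s x • f + (QuadraticMap.polar (⇑Q) y0 x / (2 * Q y0)) • y0,
          Submodule.add_mem _ (Submodule.add_mem _ (Submodule.add_mem _ (Submodule.smul_mem _ _ (Submodule.subset_span ⟨0, rfl⟩))
            (Submodule.smul_mem _ _ (Submodule.subset_span ⟨1, rfl⟩))) (Submodule.smul_mem _ _ (Submodule.subset_span ⟨2, rfl⟩)))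
            (Submodule.smul_mem _ _ (Submodule.subset_span ⟨3, rfl⟩)),
          fun i => by
            obtain ⟨p1, p2, p3⟩ := sproj x _ rfl
            rw [← sub_sub, QuadraticMap.polar_sub_right, QuadraticMap.polar_smul_right]
            fin_cases i
            · show QuadraticMap.polar (⇑Q) u _ - _ • QuadraticMap.polar (⇑Q) u y0 = 0
              rw [p1, hy0u, smul_zero, sub_zero]
            · show QuadraticMap.polar (⇑Q) s _ - _ • QuadraticMap.polar (⇑Q) s y0 = 0
              rw [p2, hy0s, smul_zero, sub_zero]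
            · show QuadraticMap.polar (⇑Q) f _ - _ • QuadraticMap.polar (⇑Q) f y0 = 0
              rw [p3, hy0f, smul_zero, sub_zero]
            · show QuadraticMap.polar (⇑Q) y0 _ - _ • QuadraticMap.polar (⇑Q) y0 y0 = 0
              simp only [QuadraticMap.polar_sub_right, QuadraticMap.polar_add_right, QuadraticMap.polar_smul_right,
                QuadraticMap.polar_comm (⇑Q) y0 u, QuadraticMap.polar_comm (⇑Q) y0 s, QuadraticMap.polar_comm (⇑Q) y0 f,
                hy0u, hy0s, hy0f, beta_self, smul_eq_mul]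
              field_simp; ring⟩)
        obtain ⟨d, e, hde⟩ := CfsgLib.Forms.Represent.exists_add_eq h2 hQy0 hQy1 (c - Q u)
        have h1u : QuadraticMap.polar (⇑Q) u y1 = 0 := hy1 0
        have h1s : QuadraticMap.polar (⇑Q) s y1 = 0 := hy1 1
        have h1f : QuadraticMap.polar (⇑Q) f y1 = 0 := hy1 2
        have h1y : QuadraticMap.polar (⇑Q) y0 y1 = 0 := hy1 3
        refine ⟨1, d • y0 + e • y1, 1, one_ne_zero, one_ne_zero, ?_, ?_, ?_, ?_⟩
        · simp [QuadraticMap.polar_add_right, QuadraticMap.polar_smul_right, hy0u, h1u]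
        · simp [QuadraticMap.polar_add_right, QuadraticMap.polar_smul_right, hy0s, h1s]
        · simp [QuadraticMap.polar_add_right, QuadraticMap.polar_smul_right, hy0f, h1f]
        · rw [Q_comb, h1y]; linear_combination hde
      · have he0 : e0 ≠ 0 := by
          rintro rfl; rw [ha0] at h0; exact hc (by linear_combination -h0)
        obtain ⟨k, hk0, hk⟩ : ∃ k : F, k ≠ 0 ∧ Q y0 + k * k * Q u ≠ 0 := by
          by_contra h
          simp only [not_exists, not_and, not_not] at h
          have hh : ∀ k : F, k ≠ 0 → k = 1 ∨ k = -1 := fun k hk => by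
            have e1 := h k hk
            have e2 := h 1 one_ne_zero
            have : (k * k - 1) * Q u = 0 := by linear_combination e1 - e2
            exact mul_self_eq_one_iff.1 (sub_eq_zero.1 ((mul_eq_zero.1 this).resolve_right hu))
          have hle : Fintype.card F ≤ ({0, 1, -1} : Finset F).card := by
            rw [← Finset.card_univ]
            refine Finset.card_le_card fun k _ => ?_
            by_cases hk : k = 0
            · simp [hk]
            · rcases hh k hk with e | e <;> simp [e]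
          have h3 := hle.trans Finset.card_le_three
          have h4 := Fintype.one_lt_card (α := F)
          have h5 := FiniteField.odd_card_of_char_ne_two (F := F) (fun h' => h2 (by
            haveI : CharP F 2 := ringChar.eq_iff.1 h'
            exact CharTwo.two_eq_zero))
          omega
        refine ⟨2 * k * Q y0, (Q y0 - k * k * Q u) • y0, (Q y0 + k * k * Q u) / e0,
          mul_ne_zero (mul_ne_zero h2 hk0) hQy0, div_ne_zero hk he0, ?_, ?_, ?_, ?_⟩
        · simp [QuadraticMap.polar_smul_right, hy0u]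
        · simp [QuadraticMap.polar_smul_right, hy0s]
        · simp [QuadraticMap.polar_smul_right, hy0f]
        · rw [QuadraticMap.map_smul, smul_eq_mul]
          have h00 : e0 * e0 * Q y0 = c := by rw [ha0] at h0; linear_combination h0
          rw [← h00]
          field_simp; ring
    · refine ⟨a0, e0 • y0, 1, ha0, one_ne_zero, ?_, ?_, ?_, ?_⟩
      · simp [QuadraticMap.polar_smul_right, hy0u]
      · simp [QuadraticMap.polar_smul_right, hy0s]
      · simp [QuadraticMap.polar_smul_right, hy0f]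
      · rw [QuadraticMap.map_smul, smul_eq_mul]; linear_combination h0
  -- choose the isotropic component
  obtain ⟨b, hb1, hb2⟩ : ∃ b : F, b ≠ -(2 * t * a * Q u) ∧
      (2 * t * a * Q u + b) * (2 * a * Q u) ≠ 2 * QuadraticMap.polar (⇑Q) u v * (c * t' ^ 2) := by
    by_contra h
    simp only [not_exists, not_and, not_not] at h
    have h2a : 2 * a * Q u ≠ 0 := mul_ne_zero (mul_ne_zero h2 ha) hu
    have hle : Fintype.card F ≤ ({-(2 * t * a * Q u), 2 * QuadraticMap.polar (⇑Q) u v * (c * t' ^ 2) / (2 * a * Q u) - 2 * t * a * Q u} : Finset F).card := by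
      rw [← Finset.card_univ]
      refine Finset.card_le_card fun b _ => ?_
      simp only [Finset.mem_insert, Finset.mem_singleton]
      by_cases hb : b = -(2 * t * a * Q u)
      · exact Or.inl hb
      · refine Or.inr (eq_sub_iff_add_eq.2 ((eq_div_iff h2a).2 ?_))
        linear_combination h b hb
    have h3 := hle.trans Finset.card_le_two
    have h5 := FiniteField.odd_card_of_char_ne_two (F := F) (fun h' => h2 (by
      haveI : CharP F 2 := ringChar.eq_iff.1 h'
      exact CharTwo.two_eq_zero))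
    have h4 := Fintype.one_lt_card (α := F)
    omega
  set x := (1 : F) • ((1 : F) • (a • u) + b • f) + (1 : F) • y with hx
  have hQx : Q x = c * t' ^ 2 := by
    rw [hx, Q_comb, Q_comb]
    simp only [QuadraticMap.map_smul, smul_eq_mul, QuadraticMap.polar_add_left, QuadraticMap.polar_smul_left, hyu, hyf, hQf, huf]
    linear_combination hval
  have hux : QuadraticMap.polar (⇑Q) u x = 2 * a * Q u := by
    simp only [hx, QuadraticMap.polar_add_right, QuadraticMap.polar_smul_right, smul_eq_mul, beta_self, huf, hyu]; ring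
  have hvs : v = s + t • u := by rw [hs]; abel
  have hvx : QuadraticMap.polar (⇑Q) x v = 2 * t * a * Q u + b := by
    rw [QuadraticMap.polar_comm, hvs]
    simp only [hx, QuadraticMap.polar_add_left, QuadraticMap.polar_add_right, QuadraticMap.polar_smul_left,
      QuadraticMap.polar_smul_right, smul_eq_mul, beta_self, huf, hyu, hys, hsf, QuadraticMap.polar_comm (⇑Q) s u, hus]
    ring
  refine ⟨x, t', ht', hQx, ?_, ?_⟩
  · rw [hux, hvx]
    exact mul_ne_zero (fun e => hb1 (by linear_combination e)) (mul_ne_zero (mul_ne_zero h2 ha) hu)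
  · rw [hux, hvx, hQx]; exact hb2

end

/-- For q odd, n ≥ 2 even, Q with non-degenerate polar form (n, |F|) ≠ (4, 3), and a fixed c ≠ 0: the subgroup of the isometry group generated by the reflections r_v with Q(v) ∈ c·(F^×)² has index 2. -/
theorem result {F : Type*} [Field F] [Fintype F] (h2 : (2 : F) ≠ 0) {n : ℕ} (hn : 2 ≤ n) (heven : Even n) (Q : QuadraticForm F (Fin n → F)) (hQ : (QuadraticMap.polarBilin Q).Nondegenerate) (h43 : ¬ (n = 4 ∧ Fintype.card F = 3)) (c : F) (hc : c ≠ 0) : (Subgroup.closure {g : ↥(Cfsg.isometryGroup F ⇑Q) | ∃ (v : Fin n → F) (t : F), t ≠ 0 ∧ Q v = c * t ^ 2 ∧ ((g : Matrix.GeneralLinearGroup (Fin n) F) : Matrix (Fin n) (Fin n) F) = Cfsg.reflectionMatrix ⇑Q v}).index = 2 := by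
  classical
  haveI : Nontrivial (Fin n) := ⟨⟨⟨0, by omega⟩, ⟨1, by omega⟩, by simp⟩⟩
  set S := {g : ↥(Cfsg.isometryGroup F ⇑Q) | ∃ (v : Fin n → F) (t : F), t ≠ 0 ∧ Q v = c * t ^ 2 ∧ ((g : Matrix.GeneralLinearGroup (Fin n) F) : Matrix (Fin n) (Fin n) F) = Cfsg.reflectionMatrix ⇑Q v}
  set H := Subgroup.closure S with hHdef
  have hQne : ∀ (x : Fin n → F) (t : F), t ≠ 0 → Q x = c * t ^ 2 → Q x ≠ 0 := fun x t ht h => by
    rw [h]; exact mul_ne_zero hc (pow_ne_zero _ ht)
  have hRS : ∀ (x : Fin n → F) (t : F) (ht : t ≠ 0) (h : Q x = c * t ^ 2), Reflections.R Q x (hQne x t ht h) ∈ H :=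
    fun x t ht h => Subgroup.subset_closure ⟨x, t, ht, h, rfl⟩
  haveI hN : H.Normal := by
    refine ⟨fun h hh g => ?_⟩
    induction hh using Subgroup.closure_induction with
    | mem r hr =>
      obtain ⟨x, t, ht, hx, hrx⟩ := hr
      obtain rfl : r = Reflections.R Q x (hQne x t ht hx) := Subtype.ext (Units.ext hrx)
      have hgx : Q (g.1.1 *ᵥ x) = c * t ^ 2 := ((mem_isometryGroup_iff (⇑Q) g.1).1 g.2 x).trans hx
      rw [Spinor.R_conj g (hQne x t ht hx) (hQne _ t ht hgx) rfl]
      exact hRS _ t ht hgx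
    | one => rw [mul_one, mul_inv_cancel]; exact H.one_mem
    | mul a b _ _ ha hb => rw [show g * (a * b) * g⁻¹ = (g * a * g⁻¹) * (g * b * g⁻¹) by group]; exact H.mul_mem ha hb
    | inv a _ ha => rw [show g * a⁻¹ * g⁻¹ = (g * a * g⁻¹)⁻¹ by group]; exact H.inv_mem ha
  let π := QuotientGroup.mk' H
  have hπS : ∀ (x : Fin n → F) (t : F) (ht : t ≠ 0) (h : Q x = c * t ^ 2), π (Reflections.R Q x (hQne x t ht h)) = 1 :=
    fun x t ht h => (QuotientGroup.eq_one_iff _).2 (hRS x t ht h)
  have hsq : ∀ (v : Fin n → F) (hv : Q v ≠ 0), Reflections.R Q v hv * Reflections.R Q v hv = 1 := fun v hv => by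
    refine Subtype.ext (Units.ext (Matrix.toLin'.injective (LinearMap.ext fun x => ?_)))
    simp only [Subgroup.coe_mul, Units.val_mul, Matrix.toLin'_apply, ← Matrix.mulVec_mulVec, Spinor.refl_eq_R,
      OneMemClass.coe_one, Units.val_one, Matrix.one_mulVec]
    exact Spinor.refl_refl Q hv x
  have hinv : ∀ (v : Fin n → F) (hv : Q v ≠ 0), (Reflections.R Q v hv)⁻¹ = Reflections.R Q v hv :=
    fun v hv => inv_eq_of_mul_eq_one_right (hsq v hv)
  -- commuting for non-degenerate planes
  have hnd : ∀ (u v : Fin n → F) (hu : Q u ≠ 0) (hv : Q v ≠ 0),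
      QuadraticMap.polar (⇑Q) u v * QuadraticMap.polar (⇑Q) u v - 4 * Q u * Q v ≠ 0 →
      π (Reflections.R Q u hu) * π (Reflections.R Q v hv) = π (Reflections.R Q v hv) * π (Reflections.R Q u hu) := by
    intro u v hu hv hD
    set E := QuadraticMap.polar (⇑Q) u v with hE
    have h4 : (4 : F) ≠ 0 := by rw [show (4 : F) = 2 * 2 by norm_num]; exact mul_ne_zero h2 h2
    obtain ⟨a, e, hae⟩ := CfsgLib.Forms.Represent.exists_add_eq h2 hu
      (show Q v - E * E / (4 * Q u) ≠ 0 from fun h => hD (by field_simp at h; linear_combination -h)) c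
    set w := (a - e * (E / (2 * Q u))) • u + e • v with hw
    have hQw : Q w = c * (1 : F) ^ 2 := by
      rw [hw, Q_comb, ← hE, one_pow, mul_one, ← hae]
      field_simp; ring
    have hwne := hQne w 1 one_ne_zero hQw
    have h := congrArg π (inverts u v (a - e * (E / (2 * Q u))) e hu hv hwne hD)
    rw [map_mul, map_mul, map_mul, map_mul, show π (Reflections.R Q _ hwne) = 1 from hπS w 1 one_ne_zero hQw,
      one_mul, mul_one] at h
    exact h.symm
  have hcomm : ∀ (u v : Fin n → F) (hu : Q u ≠ 0) (hv : Q v ≠ 0),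
      π (Reflections.R Q u hu) * π (Reflections.R Q v hv) = π (Reflections.R Q v hv) * π (Reflections.R Q u hu) := by
    intro u v hu hv
    by_cases hD : QuadraticMap.polar (⇑Q) u v * QuadraticMap.polar (⇑Q) u v - 4 * Q u * Q v = 0
    swap
    · exact hnd u v hu hv hD
    by_cases hne : v = (QuadraticMap.polar (⇑Q) u v / (2 * Q u)) • u
    · have : Reflections.R Q v hv = Reflections.R Q u hu := by
        have h' : Q ((QuadraticMap.polar (⇑Q) u v / (2 * Q u)) • u) ≠ 0 := hne ▸ hv
        rw [show Reflections.R Q v hv = Reflections.R Q _ h' by congr 1, Spinor.R_smul _ hu]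
      rw [this]
    obtain ⟨x, t, ht, hx, hx1, hx2⟩ := exists_x h2 hQ heven h43 c hc u v hu hD hne
    have hx0 := hQne x t ht hx
    set v' := (Reflections.R Q x hx0).1.1 *ᵥ v with hv'def
    have hQv' : Q v' = Q v := (mem_isometryGroup_iff (⇑Q) _).1 (Reflections.R Q x hx0).2 v
    have hv'0 : Q v' ≠ 0 := by rw [hQv']; exact hv
    have hc1 := congrArg π (Spinor.R_conj (Reflections.R Q x hx0) hv hv'0 rfl)
    rw [map_mul, map_mul, map_inv, show π (Reflections.R Q x hx0) = 1 from hπS x t ht hx, inv_one, one_mul, mul_one] at hc1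
    rw [hc1]
    refine hnd u v' hu hv'0 fun hD' => ?_
    have hP : QuadraticMap.polar (⇑Q) u v' = QuadraticMap.polar (⇑Q) u v
        - (Q x)⁻¹ * QuadraticMap.polar (⇑Q) x v * QuadraticMap.polar (⇑Q) u x := by
      rw [hv'def, Reflections.R_apply, QuadraticMap.polar_sub_right, QuadraticMap.polar_smul_right, smul_eq_mul]
    rw [hQv', hP] at hD'
    set P := QuadraticMap.polar (⇑Q) x v * QuadraticMap.polar (⇑Q) u x with hPdef
    set E := QuadraticMap.polar (⇑Q) u v
    have h0 : P * (P - 2 * E * Q x) = 0 := by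
      rw [mul_assoc, ← hPdef] at hD'
      field_simp at hD'
      linear_combination hD' - (Q x) ^ 2 * hD
    rcases mul_eq_zero.1 h0 with h | h
    · exact hx1 h
    · exact hx2 (sub_eq_zero.1 h)
  have hgen : ∀ x y, π x * π y = π y * π x := by
    intro x y
    have hone : ∀ (u : Fin n → F) (hu : Q u ≠ 0) z, π (Reflections.R Q u hu) * π z = π z * π (Reflections.R Q u hu) := by
      intro u hu z
      have hz : z ∈ Subgroup.closure (Reflections.reflections Q) := by rw [Reflections.closure_reflections h2 hQ]; trivial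
      induction hz using Subgroup.closure_induction with
      | mem r hr => obtain ⟨v, hv, hr⟩ := hr; obtain rfl : r = Reflections.R Q v hv := Subtype.ext (Units.ext hr); exact hcomm u v hu hv
      | one => rw [map_one, one_mul, mul_one]
      | mul a b _ _ ha hb => rw [map_mul]; exact ((show Commute _ _ from ha).mul_right hb).eq
      | inv a _ ha => rw [map_inv]; exact ((show Commute _ _ from ha).inv_right).eq
    have hx : x ∈ Subgroup.closure (Reflections.reflections Q) := by rw [Reflections.closure_reflections h2 hQ]; trivial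
    induction hx using Subgroup.closure_induction with
    | mem r hr => obtain ⟨v, hv, hr⟩ := hr; obtain rfl : r = Reflections.R Q v hv := Subtype.ext (Units.ext hr); exact hone v hv y
    | one => rw [map_one, one_mul, mul_one]
    | mul a b _ _ ha hb => rw [map_mul]; exact ((show Commute _ _ from ha).mul_left hb).eq
    | inv a _ ha => rw [map_inv]; exact ((show Commute _ _ from ha).inv_left).eq
  have hΩ : Cfsg.Omega F ⇑Q ≤ H := by
    refine le_trans ?_ (le_of_eq (QuotientGroup.ker_mk' H))
    show commutator (Cfsg.isometryGroup F ⇑Q) ≤ _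
    rw [commutator_def, Subgroup.commutator_le]
    intro x _ y _
    rw [MonoidHom.mem_ker, map_commutatorElement, commutatorElement_eq_one_iff_mul_comm]
    exact hgen x y
  -- the separating character
  let χ : Cfsg.isometryGroup F ⇑Q →* ℤˣ :=
    if quadraticChar F c = 1 then Spinor.theta Q h2 hQ else Spinor.theta Q h2 hQ * Spinor.detSign h2 hQ
  have hχR : ∀ (v : Fin n → F) (hv : Q v ≠ 0),
      (χ (Reflections.R Q v hv) : ℤ) = quadraticChar F (Q v) * quadraticChar F c := by
    intro v hv
    by_cases h : quadraticChar F c = 1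
    · simp only [χ, if_pos h, h, mul_one]; exact Spinor.theta_R h2 hQ hv
    · have h' := (quadraticChar_dichotomy hc).resolve_left h
      simp only [χ, if_neg h, h', MonoidHom.mul_apply, Units.val_mul, Spinor.theta_R h2 hQ hv, Spinor.detSign_R h2 hQ hv]
      rfl
  have hcls : ∀ (v : Fin n → F) (t : F), t ≠ 0 → Q v = c * t ^ 2 → quadraticChar F (Q v) = quadraticChar F c := by
    intro v t ht h; rw [h, map_mul, quadraticChar_sq_one' ht, mul_one]
  obtain ⟨ν, hν⟩ := quadraticChar_exists_neg_one (F := F) (fun h => h2 (by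
    haveI : CharP F 2 := ringChar.of_eq h
    exact CharTwo.two_eq_zero))
  have hν0 : ν ≠ 0 := by rintro rfl; simp at hν
  obtain ⟨vc, hvc⟩ := Spinor.exists_norm h2 hQ c
  obtain ⟨b, hb⟩ := Spinor.exists_norm h2 hQ (c * ν)
  have hb0 : Q b ≠ 0 := by rw [hb]; exact mul_ne_zero hc hν0
  have hχb : χ (Reflections.R Q b hb0) = -1 := Units.ext (by
    rw [hχR, hb, map_mul, hν]
    rcases quadraticChar_dichotomy hc with h | h <;> simp [h])
  have hvc' : Q vc = c * (1 : F) ^ 2 := by rw [hvc, one_pow, mul_one]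
  have hstep : ∀ z : Cfsg.isometryGroup F ⇑Q, (π z = 1 ∧ χ z = 1) ∨ (π z = π (Reflections.R Q b hb0) ∧ χ z = -1) := by
    intro z
    have hz : z ∈ Subgroup.closure (Reflections.reflections Q) := by rw [Reflections.closure_reflections h2 hQ]; trivial
    induction hz using Subgroup.closure_induction with
    | mem r hr =>
      obtain ⟨v, hv, hr⟩ := hr
      obtain rfl : r = Reflections.R Q v hv := Subtype.ext (Units.ext hr)
      have hmono : ∀ {w : Fin n → F} (hw : Q w ≠ 0), quadraticChar F (Q v) = quadraticChar F (Q w) →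
          π (Reflections.R Q v hv) = π (Reflections.R Q w hw) := fun {w} hw h => by
        refine QuotientGroup.eq.2 (hΩ (QuotientGroup.eq.1 ?_))
        exact Spinor.R_congr_class h2 hw hv h
      by_cases h : quadraticChar F (Q v) = quadraticChar F c
      · refine Or.inl ⟨?_, Units.ext ?_⟩
        · rw [hmono (hQne vc 1 one_ne_zero hvc') (by rw [hvc]; exact h)]
          exact hπS vc 1 one_ne_zero hvc'
        · rw [hχR, h, ← pow_two, quadraticChar_sq_one hc]; rfl
      · have e : quadraticChar F (Q v) = -quadraticChar F c := by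
          rcases quadraticChar_dichotomy hv with a | a <;> rcases quadraticChar_dichotomy hc with d | d <;>
            rw [a, d] at h ⊢ <;> simp_all
        refine Or.inr ⟨hmono hb0 (by rw [e, hb, map_mul, hν, mul_neg_one]), Units.ext ?_⟩
        rw [hχR, e, neg_mul, ← pow_two, quadraticChar_sq_one hc]; rfl
    | one => exact Or.inl ⟨map_one π, map_one χ⟩
    | mul x y _ _ hx hy =>
      rcases hx with ⟨a1, a2⟩ | ⟨a1, a2⟩ <;> rcases hy with ⟨b1, b2⟩ | ⟨b1, b2⟩
      · exact Or.inl ⟨by rw [map_mul, a1, b1, mul_one], by rw [map_mul, a2, b2, mul_one]⟩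
      · exact Or.inr ⟨by rw [map_mul, a1, b1, one_mul], by rw [map_mul, a2, b2, one_mul]⟩
      · exact Or.inr ⟨by rw [map_mul, a1, b1, mul_one], by rw [map_mul, a2, b2, mul_one]⟩
      · exact Or.inl ⟨by rw [map_mul, a1, b1, ← map_mul, hsq, map_one], by rw [map_mul, a2, b2]; rfl⟩
    | inv x _ hx =>
      rcases hx with ⟨a1, a2⟩ | ⟨a1, a2⟩
      · exact Or.inl ⟨by rw [map_inv, a1, inv_one], by rw [map_inv, a2, inv_one]⟩
      · exact Or.inr ⟨by rw [map_inv, a1, ← map_inv, hinv], by rw [map_inv, a2]; rfl⟩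
  have hker : H = χ.ker := by
    refine le_antisymm ((Subgroup.closure_le _).2 ?_) fun z hz => ?_
    · rintro r ⟨x, t, ht, hx, hr⟩
      obtain rfl : r = Reflections.R Q x (hQne x t ht hx) := Subtype.ext (Units.ext hr)
      refine MonoidHom.mem_ker.2 (Units.ext ?_)
      rw [hχR, hcls x t ht hx, ← pow_two, quadraticChar_sq_one hc]; rfl
    · rcases hstep z with ⟨h, -⟩ | ⟨-, h⟩
      · exact (QuotientGroup.eq_one_iff z).1 h
      · rw [MonoidHom.mem_ker.1 hz] at h; exact absurd h (by decide)
  rw [hker, Subgroup.index_ker]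
  have htop : χ.range = ⊤ := by
    rw [eq_top_iff]
    intro z _
    rcases Int.units_eq_one_or z with rfl | rfl
    · exact one_mem _
    · exact ⟨_, hχb⟩
  rw [htop, Subgroup.card_top, Nat.card_eq_fintype_card, Fintype.card_units_int]

end Cfsg.Agent.S0798
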