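import Cfsg.Statements.S0799
import Mathlib
import Cfsg.Agent.Lib.SL2.DicksonTools

set_option autoImplicit false
open Cfsg

namespace Cfsg.Agent.S0799

open CfsgLib.SL2Torus CfsgLib.SL2Dickson

/-- Dickson's classification of the subgroups of PSL_2(q), q a power of the prime p, d = gcd(2, q − 1): every subgroup H is (a) cyclic or dihedral with k dividing (q+1)/d or (q−1)/d (cyclic of order k, or dihedral of order 2k), (b) isomorphic to a subgroup of the normaliser of a Sylow p-subgroup, (c) isomorphic to A_4, S_4 or A_5, or (d) isomorphic to PSL_2(K) or PGL_2(K) for a finite field K with |K|^m = q. -/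
theorem result {F : Type*} [Field F] [Fintype F] {q : ℕ} (hF : Fintype.card F = q) (p : ℕ) [Fact p.Prime] [CharP F p] (H : Subgroup (Matrix.ProjectiveSpecialLinearGroup (Fin 2) F)) : (∃ k : ℕ, (k ∣ (q + 1) / Nat.gcd 2 (q - 1) ∨ k ∣ (q - 1) / Nat.gcd 2 (q - 1)) ∧ ((IsCyclic H ∧ Nat.card H = k) ∨ Nonempty (H ≃* DihedralGroup k))) ∨ (∃ (P : Sylow p (Matrix.ProjectiveSpecialLinearGroup (Fin 2) F)) (K : Subgroup (Matrix.ProjectiveSpecialLinearGroup (Fin 2) F)), K ≤ Subgroup.normalizer ((P : Subgroup (Matrix.ProjectiveSpecialLinearGroup (Fin 2) F)) : Set (Matrix.ProjectiveSpecialLinearGroup (Fin 2) F)) ∧ Nonempty (H ≃* K)) ∨ Nonempty (H ≃* alternatingGroup (Fin 4)) ∨ Nonempty (H ≃* Equiv.Perm (Fin 4)) ∨ Nonempty (H ≃* alternatingGroup (Fin 5)) ∨ (∃ (K : Type) (_ : Field K) (_ : Fintype K) (m : ℕ), Fintype.card K ^ m = q ∧ (Nonempty (H ≃* Matrix.ProjectiveSpecialLinearGroup (Fin 2) K) ∨ Nonempty (H ≃* Matrix.ProjGenLinGroup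 (Fin 2) K))) := by
  subst hF
  rcases dickson H with ⟨hc, hT⟩ | ⟨T, hT, -, n, hn, -, -, hiso⟩ | ⟨h, -⟩ | ⟨h, -⟩ | ⟨h, -⟩ | h | h
  · refine Or.inl ⟨Nat.card H, ?_, Or.inl ⟨hc, rfl⟩⟩
    rcases hT with rfl | ⟨T, hT, hle⟩
    · rw [Subgroup.card_bot]; exact Or.inl (one_dvd _)
    · rcases torus_dvd hT with e | e
      · exact Or.inr (e ▸ Subgroup.card_dvd_of_le hle)
      · exact Or.inl (e ▸ Subgroup.card_dvd_of_le hle)
  · refine Or.inl ⟨n, ?_, Or.inr hiso⟩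
    rcases torus_dvd hT with e | e
    · exact Or.inr (e ▸ hn)
    · exact Or.inl (e ▸ hn)
  · exact Or.inr (Or.inr (Or.inl h))
  · exact Or.inr (Or.inr (Or.inr (Or.inl h)))
  · exact Or.inr (Or.inr (Or.inr (Or.inr (Or.inl h))))
  · obtain ⟨P, hP⟩ := bor_normalizer p h
    exact Or.inr (Or.inl ⟨P, H, hP, ⟨MulEquiv.refl H⟩⟩)
  · obtain ⟨K, i1, i2, m, -, hm, hiso⟩ := field_equiv h
    exact Or.inr (Or.inr (Or.inr (Or.inr (Or.inr ⟨K, i1, i2, m, hm, hiso.imp id And.right⟩))))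

end Cfsg.Agent.S0799
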