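import Cfsg.Statements.S0800
import Mathlib

set_option autoImplicit false
open Cfsg

namespace Cfsg.Agent.S0800

open Polynomial

/-- Tori of SL_2(q): if g ∈ SL_2(q) has order coprime to the characteristic p, then the order of g divides q − 1 or q + 1. -/
theorem result {F : Type*} [Field F] [Fintype F] {q : ℕ} (hF : Fintype.card F = q) (p : ℕ) [Fact p.Prime] [CharP F p] (g : Matrix.SpecialLinearGroup (Fin 2) F) (hg : Nat.Coprime (orderOf g) p) : orderOf g ∣ q - 1 ∨ orderOf g ∣ q + 1 := by
  classical
  subst hF
  obtain ⟨n, hp, hq⟩ := FiniteField.card F p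
  set q := Fintype.card F with hqdef
  set M : Matrix (Fin 2) (Fin 2) F := g.1 with hM
  set t : F := M.trace with ht
  have hdet : M.det = 1 := g.2
  have hch : M * M - t • M + 1 = 0 := by
    have h := Matrix.aeval_self_charpoly M
    rw [Matrix.charpoly_fin_two, hdet] at h
    simpa [ht, Algebra.smul_def, pow_two] using h
  have hpow : ∀ k, ((g ^ k : Matrix.SpecialLinearGroup (Fin 2) F) : Matrix (Fin 2) (Fin 2) F) = M ^ k := fun k => by
    rw [Matrix.SpecialLinearGroup.coe_pow]
  have hq1 : 1 ≤ q := Fintype.card_pos
  have fin_sub : M ^ q = M → orderOf g ∣ q - 1 ∨ orderOf g ∣ q + 1 := fun h => Or.inl (by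
    rw [orderOf_dvd_iff_pow_eq_one]
    have : g ^ q = g := Subtype.ext (by rw [hpow, h])
    exact mul_right_cancel (b := g) (by rw [← pow_succ, Nat.sub_add_cancel hq1, one_mul, this]))
  -- scalar extension by the characteristic polynomial
  by_cases hroot : ∃ l : F, l * l - t * l + 1 = 0
  · obtain ⟨l, hl⟩ := hroot
    obtain ⟨m, hm⟩ : ∃ m, m = t - l := ⟨_, rfl⟩
    set N := M - l • (1 : Matrix (Fin 2) (Fin 2) F) with hN
    have hNN : N * N = (m - l) • N := by
      rw [hN, hm, sub_mul, mul_sub, mul_sub, smul_mul_assoc, one_mul, mul_smul_comm, mul_one, smul_mul_smul_comm, one_mul]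
      have hMM : M * M = t • M - 1 := by rw [eq_sub_iff_add_eq, ← sub_eq_zero, ← hch]; abel
      rw [hMM]
      have h1 : (1 : Matrix (Fin 2) (Fin 2) F) = (t * l - l * l) • 1 := by
        rw [show t * l - l * l = 1 by linear_combination -hl, one_smul]
      nth_rewrite 1 [h1]
      module
    have hk : ∀ k, N ^ (k + 1) = (m - l) ^ k • N := by
      intro k
      induction k with
      | zero => simp
      | succ k ih => rw [pow_succ, ih, smul_mul_assoc, hNN, smul_smul, pow_succ]
    by_cases hml : m = l
    · -- repeated root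
      have hN2 : N ^ 2 = 0 := by rw [hk 1, hml, sub_self, pow_one, zero_smul]
      have hp2 : 2 ≤ p := hp.two_le
      have hMp : M ^ p = (l ^ p) • (1 : Matrix (Fin 2) (Fin 2) F) := by
        have hc : Commute (l • (1 : Matrix (Fin 2) (Fin 2) F)) N := (Commute.one_left N).smul_left l
        rw [show M = l • 1 + N by rw [hN]; abel, add_pow_char_of_commute _ hc, _root_.smul_pow, one_pow,
          pow_eq_zero_of_le hp2 hN2, add_zero]
      have hll : l * l = 1 := by
        have : (2 : F) * l = t := by rw [hm] at hml; linear_combination -hml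
        linear_combination -hl + l * this
      have h2p : g ^ (2 * p) = 1 := Subtype.ext (by
        rw [hpow, mul_comm, pow_mul, hMp, _root_.smul_pow, one_pow, ← pow_mul, mul_comm p 2, pow_mul,
          show l ^ 2 = 1 by rw [pow_two, hll]]
        simp)
      have h2 : orderOf g ∣ 2 := hg.dvd_of_dvd_mul_right (orderOf_dvd_iff_pow_eq_one.2 h2p)
      rcases Nat.even_or_odd q with he | ho
      · -- p = 2
        have hp' : p = 2 := by
          have h2q : 2 ∣ p ^ (n : ℕ) := hq ▸ even_iff_two_dvd.1 he
          exact ((Nat.prime_dvd_prime_iff_eq Nat.prime_two hp).1 (Nat.prime_two.dvd_of_dvd_pow h2q)).symm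
        rw [hp'] at hg
        rw [show orderOf g = 1 from Nat.eq_one_of_dvd_one (hg.dvd_of_dvd_mul_right (by simpa using h2))]
        exact Or.inl (one_dvd _)
      · exact Or.inr (h2.trans (even_iff_two_dvd.1 ho.add_one))
    · refine fin_sub ?_
      haveI : ExpChar (Matrix (Fin 2) (Fin 2) F) p := ExpChar.prime hp
      have h1 := sub_pow_char_pow_of_commute p (n : ℕ)
        ((Commute.one_right M).smul_right l : Commute M (l • (1 : Matrix (Fin 2) (Fin 2) F)))
      rw [← hN, ← hq, _root_.smul_pow, one_pow, FiniteField.pow_card l,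
        show q = (q - 1) + 1 by omega, hk, FiniteField.pow_card_sub_one_eq_one _ (sub_ne_zero.2 hml), one_smul,
        Nat.sub_add_cancel hq1, hN] at h1
      exact (sub_left_inj.1 h1).symm
  · push Not at hroot
    set f : F[X] := X ^ 2 - C t * X + 1 with hf
    have hdeg : f.natDegree = 2 := by rw [hf]; compute_degree!
    have hirr : Irreducible f := by
      refine (Polynomial.irreducible_iff_roots_eq_zero_of_degree_le_three (by omega) (by omega)).2 ?_
      refine Multiset.eq_zero_of_forall_notMem fun l hl => hroot l ?_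
      rw [mem_roots'] at hl
      simpa [hf, IsRoot, pow_two] using hl.2
    haveI : Fact (Irreducible f) := ⟨hirr⟩
    have tr : ∀ P : F[X], AdjoinRoot.mk f P = 0 → aeval M P = 0 := fun P hP => by
      obtain ⟨c, rfl⟩ := AdjoinRoot.mk_eq_zero.1 hP
      rw [map_mul, show aeval M f = 0 by simpa [hf, pow_two, Algebra.smul_def] using hch, zero_mul]
    set r := AdjoinRoot.root f with hr
    have h1 : r * r - algebraMap F _ t * r + 1 = 0 := by
      have := AdjoinRoot.eval₂_root f
      simpa [hf, pow_two, AdjoinRoot.algebraMap_eq, hr] using this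
    have h2 : r ^ q * r ^ q - algebraMap F _ t * r ^ q + 1 = 0 := by
      have := congrArg (FiniteField.frobeniusAlgHom F (AdjoinRoot f)) h1
      rw [map_add, map_sub, map_mul, map_mul, AlgHom.commutes, map_one, map_zero] at this
      exact this
    have h3 : (r ^ q - r) * (r ^ q + r - algebraMap F _ t) = 0 := by linear_combination h2 - h1
    rcases mul_eq_zero.1 h3 with h | h
    · refine fin_sub (sub_eq_zero.1 ?_)
      have := tr (X ^ q - X) (by simpa [hr] using h)
      simpa using this
    · refine Or.inr ?_
      rw [orderOf_dvd_iff_pow_eq_one]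
      refine Subtype.ext ?_
      rw [hpow]
      have h4 : r ^ (q + 1) = 1 := by rw [pow_succ]; linear_combination r * h - h1
      have := tr (X ^ (q + 1) - 1) (by simp [← hr, h4])
      exact sub_eq_zero.1 (by simpa using this)

end Cfsg.Agent.S0800
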