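import Cfsg.Statements.S0801
import Mathlib
import Cfsg.Agent.Lib.SL2.PGLMax

set_option autoImplicit false
open Cfsg

namespace Cfsg.Agent.S0801

open CfsgLib.SL2Dickson CfsgLib.SL2Torus
open CfsgLib.PSL2Klein (π π_surj π_eq π_eq_one)

/-- pairs over the field with three elements -/
abbrev Q := ZMod 3 × ZMod 3

/-- the orbit list -/
def table : List ℕ := [603, 3519, 6435, 387, 5490, 4032, 693, 5796, 4338, 477, 3393, 6309, 4377, 4620, 4863, 4386, 5358, 6330, 4395, 6096, 5610, 2193, 2436, 2679, 2202, 3903, 3417, 2211, 3183, 4155, 730, 811, 892, 757, 3025, 5293, 784, 5239, 3133, 5620, 841, 3352, 5404, 3541, 949, 4873, 5197, 6250, 6115, 607, 3118, 4639, 6421, 5287, 6394, 3073, 481, 3436, 5461, 925, 3220, 871, 5812, 2446, 3013, 4309, 4201, 394, 5335, 2698, 3994, 3103, 3940, 5236, 700, 1460, 1541, 1622, 1487, 5942, 3836, 1514, 3782, 6050, 6350, 4001, 1652, 6134, 1598, 4352, 4631, 5927, 5765, 5657, 392, 3875, 4883, 5450, 6017, 5396, 3776, 698, 4166, 1574, 6272, 3950, 6461, 1682,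 2690, 3743, 3338, 3203, 611, 6038, 2456, 3509, 3833, 3482, 5993, 485]

def dec (n : ℕ) : Q × Q × Q × Q :=
  ((((n % 3 : ℕ) : ZMod 3), ((n / 3 % 3 : ℕ) : ZMod 3)), (((n / 9 % 3 : ℕ) : ZMod 3), ((n / 27 % 3 : ℕ) : ZMod 3)),
    (((n / 81 % 3 : ℕ) : ZMod 3), ((n / 243 % 3 : ℕ) : ZMod 3)), (((n / 729 % 3 : ℕ) : ZMod 3), ((n / 2187 % 3 : ℕ) : ZMod 3)))

def enc (m : Q × Q × Q × Q) : ℕ :=
  m.1.1.val + 3 * m.1.2.val + 9 * m.2.1.1.val + 27 * m.2.1.2.val + 81 * m.2.2.1.1.val + 243 * m.2.2.1.2.val +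
    729 * m.2.2.2.1.val + 2187 * m.2.2.2.2.val

def lamQ (x : Q) : Q := (-x.2, x.1)

def mulL (m : Q × Q × Q × Q) : Q × Q × Q × Q :=
  (m.1 + m.2.1, m.2.1, m.2.2.1 + m.2.2.2, m.2.2.2)

def mulU (m : Q × Q × Q × Q) : Q × Q × Q × Q :=
  (m.1, lamQ m.1 + m.2.1, m.2.2.1, lamQ m.2.2.1 + m.2.2.2)

theorem table_spec : table.length = 120 ∧ enc ((1, 0), (0, 0), (0, 0), (1, 0)) ∈ table ∧
    dec (enc ((1, 0), (0, 0), (0, 0), (1, 0))) = ((1, 0), (0, 0), (0, 0), (1, 0)) ∧
    ∀ n ∈ table, (enc (mulL (dec n)) ∈ table ∧ dec (enc (mulL (dec n))) = mulL (dec n)) ∧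
      (enc (mulU (dec n)) ∈ table ∧ dec (enc (mulU (dec n))) = mulU (dec n)) := by decide +kernel

section
variable {F : Type*} [Field F] [Fintype F]

/-- the value of a pair -/
noncomputable def ev [CharP F 3] (lam : F) (x : Q) : F :=
  ZMod.castHom (dvd_refl 3) F x.1 + ZMod.castHom (dvd_refl 3) F x.2 * lam

theorem ev_add [CharP F 3] (lam : F) (x y : Q) : ev lam (x + y) = ev lam x + ev lam y := by
  simp only [ev, Prod.fst_add, Prod.snd_add, map_add]; ring

theorem ev_lamQ [CharP F 3] {lam : F} (hl : lam ^ 2 = -1) (x : Q) : ev lam (lamQ x) = ev lam x * lam := by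
  simp only [ev, lamQ, map_neg]
  linear_combination (-(ZMod.castHom (dvd_refl 3) F x.2)) * hl

theorem closure_small [CharP F 3] {lam : F} (hl : lam ^ 2 = -1)
    (G : Subgroup (Matrix.SpecialLinearGroup (Fin 2) F))
    (hG : G = Subgroup.closure {g : Matrix.SpecialLinearGroup (Fin 2) F | (g : Matrix (Fin 2) (Fin 2) F) = !![1, 0; 1, 1] ∨ (g : Matrix (Fin 2) (Fin 2) F) = !![1, lam; 0, 1]}) :
    Nat.card G ≤ 120 := by
  classical
  obtain ⟨hlen, h0, h0', hstep⟩ := table_spec
  set W : Set (Matrix.SpecialLinearGroup (Fin 2) F) := {g | ∃ n ∈ table,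
    g.1 0 0 = ev lam (dec n).1 ∧ g.1 0 1 = ev lam (dec n).2.1 ∧
    g.1 1 0 = ev lam (dec n).2.2.1 ∧ g.1 1 1 = ev lam (dec n).2.2.2} with hW
  have hsub : ∀ g ∈ G, g ∈ W := by
    have e1 : ev lam ((1, 0) : Q) = 1 := by simp [ev]
    have e0 : ev lam ((0, 0) : Q) = 0 := by simp [ev]
    intro g hg
    subst hG
    have hg' : g ∈ Submonoid.closure {g : Matrix.SpecialLinearGroup (Fin 2) F | (g : Matrix (Fin 2) (Fin 2) F) = !![1, 0; 1, 1] ∨ (g : Matrix (Fin 2) (Fin 2) F) = !![1, lam; 0, 1]} := by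
      rw [← Subgroup.closure_toSubmonoid_of_finite]; exact hg
    clear hg
    induction hg' using Submonoid.closure_induction_right with
    | one =>
      refine ⟨_, h0, ?_, ?_, ?_, ?_⟩ <;> rw [h0'] <;> simp [e1, e0]
    | mul_right x _ y hy ih =>
      obtain ⟨n, hn, a, b, c, d⟩ := ih
      obtain ⟨⟨hL, hL'⟩, ⟨hU, hU'⟩⟩ := hstep n hn
      rcases hy with hy | hy
      · refine ⟨_, hL, ?_, ?_, ?_, ?_⟩ <;> rw [hL'] <;>
          simp [Matrix.mul_apply, Fin.sum_univ_two, hy, mulL, ev_add, a, b, c, d]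
      · refine ⟨_, hU, ?_, ?_, ?_, ?_⟩ <;> rw [hU'] <;>
          simp [Matrix.mul_apply, Fin.sum_univ_two, hy, mulU, ev_add, ev_lamQ hl, a, b, c, d]
  let F' : G → {n // n ∈ table} := fun g => ⟨(hsub g g.2).choose, (hsub g g.2).choose_spec.1⟩
  have hinj : Function.Injective F' := fun g h e => by
    have e' := congrArg Subtype.val e
    obtain ⟨-, a, b, c, d⟩ := (hsub g g.2).choose_spec
    obtain ⟨-, a', b', c', d'⟩ := (hsub h h.2).choose_spec
    rw [show (hsub g g.2).choose = (hsub h h.2).choose from e'] at a b c d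
    exact Subtype.ext (CfsgLib.PSL2Two.ext2 (a.trans a'.symm) (b.trans b'.symm) (c.trans c'.symm) (d.trans d'.symm))
  haveI : Finite {n // n ∈ table} := table.finite_toSet.to_subtype
  refine (Nat.card_le_card_of_injective F' hinj).trans ?_
  calc Nat.card {n // n ∈ table} = table.toFinset.card := by
        rw [Nat.subtype_card table.toFinset (fun x => List.mem_toFinset)]
    _ ≤ 120 := hlen ▸ table.toFinset_card_le

theorem transvection_zero {i j : Fin 2} (hij : i ≠ j) :
    Matrix.SpecialLinearGroup.transvection hij (0 : F) = 1 := by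
  apply Subtype.ext
  simp [Matrix.SpecialLinearGroup.transvection, Matrix.transvection]

theorem transvection_pow {i j : Fin 2} (hij : i ≠ j) (c : F) (k : ℕ) :
    Matrix.SpecialLinearGroup.transvection hij c ^ k = Matrix.SpecialLinearGroup.transvection hij ((k : F) * c) := by
  induction k with
  | zero => rw [pow_zero, Nat.cast_zero, zero_mul, transvection_zero]
  | succ k ih =>
    rw [pow_succ, ih, Nat.cast_succ, add_mul, one_mul]
    apply Subtype.ext
    rw [Matrix.SpecialLinearGroup.coe_mul]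
    exact Matrix.transvection_mul_transvection_same _ _ hij _ _

theorem tr_scaleL (c : Fˣ) (g : Matrix.SpecialLinearGroup (Fin 2) F) : tr (scaleL c g) = tr g := by
  simp [tr, Matrix.trace_fin_two, scaleL, scaleFun00, scaleFun11]

theorem tr_lu (c : F) : tr (l 1 * u c : Matrix.SpecialLinearGroup (Fin 2) F) = 2 + c := by
  rw [tr, Matrix.trace_fin_two, CfsgLib.PSL2Two.mul_entry, CfsgLib.PSL2Two.mul_entry, l00, l01, l10, l11, u00, u01, u10, u11]
  ring

theorem eq_neg_one {x : Matrix.SpecialLinearGroup (Fin 2) F} (h2 : (2 : F) ≠ 0) (hx : x * x = 1) (hx1 : x ≠ 1) :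
    x = -1 := by
  by_contra hn
  have h : tr x • (x : Matrix (Fin 2) (Fin 2) F) = (2 : F) • 1 := by
    have e := sq_eq x
    rw [← Matrix.SpecialLinearGroup.coe_mul, hx, Matrix.SpecialLinearGroup.coe_one] at e
    rw [two_smul, eq_sub_iff_add_eq.1 e]
  have ht : tr x ≠ 0 := fun e => h2 (by simpa [e] using (congrFun (congrFun h 0) 0).symm)
  refine ne_scalar' hx1 hn ⟨2 / tr x, ?_⟩
  rw [div_eq_inv_mul, ← smul_smul, ← h, smul_smul, inv_mul_cancel₀ ht, one_smul]

theorem pow_entry (g : Matrix.SpecialLinearGroup (Fin 2) F) :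
    (g * g).1 0 1 = tr g * g.1 0 1 ∧ (g ^ 3).1 0 1 = (tr g ^ 2 - 1) * g.1 0 1 ∧
      (g ^ 5).1 0 1 = (tr g ^ 4 - 3 * tr g ^ 2 + 1) * g.1 0 1 := by
  have h2 := sq_eq g
  set t := tr g
  set A := (g : Matrix (Fin 2) (Fin 2) F)
  have h3 : A * A * A = (t ^ 2 - 1) • A - t • 1 := by
    rw [h2, sub_mul, smul_mul_assoc, h2, one_mul, smul_sub, smul_smul, sub_smul, one_smul, sq]
    abel
  have h5 : A * A * A * (A * A) = (t ^ 4 - 3 * t ^ 2 + 1) • A - (t ^ 3 - 2 * t) • 1 := by
    rw [h3, h2]
    simp only [sub_mul, mul_sub, smul_mul_assoc, mul_smul_comm, h2, one_mul, mul_one, smul_sub, smul_smul]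
    ext i j
    simp only [Matrix.sub_apply, Matrix.smul_apply, smul_eq_mul]
    ring
  refine ⟨?_, ?_, ?_⟩
  · show (A * A) 0 1 = _
    rw [h2]; simp [A]
  · rw [pow_three, ← mul_assoc]
    show (A * A * A) 0 1 = _
    rw [h3]; simp [A]
  · rw [show g ^ 5 = g * g * g * (g * g) by simp [pow_succ, mul_assoc]]
    show (A * A * A * (A * A)) 0 1 = _
    rw [h5]; simp [A]

theorem trace_of_A5 {H : Subgroup (Matrix.ProjectiveSpecialLinearGroup (Fin 2) F)}
    (e : H ≃* alternatingGroup (Fin 5)) {g : Matrix.SpecialLinearGroup (Fin 2) F} (hg : π g ∈ H) (h01 : g.1 0 1 ≠ 0) :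
    tr g = 0 ∨ tr g ^ 2 = 1 ∨ tr g ^ 2 - tr g - 1 = 0 ∨ tr g ^ 2 + tr g - 1 = 0 := by
  obtain ⟨p2, p3, p5⟩ := pow_entry g
  have scal : ∀ k, π g ^ k = 1 → (g ^ k).1 0 1 = 0 := by
    intro k hk
    rw [← map_pow, π_eq_one] at hk
    rcases hk with e | e <;> rw [e] <;> simp
  have hpow : ∀ k, e ⟨π g, hg⟩ ^ k = 1 → π g ^ k = 1 := by
    intro k hk
    rw [← map_pow, map_eq_one_iff _ e.injective] at hk
    simpa using congrArg Subtype.val hk
  rcases CfsgLib.SL2Dickson.orders_small.2.2.2 (e ⟨π g, hg⟩) with h | h | h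
  · have := scal 2 (hpow 2 h)
    rw [sq, p2] at this
    exact Or.inl ((mul_eq_zero.1 this).resolve_right h01)
  · have := scal 3 (hpow 3 h)
    rw [p3] at this
    exact Or.inr (Or.inl (sub_eq_zero.1 ((mul_eq_zero.1 this).resolve_right h01)))
  · have := scal 5 (hpow 5 h)
    rw [p5] at this
    have h' := (mul_eq_zero.1 this).resolve_right h01
    have : (tr g ^ 2 - tr g - 1) * (tr g ^ 2 + tr g - 1) = 0 := by linear_combination h'
    rcases mul_eq_zero.1 this with h'' | h''
    · exact Or.inr (Or.inr (Or.inl h''))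
    · exact Or.inr (Or.inr (Or.inr h''))

theorem image_cases (hodd : Fintype.card F % 2 = 1) {lam : F} (hlam : lam ≠ 0)
    (hgen : Subfield.closure ({lam} : Set F) = ⊤) {H : Subgroup (Matrix.ProjectiveSpecialLinearGroup (Fin 2) F)}
    (hl1 : lo (1 : F) ∈ H) (hu : up lam ∈ H) :
    H = ⊤ ∨ (Fintype.card F = 9 ∧ lam ^ 2 = -1 ∧ Nat.card H = 60) := by
  classical
  haveI := ringChar.charP F
  obtain ⟨n, hp, hq⟩ := FiniteField.card F (ringChar F)
  haveI := Fact.mk hp
  have hp3 := ringChar_odd hodd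
  have hlo : (lo (1 : F) : Matrix.ProjectiveSpecialLinearGroup (Fin 2) F) ^ ringChar F = 1 := by
    rw [lo, ← map_pow, l_pow, CharP.cast_eq_zero, zero_mul, l_zero, map_one]
  have hlo1 : (lo (1 : F) : Matrix.ProjectiveSpecialLinearGroup (Fin 2) F) ≠ 1 := fun e => one_ne_zero (lo_eq_one.1 e)
  have hns := not_semi_of_pow (ringChar F) hlo hlo1
  have top_of : ∀ K : Subfield F, lam ∈ K → K = ⊤ := fun K hK =>
    top_le_iff.1 (hgen ▸ Subfield.closure_le.2 (Set.singleton_subset_iff.2 hK))
  rcases dickson_gl H with h | h | h | h | h | h | h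
  · exfalso
    obtain ⟨-, h | ⟨T, hT, hle⟩⟩ := h
    · exact hlo1 (by simpa [h] using hl1)
    · exact hns (semi_of_mem_torus hT (hle hl1) hlo1)
  · exfalso
    obtain ⟨T, hT, hle, -⟩ := h
    by_cases hm : lo (1 : F) ∈ T
    · exact hns (semi_of_mem_torus hT hm hlo1)
    · have h2 := (torus_outside hT (hle hl1) hm).1
      have ho : orderOf (lo (1 : F) : Matrix.ProjectiveSpecialLinearGroup (Fin 2) F) = ringChar F := orderOf_eq_prime hlo hlo1
      have := Nat.le_of_dvd two_pos (ho ▸ orderOf_dvd_of_pow_eq_one ((sq _).trans h2))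
      omega
  · exact absurd (h.2 _ hl1 hlo1) hns
  · exact absurd (h.2 _ hl1 hlo1) hns
  · obtain ⟨⟨e⟩, hs⟩ := h
    have hp3' : ringChar F = 3 := hs.resolve_left fun hs => hns (hs _ hl1 hlo1)
    haveI : CharP F 3 := hp3' ▸ ringChar.charP F
    have h30 : (3 : F) = 0 := by exact_mod_cast CharP.cast_eq_zero F 3
    have hc60 : Nat.card H = 60 := by rw [Nat.card_congr e.toEquiv, nat_card_alternatingGroup, Nat.card_fin]; rfl
    have hq3 : Fintype.card F ≠ 3 := fun e3 => by
      have hd := H.card_subgroup_dvd_card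
      have hg := gcd_mul_card F
      rw [hc60] at hd
      rw [gcd_odd hodd, e3, show 3 * (3 ^ 2 - 1) = 24 by decide] at hg
      have := Nat.le_of_dvd Nat.card_pos hd
      omega
    have big : lam ^ 3 ≠ lam := fun h3 => by
      obtain ⟨K, hK⟩ := exists_subfield (F := F) (q₀ := 3) (m := n) (by norm_num) (by rw [hq, hp3'])
      have := top_of K ((mem_iff_pow K lam).2 (by rw [hK, h3]))
      subst this
      rw [Nat.card_congr Subfield.topEquiv.toEquiv, Nat.card_eq_fintype_card] at hK
      exact hq3 hK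
    have mk : ∀ c : F, c ≠ 0 → (up c : Matrix.ProjectiveSpecialLinearGroup (Fin 2) F) ∈ H →
        (2 + c = 0 ∨ (2 + c) ^ 2 = 1 ∨ (2 + c) ^ 2 - (2 + c) - 1 = 0 ∨ (2 + c) ^ 2 + (2 + c) - 1 = 0) := by
      intro c hc hm
      have := trace_of_A5 e (g := l 1 * u c) (by rw [map_mul]; exact mul_mem hl1 hm)
        (by rw [CfsgLib.PSL2Two.mul_entry]; simpa [l00, l01, u01, u11] using hc)
      rwa [tr_lu] at this
    have h2l : lam + lam ≠ 0 := fun h => hlam (by linear_combination -h + lam * h30)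
    have hl : lam ^ 2 = -1 := by
      rcases mk lam hlam hu with h | h | h | h
      · exfalso; apply big; rw [show lam = 1 by linear_combination h - h30]; ring
      · have h' : lam * (lam - 2) = 0 := by linear_combination h - (2 * lam + 1) * h30
        rcases mul_eq_zero.1 h' with h'' | h''
        · exact absurd h'' hlam
        · exfalso; apply big; rw [sub_eq_zero.1 h'']; linear_combination 2 * h30
      · linear_combination h - lam * h30
      · -- the other golden trace is excluded by a second element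
        exfalso
        have hlam2 : lam ^ 2 = lam + 1 := by linear_combination h - (2 * lam + 2) * h30
        rcases mk (lam + lam) h2l (by rw [← up_add]; exact mul_mem hu hu) with k | k | k | k
        · apply big; rw [show lam = 2 by linear_combination (2 : F) * k - (lam + 2) * h30]; linear_combination 2 * h30
        · have : lam * (lam + 2) = 0 := by linear_combination k - (lam ^ 2 + 2 * lam + 1) * h30
          rcases mul_eq_zero.1 this with h'' | h''
          · exact hlam h''
          · apply big; rw [show lam = -2 by linear_combination h'']; linear_combination (-2 : F) * h30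
        · have : lam - 1 = 0 := by linear_combination k - hlam2 - (lam ^ 2 + 2 * lam + 1) * h30
          apply big; rw [sub_eq_zero.1 this]; ring
        · have : 2 * lam = 0 := by linear_combination k - hlam2 - (lam ^ 2 + 3 * lam + 2) * h30
          exact h2l (by rw [← two_mul]; exact this)
    refine Or.inr ⟨?_, hl, hc60⟩
    have hev : Even (n : ℕ) := by
      rw [← Nat.not_odd_iff_even]
      rintro ⟨i, hi⟩
      have hsq : IsSquare (-1 : F) := ⟨lam, by rw [← hl, sq]⟩
      rw [FiniteField.isSquare_neg_one_iff, hq, hp3', hi, pow_succ, pow_mul, Nat.mul_mod, Nat.pow_mod] at hsq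
      norm_num at hsq
    obtain ⟨i, hi⟩ := hev
    obtain ⟨K, hK⟩ := exists_subfield (F := F) (q₀ := 9) (m := i) (by norm_num) (by
      rw [hq, hp3', hi, ← two_mul, pow_mul]; norm_num)
    have := top_of K ((mem_iff_pow K lam).2 (by
      rw [hK, show lam ^ 9 = (lam ^ 2) ^ 4 * lam by ring, hl]; ring))
    subst this
    rwa [Nat.card_congr Subfield.topEquiv.toEquiv, Nat.card_eq_fintype_card] at hK
  · exfalso
    obtain ⟨z, hle, -⟩ := h
    have key : ∀ x ∈ H, x ^ ringChar F = 1 → z⁻¹ * x * z ∈ U F := by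
      intro x hx hxp
      obtain ⟨b, hb, e⟩ := hle hx
      have e' : z⁻¹ * x * z = b := by rw [← e]; simp [mul_assoc]
      rw [e']
      refine bor_pow_mem_U hb ?_
      rw [← e', show z⁻¹ * x * z = z⁻¹ * x * (z⁻¹)⁻¹ by rw [inv_inv], conj_pow, hxp, mul_one, mul_inv_cancel]
    have hcomm := U_comm (key _ hu (π_u_pow_char _ _)) (key _ hl1 hlo)
    have h2 : (up lam : Matrix.ProjectiveSpecialLinearGroup (Fin 2) F) * lo 1 = lo 1 * up lam := by
      have := congrArg (fun v => z * v * z⁻¹) hcomm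
      simpa [mul_assoc] using this
    have h3 := TI (x := lo (1 : F)) (up_mem lam) (fun e => hlam (up_eq_one.1 e))
      (by rw [← h2, mul_inv_cancel_right]; exact up_mem lam)
    rw [lo, mem_Bor, l10] at h3
    exact one_ne_zero h3
  · left
    obtain ⟨z, c, K, hK⟩ := h
    set θ := (MulAut.conj z).trans (scale c)
    have hmem : ∀ x ∈ H, x ^ ringChar F = 1 → θ x ∈ pslSub K := by
      intro x hx hxp
      rcases hK with e | ⟨e, hKo, hcard⟩
      · exact e ▸ ⟨x, hx, rfl⟩
      · have hm : θ x ∈ pglSub K := e ▸ ⟨x, hx, rfl⟩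
        have hidx : ((pslSub K).subgroupOf (pglSub K)).index = 2 := by
          have h1 := Subgroup.card_mul_index ((pslSub K).subgroupOf (pglSub K))
          rw [Nat.card_congr (Subgroup.subgroupOfEquivOfLe (pslSub_le_pglSub K)).toEquiv, hcard] at h1
          have h2 := card_pslSub K
          rw [(gcd_sub_one (Nat.card_pos (α := K))).1 hKo, ← h1, mul_comm 2] at h2
          exact (Nat.eq_of_mul_eq_mul_left Nat.card_pos h2).symm
        obtain ⟨i, hi⟩ : ∃ i, ringChar F + 1 = i + i := ⟨(ringChar F + 1) / 2, by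
          have := hp.eq_two_or_odd.resolve_left (by omega); omega⟩
        have := Subgroup.mul_self_mem_of_index_two hidx ((⟨θ x, hm⟩ : pglSub K) ^ i)
        rw [Subgroup.mem_subgroupOf, ← pow_add, ← hi] at this
        have hx' : θ x ^ (ringChar F + 1) = θ x := by rw [pow_succ, ← map_pow, hxp, map_one, one_mul]
        simpa [hx'] using this
    have hK' : K = ⊤ := by
      refine top_of K ?_
      have hm : θ (lo 1 * up lam) ∈ pslSub K := by
        rw [map_mul]; exact mul_mem (hmem _ hl1 hlo) (hmem _ hu (π_u_pow_char _ _))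
      obtain ⟨w, rfl⟩ := CfsgLib.PSL2Klein.π_surj z
      obtain ⟨g, hg⟩ := hm
      have e : θ (lo 1 * up lam) = π (scaleL c (w * (l 1 * u lam) * w⁻¹)) := by
        show scale c (π w * (lo 1 * up lam) * (π w)⁻¹) = _
        rw [lo, up, ← map_mul π (l 1), ← map_inv, ← map_mul, ← map_mul, scale_π]
      rw [e] at hg
      have htr : tr (scaleL c (w * (l 1 * u lam) * w⁻¹)) = 2 + lam := by
        rw [tr_scaleL, tr_conj, tr_lu]
      have hgK : tr (Matrix.SpecialLinearGroup.map K.subtype g) ∈ K := by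
        simp only [tr, Matrix.trace_fin_two, map_entry]
        exact add_mem (g.1 0 0).2 (g.1 1 1).2
      have h2K : (2 : F) ∈ K := by rw [← one_add_one_eq_two]; exact add_mem K.one_mem K.one_mem
      rcases (π_eq _ _).1 hg with hh | hh
      · rw [hh, htr] at hgK
        simpa using sub_mem hgK h2K
      · rw [hh, tr_neg, htr] at hgK
        simpa using sub_mem (neg_mem hgK) h2K
    subst hK'
    have htop : H.map θ.toMonoidHom = ⊤ := by
      rcases hK with e | ⟨e, -, -⟩
      · rw [e, pslSub_top]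
      · rw [e]; exact top_le_iff.1 (pslSub_top.symm.le.trans (pslSub_le_pglSub _))
    exact (map_eq_top' θ).1 htop

end

/-- Let F be a finite field of odd characteristic and λ ≠ 0 an element generating F as a field. Then the lower and upper unitriangular matrices with off-diagonal entries 1 and λ generate SL_2(F), unless |F| = 9 and λ² = −1, in which case they generate a subgroup of order 120. -/
theorem result {F : Type*} [Field F] [Fintype F] (h2 : (2 : F) ≠ 0) (lam : F) (hlam : lam ≠ 0) (hgen : Subfield.closure ({lam} : Set F) = ⊤) : (Subgroup.closure {g : Matrix.SpecialLinearGroup (Fin 2) F | (g : Matrix (Fin 2) (Fin 2) F) = !![1, 0; 1, 1] ∨ (g : Matrix (Fin 2) (Fin 2) F) = !![1, lam; 0, 1]} = ⊤ ∧ ¬ (Fintype.card F = 9 ∧ lam ^ 2 = -1)) ∨ (Fintype.card F = 9 ∧ lam ^ 2 = -1 ∧ Nat.card ↥(Subgroup.closure {g : Matrix.SpecialLinearGroup (Fin 2) F | (g : Matrix (Fin 2) (Fin 2) F) = !![1, 0; 1, 1] ∨ (g : Matrix (Fin 2) (Fin 2) F) = !![1, lam; 0, 1]}) = 120) := by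
  classical
  have hodd : Fintype.card F % 2 = 1 := FiniteField.odd_card_of_char_ne_two (fun e => h2 (by
    have := ringChar.charP F
    rw [e] at this
    exact_mod_cast CharP.cast_eq_zero F 2))
  set S := {g : Matrix.SpecialLinearGroup (Fin 2) F | (g : Matrix (Fin 2) (Fin 2) F) = !![1, 0; 1, 1] ∨ (g : Matrix (Fin 2) (Fin 2) F) = !![1, lam; 0, 1]}
  set G := Subgroup.closure S with hG
  have hl1 : (l 1 : Matrix.SpecialLinearGroup (Fin 2) F) ∈ G :=
    Subgroup.subset_closure (Or.inl (by ext i j; fin_cases i <;> fin_cases j <;> rfl))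
  have hul : (u lam : Matrix.SpecialLinearGroup (Fin 2) F) ∈ G :=
    Subgroup.subset_closure (Or.inr (by ext i j; fin_cases i <;> fin_cases j <;> rfl))
  set H := G.map (π (F := F)) with hH
  have small : Fintype.card F = 9 → lam ^ 2 = -1 → Nat.card G ≤ 120 := by
    intro h9 hl
    haveI := ringChar.charP F
    obtain ⟨n, hp, hq⟩ := FiniteField.card F (ringChar F)
    have h3 : ringChar F = 3 := ((Nat.prime_dvd_prime_iff_eq Nat.prime_three hp).1
      (Nat.prime_three.dvd_of_dvd_pow (m := ringChar F) (n := n) (by rw [← hq, h9]; norm_num))).symm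
    haveI : CharP F 3 := h3 ▸ ringChar.charP F
    exact closure_small hl G hG
  rcases image_cases hodd hlam hgen (H := H) ⟨_, hl1, rfl⟩ ⟨_, hul, rfl⟩ with hHt | ⟨h9, hl, hc⟩
  · left
    have htr : ∀ g : Matrix.SpecialLinearGroup (Fin 2) F, g ^ ringChar F = 1 → g ∈ G := by
      intro g hg
      obtain ⟨g', hg', e⟩ := (hHt ▸ Subgroup.mem_top (π g) : π g ∈ H)
      obtain ⟨m, hp, -⟩ := (haveI := ringChar.charP F; FiniteField.card F (ringChar F))
      have hp2 : ringChar F % 2 = 1 := hp.eq_two_or_odd.resolve_left (by have := ringChar_odd hodd; omega)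
      rcases (π_eq _ _).1 e with rfl | rfl
      · exact hg'
      · have : g ^ (ringChar F + 1) ∈ G := by
          obtain ⟨i, hi⟩ : ∃ i, ringChar F + 1 = 2 * i := ⟨(ringChar F + 1) / 2, by omega⟩
          have h2' := pow_mem (pow_mem hg' 2) i
          rwa [neg_sq, ← pow_mul, ← hi] at h2'
        rwa [pow_succ, hg, one_mul] at this
    have hGt : G = ⊤ := by
      haveI := ringChar.charP F
      refine CfsgLib.Linear.Generation.eq_top_of_transvection_mem G fun i j hij c => htr _ ?_
      rw [transvection_pow hij, CharP.cast_eq_zero, zero_mul]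
      exact transvection_zero hij
    refine ⟨hGt, fun ⟨h9, hl⟩ => ?_⟩
    have h := small h9 hl
    rw [hGt, Subgroup.card_top, card_L_eq, h9] at h
    norm_num at h
  · right
    refine ⟨h9, hl, ?_⟩
    have hneg : (-1 : Matrix.SpecialLinearGroup (Fin 2) F) ∈ G := by
      haveI := Fact.mk Nat.prime_two
      have hd : 2 ∣ Nat.card G := (show 2 ∣ Nat.card H by rw [hc]; norm_num).trans (Subgroup.card_map_dvd G (π (F := F)))
      obtain ⟨⟨x, hx⟩, hxo⟩ := exists_prime_orderOf_dvd_card' (G := G) 2 hd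
      rw [Subgroup.orderOf_mk] at hxo
      have : x = -1 := eq_neg_one (CfsgLib.SL2Torus.two_ne_of_odd hodd)
        (by have := pow_orderOf_eq_one x; rwa [hxo, sq] at this) (fun e => by rw [e, orderOf_one] at hxo; norm_num at hxo)
      exact this ▸ hx
    have hker : ((π (F := F)).subgroupMap G).ker ≠ ⊥ := fun e => by
      have : (⟨-1, hneg⟩ : G) ∈ ((π (F := F)).subgroupMap G).ker := by
        rw [MonoidHom.mem_ker]; exact Subtype.ext ((π_eq_one _).2 (Or.inr rfl))
      rw [e, Subgroup.mem_bot] at this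
      have := congrArg (fun g : G => g.1.1 0 0) this
      simp at this
      exact CfsgLib.SL2Torus.two_ne_of_odd hodd (by linear_combination -this)
    have h := Subgroup.card_mul_index ((π (F := F)).subgroupMap G).ker
    rw [Subgroup.index_ker, MonoidHom.range_eq_top.2 ((π (F := F)).subgroupMap_surjective G), Subgroup.card_top, hc] at h
    have h2' : 2 ≤ Nat.card ((π (F := F)).subgroupMap G).ker := by
      by_contra hlt
      exact hker (Subgroup.eq_bot_of_card_le _ (by omega))
    have := small h9 hl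
    nlinarith

end Cfsg.Agent.S0801
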