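import Cfsg.Statements.S0805
import Mathlib
import Cfsg.Agent.Lib.SL2.MaxTools
import Cfsg.Agent.Lib.SL2.Subfields

set_option autoImplicit false
open Cfsg

namespace Cfsg.Agent.S0805

open CfsgLib.SL2Dickson CfsgLib.SL2Torus

theorem pow_odd_sub_one {a : ℕ} (ha : a % 2 = 1) (j : ℕ) : ∃ c, a ^ (2 * j + 1) = (a - 1) * c + 1 ∧ c % 2 = 1 := by
  induction j with
  | zero => exact ⟨1, by rw [mul_zero, zero_add, pow_one, mul_one]; omega, rfl⟩
  | succ j ih =>
    obtain ⟨c, hc, hodd⟩ := ih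
    obtain ⟨b, rfl⟩ : ∃ b, a = b + 1 := ⟨a - 1, by omega⟩
    refine ⟨(b + 1) ^ 2 * c + (b + 2), ?_, ?_⟩
    · rw [show 2 * (j + 1) + 1 = (2 * j + 1) + 2 by ring, pow_add, hc, Nat.add_sub_cancel]
      ring
    · have h1 : ((b + 1) ^ 2 * c) % 2 = 1 := by
        rw [Nat.mul_mod, Nat.pow_mod, ha, hodd]
      omega

/-- Subfield subgroups: let F be a finite field of odd order q and K a finite field with |K|^m = q, m ≥ 1. Then PSL_2(F) has a subgroup isomorphic to PSL_2(K), and has a subgroup isomorphic to PGL_2(K) if and only if m is even. -/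
theorem result {F K : Type*} [Field F] [Fintype F] [Field K] [Fintype K] {q : ℕ} (hF : Fintype.card F = q) (hodd : Odd q) (m : ℕ) (hm : 1 ≤ m) (hK : Fintype.card K ^ m = q) : (∃ H : Subgroup (Matrix.ProjectiveSpecialLinearGroup (Fin 2) F), Nonempty (H ≃* Matrix.ProjectiveSpecialLinearGroup (Fin 2) K)) ∧ ((∃ H : Subgroup (Matrix.ProjectiveSpecialLinearGroup (Fin 2) F), Nonempty (H ≃* Matrix.ProjGenLinGroup (Fin 2) K)) ↔ Even m) := by
  subst hF
  have ho : Fintype.card F % 2 = 1 := Nat.odd_iff.1 hodd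
  obtain ⟨K₀, hK₀⟩ := exists_subfield (F := F) Fintype.one_lt_card hK
  haveI : Fintype K₀ := Fintype.ofFinite _
  have e : K ≃+* K₀ := FiniteField.ringEquivOfCardEq (by rw [← hK₀, Nat.card_eq_fintype_card])
  refine ⟨⟨_, pslSub_equiv e⟩, ?_, fun hev => ?_⟩
  · rintro ⟨H, ⟨eH⟩⟩
    by_contra hev
    obtain ⟨j, rfl⟩ := Nat.not_even_iff_odd.1 hev
    have hd := H.card_subgroup_dvd_card
    rw [Nat.card_congr eH.toEquiv, CfsgLib.Linear.Card.card_PGL, card_L_eq] at hd
    have h2 := Nat.mul_dvd_mul_left 2 hd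
    have hg := gcd_mul_card F
    rw [gcd_odd ho] at hg
    rw [hg, ← hK] at h2
    set r := Fintype.card K
    have hr2 : 1 < r := Fintype.one_lt_card
    have hro : r % 2 = 1 := by
      rw [← hK, Nat.pow_mod] at ho
      rcases Nat.mod_two_eq_zero_or_one r with h | h
      · rw [h] at ho; simp at ho
      · exact h
    obtain ⟨c, hc, hcodd⟩ := pow_odd_sub_one (a := r ^ 2) (by rw [Nat.pow_mod, hro]) j
    rw [← pow_mul, mul_comm (2 * j + 1) 2, pow_mul, hc, Nat.add_sub_cancel, pow_succ] at h2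
    have h3 : r * (r ^ 2 - 1) * 2 ∣ r * (r ^ 2 - 1) * (r ^ (2 * j) * c) := by
      refine (dvd_of_eq (mul_comm _ _)).trans (h2.trans (dvd_of_eq (by ring)))
    have hpos : 0 < r * (r ^ 2 - 1) := Nat.mul_pos (by omega) (by
      have := Nat.pow_le_pow_left (show 2 ≤ r by omega) 2; omega)
    have h4 := (Nat.mul_dvd_mul_iff_left hpos).1 h3
    rw [Nat.dvd_iff_mod_eq_zero, Nat.mul_mod, Nat.pow_mod, hro, one_pow, hcodd] at h4
    norm_num at h4
  · have hm' : Nat.card K₀ ^ m = Fintype.card F := by rw [hK₀, hK]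
    exact ⟨_, pglSub_equiv (pglSub_card_of_squares (K := K₀) fun k hk => isSquare_of_even ho hm' hev hk) e⟩

end Cfsg.Agent.S0805
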