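import Cfsg.Statements.S0806
import Mathlib
import Cfsg.Agent.Lib.SL2.MaxField

set_option autoImplicit false
open Cfsg

namespace Cfsg.Agent.S0806

open CfsgLib.SL2Dickson CfsgLib.SL2Torus

/-- Minimal index (Galois): if q ∉ {2, 3, 5, 7, 9, 11} then every proper subgroup of PSL_2(q) has index ≥ q + 1, and some subgroup has index exactly q + 1. -/
theorem result {F : Type*} [Field F] [Fintype F] {q : ℕ} (hF : Fintype.card F = q) (hq : q ∉ ({2, 3, 5, 7, 9, 11} : Finset ℕ)) : (∀ H : Subgroup (Matrix.ProjectiveSpecialLinearGroup (Fin 2) F), H ≠ ⊤ → q + 1 ≤ H.index) ∧ ∃ H : Subgroup (Matrix.ProjectiveSpecialLinearGroup (Fin 2) F), H.index = q + 1 := by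
  subst hF
  simp only [Finset.mem_insert, Finset.mem_singleton, not_or] at hq
  obtain ⟨h2, h3, h5, h7, h9, h11⟩ := hq
  have h1 := Fintype.one_lt_card (α := F)
  have h4 : 4 ≤ Fintype.card F := by omega
  have hg := gcd_mul_card F
  set q := Fintype.card F with hqd
  have hd : 0 < Nat.gcd 2 (q - 1) := Nat.gcd_pos_of_pos_left _ two_pos
  have hq1 : q * (q ^ 2 - 1) = q * (q - 1) * (q + 1) := by
    rw [mul_assoc, ← one_pow 2, Nat.sq_sub_sq]; ring
  refine ⟨fun H hH => ?_, ⟨Bor F, ?_⟩⟩
  · obtain ⟨M, hM, hle⟩ := exists_coatom_ge hH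
    suffices key : Nat.gcd 2 (q - 1) * Nat.card M ≤ q * (q - 1) by
      refine le_trans ?_ (Nat.le_of_dvd (Nat.pos_of_ne_zero H.index_ne_zero_of_finite) (Subgroup.index_dvd_of_le hle))
      have h := Subgroup.card_mul_index M
      have h' : q * (q - 1) * (q + 1) ≤ q * (q - 1) * M.index := by
        rw [← hq1, ← hg, ← h, ← mul_assoc]
        exact Nat.mul_le_mul_right _ key
      exact Nat.le_of_mul_le_mul_left h' (Nat.mul_pos (by omega) (by omega))
    have hsq : 3 * q + 4 ≤ q * q := by
      have := Nat.mul_le_mul_right q h4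
      omega
    have hmul : q * (q - 1) = q * q - q := by rw [Nat.mul_sub_one]
    obtain ⟨c4, c24, c60⟩ := exceptional_card (M := M)
    have small : ∀ {c : ℕ}, q % 2 = 1 → Nat.card M = c → c ≤ 60 → Nat.gcd 2 (q - 1) * Nat.card M ≤ q * (q - 1) := by
      intro c ho hc hle'
      have h13 : 13 * 12 ≤ q * (q - 1) := Nat.mul_le_mul (by omega) (by omega)
      rw [gcd_odd ho]; omega
    rcases dickson M with h | h | h | h | h | h | h
    · exact absurd h (not_cyc h4 hM)
    · obtain ⟨T, hT, rfl⟩ := dih_max h4 hM h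
      rw [torus_normalizer_card hT]
      have : Nat.gcd 2 (q - 1) * (2 * Nat.card T) = 2 * (Nat.gcd 2 (q - 1) * Nat.card T) := by ring
      rcases torus_card hT with e | e <;> rw [← hqd] at e <;> omega
    · rcases Nat.mod_two_eq_zero_or_one q with he | ho
      · exact absurd h (no_exceptional he).1
      · exact small ho (c4 h) (by norm_num)
    · rcases Nat.mod_two_eq_zero_or_one q with he | ho
      · exact absurd h (no_exceptional he).2.1
      · exact small ho (c24 h) (by norm_num)
    · rcases Nat.mod_two_eq_zero_or_one q with he | ho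
      · exact absurd h (no_exceptional he).2.2
      · exact small ho (c60 h) le_rfl
    · exact le_of_eq (bor_max h4 hM h)
    · obtain ⟨θ, K, m, hK, hm, ⟨hodd, rfl, hθ, hcard⟩ | ⟨hmp, hmo, hθ⟩⟩ := field_max hM h
      · rw [gcd_odd hodd, show Nat.card M = Nat.card K * (Nat.card K ^ 2 - 1) by
          rw [← hcard, ← hθ, Subgroup.card_map_of_injective θ.injective]]
        rw [← hqd] at hm
        rw [hm, ← mul_assoc]
        refine Nat.mul_le_mul_right _ ?_
        rw [← hm, sq]
        exact Nat.mul_le_mul_right _ (subfield_two_le K)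
      · have hpar := parity_eq hmp.ne_zero hm
        have hr := subfield_two_le K
        have hge : Nat.gcd 2 (q - 1) = Nat.gcd 2 (Nat.card K - 1) := by
          rw [Nat.gcd_rec 2, Nat.gcd_rec 2 (Nat.card K - 1), show (Nat.card K - 1) % 2 = (q - 1) % 2 by omega]
        rw [hge, show Nat.card M = Nat.card (pslSub K) by rw [← hθ, Subgroup.card_map_of_injective θ.injective], card_pslSub]
        have h2' : Nat.card K ^ 2 ≤ q := le_trans (Nat.pow_le_pow_right (by omega) hmp.two_le) hm.le
        exact Nat.mul_le_mul (le_trans (Nat.le_self_pow two_ne_zero _) h2') (by omega)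
  · have h := Subgroup.card_mul_index (Bor F)
    have hB := card_Bor F
    rw [← hqd] at hB
    have h' : q * (q - 1) * (Bor F).index = q * (q - 1) * (q + 1) := by
      rw [← hq1, ← hg, ← h, ← mul_assoc, hB]
    exact Nat.eq_of_mul_eq_mul_left (Nat.mul_pos (by omega) (by omega)) h'

end Cfsg.Agent.S0806
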