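import Cfsg.Statements.S0809
import Mathlib
import Cfsg.Agent.Lib.PSL2.Klein

set_option autoImplicit false
open Cfsg

namespace Cfsg.Agent.S0809

open CfsgLib.PSL2Two CfsgLib.PSL2Klein

variable {F : Type*} [Field F] [Fintype F]

local notation "L" => Matrix.SpecialLinearGroup (Fin 2) F

theorem gen_of_card_four (ho : Fintype.card F % 2 = 1) {A : Subgroup L} (hA : Nat.card A = 4) :
    ∃ g : L, g ^ 2 = -1 ∧ A = Subgroup.zpowers g := by
  haveI : Fact (Nat.Prime 2) := ⟨Nat.prime_two⟩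
  have hsq1 : ∀ x : L, x ^ 2 = 1 → x = 1 ∨ x = -1 := by
    intro x hx
    by_contra hne
    have h2 : orderOf (π x) = 2 :=
      orderOf_eq_prime (by rw [← map_pow, hx, map_one]) (fun h => hne ((π_eq_one x).1 h))
    have := (orderOf_π ho).1 h2
    rw [hx] at this
    exact neg_one_ne_one ho this.symm
  obtain ⟨g, hg, hg1, hg2⟩ : ∃ g ∈ A, g ≠ 1 ∧ g ≠ -1 := by
    by_contra hc
    push Not at hc
    have hsub : (A : Set L) ⊆ {1, -1} := fun x hx => by
      by_cases h : x = 1
      · exact Or.inl h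
      · exact Or.inr (hc x hx h)
    have h1 := Set.ncard_le_ncard hsub (Set.toFinite _)
    rw [Set.ncard_pair (neg_one_ne_one ho).symm, ← Nat.card_coe_set_eq] at h1
    change Nat.card A ≤ 2 at h1
    omega
  have h4 : g ^ 4 = 1 := by
    have := pow_card_eq_one' (x := (⟨g, hg⟩ : A))
    rw [hA] at this
    exact congrArg Subtype.val this
  have h2 : g ^ 2 = -1 := by
    refine (hsq1 (g ^ 2) (by rw [← pow_mul]; exact h4)).resolve_left fun h => ?_
    rcases hsq1 g h with h | h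
    · exact hg1 h
    · exact hg2 h
  refine ⟨g, h2, (Subgroup.eq_of_le_of_card_ge (Subgroup.zpowers_le.2 hg) ?_).symm⟩
  rw [hA, Nat.card_zpowers, orderOf_eq_prime_pow (p := 2) (n := 1) ?_ ?_]
  · norm_num
  · rw [pow_one, h2]; exact neg_one_ne_one ho
  · exact h4

theorem mem_zpowers_J {x : L} (hx : x ∈ Subgroup.zpowers (J : L)) : x = 1 ∨ x = -1 ∨ x = J ∨ x = -J := by
  obtain ⟨j, rfl⟩ := Subgroup.mem_zpowers_iff.1 hx
  have e : (J : L) ^ ((4 : ℕ) : ℤ) = 1 := by
    rw [zpow_natCast, show 4 = 2 * 2 from rfl, pow_mul, J_sq, sq, neg_mul_neg, one_mul]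
  rw [← Int.mul_ediv_add_emod j 4, zpow_add, zpow_mul, show (4 : ℤ) = ((4 : ℕ) : ℤ) from rfl, e, one_zpow, one_mul]
  obtain h | h | h | h : j % ((4 : ℕ) : ℤ) = 0 ∨ j % ((4 : ℕ) : ℤ) = ((1 : ℕ) : ℤ) ∨
      j % ((4 : ℕ) : ℤ) = ((2 : ℕ) : ℤ) ∨ j % ((4 : ℕ) : ℤ) = ((3 : ℕ) : ℤ) := by omega
  all_goals rw [h]
  · simp
  · simp
  · rw [zpow_natCast, J_sq]; simp
  · rw [zpow_natCast, pow_succ, J_sq, neg_one_mul]; simp

theorem normalizer_J (ho : Fintype.card F % 2 = 1) :
    Subgroup.normalizer (Subgroup.zpowers (J : L) : Set L) = normJ := by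
  ext g
  rw [mem_normJ ho, ← comm_iff g ho, mem_anti_iff g ho, Subgroup.mem_normalizer_iff_map_conj_eq, MonoidHom.map_zpowers]
  show Subgroup.zpowers (g * J * g⁻¹) = Subgroup.zpowers J ↔ _
  rw [← mul_inv_eq_iff_eq_mul, ← neg_mul, ← mul_inv_eq_iff_eq_mul]
  constructor
  · intro h
    have hJ1 : ∀ e : L, (e = 1 ∨ e = -1) → g * J * g⁻¹ ≠ e := by
      intro e he h'
      have : (J : L) = g⁻¹ * e * g := by rw [← h']; group
      rcases he with rfl | rfl
      · rw [mul_one, inv_mul_cancel] at this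
        have := congrArg (fun x : L => x.1 1 0) this
        simp at this
      · rw [mul_neg, mul_one, neg_mul, inv_mul_cancel] at this
        have := congrArg (fun x : L => x.1 1 0) this
        simp at this
    rcases mem_zpowers_J (h ▸ Subgroup.mem_zpowers (g * J * g⁻¹)) with h' | h' | h' | h'
    · exact absurd h' (hJ1 1 (Or.inl rfl))
    · exact absurd h' (hJ1 (-1) (Or.inr rfl))
    · exact Or.inl h'
    · exact Or.inr h'
  · rintro (h | h) <;> rw [h]
    have : (-J : L) = (J : L)⁻¹ := by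
      refine eq_inv_of_mul_eq_one_left ?_
      rw [neg_mul, ← sq, J_sq, neg_neg]
    rw [this, Subgroup.zpowers_inv]

/-- In SL_2(q), q odd: any two subgroups of order 4 are conjugate, and the normaliser of a subgroup of order 4 has order 2(q − 1) if q ≡ 1 (mod 4) and 2(q + 1) if q ≡ 3 (mod 4); consequently all involutions of PSL_2(q) are conjugate. -/
theorem result {F : Type*} [Field F] [Fintype F] {q : ℕ} (hF : Fintype.card F = q) (hodd : Odd q) (A : Subgroup (Matrix.SpecialLinearGroup (Fin 2) F)) (hA : Nat.card A = 4) : (∀ B : Subgroup (Matrix.SpecialLinearGroup (Fin 2) F), Nat.card B = 4 → ∃ g : Matrix.SpecialLinearGroup (Fin 2) F, B = A.map (MulAut.conj g).toMonoidHom) ∧ (q % 4 = 1 → Nat.card ↥(Subgroup.normalizer (A : Set (Matrix.SpecialLinearGroup (Fin 2) F))) = 2 * (q - 1)) ∧ (q % 4 = 3 → Nat.card ↥(Subgroup.normalizer (A : Set (Matrix.SpecialLinearGroup (Fin 2) F))) = 2 * (q + 1)) ∧ (∀ x y : Matrix.ProjectiveSpecialLinearGroup (Fin 2) F, orderOf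 x = 2 → orderOf y = 2 → IsConj x y) := by
  have ho : Fintype.card F % 2 = 1 := by obtain ⟨k, hk⟩ := hodd; omega
  obtain ⟨g, hg, rfl⟩ := gen_of_card_four ho hA
  obtain ⟨P, hP⟩ := isConj_iff.1 (isConj_of_sq_eq_neg_one ho hg (J_sq (F := F)))
  have hcard : Nat.card ↥(Subgroup.normalizer (Subgroup.zpowers g : Set (Matrix.SpecialLinearGroup (Fin 2) F))) =
      2 * Nat.card (rot F) := by
    rw [← card_normJ ho, ← normalizer_J ho]
    have e : (Subgroup.normalizer (Subgroup.zpowers g : Set (Matrix.SpecialLinearGroup (Fin 2) F))).map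
        (MulAut.conj P).toMonoidHom = Subgroup.normalizer (Subgroup.zpowers (J : Matrix.SpecialLinearGroup (Fin 2) F) :
          Set (Matrix.SpecialLinearGroup (Fin 2) F)) := by
      rw [Subgroup.map_equiv_normalizer_eq, MonoidHom.map_zpowers]
      simp [hP]
    rw [← e]
    exact (Subgroup.card_map_of_injective (MulAut.conj P).injective).symm
  refine ⟨fun B hB => ?_, fun h => ?_, fun h => ?_, isConj_involutions ho⟩
  · obtain ⟨b, hb, rfl⟩ := gen_of_card_four ho hB
    obtain ⟨Q, hQ⟩ := isConj_iff.1 (isConj_of_sq_eq_neg_one ho hg hb)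
    exact ⟨Q, by rw [MonoidHom.map_zpowers]; simp [hQ]⟩
  · rw [hcard, (card_rot' ho).1 (by omega), hF]
  · rw [hcard, (card_rot' ho).2 (by omega), hF]

end Cfsg.Agent.S0809
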