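import Cfsg.Statements.S0810
import Mathlib
import Cfsg.Agent.Lib.SL2.MaxField
import Cfsg.Agent.Lib.SL2.Small
import Cfsg.Agent.Lib.SmallSimple
import Cfsg.Agent.Lib.GroupB.Small
import Cfsg.Agent.S0144
import Cfsg.Agent.S0493

set_option autoImplicit false
open Cfsg

namespace Cfsg.Agent.S0810

open CfsgLib.SL2Dickson CfsgLib.SL2Torus

theorem not_comm {F : Type*} [Field F] [Fintype F] (h4 : 4 ≤ Fintype.card F) :
    ¬ IsMulCommutative (Matrix.ProjectiveSpecialLinearGroup (Fin 2) F) := by
  haveI := psl_simple h4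
  refine CfsgLib.SmallSimple.not_isMulCommutative_of_card fun hp => ?_
  obtain ⟨T, hT, -⟩ := exists_torus_plus F
  have hne := torus_normalizer_ne_top h4 hT
  have h := Subgroup.card_subgroup_dvd_card (Subgroup.normalizer (T : Set (Matrix.ProjectiveSpecialLinearGroup (Fin 2) F)))
  have h2 := two_le_card_torus h4 hT
  rw [torus_normalizer_card hT] at h
  rcases (Nat.dvd_prime hp).1 h with e | e
  · omega
  · exact hne (Subgroup.eq_top_of_card_eq _ (by rw [torus_normalizer_card hT, e]))

theorem subfield_not_solvable {F : Type*} [Field F] [Fintype F] {K : Subfield F} (hK : 4 ≤ Nat.card K) :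
    ¬ Group.IsSolvable (pslSub K) := by
  intro h
  obtain ⟨e⟩ := pslSub_equiv (RingEquiv.refl K)
  haveI : Fintype K := Fintype.ofFinite _
  have h4 : 4 ≤ Fintype.card K := by rwa [← Nat.card_eq_fintype_card]
  haveI := psl_simple h4
  exact CfsgLib.SmallSimple.not_solvable (not_comm h4) (Group.isSolvable_of_surjective (f := e.toMonoidHom) e.surjective)

theorem A5_not_solvable : ¬ Group.IsSolvable (alternatingGroup (Fin 5)) := by
  intro h
  refine Equiv.Perm.not_isSolvable_fin_5 ?_
  exact Group.isSolvable_of_ker_le_range (alternatingGroup (Fin 5)).subtype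
    (Equiv.Perm.sign : Equiv.Perm (Fin 5) →* ℤˣ) (by rw [Subgroup.range_subtype]; exact le_of_eq rfl)

theorem solvable_two_primes {G : Type*} [Group G] [Finite G] {a b : ℕ} (h : Nat.card G = 2 ^ a * 3 ^ b) :
    Group.IsSolvable G :=
  Cfsg.Agent.S0144.result 2 3 a b Nat.prime_two Nat.prime_three h

theorem solvable_of_le {G : Type*} [Group G] {A B : Subgroup G} (h : A ≤ B) [Group.IsSolvable B] :
    Group.IsSolvable A := Group.isSolvable_of_isSolvable_injective (Subgroup.inclusion_injective h)

theorem bor_solvable {F : Type*} [Field F] [Fintype F] : Group.IsSolvable (Bor F) := by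
  haveI : Group.IsSolvable (U F) :=
    Group.isSolvable_of_comm fun a b => Subtype.ext (U_comm a.2 b.2)
  exact Group.isSolvable_of_ker_le_range (Subgroup.inclusion (U_le_Bor F)) (δ (F := F))
    fun x hx => ⟨⟨x, δ_eq_one.1 hx⟩, rfl⟩

theorem torus_normalizer_solvable {F : Type*} [Field F] [Fintype F]
    {T : Subgroup (Matrix.ProjectiveSpecialLinearGroup (Fin 2) F)} (hT : IsTorus T) :
    Group.IsSolvable (Subgroup.normalizer (T : Set (Matrix.ProjectiveSpecialLinearGroup (Fin 2) F))) := by
  haveI : Group.IsSolvable T := Group.isSolvable_of_comm fun a b => Subtype.ext (torus_comm hT a.2 b.2)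
  set N := Subgroup.normalizer (T : Set (Matrix.ProjectiveSpecialLinearGroup (Fin 2) F)) with hN
  haveI : (T.subgroupOf N).Normal := Subgroup.normal_subgroupOf_of_le_normalizer le_rfl
  have hq : Nat.card (N ⧸ T.subgroupOf N) = 2 := by
    rw [← Subgroup.index_eq_card]
    have := Subgroup.card_mul_index (T.subgroupOf N)
    rw [Nat.card_congr (Subgroup.subgroupOfEquivOfLe Subgroup.le_normalizer).toEquiv, torus_normalizer_card hT] at this
    exact Nat.eq_of_mul_eq_mul_left Nat.card_pos (this.trans (mul_comm _ _))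
  haveI : Group.IsSolvable (N ⧸ T.subgroupOf N) := solvable_two_primes (a := 1) (b := 0) (by rw [hq]; norm_num)
  have eT : T.subgroupOf N ≃* T := Subgroup.subgroupOfEquivOfLe Subgroup.le_normalizer
  haveI : Group.IsSolvable (T.subgroupOf N) :=
    Group.isSolvable_of_surjective (f := eT.symm.toMonoidHom) eT.symm.surjective
  exact (Group.isSolvable_iff_subgroup_quotient (T.subgroupOf N)).2 ⟨inferInstance, inferInstance⟩

theorem all_solvable {F : Type*} [Field F] [Fintype F] (h4 : 4 ≤ Fintype.card F)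
    (h5 : ∀ M : Subgroup (Matrix.ProjectiveSpecialLinearGroup (Fin 2) F), IsCoatom M → ¬ A5Case M)
    (hK : ∀ (K : Subfield F) (m : ℕ), K ≠ ⊤ → Nat.card K ^ m = Fintype.card F →
      (m = 2 → Fintype.card F % 2 = 1 → False) ∧ (m.Prime → Nat.card K ≤ 3)) :
    Cfsg.IsMinimalSimple (Matrix.ProjectiveSpecialLinearGroup (Fin 2) F) := by
  refine ⟨psl_simple h4, not_comm h4, fun H hH => ?_⟩
  obtain ⟨M, hM, hle⟩ := exists_coatom_ge hH
  suffices Group.IsSolvable M from solvable_of_le hle
  rcases dickson M with h | h | h | h | h | h | h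
  · exact absurd h (not_cyc h4 hM)
  · obtain ⟨T, hT, rfl⟩ := dih_max h4 hM h
    exact torus_normalizer_solvable hT
  · obtain ⟨⟨e⟩, -⟩ := h
    haveI := CfsgLib.GroupB.Small.isSolvable_alternatingGroup_four
    exact Group.isSolvable_of_surjective (f := e.symm.toMonoidHom) e.symm.surjective
  · obtain ⟨⟨e⟩, -⟩ := h
    haveI := CfsgLib.GroupB.Small.isSolvable_perm_four
    exact Group.isSolvable_of_surjective (f := e.symm.toMonoidHom) e.symm.surjective
  · exact absurd h (h5 M hM)
  · obtain ⟨z, hz, -⟩ := h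
    haveI := bor_solvable (F := F)
    haveI : Group.IsSolvable ((Bor F).map (MulAut.conj z).toMonoidHom) :=
      Group.isSolvable_of_surjective (f := ((Bor F).equivMapOfInjective _ (MulAut.conj z).injective).toMonoidHom)
        (MulEquiv.surjective _)
    exact solvable_of_le hz
  · obtain ⟨θ, K, m, hK', hm, ⟨ho, rfl, -, -⟩ | ⟨hmp, -, hθ⟩⟩ := field_max hM h
    · exact ((hK K 2 hK' hm).1 rfl ho).elim
    · have hr := (hK K m hK' hm).2 hmp
      have hc := card_pslSub K
      rw [show Nat.card (pslSub K) = Nat.card M by rw [← hθ, Subgroup.card_map_of_injective θ.injective]] at hc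
      have := subfield_two_le K
      rcases (show Nat.card K = 2 ∨ Nat.card K = 3 by omega) with e | e <;> rw [e] at hc
      · rw [show Nat.gcd 2 (2 - 1) = 1 by decide, show 2 * (2 ^ 2 - 1) = 6 by decide] at hc
        exact solvable_two_primes (a := 1) (b := 1) (by omega)
      · rw [show Nat.gcd 2 (3 - 1) = 2 by decide, show 3 * (3 ^ 2 - 1) = 24 by decide] at hc
        exact solvable_two_primes (a := 2) (b := 1) (by omega)

/-- PSL_2(q) is minimal simple iff q is 2^r (r prime), 3^r (r an odd prime), a prime greater than 5 congruent to 2 or 3 mod 5, or 5. -/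
theorem result {F : Type*} [Field F] [Fintype F] {q : ℕ} (hF : Fintype.card F = q) : Cfsg.IsMinimalSimple (Matrix.ProjectiveSpecialLinearGroup (Fin 2) F) ↔ ((∃ r : ℕ, r.Prime ∧ q = 2 ^ r) ∨ (∃ r : ℕ, r.Prime ∧ r ≠ 2 ∧ q = 3 ^ r) ∨ (q.Prime ∧ 5 < q ∧ (q % 5 = 2 ∨ q % 5 = 3)) ∨ q = 5) := by
  subst hF
  have h1 := Fintype.one_lt_card (α := F)
  haveI := ringChar.charP F
  obtain ⟨n, hp, hq⟩ := FiniteField.card F (ringChar F)
  constructor
  · intro h
    obtain ⟨hs, hnc, hsol⟩ := h
    haveI := hs
    have h4 : 4 ≤ Fintype.card F := by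
      by_contra hlt
      have hg := gcd_mul_card F
      have hle : Nat.card (Matrix.ProjectiveSpecialLinearGroup (Fin 2) F) ≤ 24 := by
        have hd : 1 ≤ Nat.gcd 2 (Fintype.card F - 1) := Nat.gcd_pos_of_pos_left _ two_pos
        have h9 : Fintype.card F ^ 2 ≤ 9 := Nat.pow_le_pow_left (show Fintype.card F ≤ 3 by omega) 2
        have := Nat.mul_le_mul (show Fintype.card F ≤ 3 by omega) (show Fintype.card F ^ 2 - 1 ≤ 8 by omega)
        have := Nat.le_mul_of_pos_left (Nat.card (Matrix.ProjectiveSpecialLinearGroup (Fin 2) F)) hd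
        omega
      have := Cfsg.Agent.S0493.result (G := Matrix.ProjectiveSpecialLinearGroup (Fin 2) F)
        (fun hc => hnc ⟨⟨fun a b => by obtain ⟨g, hg⟩ := hc.exists_generator; obtain ⟨i, rfl⟩ := hg a; obtain ⟨j, rfl⟩ := hg b; exact (Commute.refl g).zpow_zpow i j⟩⟩) (by omega)
      omega
    have noA5 : ¬ (5 ∣ Fintype.card F * (Fintype.card F ^ 2 - 1) ∧ 7 ≤ Fintype.card F) := by
      rintro ⟨h5, h7⟩
      obtain ⟨H, ⟨e⟩⟩ := (Cfsg.Agent.S0804.result rfl).2 h5
      have hH : H ≠ ⊤ := by
        intro he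
        have hc : Nat.card H = 60 := by rw [Nat.card_congr e.toEquiv, nat_card_alternatingGroup, Nat.card_fin]; rfl
        rw [he, Subgroup.card_top] at hc
        have hg := gcd_mul_card F
        rw [hc] at hg
        have h49 : 49 ≤ Fintype.card F ^ 2 := Nat.pow_le_pow_left h7 2
        have := Nat.mul_le_mul h7 (show 48 ≤ Fintype.card F ^ 2 - 1 by omega)
        have := Nat.le_of_dvd two_pos (Nat.gcd_dvd_left 2 (Fintype.card F - 1))
        have := Nat.mul_le_mul_right 60 this
        omega
      haveI := hsol H hH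
      exact A5_not_solvable (Group.isSolvable_of_surjective (f := e.toMonoidHom) e.surjective)
    have noK : ∀ a : ℕ, a ∣ (n : ℕ) → a < n → 4 ≤ ringChar F ^ a → False := by
      intro a ⟨b, hb⟩ hlt h4'
      obtain ⟨K, hK⟩ := exists_subfield (F := F) (q₀ := ringChar F ^ a) (m := b) (by omega) (by rw [← pow_mul, ← hb, hq])
      refine subfield_not_solvable (K := K) (by omega) (hsol _ (pslSub_ne_top ?_))
      rintro rfl
      rw [Nat.card_congr Subfield.topEquiv.toEquiv, Nat.card_eq_fintype_card, hq] at hK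
      exact hlt.ne' (Nat.pow_right_injective hp.two_le hK)
    rcases (show (n : ℕ) = 1 ∨ 2 ≤ (n : ℕ) by have := n.pos; omega) with hn | hn
    · rw [hn, pow_one] at hq
      rw [← hq] at hp
      rcases (show Fintype.card F = 5 ∨ Fintype.card F ≠ 5 by omega) with e | e
      · exact Or.inr (Or.inr (Or.inr e))
      refine Or.inr (Or.inr (Or.inl ⟨hp, ?_, ?_⟩))
      · by_contra hlt
        rw [show Fintype.card F = 4 by omega] at hp
        norm_num at hp
      · by_contra hmod
        have h6 : Fintype.card F ≠ 6 := fun e => by rw [e] at hp; norm_num at hp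
        have h44 : Fintype.card F ≠ 4 := fun e => by rw [e] at hp; norm_num at hp
        have h5 : Fintype.card F % 5 ≠ 0 := fun h0 => e
          ((Nat.prime_dvd_prime_iff_eq (by norm_num) hp).1 (Nat.dvd_of_mod_eq_zero h0)).symm
        refine noA5 ⟨dvd_mul_of_dvd_right ?_ _, by omega⟩
        have : Fintype.card F ^ 2 % 5 = 1 := by
          rw [Nat.pow_mod]
          rcases (show Fintype.card F % 5 = 1 ∨ Fintype.card F % 5 = 4 by omega) with h | h <;> rw [h]
        omega
    · have hp3 : ringChar F = 2 ∨ ringChar F = 3 := by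
        by_contra hne
        have := hp.two_le
        exact noK 1 (one_dvd _) (by omega) (by rw [pow_one]; omega)
      have hnp : (n : ℕ).Prime := by
        by_contra hnp
        obtain ⟨a, ha, ha2, han⟩ := Nat.exists_dvd_of_not_prime2 hn hnp
        refine noK a ha han (le_trans ?_ (Nat.pow_le_pow_right hp.pos ha2))
        exact Nat.pow_le_pow_left hp.two_le 2
      rcases hp3 with e | e
      · exact Or.inl ⟨n, hnp, by rw [hq, e]⟩
      · refine Or.inr (Or.inl ⟨n, hnp, fun h2 => ?_, by rw [hq, e]⟩)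
        rw [e, h2] at hq
        exact noA5 ⟨by rw [hq]; norm_num, by rw [hq]; norm_num⟩
  · intro h
    have primeF : (Fintype.card F).Prime → ∀ (K : Subfield F) (m : ℕ), K ≠ ⊤ → Nat.card K ^ m = Fintype.card F → False := by
      intro hpF K m hK hm
      rw [← hm] at hpF
      rw [Nat.Prime.eq_one_of_pow hpF, pow_one] at hm
      exact hK (subfield_eq_top hm)
    rcases h with ⟨r, hr, e⟩ | ⟨r, hr, hr2, e⟩ | ⟨hpF, h5, hmod⟩ | e
    · have he : Fintype.card F % 2 = 0 := by rw [e, Nat.pow_mod]; simp [hr.ne_zero]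
      refine all_solvable (by rw [e]; exact Nat.pow_le_pow_right two_pos hr.two_le)
        (fun M _ => (no_exceptional he).2.2) fun K m _ hm => ⟨fun _ h => by omega, fun hmp => ?_⟩
      obtain ⟨k, hk, hk'⟩ := (Nat.dvd_prime_pow Nat.prime_two).1 (e ▸ hm ▸ dvd_pow_self _ hmp.ne_zero)
      rw [hk', ← pow_mul, e] at hm
      have hkm := Nat.pow_right_injective le_rfl hm
      have := (Nat.prime_dvd_prime_iff_eq hmp hr).1 ⟨k, by rw [← hkm, mul_comm]⟩
      subst this
      rw [hk', show k = 1 from (Nat.mul_eq_right hmp.ne_zero).1 hkm]; norm_num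
    · have hodd : Odd r := hr.odd_of_ne_two hr2
      refine all_solvable (by rw [e]; exact le_trans (by norm_num) (Nat.pow_le_pow_right (by norm_num : 1 ≤ 3) hr.two_le))
        (fun M hM h5 => ?_) fun K m _ hm => ?_
      · have h10 := (A5_max (by rw [e, Nat.pow_mod]; simp) hM h5).1
        obtain ⟨j, hj⟩ := hodd
        rw [e, hj, pow_succ, pow_mul, Nat.mul_mod, Nat.pow_mod] at h10
        rcases Nat.even_or_odd j with ⟨i, hi⟩ | ⟨i, hi⟩ <;> rw [hi] at h10
        · rw [show i + i = 2 * i by ring, pow_mul] at h10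
          norm_num [Nat.pow_mod] at h10
        · rw [pow_succ, pow_mul] at h10
          norm_num [Nat.mul_mod, Nat.pow_mod] at h10
      · have hm0 : m ≠ 0 := by
          rintro rfl; rw [pow_zero] at hm; omega
        obtain ⟨k, hk, hk'⟩ := (Nat.dvd_prime_pow Nat.prime_three).1 (e ▸ hm ▸ dvd_pow_self _ hm0)
        rw [hk', ← pow_mul, e] at hm
        have hkm := Nat.pow_right_injective (by norm_num : 2 ≤ 3) hm
        refine ⟨fun h2 _ => ?_, fun hmp => ?_⟩
        · subst h2
          exact hr2 ((Nat.prime_dvd_prime_iff_eq Nat.prime_two hr).1 ⟨k, by rw [← hkm, mul_comm]⟩).symm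
        · have := (Nat.prime_dvd_prime_iff_eq hmp hr).1 ⟨k, by rw [← hkm, mul_comm]⟩
          subst this
          rw [hk', show k = 1 from (Nat.mul_eq_right hmp.ne_zero).1 hkm]; norm_num
    · exact all_solvable (by omega) (fun M hM h' => by
          have := (A5_max (hpF.eq_two_or_odd.resolve_left (by omega)) hM h').1; omega)
        fun K m hK hm => (primeF hpF K m hK hm).elim
    · exact all_solvable (by omega) (fun M hM h' => by
          have := (A5_max (by omega) hM h').1; omega)
        fun K m hK hm => (primeF (by rw [e]; norm_num) K m hK hm).elim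

end Cfsg.Agent.S0810
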