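import Cfsg.Statements.S0811
import Mathlib
import Cfsg.Agent.Lib.SL2.MaxTorus

set_option autoImplicit false
open Cfsg

namespace Cfsg.Agent.S0811

open CfsgLib.SL2Dickson CfsgLib.SL2Torus

/-- For q ∉ {2, 7, 9}, PSL_2(q) has a maximal subgroup isomorphic to the dihedral group of order 2(q + 1)/d, d = gcd(2, q − 1). -/
theorem result {F : Type*} [Field F] [Fintype F] {q : ℕ} (hF : Fintype.card F = q) (hq : q ∉ ({2, 7, 9} : Finset ℕ)) : ∃ H : Subgroup (Matrix.ProjectiveSpecialLinearGroup (Fin 2) F), IsCoatom H ∧ Nonempty (H ≃* DihedralGroup ((q + 1) / Nat.gcd 2 (q - 1))) := by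
  subst hF
  simp only [Finset.mem_insert, Finset.mem_singleton, not_or] at hq
  obtain ⟨h2, h7, h9⟩ := hq
  obtain ⟨T, hT, hc⟩ := exists_torus_plus F
  have hd : 0 < Nat.gcd 2 (Fintype.card F - 1) := Nat.gcd_pos_of_pos_left _ two_pos
  have hn : (Fintype.card F + 1) / Nat.gcd 2 (Fintype.card F - 1) = Nat.card T := by
    rw [← hc, Nat.mul_div_cancel_left _ hd]
  rw [hn]
  have h1 := Fintype.one_lt_card (α := F)
  refine ⟨Subgroup.normalizer (T : Set (Matrix.ProjectiveSpecialLinearGroup (Fin 2) F)), ?_⟩
  by_cases h3 : Fintype.card F = 3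
  · rw [h3] at hc
    norm_num at hc
    have hT2 : Nat.card T = 2 := by omega
    refine ⟨?_, dihedral_of_torus hT le_rfl (by omega) (torus_normalizer_card hT)
      (Nat.card_congr (Subgroup.subgroupOfEquivOfLe Subgroup.le_normalizer).toEquiv)⟩
    have hG := gcd_mul_card F
    rw [h3] at hG
    norm_num at hG
    have hG12 : Nat.card (Matrix.ProjectiveSpecialLinearGroup (Fin 2) F) = 12 := by
      omega
    have hN : Nat.card (Subgroup.normalizer (T : Set (Matrix.ProjectiveSpecialLinearGroup (Fin 2) F))) = 4 := by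
      rw [torus_normalizer_card hT, hT2]
    refine ⟨fun e => ?_, fun Y hY => ?_⟩
    · rw [e, Subgroup.card_top, hG12] at hN
      omega
    · have hd1 := Subgroup.card_dvd_of_le hY.le
      have hd2 := Y.card_subgroup_dvd_card
      rw [hG12] at hd2
      rw [hN] at hd1
      have hlt : 4 < Nat.card Y := by
        by_contra hle
        exact hY.ne (Subgroup.eq_of_le_of_card_ge hY.le (by rw [hN]; omega))
      apply Subgroup.eq_top_of_card_eq
      rw [hG12]
      have := Nat.le_of_dvd (by norm_num) hd2
      interval_cases hh : Nat.card Y <;> omega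
  have h4 : 4 ≤ Fintype.card F := by omega
  refine ⟨?_, torus_normalizer_dihedral h4 hT⟩
  rcases Nat.mod_two_eq_zero_or_one (Fintype.card F) with he | ho
  · rw [gcd_even he, one_mul] at hc
    refine isCoatom_torus_normalizer h4 hT (by omega) (fun h => by omega) (fun h => by omega) fun r hr hrq _ hle => ?_
    have := Nat.mul_le_mul_right r hr
    rw [sq] at hrq
    omega
  · rw [gcd_odd ho] at hc
    refine isCoatom_torus_normalizer h4 hT (by omega) (fun _ h => by omega) (fun _ h => by omega) fun r hr hrq hp hle => ?_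
    have := Nat.mul_le_mul_right r (show 3 ≤ r by omega)
    rw [sq] at hrq
    omega

end Cfsg.Agent.S0811
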