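import Cfsg.Statements.S0812
import Mathlib
import Cfsg.Agent.Lib.SL2.MaxTorus

set_option autoImplicit false
open Cfsg

namespace Cfsg.Agent.S0812

open CfsgLib.SL2Dickson CfsgLib.SL2Torus

/-- For q ∉ {2, 3, 5, 7, 9, 11}, PSL_2(q) has a maximal subgroup isomorphic to the dihedral group of order 2(q − 1)/d, d = gcd(2, q − 1). -/
theorem result {F : Type*} [Field F] [Fintype F] {q : ℕ} (hF : Fintype.card F = q) (hq : q ∉ ({2, 3, 5, 7, 9, 11} : Finset ℕ)) : ∃ H : Subgroup (Matrix.ProjectiveSpecialLinearGroup (Fin 2) F), IsCoatom H ∧ Nonempty (H ≃* DihedralGroup ((q - 1) / Nat.gcd 2 (q - 1))) := by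
  subst hF
  simp only [Finset.mem_insert, Finset.mem_singleton, not_or] at hq
  obtain ⟨h2, h3, h5, h7, h9, h11⟩ := hq
  have h1 := Fintype.one_lt_card (α := F)
  have h4 : 4 ≤ Fintype.card F := by omega
  obtain ⟨T, hT, hc⟩ := exists_torus_minus h4
  have hd : 0 < Nat.gcd 2 (Fintype.card F - 1) := Nat.gcd_pos_of_pos_left _ two_pos
  have hn : (Fintype.card F - 1) / Nat.gcd 2 (Fintype.card F - 1) = Nat.card T := by
    exact Nat.div_eq_of_eq_mul_right hd hc.symm
  rw [hn]
  refine ⟨Subgroup.normalizer (T : Set (Matrix.ProjectiveSpecialLinearGroup (Fin 2) F)), ?_, torus_normalizer_dihedral h4 hT⟩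
  rcases Nat.mod_two_eq_zero_or_one (Fintype.card F) with he | ho
  · rw [gcd_even he, one_mul] at hc
    refine isCoatom_torus_normalizer h4 hT (by omega) (fun h => by omega) (fun h => by omega) fun r hr hrq hpar hle => ?_
    rw [sq] at hrq
    rcases (show r = 2 ∨ 3 ≤ r by omega) with rfl | h
    · omega
    · have := Nat.mul_le_mul_right r h
      omega
  · rw [gcd_odd ho] at hc
    refine isCoatom_torus_normalizer h4 hT (by omega) (fun _ h => by omega) (fun _ h => by omega) fun r hr hrq hp hle => ?_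
    rw [sq] at hrq
    rcases (show r = 3 ∨ 4 ≤ r by omega) with rfl | h
    · omega
    · have := Nat.mul_le_mul_right r h
      omega

end Cfsg.Agent.S0812
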