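import Cfsg.Statements.S0819


set_option autoImplicit false
open Cfsg

namespace Cfsg.Agent.S0819

open scoped Matrix

/-- No element of PSL_3(4) has order 15. -/
theorem result {F : Type*} [Field F] [Fintype F] (hF : Fintype.card F = 4) (g : Matrix.ProjectiveSpecialLinearGroup (Fin 3) F) : orderOf g ≠ 15 := by
  classical
  haveI : CharP F 2 := by
    obtain ⟨p, hp⟩ := CharP.exists F
    obtain ⟨k, hpr, hk⟩ := FiniteField.card F p
    have hdvd : p ∣ 2 ^ 2 := by rw [show (2 : ℕ) ^ 2 = 4 from rfl, ← hF, hk]; exact dvd_pow_self p k.ne_zero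
    rwa [← (Nat.prime_dvd_prime_iff_eq hpr Nat.prime_two).1 (hpr.dvd_of_dvd_pow hdvd)]
  intro h15
  obtain ⟨s, rfl⟩ := QuotientGroup.mk'_surjective (Subgroup.center (Matrix.SpecialLinearGroup (Fin 3) F)) g
  have hcen : ∀ k : ℕ, s ^ k ∈ Subgroup.center (Matrix.SpecialLinearGroup (Fin 3) F) ↔ 15 ∣ k := by
    intro k
    rw [← h15, orderOf_dvd_iff_pow_eq_one, ← map_pow, QuotientGroup.mk'_apply, QuotientGroup.eq_one_iff]
  obtain ⟨κ, hκ3, hκ⟩ := Matrix.SpecialLinearGroup.mem_center_iff.1 ((hcen 15).2 dvd_rfl)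
  rw [Fintype.card_fin] at hκ3
  have h45 : s ^ 45 = 1 := Subtype.ext (by
    rw [show 45 = 15 * 3 from rfl, pow_mul, Matrix.SpecialLinearGroup.coe_pow, ← hκ, ← map_pow, hκ3, map_one]
    rfl)
  set a := (s ^ 9).1 with ha
  set b := (s ^ 5).1 with hb
  have hab : a * b = b * a := by
    rw [ha, hb, ← Matrix.SpecialLinearGroup.coe_mul, ← Matrix.SpecialLinearGroup.coe_mul, ← pow_add, ← pow_add, add_comm]
  have ha5 : a * a * a * a * a = 1 := by
    simp only [ha, ← Matrix.SpecialLinearGroup.coe_mul, ← pow_add]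
    rw [show 9 + 9 + 9 + 9 + 9 = 45 from rfl, h45]
    rfl
  have hb3 : b * b * b = κ • 1 := by
    simp only [hb, ← Matrix.SpecialLinearGroup.coe_mul, ← pow_add]
    rw [show 5 + 5 + 5 = 15 from rfl, ← hκ, Matrix.scalar_apply, ← Matrix.smul_one_eq_diagonal]
  have ha1 : a ≠ 1 := fun h => by
    have : s ^ 9 = 1 := Subtype.ext h
    exact absurd ((hcen 9).1 (by rw [this]; exact one_mem _)) (by decide)
  have hbs : ∀ μ : F, b ≠ μ • 1 := fun μ h => by
    refine absurd ((hcen 5).1 (Matrix.SpecialLinearGroup.mem_center_iff.2 ⟨μ, ?_, ?_⟩)) (by decide)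
    · have := (s ^ 5).2
      rw [← hb, h, Matrix.det_smul, Matrix.det_one, mul_one] at this
      exact this
    · rw [Matrix.scalar_apply, ← Matrix.smul_one_eq_diagonal, ← h]
  have hdb : b.det = 1 := (s ^ 5).2
  set A := Matrix.toLin' a with hA
  set B := Matrix.toLin' b with hB
  have hAB : ∀ v, A (B v) = B (A v) := fun v => by
    simp only [hA, hB, Matrix.toLin'_apply, Matrix.mulVec_mulVec, hab]
  have hA5 : ∀ v, A (A (A (A (A v)))) = v := fun v => by
    simp only [hA, Matrix.toLin'_apply, Matrix.mulVec_mulVec]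
    rw [show a * (a * (a * (a * a))) = a * a * a * a * a by simp only [mul_assoc], ha5, Matrix.one_mulVec]
  have h5 : ∀ v : Fin 3 → F, v + v + v + v + v = v := fun v => by
    funext i
    simp only [Pi.add_apply]
    linear_combination (2 * v i) * (CharTwo.two_eq_zero (R := F))
  let V1 : Submodule F (Fin 3 → F) := LinearMap.ker (A - LinearMap.id)
  let V2 : Submodule F (Fin 3 → F) :=
    LinearMap.ker (A ∘ₗ A ∘ₗ A ∘ₗ A + A ∘ₗ A ∘ₗ A + A ∘ₗ A + A + LinearMap.id)
  have hm1 : ∀ v, v ∈ V1 ↔ A v = v := fun v => by simp [V1, sub_eq_zero]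
  have hm2 : ∀ v, v ∈ V2 ↔ A (A (A (A v))) + A (A (A v)) + A (A v) + A v + v = 0 := fun v => by simp [V2]
  have hdisj : V1 ⊓ V2 = ⊥ := by
    rw [Submodule.eq_bot_iff]
    rintro v ⟨h1, h2⟩
    rw [SetLike.mem_coe, hm1] at h1
    rw [SetLike.mem_coe, hm2] at h2
    simpa [h1, h5] using h2
  have hsup : V1 ⊔ V2 = ⊤ := by
    rw [eq_top_iff]
    intro v _
    refine Submodule.mem_sup.2 ⟨A (A (A (A v))) + A (A (A v)) + A (A v) + A v + v, (hm1 _).2 ?_,
      v - (A (A (A (A v))) + A (A (A v)) + A (A v) + A v + v), (hm2 _).2 ?_, add_sub_cancel _ _⟩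
    · simp only [map_add, hA5]; abel
    · simp only [map_sub, map_add, hA5]
      have := h5 (A (A (A (A v))) + A (A (A v)) + A (A v) + A v + v)
      rw [← sub_eq_zero] at this
      linear_combination (norm := abel) -this
  have hnoeig : ∀ (v : Fin 3 → F) (l : F), v ∈ V2 → A v = l • v → v = 0 := by
    intro v l hv hl
    by_contra hv0
    have hl5 : l ^ 5 = 1 := by
      have h := hA5 v
      simp only [hl, map_smul, smul_smul] at h
      have h' : (l ^ 5 - 1) • v = 0 := by rw [sub_smul, one_smul, sub_eq_zero, show l ^ 5 = l * l * l * l * l by ring, h]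
      exact sub_eq_zero.1 ((smul_eq_zero.1 h').resolve_right hv0)
    have hl0 : l ≠ 0 := by rintro rfl; simp at hl5
    have hl3 : l ^ 3 = 1 := by
      have := FiniteField.pow_card_sub_one_eq_one l hl0
      rwa [hF] at this
    have hl1 : l = 1 := by
      have : l ^ 6 = 1 := by rw [show 6 = 3 * 2 from rfl, pow_mul, hl3, one_pow]
      rwa [show 6 = 5 + 1 from rfl, pow_succ, hl5, one_mul] at this
    rw [hl1, one_smul] at hl
    have : v ∈ V1 ⊓ V2 := ⟨(hm1 v).2 hl, hv⟩
    rw [hdisj] at this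
    exact hv0 ((Submodule.mem_bot F).1 this)
  have hdim := Submodule.finrank_sup_add_finrank_inf_eq V1 V2
  rw [hsup, hdisj, finrank_top, finrank_bot, Module.finrank_fintype_fun_eq_card, Fintype.card_fin] at hdim
  have hd2ne : Module.finrank F V2 ≠ 1 := by
    intro h
    obtain ⟨⟨v, hv⟩, hv0, hsp⟩ := finrank_eq_one_iff'.1 h
    have hAv : A v ∈ V2 := by
      rw [hm2] at hv ⊢
      have := congrArg A hv
      simpa only [map_add, map_zero] using this
    obtain ⟨l, hl⟩ := hsp ⟨A v, hAv⟩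
    exact hv0 (Subtype.ext (hnoeig v l hv (congrArg Subtype.val hl).symm))
  have hd2 : Module.finrank F V2 ≠ 0 := by
    intro h
    rw [Submodule.finrank_eq_zero] at h
    refine ha1 (Matrix.toLin'.injective (LinearMap.ext fun v => ?_))
    have hv : v ∈ V1 := by rw [← sup_bot_eq V1, ← h, hsup]; trivial
    rw [Matrix.toLin'_one, LinearMap.id_apply]
    exact (hm1 v).1 hv
  have hd1 : Module.finrank F V1 ≠ 0 := by
    intro h
    rw [Submodule.finrank_eq_zero] at h
    have horder : orderOf (s ^ 9) ∣ 5 := orderOf_dvd_of_pow_eq_one (by rw [← pow_mul, h45])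
    haveI : Fact (Nat.Prime 5) := ⟨by norm_num⟩
    have hP : IsPGroup 5 (Subgroup.zpowers (s ^ 9)) := by
      obtain ⟨j, -, hj⟩ := (Nat.dvd_prime_pow (show Nat.Prime 5 by norm_num) (m := 1)).1 (by simpa using horder)
      exact IsPGroup.of_card (n := j) (by rw [Nat.card_zpowers, hj])
    have hmod := hP.card_modEq_card_fixedPoints (Fin 3 → F)
    have hfix : MulAction.fixedPoints (Subgroup.zpowers (s ^ 9)) (Fin 3 → F) = {0} := by
      ext v
      rw [MulAction.mem_fixedPoints, Set.mem_singleton_iff]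
      refine ⟨fun hv => ?_, fun hv x => by rw [hv]; exact smul_zero (x : Matrix.SpecialLinearGroup (Fin 3) F)⟩
      have h1 : v ∈ V1 := (hm1 v).2 (hv ⟨s ^ 9, Subgroup.mem_zpowers _⟩)
      rwa [h, Submodule.mem_bot] at h1
    rw [hfix, Nat.card_pi, Finset.prod_const, Finset.card_univ, Fintype.card_fin, Nat.card_eq_fintype_card, hF,
      Nat.card_eq_fintype_card, Set.card_singleton] at hmod
    exact absurd hmod (by decide)
  obtain ⟨⟨v₀, hv₀⟩, hv₀0, hsp⟩ := finrank_eq_one_iff'.1 (show Module.finrank F V1 = 1 by omega)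
  have hv₀0' : v₀ ≠ 0 := fun h => hv₀0 (Subtype.ext h)
  have hBV1 : B v₀ ∈ V1 := (hm1 _).2 (by rw [hAB, (hm1 v₀).1 hv₀])
  obtain ⟨l, hl⟩ := hsp ⟨B v₀, hBV1⟩
  have hlB : B v₀ = l • v₀ := (congrArg Subtype.val hl).symm
  have hB3 : ∀ v, B (B (B v)) = κ • v := fun v => by
    simp only [hB, Matrix.toLin'_apply, Matrix.mulVec_mulVec]
    rw [← mul_assoc, hb3, Matrix.smul_mulVec, Matrix.one_mulVec]
  have hl3 : l ^ 3 = κ := by
    have h := hB3 v₀
    simp only [hlB, map_smul, smul_smul] at h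
    have h' : (l * l * l - κ) • v₀ = 0 := by rw [sub_smul, h, sub_self]
    rw [← sub_eq_zero.1 ((smul_eq_zero.1 h').resolve_right hv₀0')]
    ring
  have hκ1 : κ = 1 := by
    have hκ0 : κ ≠ 0 := by rintro rfl; simp at hκ3
    have hl0 : l ≠ 0 := by rintro rfl; exact hκ0 (by rw [← hl3]; simp)
    have := FiniteField.pow_card_sub_one_eq_one l hl0
    rw [hF] at this
    exact hl3.symm.trans this
  rw [hκ1] at hl3 hB3
  obtain ⟨ω, hω⟩ : ∃ ω : F, ω ^ 2 + ω + 1 = 0 := by
    obtain ⟨x, hx0, hx1⟩ : ∃ x : F, x ≠ 0 ∧ x ≠ 1 := by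
      by_contra h
      push Not at h
      have hsub : (Finset.univ : Finset F) ⊆ {0, 1} := fun x _ => by
        rcases eq_or_ne x 0 with e | e
        · simp [e]
        · simp [h x e]
      have := (Finset.card_le_card hsub).trans Finset.card_le_two
      rw [Finset.card_univ, hF] at this
      omega
    have h3 := FiniteField.pow_card_sub_one_eq_one x hx0
    rw [hF] at h3
    have : (x - 1) * (x ^ 2 + x + 1) = 0 := by linear_combination h3
    exact ⟨x, (mul_eq_zero.1 this).resolve_left (sub_ne_zero.2 hx1)⟩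
  have hω3 : ω ^ 3 = 1 := by linear_combination (ω - 1) * hω
  have hpick : ∃ μ : F, ∃ v ∈ V2, v ≠ 0 ∧ B v = μ • v := by
    obtain ⟨v, hv, hv0⟩ : ∃ v ∈ V2, v ≠ 0 := Submodule.exists_mem_ne_zero_of_ne_bot (fun h => hd2 (by rw [h, finrank_bot]))
    have hBm : ∀ w ∈ V2, B w ∈ V2 := fun w hw => by
      rw [hm2] at hw ⊢
      simp only [hAB]
      have := congrArg B hw
      simpa only [map_add, map_zero] using this
    have hP : ∀ μ : F, μ ^ 3 = 1 → B (v + (μ ^ 2) • B v + μ • B (B v)) = μ • (v + (μ ^ 2) • B v + μ • B (B v)) := by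
      intro μ hμ
      simp only [map_add, map_smul, hB3, one_smul, smul_add, smul_smul]
      rw [show μ * μ ^ 2 = 1 by rw [← hμ]; ring, one_smul, show μ * μ = μ ^ 2 by ring]
      abel
    have hmem : ∀ μ : F, v + (μ ^ 2) • B v + μ • B (B v) ∈ V2 := fun μ =>
      add_mem (add_mem hv (V2.smul_mem _ (hBm v hv))) (V2.smul_mem _ (hBm _ (hBm v hv)))
    by_contra hnone
    push Not at hnone
    have z : ∀ μ : F, μ ^ 3 = 1 → v + (μ ^ 2) • B v + μ • B (B v) = 0 := fun μ hμ => by
      by_contra hne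
      exact hnone μ _ (hmem μ) hne (hP μ hμ)
    have e : (v + (1 : F) ^ 2 • B v + (1 : F) • B (B v)) + (v + ω ^ 2 • B v + ω • B (B v))
        + (v + (ω ^ 2) ^ 2 • B v + ω ^ 2 • B (B v)) = v := by
      funext i
      simp only [Pi.add_apply, Pi.smul_apply, smul_eq_mul]
      linear_combination (v i) * (CharTwo.two_eq_zero (R := F)) + (B v i + B (B v) i) * hω + (B v i * ω) * hω3
    rw [z 1 (one_pow 3), z ω hω3, z (ω ^ 2) (by rw [← pow_mul, pow_mul' ω 2 3, hω3, one_pow])] at e
    exact hv0 (by rw [← e]; simp)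
  obtain ⟨μ, v, hv, hv0, hBv⟩ := hpick
  have hAv : A v ∈ V2 := by
    rw [hm2] at hv ⊢
    have := congrArg A hv
    simpa only [map_add, map_zero] using this
  have hli : LinearIndependent F ![v, A v] := by
    rw [linearIndependent_fin2]
    refine ⟨?_, fun c hc => ?_⟩
    · intro h0
      exact hv0 (by rw [← hA5 v, show A v = 0 by simpa using h0]; simp)
    · rcases eq_or_ne c 0 with rfl | hc0
      · simp at hc; exact hv0 hc.symm
      · simp only [Matrix.cons_val_one, Matrix.cons_val_zero] at hc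
        exact hv0 (hnoeig v c⁻¹ hv (by conv_rhs => rw [← hc]; rw [inv_smul_smul₀ hc0]))
  have hli3 : LinearIndependent F ![v₀, v, A v] := by
    rw [show ![v₀, v, A v] = Fin.cons v₀ ![v, A v] from rfl, linearIndependent_finCons]
    refine ⟨hli, fun hm => hv₀0' ?_⟩
    have : v₀ ∈ V1 ⊓ V2 := ⟨hv₀, Submodule.span_le.2 (by
      rintro w ⟨i, rfl⟩
      fin_cases i
      · exact hv
      · exact hAv) hm⟩
    rw [hdisj] at this
    exact (Submodule.mem_bot F).1 this
  let bb := basisOfLinearIndependentOfCardEqFinrank hli3 (by simp)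
  have hbb : ∀ i, B (bb i) = ![l, μ, μ] i • bb i := by
    intro i
    simp only [bb, coe_basisOfLinearIndependentOfCardEqFinrank]
    fin_cases i
    · exact hlB
    · exact hBv
    · simp only [Fin.reduceFinMk, Matrix.cons_val]
      rw [← hAB, hBv, map_smul]
  have hmat : LinearMap.toMatrix bb bb B = Matrix.diagonal ![l, μ, μ] := by
    ext i j
    rw [LinearMap.toMatrix_apply, hbb, map_smul, bb.repr_self, Finsupp.smul_apply, Matrix.diagonal_apply,
      Finsupp.single_apply, smul_eq_mul]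
    by_cases h : i = j
    · subst h; simp
    · simp [h, Ne.symm h]
  have hdet : l * μ * μ = 1 := by
    have h1 := LinearMap.det_toMatrix bb B
    rw [hmat, Matrix.det_diagonal, Fin.prod_univ_three, LinearMap.det_toLin', hdb] at h1
    simpa using h1
  have hμl : l = μ := by
    have hμ3 : μ ^ 3 = 1 := by
      have h := hB3 v
      simp only [hBv, map_smul, smul_smul, one_smul] at h
      have h' : (μ * μ * μ - 1) • v = 0 := by rw [sub_smul, h, one_smul, sub_self]
      rw [← sub_eq_zero.1 ((smul_eq_zero.1 h').resolve_right hv0)]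
      ring
    linear_combination μ * hdet - l * hμ3
  refine hbs μ (Matrix.toLin'.injective (bb.ext fun i => ?_))
  rw [hbb, map_smul, Matrix.toLin'_one, LinearMap.smul_apply, LinearMap.id_apply, hμl]
  fin_cases i <;> rfl

end Cfsg.Agent.S0819
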