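import Cfsg.Statements.S0820
import Cfsg.Agent.Lib.Semisimple.Transvection

set_option autoImplicit false
open Cfsg

namespace Cfsg.Agent.S0820

/-- Any two elements of order 2 of PSL_3(4) are conjugate. -/
theorem result {F : Type*} [Field F] [Fintype F] (hF : Fintype.card F = 4) (x y : Matrix.ProjectiveSpecialLinearGroup (Fin 3) F) (hx : orderOf x = 2) (hy : orderOf y = 2) : IsConj x y := by
  classical
  haveI : CharP F 2 := by
    obtain ⟨p, hp⟩ := CharP.exists F
    obtain ⟨k, hpr, hk⟩ := FiniteField.card F p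
    have hdvd : p ∣ 2 ^ 2 := by rw [show (2 : ℕ) ^ 2 = 4 from rfl, ← hF, hk]; exact dvd_pow_self p k.ne_zero
    rwa [← (Nat.prime_dvd_prime_iff_eq hpr Nat.prime_two).1 (hpr.dvd_of_dvd_pow hdvd)]
  suffices h : ∀ x : Matrix.ProjectiveSpecialLinearGroup (Fin 3) F, orderOf x = 2 →
      ∃ t : Matrix.SpecialLinearGroup (Fin 3) F, t.1 = Matrix.transvection 0 1 1 ∧ IsConj x (QuotientGroup.mk' _ t) by
    obtain ⟨t, ht, hxt⟩ := h x hx
    obtain ⟨t', ht', hyt⟩ := h y hy
    obtain rfl : t = t' := Subtype.ext (ht.trans ht'.symm)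
    exact hxt.trans hyt.symm
  intro x hx
  obtain ⟨s, rfl⟩ := QuotientGroup.mk'_surjective (Subgroup.center (Matrix.SpecialLinearGroup (Fin 3) F)) x
  obtain ⟨hx1, hx2⟩ : (QuotientGroup.mk' _ s : Matrix.ProjectiveSpecialLinearGroup (Fin 3) F) ^ 2 = 1 ∧
      (QuotientGroup.mk' _ s : Matrix.ProjectiveSpecialLinearGroup (Fin 3) F) ≠ 1 :=
    (orderOf_eq_prime_iff (p := 2)).1 hx
  rw [← map_pow, QuotientGroup.mk'_apply, QuotientGroup.eq_one_iff] at hx1
  obtain ⟨r, hr, hrs⟩ := Matrix.SpecialLinearGroup.mem_center_iff.1 hx1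
  rw [Fintype.card_fin] at hr
  set u := s ^ 3 with hu
  have hπ : (QuotientGroup.mk' _ u : Matrix.ProjectiveSpecialLinearGroup (Fin 3) F) = QuotientGroup.mk' _ s := by
    rw [hu, pow_succ, map_mul]
    have : (QuotientGroup.mk' _ (s ^ 2) : Matrix.ProjectiveSpecialLinearGroup (Fin 3) F) = 1 :=
      (QuotientGroup.eq_one_iff _).2 hx1
    rw [this, one_mul]
  have hu2 : u.1 * u.1 = 1 := by
    rw [← Matrix.SpecialLinearGroup.coe_mul, hu, ← pow_add, show 3 + 3 = 2 * 3 from rfl, pow_mul,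
      Matrix.SpecialLinearGroup.coe_pow, ← hrs, ← map_pow, hr, map_one]
  set N := u.1 - 1 with hN
  have hsq : N * N = 0 := by
    have h2 : (2 : Matrix (Fin 3) (Fin 3) F) = 0 := by
      rw [show (2 : Matrix (Fin 3) (Fin 3) F) = (Matrix.scalar (Fin 3)) (2 : F) from (map_ofNat _ 2).symm,
        CharTwo.two_eq_zero, map_zero]
    calc N * N = u.1 * u.1 - 2 * u.1 + 1 := by rw [hN]; noncomm_ring
      _ = 2 := by rw [hu2, h2, zero_mul, sub_zero]; exact one_add_one_eq_two.trans h2
      _ = 0 := h2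
  have hne : N ≠ 0 := fun h => hx2 (by
    rw [← hπ, QuotientGroup.mk'_apply, QuotientGroup.eq_one_iff,
      show u = 1 from Subtype.ext (sub_eq_zero.1 h)]
    exact one_mem _)
  have hrank : N.rank = 1 := by
    have hle : LinearMap.range N.mulVecLin ≤ LinearMap.ker N.mulVecLin := by
      rintro v ⟨w, rfl⟩
      simp [Matrix.mulVec_mulVec, hsq]
    have h1 := LinearMap.finrank_range_add_finrank_ker N.mulVecLin
    rw [Module.finrank_fintype_fun_eq_card, Fintype.card_fin] at h1
    have h2 := Submodule.finrank_mono hle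
    have h3 : N.rank ≠ 0 := by
      intro h0
      have : LinearMap.range N.mulVecLin = ⊥ := Submodule.finrank_eq_zero.1 h0
      exact hne (Matrix.toLin'.injective (by
        rw [map_zero, Matrix.toLin'_apply']; exact LinearMap.range_eq_bot.1 this))
    have h4 : N.rank = Module.finrank F (LinearMap.range N.mulVecLin) := rfl
    omega
  obtain ⟨g, hg, hgt⟩ := CfsgLib.Semisimple.exists_conj_transvection (k := 0) u.1 hrank hsq
  let T : Matrix.SpecialLinearGroup (Fin 3) F := ⟨Matrix.transvection 0 1 1, Matrix.det_transvection_of_ne _ _ (by decide) _⟩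
  refine ⟨T, rfl, ?_⟩
  let G : Matrix.SpecialLinearGroup (Fin 3) F := ⟨g, hg⟩
  have hGT : G * T = u * G := Subtype.ext hgt.symm
  have hc : IsConj T u := isConj_iff.2 ⟨G, mul_inv_eq_iff_eq_mul.2 hGT⟩
  rw [← hπ]
  exact ((QuotientGroup.mk' _).map_isConj hc).symm

end Cfsg.Agent.S0820
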