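import Cfsg.Statements.S0823
import Mathlib
import Cfsg.Agent.Lib.Orth.Models

set_option autoImplicit false
open Cfsg

namespace Cfsg.Agent.S0823

open scoped Matrix

section
variable {F : Type*} [Field F] [Fintype F]

theorem elts (hF : Fintype.card F = 3) : (3 : F) = 0 ∧ (2 : F) ≠ 0 ∧ ∀ x : F, x = 0 ∨ x = 1 ∨ x = -1 := by
  classical
  have h : ((3 : ℕ) : F) = 0 := hF ▸ FiniteField.cast_card_eq_zero F
  have h3 : (3 : F) = 0 := by simpa using h
  have h2 : (2 : F) ≠ 0 := fun e => one_ne_zero (α := F) (by linear_combination h3 - e)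
  refine ⟨h3, h2, fun x => ?_⟩
  rcases eq_or_ne x 0 with h0 | h0
  · exact Or.inl h0
  · refine Or.inr ?_
    have := FiniteField.pow_card_sub_one_eq_one x h0
    rw [hF] at this
    exact mul_self_eq_one_iff.1 (by rw [← pow_two]; exact this)

def P : Fin 4 → (Unit ⊕ (Fin 1 ⊕ Fin 1) → F)
  | 0 => Sum.elim (fun _ => 0) (Sum.elim (fun _ => 1) (fun _ => 0))
  | 1 => Sum.elim (fun _ => 0) (Sum.elim (fun _ => 0) (fun _ => 1))
  | 2 => Sum.elim (fun _ => 1) (Sum.elim (fun _ => 1) (fun _ => -1))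
  | 3 => Sum.elim (fun _ => 1) (Sum.elim (fun _ => -1) (fun _ => 1))

theorem vext {v w : Unit ⊕ (Fin 1 ⊕ Fin 1) → F} (h0 : v (.inl ()) = w (.inl ())) (h1 : v (.inr (.inl 0)) = w (.inr (.inl 0)))
    (h2 : v (.inr (.inr 0)) = w (.inr (.inr 0))) : v = w := by
  funext i
  rcases i with ⟨⟩ | i | i
  · exact h0
  · fin_cases i; exact h1
  · fin_cases i; exact h2

theorem Q_P : ∀ i, Cfsg.quadFormOdd 1 F (P i) = 0 := by
  intro i; fin_cases i <;> simp [P, Cfsg.quadFormOdd]

theorem singular (hF : Fintype.card F = 3) (v : Unit ⊕ (Fin 1 ⊕ Fin 1) → F) (hv : Cfsg.quadFormOdd 1 F v = 0) (h0 : v ≠ 0) :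
    ∃ j, v = P j ∨ v = -P j := by
  obtain ⟨h3, h2, he⟩ := elts hF
  have hn : (-1 : F) ≠ 1 := fun e => h2 (by linear_combination -e)
  simp only [Cfsg.quadFormOdd, Fin.sum_univ_one] at hv
  rcases he (v (.inl ())) with a | a | a <;> rcases he (v (.inr (.inl 0))) with b | b | b <;>
    rcases he (v (.inr (.inr 0))) with c | c | c <;> rw [a, b, c] at hv <;>
    first
      | exact absurd (vext a b c) h0
      | (refine ⟨0, Or.inl (vext ?_ ?_ ?_)⟩ <;> (simp [P, a, b, c]; done))
      | (refine ⟨0, Or.inr (vext ?_ ?_ ?_)⟩ <;> (simp [P, a, b, c]; done))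
      | (refine ⟨1, Or.inl (vext ?_ ?_ ?_)⟩ <;> (simp [P, a, b, c]; done))
      | (refine ⟨1, Or.inr (vext ?_ ?_ ?_)⟩ <;> (simp [P, a, b, c]; done))
      | (refine ⟨2, Or.inl (vext ?_ ?_ ?_)⟩ <;> (simp [P, a, b, c]; done))
      | (refine ⟨2, Or.inr (vext ?_ ?_ ?_)⟩ <;> (simp [P, a, b, c]; done))
      | (refine ⟨3, Or.inl (vext ?_ ?_ ?_)⟩ <;> (simp [P, a, b, c]; done))
      | (refine ⟨3, Or.inr (vext ?_ ?_ ?_)⟩ <;> (simp [P, a, b, c]; done))
      | (exfalso; ring_nf at hv; first | exact one_ne_zero hv | exact h2 hv | simp [h2] at hv | exact one_ne_zero (by linear_combination h3 - hv))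

theorem pm_inj (hF : Fintype.card F = 3) {i j : Fin 4} (h : P (F := F) i = P j ∨ P (F := F) i = -P j) : i = j := by
  obtain ⟨h3, h2, he⟩ := elts hF
  have hn : (-1 : F) ≠ 1 := fun e => h2 (by linear_combination -e)
  rcases h with h | h <;>
    (have e1 := congrFun h (.inl ()); have e2 := congrFun h (.inr (.inl 0)); have e3 := congrFun h (.inr (.inr 0));
     fin_cases i <;> fin_cases j <;> first | rfl | (simp [P] at e1 e2 e3; done) | (simp [P, hn, hn.symm] at e1 e2 e3; done))

end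

/-- SO_3(3) ≅ S_4: the determinant-one isometries of the form x_0² + x_1y_1 over the field with 3 elements form a group isomorphic to the symmetric group on 4 letters. -/
theorem result {F : Type*} [Field F] [Fintype F] (hF : Fintype.card F = 3) : Nonempty (↥(Cfsg.specialIsometryGroup F (Cfsg.quadFormOdd 1 F)) ≃* Equiv.Perm (Fin 4)) := by
  classical
  obtain ⟨h3, h2, he⟩ := elts hF
  set G := Cfsg.isometryGroup F (Cfsg.quadFormOdd 1 F) with hGdef
  set S := Cfsg.specialIsometryGroup F (Cfsg.quadFormOdd 1 F) with hSdef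
  have hex : ∀ (g : G) (i : Fin 4), ∃ j, g.1.1 *ᵥ P i = P j ∨ g.1.1 *ᵥ P i = -P j := by
    intro g i
    refine singular hF _ ((g.2 (P i) 0).trans (Q_P i)) fun h => ?_
    have : g.1⁻¹.1 *ᵥ (g.1.1 *ᵥ P i) = P i := by rw [Matrix.mulVec_mulVec, ← Units.val_mul, inv_mul_cancel, Units.val_one, Matrix.one_mulVec]
    rw [h, Matrix.mulVec_zero] at this
    have e1 := congrFun this (.inl ()); have e2 := congrFun this (.inr (.inl 0)); have e3 := congrFun this (.inr (.inr 0))
    fin_cases i <;> simp [P] at e1 e2 e3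
  choose f hf using hex
  have fmul : ∀ g h : G, ∀ i, f (g * h) i = f g (f h i) := by
    intro g h i
    refine pm_inj hF ?_
    have e : (g * h).1.1 *ᵥ P i = g.1.1 *ᵥ (h.1.1 *ᵥ P i) := by rw [Matrix.mulVec_mulVec]; rfl
    rcases hf (g * h) i with e2 | e2 <;> rcases hf g (f h i) with e3 | e3 <;> rcases hf h i with e1 | e1 <;>
      rw [e, e1] at e2 <;> try rw [Matrix.mulVec_neg] at e2
    all_goals rw [e3] at e2
    · exact Or.inl e2.symm
    · exact Or.inr (neg_eq_iff_eq_neg.1 e2 ▸ (neg_neg _).symm)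
    · exact Or.inr e2.symm
    · exact Or.inl (neg_neg (P (F := F) (f g (f h i))) ▸ e2.symm)
    · exact Or.inr (neg_eq_iff_eq_neg.1 e2.symm)
    · exact Or.inl (neg_inj.1 e2).symm
    · exact Or.inl (neg_inj.1 e2.symm)
    · exact Or.inr (neg_eq_iff_eq_neg.1 (neg_neg (P (F := F) (f g (f h i))) ▸ e2).symm)
  have fone : ∀ i, f 1 i = i := fun i => pm_inj hF (by
    rcases hf 1 i with e | e <;> simp at e
    · exact Or.inl e.symm
    · exact Or.inr (neg_eq_iff_eq_neg.1 e.symm))
  let σ : G →* Equiv.Perm (Fin 4) :=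
    { toFun := fun g => ⟨f g, f g⁻¹, fun i => by rw [← fmul, inv_mul_cancel, fone], fun i => by rw [← fmul, mul_inv_cancel, fone]⟩
      map_one' := Equiv.ext fone
      map_mul' := fun g h => Equiv.ext (fmul g h) }
  let τ : S →* Equiv.Perm (Fin 4) := σ.comp S.subtype
  have hinj : Function.Injective τ := by
    rw [injective_iff_map_eq_one]
    intro s hs
    have hfix : ∀ i, ∃ e : F, (e = 1 ∨ e = -1) ∧ s.1.1.1 *ᵥ P i = e • P i := fun i => by
      have hi : f s.1 i = i := congrArg (fun p : Equiv.Perm (Fin 4) => p i) hs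
      rcases hf s.1 i with e | e <;> rw [hi] at e
      · exact ⟨1, Or.inl rfl, by rw [one_smul]; exact e⟩
      · exact ⟨-1, Or.inr rfl, by rw [neg_one_smul]; exact e⟩
    obtain ⟨a, ha, ea⟩ := hfix 0
    obtain ⟨b, hb, eb⟩ := hfix 1
    obtain ⟨c, hc, ec⟩ := hfix 2
    have hq : ∀ u v : F, ∀ i j, Cfsg.quadFormOdd 1 F (s.1.1.1 *ᵥ (u • P i + v • P j)) = Cfsg.quadFormOdd 1 F (u • P i + v • P j) :=
      fun u v i j => s.1.2 _ 0
    have q01 := hq 1 1 0 1
    have q02 := hq 1 1 0 2
    simp only [one_smul, Matrix.mulVec_add, ea, eb, ec] at q01 q02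
    simp [Cfsg.quadFormOdd, P] at q01 q02
    have hab : a = b := by
      rcases ha with rfl | rfl <;> rcases hb with rfl | rfl <;> first | rfl | (exfalso; apply h2; linear_combination q01) | (exfalso; apply h2; linear_combination -q01)
    have hac : a = c := by
      rcases ha with rfl | rfl <;> rcases hc with rfl | rfl <;> first | rfl | (exfalso; apply h2; linear_combination q02) | (exfalso; apply h2; linear_combination -q02) | (exfalso; apply h2; linear_combination q02 + h3) | (exfalso; apply h2; linear_combination -q02 + h3)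
    subst hab; subst hac
    have hM : s.1.1.1 = a • 1 := by
      refine Matrix.ext_of_mulVec_single fun i => ?_
      have e0 : (Pi.single (Sum.inr (Sum.inl 0)) 1 : Unit ⊕ (Fin 1 ⊕ Fin 1) → F) = P 0 := vext (by simp [P]) (by simp [P]) (by simp [P])
      have e1 : (Pi.single (Sum.inr (Sum.inr 0)) 1 : Unit ⊕ (Fin 1 ⊕ Fin 1) → F) = P 1 := vext (by simp [P]) (by simp [P]) (by simp [P])
      have e2 : (Pi.single (Sum.inl ()) 1 : Unit ⊕ (Fin 1 ⊕ Fin 1) → F) = P 2 - P 0 + P 1 := vext (by simp [P]) (by simp [P]) (by simp [P])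
      rw [Matrix.smul_mulVec, Matrix.one_mulVec]
      rcases i with ⟨⟩ | i | i
      · rw [e2, Matrix.mulVec_add, Matrix.mulVec_sub, ea, eb, ec, smul_add, smul_sub]
      · rw [Subsingleton.elim i 0, e0, ea]
      · rw [Subsingleton.elim i 0, e1, eb]
    have hd : s.1.1.1.det = 1 := congrArg Units.val (MonoidHom.mem_ker.1 s.2)
    rw [hM, Matrix.det_smul, Matrix.det_one, mul_one] at hd
    have ha1 : a = 1 := by
      rcases ha with h | h
      · exact h
      · exfalso; rw [h] at hd; simp at hd; exact h2 (by linear_combination -hd)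
    exact Subtype.ext (Subtype.ext (Units.ext (by rw [hM, ha1, one_smul]; rfl)))
  have hS : Nat.card S = 24 := by
    have hG : Nat.card G = 48 := by
      rw [hGdef, CfsgLib.Orth.Models.card_isometryGroup,
        ← show ⇑(CfsgLib.Orth.Models.oddQ F 1) = Cfsg.quadFormOdd 1 F from funext (CfsgLib.Orth.Models.oddQ_apply 1),
        CfsgLib.Orth.Models.card_iso_odd h2 1, hF]
      simp
    set d := Matrix.GeneralLinearGroup.det.comp G.subtype
    have hsurj : Function.Surjective d := by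
      intro u
      rcases he (u : F) with h | h | h
      · exact absurd h u.ne_zero
      · exact ⟨1, by rw [map_one]; exact Units.ext h.symm⟩
      · refine ⟨⟨-1, fun v _ => by simp [Cfsg.quadFormOdd, Matrix.neg_mulVec]⟩, Units.ext ?_⟩
        show (-1 : Matrix (Unit ⊕ (Fin 1 ⊕ Fin 1)) (Unit ⊕ (Fin 1 ⊕ Fin 1)) F).det = u
        rw [Matrix.det_neg, Matrix.det_one, h]
        simp [pow_succ]
    have h := Subgroup.card_mul_index d.ker
    rw [Subgroup.index_ker, MonoidHom.range_eq_top.2 hsurj, Subgroup.card_top, Nat.card_units, Nat.card_eq_fintype_card (α := F), hF, hG] at h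
    show Nat.card d.ker = 24
    omega
  refine ⟨MulEquiv.ofBijective τ ((Nat.bijective_iff_injective_and_card _).2 ⟨hinj, ?_⟩)⟩
  rw [hS, Nat.card_perm, Nat.card_fin]
  rfl

end Cfsg.Agent.S0823
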