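import Cfsg.Statements.S0824
import Cfsg.Agent.Lib.Symplectic.HeartForms
import Cfsg.Agent.Lib.Symplectic.HeartTransport
import Cfsg.Agent.S0288

set_option autoImplicit false
open Cfsg

namespace Cfsg.Agent.S0824

/-- O⁻_4(2) ≅ S_5: the isometry group of the form x y + z_1² + z_1 z_2 + z_2² over the field with 2 elements is isomorphic to the symmetric group on 5 letters. -/
theorem result {F : Type*} [Field F] [Fintype F] (hF : Fintype.card F = 2) : Nonempty (↥(Cfsg.isometryGroup F (Cfsg.quadFormMinus 1 F 1 1)) ≃* Equiv.Perm (Fin 5)) := by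
  obtain ⟨e⟩ := CfsgLib.Symplectic.Heart.exists_zmod_two hF
  obtain ⟨ε⟩ := CfsgLib.Symplectic.Heart.isometry_equiv e (Cfsg.quadFormMinus 1 F 1 1)
    (Cfsg.quadFormMinus 1 (ZMod 2) 1 1) (fun v => by simp [Cfsg.quadFormMinus])
  have hq : ∀ w : Fin 5 → ZMod 2, ∑ j, w j = 0 → Cfsg.quadFormMinus 1 (ZMod 2) 1 1
      (CfsgLib.Symplectic.Heart.model5.proj w) = CfsgLib.Symplectic.Heart.halfWeight w := fun w hw => by
    rw [← CfsgLib.Symplectic.Heart.quad5 w hw, ← CfsgLib.Symplectic.Heart.cmat5_even w hw]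
    rfl
  let f : Equiv.Perm (Fin 5) →* Cfsg.isometryGroup (ZMod 2) (Cfsg.quadFormMinus 1 (ZMod 2) 1 1) :=
    CfsgLib.Symplectic.Heart.model5.hom.codRestrict _
      (CfsgLib.Symplectic.Heart.hom_mem CfsgLib.Symplectic.Heart.model5 _ hq)
  have hinj : Function.Injective f := fun a b h =>
    CfsgLib.Symplectic.Heart.model5.hom_injective (le_refl 5) (congrArg Subtype.val h)
  have hcard : Nat.card (Cfsg.isometryGroup (ZMod 2) (Cfsg.quadFormMinus 1 (ZMod 2) 1 1)) ≤ Nat.card (Equiv.Perm (Fin 5)) := by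
    rw [show (1 : ℕ) = 2 - 1 from rfl, Cfsg.Agent.S0288.result (ZMod.card 2) 2 (by norm_num) 1 1 (by decide),
      Nat.card_perm, Nat.card_fin]
    decide
  exact ⟨ε.trans (MulEquiv.ofBijective f (hinj.bijective_of_nat_card_le hcard)).symm⟩

end Cfsg.Agent.S0824
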