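import Cfsg.Statements.S0828
import Mathlib
import Cfsg.Agent.Lib.Forms.SingularLines
import Cfsg.Agent.Lib.Symplectic.Basic

set_option autoImplicit false
open Cfsg

namespace Cfsg.Agent.S0828

open scoped Matrix
open CfsgLib.Forms.Families CfsgLib.Symplectic.Basic

/-- The symplectic generalised quadrangle over a field with q elements: the number of 2-dimensional subspaces of F^4 on which the symplectic form vanishes is (q + 1)(q² + 1), and every non-zero vector lies in exactly q + 1 of them. -/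
theorem result {F : Type*} [Field F] [Fintype F] {q : ℕ} (hF : Fintype.card F = q) : Nat.card {W : Submodule F (Fin 2 ⊕ Fin 2 → F) // Module.finrank F W = 2 ∧ ∀ u ∈ W, ∀ v ∈ W, Cfsg.sympForm 2 F u v = 0} = (q + 1) * (q ^ 2 + 1) ∧ ∀ v : Fin 2 ⊕ Fin 2 → F, v ≠ 0 → Nat.card {W : Submodule F (Fin 2 ⊕ Fin 2 → F) // Module.finrank F W = 2 ∧ v ∈ W ∧ ∀ u ∈ W, ∀ w ∈ W, Cfsg.sympForm 2 F u w = 0} = q + 1 := by
  classical
  subst hF
  obtain ⟨Q, hQ⟩ : ∃ Q, Q = Fintype.card F := ⟨_, rfl⟩
  rw [← hQ]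
  have hQ1 : 2 ≤ Q := hQ ▸ Fintype.one_lt_card
  have h : Form id (Cfsg.sympForm 2 F) :=
    { add_left := fun x y v => by rw [← B_eq, ← B_eq, ← B_eq, map_add, LinearMap.add_apply]
      smul_left := fun c x v => by rw [← B_eq, ← B_eq, map_smul, LinearMap.smul_apply, smul_eq_mul]
      add_right := fun v x y => by rw [← B_eq, ← B_eq, ← B_eq, map_add]
      smul_right := fun c v x => by rw [← B_eq, ← B_eq, map_smul, smul_eq_mul]; rfl
      refl := fun x y e => by rw [← B_eq, B_swap, B_eq, e, neg_zero] }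
  have halt : ∀ x, Cfsg.sympForm 2 F x x = 0 := fun x => by rw [← B_eq, B_self]
  have hperp : ∀ u : Fin 2 ⊕ Fin 2 → F, u ≠ 0 →
      Nat.card {v // Cfsg.sympForm 2 F v v = 0 ∧ Cfsg.sympForm 2 F v u = 0 ∧ v ∉ Submodule.span F {u}} = Q ^ 3 - Q := by
    intro u hu
    let φ : (Fin 2 ⊕ Fin 2 → F) →ₗ[F] F := (B (m := 2)).flip u
    have hφ : φ ≠ 0 := fun e => hu (eq_zero_of_B_left fun v => by
      rw [B_swap, show B v u = φ v from rfl, e, LinearMap.zero_apply, neg_zero])
    have h3 : Module.finrank F (LinearMap.ker φ) = 3 := by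
      have := Module.Dual.finrank_ker_add_one_of_ne_zero hφ
      rw [Module.finrank_fintype_fun_eq_card] at this
      simpa using this
    have hle : Submodule.span F {u} ≤ LinearMap.ker φ :=
      (Submodule.span_singleton_le_iff_mem _ _).2 (LinearMap.mem_ker.2 (B_self u))
    have e1 : Nat.card {v // Cfsg.sympForm 2 F v v = 0 ∧ Cfsg.sympForm 2 F v u = 0 ∧ v ∉ Submodule.span F {u}} =
        Nat.card ↥((LinearMap.ker φ : Set (Fin 2 ⊕ Fin 2 → F)) \ (Submodule.span F {u} : Set (Fin 2 ⊕ Fin 2 → F))) := by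
      refine Nat.card_congr (Equiv.subtypeEquivRight fun v => ?_)
      simp only [Set.mem_diff, SetLike.mem_coe, LinearMap.mem_ker, halt, true_and]
      rw [show φ v = B v u from rfl, B_eq]
    rw [e1, Nat.card_coe_set_eq, Set.ncard_diff hle, ← Nat.card_coe_set_eq, ← Nat.card_coe_set_eq]
    show Nat.card (LinearMap.ker φ) - Nat.card (Submodule.span F {u}) = _
    rw [Module.natCard_eq_pow_finrank (K := F) (V := LinearMap.ker φ), Module.natCard_eq_pow_finrank (K := F)
      (V := Submodule.span F {u}), h3, finrank_span_singleton hu, Nat.card_eq_fintype_card, pow_one, hQ]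
  constructor
  · have hmul := CfsgLib.Forms.SingularLines.card_mul h (Q ^ 3 - Q) (fun u hu _ => hperp u hu)
    have hne : Nat.card {u : Fin 2 ⊕ Fin 2 → F // u ≠ 0 ∧ Cfsg.sympForm 2 F u u = 0} = Q ^ 4 - 1 := by
      rw [Nat.card_congr (Equiv.subtypeEquivRight (q := fun u : Fin 2 ⊕ Fin 2 → F => u ≠ 0) fun u => by simp [halt]),
        Nat.card_eq_fintype_card, Fintype.card_subtype_compl]
      simp [hQ]
    rw [hne, ← hQ] at hmul
    refine Nat.eq_of_mul_eq_mul_right (Nat.mul_pos ?_ ?_) (hmul.trans ?_)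
    · have : 2 ^ 2 ≤ Q ^ 2 := Nat.pow_le_pow_left hQ1 2
      omega
    · have : Q * 2 ≤ Q * Q := Nat.mul_le_mul_left Q hQ1
      rw [pow_two]; omega
    · clear hmul hne hperp hQ
      obtain ⟨r, rfl⟩ : ∃ r, Q = r + 2 := ⟨Q - 2, by omega⟩
      have a1 : (r + 2) ^ 4 - 1 = ((r + 2) ^ 2 + 1) * ((r + 2) ^ 2 - 1) := by
        rw [show (r + 2) ^ 4 = ((r + 2) ^ 2) ^ 2 by ring, ← one_pow 2, Nat.sq_sub_sq, one_pow]
      have a2 : (r + 2) ^ 3 - (r + 2) = (r + 2 + 1) * ((r + 2) ^ 2 - (r + 2)) := by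
        rw [Nat.mul_sub]
        have : (r + 2 + 1) * (r + 2) ^ 2 = (r + 2) ^ 3 + (r + 2) ^ 2 := by ring
        have : (r + 2 + 1) * (r + 2) = (r + 2) ^ 2 + (r + 2) := by ring
        omega
      rw [a1, a2]; ring
  · intro v hv
    let S := {u // Cfsg.sympForm 2 F u u = 0 ∧ Cfsg.sympForm 2 F u v = 0 ∧ u ∉ Submodule.span F {v}}
    let P := {W : Submodule F (Fin 2 ⊕ Fin 2 → F) //
      Module.finrank F W = 2 ∧ v ∈ W ∧ ∀ u ∈ W, ∀ w ∈ W, Cfsg.sympForm 2 F u w = 0}
    have hspan : ∀ u, u ∉ Submodule.span F {v} → Module.finrank F (Submodule.span F ({u, v} : Set _)) = 2 := fun u hu => by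
      have hli : LinearIndependent F ![u, v] :=
        linearIndependent_fin2.2 ⟨hv, fun c e => hu (Submodule.mem_span_singleton.2 ⟨c, e⟩)⟩
      have := finrank_span_eq_card hli
      rw [Matrix.range_cons_cons_empty, Fintype.card_fin] at this
      exact this
    let π : S → P := fun u => ⟨Submodule.span F {u.1, v}, hspan u.1 u.2.2.2, Submodule.subset_span (by simp),
      fun x hx y hy => by
        obtain ⟨c, d, rfl⟩ := Submodule.mem_span_pair.1 hx
        obtain ⟨c', d', rfl⟩ := Submodule.mem_span_pair.1 hy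
        rw [h.add_left, h.smul_left, h.smul_left, h.add_right, h.add_right, h.smul_right, h.smul_right, h.smul_right,
          h.smul_right, u.2.1, u.2.2.1, h.refl _ _ u.2.2.1, halt]
        ring⟩
    have hfib : ∀ W : P, Nat.card {u : S // π u = W} = Q ^ 2 - Q := by
      intro W
      have hsing : Submodule.span F {v} ≤ W.1 := (Submodule.span_singleton_le_iff_mem _ _).2 W.2.2.1
      trans Nat.card ↥((W.1 : Set (Fin 2 ⊕ Fin 2 → F)) \ (Submodule.span F {v} : Set (Fin 2 ⊕ Fin 2 → F)))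
      · refine Nat.card_congr
          { toFun := fun u => ⟨u.1.1, ?_, u.1.2.2.2⟩
            invFun := fun u => ⟨⟨u.1, W.2.2.2 _ u.2.1 _ u.2.1, W.2.2.2 _ u.2.1 _ W.2.2.1, u.2.2⟩, ?_⟩
            left_inv := fun u => rfl
            right_inv := fun u => rfl }
        · rw [← congrArg Subtype.val u.2]
          exact Submodule.subset_span (by simp)
        · refine Subtype.ext (Submodule.eq_of_le_of_finrank_eq (Submodule.span_le.2 ?_) ?_)
          · rintro x (rfl | rfl)
            · exact u.2.1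
            · exact W.2.2.1
          · rw [(π _).2.1, W.2.1]
      · rw [Nat.card_coe_set_eq, Set.ncard_diff hsing, ← Nat.card_coe_set_eq, ← Nat.card_coe_set_eq]
        show Nat.card W.1 - Nat.card (Submodule.span F {v}) = _
        rw [Module.natCard_eq_pow_finrank (K := F) (V := W.1), Module.natCard_eq_pow_finrank (K := F)
          (V := Submodule.span F {v}), W.2.1, finrank_span_singleton hv, Nat.card_eq_fintype_card, pow_one, hQ]
    have hS : Nat.card S = Nat.card P * (Q ^ 2 - Q) := by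
      rw [← Nat.card_congr (Equiv.sigmaFiberEquiv π), Nat.card_sigma, Finset.sum_congr rfl (fun W _ => hfib W),
        Finset.sum_const, Finset.card_univ, smul_eq_mul, ← Nat.card_eq_fintype_card]
    rw [show Nat.card S = Q ^ 3 - Q from hperp v hv] at hS
    refine Nat.eq_of_mul_eq_mul_right (show 0 < Q ^ 2 - Q by
      have : Q * 2 ≤ Q * Q := Nat.mul_le_mul_left Q hQ1
      rw [pow_two]; omega) (hS.symm.trans ?_)
    rw [Nat.mul_sub]
    have : (Q + 1) * Q ^ 2 = Q ^ 3 + Q ^ 2 := by ring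
    have : (Q + 1) * Q = Q ^ 2 + Q := by ring
    omega

end Cfsg.Agent.S0828
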