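import Cfsg.Statements.S0830
import Mathlib
import Cfsg.Agent.Lib.Forms.UnitaryLines

set_option autoImplicit false
open Cfsg

namespace Cfsg.Agent.S0830

open CfsgLib.Unitary.Count CfsgLib.Unitary.FieldNorm

/-- The unitary quadrangle of PSU_5(q): with |F| = q², the number of 2-dimensional subspaces of F^5 on which the Hermitian form vanishes is (q³ + 1)(q⁵ + 1). -/
theorem result {F : Type*} [Field F] [Fintype F] {q : ℕ} (hF : Fintype.card F = q ^ 2) : Nat.card {W : Submodule F (Fin 5 → F) // Module.finrank F W = 2 ∧ ∀ u ∈ W, ∀ v ∈ W, Cfsg.hermForm 5 F q u v = 0} = (q ^ 3 + 1) * (q ^ 5 + 1) := by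
  have hq := two_le_q hF
  have h := CfsgLib.Forms.UnitaryLines.card_lines_mul (m := 3) hF
  have e5 := N_zero (F := F) hF 5
  have e3 := N_zero (F := F) hF 3
  rw [if_neg (by decide)] at e5 e3
  have h1 : 1 ≤ N F q 5 (0 : F) := by
    have : (0 : ℤ) ≤ ((q : ℤ) ^ 5 + 1) * ((q : ℤ) ^ (5 - 1) - 1) :=
      mul_nonneg (by positivity) (sub_nonneg.2 (one_le_pow₀ (by omega)))
    omega
  have h2 : 1 ≤ N F q 3 (0 : F) := by
    have : (0 : ℤ) ≤ ((q : ℤ) ^ 3 + 1) * ((q : ℤ) ^ (3 - 1) - 1) :=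
      mul_nonneg (by positivity) (sub_nonneg.2 (one_le_pow₀ (by omega)))
    omega
  rw [hF] at h
  have hp1 : 1 ≤ (q ^ 2) ^ 2 := Nat.one_le_pow _ _ (by positivity)
  have hp2 : q ^ 2 ≤ (q ^ 2) ^ 2 := Nat.le_self_pow (by norm_num) _
  have hz := congrArg (Nat.cast : ℕ → ℤ) h
  push_cast [Nat.cast_sub hp1, Nat.cast_sub hp2, Nat.cast_sub h1, Nat.cast_sub h2, e5, e3] at hz
  have hq' : (2 : ℤ) ≤ q := by exact_mod_cast hq
  have hne : (((q : ℤ) ^ 2) ^ 2 - 1) * (((q : ℤ) ^ 2) ^ 2 - (q : ℤ) ^ 2) ≠ 0 := by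
    refine mul_ne_zero ?_ ?_
    · have : (2 : ℤ) ^ 4 ≤ (q : ℤ) ^ 4 := pow_le_pow_left₀ (by norm_num) hq' 4
      intro h0
      rw [← pow_mul] at h0
      norm_num at h0 this
      linarith
    · have : (q : ℤ) ^ 2 < ((q : ℤ) ^ 2) ^ 2 := by
        rw [← pow_mul]; exact pow_lt_pow_right₀ (by omega) (by norm_num)
      omega
  apply Int.ofNat.inj
  show ((_ : ℕ) : ℤ) = ((_ : ℕ) : ℤ)
  refine mul_right_cancel₀ hne (hz.trans ?_)
  push_cast
  ring

end Cfsg.Agent.S0830
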