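import Cfsg.Statements.S0831
import Mathlib
import Cfsg.Agent.Lib.NonMax.SingularFamilies
import Cfsg.Agent.Lib.Orth.Models

set_option autoImplicit false
open Cfsg

namespace Cfsg.Agent.S0831

open CfsgLib.NonMax.SingularFamilies
theorem hQ_plus {F : Type*} [Field F] (m : ℕ) : Cfsg.Geo.IsNondegenerateQuadraticForm (Cfsg.quadFormPlus m F) := by
  have hfun : Cfsg.quadFormPlus m F = ⇑(CfsgLib.Orth.Models.plusQ F m) := funext fun v => (CfsgLib.Orth.Models.plusQ_apply m v).symm
  rw [hfun]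
  set P := CfsgLib.Orth.Models.plusQ F m
  refine ⟨fun c v => by rw [QuadraticMap.map_smul, smul_eq_mul, pow_two],
    ⟨fun x y v => P.polar_add_left x y v, fun c x v => P.polar_smul_left c x v, fun v x y => P.polar_add_right v x y,
      fun c v x => P.polar_smul_right c v x⟩, fun v hv => ?_⟩
  obtain ⟨y, hy⟩ := CfsgLib.Orth.Models.nondeg_plus m v hv
  exact ⟨⟨y, by rw [QuadraticMap.polar_comm]; exact hy⟩, y, hy⟩

theorem std {F : Type*} [Field F] (m : ℕ) :
    ∃ U : Submodule F (Fin m ⊕ Fin m → F), CfsgLib.NonMax.SingularFamilies.TS (Cfsg.quadFormPlus m F) m U := by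
  let φ : (Fin m → F) →ₗ[F] (Fin m ⊕ Fin m → F) :=
    { toFun := fun x => Sum.elim x 0
      map_add' := fun x y => by funext i; cases i <;> simp
      map_smul' := fun c x => by funext i; cases i <;> simp }
  refine ⟨LinearMap.range φ, ?_, ?_⟩
  · rw [LinearMap.finrank_range_of_inj (fun x y h => funext fun i => congrFun h (Sum.inl i)), Module.finrank_fin_fun]
  · rintro _ ⟨x, rfl⟩
    show Cfsg.quadFormPlus m F (Sum.elim x 0) = 0
    simp [Cfsg.quadFormPlus]

/-- The two families of maximal totally singular subspaces of the hyperbolic quadric: for the form Σ x_i y_i on F^(2m), m ≥ 1, and m-dimensional subspaces U, W, X on which it vanishes, the parities of m − dim(U ∩ W), m − dim(W ∩ X) and m − dim(U ∩ X) sum to an even number (so 'even codimension of the intersection' is an equivalence relation), and there exist two such subspaces meeting in codimension 1 (so there are exactly two classes). -/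
theorem result {F : Type*} [Field F] (m : ℕ) (hm : 1 ≤ m) : (∀ U W X : Submodule F (Fin m ⊕ Fin m → F), (Module.finrank F U = m ∧ ∀ w ∈ U, Cfsg.quadFormPlus m F w = 0) → (Module.finrank F W = m ∧ ∀ w ∈ W, Cfsg.quadFormPlus m F w = 0) → (Module.finrank F X = m ∧ ∀ w ∈ X, Cfsg.quadFormPlus m F w = 0) → Even ((m - Module.finrank F ↥(U ⊓ W)) + (m - Module.finrank F ↥(W ⊓ X)) + (m - Module.finrank F ↥(U ⊓ X)))) ∧ ∃ U W : Submodule F (Fin m ⊕ Fin m → F), (Module.finrank F U = m ∧ ∀ w ∈ U, Cfsg.quadFormPlus m F w = 0) ∧ (Module.finrank F W = m ∧ ∀ w ∈ W, Cfsg.quadFormPlus m F w = 0) ∧ Module.finrank F ↥(U ⊓ W) + 1 = m := by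
  have hn : Fintype.card (Fin m ⊕ Fin m) = 2 * m := by simp; omega
  refine ⟨fun U W X hU hW hX => parity (hQ_plus m) hn hU hW hX, ?_⟩
  obtain ⟨U, hU⟩ := std (F := F) m
  obtain ⟨H, -, hHU, hd⟩ := exists_hyperplane (bot_le : (⊥ : Submodule F _) ≤ U) (by rw [finrank_bot, hU.1]; omega)
  rw [hU.1] at hd
  obtain ⟨W, hW, hHW, hne, -, -⟩ := other (hQ_plus m) hn (fun h hh => hU.2 h (hHU hh)) hd hU hHU
  refine ⟨U, W, hU, hW, ?_⟩
  have h1 := Submodule.finrank_mono (le_inf hHU hHW : H ≤ U ⊓ W)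
  have h2 : Module.finrank F ↥(U ⊓ W) ≠ m := fun e => hne (by
    rw [← Submodule.eq_of_le_of_finrank_eq (inf_le_right : U ⊓ W ≤ W) (e.trans hW.1.symm),
      Submodule.eq_of_le_of_finrank_eq (inf_le_left : U ⊓ W ≤ U) (e.trans hU.1.symm)])
  have h3 := Submodule.finrank_mono (inf_le_left : U ⊓ W ≤ U)
  have := hU.1
  omega

end Cfsg.Agent.S0831
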