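import Cfsg.Statements.S0832
import Mathlib
import Cfsg.Agent.Lib.NonMax.SingularFamilies
import Cfsg.Agent.Lib.Orth.Models

set_option autoImplicit false
open Cfsg

namespace Cfsg.Agent.S0832

open CfsgLib.NonMax.SingularFamilies
theorem hQ_plus {F : Type*} [Field F] (m : ℕ) : Cfsg.Geo.IsNondegenerateQuadraticForm (Cfsg.quadFormPlus m F) := by
  have hfun : Cfsg.quadFormPlus m F = ⇑(CfsgLib.Orth.Models.plusQ F m) := funext fun v => (CfsgLib.Orth.Models.plusQ_apply m v).symm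
  rw [hfun]
  set P := CfsgLib.Orth.Models.plusQ F m
  refine ⟨fun c v => by rw [QuadraticMap.map_smul, smul_eq_mul, pow_two],
    ⟨fun x y v => P.polar_add_left x y v, fun c x v => P.polar_smul_left c x v, fun v x y => P.polar_add_right v x y,
      fun c v x => P.polar_smul_right c v x⟩, fun v hv => ?_⟩
  obtain ⟨y, hy⟩ := CfsgLib.Orth.Models.nondeg_plus m v hv
  exact ⟨⟨y, by rw [QuadraticMap.polar_comm]; exact hy⟩, y, hy⟩

theorem std {F : Type*} [Field F] (m : ℕ) :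
    ∃ U : Submodule F (Fin m ⊕ Fin m → F), CfsgLib.NonMax.SingularFamilies.TS (Cfsg.quadFormPlus m F) m U := by
  let φ : (Fin m → F) →ₗ[F] (Fin m ⊕ Fin m → F) :=
    { toFun := fun x => Sum.elim x 0
      map_add' := fun x y => by funext i; cases i <;> simp
      map_smul' := fun c x => by funext i; cases i <;> simp }
  refine ⟨LinearMap.range φ, ?_, ?_⟩
  · rw [LinearMap.finrank_range_of_inj (fun x y h => funext fun i => congrFun h (Sum.inl i)), Module.finrank_fin_fun]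
  · rintro _ ⟨x, rfl⟩
    show Cfsg.quadFormPlus m F (Sum.elim x 0) = 0
    simp [Cfsg.quadFormPlus]

/-- For the form Σ x_i y_i on F^(2m) over a finite field, m ≥ 1: an (m−1)-dimensional subspace on which the form vanishes is contained in exactly two m-dimensional subspaces on which it vanishes. -/
theorem result {F : Type*} [Field F] [Finite F] (m : ℕ) (hm : 1 ≤ m) (U : Submodule F (Fin m ⊕ Fin m → F)) (hU : Module.finrank F U + 1 = m ∧ ∀ u ∈ U, Cfsg.quadFormPlus m F u = 0) : Nat.card {W : Submodule F (Fin m ⊕ Fin m → F) // Module.finrank F W = m ∧ (∀ w ∈ W, Cfsg.quadFormPlus m F w = 0) ∧ U ≤ W} = 2 := by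
  have hn : Fintype.card (Fin m ⊕ Fin m) = 2 * m := by simp; omega
  obtain ⟨V, hV⟩ := std (F := F) m
  obtain ⟨W₀, hW₀, hUW₀⟩ := exists_above (hQ_plus m) hn hU.2 hU.1 hV
  obtain ⟨W₁, hW₁, hUW₁, hne, -, huniq⟩ := other (hQ_plus m) hn hU.2 hU.1 hW₀ hUW₀
  show Nat.card ↥{W : Submodule F (Fin m ⊕ Fin m → F) | Module.finrank F W = m ∧ (∀ w ∈ W, Cfsg.quadFormPlus m F w = 0) ∧ U ≤ W} = 2
  rw [Nat.card_coe_set_eq, Set.ncard_eq_two]
  refine ⟨W₀, W₁, hne.symm, Set.ext fun W => ⟨fun h => huniq W ⟨h.1, h.2.1⟩ h.2.2, ?_⟩⟩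
  rintro (rfl | rfl)
  · exact ⟨hW₀.1, hW₀.2, hUW₀⟩
  · exact ⟨hW₁.1, hW₁.2, hUW₁⟩

end Cfsg.Agent.S0832
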