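import Cfsg.Statements.S0833
import Mathlib
import Cfsg.Agent.Lib.Forms.TensorType

set_option autoImplicit false
open Cfsg

namespace Cfsg.Agent.S0833

open CfsgLib.Forms.TensorType TensorProduct

/-- If B₁, B₂ are non-degenerate alternating forms on U (dim 2k) and W (dim 2l), then B₁ ⊗ B₂ on U ⊗ W is symmetric, non-degenerate, and vanishes identically on some subspace of dimension 2kl (half of dim U ⊗ W). -/
theorem result {F U W : Type*} [Field F] [Fintype F] [AddCommGroup U] [Module F U] [FiniteDimensional F U] [AddCommGroup W] [Module F W] [FiniteDimensional F W] (B₁ : LinearMap.BilinForm F U) (B₂ : LinearMap.BilinForm F W) (h₁ : B₁.Nondegenerate) (h₂ : B₂.Nondegenerate) (hA₁ : B₁.IsAlt) (hA₂ : B₂.IsAlt) (k l : ℕ) (hU : Module.finrank F U = 2 * k) (hW : Module.finrank F W = 2 * l) : (B₁.tmul B₂).IsSymm ∧ (B₁.tmul B₂).Nondegenerate ∧ (∃ X : Submodule F (TensorProduct F U W), Module.finrank F X = 2 * k * l ∧ ∀ x ∈ X, ∀ y ∈ X, (B₁.tmul B₂) x y = 0) := by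
  classical
  have sw₁ : ∀ x y, B₁ y x = -B₁ x y := fun x y => (LinearMap.IsAlt.neg hA₁ x y).symm
  have sw₂ : ∀ x y, B₂ y x = -B₂ x y := fun x y => (LinearMap.IsAlt.neg hA₂ x y).symm
  have hsym := tmul_symm B₁ B₂ fun u u' w w' => by rw [sw₁ u u', sw₂ w w', neg_mul_neg]
  refine ⟨⟨fun x y => hsym x y⟩, nondeg_tmul B₁ B₂ h₁ h₂, ?_⟩
  obtain ⟨L, hL, hLd⟩ : ∃ L : Submodule F U, (∀ x ∈ L, ∀ y ∈ L, B₁ x y = 0) ∧ Module.finrank F L = k := by
    let P : ℕ → Prop := fun d => ∃ L : Submodule F U, (∀ x ∈ L, ∀ y ∈ L, B₁ x y = 0) ∧ Module.finrank F L = d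
    have h0 : P 0 := ⟨⊥, fun x hx y _ => by rw [(Submodule.mem_bot F).1 hx]; simp, finrank_bot F U⟩
    obtain ⟨L, hL, hLd⟩ := Nat.findGreatest_spec (P := P) (Nat.zero_le (2 * k)) h0
    refine ⟨L, hL, ?_⟩
    have hperp : LinearMap.BilinForm.orthogonal B₁ L ≤ L := fun x hx => by
      by_contra hxn
      have hx' : ∀ y ∈ L, B₁ y x = 0 := fun y hy => hx y hy
      have hiso : ∀ a ∈ L ⊔ Submodule.span F {x}, ∀ b ∈ L ⊔ Submodule.span F {x}, B₁ a b = 0 := by
        intro a ha b hb
        obtain ⟨a₀, ha₀, a₁, ha₁, rfl⟩ := Submodule.mem_sup.1 ha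
        obtain ⟨b₀, hb₀, b₁, hb₁, rfl⟩ := Submodule.mem_sup.1 hb
        obtain ⟨s, rfl⟩ := Submodule.mem_span_singleton.1 ha₁
        obtain ⟨t, rfl⟩ := Submodule.mem_span_singleton.1 hb₁
        simp [hL a₀ ha₀ b₀ hb₀, hx' a₀ ha₀, sw₁ b₀ x, hx' b₀ hb₀, hA₁ x]
      have hlt : L < L ⊔ Submodule.span F {x} := lt_of_le_not_ge le_sup_left fun h =>
        hxn (h (Submodule.mem_sup_right (Submodule.mem_span_singleton_self x)))
      have h1 := Submodule.finrank_lt_finrank_of_lt hlt
      have h3 := Nat.le_findGreatest (P := P) (hU ▸ Submodule.finrank_le (L ⊔ Submodule.span F {x})) ⟨_, hiso, rfl⟩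
      omega
    have hle : L ≤ LinearMap.BilinForm.orthogonal B₁ L := fun x hx y hy => hL y hy x hx
    have h1 := Submodule.finrank_mono hperp
    have h3 := Submodule.finrank_mono hle
    have h4 := LinearMap.BilinForm.finrank_orthogonal h₁ L
    have h5 := L.finrank_le
    omega
  let ι := LinearMap.rTensor W L.subtype
  refine ⟨LinearMap.range ι, ?_, ?_⟩
  · show Module.finrank F (LinearMap.range (LinearMap.rTensor W L.subtype)) = _
    rw [LinearMap.finrank_range_of_inj (Module.Flat.rTensor_preserves_injective_linearMap L.subtype L.subtype_injective),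
      Module.finrank_tensorProduct, hLd, hW]
    ring
  · rintro _ ⟨x, rfl⟩ _ ⟨y, rfl⟩
    induction x using TensorProduct.induction_on with
    | zero => simp
    | tmul u w =>
      induction y using TensorProduct.induction_on with
      | zero => simp
      | tmul u' w' =>
        show (B₁.tmul B₂) (L.subtype u ⊗ₜ[F] w) (L.subtype u' ⊗ₜ[F] w') = 0
        rw [tmul_apply, Submodule.coe_subtype, hL u.1 u.2 u'.1 u'.2, zero_mul]
      | add a a' ha ha' => simp only [map_add, ha, ha', add_zero]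
    | add a a' ha ha' => simp only [map_add, LinearMap.add_apply, ha, ha', add_zero]

end Cfsg.Agent.S0833
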