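import Cfsg.Statements.S0835
import Mathlib
import Cfsg.Agent.Lib.Forms.TensorType

set_option autoImplicit false
open Cfsg

namespace Cfsg.Agent.S0835

open CfsgLib.Forms.TensorType

/-- Over a finite field with 2 ≠ 0: if B₁ on U (dim 2k, k ≥ 1) is non-degenerate symmetric of minus type (no totally isotropic k-subspace) and B₂ on W (dim 2l + 1) is non-degenerate symmetric, then B₁ ⊗ B₂ (dimension 2k(2l+1)) admits no totally isotropic subspace of dimension k(2l+1) (minus type). -/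
theorem result {F U W : Type*} [Field F] [Fintype F] [AddCommGroup U] [Module F U] [FiniteDimensional F U] [AddCommGroup W] [Module F W] [FiniteDimensional F W] (h2 : (2 : F) ≠ 0) (B₁ : LinearMap.BilinForm F U) (B₂ : LinearMap.BilinForm F W) (h₁ : B₁.Nondegenerate) (h₂ : B₂.Nondegenerate) (hS₁ : B₁.IsSymm) (hS₂ : B₂.IsSymm) (k l : ℕ) (hk : 1 ≤ k) (hU : Module.finrank F U = 2 * k) (hW : Module.finrank F W = 2 * l + 1) (hm₁ : ¬ (∃ X : Submodule F (U), Module.finrank F X = k ∧ ∀ x ∈ X, ∀ y ∈ X, (B₁) x y = 0)) : ¬ (∃ X : Submodule F (TensorProduct F U W), Module.finrank F X = k * (2 * l + 1) ∧ ∀ x ∈ X, ∀ y ∈ X, (B₁.tmul B₂) x y = 0) := by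
  let b := Module.finBasisOfFinrankEq F U hU
  let c := Module.finBasisOfFinrankEq F W hW
  set d₁ := (LinearMap.BilinForm.toMatrix b B₁).det
  set d₂ := (LinearMap.BilinForm.toMatrix c B₂).det
  have hne := mul_ne_zero (pow_ne_zero (2 * l + 1) (det_ne B₁ h₁ b)) (pow_ne_zero (2 * k) (det_ne B₂ h₂ c))
  have hdet := det_tmul B₁ B₂ b c
  rw [Fintype.card_fin, Fintype.card_fin] at hdet
  rw [half_iff h2 (B₁.tmul B₂) (tmul_symm B₁ B₂ fun u u' w w' => by rw [hS₁.eq, hS₂.eq]) (b.tensorProduct c)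
    (hdet ▸ hne) (k * (2 * l + 1)) (Nat.mul_pos hk (by omega)) (by rw [Module.finrank_tensorProduct, hU, hW]; ring), hdet]
  rw [half_iff h2 B₁ (fun x y => hS₁.eq x y) b (det_ne B₁ h₁ b) k hk hU] at hm₁
  rintro ⟨s, hs⟩
  apply hm₁
  have hd₁ : d₁ ≠ 0 := det_ne B₁ h₁ b
  have hd₂ : d₂ ≠ 0 := det_ne B₂ h₂ c
  refine ⟨s / (((-1) ^ k) ^ l * d₁ ^ l * d₂ ^ k), ?_⟩
  field_simp
  rw [eq_comm] at hs
  ring_nf at hs ⊢
  linear_combination -hs

end Cfsg.Agent.S0835
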