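import Cfsg.Statements.S0837
import Mathlib
import Cfsg.Agent.Lib.Forms.Families
import Cfsg.Agent.Lib.Unitary.Basic
import Cfsg.Agent.Lib.Unitary.FieldNorm

set_option autoImplicit false
open Cfsg

namespace Cfsg.Agent.S0837

open scoped Matrix
open CfsgLib.Forms.Families CfsgLib.Unitary.FieldNorm CfsgLib.Unitary.Basic

/-- If W ≤ F^n (|F| = q²) is a k-dimensional subspace on which the Hermitian form Σ x_i y_i^q is non-degenerate, then the stabiliser of W in GU_n(q) is isomorphic to GU_k(q) × GU_(n−k)(q). -/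
theorem result {F : Type*} [Field F] [Fintype F] {q : ℕ} (hF : Fintype.card F = q ^ 2) (n k : ℕ) (hk : k ≤ n) (W : Submodule F (Fin n → F)) (hWk : Module.finrank F W = k) (hW : ∀ u ∈ W, (∀ v ∈ W, Cfsg.hermForm n F q u v = 0) → u = 0) : Nonempty (↥((Cfsg.stabilizing (Cfsg.glToMat (Fin n) F) (W : Set (Fin n → F))).subgroupOf (Cfsg.GU n F q)) ≃* ↥(Cfsg.GU k F q) × ↥(Cfsg.GU (n - k) F q)) := by
  have hq0 := q_ne_zero hF
  have h : Form (fun c : F => c ^ q) (Cfsg.hermForm n F q) :=
    { add_left := fun x y v => H_add_left x y v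
      smul_left := fun c x v => H_smul_left c x v
      add_right := fun v x y => H_add_right hF v x y
      smul_right := fun c v x => H_smul_right c v x
      refl := fun x y e => by rw [← H_conj hF x y, e, zero_pow hq0] }
  have hnd : ∀ (l : ℕ) (u : Fin l → F), (∀ v, Cfsg.hermForm l F q u v = 0) → u = 0 := fun l u hu => funext fun i => by
    rw [← H_single_right hq0 u i, hu]; rfl
  have hnorm : ∀ W : Submodule F (Fin n → F), W ≠ ⊥ →
      (∀ u ∈ W, (∀ v ∈ W, Cfsg.hermForm n F q u v = 0) → u = 0) → ∃ u ∈ W, Cfsg.hermForm n F q u u = 1 := by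
    intro W hW0 hWn
    obtain ⟨u, hu, hu0⟩ : ∃ u ∈ W, Cfsg.hermForm n F q u u ≠ 0 := by
      by_contra hno
      push Not at hno
      obtain ⟨x, hx, hx0⟩ := Submodule.exists_mem_ne_zero_of_ne_bot hW0
      refine hx0 (hWn x hx fun y hy => ?_)
      by_contra hxy
      obtain ⟨s, hs⟩ : ∃ s : F, s + s ^ q ≠ 0 := by
        by_contra hs
        push Not at hs
        have h1 := hs 1
        rw [one_pow] at h1
        have hid : ∀ s : F, s ^ q = s := fun s => by linear_combination hs s - s * h1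
        obtain ⟨t, ht, -, ht2⟩ := exists_unit_ne_one hF
        apply ht2
        rw [pow_succ, hid t] at ht
        rw [sq]; exact ht
      have hval := hno ((s / Cfsg.hermForm n F q x y) • x + y) (add_mem (W.smul_mem _ hx) hy)
      simp only [H_add_left, H_add_right hF, H_smul_left, H_smul_right, hno x hx, hno y hy, mul_zero, add_zero,
        zero_add] at hval
      rw [← H_conj hF x y, ← mul_pow, div_mul_cancel₀ _ hxy] at hval
      exact hs (by linear_combination hval)
    set c := Cfsg.hermForm n F q u u with hc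
    have hfix : (c⁻¹) ^ q = c⁻¹ := by rw [inv_pow, H_self_fixed hF u]
    have hcard := card_norm_fiber hF (inv_ne_zero hu0) hfix
    obtain ⟨⟨t, ht⟩⟩ : Nonempty {t : F // t ^ (q + 1) = c⁻¹} := (Nat.card_pos_iff.1 (by omega)).1
    refine ⟨t • u, W.smul_mem _ hu, ?_⟩
    rw [H_smul_left, H_smul_right, ← mul_assoc, ← pow_succ', ht, inv_mul_cancel₀ hu0]
  obtain ⟨hd, hW'⟩ := complement h (hnd n) hW
  rw [hWk, Fintype.card_fin] at hd
  obtain ⟨e, he, hee⟩ := unit_family h hnorm k W hWk hW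
  obtain ⟨e', he', hee'⟩ := unit_family h hnorm (n - k) (perp h W) (by omega) hW'
  have hsum : ∀ (l : ℕ) (e : Fin l → (Fin n → F)), (∀ i j, Cfsg.hermForm n F q (e i) (e j) = if i = j then 1 else 0) →
      ∀ a a', Cfsg.hermForm n F q (∑ i, a i • e i) (∑ i, a' i • e i) = Cfsg.hermForm l F q a a' := fun l e hee a a' => by
    rw [expand h]
    simp only [hee]
    simp [Cfsg.hermForm]
  obtain ⟨E, hE, hEW, -⟩ := exists_split h e e' (hsum k e hee) (hsum (n - k) e' hee')
    (fun i j => h.refl _ _ (he' j _ (he i))) (hnd k) (hnd (n - k)) (by simp only [Fintype.card_fin]; omega) W he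
    (by rw [hWk, Fintype.card_fin])
  have hz : ∀ (l : ℕ) (a : Fin l → F), Cfsg.hermForm l F q a 0 = 0 ∧ Cfsg.hermForm l F q 0 a = 0 := fun l a => by
    simp [Cfsg.hermForm, hq0]
  obtain ⟨iso⟩ := CfsgLib.Forms.SplitStab.stab_equiv E hE (hz k) (hz (n - k))
    (fun u hu => hnd k u fun x => by rw [← H_conj hF x u, hu x, zero_pow hq0]) W hEW
  let iso₀ : ↥((Cfsg.stabilizing (Cfsg.glToMat (Fin n) F) (W : Set (Fin n → F))).subgroupOf (Cfsg.GU n F q)) ≃*
      ↥(Cfsg.stabilizing (Cfsg.glToMat (Fin n) F) (W : Set (Fin n → F)) ⊓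
        Cfsg.preserving (Cfsg.glToMat (Fin n) F) (Cfsg.hermForm n F q)) :=
    { toFun := fun g => ⟨g.1.1, g.2, g.1.2⟩
      invFun := fun g => ⟨⟨g.1, g.2.2⟩, g.2.1⟩
      left_inv := fun g => rfl
      right_inv := fun g => rfl
      map_mul' := fun g g' => rfl }
  exact ⟨iso₀.trans iso⟩

end Cfsg.Agent.S0837
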