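import Cfsg.Statements.S0839
import Mathlib

set_option autoImplicit false
open Cfsg

namespace Cfsg.Agent.S0839

open scoped Matrix
open Matrix.SpecialLinearGroup

private theorem exists_smul_eq_single {F : Type*} [Field F] {n : ℕ} (w : Fin (n + 2) → F) (hw : w ≠ 0) :
    ∃ h : Matrix.SpecialLinearGroup (Fin (n + 2)) F, h • w = Pi.single 0 1 := by
  have he : (Pi.single 0 1 : Fin (n + 2) → F) ≠ 0 := Pi.single_ne_zero_iff.2 one_ne_zero
  haveI : MulAction.IsPretransitive (Matrix.SpecialLinearGroup (Fin (n + 2)) F)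
      (Projectivization F (Fin (n + 2) → F)) :=
    MulAction.isPretransitive_of_is_two_pretransitive
  obtain ⟨h, hh⟩ := MulAction.exists_smul_eq (Matrix.SpecialLinearGroup (Fin (n + 2)) F)
    (Projectivization.mk F w hw) (Projectivization.mk F _ he)
  rw [Projectivization.smul_mk, eq_comm, Projectivization.mk_eq_mk_iff'] at hh
  obtain ⟨a, ha⟩ := hh
  have ha0 : a ≠ 0 := by
    rintro rfl
    rw [zero_smul] at ha
    exact he ha.symm
  refine ⟨diag2n (show (0 : Fin (n + 2)) ≠ 1 by simp) a ha0 * h, ?_⟩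
  have h1 : h • w = a⁻¹ • (Pi.single 0 1 : Fin (n + 2) → F) := by rw [← ha, smul_smul, inv_mul_cancel₀ ha0, one_smul]
  rw [mul_smul, h1, smul_comm]
  ext m
  simp only [Matrix.SpecialLinearGroup.smul_def, diag2n_coe, Matrix.smul_eq_mulVec, Matrix.mulVec_diagonal,
    Pi.smul_apply, smul_eq_mul]
  by_cases hm : m = 0
  · subst hm; simp [ha0]
  · simp [Pi.single_eq_of_ne hm]

/-- Every transvection t ∈ SL_(n+2)(F) (rank(t − 1) = 1, (t − 1)² = 0) is conjugate in SL_(n+2)(F) to 1 + v·e_0ᵀ for some column vector v with v_0 = 0 (the group A of matrices that are the identity except in the first column below the diagonal); the dimension is written n + 2 ≥ 2. -/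
theorem result {F : Type*} [Field F] (n : ℕ) (t : Matrix.SpecialLinearGroup (Fin (n + 2)) F) (ht : Cfsg.IsTransvection (t : Matrix (Fin (n + 2)) (Fin (n + 2)) F)) : ∃ (g : Matrix.SpecialLinearGroup (Fin (n + 2)) F) (v : Fin (n + 2) → F), v 0 = 0 ∧ ((g⁻¹ * t * g : Matrix.SpecialLinearGroup (Fin (n + 2)) F) : Matrix (Fin (n + 2)) (Fin (n + 2)) F) = 1 + Matrix.vecMulVec v (Pi.single 0 1) := by
  obtain ⟨hrank, hsq⟩ := ht
  set N := (t : Matrix (Fin (n + 2)) (Fin (n + 2)) F) - 1 with hN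
  rw [Matrix.rank, finrank_eq_one_iff'] at hrank
  obtain ⟨⟨v₀, hv₀m⟩, hv₀, hspan⟩ := hrank
  have hv₀' : v₀ ≠ 0 := fun h => hv₀ (Subtype.ext h)
  choose w hw using fun j => hspan ⟨N *ᵥ Pi.single j 1, ⟨_, rfl⟩⟩
  have hNw : N = Matrix.vecMulVec v₀ w := by
    ext i j
    have h1 : w j • v₀ = N *ᵥ Pi.single j 1 := congrArg Subtype.val (hw j)
    have h2 := congrFun h1 i
    simp [Matrix.mulVec_single] at h2
    rw [Matrix.vecMulVec_apply, ← h2, mul_comm]
  have hw0 : w ≠ 0 := by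
    intro h0
    obtain ⟨x, hx⟩ := hv₀m
    apply hv₀'
    rw [← hx, Matrix.mulVecLin_apply, hNw, h0]
    ext i; simp [Matrix.mulVec, dotProduct, Matrix.vecMulVec_apply]
  have hdot : w ⬝ᵥ v₀ = 0 := by
    rw [hNw, Matrix.vecMulVec_mul_vecMulVec] at hsq
    by_contra h0
    obtain ⟨i, hi⟩ := Function.ne_iff.1 hv₀'
    obtain ⟨j, hj⟩ := Function.ne_iff.1 hw0
    have := congrFun (congrFun hsq i) j
    simp [Matrix.vecMulVec_apply, h0] at this
    tauto
  obtain ⟨h, hh⟩ := exists_smul_eq_single w hw0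
  refine ⟨h.transpose, ((h.transpose)⁻¹ : Matrix.SpecialLinearGroup (Fin (n + 2)) F) • v₀, ?_, ?_⟩
  · have hv : h.transpose • ((h.transpose)⁻¹ • v₀) = v₀ := smul_inv_smul _ _
    set v := (h.transpose)⁻¹ • v₀
    rw [← hv, Matrix.SpecialLinearGroup.smul_def, Matrix.smul_eq_mulVec, Matrix.dotProduct_mulVec,
      Matrix.SpecialLinearGroup.coe_transpose, Matrix.vecMul_transpose] at hdot
    rw [Matrix.SpecialLinearGroup.smul_def, Matrix.smul_eq_mulVec] at hh
    rw [hh, single_dotProduct, one_mul] at hdot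
    exact hdot
  · have ht' : (t : Matrix (Fin (n + 2)) (Fin (n + 2)) F) = 1 + Matrix.vecMulVec v₀ w := by
      rw [← hNw, hN]; abel
    rw [Matrix.SpecialLinearGroup.coe_mul, Matrix.SpecialLinearGroup.coe_mul, ht', mul_add, mul_one, add_mul,
      ← Matrix.SpecialLinearGroup.coe_mul, inv_mul_cancel, Matrix.SpecialLinearGroup.coe_one]
    congr 1
    rw [Matrix.mul_vecMulVec, Matrix.vecMulVec_mul]
    congr 1
    rw [Matrix.SpecialLinearGroup.coe_transpose, Matrix.vecMul_transpose]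
    exact hh

end Cfsg.Agent.S0839
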