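import Cfsg.Statements.S0840
import Mathlib
import Cfsg.Agent.Lib.Chars.Central

set_option autoImplicit false
open scoped ComplexConjugate
open Cfsg

namespace Cfsg.Agent.S0840

/-- Class multiplication coefficients from the character table: for elements a, b, c of a finite group G, the number of ordered pairs (x, y) with x conjugate to a, y conjugate to b and x * y = c equals the product of the sizes of the conjugacy classes of a and b, divided by the order of G, times the sum over the irreducible characters χ of χ a * χ b * conj (χ c) / χ 1. -/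
theorem result {G : Type*} [Group G] [Finite G] (a b c : G) : (Nat.card {p : G × G // IsConj a p.1 ∧ IsConj b p.2 ∧ p.1 * p.2 = c} : ℂ) = (Nat.card {x : G // IsConj a x} : ℂ) * (Nat.card {x : G // IsConj b x} : ℂ) / (Nat.card G : ℂ) * ∑ᶠ χ : Cfsg.IrrCharacter G, (χ : G → ℂ) a * (χ : G → ℂ) b * conj ((χ : G → ℂ) c) / (χ : G → ℂ) 1 := by
  classical
  haveI := Fintype.ofFinite G
  rw [finsum_eq_sum_of_fintype]
  have e : (Nat.card {p : G × G // IsConj a p.1 ∧ IsConj b p.2 ∧ p.1 * p.2 = c} : ℂ) =
      CfsgLib.Chars.conv (CfsgLib.Chars.classInd a) (CfsgLib.Chars.classInd b) c := by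
    have h1 : Nat.card {p : G × G // IsConj a p.1 ∧ IsConj b p.2 ∧ p.1 * p.2 = c} =
        Nat.card {x : G // IsConj a x ∧ IsConj b (x⁻¹ * c)} :=
      Nat.card_congr
        { toFun := fun p => ⟨p.1.1, p.2.1, by
            have hh := p.2.2.1
            have h2 : p.1.1⁻¹ * c = p.1.2 := inv_mul_eq_iff_eq_mul.2 p.2.2.2.symm
            rwa [h2]⟩
          invFun := fun x => ⟨(x.1, x.1⁻¹ * c), x.2.1, x.2.2, mul_inv_cancel_left _ _⟩
          left_inv := fun p => Subtype.ext (Prod.ext rfl (by
            exact inv_mul_eq_iff_eq_mul.2 p.2.2.2.symm))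
          right_inv := fun x => rfl }
    rw [h1, Nat.card_eq_fintype_card, Fintype.card_subtype, Finset.card_filter, Nat.cast_sum]
    simp only [CfsgLib.Chars.conv, CfsgLib.Chars.classInd]
    refine Finset.sum_congr rfl fun x _ => ?_
    by_cases hA : IsConj a x <;> by_cases hB : IsConj b (x⁻¹ * c) <;> simp only [hA, hB, if_true, if_false, and_self, and_false, false_and, Nat.cast_one, Nat.cast_zero, mul_one, mul_zero, one_mul]
  rw [e, CfsgLib.Chars.inversion (CfsgLib.Chars.IsClassFunction.conv (CfsgLib.Chars.classInd_isClassFunction a)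
    (CfsgLib.Chars.classInd_isClassFunction b)) c, Finset.mul_sum, Finset.mul_sum]
  refine Finset.sum_congr rfl fun χ _ => ?_
  rw [CfsgLib.Chars.omega_conv χ (CfsgLib.Chars.classInd_isClassFunction a) (CfsgLib.Chars.classInd_isClassFunction b),
    CfsgLib.Chars.omega_classInd (CfsgLib.Chars.IsCharacter.isClassFunction (CfsgLib.Chars.isCharacter_irr χ)),
    CfsgLib.Chars.omega_classInd (CfsgLib.Chars.IsCharacter.isClassFunction (CfsgLib.Chars.isCharacter_irr χ)),
    CfsgLib.Chars.card_isConj_eq_index, CfsgLib.Chars.card_isConj_eq_index, Cfsg.centralChar, Cfsg.centralChar]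
  field_simp [CfsgLib.Chars.irr_one_ne_zero χ]

end Cfsg.Agent.S0840
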