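import Cfsg.Statements.S0841
import Mathlib

set_option autoImplicit false
open Cfsg

namespace Cfsg.Agent.S0841

open scoped commutatorElement

/-- If the commutator subgroup of G lies in the centre, then for all x, y in G and every natural number n one has (x * y) ^ n = x ^ n * y ^ n * c ^ (n * (n - 1) / 2) with c = y⁻¹ * x⁻¹ * y * x. -/
theorem result {G : Type*} [Group G] (hG : commutator G ≤ Subgroup.center G) (x y : G) (n : ℕ) : (x * y) ^ n = x ^ n * y ^ n * (y⁻¹ * x⁻¹ * y * x) ^ (n * (n - 1) / 2) := by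
  set c := y⁻¹ * x⁻¹ * y * x with hc
  have hcc : ∀ g, g * c = c * g := fun g => Subgroup.mem_center_iff.1 (hG (by
    rw [show c = ⁅y⁻¹, x⁻¹⁆ by rw [hc, commutatorElement_def, inv_inv, inv_inv], commutator_def]
    exact Subgroup.commutator_mem_commutator (Subgroup.mem_top _) (Subgroup.mem_top _))) g
  have hyx : y * x = x * y * c := by rw [hc]; group
  have hcp : ∀ (g : G) (k : ℕ), g * c ^ k = c ^ k * g := fun g k => ((show Commute g c from hcc g).pow_right k).eq
  have hyn : ∀ n, y ^ n * x = x * y ^ n * c ^ n := by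
    intro n
    induction n with
    | zero => simp
    | succ n ih =>
      rw [pow_succ' y n, mul_assoc, ih, ← mul_assoc, ← mul_assoc, hyx, pow_succ' c n]
      rw [mul_assoc (x * y) c, ← hcc (y ^ n)]
      simp only [mul_assoc]
  induction n with
  | zero => simp
  | succ n ih =>
    have e : (n + 1) * (n + 1 - 1) / 2 = n * (n - 1) / 2 + n := by
      rcases n with _ | n
      · simp
      · simp only [Nat.add_sub_cancel]
        rw [show (n + 1 + 1) * (n + 1) = (n + 1) * n + (n + 1) * 2 by ring, Nat.add_mul_div_right _ _ (by norm_num)]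
    rw [pow_succ, ih, mul_assoc (x ^ n * y ^ n), ← hcp (x * y), ← mul_assoc, ← mul_assoc, mul_assoc (x ^ n), hyn,
      e, ← mul_assoc (x ^ n), ← mul_assoc (x ^ n), ← pow_succ x n, mul_assoc _ (c ^ n) y, ← hcp y n]
    rw [← mul_assoc, mul_assoc _ (y ^ n) y, ← pow_succ y n, mul_assoc _ (c ^ n), ← pow_add, add_comm n (n * (n - 1) / 2)]

end Cfsg.Agent.S0841
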