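import Cfsg.Statements.S0842
import Cfsg.Agent.Lib.ZStar.DerivedCent
import Mathlib.GroupTheory.Transfer
import Mathlib.GroupTheory.SpecificGroups.Cyclic

set_option autoImplicit false
open Cfsg

namespace Cfsg.Agent.S0842

theorem card_facts {G : Type*} [Group G] [Finite G] (S : Sylow 2 G) {C N : Subgroup G}
    (P : Sylow 2 C) (hSN : (S : Subgroup G) ≤ N) (hCN : C ≤ N)
    (hidx : (C.subgroupOf N).index = 2) (hT : (C.subgroupOf (S : Subgroup G)).index = 2)
    {K : Subgroup C} (hcompl : K.IsComplement' (P : Subgroup C)) (hodd : ¬ 2 ∣ Nat.card K) :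
    K.map C.subtype ⊔ ((S : Subgroup G) ⊓ C) = C ∧ K.map C.subtype ⊔ (S : Subgroup G) = N := by
  haveI : Fact (Nat.Prime 2) := ⟨Nat.prime_two⟩
  have hC2 : Nat.card C * 2 = Nat.card N := by
    rw [← Nat.card_congr (Subgroup.subgroupOfEquivOfLe hCN).toEquiv, ← hidx]
    exact (C.subgroupOf N).card_mul_index
  have hT2 : Nat.card ((S : Subgroup G) ⊓ C : Subgroup G) * 2 = Nat.card (S : Subgroup G) := by
    have h := (C.subgroupOf (S : Subgroup G)).card_mul_index
    rw [hT, ← Subgroup.inf_subgroupOf_left,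
      Nat.card_congr (Subgroup.subgroupOfEquivOfLe inf_le_left).toEquiv] at h
    exact h
  obtain ⟨j, hj⟩ := IsPGroup.iff_card.mp P.2
  have hKP : Nat.card K * Nat.card (P : Subgroup C) = Nat.card C := hcompl.card_mul
  have hle : Nat.card (P : Subgroup C) * 2 ≤ Nat.card (S : Subgroup G) := by
    have h1 : 2 ^ (j + 1) ∣ Nat.card N := by
      rw [← hC2, pow_succ, ← hj]
      exact mul_dvd_mul_right (Subgroup.card_subgroup_dvd_card _) 2
    have h2 : 2 ^ (j + 1) ∣ Nat.card (S : Subgroup G) := by
      rw [S.card_eq_multiplicity]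
      refine pow_dvd_pow 2 ?_
      exact (Nat.prime_two.pow_dvd_iff_le_factorization Nat.card_pos.ne').mp
        (h1.trans (Subgroup.card_subgroup_dvd_card N))
    rw [hj, ← pow_succ]
    exact Nat.le_of_dvd Nat.card_pos h2
  have hKc : Nat.card (K.map C.subtype) = Nat.card K :=
    Subgroup.card_map_of_injective (Subgroup.subtype_injective _)
  obtain ⟨i, hi⟩ := IsPGroup.iff_card.mp S.2
  have hcop : ∀ m : ℕ, m ∣ Nat.card (S : Subgroup G) → (Nat.card K).Coprime m := fun m hm =>
    Nat.Coprime.coprime_dvd_right hm (by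
      rw [hi]
      exact Nat.Coprime.pow_right _ ((Nat.prime_two.coprime_iff_not_dvd).mpr hodd).symm)
  refine ⟨?_, ?_⟩
  · refine Subgroup.eq_of_le_of_card_ge (sup_le (Subgroup.map_subtype_le K) inf_le_right) ?_
    refine le_trans ?_ (Nat.le_of_dvd Nat.card_pos ((hcop _ ⟨2, hT2.symm⟩).mul_dvd_of_dvd_of_dvd
      (hKc ▸ Subgroup.card_dvd_of_le le_sup_left) (Subgroup.card_dvd_of_le le_sup_right)))
    rw [← hKP]
    exact Nat.mul_le_mul_left _ (by omega)
  · refine Subgroup.eq_of_le_of_card_ge (sup_le ((Subgroup.map_subtype_le K).trans hCN) hSN) ?_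
    refine le_trans ?_ (Nat.le_of_dvd Nat.card_pos ((hcop _ dvd_rfl).mul_dvd_of_dvd_of_dvd
      (hKc ▸ Subgroup.card_dvd_of_le le_sup_left) (Subgroup.card_dvd_of_le le_sup_right)))
    rw [← hC2, ← hKP, mul_assoc]
    exact Nat.mul_le_mul_left _ hle


/-- Suppose a Sylow 2-subgroup S of the finite group G is generalized quaternion of order at least 16, and let D be the commutator subgroup of S, C its centralizer and N its normalizer in G. Then there is a subgroup K of odd order, contained in C and normalized by N, with K ⊔ S = N and K ⊔ (S ⊓ C) = C, and C has index 2 in N. -/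
theorem result {G : Type*} [Group G] [Finite G] (S : Sylow 2 G) (n : ℕ) (e : (S : Subgroup G) ≃* QuaternionGroup (2 ^ (n + 2))) (D : Subgroup G) (hD : D = ⁅(S : Subgroup G), (S : Subgroup G)⁆) : ∃ K : Subgroup G, Odd (Nat.card K) ∧ K ≤ Subgroup.centralizer (D : Set G) ∧ Subgroup.normalizer (D : Set G) ≤ Subgroup.normalizer (K : Set G) ∧ K ⊔ (S : Subgroup G) = Subgroup.normalizer (D : Set G) ∧ K ⊔ ((S : Subgroup G) ⊓ Subgroup.centralizer (D : Set G)) = Subgroup.centralizer (D : Set G) ∧ ((Subgroup.centralizer (D : Set G)).subgroupOf (Subgroup.normalizer (D : Set G))).index = 2 := by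
  classical
  haveI : Fact (Nat.Prime 2) := ⟨Nat.prime_two⟩
  haveI : NeZero (2 ^ (n + 2)) := ⟨pow_ne_zero _ two_ne_zero⟩
  obtain ⟨hgen, hord⟩ := CfsgLib.ZStar.derived_generator S e
  rw [← hD] at hgen
  have hN4 : 4 ∣ 2 ^ (n + 2) := ⟨2 ^ n, by ring⟩
  obtain ⟨P⟩ : Nonempty (Sylow 2 (Subgroup.centralizer (D : Set G))) := inferInstance
  haveI hPc := CfsgLib.ZStar.centralizer_sylow_cyclic S hN4 e hD P
  set d : G := ((e.symm (QuaternionGroup.a 2) : (S : Subgroup G)) : G)
  have hdD : d ∈ D := hgen ▸ Subgroup.mem_zpowers d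
  have hdc : ∀ g : G, g ∈ Subgroup.centralizer (D : Set G) ↔ d * g = g * d := fun g =>
    ⟨fun h => h d hdD, fun h a ha => by
      rw [SetLike.mem_coe, hgen] at ha
      obtain ⟨i, rfl⟩ := Subgroup.mem_zpowers_iff.mp ha
      exact ((show Commute d g from h).zpow_left i).eq⟩
  have hdS : d ∈ S := (e.symm (QuaternionGroup.a 2)).2
  have hdC : d ∈ Subgroup.centralizer (D : Set G) := (hdc d).mpr rfl
  have hmin : (Nat.card (Subgroup.centralizer (D : Set G))).minFac = 2 := by
    refine (Nat.minFac_eq_two_iff _).mpr ?_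
    have h : orderOf d ∣ Nat.card (Subgroup.centralizer (D : Set G)) := by
      rw [← Subgroup.orderOf_mk d hdC]; exact orderOf_dvd_natCard _
    rw [hord] at h
    exact (dvd_pow_self 2 (by omega)).trans h
  set f := MonoidHom.transferSylow P (hPc.normalizer_le_centralizer hmin)
  have hcompl := MonoidHom.ker_transferSylow_isComplement' P (hPc.normalizer_le_centralizer hmin)
  have hkodd : ¬ 2 ∣ Nat.card f.ker := by
    have h := hcompl.index_eq_card
    intro h2
    refine P.not_dvd_index ?_
    rw [h]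
    exact h2
  have hmemK : ∀ m, m ∈ f.ker ↔ ¬ 2 ∣ orderOf m := fun m => by
    refine ⟨fun hm h => hkodd (h.trans (by rw [← Subgroup.orderOf_mk m hm]; exact orderOf_dvd_natCard _)),
      fun hm => ?_⟩
    obtain ⟨j, hj⟩ := IsPGroup.iff_orderOf.mp P.2 (f m)
    have h1 : orderOf (f m) ∣ orderOf m := orderOf_map_dvd f m
    rw [hj] at h1
    rcases Nat.eq_zero_or_pos j with h0 | h0
    · rw [h0, pow_zero] at hj; exact orderOf_eq_one_iff.mp hj
    · exact absurd ((dvd_pow_self 2 h0.ne').trans h1) hm
  have hSN : (S : Subgroup G) ≤ Subgroup.normalizer (D : Set G) := by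
    intro s hs
    rw [Subgroup.mem_normalizer_iff]
    have hconj : ∀ s : G, s ∈ S → ∀ a ∈ D, s * a * s⁻¹ ∈ D := by
      intro s hs a ha
      have key : ∀ q : QuaternionGroup (2 ^ (n + 2)),
          q * QuaternionGroup.a 2 * q⁻¹ = QuaternionGroup.a 2 ∨
            q * QuaternionGroup.a 2 * q⁻¹ = (QuaternionGroup.a 2)⁻¹ := by
        intro q
        cases q with
        | a i =>
          left
          simp only [CfsgLib.ZStar.qinv_a, QuaternionGroup.a_mul_a, QuaternionGroup.a.injEq]
          ring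
        | xa i =>
          right
          simp only [CfsgLib.ZStar.qinv_a, CfsgLib.ZStar.qinv_xa, QuaternionGroup.xa_mul_a,
            QuaternionGroup.xa_mul_xa, QuaternionGroup.a.injEq]
          have hN2 := ZMod.natCast_self (2 * 2 ^ (n + 2))
          push_cast at hN2 ⊢
          linear_combination hN2
      rw [hgen] at ha ⊢
      obtain ⟨i, rfl⟩ := Subgroup.mem_zpowers_iff.mp ha
      rw [← conj_zpow]
      refine zpow_mem ?_ i
      rcases key (e ⟨s, hs⟩) with h | h <;>
        replace h := congrArg (fun w => ((e.symm w : (S : Subgroup G)) : G)) h <;>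
        simp only [map_mul, map_inv, MulEquiv.symm_apply_apply, Subgroup.coe_mul,
          InvMemClass.coe_inv] at h <;> rw [h]
      · exact Subgroup.mem_zpowers _
      · exact inv_mem (Subgroup.mem_zpowers _)
    intro a
    refine ⟨hconj s hs a, fun h => ?_⟩
    have := hconj s⁻¹ (inv_mem hs) _ h
    simpa [mul_assoc] using this
  have hCn : ∀ g ∈ Subgroup.normalizer (D : Set G), ∀ x ∈ Subgroup.centralizer (D : Set G),
      g * x * g⁻¹ ∈ Subgroup.centralizer (D : Set G) := by
    intro g hg x hx a ha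
    rw [Subgroup.mem_normalizer_iff] at hg
    have ha' : g⁻¹ * a * g ∈ D := (hg _).mpr (by
      rw [show g * (g⁻¹ * a * g) * g⁻¹ = a by group]; exact ha)
    have h := hx _ ha'
    calc a * (g * x * g⁻¹) = g * ((g⁻¹ * a * g) * x) * g⁻¹ := by group
      _ = g * (x * (g⁻¹ * a * g)) * g⁻¹ := by rw [h]
      _ = g * x * g⁻¹ * a := by group
  haveI hCN : ((Subgroup.centralizer (D : Set G)).subgroupOf
      (Subgroup.normalizer (D : Set G))).Normal :=
    ⟨fun x hx g => hCn _ g.2 _ hx⟩
  have hCle : Subgroup.centralizer (D : Set G) ≤ Subgroup.normalizer (D : Set G) :=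
    Subgroup.centralizer_le_normalizer _
  -- odd order elements of the normaliser centralise
  have hoddC : ∀ g ∈ Subgroup.normalizer (D : Set G), ¬ 2 ∣ orderOf g →
      g ∈ Subgroup.centralizer (D : Set G) := by
    intro g hg hodd
    rw [Subgroup.mem_normalizer_iff] at hg
    obtain ⟨k, hk⟩ : ∃ k : ℕ, g * d * g⁻¹ = d ^ k := by
      have h := (hg d).mp hdD
      rw [hgen, mem_zpowers_iff_mem_range_orderOf] at h
      obtain ⟨k, -, hk⟩ := Finset.mem_image.mp h
      exact ⟨k, hk.symm⟩
    have hpow : ∀ j : ℕ, g ^ j * d * (g ^ j)⁻¹ = d ^ (k ^ j) := by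
      intro j
      induction j with
      | zero => simp
      | succ j ih =>
        calc g ^ (j + 1) * d * (g ^ (j + 1))⁻¹ = g * (g ^ j * d * (g ^ j)⁻¹) * g⁻¹ := by
              rw [pow_succ']; group
          _ = (g * d * g⁻¹) ^ (k ^ j) := by rw [ih, conj_pow]
          _ = d ^ (k ^ (j + 1)) := by rw [hk, ← pow_mul, pow_succ']
    have h1 : d ^ (k ^ orderOf g) = d ^ 1 := by
      rw [← hpow, pow_orderOf_eq_one]; simp
    rw [pow_eq_pow_iff_modEq, hord] at h1
    have hcop : Nat.Coprime k (2 ^ (n + 2)) := by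
      have h2 : Nat.Coprime (k ^ orderOf g) (2 ^ (n + 2)) := by
        rw [Nat.Coprime, Nat.ModEq.gcd_eq h1, Nat.gcd_one_left]
      exact (Nat.coprime_pow_left_iff (orderOf_pos g) _ _).mp h2
    set u := ZMod.unitOfCoprime k hcop
    have hu1 : u ^ orderOf g = 1 := Units.ext (by
      simp only [u, Units.val_pow_eq_pow_val, ZMod.coe_unitOfCoprime, Units.val_one]
      exact_mod_cast (ZMod.natCast_eq_natCast_iff _ _ _).mpr h1)
    have hu2 : u ^ (2 ^ (n + 1)) = 1 := by
      have h3 := ZMod.pow_totient u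
      have ht : Nat.totient (2 ^ (n + 2)) = 2 ^ (n + 1) := by
        rw [Nat.totient_prime_pow_succ Nat.prime_two (n + 1)]
        norm_num
      rwa [ht] at h3
    have hu : u = 1 := by
      rw [← orderOf_eq_one_iff]
      exact Nat.eq_one_of_dvd_coprimes
        (Nat.Coprime.pow_right _ ((Nat.prime_two.coprime_iff_not_dvd).mpr hodd).symm)
        (orderOf_dvd_of_pow_eq_one hu1) (orderOf_dvd_of_pow_eq_one hu2)
    have hk1 : d ^ k = d ^ 1 := by
      rw [pow_eq_pow_iff_modEq, hord, ← ZMod.natCast_eq_natCast_iff]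
      simpa [u] using congrArg Units.val hu
    rw [hdc]
    rw [pow_one, ← hk, mul_inv_eq_iff_eq_mul] at hk1
    exact hk1.symm
  -- the index is two
  set T := ((Subgroup.centralizer (D : Set G)).subgroupOf (S : Subgroup G))
  have hT : T.index = 2 := by
    rw [Subgroup.index_eq_two_iff]
    refine ⟨e.symm (QuaternionGroup.xa 0), fun b => ?_⟩
    have hmem : ∀ s : (S : Subgroup G), s ∈ T ↔
        QuaternionGroup.a 2 * e s = e s * QuaternionGroup.a 2 := fun s => by
      rw [Subgroup.mem_subgroupOf, hdc]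
      constructor
      · intro h
        have h' : e.symm (QuaternionGroup.a 2) * s = s * e.symm (QuaternionGroup.a 2) :=
          Subtype.ext h
        have := congrArg e h'
        simpa using this
      · intro h
        have := congrArg (fun w => ((e.symm w : (S : Subgroup G)) : G)) h
        simpa using this
    rw [hmem, hmem, map_mul, MulEquiv.apply_symm_apply]
    have h4 : (4 : ZMod (2 * 2 ^ (n + 2))) ≠ 0 := by
      intro h0
      have h5 : ((4 : ℕ) : ZMod (2 * 2 ^ (n + 2))) = 0 := by exact_mod_cast h0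
      rw [ZMod.natCast_eq_zero_iff] at h5
      have := Nat.le_of_dvd (by norm_num) h5
      have : 2 ^ 2 ≤ 2 ^ (n + 2) := Nat.pow_le_pow_right two_pos (by omega)
      omega
    cases e b with
    | a i =>
      refine Or.inr ⟨?_, ?_⟩
      · simp only [QuaternionGroup.a_mul_a, QuaternionGroup.a.injEq]; ring
      · simp only [QuaternionGroup.a_mul_xa, QuaternionGroup.xa_mul_a, QuaternionGroup.xa.injEq]
        intro h; exact h4 (by linear_combination -h)
    | xa i =>
      refine Or.inl ⟨?_, ?_⟩
      · simp only [QuaternionGroup.a_mul_xa, QuaternionGroup.xa_mul_xa, QuaternionGroup.a_mul_a,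
          QuaternionGroup.a.injEq]
        ring
      · simp only [QuaternionGroup.a_mul_xa, QuaternionGroup.xa_mul_a, QuaternionGroup.xa.injEq]
        intro h; exact h4 (by linear_combination -h)
  have hidx : ((Subgroup.centralizer (D : Set G)).subgroupOf
      (Subgroup.normalizer (D : Set G))).index = 2 := by
    set Cn := (Subgroup.centralizer (D : Set G)).subgroupOf (Subgroup.normalizer (D : Set G))
    set SN := S.subtype hSN
    have htop : (SN : Subgroup (Subgroup.normalizer (D : Set G))) ⊔ Cn = ⊤ := by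
      have h1 : ¬ 2 ∣ (((SN : Subgroup (Subgroup.normalizer (D : Set G))) ⊔ Cn)).index :=
        fun h => SN.not_dvd_index (h.trans (Subgroup.index_dvd_of_le le_sup_left))
      have h2 : IsPGroup 2 ((Subgroup.normalizer (D : Set G)) ⧸ Cn) := by
        intro x
        induction x using QuotientGroup.induction_on with
        | H g =>
          refine ⟨(orderOf g).factorization 2, ?_⟩
          rw [← QuotientGroup.mk_pow, QuotientGroup.eq_one_iff]
          refine hoddC _ (g ^ _).2 ?_
          rw [Subgroup.subtype_apply, Subgroup.orderOf_coe, orderOf_pow_of_dvd (pow_ne_zero _ two_ne_zero)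
            (Nat.ordProj_dvd _ _)]
          exact Nat.not_dvd_ordCompl Nat.prime_two (orderOf_pos g).ne'
      obtain ⟨j, hj⟩ := IsPGroup.iff_card.mp h2
      have h3 : (((SN : Subgroup (Subgroup.normalizer (D : Set G))) ⊔ Cn)).index ∣ 2 ^ j := by
        rw [← hj, ← Subgroup.index_eq_card]
        exact Subgroup.index_dvd_of_le le_sup_right
      obtain ⟨i, -, hi⟩ := (Nat.dvd_prime_pow Nat.prime_two).mp h3
      rcases Nat.eq_zero_or_pos i with h0 | h0
      · rw [h0, pow_zero, Subgroup.index_eq_one] at hi; exact hi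
      · exact absurd (hi ▸ dvd_pow_self 2 h0.ne') h1
    rw [← Subgroup.relIndex_top_right, ← htop, sup_comm, Subgroup.relIndex_sup_left, Subgroup.relIndex]
    refine Eq.trans ?_ hT
    exact Subgroup.index_comap_of_surjective (Subgroup.comap (Subgroup.inclusion hSN) Cn)
      (f := (Subgroup.subgroupOfEquivOfLe hSN).toMonoidHom)
      (Subgroup.subgroupOfEquivOfLe hSN).surjective
  refine ⟨f.ker.map (Subgroup.centralizer (D : Set G)).subtype, ?_, Subgroup.map_subtype_le _, ?_,
    ?_, ?_, hidx⟩
  · rw [Subgroup.card_map_of_injective (Subgroup.subtype_injective _), ← Nat.not_even_iff_odd,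
      even_iff_two_dvd]
    exact hkodd
  · intro g hg
    have hconj : ∀ g ∈ Subgroup.normalizer (D : Set G),
        ∀ x ∈ f.ker.map (Subgroup.centralizer (D : Set G)).subtype,
          g * x * g⁻¹ ∈ f.ker.map (Subgroup.centralizer (D : Set G)).subtype := by
      rintro g hg _ ⟨x, hx, rfl⟩
      refine ⟨⟨_, hCn g hg _ x.2⟩, (hmemK _).mpr ?_, rfl⟩
      rw [← Subgroup.orderOf_coe]
      change ¬ 2 ∣ orderOf (g * (x : G) * g⁻¹)
      rw [show orderOf (g * (x : G) * g⁻¹) = orderOf (x : G) from
        orderOf_injective (MulAut.conj g).toMonoidHom (MulEquiv.injective _) (x : G),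
        Subgroup.orderOf_coe]
      exact (hmemK _).mp hx
    rw [Subgroup.mem_normalizer_iff]
    intro x
    refine ⟨hconj g hg x, fun h => ?_⟩
    have := hconj g⁻¹ (inv_mem hg) _ h
    simpa [mul_assoc] using this
  · exact (card_facts S P hSN hCle hidx hT hcompl hkodd).2
  · exact (card_facts S P hSN hCle hidx hT hcompl hkodd).1

end Cfsg.Agent.S0842
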