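import Cfsg.Statements.S0843
import Cfsg.Agent.Lib.ZStar.DerivedCent

set_option autoImplicit false
open Cfsg

namespace Cfsg.Agent.S0843

/-- Suppose a Sylow 2-subgroup S of the finite group G is generalized quaternion of order at least 16; let D be the commutator subgroup of S and X the set of elements of the centralizer of D whose order is divisible by the order of D. Then D is contained in the cyclic subgroup generated by any element of X; an element of G conjugating some element of X into the centralizer of D normalizes D; and the normalizer of D maps X to itself under conjugation. -/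
theorem result {G : Type*} [Group G] [Finite G] (S : Sylow 2 G) (n : ℕ) (e : (S : Subgroup G) ≃* QuaternionGroup (2 ^ (n + 2))) (D : Subgroup G) (hD : D = ⁅(S : Subgroup G), (S : Subgroup G)⁆) : (∀ y : G, y ∈ Subgroup.centralizer (D : Set G) → Nat.card D ∣ orderOf y → D ≤ Subgroup.zpowers y) ∧ (∀ g y : G, y ∈ Subgroup.centralizer (D : Set G) → Nat.card D ∣ orderOf y → g * y * g⁻¹ ∈ Subgroup.centralizer (D : Set G) → g ∈ Subgroup.normalizer (D : Set G)) ∧ (∀ g y : G, g ∈ Subgroup.normalizer (D : Set G) → y ∈ Subgroup.centralizer (D : Set G) → Nat.card D ∣ orderOf y → g * y * g⁻¹ ∈ Subgroup.centralizer (D : Set G) ∧ Nat.card D ∣ orderOf (g * y * g⁻¹)) := by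
  have hle := fun (y : G) (hy : y ∈ Subgroup.centralizer (D : Set G))
    (hd : Nat.card D ∣ orderOf y) => CfsgLib.ZStar.derived_le_zpowers (m := n) S e hD hy hd
  refine ⟨hle, fun g y hy hd hg => ?_, fun g y hg hy hd => ?_⟩
  · have ho : orderOf (g * y * g⁻¹) = orderOf y :=
      orderOf_injective (MulAut.conj g).toMonoidHom (MulEquiv.injective _) y
    have h1 := hle y hy hd
    have h2 := hle _ hg (by rwa [ho])
    set f := (MulAut.conj g).toMonoidHom
    have hinj : Function.Injective f := MulEquiv.injective _
    have h3 : D.map f ≤ Subgroup.zpowers (g * y * g⁻¹) := by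
      refine (Subgroup.map_mono h1).trans ?_
      rw [MonoidHom.map_zpowers]
      rfl
    have h4 : (D.map f).subgroupOf (Subgroup.zpowers (g * y * g⁻¹)) =
        D.subgroupOf (Subgroup.zpowers (g * y * g⁻¹)) := by
      refine CfsgLib.ZStar.cyclic_subgroup_eq ?_
      rw [Nat.card_congr (Subgroup.subgroupOfEquivOfLe h3).toEquiv,
        Nat.card_congr (Subgroup.subgroupOfEquivOfLe h2).toEquiv,
        Subgroup.card_map_of_injective hinj]
    have h5 : D.map f = D := by
      have := congrArg (Subgroup.map (Subgroup.zpowers (g * y * g⁻¹)).subtype) h4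
      rwa [Subgroup.map_subgroupOf_eq_of_le h3, Subgroup.map_subgroupOf_eq_of_le h2] at this
    rw [Subgroup.mem_normalizer_iff]
    intro a
    refine ⟨fun ha => ?_, fun ha => ?_⟩
    · have h6 : f a ∈ D.map f := Subgroup.mem_map_of_mem f ha
      rw [h5] at h6
      exact h6
    · have h6 : f a ∈ D.map f := h5.symm ▸ ha
      obtain ⟨b, hb, hba⟩ := h6
      exact hinj hba ▸ hb
  · refine ⟨?_, ?_⟩
    · rw [Subgroup.mem_normalizer_iff] at hg
      intro a ha
      have ha' : g⁻¹ * a * g ∈ D := (hg _).mpr (by
        rw [show g * (g⁻¹ * a * g) * g⁻¹ = a by group]; exact ha)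
      have h := hy _ ha'
      calc a * (g * y * g⁻¹) = g * ((g⁻¹ * a * g) * y) * g⁻¹ := by group
        _ = g * (y * (g⁻¹ * a * g)) * g⁻¹ := by rw [h]
        _ = g * y * g⁻¹ * a := by group
    · rwa [show orderOf (g * y * g⁻¹) = orderOf y from
        orderOf_injective (MulAut.conj g).toMonoidHom (MulEquiv.injective _) y]

end Cfsg.Agent.S0843
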