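import Cfsg.Statements.S0844
import Cfsg.Agent.Lib.ZStar.GenQuat

set_option autoImplicit false
open Cfsg

namespace Cfsg.Agent.S0844

/-- Suppose a Sylow 2-subgroup S of the finite group G is generalized quaternion of order at least 16. Then G has two non-principal irreducible characters χ₁ and χ₂ with χ₁ 1 = χ₂ 1 + 1 such that χ₁ g - χ₂ g = 1 for every element g whose order is not divisible by 4. -/
theorem result {G : Type*} [Group G] [Fintype G] (S : Sylow 2 G) (n : ℕ) (e : (S : Subgroup G) ≃* QuaternionGroup (2 ^ (n + 2))) : ∃ χ₁ χ₂ : G → ℂ, Cfsg.IsIrrCharacter G χ₁ ∧ Cfsg.IsIrrCharacter G χ₂ ∧ χ₁ ≠ (fun _ => 1) ∧ χ₂ ≠ (fun _ => 1) ∧ χ₁ 1 = χ₂ 1 + 1 ∧ ∀ g : G, ¬ 4 ∣ orderOf g → χ₁ g - χ₂ g = 1 := by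
  classical
  obtain ⟨z, h1, h3, hv⟩ := CfsgLib.ZStar.norm_three_gen_quaternion S (k := n + 2) (by omega) e
  obtain ⟨a, b, ha, hb, hab, hza, hzb, hz⟩ :=
    CfsgLib.ZStar.norm_three_cases z (CfsgLib.Blocks.trivIrr G) h1 h3
  have red : ∀ g : G, ¬ 4 ∣ orderOf g →
      1 + ((z a : ℂ) * (a : G → ℂ) g + (z b : ℂ) * (b : G → ℂ) g) = 0 := by
    intro g hg
    have h := hv g hg
    rw [CfsgLib.ZStar.sum_three (fun χ : IrrCharacter G => (z χ : ℂ) * (χ : G → ℂ) g) ha hb hab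
      (fun χ p q r => by simp [hz χ p q r]), h1, Int.cast_one, one_mul] at h
    exact h
  have h0 := red 1 (by rw [orderOf_one]; omega)
  rw [CfsgLib.Chars.irr_apply_one, CfsgLib.Chars.irr_apply_one] at h0
  have h0' : (1 : ℤ) + (z a * charDegree (a : G → ℂ) + z b * charDegree (b : G → ℂ)) = 0 := by
    exact_mod_cast h0
  have pa := CfsgLib.Chars.charDegree_pos a
  have pb := CfsgLib.Chars.charDegree_pos b
  obtain ⟨c, d, hc, hd, hzc, hzd, hred⟩ : ∃ c d : IrrCharacter G, c ≠ CfsgLib.Blocks.trivIrr G ∧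
      d ≠ CfsgLib.Blocks.trivIrr G ∧ z c = -1 ∧ z d = 1 ∧ ∀ g : G, ¬ 4 ∣ orderOf g →
        (c : G → ℂ) g - (d : G → ℂ) g = 1 := by
    rcases sq_eq_one_iff.mp hza with qa | qa <;> rcases sq_eq_one_iff.mp hzb with qb | qb <;>
      rw [qa, qb] at h0'
    · omega
    · exact ⟨b, a, hb, ha, qb, qa, fun g hg => by
        have := red g hg; rw [qa, qb] at this; push_cast at this; linear_combination -this⟩
    · exact ⟨a, b, ha, hb, qa, qb, fun g hg => by
        have := red g hg; rw [qa, qb] at this; push_cast at this; linear_combination -this⟩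
    · omega
  refine ⟨(c : G → ℂ), (d : G → ℂ), c.2, d.2, fun h => hc (Subtype.ext h),
    fun h => hd (Subtype.ext h), ?_, hred⟩
  linear_combination hred 1 (by rw [orderOf_one]; omega)

end Cfsg.Agent.S0844
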