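import Cfsg.Statements.S0845
import Cfsg.Agent.Lib.ZStar.Quaternion

set_option autoImplicit false
open Cfsg
open scoped commutatorElement

namespace Cfsg.Agent.S0845

/-- Suppose a Sylow 2-subgroup S of the finite group G is generalized quaternion of order at least 16. Then G has a normal subgroup M of even order such that G / M is non-abelian, that is, M does not contain the commutator subgroup of G. -/
theorem result {G : Type*} [Group G] [Finite G] (S : Sylow 2 G) (n : ℕ) (e : (S : Subgroup G) ≃* QuaternionGroup (2 ^ (n + 2))) : ∃ M : Subgroup G, M.Normal ∧ Even (Nat.card M) ∧ ¬ commutator G ≤ M := by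
  haveI : NeZero (2 ^ (n + 2)) := ⟨pow_ne_zero _ two_ne_zero⟩
  obtain ⟨t, -, -, -, hi⟩ := CfsgLib.ZStar.quaternion_unique_involution S e
  obtain ⟨hN, -, hE, -⟩ := CfsgLib.ZStar.sup_zpowers_normal hi
  refine ⟨_, hN, hE, fun hle => ?_⟩
  set q : QuaternionGroup (2 ^ (n + 2)) := QuaternionGroup.xa 0 * QuaternionGroup.a 1 *
    (QuaternionGroup.xa 0)⁻¹ * (QuaternionGroup.a 1)⁻¹
  set c : (S : Subgroup G) := e.symm q
  have hmem : (c : G) ∈ commutator G := by
    have hc : (c : G) = ⁅((e.symm (QuaternionGroup.xa 0) : (S : Subgroup G)) : G),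
        ((e.symm (QuaternionGroup.a 1) : (S : Subgroup G)) : G)⁆ := by
      simp only [c, q, commutatorElement_def, map_mul, map_inv, Subgroup.coe_mul,
        InvMemClass.coe_inv]
    rw [hc]
    exact Subgroup.commutator_mem_commutator (Subgroup.mem_top _) (Subgroup.mem_top _)
  refine CfsgLib.ZStar.not_four_dvd_of_mem hi (hle hmem) ?_
  rw [Subgroup.orderOf_coe, MulEquiv.orderOf_eq]
  have hq : q = (QuaternionGroup.a 1)⁻¹ ^ 2 := by
    have h : QuaternionGroup.xa 0 * QuaternionGroup.a 1 * (QuaternionGroup.xa 0)⁻¹ =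
        ((QuaternionGroup.a 1 : QuaternionGroup (2 ^ (n + 2))))⁻¹ := by
      rw [mul_inv_eq_iff_eq_mul, eq_inv_mul_iff_mul_eq, QuaternionGroup.xa_mul_a,
        QuaternionGroup.a_mul_xa]
      simp
    simp only [q]
    rw [h, pow_two]
  rw [hq, orderOf_pow' _ two_ne_zero, orderOf_inv, QuaternionGroup.orderOf_a_one,
    Nat.gcd_eq_right (dvd_mul_right 2 _), Nat.mul_div_cancel_left _ two_pos]
  exact Dvd.intro (2 ^ n) (by ring)

end Cfsg.Agent.S0845
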