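import Cfsg.Statements.S0846
import Cfsg.Agent.Lib.ZStar.Quaternion

set_option autoImplicit false
open Cfsg

namespace Cfsg.Agent.S0846

/-- Suppose a Sylow 2-subgroup S of the finite group G is generalized quaternion of order at least 16. Then every Sylow 2-subgroup of the subgroup generated by the involutions of G is cyclic. -/
theorem result {G : Type*} [Group G] [Finite G] (S : Sylow 2 G) (n : ℕ) (e : (S : Subgroup G) ≃* QuaternionGroup (2 ^ (n + 2))) (Q : Sylow 2 ↥(Subgroup.closure {g : G | orderOf g = 2})) : IsCyclic Q := by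
  haveI : Fact (Nat.Prime 2) := ⟨Nat.prime_two⟩
  haveI : NeZero (2 ^ (n + 2)) := ⟨pow_ne_zero _ two_ne_zero⟩
  obtain ⟨t, ht, -, huq, hi⟩ := CfsgLib.ZStar.quaternion_unique_involution S e
  obtain ⟨-, hdvd, -, hconj⟩ := CfsgLib.ZStar.sup_zpowers_normal hi
  have hW : Subgroup.closure {g : G | orderOf g = 2} ≤ oddCore G ⊔ Subgroup.zpowers (t : G) := by
    rw [Subgroup.closure_le]
    intro g hg
    obtain ⟨R, hR⟩ := (IsPGroup.of_card (p := 2) (n := 1) (G := Subgroup.zpowers g)
      (by rw [Nat.card_zpowers, pow_one]; exact hg)).exists_le_sylow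
    obtain ⟨x, hx⟩ := MulAction.exists_smul_eq G R S
    have hm : x * g * x⁻¹ ∈ S := by
      rw [← hx]; exact Subgroup.smul_mem_pointwise_smul _ _ _ (hR (Subgroup.mem_zpowers g))
    have he : x * g * x⁻¹ = (t : G) := congrArg Subtype.val
      (huq ⟨_, hm⟩ (by rw [← Subgroup.orderOf_coe]; exact CfsgLib.Involution.orderOf_conj' hg))
    have e2 : g = x⁻¹ * (t : G) * x⁻¹⁻¹ := by rw [← he]; group
    rw [e2]
    exact hconj x⁻¹
  obtain ⟨k, hk⟩ := IsPGroup.iff_card.mp Q.2
  have hk1 : k ≤ 1 := by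
    by_contra hlt
    have h1 : 2 ^ k ∣ Nat.card (oddCore G) * 2 := by
      rw [← hk]
      exact ((Subgroup.card_subgroup_dvd_card _).trans (Subgroup.card_dvd_of_le hW)).trans hdvd
    have h2 : 2 * 2 ∣ Nat.card (oddCore G) * 2 := (pow_dvd_pow 2 (show 2 ≤ k by omega)).trans h1
    exact (Nat.not_even_iff_odd.mpr CfsgLib.ZStar.oddCore_odd)
      (even_iff_two_dvd.mpr ((Nat.mul_dvd_mul_iff_right two_pos).mp h2))
  rcases Nat.le_one_iff_eq_zero_or_eq_one.mp hk1 with rfl | rfl
  · haveI : Subsingleton Q := (Nat.card_eq_one_iff_unique.mp (by rw [hk, pow_zero])).1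
    exact inferInstance
  · exact isCyclic_of_prime_card (p := 2) (by rw [hk, pow_one])

end Cfsg.Agent.S0846
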