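import Cfsg.Statements.S0849
import Mathlib
import Cfsg.Agent.Lib.Chars.Induced

set_option autoImplicit false
open Cfsg

namespace Cfsg.Agent.S0849

open CfsgLib.Chars

/-- Let H be a subgroup of a finite group G and S a subset of H that is mapped to itself under conjugation by H, is disjoint from its conjugate by any element outside H, and is closed under inverses. Let φ be a class function of H vanishing on H away from S, and let u, v be involutions of G. Then the sum of the induced function of φ over all products a * b with a conjugate to u and b conjugate to v equals the index of H times the sum of φ (a * b) over such pairs with a and b in H. -/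
theorem result {G : Type*} [Group G] [Fintype G] (H : Subgroup G) (S : Set G) (hSH : S ⊆ H) (hHS : ∀ h ∈ H, ∀ s ∈ S, h * s * h⁻¹ ∈ S) (hTI : ∀ g : G, g ∉ H → ∀ s ∈ S, g * s * g⁻¹ ∉ S) (hinv : ∀ s ∈ S, s⁻¹ ∈ S) (φ : H → ℂ) (hφ : Cfsg.IsClassFunction H φ) (hφS : ∀ x : H, (x : G) ∉ S → φ x = 0) (u v : G) (hu : orderOf u = 2) (hv : orderOf v = 2) : ∑ᶠ p ∈ {p : G × G | IsConj u p.1 ∧ IsConj v p.2}, Cfsg.indFun H φ (p.1 * p.2) = (H.index : ℂ) * ∑ᶠ p ∈ {p : H × H | IsConj u (p.1 : G) ∧ IsConj v (p.2 : G)}, φ (p.1 * p.2) := by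
  classical
  haveI : Fintype H := Fintype.ofFinite H
  have hH : ∀ y ∈ S, ∀ a : G, a⁻¹ = a → a * y * a = y⁻¹ → a ∈ H := fun y hy a ha hay => by
    by_contra hn
    refine hTI a hn y hy ?_
    rw [ha, hay]
    exact hinv y hy
  have hkey : ∀ a b : G, a * a = 1 → b * b = 1 → a * (a * b) * a = (a * b)⁻¹ ∧ b * (a * b) * b = (a * b)⁻¹ := fun a b ha hb => by
    rw [mul_inv_rev, inv_eq_of_mul_eq_one_right ha, inv_eq_of_mul_eq_one_right hb]
    refine ⟨by rw [← mul_assoc, ha, one_mul], by rw [mul_assoc, mul_assoc, hb, mul_one]⟩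
  let P : G × G → Prop := fun p => IsConj u p.1 ∧ IsConj v p.2
  have hinv2 : ∀ a : G, IsConj u a → a⁻¹ = a := fun a ha => by
    obtain ⟨c, rfl⟩ := isConj_iff.1 ha
    have h : u * u = 1 := by rw [← pow_two, ← hu, pow_orderOf_eq_one]
    rw [inv_eq_iff_mul_eq_one, show c * u * c⁻¹ * (c * u * c⁻¹) = c * (u * u) * c⁻¹ by group, h]
    group
  have hinv3 : ∀ b : G, IsConj v b → b⁻¹ = b := fun b hb => by
    obtain ⟨c, rfl⟩ := isConj_iff.1 hb
    have h : v * v = 1 := by rw [← pow_two, ← hv, pow_orderOf_eq_one]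
    rw [inv_eq_iff_mul_eq_one, show c * v * c⁻¹ * (c * v * c⁻¹) = c * (v * v) * c⁻¹ by group, h]
    group
  have hx : ∀ x : G, ∑ p ∈ Finset.univ.filter P, extendByZero H φ (x⁻¹ * (p.1 * p.2) * x) =
      ∑ q ∈ Finset.univ.filter (fun q : H × H => IsConj u (q.1 : G) ∧ IsConj v (q.2 : G)), φ (q.1 * q.2) := by
    intro x
    have hconj : ∀ a : G, IsConj a (x⁻¹ * a * x) := fun a => isConj_iff.2 ⟨x⁻¹, by rw [inv_inv]⟩
    symm
    rw [← Finset.sum_filter_of_ne (s := Finset.univ.filter P) (p := fun p : G × G => x⁻¹ * (p.1 * p.2) * x ∈ S)]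
    swap
    · intro p _ hne
      by_contra hn
      rw [extendByZero_apply] at hne
      split_ifs at hne with h
      · exact hne (hφS _ hn)
      · exact hne rfl
    rw [← Finset.sum_filter_of_ne (s := Finset.univ.filter (fun q : H × H => IsConj u (q.1 : G) ∧ IsConj v (q.2 : G))) (p := fun q : H × H => ((q.1 * q.2 : H) : G) ∈ S)]
    swap
    · intro q _ hne
      by_contra hn
      exact hne (hφS _ hn)
    have hm : ∀ p ∈ (Finset.univ.filter P).filter (fun p => x⁻¹ * (p.1 * p.2) * x ∈ S), x⁻¹ * p.1 * x ∈ H ∧ x⁻¹ * p.2 * x ∈ H := by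
      intro p hp
      simp only [Finset.mem_filter, Finset.mem_univ, true_and, P] at hp
      have h1 := hinv2 _ (hp.1.1.trans (hconj _))
      have h2 := hinv3 _ (hp.1.2.trans (hconj _))
      have e : x⁻¹ * (p.1 * p.2) * x = (x⁻¹ * p.1 * x) * (x⁻¹ * p.2 * x) := by group
      rw [e] at hp
      refine ⟨hH _ hp.2 _ h1 ?_, hH _ hp.2 _ h2 ?_⟩
      · exact (hkey _ _ (inv_eq_iff_mul_eq_one.1 h1) (inv_eq_iff_mul_eq_one.1 h2)).1
      · exact (hkey _ _ (inv_eq_iff_mul_eq_one.1 h1) (inv_eq_iff_mul_eq_one.1 h2)).2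
    refine Finset.sum_bij' (fun (q : H × H) _ => ((x * q.1 * x⁻¹, x * q.2 * x⁻¹) : G × G))
      (fun p hp => ((⟨_, (hm p hp).1⟩, ⟨_, (hm p hp).2⟩) : H × H)) ?_ ?_ ?_ ?_ ?_
    · intro q hq
      simp only [Finset.mem_filter, Finset.mem_univ, true_and, P] at hq ⊢
      refine ⟨⟨hq.1.1.trans (isConj_iff.2 ⟨x, rfl⟩), hq.1.2.trans (isConj_iff.2 ⟨x, rfl⟩)⟩, ?_⟩
      rw [show x⁻¹ * (x * (q.1 : G) * x⁻¹ * (x * q.2 * x⁻¹)) * x = ((q.1 * q.2 : H) : G) by push_cast; group]
      exact hq.2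
    · intro p hp
      have hp' := hp
      simp only [Finset.mem_filter, Finset.mem_univ, true_and, P] at hp' ⊢
      refine ⟨⟨hp'.1.1.trans (hconj _), hp'.1.2.trans (hconj _)⟩, ?_⟩
      rw [show (((⟨_, (hm p hp).1⟩ : H) * ⟨_, (hm p hp).2⟩ : H) : G) = x⁻¹ * (p.1 * p.2) * x by
        show x⁻¹ * p.1 * x * (x⁻¹ * p.2 * x) = _; group]
      exact hp'.2
    · intro q _
      exact Prod.ext (Subtype.ext (by simp [mul_assoc])) (Subtype.ext (by simp [mul_assoc]))
    · intro p _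
      exact Prod.ext (by simp [mul_assoc]) (by simp [mul_assoc])
    · intro q _
      rw [show x⁻¹ * (x * (q.1 : G) * x⁻¹ * (x * q.2 * x⁻¹)) * x = ((q.1 * q.2 : H) : G) by push_cast; group, extendByZero_coe]
  rw [finsum_mem_eq_finite_toFinset_sum _ (Set.toFinite _), finsum_mem_eq_finite_toFinset_sum _ (Set.toFinite _)]
  rw [Finset.sum_congr (s₂ := Finset.univ.filter P) (by ext; simp [P]) (fun p _ => rfl)]
  rw [Finset.sum_congr (s₁ := Set.Finite.toFinset _) (s₂ := Finset.univ.filter (fun q : H × H => IsConj u (q.1 : G) ∧ IsConj v (q.2 : G))) (by ext; simp) (fun p _ => rfl)]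
  simp only [indFun, ← Finset.mul_sum]
  rw [Finset.sum_comm, Finset.sum_congr rfl (fun x _ => hx x), Finset.sum_const, Finset.card_univ, nsmul_eq_mul, ← Nat.card_eq_fintype_card, ← H.index_mul_card, Nat.cast_mul]
  field_simp [natCast_card_ne_zero H]

end Cfsg.Agent.S0849
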