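import Cfsg.Statements.S0850
import Mathlib
import Cfsg.Agent.Lib.TIInduce

set_option autoImplicit false
open Cfsg

namespace Cfsg.Agent.S0850

/-- Let K be a subgroup of the finite group G that meets each conjugate by an element outside its normalizer N trivially, is properly contained in N, and contains the centralizer of each of its non-identity elements (a T.I. subgroup with Frobenius normalizer). Then no element of N outside K is conjugate in G to an element of K, and for every class function ϑ of N that vanishes on N away from K and at the identity, the function induced from ϑ to G agrees with ϑ on all of N. -/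
theorem result {G : Type*} [Group G] [Fintype G] (K : Subgroup G) (hTI : ∀ g : G, g ∉ Subgroup.normalizer (K : Set G) → ∀ k ∈ K, g * k * g⁻¹ ∈ K → k = 1) (hlt : K < Subgroup.normalizer (K : Set G)) (hC : ∀ k ∈ K, k ≠ 1 → Subgroup.centralizer ({k} : Set G) ≤ K) : (∀ x ∈ Subgroup.normalizer (K : Set G), x ∉ K → ∀ g : G, g * x * g⁻¹ ∉ K) ∧ ∀ (ϑ : Subgroup.normalizer (K : Set G) → ℂ), Cfsg.IsClassFunction (Subgroup.normalizer (K : Set G)) ϑ → (∀ x : Subgroup.normalizer (K : Set G), (x : G) ∉ K → ϑ x = 0) → ϑ 1 = 0 → ∀ x : Subgroup.normalizer (K : Set G), Cfsg.indFun (Subgroup.normalizer (K : Set G)) ϑ x = ϑ x := by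
  classical
  set N := Subgroup.normalizer (K : Set G) with hN
  haveI hKN : (K.subgroupOf N).Normal := Subgroup.normal_in_normalizer
  have hcop : (Nat.card K).Coprime (K.subgroupOf N).index := by
    refine Nat.coprime_of_dvd fun p hp hpK hpi => ?_
    haveI : Fact p.Prime := ⟨hp⟩
    obtain ⟨k, hk⟩ := exists_prime_orderOf_dvd_card' p hpK
    have hkN : (k : G) ∈ N := Subgroup.le_normalizer k.2
    have hko : orderOf (⟨k, hkN⟩ : N) = p := by rw [Subgroup.orderOf_mk, Subgroup.orderOf_coe, hk]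
    have hk1 : (k : G) ≠ 1 := fun h => hp.ne_one (by rw [← hk, ← Subgroup.orderOf_coe, h, orderOf_one])
    obtain ⟨Q, hQ⟩ := (IsPGroup.of_card (n := 1) (by rw [Nat.card_zpowers, hko, pow_one]) :
      IsPGroup p (Subgroup.zpowers (⟨k, hkN⟩ : N))).exists_le_sylow
    haveI : Nontrivial (Q : Subgroup N) :=
      ⟨⟨⟨_, hQ (Subgroup.mem_zpowers _)⟩, 1, fun h => hk1 (congrArg (fun v : (Q : Subgroup N) => ((v : N) : G)) h)⟩⟩
    haveI := IsPGroup.center_nontrivial Q.2
    obtain ⟨⟨⟨⟨z, hzN⟩, hzQ⟩, hzc⟩, hz1⟩ := exists_ne (1 : Subgroup.center (Q : Subgroup N))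
    have hz1' : z ≠ 1 := fun h => hz1 (Subtype.ext (Subtype.ext (Subtype.ext h)))
    have hcomm : ∀ q : N, q ∈ (Q : Subgroup N) → (q : G) * z = z * q := fun q hq =>
      congrArg (fun v : (Q : Subgroup N) => ((v : N) : G)) (Subgroup.mem_center_iff.1 hzc ⟨q, hq⟩)
    have hzK : z ∈ K := hC k k.2 hk1 (Subgroup.mem_centralizer_singleton_iff.2
      (hcomm _ (hQ (Subgroup.mem_zpowers _))).symm)
    exact Q.not_dvd_index (hpi.trans (Subgroup.index_dvd_of_le fun q hq => hC z hzK hz1'
      (Subgroup.mem_centralizer_singleton_iff.2 (hcomm q hq))))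
  have part1 : ∀ x ∈ N, x ∉ K → ∀ g : G, g * x * g⁻¹ ∉ K := by
    intro x hx hxK g hg
    apply hxK
    have h1 : (QuotientGroup.mk' (K.subgroupOf N) ⟨x, hx⟩) = 1 := by
      rw [← orderOf_eq_one_iff]
      refine Nat.eq_one_of_dvd_coprimes hcop ?_ (orderOf_dvd_natCard _)
      refine (orderOf_map_dvd _ _).trans ?_
      rw [Subgroup.orderOf_mk, ← MulEquiv.orderOf_eq (MulAut.conj g) x]
      exact Subgroup.orderOf_mk (g * x * g⁻¹) hg ▸ orderOf_dvd_natCard _
    exact (QuotientGroup.eq_one_iff (N := K.subgroupOf N) (⟨x, hx⟩ : N)).1 h1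
  refine ⟨part1, fun ϑ hϑ hϑK hϑ1 x => ?_⟩
  by_cases hxK : (x : G) ∈ K
  · by_cases hx1 : (x : G) = 1
    · rw [hx1, CfsgLib.Chars.indFun_one, show x = 1 from Subtype.ext hx1, hϑ1, mul_zero]
    · exact CfsgLib.TIInduce.indFun_eq N K hTI ϑ hϑ hϑK x hxK hx1
  · rw [hϑK x hxK]
    simp only [Cfsg.indFun]
    rw [Finset.sum_eq_zero fun y _ => ?_, mul_zero]
    rw [CfsgLib.Chars.extendByZero_apply]
    split_ifs with hm
    · refine hϑK _ fun h => part1 x x.2 hxK y⁻¹ ?_
      rw [inv_inv]; exact h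
    · rfl

end Cfsg.Agent.S0850
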