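import Cfsg.Statements.S0851
import Mathlib
import Cfsg.Agent.Lib.FrobeniusCoherent
import Cfsg.Agent.Lib.CharAbelian
import Cfsg.Agent.S1528
import Cfsg.Agent.S0170
import Cfsg.Agent.S0136

set_option autoImplicit false
open Cfsg

open Cfsg CfsgLib.Chars CfsgLib.Virtual CfsgLib.Coherence CfsgLib.FrobeniusCoherent

namespace Cfsg.Agent.S0851

/-- Let K be a subgroup of the finite group G that meets each conjugate by an element outside its normalizer N trivially, is properly contained in N, and contains the centralizer of each of its non-identity elements (a T.I. subgroup with Frobenius normalizer). Suppose K is abelian, let e be the index of K in N, and call an irreducible character of N relevant when it takes at some element of K a value different from its degree. Then either there is exactly one relevant character and K is an elementary abelian p-group of order e + 1 for some prime p, or there are a sign ε and an injective map f from the relevant characters to the irreducible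 characters of G such that inducing χ - ξ to G gives ε (f χ - f ξ) for all relevant χ and ξ. -/
theorem result {G : Type*} [Group G] [Fintype G] (K : Subgroup G) (hTI : ∀ g : G, g ∉ Subgroup.normalizer (K : Set G) → ∀ k ∈ K, g * k * g⁻¹ ∈ K → k = 1) (hlt : K < Subgroup.normalizer (K : Set G)) (hC : ∀ k ∈ K, k ≠ 1 → Subgroup.centralizer ({k} : Set G) ≤ K) (hab : ∀ a ∈ K, ∀ b ∈ K, a * b = b * a) : (Nat.card {χ : Cfsg.IrrCharacter (Subgroup.normalizer (K : Set G)) // ∃ k : Subgroup.normalizer (K : Set G), (k : G) ∈ K ∧ (χ : ↥(Subgroup.normalizer (K : Set G)) → ℂ) k ≠ (χ : ↥(Subgroup.normalizer (K : Set G)) → ℂ) 1} = 1 ∧ ∃ p : ℕ, p.Prime ∧ Cfsg.IsElementaryAbelian p K ∧ Nat.card K = (K.subgroupOf (Subgroup.normalizer (K : Set G))).index + 1) ∨ ∃ (ε : ℂ) (f : {χ : Cfsg.IrrCharacter (Subgroup.normalizer (K : Set G)) // ∃ k : Subgroup.normalizer (K : Set G), (k : G) ∈ K ∧ (χ : ↥(Subgroup.normalizer (K : Set G)) → ℂ) k ≠ (χ : ↥(Subgroup.normalizer (K : Set G)) → ℂ) 1} → Cfsg.IrrCharacter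 G), (ε = 1 ∨ ε = -1) ∧ Function.Injective f ∧ ∀ χ ξ, Cfsg.indFun (Subgroup.normalizer (K : Set G)) ((χ.1 : ↥(Subgroup.normalizer (K : Set G)) → ℂ) - (ξ.1 : ↥(Subgroup.normalizer (K : Set G)) → ℂ)) = ε • ((f χ : G → ℂ) - (f ξ : G → ℂ)) := by
  classical
  letI := Fintype.ofFinite ↥(Subgroup.normalizer (K : Set G))
  let H := K.subgroupOf (Subgroup.normalizer (K : Set G))
  haveI hHn : H.Normal := Subgroup.normal_in_normalizer
  have hCN : ∀ h ∈ H, h ≠ 1 → Subgroup.centralizer ({h} : Set ↥(Subgroup.normalizer (K : Set G))) ≤ H :=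
    fun h hh h1 g hg => hC h hh (fun e => h1 (Subtype.ext e))
      (Subgroup.mem_centralizer_singleton_iff.2 (congrArg Subtype.val (Subgroup.mem_centralizer_singleton_iff.1 hg)))
  have hiff : ∀ χ : IrrCharacter ↥(Subgroup.normalizer (K : Set G)), χ ∈ onH H ↔ ∃ k : ↥(Subgroup.normalizer (K : Set G)), (k : G) ∈ K ∧
      (χ : ↥(Subgroup.normalizer (K : Set G)) → ℂ) k ≠ (χ : ↥(Subgroup.normalizer (K : Set G)) → ℂ) 1 := fun χ => mem_onH
  have hdeg : ∀ χ ∈ onH H, (χ : ↥(Subgroup.normalizer (K : Set G)) → ℂ) 1 = (H.index : ℂ) := by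
    intro χ hχ
    obtain ⟨h, hh, hne⟩ := mem_onH.1 hχ
    obtain ⟨φ, hφ, hind⟩ := Cfsg.Agent.S1528.result H hCN χ χ.2 ⟨h, hh, hne⟩
    have h1 : φ 1 = 1 := by
      have hd := charDegree_eq_one_of_comm (G := ↥H) (fun a b => Subtype.ext (Subtype.ext (hab _ a.2 _ b.2))) ⟨φ, hφ⟩
      have := irr_apply_one (⟨φ, hφ⟩ : IrrCharacter ↥H)
      rw [hd, Nat.cast_one] at this
      exact this
    rw [hind, indFun_one, h1, mul_one]
  have hcard : Nat.card {χ : IrrCharacter ↥(Subgroup.normalizer (K : Set G)) // ∃ k : ↥(Subgroup.normalizer (K : Set G)), (k : G) ∈ K ∧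
      (χ : ↥(Subgroup.normalizer (K : Set G)) → ℂ) k ≠ (χ : ↥(Subgroup.normalizer (K : Set G)) → ℂ) 1} = (onH H).card :=
    Nat.subtype_card _ hiff
  by_cases h1 : (onH H).card = 1
  · left
    refine ⟨hcard.trans h1, ?_⟩
    obtain ⟨η, hη⟩ := Finset.card_eq_one.1 h1
    have hηm : η ∈ onH H := hη ▸ Finset.mem_singleton_self η
    have hK : Nat.card ↥H = H.index + 1 := by
      have hM : ∑ χ ∈ (onH H)ᶜ, charDegree (χ : ↥(Subgroup.normalizer (K : Set G)) → ℂ) ^ 2 = H.index := by
        exact_mod_cast sum_compl H hCN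
      have hd : charDegree (η : ↥(Subgroup.normalizer (K : Set G)) → ℂ) = H.index := by
        have h2 := hdeg η hηm
        rw [irr_apply_one] at h2
        exact Nat.cast_injective h2
      have hs := sum_deg_sq (G := ↥(Subgroup.normalizer (K : Set G)))
      rw [← Finset.sum_add_sum_compl (onH H), hM] at hs
      rw [hη, Finset.sum_singleton, hd, ← H.index_mul_card, pow_two] at hs
      refine Nat.eq_of_mul_eq_mul_left (Nat.pos_of_ne_zero H.index_ne_zero_of_finite) ?_
      rw [← hs]; ring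
    have hK' : Nat.card K = H.index + 1 := by
      rw [← hK]; exact Nat.card_congr (Subgroup.subgroupOfEquivOfLe Subgroup.le_normalizer).symm.toEquiv
    have hconj : ∀ k ∈ H, ∀ k' ∈ H, k ≠ 1 → k' ≠ 1 → IsConj k k' := by
      intro k hk k' hk' h1k h1k'
      rw [Cfsg.Agent.S0136.result]
      intro χ
      by_cases hχ : χ ∈ onH H
      · obtain rfl : χ = η := by simpa [hη] using hχ
        have hsum : ∀ x : ↥(Subgroup.normalizer (K : Set G)), x ∈ H → x ≠ 1 →
            (χ : ↥(Subgroup.normalizer (K : Set G)) → ℂ) 1 * (χ : ↥(Subgroup.normalizer (K : Set G)) → ℂ) x +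
              ((∑ ξ ∈ (onH H)ᶜ, charDegree (ξ : ↥(Subgroup.normalizer (K : Set G)) → ℂ) ^ 2 : ℕ) : ℂ) = 0 := by
          intro x hx hx1
          have hreg := sum_deg_mul x
          rw [if_neg hx1, ← Finset.sum_add_sum_compl (onH H)] at hreg
          rw [Finset.sum_congr rfl (g := fun ξ : IrrCharacter ↥(Subgroup.normalizer (K : Set G)) =>
            ((charDegree (ξ : ↥(Subgroup.normalizer (K : Set G)) → ℂ) ^ 2 : ℕ) : ℂ))
            (fun ξ (hξ : ξ ∈ (onH H)ᶜ) => by rw [irr_apply_one, const_off hξ hx]; push_cast; ring), ← Nat.cast_sum] at hreg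
          rw [hη, Finset.sum_singleton, ← hη] at hreg
          exact hreg
        exact mul_left_cancel₀ (irr_one_ne_zero χ) (by linear_combination hsum k hk h1k - hsum k' hk' h1k')
      · have hm : χ ∈ (onH H)ᶜ := Finset.mem_compl.2 hχ
        rw [const_off hm hk, const_off hm hk']
    have hnt : 1 < Nat.card K := by
      rw [hK']
      have := Nat.pos_of_ne_zero H.index_ne_zero_of_finite
      omega
    have hpd := Nat.minFac_prime (Nat.ne_of_gt hnt)
    haveI := Fact.mk hpd
    obtain ⟨k, hk⟩ := exists_prime_orderOf_dvd_card' (Nat.card K).minFac (Nat.minFac_dvd (Nat.card K))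
    refine ⟨(Nat.card K).minFac, hpd, ⟨⟨⟨⟨fun a b => Subtype.ext (hab _ a.2 _ b.2)⟩⟩, fun a ha => ?_⟩, hK'⟩⟩
    by_cases ha1 : a = 1
    · subst ha1; exact one_pow _
    · have hk1 : (k : G) ≠ 1 := fun e => by
        rw [← Subgroup.orderOf_coe, e, orderOf_one] at hk; exact hpd.ne_one hk.symm
      obtain ⟨c, hc⟩ := isConj_iff.1 (hconj ⟨k, Subgroup.le_normalizer k.2⟩ k.2 ⟨a, Subgroup.le_normalizer ha⟩ ha
        (fun e => hk1 (congrArg Subtype.val e)) (fun e => ha1 (congrArg Subtype.val e)))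
      have h2 : (c : G) * k * (c : G)⁻¹ = a := congrArg Subtype.val hc
      rw [← h2, conj_pow, ← hk, ← Subgroup.orderOf_coe, pow_orderOf_eq_one, mul_one, mul_inv_cancel]
  · right
    let e := (onH H).equivFin
    by_cases h0 : (onH H).card = 0
    · refine ⟨1, fun χ => ?_, Or.inl rfl, fun χ => ?_, fun χ => ?_⟩ <;>
        exact absurd ((hiff χ.1).2 χ.2) (by simp [Finset.card_eq_zero.1 h0])
    obtain ⟨ε, hε, θ, hθ, hθi, hθd⟩ := Cfsg.Agent.S0170.result (K : Set G)
      (fun x hx => Subgroup.le_normalizer hx) (fun g hg s hs h => hTI g hg s hs h) (onH H).card (by omega)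
      (fun i => ((e.symm i).1 : ↥(Subgroup.normalizer (K : Set G)) → ℂ)) (fun i => (e.symm i).1.2)
      (fun i j h => e.symm.injective (Subtype.ext (Subtype.ext h)))
      (fun i x hx => vanish H hCN (e.symm i).1 (mem_onH.1 (e.symm i).2) hx)
      (fun i j => (hdeg _ (e.symm i).2).trans (hdeg _ (e.symm j).2).symm)
    refine ⟨ε, fun χ => ⟨θ (e ⟨χ.1, (hiff χ.1).2 χ.2⟩), hθ _⟩, hε, fun χ ξ h => ?_, fun χ ξ => ?_⟩
    · have := e.injective (hθi (congrArg Subtype.val h))
      exact Subtype.ext (congrArg Subtype.val this :)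
    · have h := hθd (e ⟨χ.1, (hiff χ.1).2 χ.2⟩) (e ⟨ξ.1, (hiff ξ.1).2 ξ.2⟩)
      simp only [Equiv.symm_apply_apply] at h
      rw [← h]
      funext g
      simp only [indFun, Pi.sub_apply, ← mul_sub, ← Finset.sum_sub_distrib, extendByZero_apply]
      refine congrArg _ (Finset.sum_congr rfl fun x _ => ?_)
      split_ifs <;> simp

end Cfsg.Agent.S0851
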