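import Cfsg.Statements.S4455
import Cfsg.Agent.Lib.Chars.Clifford
import Cfsg.Agent.Lib.CharDegree
import Cfsg.Agent.Lib.CliffordCorr
import Cfsg.Agent.Lib.DetChar
import Cfsg.Agent.Lib.PResidual
import Cfsg.Agent.S0867

set_option autoImplicit false
open Cfsg

namespace Cfsg.Agent.S4455

open CfsgLib.Chars 

/-- Fix a prime p and a finite group G. Let s be the sum of χ(1)² over the irreducible characters χ of G whose degree is not divisible by p and whose determinantal order o(χ) is not divisible by p. Then the order of O^p(G), the subgroup generated by the elements of order prime to p, is congruent to s modulo p. -/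
theorem result {G : Type*} [Group G] [Finite G] (p : ℕ) (hp : p.Prime) : (Nat.card (Cfsg.pResidual p G) : ℤ) ≡ (∑ᶠ χ ∈ {χ : Cfsg.IrrCharacter G | ¬ p ∣ Cfsg.charDegree (χ : G → ℂ) ∧ ¬ p ∣ Cfsg.detOrder (χ : G → ℂ)}, (Cfsg.charDegree (χ : G → ℂ) : ℤ) ^ 2) [ZMOD p] := by
  classical
  haveI := Fintype.ofFinite G
  haveI := Fact.mk hp
  haveI : Finite (IrrCharacter G) := finite_irr G
  set N := Cfsg.pResidual p G with hNdef
  haveI : N.Normal := by
    haveI := CfsgLib.PResidual.pResidual_characteristic (p := p) (G := G)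
    exact Subgroup.normal_of_characteristic _
  haveI : Fintype ↥N := Fintype.ofFinite _
  obtain ⟨k, hk⟩ : ∃ k, N.index = p ^ k := by
    obtain ⟨k, hk⟩ := IsPGroup.iff_card.mp (CfsgLib.PResidual.isPGroup_quotient (p := p) (G := G))
    exact ⟨k, by rw [← hk]; rfl⟩
  have hcopk : ∀ {m : ℕ}, ¬ p ∣ m → Nat.Coprime N.index m := fun {m} hm => by
    rw [hk]; exact ((hp.coprime_iff_not_dvd).mpr hm).pow_left k
  -- reduce to the invariant characters of degree prime to p
  let I : Finset (IrrCharacter N) := Finset.univ.filter fun θ =>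
    (∀ g, conjIrr N θ g = θ) ∧ ¬ p ∣ charDegree (θ : N → ℂ)
  let S : Finset (IrrCharacter G) := Finset.univ.filter fun χ =>
    ¬ p ∣ charDegree (χ : G → ℂ) ∧ ¬ p ∣ detOrder (χ : G → ℂ)
  have hS : (∑ᶠ χ ∈ {χ : Cfsg.IrrCharacter G | ¬ p ∣ Cfsg.charDegree (χ : G → ℂ) ∧
      ¬ p ∣ Cfsg.detOrder (χ : G → ℂ)}, (Cfsg.charDegree (χ : G → ℂ) : ℤ) ^ 2) =
      ∑ χ ∈ S, (Cfsg.charDegree (χ : G → ℂ) : ℤ) ^ 2 := by
    rw [← finsum_mem_coe_finset]
    simp [S]
  rw [hS, ← ZMod.intCast_eq_intCast_iff]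
  push_cast
  rw [← sum_deg_sq (G := ↥N), Nat.cast_sum]
  simp only [Nat.cast_pow]
  have hfix : ∑ θ : IrrCharacter N, ((charDegree (θ : N → ℂ) : ℕ) : ZMod p) ^ 2 =
      ∑ θ ∈ I, ((charDegree (θ : N → ℂ) : ℕ) : ZMod p) ^ 2 := by
    rw [← Finset.sum_filter_add_sum_filter_not Finset.univ
      (fun θ : IrrCharacter N => ∀ g, conjIrr N θ g = θ)]
    have h1 : ∑ θ ∈ Finset.univ.filter (fun θ : IrrCharacter N => ∀ g, conjIrr N θ g = θ),
        ((charDegree (θ : N → ℂ) : ℕ) : ZMod p) ^ 2 =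
        ∑ θ ∈ I, ((charDegree (θ : N → ℂ) : ℕ) : ZMod p) ^ 2 := by
      refine (Finset.sum_subset ?_ ?_).symm
      · intro θ hθ
        simp only [I, Finset.mem_filter] at hθ ⊢
        exact ⟨hθ.1, hθ.2.1⟩
      · intro θ hθ hθ'
        simp only [I, Finset.mem_filter, Finset.mem_univ, true_and] at hθ hθ'
        have hd : p ∣ charDegree (θ : N → ℂ) := not_not.mp fun h => hθ' ⟨hθ, h⟩
        rw [(CharP.cast_eq_zero_iff (ZMod p) p _).mpr hd, sq, zero_mul]
    have h2 : ∑ θ ∈ Finset.univ.filter (fun θ : IrrCharacter N => ¬ ∀ g, conjIrr N θ g = θ),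
        ((charDegree (θ : N → ℂ) : ℕ) : ZMod p) ^ 2 = 0 := by
      rw [← Finset.sum_fiberwise_of_maps_to (g := fun θ : IrrCharacter N => orbit N θ)
        (fun θ hθ => Finset.mem_image_of_mem _ hθ)]
      refine Finset.sum_eq_zero fun O hO => ?_
      obtain ⟨θ, hθ, rfl⟩ := Finset.mem_image.mp hO
      have hθ' := (Finset.mem_filter.mp hθ).2
      have hfib : (Finset.univ.filter (fun ψ : IrrCharacter N => ¬ ∀ g, conjIrr N ψ g = ψ)).filter
          (fun ψ => orbit N ψ = orbit N θ) = orbit N θ := by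
        ext ψ
        simp only [Finset.mem_filter, Finset.mem_univ, true_and]
        constructor
        · rintro ⟨-, h⟩
          rw [← h]
          exact (mem_orbit N).mpr ⟨1, (conjIrr_one N ψ).symm⟩
        · intro h
          obtain ⟨g, rfl⟩ := (mem_orbit N).mp h
          refine ⟨fun hall => hθ' fun x => ?_, ?_⟩
          · have hback : θ = conjIrr N θ g := by
              conv_lhs => rw [← conjIrr_one N θ, ← mul_inv_cancel g, conjIrr_mul, hall g⁻¹]
            rw [hback, hall x]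
          · ext η
            simp only [mem_orbit]
            constructor
            · rintro ⟨x, rfl⟩
              exact ⟨g * x, (conjIrr_mul N θ g x).symm⟩
            · rintro ⟨x, rfl⟩
              exact ⟨g⁻¹ * x, by rw [← conjIrr_mul, mul_inv_cancel_left]⟩
      have hc : ∀ ψ ∈ orbit N θ, ((charDegree (ψ : N → ℂ) : ℕ) : ZMod p) ^ 2 =
          ((charDegree (θ : N → ℂ) : ℕ) : ZMod p) ^ 2 := fun ψ hψ => by
        obtain ⟨g, rfl⟩ := (mem_orbit N).mp hψ
        rw [charDegree_conjIrr]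
      rw [hfib, Finset.sum_congr rfl hc, Finset.sum_const, nsmul_eq_mul]
      have hp0 : (((orbit N θ).card : ℕ) : ZMod p) = 0 := by
        let T : Subgroup G :=
          { carrier := {g | conjIrr N θ g = θ}
            mul_mem' := fun {a b} ha hb => by
              show conjIrr N θ (a * b) = θ
              rw [conjIrr_mul, show conjIrr N θ a = θ from ha, show conjIrr N θ b = θ from hb]
            one_mem' := conjIrr_one N θ
            inv_mem' := fun {a} ha => by
              show conjIrr N θ a⁻¹ = θ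
              nth_rewrite 1 [← show conjIrr N θ a = θ from ha]
              rw [← conjIrr_mul, mul_inv_cancel, conjIrr_one] }
        have hmem : ∀ g, g ∈ T ↔ conjIrr N θ g = θ := fun g => Iff.rfl
        have hcard := CfsgLib.CliffordCorr.card_orbit N θ hmem
        have hdvd : T.index ∣ p ^ k := hk ▸ Subgroup.index_dvd_of_le
          (CfsgLib.CliffordCorr.le_inertia N θ hmem)
        obtain ⟨j, -, hj⟩ := (Nat.dvd_prime_pow hp).mp hdvd
        rw [hcard, hj]
        rcases Nat.eq_zero_or_pos j with rfl | hjpos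
        · exfalso
          rw [pow_zero, Subgroup.index_eq_one] at hj
          exact hθ' fun g => (hmem g).mp (hj ▸ Subgroup.mem_top g)
        · rw [Nat.cast_pow, ZMod.natCast_self, zero_pow hjpos.ne']
      rw [hp0, zero_mul]
    rw [h1, h2, add_zero]
  rw [hfix]
  -- the determinantal order of characters of N is prime to p
  have hdetN : ∀ θ : IrrCharacter N, ¬ p ∣ detOrder (θ : N → ℂ) := fun θ => by
    obtain ⟨f, hf⟩ := CfsgLib.Extendible.exists_detHom θ
    have hord : detOrder (θ : N → ℂ) = orderOf f := by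
      let F : (N →* ℂˣ) →* (N → ℂ) :=
        { toFun := fun f n => (f n : ℂ), map_one' := rfl, map_mul' := fun a b => rfl }
      have hF : Function.Injective F := fun a b h => MonoidHom.ext fun n => Units.ext (congrFun h n)
      rw [← orderOf_injective F hF f]
      exact (congrArg orderOf (funext hf)).symm
    rw [hord]
    intro hdvd
    obtain ⟨m, hm⟩ := hdvd
    have hfin : IsOfFinOrder f := isOfFinOrder_iff_pow_eq_one.2 ⟨Nat.card N, Nat.card_pos,
      MonoidHom.ext fun n => by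
        rw [MonoidHom.pow_apply, ← map_pow, pow_card_eq_one', map_one, MonoidHom.one_apply]⟩
    have hall : ∀ x : G, ∀ hx : x ∈ N, f ⟨x, hx⟩ ^ m = 1 := by
      intro x hx
      induction hx using Subgroup.closure_induction with
      | mem y hy =>
        have h1 : (f ⟨y, Subgroup.subset_closure hy⟩ ^ m) ^ p = 1 := by
          rw [← pow_mul, mul_comm, ← hm, ← MonoidHom.pow_apply, pow_orderOf_eq_one, MonoidHom.one_apply]
        have h2 : (f ⟨y, Subgroup.subset_closure hy⟩ ^ m) ^ orderOf y = 1 := by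
          rw [← pow_mul, mul_comm, pow_mul, ← map_pow]
          have : (⟨y, Subgroup.subset_closure hy⟩ : ↥N) ^ orderOf y = 1 :=
            Subtype.ext (pow_orderOf_eq_one y)
          rw [this, map_one, one_pow]
        exact orderOf_eq_one_iff.1 (Nat.eq_one_of_dvd_coprimes (Nat.Coprime.symm hy)
          (orderOf_dvd_of_pow_eq_one h1) (orderOf_dvd_of_pow_eq_one h2))
      | one => rw [show (⟨1, _⟩ : ↥N) = 1 from rfl, map_one, one_pow]
      | mul a b ha hb iha ihb =>
        rw [show (⟨a * b, _⟩ : ↥N) = ⟨a, ha⟩ * ⟨b, hb⟩ from rfl, map_mul, mul_pow, iha, ihb, one_mul]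
      | inv a ha iha =>
        rw [show (⟨a⁻¹, _⟩ : ↥N) = (⟨a, ha⟩ : ↥N)⁻¹ from rfl, map_inv, inv_pow, iha, inv_one]
    have hzero : orderOf f ∣ m := orderOf_dvd_of_pow_eq_one
      (MonoidHom.ext fun n => by rw [MonoidHom.pow_apply]; exact hall n n.2)
    have hmpos : 0 < m := Nat.pos_of_mul_pos_left (hm ▸ hfin.orderOf_pos)
    have := Nat.le_of_dvd hmpos (hm ▸ hzero)
    have h2 := hp.two_le
    nlinarith
  have hcore : ∀ χ : IrrCharacter G, ¬ p ∣ charDegree (χ : G → ℂ) → ∃ θ : IrrCharacter N,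
      (∀ g, conjIrr N θ g = θ) ∧ (∀ n : N, (χ : G → ℂ) n = (θ : N → ℂ) n) ∧
      charDegree (θ : N → ℂ) = charDegree (χ : G → ℂ) := by
    intro χ hχ
    obtain ⟨θ, hθ⟩ := exists_res_constituent N χ
    obtain ⟨T, e, hNT, hmem, hdeg, he⟩ := CfsgLib.CharDegree.exists_inertia N θ χ hθ
    have hone : ∀ {m : ℕ}, m ∣ N.index → m ∣ charDegree (χ : G → ℂ) → m = 1 := fun {m} h1 h2 =>
      Nat.eq_one_of_dvd_coprimes (hcopk hχ) h1 h2
    have hT1 : T.index = 1 := hone (Subgroup.index_dvd_of_le hNT)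
      (hdeg ▸ dvd_mul_of_dvd_left (dvd_mul_right _ _) _)
    have he1 : e = 1 := hone (he.trans (Subgroup.relIndex_dvd_index_of_normal _ _))
      (hdeg ▸ dvd_mul_of_dvd_left (dvd_mul_left _ _) _)
    have hinv : ∀ g, conjIrr N θ g = θ := fun g =>
      (hmem g).mp (Subgroup.index_eq_one.mp hT1 ▸ Subgroup.mem_top g)
    rw [hT1, he1, one_mul, one_mul] at hdeg
    obtain ⟨a, -, -, hval, hdeg'⟩ := clifford N χ θ hθ
    have horb : orbit N θ = {θ} := Finset.eq_singleton_iff_unique_mem.2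
      ⟨(mem_orbit N).2 ⟨1, (conjIrr_one _ _).symm⟩, fun x hx => by
        obtain ⟨g, rfl⟩ := (mem_orbit N).1 hx
        exact hinv g⟩
    rw [horb, Finset.card_singleton, mul_one, hdeg] at hdeg'
    have ha : a = 1 := (Nat.mul_eq_right (charDegree_pos θ).ne').mp hdeg'.symm
    exact ⟨θ, hinv, fun n => by rw [hval n, ha, horb, Finset.sum_singleton, Nat.cast_one, one_mul],
      hdeg.symm⟩
  choose res hres1 hres2 hres3 using hcore
  have hexist : ∀ θ ∈ I, ∃ χ : IrrCharacter G, (∀ n : N, (χ : G → ℂ) n = (θ : N → ℂ) n) ∧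
      detOrder (χ : G → ℂ) = detOrder (θ : N → ℂ) ∧
      ∀ χ' : IrrCharacter G, (∀ n : N, (χ' : G → ℂ) n = (θ : N → ℂ) n) →
        Nat.Coprime N.index (detOrder (χ' : G → ℂ)) → χ' = χ := fun θ hθ => by
    obtain ⟨χ, ⟨h1, h2, h3⟩, h4⟩ := Cfsg.Agent.S0867.result N (θ : N → ℂ) θ.2
      (fun g n => (conjIrr_apply' N θ g n).symm.trans (congrFun (congrArg Subtype.val
        ((Finset.mem_filter.mp hθ).2.1 g)) n)) (charDegree (θ : N → ℂ)) (irr_apply_one θ)
      (hcopk (hp.not_dvd_mul (hdetN θ) (Finset.mem_filter.mp hθ).2.2))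
    exact ⟨⟨χ, h1⟩, h2, h3, fun χ' e1 e2 => Subtype.ext (h4 _ χ'.2 e1 e2)⟩
  choose ext hext1 hext2 hext3 using hexist
  have hd : ∀ θ (hθ : θ ∈ I), charDegree (ext θ hθ : G → ℂ) = charDegree (θ : N → ℂ) := fun θ hθ => by
    have h4 := hext1 θ hθ 1
    rw [OneMemClass.coe_one] at h4
    simp only [charDegree, h4]
  have hI : ∀ χ (hχ : χ ∈ S), res χ (Finset.mem_filter.mp hχ).2.1 ∈ I := fun χ hχ => by
    refine Finset.mem_filter.mpr ⟨Finset.mem_univ _, hres1 _ _, ?_⟩
    rw [hres3]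
    exact (Finset.mem_filter.mp hχ).2.1
  have hE : ∀ θ (hθ : θ ∈ I), ext θ hθ ∈ S := fun θ hθ => by
    refine Finset.mem_filter.mpr ⟨Finset.mem_univ _, ?_, ?_⟩
    · rw [hd]; exact (Finset.mem_filter.mp hθ).2.2
    · rw [hext2]; exact hdetN θ
  refine Finset.sum_bij' ext (fun χ hχ => res χ (Finset.mem_filter.mp hχ).2.1) hE hI ?_ ?_ ?_
  · intro θ hθ
    exact Subtype.ext (funext fun n => (hres2 _ _ n).symm.trans (hext1 θ hθ n))
  · intro χ hχ
    exact (hext3 _ (hI χ hχ) χ (hres2 χ _) (hcopk (Finset.mem_filter.mp hχ).2.2)).symm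
  · intro θ hθ
    rw [hd θ hθ]

end Cfsg.Agent.S4455
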