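import Cfsg.Statements.S4456
import Cfsg.Agent.Lib.Chars.Linear
import Cfsg.Agent.Lib.DetChar
import Cfsg.Agent.Lib.PResidual
import Cfsg.Agent.S4455

set_option autoImplicit false
open Cfsg

namespace Cfsg.Agent.S4456

open CfsgLib.Chars 

/-- Let p be a prime and G a finite group such that p divides the degree of every irreducible character of G of degree greater than one. Then G has a normal p-complement: a normal subgroup of order prime to p whose index is a power of p. -/
theorem result {G : Type*} [Group G] [Finite G] (p : ℕ) (hp : p.Prime) (hdeg : ∀ χ : Cfsg.IrrCharacter G, Cfsg.charDegree (χ : G → ℂ) ≠ 1 → p ∣ Cfsg.charDegree (χ : G → ℂ)) : ∃ N : Subgroup G, N.Normal ∧ (Nat.card N).Coprime p ∧ ∃ k : ℕ, N.index = p ^ k := by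
  classical
  haveI := Fintype.ofFinite G
  haveI := Fact.mk hp
  haveI : Finite (IrrCharacter G) := finite_irr G
  set N := Cfsg.pResidual p G with hNdef
  haveI hNn : N.Normal := by
    haveI := CfsgLib.PResidual.pResidual_characteristic (p := p) (G := G)
    exact Subgroup.normal_of_characteristic _
  obtain ⟨k, hk⟩ := IsPGroup.iff_card.mp (CfsgLib.PResidual.isPGroup_quotient (p := p) (G := G))
  refine ⟨N, hNn, Nat.Coprime.symm ((hp.coprime_iff_not_dvd).mpr fun hdvd => ?_), k, hk⟩
  haveI : Finite (G →* ℂˣ) := Finite.of_injective homIrr homIrr_injective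
  let A : Subgroup (G →* ℂˣ) :=
    { carrier := {f | (orderOf f).Coprime p}
      one_mem' := by simp
      mul_mem' := fun {a b} ha hb => Nat.Coprime.coprime_dvd_left
        ((Commute.all a b).orderOf_mul_dvd_lcm.trans (Nat.lcm_dvd_mul _ _)) (Nat.Coprime.mul_left ha hb)
      inv_mem' := fun {a} ha => by simpa using ha }
  have hA : ¬ p ∣ Nat.card A := fun h => by
    obtain ⟨a, ha⟩ := exists_prime_orderOf_dvd_card' p h
    have h2 : (orderOf (a : G →* ℂˣ)).Coprime p := a.2
    rw [Subgroup.orderOf_coe, ha, Nat.coprime_self] at h2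
    exact hp.ne_one h2
  have hord : ∀ f : G →* ℂˣ, detOrder (homIrr f : G → ℂ) = orderOf f := fun f => by
    let F : (G →* ℂˣ) →* (G → ℂ) :=
      { toFun := fun f n => (f n : ℂ), map_one' := rfl, map_mul' := fun a b => rfl }
    have hF : Function.Injective F := fun a b h => MonoidHom.ext fun n => Units.ext (congrFun h n)
    rw [← orderOf_injective F hF f]
    exact congrArg orderOf (funext (CfsgLib.DetChar.detChar_hom f))
  have hsum := Cfsg.Agent.S4455.result (G := G) p hp
  have hR : (∑ᶠ χ ∈ {χ : Cfsg.IrrCharacter G | ¬ p ∣ Cfsg.charDegree (χ : G → ℂ) ∧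
      ¬ p ∣ Cfsg.detOrder (χ : G → ℂ)}, (Cfsg.charDegree (χ : G → ℂ) : ℤ) ^ 2) = (Nat.card A : ℤ) := by
    haveI := Fintype.ofFinite A
    rw [finsum_mem_congr rfl (g := fun _ : IrrCharacter G => (1 : ℤ))
      (fun χ (hχ : χ ∈ {χ : Cfsg.IrrCharacter G | ¬ p ∣ Cfsg.charDegree (χ : G → ℂ) ∧
        ¬ p ∣ Cfsg.detOrder (χ : G → ℂ)}) => by
        have h1 : charDegree (χ : G → ℂ) = 1 := not_not.mp fun h => hχ.1 (hdeg χ h)
        rw [h1]; norm_num)]
    have himg : {χ : Cfsg.IrrCharacter G | ¬ p ∣ Cfsg.charDegree (χ : G → ℂ) ∧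
        ¬ p ∣ Cfsg.detOrder (χ : G → ℂ)} =
        ((Finset.univ : Finset A).image fun f : A => homIrr (f : G →* ℂˣ) : Set (IrrCharacter G)) := by
      ext χ
      simp only [Set.mem_ofPred_eq, Finset.coe_image, Finset.coe_univ, Set.image_univ, Set.mem_range]
      constructor
      · intro hχ
        have h1 : charDegree (χ : G → ℂ) = 1 := not_not.mp fun h => hχ.1 (hdeg χ h)
        obtain ⟨f, rfl⟩ := exists_homIrr χ h1
        exact ⟨⟨f, Nat.Coprime.symm ((hp.coprime_iff_not_dvd).mpr (hord f ▸ hχ.2))⟩, rfl⟩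
      · rintro ⟨f, rfl⟩
        refine ⟨?_, ?_⟩
        · rw [charDegree_hom]; exact hp.not_dvd_one
        · rw [hord]
          exact (hp.coprime_iff_not_dvd).mp (Nat.Coprime.symm f.2)
    rw [himg, finsum_mem_coe_finset, Finset.sum_const, nsmul_one,
      Finset.card_image_of_injective _ (fun a b h => Subtype.ext (homIrr_injective h)),
      Finset.card_univ, Nat.card_eq_fintype_card]
  rw [hR, Int.natCast_modEq_iff] at hsum
  exact hA ((Nat.ModEq.dvd_iff hsum dvd_rfl).mp hdvd)

end Cfsg.Agent.S4456
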