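import Cfsg.Statements.S0855
import Mathlib
import Cfsg.Agent.S4456
import Cfsg.Agent.S0169
import Cfsg.Agent.Lib.Chars.Clifford
import Cfsg.Agent.Lib.Chars.Linear
import Cfsg.Agent.Lib.Chars.Central

set_option autoImplicit false
open Cfsg

namespace Cfsg.Agent.S0855

open CfsgLib.Chars

/-- For a finite group G and a prime p: every irreducible character of G has degree a power of p if and only if G has an abelian normal subgroup whose order is prime to p and whose index is a power of p. -/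
theorem result {G : Type*} [Group G] [Finite G] (p : ℕ) (hp : p.Prime) : (∀ χ : Cfsg.IrrCharacter G, ∃ k : ℕ, (χ : G → ℂ) 1 = (p : ℂ) ^ k) ↔ ∃ A : Subgroup G, A.Normal ∧ (∀ a ∈ A, ∀ b ∈ A, a * b = b * a) ∧ Nat.Coprime (Nat.card A) p ∧ ∃ k : ℕ, A.index = p ^ k := by
  classical
  haveI := Fintype.ofFinite G
  constructor
  · intro h
    have hdeg : ∀ χ : IrrCharacter G, ∃ k : ℕ, charDegree (χ : G → ℂ) = p ^ k := fun χ => by
      obtain ⟨k, hk⟩ := h χ
      rw [irr_apply_one] at hk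
      exact ⟨k, by exact_mod_cast hk⟩
    obtain ⟨N, hNn, hNc, k, hk⟩ := Cfsg.Agent.S4456.result p hp fun χ hne => by
      obtain ⟨j, hj⟩ := hdeg χ
      rcases Nat.eq_zero_or_pos j with rfl | hj0
      · exact absurd (hj.trans (pow_zero p)) hne
      · rw [hj]; exact dvd_pow_self p hj0.ne'
    haveI := hNn
    haveI : Fintype N := Fintype.ofFinite N
    have hlin : ∀ ψ : IrrCharacter N, charDegree (ψ : N → ℂ) = 1 := fun ψ => by
      obtain ⟨χ, hχ⟩ : ∃ χ : IrrCharacter G, classInner (indFun N (ψ : N → ℂ)) (χ : G → ℂ) ≠ 0 := by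
        by_contra hno
        push Not at hno
        have h1 := classFunction_expand (indFun_isClassFunction N (ψ : N → ℂ)) 1
        rw [indFun_one] at h1
        simp [hno, irr_one_ne_zero ψ, Subgroup.index_ne_zero_of_finite] at h1
      rw [frobenius N _ (IsCharacter.isClassFunction (isCharacter_irr χ))] at hχ
      have hχ' : classInner (fun n : N => (χ : G → ℂ) n) (ψ : N → ℂ) ≠ 0 := by
        rw [classInner_symm]
        exact fun e => hχ (by simpa using congrArg (starRingEnd ℂ) e)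
      obtain ⟨e, -, -, -, hd⟩ := clifford N χ ψ hχ'
      obtain ⟨j, hj⟩ := hdeg χ
      rw [hj] at hd
      refine Nat.eq_one_of_dvd_coprimes (hNc.pow_right j) (charDegree_dvd ψ) ?_
      rw [hd]; exact dvd_mul_left _ _
    refine ⟨N, hNn, fun a ha b hb => ?_, hNc, k, hk⟩
    have h1 := sum_deg_mul ((⟨a, ha⟩ : N) * ⟨b, hb⟩ * (⟨a, ha⟩ : N)⁻¹ * (⟨b, hb⟩ : N)⁻¹)
    have hker : ∀ ψ : IrrCharacter N, (ψ : N → ℂ) ((⟨a, ha⟩ : N) * ⟨b, hb⟩ * (⟨a, ha⟩ : N)⁻¹ * (⟨b, hb⟩ : N)⁻¹) = (ψ : N → ℂ) 1 := fun ψ => by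
      obtain ⟨f, hf⟩ := exists_homIrr ψ (hlin ψ)
      rw [← hf]
      show ((f _ : ℂˣ) : ℂ) = (f 1 : ℂˣ)
      rw [map_mul, map_mul, map_mul, map_inv, map_inv, map_one, show f ⟨a, ha⟩ * f ⟨b, hb⟩ * (f ⟨a, ha⟩)⁻¹ * (f ⟨b, hb⟩)⁻¹ = 1 from mul_inv_eq_one.2 (mul_inv_cancel_comm _ _)]
    simp only [hker] at h1
    rw [sum_deg_mul, if_pos rfl] at h1
    split_ifs at h1 with he
    · exact congrArg (Subtype.val : N → G) (mul_inv_eq_iff_eq_mul.1 (mul_inv_eq_one.1 he))
    · exact absurd h1 (natCast_card_ne_zero N)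
  · rintro ⟨A, hAn, hAc, -, k, hk⟩ ⟨χ, n, ρ, hρ, rfl⟩
    haveI := hAn
    haveI := hρ
    have h := Cfsg.Agent.S0169.result ρ A hAc
    rw [Module.finrank_fin_fun, hk, Nat.dvd_prime_pow hp] at h
    obtain ⟨j, -, hj⟩ := h
    refine ⟨j, ?_⟩
    show ρ.character 1 = _
    rw [Representation.char_one, Module.finrank_fin_fun, hj, Nat.cast_pow]

end Cfsg.Agent.S0855
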