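import Cfsg.Statements.S0856
import Mathlib
import Cfsg.Agent.Lib.CharExtra
import Cfsg.Agent.Lib.Chars.Induced

set_option autoImplicit false
open Cfsg

namespace Cfsg.Agent.S0856

/-- Let N be a normal subgroup of the finite group G and φ, ϑ irreducible characters of N that are invariant under conjugation by G, such that the pointwise product φ * ϑ is irreducible and ϑ is the restriction of an irreducible character χ of G. Then multiplication by χ is a bijection from the set of irreducible characters of G having nonzero inner product with the function induced from φ onto the set of those having nonzero inner product with the function induced from φ * ϑ. -/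
theorem result {G : Type*} [Group G] [Fintype G] (N : Subgroup G) [hN : N.Normal] (φ ϑ : N → ℂ) (hφ : Cfsg.IsIrrCharacter N φ) (hϑ : Cfsg.IsIrrCharacter N ϑ) (hφinv : ∀ (g : G) (n : N), φ ⟨g * n * g⁻¹, hN.conj_mem (n : G) n.2 g⟩ = φ n) (hϑinv : ∀ (g : G) (n : N), ϑ ⟨g * n * g⁻¹, hN.conj_mem (n : G) n.2 g⟩ = ϑ n) (hprod : Cfsg.IsIrrCharacter N (φ * ϑ)) (χ : G → ℂ) (hχ : Cfsg.IsIrrCharacter G χ) (hext : ∀ n : N, χ n = ϑ n) : Set.BijOn (fun β : G → ℂ => β * χ) {β : G → ℂ | Cfsg.IsIrrCharacter G β ∧ Cfsg.classInner (Cfsg.indFun N φ) β ≠ 0} {ψ : G → ℂ | Cfsg.IsIrrCharacter G ψ ∧ Cfsg.classInner (Cfsg.indFun N (φ * ϑ)) ψ ≠ 0} := by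
  classical
  haveI : Fintype N := Fintype.ofFinite N
  let p : Cfsg.IrrCharacter N := ⟨φ, hφ⟩
  let q : Cfsg.IrrCharacter N := ⟨φ * ϑ, hprod⟩
  let c : Cfsg.IrrCharacter G := ⟨χ, hχ⟩
  have hN : (Nat.card N : ℂ) ≠ 0 := CfsgLib.Chars.natCast_card_ne_zero N
  have hnorm : ∀ r : Cfsg.IrrCharacter N, (∀ g, CfsgLib.Chars.conjIrr N r g = r) →
      (Nat.card N : ℂ) * Cfsg.classInner (Cfsg.indFun N (r : N → ℂ)) (Cfsg.indFun N (r : N → ℂ)) = (Nat.card G : ℂ) := by
    intro r hr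
    rw [CfsgLib.CharExtra.card_mul_inner_ind N r r]
    exact congrArg _ (Nat.card_congr (Equiv.subtypeUnivEquiv hr))
  have hp : ∀ g, CfsgLib.Chars.conjIrr N p g = p := fun g =>
    Subtype.ext (funext fun n => (CfsgLib.Chars.conjIrr_apply' N p g n).trans (hφinv g n))
  have hq : ∀ g, CfsgLib.Chars.conjIrr N q g = q := fun g =>
    Subtype.ext (funext fun n => (CfsgLib.Chars.conjIrr_apply' N q g n).trans (by
      show φ _ * ϑ _ = φ n * ϑ n
      rw [hφinv g n, hϑinv g n]))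
  have heq : Cfsg.indFun N (φ * ϑ) = fun g => Cfsg.indFun N φ g * χ g := by
    funext g
    simp only [Cfsg.indFun]
    rw [mul_assoc, Finset.sum_mul]
    congr 1
    refine Finset.sum_congr rfl fun x _ => ?_
    by_cases hx : x⁻¹ * g * x ∈ N
    · rw [CfsgLib.Chars.extendByZero_coe N (φ * ϑ) ⟨_, hx⟩, CfsgLib.Chars.extendByZero_coe N φ ⟨_, hx⟩, Pi.mul_apply,
        ← hext ⟨_, hx⟩]
      congr 1
      have := CfsgLib.Chars.IsCharacter.isClassFunction (CfsgLib.Chars.isCharacter_irr c) g x⁻¹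
      rw [inv_inv] at this
      exact this
    · have hne : ¬∃ h : N, (h : G) = x⁻¹ * g * x := fun ⟨h, hh⟩ => hx (hh ▸ h.2)
      simp only [Cfsg.extendByZero]
      rw [Function.extend_apply' _ _ _ hne, Function.extend_apply' _ _ _ hne]
      simp
  have hind := CfsgLib.Chars.IsCharacter.indFun N (CfsgLib.Chars.isCharacter_irr p)
  choose m hm using CfsgLib.Chars.exists_mult hind
  have hexp : ∀ g : G, Cfsg.indFun N φ g = ∑ β : Cfsg.IrrCharacter G, (m β : ℂ) * (β : G → ℂ) g := by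
    intro g
    rw [CfsgLib.Chars.classFunction_expand (CfsgLib.Chars.IsCharacter.isClassFunction hind) g]
    exact Finset.sum_congr rfl fun β _ => by rw [hm β]
  have hbc : ∀ β : Cfsg.IrrCharacter G, Cfsg.IsCharacter G (fun g => (β : G → ℂ) g * χ g) := fun β =>
    CfsgLib.Chars.IsCharacter.mul (CfsgLib.Chars.isCharacter_irr β) (CfsgLib.Chars.isCharacter_irr c)
  choose M hM using fun β β' : Cfsg.IrrCharacter G => CfsgLib.Chars.exists_mult_character (hbc β) (hbc β')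
  have hpair : ∀ f : G → ℂ, Cfsg.classInner (Cfsg.indFun N (φ * ϑ)) f =
      ∑ β : Cfsg.IrrCharacter G, (m β : ℂ) * Cfsg.classInner (fun g => (β : G → ℂ) g * χ g) f := by
    intro f
    rw [heq, ← CfsgLib.Chars.classInner_sum]
    congr 1
    funext g
    rw [hexp, Finset.sum_mul]
    exact Finset.sum_congr rfl fun β _ => by ring
  have hconjpair : ∀ β : Cfsg.IrrCharacter G, Cfsg.classInner (fun g => (β : G → ℂ) g * χ g) (Cfsg.indFun N (φ * ϑ)) =
      ∑ β' : Cfsg.IrrCharacter G, (m β' : ℂ) * (M β β' : ℂ) := by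
    intro β
    rw [CfsgLib.Chars.classInner_symm, hpair, map_sum]
    refine Finset.sum_congr rfl fun β' _ => ?_
    rw [map_mul, map_natCast, ← CfsgLib.Chars.classInner_symm, hM]
  have h1 := hnorm q hq
  have h2 := hnorm p hp
  have hnat : ∑ β : Cfsg.IrrCharacter G, ∑ β' : Cfsg.IrrCharacter G, m β * (m β' * M β β') =
      ∑ β : Cfsg.IrrCharacter G, m β * m β := by
    have e1 : Cfsg.classInner (Cfsg.indFun N φ) (Cfsg.indFun N φ) = ∑ β : Cfsg.IrrCharacter G, (m β : ℂ) * (m β : ℂ) := by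
      conv_lhs => arg 1; rw [funext hexp]
      rw [CfsgLib.Chars.classInner_sum]
      refine Finset.sum_congr rfl fun β _ => ?_
      rw [CfsgLib.Chars.classInner_symm, show Cfsg.classInner (Cfsg.indFun N φ) (β : G → ℂ) = (m β : ℂ) from hm β, map_natCast]
    have e2 : Cfsg.classInner (Cfsg.indFun N (φ * ϑ)) (Cfsg.indFun N (φ * ϑ)) =
        ∑ β : Cfsg.IrrCharacter G, ∑ β' : Cfsg.IrrCharacter G, (m β : ℂ) * ((m β' : ℂ) * (M β β' : ℂ)) := by
      rw [hpair]
      exact Finset.sum_congr rfl fun β _ => by rw [hconjpair, Finset.mul_sum]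
    have h3 := mul_left_cancel₀ hN (h1.trans h2.symm)
    change Cfsg.classInner (Cfsg.indFun N (φ * ϑ)) (Cfsg.indFun N (φ * ϑ)) = Cfsg.classInner (Cfsg.indFun N φ) (Cfsg.indFun N φ) at h3
    rw [e1, e2] at h3
    exact_mod_cast h3
  have hdiag : ∀ β, 1 ≤ M β β := by
    intro β
    by_contra h0
    have h := hM β β
    rw [show M β β = 0 by omega, Nat.cast_zero] at h
    simp only [Cfsg.classInner, Complex.mul_conj, ← Complex.ofReal_sum] at h
    rcases mul_eq_zero.1 h with h | h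
    · exact inv_ne_zero (CfsgLib.Chars.natCast_card_ne_zero G) h
    · have h' := (Finset.sum_eq_zero_iff_of_nonneg (fun g _ => Complex.normSq_nonneg _)).1 (Complex.ofReal_eq_zero.1 h) 1 (Finset.mem_univ _)
      rw [Complex.normSq_eq_zero] at h'
      exact mul_ne_zero (CfsgLib.Chars.irr_one_ne_zero β) (CfsgLib.Chars.irr_one_ne_zero c) h'
  have hle : ∀ β, m β * m β ≤ ∑ β' : Cfsg.IrrCharacter G, m β * (m β' * M β β') := fun β =>
    le_trans (Nat.mul_le_mul_left _ (Nat.le_mul_of_pos_right _ (hdiag β)))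
      (Finset.single_le_sum (f := fun β' => m β * (m β' * M β β')) (fun _ _ => Nat.zero_le _) (Finset.mem_univ β))
  have heach : ∀ β, m β * m β = ∑ β' : Cfsg.IrrCharacter G, m β * (m β' * M β β') := fun β =>
    (Finset.sum_eq_sum_iff_of_le (fun b _ => hle b)).1 hnat.symm β (Finset.mem_univ _)
  have hM1 : ∀ β, m β ≠ 0 → M β β = 1 ∧ ∀ β', β' ≠ β → m β' ≠ 0 → M β β' = 0 := by
    intro β hβ
    have h := heach β
    rw [← Finset.add_sum_erase _ _ (Finset.mem_univ β)] at h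
    have ha := Nat.mul_le_mul_left (m β) (Nat.le_mul_of_pos_right (m β) (hdiag β))
    have hz : ∑ β' ∈ Finset.univ.erase β, m β * (m β' * M β β') = 0 := by omega
    refine ⟨?_, fun β' hne hβ' => ?_⟩
    · have hd : m β * (m β * M β β) = m β * (m β * 1) := by rw [mul_one]; omega
      exact Nat.eq_of_mul_eq_mul_left (Nat.pos_of_ne_zero hβ) (Nat.eq_of_mul_eq_mul_left (Nat.pos_of_ne_zero hβ) hd)
    · rcases Nat.mul_eq_zero.1 (Finset.sum_eq_zero_iff.1 hz β' (Finset.mem_erase.2 ⟨hne, Finset.mem_univ _⟩)) with h' | h'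
      · exact absurd h' hβ
      · exact (Nat.mul_eq_zero.1 h').resolve_left hβ'
  have hirr : ∀ β, m β ≠ 0 → Cfsg.IsIrrCharacter G (fun g => (β : G → ℂ) g * χ g) := fun β hβ =>
    CfsgLib.Chars.isIrrCharacter_of_norm_one (hbc β) (by rw [hM, (hM1 β hβ).1, Nat.cast_one])
  have hmem : ∀ β : Cfsg.IrrCharacter G, Cfsg.classInner (Cfsg.indFun N φ) (β : G → ℂ) ≠ 0 ↔ m β ≠ 0 := fun β => by
    rw [show Cfsg.classInner (Cfsg.indFun N φ) (β : G → ℂ) = (m β : ℂ) from hm β, Nat.cast_ne_zero]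
  refine ⟨?_, ?_, ?_⟩
  · rintro β ⟨hβ, hne⟩
    have hb : m ⟨β, hβ⟩ ≠ 0 := (hmem ⟨β, hβ⟩).1 hne
    refine ⟨hirr ⟨β, hβ⟩ hb, ?_⟩
    show Cfsg.classInner (Cfsg.indFun N (φ * ϑ)) (fun g => β g * χ g) ≠ 0
    rw [hpair]
    simp only [hM _ ⟨β, hβ⟩]
    intro h0
    have h4 : ∑ β' : Cfsg.IrrCharacter G, m β' * M β' ⟨β, hβ⟩ = 0 := by exact_mod_cast h0
    rcases Nat.mul_eq_zero.1 (Finset.sum_eq_zero_iff.1 h4 ⟨β, hβ⟩ (Finset.mem_univ _)) with h' | h'
    · exact hb h'
    · exact absurd h' (Nat.one_le_iff_ne_zero.1 (hdiag _))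
  · rintro β ⟨hβ, hne⟩ β' ⟨hβ', hne'⟩ heq'
    by_contra hd
    have h0 := (hM1 ⟨β, hβ⟩ ((hmem _).1 hne)).2 ⟨β', hβ'⟩ (fun e => hd (congrArg Subtype.val e).symm) ((hmem _).1 hne')
    have h5 := hM ⟨β, hβ⟩ ⟨β', hβ'⟩
    have h6 := hM ⟨β, hβ⟩ ⟨β, hβ⟩
    rw [h0, show (fun g => β' g * χ g) = (fun g => β g * χ g) from funext fun g => (congrFun heq' g).symm, h6] at h5
    exact absurd (Nat.cast_inj.1 h5) (Nat.one_le_iff_ne_zero.1 (hdiag _))
  · rintro ψ ⟨hψ, hne⟩
    rw [hpair] at hne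
    obtain ⟨β, -, hβ⟩ := Finset.exists_ne_zero_of_sum_ne_zero hne
    have hb : m β ≠ 0 := fun h => hβ (by rw [h, Nat.cast_zero, zero_mul])
    refine ⟨β, ⟨β.2, (hmem β).2 hb⟩, ?_⟩
    by_contra hne'
    have h := CfsgLib.Chars.classInner_irr (⟨_, hirr β hb⟩ : Cfsg.IrrCharacter G) ⟨ψ, hψ⟩
    rw [if_neg (fun e => hne' (congrArg Subtype.val e))] at h
    exact hβ (by rw [h, mul_zero])

end Cfsg.Agent.S0856
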