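import Cfsg.Statements.S0857
import Cfsg.Agent.Lib.CliffordCorr
import Cfsg.Agent.Lib.Chars.Linear
import Cfsg.Agent.Lib.Chars.Misc
import Cfsg.Agent.Lib.Chars.Clifford

set_option autoImplicit false
open Cfsg

namespace CfsgLib.S0857Aux

open Cfsg CfsgLib.Chars
open scoped ComplexConjugate

universe u

/-- An irreducible character of large norm on a normal subgroup with abelian quotient is fixed by a
nontrivial linear character of the quotient. -/
theorem exists_fixing {X : Type u} [Group X] [Fintype X] (M : Subgroup X) [M.Normal] [Fintype M]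
    (hab : ∀ a b : X, a * b * a⁻¹ * b⁻¹ ∈ M) (θ : IrrCharacter X)
    (h : (M.index : ℂ) * ∑ m : M, (θ : X → ℂ) m * conj ((θ : X → ℂ) m) ≠ Nat.card X) :
    ∃ f : X →* ℂˣ, (∀ m ∈ M, f m = 1) ∧ f ≠ 1 ∧ ∀ x, (f x : ℂ) * (θ : X → ℂ) x = (θ : X → ℂ) x := by
  classical
  letI : CommGroup (X ⧸ M) :=
    { (inferInstance : Group (X ⧸ M)) with
      mul_comm := fun a b => by
        induction a using QuotientGroup.induction_on with | _ a => ?_
        induction b using QuotientGroup.induction_on with | _ b => ?_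
        rw [← QuotientGroup.mk_mul, ← QuotientGroup.mk_mul, QuotientGroup.eq]
        have := hab b⁻¹ a⁻¹
        simpa [mul_assoc] using this }
  haveI : Fintype (X ⧸ M) := Fintype.ofFinite _
  haveI : Finite ((X ⧸ M) →* ℂˣ) :=
    Finite.of_equiv _ (CommGroup.monoidHom_mulEquiv_of_hasEnoughRootsOfUnity (X ⧸ M) ℂ).some.symm.toEquiv
  letI : Fintype ((X ⧸ M) →* ℂˣ) := Fintype.ofFinite _
  have hcard : Fintype.card ((X ⧸ M) →* ℂˣ) = M.index := by
    rw [← Nat.card_eq_fintype_card, Subgroup.index_eq_card]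
    exact Nat.card_congr (CommGroup.monoidHom_mulEquiv_of_hasEnoughRootsOfUnity (X ⧸ M) ℂ).some.toEquiv
  have hsum : ∀ x : X, ∑ f : (X ⧸ M) →* ℂˣ, (f (x : X ⧸ M) : ℂ) = if x ∈ M then (M.index : ℂ) else 0 := by
    intro x
    split_ifs with hx
    · simp [(QuotientGroup.eq_one_iff x).2 hx, hcard]
    · obtain ⟨f₀, hf₀⟩ := CommGroup.exists_apply_ne_one_of_hasEnoughRootsOfUnity (X ⧸ M) ℂ
        (a := (x : X ⧸ M)) (fun he => hx ((QuotientGroup.eq_one_iff x).1 he))
      have h1 : (f₀ (x : X ⧸ M) : ℂ) * ∑ f : (X ⧸ M) →* ℂˣ, (f (x : X ⧸ M) : ℂ) =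
          ∑ f : (X ⧸ M) →* ℂˣ, (f (x : X ⧸ M) : ℂ) := by
        rw [Finset.mul_sum]
        exact Fintype.sum_equiv (Equiv.mulLeft f₀) _ _ fun f => by simp
      have h2 : (f₀ (x : X ⧸ M) : ℂ) ≠ 1 := fun he => hf₀ (Units.ext he)
      exact (mul_eq_zero.1 (by linear_combination h1 :
        ((f₀ (x : X ⧸ M) : ℂ) - 1) * ∑ f : (X ⧸ M) →* ℂˣ, (f (x : X ⧸ M) : ℂ) = 0)).resolve_left
        (sub_ne_zero.2 h2)
  by_contra hc
  apply h
  have hzero : ∀ f : (X ⧸ M) →* ℂˣ, f ≠ 1 →
      ∑ x : X, (f (x : X ⧸ M) : ℂ) * ((θ : X → ℂ) x * conj ((θ : X → ℂ) x)) = 0 := by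
    intro f hf
    let g : X →* ℂˣ := f.comp (QuotientGroup.mk' M)
    have hχ : IsCharacter X (fun x => (g x : ℂ) * (θ : X → ℂ) x) :=
      IsCharacter.mul (isCharacter_hom g) (isCharacter_irr θ)
    have hirr : IsIrrCharacter X (fun x => (g x : ℂ) * (θ : X → ℂ) x) := by
      refine isIrrCharacter_of_norm_one hχ ?_
      have hn : classInner (θ : X → ℂ) (θ : X → ℂ) = 1 := by rw [classInner_irr, if_pos rfl]
      rw [← hn]
      simp only [classInner, map_mul]
      congr 1
      refine Finset.sum_congr rfl fun x _ => ?_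
      linear_combination ((θ : X → ℂ) x * conj ((θ : X → ℂ) x)) * hom_mul_conj g x
    by_cases he : (⟨_, hirr⟩ : IrrCharacter X) = θ
    · exfalso
      refine hc ⟨g, fun m hm => ?_, fun h1 => hf ?_, fun x => congrFun (congrArg Subtype.val he) x⟩
      · show f (QuotientGroup.mk' M m) = 1
        rw [QuotientGroup.mk'_apply, (QuotientGroup.eq_one_iff m).2 hm, map_one]
      · refine MonoidHom.ext fun q => ?_
        obtain ⟨x, rfl⟩ := QuotientGroup.mk'_surjective M q
        exact DFunLike.congr_fun h1 x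
    · have h0 := sum_mul_conj_irr (⟨_, hirr⟩ : IrrCharacter X) θ
      rw [if_neg he] at h0
      rw [← h0]
      exact Finset.sum_congr rfl fun x _ => by simp only [g, MonoidHom.comp_apply, QuotientGroup.mk'_apply, mul_assoc]
  have e1 : ∑ f : (X ⧸ M) →* ℂˣ, ∑ x : X, (f (x : X ⧸ M) : ℂ) * ((θ : X → ℂ) x * conj ((θ : X → ℂ) x)) =
      (Nat.card X : ℂ) := by
    rw [Finset.sum_eq_single (1 : (X ⧸ M) →* ℂˣ) (fun f _ hf => hzero f hf) (fun h => absurd (Finset.mem_univ _) h)]
    simp only [MonoidHom.one_apply, Units.val_one, one_mul]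
    rw [sum_mul_conj_irr, if_pos rfl]
  rw [← e1, Finset.sum_comm]
  simp only [← Finset.sum_mul, hsum, ite_mul, zero_mul]
  rw [← Finset.sum_filter, ← Finset.mul_sum]
  congr 1
  exact (Finset.sum_subtype _ (by simp) (fun x => (θ : X → ℂ) x * conj ((θ : X → ℂ) x))).symm

end CfsgLib.S0857Aux

open Cfsg CfsgLib.Chars
open scoped ComplexConjugate

namespace Cfsg.Agent.S0857

/-- Let L < K be normal subgroups of the finite group G with no normal subgroup of G strictly between them and with K / L abelian (the commutator subgroup of K lies in L). Let ϑ be an irreducible character of K invariant under conjugation by G. Then the restriction of ϑ to L is irreducible; or it equals e times an irreducible character of L with e ^ 2 equal to the index of L in K; or it is the sum of a family of pairwise distinct irreducible characters of L indexed by a set whose size is the index of L in K. -/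
theorem result {G : Type*} [Group G] [Fintype G] (K L : Subgroup G) [hK : K.Normal] [L.Normal] (hLK : L < K) (hchief : ∀ M : Subgroup G, M.Normal → L ≤ M → M ≤ K → M = L ∨ M = K) (hab : ⁅K, K⁆ ≤ L) (ϑ : K → ℂ) (hϑ : Cfsg.IsIrrCharacter K ϑ) (hinv : ∀ (g : G) (n : K), ϑ ⟨g * n * g⁻¹, hK.conj_mem (n : G) n.2 g⟩ = ϑ n) : Cfsg.IsIrrCharacter L (fun x : L => ϑ ⟨(x : G), hLK.le x.2⟩) ∨ (∃ (φ : L → ℂ) (e : ℕ), Cfsg.IsIrrCharacter L φ ∧ (fun x : L => ϑ ⟨(x : G), hLK.le x.2⟩) = (e : ℂ) • φ ∧ e ^ 2 = L.relIndex K) ∨ (∃ F : Finset (L → ℂ), (∀ φ ∈ F, Cfsg.IsIrrCharacter L φ) ∧ F.card = L.relIndex K ∧ (fun x : L => ϑ ⟨(x : G), hLK.le x.2⟩) = ∑ φ ∈ F, φ) := by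
    classical
    haveI : Fintype K := Fintype.ofFinite _
    haveI : Fintype L := Fintype.ofFinite _
    let N : Subgroup K := L.subgroupOf K
    haveI hN : N.Normal := inferInstanceAs (L.subgroupOf K).Normal
    haveI : Fintype N := Fintype.ofFinite _
    let θ : IrrCharacter K := ⟨ϑ, hϑ⟩
    let eL : L ≃* N := (Subgroup.subgroupOfEquivOfLe hLK.le).symm
    have heL : ∀ x : L, (⟨(x : G), hLK.le x.2⟩ : K) = ((eL x : N) : K) := fun x => rfl
    let R : N → ℂ := fun n => (θ : K → ℂ) n
    have hR : (fun x : L => ϑ ⟨(x : G), hLK.le x.2⟩) = fun x : L => R (eL x) := rfl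
    rw [hR]
    obtain ⟨φ, hφ⟩ := exists_res_constituent N θ
    obtain ⟨e, he0, -, hval, -⟩ := clifford N θ φ hφ
    set O := orbit N φ with hO
    have hmemO : ∀ ψ ∈ O, IsIrrCharacter L fun x : L => (ψ : N → ℂ) (eL x) := fun ψ _ =>
      IsIrrCharacter.comp ψ.2 eL.toMonoidHom eL.surjective
    have hSnorm : ∑ n : N, R n * conj (R n) = (Nat.card N : ℂ) * ((e : ℂ) ^ 2 * O.card) := by
      have h1 : ∑ n : N, R n * conj (R n) =
          ∑ a ∈ O, ∑ b ∈ O, (e : ℂ) ^ 2 * ∑ n : N, (a : N → ℂ) n * conj ((b : N → ℂ) n) := by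
        simp only [R, hval, map_mul, map_natCast, map_sum, Finset.mul_sum, Finset.sum_mul]
        conv_rhs => rw [Finset.sum_comm]
        rw [Finset.sum_comm]
        refine Finset.sum_congr rfl fun a _ => ?_
        rw [Finset.sum_comm]
        refine Finset.sum_congr rfl fun b _ => Finset.sum_congr rfl fun n _ => ?_
        ring
      rw [h1, Finset.sum_congr rfl fun a ha => ?_, Finset.sum_const, nsmul_eq_mul]
      rotate_left
      · exact (e : ℂ) ^ 2 * (Nat.card N : ℂ)
      · rw [Finset.sum_eq_single a (fun b _ hb => ?_) (fun h => absurd ha h), sum_mul_conj_irr, if_pos rfl]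
        rw [sum_mul_conj_irr, if_neg (Ne.symm hb), mul_zero]
      · ring
    have hsub : (∑ x ∈ Finset.univ.filter (fun x : K => x ∈ N), Complex.normSq ((θ : K → ℂ) x) : ℝ) =
        (Nat.card N : ℝ) * ((e : ℝ) ^ 2 * O.card) := by
      have h2 := hSnorm
      simp only [Complex.mul_conj] at h2
      rw [Finset.sum_subtype (p := fun x : K => x ∈ N) _ (by simp) (fun x : K => Complex.normSq ((θ : K → ℂ) x))]
      exact_mod_cast h2
    have htot : (∑ x : K, Complex.normSq ((θ : K → ℂ) x) : ℝ) = (Nat.card N : ℝ) * N.index := by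
      have h2 := sum_mul_conj_irr θ θ
      rw [if_pos rfl] at h2
      simp only [Complex.mul_conj] at h2
      rw [← Nat.cast_mul, Subgroup.card_mul_index]
      exact_mod_cast h2
    have hle : e ^ 2 * O.card ≤ N.index := by
      have h3 := Finset.sum_le_sum_of_subset_of_nonneg (Finset.filter_subset (fun x : K => x ∈ N) Finset.univ)
        (fun x _ _ => Complex.normSq_nonneg ((θ : K → ℂ) x))
      rw [hsub, htot] at h3
      have h4 := le_of_mul_le_mul_left h3 (by exact_mod_cast Nat.card_pos)
      exact_mod_cast h4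
    let T : Subgroup K :=
      { carrier := {k | conjIrr N φ k = φ}
        one_mem' := conjIrr_one N φ
        mul_mem' := fun {a b} ha hb => by
          show conjIrr N φ (a * b) = φ
          rw [conjIrr_mul, ha, hb]
        inv_mem' := fun {a} ha => by
          show conjIrr N φ a⁻¹ = φ
          conv_lhs => rw [← ha]
          rw [← conjIrr_mul, mul_inv_cancel, conjIrr_one] }
    have hmem : ∀ k, k ∈ T ↔ conjIrr N φ k = φ := fun k => Iff.rfl
    have hNT : N ≤ T := CfsgLib.CliffordCorr.le_inertia N φ hmem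
    have hcomm : ∀ a b : K, a * b * a⁻¹ * b⁻¹ ∈ N := fun a b => by
      have h1 := hab (Subgroup.commutator_mem_commutator a.2 b.2)
      rw [commutatorElement_def] at h1
      exact h1
    have hcard := CfsgLib.CliffordCorr.card_orbit N φ hmem
    -- the inertia group is normal in `G`
    haveI hMn : (T.map K.subtype).Normal := by
      refine ⟨fun x hx g => ?_⟩
      obtain ⟨t, ht, rfl⟩ := hx
      refine ⟨⟨g * t * g⁻¹, hK.conj_mem t t.2 g⟩, ?_, rfl⟩
      let cL : L ≃* L := MulAut.conjNormal g
      let c : N ≃* N := (eL.symm.trans cL).trans eL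
      have hc : ∀ n : N, (((c n : N) : K) : G) = g * ((n : K) : G) * g⁻¹ := fun n => rfl
      let φg : IrrCharacter N := ⟨fun n => (φ : N → ℂ) (c n), IsIrrCharacter.comp φ.2 c.toMonoidHom c.surjective⟩
      have hφg : classInner (fun n : N => (θ : K → ℂ) n) (φg : N → ℂ) ≠ 0 := by
        have e1 : classInner (fun n : N => (θ : K → ℂ) n) (φg : N → ℂ) =
            classInner (fun n : N => (θ : K → ℂ) n) (φ : N → ℂ) := by
          simp only [classInner]
          congr 1
          refine Fintype.sum_equiv c.toEquiv _ _ fun n => ?_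
          have e2 : (θ : K → ℂ) (c n) = (θ : K → ℂ) n := hinv g (n : K)
          show (θ : K → ℂ) n * conj ((φ : N → ℂ) (c n)) = (θ : K → ℂ) (c n) * conj ((φ : N → ℂ) (c n))
          rw [e2]
        rwa [e1]
      obtain ⟨k, hk⟩ := clifford_conjugate N θ φ φg hφ hφg
      show conjIrr N φ ⟨g * t * g⁻¹, _⟩ = φ
      have hkt : conjIrr N φ (k * t) = conjIrr N φ k := by
        have h1 : k * t * k⁻¹ ∈ T := by
          have := T.mul_mem (hNT (hcomm k t)) ht
          simpa using this
        have h2 : k * t = (k * t * k⁻¹) * k := by group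
        rw [h2, conjIrr_mul, (hmem _).1 h1]
      refine Subtype.ext (funext fun n => ?_)
      obtain ⟨m, rfl⟩ := c.surjective n
      have h3 : conjN N (⟨g * t * g⁻¹, hK.conj_mem t t.2 g⟩ : K) (c m) = c (conjN N t m) := by
        refine Subtype.ext (Subtype.ext ?_)
        rw [conjN_coe, hc, conjN_coe]
        simp only [Subgroup.coe_mul, Subgroup.coe_inv, hc]
        group
      rw [conjIrr_apply, h3]
      show (φg : N → ℂ) (conjN N t m) = (φg : N → ℂ) m
      rw [hk]
      show (conjIrr N (conjIrr N φ k) t : N → ℂ) m = _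
      rw [← conjIrr_mul, hkt]
    have hfun : ∀ n : N, R n = (e : ℂ) * ∑ ψ ∈ O, (ψ : N → ℂ) n := hval
    have hidx : L.relIndex K = N.index := rfl
    rcases hchief (T.map K.subtype) hMn (fun x hx => ⟨⟨x, hLK.le hx⟩, hNT hx, rfl⟩)
      (Subgroup.map_subtype_le T) with hM | hM
    · -- the conjugates are all distinct
      have hTN : T = N := le_antisymm (fun t ht => by
        show (t : G) ∈ L
        rw [← hM]
        exact ⟨t, ht, rfl⟩) hNT
      rw [hTN, ← hO] at hcard
      have he1 : e = 1 := by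
        have hpos : 0 < N.index := Nat.pos_of_ne_zero Subgroup.index_ne_zero_of_finite
        rw [hcard] at hle
        have h5 : e ^ 2 ≤ 1 := Nat.le_of_mul_le_mul_right (by rwa [one_mul]) hpos
        nlinarith
      right; right
      let f : IrrCharacter N ↪ (L → ℂ) := ⟨fun ψ x => (ψ : N → ℂ) (eL x), fun a b hab' => Subtype.ext (funext fun n => by
        obtain ⟨x, rfl⟩ := eL.surjective n
        exact congrFun hab' x)⟩
      refine ⟨O.map f, fun ψ hψ => ?_, by rw [Finset.card_map, hcard, hidx], ?_⟩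
      · obtain ⟨a, ha, rfl⟩ := Finset.mem_map.1 hψ
        exact hmemO a ha
      · funext x
        rw [Finset.sum_map, Finset.sum_apply, hfun, he1, Nat.cast_one, one_mul]
        rfl
    · -- invariant
      have hT : T = ⊤ := eq_top_iff.2 fun k _ => by
        have h1 : (k : G) ∈ T.map K.subtype := by rw [hM]; exact k.2
        obtain ⟨k', hk', hkk⟩ := h1
        rwa [← Subtype.ext hkk]
      rw [hT, Subgroup.index_top, ← hO] at hcard
      have hOs : O = {φ} := by
        obtain ⟨a, ha⟩ := Finset.card_eq_one.1 hcard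
        have h1 : φ ∈ O := (mem_orbit N).2 ⟨1, (conjIrr_one N φ).symm⟩
        rw [ha, Finset.mem_singleton] at h1
        rw [ha, h1]
      have hres : ∀ n : N, R n = (e : ℂ) * (φ : N → ℂ) n := fun n => by
        rw [hfun, hOs, Finset.sum_singleton]
      by_cases he1 : e = 1
      · left
        have : (fun x : L => R (eL x)) = fun x : L => (φ : N → ℂ) (eL x) := funext fun x => by
          rw [hres, he1, Nat.cast_one, one_mul]
        rw [this]
        exact hmemO φ (by rw [hOs]; exact Finset.mem_singleton_self _)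
      · right; left
        refine ⟨fun x => (φ : N → ℂ) (eL x), e, hmemO φ (by rw [hOs]; exact Finset.mem_singleton_self _),
          funext fun x => by rw [hres]; rfl, ?_⟩
        rw [hidx]
        let S : Set G := {x | ∃ h : x ∈ K, ϑ ⟨x, h⟩ ≠ 0}
        have hSK : S ⊆ K := fun x ⟨h, _⟩ => h
        rcases hchief (L ⊔ Subgroup.normalClosure S) inferInstance le_sup_left
          (sup_le hLK.le (Subgroup.normalClosure_le_normal hSK)) with hU | hU
        · have hvan : ∀ x : K, x ∉ N → Complex.normSq ((θ : K → ℂ) x) = 0 := by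
            intro x hx
            rw [Complex.normSq_eq_zero]
            by_contra hne
            apply hx
            show (x : G) ∈ L
            rw [← hU]
            exact Subgroup.mem_sup_right (Subgroup.subset_normalClosure ⟨x.2, hne⟩)
          have h1 := Finset.sum_subset (Finset.filter_subset (fun x : K => x ∈ N) Finset.univ)
            (f := fun x => Complex.normSq ((θ : K → ℂ) x))
            (fun x _ hx => hvan x fun h => hx (Finset.mem_filter.2 ⟨Finset.mem_univ _, h⟩))
          rw [hsub, htot, hcard, Nat.cast_one, mul_one] at h1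
          have h2 := mul_left_cancel₀ (by exact_mod_cast Nat.card_pos.ne') h1
          exact_mod_cast h2
        · exfalso
          have hne : (N.index : ℂ) * ∑ m : N, (θ : K → ℂ) m * conj ((θ : K → ℂ) m) ≠ Nat.card K := by
            change (N.index : ℂ) * ∑ m : N, R m * conj (R m) ≠ Nat.card K
            rw [hSnorm, hcard, ← Subgroup.card_mul_index N]
            intro h1
            have h2 : N.index * (Nat.card N * (e ^ 2 * 1)) = Nat.card N * N.index := by exact_mod_cast h1
            have h3 : Nat.card N * N.index ≠ 0 := mul_ne_zero Nat.card_pos.ne' Subgroup.index_ne_zero_of_finite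
            have h4 : e ^ 2 = 1 := Nat.eq_of_mul_eq_mul_left (Nat.pos_of_ne_zero h3)
              (by rw [mul_one]; linarith)
            exact he1 (by simpa using h4)
          obtain ⟨f, hfN, hf1, hfix⟩ := CfsgLib.S0857Aux.exists_fixing N hcomm θ hne
          apply hf1
          have hle' : L ⊔ Subgroup.normalClosure S ≤ f.ker.map K.subtype := by
            refine sup_le (fun x hx => ⟨⟨x, hLK.le hx⟩, hfN _ hx, rfl⟩) ?_
            refine (Subgroup.closure_le _).2 fun y hy => ?_
            obtain ⟨x, ⟨hxK, hx⟩, hconj⟩ := Group.mem_conjugatesOfSet_iff.1 hy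
            obtain ⟨c, hc⟩ := isConj_iff.1 hconj
            subst hc
            refine ⟨⟨c * x * c⁻¹, hK.conj_mem x hxK c⟩, ?_, rfl⟩
            show f _ = 1
            have h1 := hfix ⟨c * x * c⁻¹, hK.conj_mem x hxK c⟩
            have h2 : ϑ ⟨c * x * c⁻¹, hK.conj_mem x hxK c⟩ ≠ 0 := by
              have h6 := hinv c ⟨x, hxK⟩
              rw [h6]
              exact hx
            exact Units.ext (mul_right_cancel₀ h2 (h1.trans (one_mul _).symm))
          refine MonoidHom.ext fun k => ?_
          obtain ⟨k', hk', hkk⟩ := hle' (hU.symm ▸ k.2 : (k : G) ∈ L ⊔ Subgroup.normalClosure S)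
          rw [← Subtype.ext hkk]
          exact hk'

end Cfsg.Agent.S0857
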