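import Cfsg.Statements.S0860
import Mathlib
import Cfsg.Agent.Lib.Chars.Central

set_option autoImplicit false
open Cfsg

namespace Cfsg.Agent.S0860

/-- Let a group A act on the set of irreducible characters and on the set of conjugacy classes of a finite group G in such a way that (a • χ) evaluated on the class a • C equals χ evaluated on C, for all a, χ and C. Then every element of A fixes exactly as many irreducible characters as it fixes conjugacy classes. -/
theorem result {G : Type*} [Group G] [Finite G] {A : Type*} [Group A] [MulAction A (Cfsg.IrrCharacter G)] [MulAction A (ConjClasses G)] (hcompat : ∀ (a : A) (χ : Cfsg.IrrCharacter G) (g g' : G), ConjClasses.mk g' = a • ConjClasses.mk g → ((a • χ : Cfsg.IrrCharacter G) : G → ℂ) g' = (χ : G → ℂ) g) (a : A) : Nat.card {χ : Cfsg.IrrCharacter G // a • χ = χ} = Nat.card {C : ConjClasses G // a • C = C} := by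
  classical
  haveI := Fintype.ofFinite G
  haveI : Finite (ConjClasses G) := Finite.of_surjective _ ConjClasses.mk_surjective
  haveI : Fintype (ConjClasses G) := Fintype.ofFinite _
  let s : G → G := fun g => Quotient.out (a⁻¹ • ConjClasses.mk g)
  have hs : ∀ g, ConjClasses.mk (s g) = a⁻¹ • ConjClasses.mk g := fun g => Quotient.out_eq _
  have hN := CfsgLib.Chars.natCast_card_ne_zero G
  have hval : ∀ (χ : Cfsg.IrrCharacter G) (g : G), ((a • χ : Cfsg.IrrCharacter G) : G → ℂ) g = (χ : G → ℂ) (s g) :=
    fun χ g => hcompat a χ (s g) g (by rw [hs, smul_inv_smul])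
  have h1 : ∀ χ : Cfsg.IrrCharacter G, (if a • χ = χ then (1 : ℂ) else 0) =
      (Nat.card G : ℂ)⁻¹ * ∑ g : G, (χ : G → ℂ) g * (starRingEnd ℂ) ((χ : G → ℂ) (s g)) := by
    intro χ
    rw [show (if a • χ = χ then (1 : ℂ) else 0) = if χ = a • χ then (1 : ℂ) else 0 from if_congr eq_comm rfl rfl,
      ← CfsgLib.Chars.classInner_irr χ (a • χ), Cfsg.classInner]
    exact congrArg _ (Finset.sum_congr rfl fun g _ => by rw [hval])
  have h2 : ((Nat.card {χ : Cfsg.IrrCharacter G // a • χ = χ} : ℕ) : ℂ) = (Nat.card G : ℂ)⁻¹ *
      ∑ g : G, if IsConj (s g) g then (Nat.card (Subgroup.centralizer ({s g} : Set G)) : ℂ) else 0 := by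
    rw [Nat.card_eq_fintype_card, Fintype.card_subtype, Finset.card_filter, Nat.cast_sum]
    simp only [Nat.cast_ite, Nat.cast_one, Nat.cast_zero, h1, ← Finset.mul_sum]
    rw [Finset.sum_comm]
    refine congrArg _ (Finset.sum_congr rfl fun g _ => ?_)
    rw [CfsgLib.Chars.col_orth g (s g)]
    split_ifs <;> rfl
  have hfix : ∀ g, IsConj (s g) g ↔ a • ConjClasses.mk g = ConjClasses.mk g := by
    intro g
    rw [← ConjClasses.mk_eq_mk_iff_isConj, hs, inv_smul_eq_iff, eq_comm]
  have h3 : ∀ C : ConjClasses G, (∑ g ∈ Finset.univ.filter (fun g => ConjClasses.mk g = C),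
      if IsConj (s g) g then (Nat.card (Subgroup.centralizer ({s g} : Set G)) : ℂ) else 0) =
      if a • C = C then (Nat.card G : ℂ) else 0 := by
    intro C
    obtain ⟨x, rfl⟩ := ConjClasses.mk_surjective C
    split_ifs with hx
    · have hterm : ∀ g ∈ Finset.univ.filter (fun g => ConjClasses.mk g = ConjClasses.mk x),
          (if IsConj (s g) g then (Nat.card (Subgroup.centralizer ({s g} : Set G)) : ℂ) else 0) =
            (Nat.card (Subgroup.centralizer ({x} : Set G)) : ℂ) := by
        intro g hg
        have hg' := (Finset.mem_filter.1 hg).2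
        have hsg : IsConj (s g) g := (hfix g).2 (by rw [hg', hx])
        rw [if_pos hsg, Nat.cast_inj]
        have hxs : IsConj x (s g) := ((ConjClasses.mk_eq_mk_iff_isConj.1 hg').symm).trans hsg.symm
        have e1 := CfsgLib.Chars.card_isConj_eq_index x
        have e2 := CfsgLib.Chars.card_isConj_eq_index (s g)
        have e3 : Nat.card {y // IsConj x y} = Nat.card {y // IsConj (s g) y} :=
          Nat.card_congr (Equiv.subtypeEquivRight fun y => ⟨hxs.symm.trans, hxs.trans⟩)
        have i1 := Subgroup.index_mul_card (Subgroup.centralizer ({x} : Set G))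
        have i2 := Subgroup.index_mul_card (Subgroup.centralizer ({s g} : Set G))
        rw [← e1, e3, e2, ← i2] at i1
        exact (Nat.eq_of_mul_eq_mul_left (Nat.pos_of_ne_zero Subgroup.index_ne_zero_of_finite) i1).symm
      rw [Finset.sum_congr rfl hterm, Finset.sum_const, nsmul_eq_mul, ← Nat.cast_mul, Nat.cast_inj]
      have : (Finset.univ.filter (fun g => ConjClasses.mk g = ConjClasses.mk x)).card =
          (Subgroup.centralizer ({x} : Set G)).index := by
        rw [← CfsgLib.Chars.card_isConj_eq_index, Nat.card_eq_fintype_card, Fintype.card_subtype]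
        refine congrArg Finset.card (Finset.filter_congr fun g _ => ?_)
        rw [ConjClasses.mk_eq_mk_iff_isConj]
        exact ⟨IsConj.symm, IsConj.symm⟩
      rw [this, Subgroup.index_mul_card]
    · refine Finset.sum_eq_zero fun g hg => if_neg fun h => hx ?_
      have := (hfix g).1 h
      rwa [(Finset.mem_filter.1 hg).2] at this
  rw [← Finset.sum_fiberwise Finset.univ (fun g : G => ConjClasses.mk g),
    Finset.sum_congr rfl (fun C _ => h3 C), ← Finset.sum_filter, Finset.sum_const, nsmul_eq_mul,
    mul_comm ((Finset.card _ : ℕ) : ℂ), inv_mul_cancel_left₀ hN, Nat.cast_inj] at h2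
  rw [h2, Nat.card_eq_fintype_card, Fintype.card_subtype]

end Cfsg.Agent.S0860
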