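import Cfsg.Statements.S0861
import Mathlib
import Cfsg.Agent.Lib.Blocks.Contribution
import Cfsg.Agent.Lib.Chars.Galois
import Cfsg.Agent.S0169
import Cfsg.Agent.S0136

set_option autoImplicit false
open Cfsg

namespace Cfsg.Agent.S0861

open scoped commutatorElement

/-- Let P be a normal abelian Sylow p-subgroup of the finite group G and suppose some element g of P has centralizer exactly P. Then the number of irreducible characters of G is at most the order of P, and if equality holds then G / P is abelian (the commutator subgroup lies in P). -/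
theorem result {G : Type*} [Group G] [Finite G] (p : ℕ) [Fact p.Prime] (P : Sylow p G) [(P : Subgroup G).Normal] (hab : ∀ a ∈ P, ∀ b ∈ P, a * b = b * a) (g : G) (hg : g ∈ P) (hC : Subgroup.centralizer ({g} : Set G) = P) : Nat.card (Cfsg.IrrCharacter G) ≤ Nat.card P ∧ (Nat.card (Cfsg.IrrCharacter G) = Nat.card P → commutator G ≤ P) := by
  classical
  haveI := Fintype.ofFinite G
  haveI : Fintype (P : Subgroup G) := Fintype.ofFinite _
  set T := Finset.univ.filter (fun h : G => Subgroup.zpowers h = Subgroup.zpowers g)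
  have hgT : g ∈ T := Finset.mem_filter.2 ⟨Finset.mem_univ _, rfl⟩
  have hTP : ∀ h ∈ T, h ∈ (P : Subgroup G) := fun h hh => by
    have := (Finset.mem_filter.1 hh).2
    exact (Subgroup.zpowers_le.2 hg) (this ▸ Subgroup.mem_zpowers h)
  have hTC : ∀ h ∈ T, Subgroup.centralizer ({h} : Set G) = P := by
    intro h hh
    have he := (Finset.mem_filter.1 hh).2
    rw [← Subgroup.centralizer_closure, ← Subgroup.zpowers_eq_closure, he, Subgroup.zpowers_eq_closure,
      Subgroup.centralizer_closure, hC]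
  obtain ⟨M, hM⟩ := CfsgLib.Blocks.exists_isPModular (Fact.out : p.Prime)
  have hne : ∀ χ : Cfsg.IrrCharacter G, ∀ h ∈ T, (χ : G → ℂ) h ≠ 0 := by
    intro χ h hh h0
    obtain ⟨k, hk⟩ := IsPGroup.iff_orderOf.1 P.2 ⟨h, hTP h hh⟩
    rw [Subgroup.orderOf_mk] at hk
    have hcong := CfsgLib.Blocks.mli_char_pElt_mul hM (CfsgLib.Chars.isCharacter_irr χ) hk (Commute.one_right h)
      (by rw [orderOf_one]; exact (Fact.out : p.Prime).not_dvd_one)
    rw [mul_one, h0, zero_sub] at hcong
    have h1 := CfsgLib.Blocks.mli_neg hcong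
    rw [neg_neg, CfsgLib.Chars.irr_apply_one, CfsgLib.Blocks.mli_natCast_iff hM] at h1
    obtain ⟨n, ρ, hρ, hc⟩ := χ.2
    haveI := hρ
    have hd : Cfsg.charDegree (χ : G → ℂ) = n := by rw [← hc]; simp [Cfsg.charDegree, Representation.char_one]
    have h2 := Cfsg.Agent.S0169.result ρ (P : Subgroup G) hab
    rw [Module.finrank_fin_fun, ← hd] at h2
    exact P.not_dvd_index (h1.trans h2)
  have hlow : ∀ χ : Cfsg.IrrCharacter G, (T.card : ℝ) ≤ ∑ h ∈ T, ‖(χ : G → ℂ) h‖ ^ 2 := fun χ =>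
    CfsgLib.Chars.card_le_sum_norm_pow (CfsgLib.Chars.isCharacter_irr χ) 2 T
      (fun h hh h' e => Finset.mem_filter.2 ⟨Finset.mem_univ _, e.trans (Finset.mem_filter.1 hh).2⟩) (hne χ)
  have htot : ∑ χ : Cfsg.IrrCharacter G, ∑ h ∈ T, ‖(χ : G → ℂ) h‖ ^ 2 = (T.card : ℝ) * (Nat.card P : ℝ) := by
    rw [Finset.sum_comm, Finset.sum_congr rfl (fun h hh => ?_), Finset.sum_const, nsmul_eq_mul]
    have h1 := CfsgLib.Chars.col_orth h h
    rw [if_pos (IsConj.refl _), hTC h hh] at h1
    simp only [Complex.mul_conj'] at h1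
    exact_mod_cast h1
  have hTpos : (0 : ℝ) < T.card := by exact_mod_cast Finset.card_pos.2 ⟨g, hgT⟩
  refine ⟨?_, fun heq => ?_⟩
  · have h1 := Finset.sum_le_sum (fun χ (_ : χ ∈ Finset.univ) => hlow χ)
    rw [htot, Finset.sum_const, nsmul_eq_mul, mul_comm, Finset.card_univ, ← Nat.card_eq_fintype_card] at h1
    exact_mod_cast le_of_mul_le_mul_left h1 hTpos
  · have hlin : ∀ χ : Cfsg.IrrCharacter (G ⧸ (P : Subgroup G)), (χ : G ⧸ (P : Subgroup G) → ℂ) 1 = 1 := by
      intro χ
      by_contra hd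
      let X : Cfsg.IrrCharacter G := ⟨_, CfsgLib.Chars.isIrrCharacter_inflate (P : Subgroup G) χ⟩
      have hX : ∀ h ∈ T, (X : G → ℂ) h = (χ : G ⧸ (P : Subgroup G) → ℂ) 1 := fun h hh => by
        show (χ : G ⧸ (P : Subgroup G) → ℂ) (QuotientGroup.mk h) = _
        rw [(QuotientGroup.eq_one_iff h).2 (hTP h hh)]
      have hs : ∑ ψ : Cfsg.IrrCharacter G, (T.card : ℝ) < ∑ ψ : Cfsg.IrrCharacter G, ∑ h ∈ T, ‖(ψ : G → ℂ) h‖ ^ 2 := by
        refine Finset.sum_lt_sum (fun ψ _ => hlow ψ) ⟨X, Finset.mem_univ _, ?_⟩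
        rw [Finset.sum_congr rfl (fun h hh => by rw [hX h hh, CfsgLib.Chars.irr_apply_one, Complex.norm_natCast]),
          Finset.sum_const, nsmul_eq_mul]
        refine lt_mul_of_one_lt_right hTpos ?_
        have h2 : 2 ≤ Cfsg.charDegree (χ : G ⧸ (P : Subgroup G) → ℂ) := by
          have := CfsgLib.Chars.charDegree_pos χ
          by_contra hlt
          exact hd (by rw [CfsgLib.Chars.irr_apply_one, show Cfsg.charDegree (χ : G ⧸ (P : Subgroup G) → ℂ) = 1 by omega, Nat.cast_one])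
        have : (2 : ℝ) ≤ (Cfsg.charDegree (χ : G ⧸ (P : Subgroup G) → ℂ) : ℝ) := by exact_mod_cast h2
        nlinarith
      rw [htot, Finset.sum_const, nsmul_eq_mul, Finset.card_univ, ← Nat.card_eq_fintype_card, heq, mul_comm] at hs
      exact lt_irrefl _ hs
    rw [commutator_eq_closure, Subgroup.closure_le]
    rintro _ ⟨a, b, rfl⟩
    rw [SetLike.mem_coe, ← QuotientGroup.eq_one_iff]
    have h1 : IsConj ((⁅a, b⁆ : G) : G ⧸ (P : Subgroup G)) 1 := by
      refine (Cfsg.Agent.S0136.result _ _).2 fun χ => ?_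
      obtain ⟨f, hf⟩ := CfsgLib.Chars.IsCharacter.exists_hom (CfsgLib.Chars.isCharacter_irr χ) (hlin χ)
      rw [hf]
      simp only [map_one, Units.val_one]
      rw [show f ((⁅a, b⁆ : G) : G ⧸ (P : Subgroup G)) = 1 from ?_, Units.val_one]
      show f (QuotientGroup.mk' (P : Subgroup G) ⁅a, b⁆) = 1
      rw [map_commutatorElement, map_commutatorElement, commutatorElement_eq_one_iff_mul_comm]
      exact mul_comm _ _
    obtain ⟨c, hc⟩ := isConj_iff.1 h1
    simpa [mul_assoc] using congrArg (fun t => c⁻¹ * t * c) hc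

end Cfsg.Agent.S0861
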