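import Cfsg.Statements.S0863
import Mathlib
import Cfsg.Agent.Lib.DetChar

set_option autoImplicit false
open Cfsg

namespace Cfsg.Agent.S0863

/-- Let N be a normal subgroup of the finite group G with G / N solvable, and ϑ an irreducible character of N, invariant under conjugation by G, of degree d coprime to the index of N. Then ϑ is the restriction of an irreducible character of G if and only if the determinantal character of ϑ is the restriction of a character of G of degree 1. -/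
theorem result {G : Type*} [Group G] [Finite G] (N : Subgroup G) [hN : N.Normal] (hsolv : Group.IsSolvable (G ⧸ N)) (ϑ : N → ℂ) (hϑ : Cfsg.IsIrrCharacter N ϑ) (hinv : ∀ (g : G) (n : N), ϑ ⟨g * n * g⁻¹, hN.conj_mem (n : G) n.2 g⟩ = ϑ n) (d : ℕ) (hd : ϑ 1 = d) (hcop : Nat.Coprime N.index d) : (∃ χ : G → ℂ, Cfsg.IsIrrCharacter G χ ∧ (∀ n : N, χ n = ϑ n)) ↔ ∃ μ : G → ℂ, Cfsg.IsCharacter G μ ∧ μ 1 = 1 ∧ ∀ n : N, μ n = Cfsg.detChar ϑ n := by
  classical
  haveI := Fintype.ofFinite G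
  haveI : Fintype N := Fintype.ofFinite N
  let θ : Cfsg.IrrCharacter N := ⟨ϑ, hϑ⟩
  have hinv' : ∀ g, CfsgLib.Chars.conjIrr N θ g = θ := fun g =>
    Subtype.ext (funext fun n => (CfsgLib.Chars.conjIrr_apply' N θ g n).trans (hinv g n))
  have hdeg : Cfsg.charDegree (θ : N → ℂ) = d := by
    show Cfsg.charDegree ϑ = d
    simp [Cfsg.charDegree, hd]
  constructor
  · rintro ⟨χ, hχ, hres⟩
    obtain ⟨f, hf⟩ := CfsgLib.Extendible.exists_detHom (⟨χ, hχ⟩ : Cfsg.IrrCharacter G)
    refine ⟨fun g => (f g : ℂ), CfsgLib.Chars.isCharacter_hom f, by simp, fun n => ?_⟩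
    show (f n : ℂ) = _
    rw [hf]
    exact CfsgLib.DetChar.detChar_res N ⟨χ, hχ⟩ θ hres n
  · rintro ⟨μ, hμ, hμ1, hμn⟩
    obtain ⟨f, hf⟩ := CfsgLib.Chars.IsCharacter.exists_hom hμ hμ1
    obtain ⟨χ, hχ⟩ := CfsgLib.Extendible.extends_of_local N θ hinv' (fun p hp => by
      by_cases hpd : p ∣ d
      · refine Or.inl ⟨N, le_rfl, ϑ, ?_, hϑ, fun n => rfl⟩
        exact hcop.coprime_dvd_right hpd
      · refine Or.inr ⟨1, f, ?_, fun n => ?_⟩
        · rw [hdeg, mul_one]
          exact ((hp.coprime_iff_not_dvd).2 hpd).symm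
        · rw [pow_one]
          exact (congrFun hf (n : G)).symm.trans (hμn n))
    exact ⟨χ, χ.2, hχ⟩

end Cfsg.Agent.S0863
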