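import Cfsg.Statements.S0864
import Mathlib
import Cfsg.Agent.Lib.DetChar

set_option autoImplicit false
open Cfsg

namespace Cfsg.Agent.S0864

/-- Let N be a normal subgroup of the finite group G and λ a character of N of degree 1 invariant under conjugation by G. Suppose that for every prime p dividing the order of λ (in the group of functions under pointwise multiplication) there is a subgroup H containing N, of index prime to p and with the index of N in H a power of p, together with a character of H of degree 1 restricting to λ. Then λ is the restriction of a character of G of degree 1. -/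
theorem result {G : Type*} [Group G] [Finite G] (N : Subgroup G) [hN : N.Normal] (lam : N → ℂ) (hlam : Cfsg.IsCharacter N lam ∧ lam 1 = 1) (hinv : ∀ (g : G) (n : N), lam ⟨g * n * g⁻¹, hN.conj_mem (n : G) n.2 g⟩ = lam n) (hsyl : ∀ p : ℕ, p.Prime → p ∣ orderOf lam → ∃ (H : Subgroup G) (hNH : N ≤ H) (ν : H → ℂ), Nat.Coprime H.index p ∧ (∃ k : ℕ, N.relIndex H = p ^ k) ∧ Cfsg.IsCharacter H ν ∧ ν 1 = 1 ∧ ∀ n : N, ν ⟨(n : G), hNH n.2⟩ = lam n) : ∃ μ : G → ℂ, Cfsg.IsCharacter G μ ∧ μ 1 = 1 ∧ ∀ n : N, μ n = lam n := by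
  classical
  haveI := Fintype.ofFinite G
  haveI : Fintype N := Fintype.ofFinite N
  obtain ⟨f, hf⟩ := CfsgLib.Chars.IsCharacter.exists_hom hlam.1 hlam.2
  have hirr : Cfsg.IsIrrCharacter N lam := by rw [show lam = fun n => (f n : ℂ) from funext fun n => congrFun hf n]; exact CfsgLib.Chars.isIrrCharacter_hom f
  let θ : Cfsg.IrrCharacter N := ⟨lam, hirr⟩
  have hinv' : ∀ g, CfsgLib.Chars.conjIrr N θ g = θ := fun g =>
    Subtype.ext (funext fun n => (CfsgLib.Chars.conjIrr_apply' N θ g n).trans (hinv g n))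
  have hdeg : Cfsg.charDegree (θ : N → ℂ) = 1 := by
    show Cfsg.charDegree lam = 1
    simp [Cfsg.charDegree, hlam.2]
  have hdet : ∀ n, Cfsg.detChar lam n = lam n := fun n => by
    rw [show lam = fun n => (f n : ℂ) from funext fun n => congrFun hf n]
    exact CfsgLib.DetChar.detChar_hom f n
  obtain ⟨χ, hχ⟩ := CfsgLib.Extendible.extends_of_local N θ hinv' (fun p hp => by
    by_cases hpd : p ∣ orderOf lam
    · obtain ⟨H, hNH, ν, hco, -, hν, hν1, hνn⟩ := hsyl p hp hpd
      obtain ⟨g, hg⟩ := CfsgLib.Chars.IsCharacter.exists_hom hν hν1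
      refine Or.inl ⟨H, hNH, ν, hco, ?_, hνn⟩
      rw [show ν = fun n => (g n : ℂ) from funext fun n => congrFun hg n]
      exact CfsgLib.Chars.isIrrCharacter_hom g
    · refine Or.inr ⟨orderOf lam, 1, ?_, fun n => ?_⟩
      · rw [hdeg, one_mul]
        exact ((hp.coprime_iff_not_dvd).2 hpd).symm
      · show ((1 : ℂˣ) : ℂ) = Cfsg.detChar lam n ^ orderOf lam
        rw [hdet, ← Pi.pow_apply, pow_orderOf_eq_one, Pi.one_apply, Units.val_one])
  refine ⟨χ, CfsgLib.Chars.isCharacter_irr χ, ?_, hχ⟩
  have := hχ 1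
  rw [OneMemClass.coe_one] at this
  rw [this]
  exact hlam.2

end Cfsg.Agent.S0864
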