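import Cfsg.Statements.S0865
import Mathlib
import Cfsg.Agent.Lib.DetChar
import Cfsg.Agent.S0867

set_option autoImplicit false
open Cfsg

namespace Cfsg.Agent.S0865

/-- Let N be a normal subgroup of the finite group G and λ a character of N of degree 1, invariant under conjugation by G, whose order (under pointwise multiplication) is coprime to the index of N. Then there is a character μ of G of degree 1 restricting to λ with the same order as λ, and μ is the only degree-1 character of G restricting to λ whose order is coprime to the index of N. -/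
theorem result {G : Type*} [Group G] [Finite G] (N : Subgroup G) [hN : N.Normal] (lam : N → ℂ) (hlam : Cfsg.IsCharacter N lam ∧ lam 1 = 1) (hinv : ∀ (g : G) (n : N), lam ⟨g * n * g⁻¹, hN.conj_mem (n : G) n.2 g⟩ = lam n) (hcop : Nat.Coprime N.index (orderOf lam)) : ∃ μ : G → ℂ, (Cfsg.IsCharacter G μ ∧ μ 1 = 1 ∧ (∀ n : N, μ n = lam n) ∧ orderOf μ = orderOf lam) ∧ ∀ μ' : G → ℂ, Cfsg.IsCharacter G μ' ∧ μ' 1 = 1 → (∀ n : N, μ' n = lam n) → Nat.Coprime N.index (orderOf μ') → μ' = μ := by
  classical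
  haveI : Fintype N := Fintype.ofFinite N
  obtain ⟨f, hf⟩ := CfsgLib.Chars.IsCharacter.exists_hom hlam.1 hlam.2
  have hfun : lam = fun n => (f n : ℂ) := funext fun n => congrFun hf n
  have hirr : Cfsg.IsIrrCharacter N lam := by rw [hfun]; exact CfsgLib.Chars.isIrrCharacter_hom f
  have hdet : Cfsg.detChar lam = lam := funext fun n => by
    rw [hfun]; exact CfsgLib.DetChar.detChar_hom f n
  have hord : Cfsg.detOrder lam = orderOf lam := by rw [Cfsg.detOrder, hdet]
  obtain ⟨χ, ⟨hχ, hχn, hχo⟩, huniq⟩ := Cfsg.Agent.S0867.result N lam hirr hinv 1 (by rw [hlam.2, Nat.cast_one])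
    (by rw [hord, mul_one]; exact hcop)
  have hlin : ∀ φ : G → ℂ, Cfsg.IsCharacter G φ → φ 1 = 1 →
      Cfsg.IsIrrCharacter G φ ∧ Cfsg.detChar φ = φ := by
    intro φ hφ h1
    obtain ⟨g, hg⟩ := CfsgLib.Chars.IsCharacter.exists_hom hφ h1
    have e : φ = fun x => (g x : ℂ) := funext fun x => congrFun hg x
    rw [e]
    exact ⟨CfsgLib.Chars.isIrrCharacter_hom g, funext fun x => CfsgLib.DetChar.detChar_hom g x⟩
  have hχ1 : χ 1 = 1 := by
    have := hχn 1
    rw [OneMemClass.coe_one, hlam.2] at this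
    exact this
  have hχc := CfsgLib.Chars.IsIrrCharacter.isCharacter hχ
  refine ⟨χ, ⟨hχc, hχ1, hχn, ?_⟩, fun μ' ⟨h1, h2⟩ h3 h4 => huniq μ' (hlin μ' h1 h2).1 h3 ?_⟩
  · rw [Cfsg.detOrder, (hlin χ hχc hχ1).2] at hχo
    rw [hχo, hord]
  · rw [Cfsg.detOrder, (hlin μ' h1 h2).2]
    exact h4

end Cfsg.Agent.S0865
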