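import Cfsg.Statements.S0868
import Mathlib
import Cfsg.Agent.Lib.CharExtend

set_option autoImplicit false
open scoped ComplexConjugate
open Cfsg

namespace Cfsg.Agent.S0868

/-- Let N be a normal subgroup of the finite group G, χ an irreducible character of G whose restriction ϑ to N is irreducible, and ψ an irreducible character of G. Define η on G by η g = (1 / order of N) * Σ over n in N of ψ (n * g) * conj (χ (n * g)). Then: if the restriction of ψ to N has nonzero inner product with ϑ, η is an irreducible character of G; if that inner product is zero, η vanishes identically; and if ψ = χ then η is identically 1. -/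
theorem result {G : Type*} [Group G] [Fintype G] (N : Subgroup G) [N.Normal] [Fintype N] (χ : G → ℂ) (hχ : Cfsg.IsIrrCharacter G χ) (hχN : Cfsg.IsIrrCharacter N (fun n : N => χ n)) (ψ : G → ℂ) (hψ : Cfsg.IsIrrCharacter G ψ) (η : G → ℂ) (hη : η = fun g => (Nat.card N : ℂ)⁻¹ * ∑ n : N, ψ ((n : G) * g) * conj (χ ((n : G) * g))) : (Cfsg.classInner (fun n : N => ψ n) (fun n : N => χ n) ≠ 0 → Cfsg.IsIrrCharacter G η) ∧ (Cfsg.classInner (fun n : N => ψ n) (fun n : N => χ n) = 0 → η = 0) ∧ (ψ = χ → η = fun _ => 1) := by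
  classical
  let a : Cfsg.IrrCharacter G := ⟨χ, hχ⟩
  let t : Cfsg.IrrCharacter N := ⟨_, hχN⟩
  let s : Cfsg.IrrCharacter G := ⟨ψ, hψ⟩
  have hres : ∀ n : N, (a : G → ℂ) n = (t : N → ℂ) n := fun n => rfl
  have hN : (Nat.card N : ℂ) ≠ 0 := CfsgLib.Chars.natCast_card_ne_zero N
  have hcn := fun g => CfsgLib.CharExtend.sum_coset_norm N a t hres g
  refine ⟨fun hne => ?_, fun h0 => ?_, fun he => ?_⟩
  · obtain ⟨β, hker, hprod⟩ := CfsgLib.CharExtend.gallagher N a t hres s hne
    have : η = (β : G → ℂ) := by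
      rw [hη]
      funext g
      have e : ∀ n : N, ψ ((n : G) * g) * (starRingEnd ℂ) (χ ((n : G) * g)) =
          (β : G → ℂ) g * ((a : G → ℂ) (n * g) * (starRingEnd ℂ) ((a : G → ℂ) (n * g))) := by
        intro n
        rw [show ψ ((n : G) * g) = (a : G → ℂ) (n * g) * (β : G → ℂ) (n * g) from hprod _,
          CfsgLib.Chars.IsCharacter.mul_kernel (CfsgLib.Chars.isCharacter_irr β) (hker n n.2) g]
        show _ = (β : G → ℂ) g * (χ (n * g) * (starRingEnd ℂ) (χ (n * g)))
        ring
      rw [Finset.sum_congr rfl (fun n _ => e n), ← Finset.mul_sum, hcn g, mul_comm, mul_assoc, mul_inv_cancel₀ hN, mul_one]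
    rw [this]
    exact β.2
  · rw [hη]
    funext g
    set φ : G → ℂ := fun x => ψ x * (starRingEnd ℂ) (χ x) with hφdef
    have hφ : Cfsg.IsCharacter G φ := CfsgLib.Chars.IsCharacter.mul (CfsgLib.Chars.isCharacter_irr s)
      (CfsgLib.Chars.IsIrrCharacter.isCharacter (CfsgLib.Chars.isIrrCharacter_conj a))
    have htot : ∑ n : N, φ n = 0 := by
      have h1 : (Nat.card N : ℂ)⁻¹ * ∑ n : N, φ n = 0 := h0
      exact (mul_eq_zero.1 h1).resolve_left (inv_ne_zero hN)
    choose m hm using CfsgLib.Chars.exists_mult hφ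
    choose k hk using fun β : Cfsg.IrrCharacter G =>
      CfsgLib.Chars.exists_mult (CfsgLib.Chars.IsCharacter.restrict (CfsgLib.Chars.isCharacter_irr β) N)
        (⟨fun _ => 1, CfsgLib.Chars.isIrrCharacter_one N⟩ : Cfsg.IrrCharacter N)
    have hk' : ∀ β : Cfsg.IrrCharacter G, ∑ n : N, (β : G → ℂ) n = (Nat.card N : ℂ) * (k β : ℂ) := by
      intro β
      rw [← hk β]
      show _ = (Nat.card N : ℂ) * Cfsg.classInner (fun n : N => (β : G → ℂ) n) (fun _ => 1)
      rw [CfsgLib.CharExtend.classInner_one_right, ← mul_assoc, mul_inv_cancel₀ hN, one_mul]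
    have hexp : ∀ x, φ x = ∑ β : Cfsg.IrrCharacter G, (m β : ℂ) * (β : G → ℂ) x := by
      intro x
      rw [CfsgLib.Chars.classFunction_expand (CfsgLib.Chars.IsCharacter.isClassFunction hφ) x]
      simp only [hm]
    have hz : ∑ β : Cfsg.IrrCharacter G, m β * k β = 0 := by
      have h1 : (Nat.card N : ℂ) * ((∑ β : Cfsg.IrrCharacter G, m β * k β : ℕ) : ℂ) = 0 := by
        rw [← htot]
        simp only [hexp]
        rw [Finset.sum_comm]
        simp only [← Finset.mul_sum, hk']
        push_cast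
        rw [Finset.mul_sum]
        exact Finset.sum_congr rfl fun β _ => by ring
      exact_mod_cast (mul_eq_zero.1 h1).resolve_left hN
    show (Nat.card N : ℂ)⁻¹ * ∑ n : N, φ (n * g) = 0
    simp only [hexp]
    rw [Finset.sum_comm]
    simp only [← Finset.mul_sum, CfsgLib.CharExtend.sum_coset N, hk']
    rw [Finset.sum_eq_zero, mul_zero]
    intro β _
    rcases Nat.mul_eq_zero.1 (Finset.sum_eq_zero_iff.1 hz β (Finset.mem_univ _)) with h | h <;> simp [h]
  · rw [hη, he]
    funext g
    show (Nat.card N : ℂ)⁻¹ * ∑ n : N, (a : G → ℂ) (n * g) * (starRingEnd ℂ) ((a : G → ℂ) (n * g)) = 1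
    rw [hcn g, inv_mul_cancel₀ hN]

end Cfsg.Agent.S0868
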