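import Cfsg.Statements.S0869
import Mathlib

set_option autoImplicit false
open Cfsg

namespace Cfsg.Agent.S0869

/-- Let S be a nonempty finite type and R an additive subgroup of the integer-valued functions on S that is closed under pointwise multiplication. If the constant function 1 is not in R, then there exist a point x of S and a prime p such that p divides f x for every f in R. -/
theorem result {S : Type*} [Finite S] [Nonempty S] (R : AddSubgroup (S → ℤ)) (hmul : ∀ f ∈ R, ∀ g ∈ R, f * g ∈ R) (h1 : (1 : S → ℤ) ∉ R) : ∃ (x : S) (p : ℕ), p.Prime ∧ ∀ f ∈ R, (p : ℤ) ∣ f x := by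
  classical
  haveI := Fintype.ofFinite S
  by_contra hcon
  push Not at hcon
  -- the values of `R` at each point generate the unit ideal
  have hx : ∀ x : S, ∃ f ∈ R, f x = 1 := by
    intro x
    obtain ⟨d, hd⟩ := Int.subgroup_cyclic (R.map (Pi.evalAddMonoidHom (fun _ : S => ℤ) x))
    have hdvd : ∀ f ∈ R, d ∣ f x := fun f hf => by
      have : f x ∈ R.map (Pi.evalAddMonoidHom (fun _ : S => ℤ) x) := ⟨f, hf, rfl⟩
      rw [hd, AddSubgroup.mem_closure_singleton] at this
      obtain ⟨k, hk⟩ := this
      exact ⟨k, by rw [← hk, smul_eq_mul, mul_comm]⟩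
    have hd1 : d.natAbs = 1 := by
      by_contra hne
      obtain ⟨p, hp, hpd⟩ := Nat.exists_prime_and_dvd hne
      obtain ⟨f, hf, hnd⟩ := hcon x p hp
      exact hnd ((Int.natCast_dvd.2 hpd).trans (hdvd f hf))
    have h1 : (1 : ℤ) ∈ R.map (Pi.evalAddMonoidHom (fun _ : S => ℤ) x) := by
      rw [hd, AddSubgroup.mem_closure_singleton]
      rcases Int.natAbs_eq d with h | h <;> rw [hd1] at h
      · exact ⟨1, by rw [h]; norm_num⟩
      · exact ⟨-1, by rw [h]; norm_num⟩
    obtain ⟨f, hf, hf1⟩ := h1
    exact ⟨f, hf, hf1⟩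
  choose f hf hf1 using hx
  have key : ∀ s : Finset S, s.Nonempty → ∃ g ∈ R, ∀ x ∈ s, g x = 1 := by
    intro s hs
    induction hs using Finset.Nonempty.cons_induction with
    | singleton a => exact ⟨f a, hf a, fun x hx => by rw [Finset.mem_singleton.1 hx]; exact hf1 a⟩
    | cons a s ha hs ih =>
      obtain ⟨g, hg, hg1⟩ := ih
      refine ⟨f a + g - f a * g, R.sub_mem (R.add_mem (hf a) hg) (hmul _ (hf a) _ hg), fun x hx => ?_⟩
      simp only [Pi.sub_apply, Pi.add_apply, Pi.mul_apply]
      rcases Finset.mem_cons.1 hx with rfl | hx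
      · rw [hf1]; ring
      · rw [hg1 x hx]; ring
  obtain ⟨g, hg, hg1⟩ := key Finset.univ Finset.univ_nonempty
  exact h1 (by rw [show (1 : S → ℤ) = g from funext fun x => (hg1 x (Finset.mem_univ x)).symm]; exact hg)

end Cfsg.Agent.S0869
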