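import Cfsg.Statements.S0872
import Mathlib
import Cfsg.Agent.Lib.BrauerInd.Solomon

set_option autoImplicit false
open Cfsg

namespace Cfsg.Agent.S0872

/-- For a finite group G and a prime p there are an integer m not divisible by p and a ℤ-linear combination of functions induced from the constant function 1 on subgroups H, each having a cyclic normal subgroup of order prime to p and p-power index in H, that equals the constant function m. -/
theorem result {G : Type*} [Group G] [Fintype G] (p : ℕ) (hp : p.Prime) : ∃ (m : ℤ) (a : Subgroup G → ℤ), ¬ (p : ℤ) ∣ m ∧ (∀ H, a H ≠ 0 → (∃ C : Subgroup G, C ≤ H ∧ H ≤ Subgroup.normalizer (C : Set G) ∧ IsCyclic C ∧ Nat.Coprime (Nat.card C) p ∧ ∃ k : ℕ, C.relIndex H = p ^ k)) ∧ (fun _ : G => (m : ℂ)) = ∑ H : Subgroup G, (a H : ℂ) • Cfsg.indFun H (fun _ => 1) := by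
  classical
  obtain ⟨m, hm, hmem⟩ := CfsgLib.BrauerInd.solomon (G := G) p hp
  obtain ⟨l, hl⟩ := CfsgLib.BrauerInd.exists_list_of_mem_closure hmem
  refine ⟨m, fun H => ((l.filter fun t => decide (t.1.1 = H)).map fun t => t.2).sum, hm, fun H hH => ?_, ?_⟩
  · by_contra hc
    refine hH ?_
    show ((l.filter fun t => decide (t.1.1 = H)).map fun t => t.2).sum = 0
    rw [List.filter_eq_nil_iff.2 (fun t _ => by simp only [decide_eq_true_eq]; exact fun e => hc (e ▸ t.1.2))]
    simp
  · rw [hl]
    clear hl hmem hm
    induction l with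
    | nil => simp
    | cons a t ih =>
      simp only [List.map_cons, List.sum_cons]
      rw [ih, show (a.2 : ℂ) • Cfsg.indFun a.1.1 (fun _ => (1 : ℂ)) = ∑ H : Subgroup G, ((if a.1.1 = H then a.2 else 0 : ℤ) : ℂ) • Cfsg.indFun H (fun _ => (1 : ℂ)) by
        rw [Finset.sum_eq_single a.1.1] <;> simp +contextual [eq_comm], ← Finset.sum_add_distrib]
      refine Finset.sum_congr rfl fun H _ => ?_
      rw [← add_smul, ← Int.cast_add]
      congr 2
      by_cases h : a.1.1 = H
      · rw [List.filter_cons_of_pos (by simpa using h), if_pos h, List.map_cons, List.sum_cons]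
      · rw [List.filter_cons_of_neg (by simpa using h), if_neg h, zero_add]

end Cfsg.Agent.S0872
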