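import Cfsg.Statements.S0873
import Mathlib
import Cfsg.Agent.Lib.Chars.Linear

set_option autoImplicit false
open Cfsg

namespace Cfsg.Agent.S0873

/-- Let C be a normal subgroup of the finite group G of order prime to p and P a p-subgroup with C ⊔ P = G. Let λ be a character of C of degree 1 invariant under conjugation by G and equal to 1 at every element of C centralized by P. Then λ is identically 1. -/
theorem result {G : Type*} [Group G] [Finite G] (p : ℕ) [Fact p.Prime] (C P : Subgroup G) [hC : C.Normal] (hP : IsPGroup p P) (hcop : Nat.Coprime (Nat.card C) p) (hCP : C ⊔ P = ⊤) (lam : C → ℂ) (hlam : Cfsg.IsCharacter C lam ∧ lam 1 = 1) (hinv : ∀ (g : G) (c : C), lam ⟨g * c * g⁻¹, hC.conj_mem (c : G) c.2 g⟩ = lam c) (hker : ∀ c : C, (c : G) ∈ Subgroup.centralizer (P : Set G) → lam c = 1) : lam = fun _ => 1 := by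
  classical
  haveI : Finite C := inferInstance
  obtain ⟨f, hf⟩ := CfsgLib.Chars.IsCharacter.exists_hom hlam.1 hlam.2
  funext c
  let Ω : Type _ := {d : C // lam d = lam c}
  letI : MulAction P Ω :=
    { smul := fun x d => ⟨⟨(x : G) * (d.1 : G) * (x : G)⁻¹, hC.conj_mem _ d.1.2 _⟩, (hinv (x : G) d.1).trans d.2⟩
      one_smul := fun d => Subtype.ext (Subtype.ext (by show ((1 : P) : G) * (d.1 : G) * ((1 : P) : G)⁻¹ = (d.1 : G); simp))
      mul_smul := fun x y d => Subtype.ext (Subtype.ext (by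
        show ((x * y : P) : G) * (d.1 : G) * ((x * y : P) : G)⁻¹ = (x : G) * ((y : G) * (d.1 : G) * (y : G)⁻¹) * (x : G)⁻¹
        simp [mul_assoc])) }
  let e : f.ker ≃ Ω :=
    { toFun := fun k => ⟨c * k, by simp [hf, MonoidHom.mem_ker.1 k.2]⟩
      invFun := fun d => ⟨c⁻¹ * d.1, by
        rw [MonoidHom.mem_ker, map_mul, map_inv, inv_mul_eq_one]
        exact Units.ext (((congrFun hf c).symm.trans d.2.symm).trans (congrFun hf d.1))⟩
      left_inv := fun k => Subtype.ext (inv_mul_cancel_left _ _)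
      right_inv := fun d => Subtype.ext (mul_inv_cancel_left _ _) }
  have hnd : ¬ p ∣ Nat.card Ω := by
    rw [← Nat.card_congr e]
    intro hd
    exact (Fact.out : p.Prime).ne_one (Nat.eq_one_of_dvd_coprimes hcop (hd.trans f.ker.card_subgroup_dvd_card) dvd_rfl)
  obtain ⟨d, hd⟩ := hP.nonempty_fixed_point_of_prime_not_dvd_card Ω hnd
  rw [← d.2]
  refine hker d.1 (Subgroup.mem_centralizer_iff.2 fun x hx => ?_)
  have h : (x : G) * (d.1 : G) * x⁻¹ = (d.1 : G) :=
    congrArg (fun z : Ω => ((z.1 : C) : G)) (hd (⟨x, hx⟩ : P))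
  exact mul_inv_eq_iff_eq_mul.1 h

end Cfsg.Agent.S0873
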