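import Cfsg.Statements.S0878
import Mathlib

set_option autoImplicit false
open Cfsg

namespace Cfsg.Agent.S0878

/-- Let G be a Zassenhaus group on the finite set Ω, a a point, and let H be the subgroup of the stabilizer of a consisting of the identity and the elements fixing no point other than a (given here as a subgroup of the stabilizer of order one less than the number of points whose non-identity elements fix only a; it is the Frobenius kernel of the stabilizer). Then an element outside the stabilizer of a conjugates no non-identity element of H into H, and the normalizer of H is exactly the stabilizer of a. -/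
theorem result {G Ω : Type*} [Group G] [Finite G] [MulAction G Ω] [Fintype Ω] (hZ : Cfsg.IsZassenhausGroup G Ω) (a : Ω) (H : Subgroup G) (hHa : H ≤ MulAction.stabilizer G a) (hHcard : Nat.card H + 1 = Fintype.card Ω) (hHfix : ∀ u ∈ H, u ≠ 1 → ∀ c : Ω, u • c = c → c = a) : (∀ g : G, g ∉ MulAction.stabilizer G a → ∀ u ∈ H, g * u * g⁻¹ ∈ H → u = 1) ∧ Subgroup.normalizer (H : Set G) = MulAction.stabilizer G a := by
  classical
  obtain ⟨hfaith, h2, h3, ⟨g₀, hg₀, a', b', hab', hga, hgb⟩, -⟩ := hZ
  rw [MulAction.is_two_pretransitive_iff] at h2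
  haveI := hfaith
  have hfixa : ∀ u ∈ H, u • a = a := fun u hu => hHa hu
  have hTI : ∀ g : G, g ∉ MulAction.stabilizer G a → ∀ u ∈ H, g * u * g⁻¹ ∈ H → u = 1 := fun g hg u hu hgu => by
    by_contra hu1
    refine hg (hHfix _ hgu (fun h => hu1 (conj_eq_one_iff.1 h)) (g • a) ?_)
    rw [← mul_smul, inv_mul_cancel_right, mul_smul, hfixa u hu]
  refine ⟨hTI, ?_⟩
  -- H is nontrivial
  have hH1 : ∃ u ∈ H, u ≠ 1 := by
    by_contra hno
    push Not at hno
    have h1 : Nat.card H = 1 := by
      rw [(Subgroup.eq_bot_iff_forall H).2 hno]; exact Subgroup.card_bot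
    rw [h1] at hHcard
    refine hg₀ (eq_of_smul_eq_smul fun c : Ω => ?_)
    rw [one_smul]
    have hsub : ∀ c : Ω, c = a' ∨ c = b' := fun c => by
      by_contra hc
      push Not at hc
      have : ({a', b', c} : Finset Ω).card ≤ Fintype.card Ω := Finset.card_le_univ _
      rw [Finset.card_insert_of_notMem (by simp [hab', hc.1.symm]), Finset.card_insert_of_notMem (by simp [hc.2.symm]), Finset.card_singleton] at this
      omega
    rcases hsub c with rfl | rfl
    exacts [hga, hgb]
  refine le_antisymm (fun g hg => ?_) fun g hg => ?_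
  · obtain ⟨u, hu, hu1⟩ := hH1
    by_contra hga
    exact hu1 (hTI g hga u hu ((Subgroup.mem_normalizer_iff.1 hg u).1 hu))
  -- H is the set of elements fixing only a
  let S := Finset.univ.filter fun c : Ω => c ≠ a
  haveI : Fintype G := Fintype.ofFinite G
  have hsemi : ∀ c : Ω, c ≠ a → ∀ u ∈ H, ∀ v ∈ H, u • c = v • c → u = v := fun c hc u hu v hv h => by
    by_contra hne
    refine hc (hHfix (v⁻¹ * u) (H.mul_mem (H.inv_mem hv) hu) (fun e => hne (inv_mul_eq_one.1 e).symm) c ?_)
    rw [mul_smul, h, inv_smul_smul]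
  have hreg : ∀ c : Ω, c ≠ a → ∀ d : Ω, d ≠ a → ∃ u ∈ H, u • c = d := fun c hc d hd => by
    have himg : (Finset.univ.filter (fun u : G => u ∈ H)).image (fun u => u • c) = S := by
      refine Finset.eq_of_subset_of_card_le (fun x hx => ?_) ?_
      · obtain ⟨u, hu, rfl⟩ := Finset.mem_image.1 hx
        refine Finset.mem_filter.2 ⟨Finset.mem_univ _, fun h => hc ?_⟩
        exact MulAction.injective u (h.trans (hfixa u (Finset.mem_filter.1 hu).2).symm)
      · rw [Finset.card_image_of_injOn (fun u hu v hv h => hsemi c hc u (Finset.mem_filter.1 hu).2 v (Finset.mem_filter.1 hv).2 h),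
          show S = Finset.univ.erase a from Finset.filter_ne' _ a, Finset.card_erase_of_mem (Finset.mem_univ a), Finset.card_univ, ← Fintype.card_subtype]
        simp only [Nat.card_eq_fintype_card] at hHcard ⊢
        omega
    have : d ∈ S := Finset.mem_filter.2 ⟨Finset.mem_univ _, hd⟩
    rw [← himg] at this
    obtain ⟨u, hu, rfl⟩ := Finset.mem_image.1 this
    exact ⟨u, (Finset.mem_filter.1 hu).2, rfl⟩
  obtain ⟨b, hb⟩ : ∃ b, b ≠ a := by
    by_contra hno
    push Not at hno
    exact hab' ((hno a').trans (hno b').symm)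
  let St := Finset.univ.filter fun s : G => s • a = a
  let E := Finset.univ.filter fun s : G => s • a = a ∧ s • b = b
  let D := Finset.univ.filter fun s : G => s • a = a ∧ ∃ c, c ≠ a ∧ s • c = c ∧ s ≠ 1
  have hSt : St.card = Nat.card H * E.card := by
    rw [Nat.card_eq_fintype_card, Fintype.card_subtype, ← Finset.card_product]
    symm
    refine Finset.card_bij (fun t _ => t.1 * t.2) (fun t ht => ?_) (fun t ht t' ht' h => ?_) fun s hs => ?_
    · simp only [St, E, Finset.mem_product, Finset.mem_filter, Finset.mem_univ, true_and] at ht ⊢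
      rw [mul_smul, ht.2.1, hfixa _ ht.1]
    · simp only [E, Finset.mem_product, Finset.mem_filter, Finset.mem_univ, true_and] at ht ht'
      have h1 : t.1 = t'.1 := hsemi b hb _ ht.1 _ ht'.1 (by
        have := congrArg (· • b) h
        simpa only [mul_smul, ht.2.2, ht'.2.2] using this)
      exact Prod.ext h1 (mul_left_cancel (h1 ▸ h))
    · simp only [St, Finset.mem_filter, Finset.mem_univ, true_and] at hs
      obtain ⟨u, hu, hub⟩ := hreg b hb (s • b) (fun h => hb (MulAction.injective s (h.trans hs.symm)))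
      refine ⟨(u, u⁻¹ * s), ?_, mul_inv_cancel_left u s⟩
      simp only [E, Finset.mem_product, Finset.mem_filter, Finset.mem_univ, true_and]
      refine ⟨hu, ?_, ?_⟩
      · rw [mul_smul, hs, inv_smul_eq_iff, hfixa u hu]
      · rw [mul_smul, inv_smul_eq_iff, hub]
  have hD : D.card = Nat.card H * (E.card - 1) := by
    have h1 : (E.erase 1).card = E.card - 1 := Finset.card_erase_of_mem (by simp [E])
    rw [← h1, Nat.card_eq_fintype_card, Fintype.card_subtype, ← Finset.card_product]
    symm
    refine Finset.card_bij (fun t _ => t.1 * t.2 * t.1⁻¹) (fun t ht => ?_) (fun t ht t' ht' h => ?_) fun s hs => ?_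
    · simp only [E, D, Finset.mem_product, Finset.mem_erase, Finset.mem_filter, Finset.mem_univ, true_and] at ht ⊢
      have hi : t.1⁻¹ • a = a := by rw [inv_smul_eq_iff, hfixa _ ht.1]
      refine ⟨by rw [mul_smul, mul_smul, hi, ht.2.2.1, hfixa _ ht.1], t.1 • b, fun h => hb ?_, ?_, fun h => ht.2.1 (conj_eq_one_iff.1 h)⟩
      · exact MulAction.injective t.1 (h.trans (hfixa _ ht.1).symm)
      · rw [← mul_smul, inv_mul_cancel_right, mul_smul, ht.2.2.2]
    · simp only [E, Finset.mem_product, Finset.mem_erase, Finset.mem_filter, Finset.mem_univ, true_and] at ht ht'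
      have hne : t.1 • b ≠ a := fun e => hb (MulAction.injective t.1 (e.trans (hfixa _ ht.1).symm))
      have hf : ∀ p : G × G, p.2 • b = b → (p.1 * p.2 * p.1⁻¹) • (p.1 • b) = p.1 • b := fun p hp => by
        rw [← mul_smul, inv_mul_cancel_right, mul_smul, hp]
      have e1 : t.1 = t'.1 := by
        by_contra hne'
        have hne2 : t'.1 • b ≠ t.1 • b := fun e => hne' (hsemi b hb _ ht'.1 _ ht.1 e).symm
        have hne3 : t'.1 • b ≠ a := fun e => hb (MulAction.injective t'.1 (e.trans (hfixa _ ht'.1).symm))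
        refine ht.2.1 (conj_eq_one_iff.1 (h3 (t.1 * t.2 * t.1⁻¹) a (t.1 • b) (t'.1 • b) hne.symm hne2.symm hne3.symm ?_ (hf t ht.2.2.2) (h ▸ hf t' ht'.2.2.2)))
        have hi : t.1⁻¹ • a = a := by rw [inv_smul_eq_iff, hfixa _ ht.1]
        rw [mul_smul, mul_smul, hi, ht.2.2.1, hfixa _ ht.1]
      refine Prod.ext e1 ?_
      rw [e1] at h
      exact mul_left_cancel (mul_right_cancel h)
    · simp only [D, Finset.mem_filter, Finset.mem_univ, true_and] at hs
      obtain ⟨hsa, c, hc, hsc, hs1⟩ := hs
      obtain ⟨u, hu, hub⟩ := hreg b hb c hc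
      refine ⟨(u, u⁻¹ * s * u), ?_, by group⟩
      simp only [E, Finset.mem_product, Finset.mem_erase, Finset.mem_filter, Finset.mem_univ, true_and]
      refine ⟨hu, fun h => hs1 (by rw [show s = u * (u⁻¹ * s * u) * u⁻¹ by group, h]; group), ?_, ?_⟩
      · rw [mul_smul, mul_smul, hfixa u hu, hsa, inv_smul_eq_iff, hfixa u hu]
      · rw [mul_smul, mul_smul, hub, hsc, inv_smul_eq_iff, hub]
  have hF : ∀ s : G, s ∈ H ↔ s ∈ St \ D := by
    have hsub : (Finset.univ.filter fun s : G => s ∈ H) = St \ D := by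
      refine Finset.eq_of_subset_of_card_le (fun s hs => ?_) ?_
      · simp only [St, D, Finset.mem_sdiff, Finset.mem_filter, Finset.mem_univ, true_and] at hs ⊢
        exact ⟨hfixa s hs, fun ⟨_, c, hc, hsc, hs1⟩ => hc (hHfix s hs hs1 c hsc)⟩
      · rw [Finset.card_sdiff_of_subset (fun s hs => by simp only [D, St, Finset.mem_filter] at hs ⊢; exact ⟨hs.1, hs.2.1⟩),
          hSt, hD, ← Nat.mul_sub]
        have hE1 : 1 ≤ E.card := Finset.card_pos.2 ⟨1, by simp [E]⟩
        rw [Nat.sub_sub_self hE1, mul_one, ← Fintype.card_subtype, ← Nat.card_eq_fintype_card]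
    intro s
    rw [← hsub]; simp
  have hconj : ∀ t : G, t • a = a → ∀ s, s ∈ H → t * s * t⁻¹ ∈ H := fun t ht s hs => by
    rw [hF] at hs ⊢
    simp only [St, D, Finset.mem_sdiff, Finset.mem_filter, Finset.mem_univ, true_and] at hs ⊢
    have hi : t⁻¹ • a = a := by rw [inv_smul_eq_iff, ht]
    refine ⟨by rw [mul_smul, mul_smul, hi, hs.1, ht], fun ⟨_, c, hc, hsc, hs1⟩ => hs.2 ⟨hs.1, t⁻¹ • c, fun e => hc ?_, ?_, fun e => hs1 (by rw [e]; group)⟩⟩
    · exact MulAction.injective t⁻¹ (e.trans hi.symm)
    · rw [mul_smul, mul_smul] at hsc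
      rw [eq_inv_smul_iff, hsc]
  rw [Subgroup.mem_normalizer_iff]
  intro s
  refine ⟨hconj g hg s, fun h => ?_⟩
  have h' := hconj g⁻¹ (inv_smul_eq_iff.2 (Eq.symm hg)) _ h
  simpa [mul_assoc] using h'

end Cfsg.Agent.S0878
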