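import Cfsg.Statements.S0879
import Mathlib

set_option autoImplicit false
open Cfsg

namespace Cfsg.Agent.S0879

/-- Let G be a Zassenhaus group on the finite set Ω and E the stabilizer of two distinct points a, b. Then an element outside the normalizer of E conjugates no non-identity element of E into E, and E has index 2 in its normalizer. -/
theorem result {G Ω : Type*} [Group G] [Finite G] [MulAction G Ω] [Fintype Ω] (hZ : Cfsg.IsZassenhausGroup G Ω) {a b : Ω} (hab : a ≠ b) : (∀ g : G, g ∉ Subgroup.normalizer ((MulAction.stabilizer G a ⊓ MulAction.stabilizer G b : Subgroup G) : Set G) → ∀ x ∈ (MulAction.stabilizer G a ⊓ MulAction.stabilizer G b : Subgroup G), g * x * g⁻¹ ∈ (MulAction.stabilizer G a ⊓ MulAction.stabilizer G b : Subgroup G) → x = 1) ∧ ((MulAction.stabilizer G a ⊓ MulAction.stabilizer G b : Subgroup G).subgroupOf (Subgroup.normalizer ((MulAction.stabilizer G a ⊓ MulAction.stabilizer G b : Subgroup G) : Set G))).index = 2 :=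 by
  classical
  obtain ⟨hfaith, h2, h3, ⟨g₀, hg₀, a', b', hab', hga, hgb⟩, -⟩ := hZ
  rw [MulAction.is_two_pretransitive_iff] at h2
  set E := (MulAction.stabilizer G a ⊓ MulAction.stabilizer G b : Subgroup G) with hE
  have hmemE : ∀ x : G, x ∈ E ↔ x • a = a ∧ x • b = b := fun x => Iff.rfl
  -- a nontrivial element of E
  obtain ⟨x₀, hx₀, hx₀1⟩ : ∃ x ∈ E, x ≠ 1 := by
    obtain ⟨t, ht1, ht2⟩ := h2 hab' hab
    refine ⟨t * g₀ * t⁻¹, (hmemE _).2 ⟨?_, ?_⟩, fun h => hg₀ (conj_eq_one_iff.1 h)⟩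
    · rw [← ht1, ← mul_smul, inv_mul_cancel_right, mul_smul, hga]
    · rw [← ht2, ← mul_smul, inv_mul_cancel_right, mul_smul, hgb]
  -- where g can send {a, b}
  have hmove : ∀ g x : G, x ∈ E → x ≠ 1 → g * x * g⁻¹ ∈ E → (g • a = a ∧ g • b = b) ∨ (g • a = b ∧ g • b = a) := by
    intro g x hx hx1 hgx
    have hfix : ∀ c : Ω, x • c = c → (g * x * g⁻¹) • (g • c) = g • c := fun c hc => by
      rw [← mul_smul, inv_mul_cancel_right, mul_smul, hc]
    have hne : g * x * g⁻¹ ≠ 1 := fun h => hx1 (conj_eq_one_iff.1 h)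
    have hin : ∀ c : Ω, (g * x * g⁻¹) • c = c → c = a ∨ c = b := fun c hc => by
      by_contra hno
      push Not at hno
      exact hne (h3 _ a b c hab (Ne.symm hno.2) (Ne.symm hno.1) hgx.1 hgx.2 hc)
    rcases hin _ (hfix a hx.1) with h | h <;> rcases hin _ (hfix b hx.2) with h' | h'
    · exact absurd (MulAction.injective g (h.trans h'.symm)) hab
    · exact Or.inl ⟨h, h'⟩
    · exact Or.inr ⟨h, h'⟩
    · exact absurd (MulAction.injective g (h.trans h'.symm)) hab
  have hN : ∀ g : G, g ∈ Subgroup.normalizer (E : Set G) ↔ (g • a = a ∧ g • b = b) ∨ (g • a = b ∧ g • b = a) := by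
    intro g
    refine ⟨fun hg => hmove g x₀ hx₀ hx₀1 ((Subgroup.mem_normalizer_iff.1 hg x₀).1 hx₀), fun h => Subgroup.mem_normalizer_iff.2 fun x => ?_⟩
    have hiff : ∀ c : Ω, (g * x * g⁻¹) • (g • c) = g • c ↔ x • c = c := fun c => by
      rw [← mul_smul, inv_mul_cancel_right, mul_smul, smul_left_cancel_iff]
    rw [hmemE, hmemE]
    rcases h with ⟨h1, h1'⟩ | ⟨h1, h1'⟩
    · have e1 := hiff a; have e2 := hiff b; rw [h1] at e1; rw [h1'] at e2
      rw [e1, e2]
    · have e1 := hiff a; have e2 := hiff b; rw [h1] at e1; rw [h1'] at e2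
      rw [e1, e2, and_comm]
  refine ⟨fun g hg x hx hgx => by_contra fun hx1 => hg ((hN g).2 (hmove g x hx hx1 hgx)), ?_⟩
  obtain ⟨t, ht1, ht2⟩ := h2 hab hab.symm
  refine Subgroup.index_eq_two_iff.2 ⟨⟨t, (hN t).2 (Or.inr ⟨ht1, ht2⟩)⟩, fun n => ?_⟩
  simp only [Subgroup.mem_subgroupOf, Subgroup.coe_mul, hmemE, mul_smul, ht1, ht2]
  rcases (hN n).1 n.2 with ⟨h1, h1'⟩ | ⟨h1, h1'⟩
  · simp [h1, h1', hab, hab.symm]
  · simp [h1, h1', hab, hab.symm]

end Cfsg.Agent.S0879
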