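import Cfsg.Statements.S0880
import Cfsg.Agent.Lib.Zass.Basic
import Cfsg.Agent.Lib.GroupB.FrobDiv

set_option autoImplicit false
open Cfsg

namespace Cfsg.Agent.S0880

/-- Let G be a finite simple Zassenhaus group on Ω with n points whose two-point stabilizer E has odd order less than n - 2. Then there are two elements of G, each fixing no point of Ω, that are not conjugate. -/
theorem result {G Ω : Type*} [Group G] [Finite G] [MulAction G Ω] [Fintype Ω] (hZ : Cfsg.IsZassenhausGroup G Ω) {a b : Ω} (hab : a ≠ b) [IsSimpleGroup G] (hodd : Odd (Nat.card ↥(MulAction.stabilizer G a ⊓ MulAction.stabilizer G b : Subgroup G))) (hlt : Nat.card ↥(MulAction.stabilizer G a ⊓ MulAction.stabilizer G b : Subgroup G) < Fintype.card Ω - 2) : ∃ x y : G, (∀ c : Ω, x • c ≠ c) ∧ (∀ c : Ω, y • c ≠ c) ∧ ¬ IsConj x y := by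
      classical
      haveI : Fintype G := Fintype.ofFinite G
      set e := Nat.card ↥(MulAction.stabilizer G a ⊓ MulAction.stabilizer G b) with he
      have he3 := CfsgLib.Zass.three_le_two_stab hZ hab hodd
      have hfree := CfsgLib.Zass.card_free hZ hab
      have hG := CfsgLib.Zass.card_group hZ hab
      rw [← he] at he3 hG
      have hn : e + 3 ≤ Fintype.card Ω := by omega
      set n := Fintype.card Ω with hndef
      set f := Nat.card {g : G // ∀ c : Ω, g • c ≠ c} with hf
      have hGz : (Nat.card G : ℤ) = (n : ℤ) * (((n : ℤ) - 1) * (e : ℤ)) := by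
        rw [hG, Nat.cast_mul, Nat.cast_mul, Nat.cast_sub (show 1 ≤ n by omega)]; push_cast; ring
      have hpos : 0 < f := by
        have h1 : (0 : ℤ) < 2 * (f : ℤ) := by
          rw [hfree, hGz]
          have h3 : (3 : ℤ) ≤ e := by exact_mod_cast he3
          have h4 : (6 : ℤ) ≤ n := by exact_mod_cast (by omega : 6 ≤ n)
          nlinarith [mul_le_mul_of_nonneg_left h3 (show (0:ℤ) ≤ (n : ℤ) * ((n : ℤ) - 1) by nlinarith)]
        omega
      obtain ⟨⟨x, hx⟩⟩ := (Nat.card_pos_iff.1 hpos).1
      by_contra hno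
      push Not at hno
      have hcls : Nat.card {g : G // IsConj x g} = f := by
        refine Nat.card_congr (Equiv.subtypeEquivRight fun g => ⟨fun hg c hc => ?_, fun hg => hno x g hx hg⟩)
        obtain ⟨k, rfl⟩ := isConj_iff.1 hg
        refine hx (k⁻¹ • c) ?_
        rw [eq_inv_smul_iff, ← mul_smul]
        calc (k * x) • (k⁻¹ • c) = (k * x * k⁻¹) • c := by rw [← mul_smul]
          _ = c := hc
      have hmul := CfsgLib.GroupB.FrobDiv.card_class_mul_centralizer x
      rw [hcls] at hmul
      have hmz : (f : ℤ) * (Nat.card (Subgroup.centralizer ({x} : Set G)) : ℤ) = (Nat.card G : ℤ) := by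
        exact_mod_cast hmul
      generalize (Nat.card (Subgroup.centralizer ({x} : Set G)) : ℤ) = C at hmz
      rw [hGz] at hmz hfree
      have h3 : (3 : ℤ) ≤ e := by exact_mod_cast he3
      have h4 : (e : ℤ) + 3 ≤ n := by exact_mod_cast hn
      have key : (C - 2) * ((n : ℤ) * e - n + 2) = 2 * ((n : ℤ) - 2) := by
        have h5 : ((n : ℤ) - 1) ≠ 0 := by omega
        apply mul_left_cancel₀ h5
        linear_combination (C : ℤ) * (-hfree) + 2 * hmz
      have hD : 2 * ((n : ℤ) - 2) < (n : ℤ) * e - n + 2 := by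
        nlinarith [mul_le_mul_of_nonneg_left h3 (show (0:ℤ) ≤ (n : ℤ) by omega)]
      rcases le_or_gt C 2 with hC | hC
      · nlinarith
      · nlinarith

end Cfsg.Agent.S0880
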