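import Cfsg.Statements.S0881
import Cfsg.Agent.Lib.Zass.Basic
import Cfsg.Agent.S0739
import Cfsg.Agent.S0740
import Cfsg.Agent.Lib.Chars.Induced
import Cfsg.Agent.Lib.Chars.Linear

set_option autoImplicit false
open Cfsg

namespace Cfsg.Agent.S0881

/-- Let G be a finite simple Zassenhaus group on Ω with n points, a ≠ b points with two-point stabilizer E of odd order less than n - 2, and let H be the subgroup of the stabilizer of a consisting of the identity and the elements fixing no point other than a (given here as a subgroup of the stabilizer of order one less than the number of points whose non-identity elements fix only a; it is the Frobenius kernel of the stabilizer). Let μ be a character of degree 1 of the stabilizer of a that is identically 1 on H but not identically 1. Then the function induced from μ to G is an irreducible character of G, and it takes the value 1 at every non-identity element of H. -/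
theorem result {G Ω : Type*} [Group G] [Fintype G] [MulAction G Ω] [Fintype Ω] (hZ : Cfsg.IsZassenhausGroup G Ω) {a b : Ω} (hab : a ≠ b) [IsSimpleGroup G] (hodd : Odd (Nat.card ↥(MulAction.stabilizer G a ⊓ MulAction.stabilizer G b : Subgroup G))) (hlt : Nat.card ↥(MulAction.stabilizer G a ⊓ MulAction.stabilizer G b : Subgroup G) < Fintype.card Ω - 2) (H : Subgroup G) (hHa : H ≤ MulAction.stabilizer G a) (hHcard : Nat.card H + 1 = Fintype.card Ω) (hHfix : ∀ u ∈ H, u ≠ 1 → ∀ c : Ω, u • c = c → c = a) (μ : MulAction.stabilizer G a → ℂ) (hμ : Cfsg.IsCharacter (MulAction.stabilizer G a) μ ∧ μ 1 = 1) (hμH : ∀ u : MulAction.stabilizer G a, (u : G) ∈ H → μ u = 1) (hμne : μ ≠ fun _ => 1) : Cfsg.IsIrrCharacter G (Cfsg.indFun (MulAction.stabilizer G a) μ) ∧ ∀ u ∈ H, u ≠ 1 → Cfsg.indFun (MulAction.stabilizer G a) μ u = 1 := by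
      classical
      obtain ⟨M, hM⟩ := CfsgLib.Chars.IsCharacter.exists_hom hμ.1 hμ.2
      obtain ⟨⟨t, ht, hta, htb⟩, -, -⟩ := Cfsg.Agent.S0740.result hZ hab
      obtain ⟨-, -, hinv⟩ := Cfsg.Agent.S0739.result hZ hab hodd (CfsgLib.Zass.no_normal_complement hZ hab)
      haveI : Fintype (MulAction.stabilizer G a) := Fintype.ofFinite (MulAction.stabilizer G a)
      have hmemN : ∀ y : G, y ∈ (MulAction.stabilizer G a) ↔ y • a = a := fun y => MulAction.mem_stabilizer_iff
      -- values of the extension by zero
      have hext : ∀ (g x : G) (hg : g ∈ (MulAction.stabilizer G a)), x ∈ (MulAction.stabilizer G a) → Cfsg.extendByZero (MulAction.stabilizer G a) μ (x⁻¹ * g * x) = μ ⟨g, hg⟩ := by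
        intro g x hg hx
        have e1 : x⁻¹ * g * x ∈ (MulAction.stabilizer G a) := mul_mem (mul_mem (inv_mem hx) hg) hx
        rw [CfsgLib.Chars.extendByZero_apply, dif_pos e1,
          show (⟨x⁻¹ * g * x, e1⟩ : (MulAction.stabilizer G a)) = (⟨x, hx⟩ : (MulAction.stabilizer G a))⁻¹ * ⟨g, hg⟩ * ⟨x, hx⟩ from Subtype.ext rfl, hM]
        simp only [map_mul, map_inv]
        congr 1
        rw [mul_comm (M ⟨x, hx⟩)⁻¹, inv_mul_cancel_right]
      have hzero : ∀ g x : G, g • (x • a) ≠ x • a → Cfsg.extendByZero (MulAction.stabilizer G a) μ (x⁻¹ * g * x) = 0 := by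
        intro g x hx
        rw [CfsgLib.Chars.extendByZero_apply, dif_neg fun h => hx ?_]
        rw [hmemN, mul_smul, mul_smul, inv_smul_eq_iff] at h
        exact h
      have hcardN : ((Finset.univ.filter fun x : G => x • a = a).card : ℂ) = (Nat.card (MulAction.stabilizer G a) : ℂ) := by
        rw [Nat.card_eq_fintype_card, Fintype.card_subtype]
        congr 2
      have hN0 : (Nat.card (MulAction.stabilizer G a) : ℂ) ≠ 0 := Nat.cast_ne_zero.2 Nat.card_pos.ne'
      -- the values on the kernel
      have hH : ∀ u ∈ H, u ≠ 1 → Cfsg.indFun (MulAction.stabilizer G a) μ u = 1 := by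
        intro u hu hu1
        simp only [Cfsg.indFun]
        rw [← Finset.sum_filter_add_sum_filter_not Finset.univ (fun x : G => x • a = a),
          Finset.sum_eq_zero (s := Finset.univ.filter fun x : G => ¬ x • a = a) fun x hx => hzero u x fun h =>
            (Finset.mem_filter.1 hx).2 (hHfix u hu hu1 _ h),
          add_zero, Finset.sum_congr rfl fun x hx => (hext u x (hHa hu) ((hmemN x).2 (Finset.mem_filter.1 hx).2)).trans
            (hμH ⟨u, hHa hu⟩ hu), Finset.sum_const, nsmul_eq_mul, mul_one, hcardN, inv_mul_cancel₀ hN0]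
      -- the values on the two point stabiliser
      have hE : ∀ (g : G) (hga : g • a = a), g • b = b → g ≠ 1 →
          Cfsg.indFun (MulAction.stabilizer G a) μ g = μ ⟨g, hga⟩ + starRingEnd ℂ (μ ⟨g, hga⟩) := by
        intro g hga hgb hg1
        simp only [Cfsg.indFun]
        rw [← Finset.sum_filter_add_sum_filter_not Finset.univ (fun x : G => x • a = a),
          Finset.sum_congr rfl fun x hx => hext g x hga ((hmemN x).2 (Finset.mem_filter.1 hx).2),
          ← Finset.sum_filter_add_sum_filter_not (Finset.univ.filter fun x : G => ¬ x • a = a) (fun x : G => x • a = b),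
          Finset.sum_eq_zero (s := (Finset.univ.filter fun x : G => ¬ x • a = a).filter fun x : G => ¬ x • a = b)
            fun x hx => hzero g x fun h => by
              simp only [Finset.mem_filter, Finset.mem_univ, true_and] at hx
              exact hg1 (CfsgLib.Zass.eq_one_of_three hZ hab (Ne.symm hx.2) (Ne.symm hx.1) hga hgb h),
          add_zero, Finset.sum_const, nsmul_eq_mul, hcardN]
        have ht2 : t * t = 1 := by rw [← pow_two, ← ht]; exact pow_orderOf_eq_one t
        have hti : t⁻¹ = t := inv_eq_of_mul_eq_one_right ht2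
        have hsum2 : ∑ x ∈ (Finset.univ.filter fun x : G => ¬ x • a = a).filter (fun x : G => x • a = b),
            Cfsg.extendByZero (MulAction.stabilizer G a) μ (x⁻¹ * g * x) = (Nat.card (MulAction.stabilizer G a) : ℂ) * starRingEnd ℂ (μ ⟨g, hga⟩) := by
          rw [← hcardN, ← nsmul_eq_mul, ← Finset.sum_const]
          refine Finset.sum_nbij' (fun x => t * x) (fun y => t * y) (fun x hx => ?_) (fun y hy => ?_)
            (fun x _ => by rw [← mul_assoc, ht2, one_mul]) (fun y _ => by rw [← mul_assoc, ht2, one_mul]) (fun x hx => ?_)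
          · simp only [Finset.mem_filter, Finset.mem_univ, true_and] at hx ⊢
            rw [mul_smul, hx.2, htb]
          · simp only [Finset.mem_filter, Finset.mem_univ, true_and] at hy ⊢
            rw [mul_smul, hy, hta]
            exact ⟨hab.symm, rfl⟩
          · simp only [Finset.mem_filter, Finset.mem_univ, true_and] at hx
            have hgi : g⁻¹ ∈ (MulAction.stabilizer G a) := inv_mem ((hmemN g).2 hga)
            rw [show x⁻¹ * g * x = (t * x)⁻¹ * (t * g * t⁻¹) * (t * x) by group,
              hinv t hta htb g ⟨hga, hgb⟩, hext g⁻¹ (t * x) hgi ((hmemN _).2 (by rw [mul_smul, hx.2, htb])),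
              ← CfsgLib.Chars.IsCharacter.map_inv hμ.1]
            rfl
        rw [hsum2]
        field_simp
      have hcl : Cfsg.IsClassFunction G (Cfsg.indFun (MulAction.stabilizer G a) μ) := CfsgLib.Chars.indFun_isClassFunction (MulAction.stabilizer G a) μ
      refine ⟨CfsgLib.Chars.isIrrCharacter_of_norm_one (CfsgLib.Chars.IsCharacter.indFun (MulAction.stabilizer G a) hμ.1) ?_, hH⟩
      rw [CfsgLib.Chars.frobenius (MulAction.stabilizer G a) μ hcl, Cfsg.classInner, inv_mul_eq_iff_eq_mul₀ hN0, mul_one]
      -- the sum over the stabiliser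
      let F : G → ℂ := fun y => Cfsg.extendByZero (MulAction.stabilizer G a) μ y * starRingEnd ℂ (Cfsg.indFun (MulAction.stabilizer G a) μ y)
      have hFN : ∀ y : (MulAction.stabilizer G a), μ y * starRingEnd ℂ (Cfsg.indFun (MulAction.stabilizer G a) μ y) = F y := fun y => by
        simp only [F, CfsgLib.Chars.extendByZero_coe]
      rw [Finset.sum_congr rfl fun y _ => hFN y,
        show ∑ y : (MulAction.stabilizer G a), F y = ∑ y ∈ Finset.univ.filter (fun y : G => y • a = a), F y from
          (Finset.sum_subtype _ (fun y => by simp [hmemN]) F).symm, CfsgLib.Zass.sum_stab hZ]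
      have hF1 : F 1 = (Fintype.card Ω : ℂ) := by
        haveI := CfsgLib.Zass.pretransitive hZ hab
        show Cfsg.extendByZero (MulAction.stabilizer G a) μ ((1 : (MulAction.stabilizer G a)) : G) * _ = _
        rw [CfsgLib.Chars.extendByZero_coe, CfsgLib.Chars.indFun_one, hμ.2, one_mul, mul_one, map_natCast,
          MulAction.index_stabilizer_of_transitive, Nat.card_eq_fintype_card]
      have hF2 : ∑ y ∈ Finset.univ.filter (fun y : G => y • a = a ∧ ∀ c : Ω, y • c = c → c = a), F y =
          ((Nat.card H : ℂ) - 1) := by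
        have hset : Finset.univ.filter (fun y : G => y • a = a ∧ ∀ c : Ω, y • c = c → c = a) =
            (Finset.univ.filter fun y : G => y ∈ H).erase 1 := by
          ext y
          simp only [Finset.mem_filter, Finset.mem_univ, true_and, Finset.mem_erase]
          refine ⟨fun hy => ⟨fun h1 => ?_, CfsgLib.Zass.mem_kernel hZ hab hHa hHcard hHfix hy.1 hy.2⟩,
            fun hy => ⟨hHa hy.2, hHfix y hy.2 hy.1⟩⟩
          exact hab (hy.2 b (by rw [h1, one_smul])).symm
        rw [hset, Finset.sum_congr rfl (g := fun _ => (1 : ℂ)) (fun y hy => ?_), Finset.sum_const,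
          Finset.card_erase_of_mem (Finset.mem_filter.2 ⟨Finset.mem_univ _, H.one_mem⟩), nsmul_eq_mul, mul_one,
          Nat.cast_sub (Finset.card_pos.2 ⟨1, Finset.mem_filter.2 ⟨Finset.mem_univ _, H.one_mem⟩⟩), Nat.cast_one]
        · congr 2
          rw [Nat.card_eq_fintype_card, Fintype.card_subtype]
        · obtain ⟨hy1, hy2⟩ := Finset.mem_erase.1 hy
          have hy2' := (Finset.mem_filter.1 hy2).2
          show Cfsg.extendByZero (MulAction.stabilizer G a) μ y * _ = 1
          rw [hH y hy2' hy1, map_one, mul_one, CfsgLib.Chars.extendByZero_apply, dif_pos (hHa hy2'), hμH _ hy2']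
      set E := (MulAction.stabilizer G a ⊓ MulAction.stabilizer G b : Subgroup G) with hEdef
      haveI : Fintype E := Fintype.ofFinite E
      have hEN : E ≤ (MulAction.stabilizer G a) := inf_le_left
      let ME : E →* ℂ := ((Units.coeHom ℂ).comp M).comp (Subgroup.inclusion hEN)
      have hME : ME * ME ≠ 1 := by
        intro hsq
        apply hμne
        funext y
        rw [hM]
        have hEone : ∀ g : G, ∀ hg : g ∈ E, M ⟨g, hEN hg⟩ = 1 := by
          intro g hg
          have h2 : (M ⟨g, hEN hg⟩) ^ 2 = 1 := Units.ext (by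
            rw [pow_two, Units.val_mul, Units.val_one]
            exact DFunLike.congr_fun hsq ⟨g, hg⟩)
          have he : (M ⟨g, hEN hg⟩) ^ Nat.card E = 1 := by
            rw [← map_pow]
            have h3 : (⟨g, hEN hg⟩ : (MulAction.stabilizer G a)) ^ Nat.card E = 1 :=
              Subtype.ext (orderOf_dvd_iff_pow_eq_one.1 (Subgroup.orderOf_dvd_natCard _ hg))
            rw [h3, map_one]
          obtain ⟨m, hm⟩ := hodd
          rw [hm, pow_succ, pow_mul, h2, one_pow, one_mul] at he
          exact he
        have hone : M y = 1 := by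
          by_cases hy : ∀ c : Ω, (y : G) • c = c → c = a
          · have h4 := hμH y (CfsgLib.Zass.mem_kernel hZ hab hHa hHcard hHfix y.2 hy)
            rw [hM] at h4
            exact Units.ext h4
          · push Not at hy
            obtain ⟨c, hc, hca⟩ := hy
            obtain ⟨m, hma, hmb⟩ := CfsgLib.Zass.exists_move hZ hab (Ne.symm hca)
            have hy' : (y : G) • a = a := y.2
            have hg : m⁻¹ * (y : G) * m ∈ E :=
              ⟨by show _ = a; rw [mul_smul, mul_smul, hma, hy', inv_smul_eq_iff, hma],
               by show _ = b; rw [mul_smul, mul_smul, hmb, hc, inv_smul_eq_iff, hmb]⟩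
            have h := hEone _ hg
            rw [show (⟨m⁻¹ * (y : G) * m, hEN hg⟩ : (MulAction.stabilizer G a)) = (⟨m, hma⟩ : (MulAction.stabilizer G a))⁻¹ * y * ⟨m, hma⟩ from Subtype.ext rfl,
              map_mul, map_mul, map_inv, mul_comm (M ⟨m, hma⟩)⁻¹, inv_mul_cancel_right] at h
            exact h
        show (M y : ℂ) = 1
        rw [hone, Units.val_one]
      have hF3 : ∀ c ∈ Finset.univ.erase a,
          ∑ y ∈ Finset.univ.filter (fun y : G => y • a = a ∧ y • c = c ∧ y ≠ 1), F y = (Nat.card E : ℂ) - 2 := by
        intro c hc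
        obtain ⟨m, hma, hmb⟩ := CfsgLib.Zass.exists_move hZ hab (Ne.symm (Finset.mem_erase.1 hc).1)
        have hFcl : ∀ y : G, y ∈ (MulAction.stabilizer G a) → F (m * y * m⁻¹) = F y := by
          intro y hy
          simp only [F]
          rw [show Cfsg.indFun (MulAction.stabilizer G a) μ (m * y * m⁻¹) = Cfsg.indFun (MulAction.stabilizer G a) μ y from hcl y m]
          congr 1
          have hy' : m * y * m⁻¹ ∈ (MulAction.stabilizer G a) := mul_mem (mul_mem hma hy) (inv_mem hma)
          rw [CfsgLib.Chars.extendByZero_apply, CfsgLib.Chars.extendByZero_apply, dif_pos hy', dif_pos hy]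
          exact CfsgLib.Chars.IsCharacter.isClassFunction hμ.1 ⟨y, hy⟩ ⟨m, hma⟩
        have h1 : ∑ y ∈ Finset.univ.filter (fun y : G => y • a = a ∧ y • c = c ∧ y ≠ 1), F y =
            ∑ g ∈ (Finset.univ : Finset E).erase 1, (1 + (ME * ME) g) := by
          symm
          refine Finset.sum_bij (fun g _ => m * (g : G) * m⁻¹) (fun g hg => ?_) (fun g _ g' _ h => ?_)
            (fun y hy => ?_) (fun g hg => ?_)
          · obtain ⟨hga, hgb⟩ : (g : G) • a = a ∧ (g : G) • b = b := g.2
            simp only [Finset.mem_filter, Finset.mem_univ, true_and]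
            refine ⟨?_, ?_, fun h => (Finset.mem_erase.1 hg).1 (Subtype.ext (conj_eq_one_iff.1 h))⟩
            · rw [mul_smul, mul_smul, inv_smul_eq_iff.2 hma.symm, hga, hma]
            · rw [mul_smul, mul_smul, inv_smul_eq_iff.2 hmb.symm, hgb, hmb]
          · exact Subtype.ext (mul_left_cancel (mul_right_cancel h))
          · simp only [Finset.mem_filter, Finset.mem_univ, true_and] at hy
            refine ⟨⟨m⁻¹ * y * m, ?_, ?_⟩, Finset.mem_erase.2 ⟨fun h => hy.2.2 ?_, Finset.mem_univ _⟩, by group⟩
            · show _ = a; rw [mul_smul, mul_smul, hma, hy.1, inv_smul_eq_iff, hma]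
            · show _ = b; rw [mul_smul, mul_smul, hmb, hy.2.1, inv_smul_eq_iff, hmb]
            · have h' := congrArg Subtype.val h
              simp only [OneMemClass.coe_one] at h'
              rw [show y = m * (m⁻¹ * y * m) * m⁻¹ by group, h']
              group
          · rw [hFcl _ (hEN g.2)]
            have hg1 : (g : G) ≠ 1 := fun h => (Finset.mem_erase.1 hg).1 (Subtype.ext h)
            have hga : (g : G) ∈ (MulAction.stabilizer G a) := hEN g.2
            show _ = Cfsg.extendByZero (MulAction.stabilizer G a) μ (g : G) * _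
            rw [hE g hga g.2.2 hg1, CfsgLib.Chars.extendByZero_apply, dif_pos hga, map_add, Complex.conj_conj,
              mul_add, mul_comm (μ _) (starRingEnd ℂ (μ _))]
            have hunit : starRingEnd ℂ (μ ⟨g, hga⟩) * μ ⟨g, hga⟩ = 1 := by
              rw [← CfsgLib.Chars.IsCharacter.map_inv hμ.1, hM]
              simp
            rw [hunit]
            congr 1
            rw [hM]
            rfl
        rw [h1, Finset.sum_add_distrib, Finset.sum_const, Finset.card_erase_of_mem (Finset.mem_univ _),
          Finset.card_univ, nsmul_eq_mul, mul_one, ← Nat.card_eq_fintype_card, Nat.cast_sub Nat.card_pos,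
          Finset.sum_erase_eq_sub (Finset.mem_univ _), sum_hom_units_eq_zero (ME * ME) hME, map_one, Nat.cast_one]
        ring
      rw [hF1, hF2, Finset.sum_congr rfl hF3, Finset.sum_const, Finset.card_erase_of_mem (Finset.mem_univ _),
        Finset.card_univ, nsmul_eq_mul, CfsgLib.Zass.card_stab hZ hab, ← hHcard, Nat.add_sub_cancel, ← hEdef]
      push_cast
      ring

end Cfsg.Agent.S0881
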