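import Cfsg.Statements.S0882
import Cfsg.Agent.Lib.Zass.Basic
import Cfsg.Agent.S0739
import Cfsg.Agent.S0740

set_option autoImplicit false
open Cfsg

namespace Cfsg.Agent.S0882

/-- Let G be a finite simple Zassenhaus group on Ω with n = h + 1 points whose two-point stabilizer E has odd order e with 2e < h - 1. Then any two involutions of G are conjugate, and the number of involutions is e * (h + 1) if h is even and e * h if h is odd. -/
theorem result {G Ω : Type*} [Group G] [Finite G] [MulAction G Ω] [Fintype Ω] (hZ : Cfsg.IsZassenhausGroup G Ω) {a b : Ω} (hab : a ≠ b) [IsSimpleGroup G] (h e : ℕ) (hh : Fintype.card Ω = h + 1) (he : Nat.card ↥(MulAction.stabilizer G a ⊓ MulAction.stabilizer G b : Subgroup G) = e) (hodd : Odd e) (hlt : 2 * e < h - 1) : (∀ x y : G, orderOf x = 2 → orderOf y = 2 → IsConj x y) ∧ Nat.card {x : G // orderOf x = 2} = (if Even h then e * (h + 1) else e * h) := by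
      classical
      haveI : Fintype G := Fintype.ofFinite G
      have hodd' : Odd (Nat.card ↥(MulAction.stabilizer G a ⊓ MulAction.stabilizer G b)) := he.symm ▸ hodd
      obtain ⟨⟨t, ht, hta, htb⟩, -, -⟩ := Cfsg.Agent.S0740.result hZ hab
      obtain ⟨-, -, hinv⟩ := Cfsg.Agent.S0739.result hZ hab hodd' (CfsgLib.Zass.no_normal_complement hZ hab)
      have ht2 : t * t = 1 := by rw [← pow_two, ← ht]; exact pow_orderOf_eq_one t
      have hswap : ∀ x : G, x • a = b → x • b = a →
          orderOf x = 2 ∧ ∃ k ∈ MulAction.stabilizer G a ⊓ MulAction.stabilizer G b, x = t * k :=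
        fun x => CfsgLib.Zass.orderOf_two_of_swap hZ hab hta htb (hinv t hta htb) ht2
      have hconjt : ∀ x : G, x • a = b → x • b = a → IsConj x t := by
        intro x hxa hxb
        obtain ⟨-, k, hk, rfl⟩ := hswap x hxa hxb
        obtain ⟨m, hm⟩ := hodd
        have hke : k ^ e = 1 := by
          rw [← he]; exact orderOf_dvd_iff_pow_eq_one.1 (Subgroup.orderOf_dvd_natCard _ hk)
        have hr : k ^ (m + 1) * k ^ (m + 1) = k := by
          rw [← pow_add, show m + 1 + (m + 1) = e + 1 by omega, pow_succ, hke, one_mul]
        have hr' := hinv t hta htb (k ^ (m + 1)) (Subgroup.pow_mem _ hk _)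
        refine isConj_iff.2 ⟨k ^ (m + 1), ?_⟩
        generalize k ^ (m + 1) = r at hr hr'
        have h1 : r * t = t * r⁻¹ := by
          have h2 : r⁻¹ * t = t * r := by rw [← hr']; group
          calc r * t = r * (t * r) * r⁻¹ := by group
            _ = r * (r⁻¹ * t) * r⁻¹ := by rw [h2]
            _ = t * r⁻¹ := by group
        rw [← hr, show r * (t * (r * r)) * r⁻¹ = (r * t) * r by group, h1, inv_mul_cancel_right]
      have hmove : ∀ x : G, orderOf x = 2 → ∃ c : Ω, x • c ≠ c := by
        intro x hx
        by_contra hno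
        push Not at hno
        haveI := hZ.1
        have : x = 1 := eq_of_smul_eq_smul fun c : Ω => by rw [hno c, one_smul]
        rw [this, orderOf_one] at hx
        norm_num at hx
      have hxx : ∀ x : G, orderOf x = 2 → ∀ c : Ω, x • (x • c) = c := by
        intro x hx c
        rw [← mul_smul, ← pow_two, ← hx, pow_orderOf_eq_one, one_smul]
      have hall : ∀ x : G, orderOf x = 2 → IsConj x t := by
        intro x hx
        obtain ⟨c, hc⟩ := hmove x hx
        obtain ⟨g, hgc, hgd⟩ := CfsgLib.Zass.exists_move hZ (Ne.symm hc) hab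
        refine (isConj_iff.2 ⟨g, rfl⟩ : IsConj x (g * x * g⁻¹)).trans (hconjt _ ?_ ?_)
        · rw [← hgc, mul_smul, mul_smul, inv_smul_smul, hgd]
        · rw [← hgd, mul_smul, mul_smul, inv_smul_smul, hxx x hx, hgc]
      refine ⟨fun x y hx hy => (hall x hx).trans (hall y hy).symm, ?_⟩
      -- counting the pairs interchanged by involutions
      set I := Finset.univ.filter fun x : G => orderOf x = 2 with hI
      have hIcard : Nat.card {x : G // orderOf x = 2} = I.card := by
        rw [Nat.card_eq_fintype_card, Fintype.card_subtype]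
      have hcount : ∀ q ∈ (Finset.univ : Finset Ω).offDiag, (I.filter fun x => x • q.1 = q.2).card = e := by
        rintro ⟨c, d⟩ hq
        have hcd : c ≠ d := (Finset.mem_offDiag.1 hq).2.2
        rw [← he, CfsgLib.Zass.card_two_stab hZ hab hcd, Nat.card_eq_fintype_card, Fintype.card_subtype]
        obtain ⟨⟨s, hs, hsc, hsd⟩, -, -⟩ := Cfsg.Agent.S0740.result hZ hcd
        have hodd2 : Odd (Nat.card ↥(MulAction.stabilizer G c ⊓ MulAction.stabilizer G d)) :=
          (CfsgLib.Zass.card_two_stab hZ hab hcd) ▸ hodd'
        obtain ⟨-, -, hinv2⟩ := Cfsg.Agent.S0739.result hZ hcd hodd2 (CfsgLib.Zass.no_normal_complement hZ hcd)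
        have hs2 : s * s = 1 := by rw [← pow_two, ← hs]; exact pow_orderOf_eq_one s
        refine Finset.card_nbij' (fun x => s⁻¹ * x) (fun k => s * k) (fun x hx => ?_) (fun k hk => ?_)
          (fun x _ => mul_inv_cancel_left s x) (fun k _ => inv_mul_cancel_left s k)
        · simp only [hI, Finset.coe_filter, Finset.mem_filter, Finset.mem_univ, true_and, Set.mem_setOf_eq,
            Subgroup.mem_inf, MulAction.mem_stabilizer_iff] at hx ⊢
          have hxd : x • d = c := by rw [← hx.2, hxx x hx.1]
          exact ⟨by rw [mul_smul, hx.2, inv_smul_eq_iff, hsc], by rw [mul_smul, hxd, inv_smul_eq_iff, hsd]⟩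
        · simp only [hI, Finset.coe_filter, Finset.mem_filter, Finset.mem_univ, true_and, Set.mem_setOf_eq,
            Subgroup.mem_inf, MulAction.mem_stabilizer_iff] at hk ⊢
          have h1 : (s * k) • c = d := by rw [mul_smul, hk.1, hsc]
          have h2 : (s * k) • d = c := by rw [mul_smul, hk.2, hsd]
          exact ⟨(CfsgLib.Zass.orderOf_two_of_swap hZ hcd hsc hsd (hinv2 s hsc hsd) hs2 h1 h2).1, h1⟩
      have hdouble : ∑ x ∈ I, (Finset.univ.filter fun c : Ω => x • c ≠ c).card = (h + 1) * h * e := by
        have h1 : ∀ x : G, (Finset.univ.filter fun c : Ω => x • c ≠ c).card =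
            ((Finset.univ : Finset Ω).offDiag.filter fun q => x • q.1 = q.2).card := by
          intro x
          refine Finset.card_nbij' (fun c => (c, x • c)) (fun q => q.1) (fun c hc => ?_) (fun q hq => ?_)
            (fun c _ => rfl) (fun q hq => ?_)
          · simp only [Finset.coe_filter, Finset.mem_filter, Finset.mem_univ, true_and, Set.mem_setOf_eq] at hc
            simp [Ne.symm hc]
          · simp only [Finset.coe_filter, Finset.mem_offDiag, Finset.mem_univ, true_and, Set.mem_setOf_eq] at hq ⊢
            simp [hq.2, Ne.symm hq.1]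
          · simp only [Finset.coe_filter, Set.mem_setOf_eq] at hq
            exact Prod.ext rfl hq.2
        rw [Finset.sum_congr rfl fun x _ => h1 x]
        simp only [Finset.card_filter]
        rw [Finset.sum_comm]
        simp only [← Finset.card_filter]
        rw [Finset.sum_congr rfl hcount, Finset.sum_const, Finset.offDiag_card, Finset.card_univ, hh, smul_eq_mul]
        congr 1
        rw [Nat.mul_succ, Nat.add_sub_cancel]
      have hfix : ∀ x ∈ I, (Finset.univ.filter fun c : Ω => x • c ≠ c).card = if Even h then h else h + 1 := by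
        intro x hx
        have hx2 : orderOf x = 2 := (Finset.mem_filter.1 hx).2
        obtain ⟨c, hc⟩ := hmove x hx2
        have hc' : c ≠ x • c := Ne.symm hc
        obtain ⟨ho, hev⟩ := (Cfsg.Agent.S0740.result hZ hc').2.1 x hx2 rfl (hxx x hx2 c)
        have hsum : (Finset.univ.filter fun c : Ω => x • c ≠ c).card + Nat.card (MulAction.fixedBy Ω x) = h + 1 := by
          rw [Nat.card_eq_fintype_card, ← Set.toFinset_card, ← hh, ← Finset.card_univ,
            show (MulAction.fixedBy Ω x).toFinset = Finset.univ.filter fun c : Ω => ¬ (x • c ≠ c) by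
              ext d; simp,
            Finset.card_filter_add_card_filter_not]
        split_ifs with hhe
        · have := ho (by rw [hh]; exact hhe.add_one)
          omega
        · rcases hev (by rw [hh]; exact (Nat.not_even_iff_odd.1 hhe).add_one) with h0 | h2
          · omega
          · exfalso
            obtain ⟨⟨p1, hp1⟩, ⟨p2, hp2⟩, hne⟩ : ∃ u v : MulAction.fixedBy Ω x, u ≠ v := by
              haveI : Nontrivial (MulAction.fixedBy Ω x) := Finite.one_lt_card_iff_nontrivial.1 (by omega)
              exact exists_pair_ne _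
            have hp : p1 ≠ p2 := fun hp => hne (Subtype.ext hp)
            have hd := Subgroup.orderOf_dvd_natCard (MulAction.stabilizer G p1 ⊓ MulAction.stabilizer G p2) (x := x)
              ⟨hp1, hp2⟩
            rw [hx2, ← CfsgLib.Zass.card_two_stab hZ hab hp, he] at hd
            exact (Nat.not_even_iff_odd.2 hodd) (even_iff_two_dvd.2 hd)
      rw [Finset.sum_congr rfl hfix, Finset.sum_const, smul_eq_mul, ← hIcard] at hdouble
      split_ifs at hdouble ⊢ with hhe
      · exact Nat.eq_of_mul_eq_mul_right (show 0 < h by omega) (hdouble.trans (by ring))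
      · exact Nat.eq_of_mul_eq_mul_right (show 0 < h + 1 by omega) (hdouble.trans (by ring))

end Cfsg.Agent.S0882
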