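import Cfsg.Statements.S0883
import Cfsg.Agent.Lib.Zass.Basic
import Cfsg.Agent.S0878
import Cfsg.Agent.S0882
import Cfsg.Agent.S1535
import Cfsg.Agent.Lib.Solvable.Basics

set_option autoImplicit false
open Cfsg

namespace Cfsg.Agent.S0883

/-- Let G be a finite simple Zassenhaus group on Ω with h + 1 points whose two-point stabilizer E has odd order e with 2e < h - 1, and let H be the subgroup of the stabilizer of a consisting of the identity and the elements fixing no point other than a (given here as a subgroup of the stabilizer of order one less than the number of points whose non-identity elements fix only a; it is the Frobenius kernel of the stabilizer). If a non-identity element u of H is a product of two involutions of G, then u is an involution. -/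
theorem result {G Ω : Type*} [Group G] [Finite G] [MulAction G Ω] [Fintype Ω] (hZ : Cfsg.IsZassenhausGroup G Ω) {a b : Ω} (hab : a ≠ b) [IsSimpleGroup G] (h e : ℕ) (hh : Fintype.card Ω = h + 1) (he : Nat.card ↥(MulAction.stabilizer G a ⊓ MulAction.stabilizer G b : Subgroup G) = e) (hodd : Odd e) (hlt : 2 * e < h - 1) (H : Subgroup G) (hHa : H ≤ MulAction.stabilizer G a) (hHcard : Nat.card H + 1 = Fintype.card Ω) (hHfix : ∀ u ∈ H, u ≠ 1 → ∀ c : Ω, u • c = c → c = a) (u : G) (hu : u ∈ H) (hu1 : u ≠ 1) (x y : G) (hx : orderOf x = 2) (hy : orderOf y = 2) (hxy : x * y = u) : orderOf u = 2 := by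
      classical
      haveI : Fintype G := Fintype.ofFinite G
      obtain ⟨hTI, hnorm⟩ := Cfsg.Agent.S0878.result hZ a H hHa hHcard hHfix
      have hxi : x * x = 1 := by rw [← pow_two, ← hx]; exact pow_orderOf_eq_one x
      have hyi : y * y = 1 := by rw [← pow_two, ← hy]; exact pow_orderOf_eq_one y
      have hua : u • a = a := hHa hu
      have hxua : (x * u * x⁻¹) = u⁻¹ := by
        rw [← hxy, mul_inv_rev, inv_eq_of_mul_eq_one_right hxi, inv_eq_of_mul_eq_one_right hyi, ← mul_assoc x x y, hxi,
          one_mul]
      have hxa : x • a = a := by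
        refine hHfix u⁻¹ (H.inv_mem hu) (fun h' => hu1 (inv_eq_one.1 h')) (x • a) ?_
        rw [← hxua, mul_smul, mul_smul, inv_smul_smul, hua]
      have hya : y • a = a := by
        have h' : y = x * u := by rw [← hxy, ← mul_assoc, hxi, one_mul]
        rw [h', mul_smul, hua, hxa]
      have honly : ∀ v : G, orderOf v = 2 → v • a = a → ∀ c : Ω, v • c = c → c = a := by
        intro v hv hva c hc
        by_contra hca
        have hd := Subgroup.orderOf_dvd_natCard (MulAction.stabilizer G a ⊓ MulAction.stabilizer G c) (x := v) ⟨hva, hc⟩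
        rw [hv, ← CfsgLib.Zass.card_two_stab hZ hab (Ne.symm hca), he] at hd
        exact (Nat.not_even_iff_odd.2 hodd) (even_iff_two_dvd.2 hd)
      have hinH : ∀ v : G, orderOf v = 2 → v • a = a → v ∈ H := fun v hv hva =>
        CfsgLib.Zass.mem_kernel hZ hab hHa hHcard hHfix hva (honly v hv hva)
      set N := MulAction.stabilizer G a with hNdef
      set K := H.subgroupOf N with hKdef
      haveI : K.Normal := by
        constructor
        intro k hk n
        rw [hKdef, Subgroup.mem_subgroupOf] at hk ⊢
        have hn : (n : G) ∈ Subgroup.normalizer (H : Set G) := by rw [hnorm]; exact n.2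
        exact (Subgroup.mem_normalizer_iff.1 hn _).1 hk
      haveI : Group.IsNilpotent K := by
        refine CfsgLib.Feit1535.nilp K ?_ ?_ ?_
        · intro k hk hk1 g hg
          rw [hKdef, Subgroup.mem_subgroupOf] at hk ⊢
          by_cases hg1 : (g : G) = 1
          · rw [hg1]; exact H.one_mem
          refine CfsgLib.Zass.mem_kernel hZ hab hHa hHcard hHfix g.2 fun c hc => ?_
          by_contra hca
          have hkg : (k : G) • c = c := by
            have hcomm : (g : G) * (k : G) = (k : G) * g := congrArg Subtype.val (Subgroup.mem_centralizer_singleton_iff.1 hg)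
            by_contra hkc
            have hka : (k : G) • c ≠ a := fun h' => hca (MulAction.injective (k : G) (h'.trans (hHa hk).symm))
            have h1 : (g : G) = 1 := CfsgLib.Zass.eq_one_of_three hZ (Ne.symm hca) (Ne.symm hkc) (Ne.symm hka) g.2 hc
              (by rw [← mul_smul, hcomm, mul_smul, hc])
            exact hg1 h1
          exact hca (hHfix k hk (fun h' => hk1 (Subtype.ext h')) c hkg)
        · intro hK
          have hx' : (⟨x, hxa⟩ : N) ∈ K := hinH x hx hxa
          rw [hK, Subgroup.mem_bot] at hx'
          have := congrArg Subtype.val hx'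
          simp only [OneMemClass.coe_one] at this
          rw [this, orderOf_one] at hx
          norm_num at hx
        · intro hK
          obtain ⟨g, hg, hg1⟩ : ∃ g ∈ (MulAction.stabilizer G a ⊓ MulAction.stabilizer G b : Subgroup G), g ≠ 1 := by
            haveI : Nontrivial ↥(MulAction.stabilizer G a ⊓ MulAction.stabilizer G b : Subgroup G) :=
              Finite.one_lt_card_iff_nontrivial.1 (CfsgLib.Zass.one_lt_two_stab hZ hab)
            obtain ⟨g, hg⟩ := exists_ne (1 : ↥(MulAction.stabilizer G a ⊓ MulAction.stabilizer G b : Subgroup G))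
            exact ⟨g, g.2, fun h' => hg (Subtype.ext h')⟩
          have hgK : (⟨g, hg.1⟩ : N) ∈ K := hK ▸ Subgroup.mem_top _
          exact hab (hHfix g hgK hg1 b hg.2).symm
      haveI : Fact (Nat.Prime 2) := ⟨Nat.prime_two⟩
      obtain ⟨S⟩ := (inferInstance : Nonempty (Sylow 2 K))
      have hxK : (⟨⟨x, hxa⟩, hinH x hx hxa⟩ : K) ≠ 1 := by
        intro h'
        have h'' := congrArg (fun z : K => ((z : N) : G)) h'
        simp only [OneMemClass.coe_one] at h''
        rw [h'', orderOf_one] at hx
        norm_num at hx
      have hS : (S : Subgroup K) ≠ ⊥ := by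
        intro hS
        refine S.not_dvd_index ?_
        rw [hS, Subgroup.index_bot]
        have ho : orderOf (⟨⟨x, hxa⟩, hinH x hx hxa⟩ : K) = 2 := by
          rw [← Subgroup.orderOf_coe, ← Subgroup.orderOf_coe]; exact hx
        exact ho ▸ orderOf_dvd_natCard _
      haveI : (S : Subgroup K).Normal := Sylow.normal_of_normalizerCondition normalizerCondition_of_isNilpotent S
      obtain ⟨⟨z, hz⟩, hz1⟩ := Subgroup.ne_bot_iff_exists_ne_one.1 (CfsgLib.Solvable.Basics.inf_center_ne_bot (S : Subgroup K) hS)
      have hzne : z ≠ 1 := fun h' => hz1 (Subtype.ext h')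
      obtain ⟨j, hj⟩ := (S.2 ⟨z, hz.1⟩)
      -- an involution in the centre of the kernel
      obtain ⟨z₂, hz₂c, hz₂⟩ : ∃ z₂ ∈ Subgroup.center K, orderOf z₂ = 2 := by
        have hd : 2 ∣ orderOf z := by
          have hzp : z ^ (2 ^ j) = 1 := congrArg Subtype.val hj
          obtain ⟨i, -, hi⟩ := (Nat.dvd_prime_pow Nat.prime_two).1 (orderOf_dvd_iff_pow_eq_one.2 hzp)
          rcases i with _ | i
          · rw [pow_zero, orderOf_eq_one_iff] at hi
            exact absurd hi hzne
          · exact hi ▸ dvd_pow_self 2 (Nat.succ_ne_zero i)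
        refine ⟨z ^ (orderOf z / 2), Subgroup.pow_mem _ hz.2 _, ?_⟩
        rw [orderOf_pow_of_dvd (by have := Nat.le_of_dvd (orderOf_pos z) hd; omega) (Nat.div_dvd_of_dvd hd),
          Nat.div_div_self hd (orderOf_pos z).ne']
      obtain ⟨hconj, -⟩ := Cfsg.Agent.S0882.result hZ hab h e hh he hodd hlt
      have hz₂' : orderOf ((z₂ : N) : G) = 2 := by rw [Subgroup.orderOf_coe, Subgroup.orderOf_coe]; exact hz₂
      obtain ⟨g, hg⟩ := isConj_iff.1 (hconj _ x hz₂' hx)
      have hga : g • a = a := by
        refine honly x hx hxa (g • a) ?_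
        rw [← hg, mul_smul, mul_smul, inv_smul_smul, (z₂ : N).2]
      have hcomm : x * y = y * x := by
        have hyK : y ∈ H := hinH y hy hya
        have hgn : g ∈ Subgroup.normalizer (H : Set G) := by rw [hnorm]; exact hga
        have hy' : g⁻¹ * y * g ∈ H := by
          have h' := (Subgroup.mem_normalizer_iff.1 (inv_mem hgn) y).1 hyK
          simpa using h'
        have hc := congrArg (fun z : K => ((z : N) : G)) (Subgroup.mem_center_iff.1 hz₂c ⟨⟨g⁻¹ * y * g, hHa hy'⟩, hy'⟩)
        simp only [Subgroup.coe_mul] at hc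
        rw [← hg]
        calc g * ((z₂ : N) : G) * g⁻¹ * y = g * (((z₂ : N) : G) * (g⁻¹ * y * g)) * g⁻¹ := by group
          _ = g * ((g⁻¹ * y * g) * ((z₂ : N) : G)) * g⁻¹ := by rw [hc]
          _ = y * (g * ((z₂ : N) : G) * g⁻¹) := by group
      refine orderOf_eq_prime ?_ hu1
      rw [pow_two, ← hxy]
      calc x * y * (x * y) = x * y * (y * x) := by rw [← hcomm]
        _ = x * (y * y) * x := by group
        _ = 1 := by rw [hyi, mul_one, hxi]

end Cfsg.Agent.S0883
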