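import Cfsg.Statements.S0887
import Mathlib
import Cfsg.Agent.Lib.CharDegree

set_option autoImplicit false
open Cfsg

namespace Cfsg.Agent.S0887

/-- Let N be a normal subgroup of the finite group G, χ an irreducible character of G and ϑ an irreducible character of N having nonzero inner product with the restriction of χ. If χ 1 = c and ϑ 1 = d as natural numbers, then d divides c and c / d divides the index of N. -/
theorem result {G : Type*} [Group G] [Fintype G] (N : Subgroup G) [N.Normal] [Fintype N] (χ : G → ℂ) (hχ : Cfsg.IsIrrCharacter G χ) (ϑ : N → ℂ) (hϑ : Cfsg.IsIrrCharacter N ϑ) (hcon : Cfsg.classInner (fun n : N => χ n) ϑ ≠ 0) (c d : ℕ) (hc : χ 1 = c) (hd : ϑ 1 = d) : d ∣ c ∧ c / d ∣ N.index := by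
  obtain ⟨T, e, hNT, -, hdeg, hdvd⟩ := CfsgLib.CharDegree.exists_inertia N ⟨ϑ, hϑ⟩ ⟨χ, hχ⟩ hcon
  have h1 : Cfsg.charDegree χ = c := by simp [Cfsg.charDegree, hc]
  have h2 : Cfsg.charDegree ϑ = d := by simp [Cfsg.charDegree, hd]
  simp only [h1, h2] at hdeg
  have hd0 : 0 < d := h2 ▸ CfsgLib.Chars.charDegree_pos (⟨ϑ, hϑ⟩ : Cfsg.IrrCharacter N)
  refine ⟨⟨T.index * e, by rw [hdeg]; ring⟩, ?_⟩
  rw [hdeg, Nat.mul_div_cancel _ hd0, ← Subgroup.relIndex_mul_index hNT, mul_comm]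
  exact Nat.mul_dvd_mul_right hdvd _

end Cfsg.Agent.S0887
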