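import Cfsg.Statements.S0888
import Mathlib
import Cfsg.Agent.Lib.CharDegree

set_option autoImplicit false
open Cfsg

namespace Cfsg.Agent.S0888

/-- Let N be a normal subgroup of the finite group G and ϑ an irreducible character of N invariant under conjugation by G. Suppose that for every prime p there are a subgroup P containing N, of index prime to p and with the index of N in P a power of p, and an irreducible character of P restricting to ϑ. Then ϑ is the restriction of an irreducible character of G. -/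
theorem result {G : Type*} [Group G] [Finite G] (N : Subgroup G) [hN : N.Normal] (ϑ : N → ℂ) (hϑ : Cfsg.IsIrrCharacter N ϑ) (hinv : ∀ (g : G) (n : N), ϑ ⟨g * n * g⁻¹, hN.conj_mem (n : G) n.2 g⟩ = ϑ n) (hsyl : ∀ p : ℕ, p.Prime → ∃ (P : Subgroup G) (hNP : N ≤ P) (η : P → ℂ), Nat.Coprime P.index p ∧ (∃ k : ℕ, N.relIndex P = p ^ k) ∧ Cfsg.IsIrrCharacter P η ∧ ∀ n : N, η ⟨(n : G), hNP n.2⟩ = ϑ n) : ∃ χ : G → ℂ, Cfsg.IsIrrCharacter G χ ∧ ∀ n : N, χ n = ϑ n := by
  classical
  haveI := Fintype.ofFinite G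
  haveI : Fintype N := Fintype.ofFinite N
  let θ : Cfsg.IrrCharacter N := ⟨ϑ, hϑ⟩
  have hinv' : ∀ g, CfsgLib.Chars.conjIrr N θ g = θ := fun g =>
    Subtype.ext (funext fun n => (CfsgLib.Chars.conjIrr_apply' N θ g n).trans (hinv g n))
  obtain ⟨E, _, _, π, ι, α, hπ, hπι, hnorm, hcen, hα⟩ := CfsgLib.CharCover.exists_cover N θ hinv'
  haveI := Fintype.ofFinite E
  haveI := hnorm
  haveI : π.ker.Normal := inferInstance
  have hι : Function.Injective ι := fun a b h => Subtype.ext (by rw [← hπι a, ← hπι b, h])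
  obtain ⟨a, ha⟩ := CfsgLib.CharDegree.exists_central_hom α π.ker hcen
  have key : ∀ p : ℕ, p.Prime → ∃ (m : ℕ) (L : E →* ℂˣ), Nat.Coprime m p ∧
      (∀ n, L (ι n) = 1) ∧ ∀ z : π.ker, L z = ((a z)⁻¹) ^ (m : ℤ) := by
    intro p hp
    obtain ⟨P, hNP, η, hcop, -, hη, hηn⟩ := hsyl p hp
    let R : Subgroup E := P.comap π
    haveI : Fintype R := Fintype.ofFinite R
    have hιR : ∀ n, ι n ∈ R := fun n => by show π (ι n) ∈ P; rw [hπι]; exact hNP n.2
    let ιR : N →* R := ι.codRestrict R hιR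
    haveI : ιR.range.Normal := by
      refine ⟨?_⟩
      rintro _ ⟨n, rfl⟩ x
      obtain ⟨m, hm⟩ := hnorm.conj_mem (ι n) ⟨n, rfl⟩ (x : E)
      exact ⟨m, Subtype.ext hm⟩
    haveI : Fintype ιR.range := Fintype.ofFinite _
    have hιRinj : Function.Injective ιR := fun x y h => hι (congrArg Subtype.val h)
    let eN := MonoidHom.ofInjective hιRinj
    let θR : Cfsg.IrrCharacter ιR.range := ⟨fun x => (θ : N → ℂ) (eN.symm x),
      CfsgLib.Chars.IsIrrCharacter.comp θ.2 eN.symm.toMonoidHom eN.symm.surjective⟩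
    let αR : R → ℂ := fun x => (α : E → ℂ) x
    have hres : ∀ x : ιR.range, αR x = (θR : ιR.range → ℂ) x := by
      intro x
      obtain ⟨n, rfl⟩ := eN.surjective x
      show (α : E → ℂ) (ι n) = (θ : N → ℂ) (eN.symm (eN n))
      rw [MulEquiv.symm_apply_apply, hα]
    have hαR : Cfsg.IsIrrCharacter R αR := CfsgLib.CharDegree.isIrr_of_restrict
      (CfsgLib.Chars.IsCharacter.restrict (CfsgLib.Chars.isCharacter_irr α) R) ιR.range θR hres
    let πR : R →* P := (π.comp R.subtype).codRestrict P (fun x => x.2)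
    have hπR : Function.Surjective πR := fun x => by
      obtain ⟨y, hy⟩ := hπ x
      exact ⟨⟨y, show π y ∈ P by rw [hy]; exact x.2⟩, Subtype.ext hy⟩
    let ηR : Cfsg.IrrCharacter R := ⟨fun x => η (πR x), CfsgLib.Chars.IsIrrCharacter.comp hη πR hπR⟩
    have hηι : ∀ x : ιR.range, (ηR : R → ℂ) x = (θR : ιR.range → ℂ) x := by
      intro x
      obtain ⟨n, rfl⟩ := eN.surjective x
      show η (πR (ιR n)) = (θ : N → ℂ) (eN.symm (eN n))
      rw [MulEquiv.symm_apply_apply]
      exact Eq.trans (congrArg η (Subtype.ext (hπι n) : πR (ιR n) = ⟨(n : G), hNP n.2⟩)) (hηn n)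
    have hover : Cfsg.classInner (fun x : ιR.range => (ηR : R → ℂ) x) (θR : ιR.range → ℂ) ≠ 0 := by
      have h := CfsgLib.Chars.classInner_irr θR θR
      rw [if_pos rfl] at h
      rw [show (fun x : ιR.range => (ηR : R → ℂ) x) = (θR : ιR.range → ℂ) from funext hηι, h]
      exact one_ne_zero
    obtain ⟨β, hker, hprod⟩ := CfsgLib.CharExtend.gallagher ιR.range ⟨αR, hαR⟩ θR hres ηR hover
    have hβ1 : (β : R → ℂ) 1 = 1 := by
      have h1 := hprod 1
      have h2 := hηι 1
      have h3 := hres 1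
      rw [OneMemClass.coe_one] at h2 h3
      change (ηR : R → ℂ) 1 = αR 1 * _ at h1
      rw [h2, h3] at h1
      exact (mul_eq_left₀ (CfsgLib.Chars.irr_one_ne_zero θR)).1 h1.symm
    obtain ⟨f, hf⟩ := CfsgLib.Chars.IsCharacter.exists_hom (CfsgLib.Chars.isCharacter_irr β) hβ1
    have hfι : ∀ x : R, x ∈ ιR.range → f x = 1 := fun x hx => Units.ext (by
      have := hker x hx
      rw [hβ1, hf] at this
      exact this)
    have hfz : ∀ (z : π.ker) (hz : (z : E) ∈ R), f ⟨z, hz⟩ = (a z)⁻¹ := by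
      intro z hz
      refine eq_inv_of_mul_eq_one_left (Units.ext ?_)
      have h := hprod ⟨z, hz⟩
      have hπz : πR ⟨z, hz⟩ = 1 := Subtype.ext z.2
      change η (πR ⟨z, hz⟩) = (α : E → ℂ) z * _ at h
      rw [hπz, ha z, hf] at h
      have h2 := hηι 1
      have h3 := hres 1
      rw [OneMemClass.coe_one] at h2 h3
      change η (πR 1) = _ at h2
      change (α : E → ℂ) 1 = _ at h3
      rw [map_one] at h2
      rw [h2, ← h3, mul_comm ((a z : ℂˣ) : ℂ), mul_assoc] at h
      have h4 := ((mul_eq_left₀ (CfsgLib.Chars.irr_one_ne_zero α)).1 h.symm)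
      rw [Units.val_mul, Units.val_one, mul_comm]
      exact h4
    have hidx : R.index = P.index := Subgroup.index_comap_of_surjective _ hπ
    refine ⟨P.index, MonoidHom.transfer f, hcop, fun n => ?_, fun z => ?_⟩
    · haveI : Fintype (Quotient (MulAction.orbitRel (Subgroup.zpowers (ι n)) (E ⧸ R))) := Fintype.ofFinite _
      rw [MonoidHom.transfer_eq_prod_quotient_orbitRel_zpowers_quot]
      refine Finset.prod_eq_one fun q _ => hfι _ ?_
      have hmem : q.out.out⁻¹ * ι n ^ Function.minimalPeriod (ι n • ·) q.out * q.out.out ∈ ι.range := by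
        have := hnorm.conj_mem _ (ι.range.pow_mem ⟨n, rfl⟩ (Function.minimalPeriod (ι n • ·) q.out)) q.out.out⁻¹
        rwa [inv_inv] at this
      obtain ⟨m, hm⟩ := hmem
      exact ⟨m, Subtype.ext hm⟩
    · rw [MonoidHom.transfer_eq_pow]
      · rw [zpow_natCast, ← hidx]
        have hzR : (z : E) ∈ R := by show π z ∈ P; rw [MonoidHom.mem_ker.1 z.2]; exact P.one_mem
        rw [← hfz z hzR, ← map_pow]
        rfl
      · intro k g₀ _
        have hz := Subgroup.mem_center_iff.1 ((Subgroup.center E).pow_mem (hcen z.2) k) g₀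
        rw [mul_assoc, ← hz, inv_mul_cancel_left]
  let S : AddSubgroup ℤ :=
    { carrier := {m | ∃ L : E →* ℂˣ, (∀ n, L (ι n) = 1) ∧ ∀ z : π.ker, L z = ((a z)⁻¹) ^ m}
      zero_mem' := ⟨1, fun _ => rfl, fun z => by simp⟩
      add_mem' := by
        rintro x y ⟨L, h1, h2⟩ ⟨M, h3, h4⟩
        exact ⟨L * M, fun n => by simp [h1, h3], fun z => by rw [MonoidHom.mul_apply, h2, h4, zpow_add]⟩
      neg_mem' := by
        rintro x ⟨L, h1, h2⟩
        exact ⟨L⁻¹, fun n => by simp [h1], fun z => by rw [MonoidHom.inv_apply, h2, zpow_neg]⟩ }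
  obtain ⟨k, hk⟩ := Int.subgroup_cyclic S
  have hk1 : (1 : ℤ) ∈ S := by
    have hdvd : ∀ m : ℤ, m ∈ S → k ∣ m := by
      intro m hm
      rw [hk, AddSubgroup.mem_closure_singleton] at hm
      obtain ⟨j, rfl⟩ := hm
      exact ⟨j, by rw [zsmul_eq_mul, Int.cast_id, mul_comm]⟩
    have hu : k.natAbs = 1 := by
      by_contra hne
      obtain ⟨p, hp, hpk⟩ := Nat.exists_prime_and_dvd hne
      obtain ⟨m, L, hcop, h1, h2⟩ := key p hp
      have h3 : k.natAbs ∣ m := Int.natCast_dvd_natCast.1 (Int.natAbs_dvd.2 (hdvd m ⟨L, h1, h2⟩))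
      exact hp.coprime_iff_not_dvd.1 hcop.symm (hpk.trans h3)
    have hkmem : k ∈ S := hk ▸ AddSubgroup.subset_closure rfl
    rcases Int.natAbs_eq k with h | h <;> rw [hu] at h
    · simpa [h] using hkmem
    · simpa [h] using S.neg_mem hkmem
  obtain ⟨L, hL1, hL2⟩ := hk1
  let X : Cfsg.IrrCharacter E := ⟨_, CfsgLib.Chars.isIrrCharacter_hom_mul L α⟩
  obtain ⟨ψ, hψ⟩ := CfsgLib.Chars.exists_deflate π.ker X (fun z hz => by
    show (L z : ℂ) * (α : E → ℂ) z = (L 1 : ℂ) * (α : E → ℂ) 1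
    rw [ha ⟨z, hz⟩, hL2 ⟨z, hz⟩, zpow_one, map_one, Units.val_one, one_mul, ← mul_assoc, ← Units.val_mul, inv_mul_cancel,
      Units.val_one, one_mul])
  let e : E ⧸ π.ker ≃* G := QuotientGroup.quotientKerEquivOfSurjective π hπ
  refine ⟨fun g => (ψ : E ⧸ π.ker → ℂ) (e.symm g),
    CfsgLib.Chars.IsIrrCharacter.comp ψ.2 e.symm.toMonoidHom e.symm.surjective, fun n => ?_⟩
  have he : e.symm (n : G) = QuotientGroup.mk (ι n) := e.symm_apply_eq.2 (hπι n).symm
  show (ψ : E ⧸ π.ker → ℂ) (e.symm (n : G)) = _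
  rw [he]
  refine Eq.trans (congrFun hψ (ι n)).symm ?_
  show (L (ι n) : ℂ) * (α : E → ℂ) (ι n) = _
  rw [hL1, hα, Units.val_one, one_mul]

end Cfsg.Agent.S0888
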