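import Cfsg.Statements.S0893
import Mathlib
import Cfsg.Agent.Lib.CliffordCorr

set_option autoImplicit false
open Cfsg

namespace Cfsg.Agent.S0893

/-- Let P be an extraspecial p-group of order p ^ (2 * n + 1), A an abelian subgroup of order p ^ (n + 1), and λ a character of A of degree 1 that is not identically 1 on the elements of A lying in the centre of P. Then the function induced from λ to P is an irreducible character of P and vanishes at every element outside the centre. -/
theorem result {P : Type*} [Group P] [Fintype P] (p n : ℕ) [Fact p.Prime] (hP : Cfsg.IsExtraspecial p P) (hcard : Nat.card P = p ^ (2 * n + 1)) (A : Subgroup P) (hab : ∀ a ∈ A, ∀ b ∈ A, a * b = b * a) (hA : Nat.card A = p ^ (n + 1)) (lam : A → ℂ) (hlam : Cfsg.IsCharacter A lam ∧ lam 1 = 1) (hZ : ∃ a : A, (a : P) ∈ Subgroup.center P ∧ lam a ≠ 1) : Cfsg.IsIrrCharacter P (Cfsg.indFun A lam) ∧ ∀ x : P, x ∉ Subgroup.center P → Cfsg.indFun A lam x = 0 := by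
  classical
  have hord := hP.2
  have hcomm : commutator P = Subgroup.center P := hP.1.2.2
  have hzc : ∀ x y : P, x * y * x⁻¹ * y⁻¹ ∈ Subgroup.center P := fun x y =>
    hcomm ▸ Subgroup.commutator_mem_commutator (Subgroup.mem_top x) (Subgroup.mem_top y)
  have hvanish : ∀ (χ : Cfsg.IrrCharacter P), (∃ z ∈ Subgroup.center P, (χ : P → ℂ) z ≠ (χ : P → ℂ) 1) →
      (∀ x, x ∉ Subgroup.center P → (χ : P → ℂ) x = 0) ∧ Cfsg.charDegree (χ : P → ℂ) = p ^ n := by
    rintro χ ⟨z, hz, hzne⟩
    have hv : ∀ x, x ∉ Subgroup.center P → (χ : P → ℂ) x = 0 := by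
      intro x hx
      rw [Subgroup.mem_center_iff] at hx
      push Not at hx
      obtain ⟨y, hy⟩ := hx
      set w := y * x * y⁻¹ * x⁻¹ with hw
      have hw1 : w ≠ 1 := fun h => hy (by
        rw [hw, mul_inv_eq_one, mul_inv_eq_iff_eq_mul] at h
        exact h)
      have hwc := hzc y x
      have hwx : (χ : P → ℂ) (w * x) = (χ : P → ℂ) x := by
        rw [hw, inv_mul_cancel_right]
        exact CfsgLib.Chars.IsCharacter.isClassFunction (CfsgLib.Chars.isCharacter_irr χ) x y
      have h := CfsgLib.Chars.mul_central χ hwc x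
      rw [← hw] at h
      rw [hwx, mul_comm] at h
      by_contra hx0
      have hw2 : (χ : P → ℂ) w = (χ : P → ℂ) 1 := (mul_right_cancel₀ hx0 h).symm
      obtain ⟨K, -, hK, -⟩ := CfsgLib.Chars.IsCharacter.exists_kernel (CfsgLib.Chars.isCharacter_irr χ)
      haveI : Fact p.Prime := inferInstance
      have hgen : Subgroup.zpowers (⟨w, hwc⟩ : Subgroup.center P) = ⊤ :=
        zpowers_eq_top_of_prime_card hord (fun h => hw1 (congrArg Subtype.val h))
      obtain ⟨i, hi⟩ := Subgroup.mem_zpowers_iff.1 (hgen ▸ Subgroup.mem_top (⟨z, hz⟩ : Subgroup.center P))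
      have hzw : z = w ^ i := (congrArg Subtype.val hi).symm
      exact hzne ((hK z).1 (hzw ▸ K.zpow_mem ((hK w).2 hw2) i))
    refine ⟨hv, ?_⟩
    haveI := Fintype.ofFinite P
    have h1 := CfsgLib.Chars.sum_mul_conj_irr χ χ
    rw [if_pos rfl] at h1
    have hterm : ∀ x : P, (χ : P → ℂ) x * (starRingEnd ℂ) ((χ : P → ℂ) x) =
        if x ∈ Subgroup.center P then ((Cfsg.charDegree (χ : P → ℂ) : ℂ)) ^ 2 else 0 := by
      intro x
      split_ifs with hx
      · obtain ⟨lam, hlam⟩ := CfsgLib.CharDegree.exists_central_hom χ (Subgroup.center P) le_rfl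
        have h2 := CfsgLib.Chars.hom_mul_conj lam ⟨x, hx⟩
        rw [show x = ((⟨x, hx⟩ : Subgroup.center P) : P) from rfl, hlam, map_mul, CfsgLib.Chars.irr_apply_one, map_natCast]
        linear_combination (Cfsg.charDegree (χ : P → ℂ) : ℂ) ^ 2 * h2
      · rw [hv x hx, map_zero, mul_zero]
    rw [Finset.sum_congr rfl (fun x _ => hterm x), ← Finset.sum_filter, Finset.sum_const, nsmul_eq_mul,
      ← Fintype.card_subtype, ← Nat.card_eq_fintype_card, show Nat.card {x // x ∈ Subgroup.center P} = p from hord, hcard] at h1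
    have h2 : p * Cfsg.charDegree (χ : P → ℂ) ^ 2 = p * (p ^ n) ^ 2 := by
      have : p * Cfsg.charDegree (χ : P → ℂ) ^ 2 = p ^ (2 * n + 1) := by exact_mod_cast h1
      rw [this]; ring
    exact Nat.pow_left_injective (by norm_num) (Nat.eq_of_mul_eq_mul_left (Fact.out : p.Prime).pos h2)
  obtain ⟨f, hf⟩ := CfsgLib.Chars.IsCharacter.exists_hom hlam.1 hlam.2
  have hfun : lam = fun a => (f a : ℂ) := funext fun a => congrFun hf a
  obtain ⟨a, haZ, ha⟩ := hZ
  haveI : Fintype A := Fintype.ofFinite A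
  have hind := CfsgLib.Chars.IsCharacter.indFun A hlam.1
  obtain ⟨χ, hχ⟩ := CfsgLib.CliffordCorr.exists_irr_constituent hind (by
    rw [CfsgLib.Chars.indFun_one, hlam.2, mul_one]; exact Nat.cast_ne_zero.2 A.index_ne_zero_of_finite)
  have hnc : ∃ z ∈ Subgroup.center P, (χ : P → ℂ) z ≠ (χ : P → ℂ) 1 := by
    refine ⟨a, haZ, fun heq => ?_⟩
    rw [CfsgLib.Chars.frobenius A _ (CfsgLib.Chars.IsCharacter.isClassFunction (CfsgLib.Chars.isCharacter_irr χ))] at hχ
    refine hχ ?_
    simp only [Cfsg.classInner, mul_eq_zero]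
    right
    set S := ∑ x : A, lam x * (starRingEnd ℂ) ((χ : P → ℂ) x)
    have hS : S = lam a * S := by
      conv_lhs => rw [show S = ∑ x : A, lam (a * x) * (starRingEnd ℂ) ((χ : P → ℂ) ((a * x : A) : P)) from
        (Equiv.sum_comp (Equiv.mulLeft a) (fun x : A => lam x * (starRingEnd ℂ) ((χ : P → ℂ) x))).symm]
      rw [Finset.mul_sum]
      refine Finset.sum_congr rfl fun x _ => ?_
      rw [Subgroup.coe_mul, CfsgLib.Chars.IsCharacter.mul_kernel (CfsgLib.Chars.isCharacter_irr χ) heq, hfun, ← mul_assoc]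
      simp only [map_mul, Units.val_mul]
    by_contra hS0
    exact ha ((mul_eq_right₀ hS0).1 hS.symm)
  obtain ⟨hv, hdeg⟩ := hvanish χ hnc
  have hidx : A.index = p ^ n := by
    have h1 := A.index_mul_card
    rw [hA, hcard, show p ^ (2 * n + 1) = p ^ n * p ^ (n + 1) by rw [← pow_add]; congr 1; omega] at h1
    exact Nat.eq_of_mul_eq_mul_right (pow_pos (Fact.out : p.Prime).pos _) h1
  have he : Cfsg.indFun A lam = (χ : P → ℂ) := CfsgLib.CliffordCorr.eq_of_constituent_degree hind χ hχ (by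
    rw [CfsgLib.Chars.indFun_one, hlam.2, mul_one, CfsgLib.Chars.irr_apply_one, hdeg, hidx])
  rw [he]
  exact ⟨χ.2, hv⟩

end Cfsg.Agent.S0893
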