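import Cfsg.Statements.S0894
import Mathlib
import Cfsg.Agent.Lib.CharDegree

set_option autoImplicit false
open Cfsg

namespace Cfsg.Agent.S0894

/-- Let P be an extraspecial p-group of order p ^ (2 * n + 1). Then every irreducible character of P has degree 1 or p ^ n, and exactly p - 1 of them have degree p ^ n. -/
theorem result {P : Type*} [Group P] [Finite P] (p n : ℕ) [Fact p.Prime] (hP : Cfsg.IsExtraspecial p P) (hcard : Nat.card P = p ^ (2 * n + 1)) : (∀ χ : Cfsg.IrrCharacter P, (χ : P → ℂ) 1 = 1 ∨ (χ : P → ℂ) 1 = (p : ℂ) ^ n) ∧ Nat.card {χ : Cfsg.IrrCharacter P // (χ : P → ℂ) 1 = (p : ℂ) ^ n} = p - 1 := by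
  classical
  have hord := hP.2
  have hcomm : commutator P = Subgroup.center P := hP.1.2.2
  have hzc : ∀ x y : P, x * y * x⁻¹ * y⁻¹ ∈ Subgroup.center P := fun x y =>
    hcomm ▸ Subgroup.commutator_mem_commutator (Subgroup.mem_top x) (Subgroup.mem_top y)
  have hvanish : ∀ (χ : Cfsg.IrrCharacter P), (∃ z ∈ Subgroup.center P, (χ : P → ℂ) z ≠ (χ : P → ℂ) 1) →
      (∀ x, x ∉ Subgroup.center P → (χ : P → ℂ) x = 0) ∧ Cfsg.charDegree (χ : P → ℂ) = p ^ n := by
    rintro χ ⟨z, hz, hzne⟩
    have hv : ∀ x, x ∉ Subgroup.center P → (χ : P → ℂ) x = 0 := by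
      intro x hx
      rw [Subgroup.mem_center_iff] at hx
      push Not at hx
      obtain ⟨y, hy⟩ := hx
      set w := y * x * y⁻¹ * x⁻¹ with hw
      have hw1 : w ≠ 1 := fun h => hy (by
        rw [hw, mul_inv_eq_one, mul_inv_eq_iff_eq_mul] at h
        exact h)
      have hwc := hzc y x
      have hwx : (χ : P → ℂ) (w * x) = (χ : P → ℂ) x := by
        rw [hw, inv_mul_cancel_right]
        exact CfsgLib.Chars.IsCharacter.isClassFunction (CfsgLib.Chars.isCharacter_irr χ) x y
      have h := CfsgLib.Chars.mul_central χ hwc x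
      rw [← hw] at h
      rw [hwx, mul_comm] at h
      by_contra hx0
      have hw2 : (χ : P → ℂ) w = (χ : P → ℂ) 1 := (mul_right_cancel₀ hx0 h).symm
      obtain ⟨K, -, hK, -⟩ := CfsgLib.Chars.IsCharacter.exists_kernel (CfsgLib.Chars.isCharacter_irr χ)
      haveI : Fact p.Prime := inferInstance
      have hgen : Subgroup.zpowers (⟨w, hwc⟩ : Subgroup.center P) = ⊤ :=
        zpowers_eq_top_of_prime_card hord (fun h => hw1 (congrArg Subtype.val h))
      obtain ⟨i, hi⟩ := Subgroup.mem_zpowers_iff.1 (hgen ▸ Subgroup.mem_top (⟨z, hz⟩ : Subgroup.center P))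
      have hzw : z = w ^ i := (congrArg Subtype.val hi).symm
      exact hzne ((hK z).1 (hzw ▸ K.zpow_mem ((hK w).2 hw2) i))
    refine ⟨hv, ?_⟩
    haveI := Fintype.ofFinite P
    have h1 := CfsgLib.Chars.sum_mul_conj_irr χ χ
    rw [if_pos rfl] at h1
    have hterm : ∀ x : P, (χ : P → ℂ) x * (starRingEnd ℂ) ((χ : P → ℂ) x) =
        if x ∈ Subgroup.center P then ((Cfsg.charDegree (χ : P → ℂ) : ℂ)) ^ 2 else 0 := by
      intro x
      split_ifs with hx
      · obtain ⟨lam, hlam⟩ := CfsgLib.CharDegree.exists_central_hom χ (Subgroup.center P) le_rfl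
        have h2 := CfsgLib.Chars.hom_mul_conj lam ⟨x, hx⟩
        rw [show x = ((⟨x, hx⟩ : Subgroup.center P) : P) from rfl, hlam, map_mul, CfsgLib.Chars.irr_apply_one, map_natCast]
        linear_combination (Cfsg.charDegree (χ : P → ℂ) : ℂ) ^ 2 * h2
      · rw [hv x hx, map_zero, mul_zero]
    rw [Finset.sum_congr rfl (fun x _ => hterm x), ← Finset.sum_filter, Finset.sum_const, nsmul_eq_mul,
      ← Fintype.card_subtype, ← Nat.card_eq_fintype_card, show Nat.card {x // x ∈ Subgroup.center P} = p from hord, hcard] at h1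
    have h2 : p * Cfsg.charDegree (χ : P → ℂ) ^ 2 = p * (p ^ n) ^ 2 := by
      have : p * Cfsg.charDegree (χ : P → ℂ) ^ 2 = p ^ (2 * n + 1) := by exact_mod_cast h1
      rw [this]; ring
    exact Nat.pow_left_injective (by norm_num) (Nat.eq_of_mul_eq_mul_left (Fact.out : p.Prime).pos h2)
  haveI := Fintype.ofFinite P
  have hlinear : ∀ χ : Cfsg.IrrCharacter P, (∀ z ∈ Subgroup.center P, (χ : P → ℂ) z = (χ : P → ℂ) 1) →
      Cfsg.charDegree (χ : P → ℂ) = 1 := by
    intro χ h
    obtain ⟨β, hβ⟩ := CfsgLib.Chars.exists_deflate (Subgroup.center P) χ h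
    have hc : Subgroup.center (P ⧸ Subgroup.center P) = ⊤ := eq_top_iff.2 fun a _ => Subgroup.mem_center_iff.2 fun b => by
      obtain ⟨a, rfl⟩ := QuotientGroup.mk'_surjective (Subgroup.center P) a
      obtain ⟨b, rfl⟩ := QuotientGroup.mk'_surjective (Subgroup.center P) b
      rw [← map_mul, ← map_mul, QuotientGroup.mk'_eq_mk']
      refine ⟨(b * a)⁻¹ * (a * b), ?_, by group⟩
      have := hzc a⁻¹ b⁻¹
      simpa [mul_assoc] using this
    obtain ⟨lam, hlam⟩ := CfsgLib.CharDegree.exists_central_hom β (⊤ : Subgroup (P ⧸ Subgroup.center P)) (hc ▸ le_rfl)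
    have hd := CfsgLib.CharExtend.dvd_index_of_scalar β ⊤ lam hlam
    rw [Subgroup.index_top, Nat.dvd_one] at hd
    rw [hβ]; exact hd
  have hor : ∀ χ : Cfsg.IrrCharacter P, Cfsg.charDegree (χ : P → ℂ) = 1 ∨ Cfsg.charDegree (χ : P → ℂ) = p ^ n := by
    intro χ
    by_cases h : ∀ z ∈ Subgroup.center P, (χ : P → ℂ) z = (χ : P → ℂ) 1
    · exact Or.inl (hlinear χ h)
    · push Not at h
      exact Or.inr (hvanish χ h).2
  refine ⟨fun χ => ?_, ?_⟩
  · rw [CfsgLib.Chars.irr_apply_one]
    rcases hor χ with h | h <;> rw [h]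
    · exact Or.inl Nat.cast_one
    · exact Or.inr (Nat.cast_pow p n)
  · have hn : n ≠ 0 := by
      intro hn
      subst hn
      rw [mul_zero, zero_add, pow_one] at hcard
      have hz : Subgroup.center P = ⊤ := Subgroup.eq_top_of_card_eq _ (hord.trans hcard.symm)
      have hb : commutator P = ⊥ := by
        show (⁅(⊤ : Subgroup P), ⊤⁆) = ⊥
        rw [Subgroup.commutator_eq_bot_iff_le_centralizer, Subgroup.coe_top, Subgroup.centralizer_univ, hz]
      rw [hb] at hcomm
      rw [← hcomm, Subgroup.card_bot] at hord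
      exact (Fact.out : p.Prime).one_lt.ne hord
    have hp1 : p ^ n ≠ 1 := (Nat.one_lt_pow hn (Fact.out : p.Prime).one_lt).ne'
    have hlc := CfsgLib.Chars.card_linear (G := P)
    have habn : Nat.card (Abelianization P) = p ^ (2 * n) := by
      show Nat.card (P ⧸ commutator P) = _
      rw [← Subgroup.index_eq_card, hcomm]
      have h1 := (Subgroup.center P).index_mul_card
      rw [hord, hcard, pow_succ] at h1
      exact Nat.eq_of_mul_eq_mul_right (Fact.out : p.Prime).pos h1
    rw [show (commutator P).index = Nat.card (Abelianization P) from rfl, habn] at hlc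
    have hs := CfsgLib.Chars.sum_deg_sq (G := P)
    rw [← Finset.sum_filter_add_sum_filter_not Finset.univ (fun χ : Cfsg.IrrCharacter P => Cfsg.charDegree (χ : P → ℂ) = 1)] at hs
    rw [Finset.sum_congr rfl (fun χ hχ => show Cfsg.charDegree ((χ : Cfsg.IrrCharacter P) : P → ℂ) ^ 2 = (fun _ => (1 : ℕ)) χ by
        have h := (Finset.mem_filter.1 hχ).2
        simp [h]),
      Finset.sum_congr (s₁ := Finset.filter (fun χ : Cfsg.IrrCharacter P => ¬ Cfsg.charDegree (χ : P → ℂ) = 1) Finset.univ) rfl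
        (fun χ hχ => show Cfsg.charDegree ((χ : Cfsg.IrrCharacter P) : P → ℂ) ^ 2 = (fun _ => (p ^ n) ^ 2) χ by
          rw [(hor χ).resolve_left (Finset.mem_filter.1 hχ).2]),
      Finset.sum_const, Finset.sum_const, smul_eq_mul, smul_eq_mul, mul_one, ← Fintype.card_subtype, ← Fintype.card_subtype,
      ← Nat.card_eq_fintype_card, ← Nat.card_eq_fintype_card, hlc, hcard] at hs
    have hgoal : Nat.card {χ : Cfsg.IrrCharacter P // (χ : P → ℂ) 1 = (p : ℂ) ^ n} =
        Nat.card {χ : Cfsg.IrrCharacter P // ¬ Cfsg.charDegree (χ : P → ℂ) = 1} :=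
      Nat.card_congr (Equiv.subtypeEquivRight fun χ => by
        rw [CfsgLib.Chars.irr_apply_one, ← Nat.cast_pow, Nat.cast_inj]
        exact ⟨fun h => h ▸ hp1, fun h => (hor χ).resolve_left h⟩)
    rw [hgoal]
    set k := Nat.card {χ : Cfsg.IrrCharacter P // ¬ Cfsg.charDegree (χ : P → ℂ) = 1}
    rw [← pow_mul, mul_comm n, pow_succ, add_comm, mul_comm (p ^ (2 * n)) p] at hs
    have h3 : (k + 1) * p ^ (2 * n) = p * p ^ (2 * n) := by rw [add_mul, one_mul]; exact hs
    have := Nat.eq_of_mul_eq_mul_right (pow_pos (Fact.out : p.Prime).pos _) h3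
    omega

end Cfsg.Agent.S0894
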