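import Cfsg.Statements.S0895
import Mathlib
import Cfsg.Agent.Lib.CharCover

set_option autoImplicit false
open Cfsg

namespace Cfsg.Agent.S0895

/-- Let χ be a real-valued irreducible character of a finite group G whose degree is an odd natural number. Then the average over s in G of χ (s * s) equals 1. -/
theorem result {G : Type*} [Group G] [Fintype G] (χ : G → ℂ) (hχ : Cfsg.IsIrrCharacter G χ) (hreal : ∀ g : G, (χ g).im = 0) (d : ℕ) (hd : χ 1 = d) (hodd : Odd d) : (Nat.card G : ℂ)⁻¹ * ∑ s : G, χ (s * s) = 1 := by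
  classical
  obtain ⟨n, ρ, hρ, hc⟩ := hχ
  have hnd : n = d := by
    have h1 : ρ.character 1 = (d : ℂ) := by rw [hc, hd]
    rw [Representation.char_one, Module.finrank_fin_fun] at h1
    exact_mod_cast h1
  subst hnd
  let M : G → Matrix (Fin n) (Fin n) ℂ := fun g => LinearMap.toMatrix' (ρ g)
  have hMmul : ∀ g h, M (g * h) = M g * M h := fun g h => by
    simp only [M, map_mul, Module.End.mul_eq_comp, LinearMap.toMatrix'_comp]
  have hM1 : M 1 = 1 := by simp [M]
  let τ : Representation ℂ G (Fin n → ℂ) :=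
    { toFun := fun g => Matrix.toLin' (M g⁻¹).transpose
      map_one' := by rw [inv_one, hM1, Matrix.transpose_one, Matrix.toLin'_one]; rfl
      map_mul' := fun g h => by
        rw [mul_inv_rev, hMmul, Matrix.transpose_mul, Matrix.toLin'_mul]; rfl }
  have htr : ∀ g, ρ.character g = (M g).trace := fun g => by
    rw [Representation.character, LinearMap.trace_eq_matrix_trace ℂ (Pi.basisFun ℂ (Fin n)),
      LinearMap.toMatrix_eq_toMatrix']
  have hτ : τ.character = ρ.character := by
    funext g
    rw [Representation.character, show τ g = Matrix.toLin' (M g⁻¹).transpose from rfl, Matrix.trace_toLin'_eq, Matrix.trace_transpose, ← htr, hc,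
      CfsgLib.Chars.IsCharacter.map_inv (χ := χ) ⟨_, ρ, hc⟩]
    exact Complex.conj_eq_iff_im.2 (hreal g)
  obtain ⟨A, hA, hAc⟩ := CfsgLib.CharCover.exists_intertwiner ρ τ hρ hτ
  set B := LinearMap.toMatrix' A with hB
  have hBc : ∀ g, B * M g = (M g⁻¹).transpose * B := fun g => by
    have := congrArg LinearMap.toMatrix' (hAc g)
    rw [Module.End.mul_eq_comp, Module.End.mul_eq_comp, LinearMap.toMatrix'_comp, LinearMap.toMatrix'_comp] at this
    rw [this, show τ g = Matrix.toLin' (M g⁻¹).transpose from rfl, LinearMap.toMatrix'_toLin']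
  have hdet : IsUnit B.det := by
    rw [hB, LinearMap.det_toMatrix']
    exact hA.map LinearMap.det
  -- the form is symmetric
  obtain ⟨c, hcB⟩ : ∃ c : ℂ, B.transpose = c • B := by
    have hBT : ∀ g, B.transpose * M g = (M g⁻¹).transpose * B.transpose := fun g => by
      have h1 := congrArg Matrix.transpose (hBc g⁻¹)
      rw [inv_inv, Matrix.transpose_mul, Matrix.transpose_mul, Matrix.transpose_transpose] at h1
      exact h1.symm
    obtain ⟨c, hc'⟩ := CfsgLib.CharCover.exists_scalar ρ hρ (Matrix.toLin' (B⁻¹ * B.transpose)) (fun g => by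
      rw [← Matrix.toLin'_toMatrix' (ρ g), Module.End.mul_eq_comp, Module.End.mul_eq_comp, ← Matrix.toLin'_mul, ← Matrix.toLin'_mul]
      congr 1
      show B⁻¹ * B.transpose * M g = M g * (B⁻¹ * B.transpose)
      have h2 : B * (M g * (B⁻¹ * B.transpose)) = B * (B⁻¹ * B.transpose * M g) := by
        rw [← Matrix.mul_assoc, hBc, Matrix.mul_assoc, ← Matrix.mul_assoc B B⁻¹, Matrix.mul_nonsing_inv _ hdet, one_mul,
          ← hBT, ← Matrix.mul_assoc, ← Matrix.mul_assoc, Matrix.mul_nonsing_inv _ hdet, one_mul]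
      have h3 := congrArg (B⁻¹ * ·) h2
      simp only [← Matrix.mul_assoc, Matrix.nonsing_inv_mul _ hdet, one_mul] at h3
      rw [Matrix.mul_assoc, Matrix.mul_assoc] at h3
      rw [Matrix.mul_assoc]
      exact h3.symm)
    refine ⟨c, ?_⟩
    have h3 := congrArg (fun X => B * LinearMap.toMatrix' X) hc'
    simp only [LinearMap.toMatrix'_toLin', map_smul, LinearMap.toMatrix'_one, Matrix.mul_smul, mul_one,
      ← Matrix.mul_assoc, Matrix.mul_nonsing_inv _ hdet, one_mul] at h3
    exact h3
  have hc2 : c = 1 := by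
    have hB0 : B ≠ 0 := by
      intro h
      haveI : Nonempty (Fin n) := ⟨⟨0, hodd.pos⟩⟩
      rw [h, Matrix.det_zero] at hdet
      exact not_isUnit_zero hdet
    have h1 : B = (c * c) • B := by
      conv_lhs => rw [← Matrix.transpose_transpose B, hcB, Matrix.transpose_smul, hcB, smul_smul]
    have h3 : c ^ n = 1 := by
      have h2 := congrArg Matrix.det hcB
      rw [Matrix.det_transpose, Matrix.det_smul, Fintype.card_fin] at h2
      exact (mul_eq_right₀ hdet.ne_zero).1 h2.symm
    have h4 : c * c = 1 := by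
      by_contra h
      refine hB0 ((smul_eq_zero.1 (show (c * c - 1) • B = 0 by rw [sub_smul, one_smul, ← h1, sub_self])).resolve_left (sub_ne_zero.2 h))
    obtain ⟨m, hm⟩ := hodd
    rw [hm, pow_succ, pow_mul, pow_two, h4, one_pow, one_mul] at h3
    exact h3
  rw [hc2, one_smul] at hcB
  -- Schur averaging
  have havg : ∀ Z : Matrix (Fin n) (Fin n) ℂ,
      ∑ g : G, M g * Z * (M g).transpose = ((Nat.card G : ℂ) * (Z * B).trace / (n : ℂ)) • B⁻¹ := by
    intro Z
    set W := ∑ g : G, M g * (Z * B) * M g⁻¹ with hW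
    obtain ⟨w, hw⟩ := CfsgLib.CharCover.exists_scalar ρ hρ (Matrix.toLin' W) (fun h => by
      rw [← Matrix.toLin'_toMatrix' (ρ h), Module.End.mul_eq_comp, Module.End.mul_eq_comp, ← Matrix.toLin'_mul, ← Matrix.toLin'_mul]
      congr 1
      show W * M h = M h * W
      simp only [hW, Finset.sum_mul, Finset.mul_sum]
      rw [← Equiv.sum_comp (Equiv.mulLeft h) (fun g => M g * (Z * B) * M g⁻¹ * M h)]
      refine Finset.sum_congr rfl fun g _ => ?_
      simp only [Equiv.coe_mulLeft, mul_inv_rev, hMmul, Matrix.mul_assoc]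
      rw [← hMmul h⁻¹ h, inv_mul_cancel, hM1, Matrix.mul_one])
    have hw' : W = w • (1 : Matrix (Fin n) (Fin n) ℂ) := by
      have h3 := congrArg LinearMap.toMatrix' hw
      simpa only [LinearMap.toMatrix'_toLin', map_smul, LinearMap.toMatrix'_one] using h3
    have htrW : W.trace = (Nat.card G : ℂ) * (Z * B).trace := by
      rw [hW, Matrix.trace_sum, Finset.sum_congr rfl (fun g _ => show (M g * (Z * B) * M g⁻¹).trace = (Z * B).trace by
        rw [Matrix.trace_mul_cycle, ← hMmul, inv_mul_cancel, hM1, one_mul]), Finset.sum_const, nsmul_eq_mul, Finset.card_univ,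
        Nat.card_eq_fintype_card]
    have hn0 : (n : ℂ) ≠ 0 := Nat.cast_ne_zero.2 hodd.pos.ne'
    rw [hw', Matrix.trace_smul, Matrix.trace_one, Fintype.card_fin, smul_eq_mul] at htrW
    rw [← htrW, mul_div_cancel_right₀ _ hn0]
    have h4 : ∀ g : G, M g * (Z * B) * M g⁻¹ = M g * Z * (M g).transpose * B := fun g => by
      have h5 := hBc g⁻¹
      rw [inv_inv] at h5
      rw [Matrix.mul_assoc, Matrix.mul_assoc Z, h5]
      simp only [Matrix.mul_assoc]
    have h6 : (∑ g : G, M g * Z * (M g).transpose) * B = w • 1 := by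
      rw [← hw', hW, Finset.sum_mul]
      exact Finset.sum_congr rfl fun g _ => (h4 g).symm
    have h7 := congrArg (· * B⁻¹) h6
    rw [Matrix.mul_assoc, Matrix.mul_nonsing_inv _ hdet, Matrix.mul_one, Matrix.smul_mul, Matrix.one_mul] at h7
    exact h7
  have hsum : ∑ g : G, χ (g * g) = (Nat.card G : ℂ) := by
    have h8 : ∀ i j : Fin n, ∑ g : G, M g i j * M g j i = (Nat.card G : ℂ) / (n : ℂ) * (B i j * B⁻¹ i j) := by
      intro i j
      have h9 := congrFun (congrFun (havg (Matrix.single j i 1)) i) j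
      simp only [Matrix.sum_apply, Matrix.smul_apply, smul_eq_mul, Matrix.mul_apply, Matrix.single_apply,
        Matrix.transpose_apply, Matrix.trace, Matrix.diag] at h9
      simp [ite_and, Finset.sum_ite_eq] at h9
      rw [h9, Nat.card_eq_fintype_card]; ring
    have h10 : ∀ g : G, χ (g * g) = ∑ i, ∑ j, M g i j * M g j i := fun g => by
      rw [← hc, htr, hMmul]; simp [Matrix.trace, Matrix.mul_apply]
    rw [Finset.sum_congr rfl fun g _ => h10 g, Finset.sum_comm]
    simp only [Finset.sum_comm (s := (Finset.univ : Finset G)), h8, ← Finset.mul_sum]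
    have h11 : ∑ i, ∑ j, B i j * B⁻¹ i j = (n : ℂ) := by
      have : ∑ i, ∑ j, B i j * B⁻¹ i j = (B.transpose * B⁻¹).trace := by
        simp only [Matrix.trace, Matrix.diag, Matrix.mul_apply, Matrix.transpose_apply]
        exact Finset.sum_comm
      rw [this, hcB, Matrix.mul_nonsing_inv _ hdet, Matrix.trace_one, Fintype.card_fin]
    rw [h11, div_mul_cancel₀ _ (Nat.cast_ne_zero.2 hodd.pos.ne')]
  rw [hsum, inv_mul_cancel₀ (CfsgLib.Chars.natCast_card_ne_zero G)]

end Cfsg.Agent.S0895
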