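import Cfsg.Statements.S0896
import Mathlib
import Cfsg.Agent.Lib.BrauerInd.Main

set_option autoImplicit false
open scoped ComplexConjugate
open Cfsg

namespace Cfsg.Agent.S0896

universe uX
open CfsgLib.Chars CfsgLib.BrauerInd
open scoped ComplexConjugate

/-- Weighted fixed point congruence. -/
theorem exists_fixed {K X : Type uX} [Group K] [MulAction K X] [Fintype X] {p : ℕ} [Fact p.Prime]
    (hK : IsPGroup p K) (w : X → ℕ) (hw : ∀ (g : K) (x : X), w (g • x) = w x) (h : ¬ p ∣ ∑ x, w x) :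
    ∃ x, (∀ g : K, g • x = x) ∧ ¬ p ∣ w x := by
  classical
  by_contra hno
  push Not at hno
  apply h
  rw [← Finset.sum_fiberwise_of_maps_to (g := w) (t := Finset.univ.image w) (fun x _ => Finset.mem_image_of_mem _ (Finset.mem_univ _))]
  refine Finset.dvd_sum fun r _ => ?_
  rw [Finset.sum_congr rfl (fun x hx => (Finset.mem_filter.1 hx).2), Finset.sum_const, smul_eq_mul]
  by_cases hr : p ∣ r
  · exact hr.mul_left _
  refine Dvd.dvd.mul_right ?_ r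
  letI : MulAction K {x : X // w x = r} :=
    { smul := fun g x => ⟨g • (x : X), by rw [hw]; exact x.2⟩
      one_smul := fun x => Subtype.ext (one_smul K (x : X))
      mul_smul := fun g h x => Subtype.ext (mul_smul g h (x : X)) }
  have hfix : MulAction.fixedPoints K {x : X // w x = r} = ∅ := by
    rw [Set.eq_empty_iff_forall_notMem]
    intro x hx
    exact hr (x.2 ▸ hno x fun g => congrArg Subtype.val (hx g))
  have h1 := hK.card_modEq_card_fixedPoints {x : X // w x = r}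
  rw [hfix, Nat.card_coe_set_eq, Set.ncard_empty, Nat.card_eq_fintype_card, Fintype.card_subtype] at h1
  exact Nat.modEq_zero_iff_dvd.1 h1

/-- One step of Dade's argument. -/
theorem inner_step {G : Type uX} [Group G] [Fintype G] (p : ℕ) (hp : p.Prime) (N : Subgroup G) [hN : N.Normal] [Fintype N] (k : ℕ)
    (hk : N.index = p ^ k) (ϑ : N → ℂ) (hϑ : IsIrrCharacter N ϑ)
    (hinv : ∀ (g : G) (n : N), ϑ ⟨g * n * g⁻¹, hN.conj_mem (n : G) n.2 g⟩ = ϑ n)
    (E : Subgroup G) (hE : IsElementary p E) (ψ : E → ℂ) (hψ : IsCharacter E ψ) :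
    (∃ (φ : ↥(E ⊓ N) → ℂ), E ⊔ N = ⊤ ∧ IsIrrCharacter ↥(E ⊓ N) φ ∧ (∀ (g : G) (hg : g ∈ E) (x : ↥(E ⊓ N)), φ ⟨g * x * g⁻¹, ⟨(E.mul_mem (E.mul_mem hg x.2.1) (E.inv_mem hg)), hN.conj_mem (x : G) x.2.2 g⟩⟩ = φ x) ∧
      ∃ a : ℕ, ¬ p ∣ a ∧ (Nat.card ↥(E ⊓ N) : ℂ)⁻¹ * ∑ᶠ x : ↥(E ⊓ N), ϑ ⟨(x : G), x.2.2⟩ * conj (φ x) = (a : ℂ)) ∨
    ∃ y : ℤ, (p : ℤ) ∣ y ∧ (Nat.card N : ℂ)⁻¹ * ∑ n : N, indFun E ψ n * (ϑ n * conj (ϑ n)) = y := by
  classical
  haveI : Fact p.Prime := ⟨hp⟩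
  haveI : Fintype ↥(E ⊓ N) := Fintype.ofFinite _
  let ι : ↥(E ⊓ N) →* N := Subgroup.inclusion inf_le_right
  let j : ↥(E ⊓ N) →* E := Subgroup.inclusion inf_le_left
  let θM : ↥(E ⊓ N) → ℂ := fun x => ϑ (ι x)
  let F : ↥(E ⊓ N) → ℂ := fun x => ψ (j x) * θM x
  have hθM : IsCharacter _ θM := IsCharacter.comp (IsIrrCharacter.isCharacter hϑ) ι
  have hF : IsCharacter _ F := IsCharacter.mul (IsCharacter.comp hψ j) hθM
  choose a ha using exists_mult hθM
  choose b hb using exists_mult hF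
  -- the action on the irreducible characters of the intersection
  let c : ↥E → (↥(E ⊓ N) →* ↥(E ⊓ N)) := fun g =>
    ((MulAut.conj (g : G)).toMonoidHom.comp (E ⊓ N).subtype).codRestrict (E ⊓ N) fun x =>
      ⟨E.mul_mem (E.mul_mem g.2 x.2.1) (E.inv_mem g.2), hN.conj_mem (x : G) x.2.2 g⟩
  have hc : ∀ (g : E) x, ((c g x : ↥(E ⊓ N)) : G) = (g : G) * (x : G) * (g : G)⁻¹ := fun g x => rfl
  have hcc : ∀ (g h : E) x, c g (c h x) = c (g * h) x := fun g h x => Subtype.ext (by simp only [hc, Subgroup.coe_mul]; group)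
  have hc1 : ∀ x, c 1 x = x := fun x => Subtype.ext (by simp [hc])
  have hsurj : ∀ g, Function.Surjective (c g) := fun g x => ⟨c g⁻¹ x, by rw [hcc, mul_inv_cancel, hc1]⟩
  letI act : MulAction E (IrrCharacter ↥(E ⊓ N)) :=
    { smul := fun g φ => ⟨fun x => (φ : ↥(E ⊓ N) → ℂ) (c g⁻¹ x), IsIrrCharacter.comp φ.2 (c g⁻¹) (hsurj g⁻¹)⟩
      one_smul := fun φ => Subtype.ext (funext fun x => by show (φ : ↥(E ⊓ N) → ℂ) (c 1⁻¹ x) = _; rw [inv_one, hc1])
      mul_smul := fun g h φ => Subtype.ext (funext fun x => by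
        show (φ : ↥(E ⊓ N) → ℂ) (c (g * h)⁻¹ x) = (φ : ↥(E ⊓ N) → ℂ) (c h⁻¹ (c g⁻¹ x))
        rw [hcc, mul_inv_rev]) }
  have hsmul : ∀ (g : E) (φ : IrrCharacter ↥(E ⊓ N)) x, (g • φ : IrrCharacter ↥(E ⊓ N)).1 x = φ.1 (c g⁻¹ x) := fun _ _ _ => rfl
  have hθc : ∀ g x, θM (c g x) = θM x := fun g x => hinv (g : G) (ι x)
  have hψc : ∀ g x, ψ (j (c g x)) = ψ (j x) := fun g x => IsCharacter.isClassFunction hψ (j x) g
  have hinner : ∀ (g : E) (φ : IrrCharacter ↥(E ⊓ N)) (f : ↥(E ⊓ N) → ℂ), (∀ x, f (c g x) = f x) →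
      classInner f (g • φ : IrrCharacter ↥(E ⊓ N)).1 = classInner f φ.1 := fun g φ f hf => by
    have hbij : Function.Bijective (c g) :=
      ⟨fun x y h => by simpa [hcc, hc1] using congrArg (c g⁻¹) h, hsurj g⟩
    simp only [classInner]
    congr 1
    rw [← (Equiv.ofBijective _ hbij).sum_comp]
    refine Finset.sum_congr rfl fun x _ => ?_
    rw [Equiv.ofBijective_apply, hf, hsmul, hcc, inv_mul_cancel, hc1]
  let ρ := MulAction.toPermHom E (IrrCharacter ↥(E ⊓ N))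
  have hpK : IsPGroup p ρ.range := by
    obtain ⟨z, hz, -, r, hr⟩ := hE
    have hle : Subgroup.zpowers z ≤ ρ.ker := Subgroup.zpowers_le.2 <| Equiv.ext fun φ => by
      show z • φ = φ
      refine Subtype.ext (funext fun x => ?_)
      rw [hsmul]
      refine congrArg _ (Subtype.ext ?_)
      rw [hc]
      have h1 : ((z⁻¹ * j x * z⁻¹⁻¹ : E) : G) = ((j x : E) : G) := by
        rw [← Subgroup.mem_center_iff.1 ((Subgroup.center E).inv_mem hz) (j x), mul_inv_cancel_right]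
      simpa [j, Subgroup.coe_inclusion] using h1
    have hd := hr ▸ Subgroup.index_dvd_of_le hle
    obtain ⟨i, -, hi⟩ := (Nat.dvd_prime_pow hp).1 hd
    exact IsPGroup.of_card (n := i) (by rw [← Subgroup.index_ker]; exact hi)
  -- the contribution
  have hS : classInner F θM = ((∑ φ : IrrCharacter ↥(E ⊓ N), a φ * b φ : ℕ) : ℂ) := by
    push_cast
    rw [classInner_symm, show θM = fun x => ∑ φ : IrrCharacter ↥(E ⊓ N), (a φ : ℂ) * φ.1 x from funext fun x => by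
      rw [classFunction_expand (IsCharacter.isClassFunction hθM) x]; simp only [ha], classInner_sum, map_sum]
    refine Finset.sum_congr rfl fun φ _ => ?_
    rw [map_mul, map_natCast, ← classInner_symm, hb]
  have hT : (Nat.card N : ℂ)⁻¹ * ∑ n : N, indFun E ψ n * (ϑ n * conj (ϑ n)) = ((E ⊔ N).index : ℂ) * classInner F θM := by
    have hw : ∀ (x : G), ∑ n : N, extendByZero E ψ (x⁻¹ * n * x) * (ϑ n * conj (ϑ n)) = ∑ y : ↥(E ⊓ N), F y * conj (θM y) := by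
      intro x
      let e : N ≃ N :=
        { toFun := fun n => ⟨x * n * x⁻¹, hN.conj_mem (n : G) n.2 x⟩
          invFun := fun v => ⟨x⁻¹ * v * x, by simpa using hN.conj_mem (v : G) v.2 x⁻¹⟩
          left_inv := fun u => Subtype.ext (by simp [mul_assoc])
          right_inv := fun v => Subtype.ext (by simp [mul_assoc]) }
      have he : ∀ n : N, extendByZero E ψ (x⁻¹ * (e n : G) * x) * (ϑ (e n) * conj (ϑ (e n))) = extendByZero E ψ (n : G) * (ϑ n * conj (ϑ n)) := fun n => by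
        have h1 : ϑ (e n) = ϑ n := hinv x n
        have h2 : x⁻¹ * (e n : G) * x = (n : G) := by show x⁻¹ * (x * n * x⁻¹) * x = _; group
        rw [h1, h2]
      rw [← e.sum_comp, Finset.sum_congr rfl fun n _ => he n]
      rw [← Finset.sum_filter_of_ne (p := fun n : N => (n : G) ∈ E)]
      · refine (Finset.sum_nbij' (fun y : ↥(E ⊓ N) => ι y) (fun n => if h : (n : G) ∈ E then ⟨n, h, n.2⟩ else 1) ?_ ?_ ?_ ?_ ?_).symm
        · intro y _; exact Finset.mem_filter.2 ⟨Finset.mem_univ _, y.2.1⟩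
        · intro n _; exact Finset.mem_univ _
        · intro y _; simp only [ι, Subgroup.coe_inclusion]; exact dif_pos y.2.1
        · intro n hn; simp only [dif_pos (Finset.mem_filter.1 hn).2]; rfl
        · intro y _
          have : extendByZero E ψ ((ι y : N) : G) = ψ (j y) := extendByZero_coe E ψ (j y)
          rw [this]
          simp only [F, θM, mul_assoc]
      · intro n _ hne
        by_contra h
        exact hne (by rw [extendByZero_apply, dif_neg h, zero_mul])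
    have hcard : (Nat.card G : ℂ) * Nat.card ↥(E ⊓ N) = ((E ⊔ N).index : ℂ) * (Nat.card N * Nat.card E) := by
      norm_cast
      have h1 := Subgroup.relIndex_mul_index (le_sup_right : N ≤ E ⊔ N)
      rw [Subgroup.relIndex_sup_right] at h1
      have h2 : N.relIndex E * Nat.card ↥(E ⊓ N) = Nat.card E := by
        rw [← Subgroup.inf_relIndex_left E N, mul_comm, ← Subgroup.relIndex_bot_left, ← Subgroup.relIndex_bot_left]
        exact Subgroup.relIndex_mul_relIndex _ _ _ bot_le inf_le_left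
      rw [← N.index_mul_card, ← h1, ← h2]
      ring
    have hsum : ∑ n : N, indFun E ψ n * (ϑ n * conj (ϑ n)) = (Nat.card E : ℂ)⁻¹ * ((Nat.card G : ℂ) * ∑ y : ↥(E ⊓ N), F y * conj (θM y)) := by
      simp only [indFun]
      rw [Finset.sum_congr rfl (fun n _ => mul_assoc (Nat.card E : ℂ)⁻¹ _ _), ← Finset.mul_sum]
      congr 1
      rw [Finset.sum_congr rfl (fun (n : N) _ => Finset.sum_mul (Finset.univ : Finset G) _ _), Finset.sum_comm,
        Finset.sum_congr rfl (fun x _ => hw x), Finset.sum_const, Finset.card_univ, nsmul_eq_mul, ← Nat.card_eq_fintype_card]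
    rw [hsum, classInner]
    have hN0 : (Nat.card N : ℂ) ≠ 0 := natCast_card_ne_zero N
    have hE0 : (Nat.card E : ℂ) ≠ 0 := natCast_card_ne_zero E
    have hM0 : (Nat.card ↥(E ⊓ N) : ℂ) ≠ 0 := natCast_card_ne_zero _
    field_simp
    linear_combination (∑ y : ↥(E ⊓ N), F y * conj (θM y)) * hcard
  by_cases hd : p ∣ (E ⊔ N).index * ∑ φ : IrrCharacter ↥(E ⊓ N), a φ * b φ
  · refine Or.inr ⟨((E ⊔ N).index * ∑ φ : IrrCharacter ↥(E ⊓ N), a φ * b φ : ℕ), Int.natCast_dvd_natCast.2 hd, ?_⟩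
    rw [hT, hS]; push_cast; rfl
  left
  have htop : E ⊔ N = ⊤ := by
    have h1 : (E ⊔ N).index ∣ p ^ k := hk ▸ Subgroup.index_dvd_of_le le_sup_right
    obtain ⟨i, -, hi⟩ := (Nat.dvd_prime_pow hp).1 h1
    rcases Nat.eq_zero_or_pos i with rfl | hi0
    · exact Subgroup.index_eq_one.1 hi
    · exact absurd ((hi ▸ dvd_pow_self p hi0.ne').mul_right _) hd
  have hwinv : ∀ (g : ρ.range) (φ : IrrCharacter ↥(E ⊓ N)), a (g • φ) * b (g • φ) = a φ * b φ := by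
    rintro ⟨_, g, rfl⟩ φ
    show a (g • φ) * b (g • φ) = a φ * b φ
    have h1 : (a (g • φ) : ℂ) = a φ := by rw [← ha, ← ha]; exact hinner g φ θM (hθc g)
    have h2 : (b (g • φ) : ℂ) = b φ := by
      rw [← hb, ← hb]; exact hinner g φ F fun x => by simp only [F, hθc, hψc]
    rw [Nat.cast_inj.1 h1, Nat.cast_inj.1 h2]
  obtain ⟨φ, hφ, hφab⟩ := exists_fixed hpK (fun φ => a φ * b φ) hwinv fun h => hd (h.mul_left _)
  refine ⟨φ.1, htop, φ.2, fun g hg x => ?_, a φ, fun h => hφab (h.mul_right _), ?_⟩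
  · have h1 : (⟨g, hg⟩⁻¹ : E) • φ = φ := hφ ⟨ρ (⟨g, hg⟩⁻¹ : E), ⟨_, rfl⟩⟩
    have h2 := congrFun (congrArg Subtype.val h1) x
    rw [hsmul, inv_inv] at h2
    exact h2
  · rw [finsum_eq_sum_of_fintype, ← ha]
    rfl

/-- Let N be a normal subgroup of the finite group G with the index of N a power of the prime p, and ϑ an irreducible character of N invariant under conjugation by G. Then there are a p-elementary subgroup E of G with E ⊔ N = ⊤ and an irreducible character φ of the subgroup E ⊓ N, invariant under conjugation by E, such that the inner product of the restriction of ϑ to E ⊓ N with φ is an integer not divisible by p. -/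
theorem result {G : Type*} [Group G] [Fintype G] (p : ℕ) (hp : p.Prime) (N : Subgroup G) [hN : N.Normal] (hind : ∃ k : ℕ, N.index = p ^ k) (ϑ : N → ℂ) (hϑ : Cfsg.IsIrrCharacter N ϑ) (hinv : ∀ (g : G) (n : N), ϑ ⟨g * n * g⁻¹, hN.conj_mem (n : G) n.2 g⟩ = ϑ n) : ∃ (E : Subgroup G) (φ : ↥(E ⊓ N) → ℂ), Cfsg.IsElementary p E ∧ E ⊔ N = ⊤ ∧ Cfsg.IsIrrCharacter ↥(E ⊓ N) φ ∧ (∀ (g : G) (hg : g ∈ E) (x : ↥(E ⊓ N)), φ ⟨g * x * g⁻¹, ⟨(E.mul_mem (E.mul_mem hg x.2.1) (E.inv_mem hg)), hN.conj_mem (x : G) x.2.2 g⟩⟩ = φ x) ∧ ∃ m : ℕ, ¬ p ∣ m ∧ (Nat.card ↥(E ⊓ N) : ℂ)⁻¹ * ∑ᶠ x : ↥(E ⊓ N), ϑ ⟨(x : G), x.2.2⟩ * conj (φ x) = (m : ℂ) := by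
  classical
  haveI : Fintype N := Fintype.ofFinite N
  haveI : Fact p.Prime := ⟨hp⟩
  obtain ⟨k, hk⟩ := hind
  obtain ⟨m, hm, hmem⟩ := local_brauer (G := G) p hp
  obtain ⟨l, hl⟩ := exists_list_of_mem_closure hmem
  let Φ : (G → ℂ) → ℂ := fun f => (Nat.card N : ℂ)⁻¹ * ∑ n : N, f n * (ϑ n * conj (ϑ n))
  have hθN := classInner_irr (⟨ϑ, hϑ⟩ : IrrCharacter N) ⟨ϑ, hϑ⟩
  rw [if_pos rfl] at hθN
  have hΦm : Φ (fun _ : G => (m : ℂ)) = m := by
    simp only [Φ, ← Finset.mul_sum]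
    rw [mul_left_comm, show (Nat.card N : ℂ)⁻¹ * ∑ n : N, ϑ n * conj (ϑ n) = 1 from hθN, mul_one]
  have hΦsmul : ∀ (c : ℂ) (f g : G → ℂ), Φ (c • f + g) = c * Φ f + Φ g := fun c f g => by
    simp only [Φ, Pi.add_apply, Pi.smul_apply, smul_eq_mul, Finset.mul_sum]
    rw [← Finset.sum_add_distrib]
    exact Finset.sum_congr rfl fun n _ => by ring
  have key : ∀ w : List (BIndex G p × ℤ), (∃ t ∈ w, ∃ (φ : ↥(t.1.1.1 ⊓ N) → ℂ), t.1.1.1 ⊔ N = ⊤ ∧
      IsIrrCharacter ↥(t.1.1.1 ⊓ N) φ ∧ (∀ (g : G) (hg : g ∈ t.1.1.1) (x : ↥(t.1.1.1 ⊓ N)), φ ⟨g * x * g⁻¹, ⟨(t.1.1.1.mul_mem (t.1.1.1.mul_mem hg x.2.1) (t.1.1.1.inv_mem hg)), hN.conj_mem (x : G) x.2.2 g⟩⟩ = φ x) ∧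
        ∃ a : ℕ, ¬ p ∣ a ∧ (Nat.card ↥(t.1.1.1 ⊓ N) : ℂ)⁻¹ * ∑ᶠ x : ↥(t.1.1.1 ⊓ N), ϑ ⟨(x : G), x.2.2⟩ * conj (φ x) = (a : ℂ)) ∨
      ∃ z : ℤ, (p : ℤ) ∣ z ∧ Φ (w.map fun t => (t.2 : ℂ) • indFun t.1.1.1 t.1.1.2).sum = z := by
    intro w
    induction w with
    | nil => exact Or.inr ⟨0, dvd_zero _, by simp [Φ]⟩
    | cons t w ih =>
      rcases ih with ⟨s, hs, h⟩ | ⟨z, hz, hzw⟩
      · exact Or.inl ⟨s, List.mem_cons_of_mem _ hs, h⟩
      · rcases inner_step p hp N k hk ϑ hϑ hinv t.1.1.1 t.1.2.1 t.1.1.2 t.1.2.2 with h | ⟨y, hy, hyt⟩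
        · exact Or.inl ⟨t, List.mem_cons_self .., h⟩
        · refine Or.inr ⟨t.2 * y + z, dvd_add (hy.mul_left _) hz, ?_⟩
          rw [List.map_cons, List.sum_cons, hΦsmul, hzw]
          simp only [Φ, hyt]
          push_cast; rfl
  rcases key l with ⟨t, -, φ, h⟩ | ⟨z, hz, hzl⟩
  · exact ⟨t.1.1.1, φ, t.1.2.1, h⟩
  · rw [← hl, hΦm, Int.cast_inj] at hzl
    exact absurd (hzl ▸ hz) hm

end Cfsg.Agent.S0896
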