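import Cfsg.Statements.S0897
import Mathlib
import Cfsg.Agent.S0896
import Cfsg.Agent.S0875
import Cfsg.Agent.Lib.Extendible
import Cfsg.Agent.Lib.CharAbelian

set_option autoImplicit false
open Cfsg

namespace Cfsg.Agent.S0897

universe uX
open CfsgLib.Chars CfsgLib.BrauerInd CfsgLib.Extendible
open scoped ComplexConjugate

/-- The determinant on an isotypic component of a linear character. -/
theorem det_component {R M : Type uX} [Group R] [Group M] [Fintype M] {d : ℕ} (A : Representation ℂ R (Fin d → ℂ))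
    (i : M →* R) (f : M →* ℂˣ) (hconj : ∀ r x, ∃ y, r⁻¹ * i x * r = i y ∧ f y = f x) (m₀ : ℕ)
    (hm : (Nat.card M : ℂ)⁻¹ * ∑ x : M, A.character (i x) * conj (f x : ℂ) = (m₀ : ℂ)) :
    ∃ F : R →* ℂˣ, (∀ x, F (i x) = f x ^ m₀) ∧ ∀ z c, A z = c • 1 → (F z : ℂ) = c ^ m₀ := by
  let B : Representation ℂ M (Fin d → ℂ) :=
    { toFun := fun x => ((f x)⁻¹ : ℂˣ).1 • A (i x)
      map_one' := by simp
      map_mul' := fun x y => by
        rw [map_mul, map_mul, map_mul, mul_inv_rev, mul_comm (f y)⁻¹, Units.val_mul, smul_mul_smul_comm] }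
  haveI : Invertible (Nat.card M : ℂ) := invertibleOfNonzero (natCast_card_ne_zero M)
  have hdim : Module.finrank ℂ B.invariants = m₀ := by
    have h := Representation.card_inv_mul_sum_char_eq_finrank B
    rw [show ∑ x : M, B.character x = ∑ x : M, A.character (i x) * conj (f x : ℂ) from Finset.sum_congr rfl fun x _ => ?_, hm, Nat.cast_inj] at h
    · exact h.symm
    · show LinearMap.trace ℂ _ (((f x)⁻¹ : ℂˣ).1 • A (i x)) = _
      rw [map_smul, smul_eq_mul, mul_comm, Units.val_inv_eq_inv_val, inv_eq_of_mul_eq_one_right (hom_mul_conj f x)]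
      rfl
  have hinvt : ∀ (x : M) (v : Fin d → ℂ), v ∈ B.invariants → A (i x) v = (f x : ℂ) • v := fun x v hv => by
    have h : ((f x)⁻¹ : ℂˣ).1 • A (i x) v = v := hv x
    conv_rhs => rw [← h]
    rw [smul_smul, ← Units.val_mul, mul_inv_cancel, Units.val_one, one_smul]
  have hW : ∀ r : R, ∀ v ∈ B.invariants, A r v ∈ B.invariants := fun r v hv x => by
    obtain ⟨y, hy, hfy⟩ := hconj r x
    show ((f x)⁻¹ : ℂˣ).1 • A (i x) (A r v) = A r v
    have : A (i x) (A r v) = A r (A (i y) v) := by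
      rw [← Module.End.mul_apply, ← Module.End.mul_apply, ← map_mul, ← map_mul, ← hy]
      congr 2; group
    rw [this, hinvt y v hv, map_smul, smul_smul, hfy, ← Units.val_mul, inv_mul_cancel, Units.val_one, one_smul]
  let F₀ : R →* ℂˣ := ((LinearMap.det : Module.End ℂ B.invariants →* ℂ).comp (subRep A B.invariants hW)).toHomUnits
  have hscal : ∀ (r : R) (c : ℂ), (∀ v ∈ B.invariants, A r v = c • v) → (F₀ r : ℂ) = c ^ m₀ := fun r c h => by
    rw [MonoidHom.coe_toHomUnits]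
    show LinearMap.det (subRep A B.invariants hW r) = _
    rw [show subRep A B.invariants hW r = c • (1 : Module.End ℂ B.invariants) from
      LinearMap.ext fun v => Subtype.ext (h v v.2), LinearMap.det_smul, map_one, mul_one, hdim]
  refine ⟨F₀, fun x => Units.ext ?_, fun z c hz => hscal z c fun v _ => by rw [hz]; rfl⟩
  rw [hscal _ _ (hinvt x), Units.val_pow_eq_pow_val]

theorem extends_of_data {G : Type uX} [Group G] [Finite G] (N : Subgroup G) [N.Normal] [Fintype N] (θ : IrrCharacter N)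
    (hinv : ∀ g, conjIrr N θ g = θ) (p : ℕ) (hp : p.Prime) (k₀ : ℕ) (hk₀ : N.index = p ^ k₀)
    (E₀ : Subgroup G) (hEN : E₀ ⊔ N = ⊤) (f : ↥(E₀ ⊓ N) →* ℂˣ) (μ : E₀ →* ℂˣ)
    (hμ : ∀ x : ↥(E₀ ⊓ N), μ (Subgroup.inclusion inf_le_left x) = f x)
    (hf : ∀ (g : G) (hg : g ∈ E₀) (x y : ↥(E₀ ⊓ N)), (y : G) = g * x * g⁻¹ → f y = f x)
    (m₀ : ℕ) (hm₀ : ¬ p ∣ m₀) [Fintype ↥(E₀ ⊓ N)]
    (hmult : (Nat.card ↥(E₀ ⊓ N) : ℂ)⁻¹ * ∑ x : ↥(E₀ ⊓ N), (θ : N → ℂ) (Subgroup.inclusion inf_le_right x) * conj (f x : ℂ) = (m₀ : ℂ)) :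
    ∃ χ : IrrCharacter G, ∀ n : N, (χ : G → ℂ) n = (θ : N → ℂ) n := by
  classical
  haveI := Fintype.ofFinite G
  obtain ⟨E, _, _, π, ι, α, hπ, hπι, hnorm, hcen, hα⟩ := CfsgLib.CharCover.exists_cover N θ hinv
  haveI := Fintype.ofFinite E
  haveI := hnorm
  have hι : Function.Injective ι := fun a b h => Subtype.ext (by rw [← hπι a, ← hπι b, h])
  obtain ⟨a, ha⟩ := CfsgLib.CharDegree.exists_central_hom α π.ker hcen
  have key : ∀ q : ℕ, q.Prime → ∃ (m : ℕ) (L : E →* ℂˣ), Nat.Coprime m q ∧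
      (∀ n, L (ι n) = 1) ∧ ∀ z : π.ker, L z = ((a z)⁻¹) ^ (m : ℤ) := by
    intro q hq
    by_cases hqp : q = p
    · subst hqp
      -- the elementary subgroup
      let R : Subgroup E := E₀.comap π
      let πR : R →* E₀ := (π.comp R.subtype).codRestrict E₀ (fun x => x.2)
      let i : ↥(E₀ ⊓ N) →* R := (ι.comp (Subgroup.inclusion inf_le_right)).codRestrict R fun x => by
        show π (ι _) ∈ E₀; rw [hπι]; exact x.2.1
      have hπi : ∀ x, πR (i x) = Subgroup.inclusion inf_le_left x := fun x => Subtype.ext (hπι _)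
      have hconj : ∀ (r : R) (x : ↥(E₀ ⊓ N)), ∃ y, r⁻¹ * i x * r = i y ∧ f y = f x := by
        intro r x
        obtain ⟨n, hn⟩ := hnorm.conj_mem (ι (Subgroup.inclusion inf_le_right x)) ⟨_, rfl⟩ (r : E)⁻¹
        rw [inv_inv] at hn
        have hn' : (n : G) = (π r)⁻¹ * (x : G) * π r := by
          have h := congrArg π hn
          rw [hπι, map_mul, map_mul, map_inv, hπι] at h
          exact h
        have hr : π r ∈ E₀ := r.2
        refine ⟨⟨n, hn' ▸ E₀.mul_mem (E₀.mul_mem (E₀.inv_mem hr) x.2.1) hr, n.2⟩, Subtype.ext hn.symm, ?_⟩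
        exact hf _ (E₀.inv_mem hr) x _ (by rw [inv_inv]; exact hn')
      obtain ⟨d, A, hA, hAc⟩ := α.2
      obtain ⟨F, hFi, hFz⟩ := det_component (A.comp R.subtype) i f hconj m₀ (by
        rw [← hmult]
        congr 1
        refine Finset.sum_congr rfl fun x _ => ?_
        rw [← hα, ← hAc]; rfl)
      have hker : ∀ r : R, (r : E) ∈ ι.range → (F * ((μ.comp πR) ^ m₀)⁻¹) r = 1 := by
        rintro r ⟨n, hn⟩
        have hn0 : (n : G) ∈ E₀ := by rw [← hπι n, hn]; exact r.2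
        have hr : r = i ⟨n, hn0, n.2⟩ := Subtype.ext hn.symm
        rw [hr, MonoidHom.mul_apply, MonoidHom.inv_apply, MonoidHom.pow_apply, MonoidHom.comp_apply, hπi, hμ, hFi, mul_inv_cancel]
      let q' : R →* E ⧸ ι.range := (QuotientGroup.mk' ι.range).comp R.subtype
      have hq' : Function.Surjective q' := by
        intro y
        obtain ⟨x, rfl⟩ := QuotientGroup.mk'_surjective ι.range y
        have hx : π x ∈ E₀ ⊔ N := hEN ▸ Subgroup.mem_top _
        rw [← SetLike.mem_coe, Subgroup.mul_normal] at hx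
        obtain ⟨e, he, n, hn, hen⟩ := hx
        refine ⟨⟨x * (ι ⟨n, hn⟩)⁻¹, ?_⟩, ?_⟩
        · show π _ ∈ E₀
          rw [map_mul, map_inv, hπι, ← hen]
          simpa using he
        · show QuotientGroup.mk' ι.range (x * (ι ⟨n, hn⟩)⁻¹) = QuotientGroup.mk' ι.range x
          rw [map_mul, map_inv, (QuotientGroup.eq_one_iff (ι ⟨n, hn⟩)).2 ⟨_, rfl⟩ |> fun h => (show QuotientGroup.mk' ι.range (ι ⟨n, hn⟩) = 1 from h), inv_one, mul_one]
      let L' : E ⧸ ι.range →* ℂˣ := MonoidHom.liftOfSurjective q' hq' ⟨F * ((μ.comp πR) ^ m₀)⁻¹, fun r hr => hker r ((QuotientGroup.eq_one_iff (r : E)).1 (MonoidHom.mem_ker.1 hr))⟩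
      refine ⟨m₀, (L'.comp (QuotientGroup.mk' ι.range))⁻¹, ((Nat.Prime.coprime_iff_not_dvd hq).2 hm₀).symm, fun n => ?_, fun z => ?_⟩
      · rw [MonoidHom.inv_apply, MonoidHom.comp_apply, show QuotientGroup.mk' ι.range (ι n) = 1 from (QuotientGroup.eq_one_iff _).2 ⟨n, rfl⟩, map_one, inv_one]
      · have hzR : (z : E) ∈ R := by show π z ∈ E₀; rw [MonoidHom.mem_ker.1 z.2]; exact E₀.one_mem
        have hL : L' (q' ⟨z, hzR⟩) = (F * ((μ.comp πR) ^ m₀)⁻¹) ⟨z, hzR⟩ := MonoidHom.liftOfRightInverse_comp_apply _ _ _ _ _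
        rw [MonoidHom.inv_apply, MonoidHom.comp_apply, zpow_natCast, inv_pow, inv_inj]
        refine hL.trans ?_
        rw [MonoidHom.mul_apply, MonoidHom.inv_apply, MonoidHom.pow_apply, MonoidHom.comp_apply, show πR ⟨z, hzR⟩ = 1 from Subtype.ext z.2, map_one, one_pow, inv_one, mul_one]
        obtain ⟨c, hc⟩ := CfsgLib.CharCover.exists_scalar A hA (A z) fun g => by
          rw [← map_mul, ← map_mul, Subgroup.mem_center_iff.1 (hcen z.2) g]
        have hca : c = (a z : ℂ) := by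
          have h := ha z
          rw [← hAc] at h
          simp only [Representation.character, hc, map_one, map_smul, smul_eq_mul] at h
          refine mul_right_cancel₀ ?_ h
          have h1 := irr_one_ne_zero α
          rw [← hAc] at h1
          simpa [Representation.character] using h1
        refine Units.ext ?_
        rw [Units.val_pow_eq_pow_val, ← hca]
        exact hFz ⟨z, hzR⟩ c hc
    -- the other primes
    obtain ⟨P, hNP, η, hcop, hη, hηn⟩ : ∃ (P : Subgroup G) (hNP : N ≤ P) (η : P → ℂ), Nat.Coprime P.index q ∧ IsIrrCharacter P η ∧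
        ∀ n : N, η ⟨(n : G), hNP n.2⟩ = (θ : N → ℂ) n :=
      ⟨N, le_rfl, θ, by rw [hk₀]; exact Nat.Coprime.pow_left _ ((Nat.coprime_primes hp hq).2 (Ne.symm hqp)), θ.2, fun n => rfl⟩
    let R : Subgroup E := P.comap π
    haveI : Fintype R := Fintype.ofFinite R
    have hιR : ∀ n, ι n ∈ R := fun n => by show π (ι n) ∈ P; rw [hπι]; exact hNP n.2
    let ιR : N →* R := ι.codRestrict R hιR
    haveI : ιR.range.Normal := by
      refine ⟨?_⟩
      rintro _ ⟨n, rfl⟩ x
      obtain ⟨m, hm⟩ := hnorm.conj_mem (ι n) ⟨n, rfl⟩ (x : E)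
      exact ⟨m, Subtype.ext hm⟩
    haveI : Fintype ιR.range := Fintype.ofFinite _
    have hιRinj : Function.Injective ιR := fun x y h => hι (congrArg Subtype.val h)
    let eN := MonoidHom.ofInjective hιRinj
    let θR : IrrCharacter ιR.range := ⟨fun x => (θ : N → ℂ) (eN.symm x),
      IsIrrCharacter.comp θ.2 eN.symm.toMonoidHom eN.symm.surjective⟩
    let αR : R → ℂ := fun x => (α : E → ℂ) x
    have hres : ∀ x : ιR.range, αR x = (θR : ιR.range → ℂ) x := by
      intro x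
      obtain ⟨n, rfl⟩ := eN.surjective x
      show (α : E → ℂ) (ι n) = (θ : N → ℂ) (eN.symm (eN n))
      rw [MulEquiv.symm_apply_apply, hα]
    have hαR : IsIrrCharacter R αR := CfsgLib.CharDegree.isIrr_of_restrict
      (IsCharacter.restrict (isCharacter_irr α) R) ιR.range θR hres
    let πR : R →* P := (π.comp R.subtype).codRestrict P (fun x => x.2)
    have hπR : Function.Surjective πR := fun x => by
      obtain ⟨y, hy⟩ := hπ x
      exact ⟨⟨y, show π y ∈ P by rw [hy]; exact x.2⟩, Subtype.ext hy⟩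
    let ηR : IrrCharacter R := ⟨fun x => η (πR x), IsIrrCharacter.comp hη πR hπR⟩
    have hηι : ∀ x : ιR.range, (ηR : R → ℂ) x = (θR : ιR.range → ℂ) x := by
      intro x
      obtain ⟨n, rfl⟩ := eN.surjective x
      show η (πR (ιR n)) = (θ : N → ℂ) (eN.symm (eN n))
      rw [MulEquiv.symm_apply_apply]
      exact Eq.trans (congrArg η (Subtype.ext (hπι n) : πR (ιR n) = ⟨(n : G), hNP n.2⟩)) (hηn n)
    have hover : classInner (fun x : ιR.range => (ηR : R → ℂ) x) (θR : ιR.range → ℂ) ≠ 0 := by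
      have h := classInner_irr θR θR
      rw [if_pos rfl] at h
      rw [show (fun x : ιR.range => (ηR : R → ℂ) x) = (θR : ιR.range → ℂ) from funext hηι, h]
      exact one_ne_zero
    obtain ⟨β, hker, hprod⟩ := CfsgLib.CharExtend.gallagher ιR.range ⟨αR, hαR⟩ θR hres ηR hover
    have hβ1 : (β : R → ℂ) 1 = 1 := by
      have h1 := hprod 1
      have h2 := hηι 1
      have h3 := hres 1
      rw [OneMemClass.coe_one] at h2 h3
      change (ηR : R → ℂ) 1 = αR 1 * _ at h1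
      rw [h2, h3] at h1
      exact (mul_eq_left₀ (irr_one_ne_zero θR)).1 h1.symm
    obtain ⟨f, hf⟩ := IsCharacter.exists_hom (isCharacter_irr β) hβ1
    have hfι : ∀ x : R, x ∈ ιR.range → f x = 1 := fun x hx => Units.ext (by
      have := hker x hx
      rw [hβ1, hf] at this
      exact this)
    have hfz : ∀ (z : π.ker) (hz : (z : E) ∈ R), f ⟨z, hz⟩ = (a z)⁻¹ := by
      intro z hz
      refine eq_inv_of_mul_eq_one_left (Units.ext ?_)
      have h := hprod ⟨z, hz⟩
      have hπz : πR ⟨z, hz⟩ = 1 := Subtype.ext z.2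
      change η (πR ⟨z, hz⟩) = (α : E → ℂ) z * _ at h
      rw [hπz, ha z, hf] at h
      have h2 := hηι 1
      have h3 := hres 1
      rw [OneMemClass.coe_one] at h2 h3
      change η (πR 1) = _ at h2
      change (α : E → ℂ) 1 = _ at h3
      rw [map_one] at h2
      rw [h2, ← h3, mul_comm ((a z : ℂˣ) : ℂ), mul_assoc] at h
      have h4 := ((mul_eq_left₀ (irr_one_ne_zero α)).1 h.symm)
      rw [Units.val_mul, Units.val_one, mul_comm]
      exact h4
    have hidx : R.index = P.index := Subgroup.index_comap_of_surjective _ hπ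
    refine ⟨P.index, MonoidHom.transfer f, hcop, fun n => ?_, fun z => ?_⟩
    · haveI : Fintype (Quotient (MulAction.orbitRel (Subgroup.zpowers (ι n)) (E ⧸ R))) := Fintype.ofFinite _
      rw [MonoidHom.transfer_eq_prod_quotient_orbitRel_zpowers_quot]
      refine Finset.prod_eq_one fun q _ => hfι _ ?_
      have hmem : q.out.out⁻¹ * ι n ^ Function.minimalPeriod (ι n • ·) q.out * q.out.out ∈ ι.range := by
        have := hnorm.conj_mem _ (ι.range.pow_mem ⟨n, rfl⟩ (Function.minimalPeriod (ι n • ·) q.out)) q.out.out⁻¹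
        rwa [inv_inv] at this
      obtain ⟨m, hm⟩ := hmem
      exact ⟨m, Subtype.ext hm⟩
    · rw [MonoidHom.transfer_eq_pow]
      · rw [zpow_natCast, ← hidx]
        have hzR : (z : E) ∈ R := by show π z ∈ P; rw [MonoidHom.mem_ker.1 z.2]; exact P.one_mem
        rw [← hfz z hzR, ← map_pow]
        rfl
      · intro i g₀ _
        have hz := Subgroup.mem_center_iff.1 ((Subgroup.center E).pow_mem (hcen z.2) i) g₀
        rw [mul_assoc, ← hz, inv_mul_cancel_left]
  let S : AddSubgroup ℤ :=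
    { carrier := {m | ∃ L : E →* ℂˣ, (∀ n, L (ι n) = 1) ∧ ∀ z : π.ker, L z = ((a z)⁻¹) ^ m}
      zero_mem' := ⟨1, fun _ => rfl, fun z => by simp⟩
      add_mem' := by
        rintro x y ⟨L, h1, h2⟩ ⟨M, h3, h4⟩
        exact ⟨L * M, fun n => by simp [h1, h3], fun z => by rw [MonoidHom.mul_apply, h2, h4, zpow_add]⟩
      neg_mem' := by
        rintro x ⟨L, h1, h2⟩
        exact ⟨L⁻¹, fun n => by simp [h1], fun z => by rw [MonoidHom.inv_apply, h2, zpow_neg]⟩ }
  obtain ⟨k, hk⟩ := Int.subgroup_cyclic S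
  have hk1 : (1 : ℤ) ∈ S := by
    have hdvd : ∀ m : ℤ, m ∈ S → k ∣ m := by
      intro m hm
      rw [hk, AddSubgroup.mem_closure_singleton] at hm
      obtain ⟨j, rfl⟩ := hm
      exact ⟨j, by rw [zsmul_eq_mul, Int.cast_id, mul_comm]⟩
    have hu : k.natAbs = 1 := by
      by_contra hne
      obtain ⟨p, hp, hpk⟩ := Nat.exists_prime_and_dvd hne
      obtain ⟨m, L, hcop, h1, h2⟩ := key p hp
      have h3 : k.natAbs ∣ m := Int.natCast_dvd_natCast.1 (Int.natAbs_dvd.2 (hdvd m ⟨L, h1, h2⟩))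
      exact hp.coprime_iff_not_dvd.1 hcop.symm (hpk.trans h3)
    have hkmem : k ∈ S := hk ▸ AddSubgroup.subset_closure rfl
    rcases Int.natAbs_eq k with h | h <;> rw [hu] at h
    · simpa [h] using hkmem
    · simpa [h] using S.neg_mem hkmem
  obtain ⟨L, hL1, hL2⟩ := hk1
  let X : IrrCharacter E := ⟨_, isIrrCharacter_hom_mul L α⟩
  obtain ⟨ψ, hψ⟩ := exists_deflate π.ker X (fun z hz => by
    show (L z : ℂ) * (α : E → ℂ) z = (L 1 : ℂ) * (α : E → ℂ) 1
    rw [ha ⟨z, hz⟩, hL2 ⟨z, hz⟩, zpow_one, map_one, Units.val_one, one_mul, ← mul_assoc, ← Units.val_mul, inv_mul_cancel,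
      Units.val_one, one_mul])
  let e : E ⧸ π.ker ≃* G := QuotientGroup.quotientKerEquivOfSurjective π hπ
  refine ⟨⟨fun g => (ψ : E ⧸ π.ker → ℂ) (e.symm g),
    IsIrrCharacter.comp ψ.2 e.symm.toMonoidHom e.symm.surjective⟩, fun n => ?_⟩
  have he : e.symm (n : G) = QuotientGroup.mk (ι n) := e.symm_apply_eq.2 (hπι n).symm
  show (ψ : E ⧸ π.ker → ℂ) (e.symm (n : G)) = _
  rw [he]
  refine Eq.trans (congrFun hψ (ι n)).symm ?_
  show (L (ι n) : ℂ) * (α : E → ℂ) (ι n) = _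
  rw [hL1, hα, Units.val_one, one_mul]


/-- The linear character of an elementary subgroup. -/
theorem exists_mu {G : Type uX} [Group G] [Fintype G] (p : ℕ) [Fact p.Prime] (N : Subgroup G) [hN : N.Normal]
    (k₀ : ℕ) (hk₀ : N.index = p ^ k₀) (P : Sylow p G) (hcent : ∀ x ∈ (P : Subgroup G) ⊓ N, ∀ y ∈ (P : Subgroup G), x * y = y * x)
    (hlin : ∀ lam : ↥((P : Subgroup G) ⊓ N) → ℂ, IsCharacter ↥((P : Subgroup G) ⊓ N) lam → lam 1 = 1 → ∃ μ : ↥(P : Subgroup G) → ℂ, IsCharacter ↥(P : Subgroup G) μ ∧ μ 1 = 1 ∧ ∀ x : ↥((P : Subgroup G) ⊓ N), μ ⟨(x : G), x.2.1⟩ = lam x)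
    (E : Subgroup G) (hE : IsElementary p E) :
    (∀ a b : ↥(E ⊓ N), a * b = b * a) ∧ ∀ f : ↥(E ⊓ N) →* ℂˣ, ∃ μ : E →* ℂˣ, ∀ x : ↥(E ⊓ N), μ (Subgroup.inclusion inf_le_left x) = f x := by
  classical
  have hp : p.Prime := Fact.out
  have hnil := isNilpotent_of_isElementary hp hE
  obtain ⟨z, hz, hzo, r, hr⟩ := hE
  have hcard : Nat.card E = orderOf z * p ^ r := by rw [← Nat.card_zpowers, ← hr, Subgroup.card_mul_index]
  have hcop : Nat.Coprime (orderOf z) (p ^ r) := hzo.pow_right r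
  obtain ⟨n₁, h10, h11⟩ := Nat.chineseRemainder hcop 0 1
  obtain ⟨n₂, h20, h21⟩ := Nat.chineseRemainder hcop.symm 0 1
  obtain ⟨π₁, hπ₁, -, -, hd₁⟩ := Cfsg.Agent.S0875.exists_powHom hnil (orderOf z) (p ^ r) n₁ (hcard ▸ dvd_rfl) hcop h10 h11
  obtain ⟨π₂, hπ₂, -, -, hd₂⟩ := Cfsg.Agent.S0875.exists_powHom hnil (p ^ r) (orderOf z) n₂ (by rw [hcard, mul_comm]) hcop.symm h20 h21
  have hsplit : ∀ e : E, π₂ e * π₁ e = e := fun e => by
    rw [hπ₁, hπ₂, ← pow_add]
    conv_rhs => rw [← pow_one e]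
    refine pow_eq_pow_iff_modEq.2 (Nat.ModEq.of_dvd (hcard ▸ orderOf_dvd_natCard e) ((Nat.modEq_and_modEq_iff_modEq_mul hcop).1 ⟨?_, ?_⟩))
    · simpa using h21.add h10
    · simpa using h20.add h11
  have hzN : ((z : E) : G) ∈ N := by
    have h1 : (QuotientGroup.mk ((z : E) : G) : G ⧸ N) ^ p ^ k₀ = 1 := by
      rw [← hk₀, Subgroup.index_eq_card]; exact pow_card_eq_one'
    have h2 : (QuotientGroup.mk ((z : E) : G) : G ⧸ N) ^ orderOf z = 1 := by
      rw [← QuotientGroup.mk_pow, ← Subgroup.coe_pow, pow_orderOf_eq_one]; rfl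
    exact (QuotientGroup.eq_one_iff _).1 (by simpa [(hzo.pow_right k₀).gcd_eq_one] using pow_gcd_eq_one.2 ⟨h2, h1⟩)
  have hπ₂z : ∀ e, π₂ e ∈ Subgroup.zpowers z := fun e => by
    haveI : (Subgroup.zpowers z).Normal := ⟨fun u hu w => by rwa [Subgroup.mem_center_iff.1 ((Subgroup.zpowers_le.2 hz) hu) w, mul_inv_cancel_right]⟩
    have h1 : π₂ e ^ orderOf z = 1 := orderOf_dvd_iff_pow_eq_one.1 (((Subgroup.orderOf_coe (⟨π₂ e, ⟨e, rfl⟩⟩ : π₂.range)).dvd.trans (orderOf_dvd_natCard _)).trans hd₂)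
    have h2 : (QuotientGroup.mk (π₂ e) : E ⧸ Subgroup.zpowers z) ^ orderOf z = 1 := by rw [← QuotientGroup.mk_pow, h1]; rfl
    have h3 : (QuotientGroup.mk (π₂ e) : E ⧸ Subgroup.zpowers z) ^ p ^ r = 1 := by
      rw [← hr, Subgroup.index_eq_card]; exact pow_card_eq_one'
    exact (QuotientGroup.eq_one_iff _).1 (by simpa [hcop.gcd_eq_one] using pow_gcd_eq_one.2 ⟨h2, h3⟩)
  have hπ₂N : ∀ e, ((π₂ e : E) : G) ∈ N := fun e => by
    obtain ⟨j, hj⟩ := Subgroup.mem_zpowers_iff.1 (hπ₂z e)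
    rw [← hj, Subgroup.coe_zpow]; exact N.zpow_mem hzN j
  -- a conjugate of the p-part inside P
  obtain ⟨j, -, hj⟩ := (Nat.dvd_prime_pow hp).1 hd₁
  have hQ : IsPGroup p ↥(π₁.range.map E.subtype) := IsPGroup.of_card (n := j) (by rw [Subgroup.card_map_of_injective E.subtype_injective]; exact hj)
  obtain ⟨S, hS⟩ := hQ.exists_le_sylow
  obtain ⟨g, rfl⟩ := MulAction.exists_smul_eq G S P
  let c : E →* ↥((g • S : Sylow p G) : Subgroup G) :=
    (((MulAut.conj g).toMonoidHom.comp E.subtype).comp π₁).codRestrict _ fun e =>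
      Subgroup.smul_mem_pointwise_smul _ (MulAut.conj g) _ (hS (Subgroup.mem_map_of_mem _ ⟨e, rfl⟩))
  have hc : ∀ e : E, (c e : G) = g * ((π₁ e : E) : G) * g⁻¹ := fun e => rfl
  have hMN : ∀ x : ↥(E ⊓ N), ((π₁ (Subgroup.inclusion inf_le_left x) : E) : G) ∈ N := fun x => by
    rw [hπ₁, Subgroup.coe_pow]; exact N.pow_mem x.2.2 _
  have hcN : ∀ x : ↥(E ⊓ N), (c (Subgroup.inclusion inf_le_left x) : G) ∈ ((g • S : Sylow p G) : Subgroup G) ⊓ N := fun x =>
    ⟨(c _).2, by rw [hc]; exact hN.conj_mem _ (hMN x) g⟩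
  have hMcomm : ∀ a b : ↥(E ⊓ N), a * b = b * a := fun a b => by
    have h1 : c (Subgroup.inclusion inf_le_left a) * c (Subgroup.inclusion inf_le_left b) = c (Subgroup.inclusion inf_le_left b) * c (Subgroup.inclusion inf_le_left a) :=
      Subtype.ext (hcent _ (hcN a) _ (c _).2)
    have h2 : ∀ u v : E, c u * c v = c v * c u → Commute (π₁ u) (π₁ v) := fun u v h => Subtype.ext (by
      have := congrArg Subtype.val h
      simp only [Subgroup.coe_mul, hc] at this ⊢
      exact mul_right_cancel (b := g⁻¹) (by simpa [mul_assoc] using this))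
    have h3 : Commute (π₂ (Subgroup.inclusion inf_le_left a) * π₁ (Subgroup.inclusion inf_le_left a)) (π₂ (Subgroup.inclusion inf_le_left b) * π₁ (Subgroup.inclusion inf_le_left b)) := by
      have hz₂ : ∀ e w, Commute (π₂ e) w := fun e w => (Subgroup.mem_center_iff.1 ((Subgroup.zpowers_le.2 hz) (hπ₂z e)) w).symm
      exact (hz₂ _ _).mul_left ((hz₂ _ _).symm.mul_right (h2 _ _ h1))
    rw [hsplit, hsplit] at h3
    exact Subtype.ext (by simpa using congrArg (Subtype.val : E → G) h3.eq)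
  refine ⟨hMcomm, fun f => ?_⟩
  -- transport to P ⊓ N and extend
  let PN : Subgroup G := ((g • S : Sylow p G) : Subgroup G) ⊓ N
  letI : CommGroup PN := { (inferInstance : Group PN) with mul_comm := fun a b => Subtype.ext (hcent a a.2 b b.2.1) }
  let cN : ↥(E ⊓ N) →* PN := ((Subgroup.subtype _).comp (c.comp (Subgroup.inclusion inf_le_left))).codRestrict PN hcN
  let f₁ : ↥(E ⊓ N) →* ℂˣ := f.comp (((E.subtype.comp π₁).comp (Subgroup.inclusion inf_le_left)).codRestrict (E ⊓ N) fun x => ⟨(π₁ _).2, hMN x⟩)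
  have hf₁ : cN.rangeRestrict.ker ≤ f₁.ker := fun x hx => by
    rw [MonoidHom.ker_rangeRestrict, MonoidHom.mem_ker] at hx
    have h1 : (c (Subgroup.inclusion inf_le_left x) : G) = 1 := congrArg Subtype.val hx
    rw [hc, mul_inv_eq_one, mul_eq_left] at h1
    rw [MonoidHom.mem_ker]
    refine (congrArg f (Subtype.ext h1)).trans (map_one f)
  haveI : NeZero (Monoid.exponent PN) := ⟨Monoid.exponent_ne_zero_of_finite⟩
  obtain ⟨lam, hlam⟩ := MonoidHom.domRestrict_surjective (M := ℂ) cN.range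
    (MonoidHom.liftOfSurjective cN.rangeRestrict cN.rangeRestrict_surjective ⟨f₁, hf₁⟩)
  obtain ⟨ν, hν, hν1, hνlam⟩ := hlin _ (isCharacter_hom lam) (by simp)
  obtain ⟨h, hh⟩ := IsCharacter.exists_hom hν hν1
  let C₂ : E →* ↥(E ⊓ N) := (E.subtype.comp π₂).codRestrict _ fun e => ⟨(π₂ e).2, hπ₂N e⟩
  refine ⟨(f.comp C₂) * h.comp c, fun x => ?_⟩
  have h1 : h (c (Subgroup.inclusion inf_le_left x)) = f₁ x := by
    have hl : MonoidHom.domRestrict lam cN.range (cN.rangeRestrict x) = f₁ x := by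
      rw [show MonoidHom.domRestrict lam cN.range = _ from hlam]
      exact MonoidHom.liftOfRightInverse_comp_apply _ _ _ _ x
    refine Units.ext ?_
    rw [← hl]
    refine (congrFun hh _).symm.trans ?_
    exact hνlam (cN x)
  rw [MonoidHom.mul_apply, MonoidHom.comp_apply, MonoidHom.comp_apply, h1]
  show f _ * f _ = f x
  rw [← map_mul]
  exact congrArg f (Subtype.ext (congrArg (Subtype.val : E → G) (hsplit (Subgroup.inclusion inf_le_left x)) :))

/-- Let N be a normal subgroup of the finite group G with the index of N a power of the prime p, and P a Sylow p-subgroup of G such that P ⊓ N lies in the centre of P and every character of degree 1 of P ⊓ N is the restriction of a character of degree 1 of P. Then every irreducible character of N invariant under conjugation by G is the restriction of an irreducible character of G. -/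
theorem result {G : Type*} [Group G] [Fintype G] (p : ℕ) [Fact p.Prime] (N : Subgroup G) [hN : N.Normal] (hind : ∃ k : ℕ, N.index = p ^ k) (P : Sylow p G) (hcent : ∀ x ∈ (P : Subgroup G) ⊓ N, ∀ y ∈ (P : Subgroup G), x * y = y * x) (hlin : ∀ lam : ↥((P : Subgroup G) ⊓ N) → ℂ, Cfsg.IsCharacter ↥((P : Subgroup G) ⊓ N) lam → lam 1 = 1 → ∃ μ : ↥(P : Subgroup G) → ℂ, Cfsg.IsCharacter ↥(P : Subgroup G) μ ∧ μ 1 = 1 ∧ ∀ x : ↥((P : Subgroup G) ⊓ N), μ ⟨(x : G), x.2.1⟩ = lam x) (ϑ : N → ℂ) (hϑ : Cfsg.IsIrrCharacter N ϑ) (hinv : ∀ (g : G) (n : N), ϑ ⟨g * n * g⁻¹, hN.conj_mem (n : G) n.2 g⟩ = ϑ n) : ∃ χ : G → ℂ, Cfsg.IsIrrCharacter G χ ∧ ∀ n : N, χ n = ϑ n := by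
  classical
  haveI : Fintype N := Fintype.ofFinite N
  obtain ⟨k, hk⟩ := hind
  obtain ⟨E, φ, hE, hEN, hφ, hφinv, m, hm, hmult⟩ := Cfsg.Agent.S0896.result p Fact.out N ⟨k, hk⟩ ϑ hϑ hinv
  haveI : Fintype ↥(E ⊓ N) := Fintype.ofFinite _
  obtain ⟨hcomm, hext⟩ := exists_mu p N k hk P hcent hlin E hE
  have h1 := charDegree_eq_one_of_comm hcomm ⟨φ, hφ⟩
  obtain ⟨f, hf⟩ := exists_homIrr ⟨φ, hφ⟩ h1
  have hfx : ∀ x, (f x : ℂ) = φ x := fun x => congrFun (congrArg Subtype.val hf) x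
  obtain ⟨μ, hμ⟩ := hext f
  have hI : ∀ g, conjIrr N (⟨ϑ, hϑ⟩ : IrrCharacter N) g = ⟨ϑ, hϑ⟩ := fun g => Subtype.ext (funext fun n => by
    rw [conjIrr_apply']
    exact hinv g n)
  obtain ⟨χ, hχ⟩ := extends_of_data N ⟨ϑ, hϑ⟩ hI p Fact.out k hk E hEN f μ hμ
    (fun g hg x y hxy => Units.ext (by
      rw [hfx, hfx, ← hφinv g hg x]
      exact congrArg φ (Subtype.ext hxy))) m hm (by
      rw [← hmult, finsum_eq_sum_of_fintype]
      congr 1
      exact Finset.sum_congr rfl fun x _ => by rw [hfx]; rfl)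
  exact ⟨χ.1, χ.2, hχ⟩

end Cfsg.Agent.S0897
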