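import Cfsg.Statements.S0898
import Cfsg.Agent.Lib.Chars.TIAbelian

set_option autoImplicit false
open Cfsg

namespace Cfsg.Agent.S0898

/-- Let H be an abelian subgroup of the finite group G meeting the centre of G trivially, such that for every non-central g the centralizer of g has nontrivial intersection with at most one conjugate of H. Let χ be an irreducible character of G with χ h ≠ χ 1 for some h in H, and let c be the inner product of the restriction of χ to H with the principal character. Then χ(1)² > (order of H)·c²; and if in addition χ 1 ≠ 1 and no proper normal subgroup of G contains H, then (1 + χ 1)² > order of H (both sides read as real numbers). -/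
theorem result {G : Type*} [Group G] [Fintype G] (H : Subgroup G) [Fintype H] (hab : ∀ a ∈ H, ∀ b ∈ H, a * b = b * a) (hZ : H ⊓ Subgroup.center G = ⊥) (hone : ∀ g : G, g ∉ Subgroup.center G → ∀ a b : G, Subgroup.centralizer ({g} : Set G) ⊓ H.map (MulAut.conj a).toMonoidHom ≠ ⊥ → Subgroup.centralizer ({g} : Set G) ⊓ H.map (MulAut.conj b).toMonoidHom ≠ ⊥ → H.map (MulAut.conj a).toMonoidHom = H.map (MulAut.conj b).toMonoidHom) (χ : G → ℂ) (hχ : Cfsg.IsIrrCharacter G χ) (hker : ∃ h ∈ H, χ h ≠ χ 1) : (χ 1).re ^ 2 > (Nat.card H : ℝ) * (Cfsg.classInner (fun h : H => χ h) (fun _ => 1)).re ^ 2 ∧ (χ 1 ≠ 1 → (∀ M : Subgroup G, M.Normal → H ≤ M → M = ⊤) → (1 + (χ 1).re) ^ 2 > (Nat.card H : ℝ)) := by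
      classical
      let X : Cfsg.IrrCharacter G := ⟨χ, hχ⟩
      have hone1 : Cfsg.IsCharacter H (fun _ : H => (1 : ℂ)) :=
        CfsgLib.Chars.IsIrrCharacter.isCharacter (CfsgLib.Chars.isIrrCharacter_one H)
      obtain ⟨m, hm⟩ := CfsgLib.Chars.exists_mult_character
        (CfsgLib.Chars.IsCharacter.restrict (CfsgLib.Chars.isCharacter_irr X) H) hone1
      have hm' : Cfsg.classInner (fun h : H => χ h) (fun _ => 1) = (m : ℂ) := hm
      have hd : χ 1 = (Cfsg.charDegree χ : ℂ) := CfsgLib.Chars.irr_apply_one X
      refine ⟨?_, fun hne hM => ?_⟩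
      · have h := CfsgLib.Chars.TIAbelian.degree_sq_gt H hab hZ hone X hker
        rw [CfsgLib.Chars.TIAbelian.avg_one] at h
        simp only [X] at h
        rw [hm', Complex.normSq_natCast] at h
        rw [hd, hm', Complex.natCast_re, Complex.natCast_re, pow_two (m : ℝ)]
        exact h
      · have hpos := CfsgLib.Chars.charDegree_pos X
        have h2 : 2 ≤ Cfsg.charDegree χ := by
          have : Cfsg.charDegree χ ≠ 1 := fun e => hne (by rw [hd, e, Nat.cast_one])
          simp only [X] at hpos
          omega
        have h := CfsgLib.Chars.TIAbelian.one_add_degree_sq_gt H hab hZ hone X h2 hM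
        rw [hd, Complex.natCast_re]
        exact h

end Cfsg.Agent.S0898
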