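import Cfsg.Statements.S0900
import Mathlib
import Cfsg.Agent.Lib.Chars.Clifford
import Cfsg.Agent.Lib.Chars.Induced

set_option autoImplicit false
open Cfsg

namespace Cfsg.Agent.S0900

/-- Let N be a normal subgroup of the finite group G, χ an irreducible character of G and ϑ an irreducible character of N having nonzero inner product with the restriction of χ. Consider: (a) the restriction of χ to N is e • ϑ for a natural number e with e ^ 2 equal to the index of N; (b) χ vanishes outside N and ϑ is invariant under conjugation by G; (c) ϑ is invariant and every irreducible character of G having nonzero inner product with the function induced from ϑ equals χ. Then (a) ↔ (b) and (a) ↔ (c). -/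
theorem result {G : Type*} [Group G] [Fintype G] (N : Subgroup G) [hN : N.Normal] [Fintype N] (χ : G → ℂ) (hχ : Cfsg.IsIrrCharacter G χ) (ϑ : N → ℂ) (hϑ : Cfsg.IsIrrCharacter N ϑ) (hcon : Cfsg.classInner (fun n : N => χ n) ϑ ≠ 0) : ((∃ e : ℕ, (fun n : N => χ n) = (e : ℂ) • ϑ ∧ e ^ 2 = N.index) ↔ ((∀ g : G, g ∉ N → χ g = 0) ∧ ∀ (g : G) (n : N), ϑ ⟨g * n * g⁻¹, hN.conj_mem (n : G) n.2 g⟩ = ϑ n)) ∧ ((∃ e : ℕ, (fun n : N => χ n) = (e : ℂ) • ϑ ∧ e ^ 2 = N.index) ↔ (∀ (g : G) (n : N), ϑ ⟨g * n * g⁻¹, hN.conj_mem (n : G) n.2 g⟩ = ϑ n ∧ ∀ ψ : G → ℂ, Cfsg.IsIrrCharacter G ψ → Cfsg.classInner (Cfsg.indFun N ϑ) ψ ≠ 0 → ψ = χ)) := by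
  classical
  let c : Cfsg.IrrCharacter G := ⟨χ, hχ⟩
  let t : Cfsg.IrrCharacter N := ⟨ϑ, hϑ⟩
  obtain ⟨a, ha0, ha, hval, hdeg⟩ := CfsgLib.Chars.clifford N c t hcon
  set Inv : Prop := ∀ (g : G) (n : N), ϑ ⟨g * n * g⁻¹, hN.conj_mem (n : G) n.2 g⟩ = ϑ n
  set A : Prop := ∃ e : ℕ, (fun n : N => χ n) = (e : ℂ) • ϑ ∧ e ^ 2 = N.index
  have t1 := CfsgLib.Chars.irr_one_ne_zero t
  have hA : A → Inv := by
    rintro ⟨e, he, hi⟩ g n
    have e0 : (e : ℂ) ≠ 0 := Nat.cast_ne_zero.2 (fun h => N.index_ne_zero_of_finite (by rw [← hi, h]; rfl))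
    have h1 := congrFun he n
    have h2 := congrFun he ⟨g * n * g⁻¹, hN.conj_mem (n : G) n.2 g⟩
    simp only [Pi.smul_apply, smul_eq_mul] at h1 h2
    rw [show χ (g * n * g⁻¹) = χ n from CfsgLib.Chars.IsCharacter.isClassFunction (CfsgLib.Chars.isCharacter_irr c) (n : G) g, h1] at h2
    exact mul_left_cancel₀ e0 h2.symm
  have hres : Inv → ∀ n : N, χ n = (a : ℂ) * ϑ n := by
    intro hi n
    have horb : CfsgLib.Chars.orbit N t = {t} := by
      refine Finset.eq_singleton_iff_unique_mem.2 ⟨(CfsgLib.Chars.mem_orbit N).2 ⟨1, (CfsgLib.Chars.conjIrr_one N t).symm⟩, fun x hx => ?_⟩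
      obtain ⟨g, rfl⟩ := (CfsgLib.Chars.mem_orbit N).1 hx
      exact Subtype.ext (funext fun m => (CfsgLib.Chars.conjIrr_apply' N t g m).trans (hi g m))
    have := hval n
    rw [horb, Finset.sum_singleton] at this
    exact this
  have hAiff : Inv → (A ↔ a ^ 2 = N.index) := by
    intro hi
    constructor
    · rintro ⟨e, he, hidx⟩
      have h1 := congrFun he 1
      simp only [Pi.smul_apply, smul_eq_mul] at h1
      rw [hres hi 1] at h1
      have : a = e := by exact_mod_cast mul_right_cancel₀ t1 h1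
      rw [this, hidx]
    · exact fun h => ⟨a, funext fun n => hres hi n, h⟩
  have key : Inv → ((a ^ 2 = N.index) ↔ ∀ g : G, g ∉ N → χ g = 0) := by
    intro hi
    have htot := CfsgLib.Chars.sum_mul_conj_irr c c
    rw [if_pos rfl, ← Finset.sum_add_sum_compl (Finset.univ.filter (fun g => g ∈ N))] at htot
    have hin : ∑ g ∈ Finset.univ.filter (fun g => g ∈ N), χ g * (starRingEnd ℂ) (χ g) = ((a ^ 2 * Nat.card N : ℕ) : ℂ) := by
      rw [Finset.sum_subtype _ (p := fun g => g ∈ N) (fun g => by simp)]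
      show ∑ n : N, χ n * (starRingEnd ℂ) (χ n) = _
      have h1 := CfsgLib.Chars.sum_mul_conj_irr t t
      rw [if_pos rfl] at h1
      have h2 : ∀ n : N, χ n * (starRingEnd ℂ) (χ n) = (a : ℂ) ^ 2 * ((t : N → ℂ) n * (starRingEnd ℂ) ((t : N → ℂ) n)) := by
        intro n
        rw [hres hi n, map_mul, map_natCast]
        show _ = (a : ℂ) ^ 2 * (ϑ n * (starRingEnd ℂ) (ϑ n))
        ring
      rw [Finset.sum_congr rfl fun n _ => h2 n, ← Finset.mul_sum, h1]
      push_cast; ring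
    change (∑ g ∈ Finset.univ.filter (fun g => g ∈ N), χ g * (starRingEnd ℂ) (χ g)) + ∑ g ∈ (Finset.univ.filter (fun g => g ∈ N))ᶜ, χ g * (starRingEnd ℂ) (χ g) = _ at htot
    rw [hin] at htot
    simp only [Complex.mul_conj, ← Complex.ofReal_sum] at htot
    constructor
    · intro h g hg
      rw [h, Subgroup.index_mul_card, add_eq_left, Complex.ofReal_eq_zero] at htot
      exact Complex.normSq_eq_zero.1 ((Finset.sum_eq_zero_iff_of_nonneg (fun x _ => Complex.normSq_nonneg _)).1 htot g (by simpa using hg))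
    · intro h
      rw [Finset.sum_eq_zero (fun g hg => by rw [h g (by simpa using hg), map_zero]), Complex.ofReal_zero, add_zero,
        Nat.cast_inj, ← N.index_mul_card] at htot
      exact Nat.eq_of_mul_eq_mul_right Nat.card_pos htot
  have key2 : Inv → ((a ^ 2 = N.index) ↔ ∀ ψ : G → ℂ, Cfsg.IsIrrCharacter G ψ → Cfsg.classInner (Cfsg.indFun N ϑ) ψ ≠ 0 → ψ = χ) := by
    intro hi
    have hind := CfsgLib.Chars.IsCharacter.indFun N (CfsgLib.Chars.isCharacter_irr t)
    choose m hm using CfsgLib.Chars.exists_mult hind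
    have hexp := CfsgLib.Chars.classFunction_expand (CfsgLib.Chars.IsCharacter.isClassFunction hind) 1
    simp only [hm, CfsgLib.Chars.indFun_one, CfsgLib.Chars.irr_apply_one] at hexp
    have hnat : N.index * Cfsg.charDegree (t : N → ℂ) = ∑ ψ : Cfsg.IrrCharacter G, m ψ * Cfsg.charDegree (ψ : G → ℂ) := by
      exact_mod_cast hexp
    have hmc : m c = a := by
      have h1 := hm c
      rw [CfsgLib.Chars.frobenius N _ (CfsgLib.Chars.IsCharacter.isClassFunction (CfsgLib.Chars.isCharacter_irr c)),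
        CfsgLib.Chars.classInner_character_comm (CfsgLib.Chars.isCharacter_irr t)
          (CfsgLib.Chars.IsCharacter.restrict (CfsgLib.Chars.isCharacter_irr c) N), ha] at h1
      exact_mod_cast h1.symm
    have hcdeg : Cfsg.charDegree (c : G → ℂ) = a * Cfsg.charDegree (t : N → ℂ) := by
      have h1 : χ 1 = (a : ℂ) * ϑ 1 := hres hi 1
      have h2 := CfsgLib.Chars.irr_apply_one c
      have h3 := CfsgLib.Chars.irr_apply_one t
      change χ 1 = _ at h2
      change ϑ 1 = _ at h3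
      rw [h2, h3] at h1
      exact_mod_cast h1
    rw [← Finset.add_sum_erase _ _ (Finset.mem_univ c), hmc, hcdeg] at hnat
    constructor
    · intro h ψ hψ hne
      by_contra hd
      have hz : ∑ x ∈ Finset.univ.erase c, m x * Cfsg.charDegree (x : G → ℂ) = 0 := by
        rw [← h, pow_two, mul_assoc] at hnat
        omega
      have h1 := Finset.sum_eq_zero_iff.1 hz ⟨ψ, hψ⟩ (Finset.mem_erase.2 ⟨fun e => hd (congrArg Subtype.val e), Finset.mem_univ _⟩)
      rcases Nat.mul_eq_zero.1 h1 with h1 | h1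
      · exact hne (by rw [show Cfsg.classInner (Cfsg.indFun N ϑ) ψ = _ from hm ⟨ψ, hψ⟩, h1, Nat.cast_zero])
      · exact (CfsgLib.Chars.charDegree_pos (⟨ψ, hψ⟩ : Cfsg.IrrCharacter G)).ne' h1
    · intro h
      rw [Finset.sum_eq_zero, add_zero, ← mul_assoc, ← pow_two] at hnat
      · exact (Nat.eq_of_mul_eq_mul_right (CfsgLib.Chars.charDegree_pos t) hnat).symm
      · intro x hx
        by_contra hne
        refine (Finset.mem_erase.1 hx).1 (Subtype.ext (h x x.2 ?_))
        rw [show Cfsg.classInner (Cfsg.indFun N ϑ) (x : G → ℂ) = _ from hm x, Nat.cast_ne_zero]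
        exact fun h0 => hne (by rw [h0, zero_mul])
  exact ⟨⟨fun h => ⟨(key (hA h)).1 ((hAiff (hA h)).1 h), hA h⟩, fun ⟨h1, h2⟩ => (hAiff h2).2 ((key h2).2 h1)⟩,
    ⟨fun h g n => ⟨hA h g n, (key2 (hA h)).1 ((hAiff (hA h)).1 h)⟩,
     fun h => (hAiff (fun g n => (h g n).1)).2 ((key2 (fun g n => (h g n).1)).2 (h 1 1).2)⟩⟩

end Cfsg.Agent.S0900
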