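import Cfsg.Statements.S0901
import Mathlib.Algebra.Algebra.ZMod
import Cfsg.Agent.Lib.Blocks.Local
import Mathlib.RingTheory.RootsOfUnity.Complex
import Mathlib.RingTheory.Polynomial.Cyclotomic.Basic
import Mathlib.RingTheory.Adjoin.FG
import Mathlib.FieldTheory.Finiteness

set_option autoImplicit false
open Cfsg

namespace Cfsg.Agent.S0901

open CfsgLib.Blocks

/-- Let M be a maximal ideal of the ring of algebraic integers containing the prime p, and let U be the set of complex roots of unity of order prime to p. Then reduction modulo M is injective on U, and every algebraic integer not in M is congruent modulo M to an element of U (so U maps bijectively onto the nonzero residues). -/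
theorem result (p : ℕ) [Fact p.Prime] (M : Ideal Cfsg.AlgInt) (hM : Cfsg.IsPModular p M) : (∀ ε₁ ε₂ : Cfsg.AlgInt, (∃ m : ℕ, ¬ p ∣ m ∧ (ε₁ : ℂ) ^ m = 1) → (∃ m : ℕ, ¬ p ∣ m ∧ (ε₂ : ℂ) ^ m = 1) → ε₁ - ε₂ ∈ M → ε₁ = ε₂) ∧ (∀ a : Cfsg.AlgInt, a ∉ M → ∃ ε : Cfsg.AlgInt, (∃ m : ℕ, ¬ p ∣ m ∧ (ε : ℂ) ^ m = 1) ∧ a - ε ∈ M) := by
  refine ⟨?_, ?_⟩
  · rintro e₁ e₂ ⟨m₁, hm₁, h₁⟩ ⟨m₂, hm₂, h₂⟩ h
    apply Subtype.ext
    refine eq_of_mli_sub hM (n := m₁ * m₂) ?_ ?_ ?_ ?_
    · exact fun hd => ((Fact.out : p.Prime).dvd_mul.mp hd).elim hm₁ hm₂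
    · rw [pow_mul, h₁, one_pow]
    · rw [mul_comm, pow_mul, h₂, one_pow]
    · simpa using (mli_coe_iff hM _).mpr h
  · intro a ha
    obtain ⟨hp, hmax, hpM⟩ := hM
    letI := Ideal.Quotient.field M
    haveI : CharP (AlgInt ⧸ M) p := by
      refine (CharP.charP_iff_prime_eq_zero hp).mpr ?_
      rw [← map_natCast (Ideal.Quotient.mk M), Ideal.Quotient.eq_zero_iff_mem]
      exact hpM
    letI := ZMod.algebra (AlgInt ⧸ M) p
    set b := Ideal.Quotient.mk M a with hb
    have hb0 : b ≠ 0 := fun h => ha (Ideal.Quotient.eq_zero_iff_mem.mp h)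
    have haint : IsIntegral ℤ a := by
      rw [← isIntegral_algHom_iff (integralClosure ℤ ℂ).val Subtype.val_injective]
      exact a.2
    have hbint : IsIntegral (ZMod p) b :=
      (haint.map (Ideal.Quotient.mkₐ ℤ M)).tower_top
    haveI : Module.Finite (ZMod p) (Algebra.adjoin (ZMod p) {b}) :=
      Module.Finite.iff_fg.mpr hbint.fg_adjoin_singleton
    haveI : Finite (Algebra.adjoin (ZMod p) {b}) := Module.finite_of_finite (ZMod p)
    obtain ⟨i, j, hij, he⟩ := Finite.exists_ne_map_eq_of_infinite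
      (fun k : ℕ => (⟨b ^ k, pow_mem (Algebra.self_mem_adjoin_singleton _ b) k⟩ :
        Algebra.adjoin (ZMod p) {b}))
    have he' : b ^ i = b ^ j := congrArg Subtype.val he
    obtain ⟨d, hd0, hd⟩ : ∃ d : ℕ, d ≠ 0 ∧ b ^ d = 1 := by
      rcases Nat.lt_or_gt_of_ne hij with h | h
      · refine ⟨j - i, by omega, ?_⟩
        have : b ^ i * b ^ (j - i) = b ^ i * 1 := by
          rw [← pow_add, Nat.add_sub_cancel' h.le, mul_one, he']
        exact mul_left_cancel₀ (pow_ne_zero _ hb0) this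
      · refine ⟨i - j, by omega, ?_⟩
        have : b ^ j * b ^ (i - j) = b ^ j * 1 := by
          rw [← pow_add, Nat.add_sub_cancel' h.le, mul_one, he']
        exact mul_left_cancel₀ (pow_ne_zero _ hb0) this
    obtain ⟨e, m, hm, rfl⟩ := Nat.exists_eq_pow_mul_and_not_dvd hd0 p hp.ne_one
    have hbm : b ^ m = 1 := by
      rw [← sub_eq_zero]
      refine eq_zero_of_pow_eq_zero (n := p ^ e) ?_
      rw [sub_pow_char_pow, one_pow, ← pow_mul, mul_comm m, hd, sub_self]
    have ham : a ^ m - 1 ∈ M := by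
      rw [← Ideal.Quotient.eq_zero_iff_mem, map_sub, map_pow, map_one, ← hb, hbm, sub_self]
    have hm0 : m ≠ 0 := fun h => hm (h ▸ dvd_zero p)
    obtain ⟨z, hz⟩ : ∃ z : ℂ, IsPrimitiveRoot z m := ⟨_, Complex.isPrimitiveRoot_exp m hm0⟩
    let z' : AlgInt :=
      mkInt z (isIntegral_of_pow_eq_one (Nat.pos_of_ne_zero hm0) hz.pow_eq_one)
    have hz' : IsPrimitiveRoot z' m :=
      IsPrimitiveRoot.of_map_of_injective (f := (integralClosure ℤ ℂ).val) hz Subtype.val_injective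
    have hprod := congrArg (Polynomial.eval a)
      (Polynomial.X_pow_sub_one_eq_prod (Nat.pos_of_ne_zero hm0) hz')
    simp only [Polynomial.eval_sub, Polynomial.eval_pow, Polynomial.eval_X, Polynomial.eval_one,
      Polynomial.eval_prod, Polynomial.eval_C] at hprod
    rw [hprod] at ham
    obtain ⟨y, hy, hyM⟩ := hmax.isPrime.prod_mem_iff.mp ham
    rw [Polynomial.mem_nthRootsFinset (Nat.pos_of_ne_zero hm0)] at hy
    refine ⟨y, ⟨m, hm, ?_⟩, hyM⟩
    rw [← coe_pow_int, hy]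
    rfl

end Cfsg.Agent.S0901
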