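import Cfsg.Statements.S0902
import Cfsg.Agent.Lib.Blocks.Linked
import Cfsg.Agent.Lib.Chars.Central

set_option autoImplicit false
open Cfsg

namespace Cfsg.Agent.S0902

open CfsgLib.Chars CfsgLib.Blocks

/-- If two irreducible characters of a finite group lie in the same block relative to one maximal ideal M of the algebraic integers containing the prime p, then at every element the difference of their central characters is an algebraic integer lying in every maximal ideal containing p; in particular they lie in the same block relative to any such ideal. -/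
theorem result {G : Type*} [Group G] [Finite G] (p : ℕ) [Fact p.Prime] (M : Ideal Cfsg.AlgInt) (hM : Cfsg.IsPModular p M) (χ ψ : Cfsg.IrrCharacter G) (h : Cfsg.SameBlock M (χ : G → ℂ) (ψ : G → ℂ)) (M' : Ideal Cfsg.AlgInt) (hM' : Cfsg.IsPModular p M') (g : G) : ∃ r : Cfsg.AlgInt, r ∈ M' ∧ (r : ℂ) = Cfsg.centralChar (χ : G → ℂ) g - Cfsg.centralChar (ψ : G → ℂ) g := by
  have : Fintype G := Fintype.ofFinite G
  obtain ⟨a, b, ha, hb, hab⟩ := sameBlock_indep hM hM' h g
  have hi : IsIntegral ℤ (Cfsg.centralChar (χ : G → ℂ) g - Cfsg.centralChar (ψ : G → ℂ) g) :=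
    (centralChar_isIntegral χ g).sub (centralChar_isIntegral ψ g)
  let r : Cfsg.AlgInt := ⟨_, hi⟩
  refine ⟨r, ?_, rfl⟩
  have hb0 : (b : ℂ) ≠ 0 := fun e => hb (by
    have : b = 0 := Subtype.ext e
    rw [this]; exact M'.zero_mem)
  have hrb : r * b = a := Subtype.ext (by
    show (Cfsg.centralChar (χ : G → ℂ) g - Cfsg.centralChar (ψ : G → ℂ) g) * (b : ℂ) = a
    rw [← hab, div_mul_cancel₀ _ hb0])
  have hmem : r * b ∈ M' := hrb ▸ ha
  exact (hM'.2.1.isPrime.mem_or_mem hmem).resolve_right hb

end Cfsg.Agent.S0902
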