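import Cfsg.Statements.S0903

set_option autoImplicit false
open Cfsg

namespace Cfsg.Agent.S0903

/-- Let P be a p-subgroup of the finite group G, let c centralize P and let g, h ∈ G. The number of pairs (x, y) with x conjugate to g, y conjugate to h and x * y = c is congruent modulo p to the number of such pairs in which x and y both centralize P. (This is why the Brauer map on class sums is multiplicative.) -/
theorem result {G : Type*} [Group G] [Finite G] (p : ℕ) [Fact p.Prime] (P : Subgroup G) (hP : IsPGroup p P) (c : G) (hc : c ∈ Subgroup.centralizer (P : Set G)) (g h : G) : Nat.card {xy : G × G // IsConj g xy.1 ∧ IsConj h xy.2 ∧ xy.1 * xy.2 = c} ≡ Nat.card {xy : G × G // IsConj g xy.1 ∧ IsConj h xy.2 ∧ xy.1 * xy.2 = c ∧ xy.1 ∈ Subgroup.centralizer (P : Set G) ∧ xy.2 ∈ Subgroup.centralizer (P : Set G)} [MOD p] := by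
  set α := {xy : G × G // IsConj g xy.1 ∧ IsConj h xy.2 ∧ xy.1 * xy.2 = c}
  have hcq : ∀ q : P, (q : G) * c * (q : G)⁻¹ = c := fun q => by
    rw [Subgroup.mem_centralizer_iff.mp hc _ q.2]; group
  letI : MulAction P α :=
    { smul := fun q x => ⟨((q : G) * x.1.1 * (q : G)⁻¹, (q : G) * x.1.2 * (q : G)⁻¹),
        x.2.1.trans (isConj_iff.mpr ⟨q, rfl⟩), x.2.2.1.trans (isConj_iff.mpr ⟨q, rfl⟩), by
          calc (q : G) * x.1.1 * (q : G)⁻¹ * ((q : G) * x.1.2 * (q : G)⁻¹)
              = (q : G) * (x.1.1 * x.1.2) * (q : G)⁻¹ := by group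
            _ = c := by rw [x.2.2.2, hcq]⟩
      one_smul := fun x => Subtype.ext (Prod.ext
        (show ((1 : P) : G) * x.1.1 * ((1 : P) : G)⁻¹ = x.1.1 by simp)
        (show ((1 : P) : G) * x.1.2 * ((1 : P) : G)⁻¹ = x.1.2 by simp))
      mul_smul := fun a b x => Subtype.ext (Prod.ext
        (show ((a * b : P) : G) * x.1.1 * ((a * b : P) : G)⁻¹ =
          (a : G) * ((b : G) * x.1.1 * (b : G)⁻¹) * (a : G)⁻¹ by rw [Subgroup.coe_mul]; group)
        (show ((a * b : P) : G) * x.1.2 * ((a * b : P) : G)⁻¹ =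
          (a : G) * ((b : G) * x.1.2 * (b : G)⁻¹) * (a : G)⁻¹ by rw [Subgroup.coe_mul]; group)) }
  have hfix : ∀ x : α, x ∈ MulAction.fixedPoints P α ↔
      x.1.1 ∈ Subgroup.centralizer (P : Set G) ∧ x.1.2 ∈ Subgroup.centralizer (P : Set G) := by
    intro x
    simp only [MulAction.mem_fixedPoints, Subgroup.mem_centralizer_iff, SetLike.mem_coe]
    constructor
    · intro hx
      refine ⟨fun q hq => ?_, fun q hq => ?_⟩
      · have h1 : q * x.1.1 * q⁻¹ = x.1.1 := congrArg (fun y : α => y.1.1) (hx ⟨q, hq⟩)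
        exact mul_inv_eq_iff_eq_mul.mp h1
      · have h1 : q * x.1.2 * q⁻¹ = x.1.2 := congrArg (fun y : α => y.1.2) (hx ⟨q, hq⟩)
        exact mul_inv_eq_iff_eq_mul.mp h1
    · rintro ⟨h1, h2⟩ q
      exact Subtype.ext (Prod.ext (mul_inv_eq_iff_eq_mul.mpr (h1 q q.2))
        (mul_inv_eq_iff_eq_mul.mpr (h2 q q.2)))
  refine (hP.card_modEq_card_fixedPoints α).trans ?_
  refine (congrArg (· % p) (Nat.card_congr ?_) :)
  exact ((Equiv.subtypeEquivRight hfix).trans ((Equiv.subtypeSubtypeEquivSubtypeInter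
    (fun xy : G × G => IsConj g xy.1 ∧ IsConj h xy.2 ∧ xy.1 * xy.2 = c)
    (fun xy => xy.1 ∈ Subgroup.centralizer (P : Set G) ∧
      xy.2 ∈ Subgroup.centralizer (P : Set G))).trans
    (Equiv.subtypeEquivRight fun xy => by simp only [and_assoc])))

end Cfsg.Agent.S0903
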