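import Cfsg.Statements.S0905
import Cfsg.Agent.Lib.Blocks.BrauerHom
import Cfsg.Agent.Lib.Core

set_option autoImplicit false
open Cfsg

namespace Cfsg.Agent.S0905

open CfsgLib.Chars CfsgLib.Blocks

/-- Let F be a field of characteristic p and let g be an element of the finite group G no conjugate of which centralizes O_p(G). Then the class sum of g is a nilpotent element of the group algebra F[G]. -/
theorem result {G : Type*} [Group G] [Finite G] (p : ℕ) [Fact p.Prime] (F : Type*) [Field F] [CharP F p] (g : G) (hg : ∀ x : G, IsConj g x → x ∉ Subgroup.centralizer (Cfsg.pCore p G : Set G)) : IsNilpotent (∑ᶠ x ∈ ConjClasses.carrier (ConjClasses.mk g), MonoidAlgebra.single x (1 : F) : MonoidAlgebra F G) := by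
  classical
  haveI : Fintype G := Fintype.ofFinite G
  haveI : (pCore p G).Normal := by
    haveI := CfsgLib.Core.pCore_characteristic (G := G) p
    infer_instance
  set Q := pCore p G
  haveI : Fintype Q := Fintype.ofFinite _
  let kk : MonoidAlgebra (ZMod p) G :=
    ∑ y ∈ Finset.univ.filter (fun y => IsConj g y), MonoidAlgebra.single y (1 : ZMod p)
  have hkk : ∀ y : G, kk.coeff y = if IsConj g y then 1 else 0 := fun y => by
    simp [kk, Finsupp.single_apply]
  obtain ⟨n, hn⟩ := isNilpotent_of_coset_sums Q (CfsgLib.Core.isPGroup_pCore p) kk fun r => by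
    rw [finsum_eq_sum_of_fintype]
    simp only [hkk]
    rw [Finset.sum_boole, ZMod.natCast_eq_zero_iff]
    have h := dvd_card_conj_coset Q (CfsgLib.Core.isPGroup_pCore p) (hg g (IsConj.refl g)) r
    rwa [Nat.card_eq_fintype_card, Fintype.card_subtype] at h
  let π : MonoidAlgebra (ZMod p) G →+* MonoidAlgebra F G :=
    MonoidAlgebra.mapRingHom G (ZMod.castHom (dvd_refl p) F)
  have e : (∑ᶠ x ∈ ConjClasses.carrier (ConjClasses.mk g), MonoidAlgebra.single x (1 : F) :
      MonoidAlgebra F G) = π kk := by
    rw [finsum_mem_eq_toFinset_sum, map_sum]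
    refine Finset.sum_congr ?_ fun y _ => ?_
    · ext y
      rw [Set.mem_toFinset, ConjClasses.mem_carrier_iff_mk_eq, ConjClasses.mk_eq_mk_iff_isConj,
        Finset.mem_filter, and_iff_right (Finset.mem_univ _)]
      exact isConj_comm
    · simp [π]
  rw [e]
  exact IsNilpotent.map ⟨n, hn⟩ π

end Cfsg.Agent.S0905
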