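import Cfsg.Statements.S0906
import Cfsg.Agent.Lib.Blocks.DefectClass

set_option autoImplicit false
open Cfsg

namespace Cfsg.Agent.S0906

open CfsgLib.Chars CfsgLib.Blocks

/-- Let B be a block of the finite group G relative to a maximal ideal M of the algebraic integers containing the prime p. Then some element g represents a defect class of B: the idempotent coefficient of B at g is a local integer not in the local ideal at M, and the central characters of the members of B at g are not in the local ideal. -/
theorem result {G : Type*} [Group G] [Finite G] (p : ℕ) [Fact p.Prime] (M : Ideal Cfsg.AlgInt) (hM : Cfsg.IsPModular p M) (B : Set (Cfsg.IrrCharacter G)) (hB : Cfsg.IsPBlock M B) : ∃ g : G, Cfsg.IsDefectClass M B g := by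
  haveI := Fintype.ofFinite G
  exact exists_isDefectClass hM hB

end Cfsg.Agent.S0906
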