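import Cfsg.Statements.S0910
import Cfsg.Agent.S0138
import Cfsg.Agent.Lib.Chars.Burnside
import Cfsg.Agent.Lib.Chars.Linear
import Cfsg.Agent.Lib.Chars.Kernel
import Cfsg.Agent.Lib.Blocks.Core
import Mathlib.GroupTheory.PGroup
import Mathlib.GroupTheory.Sylow

set_option autoImplicit false
open Cfsg

namespace Cfsg.Agent.S0910

open scoped ComplexConjugate
open CfsgLib.Chars CfsgLib.Blocks

universe u

variable {G : Type u} [Group G] [Finite G]

theorem mem_center_of_norm (χ : IrrCharacter G)
    (hfaith : ∀ g : G, (χ : G → ℂ) g = (χ : G → ℂ) 1 → g = 1) {g : G}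
    (hg : ‖(χ : G → ℂ) g‖ = charDegree (χ : G → ℂ)) : g ∈ Subgroup.center G := by
  obtain ⟨n, ρ, hρ⟩ := isCharacter_irr χ
  have hn : charDegree (χ : G → ℂ) = n := by
    have h1 : (χ : G → ℂ) 1 = (n : ℂ) := by rw [← hρ, Representation.char_one]; simp
    rw [irr_apply_one] at h1; exact_mod_cast h1
  obtain ⟨w, hw⟩ := (Cfsg.Agent.S0138.result ρ g).mp (by rw [hρ, hg, hn]; simp)
  rw [Subgroup.mem_center_iff]
  intro x
  have hz : ρ (x * g * x⁻¹ * g⁻¹) = 1 := by
    rw [map_mul, map_mul, map_mul, hw, mul_smul_comm, smul_mul_assoc, ← Module.End.one_eq_id,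
      mul_one, ← map_mul ρ x x⁻¹, mul_inv_cancel, map_one, Module.End.one_eq_id, ← hw, ← map_mul,
      mul_inv_cancel, map_one]
    rfl
  have := hfaith (x * g * x⁻¹ * g⁻¹) (by rw [← hρ]; exact (character_eq_degree_iff ρ _).mpr hz)
  calc x * g = x * g * x⁻¹ * g⁻¹ * (g * x) := by group
    _ = g * x := by rw [this, one_mul]

/-- Let G be a non-abelian finite simple group and p a prime. If an irreducible character χ lies in the principal block (relative to a maximal ideal of the algebraic integers containing p) and χ 1 is a power of p, then χ is the principal character. -/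
theorem result {G : Type*} [Group G] [Finite G] (p : ℕ) [Fact p.Prime] (M : Ideal Cfsg.AlgInt) (hM : Cfsg.IsPModular p M) [IsSimpleGroup G] (hna : ∃ a b : G, a * b ≠ b * a) (χ : Cfsg.IrrCharacter G) (hχ : χ ∈ Cfsg.principalBlock M G) (k : ℕ) (hdeg : (χ : G → ℂ) 1 = (p : ℂ) ^ k) : (χ : G → ℂ) = fun _ => 1 := by
  classical
  haveI := Fintype.ofFinite G
  obtain ⟨K, hKn, hK, -⟩ := IsCharacter.exists_kernel (isCharacter_irr χ)
  rcases hKn.eq_bot_or_eq_top with hbot | htop
  swap
  · have hconst : ∀ g, (χ : G → ℂ) g = (χ : G → ℂ) 1 := fun g => (hK g).mp (htop ▸ Subgroup.mem_top g)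
    have h := classInner_irr χ χ
    rw [if_pos rfl, classInner] at h
    simp only [hconst _, irr_apply_one, map_natCast, Finset.sum_const, Finset.card_univ, nsmul_eq_mul,
      ← Nat.card_eq_fintype_card] at h
    rw [inv_mul_cancel_left₀ (natCast_card_ne_zero G)] at h
    have hd : charDegree (χ : G → ℂ) = 1 := by
      have : charDegree (χ : G → ℂ) * charDegree (χ : G → ℂ) = 1 := by exact_mod_cast h
      exact Nat.eq_one_of_mul_eq_one_right this
    funext g
    rw [hconst g, irr_apply_one, hd, Nat.cast_one]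
  exfalso
  obtain ⟨a, b, hab⟩ := hna
  have hfaith : ∀ g : G, (χ : G → ℂ) g = (χ : G → ℂ) 1 → g = 1 := fun g hg => by
    simpa [hbot] using (hK g).mpr hg
  have hd : charDegree (χ : G → ℂ) = p ^ k := by
    rw [irr_apply_one] at hdeg; exact_mod_cast hdeg
  have hZ : Subgroup.center G = ⊥ :=
    (inferInstance : (Subgroup.center G).Normal).eq_bot_or_eq_top.resolve_right fun h =>
      hab (Subgroup.mem_center_iff.mp (h ▸ Subgroup.mem_top b : b ∈ Subgroup.center G) a)
  rcases eq_or_ne k 0 with hk | hk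
  · obtain ⟨f, hf⟩ := IsCharacter.exists_hom (isCharacter_irr χ) (by rw [hdeg, hk, pow_zero])
    refine hab ?_
    have hc : ∀ g : G, g ∈ Subgroup.center G := fun g => mem_center_of_norm χ hfaith (by
      rw [hd, hk, pow_zero, Nat.cast_one, congrFun hf g]
      exact norm_eq_one_of_pow_eq_one (n := orderOf g) (orderOf_pos g).ne' (by
        rw [← Units.val_pow_eq_pow_val, ← map_pow, pow_orderOf_eq_one, map_one, Units.val_one]))
    exact Subgroup.mem_center_iff.mp (hc b) a
  let P : Sylow p G := default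
  have hpd : p ∣ Nat.card G := (dvd_pow_self p hk).trans (hd ▸ charDegree_dvd χ)
  haveI : Nontrivial (P : Subgroup G) := (Subgroup.nontrivial_iff_ne_bot _).mpr (P.ne_bot_of_dvd_card hpd)
  haveI := P.isPGroup'.center_nontrivial
  obtain ⟨⟨z, hz⟩, hz1⟩ := exists_ne (1 : Subgroup.center (P : Subgroup G))
  have hidx : ¬ p ∣ (Subgroup.centralizer ({(z : G)} : Set G)).index := fun h =>
    P.not_dvd_index (h.trans (Subgroup.index_dvd_of_le fun x hx =>
      Subgroup.mem_centralizer_singleton_iff.mpr
        (congrArg Subtype.val (Subgroup.mem_center_iff.mp hz ⟨x, hx⟩))))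
  have hne : (χ : G → ℂ) z ≠ 0 := fun h0 => hidx ((mli_natCast_iff hM _).mp (by
    have h := hχ (z : G)
    simp only [centralChar, h0, mul_zero, zero_div, sub_zero, mul_one, div_one] at h
    exact h))
  refine hz1 (Subtype.ext (Subtype.ext ?_))
  have hzc : (z : G) ∈ Subgroup.center G := mem_center_of_norm χ hfaith
    ((burnside_vanish χ (z : G) (hd ▸ Nat.Coprime.pow_right k
      ((hM.1.coprime_iff_not_dvd).mpr hidx).symm)).resolve_left hne)
  rw [hZ] at hzc
  exact Subgroup.mem_bot.mp hzc

end Cfsg.Agent.S0910
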