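import Cfsg.Statements.S0916
import Cfsg.Agent.Lib.Blocks.DefectClass
import Mathlib.GroupTheory.Nilpotent

set_option autoImplicit false
open Cfsg

namespace Cfsg.Agent.S0916

/-- Let P be a p-subgroup of the finite group G, C its centralizer and N its normalizer. Say that a conjugacy class (of G, or of N) has defect group P when P is a Sylow p-subgroup of the centralizer (in G, respectively in N) of some element of the class. Then: (i) if the class of g in G has defect group P, the elements of that class lying in C form a single N-class, again with defect group P; (ii) every N-class with defect group P arises this way from exactly one G-class with defect group P. -/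
theorem result {G : Type*} [Group G] [Finite G] (p : ℕ) [Fact p.Prime] (P : Subgroup G) (hP : IsPGroup p P) : (∀ g : G, (∃ S : Sylow p (Subgroup.centralizer ({g} : Set G)), (S : Subgroup (Subgroup.centralizer ({g} : Set G))).map (Subgroup.centralizer ({g} : Set G)).subtype = P) → (∃ c : G, IsConj g c ∧ c ∈ Subgroup.centralizer (P : Set G)) ∧ (∀ c₁ c₂ : G, IsConj g c₁ → IsConj g c₂ → c₁ ∈ Subgroup.centralizer (P : Set G) → c₂ ∈ Subgroup.centralizer (P : Set G) → ∃ n ∈ Subgroup.normalizer (P : Set G), n * c₁ * n⁻¹ = c₂)) ∧ (∀ c : G, c ∈ Subgroup.centralizer (P : Set G) → (∃ S : Sylow p (Subgroup.centralizer ({c} : Set G) ⊓ Subgroup.normalizer (P : Set G) : Subgroup G), (S : Subgroup ↥(Subgroup.centralizer ({c} : Set G) ⊓ Subgroup.normalizer (P : Set G))).map (Subgroup.centralizer ({c} : Set G) ⊓ Subgroup.normalizer (P : Set G)).subtype = P) → ∃ S : Sylow p (Subgroup.centralizer ({c} : Set G)), (S : Subgroup (Subgroup.centralizer ({c} : Set G))).map (Subgroup.centralizer ({c} : Set G)).subtype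 = P) := by
  classical
  have hp : p.Prime := Fact.out
  constructor
  · intro g hg
    obtain ⟨S, hS⟩ := hg
    have hgc : g ∈ Subgroup.centralizer (P : Set G) := Subgroup.mem_centralizer_iff.mpr fun z hz => by
      rw [← hS] at hz
      exact Subgroup.mem_centralizer_singleton_iff.mp (Subgroup.map_subtype_le _ hz)
    refine ⟨⟨g, IsConj.refl g, hgc⟩, fun c₁ c₂ h1 h2 hc1 hc2 => ?_⟩
    obtain ⟨x, rfl⟩ := isConj_iff.mp (h1.symm.trans h2)
    obtain ⟨u, hu⟩ := isConj_iff.mp h2
    set C2 := Subgroup.centralizer ({x * c₁ * x⁻¹} : Set G)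
    have hcard : Nat.card P = p ^ (Nat.card C2).factorization p := by
      rw [← hS, Subgroup.card_map_of_injective (Subgroup.subtype_injective _), S.card_eq_multiplicity]
      rw [Nat.card_congr ((MulAut.conj u).toEquiv.subtypeEquiv
        (p := fun a => a ∈ Subgroup.centralizer ({g} : Set G)) (q := fun a => a ∈ C2) fun a => ?_)]
      rw [show C2 = Subgroup.centralizer ({u * g * u⁻¹} : Set G) by rw [hu]]
      simp only [Subgroup.mem_centralizer_singleton_iff]
      change a * g = g * a ↔ u * a * u⁻¹ * (u * g * u⁻¹) = u * g * u⁻¹ * (u * a * u⁻¹)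
      simp only [mul_assoc, inv_mul_cancel_left, mul_right_inj]
      rw [← mul_assoc, ← mul_assoc, mul_left_inj]
    have hP2 : P ≤ C2 := fun z hz =>
      Subgroup.mem_centralizer_singleton_iff.mpr (Subgroup.mem_centralizer_iff.mp hc2 z hz)
    have hPx : P.map (MulAut.conj x).toMonoidHom ≤ C2 := by
      rintro _ ⟨z, hz, rfl⟩
      refine Subgroup.mem_centralizer_singleton_iff.mpr ?_
      have h := Subgroup.mem_centralizer_iff.mp hc1 z hz
      change x * z * x⁻¹ * (x * c₁ * x⁻¹) = x * c₁ * x⁻¹ * (x * z * x⁻¹)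
      calc x * z * x⁻¹ * (x * c₁ * x⁻¹) = x * (z * c₁) * x⁻¹ := by group
        _ = x * (c₁ * z) * x⁻¹ := by rw [h]
        _ = x * c₁ * x⁻¹ * (x * z * x⁻¹) := by group
    have hA : Nat.card (P.subgroupOf C2) = p ^ (Nat.card C2).factorization p := by
      rw [Nat.card_congr (Subgroup.subgroupOfEquivOfLe hP2).toEquiv, hcard]
    have hB : Nat.card ((P.map (MulAut.conj x).toMonoidHom).subgroupOf C2) =
        p ^ (Nat.card C2).factorization p := by
      rw [Nat.card_congr (Subgroup.subgroupOfEquivOfLe hPx).toEquiv,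
        Subgroup.card_map_of_injective (MulEquiv.injective _), hcard]
    obtain ⟨y, hy⟩ := MulAction.exists_smul_eq C2 (Sylow.ofCard _ hB) (Sylow.ofCard _ hA)
    refine ⟨(y : G) * x, ?_, ?_⟩
    · have hle : P.map (MulAut.conj ((y : G) * x)).toMonoidHom ≤ P := by
        rintro _ ⟨z, hz, rfl⟩
        have hzC : x * z * x⁻¹ ∈ C2 := hPx ⟨z, hz, rfl⟩
        have h1 : y * ⟨x * z * x⁻¹, hzC⟩ * y⁻¹ ∈ (y • Sylow.ofCard _ hB : Sylow p C2) :=
          ⟨⟨x * z * x⁻¹, hzC⟩, ⟨z, hz, rfl⟩, rfl⟩
        rw [hy] at h1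
        have h2 : (y : G) * (x * z * x⁻¹) * (y : G)⁻¹ ∈ P := h1
        simpa [mul_assoc] using h2
      have heq := Subgroup.eq_of_le_of_card_ge hle
        (Subgroup.card_map_of_injective (MulEquiv.injective _)).ge
      refine Subgroup.mem_normalizer_iff.mpr fun z => ⟨fun hz => hle ⟨z, hz, rfl⟩, fun hz => ?_⟩
      rw [← heq] at hz
      obtain ⟨v, hv, he⟩ := hz
      exact (MulAut.conj ((y : G) * x)).injective he ▸ hv
    · have h := Subgroup.mem_centralizer_singleton_iff.mp y.2
      rw [show (y : G) * x * c₁ * ((y : G) * x)⁻¹ = (y : G) * (x * c₁ * x⁻¹) * (y : G)⁻¹ by group, h,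
        mul_inv_cancel_right]
  · intro c hc ⟨S, hS⟩
    have hPK : P ≤ (Subgroup.centralizer ({c} : Set G)) := fun z hz =>
      Subgroup.mem_centralizer_singleton_iff.mpr (Subgroup.mem_centralizer_iff.mp hc z hz)
    obtain ⟨T, hT⟩ := (hP.of_equiv (Subgroup.subgroupOfEquivOfLe hPK).symm).exists_le_sylow
    refine ⟨T, ?_⟩
    set R := (T : Subgroup (Subgroup.centralizer ({c} : Set G))).map (Subgroup.centralizer ({c} : Set G)).subtype
    have hPR : P ≤ R := fun z hz => ⟨⟨z, hPK hz⟩, hT hz, rfl⟩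
    by_contra hne
    have hlt : P < R := lt_of_le_of_ne hPR (Ne.symm hne)
    haveI : Group.IsNilpotent R := IsPGroup.isNilpotent (T.2.map _)
    have hlt' : P.subgroupOf R < ⊤ := lt_top_iff_ne_top.mpr fun h =>
      hlt.not_ge (Subgroup.subgroupOf_eq_top.mp h)
    obtain ⟨r, hrN, hrP⟩ := SetLike.exists_of_lt (Group.normalizerCondition_of_isNilpotent _ hlt')
    have hrNP : (r : G) ∈ Subgroup.normalizer (P : Set G) := by
      have hmap : P.map (MulAut.conj (r : G)).toMonoidHom ≤ P := by
        rintro _ ⟨z, hz, rfl⟩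
        simpa [Subgroup.mem_subgroupOf] using (Subgroup.mem_normalizer_iff.mp hrN ⟨z, hPR hz⟩).mp hz
      have heq := Subgroup.eq_of_le_of_card_ge hmap
        (Subgroup.card_map_of_injective (MulEquiv.injective _)).ge
      refine Subgroup.mem_normalizer_iff.mpr fun z => ⟨fun hz => hmap ⟨z, hz, rfl⟩, fun hz => ?_⟩
      rw [← heq] at hz
      obtain ⟨v, hv, he⟩ := hz
      exact (MulAut.conj (r : G)).injective he ▸ hv
    have hQp : IsPGroup p ((R ⊓ Subgroup.normalizer (P : Set G)).subgroupOf (Subgroup.centralizer ({c} : Set G) ⊓ Subgroup.normalizer (P : Set G))) :=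
      ((T.2.map (Subgroup.centralizer ({c} : Set G)).subtype).to_le inf_le_left).comap_of_injective _ (Subgroup.subtype_injective _)
    have hle : (S : Subgroup ↥(Subgroup.centralizer ({c} : Set G) ⊓ Subgroup.normalizer (P : Set G))) ≤ (R ⊓ Subgroup.normalizer (P : Set G)).subgroupOf (Subgroup.centralizer ({c} : Set G) ⊓ Subgroup.normalizer (P : Set G)) := fun s hs => by
      have : (s : G) ∈ P := hS.le (Subgroup.mem_map_of_mem _ hs)
      exact ⟨hPR this, Subgroup.le_normalizer this⟩
    have heq := S.3 hQp hle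
    have hrL : (r : G) ∈ (Subgroup.centralizer ({c} : Set G) ⊓ Subgroup.normalizer (P : Set G)) := ⟨Subgroup.map_subtype_le _ r.2, hrNP⟩
    have : (⟨r, hrL⟩ : ↥(Subgroup.centralizer ({c} : Set G) ⊓ Subgroup.normalizer (P : Set G))) ∈ (S : Subgroup ↥(Subgroup.centralizer ({c} : Set G) ⊓ Subgroup.normalizer (P : Set G))) := by
      rw [← heq]; exact ⟨r.2, hrNP⟩
    exact hrP (hS.le ⟨⟨r, hrL⟩, this, rfl⟩ : (r : G) ∈ P)

end Cfsg.Agent.S0916
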