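import Cfsg.Statements.S0917
import Cfsg.Agent.Lib.Blocks.DefectClass
import Cfsg.Agent.Lib.Blocks.PrincipalOrth
import Cfsg.Agent.Lib.Blocks.SecondVanish

set_option autoImplicit false
open Cfsg

namespace Cfsg.Agent.S0917

open CfsgLib.Chars CfsgLib.Blocks

/-- Let H be a subgroup of the finite group G, p a prime and M a maximal ideal of the algebraic integers containing p. If the block b of H induces the block B of G relative to M, then every defect group of b (a subgroup of H, viewed in G) is contained in some defect group of B. -/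
theorem result {G : Type*} [Group G] [Finite G] (p : ℕ) [Fact p.Prime] (M : Ideal Cfsg.AlgInt) (hM : Cfsg.IsPModular p M) (H : Subgroup G) (b : Set (Cfsg.IrrCharacter H)) (hb : Cfsg.IsPBlock M b) (B : Set (Cfsg.IrrCharacter G)) (hB : Cfsg.IsPBlock M B) (hind : Cfsg.IsInducedBlock M H b B) (D : Subgroup H) (hD : Cfsg.IsDefectGroup p M b D) : ∃ E : Subgroup G, Cfsg.IsDefectGroup p M B E ∧ D.map H.subtype ≤ E := by
  classical
  haveI : Fintype G := Fintype.ofFinite G
  haveI : Fintype H := Fintype.ofFinite H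
  obtain ⟨ξ, hξ⟩ := IsPBlock.nonempty hM hb
  obtain ⟨χ, hχ⟩ := IsPBlock.nonempty hM hB
  have h1 := mli_omega_res_of_induced hM hind hξ hχ (blockCoeff_isClassFunction B)
    (mlr_blockCoeff hM hB)
  rw [omega_blockCoeff, indic_of_mem hχ] at h1
  obtain ⟨c, hca, hcξ⟩ : ∃ c : H, ¬ Cfsg.MemLocalIdeal M (Cfsg.blockCoeff B (c : G)) ∧
      ¬ Cfsg.MemLocalIdeal M (Cfsg.centralChar (ξ : H → ℂ) c) := by
    by_contra hn
    push Not at hn
    refine not_mli_one hM ?_
    haveI : Finite (ConjClasses H) := Finite.of_surjective _ ConjClasses.mk_surjective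
    haveI : Fintype (ConjClasses H) := Fintype.ofFinite _
    have hf : Cfsg.IsClassFunction H (fun h : H => Cfsg.blockCoeff B (h : G)) := fun a q => by
      simp only [Subgroup.coe_mul, InvMemClass.coe_inv]
      exact blockCoeff_isClassFunction B (a : G) (q : G)
    have h2 : Cfsg.MemLocalIdeal M (omega (ξ : H → ℂ) fun h : H => Cfsg.blockCoeff B (h : G)) := by
      rw [omega_eq_sum_centralChar (IsCharacter.isClassFunction (isCharacter_irr ξ)) hf]
      refine mli_sum hM _ fun c _ => ?_
      by_cases ha : Cfsg.MemLocalIdeal M (Cfsg.blockCoeff B (c.out : G))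
      · exact mli_mul_right hM ha (mlr_centralChar hM ξ _)
      · exact mli_mul_left hM (mlr_blockCoeff hM hB _) (hn _ ha)
    have := mli_sub hM h2 h1
    rwa [sub_sub_cancel] at this
  obtain ⟨E, hE⟩ := exists_isDefectGroup hM hB
  obtain ⟨w, hw⟩ := defectGroup_le_centralizer hM hb hD hξ hcξ
  obtain ⟨v, hv⟩ := pGroup_le_defectGroup hM hB hE hca
    (((defectGroup_isPGroup hD).map _).map H.subtype)
    (Q := (D.map (MulAut.conj w).toMonoidHom).map H.subtype) (by
    rintro _ ⟨d, hd, rfl⟩
    exact Subgroup.mem_centralizer_singleton_iff.mpr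
      (congrArg Subtype.val (Subgroup.mem_centralizer_singleton_iff.mp (hw hd))))
  refine ⟨_, isDefectGroup_map_conj hM hE (v * (w : G))⁻¹, ?_⟩
  rintro _ ⟨d, hd, rfl⟩
  refine ⟨v * ((w : G) * d * (w : G)⁻¹) * v⁻¹, hv ⟨_, ⟨_, ⟨d, hd, rfl⟩, rfl⟩, rfl⟩, ?_⟩
  simp [mul_assoc]

end Cfsg.Agent.S0917
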