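import Cfsg.Statements.S0920
import Cfsg.Agent.Lib.Blocks.MaximalPairs

set_option autoImplicit false
open Cfsg

namespace Cfsg.Agent.S0920

set_option linter.style.haveILetI false
open CfsgLib.Chars CfsgLib.Blocks

/-- Brauer's First Main Theorem. Let D be a p-subgroup of the finite group G with normalizer N, and fix a maximal ideal M of the algebraic integers containing p. Then (i) every block b of N having D as a defect group induces some block B of G having D as a defect group; (ii) every block of G with defect group D is induced by exactly one block of N with defect group D. -/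
theorem result {G : Type*} [Group G] [Finite G] (p : ℕ) [Fact p.Prime] (M : Ideal Cfsg.AlgInt) (hM : Cfsg.IsPModular p M) (D : Subgroup G) (hD : IsPGroup p D) : (∀ b : Set (Cfsg.IrrCharacter (Subgroup.normalizer (D : Set G))), Cfsg.IsPBlock M b → Cfsg.IsDefectGroup p M b (D.subgroupOf (Subgroup.normalizer (D : Set G))) → ∃ B : Set (Cfsg.IrrCharacter G), Cfsg.IsPBlock M B ∧ Cfsg.IsDefectGroup p M B D ∧ Cfsg.IsInducedBlock M (Subgroup.normalizer (D : Set G)) b B) ∧ (∀ B : Set (Cfsg.IrrCharacter G), Cfsg.IsPBlock M B → Cfsg.IsDefectGroup p M B D → ∃! b : Set (Cfsg.IrrCharacter (Subgroup.normalizer (D : Set G))), Cfsg.IsPBlock M b ∧ Cfsg.IsDefectGroup p M b (D.subgroupOf (Subgroup.normalizer (D : Set G))) ∧ Cfsg.IsInducedBlock M (Subgroup.normalizer (D : Set G)) b B) := by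
  classical
  haveI := Fintype.ofFinite G
  haveI : Fintype (Subgroup.normalizer (D : Set G)) := Fintype.ofFinite _
  have hC : Subgroup.centralizer (D : Set G) ≤ Subgroup.normalizer (D : Set G) :=
    Subgroup.centralizer_le_normalizer (D : Set G)
  have hiff := fun (b : Set (IrrCharacter (Subgroup.normalizer (D : Set G)))) (hb : IsPBlock M b)
      (B : Set (IrrCharacter G)) (hB : IsPBlock M B) ξ (hξ : ξ ∈ b) =>
    isInducedBlock_iff_brVal hM hD Subgroup.le_normalizer hC le_rfl hb hB (ξ₀ := ξ) hξ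
  refine ⟨fun b hb hbD => ?_, fun B hB hBD => ?_⟩
  · obtain ⟨ξ, hξ⟩ := IsPBlock.nonempty hM hb
    obtain ⟨B, hB, hne⟩ := exists_block_brVal hM (le_refl (Subgroup.normalizer (D : Set G))) ξ
    exact ⟨B, hB, firstMain_defect hM hD hb hbD hξ hB hne, (hiff b hb B hB ξ hξ).mpr hne⟩
  · obtain ⟨g, hg, S, hS⟩ := id hBD
    have hgC : g ∈ Subgroup.centralizer (D : Set G) :=
      Subgroup.mem_centralizer_iff.mpr fun q hq =>
        Subgroup.mem_centralizer_singleton_iff.mp ((hS ▸ Subgroup.map_subtype_le _ : D ≤ _) hq)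
    obtain ⟨e, he⟩ := exists_pair_at hM hB hD hgC hg.2.1
    obtain ⟨ξ, -, hne, hξD⟩ := maximal_block hM (e := ⟨e, he.1.2⟩)
      (maximal_of_defectGroup hM he hBD)
    have hb := isPBlock_blockOf (M := M) ξ
    refine ⟨_, ⟨hb, hξD, (hiff _ hb B hB ξ (self_mem_blockOf hM ξ)).mpr hne⟩, ?_⟩
    rintro b' ⟨hb', hb'D, hind⟩
    obtain ⟨ξ', hξ'⟩ := IsPBlock.nonempty hM hb'
    exact firstMain_injective hM hD hb' hb hξD hξ' (self_mem_blockOf hM ξ) hB
      ((hiff b' hb' B hB ξ' hξ').mp hind) hne

end Cfsg.Agent.S0920
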