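import Cfsg.Statements.S0921
import Cfsg.Agent.Lib.Blocks.NormalPPrime
import Cfsg.Agent.Lib.Core

set_option autoImplicit false
open Cfsg

namespace Cfsg.Agent.S0921

open CfsgLib.Chars CfsgLib.Blocks

/-- Let N = O_p'(G) be the largest normal subgroup of the finite group G of order prime to p, and fix a maximal ideal M of the algebraic integers containing p. If two irreducible characters χ, ψ of G lie in the same block relative to M, then an irreducible character of N occurs in the restriction of χ exactly when it occurs in the restriction of ψ. -/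
theorem result {G : Type*} [Group G] [Finite G] (p : ℕ) [Fact p.Prime] (M : Ideal Cfsg.AlgInt) (hM : Cfsg.IsPModular p M) [Fintype G] (χ ψ : Cfsg.IrrCharacter G) (h : Cfsg.SameBlock M (χ : G → ℂ) (ψ : G → ℂ)) (θ : Cfsg.IrrCharacter (Cfsg.pPrimeCore p G)) [Fintype (Cfsg.pPrimeCore p G)] : Cfsg.classInner (fun n : Cfsg.pPrimeCore p G => (χ : G → ℂ) n) (θ : Cfsg.pPrimeCore p G → ℂ) ≠ 0 ↔ Cfsg.classInner (fun n : Cfsg.pPrimeCore p G => (ψ : G → ℂ) n) (θ : Cfsg.pPrimeCore p G → ℂ) ≠ 0 := by
  haveI := CfsgLib.Core.pPrimeCore_characteristic (G := G) p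
  have hN : ¬ p ∣ Nat.card (Cfsg.pPrimeCore p G) :=
    hM.1.coprime_iff_not_dvd.mp (CfsgLib.Core.card_pPrimeCore_coprime (G := G) p).symm
  exact ⟨fun hθ => sameBlock_res_constituent hM _ hN h hθ,
    fun hθ => sameBlock_res_constituent hM _ hN (sameBlock_symm h) hθ⟩

end Cfsg.Agent.S0921
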