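import Cfsg.Statements.S0922
import Cfsg.Agent.Lib.Blocks.SecondVanish

set_option autoImplicit false
open Cfsg

namespace Cfsg.Agent.S0922

open CfsgLib.Chars CfsgLib.Blocks

/-- Let H be a subgroup of the finite group G and let the block b of H induce the block B of G (relative to a maximal ideal M of the algebraic integers containing the prime p). Let h ∈ H be such that the centralizer in G of the p-part of h lies in H, and let χ be an irreducible character of G not in B. Then the sum over k ∈ H of (the idempotent coefficient of b at k) times χ (k * h) vanishes; that is, χ annihilates f_b h where f_b is the sum of the central idempotents of the members of b. -/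
theorem result {G : Type*} [Group G] [Finite G] (p : ℕ) [Fact p.Prime] (M : Ideal Cfsg.AlgInt) (hM : Cfsg.IsPModular p M) (H : Subgroup G) (b : Set (Cfsg.IrrCharacter H)) (B : Set (Cfsg.IrrCharacter G)) (hind : Cfsg.IsInducedBlock M H b B) (h : H) (hC : ∀ z : G, Cfsg.IsPPart p (h : G) z → Subgroup.centralizer ({z} : Set G) ≤ H) (χ : Cfsg.IrrCharacter G) (hχ : χ ∉ B) : ∑ᶠ k : H, Cfsg.blockCoeff b k * (χ : G → ℂ) ((k : G) * (h : G)) = 0 := by
  classical
  haveI : Fintype G := Fintype.ofFinite G
  haveI : Fintype H := Fintype.ofFinite H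
  obtain ⟨B', hB', hχB'⟩ : ∃ B', IsPBlock M B' ∧ χ ∈ B' :=
    ⟨_, isPBlock_blockOf χ, self_mem_blockOf hM χ⟩
  obtain ⟨χ₀, hχ₀⟩ := IsPBlock.nonempty hM hind.2.1
  have hne : ∀ ξ ∈ b, MemLocalIdeal M (omega (ξ : H → ℂ) fun h : H => blockCoeff B' (h : G)) := by
    intro ξ hξ
    have := mli_omega_res_of_induced hM hind hξ hχ₀ (blockCoeff_isClassFunction B')
      (mlr_blockCoeff hM hB')
    rwa [omega_blockCoeff, indic_of_notMem fun h0 => hχ ?_, sub_zero] at this
    rw [IsPBlock.eq_of_mem hM hind.2.1 hB' hχ₀ h0]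
    exact hχB'
  obtain ⟨x, y, hxy, hc, ⟨k, hk⟩, hy⟩ := exists_pPart hM.1 h
  have hxp : IsPPart p (h : G) (x : G) := ⟨y, by rw [← hxy]; rfl, hc.map H.subtype,
    ⟨k, by rw [Subgroup.orderOf_coe, hk]⟩, by rwa [Subgroup.orderOf_coe]⟩
  have key := sum_blockCoeff_irr_eq_zero hM hind.1 hB' hne (x := x) (y := y) (kx := k) hk hy hc
    (fun g hg => hC x hxp (Subgroup.mem_centralizer_singleton_iff.mpr hg)) hχB'
  rw [finsum_eq_sum_of_fintype, ← key]
  refine Finset.sum_congr rfl fun c _ => ?_
  rw [← hxy]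
  rfl

end Cfsg.Agent.S0922
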