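import Cfsg.Statements.S0923
import Cfsg.Agent.Lib.Blocks.SecondVanish

set_option autoImplicit false
open Cfsg

namespace Cfsg.Agent.S0923

open CfsgLib.Chars CfsgLib.Blocks

/-- Brauer's Second Main Theorem, in terms of ordinary characters. Let x be a p-element of the finite group G with centralizer C, let χ lie in the block B of G and let b be a block of C that does not induce B (relative to a maximal ideal M of the algebraic integers containing p). Form the class function ϑ(c) = χ(x c) on C and its b-part (the sum over ψ ∈ b of the inner product of ϑ with ψ, times ψ). Then the b-part of ϑ vanishes at every p-regular element of C. (Equivalently, the generalized decomposition numbers of χ with respect to b are zero.) -/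
theorem result {G : Type*} [Group G] [Finite G] (p : ℕ) [Fact p.Prime] (M : Ideal Cfsg.AlgInt) (hM : Cfsg.IsPModular p M) (x : G) (hx : ∃ k : ℕ, orderOf x = p ^ k) (B : Set (Cfsg.IrrCharacter G)) (hB : Cfsg.IsPBlock M B) (χ : Cfsg.IrrCharacter G) (hχ : χ ∈ B) (b : Set (Cfsg.IrrCharacter (Subgroup.centralizer ({x} : Set G)))) (hb : Cfsg.IsPBlock M b) (hnot : ¬ Cfsg.IsInducedBlock M (Subgroup.centralizer ({x} : Set G)) b B) (y : Subgroup.centralizer ({x} : Set G)) (hy : ¬ p ∣ orderOf y) : Cfsg.blockPart b (fun c : Subgroup.centralizer ({x} : Set G) => (χ : G → ℂ) (x * (c : G))) y = 0 := by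
  classical
  haveI : Fintype G := Fintype.ofFinite G
  haveI : Fintype (Subgroup.centralizer ({x} : Set G)) := Fintype.ofFinite (Subgroup.centralizer ({x} : Set G))
  obtain ⟨k, hk⟩ := hx
  set P : Subgroup G := Subgroup.zpowers x
  have hP : IsPGroup p P := IsPGroup.of_card (n := k) (by rw [Nat.card_zpowers, hk])
  have hmem : ∀ g : G, g ∈ (Subgroup.centralizer ({x} : Set G)) ↔ Commute g x := fun g => Subgroup.mem_centralizer_singleton_iff
  have hcen : ∀ g : G, g ∈ Subgroup.centralizer (P : Set G) ↔ g ∈ (Subgroup.centralizer ({x} : Set G)) := by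
    intro g
    rw [hmem, Subgroup.mem_centralizer_iff]
    constructor
    · intro h
      exact (h x (Subgroup.mem_zpowers x)).symm
    · intro h q hq
      obtain ⟨n, rfl⟩ := Subgroup.mem_zpowers_iff.mp hq
      exact ((h.zpow_right n).symm).eq
  have hPH : P ≤ (Subgroup.centralizer ({x} : Set G)) := by
    rw [Subgroup.zpowers_le]
    exact (hmem x).mpr (Commute.refl x)
  have hC : Subgroup.centralizer (P : Set G) ≤ (Subgroup.centralizer ({x} : Set G)) := fun g hg => (hcen g).mp hg
  have hN : (Subgroup.centralizer ({x} : Set G)) ≤ Subgroup.normalizer (P : Set G) := fun g hg =>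
    Subgroup.centralizer_le_normalizer _ ((hcen g).mpr hg)
  have hne : ∀ ξ ∈ b, MemLocalIdeal M (omega (ξ : (Subgroup.centralizer ({x} : Set G)) → ℂ) fun h : (Subgroup.centralizer ({x} : Set G)) => blockCoeff B (h : G)) := by
    intro ξ hξ
    by_contra h
    apply hnot
    refine (isInducedBlock_iff_brVal hM hP hPH hC hN hb hB hξ).mpr ?_
    have e : brTrunc P (Subgroup.centralizer ({x} : Set G)) (blockCoeff B) = fun h : (Subgroup.centralizer ({x} : Set G)) => blockCoeff B (h : G) := funext fun c => by
      rw [brTrunc, if_pos ((hcen _).mpr c.2)]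
    rwa [brVal, e]
  let x' : (Subgroup.centralizer ({x} : Set G)) := ⟨x, (hmem x).mpr (Commute.refl x)⟩
  have hxy : Commute x' y := Subtype.ext ((hmem _).mp y.2).eq.symm
  have key := sum_blockCoeff_irr_eq_zero hM hb hB hne (x := x') (y := y) (kx := k)
    (by rw [← Subgroup.orderOf_coe]; exact hk) hy hxy (fun g hg => (hmem g).mpr hg) hχ
  rw [blockPart_eq_sum b (f := fun c : (Subgroup.centralizer ({x} : Set G)) => (χ : G → ℂ) (x * (c : G))) (fun g z => ?_) y, ← key]
  · refine Finset.sum_congr rfl fun c _ => ?_
    congr 1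
    have hc : Commute (c : G) x := (hmem _).mp c.2
    change (χ : G → ℂ) (x * ((c * y : (Subgroup.centralizer ({x} : Set G))) : G)) = (χ : G → ℂ) ((c : G) * (x * (y : G)))
    rw [Subgroup.coe_mul, ← mul_assoc, ← hc.eq, mul_assoc]
  · simp only [Subgroup.coe_mul, InvMemClass.coe_inv]
    rw [← IsCharacter.isClassFunction (isCharacter_irr χ) (x * (g : G)) (z : G)]
    congr 1
    have hz : Commute (z : G) x := (hmem _).mp z.2
    rw [← mul_assoc (z : G) x, hz.eq]
    group

end Cfsg.Agent.S0923
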