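import Cfsg.Statements.S0924
import Cfsg.Agent.Lib.Blocks.DefectClass
import Cfsg.Agent.Lib.Blocks.SecondMain

set_option autoImplicit false
open Cfsg

namespace Cfsg.Agent.S0924

open CfsgLib.Chars CfsgLib.Blocks

/-- Let χ be an irreducible character of the finite group G and g ∈ G, and fix a maximal ideal M of the algebraic integers containing the prime p. If the p-part of g is contained in no defect group of the block of χ, then χ g = 0. -/
theorem result {G : Type*} [Group G] [Finite G] (p : ℕ) [Fact p.Prime] (M : Ideal Cfsg.AlgInt) (hM : Cfsg.IsPModular p M) (χ : Cfsg.IrrCharacter G) (g x : G) (hx : Cfsg.IsPPart p g x) (hD : ∀ D : Subgroup G, Cfsg.IsDefectGroup p M (Cfsg.blockOf M (χ : G → ℂ)) D → x ∉ D) : (χ : G → ℂ) g = 0 := by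
  haveI := Fintype.ofFinite G
  refine irr_eq_zero_of_blockCoeff hM (isPBlock_blockOf χ) (self_mem_blockOf hM χ) hx fun c hc => ?_
  by_contra hne
  obtain ⟨y, -, -, ⟨k, hk⟩, -⟩ := hx
  obtain ⟨D, hD'⟩ := exists_isDefectGroup hM (isPBlock_blockOf (M := M) χ)
  have hQ : IsPGroup p (Subgroup.zpowers x) :=
    IsPGroup.of_card (by rw [Nat.card_zpowers, hk])
  obtain ⟨z, hz⟩ := pGroup_le_defectGroup hM (isPBlock_blockOf χ) hD' hne hQ
    (by rw [Subgroup.zpowers_le]; exact Subgroup.mem_centralizer_singleton_iff.mpr hc.eq.symm)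
  refine hD _ (isDefectGroup_map_conj hM hD' z⁻¹) ⟨z * x * z⁻¹,
    hz ⟨x, Subgroup.mem_zpowers x, rfl⟩, ?_⟩
  change z⁻¹ * (z * x * z⁻¹) * z⁻¹⁻¹ = x
  group

end Cfsg.Agent.S0924
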