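import Cfsg.Statements.S0925
import Cfsg.Agent.Lib.Blocks.SecondMain

set_option autoImplicit false
open Cfsg CfsgLib.Chars CfsgLib.Blocks

namespace Cfsg.Agent.S0925
/-- (i) Let ϑ be a class function on the finite group G and x a p-element, and suppose ϑ vanishes at every element whose p-part is conjugate to x. Then for every block B (relative to a maximal ideal M of the algebraic integers containing p) the B-part of ϑ — the sum over χ ∈ B of the inner product of ϑ with χ, times χ — also vanishes at every such element. (ii) Block orthogonality, its corollary: if the p-parts of g and h are not conjugate, then the sum over χ ∈ B of χ g * χ h⁻¹ is zero for every block B. -/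
theorem result {G : Type*} [Group G] [Finite G] (p : ℕ) [Fact p.Prime] (M : Ideal Cfsg.AlgInt) (hM : Cfsg.IsPModular p M) : (∀ (ϑ : G → ℂ), Cfsg.IsClassFunction G ϑ → ∀ x : G, (∃ k : ℕ, orderOf x = p ^ k) → (∀ u z : G, Cfsg.IsPPart p u z → IsConj x z → ϑ u = 0) → ∀ B : Set (Cfsg.IrrCharacter G), Cfsg.IsPBlock M B → ∀ u z : G, Cfsg.IsPPart p u z → IsConj x z → Cfsg.blockPart B ϑ u = 0) ∧ (∀ g h x y : G, Cfsg.IsPPart p g x → Cfsg.IsPPart p h y → ¬ IsConj x y → ∀ B : Set (Cfsg.IrrCharacter G), Cfsg.IsPBlock M B → ∑ᶠ χ ∈ B, (χ : G → ℂ) g * (χ : G → ℂ) h⁻¹ = 0) := by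
  haveI := Fintype.ofFinite G
  classical
  constructor
  · intro ϑ _ x _ h0 B hB u z hu hz
    rw [blockPart, finsum_mem_eq_toFinset_sum]
    simp only [classInner, Finset.sum_mul, mul_assoc]
    rw [← Finset.mul_sum, Finset.sum_comm]
    refine mul_eq_zero_of_right _ (Finset.sum_eq_zero fun w _ => ?_)
    obtain ⟨x', hw⟩ := exists_isPPart hM.1 w
    by_cases hc : IsConj x x'
    · simp [h0 w x' hw hc]
    · rw [← Finset.mul_sum]
      refine mul_eq_zero_of_right _ ?_
      have := block_orthogonality hM hB hu hw (fun h => hc (hz.trans h))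
      rw [finsum_mem_eq_toFinset_sum] at this
      rw [← this]
      exact Finset.sum_congr rfl fun χ _ => mul_comm _ _
  · intro g h x y hg hh hne B hB
    rw [← block_orthogonality hM hB hg hh hne]
    refine finsum_congr fun χ => ?_
    rw [IsCharacter.map_inv (isCharacter_irr χ) h]

end Cfsg.Agent.S0925
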