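import Cfsg.Statements.S0926
import Cfsg.Agent.Lib.Blocks.Contribution
import Cfsg.Agent.Lib.Blocks.DefectClass

set_option autoImplicit false
open Cfsg

namespace Cfsg.Agent.S0926

open CfsgLib.Chars CfsgLib.Blocks

/-- Let B be a block of the finite group G with defect group D (relative to a maximal ideal M of the algebraic integers containing p), let χ ∈ B have height zero, and let x be a p-element. Then some conjugate of x lies in D if and only if χ does not vanish on the whole p-section of x (the elements whose p-part is conjugate to x). -/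
theorem result {G : Type*} [Group G] [Finite G] (p : ℕ) [Fact p.Prime] (M : Ideal Cfsg.AlgInt) (hM : Cfsg.IsPModular p M) (B : Set (Cfsg.IrrCharacter G)) (hB : Cfsg.IsPBlock M B) (D : Subgroup G) (hD : Cfsg.IsDefectGroup p M B D) (χ : Cfsg.IrrCharacter G) (hχ : χ ∈ B) (h0 : Cfsg.blockHeight p B (χ : G → ℂ) = 0) (x : G) (hx : ∃ k : ℕ, orderOf x = p ^ k) : (∃ g : G, g * x * g⁻¹ ∈ D) ↔ ∃ u : G, (∃ z : G, Cfsg.IsPPart p u z ∧ IsConj x z) ∧ (χ : G → ℂ) u ≠ 0 := by
  classical
  haveI : Fintype G := Fintype.ofFinite G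
  haveI : Fact p.Prime := ⟨hM.1⟩
  constructor
  · rintro ⟨w, hw⟩
    have hD' := hD
    obtain ⟨g, hg, P, rfl⟩ := hD'
    set x' := w * x * w⁻¹
    obtain ⟨k, hk⟩ := hx
    have hx' : orderOf x' = p ^ k := by
      rw [← hk]; exact orderOf_injective (MulAut.conj w).toMonoidHom (MulEquiv.injective _) x
    have hcomm : Commute x' g :=
      Subgroup.mem_centralizer_singleton_iff.mp (Subgroup.map_subtype_le _ hw)
    have hreg : ¬ p ∣ orderOf g := by
      intro hs
      apply hg.2.1
      rw [blockCoeff_eq_zero_of_singular hM hB hs]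
      exact mli_zero hM
    refine ⟨x' * g, ⟨x', ⟨g, rfl, hcomm, ⟨k, hx'⟩, hreg⟩, isConj_iff.mpr ⟨w, rfl⟩⟩, fun h0' => ?_⟩
    -- the value at `g` is a local unit
    have hd : (Nat.card (Subgroup.centralizer ({g} : Set G))).factorization p = blockDefect p B := by
      have h1 := card_defectGroup hM hB hD
      have h2 := (P : Subgroup (Subgroup.centralizer ({g} : Set G))).card_map_of_injective (Subgroup.centralizer ({g} : Set G)).subtype_injective
      have h3 : Nat.card (P : Subgroup (Subgroup.centralizer ({g} : Set G))) = p ^ blockDefect p B := h2.symm.trans h1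
      rw [Sylow.card_eq_multiplicity] at h3
      exact Nat.pow_right_injective hM.1.two_le h3
    have hgv : MemLocalIdeal M ((χ : G → ℂ) g) := by
      have h := mli_char_pElt_mul hM (isCharacter_irr χ) hx' hcomm hreg
      rw [h0', zero_sub] at h
      simpa using mli_neg h
    apply hg.2.2 χ hχ
    set e := (charDegree (χ : G → ℂ)).factorization p with he
    have hidx : (Subgroup.centralizer ({g} : Set G)).index.factorization p = e := by
      have h1 := congrArg (fun n : ℕ => n.factorization p) (Subgroup.centralizer ({g} : Set G)).index_mul_card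
      simp only [Nat.factorization_mul (Subgroup.centralizer ({g} : Set G)).index_ne_zero_of_finite Nat.card_pos.ne',
        Finsupp.add_apply] at h1
      have h2 := minExp_add_defect (p := p) hχ
      have h3 := minExp_add_height (p := p) hχ
      rw [← he, h0] at h3
      omega
    have hdeg := Nat.ordProj_mul_ordCompl_eq_self (charDegree (χ : G → ℂ)) p
    have hind := Nat.ordProj_mul_ordCompl_eq_self (Subgroup.centralizer ({g} : Set G)).index p
    rw [← he] at hdeg
    rw [hidx] at hind
    have hw' := Nat.not_dvd_ordCompl hM.1 (charDegree_pos χ).ne'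
    rw [← he] at hw'
    rw [centralChar, irr_apply_one, ← hdeg, show ((Subgroup.centralizer ({g} : Set G)).index : ℂ) =
      ((p ^ e * ((Subgroup.centralizer ({g} : Set G)).index / p ^ e) : ℕ) : ℂ) by rw [hind]]
    have hp0 : ((p : ℂ) ^ e) ≠ 0 := pow_ne_zero _ (Nat.cast_ne_zero.mpr hM.1.ne_zero)
    push_cast
    rw [mul_assoc, mul_div_mul_left _ _ hp0, div_eq_mul_inv]
    exact mli_mul_right hM (mli_mul_left hM (mlr_natCast hM _) hgv) (mlr_natCast_inv hM hw')
  · rintro ⟨u, ⟨z, hz, hxz⟩, hu⟩
    obtain ⟨v, rfl, hzv, ⟨k, hk⟩, hv⟩ := hz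
    set C := Subgroup.centralizer ({z} : Set G) with hCdef
    haveI : Fintype C := Fintype.ofFinite _
    haveI : Fintype (Set (IrrCharacter C)) := Fintype.ofFinite _
    have hC : ∀ a, a ∈ C ↔ Commute a z := fun a => Subgroup.mem_centralizer_singleton_iff
    have hvr : ¬ p ∣ orderOf (⟨v, (hC v).mpr hzv.symm⟩ : C) := by
      rw [← Subgroup.orderOf_coe]; exact hv
    have hdec := sec_decomp hM hk hC hB hχ hvr
    change (χ : G → ℂ) (z * v) = _ at hdec
    rw [hdec] at hu
    obtain ⟨b, hb, -⟩ := Finset.exists_ne_zero_of_sum_ne_zero hu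
    have hbi := (Finset.mem_filter.mp hb).2
    obtain ⟨ξ, hξ⟩ := IsPBlock.nonempty hM hbi.1
    have hne := (sec_induced_iff hM hk hC hbi.1 hB hξ).mp hbi
    obtain ⟨c, hc⟩ : ∃ c : C, ¬ MemLocalIdeal M (blockCoeff B (c : G)) := by
      by_contra hn
      push Not at hn
      refine hne (mli_omega hM ξ (fun a q => ?_) hn)
      simp only [Subgroup.coe_mul, InvMemClass.coe_inv]
      exact blockCoeff_isClassFunction B (a : G) (q : G)
    obtain ⟨y, hy⟩ := pGroup_le_defectGroup hM hB hD hc (isPGroup_zpowers hM hk)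
      (Subgroup.zpowers_le.mpr (Subgroup.mem_centralizer_singleton_iff.mpr ((hC _).mp c.2).symm))
    have hyz : y * z * y⁻¹ ∈ D := hy ⟨z, Subgroup.mem_zpowers z, rfl⟩
    obtain ⟨s, hs⟩ := isConj_iff.mp hxz
    refine ⟨y * s, ?_⟩
    rw [← hs] at hyz
    simpa [mul_assoc] using hyz

end Cfsg.Agent.S0926
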