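import Cfsg.Statements.S0927
import Cfsg.Agent.Lib.Blocks.HeightZero

set_option autoImplicit false
open Cfsg

namespace Cfsg.Agent.S0927

open CfsgLib.Chars CfsgLib.Blocks

/-- Let B be a block of the finite group G relative to a maximal ideal M of the algebraic integers containing p, let y represent a defect class of B and let P be a Sylow p-subgroup of the centralizer of y. (a) If x ∈ P and χ ∈ B has height zero, then χ (x * y) is not in the local ideal at M. (b) If x lies in the centre of P, then for every χ ∈ B the central character of χ at x * y is not in the local ideal at M. -/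
theorem result {G : Type*} [Group G] [Finite G] (p : ℕ) [Fact p.Prime] (M : Ideal Cfsg.AlgInt) (hM : Cfsg.IsPModular p M) (B : Set (Cfsg.IrrCharacter G)) (hB : Cfsg.IsPBlock M B) (y : G) (hy : Cfsg.IsDefectClass M B y) (P : Sylow p (Subgroup.centralizer ({y} : Set G))) (x : Subgroup.centralizer ({y} : Set G)) (hx : x ∈ (P : Subgroup (Subgroup.centralizer ({y} : Set G)))) : (∀ χ ∈ B, Cfsg.blockHeight p B (χ : G → ℂ) = 0 → ¬ Cfsg.MemLocalIdeal M ((χ : G → ℂ) ((x : G) * y))) ∧ ((∀ w ∈ (P : Subgroup (Subgroup.centralizer ({y} : Set G))), x * w = w * x) → ∀ χ ∈ B, ¬ Cfsg.MemLocalIdeal M (Cfsg.centralChar (χ : G → ℂ) ((x : G) * y))) := by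
  classical
  haveI : Fintype G := Fintype.ofFinite G
  have hreg : ¬ p ∣ orderOf y := fun hd =>
    hy.2.1 (by rw [blockCoeff_eq_zero_of_singular hM hB hd]; exact mli_zero hM)
  obtain ⟨k, hk⟩ := IsPGroup.iff_orderOf.mp P.2 ⟨x, hx⟩
  have hxo : orderOf (x : G) = p ^ k := by
    rw [← hk, Subgroup.orderOf_coe]; exact orderOf_injective ((P : Subgroup (Subgroup.centralizer ({y} : Set G))).subtype) Subtype.val_injective ⟨x, hx⟩
  have hc : Commute (x : G) y := Subgroup.mem_centralizer_singleton_iff.mp x.2
  have hval : ∀ χ ∈ B, Cfsg.blockHeight p B (χ : G → ℂ) = 0 →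
      ¬ Cfsg.MemLocalIdeal M ((χ : G → ℂ) ((x : G) * y)) := fun χ hχ h0 h => by
    refine not_mli_apply_defectClass hM hB hy hχ h0 ?_
    have h1 := mli_sub hM h (mli_char_pElt_mul hM (isCharacter_irr χ) hxo hc hreg)
    rwa [sub_sub_cancel] at h1
  refine ⟨hval, fun hcen χ hχ h => ?_⟩
  obtain ⟨χ0, hχ0, h0⟩ := exists_height_zero hM hB
  have hfac : (Nat.card (Subgroup.centralizer ({(x : G) * y} : Set G))).factorization p =
      Cfsg.blockDefect p B := by
    rw [← factorization_centralizer_eq_defect hM hB hy]
    refine le_antisymm ?_ ?_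
    · obtain ⟨t, ht⟩ := pPart_eq_pow hM.1 rfl hc ⟨k, hxo⟩ hreg
      refine (Nat.factorization_le_iff_dvd Nat.card_pos.ne' Nat.card_pos.ne').mpr
        (Subgroup.card_dvd_of_le fun w hw => ?_) p
      have h1 : Commute w ((x : G) * y) := Subgroup.mem_centralizer_singleton_iff.mp hw
      have h2 : Commute w (x : G) := by rw [ht]; exact h1.pow_right t
      have h3 := h2.inv_right.mul_right h1
      rw [inv_mul_cancel_left] at h3
      exact Subgroup.mem_centralizer_singleton_iff.mpr h3
    · have h1 : p ^ (Nat.card (Subgroup.centralizer ({y} : Set G))).factorization p ∣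
          Nat.card (Subgroup.centralizer ({(x : G) * y} : Set G)) := by
        rw [← P.card_eq_multiplicity,
          ← Subgroup.card_map_of_injective (Subgroup.subtype_injective _)]
        refine Subgroup.card_dvd_of_le ?_
        rintro _ ⟨w, hw, rfl⟩
        exact Subgroup.mem_centralizer_singleton_iff.mpr
          (Commute.mul_right (congrArg Subtype.val (hcen w hw)).symm
            (Subgroup.mem_centralizer_singleton_iff.mp w.2))
      exact (hM.1.pow_dvd_iff_le_factorization Nat.card_pos.ne').mp h1
  refine hval χ0 hχ0 h0 ((mli_centralChar_iff_of_height_zero hM hχ0 h0 hfac).mp ?_)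
  have h1 := mli_add hM (IsPBlock.sameBlock hM hB hχ0 hχ ((x : G) * y)) h
  rwa [sub_add_cancel] at h1

end Cfsg.Agent.S0927
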