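import Cfsg.Statements.S0959
import Cfsg.Agent.Lib.Blocks.DefectClass

set_option autoImplicit false
open Cfsg

namespace Cfsg.Agent.S0959

open CfsgLib.Chars CfsgLib.Blocks

/-- Let B be a block of the finite group G with defect group D (relative to a maximal ideal M of the algebraic integers containing the prime p), and let P be a p-subgroup. Then there is an element g whose idempotent coefficient for B is a local integer outside the local ideal at M and which has a conjugate centralizing P, if and only if some conjugate of P is contained in D. -/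
theorem result {G : Type*} [Group G] [Finite G] (p : ℕ) [Fact p.Prime] (M : Ideal Cfsg.AlgInt) (hM : Cfsg.IsPModular p M) (B : Set (Cfsg.IrrCharacter G)) (hB : Cfsg.IsPBlock M B) (D : Subgroup G) (hD : Cfsg.IsDefectGroup p M B D) (P : Subgroup G) (hP : IsPGroup p P) : (∃ g : G, Cfsg.MemLocalRing M (Cfsg.blockCoeff B g) ∧ ¬ Cfsg.MemLocalIdeal M (Cfsg.blockCoeff B g) ∧ ∃ c : G, IsConj g c ∧ c ∈ Subgroup.centralizer (P : Set G)) ↔ ∃ x : G, P.map (MulAut.conj x).toMonoidHom ≤ D := by
  classical
  haveI : Fintype G := Fintype.ofFinite G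
  constructor
  · rintro ⟨g, -, ha, c, hgc, hc⟩
    obtain ⟨w, rfl⟩ := isConj_iff.mp hgc
    refine pGroup_le_defectGroup hM hB hD (h := w * g * w⁻¹) ?_ hP fun z hz => ?_
    · rwa [blockCoeff_isClassFunction B g w]
    · exact Subgroup.mem_centralizer_singleton_iff.mpr (Subgroup.mem_centralizer_iff.mp hc z hz)
  · rintro ⟨x, hx⟩
    obtain ⟨g, hg, S, rfl⟩ := hD
    refine ⟨g, hg.1, hg.2.1, x⁻¹ * g * x, isConj_iff.mpr ⟨x⁻¹, by simp⟩,
      Subgroup.mem_centralizer_iff.mpr fun z hz => ?_⟩
    have h1 : x * z * x⁻¹ * g = g * (x * z * x⁻¹) :=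
      Subgroup.mem_centralizer_singleton_iff.mp (Subgroup.map_subtype_le _ (hx ⟨z, hz, rfl⟩))
    calc z * (x⁻¹ * g * x) = x⁻¹ * (x * z * x⁻¹ * g) * x := by group
      _ = x⁻¹ * (g * (x * z * x⁻¹)) * x := by rw [h1]
      _ = x⁻¹ * g * x * z := by group

end Cfsg.Agent.S0959
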