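import Cfsg.Statements.S0958
import Cfsg.Agent.S0959
import Cfsg.Agent.Lib.Blocks.BrauerInduce
import Cfsg.Agent.Lib.Blocks.SecondMain
import Cfsg.Agent.Lib.Blocks.SecondVanish

set_option autoImplicit false
open Cfsg

namespace Cfsg.Agent.S0958

open CfsgLib.Chars CfsgLib.Blocks

/-- Let P be a p-subgroup of the finite group G and H a subgroup with P ⊔ C_G(P) ≤ H ≤ N_G(P); fix a maximal ideal M of the algebraic integers containing p. Then a block B of G is induced by some block of H if and only if some conjugate of P is contained in a defect group of B. -/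
theorem result {G : Type*} [Group G] [Finite G] (p : ℕ) [Fact p.Prime] (M : Ideal Cfsg.AlgInt) (hM : Cfsg.IsPModular p M) (P H : Subgroup G) (hP : IsPGroup p P) (hPH : P ⊔ Subgroup.centralizer (P : Set G) ≤ H) (hHN : H ≤ Subgroup.normalizer (P : Set G)) (B : Set (Cfsg.IrrCharacter G)) (hB : Cfsg.IsPBlock M B) : (∃ b : Set (Cfsg.IrrCharacter H), Cfsg.IsInducedBlock M H b B) ↔ ∃ D : Subgroup G, Cfsg.IsDefectGroup p M B D ∧ ∃ x : G, P.map (MulAut.conj x).toMonoidHom ≤ D := by
  classical
  haveI : Fintype G := Fintype.ofFinite G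
  haveI : Fintype H := Fintype.ofFinite H
  have hPle : P ≤ H := le_sup_left.trans hPH
  have hCle : Subgroup.centralizer (P : Set G) ≤ H := le_sup_right.trans hPH
  have hcl := blockCoeff_isClassFunction B
  have hlB := mlr_blockCoeff hM hB
  have key : (∃ b : Set (Cfsg.IrrCharacter H), Cfsg.IsInducedBlock M H b B) ↔
      ∃ c : G, c ∈ Subgroup.centralizer (P : Set G) ∧ ¬ Cfsg.MemLocalIdeal M (Cfsg.blockCoeff B c) := by
    constructor
    · rintro ⟨b, hb⟩
      obtain ⟨ξ, hξ⟩ := IsPBlock.nonempty hM hb.1
      have h1 := (isInducedBlock_iff_brVal hM hP hPle hCle hHN hb.1 hB hξ).mp hb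
      by_contra hn
      push Not at hn
      refine h1 (mli_omega hM ξ (brTrunc_isClassFunction hHN hcl) fun h => ?_)
      rw [brTrunc]
      split_ifs with hh
      · exact hn _ hh
      · exact mli_zero hM
    · rintro ⟨c, hc, hca⟩
      by_contra hn
      push Not at hn
      set f := brTrunc P H (Cfsg.blockCoeff B) with hfd
      have hf : Cfsg.IsClassFunction H f := brTrunc_isClassFunction hHN hcl
      set u : Cfsg.IrrCharacter H → ℂ := fun η => omega (η : H → ℂ) f
      have hu : u ∈ centerRing hM := omega_mem_centerRing hM hf (mlr_brTrunc hM P H hlB)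
      obtain ⟨n, hn'⟩ := exists_pow_coeffMli hM hu fun η => by
        by_contra hne
        exact hn _ ((isInducedBlock_iff_brVal hM hP hPle hCle hHN (isPBlock_blockOf η) hB
          (self_mem_blockOf hM η)).mpr hne)
      have hidem : CoeffMli M (u * u - u) := fun a => by
        have e : coeffFun (u * u - u) a = coeffFun (u * u) a - coeffFun u a := by
          simp [coeffFun, sub_mul, Finset.sum_sub_distrib, mul_sub]
        rw [e, coeffFun_mul, coeffFun_omega hf]
        have h := mli_brTrunc_conv hM hP hCle hcl hcl hlB hlB a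
        rw [conv_blockCoeff_self] at h
        have h' := mli_neg h
        rwa [neg_sub] at h'
      have hpow : ∀ j : ℕ, CoeffMli M (u ^ (j + 1) - u) := by
        intro j
        induction j with
        | zero => simpa using coeffMli_zero hM
        | succ j ih =>
          rw [show u ^ (j + 1 + 1) - u = u * (u ^ (j + 1) - u) + (u * u - u) by ring]
          exact CoeffMli.add hM (CoeffMli.mul_left hM hu ih) hidem
      have h0 : CoeffMli M u := by
        have h := CoeffMli.sub hM (CoeffMli.mul_left hM hu hn') (hpow n)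
        rwa [← pow_succ', sub_sub_cancel] at h
      refine hca ?_
      have h := h0 ⟨c, hCle hc⟩
      rw [coeffFun_omega hf, hfd, brTrunc, if_pos hc] at h
      exact h
  obtain ⟨D, hD⟩ := exists_isDefectGroup hM hB
  have h59 := Cfsg.Agent.S0959.result p M hM B hB D hD P hP
  constructor
  · intro hb
    obtain ⟨c, hc, hca⟩ := key.mp hb
    exact ⟨D, hD, h59.mp ⟨c, hlB c, hca, c, IsConj.refl c, hc⟩⟩
  · rintro ⟨E, hE, hx⟩
    obtain ⟨g, -, hga, c, hgc, hc⟩ := (Cfsg.Agent.S0959.result p M hM B hB E hE P hP).mpr hx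
    refine key.mpr ⟨c, hc, ?_⟩
    obtain ⟨w, rfl⟩ := isConj_iff.mp hgc
    rwa [hcl g w]

end Cfsg.Agent.S0958
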