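import Cfsg.Statements.S0929
import Cfsg.Agent.S0958
import Cfsg.Agent.S0917
import Cfsg.Agent.Lib.Blocks.PInflate
import Cfsg.Agent.Lib.Blocks.BrauerInduce
import Cfsg.Agent.Lib.Blocks.PPart
import Cfsg.Agent.Lib.Blocks.HeightZero

set_option autoImplicit false
open Cfsg

namespace Cfsg.Agent.S0929

open CfsgLib.Chars CfsgLib.Blocks

section

variable {G : Type*} [Group G] [Fintype G] {p : ℕ} {M : Ideal Cfsg.AlgInt}

/-- A class carrying a block meets the centralizer of a defect group with central p-part. -/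
theorem pPart_mem_of_centralChar (hM : Cfsg.IsPModular p M) {B : Set (Cfsg.IrrCharacter G)}
    (hB : Cfsg.IsPBlock M B) {P : Subgroup G} (hP : Cfsg.IsDefectGroup p M B P) {g : G}
    {χ : Cfsg.IrrCharacter G} (hχ : χ ∈ B)
    (hg : ¬ Cfsg.MemLocalIdeal M (Cfsg.centralChar (χ : G → ℂ) g)) :
    ∃ x : G, IsConj g x ∧ x ∈ Subgroup.centralizer (P : Set G) ∧
      ∀ z : G, Cfsg.IsPPart p x z → z ∈ P ∧ ∀ w ∈ P, z * w = w * z := by
  classical
  haveI : Fact p.Prime := ⟨hM.1⟩
  have hPp := defectGroup_isPGroup hP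
  set H := P ⊔ Subgroup.centralizer (P : Set G) with hHd
  have hHN : H ≤ Subgroup.normalizer (P : Set G) :=
    sup_le Subgroup.le_normalizer (Subgroup.centralizer_le_normalizer _)
  haveI : Fintype H := Fintype.ofFinite H
  obtain ⟨b, hb⟩ := (Cfsg.Agent.S0958.result p M hM P H hPp le_rfl hHN B hB).mpr
    ⟨P, hP, 1, by rintro _ ⟨d, hd, rfl⟩; simpa using hd⟩
  set P' := P.subgroupOf H with hP'
  haveI : P'.Normal := (Subgroup.normal_subgroupOf_iff_le_normalizer le_sup_left).mpr hHN
  have hP'p : IsPGroup p P' := hPp.of_equiv (Subgroup.subgroupOfEquivOfLe le_sup_left).symm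
  obtain ⟨Db, hDb⟩ := exists_isDefectGroup hM hb.1
  have hcardP : Nat.card P' = Nat.card P := Nat.card_congr (Subgroup.subgroupOfEquivOfLe le_sup_left).toEquiv
  have hdb : Cfsg.blockDefect p b = Cfsg.blockDefect p B := by
    refine Nat.pow_right_injective hM.1.two_le ?_
    simp only []
    rw [← card_defectGroup hM hb.1 hDb, ← card_defectGroup hM hB hP]
    refine le_antisymm ?_ (hcardP ▸ Subgroup.card_le_of_le (normal_pGroup_le_defectGroup hM P' hP'p hb.1 hDb))
    obtain ⟨E, hE, hle⟩ := Cfsg.Agent.S0917.result p M hM H b hb.1 B hB hb Db hDb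
    obtain ⟨w, hw⟩ := defectGroup_conj hM hB hP hE
    have h1 := Subgroup.card_le_of_le hle
    rwa [Subgroup.card_map_of_injective (Subgroup.subtype_injective _), hw, card_map_conj] at h1
  obtain ⟨ξ, hξ, hker⟩ := exists_trivial_on_pgroup hM P' hP'p hb.1
  -- some class of the subgroup in the class of g
  obtain ⟨c, hgc, hcξ⟩ : ∃ c : H, IsConj g (c : G) ∧
      ¬ Cfsg.MemLocalIdeal M (Cfsg.centralChar (ξ : H → ℂ) c) := by
    by_contra hn
    push Not at hn
    refine hg ?_
    have h1 : Cfsg.MemLocalIdeal M (Cfsg.inducedCentralChar H (ξ : H → ℂ) g) := by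
      haveI : Finite (ConjClasses H) := Finite.of_surjective _ ConjClasses.mk_surjective
      haveI : Fintype (ConjClasses H) := Fintype.ofFinite _
      rw [inducedCentralChar_eq, omega_eq_sum_centralChar (IsCharacter.isClassFunction (isCharacter_irr ξ))
        (fun a q => by
          simp only [Subgroup.coe_mul, InvMemClass.coe_inv]
          exact classInd_isClassFunction g (a : G) (q : G))]
      refine mli_sum hM _ fun c _ => ?_
      by_cases hc : IsConj g ((c.out : H) : G)
      · exact mli_mul_left hM (mlr_classInd hM g _) (hn _ hc)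
      · rw [classInd, if_neg hc, zero_mul]; exact mli_zero hM
    have h2 := mli_sub hM h1 (hb.2.2 ξ hξ χ hχ g)
    rwa [sub_sub_cancel] at h2
  have hcC : (c : G) ∈ Subgroup.centralizer (P : Set G) := by
    by_contra h
    refine hcξ (mli_centralChar_of_notMem hM P' hP'p ξ fun h' => h ?_)
    rw [Subgroup.mem_centralizer_iff] at h' ⊢
    intro w hw
    exact congrArg Subtype.val (h' ⟨w, le_sup_left (a := P) hw⟩ hw)
  refine ⟨c, hgc, hcC, fun z hz => ?_⟩
  have hzc : ∀ w ∈ P, z * w = w * z := by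
    obtain ⟨y, hzy, hcomm, hzo, hy⟩ := hz
    obtain ⟨t, ht⟩ := pPart_eq_pow hM.1 hzy hcomm hzo hy
    intro w hw
    rw [ht]
    exact ((show Commute w (c : G) from Subgroup.mem_centralizer_iff.mp hcC w hw).pow_right t).symm
  refine ⟨?_, hzc⟩
  by_contra hzP
  refine hcξ ?_
  obtain ⟨φ, hφ⟩ := exists_deflate P' ξ hker
  haveI : Fintype (H ⧸ P') := Fintype.ofFinite _
  have hdeg : Cfsg.charDegree (φ : H ⧸ P' → ℂ) = Cfsg.charDegree (ξ : H → ℂ) := by
    rw [Cfsg.charDegree, Cfsg.charDegree, hφ, Function.comp_apply, QuotientGroup.mk_one]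
  have hfull : p ^ (Nat.card (H ⧸ P')).factorization p ∣ Cfsg.charDegree (φ : H ⧸ P' → ℂ) := by
    rw [hdeg, hM.1.pow_dvd_iff_le_factorization (charDegree_pos ξ).ne']
    have h2 := minExp_add_defect (p := p) hξ
    have h3 := minExp_le (p := p) hξ
    have h4 := congrArg (fun n : ℕ => n.factorization p) (Subgroup.card_eq_card_quotient_mul_card_subgroup P')
    simp only [Nat.factorization_mul (Nat.card_pos (α := H ⧸ P')).ne' (Nat.card_pos (α := P')).ne',
      Finsupp.add_apply] at h4
    have h5 : (Nat.card P').factorization p = Cfsg.blockDefect p B := by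
      rw [hcardP, card_defectGroup hM hB hP, hM.1.factorization_pow, Finsupp.single_eq_same]
    omega
  have hz0 : (φ : H ⧸ P' → ℂ) (c : H ⧸ P') = 0 := by
    refine ((defect_zero_tfae hM φ).2.mp hfull) _ ?_
    by_contra hreg
    obtain ⟨y, hzy, hcomm, ⟨k, hk⟩, hy⟩ := hz
    obtain ⟨t, ht⟩ := pPart_eq_pow hM.1 hzy hcomm ⟨k, hk⟩ hy
    refine hzP ?_
    have h1 : ((c : H) : H ⧸ P') ^ t = 1 := by
      refine orderOf_eq_one_iff.mp (Nat.eq_one_of_dvd_coprimes
        (Nat.Coprime.pow_left k (hM.1.coprime_iff_not_dvd.mpr hreg)) ?_ (orderOf_pow_dvd t))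
      refine orderOf_dvd_of_pow_eq_one ?_
      rw [← QuotientGroup.mk_pow, ← QuotientGroup.mk_pow]
      have : (c ^ t) ^ p ^ k = 1 := Subtype.ext (by
        simp only [Subgroup.coe_pow, OneMemClass.coe_one, ← ht, ← hk, pow_orderOf_eq_one])
      rw [this]; rfl
    rw [← QuotientGroup.mk_pow, QuotientGroup.eq_one_iff] at h1
    have h2 : ((c ^ t : H) : G) ∈ P := h1
    rwa [Subgroup.coe_pow, ← ht] at h2
  rw [Cfsg.centralChar, show (ξ : H → ℂ) c = 0 by rw [hφ]; exact hz0, mul_zero, zero_div]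
  exact mli_zero hM

end

/-- Let B be a block of the finite group G with defect group P (relative to a maximal ideal M of the algebraic integers containing p), and let g be an element at which the central character of some member of B is not in the local ideal at M. Then some conjugate x of g centralizes P and has its p-part in the centre of P. -/
theorem result {G : Type*} [Group G] [Finite G] (p : ℕ) [Fact p.Prime] (M : Ideal Cfsg.AlgInt) (hM : Cfsg.IsPModular p M) (B : Set (Cfsg.IrrCharacter G)) (hB : Cfsg.IsPBlock M B) (P : Subgroup G) (hP : Cfsg.IsDefectGroup p M B P) (g : G) (hg : ∃ χ ∈ B, ¬ Cfsg.MemLocalIdeal M (Cfsg.centralChar (χ : G → ℂ) g)) : ∃ x : G, IsConj g x ∧ x ∈ Subgroup.centralizer (P : Set G) ∧ ∀ z : G, Cfsg.IsPPart p x z → z ∈ P ∧ ∀ w ∈ P, z * w = w * z := by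
  haveI : Fintype G := Fintype.ofFinite G
  obtain ⟨χ, hχ, hg⟩ := hg
  exact pPart_mem_of_centralChar hM hB hP hχ hg

end Cfsg.Agent.S0929
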