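import Cfsg.Statements.S0930
import Cfsg.Agent.S0929
import Cfsg.Agent.S0927
import Cfsg.Agent.Lib.Blocks.BrauerInduce

set_option autoImplicit false
open Cfsg

namespace Cfsg.Agent.S0930

open CfsgLib.Chars CfsgLib.Blocks

/-- Let H be a subgroup of the finite group G and fix a maximal ideal M of the algebraic integers containing the prime p. If the block b of H with defect group D induces the block B of G with defect group P, then every element of the centre of P is conjugate in G to an element of the centre of D. -/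
theorem result {G : Type*} [Group G] [Finite G] (p : ℕ) [Fact p.Prime] (M : Ideal Cfsg.AlgInt) (hM : Cfsg.IsPModular p M) (H : Subgroup G) (b : Set (Cfsg.IrrCharacter H)) (B : Set (Cfsg.IrrCharacter G)) (hind : Cfsg.IsInducedBlock M H b B) (D : Subgroup H) (hD : Cfsg.IsDefectGroup p M b D) (P : Subgroup G) (hP : Cfsg.IsDefectGroup p M B P) (x : G) (hx : x ∈ P) (hxc : ∀ w ∈ P, x * w = w * x) : ∃ g : G, g * x * g⁻¹ ∈ D.map H.subtype ∧ ∀ w ∈ D.map H.subtype, (g * x * g⁻¹) * w = w * (g * x * g⁻¹) := by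
  classical
  haveI : Fintype G := Fintype.ofFinite G
  haveI : Fintype H := Fintype.ofFinite H
  have hP' := hP
  obtain ⟨g, hg, S, hS⟩ := hP'
  obtain ⟨χ, hχ⟩ := IsPBlock.nonempty hM hind.2.1
  obtain ⟨ξ, hξ⟩ := IsPBlock.nonempty hM hind.1
  have hxS := hx
  rw [hS] at hxS
  obtain ⟨x', hx', rfl⟩ := hxS
  have hω := (Cfsg.Agent.S0927.result p M hM B hind.2.1 g hg S x' hx').2 (fun w hw => Subtype.ext (by
    simpa using hxc (w : G) (hS ▸ ⟨w, hw, rfl⟩))) χ hχ
  obtain ⟨c, hgc, hcξ⟩ : ∃ c : H, IsConj ((x' : G) * g) (c : G) ∧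
      ¬ Cfsg.MemLocalIdeal M (Cfsg.centralChar (ξ : H → ℂ) c) := by
    by_contra hn
    push Not at hn
    refine hω ?_
    have h1 : Cfsg.MemLocalIdeal M (Cfsg.inducedCentralChar H (ξ : H → ℂ) ((x' : G) * g)) := by
      haveI : Finite (ConjClasses H) := Finite.of_surjective _ ConjClasses.mk_surjective
      haveI : Fintype (ConjClasses H) := Fintype.ofFinite _
      rw [inducedCentralChar_eq, omega_eq_sum_centralChar (IsCharacter.isClassFunction (isCharacter_irr ξ))
        (fun a q => by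
          simp only [Subgroup.coe_mul, InvMemClass.coe_inv]
          exact classInd_isClassFunction _ (a : G) (q : G))]
      refine mli_sum hM _ fun c _ => ?_
      by_cases hc : IsConj ((x' : G) * g) ((c.out : H) : G)
      · exact mli_mul_left hM (mlr_classInd hM _ _) (hn _ hc)
      · rw [classInd, if_neg hc, zero_mul]; exact mli_zero hM
    have h2 := mli_sub hM h1 (hind.2.2 ξ hξ χ hχ ((x' : G) * g))
    rwa [sub_sub_cancel] at h2
  obtain ⟨y, hcy, hyC, hy⟩ := Cfsg.Agent.S0929.pPart_mem_of_centralChar hM hind.1 hD hξ hcξ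
  obtain ⟨z, hz⟩ := exists_isPPart hM.1 y
  obtain ⟨hzD, hzc⟩ := hy z hz
  have hreg : ¬ p ∣ orderOf g := fun hd =>
    hg.2.1 (by rw [blockCoeff_eq_zero_of_singular hM hind.2.1 hd]; exact mli_zero hM)
  obtain ⟨k, hk⟩ := IsPGroup.iff_orderOf.mp (defectGroup_isPGroup hP) ⟨_, hx⟩
  have h1 : Cfsg.IsPPart p ((x' : G) * g) (x' : G) :=
    ⟨g, rfl, Subgroup.mem_centralizer_singleton_iff.mp x'.2, ⟨k, by
      rw [← hk]; exact orderOf_injective P.subtype Subtype.val_injective ⟨_, hx⟩⟩, hreg⟩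
  obtain ⟨v, hzv, hcomm, ⟨j, hj⟩, hv⟩ := hz
  have h2 : Cfsg.IsPPart p (y : G) (z : G) :=
    ⟨v, by rw [← hzv]; rfl, congrArg Subtype.val hcomm, ⟨j, by rw [Subgroup.orderOf_coe, hj]⟩,
      by rwa [Subgroup.orderOf_coe]⟩
  obtain ⟨w, hw⟩ := isConj_iff.mp (isConj_pPart hM.1 h1 h2
    (hgc.trans (H.subtype.map_isConj hcy)))
  refine ⟨w, ?_, ?_⟩
  · exact ⟨z, hzD, hw.symm⟩
  · rintro _ ⟨d, hd, rfl⟩
    exact hw ▸ congrArg Subtype.val (hzc d hd)

end Cfsg.Agent.S0930
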