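import Cfsg.Statements.S4717
import Cfsg.Agent.Lib.Blocks.PrincipalOrth
import Cfsg.Agent.Lib.Blocks.DefectClass
import Cfsg.Agent.Lib.Blocks.SecondVanish

set_option autoImplicit false
open Cfsg

namespace Cfsg.Agent.S4717

open CfsgLib.Chars CfsgLib.Blocks

section

variable {G : Type*} [Group G] [Fintype G] {p : ℕ} {M : Ideal Cfsg.AlgInt} {C : Subgroup G}
  [Fintype C] {x : G} {k : ℕ}

/-- A block of the centralizer of a p-element induces a block. -/
theorem exists_induced (hM : Cfsg.IsPModular p M) (hx : orderOf x = p ^ k)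
    (hC : ∀ g, g ∈ C ↔ Commute g x) {b : Set (Cfsg.IrrCharacter C)} (hb : Cfsg.IsPBlock M b) :
    ∃ B, Cfsg.IsInducedBlock M C b B := by
  obtain ⟨ξ, hξ⟩ := IsPBlock.nonempty hM hb
  have hcen := centralizer_zpowers_eq hC
  have hN : C ≤ Subgroup.normalizer ((Subgroup.zpowers x : Subgroup G) : Set G) :=
    hcen.ge.trans (Subgroup.centralizer_le_normalizer _)
  obtain ⟨B, hB, hne⟩ := exists_block_brVal hM hN ξ
  exact ⟨B, (isInducedBlock_iff_brVal hM (isPGroup_zpowers hM hx)
    (Subgroup.zpowers_le.mpr ((hC x).mpr (Commute.refl x))) hcen.le hN hb hB hξ).mpr hne⟩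

/-- The defect does not drop under induction. -/
theorem defect_le_of_induced (hM : Cfsg.IsPModular p M) {H : Subgroup G} [Fintype H]
    {b : Set (Cfsg.IrrCharacter H)} {B : Set (Cfsg.IrrCharacter G)}
    (hind : Cfsg.IsInducedBlock M H b B) : Cfsg.blockDefect p b ≤ Cfsg.blockDefect p B := by
  classical
  obtain ⟨ξ, hξ⟩ := IsPBlock.nonempty hM hind.1
  obtain ⟨χ, hχ⟩ := IsPBlock.nonempty hM hind.2.1
  have h1 := mli_omega_res_of_induced hM hind hξ hχ (blockCoeff_isClassFunction B)
    (mlr_blockCoeff hM hind.2.1)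
  rw [omega_blockCoeff, indic_of_mem hχ] at h1
  obtain ⟨c, hca, hcξ⟩ : ∃ c : H, ¬ Cfsg.MemLocalIdeal M (Cfsg.blockCoeff B (c : G)) ∧
      ¬ Cfsg.MemLocalIdeal M (Cfsg.centralChar (ξ : H → ℂ) c) := by
    by_contra hn
    push Not at hn
    refine not_mli_one hM ?_
    haveI : Finite (ConjClasses H) := Finite.of_surjective _ ConjClasses.mk_surjective
    haveI : Fintype (ConjClasses H) := Fintype.ofFinite _
    have hf : Cfsg.IsClassFunction H (fun h : H => Cfsg.blockCoeff B (h : G)) := fun a q => by
      simp only [Subgroup.coe_mul, InvMemClass.coe_inv]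
      exact blockCoeff_isClassFunction B (a : G) (q : G)
    have h2 : Cfsg.MemLocalIdeal M (omega (ξ : H → ℂ) fun h : H => Cfsg.blockCoeff B (h : G)) := by
      rw [omega_eq_sum_centralChar (IsCharacter.isClassFunction (isCharacter_irr ξ)) hf]
      refine mli_sum hM _ fun c _ => ?_
      by_cases ha : Cfsg.MemLocalIdeal M (Cfsg.blockCoeff B (c.out : G))
      · exact mli_mul_right hM ha (mlr_centralChar hM ξ _)
      · exact mli_mul_left hM (mlr_blockCoeff hM hind.2.1 _) (hn _ ha)
    have := mli_sub hM h2 h1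
    rwa [sub_sub_cancel] at this
  obtain ⟨D', hD'⟩ := exists_isDefectGroup hM hind.1
  obtain ⟨D, hD⟩ := exists_isDefectGroup hM hind.2.1
  obtain ⟨w, hw⟩ := defectGroup_le_centralizer hM hind.1 hD' hξ hcξ
  have hp : IsPGroup p ((D'.map (MulAut.conj w).toMonoidHom).map H.subtype) :=
    ((defectGroup_isPGroup hD').map _).map _
  obtain ⟨v, hv⟩ := pGroup_le_defectGroup hM hind.2.1 hD hca hp (by
    rintro _ ⟨d, hd, rfl⟩
    exact Subgroup.mem_centralizer_singleton_iff.mpr
      (congrArg Subtype.val (Subgroup.mem_centralizer_singleton_iff.mp (hw hd))))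
  have h3 := Subgroup.card_le_of_le hv
  rw [card_map_conj, Subgroup.card_map_of_injective (Subgroup.subtype_injective _),
    card_map_conj, card_defectGroup hM hind.1 hD', card_defectGroup hM hind.2.1 hD] at h3
  exact (Nat.pow_le_pow_iff_right hM.1.one_lt).mp h3

/-- A nonzero coefficient of a block is carried by a block of the centralizer inducing it. -/
theorem exists_block_coeff (hM : Cfsg.IsPModular p M) (hx : orderOf x = p ^ k)
    (hC : ∀ g, g ∈ C ↔ Commute g x) {B : Set (Cfsg.IrrCharacter G)} (hB : Cfsg.IsPBlock M B)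
    {c : C} (hc : ¬ Cfsg.MemLocalIdeal M (Cfsg.blockCoeff B (c : G))) :
    ∃ b : Set (Cfsg.IrrCharacter C), Cfsg.IsInducedBlock M C b B ∧
      ¬ Cfsg.MemLocalIdeal M (Cfsg.blockCoeff b c) := by
  classical
  haveI : Fintype (Set (Cfsg.IrrCharacter C)) := Fintype.ofFinite _
  set S := Finset.univ.filter
    (fun b : Set (Cfsg.IrrCharacter C) => Cfsg.IsInducedBlock M C b B) with hS
  set f : C → ℂ := fun h : C => Cfsg.blockCoeff B (h : G) with hfdef
  have hf : Cfsg.IsClassFunction C f := fun a q => by
    simp only [hfdef, Subgroup.coe_mul, InvMemClass.coe_inv]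
    exact blockCoeff_isClassFunction B (a : G) (q : G)
  have hfl : ∀ h, Cfsg.MemLocalRing M (f h) := fun h => mlr_blockCoeff hM hB _
  let u : Cfsg.IrrCharacter C → ℂ := fun η => omega (η : C → ℂ) f
  let v : Cfsg.IrrCharacter C → ℂ := ∑ b ∈ S, indic b
  have hu : u ∈ centerRing hM := omega_mem_centerRing hM hf hfl
  have hvm : v ∈ centerRing hM := sum_mem fun b hb =>
    indic_mem_centerRing hM (Finset.mem_filter.mp hb).2.1
  have hv1 : ∀ η : Cfsg.IrrCharacter C,
      v η = if Cfsg.IsInducedBlock M C (Cfsg.blockOf M (η : C → ℂ)) B then 1 else 0 := by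
    intro η
    simp only [v, Finset.sum_apply]
    split_ifs with hi
    · rw [Finset.sum_eq_single_of_mem (Cfsg.blockOf M (η : C → ℂ))
        (Finset.mem_filter.mpr ⟨Finset.mem_univ _, hi⟩)]
      · exact indic_of_mem (self_mem_blockOf hM η)
      · intro b hb hne
        exact indic_of_notMem fun h => hne (IsPBlock.eq_blockOf hM (Finset.mem_filter.mp hb).2.1 h)
    · refine Finset.sum_eq_zero fun b hb => indic_of_notMem fun h => hi ?_
      rw [← IsPBlock.eq_blockOf hM (Finset.mem_filter.mp hb).2.1 h]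
      exact (Finset.mem_filter.mp hb).2
  have hvv : v * v - v = 0 := by
    funext η
    simp only [Pi.sub_apply, Pi.mul_apply, hv1, Pi.zero_apply]
    split_ifs <;> simp
  have huv : ∀ η, Cfsg.MemLocalIdeal M ((u - v) η) := by
    intro η
    obtain ⟨B', hind'⟩ := exists_induced hM hx hC (isPBlock_blockOf (M := M) η)
    obtain ⟨χ', hχ'⟩ := IsPBlock.nonempty hM hind'.2.1
    have h1 := mli_omega_res_of_induced hM hind' (self_mem_blockOf hM η) hχ'
      (blockCoeff_isClassFunction B) (mlr_blockCoeff hM hB)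
    rw [omega_blockCoeff] at h1
    rw [Pi.sub_apply, hv1]
    change Cfsg.MemLocalIdeal M (omega (η : C → ℂ) f - _) 
    by_cases h : B' = B
    · subst h
      rw [if_pos hind']
      rwa [indic_of_mem hχ'] at h1
    · rw [if_neg fun h2 => h (sec_induced_unique hM hx hC hind' h2)]
      rwa [indic_of_notMem fun h2 => h (IsPBlock.eq_of_mem hM hind'.2.1 hB hχ' h2)] at h1
  have hui : CoeffMli M (u * u - u) := by
    intro a
    have e : coeffFun (u * u - u) a = coeffFun (u * u) a - coeffFun u a := by
      simp [coeffFun, sub_mul, Finset.sum_sub_distrib, mul_sub]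
    rw [e, coeffFun_mul, coeffFun_omega hf]
    have hQ := isPGroup_zpowers hM hx
    have hcen := centralizer_zpowers_eq hC
    have h := mli_conv_sub_trunc hM hQ (f := Cfsg.blockCoeff B) (f' := Cfsg.blockCoeff B)
      (fun q _ g => blockCoeff_isClassFunction B g q) (fun q _ g => blockCoeff_isClassFunction B g q)
      (mlr_blockCoeff hM hB) (mlr_blockCoeff hM hB) (hcen.ge a.2)
    rw [conv_blockCoeff_self, ← Finset.sum_filter] at h
    have e2 : CfsgLib.Chars.conv f f a =
        ∑ g ∈ Finset.univ.filter (fun g : G => g ∈ Subgroup.centralizer ((Subgroup.zpowers x : Subgroup G) : Set G)),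
          Cfsg.blockCoeff B g * Cfsg.blockCoeff B (g⁻¹ * (a : G)) := by
      simp only [CfsgLib.Chars.conv]
      refine Finset.sum_bij' (fun l _ => (l : G))
        (fun g hg => ⟨g, hcen.le (Finset.mem_filter.mp hg).2⟩)
        (fun l _ => Finset.mem_filter.mpr ⟨Finset.mem_univ _, hcen.ge l.2⟩)
        (fun _ _ => Finset.mem_univ _) (fun _ _ => rfl) (fun _ _ => rfl) fun l _ => ?_
      rfl
    rw [e2]
    simpa using mli_neg h
  set d := u - v with hd
  have hdm : d ∈ centerRing hM := sub_mem hu hvm
  have hd3 : CoeffMli M (d * d * d - d) := by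
    have e : d * d * d - d = (u + 1 - 3 * v) * (u * u - u) +
        (3 * u - v - 1) * (v * v - v) := by rw [hd]; ring
    rw [e, hvv, mul_zero, add_zero]
    refine CoeffMli.mul_left hM ?_ hui
    exact sub_mem (add_mem hu (one_mem _)) (mul_mem (natCast_mem _ 3) hvm)
  have hpow : ∀ j : ℕ, CoeffMli M (d ^ (2 * j + 1) - d) := by
    intro j
    induction j with
    | zero => simpa using coeffMli_zero hM
    | succ j ih =>
      rw [show d ^ (2 * (j + 1) + 1) - d = d * d * (d ^ (2 * j + 1) - d) + (d * d * d - d) by ring]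
      exact CoeffMli.add hM (CoeffMli.mul_left hM (mul_mem hdm hdm) ih) hd3
  obtain ⟨n, hn⟩ := exists_pow_coeffMli hM hdm huv
  have hd0 : CoeffMli M d := by
    have h := CoeffMli.sub hM (CoeffMli.mul_left hM (pow_mem hdm (n + 1)) hn) (hpow n)
    rwa [← pow_add, show n + 1 + n = 2 * n + 1 by ring, sub_sub_cancel] at h
  by_contra hcon
  push Not at hcon
  refine hc ?_
  have h := hd0 c
  rw [hd, show coeffFun (u - v) c = coeffFun u c - coeffFun v c by
    simp [coeffFun, sub_mul, Finset.sum_sub_distrib, mul_sub], coeffFun_omega hf] at h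
  have hvc : Cfsg.MemLocalIdeal M (coeffFun v c) := by
    have e : coeffFun v c = ∑ b ∈ S, Cfsg.blockCoeff b c := by
      simp only [blockCoeff_eq_coeffFun, coeffFun, v, Finset.sum_apply, Finset.sum_mul,
        Finset.mul_sum]
      rw [Finset.sum_comm]
    rw [e]
    exact mli_sum hM _ fun b hb => hcon b (Finset.mem_filter.mp hb).2
  have := mli_add hM h hvc
  rwa [sub_add_cancel] at this

end

/-- Let p be a prime, M a maximal ideal of the algebraic integers containing p, and r a natural number; say that a finite group X has deficiency class r when X has no non-principal p-block of defect ≥ r. If G has deficiency class r then so does the centralizer of every p-element of G; conversely, if r > 0 and the centralizer of every element of order p has deficiency class r, then G has deficiency class r. -/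
theorem result {G : Type*} [Group G] [Finite G] (p : ℕ) [Fact p.Prime] (M : Ideal Cfsg.AlgInt) (hM : Cfsg.IsPModular p M) (r : ℕ) : ((∀ B' : Set (Cfsg.IrrCharacter G), Cfsg.IsPBlock M B' → B' ≠ Cfsg.principalBlock M G → Cfsg.blockDefect p B' < r) → ∀ y : G, (∃ k : ℕ, orderOf y = p ^ k) → (∀ B' : Set (Cfsg.IrrCharacter ↥(Subgroup.centralizer ({y} : Set G))), Cfsg.IsPBlock M B' → B' ≠ Cfsg.principalBlock M ↥(Subgroup.centralizer ({y} : Set G)) → Cfsg.blockDefect p B' < r)) ∧ (0 < r → (∀ y : G, orderOf y = p → (∀ B' : Set (Cfsg.IrrCharacter ↥(Subgroup.centralizer ({y} : Set G))), Cfsg.IsPBlock M B' → B' ≠ Cfsg.principalBlock M ↥(Subgroup.centralizer ({y} : Set G)) → Cfsg.blockDefect p B' < r)) → (∀ B' : Set (Cfsg.IrrCharacter G), Cfsg.IsPBlock M B' → B' ≠ Cfsg.principalBlock M G → Cfsg.blockDefect p B' < r)) := by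
  classical
  haveI : Fintype G := Fintype.ofFinite G
  constructor
  · intro hr y ⟨k, hk⟩ b hb hne
    set C := Subgroup.centralizer ({y} : Set G)
    haveI : Fintype C := Fintype.ofFinite _
    have hC : ∀ a, a ∈ C ↔ Commute a y := fun a => Subgroup.mem_centralizer_singleton_iff
    obtain ⟨B, hind⟩ := exists_induced hM hk hC hb
    refine lt_of_le_of_lt ?_ (hr B hind.2.1 fun hB => hne ((induced_principal_iff hM hind).mp hB))
    exact defect_le_of_induced hM hind
  · intro hr hy B hB hne
    by_contra hlt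
    push Not at hlt
    obtain ⟨D, hD⟩ := exists_isDefectGroup hM hB
    have hDc := card_defectGroup hM hB hD
    obtain ⟨g, hg, P, hDP⟩ := id hD
    have hDp := defectGroup_isPGroup hD
    haveI : Nontrivial D := by
      rw [← Finite.one_lt_card_iff_nontrivial, hDc]
      exact Nat.one_lt_pow (by omega) hM.1.one_lt
    haveI := hDp.center_nontrivial
    have hZ : p ∣ Nat.card (Subgroup.center D) := by
      obtain ⟨i, hi⟩ := IsPGroup.iff_card.mp (hDp.to_subgroup (Subgroup.center D))
      have h1 : 1 < Nat.card (Subgroup.center D) := Finite.one_lt_card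
      rw [hi] at h1 ⊢
      refine dvd_pow_self p ?_
      rintro rfl
      simp at h1
    obtain ⟨z, hz⟩ := exists_prime_orderOf_dvd_card' p hZ
    set y : G := ((z : D) : G)
    have hyo : orderOf y = p := by simp only [y, Subgroup.orderOf_coe, hz]
    set C := Subgroup.centralizer ({y} : Set G)
    haveI : Fintype C := Fintype.ofFinite _
    have hC : ∀ a, a ∈ C ↔ Commute a y := fun a => Subgroup.mem_centralizer_singleton_iff
    have hDC : D ≤ C := fun d hd => (hC d).mpr
      (congrArg Subtype.val (Subgroup.mem_center_iff.mp z.2 ⟨d, hd⟩))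
    have hDg : D ≤ Subgroup.centralizer ({g} : Set G) := hDP.le.trans (Subgroup.map_subtype_le _)
    have hgy : g ∈ C := (hC g).mpr
      (Subgroup.mem_centralizer_singleton_iff.mp (hDg (z : D).2)).symm
    obtain ⟨b, hb, hba⟩ := exists_block_coeff hM (k := 1) (by rw [hyo, pow_one]) hC hB
      (c := ⟨g, hgy⟩) hg.2.1
    refine (Nat.lt_irrefl r) (lt_of_le_of_lt hlt (lt_of_le_of_lt ?_
      (hy y hyo b hb.1 fun h => hne ((induced_principal_iff hM hb).mpr h))))
    obtain ⟨D', hD'⟩ := exists_isDefectGroup hM hb.1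
    have hQ : IsPGroup p (D.subgroupOf C) := hDp.of_equiv (Subgroup.subgroupOfEquivOfLe hDC).symm
    obtain ⟨x, hx⟩ := pGroup_le_defectGroup hM hb.1 hD' hba hQ (fun d hd =>
      Subgroup.mem_centralizer_singleton_iff.mpr (Subtype.ext
        (Subgroup.mem_centralizer_singleton_iff.mp (hDg hd) : (d : G) * g = g * (d : G))))
    have h1 := Subgroup.card_le_of_le hx
    rw [card_map_conj, Nat.card_congr (Subgroup.subgroupOfEquivOfLe hDC).toEquiv, hDc,
      card_defectGroup hM hb.1 hD'] at h1
    exact (Nat.pow_le_pow_iff_right hM.1.one_lt).mp h1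

end Cfsg.Agent.S4717
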