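import Cfsg.Statements.S0931
import Cfsg.Agent.S0930
import Cfsg.Agent.S4717

set_option autoImplicit false
open Cfsg

namespace Cfsg.Agent.S0931

open CfsgLib.Chars CfsgLib.Blocks

/-- Let H be a subgroup of the finite group G and fix a maximal ideal M of the algebraic integers containing the prime p. If the block b of H induces the block B of G, then b has defect 0 if and only if B has defect 0. -/
theorem result {G : Type*} [Group G] [Finite G] (p : ℕ) [Fact p.Prime] (M : Ideal Cfsg.AlgInt) (hM : Cfsg.IsPModular p M) (H : Subgroup G) (b : Set (Cfsg.IrrCharacter H)) (B : Set (Cfsg.IrrCharacter G)) (hind : Cfsg.IsInducedBlock M H b B) : Cfsg.blockDefect p b = 0 ↔ Cfsg.blockDefect p B = 0 := by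
  classical
  haveI : Fintype G := Fintype.ofFinite G
  haveI : Fintype H := Fintype.ofFinite H
  constructor
  · intro h0
    obtain ⟨D, hD⟩ := exists_isDefectGroup hM hind.1
    obtain ⟨P, hP⟩ := exists_isDefectGroup hM hind.2.1
    have hD1 : D = ⊥ := Subgroup.eq_bot_of_card_eq _ (by
      rw [card_defectGroup hM hind.1 hD, h0, pow_zero])
    have hcard := card_defectGroup hM hind.2.1 hP
    by_contra hne
    haveI : Nontrivial P := by
      rw [← Finite.one_lt_card_iff_nontrivial, hcard]
      exact Nat.one_lt_pow hne hM.1.one_lt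
    haveI := (defectGroup_isPGroup hP).center_nontrivial
    obtain ⟨z, hz1⟩ := exists_ne (1 : Subgroup.center P)
    obtain ⟨w, hw, -⟩ := Cfsg.Agent.S0930.result p M hM H b B hind D hD P hP ((z : P) : G) (z : P).2
      (fun v hv => (congrArg Subtype.val (Subgroup.mem_center_iff.mp z.2 ⟨v, hv⟩)).symm)
    rw [hD1, Subgroup.map_bot, Subgroup.mem_bot, mul_inv_eq_one, mul_eq_left] at hw
    exact hz1 (Subtype.ext (Subtype.ext hw))
  · intro h0
    exact Nat.eq_zero_of_le_zero (h0 ▸ Cfsg.Agent.S4717.defect_le_of_induced hM hind)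

end Cfsg.Agent.S0931
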