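import Cfsg.Statements.S0932
import Cfsg.Agent.Lib.Chars.Misc

set_option autoImplicit false
open Cfsg

namespace Cfsg.Agent.S0932

open CfsgLib.Chars

/-- Let H be a subgroup of the finite group G and ξ a character of H. For every g ∈ G, the sum of ξ h / ξ 1 over the elements h ∈ H that are conjugate in G to g equals the central character at g of the character of G induced from ξ (class size times value divided by degree). -/
theorem result {G : Type*} [Group G] [Fintype G] (H : Subgroup G) (ξ : H → ℂ) (hξ : Cfsg.IsCharacter H ξ) (g : G) : Cfsg.inducedCentralChar H ξ g = Cfsg.centralChar (Cfsg.indFun H ξ) g := by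
  classical
  haveI : Fintype H := Fintype.ofFinite H
  have h1 : inducedCentralChar H ξ g = (∑ h : H, if IsConj g (h : G) then ξ h else 0) / ξ 1 := by
    rw [inducedCentralChar, finsum_mem_eq_toFinset_sum, Set.toFinset_setOf, Finset.sum_filter,
      Finset.sum_div]
    exact Finset.sum_congr rfl fun h _ => by split_ifs <;> simp
  have h2 := sum_extendByZero H ξ (fun y => if IsConj g y then 1 else 0)
  simp only [mul_ite, mul_one, mul_zero] at h2
  rw [← Finset.sum_filter] at h2
  have h3 : indFun H ξ g = (Nat.card H : ℂ)⁻¹ *
      ((Nat.card (Subgroup.centralizer ({g} : Set G)) : ℂ) *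
        ∑ h : H, if IsConj g (h : G) then ξ h else 0) := by
    rw [← h2, ← sum_conj g (extendByZero H ξ)]
    rfl
  rw [h1, centralChar, h3, indFun_one]
  rcases eq_or_ne (ξ 1) 0 with h0 | h0
  · simp [h0]
  have hHc : (Nat.card H : ℂ) ≠ 0 := by exact_mod_cast Nat.card_pos.ne'
  have hHi : (H.index : ℂ) ≠ 0 := by exact_mod_cast Subgroup.index_ne_zero_of_finite
  have hcc : ((Subgroup.centralizer ({g} : Set G)).index : ℂ) *
      (Nat.card (Subgroup.centralizer ({g} : Set G)) : ℂ) = (H.index : ℂ) * (Nat.card H : ℂ) := by
    rw [← Nat.cast_mul, ← Nat.cast_mul, Subgroup.index_mul_card, Subgroup.index_mul_card]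
  field_simp
  linear_combination -(∑ h : H, if IsConj g (h : G) then ξ h else 0) * hcc

end Cfsg.Agent.S0932
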