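import Cfsg.Statements.S0933
import Cfsg.Agent.Lib.Blocks.BrauerInduce
import Cfsg.Agent.Lib.Chars.Induced

set_option autoImplicit false
open Cfsg

namespace Cfsg.Agent.S0933

open CfsgLib.Chars CfsgLib.Blocks

/-- Let H be a subgroup of the finite group G and ξ an irreducible character of H such that the induced function ξ^G is an irreducible character of G. Then, relative to any maximal ideal M of the algebraic integers containing the prime p, the block of ξ induces the block of ξ^G. -/
theorem result {G : Type*} [Group G] [Fintype G] (p : ℕ) [Fact p.Prime] (M : Ideal Cfsg.AlgInt) (hM : Cfsg.IsPModular p M) (H : Subgroup G) (ξ : Cfsg.IrrCharacter H) (hind : Cfsg.IsIrrCharacter G (Cfsg.indFun H (ξ : H → ℂ))) : Cfsg.IsInducedBlock M H (Cfsg.blockOf M (ξ : H → ℂ)) (Cfsg.blockOf M (Cfsg.indFun H (ξ : H → ℂ))) := by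
  classical
  haveI : Fintype H := Fintype.ofFinite H
  let χ₀ : Cfsg.IrrCharacter G := ⟨_, hind⟩
  have hb : Cfsg.IsPBlock M (Cfsg.blockOf M (ξ : H → ℂ)) := isPBlock_blockOf ξ
  refine ⟨hb, isPBlock_blockOf χ₀, fun ξ' hξ' χ hχ g => ?_⟩
  have hreal : ∀ y : G, (starRingEnd ℂ) (classInd g y) = classInd g y := fun y => by
    rw [classInd]; split_ifs <;> simp
  have h1 := frobenius H (ξ : H → ℂ) (classInd_isClassFunction g)
  simp only [Cfsg.classInner, hreal] at h1
  have key : Cfsg.inducedCentralChar H (ξ : H → ℂ) g = Cfsg.centralChar (χ₀ : G → ℂ) g := by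
    rw [inducedCentralChar_eq, ← omega_classInd (IsCharacter.isClassFunction (isCharacter_irr χ₀)),
      omega, omega]
    simp only [χ₀, indFun_one]
    have hG := natCast_card_ne_zero G
    have hH := natCast_card_ne_zero H
    have e : (Nat.card G : ℂ) = (H.index : ℂ) * (Nat.card H : ℂ) := by
      rw [← Nat.cast_mul, H.index_mul_card]
    have hi : (H.index : ℂ) ≠ 0 := Nat.cast_ne_zero.mpr H.index_ne_zero_of_finite
    simp only [mul_comm (classInd g _)]
    rw [e] at h1
    have hx1 := irr_one_ne_zero ξ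
    field_simp at h1
    field_simp
    linear_combination -h1
  have e2 : Cfsg.MemLocalIdeal M (Cfsg.inducedCentralChar H (ξ' : H → ℂ) g -
      Cfsg.inducedCentralChar H (ξ : H → ℂ) g) := by
    rw [inducedCentralChar_eq, inducedCentralChar_eq]
    refine mli_omega_sub hM (IsPBlock.sameBlock hM hb hξ' (self_mem_blockOf hM ξ)) (fun a q => ?_)
      fun a => mlr_classInd hM g _
    simp only [Subgroup.coe_mul, InvMemClass.coe_inv]
    exact classInd_isClassFunction g (a : G) (q : G)
  have e3 : Cfsg.MemLocalIdeal M (Cfsg.centralChar (χ₀ : G → ℂ) g - Cfsg.centralChar (χ : G → ℂ) g) :=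
    hχ g
  have h := mli_add hM e2 e3
  rwa [key, sub_add_sub_cancel] at h

end Cfsg.Agent.S0933
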