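import Cfsg.Statements.S0934
import Cfsg.Agent.Lib.Blocks.SecondVanish

set_option autoImplicit false
open Cfsg

namespace Cfsg.Agent.S0934

open CfsgLib.Chars CfsgLib.Blocks

/-- Let H be a subgroup of the finite group G and fix a maximal ideal M of the algebraic integers containing the prime p. If the block b of H induces the block B of G and ξ ∈ b, then there is χ ∈ B whose restriction to H has nonzero inner product with ξ. -/
theorem result {G : Type*} [Group G] [Fintype G] (p : ℕ) [Fact p.Prime] (M : Ideal Cfsg.AlgInt) (hM : Cfsg.IsPModular p M) (H : Subgroup G) [Fintype H] (b : Set (Cfsg.IrrCharacter H)) (B : Set (Cfsg.IrrCharacter G)) (hind : Cfsg.IsInducedBlock M H b B) (ξ : Cfsg.IrrCharacter H) (hξ : ξ ∈ b) : ∃ χ ∈ B, Cfsg.classInner (fun h : H => (χ : G → ℂ) h) (ξ : H → ℂ) ≠ 0 := by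
  classical
  obtain ⟨χ, hχ⟩ := IsPBlock.nonempty hM hind.2.1
  by_contra hn
  push Not at hn
  have h1 := mli_omega_res_of_induced hM hind hξ hχ (blockCoeff_isClassFunction B)
    (mlr_blockCoeff hM hind.2.1)
  rw [omega_blockCoeff, indic_of_mem hχ] at h1
  have h0 : omega (ξ : H → ℂ) (fun h : H => Cfsg.blockCoeff B (h : G)) = 0 := by
    simp only [omega, blockCoeff_eq_sum, Finset.mul_sum, Finset.sum_mul]
    rw [Finset.sum_comm, Finset.sum_eq_zero, zero_div]
    intro φ hφ
    have e := congrArg (starRingEnd ℂ) (hn φ (Finset.mem_filter.mp hφ).2)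
    simp only [Cfsg.classInner, map_mul, map_zero, map_inv₀, map_natCast, map_sum,
      Complex.conj_conj, mul_eq_zero, inv_eq_zero] at e
    have e' := e.resolve_left (natCast_card_ne_zero H)
    simp only [mul_assoc]
    rw [← Finset.mul_sum, ← Finset.mul_sum, e', mul_zero, mul_zero]
  rw [h0, zero_sub] at h1
  have := mli_neg h1
  rw [neg_neg] at this
  exact not_mli_one hM this

end Cfsg.Agent.S0934
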