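import Cfsg.Statements.S0935
import Cfsg.Agent.Lib.Blocks.Contribution
import Cfsg.Agent.Lib.Blocks.BrauerFeit

set_option autoImplicit false
open Cfsg

namespace Cfsg.Agent.S0935

open CfsgLib.Chars CfsgLib.Blocks

/-- Let H be a subgroup of the finite group G and χ an irreducible character of G whose restriction to H is irreducible; fix a maximal ideal M of the algebraic integers containing the prime p and suppose χ and its restriction have height zero in their blocks B and b. If e is a block of H whose induced block is defined, then e induces B if and only if e = b. -/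
theorem result {G : Type*} [Group G] [Finite G] (p : ℕ) [Fact p.Prime] (M : Ideal Cfsg.AlgInt) (hM : Cfsg.IsPModular p M) (H : Subgroup G) (χ : Cfsg.IrrCharacter G) (hres : Cfsg.IsIrrCharacter H (fun h : H => (χ : G → ℂ) h)) (hχ0 : Cfsg.blockHeight p (Cfsg.blockOf M (χ : G → ℂ)) (χ : G → ℂ) = 0) (hψ0 : Cfsg.blockHeight p (Cfsg.blockOf M (fun h : H => (χ : G → ℂ) h)) (fun h : H => (χ : G → ℂ) h) = 0) (e : Set (Cfsg.IrrCharacter H)) (he : Cfsg.InducedBlockDefined M H e) : Cfsg.IsInducedBlock M H e (Cfsg.blockOf M (χ : G → ℂ)) ↔ e = Cfsg.blockOf M (fun h : H => (χ : G → ℂ) h) := by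
  classical
  haveI := Fintype.ofFinite G
  haveI : Fintype H := Fintype.ofFinite _
  set ψ : Cfsg.IrrCharacter H := ⟨_, hres⟩ with hψdef
  set f : G → ℂ := regTest p χ with hfdef
  have hfH : (fun h : H => f (h : G)) = regTest p ψ := by
    funext h
    simp only [hfdef, hψdef, regTest]
    by_cases ho : p ∣ orderOf (h : G)
    · rw [pRegularPart_of_singular ho, pRegularPart_of_singular (Subgroup.orderOf_coe h ▸ ho)]
    · rw [pRegularPart_of_regular ho, pRegularPart_of_regular (Subgroup.orderOf_coe h ▸ ho)]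
  have hfc : Cfsg.IsClassFunction G f := regTest_isClassFunction χ
  have hfl : ∀ g, Cfsg.MemLocalRing M (f g) := fun g => mlr_of_isIntegral hM (regTest_isIntegral χ g)
  have hψB := isPBlock_blockOf (M := M) ψ
  have hχB := isPBlock_blockOf (M := M) χ
  have hψs : ¬ Cfsg.MemLocalIdeal M (omega (ψ : H → ℂ) (regTest p ψ)) :=
    not_mli_omega_regTest_self hM hψB (self_mem_blockOf hM ψ) hψ0
  have hχs : ¬ Cfsg.MemLocalIdeal M (omega (χ : G → ℂ) f) :=
    not_mli_omega_regTest_self hM hχB (self_mem_blockOf hM χ) hχ0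
  constructor
  · intro hind
    obtain ⟨η, hη⟩ := IsPBlock.nonempty hM hind.1
    have h1 := mli_omega_res_of_induced hM hind hη (self_mem_blockOf hM χ) hfc hfl
    rw [hfH] at h1
    have h2 : ¬ Cfsg.MemLocalIdeal M (omega (η : H → ℂ) (regTest p ψ)) := fun h3 => hχs (by
      have := mli_sub hM h3 h1
      rwa [sub_sub_cancel] at this)
    rw [mli_omega_regTest_iff hM] at h2
    have h4 : Cfsg.SameBlock M (η : H → ℂ) (ψ : H → ℂ) := by
      by_contra hne
      exact h2 (by rw [regMat_eq_zero hM hne]; exact dvd_zero _)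
    rw [IsPBlock.eq_blockOf hM hind.1 hη]
    exact blockOf_eq_of_sameBlock hM h4
  · intro heq
    obtain ⟨B', hind⟩ := he
    subst heq
    obtain ⟨χ', hχ'⟩ := IsPBlock.nonempty hM hind.2.1
    have h1 := mli_omega_res_of_induced hM hind (self_mem_blockOf hM ψ) hχ' hfc hfl
    rw [hfH] at h1
    have h2 : ¬ Cfsg.MemLocalIdeal M (omega (χ' : G → ℂ) f) := fun h3 => hψs (by
      have := mli_add hM h1 h3
      rwa [sub_add_cancel] at this)
    rw [mli_omega_regTest_iff hM] at h2
    have h4 : Cfsg.SameBlock M (χ' : G → ℂ) (χ : G → ℂ) := by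
      by_contra hne
      exact h2 (by rw [regMat_eq_zero hM hne]; exact dvd_zero _)
    have hB' : B' = Cfsg.blockOf M (χ : G → ℂ) :=
      (IsPBlock.eq_blockOf hM hind.2.1 hχ').trans (blockOf_eq_of_sameBlock hM h4)
    rwa [hB'] at hind

end Cfsg.Agent.S0935
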