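import Cfsg.Statements.S0937
import Cfsg.Agent.Lib.Blocks.Contribution
import Cfsg.Agent.Lib.Blocks.BrauerFeit
import Cfsg.Agent.Lib.Chars.Orth

set_option autoImplicit false
open Cfsg

namespace Cfsg.Agent.S0937

open CfsgLib.Chars CfsgLib.Blocks

/-- Multiplicities in a character are natural numbers. -/
theorem classInner_nat {K : Type*} [Group K] [Fintype K] {θ : K → ℂ}
    (hθ : Cfsg.IsCharacter K θ) (ξ : Cfsg.IrrCharacter K) :
    ∃ n : ℕ, Cfsg.classInner θ (ξ : K → ℂ) = (n : ℂ) := by
  classical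
  obtain ⟨l, rfl⟩ := exists_list_irr hθ
  induction l with
  | nil => exact ⟨0, by simp [Cfsg.classInner]⟩
  | cons a l ih =>
    have hl : Cfsg.IsCharacter K (List.map Subtype.val l).sum :=
      IsCharacter.list_sum fun x hx => by
        obtain ⟨y, -, rfl⟩ := List.mem_map.mp hx
        exact isCharacter_irr y
    obtain ⟨m, hm⟩ := ih hl
    have e : Cfsg.classInner ((List.map Subtype.val (a :: l)).sum) (ξ : K → ℂ) =
        Cfsg.classInner (a : K → ℂ) (ξ : K → ℂ) +
          Cfsg.classInner (List.map Subtype.val l).sum (ξ : K → ℂ) := by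
      simp [Cfsg.classInner, List.sum_cons, add_mul, Finset.sum_add_distrib, mul_add]
    rw [e, hm, classInner_irr a ξ]
    exact ⟨(if a = ξ then 1 else 0) + m, by split_ifs <;> simp⟩

/-- Let H be a subgroup of the finite group G and fix a maximal ideal M of the algebraic integers containing the prime p. If the block b of H induces the block B of G and χ ∈ B has height zero, then there is ξ ∈ b of height zero whose multiplicity in the restriction of χ to H is a natural number not divisible by p. -/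
theorem result {G : Type*} [Group G] [Fintype G] (p : ℕ) [Fact p.Prime] (M : Ideal Cfsg.AlgInt) (hM : Cfsg.IsPModular p M) (H : Subgroup G) [Fintype H] (b : Set (Cfsg.IrrCharacter H)) (B : Set (Cfsg.IrrCharacter G)) (hind : Cfsg.IsInducedBlock M H b B) (χ : Cfsg.IrrCharacter G) (hχ : χ ∈ B) (h0 : Cfsg.blockHeight p B (χ : G → ℂ) = 0) : ∃ ξ ∈ b, Cfsg.blockHeight p b (ξ : H → ℂ) = 0 ∧ ∃ n : ℕ, Cfsg.classInner (fun h : H => (χ : G → ℂ) h) (ξ : H → ℂ) = (n : ℂ) ∧ ¬ p ∣ n := by
  classical
  have hnat : ∀ ξ : Cfsg.IrrCharacter H, ∃ n : ℕ,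
      Cfsg.classInner (fun h : H => (χ : G → ℂ) h) (ξ : H → ℂ) = (n : ℂ) := fun ξ =>
    classInner_nat (IsCharacter.restrict (isCharacter_irr χ) H) ξ
  choose n hn using hnat
  set f : G → ℂ := regTest p χ with hfdef
  have hfH : (fun h : H => f (h : G)) =
      fun h : H => ∑ ξ : Cfsg.IrrCharacter H, (n ξ : ℂ) * regTest p ξ h := by
    funext h
    simp only [hfdef, regTest]
    by_cases ho : p ∣ orderOf (h : G)
    · rw [pRegularPart_of_singular ho]
      refine (Finset.sum_eq_zero fun ξ _ => ?_).symm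
      rw [pRegularPart_of_singular (Subgroup.orderOf_coe h ▸ ho), mul_zero]
    · rw [pRegularPart_of_regular ho]
      have hh : ¬ p ∣ orderOf h := by rwa [← Subgroup.orderOf_coe]
      simp only [pRegularPart_of_regular hh]
      rw [show (χ : G → ℂ) (h : G) = ∑ ξ : Cfsg.IrrCharacter H, (n ξ : ℂ) * (ξ : H → ℂ) h from by
        rw [classFunction_expand (IsCharacter.isClassFunction
          (IsCharacter.restrict (isCharacter_irr χ) H)) h]
        simp only [hn], map_sum]
      simp only [map_mul, map_natCast]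
  obtain ⟨ξ₀, hξ₀, he0⟩ := exists_minExp hM hind.1
  have h0' : ¬ Cfsg.MemLocalIdeal M (omega (χ : G → ℂ) f) :=
    not_mli_omega_regTest_self hM hind.2.1 hχ h0
  have h1 := mli_omega_res_of_induced hM hind hξ₀ hχ (regTest_isClassFunction χ)
    (fun g => mlr_of_isIntegral hM (regTest_isIntegral (p := p) χ g))
  rw [hfH, omega_sum] at h1
  by_contra hcon
  push Not at hcon
  refine h0' ?_
  have h2 : Cfsg.MemLocalIdeal M
      (∑ ξ : Cfsg.IrrCharacter H, (n ξ : ℂ) * omega (ξ₀ : H → ℂ) (regTest p ξ)) := by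
    refine mli_sum hM _ fun ξ _ => ?_
    by_cases hd : p ∣ n ξ
    · exact mli_mul_right hM ((mli_natCast_iff hM _).mpr hd)
        (mlr_of_isIntegral hM (omega_isIntegral ξ₀ (regTest_isClassFunction ξ) (regTest_isIntegral ξ)))
    refine mli_mul_left hM (mlr_natCast hM _) ((mli_omega_regTest_iff hM ξ₀ ξ).mpr ?_)
    by_cases hξ : ξ ∈ b
    · have hh : Cfsg.blockHeight p b (ξ : H → ℂ) ≠ 0 := fun hz => hd (hcon ξ hξ hz (n ξ) (hn ξ))
      rw [regMat_symm hM.1, he0]
      refine dvd_trans (pow_dvd_pow _ ?_) (ppow_dvd_regMat hM.1 ξ ξ₀)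
      rw [blockHeight_eq] at hh
      omega
    · rw [regMat_eq_zero hM fun hs => hξ (IsPBlock.mem_of_sameBlock hM hind.1 hξ₀ hs)]
      exact dvd_zero _
  have := mli_sub hM h2 h1
  rwa [sub_sub_cancel] at this

end Cfsg.Agent.S0937
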