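import Cfsg.Statements.S0938
import Cfsg.Agent.Lib.Blocks.NormalPPrime

set_option autoImplicit false
open Cfsg

namespace Cfsg.Agent.S0938

open CfsgLib.Chars CfsgLib.Blocks

/-- Let B be a block of the finite group G relative to a maximal ideal M of the algebraic integers containing the prime p, and let χ ∈ B. Then the kernel of B (the set of g with ψ g = ψ 1 for all ψ ∈ B) is a normal subgroup of order prime to p contained in the kernel of χ, and it contains every normal subgroup of order prime to p on which χ takes the value χ(1); that is, it is O_p' of the kernel of χ. -/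
theorem result {G : Type*} [Group G] [Finite G] (p : ℕ) [Fact p.Prime] (M : Ideal Cfsg.AlgInt) (hM : Cfsg.IsPModular p M) (B : Set (Cfsg.IrrCharacter G)) (hB : Cfsg.IsPBlock M B) (χ : Cfsg.IrrCharacter G) (hχ : χ ∈ B) : ∃ K : Subgroup G, K.Normal ∧ (K : Set G) = Cfsg.blockKer B ∧ ¬ p ∣ Nat.card K ∧ (∀ g ∈ K, (χ : G → ℂ) g = (χ : G → ℂ) 1) ∧ ∀ N : Subgroup G, N.Normal → ¬ p ∣ Nat.card N → (∀ g ∈ N, (χ : G → ℂ) g = (χ : G → ℂ) 1) → N ≤ K := by
  classical
  haveI : Fintype G := Fintype.ofFinite G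
  let K : Subgroup G :=
    { carrier := Cfsg.blockKer B
      one_mem' := fun _ _ => rfl
      mul_mem' := fun {a b} ha hb φ hφ => by
        rw [IsCharacter.mul_kernel (isCharacter_irr φ) (ha φ hφ), hb φ hφ]
      inv_mem' := fun {a} ha φ hφ => by
        rw [IsCharacter.map_inv (isCharacter_irr φ), ha φ hφ, irr_apply_one, map_natCast] }
  refine ⟨K, ⟨fun a ha b φ hφ => ?_⟩, rfl, ?_, fun g hg => hg χ hχ, fun N hNn hNp hNχ g hg φ hφ => ?_⟩
  · rw [IsCharacter.isClassFunction (isCharacter_irr φ) a b]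
    exact ha φ hφ
  · intro hd
    obtain ⟨y, hy⟩ := exists_prime_orderOf_dvd_card' p hd
    have h0 := weak_orthogonality hM (B := B) hB (not_dvd_orderOf_one hM) (y := (y : G))
      (by rw [Subgroup.orderOf_coe, hy])
    have h1 : ∀ φ ∈ Finset.univ.filter (· ∈ B),
        (φ : G → ℂ) 1 * (starRingEnd ℂ) ((φ : G → ℂ) y) =
          ((Cfsg.charDegree (φ : G → ℂ) ^ 2 : ℕ) : ℂ) := fun φ hφ => by
      rw [y.2 φ (Finset.mem_filter.mp hφ).2, irr_apply_one, map_natCast, Nat.cast_pow, sq]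
    rw [Finset.sum_congr rfl h1, ← Nat.cast_sum, Nat.cast_eq_zero, Finset.sum_eq_zero_iff] at h0
    exact pow_ne_zero 2 (charDegree_pos χ).ne'
      (h0 χ (Finset.mem_filter.mpr ⟨Finset.mem_univ _, hχ⟩))
  · haveI := hNn
    obtain ⟨χ', hχ'⟩ := exists_deflate N χ hNχ
    have hs : Cfsg.SameBlock M ((χ' : G ⧸ N → ℂ) ∘ QuotientGroup.mk) (φ : G → ℂ) :=
      hχ' ▸ IsPBlock.sameBlock hM hB hχ hφ
    obtain ⟨φ', hφ', -⟩ := sameBlock_deflate hM N hNp χ' hs
    rw [hφ', Function.comp_apply, Function.comp_apply, (QuotientGroup.eq_one_iff g).mpr hg,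
      QuotientGroup.mk_one]

end Cfsg.Agent.S0938
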