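import Cfsg.Statements.S0939
import Cfsg.Agent.Lib.Blocks.Orth
import Cfsg.Agent.Lib.Blocks.PrincipalSection
import Cfsg.Agent.Lib.Core

set_option autoImplicit false
open Cfsg

namespace Cfsg.Agent.S0939

open CfsgLib.Chars CfsgLib.Blocks

/-- Let G be a finite group with a normal p-complement (the largest normal subgroup O_p'(G) of order prime to p has p-power index). Then, relative to any maximal ideal M of the algebraic integers containing p, the principal block of G is the set of irreducible characters χ with χ n = χ 1 for every n ∈ O_p'(G). -/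
theorem result {G : Type*} [Group G] [Finite G] (p : ℕ) [Fact p.Prime] (M : Ideal Cfsg.AlgInt) (hM : Cfsg.IsPModular p M) (hnc : ∃ k : ℕ, (Cfsg.pPrimeCore p G).index = p ^ k) : Cfsg.principalBlock M G = {χ : Cfsg.IrrCharacter G | ∀ n ∈ Cfsg.pPrimeCore p G, (χ : G → ℂ) n = (χ : G → ℂ) 1} := by
  classical
  haveI : Fintype G := Fintype.ofFinite G
  set N := Cfsg.pPrimeCore p G
  haveI : N.Characteristic := CfsgLib.Core.pPrimeCore_characteristic p
  have hcop := CfsgLib.Core.card_pPrimeCore_coprime (G := G) p
  obtain ⟨k, hk⟩ := hnc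
  have hreg : ∀ x : G, ¬ p ∣ orderOf x ↔ x ∈ N := fun x => by
    constructor
    · intro hx
      have h1 : orderOf (x : G ⧸ N) ∣ p ^ k := by
        rw [← hk, Subgroup.index_eq_card]; exact orderOf_dvd_natCard _
      refine (QuotientGroup.eq_one_iff x).mp (orderOf_eq_one_iff.mp ?_)
      exact Nat.eq_one_of_dvd_coprimes
        (((hM.1.coprime_iff_not_dvd.mpr hx).symm).pow_right k)
        (orderOf_map_dvd (QuotientGroup.mk' N) x) h1
    · intro hx hd
      have h1 : orderOf x ∣ Nat.card N := Subgroup.orderOf_dvd_natCard N hx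
      exact hM.1.coprime_iff_not_dvd.mp hcop.symm (hd.trans h1)
  ext χ
  constructor
  · intro hχ n hn
    have h := principal_apply_mul hM hχ N hcop hn 1
    rwa [mul_one] at h
  · intro hχ
    change ∀ n ∈ N, (χ : G → ℂ) n = (χ : G → ℂ) 1 at hχ
    by_contra hne
    have h0 := regInner_eq_zero hM (χ := χ) (ψ := trivIrr G) (fun h => hne (sameBlock_symm h))
    rw [regInner_eq, Finset.sum_congr rfl (g := fun _ => (χ : G → ℂ) 1), Finset.sum_const,
      nsmul_eq_mul] at h0
    · rcases mul_eq_zero.mp h0 with h | h
      · exact natCast_card_ne_zero G (inv_eq_zero.mp h)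
      rcases mul_eq_zero.mp h with h | h
      · rw [Nat.cast_eq_zero, Finset.card_eq_zero] at h
        exact (Finset.eq_empty_iff_forall_notMem.mp h) 1
          (Finset.mem_filter.mpr ⟨Finset.mem_univ _, not_dvd_orderOf_one hM⟩)
      · exact irr_one_ne_zero χ h
    · intro x hx
      rw [hχ x ((hreg x).mp (Finset.mem_filter.mp hx).2)]
      simp [trivIrr]

end Cfsg.Agent.S0939
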