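import Cfsg.Statements.S0940
import Cfsg.Agent.Lib.Blocks.PrincipalIdem

set_option autoImplicit false
open Cfsg

namespace Cfsg.Agent.S0940

open CfsgLib.Chars CfsgLib.Blocks

/-- Let G be a finite group and M a maximal ideal of the algebraic integers containing the prime p. For every p-regular g, the idempotent coefficient of the principal block at g (the inverse of the group order times the sum over χ in the principal block of χ 1 * conj (χ g)) is congruent modulo the local ideal at M to N / R, where N is the number of pairs (x, y) with x of p-power order, y of order prime to p and x * y = g, and R is the number of elements of G of order prime to p. -/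
theorem result {G : Type*} [Group G] [Finite G] (p : ℕ) [Fact p.Prime] (M : Ideal Cfsg.AlgInt) (hM : Cfsg.IsPModular p M) (g : G) (hg : ¬ p ∣ orderOf g) : Cfsg.MemLocalIdeal M (Cfsg.blockCoeff (Cfsg.principalBlock M G) g - (Nat.card {xy : G × G // (∃ k : ℕ, orderOf xy.1 = p ^ k) ∧ ¬ p ∣ orderOf xy.2 ∧ xy.1 * xy.2 = g} : ℂ) / (Nat.card {y : G // ¬ p ∣ orderOf y} : ℂ)) := by
  classical
  haveI : Fintype G := Fintype.ofFinite G
  have h := mli_principal_formula (M := M) hM hg
  have hN : ∑ x ∈ pEls p G, regInd p G (x * g) =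
      (Nat.card {xy : G × G // (∃ k : ℕ, orderOf xy.1 = p ^ k) ∧ ¬ p ∣ orderOf xy.2 ∧
        xy.1 * xy.2 = g} : ℂ) := by
    simp only [regInd]
    rw [Finset.sum_congr rfl fun x _ => (ite_not (p ∣ orderOf (x * g)) (1 : ℂ) 0).symm,
      Finset.sum_boole, Nat.card_eq_fintype_card, Fintype.card_subtype]
    congr 1
    refine Finset.card_bij' (fun x _ => (x⁻¹, x * g)) (fun xy _ => xy.1⁻¹) ?_ ?_ ?_ ?_
    · intro x hx
      obtain ⟨h1, h2⟩ := Finset.mem_filter.mp hx
      refine Finset.mem_filter.mpr ⟨Finset.mem_univ _, ?_, h2, inv_mul_cancel_left x g⟩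
      simpa using mem_pEls.mp h1
    · intro xy hxy
      obtain ⟨-, h1, h2, h3⟩ := Finset.mem_filter.mp hxy
      refine Finset.mem_filter.mpr ⟨mem_pEls.mpr (by simpa using h1), ?_⟩
      rwa [← h3, inv_mul_cancel_left]
    · intro x _; simp
    · intro xy hxy
      obtain ⟨-, -, -, h3⟩ := Finset.mem_filter.mp hxy
      ext <;> simp [← h3]
  have hr : ¬ MemLocalIdeal M (numReg p G : ℂ) :=
    fun h0 => not_dvd_numReg hM G ((mli_natCast_iff hM _).mp h0)
  have hr0 : (numReg p G : ℂ) ≠ 0 := fun h0 => hr (by rw [h0]; exact mli_zero hM)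
  have := mli_mul_left hM (mlr_inv (mlr_natCast hM _) hr) h
  rw [hN, mul_sub, inv_mul_cancel_left₀ hr0, inv_mul_eq_div] at this
  exact this

end Cfsg.Agent.S0940
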