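import Cfsg.Statements.S0944
import Cfsg.Agent.Lib.Chars.Orth

set_option autoImplicit false
open Cfsg

namespace Cfsg.Agent.S0944

open CfsgLib.Chars

/-- Let χ be an irreducible character of the finite group G and u an involution. Then χ u is a rational integer n with n ≡ χ 1 (mod 2). -/
theorem result {G : Type*} [Group G] [Finite G] (χ : Cfsg.IrrCharacter G) (u : G) (hu : orderOf u = 2) : ∃ n : ℤ, (χ : G → ℂ) u = (n : ℂ) ∧ (2 : ℤ) ∣ (Cfsg.charDegree (χ : G → ℂ) : ℤ) - n := by
  obtain ⟨l, hl, hk⟩ := exists_list_eigen (isCharacter_irr χ) u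
  have hlen : charDegree (χ : G → ℂ) = l.length := by
    have := (irr_apply_one χ).symm.trans (eigen_length hk)
    exact_mod_cast this
  have h1 := hk 1
  simp only [pow_one, List.map_id'] at h1
  rw [h1, hlen]
  clear hk hlen h1
  induction l with
  | nil => exact ⟨0, by simp, by simp⟩
  | cons a t ih =>
    obtain ⟨n, hn, d, hd⟩ := ih fun μ hμ => hl μ (by simp [hμ])
    have ha := hl a (by simp)
    rw [hu] at ha
    rcases sq_eq_one_iff.mp ha with rfl | rfl
    · exact ⟨1 + n, by simp [hn], d, by simp only [List.length_cons]; push_cast; linarith⟩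
    · exact ⟨-1 + n, by simp [hn], d + 1, by simp only [List.length_cons]; push_cast; linarith⟩

end Cfsg.Agent.S0944
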