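import Cfsg.Statements.S0945
import Mathlib.GroupTheory.Perm.Cycle.Type
import Mathlib.GroupTheory.Sylow
import Mathlib.GroupTheory.Index
import Mathlib.Data.ZMod.Basic

set_option autoImplicit false
open Cfsg

namespace Cfsg.Agent.S0945

open scoped commutatorElement

variable {G : Type*} [Group G] [Finite G]

theorem comm (P : Sylow 2 G) {m : ℕ} (e : (P : Subgroup G) ≃* Multiplicative (ZMod (2 ^ m) × ZMod (2 ^ m)))
    (a b : (P : Subgroup G)) : a * b = b * a := e.injective (by rw [map_mul, map_mul, mul_comm])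

theorem three (P : Sylow 2 G) {m : ℕ} (hm : 1 ≤ m)
    (e : (P : Subgroup G) ≃* Multiplicative (ZMod (2 ^ m) × ZMod (2 ^ m))) :
    Nat.card {x : (P : Subgroup G) // x ^ 2 = 1 ∧ x ≠ 1} = 3 := by
  classical
  set h : ZMod (2 ^ m) := ((2 ^ (m - 1) : ℕ) : ZMod (2 ^ m)) with hh
  haveI : NeZero (2 ^ m) := ⟨(pow_pos (by norm_num) m).ne'⟩
  have h2 : 2 ^ m = 2 * 2 ^ (m - 1) := by
    rw [← pow_succ']; congr 1; omega
  have hh0 : h ≠ 0 := by
    rw [hh, Ne, ZMod.natCast_eq_zero_iff]
    intro hd
    have := Nat.le_of_dvd (by positivity) hd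
    have : 0 < 2 ^ (m - 1) := by positivity
    omega
  have hhh : h + h = 0 := by
    rw [hh, ← Nat.cast_add, ← two_mul, ← h2, ZMod.natCast_self]
  have hz : ∀ x : ZMod (2 ^ m), x + x = 0 → x = 0 ∨ x = h := by
    intro x hx
    rw [← ZMod.natCast_zmod_val x, ← Nat.cast_add, ZMod.natCast_eq_zero_iff] at hx
    obtain ⟨c, hc⟩ := hx
    have hlt := ZMod.val_lt x
    have hc2 : c < 2 := by
      by_contra hge
      push Not at hge
      have := Nat.mul_le_mul_left (2 ^ m) hge
      omega
    interval_cases c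
    · left; rw [← ZMod.natCast_zmod_val x, show x.val = 0 by omega, Nat.cast_zero]
    · right; rw [← ZMod.natCast_zmod_val x, hh, show x.val = 2 ^ (m - 1) by omega]
  let S : Finset (ZMod (2 ^ m) × ZMod (2 ^ m)) := {(h, 0), (0, h), (h, h)}
  have hS : ∀ v, v ∈ S ↔ (v + v = 0 ∧ v ≠ 0) := by
    rintro ⟨a, b⟩
    constructor
    · intro hv
      simp only [S, Finset.mem_insert, Finset.mem_singleton] at hv
      rcases hv with hv | hv | hv <;> rw [hv] <;> simp [hhh, hh0]
    · rintro ⟨hv, hne⟩
      simp only [Prod.mk_add_mk, Prod.mk_eq_zero] at hv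
      rcases hz a hv.1 with rfl | rfl <;> rcases hz b hv.2 with rfl | rfl <;> simp [S] at hne ⊢
  have hcard : S.card = 3 := by
    simp only [S]
    rw [Finset.card_insert_of_notMem, Finset.card_insert_of_notMem, Finset.card_singleton] <;> simp [hh0, Ne.symm hh0]
  rw [← hcard, ← Nat.card_eq_finsetCard S]
  refine Nat.card_congr ((e.toEquiv.trans Multiplicative.toAdd).subtypeEquiv fun x => ?_)
  show _ ↔ Multiplicative.toAdd (e x) ∈ S
  rw [hS]
  constructor
  · rintro ⟨h1, h2'⟩
    refine ⟨?_, fun h0 => h2' (e.injective (by rw [map_one]; exact h0))⟩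
    rw [← toAdd_mul, ← map_mul, ← sq, h1, map_one, toAdd_one]
  · rintro ⟨h1, h2'⟩
    refine ⟨e.injective ?_, fun h0 => h2' (by rw [h0, map_one, toAdd_one])⟩
    rw [map_one, sq, map_mul]
    exact h1

/-- The involutions of `P`. -/
abbrev Inv2 (P : Sylow 2 G) : Type _ := {x : (P : Subgroup G) // x ^ 2 = 1 ∧ x ≠ 1}

/-- The action of the normalizer on the involutions of `P`. -/
def act (P : Sylow 2 G) : ↥(Subgroup.normalizer (P : Set G)) →* Equiv.Perm (Inv2 P) where
  toFun n :=
    { toFun := fun x => ⟨(P : Subgroup G).normalizerMonoidHom n x.1, by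
        refine ⟨by rw [← map_pow, x.2.1, map_one], fun h => x.2.2 ?_⟩
        exact ((P : Subgroup G).normalizerMonoidHom n).injective (h.trans (map_one _).symm)⟩
      invFun := fun x => ⟨(P : Subgroup G).normalizerMonoidHom n⁻¹ x.1, by
        refine ⟨by rw [← map_pow, x.2.1, map_one], fun h => x.2.2 ?_⟩
        exact ((P : Subgroup G).normalizerMonoidHom n⁻¹).injective (h.trans (map_one _).symm)⟩
      left_inv := fun x => Subtype.ext (by
        show (P : Subgroup G).normalizerMonoidHom n⁻¹ ((P : Subgroup G).normalizerMonoidHom n x.1) = x.1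
        rw [← MulAut.mul_apply, ← map_mul, inv_mul_cancel, map_one]; rfl)
      right_inv := fun x => Subtype.ext (by
        show (P : Subgroup G).normalizerMonoidHom n ((P : Subgroup G).normalizerMonoidHom n⁻¹ x.1) = x.1
        rw [← MulAut.mul_apply, ← map_mul, mul_inv_cancel, map_one]; rfl) }
  map_one' := Equiv.ext fun x => Subtype.ext (by
    show (P : Subgroup G).normalizerMonoidHom 1 x.1 = x.1
    rw [map_one]; rfl)
  map_mul' a b := Equiv.ext fun x => Subtype.ext (by
    show (P : Subgroup G).normalizerMonoidHom (a * b) x.1 = _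
    rw [map_mul]; rfl)

theorem act_coe (P : Sylow 2 G) (n : ↥(Subgroup.normalizer (P : Set G))) (x : Inv2 P) :
    (((act P n x).1 : (P : Subgroup G)) : G) = (n : G) * (x.1 : G) * (n : G)⁻¹ := rfl

theorem ker_act (P : Sylow 2 G) (hc : ∀ a b : (P : Subgroup G), a * b = b * a) :
    (act P).ker = (Subgroup.centralizer (P : Set G)).subgroupOf (Subgroup.normalizer (P : Set G)) := by
  classical
  ext n
  constructor
  swap
  · intro hn
    rw [MonoidHom.mem_ker]
    refine Equiv.ext fun x => Subtype.ext (Subtype.ext ?_)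
    rw [act_coe, Equiv.Perm.one_apply, ← Subgroup.mem_centralizer_iff.mp (Subgroup.mem_subgroupOf.mp hn) _ x.1.2,
      mul_inv_cancel_right]
  intro hn
  set C := (Subgroup.centralizer (P : Set G)).subgroupOf (Subgroup.normalizer (P : Set G)) with hC
  -- an element of odd order in the kernel centralises `P`
  have hodd : ∀ g : ↥(Subgroup.normalizer (P : Set G)), g ∈ (act P).ker → Odd (orderOf g) → g ∈ C := by
    intro g hg ho
    set α := (P : Subgroup G).normalizerMonoidHom g with hα
    have hαo : α ^ orderOf g = 1 := by rw [hα, ← map_pow, pow_orderOf_eq_one, map_one]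
    have key : ∀ j : ℕ, ∀ x : (P : Subgroup G), x ^ 2 ^ j = 1 → α x = x := by
      intro j
      induction j with
      | zero => intro x hx; rw [pow_zero, pow_one] at hx; rw [hx, map_one]
      | succ j ih =>
        intro x hx
        have h1 : α (x ^ 2) = x ^ 2 := ih _ (by rw [← pow_mul, ← pow_succ']; exact hx)
        set y := x⁻¹ * α x with hy
        have hy2 : y ^ 2 = 1 := by
          rw [hy, (show Commute x⁻¹ (α x) from hc _ _).mul_pow, ← map_pow, h1, inv_pow, inv_mul_cancel]
        have hay : α y = y := by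
          by_cases h0 : y = 1
          · rw [h0, map_one]
          · have := congrArg (fun σ : Equiv.Perm (Inv2 P) => (σ ⟨y, hy2, h0⟩).1) (MonoidHom.mem_ker.mp hg)
            exact this
        have hit : ∀ r : ℕ, (α ^ r) x = x * y ^ r := by
          intro r
          induction r with
          | zero => simp
          | succ r ihr =>
            rw [pow_succ', MulAut.mul_apply, ihr, map_mul, map_pow, hay, hy, pow_succ', ← mul_assoc,
              ← mul_assoc, mul_inv_cancel, one_mul]
        have h3 := hit (orderOf g)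
        rw [hαo, MulAut.one_apply] at h3
        have h4 : y ^ orderOf g = 1 := left_eq_mul.mp h3
        obtain ⟨c, hcc⟩ := ho
        rw [hcc, pow_succ, pow_mul, hy2, one_pow, one_mul] at h4
        rw [hy, inv_mul_eq_one] at h4
        exact h4.symm
    rw [hC, Subgroup.mem_subgroupOf, Subgroup.mem_centralizer_iff]
    intro a ha
    obtain ⟨j, hj⟩ := P.2 ⟨a, ha⟩
    have h5 : (g : G) * a * (g : G)⁻¹ = a := congrArg Subtype.val (key j ⟨a, ha⟩ hj)
    exact (mul_inv_eq_iff_eq_mul.mp h5).symm
  -- the 2-part lies in `C` as well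
  have hPC : (P : Subgroup G) ≤ Subgroup.centralizer (P : Set G) := fun a ha =>
    Subgroup.mem_centralizer_iff.mpr fun b hb => congrArg Subtype.val (hc ⟨b, hb⟩ ⟨a, ha⟩)
  obtain ⟨k, r, hr, hkr⟩ := Nat.exists_eq_two_pow_mul_odd (orderOf_pos n).ne'
  have h1 : n ^ 2 ^ k ∈ C := hodd _ (Subgroup.pow_mem _ hn _) (by
    rw [orderOf_pow' n (pow_ne_zero k two_ne_zero), hkr, Nat.gcd_mul_right_left, Nat.mul_div_cancel_left _ (by positivity)]
    exact hr)
  haveI : C.Normal := by
    rw [hC]
    infer_instance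
  have h2 : n ^ C.index ∈ C := by simpa [Subgroup.index] using Subgroup.pow_index_mem C n
  have hci : Nat.Coprime (2 ^ k) C.index := by
    refine (Nat.prime_two.coprime_iff_not_dvd.mpr fun hd => ?_).pow_left k
    have hle : (P : Subgroup G).subgroupOf (Subgroup.normalizer (P : Set G)) ≤ C := fun a ha => hPC ha
    exact P.not_dvd_index (hd.trans ((Subgroup.index_dvd_of_le hle).trans
      (Subgroup.relIndex_dvd_index_of_le Subgroup.le_normalizer)))
  have hb := Nat.gcd_eq_gcd_ab (2 ^ k) C.index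
  rw [hci.gcd_eq_one, Nat.cast_one] at hb
  have : n = (n ^ (2 ^ k)) ^ Nat.gcdA (2 ^ k) C.index * (n ^ C.index) ^ Nat.gcdB (2 ^ k) C.index := by
    rw [← zpow_natCast n (2 ^ k), ← zpow_natCast n C.index, ← zpow_mul, ← zpow_mul, ← zpow_add, ← hb, zpow_one]
  rw [this]
  exact C.mul_mem (C.zpow_mem h1 _) (C.zpow_mem h2 _)

theorem index_cases (P : Sylow 2 G) {m : ℕ} (hm : 1 ≤ m)
    (e : (P : Subgroup G) ≃* Multiplicative (ZMod (2 ^ m) × ZMod (2 ^ m))) :
    ((Subgroup.centralizer (P : Set G)).relIndex (Subgroup.normalizer (P : Set G)) = 1 ∨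
      (Subgroup.centralizer (P : Set G)).relIndex (Subgroup.normalizer (P : Set G)) = 3) ∧
    ((Subgroup.centralizer (P : Set G)).relIndex (Subgroup.normalizer (P : Set G)) = Nat.card (act P).range) := by
  classical
  have hc := comm P e
  have heq : (Subgroup.centralizer (P : Set G)).relIndex (Subgroup.normalizer (P : Set G)) = Nat.card (act P).range := by
    rw [← Subgroup.index_ker, ker_act P hc]
    rfl
  refine ⟨?_, heq⟩
  have hd : Nat.card (act P).range ∣ 6 := by
    refine (Subgroup.card_subgroup_dvd_card _).trans ?_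
    haveI := Fintype.ofFinite (Inv2 P)
    rw [Nat.card_eq_fintype_card, Fintype.card_perm, ← Nat.card_eq_fintype_card, three P hm e]
    decide
  have ho : ¬ 2 ∣ Nat.card (act P).range := by
    intro h
    rw [← heq] at h
    have hPC : (P : Subgroup G) ≤ Subgroup.centralizer (P : Set G) := fun a ha =>
      Subgroup.mem_centralizer_iff.mpr fun b hb => congrArg Subtype.val (hc ⟨b, hb⟩ ⟨a, ha⟩)
    exact P.not_dvd_index (h.trans ((Subgroup.relIndex_dvd_of_le_left _ hPC).trans
      (Subgroup.relIndex_dvd_index_of_le Subgroup.le_normalizer)))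
  rw [heq]
  have := Nat.le_of_dvd (by norm_num) hd
  interval_cases (Nat.card (act P).range) <;> simp_all

/-- A nontrivial element of the range is a three-cycle. -/
theorem cycle_of_ne (P : Sylow 2 G) {m : ℕ} (hm : 1 ≤ m)
    (e : (P : Subgroup G) ≃* Multiplicative (ZMod (2 ^ m) × ZMod (2 ^ m)))
    (h3 : Nat.card (act P).range = 3) [Fintype (Inv2 P)] [DecidableEq (Inv2 P)]
    (n : ↥(Subgroup.normalizer (P : Set G))) (hn : act P n ≠ 1) :
    (act P n).IsCycle ∧ (act P n).support = Finset.univ := by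
  have hd : orderOf (act P n) ∣ 3 := by
    rw [← h3]
    exact (Subgroup.orderOf_mk (H := (act P).range) (act P n) ⟨n, rfl⟩) ▸ orderOf_dvd_natCard _
  have ho : orderOf (act P n) = 3 := ((Nat.dvd_prime Nat.prime_three).mp hd).resolve_left
    fun h => hn (orderOf_eq_one_iff.mp h)
  have hI : Fintype.card (Inv2 P) = 3 := by rw [← Nat.card_eq_fintype_card]; exact three P hm e
  have hc : (act P n).IsCycle := by
    refine Equiv.Perm.isCycle_of_prime_order (by rw [ho]; exact Nat.prime_three) ?_
    have := (act P n).support.card_le_univ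
    omega
  refine ⟨hc, Finset.eq_univ_of_card _ ?_⟩
  rw [← hc.orderOf, ho, hI]

/-- Let P be a Sylow 2-subgroup of the finite group G isomorphic to Z/2^m × Z/2^m with m ≥ 1. Then (i) the index of C_G(P) in N_G(P) is 1 or 3, and (ii) if it is not 1, then for every z ≠ 1 in P, C_G(z) ∩ N_G(P) = C_G(P). -/
theorem result {G : Type*} [Group G] [Finite G] (P : Sylow 2 G) (m : ℕ) (hm : 1 ≤ m) (e : (P : Subgroup G) ≃* Multiplicative (ZMod (2 ^ m) × ZMod (2 ^ m))) : ((Subgroup.centralizer (P : Set G)).relIndex (Subgroup.normalizer (P : Set G)) = 1 ∨ (Subgroup.centralizer (P : Set G)).relIndex (Subgroup.normalizer (P : Set G)) = 3) ∧ ((Subgroup.centralizer (P : Set G)).relIndex (Subgroup.normalizer (P : Set G)) ≠ 1 → ∀ z ∈ (P : Subgroup G), z ≠ 1 → Subgroup.centralizer ({z} : Set G) ⊓ Subgroup.normalizer (P : Set G) = Subgroup.centralizer (P : Set G)) := by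
  classical
  obtain ⟨h13, heq⟩ := index_cases P hm e
  refine ⟨h13, fun hne z hz hz1 => le_antisymm ?_ ?_⟩
  swap
  · refine le_inf (fun a ha => ?_) (Subgroup.centralizer_le_normalizer _)
    rw [Subgroup.mem_centralizer_singleton_iff]
    exact (Subgroup.mem_centralizer_iff.mp ha z hz).symm
  rintro n ⟨hnz, hnN⟩
  by_contra hnC
  haveI : Fintype (Inv2 P) := Fintype.ofFinite _
  have hne1 : act P ⟨n, hnN⟩ ≠ 1 := fun h => hnC (by
    have : (⟨n, hnN⟩ : ↥(Subgroup.normalizer (P : Set G))) ∈ (act P).ker := h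
    rw [ker_act P (comm P e)] at this
    exact this)
  obtain ⟨-, hs⟩ := cycle_of_ne P hm e (heq ▸ h13.resolve_left hne) ⟨n, hnN⟩ hne1
  obtain ⟨j, hj⟩ := IsPGroup.iff_orderOf.mp P.2 ⟨z, hz⟩
  rcases j with _ | j
  · rw [pow_zero, orderOf_eq_one_iff] at hj
    exact hz1 (congrArg Subtype.val hj)
  have ht2 : ((⟨z, hz⟩ : (P : Subgroup G)) ^ 2 ^ j) ^ 2 = 1 := by
    rw [← pow_mul, ← pow_succ, ← hj, pow_orderOf_eq_one]
  have ht1 : (⟨z, hz⟩ : (P : Subgroup G)) ^ 2 ^ j ≠ 1 := fun h => by
    have := Nat.le_of_dvd (by positivity) (orderOf_dvd_of_pow_eq_one h)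
    rw [hj, pow_succ] at this
    have : 0 < 2 ^ j := by positivity
    omega
  have hfix : act P ⟨n, hnN⟩ ⟨_, ht2, ht1⟩ = ⟨_, ht2, ht1⟩ := by
    apply Subtype.ext; apply Subtype.ext
    rw [act_coe]
    have hnz' : Commute n z := Subgroup.mem_centralizer_singleton_iff.mp hnz
    show n * (z ^ 2 ^ j) * n⁻¹ = z ^ 2 ^ j
    rw [(hnz'.pow_right _).eq, mul_inv_cancel_right]
  exact Equiv.Perm.mem_support.mp (hs ▸ Finset.mem_univ (⟨_, ht2, ht1⟩ : Inv2 P)) hfix

end Cfsg.Agent.S0945
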