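import Cfsg.Statements.S0946
import Cfsg.Agent.S0945
import Mathlib.GroupTheory.Transfer
import Mathlib.GroupTheory.Perm.Cycle.Type
import Mathlib.GroupTheory.PGroup

set_option autoImplicit false
open Cfsg

namespace Cfsg.Agent.S0946

open scoped Pointwise

/-- Let P be a Sylow 2-subgroup of the finite group G isomorphic to Z/2^m × Z/2^m with m ≥ 1. Then either P has a normal complement in G, or all involutions of G are conjugate. -/
theorem result {G : Type*} [Group G] [Finite G] (P : Sylow 2 G) (m : ℕ) (hm : 1 ≤ m) (e : (P : Subgroup G) ≃* Multiplicative (ZMod (2 ^ m) × ZMod (2 ^ m))) : (∃ N : Subgroup G, N.Normal ∧ Subgroup.IsComplement' N (P : Subgroup G)) ∨ ∀ s t : G, orderOf s = 2 → orderOf t = 2 → IsConj s t := by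
  classical
  obtain ⟨h13, heq⟩ := Cfsg.Agent.S0945.index_cases P hm e
  rcases h13 with h | h
  · left
    rw [Subgroup.relIndex_eq_one] at h
    haveI : Fact (Nat.Prime 2) := ⟨Nat.prime_two⟩
    exact ⟨(MonoidHom.transferSylow P h).ker, inferInstance, MonoidHom.ker_transferSylow_isComplement' P h⟩
  right
  haveI : Fintype (Cfsg.Agent.S0945.Inv2 P) := Fintype.ofFinite _
  have h3 : Nat.card (Cfsg.Agent.S0945.act P).range = 3 := heq ▸ h
  obtain ⟨n, hn⟩ : ∃ n, Cfsg.Agent.S0945.act P n ≠ 1 := by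
    by_contra hno
    push Not at hno
    have hb : (Cfsg.Agent.S0945.act P).range = ⊥ := by
      rw [MonoidHom.range_eq_bot_iff]; exact MonoidHom.ext hno
    rw [hb, Subgroup.card_bot] at h3
    omega
  obtain ⟨hc, hs⟩ := Cfsg.Agent.S0945.cycle_of_ne P hm e h3 n hn
  have hinP : ∀ s : G, orderOf s = 2 → ∃ x : Cfsg.Agent.S0945.Inv2 P, IsConj s ((x.1 : (P : Subgroup G)) : G) := by
    intro s hs2
    have hz : IsPGroup 2 (Subgroup.zpowers s) := IsPGroup.of_card (n := 1) (by rw [Nat.card_zpowers, hs2, pow_one])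
    obtain ⟨Q, hQ⟩ := hz.exists_le_sylow
    obtain ⟨g, hg⟩ := MulAction.exists_smul_eq G Q P
    have hmem : g * s * g⁻¹ ∈ (P : Subgroup G) := by
      rw [← hg, Sylow.coe_subgroup_smul, Subgroup.mem_pointwise_smul_iff_inv_smul_mem, MulAut.smul_def,
        MulAut.conj_inv_apply]
      simpa [mul_assoc] using hQ (Subgroup.mem_zpowers s)
    refine ⟨⟨⟨_, hmem⟩, ?_, ?_⟩, isConj_iff.mpr ⟨g, rfl⟩⟩
    · apply Subtype.ext
      show (g * s * g⁻¹) ^ 2 = 1
      rw [conj_pow, ← hs2, pow_orderOf_eq_one, mul_one, mul_inv_cancel]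
    · intro h1
      have h1' : g * s * g⁻¹ = 1 := congrArg Subtype.val h1
      rw [mul_inv_eq_one, mul_eq_left] at h1'
      rw [h1', orderOf_one] at hs2
      omega
  intro s t hs2 ht2
  obtain ⟨x, hx⟩ := hinP s hs2
  obtain ⟨y, hy⟩ := hinP t ht2
  obtain ⟨i, hi⟩ := hc.sameCycle (Equiv.Perm.mem_support.mp (hs ▸ Finset.mem_univ x))
    (Equiv.Perm.mem_support.mp (hs ▸ Finset.mem_univ y))
  rw [← map_zpow] at hi
  refine hx.trans (IsConj.trans (isConj_iff.mpr ⟨((n ^ i : ↥(Subgroup.normalizer (P : Set G))) : G), ?_⟩) hy.symm)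
  rw [← Cfsg.Agent.S0945.act_coe P (n ^ i) x, hi]

end Cfsg.Agent.S0946
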