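import Cfsg.Statements.S0947
import Cfsg.Agent.Lib.Blocks.PrincipalOrth

set_option autoImplicit false
open Cfsg

namespace Cfsg.Agent.S0947

open CfsgLib.Chars CfsgLib.Blocks

/-- Let z ≠ 1 be a p-element of the finite group G with centralizer H, and fix a maximal ideal M of the algebraic integers containing p. (i) For every y ∈ H of order prime to p, the sum over ζ in the principal block of G of |ζ (z * y)|² equals the sum over χ in the principal block of H of |χ y|². (ii) If moreover H has a normal p-complement (its largest normal subgroup of order prime to p has p-power index), that common value is the largest power of p dividing the order of H. -/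
theorem result {G : Type*} [Group G] [Finite G] (p : ℕ) [Fact p.Prime] (M : Ideal Cfsg.AlgInt) (hM : Cfsg.IsPModular p M) (z : G) (hz : ∃ k : ℕ, orderOf z = p ^ k) (hz1 : z ≠ 1) (y : Subgroup.centralizer ({z} : Set G)) (hy : ¬ p ∣ orderOf y) : (∑ᶠ ζ ∈ Cfsg.principalBlock M G, ‖(ζ : G → ℂ) (z * (y : G))‖ ^ 2 = ∑ᶠ χ ∈ Cfsg.principalBlock M (Subgroup.centralizer ({z} : Set G)), ‖(χ : Subgroup.centralizer ({z} : Set G) → ℂ) y‖ ^ 2) ∧ ((∃ k : ℕ, (Cfsg.pPrimeCore p (Subgroup.centralizer ({z} : Set G))).index = p ^ k) → ∑ᶠ ζ ∈ Cfsg.principalBlock M G, ‖(ζ : G → ℂ) (z * (y : G))‖ ^ 2 = ((p ^ (Nat.card (Subgroup.centralizer ({z} : Set G))).factorization p : ℕ) : ℝ)) := by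
  classical
  haveI : Fintype G := Fintype.ofFinite G
  haveI : Fintype (Subgroup.centralizer ({z} : Set G)) := Fintype.ofFinite _
  obtain ⟨k, hk⟩ := hz
  have hC : ∀ g, g ∈ Subgroup.centralizer ({z} : Set G) ↔ Commute g z := fun g =>
    Subgroup.mem_centralizer_singleton_iff
  have key := principal_sec_sq hM hk hC (M := M) hy
  have hre : ∀ {ι : Type _} (s : Finset ι) (a : ι → ℂ),
      ((∑ i ∈ s, ‖a i‖ ^ 2 : ℝ) : ℂ) = ∑ i ∈ s, a i * (starRingEnd ℂ) (a i) := by
    intro ι s a
    push_cast
    refine Finset.sum_congr rfl fun i _ => ?_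
    rw [Complex.mul_conj, Complex.normSq_eq_norm_sq]
    push_cast
    rfl
  have h1 : (∑ ζ ∈ Finset.univ.filter (· ∈ principalBlock M G),
      ‖(ζ : G → ℂ) (z * (y : G))‖ ^ 2 : ℝ) =
      ∑ φ ∈ Finset.univ.filter (· ∈ principalBlock M (Subgroup.centralizer ({z} : Set G))),
        ‖(φ : Subgroup.centralizer ({z} : Set G) → ℂ) y‖ ^ 2 := by
    apply Complex.ofReal_injective
    rw [hre, hre]
    exact key
  rw [finsum_mem_eq_toFinset_sum, finsum_mem_eq_toFinset_sum, ← Set.filter_mem_univ_eq_toFinset,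
    ← Set.filter_mem_univ_eq_toFinset]
  refine ⟨?_, fun hj => ?_⟩
  · convert h1 using 3
  · refine Eq.trans (b := ∑ φ ∈ Finset.univ.filter
      (· ∈ principalBlock M (Subgroup.centralizer ({z} : Set G))),
        ‖(φ : Subgroup.centralizer ({z} : Set G) → ℂ) y‖ ^ 2) (by convert h1 using 3) ?_
    apply Complex.ofReal_injective
    rw [hre, principal_sum_sq_of_complement hM hj hy, Complex.ofReal_natCast]

end Cfsg.Agent.S0947
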