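import Cfsg.Statements.S0948
import Cfsg.Agent.Lib.Blocks.KleinPrincipal

set_option autoImplicit false
open Cfsg

namespace Cfsg.Agent.S0948

set_option linter.style.haveILetI false
open CfsgLib.Chars CfsgLib.Blocks

/-- Let the finite group G have a Sylow 2-subgroup P that is a Klein four-group, suppose all involutions of G are conjugate, and fix a maximal ideal M of the algebraic integers containing 2. Then the principal block consists of exactly four irreducible characters, the principal character and ζ₂, ζ₃, ζ₄, and there is a sign ε such that for every involution z: ζ₂ z = 1, ζ₃ z = ε, ζ₄ z = -1; moreover ζ₂ 1 ≡ 1, ζ₃ 1 ≡ ε, ζ₄ 1 ≡ -1 (mod 4), and 1 + ζ₂ y + ε ζ₃ y - ζ₄ y = 0 for every y of odd order. -/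
theorem result {G : Type*} [Group G] [Finite G] (M : Ideal Cfsg.AlgInt) (hM : Cfsg.IsPModular 2 M) (P : Sylow 2 G) (hP : IsKleinFour (P : Subgroup G)) (hone : ∀ s t : G, orderOf s = 2 → orderOf t = 2 → IsConj s t) : ∃ ζ₂ ζ₃ ζ₄ : Cfsg.IrrCharacter G, ∃ ε : ℤ, (ε = 1 ∨ ε = -1) ∧ (ζ₂ : G → ℂ) ≠ (fun _ => 1) ∧ (ζ₃ : G → ℂ) ≠ (fun _ => 1) ∧ ζ₂ ≠ ζ₃ ∧ ζ₂ ≠ ζ₄ ∧ ζ₃ ≠ ζ₄ ∧ Cfsg.principalBlock M G = {χ : Cfsg.IrrCharacter G | (χ : G → ℂ) = (fun _ => 1) ∨ χ = ζ₂ ∨ χ = ζ₃ ∨ χ = ζ₄} ∧ (∀ z : G, orderOf z = 2 → (ζ₂ : G → ℂ) z = 1 ∧ (ζ₃ : G → ℂ) z = (ε : ℂ) ∧ (ζ₄ : G → ℂ) z = -1) ∧ (4 : ℤ) ∣ (Cfsg.charDegree (ζ₂ : G → ℂ) : ℤ) - 1 ∧ (4 : ℤ) ∣ (Cfsg.charDegree (ζ₃ : G → ℂ) : ℤ) - ε ∧ (4 : ℤ) ∣ (Cfsg.charDegree (ζ₄ : G → ℂ) : ℤ) + 1 ∧ ∀ y : G, Odd (orderOf y) → 1 + (ζ₂ : G → ℂ) y + (ε : ℂ) * (ζ₃ : G → ℂ) y - (ζ₄ : G → ℂ) y = 0 := by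
  classical
  haveI : Fintype G := Fintype.ofFinite G
  haveI : Fact (Nat.Prime 2) := ⟨Nat.prime_two⟩
  obtain ⟨t, ht⟩ : ∃ t : G, orderOf t = 2 := exists_prime_orderOf_dvd_card' 2
    (Nat.dvd_of_factorization_pos (by rw [KP.factorization_two P hP]; norm_num))
  obtain ⟨hcard, hpm⟩ := KP.structure_at P hM hP hone ht
  set S := Finset.univ.filter (· ∈ Cfsg.principalBlock M G) with hS
  have h1S : trivIrr G ∈ S :=
    Finset.mem_filter.mpr ⟨Finset.mem_univ _, self_mem_blockOf hM (trivIrr G)⟩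
  set T := S.erase (trivIrr G) with hT
  have hT3 : T.card = 3 := by rw [hT, Finset.card_erase_of_mem h1S, hcard]
  have hmem : ∀ χ ∈ T, χ ∈ Cfsg.principalBlock M G ∧ χ ≠ trivIrr G := fun χ hχ =>
    ⟨(Finset.mem_filter.mp (Finset.mem_of_mem_erase hχ)).2, Finset.ne_of_mem_erase hχ⟩
  have horth : ∀ y : G, ¬ 2 ∣ orderOf y →
      1 + ∑ χ ∈ T, (χ : G → ℂ) y * (χ : G → ℂ) t = 0 := by
    intro y hy
    have h := KP.orth P hM hP hone ht hy
    rw [← Finset.add_sum_erase _ _ h1S] at h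
    rw [show (trivIrr G : G → ℂ) y = 1 from rfl, show (trivIrr G : G → ℂ) t = 1 from rfl,
      mul_one] at h
    exact h
  have hdeg : 1 + ∑ χ ∈ T, ((Cfsg.charDegree (χ : G → ℂ) : ℕ) : ℂ) * (χ : G → ℂ) t = 0 := by
    simp only [← irr_apply_one]
    exact horth 1 (not_dvd_orderOf_one hM)
  -- both signs occur
  obtain ⟨z4, hz4, h4⟩ : ∃ χ ∈ T, (χ : G → ℂ) t = -1 := by
    by_contra hno
    push Not at hno
    rw [Finset.sum_congr rfl (g := fun χ : Cfsg.IrrCharacter G => ((Cfsg.charDegree (χ : G → ℂ) : ℕ) : ℂ))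
      (fun χ hχ => by rw [(hpm χ (hmem χ hχ).1).resolve_right (hno χ hχ), mul_one]),
      ← Nat.cast_sum, add_comm, ← Nat.cast_succ, Nat.cast_eq_zero] at hdeg
    exact Nat.succ_ne_zero _ hdeg
  obtain ⟨z2, hz2, h2⟩ : ∃ χ ∈ T, (χ : G → ℂ) t = 1 := by
    by_contra hno
    push Not at hno
    rw [Finset.sum_congr rfl (g := fun χ : Cfsg.IrrCharacter G => -((Cfsg.charDegree (χ : G → ℂ) : ℕ) : ℂ))
      (fun χ hχ => by rw [(hpm χ (hmem χ hχ).1).resolve_left (hno χ hχ), mul_neg_one]),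
      Finset.sum_neg_distrib, ← Nat.cast_sum, ← sub_eq_add_neg, sub_eq_zero] at hdeg
    have e : ∑ χ ∈ T, Cfsg.charDegree (χ : G → ℂ) = 1 := by exact_mod_cast hdeg.symm
    have h3 := Finset.card_nsmul_le_sum T (fun χ : Cfsg.IrrCharacter G => Cfsg.charDegree (χ : G → ℂ)) 1
      fun χ _ => charDegree_pos χ
    rw [e, hT3] at h3
    simp at h3
  have h24 : z2 ≠ z4 := fun e => by
    rw [e, h4] at h2
    norm_num at h2
  obtain ⟨z3, hz3⟩ : ∃ z3, (T.erase z2).erase z4 = {z3} := by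
    apply Finset.card_eq_one.mp
    rw [Finset.card_erase_of_mem (Finset.mem_erase.mpr ⟨h24.symm, hz4⟩),
      Finset.card_erase_of_mem hz2, hT3]
  obtain ⟨h34, h32, hz3T⟩ : z3 ≠ z4 ∧ z3 ≠ z2 ∧ z3 ∈ T := by
    have : z3 ∈ (T.erase z2).erase z4 := by rw [hz3]; exact Finset.mem_singleton_self _
    simpa [Finset.mem_erase] using this
  have hsum : ∀ F : Cfsg.IrrCharacter G → ℂ, ∑ χ ∈ T, F χ = F z2 + F z3 + F z4 := fun F => by
    rw [← Finset.add_sum_erase _ _ hz2, ← Finset.add_sum_erase _ _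
      (Finset.mem_erase.mpr ⟨h24.symm, hz4⟩), hz3, Finset.sum_singleton]
    ring
  obtain ⟨ε, hε, h3⟩ : ∃ ε : ℤ, (ε = 1 ∨ ε = -1) ∧ (z3 : G → ℂ) t = (ε : ℂ) := by
    rcases hpm z3 (hmem z3 hz3T).1 with h | h
    · exact ⟨1, Or.inl rfl, by rw [h, Int.cast_one]⟩
    · exact ⟨-1, Or.inr rfl, by rw [h]; norm_num⟩
  have hne : ∀ χ ∈ T, (χ : G → ℂ) ≠ fun _ => 1 := fun χ hχ h => (hmem χ hχ).2 (Subtype.ext h)
  refine ⟨z2, z3, z4, ε, hε, hne z2 hz2, hne z3 hz3T, h32.symm, h24, h34, ?_, ?_, ?_, ?_, ?_, ?_⟩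
  · ext χ
    simp only [Set.mem_ofPred_eq]
    constructor
    · intro hχ
      by_cases h : χ = trivIrr G
      · exact Or.inl (by rw [h]; rfl)
      · right
        have hχT : χ ∈ T := Finset.mem_erase.mpr ⟨h, Finset.mem_filter.mpr ⟨Finset.mem_univ _, hχ⟩⟩
        by_cases e2 : χ = z2
        · exact Or.inl e2
        by_cases e4 : χ = z4
        · exact Or.inr (Or.inr e4)
        · have : χ ∈ ({z3} : Finset (Cfsg.IrrCharacter G)) := by
            rw [← hz3]; simp [Finset.mem_erase, e2, e4, hχT]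
          exact Or.inr (Or.inl (Finset.mem_singleton.mp this))
    · rintro (h | rfl | rfl | rfl)
      · rw [show χ = trivIrr G from Subtype.ext h]
        exact self_mem_blockOf hM (trivIrr G)
      exacts [(hmem _ hz2).1, (hmem _ hz3T).1, (hmem _ hz4).1]
  · intro z hz
    obtain ⟨c, hc⟩ := isConj_iff.mp (hone t z ht hz)
    simp only [← hc, IsCharacter.isClassFunction (isCharacter_irr _) t c]
    exact ⟨h2, h3, h4⟩
  · exact KP.four_dvd P hM hP hone z2 ht (by rw [h2, Int.cast_one])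
  · exact KP.four_dvd P hM hP hone z3 ht h3
  · have := KP.four_dvd P hM hP hone z4 ht (a := -1) (by rw [h4]; norm_num)
    rwa [sub_neg_eq_add] at this
  · intro y hy
    have h := horth y hy.not_two_dvd_nat
    rw [hsum, h2, h3, h4] at h
    linear_combination h

end Cfsg.Agent.S0948
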