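import Cfsg.Statements.S0950
import Cfsg.Agent.Lib.FrobeniusCrit
import Cfsg.Agent.Lib.ZStar.Q8Fusion

set_option autoImplicit false
open Cfsg

namespace Cfsg.Agent.S0950

local notation "QQ" => QuaternionGroup 2

theorem q8_two (k : QQ) (hk : k * k ≠ 1) : ∃ r : QQ, r * r ≠ 1 ∧ r ≠ k ∧ r ≠ k⁻¹ := by
  revert k; decide

theorem exists_gen {G : Type*} [Group G] [Finite G] (S : Sylow 2 G) (e : (S : Subgroup G) ≃* QQ)
    (A : Subgroup G) (hA : A ≤ S) (hA4 : Nat.card A = 4) :
    ∃ a : (S : Subgroup G), a * a ≠ 1 ∧ A = Subgroup.zpowers (a : G) := by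
  classical
  haveI := Fintype.ofFinite A
  obtain ⟨z, hz⟩ : ∃ z : A, Subgroup.inclusion hA z * Subgroup.inclusion hA z ≠ 1 := by
    by_contra hc
    push Not at hc
    set f : A →* QQ := e.toMonoidHom.comp (Subgroup.inclusion hA)
    have hsub : Finset.univ.image f ⊆ {1, QuaternionGroup.a 2} := by
      intro q hq
      obtain ⟨z, -, rfl⟩ := Finset.mem_image.mp hq
      rcases CfsgLib.ZStar.q8_sq (f z) (by
        change e (Subgroup.inclusion hA z) * e (Subgroup.inclusion hA z) = 1
        rw [← map_mul, hc, map_one]) with h | h <;> simp [h]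
    have := (Finset.card_le_card hsub).trans Finset.card_le_two
    rw [Finset.card_image_of_injective _ (show Function.Injective f from e.injective.comp (Subgroup.inclusion_injective hA)),
      Finset.card_univ, ← Nat.card_eq_fintype_card, hA4] at this
    omega
  refine ⟨Subgroup.inclusion hA z, hz, (Subgroup.eq_of_le_of_card_ge
    (Subgroup.zpowers_le.mpr z.2) ?_).symm⟩
  rw [hA4, Nat.card_zpowers, Subgroup.orderOf_coe]
  by_contra h
  push Not at h
  have h4 : orderOf z ∣ 4 := hA4 ▸ orderOf_dvd_natCard z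
  refine hz ?_
  rw [← map_mul, show z * z = 1 from ?_, map_one]
  rw [← pow_two, ← orderOf_dvd_iff_pow_eq_one]
  interval_cases horderOf : orderOf z <;> simp_all

theorem exists_odd_normalizer {G : Type*} [Group G] [Finite G] (S : Sylow 2 G)
    (e : (S : Subgroup G) ≃* QQ)
    (hnc : ∀ N : Subgroup G, N.Normal → ¬ Subgroup.IsComplement' N (S : Subgroup G)) :
    ∃ g ∈ Subgroup.normalizer ((S : Subgroup G) : Set G), Odd (orderOf g) ∧
      ∃ s : (S : Subgroup G), g * (s : G) * g⁻¹ ≠ s := by
  classical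
  haveI : Fact (Nat.Prime 2) := ⟨Nat.prime_two⟩
  by_contra hcon
  push Not at hcon
  have hS : Nat.card (S : Subgroup G) = 8 := by
    rw [Nat.card_congr e.toEquiv, Nat.card_eq_fintype_card, QuaternionGroup.card]
  have hpc : CfsgLib.ThompsonNPC.PCOn 2 (⊤ : Subgroup G) := by
    refine CfsgLib.FrobeniusCrit.pcOn_top _ G le_rfl fun X hX g hg hgc => ?_
    have hodd : Odd (orderOf g) := Nat.coprime_two_right.mp hgc
    obtain ⟨R, hR⟩ := hX.exists_le_sylow
    obtain ⟨c, hc⟩ := MulAction.exists_smul_eq G R S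
    set X' := X.map (MulAut.conj c).toMonoidHom
    have hX'S : X' ≤ S := by
      rintro _ ⟨x, hx, rfl⟩
      show c * x * c⁻¹ ∈ (S : Subgroup G)
      rw [← hc]; exact Subgroup.smul_mem_pointwise_smul _ _ _ (hR hx)
    set g' := c * g * c⁻¹
    have hg'odd : Odd (orderOf g') := by
      rw [show orderOf g' = orderOf g from CfsgLib.ThompsonNPC.orderOf_conj_eq c g]; exact hodd
    have hg'N : ∀ x ∈ X', g' * x * g'⁻¹ ∈ X' := by
      rintro _ ⟨x, hx, rfl⟩
      refine ⟨g * x * g⁻¹, (Subgroup.mem_normalizer_iff.mp hg x).mp hx, ?_⟩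
      show c * (g * x * g⁻¹) * c⁻¹ = c * g * c⁻¹ * (c * x * c⁻¹) * (c * g * c⁻¹)⁻¹
      group
    rw [Subgroup.mem_centralizer_iff]
    intro x hx
    have key : g' * (c * x * c⁻¹) * g'⁻¹ = c * x * c⁻¹ := by
      by_cases hbig : (S : Subgroup G) ≤ X'
      · refine hcon g' ?_ hg'odd ⟨c * x * c⁻¹, hX'S ⟨x, hx, rfl⟩⟩
        have heq : X' = S := le_antisymm hX'S hbig
        rw [Subgroup.mem_normalizer_iff]
        intro y
        refine ⟨fun hy => hX'S (hg'N y (hbig hy)), fun hy => ?_⟩
        obtain ⟨z, hz, hzy⟩ := hbig hy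
        refine hX'S ⟨g⁻¹ * z * g, (Subgroup.mem_normalizer_iff.mp hg _).mpr ?_, ?_⟩
        · simpa [mul_assoc] using hz
        · show c * (g⁻¹ * z * g) * c⁻¹ = y
          calc c * (g⁻¹ * z * g) * c⁻¹ = g'⁻¹ * (c * z * c⁻¹) * g' := by simp only [g']; group
            _ = y := by rw [show c * z * c⁻¹ = g' * y * g'⁻¹ from hzy]; group
      · -- a small cyclic group has no automorphism of odd order
        have hlt : Nat.card X' ∣ 4 := by
          have h8 : Nat.card X' ∣ 2 ^ 3 :=
            (Subgroup.card_dvd_of_le hX'S).trans (dvd_of_eq (hS.trans (show 8 = 2 ^ 3 from rfl)))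
          obtain ⟨i, hi, hXi⟩ := (Nat.dvd_prime_pow Nat.prime_two).mp h8
          interval_cases i
          · rw [hXi]; norm_num
          · rw [hXi]; norm_num
          · rw [hXi]; norm_num
          · exfalso
            exact hbig (Subgroup.eq_of_le_of_card_ge hX'S (by rw [hXi, hS]; norm_num)).ge
        set y := c * x * c⁻¹
        have hy : y ∈ X' := ⟨x, hx, rfl⟩
        by_cases hy2 : y * y = 1
        · by_cases hy1 : y = 1
          · rw [hy1]; group
          · have hgy : g' * y * g'⁻¹ * (g' * y * g'⁻¹) = 1 := by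
              rw [show g' * y * g'⁻¹ * (g' * y * g'⁻¹) = g' * (y * y) * g'⁻¹ by group, hy2]; group
            have h1 := CfsgLib.ZStar.q8_sq (e ⟨y, hX'S hy⟩) (by
              rw [← map_mul, show (⟨y, hX'S hy⟩ : (S : Subgroup G)) * ⟨y, hX'S hy⟩ = 1 from
                Subtype.ext hy2, map_one])
            have h2 := CfsgLib.ZStar.q8_sq (e ⟨_, hX'S (hg'N y hy)⟩) (by
              rw [← map_mul, show (⟨_, hX'S (hg'N y hy)⟩ : (S : Subgroup G)) * ⟨_, hX'S (hg'N y hy)⟩
                = 1 from Subtype.ext hgy, map_one])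
            have h1' := h1.resolve_left fun h => hy1 (by
              rw [← map_one e] at h; exact congrArg Subtype.val (e.injective h))
            have h2' := h2.resolve_left fun h => hy1 (by
              rw [← map_one e] at h
              have := congrArg Subtype.val (e.injective h)
              simp only [OneMemClass.coe_one] at this
              calc y = g'⁻¹ * (g' * y * g'⁻¹) * g' := by group
                _ = 1 := by rw [this]; group)
            exact congrArg Subtype.val (e.injective (h2'.trans h1'.symm))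
        · -- `y` generates
          have hyX : Subgroup.zpowers y = X' := by
            refine Subgroup.eq_of_le_of_card_ge (Subgroup.zpowers_le.mpr hy) ?_
            rw [Nat.card_zpowers]
            refine (Nat.le_of_dvd (by norm_num) hlt).trans ?_
            by_contra hlt4
            push Not at hlt4
            have h4 : orderOf y ∣ 4 := by
              rw [← Subgroup.orderOf_mk y hy]; exact (orderOf_dvd_natCard _).trans hlt
            refine hy2 ?_
            rw [← pow_two, ← orderOf_dvd_iff_pow_eq_one]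
            interval_cases horderOf : orderOf y <;> simp_all
          have hmem := hg'N y hy
          rw [← hyX] at hmem
          obtain ⟨i, hi⟩ := Subgroup.mem_zpowers_iff.mp hmem
          have hyo : orderOf y = 4 := by
            have h4 : orderOf y ∣ 2 ^ 2 := by
              rw [← Subgroup.orderOf_mk y hy]; exact (orderOf_dvd_natCard _).trans hlt
            obtain ⟨j, hj, hyj⟩ := (Nat.dvd_prime_pow Nat.prime_two).mp h4
            interval_cases j
            · exact absurd (by rw [← pow_two, ← orderOf_dvd_iff_pow_eq_one, hyj]; norm_num) hy2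
            · exact absurd (by rw [← pow_two, ← orderOf_dvd_iff_pow_eq_one, hyj]; norm_num) hy2
            · exact hyj
          have hio : orderOf (y ^ i) = 4 := by
            rw [hi, CfsgLib.ThompsonNPC.orderOf_conj_eq g' y, hyo]
          have hcases : y ^ i = y ∨ y ^ i = y⁻¹ := by
            rw [← zpow_mod_orderOf, hyo] at hio ⊢
            have h0 : 0 ≤ i % (4 : ℕ) := Int.emod_nonneg _ (by norm_num)
            have h4 : i % (4 : ℕ) < 4 := Int.emod_lt_of_pos _ (by norm_num)
            set r := i % (4 : ℕ)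
            interval_cases r
            · simp at hio
            · exact Or.inl (zpow_one y)
            · exfalso
              rw [show y ^ (2 : ℤ) = y ^ (2 : ℕ) from zpow_natCast y 2,
                orderOf_pow' y two_ne_zero, hyo] at hio
              norm_num at hio
            · refine Or.inr (eq_inv_of_mul_eq_one_left ?_)
              rw [show y ^ (3 : ℤ) * y = y ^ (4 : ℕ) by
                rw [show (4 : ℕ) = 3 + 1 from rfl, pow_succ]; norm_cast, ← hyo, pow_orderOf_eq_one]
          exact fixed_of_pm hg'odd (hi ▸ hcases)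
    have h2 : c * (g * x) * c⁻¹ = c * (x * g) * c⁻¹ := by
      calc c * (g * x) * c⁻¹ = g' * (c * x * c⁻¹) * g'⁻¹ * g' := by simp only [g']; group
        _ = c * (x * g) * c⁻¹ := by rw [key]; simp only [g']; group
    exact (mul_left_cancel (mul_right_cancel h2)).symm
  have hnormal : (CfsgLib.ThompsonNPC.pcore' hpc).Normal := by
    refine ⟨fun n hn d => ⟨trivial, ?_⟩⟩
    rw [CfsgLib.ThompsonNPC.orderOf_conj_eq]; exact hn.2
  refine hnc _ hnormal (Subgroup.isComplement'_of_coprime ?_ ?_)
  · -- card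
    set K := CfsgLib.ThompsonNPC.pcore' hpc
    have hK : (Nat.card K).Coprime 2 := CfsgLib.ThompsonNPC.card_pcore'_coprime hpc
    have hq : IsPGroup 2 (G ⧸ K) := by
      intro q
      obtain ⟨x, rfl⟩ := QuotientGroup.mk'_surjective K q
      refine ⟨(orderOf x).factorization 2, ?_⟩
      rw [← map_pow]
      refine (QuotientGroup.eq_one_iff _).mpr ⟨trivial, ?_⟩
      have h0 := (orderOf_pos x).ne'
      rw [orderOf_pow' x (pow_ne_zero _ two_ne_zero),
        Nat.gcd_eq_right (Nat.ordProj_dvd (orderOf x) 2), Nat.coprime_comm,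
        Nat.prime_two.coprime_iff_not_dvd]
      exact Nat.not_dvd_ordCompl Nat.prime_two h0
    obtain ⟨j, hj⟩ := IsPGroup.iff_card.mp hq
    have hmul := K.card_eq_card_quotient_mul_card_subgroup
    rw [hj] at hmul
    have hf : (Nat.card G).factorization 2 = j := by
      rw [hmul, Nat.factorization_mul (pow_ne_zero _ two_ne_zero) Nat.card_pos.ne',
        Finsupp.add_apply, Nat.prime_two.factorization_pow, Finsupp.single_eq_same,
        Nat.factorization_eq_zero_of_not_dvd]
      · simp
      · exact (Nat.prime_two.coprime_iff_not_dvd).mp hK.symm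
    rw [S.card_eq_multiplicity, hf, mul_comm, ← hmul]
  · rw [hS, show (8 : ℕ) = 2 ^ 3 from rfl]
    exact Nat.Coprime.pow_right _ (CfsgLib.ThompsonNPC.card_pcore'_coprime hpc)
where
  fixed_of_pm {g y : G} (hg : Odd (orderOf g)) (h : g * y * g⁻¹ = y ∨ g * y * g⁻¹ = y⁻¹) :
      g * y * g⁻¹ = y := by
    refine h.elim id fun h1 => ?_
    have h2 : Commute (g ^ 2) y := by
      have : g * (g * y * g⁻¹) * g⁻¹ = y := by
        rw [h1, show g * y⁻¹ * g⁻¹ = (g * y * g⁻¹)⁻¹ by group, h1, inv_inv]
      rw [pow_two]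
      exact mul_inv_eq_iff_eq_mul.mp (by
        calc g * g * y * (g * g)⁻¹ = g * (g * y * g⁻¹) * g⁻¹ := by group
          _ = y := this)
    obtain ⟨k, hk⟩ := hg
    have h3 : g = (g ^ 2) ^ (k + 1) := by
      rw [← pow_mul, show 2 * (k + 1) = orderOf g + 1 by omega, pow_succ, pow_orderOf_eq_one, one_mul]
    have := h2.pow_left (k + 1)
    rw [← h3] at this
    rw [this.eq, mul_inv_cancel_right]

theorem transitive {G : Type*} [Group G] [Finite G] (S : Sylow 2 G) (e : (S : Subgroup G) ≃* QQ)
    (g : G) (hg : g ∈ Subgroup.normalizer ((S : Subgroup G) : Set G)) (hodd : Odd (orderOf g))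
    (hne : ∃ s : (S : Subgroup G), g * (s : G) * g⁻¹ ≠ s) (a b : (S : Subgroup G))
    (ha : a * a ≠ 1) (hb : b * b ≠ 1) :
    ∃ n ∈ Subgroup.normalizer ((S : Subgroup G) : Set G),
      n * (a : G) * n⁻¹ = b ∨ n * (a : G) * n⁻¹ = (b : G)⁻¹ := by
  classical
  set σ : ↥(S : Subgroup G) → ↥(S : Subgroup G) :=
    fun s => ⟨g * (s : G) * g⁻¹, (Subgroup.mem_normalizer_iff.mp hg s).mp s.2⟩ with hσ
  have hσmul : ∀ s r, σ (s * r) = σ s * σ r := fun s r => Subtype.ext (by simp [σ])
  have hσinv : ∀ s, σ s⁻¹ = (σ s)⁻¹ := fun s => Subtype.ext (by simp [σ]; group)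
  have hσinj : Function.Injective σ := fun s r h => by
    have := congrArg Subtype.val h
    simpa [σ] using this
  have hσsq : ∀ s, s * s ≠ 1 → σ s * σ s ≠ 1 := fun s hs h => hs (hσinj (by
    rw [hσmul, h]; exact Subtype.ext (by simp [σ])))
  have three : ∀ u v w : (S : Subgroup G), u * u ≠ 1 → v * v ≠ 1 → w * w ≠ 1 → v ≠ u → v ≠ u⁻¹ →
      w = u ∨ w = u⁻¹ ∨ w = v ∨ w = v⁻¹ ∨ w = u * v ∨ w = (u * v)⁻¹ := by
    intro u v w hu hv hw h1 h2
    have hm : ∀ q : (S : Subgroup G), q * q ≠ 1 → e q * e q ≠ 1 := fun q hq h => hq (e.injective (by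
      rw [map_mul, h, map_one]))
    have := CfsgLib.ZStar.q8_three (e u) (e v) (e w) (hm u hu) (hm v hv) (hm w hw)
      (fun h => h1 (e.injective h)) (fun h => h2 (e.injective (by rw [h, map_inv])))
    simpa only [← map_inv, ← map_mul, e.injective.eq_iff] using this
  have hfix : ∀ s, σ s = s ∨ σ s = s⁻¹ → σ s = s := fun s hs => Subtype.ext
    (exists_odd_normalizer.fixed_of_pm hodd (hs.imp (congrArg Subtype.val)
      (fun h => by simpa [σ] using congrArg Subtype.val h)))
  have hfix2 : ∀ s, σ (σ s) = s ∨ σ (σ s) = s⁻¹ → σ s = s := fun s hs => by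
    have h1 : σ (σ s) = s := by
      refine hs.elim id fun h => ?_
      have e2 : ∀ r : (S : Subgroup G), (σ (σ r) : G) = g ^ 2 * (r : G) * (g ^ 2)⁻¹ := fun r => by
        simp [σ, pow_two]; group
      refine Subtype.ext ?_
      rw [e2]
      refine exists_odd_normalizer.fixed_of_pm ?_ (Or.inr ?_)
      · exact hodd.of_dvd_nat (orderOf_pow_dvd 2)
      · rw [← e2, h]; rfl
    have h2 : Commute (g ^ 2) (s : G) := by
      have := congrArg Subtype.val h1
      simp only [σ] at this
      rw [pow_two]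
      exact mul_inv_eq_iff_eq_mul.mp (by
        calc g * g * (s : G) * (g * g)⁻¹ = g * (g * (s : G) * g⁻¹) * g⁻¹ := by group
          _ = s := this)
    obtain ⟨k, hk⟩ := hodd
    have h3 : g = (g ^ 2) ^ (k + 1) := by
      rw [← pow_mul, show 2 * (k + 1) = orderOf g + 1 by omega, pow_succ, pow_orderOf_eq_one, one_mul]
    have := h2.pow_left (k + 1)
    rw [← h3] at this
    exact Subtype.ext (by simp only [σ]; rw [this.eq, mul_inv_cancel_right])
  have hnofix : ∀ u, u * u ≠ 1 → σ u ≠ u := by
    intro u hu hfu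
    obtain ⟨r, hr, hr1, hr2⟩ := q8_two (e u) (fun h => hu (e.injective (by rw [map_mul, h, map_one])))
    set v := e.symm r
    have hv : v * v ≠ 1 := fun h => hr (by
      have := congrArg e h; simpa [v] using this)
    have hvu : v ≠ u := fun h => hr1 (by rw [← h]; simp [v])
    have hvu' : v ≠ u⁻¹ := fun h => hr2 (by rw [← map_inv, ← h]; simp [v])
    have hne1 : σ v ≠ u := fun h => hvu (hσinj (h.trans hfu.symm))
    have hne2 : σ v ≠ u⁻¹ := fun h => hvu' (hσinj (by rw [h, hσinv, hfu]))
    have hfv : σ v = v := by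
      by_contra hcv
      rcases three u v (σ v) hu hv (hσsq v hv) hvu hvu' with h | h | h | h | h
      · exact hne1 h
      · exact hne2 h
      · exact hcv h
      · exact hcv (hfix v (Or.inr h))
      · rcases three u v (σ (σ v)) hu hv (hσsq _ (hσsq v hv)) hvu hvu' with k | k | k | k | k
        · exact hne1 (hσinj (k.trans hfu.symm))
        · exact hne2 (hσinj (by rw [k, hσinv, hfu]))
        · exact hcv (hfix2 v (Or.inl k))
        · exact hcv (hfix2 v (Or.inr k))
        · have h5 : σ (σ v) = σ v ∨ σ (σ v) = (σ v)⁻¹ := by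
            rcases h with h | h <;> rcases k with k | k <;> rw [k, h] <;> simp
          exact hcv (hσinj (hfix _ h5))
    obtain ⟨s, hs⟩ := hne
    apply hs
    have : σ s = s := by
      by_cases hs2 : s * s = 1
      · have hcen := CfsgLib.ZStar.q8_sq (e s) (by rw [← map_mul, hs2, map_one])
        have huu : e (u * u) = QuaternionGroup.a 2 := by
          refine (CfsgLib.ZStar.q8_sq _ ?_).resolve_left fun h => hu (e.injective (by rw [h, map_one]))
          rw [← map_mul, show u * u * (u * u) = u ^ 4 by rw [pow_succ, pow_succ, pow_two]; group, map_pow, CfsgLib.ZStar.q8_pow_four]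
        rcases hcen with h | h
        · rw [show s = 1 from e.injective (by rw [h, map_one])]
          exact Subtype.ext (by simp [σ])
        · rw [show s = u * u from e.injective (by rw [h, huu]), hσmul, hfu]
      · rcases three u v s hu hv hs2 hvu hvu' with rfl | rfl | rfl | rfl | rfl | rfl
        · exact hfu
        · rw [hσinv, hfu]
        · exact hfv
        · rw [hσinv, hfv]
        · rw [hσmul, hfu, hfv]
        · rw [hσinv, hσmul, hfu, hfv]
    exact congrArg Subtype.val this
  -- images of `a`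
  have h1 : σ a ≠ a := hnofix a ha
  have h1' : σ a ≠ a⁻¹ := fun h => h1 (hfix a (Or.inr h))
  have hga : g ^ 2 ∈ Subgroup.normalizer ((S : Subgroup G) : Set G) := pow_mem hg 2
  have e2 : (σ (σ a) : G) = g ^ 2 * (a : G) * (g ^ 2)⁻¹ := by simp [σ, pow_two]; group
  rcases three a (σ a) b ha (hσsq a ha) hb h1 h1' with rfl | rfl | rfl | rfl | h
  · exact ⟨1, one_mem _, Or.inl (by simp)⟩
  · exact ⟨1, one_mem _, Or.inr (by simp)⟩
  · exact ⟨g, hg, Or.inl rfl⟩
  · exact ⟨g, hg, Or.inr (by simp [σ])⟩
  rcases three a (σ a) (σ (σ a)) ha (hσsq a ha) (hσsq _ (hσsq a ha)) h1 h1' with k | k | k | k | k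
  · exact absurd (hfix2 a (Or.inl k)) h1
  · exact absurd (hfix2 a (Or.inr k)) h1
  · exact absurd (hσinj k) h1
  · exact absurd (hσinj (hfix _ (Or.inr k))) h1
  · refine ⟨g ^ 2, hga, ?_⟩
    rw [← e2]
    rcases h with h | h <;> rcases k with k | k <;> rw [h, k] <;> simp

/-- Let S be a Sylow 2-subgroup of the finite group G that is isomorphic to the quaternion group of order 8, and suppose S has no normal complement in G. Then any two subgroups of order 4 of S are conjugate by an element of the normalizer of S. -/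
theorem result {G : Type*} [Group G] [Finite G] (S : Sylow 2 G) (e : (S : Subgroup G) ≃* QuaternionGroup 2) (hnc : ∀ N : Subgroup G, N.Normal → ¬ Subgroup.IsComplement' N (S : Subgroup G)) (A B : Subgroup G) (hA : A ≤ S) (hB : B ≤ S) (hA4 : Nat.card A = 4) (hB4 : Nat.card B = 4) : ∃ n ∈ Subgroup.normalizer ((S : Subgroup G) : Set G), B = A.map (MulAut.conj n).toMonoidHom := by
  classical
  haveI : Fact (Nat.Prime 2) := ⟨Nat.prime_two⟩
  obtain ⟨g, hgN, hgodd, s₁, hs₁⟩ := exists_odd_normalizer S e hnc
  obtain ⟨a, ha, haA⟩ := exists_gen S e A hA hA4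
  obtain ⟨b, hb, hbB⟩ := exists_gen S e B hB hB4
  obtain ⟨n, hn, hnb⟩ := transitive S e g hgN hgodd ⟨s₁, hs₁⟩ a b ha hb
  refine ⟨n, hn, ?_⟩
  rw [haA, hbB, MonoidHom.map_zpowers]
  rcases hnb with h | h
  · rw [show (MulAut.conj n).toMonoidHom (a : G) = (b : G) from h]
  · rw [show (MulAut.conj n).toMonoidHom (a : G) = (b : G)⁻¹ from h, Subgroup.zpowers_inv]

end Cfsg.Agent.S0950
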