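import Cfsg.Statements.S0951
import Cfsg.Agent.Lib.ZStar.Q8Count
import Mathlib.GroupTheory.Transfer

set_option autoImplicit false
open Cfsg

namespace Cfsg.Agent.S0951

theorem eq_top_of_index_two {G : Type*} [Group G] [Finite G] (S : Sylow 2 G)
    (e : (S : Subgroup G) ≃* QuaternionGroup 2)
    (hO : ∀ N : Subgroup G, N.Normal → Odd (Nat.card N) → N = ⊥) (H : Subgroup G)
    (hH : H.index = 2) : (S : Subgroup G) = ⊤ := by
  classical
  haveI : Fact (Nat.Prime 2) := ⟨Nat.prime_two⟩
  haveI hHn : H.Normal := Subgroup.normal_of_index_eq_two hH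
  have hS : Nat.card (S : Subgroup G) = 2 ^ 3 := by
    rw [Nat.card_congr e.toEquiv, Nat.card_eq_fintype_card, QuaternionGroup.card]; norm_num
  have hfG : (Nat.card G).factorization 2 = 3 := by
    have h1 := S.card_eq_multiplicity
    rw [hS] at h1
    exact (Nat.pow_right_injective le_rfl h1).symm
  have hcard : Nat.card H * 2 = Nat.card G := by rw [← hH, Subgroup.card_mul_index]
  have hfH : (Nat.card H).factorization 2 = 2 := by
    have := congrArg (fun n => n.factorization 2) hcard
    simp only [Nat.factorization_mul Nat.card_pos.ne' two_ne_zero, Finsupp.add_apply,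
      Nat.prime_two.factorization_self, hfG] at this
    omega
  obtain ⟨P⟩ := (inferInstance : Nonempty (Sylow 2 H))
  have hP : Nat.card (P : Subgroup H) = 4 := by rw [P.card_eq_multiplicity, hfH]; norm_num
  have hPc : IsCyclic (P : Subgroup H) := by
    obtain ⟨R, hR⟩ := (P.2.map H.subtype).exists_le_sylow
    set eR : (R : Subgroup G) ≃* QuaternionGroup 2 := (Sylow.equiv R S).trans e
    set f : (P : Subgroup H) →* QuaternionGroup 2 := eR.toMonoidHom.comp
      ((Subgroup.inclusion hR).comp ((P : Subgroup H).equivMapOfInjective H.subtype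
        H.subtype_injective).toMonoidHom)
    have hf : Function.Injective f := eR.injective.comp
      ((Subgroup.inclusion_injective hR).comp (MulEquiv.injective _))
    haveI := Fintype.ofFinite (P : Subgroup H)
    by_contra hnc
    have hsq : ∀ z : (P : Subgroup H), z * z = 1 := by
      intro z
      obtain ⟨i, hi, hz'⟩ := (Nat.dvd_prime_pow Nat.prime_two).mp
        ((orderOf_dvd_natCard z).trans (dvd_of_eq (hP.trans (show 4 = 2 ^ 2 from rfl))))
      rw [← pow_two, ← orderOf_dvd_iff_pow_eq_one, hz']
      interval_cases i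
      · simp
      · simp
      · exact absurd (isCyclic_of_orderOf_eq_card z (hz'.trans hP.symm)) hnc
    have hsub : Finset.univ.image f ⊆ {1, QuaternionGroup.a 2} := by
      intro q hq
      obtain ⟨z, -, rfl⟩ := Finset.mem_image.mp hq
      rcases CfsgLib.ZStar.q8_sq (f z) (by rw [← map_mul, hsq, map_one]) with h | h <;> simp [h]
    have := (Finset.card_le_card hsub).trans Finset.card_le_two
    rw [Finset.card_image_of_injective _ hf, Finset.card_univ, ← Nat.card_eq_fintype_card, hP] at this
    omega
  have hmin : (Nat.card H).minFac = 2 := by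
    refine (Nat.minFac_eq_two_iff _).mpr ?_
    exact (show 2 ∣ 4 by norm_num).trans (hP ▸ Subgroup.card_subgroup_dvd_card _)
  have hn := hPc.normalizer_le_centralizer hmin
  set f := MonoidHom.transferSylow P hn
  have hcompl := MonoidHom.ker_transferSylow_isComplement' P hn
  have hkodd : Odd (Nat.card f.ker) := by
    rw [← Nat.not_even_iff_odd, even_iff_two_dvd, show Nat.card f.ker =
      (P : Subgroup H).index from hcompl.index_eq_card.symm]
    exact P.not_dvd_index
  have hker : ∀ m : H, Odd (orderOf m) → f m = 1 := by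
    intro m hm
    obtain ⟨j, hj⟩ := IsPGroup.iff_orderOf.mp P.2 (f m)
    refine orderOf_eq_one_iff.mp ?_
    have h1 : orderOf (f m) ∣ orderOf m := orderOf_map_dvd f m
    rcases Nat.eq_zero_or_pos j with rfl | hj0
    · simpa using hj
    · exfalso
      refine (Nat.not_even_iff_odd.mpr hm) (even_iff_two_dvd.mpr ?_)
      exact ((dvd_pow_self 2 hj0.ne').trans (dvd_of_eq hj.symm)).trans h1
  have hKn : (f.ker.map H.subtype).Normal := by
    refine ⟨fun n hn' g => ?_⟩
    obtain ⟨m, hm, rfl⟩ := Subgroup.mem_map.mp hn'
    refine Subgroup.mem_map.mpr ⟨⟨g * (m : G) * g⁻¹, hHn.conj_mem _ m.2 g⟩, hker _ ?_, rfl⟩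
    rw [← Subgroup.orderOf_coe]
    change Odd (orderOf (g * (m : G) * g⁻¹))
    rw [show orderOf (g * (m : G) * g⁻¹) = orderOf (m : G) from
      orderOf_injective (MulAut.conj g).toMonoidHom (MulEquiv.injective _) _, Subgroup.orderOf_coe]
    refine hkodd.of_dvd_nat ?_
    rw [show orderOf m = orderOf (⟨m, hm⟩ : f.ker) from Subgroup.orderOf_coe (⟨m, hm⟩ : f.ker)]
    exact orderOf_dvd_natCard _
  have hbot := hO _ hKn (by rwa [Subgroup.card_map_of_injective H.subtype_injective])
  rw [Subgroup.map_eq_bot_iff_of_injective _ H.subtype_injective] at hbot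
  have h4 : Nat.card H = 4 := by
    have := hcompl.card_mul_card
    rw [hbot, Subgroup.card_bot, one_mul, hP] at this
    exact this.symm
  refine Subgroup.eq_top_of_card_eq _ ?_
  rw [hS, ← hcard, h4]
  norm_num

/-- Let S be a Sylow 2-subgroup of the finite group G isomorphic to the quaternion group of order 8. Suppose G has no nontrivial normal subgroup of odd order and G ≠ S. Then, relative to any maximal ideal M of the algebraic integers containing 2, the principal block of G consists of exactly 7 irreducible characters. -/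
theorem result {G : Type*} [Group G] [Finite G] (M : Ideal Cfsg.AlgInt) (hM : Cfsg.IsPModular 2 M) (S : Sylow 2 G) (e : (S : Subgroup G) ≃* QuaternionGroup 2) (hO : ∀ N : Subgroup G, N.Normal → Odd (Nat.card N) → N = ⊥) (hG : (S : Subgroup G) ≠ ⊤) : Nat.card (Cfsg.principalBlock M G) = 7 := by
  refine CfsgLib.Q8Count.card_principalBlock_Q8 hM S e hO fun H hH => ?_
  exact hG (eq_top_of_index_two S e hO H hH)

end Cfsg.Agent.S0951
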