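import Cfsg.Statements.S0952
import Cfsg.Agent.Lib.Blocks.Orth

set_option autoImplicit false
open scoped ComplexConjugate
open Cfsg

namespace Cfsg.Agent.S0952

open CfsgLib.Chars CfsgLib.Blocks

/-- Let χ and ψ be irreducible characters of the finite group G lying in different blocks relative to a maximal ideal M of the algebraic integers containing the prime p. Then the sum of χ x * conj (ψ x) over the elements x of order prime to p is zero. -/
theorem result {G : Type*} [Group G] [Finite G] (p : ℕ) [Fact p.Prime] (M : Ideal Cfsg.AlgInt) (hM : Cfsg.IsPModular p M) (χ ψ : Cfsg.IrrCharacter G) (h : ¬ Cfsg.SameBlock M (χ : G → ℂ) (ψ : G → ℂ)) : ∑ᶠ x ∈ {x : G | ¬ p ∣ orderOf x}, (χ : G → ℂ) x * conj ((ψ : G → ℂ) x) = 0 := by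
  classical
  haveI := Fintype.ofFinite G
  have h1 := regInner_eq_zero hM h
  rw [regInner_eq, mul_eq_zero] at h1
  rw [finsum_mem_eq_toFinset_sum, Set.toFinset_setOf]
  exact h1.resolve_left (inv_ne_zero (natCast_card_ne_zero G))

end Cfsg.Agent.S0952
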