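import Cfsg.Statements.S0954
import Cfsg.Agent.Lib.Blocks.NormalPPrime

set_option autoImplicit false
open Cfsg

namespace Cfsg.Agent.S0954

open CfsgLib.Chars CfsgLib.Blocks

/-- Let N be a normal subgroup of the finite group G of order prime to p and of p-power index (a normal p-complement), and fix a maximal ideal M of the algebraic integers containing p. Then two irreducible characters χ, ψ of G lie in the same block if and only if some irreducible character of N has nonzero inner product with both the restriction of χ and the restriction of ψ. -/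
theorem result {G : Type*} [Group G] [Fintype G] (p : ℕ) [Fact p.Prime] (M : Ideal Cfsg.AlgInt) (hM : Cfsg.IsPModular p M) (N : Subgroup G) [N.Normal] [Fintype N] (hN : ¬ p ∣ Nat.card N) (hidx : ∃ k : ℕ, N.index = p ^ k) (χ ψ : Cfsg.IrrCharacter G) : Cfsg.SameBlock M (χ : G → ℂ) (ψ : G → ℂ) ↔ ∃ θ : Cfsg.IrrCharacter N, Cfsg.classInner (fun n : N => (χ : G → ℂ) n) (θ : N → ℂ) ≠ 0 ∧ Cfsg.classInner (fun n : N => (ψ : G → ℂ) n) (θ : N → ℂ) ≠ 0 := by
  classical
  obtain ⟨k, hk⟩ := hidx
  have hreg : ∀ x : G, ¬ p ∣ orderOf x ↔ x ∈ N := fun x => by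
    constructor
    · intro hx
      have h1 : orderOf (x : G ⧸ N) ∣ p ^ k := by
        rw [← hk, Subgroup.index_eq_card]; exact orderOf_dvd_natCard _
      exact (QuotientGroup.eq_one_iff x).mp (orderOf_eq_one_iff.mp (Nat.eq_one_of_dvd_coprimes
        (((hM.1.coprime_iff_not_dvd.mpr hx).symm).pow_right k)
        (orderOf_map_dvd (QuotientGroup.mk' N) x) h1))
    · intro hx hd
      exact hN (hd.trans (Subgroup.orderOf_dvd_natCard N hx))
  constructor
  · intro h
    obtain ⟨θ, hθ⟩ := exists_res_constituent N χ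
    exact ⟨θ, hθ, sameBlock_res_constituent hM N hN h hθ⟩
  · rintro ⟨θ, h1, h2⟩
    exact sameBlock_of_common_constituent hM N hreg h1 h2

end Cfsg.Agent.S0954
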