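import Cfsg.Statements.S0955
import Cfsg.Agent.S0958
import Cfsg.Agent.S0917
import Cfsg.Agent.Lib.Blocks.BrauerInduce
import Cfsg.Agent.Lib.Core

set_option autoImplicit false
open Cfsg

namespace Cfsg.Agent.S0955

open CfsgLib.Chars CfsgLib.Blocks

/-- Let D be a defect group of a block of the finite group G relative to a maximal ideal M of the algebraic integers containing the prime p. Then D is the largest normal p-subgroup of its own normalizer: O_p(N_G(D)) = D. -/
theorem result {G : Type*} [Group G] [Finite G] (p : ℕ) [Fact p.Prime] (M : Ideal Cfsg.AlgInt) (hM : Cfsg.IsPModular p M) (B : Set (Cfsg.IrrCharacter G)) (hB : Cfsg.IsPBlock M B) (D : Subgroup G) (hD : Cfsg.IsDefectGroup p M B D) : (Cfsg.pCore p (Subgroup.normalizer (D : Set G))).map (Subgroup.normalizer (D : Set G)).subtype = D := by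
  classical
  haveI : Fintype G := Fintype.ofFinite G
  set N := Subgroup.normalizer (D : Set G)
  haveI : Fintype N := Fintype.ofFinite N
  have hDp := defectGroup_isPGroup hD
  haveI : (D.subgroupOf N).Normal := (Subgroup.normal_subgroupOf_iff_le_normalizer Subgroup.le_normalizer).mpr le_rfl
  have hDR : D ≤ (Cfsg.pCore p N).map N.subtype := fun d hd =>
    ⟨⟨d, Subgroup.le_normalizer hd⟩, CfsgLib.Core.le_pCore inferInstance
      (hDp.of_equiv (Subgroup.subgroupOfEquivOfLe Subgroup.le_normalizer).symm) hd, rfl⟩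
  obtain ⟨b, hb⟩ := (Cfsg.Agent.S0958.result p M hM D N hDp
    (sup_le Subgroup.le_normalizer (Subgroup.centralizer_le_normalizer _)) le_rfl B hB).mpr
    ⟨D, hD, 1, by rintro _ ⟨d, hd, rfl⟩; simpa using hd⟩
  obtain ⟨Db, hDb⟩ := exists_isDefectGroup hM hb.1
  haveI : (Cfsg.pCore p N).Normal := by
    exact Subgroup.sSup_normal _ fun K hK => hK.1
  have h1 := normal_pGroup_le_defectGroup hM (Cfsg.pCore p N) (CfsgLib.Core.isPGroup_pCore p) hb.1 hDb
  obtain ⟨E, hE, hle⟩ := Cfsg.Agent.S0917.result p M hM N b hb.1 B hB hb Db hDb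
  obtain ⟨w, hw⟩ := defectGroup_conj hM hB hD hE
  refine (Subgroup.eq_of_le_of_card_ge hDR ?_).symm
  rw [← card_map_conj D w, ← hw]
  exact Subgroup.card_le_of_le ((Subgroup.map_mono h1).trans hle)

end Cfsg.Agent.S0955
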