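import Cfsg.Statements.S0956
import Cfsg.Agent.S0920
import Cfsg.Agent.Lib.Blocks.SquareSum
import Cfsg.Agent.Lib.Blocks.DefectClass
import Cfsg.Agent.Lib.Blocks.SecondMain
import Mathlib.GroupTheory.Nilpotent

set_option autoImplicit false
open Cfsg

namespace Cfsg.Agent.S0956

open CfsgLib.Chars CfsgLib.Blocks
open scoped ComplexConjugate

universe u

variable {H : Type u} [Group H]

/-- Grouping an invariant sum by orbits. -/
theorem sum_orbits {Q α : Type*} [Group Q] [MulAction Q α] [Fintype α] {f : α → ℂ}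
    (hf : ∀ (q : Q) x, f (q • x) = f x) (R : ℂ → Prop) (h0 : R 0)
    (hadd : ∀ a b, R a → R b → R (a + b))
    (hx : ∀ x : α, R ((Nat.card (MulAction.orbit Q x) : ℂ) * f x)) : R (∑ x : α, f x) := by
  classical
  haveI : Fintype (Quotient (MulAction.orbitRel Q α)) := Quotient.fintype _
  rw [← Finset.sum_fiberwise_of_maps_to (s := Finset.univ) (t := Finset.univ)
    (g := fun x : α => (Quotient.mk (MulAction.orbitRel Q α) x)) (fun _ _ => Finset.mem_univ _)]
  refine Finset.sum_induction _ R hadd h0 fun o _ => ?_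
  induction o using Quotient.inductionOn with
  | h x =>
    set S := Finset.univ.filter
      (fun y : α => Quotient.mk (MulAction.orbitRel Q α) y = Quotient.mk _ x)
    have hS : ∀ y, y ∈ S ↔ y ∈ MulAction.orbit Q x := fun y => by
      rw [Finset.mem_filter, and_iff_right (Finset.mem_univ _), Quotient.eq]
      exact MulAction.orbitRel_apply
    have hconst : ∀ y ∈ S, f y = f x := fun y hy => by
      obtain ⟨q, rfl⟩ := (hS y).mp hy
      exact hf q x
    have hcard : S.card = Nat.card (MulAction.orbit Q x) := by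
      rw [Nat.card_eq_fintype_card]
      exact (Fintype.card_of_subtype S hS).symm
    rw [Finset.sum_congr rfl hconst, Finset.sum_const, nsmul_eq_mul, hcard]
    exact hx x

/-- The intersection of a subgroup with one of its conjugates. -/
def inter (P : Subgroup H) (x : H) : Subgroup H := P ⊓ P.map (MulAut.conj x).toMonoidHom

theorem mem_inter {P : Subgroup H} {x q : H} : q ∈ inter P x ↔ q ∈ P ∧ x⁻¹ * q * x ∈ P := by
  rw [inter, Subgroup.mem_inf, and_congr_right_iff]
  intro _
  constructor
  · rintro ⟨z, hz, rfl⟩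
    simpa [mul_assoc] using hz
  · intro h
    exact ⟨_, h, by simp [mul_assoc]⟩

theorem card_inter_inv (P : Subgroup H) (x : H) :
    Nat.card (inter P x⁻¹) = Nat.card (inter P x) := by
  have e : inter P x⁻¹ = (inter P x).map (MulAut.conj x⁻¹).toMonoidHom := by
    ext q
    rw [mem_inter]
    constructor
    · rintro ⟨h1, h2⟩
      refine ⟨x * q * x⁻¹, mem_inter.mpr ⟨by simpa using h2, by simpa [mul_assoc] using h1⟩, ?_⟩
      simp [mul_assoc]
    · rintro ⟨z, hz, rfl⟩
      obtain ⟨h1, h2⟩ := mem_inter.mp hz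
      exact ⟨by simpa using h2, by simpa [mul_assoc] using h1⟩
  rw [e, card_map_conj]

theorem eq_of_normalizer_inf_le [Finite H] {p : ℕ} [Fact p.Prime] {D T : Subgroup H}
    (hT : IsPGroup p T) (hDT : D ≤ T) (h : T ⊓ Subgroup.normalizer (D : Set H) ≤ D) : T = D := by
  haveI : Group.IsNilpotent T := hT.isNilpotent
  refine le_antisymm ?_ hDT
  by_contra hne
  have hlt : D.subgroupOf T < ⊤ := lt_top_iff_ne_top.mpr fun e =>
    hne fun t ht => by
      have : (⟨t, ht⟩ : T) ∈ D.subgroupOf T := e.symm ▸ Subgroup.mem_top _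
      exact this
  obtain ⟨z, hz, hz'⟩ := SetLike.exists_of_lt (Group.normalizerCondition_of_isNilpotent _ hlt)
  refine hz' (h ⟨z.2, Subgroup.mem_normalizer_iff.mpr fun d => ⟨fun hd => ?_, fun hd => ?_⟩⟩)
  · exact (Subgroup.mem_normalizer_iff.mp hz ⟨d, hDT hd⟩).mp hd
  · have hdT : d ∈ T := by
      have := T.mul_mem (T.mul_mem (T.inv_mem z.2) (hDT hd)) z.2
      simpa [mul_assoc] using this
    exact (Subgroup.mem_normalizer_iff.mp hz ⟨d, hdT⟩).mpr hd

variable [Fintype H] {p : ℕ} [Fact p.Prime] {M : Ideal AlgInt}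

/-- A defect class of a block yields a Sylow intersection of the order of a defect group. -/
theorem exists_inter (hM : IsPModular p M) {B : Set (IrrCharacter H)} (hB : IsPBlock M B)
    {D : Subgroup H} (hD : IsDefectGroup p M B D) (P : Sylow p H) :
    ∃ x : H, ¬ MemLocalIdeal M (blockCoeff B x) ∧
      Nat.card (inter (P : Subgroup H) x) = Nat.card D ∧
      inter (P : Subgroup H) x ≤ Subgroup.centralizer ({x} : Set H) := by
  classical
  have hp := hM.1
  by_contra hno
  push Not at hno
  obtain ⟨φ, hφ⟩ := IsPBlock.nonempty hM hB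
  have hdcard := card_defectGroup hM hB hD
  set d := blockDefect p B with hd
  set a := (Nat.card H).factorization p with ha
  have hPc : Nat.card (P : Subgroup H) = p ^ a := P.card_eq_multiplicity
  have hda : minExp p B + d = a := minExp_add_defect hφ
  obtain ⟨g, hg, S0, hS0⟩ := id hD
  obtain ⟨w, hw, ew⟩ := exists_indic_eq_mul hM hB hφ (centralChar_mem_centerRing hM g) (hg.2.2 φ hφ)
  set W := coeffFun w with hW
  have hval : ∀ t : H, blockCoeff B t = ∑ y : H, classInd g y * W (y⁻¹ * t) := fun t => by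
    rw [blockCoeff_eq_coeffFun, ew, coeffFun_mul]
    simp only [CfsgLib.Chars.conv, W]
    refine Finset.sum_congr rfl fun y _ => ?_
    congr 1
    rw [show (fun χ : IrrCharacter H => centralChar (χ : H → ℂ) g) =
      fun χ : IrrCharacter H => omega (χ : H → ℂ) (classInd g) from
      funext fun ψ => (omega_classInd (IsCharacter.isClassFunction (isCharacter_irr ψ)) g).symm,
      coeffFun_omega (classInd_isClassFunction g)]
  set A : H → ℂ := fun x => ∑ r : (P : Subgroup H), blockCoeff B (x * (r : H)) with hA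
  have hAl : ∀ x, MemLocalRing M (A x) := fun x => mlr_sum hM _ fun r _ => mlr_blockCoeff hM hB _
  -- divisibility
  have hdiv : ∀ x s, Nat.card (inter (P : Subgroup H) x) = p ^ s → d ≤ s →
      ∃ z, MemLocalRing M z ∧ A x = (p : ℂ) ^ (s - d) * z := by
    intro x s hs hds
    let S := inter (P : Subgroup H) x
    let α := ↥(P : Subgroup H) × H
    letI act : MulAction S α :=
      { smul := fun q v => ((⟨x⁻¹ * (q : H) * x * (v.1 : H) * (q : H)⁻¹,
          mul_mem (mul_mem (mem_inter.mp q.2).2 v.1.2) (inv_mem (mem_inter.mp q.2).1)⟩ :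
            (P : Subgroup H)), (q : H) * v.2 * (q : H)⁻¹)
        one_smul := fun v => Prod.ext (Subtype.ext (by
          show x⁻¹ * ((1 : S) : H) * x * (v.1 : H) * ((1 : S) : H)⁻¹ = v.1
          simp)) (by
          show ((1 : S) : H) * v.2 * ((1 : S) : H)⁻¹ = v.2
          simp)
        mul_smul := fun q q' v => Prod.ext (Subtype.ext (by
          show x⁻¹ * ((q * q' : S) : H) * x * (v.1 : H) * ((q * q' : S) : H)⁻¹ =
            x⁻¹ * (q : H) * x * (x⁻¹ * (q' : H) * x * (v.1 : H) * (q' : H)⁻¹) * (q : H)⁻¹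
          rw [Subgroup.coe_mul]
          group)) (by
          show ((q * q' : S) : H) * v.2 * ((q * q' : S) : H)⁻¹ =
            (q : H) * ((q' : H) * v.2 * (q' : H)⁻¹) * (q : H)⁻¹
          rw [Subgroup.coe_mul]
          group) }
    let f : α → ℂ := fun v => classInd g v.2 * W (v.2⁻¹ * (x * (v.1 : H)))
    have hsum : A x = ∑ v : α, f v := by
      rw [Fintype.sum_prod_type]
      simp only [A, f, hval]
    refine ⟨A x / (p : ℂ) ^ (s - d), ?_, (mul_div_cancel₀ _ (pow_ne_zero _
      (Nat.cast_ne_zero.mpr hp.ne_zero))).symm⟩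
    rw [hsum]
    refine sum_orbits (Q := S) (f := f) ?_ (fun z => MemLocalRing M (z / (p : ℂ) ^ (s - d)))
      (by simpa using mlr_zero hM) (fun u v hu hv => by simpa [add_div] using mlr_add hM hu hv) ?_
    · intro q v
      change classInd g ((q : H) * v.2 * (q : H)⁻¹) *
        W (((q : H) * v.2 * (q : H)⁻¹)⁻¹ * (x * (x⁻¹ * (q : H) * x * (v.1 : H) * (q : H)⁻¹))) = _
      have e2 : ((q : H) * v.2 * (q : H)⁻¹)⁻¹ * (x * (x⁻¹ * (q : H) * x * (v.1 : H) * (q : H)⁻¹)) =
          (q : H) * (v.2⁻¹ * (x * (v.1 : H))) * (q : H)⁻¹ := by group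
      rw [classInd_isClassFunction g v.2 (q : H), e2]
      congr 1
      exact coeffFun_isClassFunction w _ (q : H)
    · intro v
      by_cases hc : IsConj g v.2
      swap
      · have : f v = 0 := by simp only [f, classInd, if_neg hc, zero_mul]
        rw [this, mul_zero, zero_div]
        exact mlr_zero hM
      have hS : IsPGroup p S := P.isPGroup'.to_le inf_le_left
      obtain ⟨n, hn⟩ := hS.card_orbit v
      have hstab : Nat.card (MulAction.stabilizer S v) ≤ p ^ d := by
        obtain ⟨c, hc'⟩ := isConj_iff.mp hc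
        set U := ((MulAction.stabilizer S v).map S.subtype).map (MulAut.conj c⁻¹).toMonoidHom with hU
        have hUp : IsPGroup p U := ((hS.to_subgroup _).map _).map _
        have hUc : U ≤ Subgroup.centralizer ({g} : Set H) := by
          rintro _ ⟨_, ⟨q, hq, rfl⟩, rfl⟩
          have hy : (q : H) * v.2 * (q : H)⁻¹ = v.2 := congrArg Prod.snd (hq : q • v = v)
          rw [Subgroup.mem_centralizer_singleton_iff]
          change c⁻¹ * (q : H) * c⁻¹⁻¹ * g = g * (c⁻¹ * (q : H) * c⁻¹⁻¹)
          rw [← hc'] at hy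
          have hy' : (q : H) * (c * g * c⁻¹) = c * g * c⁻¹ * (q : H) := by
            calc (q : H) * (c * g * c⁻¹) = (q : H) * (c * g * c⁻¹) * (q : H)⁻¹ * (q : H) := by group
              _ = _ := by rw [hy]
          calc c⁻¹ * (q : H) * c⁻¹⁻¹ * g = c⁻¹ * ((q : H) * (c * g * c⁻¹)) * c := by group
            _ = c⁻¹ * (c * g * c⁻¹ * (q : H)) * c := by rw [hy']
            _ = _ := by group
        obtain ⟨y, hy⟩ := exists_conj_centralizer_le_sylow hUp hUc S0
        rw [← hS0] at hy
        have := Subgroup.card_le_of_le hy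
        rw [card_map_conj, hU, card_map_conj,
          Subgroup.card_map_of_injective S.subtype_injective] at this
        rwa [hdcard] at this
      have hmul : Nat.card (MulAction.orbit S v) * Nat.card (MulAction.stabilizer S v) =
          Nat.card S := by
        rw [← Nat.card_prod, Nat.card_congr (MulAction.orbitProdStabilizerEquivGroup S v)]
      have hns : s - d ≤ n := by
        rw [hn] at hmul
        have h1 : p ^ s ≤ p ^ (n + d) := by
          rw [← hs, pow_add]
          change Nat.card S ≤ _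
          rw [← hmul]
          exact Nat.mul_le_mul_left _ hstab
        have := (Nat.pow_le_pow_iff_right hp.one_lt).mp h1
        omega
      rw [hn, Nat.cast_pow, ← Nat.add_sub_cancel' hns, pow_add, mul_assoc,
        mul_div_cancel_left₀ _ (pow_ne_zero _ (Nat.cast_ne_zero.mpr hp.ne_zero))]
      refine mlr_mul hM (mlr_pow hM (mlr_natCast hM p) _) (mlr_mul hM ?_ (hw _))
      rw [classInd, if_pos hc]
      exact mlr_one hM
  -- intersections of the critical order
  have hcrit : ∀ x, Nat.card (inter (P : Subgroup H) x) = Nat.card D → MemLocalIdeal M (A x) := by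
    intro x hx
    let S := inter (P : Subgroup H) x
    letI act : MulAction S (P : Subgroup H) :=
      { smul := fun q v => (⟨x⁻¹ * (q : H) * x * (v : H) * (q : H)⁻¹,
          mul_mem (mul_mem (mem_inter.mp q.2).2 v.2) (inv_mem (mem_inter.mp q.2).1)⟩ :
            (P : Subgroup H))
        one_smul := fun v => Subtype.ext (by
          show x⁻¹ * ((1 : S) : H) * x * (v : H) * ((1 : S) : H)⁻¹ = v
          simp)
        mul_smul := fun q q' v => Subtype.ext (by
          show x⁻¹ * ((q * q' : S) : H) * x * (v : H) * ((q * q' : S) : H)⁻¹ =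
            x⁻¹ * (q : H) * x * (x⁻¹ * (q' : H) * x * (v : H) * (q' : H)⁻¹) * (q : H)⁻¹
          rw [Subgroup.coe_mul]
          group) }
    refine mli_sum_of_no_fixed hM (Q := S) (P.isPGroup'.to_le inf_le_left) ?_
      (fun r => mlr_blockCoeff hM hB _) ?_
    · intro q r
      change blockCoeff B (x * (x⁻¹ * (q : H) * x * (r : H) * (q : H)⁻¹)) = _
      rw [show x * (x⁻¹ * (q : H) * x * (r : H) * (q : H)⁻¹) =
        (q : H) * (x * (r : H)) * (q : H)⁻¹ by group]
      exact blockCoeff_isClassFunction B _ _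
    · intro r hr
      by_contra hne
      have e : inter (P : Subgroup H) (x * (r : H)) = inter (P : Subgroup H) x := by
        ext q
        rw [mem_inter, mem_inter]
        refine and_congr_right fun _ => ?_
        rw [show (x * (r : H))⁻¹ * q * (x * (r : H)) = (r : H)⁻¹ * (x⁻¹ * q * x) * (r : H) by group,
          Subgroup.mul_mem_cancel_right _ r.2, Subgroup.mul_mem_cancel_left _ (inv_mem r.2)]
      refine hno (x * (r : H)) hne (by rw [e, hx]) ?_
      rw [e]
      intro q hq
      have h1 : x⁻¹ * q * x * (r : H) * q⁻¹ = (r : H) :=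
        congrArg Subtype.val (hr ⟨q, hq⟩)
      rw [Subgroup.mem_centralizer_singleton_iff]
      calc q * (x * (r : H)) = x * (x⁻¹ * q * x * (r : H) * q⁻¹) * q := by group
        _ = x * (r : H) * q := by rw [h1]
  -- the total
  have hinv : ∀ (u v : (P : Subgroup H)) (x : H), A ((u : H) * x * (v : H)⁻¹) = A x := by
    intro u v x
    simp only [A]
    refine Fintype.sum_equiv ((Equiv.mulLeft v⁻¹).trans (Equiv.mulRight u)) _ _ fun r => ?_
    simp only [Equiv.trans_apply, Equiv.coe_mulLeft, Equiv.coe_mulRight, Subgroup.coe_mul,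
      InvMemClass.coe_inv]
    rw [← blockCoeff_isClassFunction B (x * ((v : H)⁻¹ * (r : H) * (u : H))) (u : H)]
    congr 1
    group
  letI act2 : MulAction (↥(P : Subgroup H) × ↥(P : Subgroup H)) H :=
    { smul := fun q x => (q.1 : H) * x * (q.2 : H)⁻¹
      one_smul := fun x => by
        show ((1 : (P : Subgroup H)) : H) * x * ((1 : (P : Subgroup H)) : H)⁻¹ = x
        simp
      mul_smul := fun q q' x => by
        show ((q.1 * q'.1 : (P : Subgroup H)) : H) * x * ((q.2 * q'.2 : (P : Subgroup H)) : H)⁻¹ =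
          (q.1 : H) * ((q'.1 : H) * x * (q'.2 : H)⁻¹) * (q.2 : H)⁻¹
        simp [mul_assoc] }
  have hP2 : IsPGroup p (↥(P : Subgroup H) × ↥(P : Subgroup H)) :=
    IsPGroup.of_card (n := a + a) (by rw [Nat.card_prod, hPc, pow_add])
  have hmain : MemLocalIdeal M ((∑ x : H, A x * A x⁻¹) / (p : ℂ) ^ (2 * a - d)) := by
    refine sum_orbits (Q := ↥(P : Subgroup H) × ↥(P : Subgroup H)) (f := fun x => A x * A x⁻¹) ?_
      (fun z => MemLocalIdeal M (z / (p : ℂ) ^ (2 * a - d))) (by simpa using mli_zero hM)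
      (fun u v hu hv => by simpa [add_div] using mli_add hM hu hv) ?_
    · intro q x
      change A ((q.1 : H) * x * (q.2 : H)⁻¹) * A ((q.1 : H) * x * (q.2 : H)⁻¹)⁻¹ = _
      rw [hinv, show ((q.1 : H) * x * (q.2 : H)⁻¹)⁻¹ = (q.2 : H) * x⁻¹ * (q.1 : H)⁻¹ by group, hinv]
    · intro x
      obtain ⟨n, hn⟩ := hP2.card_orbit x
      obtain ⟨s, hs⟩ : ∃ s, Nat.card (inter (P : Subgroup H) x) = p ^ s := IsPGroup.iff_card.mp
        (P.isPGroup'.to_le (inf_le_left : inter (P : Subgroup H) x ≤ (P : Subgroup H)))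
      have hst : Nat.card (MulAction.stabilizer (↥(P : Subgroup H) × ↥(P : Subgroup H)) x) =
          Nat.card (inter (P : Subgroup H) x) := by
        refine Nat.card_congr
          { toFun := fun q => ⟨(q.1.1 : H), mem_inter.mpr ⟨q.1.1.2, ?_⟩⟩
            invFun := fun q => ⟨(⟨q.1, (mem_inter.mp q.2).1⟩,
              ⟨x⁻¹ * q.1 * x, (mem_inter.mp q.2).2⟩), ?_⟩
            left_inv := fun q => ?_
            right_inv := fun q => rfl }
        · have h : (q.1.1 : H) * x * (q.1.2 : H)⁻¹ = x := q.2
          have e : x⁻¹ * (q.1.1 : H) * x = (q.1.2 : H) := by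
            calc x⁻¹ * (q.1.1 : H) * x = x⁻¹ * ((q.1.1 : H) * x * (q.1.2 : H)⁻¹) * (q.1.2 : H) := by
                  group
              _ = x⁻¹ * x * (q.1.2 : H) := by rw [h]
              _ = _ := by group
          rw [e]
          exact q.1.2.2
        · show q.1 * x * (x⁻¹ * q.1 * x)⁻¹ = x
          group
        · have h : (q.1.1 : H) * x * (q.1.2 : H)⁻¹ = x := q.2
          refine Subtype.ext (Prod.ext rfl (Subtype.ext ?_))
          show x⁻¹ * (q.1.1 : H) * x = (q.1.2 : H)
          calc x⁻¹ * (q.1.1 : H) * x = x⁻¹ * ((q.1.1 : H) * x * (q.1.2 : H)⁻¹) * (q.1.2 : H) := by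
                group
            _ = x⁻¹ * x * (q.1.2 : H) := by rw [h]
            _ = _ := by group
      have hmul : Nat.card (MulAction.orbit (↥(P : Subgroup H) × ↥(P : Subgroup H)) x) *
          Nat.card (MulAction.stabilizer (↥(P : Subgroup H) × ↥(P : Subgroup H)) x) =
          p ^ a * p ^ a := by
        rw [← Nat.card_prod, Nat.card_congr (MulAction.orbitProdStabilizerEquivGroup _ x),
          Nat.card_prod, hPc]
      rw [hst, hs, hn, ← pow_add, ← pow_add] at hmul
      have hns : n + s = a + a := Nat.pow_right_injective hp.two_le hmul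
      rw [hn, Nat.cast_pow]
      have hp0 : (p : ℂ) ≠ 0 := Nat.cast_ne_zero.mpr hp.ne_zero
      rcases lt_trichotomy s d with h | h | h
      · rw [show n = (2 * a - d) + (d - s) by omega, pow_add, mul_assoc,
          mul_div_cancel_left₀ _ (pow_ne_zero _ hp0)]
        refine mli_mul_right hM ?_ (mlr_mul hM (hAl x) (hAl _))
        rw [← Nat.cast_pow, mli_natCast_iff hM]
        exact dvd_pow_self p (by omega)
      · rw [show n = 2 * a - d by omega, mul_div_cancel_left₀ _ (pow_ne_zero _ hp0)]
        exact mli_mul_right hM (hcrit x (by rw [hs, hdcard, h])) (hAl _)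
      · obtain ⟨z, hz, ez⟩ := hdiv x s hs h.le
        obtain ⟨z', hz', ez'⟩ := hdiv x⁻¹ s (by rw [card_inter_inv, hs]) h.le
        rw [ez, ez', show (p : ℂ) ^ n * ((p : ℂ) ^ (s - d) * z * ((p : ℂ) ^ (s - d) * z')) =
          (p : ℂ) ^ (n + (s - d) + (s - d)) * (z * z') by rw [pow_add, pow_add]; ring,
          show n + (s - d) + (s - d) = (2 * a - d) + (s - d) by omega, pow_add, mul_assoc,
          mul_div_cancel_left₀ _ (pow_ne_zero _ hp0)]
        refine mli_mul_right hM ?_ (mlr_mul hM hz hz')
        rw [← Nat.cast_pow, mli_natCast_iff hM]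
        exact dvd_pow_self p (by omega)
  have htot : ∑ x : H, A x * A x⁻¹ = ((p ^ a : ℕ) : ℂ) * blockCoeff B 1 := by
    simp only [A, Finset.sum_mul_sum]
    rw [Finset.sum_comm]
    have e1 : ∀ r : (P : Subgroup H), (∑ x : H, ∑ s : (P : Subgroup H),
        blockCoeff B (x * (r : H)) * blockCoeff B (x⁻¹ * (s : H))) = blockCoeff B 1 := by
      intro r
      rw [Finset.sum_comm]
      have e2 : ∀ s : (P : Subgroup H), (∑ x : H,
          blockCoeff B (x * (r : H)) * blockCoeff B (x⁻¹ * (s : H))) =
          blockCoeff B ((s : H) * (r : H)) := by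
        intro s
        conv_rhs => rw [← conv_blockCoeff_self B]
        refine Fintype.sum_equiv (Equiv.mulRight (r : H)) _ _ fun x => ?_
        simp only [Equiv.coe_mulRight]
        congr 1
        rw [← blockCoeff_isClassFunction B ((x * (r : H))⁻¹ * ((s : H) * (r : H))) (r : H)]
        congr 1
        group
      rw [Finset.sum_congr rfl fun s _ => e2 s,
        Fintype.sum_equiv (Equiv.mulRight r) (fun s : (P : Subgroup H) =>
          blockCoeff B ((s : H) * (r : H))) (fun s => blockCoeff B (s : H)) (fun s => rfl),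
        Fintype.sum_eq_single (1 : (P : Subgroup H))]
      · rfl
      intro s hs
      refine blockCoeff_eq_zero_of_singular hM hB ?_
      obtain ⟨k, hk⟩ := P.isPGroup'.exists_orderOf_eq_pow s  -- order
      rw [Subgroup.orderOf_coe, hk]
      refine dvd_pow_self p fun h0 => hs ?_
      rw [h0, pow_zero, orderOf_eq_one_iff] at hk
      exact hk
    rw [Finset.sum_congr rfl fun r _ => e1 r, Finset.sum_const, Finset.card_univ,
      ← Nat.card_eq_fintype_card, hPc, nsmul_eq_mul]
  obtain ⟨N, hN, hsq⟩ := exists_squareSum hM hB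
  set m := Nat.card H / p ^ a with hm
  have hH : Nat.card H = p ^ a * m := (Nat.ordProj_mul_ordCompl_eq_self _ _).symm
  have hm0 : (m : ℂ) ≠ 0 := Nat.cast_ne_zero.mpr fun e => Nat.card_pos.ne' (by rw [hH, e, mul_zero])
  have h1 : blockCoeff B 1 = (Nat.card H : ℂ)⁻¹ * ((p ^ (2 * minExp p B + d) * N : ℕ) : ℂ) := by
    rw [blockCoeff_eq_sum, ← hsq, Nat.cast_sum]
    congr 1
    refine Finset.sum_congr rfl fun χ _ => ?_
    rw [irr_apply_one, Complex.conj_natCast, Nat.cast_pow, sq]
  have hq : (∑ x : H, A x * A x⁻¹) / (p : ℂ) ^ (2 * a - d) * (m : ℂ) = (N : ℂ) := by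
    rw [htot, h1, hH, show 2 * minExp p B + d = 2 * a - d by omega]
    push_cast
    have hp0 : (p : ℂ) ≠ 0 := Nat.cast_ne_zero.mpr hp.ne_zero
    field_simp
  exact hN ((mli_natCast_iff hM N).mp (hq ▸ mli_mul_right hM hmain (mlr_natCast hM m)))

/-- Let D be a defect group of a block of the finite group G (relative to a maximal ideal M of the algebraic integers containing the prime p) and P a Sylow p-subgroup containing D. Then there is an element x of order prime to p such that D is a Sylow p-subgroup of the centralizer of x and D = P ∩ x P x⁻¹. -/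
theorem result {G : Type*} [Group G] [Finite G] (p : ℕ) [Fact p.Prime] (M : Ideal Cfsg.AlgInt) (hM : Cfsg.IsPModular p M) (B : Set (Cfsg.IrrCharacter G)) (hB : Cfsg.IsPBlock M B) (D : Subgroup G) (hD : Cfsg.IsDefectGroup p M B D) (P : Sylow p G) (hDP : D ≤ P) : ∃ x : G, ¬ p ∣ orderOf x ∧ (∃ S : Sylow p (Subgroup.centralizer ({x} : Set G)), (S : Subgroup (Subgroup.centralizer ({x} : Set G))).map (Subgroup.centralizer ({x} : Set G)).subtype = D) ∧ (P : Subgroup G) ⊓ (P : Subgroup G).map (MulAut.conj x).toMonoidHom = D := by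
  classical
  haveI := Fintype.ofFinite G
  have hDp := defectGroup_isPGroup hD
  obtain ⟨c, ⟨hc, hcD, -⟩, -⟩ := (Cfsg.Agent.S0920.result p M hM D hDp).2 B hB hD
  let N : Subgroup G := Subgroup.normalizer (D : Set G)
  haveI : Fintype N := Fintype.ofFinite _
  have hDN : D ≤ N := Subgroup.le_normalizer
  obtain ⟨R0, hR0⟩ := (P.isPGroup'.comap_of_injective N.subtype N.subtype_injective).exists_le_sylow
  obtain ⟨t, hta, htc, htC⟩ := exists_inter hM hc hcD R0
  have hDR : D.subgroupOf N ≤ (R0 : Subgroup N) := fun q hq => hR0 (hDP hq)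
  have hDS : D.subgroupOf N ≤ inter (R0 : Subgroup N) t := by
    intro q hq
    refine mem_inter.mpr ⟨hDR hq, hDR ?_⟩
    exact (Subgroup.mem_normalizer_iff''.mp t.2 (q : G)).mp hq
  have hSD : inter (R0 : Subgroup N) t = D.subgroupOf N :=
    (Subgroup.eq_of_le_of_card_ge hDS htc.le).symm
  set x : G := (t : G) with hx
  set C := Subgroup.centralizer ({x} : Set G) with hCdef
  have hDC : D ≤ C := fun q hq =>
    Subgroup.mem_centralizer_singleton_iff.mpr (congrArg Subtype.val
      (Subgroup.mem_centralizer_singleton_iff.mp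
        (htC (hDS (x := ⟨q, hDN hq⟩) hq))))
  have hreg : ¬ p ∣ orderOf x := fun h => hta (by
    rw [blockCoeff_eq_zero_of_singular hM hc (by rwa [← Subgroup.orderOf_coe])]
    exact mli_zero hM)
  obtain ⟨T, hT⟩ := (hDp.of_equiv (Subgroup.subgroupOfEquivOfLe hDC).symm).exists_le_sylow
  refine ⟨x, hreg, ⟨T, ?_⟩, ?_⟩
  · refine eq_of_normalizer_inf_le (p := p) (T.isPGroup'.map C.subtype)
      (fun q hq => ⟨⟨q, hDC hq⟩, hT hq, rfl⟩) ?_
    set U := (T : Subgroup C).map C.subtype ⊓ N with hU
    have hUp : IsPGroup p (U.subgroupOf N) :=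
      ((T.isPGroup'.map C.subtype).to_le inf_le_left).comap_of_injective N.subtype N.subtype_injective
    obtain ⟨y, hy⟩ := pGroup_le_defectGroup hM hc hcD hta hUp fun q hq => by
      have hqC : (q : G) ∈ C := Subgroup.map_subtype_le _ (inf_le_left (b := N) hq)
      exact Subgroup.mem_centralizer_singleton_iff.mpr
        (Subtype.ext (Subgroup.mem_centralizer_singleton_iff.mp hqC))
    have hcard := Subgroup.card_le_of_le hy
    rw [card_map_conj, Nat.card_congr (Subgroup.subgroupOfEquivOfLe (inf_le_right : U ≤ N)).toEquiv,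
      Nat.card_congr (Subgroup.subgroupOfEquivOfLe hDN).toEquiv] at hcard
    have : D = U := Subgroup.eq_of_le_of_card_ge
      (le_inf (fun q hq => ⟨⟨q, hDC hq⟩, hT hq, rfl⟩) hDN) hcard
    exact this.symm.le
  · refine eq_of_normalizer_inf_le (p := p) (P.isPGroup'.to_le inf_le_left) ?_ ?_
    · intro q hq
      refine ⟨hDP hq, q, hDP hq, ?_⟩
      have h := Subgroup.mem_centralizer_singleton_iff.mp (hDC hq)
      change x * q * x⁻¹ = q
      rw [← h]
      group
    · rintro q ⟨hq, hqN⟩
      obtain ⟨h1, h2⟩ := mem_inter.mp (hq : q ∈ inter (P : Subgroup G) x)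
      have h3 : (⟨q, hqN⟩ : N) ∈ inter (R0 : Subgroup N) t :=
        mem_inter.mpr ⟨hR0 h1, hR0 h2⟩
      rw [hSD] at h3
      exact h3

end Cfsg.Agent.S0956
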