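import Cfsg.Statements.S0957
import Mathlib.GroupTheory.Sylow
import Mathlib.GroupTheory.GroupAction.Quotient

set_option autoImplicit false
open Cfsg

namespace Cfsg.Agent.S0957

/-- Let P be a Sylow p-subgroup of the finite group G, let g, h ∈ G and let p ^ d be the order of a Sylow p-subgroup of the centralizer of g. Then the number of pairs (y, z) with y conjugate to g, z conjugate to h and z * y⁻¹ ∈ P is divisible by the order of P divided by p ^ d. -/
theorem result {G : Type*} [Group G] [Finite G] (p : ℕ) [Fact p.Prime] (P : Sylow p G) (g h : G) (S : Sylow p (Subgroup.centralizer ({g} : Set G))) : Nat.card P / Nat.card S ∣ Nat.card {yz : G × G // IsConj g yz.1 ∧ IsConj h yz.2 ∧ yz.2 * yz.1⁻¹ ∈ (P : Subgroup G)} := by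
  classical
  have hp : p.Prime := Fact.out
  let α := {yz : G × G // IsConj g yz.1 ∧ IsConj h yz.2 ∧ yz.2 * yz.1⁻¹ ∈ (P : Subgroup G)}
  have hc : ∀ (w a b : G), IsConj a b → IsConj a (w * b * w⁻¹) := fun w a b hab =>
    hab.trans (isConj_iff.mpr ⟨w, rfl⟩)
  letI : MulAction P α :=
    { smul := fun w yz => ⟨((w : G) * yz.1.1 * (w : G)⁻¹, (w : G) * yz.1.2 * (w : G)⁻¹),
        hc _ _ _ yz.2.1, hc _ _ _ yz.2.2.1, by
          have e : (w : G) * yz.1.2 * (w : G)⁻¹ * ((w : G) * yz.1.1 * (w : G)⁻¹)⁻¹ =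
              (w : G) * (yz.1.2 * yz.1.1⁻¹) * (w : G)⁻¹ := by group
          rw [e]
          exact mul_mem (mul_mem w.2 yz.2.2.2) (inv_mem w.2)⟩
      one_smul := fun yz => Subtype.ext (Prod.ext
        (show ((1 : P) : G) * yz.1.1 * ((1 : P) : G)⁻¹ = yz.1.1 by simp)
        (show ((1 : P) : G) * yz.1.2 * ((1 : P) : G)⁻¹ = yz.1.2 by simp))
      mul_smul := fun v w yz => Subtype.ext (Prod.ext
        (show ((v * w : P) : G) * yz.1.1 * ((v * w : P) : G)⁻¹ =
          (v : G) * ((w : G) * yz.1.1 * (w : G)⁻¹) * (v : G)⁻¹ by simp [mul_assoc])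
        (show ((v * w : P) : G) * yz.1.2 * ((v * w : P) : G)⁻¹ =
          (v : G) * ((w : G) * yz.1.2 * (w : G)⁻¹) * (v : G)⁻¹ by simp [mul_assoc])) }
  haveI : Fintype (Quotient (MulAction.orbitRel P α)) := Fintype.ofFinite _
  change Nat.card P / Nat.card S ∣ Nat.card α
  rw [Nat.card_congr (MulAction.selfEquivSigmaOrbitsQuotientStabilizer P α), Nat.card_sigma]
  refine Finset.dvd_sum fun o _ => ?_
  set yz := Quotient.out o with hyz
  set K := MulAction.stabilizer P yz
  change _ ∣ K.index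
  obtain ⟨w, hw⟩ := isConj_iff.mp yz.2.1
  have hle : (K.map (P : Subgroup G).subtype).map (MulAut.conj w⁻¹).toMonoidHom ≤
      Subgroup.centralizer ({g} : Set G) := by
    rintro _ ⟨_, ⟨k, hk, rfl⟩, rfl⟩
    have hky : (k : G) * yz.1.1 * (k : G)⁻¹ = yz.1.1 :=
      congrArg (fun a : α => a.1.1) (MulAction.mem_stabilizer_iff.mp hk)
    rw [← hw] at hky
    refine Subgroup.mem_centralizer_singleton_iff.mpr ?_
    change w⁻¹ * (k : G) * w⁻¹⁻¹ * g = g * (w⁻¹ * (k : G) * w⁻¹⁻¹)
    calc w⁻¹ * (k : G) * w⁻¹⁻¹ * g = w⁻¹ * ((k : G) * (w * g * w⁻¹) * (k : G)⁻¹) * (k : G) * w := by group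
      _ = w⁻¹ * (w * g * w⁻¹) * (k : G) * w := by rw [hky]
      _ = g * (w⁻¹ * (k : G) * w⁻¹⁻¹) := by group
  have hd := Subgroup.card_dvd_of_le hle
  rw [Subgroup.card_map_of_injective (MulEquiv.injective _),
    Subgroup.card_map_of_injective (Subgroup.subtype_injective _)] at hd
  obtain ⟨i, hi⟩ := IsPGroup.iff_card.mp (P.2.to_subgroup K)
  rw [hi] at hd
  have his : i ≤ (Nat.card (Subgroup.centralizer ({g} : Set G))).factorization p :=
    (hp.pow_dvd_iff_le_factorization Nat.card_pos.ne').mp hd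
  have hsa : (Nat.card (Subgroup.centralizer ({g} : Set G))).factorization p ≤
      (Nat.card G).factorization p :=
    (Nat.factorization_le_iff_dvd Nat.card_pos.ne' Nat.card_pos.ne').mpr
      (Subgroup.card_subgroup_dvd_card _) p
  have h2 := K.index_mul_card
  rw [hi, P.card_eq_multiplicity] at h2
  have hidx : K.index = p ^ ((Nat.card G).factorization p - i) := by
    refine Nat.eq_of_mul_eq_mul_right (pow_pos hp.pos i) ?_
    rw [h2, ← pow_add, Nat.sub_add_cancel (his.trans hsa)]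
  rw [P.card_eq_multiplicity, S.card_eq_multiplicity, Nat.pow_div hsa hp.pos, hidx]
  exact pow_dvd_pow p (by omega)

end Cfsg.Agent.S0957
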