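import Cfsg.Statements.S0961
import Cfsg.Agent.Lib.Blocks.RegGenChar

set_option autoImplicit false
open Cfsg

namespace Cfsg.Agent.S0961

open CfsgLib.Chars CfsgLib.Blocks

/-- Let χ be an irreducible character of the finite group G and let p ^ a be the largest power of the prime p dividing the order of G. Then the function equal to p ^ a * χ x at elements x of order prime to p and to 0 elsewhere is a generalized character (a difference of characters). -/
theorem result {G : Type*} [Group G] [Finite G] (p : ℕ) [Fact p.Prime] (χ : Cfsg.IrrCharacter G) : Cfsg.IsGeneralizedCharacter G (fun x : G => if p ∣ orderOf x then 0 else ((p ^ (Nat.card G).factorization p : ℕ) : ℂ) * (χ : G → ℂ) x) := by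
  haveI := Fintype.ofFinite G
  have hp : p.Prime := Fact.out
  obtain ⟨α, β, hα, hβ, h⟩ := isGenChar_scaled hp χ
  set b := (charDegree (χ : G → ℂ)).factorization p
  refine ⟨(p ^ b) • α, (p ^ b) • β, IsCharacter.nsmul hα _, IsCharacter.nsmul hβ _, ?_⟩
  funext x
  have hx := congrFun h x
  simp only [Pi.sub_apply, Pi.smul_apply, smul_eq_mul, nsmul_eq_mul] at hx ⊢
  simp only [Pi.mul_apply, Pi.natCast_apply, ← mul_sub]
  rw [← hx]
  split_ifs with hd
  · rw [mul_zero]
  · rw [← mul_assoc, ← Nat.cast_mul, ← pow_add,
      Nat.add_sub_cancel' (factorization_charDegree_le χ p)]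

end Cfsg.Agent.S0961
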