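import Cfsg.Statements.S0963
import Cfsg.Agent.Lib.Blocks.Cover

set_option autoImplicit false
open Cfsg

namespace Cfsg.Agent.S0963

open CfsgLib.Chars CfsgLib.Blocks

/-- Let N be a normal subgroup of the finite group G, χ an irreducible character of G and θ an irreducible character of N. Then θ occurs in the restriction of χ to N if and only if, for every n ∈ N, the central character of χ at n (class size in G times χ n over χ 1) equals the sum of θ m / θ 1 over the elements m of N conjugate in G to n. -/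
theorem result {G : Type*} [Group G] [Fintype G] (N : Subgroup G) [N.Normal] [Fintype N] (χ : Cfsg.IrrCharacter G) (θ : Cfsg.IrrCharacter N) : Cfsg.classInner (fun n : N => (χ : G → ℂ) n) (θ : N → ℂ) ≠ 0 ↔ ∀ n : N, Cfsg.centralChar (χ : G → ℂ) (n : G) = Cfsg.inducedCentralChar N (θ : N → ℂ) (n : G) := by
  classical
  refine ⟨fun h n => centralChar_eq_of_constituent N h n, fun h => ?_⟩
  obtain ⟨ψ, hψ⟩ := exists_res_constituent N χ
  set A : Set (Cfsg.IrrCharacter N) := (orbit N θ : Set (Cfsg.IrrCharacter N))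
  have hst : ∀ φ ∈ A, ∀ g : G, conjIrr N φ g ∈ A := by
    intro φ hφ g
    obtain ⟨x, rfl⟩ := (mem_orbit N).mp hφ
    exact (mem_orbit N).mpr ⟨x * g, (conjIrr_mul N θ x g).symm⟩
  have hf := ext0_blockCoeff_isClassFunction N hst
  have hsupp : ∀ g ∉ N, ext0 N (Cfsg.blockCoeff A) g = 0 := fun g hg => by rw [ext0, dif_neg hg]
  have e : (fun n : N => ext0 N (Cfsg.blockCoeff A) (n : G)) = Cfsg.blockCoeff A :=
    funext fun n => ext0_apply N _ n
  have h1 := omega_congr_on N (⊥ : AddSubgroup ℂ) hf hsupp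
    (fun g z hz => by rw [AddSubgroup.mem_bot] at hz ⊢; rw [hz, mul_zero])
    (χ := χ) (θ := θ) (fun n => by rw [AddSubgroup.mem_bot, h n, sub_self])
  rw [AddSubgroup.mem_bot, omega_res_constituent N hψ hf hsupp, e, omega_blockCoeff,
    omega_blockCoeff, indic_of_mem (show θ ∈ A from (mem_orbit N).mpr ⟨1, (conjIrr_one N θ).symm⟩),
    sub_eq_zero] at h1
  have hψA : ψ ∈ A := by
    by_contra hn
    rw [indic_of_notMem hn] at h1
    exact zero_ne_one h1
  obtain ⟨g, rfl⟩ := (mem_orbit N).mp hψA
  rwa [classInner_res_conjIrr N _ (IsCharacter.isClassFunction (isCharacter_irr χ))] at hψ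

end Cfsg.Agent.S0963
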