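import Cfsg.Statements.S0965
import Cfsg.Agent.Lib.Blocks.Cover

set_option autoImplicit false
open Cfsg

namespace Cfsg.Agent.S0965

open CfsgLib.Chars CfsgLib.Blocks

/-- Let N be a normal subgroup of the finite group G and let B, b be blocks of G and of N relative to a maximal ideal M of the algebraic integers containing the prime p. Then some χ ∈ B has a constituent in b on restriction to N if and only if, for all χ ∈ B, θ ∈ b and n ∈ N, the central character of χ at n is congruent modulo the local ideal at M to the sum of θ m / θ 1 over the elements m ∈ N conjugate in G to n. -/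
theorem result {G : Type*} [Group G] [Fintype G] (p : ℕ) [Fact p.Prime] (M : Ideal Cfsg.AlgInt) (hM : Cfsg.IsPModular p M) (N : Subgroup G) [N.Normal] [Fintype N] (B : Set (Cfsg.IrrCharacter G)) (hB : Cfsg.IsPBlock M B) (b : Set (Cfsg.IrrCharacter N)) (hb : Cfsg.IsPBlock M b) : (∃ χ ∈ B, ∃ θ ∈ b, Cfsg.classInner (fun n : N => (χ : G → ℂ) n) (θ : N → ℂ) ≠ 0) ↔ ∀ χ ∈ B, ∀ θ ∈ b, ∀ n : N, Cfsg.MemLocalIdeal M (Cfsg.centralChar (χ : G → ℂ) (n : G) - Cfsg.inducedCentralChar N (θ : N → ℂ) (n : G)) := by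
  constructor
  · rintro ⟨χ₀, hχ₀, θ₀, hθ₀, h₀⟩ χ hχ θ hθ n
    exact mli_centralChar_of_cover N hM hB hb hχ₀ hθ₀ h₀ hχ hθ n
  · intro h
    obtain ⟨χ, hχ⟩ := IsPBlock.nonempty hM hB
    obtain ⟨θ, hθ⟩ := IsPBlock.nonempty hM hb
    obtain ⟨ψ, hψ⟩ := exists_res_constituent N χ
    obtain ⟨g, hg⟩ := constituent_mem_blockOrbit N hM hb hθ (fun n => h χ hχ θ hθ n) hψ
    refine ⟨χ, hχ, _, hg, ?_⟩
    rwa [classInner_res_conjIrr N _ (IsCharacter.isClassFunction (isCharacter_irr χ))]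

end Cfsg.Agent.S0965
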