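import Cfsg.Statements.S0966
import Cfsg.Agent.Lib.Blocks.Cover

set_option autoImplicit false
open Cfsg

namespace Cfsg.Agent.S0966

open CfsgLib.Chars CfsgLib.Blocks

/-- Let N be a normal subgroup of p-power index in the finite group G and b a block of N relative to a maximal ideal M of the algebraic integers containing p. Then there is exactly one block B of G containing a character whose restriction to N has a constituent in b. -/
theorem result {G : Type*} [Group G] [Fintype G] (p : ℕ) [Fact p.Prime] (M : Ideal Cfsg.AlgInt) (hM : Cfsg.IsPModular p M) (N : Subgroup G) [N.Normal] [Fintype N] (hidx : ∃ k : ℕ, N.index = p ^ k) (b : Set (Cfsg.IrrCharacter N)) (hb : Cfsg.IsPBlock M b) : ∃! B : Set (Cfsg.IrrCharacter G), Cfsg.IsPBlock M B ∧ ∃ χ ∈ B, ∃ θ ∈ b, Cfsg.classInner (fun n : N => (χ : G → ℂ) n) (θ : N → ℂ) ≠ 0 := by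
  classical
  obtain ⟨k, hk⟩ := hidx
  obtain ⟨θ, hθ⟩ := IsPBlock.nonempty hM hb
  obtain ⟨χ, hχ⟩ := exists_over N θ
  refine ⟨Cfsg.blockOf M (χ : G → ℂ),
    ⟨isPBlock_blockOf χ, χ, self_mem_blockOf hM χ, θ, hθ, hχ⟩, ?_⟩
  rintro B ⟨hB, χ', hχ', θ', hθ', h'⟩
  refine IsPBlock.eq_blockOf hM hB ?_
  by_contra hne
  have hsupp : ∀ g ∉ N, Cfsg.blockCoeff B g = 0 := fun g hg => by
    by_contra h0
    refine hg ?_
    have hreg : ¬ p ∣ orderOf g := fun hd => h0 (blockCoeff_eq_zero_of_singular hM hB hd)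
    have h1 : orderOf (g : G ⧸ N) ∣ p ^ k := by
      rw [← hk, Subgroup.index_eq_card]; exact orderOf_dvd_natCard _
    exact (QuotientGroup.eq_one_iff g).mp (orderOf_eq_one_iff.mp (Nat.eq_one_of_dvd_coprimes
      (((hM.1.coprime_iff_not_dvd.mpr hreg).symm).pow_right k)
      (orderOf_map_dvd (QuotientGroup.mk' N) g) h1))
  have hf := blockCoeff_isClassFunction B
  have hl := mlr_blockCoeff hM hB
  have h1 := mli_omega_congr_on N hM (χ := χ) (θ := θ') hf hl hsupp fun n => by
    rw [centralChar_eq_of_constituent N hχ n]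
    exact mli_inducedCentralChar_block N hM (IsPBlock.sameBlock hM hb hθ hθ') _
  rw [omega_blockCoeff, ← omega_res_constituent N h' hf hsupp, omega_blockCoeff, indic_of_mem hχ',
    indic_of_notMem hne, zero_sub] at h1
  exact not_mli_one hM (by simpa using mli_neg h1)

end Cfsg.Agent.S0966
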