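import Cfsg.Statements.S0968
import Cfsg.Agent.Lib.Blocks.DCentralizer
import Cfsg.Agent.Lib.Chars.GlaubermanFixed

set_option autoImplicit false
open Cfsg

namespace Cfsg.Agent.S0968

set_option linter.style.haveILetI false
open CfsgLib.Chars CfsgLib.Blocks CfsgLib.Blocks.DC

/-- Let P be a p-subgroup of the finite group G with P ⊔ C_G(P) = G, and let B be a block with defect group P relative to a maximal ideal M of the algebraic integers containing p. Then there is exactly one θ ∈ B with θ x = θ 1 for all x ∈ P; for this θ the exponent of p in θ(1) equals the exponent of p in the index of P; and the number of members of B equals the number of conjugacy classes of P. -/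
theorem result {G : Type*} [Group G] [Finite G] (p : ℕ) [Fact p.Prime] (M : Ideal Cfsg.AlgInt) (hM : Cfsg.IsPModular p M) (P : Subgroup G) (hP : IsPGroup p P) (hG : P ⊔ Subgroup.centralizer (P : Set G) = ⊤) (B : Set (Cfsg.IrrCharacter G)) (hB : Cfsg.IsPBlock M B) (hD : Cfsg.IsDefectGroup p M B P) : (∃! θ : Cfsg.IrrCharacter G, θ ∈ B ∧ ∀ x ∈ P, (θ : G → ℂ) x = (θ : G → ℂ) 1) ∧ (∀ θ ∈ B, (∀ x ∈ P, (θ : G → ℂ) x = (θ : G → ℂ) 1) → (Cfsg.charDegree (θ : G → ℂ)).factorization p = P.index.factorization p) ∧ Nat.card B = Nat.card (ConjClasses P) := by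
  classical
  haveI := Fintype.ofFinite G
  haveI := Fintype.ofFinite P
  have hd := card_defectGroup hM hB hD
  obtain ⟨θ, hθ, hker⟩ := exists_canonical hM hG hP hB hd
  have hdeg := canonical_degree hM hG hP hd hθ hker
  have hiff := mem_block_iff hM hG hP hker hdeg hB hd hθ
  refine ⟨⟨θ, ⟨hθ, hker⟩, fun φ ⟨hφ, hφk⟩ => ?_⟩,
    fun φ hφ hφk => canonical_degree hM hG hP hd hφ hφk, ?_⟩
  · obtain ⟨ζ, rfl⟩ := (hiff φ).mp hφ
    apply Subtype.ext
    funext g
    rw [theta_eq_star hM hG hP hker hdeg g]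
    change starChar p P (θ : G → ℂ) (ζ : P → ℂ) g = starChar p P (θ : G → ℂ) (fun _ => 1) g
    have hreg1 : ¬ p ∣ orderOf (1 : G) := not_dvd_orderOf_one hM
    have hconst : ∀ y : P, (ζ : P → ℂ) y = (ζ : P → ℂ) 1 := fun y => by
      have h2 := hφk y y.2
      change starChar p P (θ : G → ℂ) (ζ : P → ℂ) y = starChar p P (θ : G → ℂ) (ζ : P → ℂ) 1 at h2
      rw [← mul_one (y : G), starChar_apply hG hP hM.1 _ _ y hreg1, starChar_one hG hP hM.1] at h2
      exact mul_right_cancel₀ (irr_one_ne_zero θ) h2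
    have hone : (ζ : P → ℂ) 1 = 1 := by
      have hn := classInner_irr ζ ζ
      rw [if_pos rfl] at hn
      simp only [Cfsg.classInner, hconst, Finset.sum_const, Finset.card_univ, nsmul_eq_mul,
        ← Nat.card_eq_fintype_card, ← mul_assoc, inv_mul_cancel₀ (natCast_card_ne_zero P), one_mul,
        irr_apply_one, map_natCast] at hn
      rw [irr_apply_one]
      have h1 : Cfsg.charDegree (ζ : P → ℂ) * Cfsg.charDegree (ζ : P → ℂ) = 1 := by
        exact_mod_cast hn
      rw [Nat.eq_one_of_mul_eq_one_right h1, Nat.cast_one]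
    rw [show (ζ : P → ℂ) = fun _ => 1 from funext fun y => (hconst y).trans hone]
  · rw [← card_irr (G := P)]
    refine (Nat.card_congr ((Equiv.ofBijective
      (fun ζ : Cfsg.IrrCharacter P => (⟨starIrr hM hG hP hker hdeg ζ,
        (hiff _).mpr ⟨ζ, rfl⟩⟩ : B)) ⟨fun a b e => starIrr_injective hM hG hP hker hdeg
          (congrArg Subtype.val e), fun ψ => ?_⟩).symm))
    obtain ⟨ζ, hζ⟩ := (hiff ψ.1).mp ψ.2
    exact ⟨ζ, Subtype.ext hζ.symm⟩

end Cfsg.Agent.S0968
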