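import Cfsg.Statements.S0969
import Cfsg.Agent.Lib.Blocks.CentralDefect
import Cfsg.Agent.Lib.Blocks.HeightZero

set_option autoImplicit false
open Cfsg

namespace Cfsg.Agent.S0969

open CfsgLib.Chars CfsgLib.Blocks

/-- Let D be a central p-subgroup of the finite group G and χ an irreducible character with the exponent of p in χ(1) equal to the exponent of p in the index of D; fix a maximal ideal M of the algebraic integers containing p. Then D is a defect group of the block of χ, and χ g = 0 whenever the p-part of g does not lie in D. -/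
theorem result {G : Type*} [Group G] [Finite G] (p : ℕ) [Fact p.Prime] (M : Ideal Cfsg.AlgInt) (hM : Cfsg.IsPModular p M) (D : Subgroup G) (hD : IsPGroup p D) (hDZ : D ≤ Subgroup.center G) (χ : Cfsg.IrrCharacter G) (hdeg : (Cfsg.charDegree (χ : G → ℂ)).factorization p = D.index.factorization p) : Cfsg.IsDefectGroup p M (Cfsg.blockOf M (χ : G → ℂ)) D ∧ ∀ g x : G, Cfsg.IsPPart p g x → x ∉ D → (χ : G → ℂ) g = 0 := by
  classical
  haveI : Fintype G := Fintype.ofFinite G
  set B := Cfsg.blockOf M (χ : G → ℂ) with hBdef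
  have hB : Cfsg.IsPBlock M B := isPBlock_blockOf χ
  have hχB : χ ∈ B := self_mem_blockOf hM χ
  obtain ⟨φ, hφ, h0⟩ := exists_height_zero hM hB
  have hne : regMat hM.1 χ φ ≠ 0 := fun h =>
    regMat_not_dvd hM hB hφ h0 hχB (h.symm ▸ dvd_zero _)
  obtain ⟨hP, hdφ, -⟩ := linked_of_max hM hD hDZ hdeg hne
  refine ⟨?_, fun g x hx hxD => (regMat_self_le hM hD hDZ χ).2 hP g x hx hxD⟩
  obtain ⟨E, hE⟩ := exists_isDefectGroup hM hB
  haveI : D.Normal := ⟨fun d hd y => by
    rw [Subgroup.mem_center_iff.mp (hDZ hd) y, mul_inv_cancel_right]; exact hd⟩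
  have hDE := normal_pGroup_le_defectGroup hM D hD hB hE
  obtain ⟨d, hd⟩ := IsPGroup.iff_card.mp hD
  have hdef : Cfsg.blockDefect p B = d := by
    have h1 := minExp_add_defect (p := p) hφ
    have h2 := minExp_add_height (p := p) hφ
    rw [h0, hdφ, hdeg] at h2
    rw [← D.index_mul_card, Nat.factorization_mul D.index_ne_zero_of_finite Nat.card_pos.ne',
      Finsupp.add_apply, hd, hM.1.factorization_pow, Finsupp.single_eq_same] at h1
    omega
  have hcard := card_defectGroup hM hB hE
  rw [hdef, ← hd] at hcard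
  rwa [Subgroup.eq_of_le_of_card_ge hDE hcard.le]

end Cfsg.Agent.S0969
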