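import Cfsg.Statements.S0971
import Cfsg.Agent.Lib.Blocks.Cover

set_option autoImplicit false
open Cfsg

namespace Cfsg.Agent.S0971

open CfsgLib.Chars CfsgLib.Blocks

/-- Let Q be a normal p-subgroup of the finite group G, let N = Q ⊔ C_G(Q) (a normal subgroup) and let b be a block of N relative to a maximal ideal M of the algebraic integers containing p. Then b induces some block of G, and every block B of G containing a character whose restriction to N has a constituent in b is induced by b. -/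
theorem result {G : Type*} [Group G] [Fintype G] (p : ℕ) [Fact p.Prime] (M : Ideal Cfsg.AlgInt) (hM : Cfsg.IsPModular p M) (Q : Subgroup G) [Q.Normal] (hQ : IsPGroup p Q) [Fintype ↥(Q ⊔ Subgroup.centralizer (Q : Set G))] (b : Set (Cfsg.IrrCharacter ↥(Q ⊔ Subgroup.centralizer (Q : Set G)))) (hb : Cfsg.IsPBlock M b) : Cfsg.InducedBlockDefined M (Q ⊔ Subgroup.centralizer (Q : Set G)) b ∧ ∀ B : Set (Cfsg.IrrCharacter G), Cfsg.IsPBlock M B → (∃ χ ∈ B, ∃ θ ∈ b, Cfsg.classInner (fun n : ↥(Q ⊔ Subgroup.centralizer (Q : Set G)) => (χ : G → ℂ) n) (θ : ↥(Q ⊔ Subgroup.centralizer (Q : Set G)) → ℂ) ≠ 0) → Cfsg.IsInducedBlock M (Q ⊔ Subgroup.centralizer (Q : Set G)) b B := by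
  classical
  haveI : (Subgroup.centralizer (Q : Set G)).Normal := ⟨fun x hx y =>
    conj_mem_centralizer_of_normalizer (by rw [Subgroup.normalizer_eq_top]; exact Subgroup.mem_top y) hx⟩
  have hN : Q ⊔ Subgroup.centralizer (Q : Set G) ≤ Subgroup.normalizer (Q : Set G) := by
    rw [Subgroup.normalizer_eq_top]; exact le_top
  obtain ⟨ξ, hξ⟩ := IsPBlock.nonempty hM hb
  refine ⟨?_, ?_⟩
  · obtain ⟨B, hB, hne⟩ := exists_block_brVal hM hN ξ
    exact ⟨B, (isInducedBlock_iff_brVal hM hQ le_sup_left le_sup_right hN hb hB hξ).mpr hne⟩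
  · rintro B hB ⟨χ₀, hχ₀, θ₀, hθ₀, h₀⟩
    refine ⟨hb, hB, fun θ hθ χ hχ g => ?_⟩
    by_cases hg : g ∈ Q ⊔ Subgroup.centralizer (Q : Set G)
    · have h1 := mli_neg (mli_centralChar_of_cover _ hM hB hb hχ₀ hθ₀ h₀ hχ hθ ⟨g, hg⟩)
      rwa [neg_sub] at h1
    · have h0 : Cfsg.inducedCentralChar (Q ⊔ Subgroup.centralizer (Q : Set G))
          (θ : ↥(Q ⊔ Subgroup.centralizer (Q : Set G)) → ℂ) g = 0 := by
        rw [inducedCentralChar_eq, omega, Finset.sum_eq_zero, zero_div]
        intro n _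
        rw [classInd, if_neg, zero_mul]
        intro hc
        obtain ⟨w, hw⟩ := isConj_iff.mp hc
        refine hg ?_
        have := Subgroup.Normal.conj_mem (H := Q ⊔ Subgroup.centralizer (Q : Set G)) inferInstance _ n.2 w⁻¹
        rw [← hw] at this
        simpa [mul_assoc] using this
      rw [h0, zero_sub]
      exact mli_neg (mli_centralChar_of_notMem hM Q hQ χ fun h => hg (Subgroup.mem_sup_right h))

end Cfsg.Agent.S0971
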