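import Cfsg.Statements.S0973
import Cfsg.Agent.Lib.Blocks.PCBlocks

set_option autoImplicit false
open Cfsg

namespace Cfsg.Agent.S0973

set_option linter.style.haveILetI false
open CfsgLib.Chars CfsgLib.Blocks

/-- Let B be a block of the finite group G with defect group P (relative to a maximal ideal M of the algebraic integers containing p), and let L = P ⊔ C_G(P). Then (i) some block b of L with defect group P (viewed in L) induces B, and (ii) if b and b' are blocks of L both inducing B, there is n ∈ N_G(P) carrying b to b': for every θ ∈ b there is θ' ∈ b' with θ' x = θ (n x n⁻¹) for all x ∈ L. -/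
theorem result {G : Type*} [Group G] [Finite G] (p : ℕ) [Fact p.Prime] (M : Ideal Cfsg.AlgInt) (hM : Cfsg.IsPModular p M) (B : Set (Cfsg.IrrCharacter G)) (hB : Cfsg.IsPBlock M B) (P : Subgroup G) (hP : Cfsg.IsDefectGroup p M B P) : (∃ b : Set (Cfsg.IrrCharacter ↥(P ⊔ Subgroup.centralizer (P : Set G))), Cfsg.IsDefectGroup p M b (P.subgroupOf (P ⊔ Subgroup.centralizer (P : Set G))) ∧ Cfsg.IsInducedBlock M (P ⊔ Subgroup.centralizer (P : Set G)) b B) ∧ ∀ b b' : Set (Cfsg.IrrCharacter ↥(P ⊔ Subgroup.centralizer (P : Set G))), Cfsg.IsInducedBlock M (P ⊔ Subgroup.centralizer (P : Set G)) b B → Cfsg.IsInducedBlock M (P ⊔ Subgroup.centralizer (P : Set G)) b' B → ∃ n ∈ Subgroup.normalizer (P : Set G), ∀ θ ∈ b, ∃ θ' ∈ b', ∀ x : ↥(P ⊔ Subgroup.centralizer (P : Set G)), ∀ hx : n * (x : G) * n⁻¹ ∈ P ⊔ Subgroup.centralizer (P : Set G), (θ' : ↥(P ⊔ Subgroup.centralizer (P : Set G)) → ℂ) x = (θ : ↥(P ⊔ Subgroup.centralizer (P : Set G)) → ℂ) ⟨n * (x : G) * n⁻¹, hx⟩ :=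 by
  classical
  haveI := Fintype.ofFinite G
  haveI : Fintype ↥(P ⊔ Subgroup.centralizer (P : Set G)) := Fintype.ofFinite _
  have hPp : IsPGroup p P := defectGroup_isPGroup hP
  constructor
  · obtain ⟨g, hg, S, hS⟩ := id hP
    have hgC : g ∈ Subgroup.centralizer (P : Set G) :=
      Subgroup.mem_centralizer_iff.mpr fun q hq =>
        Subgroup.mem_centralizer_singleton_iff.mp ((hS ▸ Subgroup.map_subtype_le _ : P ≤ _) hq)
    obtain ⟨e, he⟩ := exists_pair_at hM hB hPp hgC hg.2.1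
    obtain ⟨b, hb, hcoef⟩ := exists_pc_block hM hPp rfl he.1.2
    exact ⟨b, pc_block_defect_maximal hM rfl (maximal_of_defectGroup hM he hP) hb hcoef,
      (pc_induced_iff hM hPp rfl he.1.2 hb hcoef hB).mpr he⟩
  · intro b b' hbB hb'B
    obtain ⟨e, he, hcoef⟩ := pc_block_cover hM hPp rfl hbB.1
    obtain ⟨e', he', hcoef'⟩ := pc_block_cover hM hPp rfl hb'B.1
    obtain ⟨m, hm, hme⟩ := maximal_conj_normalizer hM
      (maximal_of_defectGroup hM ((pc_induced_iff hM hPp rfl he hbB.1 hcoef hB).mp hbB) hP)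
      (maximal_of_defectGroup hM ((pc_induced_iff hM hPp rfl he' hb'B.1 hcoef' hB).mp hb'B) hP)
    have hmH : m ∈ Subgroup.normalizer ((P ⊔ Subgroup.centralizer (P : Set G) : Subgroup G) : Set G) :=
      mem_normalizer_pc rfl hm
    have hbb := pc_block_conj hM hbB.1 hb'B.1 hcoef hcoef' hm hmH hme
    refine ⟨m⁻¹, inv_mem hm, fun θ hθ => ⟨pullIrr (normConj _ hmH).symm θ, ?_, fun x hx => ?_⟩⟩
    · rw [hbb]
      show pullIrr _ (pullIrr _ θ) ∈ b
      rwa [pullIrr_symm_apply]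
    · rw [pullIrr_apply]
      exact congrArg (θ : ↥(P ⊔ Subgroup.centralizer (P : Set G)) → ℂ)
        (Subtype.ext (by simp [normConj]))

end Cfsg.Agent.S0973
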