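import Cfsg.Statements.S0985
import Mathlib

set_option autoImplicit false
open Cfsg

namespace Cfsg.Agent.S0985

/-- If the number of Sylow p-subgroups of a finite group is not congruent to 1 modulo p^k, then there are two distinct Sylow p-subgroups P and R such that the index of P ∩ R in P is at most p^(k-1). -/
theorem result {G : Type*} [Group G] [Finite G] (p k : ℕ) [Fact p.Prime] (h : ¬ Nat.card (Sylow p G) ≡ 1 [MOD p ^ k]) : ∃ P R : Sylow p G, P ≠ R ∧ ((R : Subgroup G).subgroupOf (P : Subgroup G)).index ≤ p ^ (k - 1) := by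
  classical
  by_contra hcon
  push Not at hcon
  apply h
  obtain ⟨P⟩ := (inferInstance : Nonempty (Sylow p G))
  haveI := Fintype.ofFinite (Sylow p G)
  have key : ∀ R : Sylow p G, R ≠ P → p ^ k ∣ Nat.card (MulAction.orbit (P : Subgroup G) R) := by
    intro R hR
    have hlt := hcon P R (Ne.symm hR)
    have hstab : MulAction.stabilizer (P : Subgroup G) R =
        (R : Subgroup G).subgroupOf (P : Subgroup G) := by
      ext x
      rw [MulAction.mem_stabilizer_iff, Subgroup.mem_subgroupOf]
      change (x : G) • R = R ↔ _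
      rw [Sylow.smul_eq_iff_mem_normalizer]
      constructor
      · intro hx
        have : (x : G) ∈ (P : Subgroup G) ⊓ Subgroup.normalizer (R : Set G) := ⟨x.2, hx⟩
        rw [P.2.inf_normalizer_sylow R] at this
        exact this.2
      · exact fun hx => Subgroup.le_normalizer hx
    rw [Nat.card_coe_set_eq, ← MulAction.index_stabilizer, hstab]
    obtain ⟨j, hj⟩ := P.2.index ((R : Subgroup G).subgroupOf (P : Subgroup G))
    rw [hj] at hlt ⊢
    refine pow_dvd_pow p ?_
    have := (Nat.pow_lt_pow_iff_right (Fact.out : p.Prime).one_lt).1 hlt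
    omega
  have hcard : Nat.card (Sylow p G) =
      ∑ ω : MulAction.orbitRel.Quotient (P : Subgroup G) (Sylow p G), Nat.card ω.orbit := by
    rw [← Nat.card_sigma]
    exact Nat.card_congr (MulAction.selfEquivSigmaOrbits' (P : Subgroup G) (Sylow p G))
  rw [hcard, ← Finset.add_sum_erase Finset.univ _
    (Finset.mem_univ (Quotient.mk'' P : MulAction.orbitRel.Quotient (P : Subgroup G) (Sylow p G)))]
  have h1 : Nat.card
      (MulAction.orbitRel.Quotient.orbit
      (Quotient.mk'' P : MulAction.orbitRel.Quotient (P : Subgroup G) (Sylow p G))) = 1 := by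
    rw [MulAction.orbitRel.Quotient.orbit_mk, Nat.card_eq_one_iff_unique]
    refine ⟨⟨fun a b => Subtype.ext ?_⟩, ⟨⟨P, MulAction.mem_orbit_self P⟩⟩⟩
    obtain ⟨_, g, rfl⟩ := a
    obtain ⟨_, g', rfl⟩ := b
    have hfix : ∀ g : (P : Subgroup G), g • P = P := fun g =>
      (Sylow.smul_eq_iff_mem_normalizer (P := P) (g := (g : G))).2 (Subgroup.le_normalizer g.2)
    exact (hfix g).trans (hfix g').symm
  rw [h1]
  have h2 : p ^ k ∣ ∑ ω ∈ Finset.univ.erase
      (Quotient.mk'' P : MulAction.orbitRel.Quotient (P : Subgroup G) (Sylow p G)),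
      Nat.card (MulAction.orbitRel.Quotient.orbit ω) := by
    refine Finset.dvd_sum fun ω hω => ?_
    induction ω using Quotient.inductionOn' with
    | h R =>
      rw [MulAction.orbitRel.Quotient.orbit_mk]
      exact key R fun e => (Finset.mem_erase.1 hω).1 (by rw [e])
  have := (Nat.modEq_zero_iff_dvd.2 h2).add_left 1
  simpa using this

end Cfsg.Agent.S0985
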