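import Cfsg.Statements.S0986
import Mathlib

set_option autoImplicit false
open Cfsg

namespace Cfsg.Agent.S0986

/-- Let P and Q be distinct Sylow p-subgroups of a finite group G chosen so that the order of P ∩ Q is as large as possible among intersections of two distinct Sylow p-subgroups, and let N be the normalizer of P ∩ Q. Then N has more than one Sylow p-subgroup, any two distinct Sylow p-subgroups of N intersect exactly in P ∩ Q, and each Sylow p-subgroup of N lies in exactly one Sylow p-subgroup of G. -/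
theorem result {G : Type*} [Group G] [Finite G] (p : ℕ) [Fact p.Prime] (P Q : Sylow p G) (hPQ : P ≠ Q) (hmax : ∀ P' Q' : Sylow p G, P' ≠ Q' → Nat.card ↥((P' : Subgroup G) ⊓ (Q' : Subgroup G)) ≤ Nat.card ↥((P : Subgroup G) ⊓ (Q : Subgroup G))) : 1 < Nat.card (Sylow p ↥(Subgroup.normalizer (((P : Subgroup G) ⊓ (Q : Subgroup G) : Subgroup G) : Set G))) ∧ (∀ S T : Sylow p ↥(Subgroup.normalizer (((P : Subgroup G) ⊓ (Q : Subgroup G) : Subgroup G) : Set G)), S ≠ T → (S : Subgroup _) ⊓ (T : Subgroup _) = ((P : Subgroup G) ⊓ (Q : Subgroup G)).subgroupOf (Subgroup.normalizer (((P : Subgroup G) ⊓ (Q : Subgroup G) : Subgroup G) : Set G))) ∧ ∀ S : Sylow p ↥(Subgroup.normalizer (((P : Subgroup G) ⊓ (Q : Subgroup G) : Subgroup G) : Set G)), ∃! T : Sylow p G, (S : Subgroup _).map (Subgroup.normalizer (((P : Subgroup G) ⊓ (Q : Subgroup G) : Subgroup G) : Set G)).subtype ≤ (T : Subgroup G) := by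
  classical
  set D : Subgroup G := (P : Subgroup G) ⊓ (Q : Subgroup G)
  set N := Subgroup.normalizer (D : Set G)
  have hDN : D ≤ N := Subgroup.le_normalizer
  have huniq : ∀ X Y : Sylow p G, ∀ K : Subgroup G, K ≤ (X : Subgroup G) → K ≤ (Y : Subgroup G) → Nat.card D < Nat.card K → X = Y := fun X Y K hX hY hlt => by
    by_contra hne
    exact absurd ((Subgroup.card_le_of_le (le_inf hX hY)).trans (hmax X Y hne)) (not_le.2 hlt)
  have hgrow : ∀ R : Sylow p G, D < (R : Subgroup G) → Nat.card D < Nat.card ↥((R : Subgroup G) ⊓ N) := by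
    intro R hlt
    haveI : Finite ↥(R : Subgroup G) := inferInstance
    haveI : Group.IsNilpotent ↥(R : Subgroup G) := R.2.isNilpotent
    have h := Group.normalizerCondition_of_isNilpotent (D.subgroupOf (R : Subgroup G)) (lt_top_iff_ne_top.2 fun h => hlt.not_ge (Subgroup.subgroupOf_eq_top.1 h))
    obtain ⟨x, hx, hxD⟩ := SetLike.exists_of_lt h
    have hxN : (x : G) ∈ N := by
      rw [Subgroup.mem_normalizer_iff] at hx ⊢
      intro d
      constructor
      · intro hd
        exact (hx ⟨d, hlt.le hd⟩).1 hd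
      · intro hd
        have hdR : d ∈ (R : Subgroup G) := by
          have := Subgroup.mul_mem _ (Subgroup.mul_mem _ (Subgroup.inv_mem _ x.2) (hlt.le hd)) x.2
          simpa [mul_assoc] using this
        exact (hx ⟨d, hdR⟩).2 hd
    have hlt2 : D < (R : Subgroup G) ⊓ N := lt_of_le_of_ne (le_inf hlt.le hDN) fun e => hxD (show (x : G) ∈ D from e ▸ ⟨x.2, hxN⟩)
    have hsub : (D : Set G).ncard < ((((R : Subgroup G) ⊓ N : Subgroup G)) : Set G).ncard := Set.ncard_lt_ncard hlt2 (Set.toFinite _)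
    exact hsub
  have hne : ∀ X Y : Sylow p G, X ≠ Y → ¬ (X : Subgroup G) ≤ (Y : Subgroup G) := fun X Y h hle => h (Sylow.ext (X.3 Y.2 hle).symm)
  have hDP : D < (P : Subgroup G) := lt_of_le_of_ne inf_le_left fun e => hne P Q hPQ (e.symm.le.trans inf_le_right)
  have hDQ : D < (Q : Subgroup G) := lt_of_le_of_ne inf_le_right fun e => hne Q P hPQ.symm (e.symm.le.trans inf_le_left)
  have hext : ∀ S : Sylow p N, ∃ T : Sylow p G, (S : Subgroup N).map N.subtype ≤ (T : Subgroup G) := fun S => (S.2.map N.subtype).exists_le_sylow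
  have hlift : ∀ R : Sylow p G, ∃ S : Sylow p N, (R : Subgroup G) ⊓ N ≤ (S : Subgroup N).map N.subtype := fun R => by
    obtain ⟨S, hS⟩ := (R.2.comap_subtype (K := N)).exists_le_sylow
    exact ⟨S, fun x hx => ⟨⟨x, hx.2⟩, hS hx.1, rfl⟩⟩
  obtain ⟨SP, hSP⟩ := hlift P
  obtain ⟨SQ, hSQ⟩ := hlift Q
  have hSne : SP ≠ SQ := by
    rintro rfl
    obtain ⟨T, hT⟩ := hext SP
    refine hPQ ?_
    rw [huniq P T _ inf_le_left (hSP.trans hT) (hgrow P hDP), huniq Q T _ inf_le_left (hSQ.trans hT) (hgrow Q hDQ)]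
  have hbig : ∀ S : Sylow p N, Nat.card D < Nat.card ↥((S : Subgroup N).map N.subtype) := fun S => by
    refine (hgrow P hDP).trans_le ((Subgroup.card_le_of_le hSP).trans (le_of_eq ?_))
    rw [Subgroup.card_map_of_injective N.subtype_injective, Subgroup.card_map_of_injective N.subtype_injective]
    exact (SP.card_eq_multiplicity).trans S.card_eq_multiplicity.symm
  refine ⟨Finite.one_lt_card_iff_nontrivial.2 ⟨SP, SQ, hSne⟩, fun S T hST => ?_, fun S => ?_⟩
  · have hDp : IsPGroup p (D.subgroupOf N) := (P.2.to_le (inf_le_left : D ≤ (P : Subgroup G))).comap_subtype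
    haveI : (D.subgroupOf N).Normal := (Subgroup.normal_subgroupOf_iff_le_normalizer hDN).2 le_rfl
    have hin : ∀ S : Sylow p N, D.subgroupOf N ≤ (S : Subgroup N) := fun S => hDp.le_sylow_of_normal S
    refine le_antisymm (fun x hx => ?_) (le_inf (hin S) (hin T))
    obtain ⟨S', hS'⟩ := hext S
    obtain ⟨T', hT'⟩ := hext T
    have hne' : S' ≠ T' := by
      rintro rfl
      apply hST
      have hp' : IsPGroup p ↥((S' : Subgroup G).subgroupOf N) := S'.2.comap_subtype
      have h1 := S.3 hp' (fun y hy => hS' (Subgroup.mem_map_of_mem _ hy))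
      have h2 := T.3 hp' (fun y hy => hT' (Subgroup.mem_map_of_mem _ hy))
      exact Sylow.ext (h1.symm.trans h2)
    have hle : D ≤ (S' : Subgroup G) ⊓ (T' : Subgroup G) := fun d hd =>
      ⟨hS' ⟨⟨d, hDN hd⟩, hin S hd, rfl⟩, hT' ⟨⟨d, hDN hd⟩, hin T hd, rfl⟩⟩
    have heq := Subgroup.eq_of_le_of_card_ge hle (hmax S' T' hne')
    show (x : G) ∈ D
    rw [heq]
    exact ⟨hS' (Subgroup.mem_map_of_mem _ hx.1), hT' (Subgroup.mem_map_of_mem _ hx.2)⟩
  · obtain ⟨T, hT⟩ := hext S
    exact ⟨T, hT, fun T' hT' => huniq T' T _ hT' hT (hbig S)⟩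

end Cfsg.Agent.S0986
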