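import Cfsg.Statements.S0987
import Mathlib

set_option autoImplicit false
open Cfsg

namespace Cfsg.Agent.S0987

/-- If a finite group has order pqr for primes p < q < r, then its Sylow r-subgroups are normal. -/
theorem result {G : Type*} [Group G] [Finite G] (p q r : ℕ) (hp : p.Prime) (hq : q.Prime) [Fact r.Prime] (hpq : p < q) (hqr : q < r) (hG : Nat.card G = p * q * r) (R : Sylow r G) : (R : Subgroup G).Normal := by
  have hr : r.Prime := Fact.out
  have step : ∀ {K : Type _} [Group K] [Finite K] (a b : ℕ), a.Prime → 0 < b →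
      (∀ t : ℕ, t.Prime → t ∣ b → a < t) → Nat.card K = a * b →
      ∃ N : Subgroup K, N.Normal ∧ Nat.card N = b ∧ N.index = a := by
    intro K _ _ a b ha hb hlt hK
    haveI := Fact.mk ha
    have hmin : (Nat.card K).minFac = a := by
      refine le_antisymm (Nat.minFac_le_of_dvd ha.two_le ⟨b, hK⟩) ?_
      have hne : Nat.card K ≠ 1 := by
        rw [hK]
        intro e
        exact ha.ne_one (Nat.eq_one_of_mul_eq_one_right e)
      have hpr := Nat.minFac_prime hne
      have hdvd := Nat.minFac_dvd (Nat.card K)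
      rcases hpr.dvd_mul.1 (hdvd.trans hK.dvd) with h | h
      · exact le_of_eq ((Nat.prime_dvd_prime_iff_eq hpr ha).1 h).symm
      · exact (hlt _ hpr h).le
    have hab : ¬ a ∣ b := fun h => lt_irrefl a (hlt a ha h)
    obtain ⟨P⟩ := (inferInstance : Nonempty (Sylow a K))
    have hP : Nat.card P = a := by
      rw [P.card_eq_multiplicity, hK, Nat.factorization_mul ha.ne_zero hb.ne', Finsupp.add_apply,
        ha.factorization_self, Nat.factorization_eq_zero_of_not_dvd hab, pow_one]
    haveI hcyc : IsCyclic (P : Subgroup K) := isCyclic_of_prime_card hP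
    have hc := IsCyclic.isComplement' hmin hcyc
    refine ⟨(MonoidHom.transferSylow P (hcyc.normalizer_le_centralizer hmin)).ker,
      inferInstance, ?_, hc.symm.index_eq_card.trans hP⟩
    have := hc.card_mul_card
    rw [hK, show Nat.card (P : Subgroup K) = a from hP, mul_comm a b] at this
    exact Nat.eq_of_mul_eq_mul_right ha.pos this
  obtain ⟨K, hKn, hK, hKi⟩ := step p (q * r) hp (Nat.mul_pos hq.pos hr.pos) (by
    intro t ht h
    rcases ht.dvd_mul.1 h with h | h
    · rw [(Nat.prime_dvd_prime_iff_eq ht hq).1 h]; exact hpq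
    · rw [(Nat.prime_dvd_prime_iff_eq ht hr).1 h]; exact hpq.trans hqr)
    (by rw [hG, mul_assoc])
  have hle : ∀ {L : Type _} [Group L] [Finite L] (N : Subgroup L) [N.Normal] (Q : Sylow r L),
      ¬ r ∣ N.index → (Q : Subgroup L) ≤ N := by
    intro L _ _ N _ Q hN x hx
    obtain ⟨j, hj⟩ := Q.2 ⟨x, hx⟩
    rw [← QuotientGroup.eq_one_iff, ← orderOf_eq_one_iff]
    have h1 : orderOf (x : L ⧸ N) ∣ r ^ j := by
      rw [orderOf_dvd_iff_pow_eq_one, ← QuotientGroup.mk_pow]
      have : (x : L) ^ r ^ j = 1 := by simpa using congrArg Subtype.val hj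
      rw [this, QuotientGroup.mk_one]
    have h2 : orderOf (x : L ⧸ N) ∣ N.index := orderOf_dvd_natCard _
    exact Nat.eq_one_of_dvd_coprimes
      ((hr.coprime_iff_not_dvd.2 hN).pow_left j) h1 h2
  have hRK : (R : Subgroup G) ≤ K := hle K R (by
    rw [hKi]
    exact fun h => (hpq.trans hqr).ne ((Nat.prime_dvd_prime_iff_eq hr hp).1 h).symm)
  obtain ⟨N, hNn, hN, hNi⟩ := step q r hq hr.pos (fun t ht h => by
    rw [(Nat.prime_dvd_prime_iff_eq ht hr).1 h]; exact hqr) hK
  have hR'N : ((R.subtype hRK : Sylow r K) : Subgroup K) ≤ N := hle N _ (by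
    rw [hNi]
    exact fun h => hqr.ne ((Nat.prime_dvd_prime_iff_eq hr hq).1 h).symm)
  have hR' : ((R.subtype hRK : Sylow r K) : Subgroup K) = N := by
    refine Subgroup.eq_of_le_of_card_ge hR'N ?_
    rw [hN]
    have h1 : r ^ 1 ∣ Nat.card K := by rw [pow_one, hK]; exact dvd_mul_left r q
    have := Nat.le_of_dvd Nat.card_pos ((R.subtype hRK).pow_dvd_card_of_pow_dvd_card h1)
    simpa using this
  haveI : ((R.subtype hRK : Sylow r K) : Subgroup K).Normal := hR' ▸ hNn
  haveI := (R.subtype hRK).characteristic_of_normal this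
  have h := ConjAct.normal_of_characteristic_of_normal
    (H := K) (K := ((R.subtype hRK : Sylow r K) : Subgroup K))
  rwa [Sylow.coe_subtype, Subgroup.map_subgroupOf_eq_of_le hRK] at h

end Cfsg.Agent.S0987
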