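import Cfsg.Statements.S0988
import Mathlib
import Cfsg.Agent.Lib.SmallSimple
import Cfsg.Agent.S0144

set_option autoImplicit false
open Cfsg

namespace Cfsg.Agent.S0988

/-- If a finite simple group has order p^2 * q * r with p, q and r prime, then its order is 60. -/
theorem result {G : Type*} [Group G] [Finite G] [IsSimpleGroup G] (p q r : ℕ) (hp : p.Prime) (hq : q.Prime) (hr : r.Prime) (hG : Nat.card G = p ^ 2 * q * r) : Nat.card G = 60 := by
  classical
  have hnp : ¬ (Nat.card G).Prime := by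
    rw [hG]; intro h
    have h1 : p ∣ p ^ 2 * q * r := ((dvd_pow_self p two_ne_zero).mul_right q).mul_right r
    rcases h.eq_one_or_self_of_dvd p h1 with h2 | h2
    · exact hp.ne_one h2
    · have := hp.two_le; have := hq.two_le; have := hr.two_le
      have h4 : p * 8 ≤ p ^ 2 * q * r := by
        calc p * 8 = p * (2 * 2 * 2) := by norm_num
          _ ≤ p * (p * q * r) := by gcongr
          _ = _ := by ring
      omega
  have hnc := CfsgLib.SmallSimple.not_isMulCommutative_of_card hnp
  have hsol : ∀ a b i j : ℕ, a.Prime → b.Prime → Nat.card G ≠ a ^ i * b ^ j := fun a b i j ha hb h =>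
    CfsgLib.SmallSimple.not_solvable hnc (Cfsg.Agent.S0144.result a b i j ha hb h)
  have hpq : p ≠ q := fun h => hsol p r 3 1 hp hr (by rw [hG, ← h]; ring)
  have hpr : p ≠ r := fun h => hsol p q 3 1 hp hq (by rw [hG, ← h]; ring)
  have hqr : q ≠ r := fun h => hsol p q 2 2 hp hq (by rw [hG, ← h]; ring)
  have hprimes : ∀ s : ℕ, s.Prime → s ∣ Nat.card G → s = p ∨ s = q ∨ s = r := fun s hs h => by
    rw [hG] at h
    rcases hs.dvd_mul.1 h with h | h
    · rcases hs.dvd_mul.1 h with h | h
      · exact Or.inl ((Nat.prime_dvd_prime_iff_eq hs hp).1 (hs.dvd_of_dvd_pow h))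
      · exact Or.inr (Or.inl ((Nat.prime_dvd_prime_iff_eq hs hq).1 h))
    · exact Or.inr (Or.inr ((Nat.prime_dvd_prime_iff_eq hs hr).1 h))
  have hnd : ∀ a b : ℕ, a.Prime → b.Prime → a ≠ b → ¬ a ∣ b := fun a b ha hb h hd => h ((Nat.prime_dvd_prime_iff_eq ha hb).1 hd)
  -- the least prime divisor is `p`
  set s := (Nat.card G).minFac with hsdef
  have hG1 : Nat.card G ≠ 1 := Finite.one_lt_card.ne'
  have hsp : s.Prime := Nat.minFac_prime hG1
  have hsd : s ∣ Nat.card G := Nat.minFac_dvd _
  haveI : Fact s.Prime := ⟨hsp⟩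
  have hcyc : ∀ (S : Sylow s G), ¬ IsCyclic (S : Subgroup G) := fun S hS => by
    haveI := hS
    exact CfsgLib.SmallSimple.not_normalizer_le_centralizer hnc hsd S (IsCyclic.normalizer_le_centralizer hsdef.symm hS)
  have hsp2 : s = p := by
    rcases hprimes s hsp hsd with h | h | h
    · exact h
    all_goals
      exfalso
      obtain ⟨S⟩ : Nonempty (Sylow s G) := inferInstance
    · obtain ⟨h1, -, -⟩ := CfsgLib.SmallSimple.card_sylow_mem (p := s) (k := 1) (m := p ^ 2 * r) (by rw [hG, h]; ring) (fun hd => by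
        rcases hsp.dvd_mul.1 hd with hd | hd
        · exact hnd q p hq hp hpq.symm (h ▸ hsp.dvd_of_dvd_pow hd)
        · exact hnd q r hq hr hqr (h ▸ hd)) S
      exact hcyc S (isCyclic_of_prime_card (p := s) (by rw [h1, pow_one]))
    · obtain ⟨h1, -, -⟩ := CfsgLib.SmallSimple.card_sylow_mem (p := s) (k := 1) (m := p ^ 2 * q) (by rw [hG, h]; ring) (fun hd => by
        rcases hsp.dvd_mul.1 hd with hd | hd
        · exact hnd r p hr hp hpr.symm (h ▸ hsp.dvd_of_dvd_pow hd)
        · exact hnd r q hr hq hqr.symm (h ▸ hd)) S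
      exact hcyc S (isCyclic_of_prime_card (p := s) (by rw [h1, pow_one]))
  have hlt : ∀ a : ℕ, a.Prime → a ∣ Nat.card G → p ≤ a := fun a ha hd => hsp2 ▸ Nat.minFac_le_of_dvd ha.two_le hd
  have hqd : q ∣ Nat.card G := by rw [hG]; exact (dvd_mul_left q _).mul_right r
  have hrd : r ∣ Nat.card G := by rw [hG]; exact dvd_mul_left r _
  have hpd : p ∣ Nat.card G := by rw [hG]; exact ((dvd_pow_self p two_ne_zero).mul_right q).mul_right r
  haveI : Fact p.Prime := ⟨hp⟩
  obtain ⟨P⟩ : Nonempty (Sylow p G) := inferInstance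
  have hnd2 : ¬ p ∣ q * r := fun hd => (hp.dvd_mul.1 hd).elim (hnd p q hp hq hpq) (hnd p r hp hr hpr)
  obtain ⟨hPc, -, -⟩ := CfsgLib.SmallSimple.card_sylow_mem (p := p) (k := 2) (m := q * r) (by rw [hG]; ring) hnd2 P
  have hcommP : IsMulCommutative (P : Subgroup G) := ⟨⟨fun a b => IsPGroup.commutative_of_card_eq_prime_sq hPc a b⟩⟩
  set N := Subgroup.normalizer ((P : Subgroup G) : Set G)
  set C := Subgroup.centralizer ((P : Subgroup G) : Set G)
  have hPC : (P : Subgroup G) ≤ C := fun x hx => Subgroup.mem_centralizer_iff.2 fun y hy =>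
    congrArg (fun w : (P : Subgroup G) => (w : G)) (hcommP.is_comm.comm ⟨y, hy⟩ ⟨x, hx⟩)
  have hne : C.relIndex N ≠ 1 := fun h =>
    CfsgLib.SmallSimple.not_normalizer_le_centralizer hnc hpd P (Subgroup.relIndex_eq_one.1 h)
  obtain ⟨l, hl, hld⟩ := Nat.exists_prime_and_dvd hne
  haveI : Fact l.Prime := ⟨hl⟩
  have hlidx : l ∣ (P : Subgroup G).index :=
    (hld.trans (Subgroup.relIndex_dvd_of_le_left (L := N) hPC)).trans (Subgroup.relIndex_dvd_index_of_le Subgroup.le_normalizer)
  have hlp : l ≠ p := fun h => P.not_dvd_index (h ▸ hlidx)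
  have hlG : l ∣ Nat.card G := hlidx.trans (Subgroup.index_dvd_card _)
  have hlgt : p < l := lt_of_le_of_ne (hlt l hl hlG) hlp.symm
  have hl1 : l = p + 1 := by
    by_contra hne1
    have hrange : Nat.card (P : Subgroup G).normalizerMonoidHom.range = C.relIndex N := by
      rw [← Subgroup.index_ker, Subgroup.normalizerMonoidHom_ker]; rfl
    obtain ⟨σ, hσ⟩ := exists_prime_orderOf_dvd_card' (G := (P : Subgroup G).normalizerMonoidHom.range) l (hrange ▸ hld)
    rw [← Subgroup.orderOf_coe] at hσ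
    set e : MulAut (P : Subgroup G) := σ.1
    let A : Subgroup (MulAut (P : Subgroup G)) := Subgroup.zpowers e
    have hA : IsPGroup l A := IsPGroup.of_card (n := 1) (by rw [Nat.card_zpowers, hσ, pow_one])
    let F : Subgroup (P : Subgroup G) := e.toMonoidHom.eqLocus (MonoidHom.id _)
    have hfix : MulAction.fixedPoints A (P : Subgroup G) = (F : Set (P : Subgroup G)) := by
      ext x
      constructor
      · intro h; exact h ⟨e, Subgroup.mem_zpowers e⟩
      · intro h a
        have hle : A ≤ MulAction.stabilizer (MulAut (P : Subgroup G)) x := Subgroup.zpowers_le.2 h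
        exact hle a.2
    have hcong : Nat.card (P : Subgroup G) ≡ Nat.card F [MOD l] := by
      have := hA.card_modEq_card_fixedPoints (P : Subgroup G)
      rwa [hfix] at this
    have hFd : Nat.card F ∣ p ^ 2 := hPc ▸ F.card_subgroup_dvd_card
    obtain ⟨j, hj, hFj⟩ := (Nat.dvd_prime_pow hp).1 hFd
    rw [hPc, hFj] at hcong
    have hnd3 : ¬ l ∣ p := hnd l p hl hp hlp
    have hp1 : 0 < p - 1 := by have := hp.two_le; omega
    interval_cases j
    · rw [pow_zero, Nat.ModEq.comm, Nat.modEq_iff_dvd' (Nat.one_le_pow _ _ hp.pos), show p ^ 2 - 1 = (p + 1) * (p - 1) by rw [← Nat.sq_sub_sq, one_pow]] at hcong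
      rcases hl.dvd_mul.1 hcong with h | h
      · have := Nat.le_of_dvd (by omega) h; omega
      · have := Nat.le_of_dvd hp1 h; omega
    · rw [pow_one, Nat.ModEq.comm, Nat.modEq_iff_dvd' (Nat.le_self_pow two_ne_zero p), show p ^ 2 - p = p * (p - 1) by rw [Nat.mul_sub, mul_one, pow_two]] at hcong
      rcases hl.dvd_mul.1 hcong with h | h
      · exact hnd3 h
      · have := Nat.le_of_dvd hp1 h; omega
    · have hFt : F = ⊤ := Subgroup.eq_top_of_card_eq _ (hFj.trans hPc.symm)
      have he : e = 1 := MulEquiv.ext fun x => (hFt ▸ Subgroup.mem_top x : x ∈ F)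
      rw [he, orderOf_one] at hσ
      exact hl.ne_one hσ.symm
  have hp2 : p = 2 := by
    rcases hp.eq_two_or_odd with h | h
    · exact h
    · rcases hl.eq_two_or_odd with h' | h' <;> [skip; omega]
      have := hp.two_le; omega
  have hl3 : l = 3 := by omega
  subst hl3
  subst hp2
  obtain ⟨t, ht, ht3, htG⟩ : ∃ t : ℕ, t.Prime ∧ 3 < t ∧ Nat.card G = 12 * t := by
    rcases hprimes 3 (by norm_num) hlG with h | h | h
    · omega
    · subst h
      refine ⟨r, hr, ?_, by rw [hG]; ring⟩
      have := hr.two_le; omega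
    · subst h
      refine ⟨q, hq, ?_, by rw [hG]; ring⟩
      have := hq.two_le; omega
  haveI : Fact t.Prime := ⟨ht⟩
  obtain ⟨T⟩ : Nonempty (Sylow t G) := inferInstance
  have hnt : ¬ t ∣ 12 := fun h => by
    rcases ht.dvd_mul.1 (show t ∣ 2 ^ 2 * 3 from h) with h | h
    · have := (Nat.prime_dvd_prime_iff_eq ht Nat.prime_two).1 (ht.dvd_of_dvd_pow h); omega
    · have := (Nat.prime_dvd_prime_iff_eq ht Nat.prime_three).1 h; omega
  obtain ⟨hTc, hn1, hn2⟩ := CfsgLib.SmallSimple.card_sylow_mem (p := t) (k := 1) (m := 12) (by rw [htG]; ring) hnt T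
  have hn0 := CfsgLib.SmallSimple.card_sylow_ne_one hnc (p := t) (by rw [htG]; exact dvd_mul_left t 12)
  have hnle := Nat.le_of_dvd (by norm_num) hn1
  have hmod := Nat.div_add_mod (Nat.card (Sylow t G)) t
  have hn12 : Nat.card (Sylow t G) ≠ 12 := by
    intro h12
    have h1 := Sylow.card_eq_index_normalizer T
    rw [h12] at h1
    have h2 := Subgroup.index_mul_card (Subgroup.normalizer ((T : Subgroup G) : Set G))
    have h4 : (Subgroup.normalizer ((T : Subgroup G) : Set G)).index = 12 := h1.symm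
    rw [h4, htG] at h2
    have h3 : Nat.card (Subgroup.normalizer ((T : Subgroup G) : Set G)) = t := Nat.eq_of_mul_eq_mul_left (by norm_num) h2
    haveI : IsCyclic (T : Subgroup G) := isCyclic_of_prime_card (p := t) (by rw [hTc, pow_one])
    have heq : (T : Subgroup G) = Subgroup.normalizer ((T : Subgroup G) : Set G) :=
      Subgroup.eq_of_le_of_card_ge Subgroup.le_normalizer (by rw [h3, hTc, pow_one])
    refine CfsgLib.SmallSimple.not_normalizer_le_centralizer hnc (by rw [htG]; exact dvd_mul_left t 12) T fun x hx => ?_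
    rw [← heq] at hx
    exact Subgroup.mem_centralizer_iff.2 fun y hy => congrArg (fun w : (T : Subgroup G) => (w : G)) (IsMulCommutative.is_comm.comm ⟨y, hy⟩ ⟨x, hx⟩)
  rw [hn2] at hmod
  have htlt : t ≤ Nat.card (Sylow t G) := by
    rcases Nat.eq_zero_or_pos (Nat.card (Sylow t G) / t) with h | h
    · rw [h] at hmod; omega
    · have := Nat.le_mul_of_pos_right t h; omega
  generalize Nat.card (Sylow t G) = n at hn1 hn2 hn0 hnle hn12 htlt
  have ht5 : t = 5 := by
    have hn6 : n = 1 ∨ n = 2 ∨ n = 3 ∨ n = 4 ∨ n = 6 ∨ n = 12 := by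
      clear hn2 htlt
      interval_cases n <;> revert hn1 <;> norm_num
    rcases hn6 with rfl | rfl | rfl | rfl | rfl | rfl <;> interval_cases t <;> first | rfl | omega | exact absurd ht (by norm_num)
  rw [htG, ht5]

end Cfsg.Agent.S0988
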