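import Cfsg.Statements.S0989
import Mathlib

set_option autoImplicit false
open Cfsg

namespace Cfsg.Agent.S0989

/-- In the symmetric group on p or p + 1 letters, p a prime, the normalizer of a Sylow p-subgroup has order p * (p - 1). -/
theorem result {α : Type*} [Fintype α] [DecidableEq α] (p : ℕ) [Fact p.Prime] (hα : Fintype.card α = p ∨ Fintype.card α = p + 1) (P : Sylow p (Equiv.Perm α)) : Nat.card ↥(Subgroup.normalizer ((P : Subgroup (Equiv.Perm α)) : Set (Equiv.Perm α))) = p * (p - 1) := by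
  classical
  have hp : p.Prime := Fact.out
  set n := Fintype.card α
  have hfac : Nat.factorization n.factorial p = 1 := by
    have key : ∃ m, n.factorial = p * m ∧ ¬ p ∣ m := by
      rcases hα with h | h <;> rw [h]
      · refine ⟨(p - 1).factorial, (Nat.mul_factorial_pred hp.ne_zero).symm, fun hd => ?_⟩
        have := hp.dvd_factorial.1 hd
        have := hp.pos
        omega
      · refine ⟨(p + 1) * (p - 1).factorial, ?_, fun hd => ?_⟩
        · rw [Nat.factorial_succ, ← Nat.mul_factorial_pred hp.ne_zero]; ring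
        · rcases (Nat.Prime.dvd_mul hp).1 hd with h1 | h1
          · exact hp.not_dvd_one ((Nat.dvd_add_right dvd_rfl).1 h1)
          · have := hp.dvd_factorial.1 h1
            have := hp.pos
            omega
    obtain ⟨m, hm, hpm⟩ := key
    have hm0 : m ≠ 0 := fun h => by rw [h, mul_zero] at hm; exact Nat.factorial_ne_zero n hm
    rw [hm, Nat.factorization_mul hp.ne_zero hm0, Finsupp.add_apply, hp.factorization_self, Nat.factorization_eq_zero_of_not_dvd hpm]
  have hPc : Nat.card (P : Subgroup (Equiv.Perm α)) = p := by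
    rw [P.card_eq_multiplicity, Nat.card_eq_fintype_card, Fintype.card_perm, hfac, pow_one]
  obtain ⟨⟨σ, hσP⟩, hσ⟩ := exists_prime_orderOf_dvd_card' (G := (P : Subgroup (Equiv.Perm α))) p (by rw [hPc])
  rw [Subgroup.orderOf_mk] at hσ
  have hct : ∀ τ : Equiv.Perm α, orderOf τ = p → τ.cycleType = {p} := fun τ hτ => by
    obtain ⟨k, hk⟩ := Equiv.Perm.cycleType_prime_order (hτ.symm ▸ hp)
    have hs : τ.cycleType.sum ≤ n := by rw [Equiv.Perm.sum_cycleType]; exact Finset.card_le_univ _
    rw [hk, Multiset.sum_replicate, hτ, smul_eq_mul] at hs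
    have hk0 : k = 0 := by
      by_contra hne
      have : 2 * p ≤ (k + 1) * p := Nat.mul_le_mul_right p (by omega)
      have := hp.two_le
      omega
    rw [hk, hτ, hk0]
    rfl
  have hC : Nat.card (Subgroup.centralizer ({σ} : Set (Equiv.Perm α))) = p := by
    rw [Equiv.Perm.nat_card_centralizer, hct σ hσ]
    simp only [Multiset.sum_singleton, Multiset.prod_singleton, Multiset.toFinset_singleton, Finset.prod_singleton, Multiset.count_singleton_self, Nat.factorial_one, mul_one]
    rw [show (n - p).factorial = 1 by rw [Nat.factorial_eq_one]; omega, one_mul]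
  have hgen : ∀ τ ∈ (P : Subgroup (Equiv.Perm α)), τ ≠ 1 → orderOf τ = p ∧ Subgroup.zpowers τ = P := fun τ hτ h1 => by
    have ho : orderOf τ = p := by
      have := Subgroup.orderOf_dvd_natCard _ hτ
      rw [hPc] at this
      exact ((Nat.dvd_prime hp).1 this).resolve_left fun h => h1 (orderOf_eq_one_iff.1 h)
    exact ⟨ho, Subgroup.eq_of_le_of_card_ge (Subgroup.zpowers_le.2 hτ) (by rw [Nat.card_zpowers, ho, hPc])⟩
  have hσ1 : σ ≠ 1 := fun h => hp.ne_one (by rw [← hσ, h, orderOf_one])
  have hN : ∀ g : Equiv.Perm α, g ∈ Subgroup.normalizer ((P : Subgroup (Equiv.Perm α)) : Set (Equiv.Perm α)) ↔ g * σ * g⁻¹ ∈ (P : Subgroup (Equiv.Perm α)) ∧ g * σ * g⁻¹ ≠ 1 := fun g => by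
    refine ⟨fun hg => ⟨(Subgroup.mem_normalizer_iff.1 hg σ).1 hσP, fun h => hσ1 (conj_eq_one_iff.1 h)⟩, fun hg => ?_⟩
    have hmap : (P : Subgroup (Equiv.Perm α)).map (MulAut.conj g).toMonoidHom = P := by
      refine Subgroup.eq_of_le_of_card_ge ?_ (by rw [Subgroup.card_map_of_injective (MulAut.conj g).injective])
      conv_lhs => rw [← (hgen σ hσP hσ1).2]
      rw [MonoidHom.map_zpowers]
      exact Subgroup.zpowers_le.2 hg.1
    rw [Subgroup.mem_normalizer_iff]
    intro u
    constructor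
    · intro hu; rw [← SetLike.mem_coe, ← hmap]; exact ⟨u, hu, rfl⟩
    · intro hu
      rw [← SetLike.mem_coe, ← hmap] at hu
      obtain ⟨v, hv, hve⟩ := hu
      exact (mul_left_cancel (mul_right_cancel (hve :)) : v = u) ▸ hv
  rw [Nat.card_eq_fintype_card, Fintype.card_subtype]
  let X := (Finset.univ.filter fun τ : Equiv.Perm α => τ ∈ (P : Subgroup (Equiv.Perm α))).erase 1
  rw [Finset.card_eq_sum_card_fiberwise (f := fun g => g * σ * g⁻¹) (t := X) (fun g hg => ?_), Finset.sum_congr rfl (g := fun _ => p) (fun τ hτ => ?_),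
    Finset.sum_const, smul_eq_mul, Finset.card_erase_of_mem (by simp [Subgroup.one_mem]), ← Fintype.card_subtype, ← Nat.card_eq_fintype_card, hPc, mul_comm]
  · obtain ⟨hτ1, hτ'⟩ := Finset.mem_erase.1 hτ
    have hτP := (Finset.mem_filter.1 hτ').2
    obtain ⟨g₀, hg₀⟩ := isConj_iff.1 (Equiv.Perm.isConj_iff_cycleType_eq.2 ((hct σ hσ).trans (hct τ (hgen τ hτP hτ1).1).symm))
    refine Eq.trans ?_ hC
    rw [Nat.card_eq_fintype_card, Fintype.card_subtype]
    refine Finset.card_equiv (Equiv.mulLeft g₀⁻¹) fun g => ?_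
    simp only [Finset.mem_filter, Finset.mem_univ, true_and, Equiv.coe_mulLeft, Subgroup.mem_centralizer_singleton_iff, hN]
    constructor
    · rintro ⟨-, he⟩
      calc g₀⁻¹ * g * σ = g₀⁻¹ * (g * σ * g⁻¹) * g := by group
        _ = g₀⁻¹ * (g₀ * σ * g₀⁻¹) * g := by rw [he, hg₀]
        _ = σ * (g₀⁻¹ * g) := by group
    · intro he
      have h1 : g * σ * g⁻¹ = τ := by
        calc g * σ * g⁻¹ = g₀ * (g₀⁻¹ * g * σ) * g⁻¹ := by group
          _ = g₀ * (σ * (g₀⁻¹ * g)) * g⁻¹ := by rw [he]
          _ = g₀ * σ * g₀⁻¹ := by group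
          _ = τ := hg₀
      exact ⟨by rw [h1]; exact ⟨hτP, hτ1⟩, h1⟩
  · simp only [X, Finset.coe_erase, Finset.coe_filter, Finset.mem_univ, true_and, Set.mem_diff, Set.mem_setOf_eq, Set.mem_singleton_iff, hN] at hg ⊢
    exact hg

end Cfsg.Agent.S0989
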