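import Cfsg.Statements.S0990
import Mathlib

set_option autoImplicit false
open Cfsg

namespace Cfsg.Agent.S0990

/-- Let p be an odd prime and P a Sylow p-subgroup of the symmetric group on a finite set with at least two elements. Then P is contained in the alternating group, and twice the order of the normalizer of P inside the alternating group equals the order of the normalizer of P in the symmetric group. -/
theorem result {α : Type*} [Fintype α] [DecidableEq α] (hα : 2 ≤ Fintype.card α) (p : ℕ) [Fact p.Prime] (hp : p ≠ 2) (P : Sylow p (Equiv.Perm α)) : (P : Subgroup (Equiv.Perm α)) ≤ alternatingGroup α ∧ 2 * Nat.card ↥(Subgroup.normalizer ((((P : Subgroup (Equiv.Perm α)).subgroupOf (alternatingGroup α) : Subgroup ↥(alternatingGroup α)) : Set ↥(alternatingGroup α)))) = Nat.card ↥(Subgroup.normalizer ((P : Subgroup (Equiv.Perm α)) : Set (Equiv.Perm α))) := by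
  classical
  have hsign : ∀ σ ∈ (P : Subgroup (Equiv.Perm α)), Equiv.Perm.sign σ = 1 := fun σ hσ => by
    obtain ⟨k, hk⟩ := P.2 ⟨σ, hσ⟩
    have hk' : σ ^ p ^ k = 1 := congrArg Subtype.val hk
    have h := congrArg Equiv.Perm.sign hk'
    rw [map_pow, map_one] at h
    rcases Int.units_eq_one_or (Equiv.Perm.sign σ) with h1 | h1
    · exact h1
    · rw [h1, (((Fact.out : p.Prime).odd_of_ne_two hp).pow).neg_one_pow] at h
      exact absurd h (by decide)
  have hA : (P : Subgroup (Equiv.Perm α)) ≤ alternatingGroup α := fun σ hσ => Equiv.Perm.mem_alternatingGroup.2 (hsign σ hσ)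
  refine ⟨hA, ?_⟩
  set N := Subgroup.normalizer ((P : Subgroup (Equiv.Perm α)) : Set (Equiv.Perm α)) with hN
  haveI : Nontrivial α := Fintype.one_lt_card_iff_nontrivial.1 hα
  have hnle : ¬ N ≤ alternatingGroup α := fun hle => by
    have h := P.normalizer_sup_eq_top' hA
    replace h : N ⊔ alternatingGroup α = ⊤ := h
    rw [sup_eq_right.2 hle] at h
    have h2 := alternatingGroup.index_eq_two (α := α)
    rw [h, Subgroup.index_top] at h2
    omega
  have hidx : (alternatingGroup α).relIndex N = 2 := by
    rcases (Nat.dvd_prime Nat.prime_two).1 ((Subgroup.relIndex_dvd_index_of_normal (alternatingGroup α) N).trans (alternatingGroup.index_eq_two (α := α)).dvd) with h | h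
    · exact absurd (Subgroup.relIndex_eq_one.1 h) hnle
    · exact h
  have hc : Nat.card ↥((alternatingGroup α).subgroupOf N) * 2 = Nat.card N := by
    rw [← hidx]; exact Subgroup.card_mul_index _
  rw [← hc, mul_comm]
  congr 1
  refine Nat.card_congr
    { toFun := fun x => ⟨⟨(x.1 : Equiv.Perm α), ?_⟩, x.1.2⟩
      invFun := fun y => ⟨⟨((y : N) : Equiv.Perm α), y.2⟩, ?_⟩
      left_inv := fun x => rfl
      right_inv := fun y => rfl }
  · rw [hN, Subgroup.mem_normalizer_iff]
    intro u
    constructor
    · intro hu
      exact (Subgroup.mem_normalizer_iff.1 x.2 ⟨u, hA hu⟩).1 hu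
    · intro hu
      have huA : u ∈ alternatingGroup α := by
        have := (alternatingGroup.normal (α := α)).conj_mem _ (hA hu) (x.1 : Equiv.Perm α)⁻¹
        simpa [mul_assoc] using this
      exact (Subgroup.mem_normalizer_iff.1 x.2 ⟨u, huA⟩).2 hu
  · rw [Subgroup.mem_normalizer_iff]
    intro u
    exact Subgroup.mem_normalizer_iff.1 (y : N).2 (u : Equiv.Perm α)

end Cfsg.Agent.S0990
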