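import Cfsg.Statements.S0992
import Mathlib
import Cfsg.Agent.Lib.SmallSimple

set_option autoImplicit false
open Cfsg

namespace Cfsg.Agent.S0992

/-- Let G be a non-abelian finite simple group of even order not divisible by 8, and T a Sylow 2-subgroup. Then T is a Klein four-group and the centralizer of T has index 3 in the normalizer of T. -/
theorem result {G : Type*} [Group G] [Finite G] [IsSimpleGroup G] (hG : ¬ IsMulCommutative G) (h2 : Even (Nat.card G)) (h8 : ¬ 8 ∣ Nat.card G) (T : Sylow 2 G) : IsKleinFour ↥(T : Subgroup G) ∧ (Subgroup.centralizer ((T : Subgroup G) : Set G)).relIndex (Subgroup.normalizer ((T : Subgroup G) : Set G)) = 3 := by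
  classical
  haveI : Fact (Nat.Prime 2) := ⟨Nat.prime_two⟩
  have hnc := hG
  obtain ⟨k, hk⟩ := IsPGroup.iff_card.1 T.2
  have hncyc := CfsgLib.SmallSimple.sylow_two_not_cyclic hnc h2 T
  have hk2 : k = 2 := by
    have h1 : ¬ 2 ^ 3 ∣ Nat.card (T : Subgroup G) := fun h => h8 (h.trans (Subgroup.card_subgroup_dvd_card _))
    rw [hk, Nat.pow_dvd_pow_iff_le_right (by norm_num)] at h1
    rcases k with _ | _ | k
    · exact absurd (Subgroup.eq_bot_of_card_eq _ (by rw [hk, pow_zero])) (CfsgLib.SmallSimple.sylow_ne_bot h2.two_dvd T)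
    · exact absurd (isCyclic_of_prime_card (p := 2) (by rw [hk, pow_one])) hncyc
    · omega
  subst hk2
  have hexp : ∀ x : (T : Subgroup G), x ^ 2 = 1 := by
    intro x
    have h4 : orderOf x ∣ 2 ^ 2 := hk ▸ orderOf_dvd_natCard x
    obtain ⟨j, hj, hjo⟩ := (Nat.dvd_prime_pow Nat.prime_two).1 h4
    rw [← orderOf_dvd_iff_pow_eq_one, hjo]
    interval_cases j
    · norm_num
    · norm_num
    · exact absurd (isCyclic_of_orderOf_eq_card x (hjo.trans hk.symm)) hncyc
  haveI : Nontrivial (T : Subgroup G) := Finite.one_lt_card_iff_nontrivial.1 (by rw [hk]; norm_num)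
  have hkl : IsKleinFour (T : Subgroup G) := ⟨by rw [hk]; norm_num, by
    rcases (Nat.dvd_prime Nat.prime_two).1 (Monoid.exponent_dvd_of_forall_pow_eq_one hexp) with h | h
    · exact absurd (Monoid.exp_eq_one_iff.1 h) (not_subsingleton _)
    · exact h⟩
  refine ⟨hkl, ?_⟩
  set N := Subgroup.normalizer ((T : Subgroup G) : Set G) with hN
  set C := Subgroup.centralizer ((T : Subgroup G) : Set G) with hC
  have hTC : (T : Subgroup G) ≤ C := fun x hx => Subgroup.mem_centralizer_iff.2 fun y hy => by
    have := mul_comm_of_exponent_two hkl.exponent_two (⟨y, hy⟩ : (T : Subgroup G)) ⟨x, hx⟩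
    exact congrArg Subtype.val this
  have hne : C.relIndex N ≠ 1 := fun h =>
    CfsgLib.SmallSimple.not_normalizer_le_centralizer hnc h2.two_dvd T (Subgroup.relIndex_eq_one.1 h)
  have hodd : ¬ 2 ∣ C.relIndex N := fun h => T.not_dvd_index
    ((h.trans (Subgroup.relIndex_dvd_of_le_left (L := N) hTC)).trans
      (Subgroup.relIndex_dvd_index_of_le Subgroup.le_normalizer))
  let X := {x : (T : Subgroup G) // x ≠ 1}
  let f : MulAut (T : Subgroup G) →* Equiv.Perm X :=
    { toFun := fun e => e.toEquiv.subtypeEquiv fun x => by simp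
      map_one' := by ext x; rfl
      map_mul' := fun e e' => by ext x; rfl }
  have hf : Function.Injective f := fun e e' h => by
    ext x
    by_cases hx : x = 1
    · simp [hx]
    · exact congrArg (fun v : X => ((v : (T : Subgroup G)) : G)) (Equiv.congr_fun h ⟨x, hx⟩)
  have h6 : C.relIndex N ∣ 6 := by
    have key := Subgroup.card_dvd_of_injective _
      (QuotientGroup.kerLift_injective (T : Subgroup G).normalizerMonoidHom)
    rw [Subgroup.normalizerMonoidHom_ker, ← Subgroup.index, ← Subgroup.relIndex] at key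
    refine key.trans ((Subgroup.card_dvd_of_injective f hf).trans ?_)
    haveI := Fintype.ofFinite (T : Subgroup G)
    rw [Nat.card_perm, Nat.card_eq_fintype_card (α := X), Fintype.card_subtype_compl, Fintype.card_subtype_eq,
      ← Nat.card_eq_fintype_card, hk]
    norm_num [Nat.factorial]
  have hle := Nat.le_of_dvd (by norm_num) h6
  generalize C.relIndex N = n at hne hodd h6 hle ⊢
  interval_cases n <;> simp_all

end Cfsg.Agent.S0992
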