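import Cfsg.Statements.S0995
import Mathlib

set_option autoImplicit false
open Cfsg

namespace Cfsg.Agent.S0995

/-- Let G be a finite perfect group containing an element z of prime order p whose centralizer is the cyclic group it generates. Let t be the number of conjugacy classes of elements of order p. Then t divides p - 1, the number of Sylow p-subgroups has the form 1 + n * p, and |G| * t = (p - 1) * p * (1 + n * p). -/
theorem result {G : Type*} [Group G] [Finite G] (hperf : commutator G = ⊤) (p : ℕ) [Fact p.Prime] (z : G) (hz : orderOf z = p) (hC : Subgroup.centralizer ({z} : Set G) = Subgroup.zpowers z) : ∃ n t : ℕ, t = Nat.card {c : ConjClasses G // ∃ g : G, ConjClasses.mk g = c ∧ orderOf g = p} ∧ t ∣ p - 1 ∧ Nat.card (Sylow p G) = 1 + n * p ∧ Nat.card G * t = (p - 1) * p * (1 + n * p) := by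
  classical
  have hp : p.Prime := Fact.out
  haveI : Fintype G := Fintype.ofFinite G
  have hz1 : z ≠ 1 := fun h => hp.ne_one (by rw [← hz, h, orderOf_one])
  have hzp : IsPGroup p (Subgroup.zpowers z) := IsPGroup.of_card (n := 1) (by rw [Nat.card_zpowers, hz, pow_one])
  obtain ⟨P, hP⟩ := hzp.exists_le_sylow
  -- the Sylow subgroup has order p
  have hPz : (P : Subgroup G) = Subgroup.zpowers z := by
    refine le_antisymm ?_ hP
    haveI : Nontrivial ↥(P : Subgroup G) := ⟨⟨⟨z, hP (Subgroup.mem_zpowers z)⟩, 1, fun h => hz1 (congrArg Subtype.val h)⟩⟩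
    haveI : Nontrivial (Subgroup.center ↥(P : Subgroup G)) := IsPGroup.center_nontrivial P.2
    obtain ⟨⟨w, hw⟩, hw1⟩ := exists_ne (1 : Subgroup.center ↥(P : Subgroup G))
    have hwz : (w : G) ∈ Subgroup.zpowers z := by
      rw [← hC, Subgroup.mem_centralizer_singleton_iff]
      exact (congrArg Subtype.val (Subgroup.mem_center_iff.1 hw ⟨z, hP (Subgroup.mem_zpowers z)⟩)).symm
    have hgen : Subgroup.zpowers (w : G) = Subgroup.zpowers z := by
      refine Subgroup.eq_of_le_of_card_ge (Subgroup.zpowers_le.2 hwz) ?_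
      rw [Nat.card_zpowers, Nat.card_zpowers, hz]
      have hd := Subgroup.orderOf_dvd_natCard _ hwz
      rw [Nat.card_zpowers, hz] at hd
      rcases (Nat.dvd_prime hp).1 hd with h | h
      · exact absurd (Subtype.ext (Subtype.ext (orderOf_eq_one_iff.1 h))) hw1
      · exact h.ge
    intro x hx
    rw [← hC, Subgroup.mem_centralizer_singleton_iff]
    have hzw : z ∈ Subgroup.zpowers (w : G) := hgen ▸ Subgroup.mem_zpowers z
    obtain ⟨i, rfl⟩ := hzw
    have hxw : Commute x (w : G) := congrArg Subtype.val (Subgroup.mem_center_iff.1 hw ⟨x, hx⟩)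
    exact (hxw.zpow_right i).eq
  have hPcard : Nat.card (P : Subgroup G) = p := by rw [hPz, Nat.card_zpowers, hz]
  set N := Subgroup.normalizer ((P : Subgroup G) : Set G) with hN
  let X := Finset.univ.filter fun a : G => a ∈ (P : Subgroup G) ∧ a ≠ 1
  have hX : X.card = p - 1 := by
    have : X = (Finset.univ.filter fun a : G => a ∈ (P : Subgroup G)).erase 1 := by ext; simp [X, and_comm]
    rw [this, Finset.card_erase_of_mem (by simp [Subgroup.one_mem]), ← Fintype.card_subtype, ← Nat.card_eq_fintype_card, hPcard]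
  have hgenX : ∀ a ∈ X, orderOf a = p ∧ Subgroup.zpowers a = (P : Subgroup G) := fun a ha => by
    obtain ⟨haP, ha1⟩ := (Finset.mem_filter.1 ha).2
    have ho : orderOf a = p := by
      have := Subgroup.orderOf_dvd_natCard _ haP
      rw [hPcard] at this
      exact ((Nat.dvd_prime hp).1 this).resolve_left fun h => ha1 (orderOf_eq_one_iff.1 h)
    exact ⟨ho, Subgroup.eq_of_le_of_card_ge (Subgroup.zpowers_le.2 haP) (by rw [Nat.card_zpowers, ho, hPcard])⟩
  -- conjugators between elements of X normalise P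
  have hconjN : ∀ a ∈ X, ∀ g : G, g * a * g⁻¹ ∈ (P : Subgroup G) → g ∈ N := fun a ha g hg => by
    have hmap : (P : Subgroup G).map (MulAut.conj g).toMonoidHom = P := by
      refine Subgroup.eq_of_le_of_card_ge ?_ (by rw [Subgroup.card_map_of_injective (MulAut.conj g).injective])
      conv_lhs => rw [← (hgenX a ha).2]
      rw [MonoidHom.map_zpowers]
      exact Subgroup.zpowers_le.2 hg
    rw [hN, Subgroup.mem_normalizer_iff]
    intro u
    constructor
    · intro hu; rw [← SetLike.mem_coe, ← hmap]; exact ⟨u, hu, rfl⟩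
    · intro hu
      rw [← SetLike.mem_coe, ← hmap] at hu
      obtain ⟨v, hv, hve⟩ := hu
      exact (mul_left_cancel (mul_right_cancel (hve :)) : v = u) ▸ hv
  have hCa : ∀ a ∈ X, Subgroup.centralizer ({a} : Set G) = P := fun a ha => by
    rw [hPz, ← hC]
    ext x
    simp only [Subgroup.mem_centralizer_singleton_iff]
    have hza : z ∈ Subgroup.zpowers a := (hgenX a ha).2 ▸ hP (Subgroup.mem_zpowers z)
    have haz : a ∈ Subgroup.zpowers z := hPz ▸ (Finset.mem_filter.1 ha).2.1
    constructor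
    · intro h; obtain ⟨i, rfl⟩ := hza; exact ((show Commute x a from h).zpow_right i).eq
    · intro h; obtain ⟨i, rfl⟩ := haz; exact ((show Commute x z from h).zpow_right i).eq
  -- class fibres
  have hfib : ∀ a ∈ X, (X.filter fun b => IsConj a b).card * p = Nat.card N := fun a ha => by
    let S := Finset.univ.filter fun g : G => g * a * g⁻¹ ∈ (P : Subgroup G)
    have hS : S.card = Nat.card N := by
      rw [Nat.card_eq_fintype_card, Fintype.card_subtype]
      congr 1
      ext g
      simp only [S, Finset.mem_filter, Finset.mem_univ, true_and]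
      exact ⟨hconjN a ha g, fun hg => (Subgroup.mem_normalizer_iff.1 hg a).1 (Finset.mem_filter.1 ha).2.1⟩
    have hmaps : ∀ g ∈ S, g * a * g⁻¹ ∈ X.filter fun b => IsConj a b := fun g hg => by
      refine Finset.mem_filter.2 ⟨Finset.mem_filter.2 ⟨Finset.mem_univ _, (Finset.mem_filter.1 hg).2, fun h => ?_⟩, isConj_iff.2 ⟨g, rfl⟩⟩
      exact (Finset.mem_filter.1 ha).2.2 (conj_eq_one_iff.1 h)
    have hcnt : ∀ b ∈ X.filter (fun b => IsConj a b), (S.filter fun g => g * a * g⁻¹ = b).card = p := fun b hb => by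
      obtain ⟨hbX, hb⟩ := Finset.mem_filter.1 hb
      obtain ⟨g₀, hg₀⟩ := isConj_iff.1 hb
      refine Eq.trans ?_ ((congrArg (fun K : Subgroup G => Nat.card K) (hCa a ha)).trans hPcard)
      rw [Nat.card_eq_fintype_card, Fintype.card_subtype]
      refine Finset.card_equiv (Equiv.mulLeft g₀⁻¹) fun g => ?_
      simp only [S, Finset.mem_filter, Finset.mem_univ, true_and, Equiv.coe_mulLeft, Subgroup.mem_centralizer_singleton_iff]
      constructor
      · rintro ⟨-, he⟩
        calc g₀⁻¹ * g * a = g₀⁻¹ * (g * a * g⁻¹) * g := by group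
          _ = g₀⁻¹ * (g₀ * a * g₀⁻¹) * g := by rw [he, hg₀]
          _ = a * (g₀⁻¹ * g) := by group
      · intro he
        have h1 : g * a * g⁻¹ = b := by
          calc g * a * g⁻¹ = g₀ * (g₀⁻¹ * g * a) * g⁻¹ := by group
            _ = g₀ * (a * (g₀⁻¹ * g)) * g⁻¹ := by rw [he]
            _ = g₀ * a * g₀⁻¹ := by group
            _ = b := hg₀
        exact ⟨h1.symm ▸ (Finset.mem_filter.1 hbX).2.1, h1⟩
    rw [← hS, Finset.card_eq_sum_card_fiberwise (fun g hg => hmaps g hg), Finset.sum_congr rfl hcnt, Finset.sum_const, smul_eq_mul]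
  have hNd : p ∣ Nat.card N := hPcard ▸ Subgroup.card_dvd_of_le Subgroup.le_normalizer
  obtain ⟨e, he⟩ := hNd
  have hfib' : ∀ a ∈ X, (X.filter fun b => IsConj a b).card = e := fun a ha =>
    Nat.eq_of_mul_eq_mul_right hp.pos ((hfib a ha).trans (he.trans (mul_comm _ _)))
  let T := {c : ConjClasses G // ∃ g : G, ConjClasses.mk g = c ∧ orderOf g = p}
  haveI : Fintype T := Fintype.ofFinite T
  have hconjX : ∀ g : G, orderOf g = p → ∃ a ∈ X, IsConj g a := fun g hg => by
    have hgp : IsPGroup p (Subgroup.zpowers g) := IsPGroup.of_card (n := 1) (by rw [Nat.card_zpowers, hg, pow_one])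
    obtain ⟨R, hR⟩ := hgp.exists_le_sylow
    obtain ⟨k, hk⟩ := MulAction.exists_smul_eq G R P
    refine ⟨k * g * k⁻¹, Finset.mem_filter.2 ⟨Finset.mem_univ _, ?_, fun h => hp.ne_one ?_⟩, isConj_iff.2 ⟨k, rfl⟩⟩
    · rw [← hk]; exact Subgroup.smul_mem_pointwise_smul g (MulAut.conj k) _ (hR (Subgroup.mem_zpowers g))
    · rw [← hg, conj_eq_one_iff.1 h, orderOf_one]
  have hTX : (p - 1) = Nat.card T * e := by
    rw [← hX, Nat.card_eq_fintype_card, ← Finset.card_univ]
    let f : {a // a ∈ X} → T := fun a => ⟨ConjClasses.mk a.1, a.1, rfl, (hgenX a.1 a.2).1⟩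
    rw [← X.card_attach, Finset.card_eq_sum_card_fiberwise (f := f) (t := Finset.univ) (fun _ _ => Finset.mem_univ _),
      Finset.sum_congr rfl (g := fun _ => e) (fun c _ => ?_), Finset.sum_const, smul_eq_mul]
    obtain ⟨c, g, rfl, hg⟩ := c
    obtain ⟨a, haX, hga⟩ := hconjX g hg
    rw [← hfib' a haX]
    refine Finset.card_bij (fun b _ => b.1) (fun b hb => ?_) (fun b _ b' _ h => Subtype.ext h) fun b hb => ?_
    · have hbe : f b = _ := (Finset.mem_filter.1 hb).2
      exact Finset.mem_filter.2 ⟨b.2, (ConjClasses.mk_eq_mk_iff_isConj.1 (congrArg Subtype.val hbe)).trans hga |>.symm⟩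
    · obtain ⟨hbX, hb'⟩ := Finset.mem_filter.1 hb
      exact ⟨⟨b, hbX⟩, Finset.mem_filter.2 ⟨Finset.mem_attach _ _, Subtype.ext (ConjClasses.mk_eq_mk_iff_isConj.2 (hga.trans hb').symm)⟩, rfl⟩
  have hmod := card_sylow_modEq_one p G
  have hge : 1 ≤ Nat.card (Sylow p G) := Nat.card_pos
  obtain ⟨n, hn⟩ := (Nat.modEq_iff_dvd' hge).1 hmod.symm
  refine ⟨n, Nat.card T, rfl, ⟨e, hTX⟩, by rw [mul_comm n p, ← hn]; omega, ?_⟩
  have hidx : N.index = Nat.card (Sylow p G) := P.card_eq_index_normalizer.symm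
  rw [← N.index_mul_card, hidx, he, show Nat.card (Sylow p G) = 1 + n * p by rw [mul_comm n p, ← hn]; omega, hTX]
  ring

end Cfsg.Agent.S0995
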