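import Cfsg.Statements.S1002
import Cfsg.Agent.S1526
import Cfsg.Agent.Lib.SmallSimple

set_option autoImplicit false
open Cfsg

open Cfsg CfsgLib.Chars CfsgLib.Virtual CfsgLib.Coherence CfsgLib.ExceptionalTI CfsgLib.SmallSimple
open scoped ComplexConjugate

namespace Cfsg.Agent.S1002

/-- No finite simple group has order 1004913 = 3^3 * 7 * 13 * 409. -/
theorem result {G : Type*} [Group G] [Finite G] [IsSimpleGroup G] : Nat.card G ≠ 1004913 := by
      classical
      intro hG
      haveI : Fintype G := Fintype.ofFinite G
      haveI : Fact (Nat.Prime 409) := ⟨by norm_num⟩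
      have hnc : ¬ IsMulCommutative G := not_isMulCommutative_of_card (by rw [hG]; norm_num)
      have hd409 : 409 ∣ Nat.card G := by rw [hG]; norm_num
      obtain ⟨P⟩ := (inferInstance : Nonempty (Sylow 409 G))
      obtain ⟨hP, hn, hmod⟩ := card_sylow_mem (k := 1) (m := 2457) (by rw [hG]; norm_num) (by norm_num) P
      rw [pow_one] at hP
      have h1 := card_sylow_ne_one hnc hd409
      have hn819 : Nat.card (Sylow 409 G) = 819 := by
        have hle := Nat.le_of_dvd (by norm_num) hn
        have hq := Nat.div_add_mod (Nat.card (Sylow 409 G)) 409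
        obtain ⟨q, hqdef⟩ : ∃ q, Nat.card (Sylow 409 G) / 409 = q := ⟨_, rfl⟩
        have hq' : q ≤ 6 := by omega
        rw [hmod, hqdef] at hq
        rw [← hq] at hn h1 ⊢
        interval_cases q <;> first | omega | (norm_num at hn)
      have hN : Nat.card (Subgroup.normalizer ((P : Subgroup G) : Set G)) = 1227 := by
        have h2 := (Subgroup.normalizer ((P : Subgroup G) : Set G)).index_mul_card
        rw [show (Subgroup.normalizer ((P : Subgroup G) : Set G)).index = 819 from
          (Sylow.card_eq_index_normalizer P).symm.trans hn819, hG] at h2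
        omega
      have hne : (P : Subgroup G) ≠ ⊥ := sylow_ne_bot hd409 P
      have hgen : ∀ k ∈ (P : Subgroup G), k ≠ 1 → Subgroup.zpowers k = (P : Subgroup G) := by
        intro k hk hk1
        refine Subgroup.eq_of_le_of_card_ge (Subgroup.zpowers_le.2 hk) ?_
        rw [Nat.card_zpowers, hP]
        have h2 := Subgroup.orderOf_dvd_natCard _ hk
        rw [hP] at h2
        exact (((Nat.dvd_prime Fact.out).1 h2).resolve_left fun h => hk1 (orderOf_eq_one_iff.1 h)).ge
      have hCP : Nat.card (Subgroup.centralizer ((P : Subgroup G) : Set G)) = 409 := by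
        have hcyc : IsCyclic (P : Subgroup G) := isCyclic_of_prime_card hP
        haveI := hcyc
        have hle : (P : Subgroup G) ≤ Subgroup.centralizer ((P : Subgroup G) : Set G) := fun x hx => by
          rw [Subgroup.mem_centralizer_iff]
          intro y hy
          exact congrArg Subtype.val ((IsCyclic.commutative (α := (P : Subgroup G))).is_comm.comm ⟨y, hy⟩ ⟨x, hx⟩)
        have hd1 := Subgroup.card_dvd_of_le hle
        have hd2 := Subgroup.card_dvd_of_le (Subgroup.centralizer_le_normalizer ((P : Subgroup G) : Set G))
        rw [hP] at hd1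
        rw [hN] at hd2
        obtain ⟨c, hc⟩ := hd1
        rw [hc, show (1227 : ℕ) = 409 * 3 by norm_num] at hd2
        rcases (Nat.dvd_prime (by norm_num)).1 (Nat.dvd_of_mul_dvd_mul_left (by norm_num) hd2) with rfl | rfl
        · rw [hc]
        · refine absurd (le_of_eq (Subgroup.eq_of_le_of_card_ge
            (Subgroup.centralizer_le_normalizer ((P : Subgroup G) : Set G)) ?_).symm)
            (not_normalizer_le_centralizer hnc hd409 P)
          rw [hc, hN]
      have hC : ∀ k ∈ (P : Subgroup G), k ≠ 1 → Subgroup.centralizer ({k} : Set G) ≤ (P : Subgroup G) := by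
        intro k hk hk1 g hg
        have hgC : g ∈ Subgroup.centralizer ((P : Subgroup G) : Set G) := by
          rw [Subgroup.mem_centralizer_iff]
          intro y hy
          rw [SetLike.mem_coe, ← hgen k hk hk1] at hy
          obtain ⟨i, rfl⟩ := hy
          exact ((show Commute g k from Subgroup.mem_centralizer_singleton_iff.1 hg).zpow_right i).eq.symm
        have heq : (P : Subgroup G) = Subgroup.centralizer ((P : Subgroup G) : Set G) := by
          refine Subgroup.eq_of_le_of_card_ge ?_ (by rw [hCP, hP])
          intro x hx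
          rw [Subgroup.mem_centralizer_iff]
          intro y hy
          haveI : IsCyclic (P : Subgroup G) := isCyclic_of_prime_card hP
          exact congrArg Subtype.val ((IsCyclic.commutative (α := (P : Subgroup G))).is_comm.comm ⟨y, hy⟩ ⟨x, hx⟩)
        rw [heq]; exact hgC
      have hTI : IsTISubset ((P : Subgroup G) : Set G) := by
        intro g hg x hx hxg
        by_contra hx1
        refine hg ?_
        have hmap : (P : Subgroup G).map (MulAut.conj g).toMonoidHom = P := by
          refine Subgroup.eq_of_le_of_card_ge ?_ (by rw [Subgroup.card_map_of_injective (MulAut.conj g).injective])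
          conv_lhs => rw [← hgen x hx hx1]
          rw [MonoidHom.map_zpowers]
          exact Subgroup.zpowers_le.2 hxg
        rw [Subgroup.mem_normalizer_iff]
        intro u
        constructor
        · intro hu; rw [← SetLike.mem_coe, ← hmap]; exact ⟨u, hu, rfl⟩
        · intro hu
          rw [← SetLike.mem_coe, ← hmap] at hu
          obtain ⟨v, hv, hve⟩ := hu
          exact (mul_left_cancel (mul_right_cancel (hve :)) : v = u) ▸ hv
      have hlt : (P : Subgroup G) < Subgroup.normalizer ((P : Subgroup G) : Set G) :=
        lt_of_le_of_ne Subgroup.le_normalizer fun h => by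
          have := congrArg (fun K : Subgroup G => Nat.card K) h
          simp only [hP, hN] at this
          omega
      obtain ⟨D⟩ := exists_data (P : Subgroup G) hne hTI hlt hC (by rw [hN]; decide)
      have he : D.e = 3 := by
        have := D.card_norm
        rw [hN, hP] at this
        omega
      have hσ : D.σ = 136 := by
        have := D.card_eq
        rw [hP, he] at this
        omega
      obtain ⟨z, hz, hzA⟩ := exists_coord D.A_gen
      obtain ⟨x, hx⟩ := D.A_exc
      -- the coefficient of the exceptional characters vanishes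
      have hx0 : x = 0 := by
        have hb := CfsgLib.FHT.bessel D.A D.exc (fun ξ => x * D.D ξ - if ξ = D.η then 1 else 0) D.A_gen D.exc_gen
          D.exc_orth (fun ξ => by rw [hx]; push_cast; by_cases h : ξ = D.η <;> simp [h]) 4
          (by rw [D.A_norm, he]; norm_num)
        have hs : ((136 : ℕ) : ℤ) = ∑ ξ : D.X, ((D.D ξ : ℤ)) ^ 2 := by
          rw [← hσ, ← D.sum_D]; push_cast; rfl
        have he2 : ∑ ξ : D.X, (x * D.D ξ - if ξ = D.η then 1 else 0) * (x * D.D ξ - if ξ = D.η then 1 else 0) =
            x * x * 136 - 2 * x + 1 := by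
          rw [show ((136 : ℤ)) = ((136 : ℕ) : ℤ) from rfl, hs, Finset.mul_sum,
            Finset.sum_congr rfl (g := fun ξ => x * x * ((D.D ξ : ℤ)) ^ 2 + (if ξ = D.η then 1 - 2 * x else 0))
              (fun ξ _ => ?_), Finset.sum_add_distrib, Finset.sum_ite_eq', if_pos (Finset.mem_univ _)]
          · ring
          · by_cases h : ξ = D.η
            · rw [if_pos h, if_pos h, h, D.D_eta]; push_cast; ring
            · rw [if_neg h, if_neg h]; ring
        rw [he2] at hb
        nlinarith [sq_nonneg x, sq_nonneg (x - 1), sq_nonneg (x + 1)]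
      let one : IrrCharacter G := ⟨fun _ => 1, isIrrCharacter_one G⟩
      obtain ⟨ε, μ, hε, hμ⟩ := exists_single (D.exc_gen D.η) (by rw [D.exc_orth, if_pos rfl])
      have hz1 : z one = 1 := by
        have h := hz one
        rw [show classInner D.A (one : G → ℂ) = 1 from D.A_one] at h
        exact_mod_cast h.symm
      have hzμ : z μ * z μ = 1 := by
        have h := hx D.η
        rw [hμ, ci_smul_right, hz μ, if_pos rfl, hx0, Int.cast_zero, zero_mul, zero_sub] at h
        rcases hε with rfl | rfl
        · have h' : z μ = -1 := by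
            rw [map_one, one_mul] at h
            exact_mod_cast h
          rw [h']; norm_num
        · have h' : z μ = 1 := by
            rw [map_neg, map_one, neg_one_mul, neg_inj] at h
            exact_mod_cast h
          rw [h']; norm_num
      have hμn : Nonconst (P : Subgroup G) (μ : G → ℂ) :=
        (D.exc_iff μ).1 ⟨D.η, by rcases hε with rfl | rfl <;> simp [hμ]⟩
      have hμ1 : μ ≠ one := fun h => by
        obtain ⟨a, -, b, -, -, -, hab⟩ := hμn
        exact hab (by rw [h])
      have hnorm : ∑ θ : IrrCharacter G, z θ * z θ = 4 := by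
        have h := inner_eq_sum_coord hzA hzA
        rw [D.A_norm, he] at h
        have h' : ((4 : ℤ) : ℂ) = ((∑ θ : IrrCharacter G, z θ * z θ : ℤ) : ℂ) := by rw [← h]; norm_num
        exact_mod_cast h'.symm
      set T := (((Finset.univ : Finset (IrrCharacter G)).erase one).erase μ).filter fun θ => z θ ≠ 0 with hT
      have hsum2 : ∑ θ ∈ T, z θ * z θ = 2 := by
        rw [hT, Finset.sum_filter_of_ne (p := fun θ => z θ ≠ 0) (fun θ _ h h' => h (by rw [h', mul_zero]))]
        have e1 := Finset.add_sum_erase _ (fun θ => z θ * z θ) (Finset.mem_univ one)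
        have e2 := Finset.add_sum_erase _ (fun θ => z θ * z θ)
          (Finset.mem_erase.2 ⟨hμ1, Finset.mem_univ μ⟩ : μ ∈ (Finset.univ : Finset (IrrCharacter G)).erase one)
        rw [hnorm, hz1] at e1
        rw [hzμ] at e2
        linarith
      have hperf : ∀ f : G →* ℂˣ, f = 1 := by
        intro f
        rcases (inferInstance : f.ker.Normal).eq_bot_or_eq_top with h | h
        · refine absurd (⟨⟨fun a b => ?_⟩⟩ : IsMulCommutative G) hnc
          exact (MonoidHom.ker_eq_bot_iff f).1 h (by rw [map_mul, map_mul, mul_comm])
        · exact MonoidHom.ext fun g => MonoidHom.mem_ker.1 (h ▸ Subgroup.mem_top g)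
      have hkey : ∀ θ ∈ T, z θ * z θ = 1 ∧ charDegree (θ : G → ℂ) = 819 := by
        intro θ hθ
        simp only [hT, Finset.mem_filter, Finset.mem_erase, Finset.mem_univ, and_true] at hθ
        obtain ⟨⟨hθμ, hθ1⟩, hθz⟩ := hθ
        have hle : z θ * z θ ≤ 2 := by
          rw [← hsum2]
          exact Finset.single_le_sum (f := fun θ => z θ * z θ) (fun _ _ => mul_self_nonneg _)
            (Finset.mem_filter.2 ⟨Finset.mem_erase.2 ⟨hθμ, Finset.mem_erase.2 ⟨hθ1, Finset.mem_univ _⟩⟩, hθz⟩)
        have hb : z θ = 1 ∨ z θ = -1 := by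
          have h1 : z θ ≤ 1 := by nlinarith
          have h2 : -1 ≤ z θ := by nlinarith
          omega
        refine ⟨by rcases hb with h | h <;> simp [h], ?_⟩
        -- constancy on the Sylow subgroup
        have hcst : ∀ a ∈ (P : Subgroup G), ∀ b ∈ (P : Subgroup G), a ≠ 1 → b ≠ 1 → (θ : G → ℂ) a = (θ : G → ℂ) b := by
          intro a ha b hb' ha1 hb1
          by_contra hne'
          obtain ⟨ξ, hξ⟩ := (D.exc_iff θ).2 ⟨a, ha, b, hb', ha1, hb1, hne'⟩
          have h := hx ξ
          by_cases hξη : ξ = D.η
          · subst hξη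
            rcases hξ with hξ | hξ <;> rw [hμ] at hξ <;> apply hθμ
            all_goals
              by_contra hne2
              have h2 := congrArg (fun F => classInner F (θ : G → ℂ)) hξ
              simp only [ci_smul_left, ci_neg_left, classInner_irr, if_neg (Ne.symm hne2)] at h2
              norm_num at h2
          · rw [if_neg hξη, hx0, Int.cast_zero, zero_mul, sub_zero] at h
            rcases hξ with hξ | hξ
            · rw [hξ, hz θ, Int.cast_eq_zero] at h
              exact hθz h
            · rw [hξ, ci_neg_right, hz θ, neg_eq_zero, Int.cast_eq_zero] at h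
              exact hθz h
        obtain ⟨k, hk⟩ := Subgroup.ne_bot_iff_exists_ne_one.1 hne
        have hk1 : (k : G) ≠ 1 := fun h => hk (Subtype.ext h)
        have hA := D.A_const _ (IsCharacter.isClassFunction (isCharacter_irr θ)) _
          (fun y hy hy1 => hcst y hy k k.2 hy1 hk1)
        rw [hz θ] at hA
        have hval : ∀ y ∈ (P : Subgroup G), y ≠ 1 → (θ : G → ℂ) y = (z θ : ℂ) := fun y hy hy1 => by
          rw [hcst y hy k k.2 hy1 hk1, ← Complex.conj_conj ((θ : G → ℂ) k), ← hA, map_intCast]
        obtain ⟨m, hm⟩ := exists_mult_character (IsCharacter.restrict (isCharacter_irr θ) (P : Subgroup G))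
          (IsIrrCharacter.isCharacter (isIrrCharacter_one (P : Subgroup G)))
        have hres : ((charDegree (θ : G → ℂ) : ℤ) + 408 * z θ : ℤ) = 409 * (m : ℤ) := by
          rw [classInner, hP, inv_mul_eq_iff_eq_mul₀ (by norm_num)] at hm
          simp only [map_one, mul_one] at hm
          rw [← Finset.add_sum_erase _ _ (Finset.mem_univ 1), OneMemClass.coe_one, irr_apply_one,
            Finset.sum_congr (s₁ := (Finset.univ : Finset ↥(P : Subgroup G)).erase 1) rfl (g := fun _ => (z θ : ℂ))
              (fun y hy => hval y y.2 fun h =>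
              (Finset.mem_erase.1 hy).1 (Subtype.ext h)), Finset.sum_const, Finset.card_erase_of_mem (Finset.mem_univ _),
            Finset.card_univ, ← Nat.card_eq_fintype_card, hP, nsmul_eq_mul] at hm
          have hm' : (((charDegree (θ : G → ℂ) : ℤ) + 408 * z θ : ℤ) : ℂ) = ((409 * (m : ℤ) : ℤ) : ℂ) := by
            push_cast at hm ⊢
            linear_combination hm
          exact_mod_cast hm'
        have hdvd := charDegree_dvd θ
        have hsq : charDegree (θ : G → ℂ) ^ 2 ≤ 1004913 := by
          rw [← hG, ← sum_deg_sq (G := G)]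
          exact Finset.single_le_sum (f := fun θ : IrrCharacter G => charDegree (θ : G → ℂ) ^ 2)
            (fun _ _ => Nat.zero_le _) (Finset.mem_univ θ)
        have hne1 : charDegree (θ : G → ℂ) ≠ 1 := fun h => hθ1 (by
          obtain ⟨f, hf⟩ := exists_homIrr θ h
          rw [← hf, hperf f]
          exact Subtype.ext (funext fun g => by show (((1 : G →* ℂˣ) g : ℂˣ) : ℂ) = 1; simp))
        have hle2 : charDegree (θ : G → ℂ) ≤ 1002 := by nlinarith
        rw [hG] at hdvd
        obtain ⟨d, hd⟩ : ∃ d, charDegree (θ : G → ℂ) = d := ⟨_, rfl⟩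
        rw [hd] at hres hdvd hne1 hle2 ⊢
        have hcases : d = 1 ∨ d = 408 ∨ d = 410 ∨ d = 817 ∨ d = 819 := by
          rcases hb with hb | hb <;> rw [hb] at hres <;> omega
        rcases hcases with rfl | rfl | rfl | rfl | rfl <;> first | rfl | omega | (norm_num at hdvd)
      have hcardT : T.card = 2 := by
        rw [Finset.sum_congr rfl fun θ hθ => (hkey θ hθ).1, Finset.sum_const, nsmul_eq_mul, mul_one] at hsum2
        exact_mod_cast hsum2
      have hfin : ∑ θ ∈ T, charDegree (θ : G → ℂ) ^ 2 ≤ Nat.card G := by
        rw [← sum_deg_sq (G := G)]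
        exact Finset.sum_le_univ_sum_of_nonneg (fun _ => Nat.zero_le _)
      rw [Finset.sum_congr rfl (g := fun _ => 819 ^ 2) (fun θ hθ => by rw [(hkey θ hθ).2]), Finset.sum_const,
        hcardT, hG] at hfin
      norm_num at hfin

end Cfsg.Agent.S1002
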