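import Cfsg.Statements.S1006
import Mathlib
import Cfsg.Agent.Lib.Order168

set_option autoImplicit false
open Cfsg

namespace Cfsg.Agent.S1006

/-- In a simple group of order 168 there are 56 elements of order 3, all conjugate; 42 elements of order 4, all conjugate; and 48 elements of order 7 falling into two conjugacy classes of size 24, an element of order 7 not being conjugate to its inverse. -/
theorem result {G : Type*} [Group G] [Finite G] [IsSimpleGroup G] (h : Nat.card G = 168) : Nat.card {g : G // orderOf g = 3} = 56 ∧ (∀ s t : G, orderOf s = 3 → orderOf t = 3 → IsConj s t) ∧ Nat.card {g : G // orderOf g = 4} = 42 ∧ (∀ s t : G, orderOf s = 4 → orderOf t = 4 → IsConj s t) ∧ Nat.card {g : G // orderOf g = 7} = 48 ∧ ∀ x : G, orderOf x = 7 → Nat.card {g : G // IsConj x g} = 24 ∧ ¬ IsConj x x⁻¹ := by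
  classical
  haveI : Fact (Nat.Prime 2) := ⟨Nat.prime_two⟩
  haveI : Fact (Nat.Prime 3) := ⟨Nat.prime_three⟩
  haveI : Fact (Nat.Prime 7) := ⟨by norm_num⟩
  -- elements of prime order
  have hset : ∀ (p : ℕ) [Fact p.Prime], (∀ P : Sylow p G, Nat.card (P : Subgroup G) = p) →
      Nat.card {g : G // orderOf g = p} = Nat.card (Sylow p G) * (p - 1) := by
    intro p hpf hP
    rw [← CfsgLib.SmallSimple2.ncard_union (CfsgLib.SmallSimple2.inf_eq_bot_of_card_prime hP) hP,
      ← Nat.card_coe_set_eq]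
    refine Nat.card_congr (Equiv.subtypeEquivRight fun g => ⟨fun hg => ?_, ?_⟩)
    · obtain ⟨P, hle⟩ := (IsPGroup.of_card (n := 1) (by rw [Nat.card_zpowers, hg, pow_one]) :
        IsPGroup p (Subgroup.zpowers g)).exists_le_sylow
      exact ⟨fun e => hpf.out.ne_one (by rw [← hg, e, orderOf_one]), P, hle (Subgroup.mem_zpowers g)⟩
    · rintro ⟨hg1, P, hgP⟩
      rcases (Nat.dvd_prime hpf.out).1 (hP P ▸ Subgroup.orderOf_dvd_natCard _ hgP) with e | e
      · exact absurd (orderOf_eq_one_iff.1 e) hg1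
      · exact e
  have h3 : Nat.card {g : G // orderOf g = 3} = 56 := by
    rw [hset 3 (CfsgLib.Order168.card_sylow3 h).1, (CfsgLib.Order168.card_sylow3 h).2]
  have h7 : Nat.card {g : G // orderOf g = 7} = 48 := by
    rw [hset 7 (CfsgLib.Order168.card_sylow7 h).1, (CfsgLib.Order168.card_sylow7 h).2]
  have hcls : ∀ (x : G) (n : ℕ), Nat.card (Subgroup.centralizer ({x} : Set G)) = n →
      Nat.card {g : G // IsConj x g} * n = 168 := fun x n hn => by
    rw [← hn, CfsgLib.InvolutionCount.card_class_mul_card_centralizer, h]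
  have hordconj : ∀ (x g : G), IsConj x g → orderOf g = orderOf x := by
    intro x g hc
    obtain ⟨c, rfl⟩ := isConj_iff.1 hc
    exact (MulAut.conj c).orderOf_eq x
  -- order 4
  obtain ⟨T⟩ := (inferInstance : Nonempty (Sylow 2 G))
  obtain ⟨a, x, ha, hx2, hxn, hxa⟩ := CfsgLib.Order168.sylow2_structure h T
  set z : G := ((a ^ 2 : (T : Subgroup G)) : G) with hz
  have hzo : orderOf z = 2 := by rw [hz, Subgroup.orderOf_coe, orderOf_pow, ha]; norm_num
  have hz1 : z ≠ 1 := fun e => by rw [e, orderOf_one] at hzo; norm_num at hzo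
  have hidx : (Subgroup.zpowers a).index = 2 := by
    have h1 := Subgroup.index_mul_card (Subgroup.zpowers a)
    rw [Nat.card_zpowers, ha, (CfsgLib.Order168.card_sylow2 h).1 T] at h1
    omega
  have hinv : (a ^ 2)⁻¹ = a ^ 2 := by
    rw [inv_eq_iff_mul_eq_one, ← pow_add]
    exact orderOf_dvd_iff_pow_eq_one.1 (by rw [ha])
  have hout : ∀ u : (T : Subgroup G), u ∉ Subgroup.zpowers a → ∃ i : ℤ, u = x * a ^ i := by
    intro u hu
    have hmem : x⁻¹ * u ∈ Subgroup.zpowers a :=
      (Subgroup.mul_mem_iff_of_index_two hidx (a := x⁻¹) (b := u)).2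
        ⟨fun h' => absurd ((Subgroup.inv_mem_iff _).1 h') hxn, fun h' => absurd h' hu⟩
    obtain ⟨i, hi⟩ := Subgroup.mem_zpowers_iff.1 hmem
    exact ⟨i, by rw [hi]; group⟩
  have hxz : Commute x (a ^ 2) := by
    show x * a ^ 2 = a ^ 2 * x
    rw [← mul_inv_eq_iff_eq_mul, ← conj_pow, hxa, inv_pow, hinv]
  have hzc : ∀ t ∈ (T : Subgroup G), t * z = z * t := by
    intro t ht
    have : Commute (⟨t, ht⟩ : (T : Subgroup G)) (a ^ 2) := by
      by_cases hu : (⟨t, ht⟩ : (T : Subgroup G)) ∈ Subgroup.zpowers a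
      · obtain ⟨i, hi⟩ := Subgroup.mem_zpowers_iff.1 hu
        rw [← hi]
        exact ((Commute.refl a).zpow_left i).pow_right 2
      · obtain ⟨i, hi⟩ := hout _ hu
        rw [hi]
        exact hxz.mul_left (((Commute.refl a).zpow_left i).pow_right 2)
    exact congrArg Subtype.val this.eq
  have hCz := CfsgLib.Order168.centralizer_central_involution h T (SetLike.coe_mem _) hz1 hzc
  have hall : ∀ g : G, orderOf g = 4 → IsConj ((a : G)) g := by
    intro g hg
    have hg2 : orderOf (g ^ 2) = 2 := by rw [orderOf_pow, hg]; norm_num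
    obtain ⟨c, hc⟩ := isConj_iff.1 (CfsgLib.Order168.isConj_involutions h (g ^ 2) z hg2 hzo)
    have hgT : c * g * c⁻¹ ∈ (T : Subgroup G) := by
      rw [← hCz, Subgroup.mem_centralizer_singleton_iff]
      show c * g * c⁻¹ * z = z * (c * g * c⁻¹)
      rw [← hc, ← conj_pow]
      exact (Commute.self_pow _ 2).eq
    refine IsConj.trans ?_ (isConj_iff.2 ⟨c⁻¹, by group⟩ : IsConj (c * g * c⁻¹) g)
    have hu : orderOf (⟨_, hgT⟩ : (T : Subgroup G)) = 4 := by
      rw [Subgroup.orderOf_mk, show c * g * c⁻¹ = MulAut.conj c g from rfl, MulEquiv.orderOf_eq, hg]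
    have hin : (⟨_, hgT⟩ : (T : Subgroup G)) ∈ Subgroup.zpowers a := by
      by_contra hu'
      obtain ⟨i, hi⟩ := hout _ hu'
      rw [hi] at hu
      have h1 : (x * a ^ i) ^ 2 = 1 := by
        have hxi : x⁻¹ = x := inv_eq_of_mul_eq_one_left hx2
        rw [sq, show x * a ^ i * (x * a ^ i) = (x * a ^ i * x⁻¹) * a ^ i by rw [hxi]; group,
          ← conj_zpow, hxa, inv_zpow, inv_mul_cancel]
      have := Nat.le_of_dvd (by norm_num) (hu ▸ orderOf_dvd_of_pow_eq_one h1)
      norm_num at this
    obtain ⟨i, hi⟩ := (isOfFinOrder_of_finite a).mem_powers_iff_mem_zpowers.mpr hin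
    have hi' : a ^ (i % 4) = ⟨c * g * c⁻¹, hgT⟩ := by rw [← hi, ← ha, pow_mod_orderOf]
    have : i % 4 < 4 := Nat.mod_lt _ (by norm_num)
    interval_cases hk : i % 4
    · rw [← hi', pow_zero, orderOf_one] at hu; norm_num at hu
    · rw [pow_one] at hi'
      rw [show ((a : (T : Subgroup G)) : G) = c * g * c⁻¹ from congrArg Subtype.val hi']
    · rw [← hi', orderOf_pow, ha] at hu; norm_num at hu
    · refine isConj_iff.2 ⟨x, ?_⟩
      have h5 : x * a * x⁻¹ = a ^ 3 := by
        rw [hxa, inv_eq_iff_mul_eq_one, ← pow_succ']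
        exact orderOf_dvd_iff_pow_eq_one.1 (by rw [ha])
      exact congrArg Subtype.val (h5.trans hi')
  have hCa : Nat.card (Subgroup.centralizer ({(a : G)} : Set G)) = 4 := by
    have hle : Subgroup.centralizer ({(a : G)} : Set G) ≤ (Subgroup.zpowers a).map (T : Subgroup G).subtype := by
      intro c hc
      rw [Subgroup.mem_centralizer_singleton_iff] at hc
      have hcT : c ∈ (T : Subgroup G) := by
        rw [← hCz, Subgroup.mem_centralizer_singleton_iff, Subgroup.coe_pow]
        exact ((show Commute c (a : G) from hc).pow_right 2).eq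
      refine ⟨⟨c, hcT⟩, ?_, rfl⟩
      by_contra hu'
      obtain ⟨i, hi⟩ := hout _ hu'
      have hcomm : (⟨c, hcT⟩ : (T : Subgroup G)) * a * (⟨c, hcT⟩ : (T : Subgroup G))⁻¹ = a :=
        mul_inv_eq_iff_eq_mul.2 (Subtype.ext hc)
      rw [hi, show x * a ^ i * a * (x * a ^ i)⁻¹ = x * a * x⁻¹ by group, hxa, inv_eq_iff_mul_eq_one, ← pow_two,
        ← orderOf_dvd_iff_pow_eq_one, ha] at hcomm
      norm_num at hcomm
    have hge : (Subgroup.zpowers a).map (T : Subgroup G).subtype ≤ Subgroup.centralizer ({(a : G)} : Set G) := by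
      rintro _ ⟨u, hu, rfl⟩
      obtain ⟨i, rfl⟩ := Subgroup.mem_zpowers_iff.1 hu
      exact Subgroup.mem_centralizer_singleton_iff.2 (congrArg Subtype.val ((Commute.refl a).zpow_left i).eq)
    rw [le_antisymm hle hge, Subgroup.card_map_of_injective (T : Subgroup G).subtype_injective, Nat.card_zpowers, ha]
  refine ⟨h3, ?_, ?_, fun s t hs ht => (hall s hs).symm.trans (hall t ht), h7, ?_⟩
  · intro s t hs ht
    have h1 := hcls s 3 (by rw [CfsgLib.Order168.centralizer3 h hs, Nat.card_zpowers, hs])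
    let F : {g : G // IsConj s g} → {g : G // orderOf g = 3} := fun g => ⟨g, (hordconj _ _ g.2).trans hs⟩
    have hF : Function.Bijective F := (Nat.bijective_iff_injective_and_card F).2
      ⟨fun u v e => Subtype.ext (congrArg (fun w : {g : G // orderOf g = 3} => (w : G)) e), by omega⟩
    obtain ⟨u, hu⟩ := hF.2 ⟨t, ht⟩
    have hu2 : (u : G) = t := congrArg (fun w : {g : G // orderOf g = 3} => (w : G)) hu
    exact hu2 ▸ u.2
  · have h1 := hcls _ 4 hCa
    rw [Nat.card_congr (Equiv.subtypeEquivRight fun g => ⟨hall g, fun hc => (hordconj _ _ hc).trans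
      ((Subgroup.orderOf_coe a).trans ha)⟩)]
    omega
  · intro y hy
    have h1 := hcls y 7 (by rw [CfsgLib.Order168.centralizer7 h hy, Nat.card_zpowers, hy])
    refine ⟨by omega, fun hc => ?_⟩
    obtain ⟨c, hc⟩ := isConj_iff.1 hc
    have hc2 : c * c * y = y * (c * c) := by
      rw [← mul_inv_eq_iff_eq_mul, show c * c * y * (c * c)⁻¹ = c * (c * y * c⁻¹) * c⁻¹ by group, hc,
        ← conj_inv, hc, inv_inv]
    obtain ⟨P, hle⟩ := (IsPGroup.of_card (n := 1) (by rw [Nat.card_zpowers, hy, pow_one]) :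
      IsPGroup 7 (Subgroup.zpowers y)).exists_le_sylow
    have hPe : Subgroup.zpowers y = (P : Subgroup G) := Subgroup.eq_of_le_of_card_ge hle
      (by rw [(CfsgLib.Order168.card_sylow7 h).1 P, Nat.card_zpowers, hy])
    have hcN : c ∈ Subgroup.normalizer ((P : Subgroup G) : Set G) := by
      rw [← hPe, Subgroup.mem_normalizer_iff_map_conj_eq, MonoidHom.map_zpowers,
        show ((MulAut.conj c : MulAut G) : G →* G) y = y⁻¹ from hc, Subgroup.zpowers_inv]
    have hNc : Nat.card (Subgroup.normalizer ((P : Subgroup G) : Set G)) = 21 := by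
      have h2 := Subgroup.index_mul_card (Subgroup.normalizer ((P : Subgroup G) : Set G))
      rw [show (Subgroup.normalizer ((P : Subgroup G) : Set G)).index = Nat.card (Sylow 7 G) from
        (Sylow.card_eq_index_normalizer P).symm, (CfsgLib.Order168.card_sylow7 h).2, h] at h2
      omega
    have hcy : c * y = y * c := by
      have hodd : c = (c * c) ^ 11 := by
        have h21 : c ^ 21 = 1 := orderOf_dvd_iff_pow_eq_one.1 (hNc ▸ Subgroup.orderOf_dvd_natCard _ hcN)
        rw [← sq, ← pow_mul]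
        show c = c ^ (21 + 1)
        rw [pow_succ, h21, one_mul]
      rw [hodd]
      exact ((show Commute (c * c) y from hc2).pow_left 11).eq
    have hyy : y = y⁻¹ := by rw [← hc, hcy, mul_inv_cancel_right]
    have := Nat.le_of_dvd (by norm_num) (hy ▸ orderOf_dvd_of_pow_eq_one (x := y) (n := 2)
      (by rw [sq]; nth_rewrite 2 [hyy]; rw [mul_inv_cancel]))
    norm_num at this

end Cfsg.Agent.S1006
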