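import Cfsg.Statements.S1008
import Cfsg.Agent.Lib.SmallIso.Order168Max

set_option autoImplicit false
open Cfsg

namespace Cfsg.Agent.S1008

/-- In a simple group of order 168 every maximal subgroup is either isomorphic to the symmetric group of degree 4 or non-abelian of order 21; the maximal subgroups of order 21 form one conjugacy class and those isomorphic to the symmetric group of degree 4 form exactly two conjugacy classes. -/
theorem result {G : Type*} [Group G] [Finite G] [IsSimpleGroup G] (h : Nat.card G = 168) : (∀ M : Subgroup G, IsCoatom M → Nonempty (↥M ≃* Equiv.Perm (Fin 4)) ∨ (Nat.card ↥M = 21 ∧ ¬ IsMulCommutative ↥M)) ∧ (∀ M M' : Subgroup G, IsCoatom M → IsCoatom M' → Nat.card ↥M = 21 → Nat.card ↥M' = 21 → ∃ g : G, M' = M.map (MulAut.conj g).toMonoidHom) ∧ ∃ M₁ M₂ : Subgroup G, IsCoatom M₁ ∧ IsCoatom M₂ ∧ Nonempty (↥M₁ ≃* Equiv.Perm (Fin 4)) ∧ Nonempty (↥M₂ ≃* Equiv.Perm (Fin 4)) ∧ (∀ g : G, M₂ ≠ M₁.map (MulAut.conj g).toMonoidHom) ∧ ∀ M : Subgroup G, IsCoatom M → Nonempty (↥M ≃* Equiv.Perm (Fin 4)) → ∃ g : G, M = M₁.map (MulAut.conj g).toMonoidHom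 ∨ M = M₂.map (MulAut.conj g).toMonoidHom := by
      classical
      haveI : Fact (Nat.Prime 2) := ⟨Nat.prime_two⟩
      haveI : Fact (Nat.Prime 7) := ⟨by norm_num⟩
      have h21 : ∀ M : Subgroup G, IsCoatom M → Nat.card M = 21 →
          ∃ S : Sylow 7 G, M = Subgroup.normalizer ((S : Subgroup G) : Set G) := by
        intro M hM hc
        have hN : ∀ S : Sylow 7 M, (S : Subgroup M).Normal := fun S => by
          rw [← Subgroup.normalizer_eq_top_iff, ← Subgroup.index_eq_one]
          refine (Sylow.card_eq_index_normalizer S).symm.trans ?_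
          have h1 : Nat.card (Sylow 7 M) ∣ 21 := hc ▸ (Sylow.card_dvd_index S).trans (Subgroup.index_dvd_card _)
          have h2 : Nat.card (Sylow 7 M) % 7 = 1 := card_sylow_modEq_one 7 M
          have := Nat.le_of_dvd (by norm_num) h1
          generalize Nat.card (Sylow 7 M) = n at h1 h2 this ⊢
          interval_cases n <;> omega
        obtain ⟨P, hP, hb, -, hMP⟩ := CfsgLib.Order168Sub.normal_sylow_eq h hM (p := 7) (by rw [hc]; norm_num) hN
        obtain ⟨S, hS⟩ := hP.exists_le_sylow
        refine ⟨S, ?_⟩
        rw [hMP, Subgroup.eq_of_le_of_card_ge hS (by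
          rw [(CfsgLib.Order168.card_sylow7 h).1 S]
          obtain ⟨n, hn⟩ := hP.exists_card_eq
          rw [hn]
          rcases n with _ | n
          · exact absurd (Subgroup.card_eq_one.1 (hn.trans (pow_zero 7))) hb
          · exact Nat.le_self_pow (by omega) 7)]
      refine ⟨fun M hM => ?_, fun M M' hM hM' hc hc' => ?_, ?_⟩
      · rcases CfsgLib.Order168Sub.coatom_card h hM with hc | hc
        · refine Or.inr ⟨hc, fun hcomm => ?_⟩
          obtain ⟨y, hy⟩ := exists_prime_orderOf_dvd_card' (G := M) 7 (by rw [hc]; norm_num)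
          have hle : M ≤ Subgroup.zpowers (y : G) := by
            rw [← CfsgLib.Order168.centralizer7 h (show orderOf (y : G) = 7 by rw [Subgroup.orderOf_coe, hy])]
            exact fun m hm => Subgroup.mem_centralizer_singleton_iff.2 (congrArg Subtype.val (hcomm.is_comm.comm ⟨m, hm⟩ y))
          have := Subgroup.card_le_of_le hle
          rw [Nat.card_zpowers, Subgroup.orderOf_coe, hy, hc] at this
          omega
        · exact Or.inl (CfsgLib.Order168Sub.iso_S4 h hc)
      · obtain ⟨S, rfl⟩ := h21 M hM hc
        obtain ⟨S', rfl⟩ := h21 M' hM' hc'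
        obtain ⟨g, rfl⟩ := MulAction.exists_smul_eq G S S'
        exact ⟨g, by rw [CfsgLib.Order168Sub.conj_normalizer h, Sylow.coe_subgroup_smul]; rfl⟩
      · obtain ⟨T⟩ := (inferInstance : Nonempty (Sylow 2 G))
        obtain ⟨U, W, hU, hW, hne, hUT, hWT, hall, -, -⟩ := CfsgLib.Order168Sub.klein_two h T
        have hU24 := CfsgLib.Order168Sub.klein_normalizer h hU
        have hW24 := CfsgLib.Order168Sub.klein_normalizer h hW
        refine ⟨Subgroup.normalizer (U : Set G), Subgroup.normalizer (W : Set G), CfsgLib.Order168Sub.coatom_of_24 h hU24,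
          CfsgLib.Order168Sub.coatom_of_24 h hW24, CfsgLib.Order168Sub.iso_S4 h hU24, CfsgLib.Order168Sub.iso_S4 h hW24,
          fun g e => ?_, fun M hM hiso => ?_⟩
        · rw [CfsgLib.Order168Sub.conj_normalizer h] at e
          exact CfsgLib.Order168Sub.not_conj h T hU hW hUT hWT hne g
            (CfsgLib.Order168Sub.klein_unique h (CfsgLib.Order168Sub.conj_klein h hU g) hW e.symm)
        · obtain ⟨e₁⟩ := hiso
          obtain ⟨e₂⟩ := CfsgLib.Order168Sub.iso_S4 h hU24
          let e := e₁.trans e₂.symm
          let V : Subgroup G := ((U.subgroupOf (Subgroup.normalizer (U : Set G))).map e.symm.toMonoidHom).map M.subtype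
          have eV : U ≃* V := (Subgroup.subgroupOfEquivOfLe Subgroup.le_normalizer).symm.trans
            ((Subgroup.equivMapOfInjective _ e.symm.toMonoidHom e.symm.injective).trans
              (Subgroup.equivMapOfInjective _ M.subtype M.subtype_injective))
          haveI := hU
          have hV : IsKleinFour V := ⟨by rw [← Nat.card_congr eV.toEquiv, IsKleinFour.card_four],
            by rw [← Monoid.exponent_eq_of_mulEquiv eV, IsKleinFour.exponent_two]⟩
          have hMN : M ≤ Subgroup.normalizer (V : Set G) := by
            intro m hm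
            haveI : (U.subgroupOf (Subgroup.normalizer (U : Set G))).Normal := Subgroup.normal_in_normalizer
            have hn : ((U.subgroupOf (Subgroup.normalizer (U : Set G))).map e.symm.toMonoidHom).Normal :=
              Subgroup.Normal.map inferInstance _ e.symm.surjective
            rw [Subgroup.mem_normalizer_iff_map_conj_eq]
            show V.map ((MulAut.conj m : G ≃* G) : G →* G) = V
            simp only [V, Subgroup.map_map _ M.subtype]
            rw [Subgroup.map_map, ← MonoidHom.comp_assoc,
              show ((MulAut.conj m : G ≃* G) : G →* G).comp M.subtype = M.subtype.comp ((MulAut.conj (⟨m, hm⟩ : M) : M ≃* M) : M →* M) by ext; simp,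
              MonoidHom.comp_assoc, ← Subgroup.map_map, ← Subgroup.map_map, ← Subgroup.map_map]
            congr 1
            exact Subgroup.mem_normalizer_iff_map_conj_eq.1 (Subgroup.normalizer_eq_top_iff.2 hn ▸ Subgroup.mem_top _)
          have hMeq : M = Subgroup.normalizer (V : Set G) := by
            refine ((hM.le_iff.1 hMN).resolve_left ?_).symm
            exact (CfsgLib.Order168Sub.coatom_of_24 h (CfsgLib.Order168Sub.klein_normalizer h hV)).1
          have hV4 : Nat.card V = 4 := hV.card_four
          obtain ⟨S, hVS⟩ := (IsPGroup.of_card (n := 2) (by rw [hV4]; rfl) : IsPGroup 2 V).exists_le_sylow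
          obtain ⟨g, hg⟩ := MulAction.exists_smul_eq G S T
          have hle : V.map (MulAut.conj g).toMonoidHom ≤ (T : Subgroup G) := by
            rw [← hg, Sylow.coe_subgroup_smul]; exact Subgroup.map_mono hVS
          refine ⟨g⁻¹, ?_⟩
          rcases hall _ (CfsgLib.Order168Sub.conj_klein h hV g) hle with e' | e'
          · left
            rw [hMeq, ← e', CfsgLib.Order168Sub.conj_normalizer h, Subgroup.map_map]
            congr
            ext; simp [mul_assoc]
          · right
            rw [hMeq, ← e', CfsgLib.Order168Sub.conj_normalizer h, Subgroup.map_map]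
            congr
            ext; simp [mul_assoc]

end Cfsg.Agent.S1008
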