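import Cfsg.Statements.S1009
import Mathlib

set_option autoImplicit false
open Cfsg

namespace Cfsg.Agent.S1009

open scoped Pointwise

/-- Brodkey's Theorem: if a finite group has abelian Sylow p-subgroups, then there are two Sylow p-subgroups whose intersection equals the intersection of all Sylow p-subgroups. -/
theorem result {G : Type*} [Group G] [Finite G] (p : ℕ) [Fact p.Prime] (hab : ∀ P : Sylow p G, IsMulCommutative ↥(P : Subgroup G)) : ∃ P Q : Sylow p G, (P : Subgroup G) ⊓ (Q : Subgroup G) = ⨅ R : Sylow p G, (R : Subgroup G) := by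
  obtain ⟨⟨P, Q⟩, hmin⟩ := Finite.exists_min
    (fun PQ : Sylow p G × Sylow p G => Nat.card ((PQ.1 : Subgroup G) ⊓ PQ.2 : Subgroup G))
  refine ⟨P, Q, le_antisymm (le_iInf fun R => ?_) (le_inf (iInf_le _ P) (iInf_le _ Q))⟩
  set D := (P : Subgroup G) ⊓ Q with hD
  set C := Subgroup.centralizer (D : Set G) with hC
  have hPC : (P : Subgroup G) ≤ C := fun x hx => Subgroup.mem_centralizer_iff.2 fun d hd => by
    haveI := hab P
    exact congrArg Subtype.val (mul_comm' (⟨d, hd.1⟩ : (P : Subgroup G)) ⟨x, hx⟩)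
  have hQC : (Q : Subgroup G) ≤ C := fun x hx => Subgroup.mem_centralizer_iff.2 fun d hd => by
    haveI := hab Q
    exact congrArg Subtype.val (mul_comm' (⟨d, hd.2⟩ : (Q : Subgroup G)) ⟨x, hx⟩)
  have hRC : IsPGroup p ((R : Subgroup G).subgroupOf C) := R.2.comap_subtype
  obtain ⟨S, hS⟩ := hRC.exists_le_sylow
  obtain ⟨c, hc⟩ := MulAction.exists_smul_eq C (P.subtype hPC) S
  have key : ∀ d ∈ D, (c : G) * d * (c : G)⁻¹ = d := fun d hd => by
    rw [← Subgroup.mem_centralizer_iff.1 c.2 d hd, mul_inv_cancel_right]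
  let P' : Sylow p G := (c : G) • P
  let Q' : Sylow p G := (c : G) • Q
  have hD' : (P' : Subgroup G) ⊓ Q' = D := by
    ext x
    rw [Subgroup.mem_inf, hD, Subgroup.mem_inf, Sylow.coe_subgroup_smul, Sylow.coe_subgroup_smul,
      Subgroup.mem_pointwise_smul_iff_inv_smul_mem, Subgroup.mem_pointwise_smul_iff_inv_smul_mem]
    simp only [MulAut.smul_def, MulAut.inv_def, MulAut.conj_symm_apply]
    constructor
    · intro hx
      have := key _ (show (c : G)⁻¹ * x * c ∈ D from hx)
      rw [show (c : G) * ((c : G)⁻¹ * x * c) * (c : G)⁻¹ = x by group] at this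
      rw [← this] at hx
      exact hx
    · intro hx
      have := key x hx
      rwa [show (c : G)⁻¹ * x * c = x from by
        nth_rewrite 1 [← this]; group]
  have hle : (R : Subgroup G) ⊓ Q' ≤ P' := by
    rintro x ⟨hxR, hxQ⟩
    have hxC : x ∈ C := by
      replace hxQ : x ∈ (((c : G) • Q : Sylow p G) : Subgroup G) := hxQ
      rw [Sylow.coe_subgroup_smul, Subgroup.mem_pointwise_smul_iff_inv_smul_mem] at hxQ
      have := hQC hxQ
      simp only [MulAut.smul_def, MulAut.inv_def, MulAut.conj_symm_apply] at this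
      simpa [mul_assoc] using mul_mem (mul_mem c.2 this) (inv_mem c.2)
    have hxS : (⟨x, hxC⟩ : C) ∈ (S : Subgroup C) := hS hxR
    rw [← hc, Sylow.coe_subgroup_smul, Subgroup.mem_pointwise_smul_iff_inv_smul_mem] at hxS
    show x ∈ (((c : G) • P : Sylow p G) : Subgroup G)
    rw [Sylow.coe_subgroup_smul, Subgroup.mem_pointwise_smul_iff_inv_smul_mem]
    exact hxS
  have hsub : (R : Subgroup G) ⊓ Q' ≤ D := hD' ▸ le_inf hle inf_le_right
  have heq : (R : Subgroup G) ⊓ Q' = D := Subgroup.eq_of_le_of_card_ge hsub (hmin ⟨R, Q'⟩)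
  exact heq ▸ inf_le_left

end Cfsg.Agent.S1009
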