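import Cfsg.Statements.S1013
import Mathlib
import Cfsg.Agent.Lib.Perm.JordanNormal

set_option autoImplicit false
open Cfsg

namespace Cfsg.Agent.S1013

/-- Let G be a transitive permutation group of prime degree p having more than one Sylow p-subgroup, and suppose a Sylow p-subgroup P has prime index in its normalizer. Then G is simple. -/
theorem result {α : Type*} [Fintype α] [DecidableEq α] {p : ℕ} [Fact p.Prime] (hα : Fintype.card α = p) (G : Subgroup (Equiv.Perm α)) [MulAction.IsPretransitive ↥G α] (P : Sylow p ↥G) (hn : 1 < Nat.card (Sylow p ↥G)) (ht : (((P : Subgroup ↥G).subgroupOf (Subgroup.normalizer ((P : Subgroup ↥G) : Set ↥G))).index).Prime) : IsSimpleGroup ↥G := by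
  classical
  have hp : p.Prime := Fact.out
  have hα' : Nat.card α = p := by rw [Nat.card_eq_fintype_card, hα]
  haveI : Nonempty α := Fintype.card_pos_iff.1 (hα ▸ hp.pos)
  obtain ⟨a⟩ := ‹Nonempty α›
  haveI : MulAction.IsPreprimitive ↥G α := MulAction.IsPreprimitive.of_prime_card (by rw [hα']; exact hp)
  -- the Sylow subgroup has order `p`
  have hdvd : p ∣ Nat.card G := by
    rw [← hα', ← MulAction.index_stabilizer_of_transitive ↥G a]
    exact (MulAction.stabilizer ↥G a).index_dvd_card
  have hcard : Nat.card (P : Subgroup G) = p := by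
    rw [P.card_eq_multiplicity]
    have h2 : ¬ p ^ 2 ∣ Nat.card G := fun h => by
      have h3 : p ^ 2 ∣ Nat.card (Equiv.Perm α) := h.trans (Subgroup.card_subgroup_dvd_card G)
      rw [Nat.card_perm, hα', ← Nat.mul_factorial_pred hp.ne_zero, pow_two, Nat.mul_dvd_mul_iff_left hp.pos] at h3
      have := hp.dvd_factorial.1 h3
      have := hp.pos
      omega
    have h1 : (Nat.card G).factorization p = 1 := by
      have a1 := hp.factorization_pos_of_dvd Nat.card_pos.ne' hdvd
      by_contra hne
      exact h2 ((hp.pow_dvd_iff_le_factorization Nat.card_pos.ne').2 (by omega))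
    rw [h1, pow_one]
  haveI hPne : Nontrivial (P : Subgroup G) := Finite.one_lt_card_iff_nontrivial.1 (by rw [hcard]; exact hp.one_lt)
  have htrans : ∀ N : Subgroup G, N.Normal → N ≠ ⊥ → MulAction.IsPretransitive N α := by
    intro N hN hne
    haveI := hN
    exact CfsgLib.Perm.isPretransitive_of_normal hne
  have hdvdN : ∀ N : Subgroup G, N.Normal → N ≠ ⊥ → p ∣ Nat.card N := by
    intro N hN hne
    haveI := htrans N hN hne
    rw [← hα', ← MulAction.index_stabilizer_of_transitive N a]
    exact (MulAction.stabilizer N a).index_dvd_card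
  -- the centralizer of `P` is `P`
  have hC : Subgroup.centralizer ((P : Subgroup G) : Set G) ≤ (P : Subgroup G) := by
    haveI hPc : IsCyclic (P : Subgroup G) := isCyclic_of_prime_card hcard
    have hPle : (P : Subgroup G) ≤ Subgroup.centralizer ((P : Subgroup G) : Set G) := fun x hx =>
      Subgroup.mem_centralizer_iff.2 fun y hy =>
        congrArg Subtype.val (IsMulCommutative.is_comm.comm (⟨y, hy⟩ : (P : Subgroup G)) ⟨x, hx⟩)
    have horb : ∀ b : α, ∃ x ∈ (P : Subgroup G), x • a = b := by
      have hfix : ¬ ∀ x ∈ (P : Subgroup G), x • a = a := by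
        intro h
        have hle : (P : Subgroup G) ≤ MulAction.stabilizer G a := h
        have := Subgroup.index_dvd_of_le hle
        rw [MulAction.index_stabilizer_of_transitive, hα'] at this
        exact P.not_dvd_index this
      obtain ⟨n, hn'⟩ := P.2.card_orbit a
      have hle' : Nat.card (MulAction.orbit (P : Subgroup G) a) ≤ Nat.card α := Nat.card_le_card_of_injective Subtype.val Subtype.val_injective
      rw [hn', hα'] at hle'
      have hn1 : n ≤ 1 := (Nat.pow_le_pow_iff_right hp.one_lt).1 (by rwa [pow_one])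
      have hor : Nat.card (MulAction.orbit (P : Subgroup G) a) = 1 ∨ Nat.card (MulAction.orbit (P : Subgroup G) a) = p := by
        interval_cases n <;> simp_all
      rcases hor with h | h
      · exfalso
        apply hfix
        intro x hx
        obtain ⟨hs, -⟩ := Nat.card_eq_one_iff_unique.1 h
        exact congrArg Subtype.val (hs.elim ⟨_, MulAction.mem_orbit a (⟨x, hx⟩ : (P : Subgroup G))⟩ ⟨a, MulAction.mem_orbit_self a⟩)
      · intro b
        have heq : MulAction.orbit (P : Subgroup G) a = Set.univ :=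
          Set.eq_of_subset_of_ncard_le (Set.subset_univ _) (by rw [Set.ncard_univ, hα', ← Nat.card_coe_set_eq, h])
        obtain ⟨x, hx⟩ := (heq ▸ Set.mem_univ b : b ∈ MulAction.orbit (P : Subgroup G) a)
        exact ⟨x, x.2, hx⟩
    have hle : Nat.card (Subgroup.centralizer ((P : Subgroup G) : Set G)) ≤ p := by
      refine le_of_le_of_eq ?_ hα'
      refine Nat.card_le_card_of_injective (fun c => (c : G) • a) fun c d h => ?_
      refine Subtype.ext (Subtype.ext (Equiv.ext fun b => ?_))
      obtain ⟨x, hx, rfl⟩ := horb b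
      show (c : G) • x • a = (d : G) • x • a
      rw [← mul_smul, ← mul_smul, ← Subgroup.mem_centralizer_iff.1 c.2 x hx, ← Subgroup.mem_centralizer_iff.1 d.2 x hx, mul_smul, mul_smul]
      exact congrArg _ h
    exact (Subgroup.eq_of_le_of_card_ge hPle (hle.trans hcard.ge)).ge
  have hne : ∀ Q : Sylow p G, (Q : Subgroup G) ≠ ⊥ := fun Q h => by
    have := Q.card_eq_multiplicity
    rw [← P.card_eq_multiplicity, hcard, h, Subgroup.card_bot] at this
    exact hp.ne_one this.symm
  haveI : Nontrivial G := by
    obtain ⟨x, y, h⟩ := exists_pair_ne (P : Subgroup G)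
    exact ⟨x, y, fun e => h (Subtype.ext e)⟩
  refine ⟨fun N hN => or_iff_not_imp_left.2 fun hNb => ?_⟩
  haveI := hN
  -- `N` contains every Sylow subgroup
  have hPN : (P : Subgroup G) ≤ N := by
    obtain ⟨Q₀⟩ : Nonempty (Sylow p N) := inferInstance
    obtain ⟨x, hx⟩ := exists_prime_orderOf_dvd_card' (G := N) p (hdvdN N hN hNb)
    have hzp : IsPGroup p (Subgroup.zpowers (x : G)) :=
      IsPGroup.of_card (n := 1) (by rw [Nat.card_zpowers, Subgroup.orderOf_coe, hx, pow_one])
    obtain ⟨Q, hQ⟩ := hzp.exists_le_sylow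
    have hQe : Subgroup.zpowers (x : G) = (Q : Subgroup G) := Subgroup.eq_of_le_of_card_ge hQ (by
      rw [Q.card_eq_multiplicity, ← P.card_eq_multiplicity, hcard, Nat.card_zpowers, Subgroup.orderOf_coe, hx])
    obtain ⟨g, hg⟩ := MulAction.exists_smul_eq G Q P
    rw [← hg, Sylow.coe_subgroup_smul, ← hQe]
    rintro _ ⟨y, hy, rfl⟩
    exact hN.conj_mem _ ((Subgroup.zpowers_le.2 x.2) hy) _
  let PN : Sylow p N := P.subtype hPN
  have hfr := Sylow.normalizer_sup_eq_top' P hPN
  -- `N` contains the normalizer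
  let NP := Subgroup.normalizer ((P : Subgroup G) : Set G)
  have hPNP : (P : Subgroup G) ≤ NP := Subgroup.le_normalizer
  have hmid : N ⊓ NP = (P : Subgroup G) ∨ NP ≤ N := by
    have h0 : ((P : Subgroup G).subgroupOf NP).index = (P : Subgroup G).relIndex (N ⊓ NP) * (N ⊓ NP).relIndex NP :=
      (Subgroup.relIndex_mul_relIndex _ _ _ (le_inf hPN hPNP) inf_le_right).symm
    rcases (ht.eq_one_or_self_of_dvd _ (Dvd.intro_left _ h0.symm : (N ⊓ NP).relIndex NP ∣ _)) with h | h
    · right
      exact (Subgroup.relIndex_eq_one.1 h).trans inf_le_left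
    · left
      rw [h] at h0
      have h1 : (P : Subgroup G).relIndex (N ⊓ NP) = 1 := by
        have h2 : 1 * ((P : Subgroup G).subgroupOf NP).index = (P : Subgroup G).relIndex (N ⊓ NP) * ((P : Subgroup G).subgroupOf NP).index := by
          rw [one_mul]; exact h0
        exact (Nat.eq_of_mul_eq_mul_right ht.pos h2).symm
      exact le_antisymm (Subgroup.relIndex_eq_one.1 h1) (le_inf hPN hPNP)
  rcases hmid with hmid | hmid
  swap
  · exact top_le_iff.1 (hfr ▸ sup_le hmid le_rfl)
  exfalso
  -- Burnside transfer in `N`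
  have hnc : Subgroup.normalizer ((PN : Subgroup N) : Set N) ≤ Subgroup.centralizer ((PN : Subgroup N) : Set N) := by
    intro x hx
    have hxP : (x : G) ∈ (P : Subgroup G) := by
      rw [← hmid]
      refine ⟨x.2, Subgroup.mem_normalizer_iff.2 fun y => ?_⟩
      have h := Subgroup.mem_normalizer_iff.1 hx
      constructor
      · intro hy; exact (h ⟨y, hPN hy⟩).1 hy
      · intro hy
        have hy' : y ∈ N := by
          have := hN.conj_mem _ (hPN hy) (x : G)⁻¹
          simpa [mul_assoc] using this
        exact (h ⟨y, hy'⟩).2 hy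
    haveI hPc : IsCyclic (P : Subgroup G) := isCyclic_of_prime_card hcard
    exact Subgroup.mem_centralizer_iff.2 fun y hy => Subtype.ext (congrArg (fun w : (P : Subgroup G) => (w : G)) (IsMulCommutative.is_comm.comm (⟨_, hy⟩ : (P : Subgroup G)) ⟨x, hxP⟩) :)
  have hK := MonoidHom.ker_transferSylow_isComplement' PN hnc
  have hKn : ¬ p ∣ Nat.card (MonoidHom.transferSylow PN hnc).ker := MonoidHom.not_dvd_card_ker_transferSylow PN hnc
  -- the kernel consists of all p'-elements, hence is normal in `G`
  let K : Subgroup G := (MonoidHom.transferSylow PN hnc).ker.map N.subtype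
  have hKchar : ∀ x : N, x ∈ (MonoidHom.transferSylow PN hnc).ker ↔ ¬ p ∣ orderOf x := fun x => by
    refine ⟨fun h hd => hKn (hd.trans (by rw [← Subgroup.orderOf_mk x h]; exact orderOf_dvd_natCard _)), fun h => ?_⟩
    rw [MonoidHom.mem_ker, ← orderOf_eq_one_iff]
    obtain ⟨k, hk⟩ := IsPGroup.iff_orderOf.1 PN.2 (MonoidHom.transferSylow PN hnc x)
    exact Nat.eq_one_of_dvd_coprimes ((hp.coprime_iff_not_dvd.2 h).pow_left k) (hk ▸ dvd_rfl) (orderOf_map_dvd _ x)
  have hKnormal : K.Normal := by
    refine ⟨?_⟩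
    rintro _ ⟨x, hx, rfl⟩ g
    refine ⟨⟨g * x * g⁻¹, hN.conj_mem _ x.2 g⟩, (hKchar _).2 ?_, rfl⟩
    rw [← Subgroup.orderOf_coe]
    show ¬ p ∣ orderOf (g * (x : G) * g⁻¹)
    rw [show g * (x : G) * g⁻¹ = MulAut.conj g (x : G) from rfl, MulEquiv.orderOf_eq, Subgroup.orderOf_coe]
    exact (hKchar x).1 hx
  have hKb : K = ⊥ := by
    by_contra hb
    apply hKn
    have := hdvdN K hKnormal hb
    rwa [Subgroup.card_map_of_injective N.subtype_injective] at this
  have hker : (MonoidHom.transferSylow PN hnc).ker = ⊥ := by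
    rw [eq_bot_iff]; intro x hx
    have : (x : G) ∈ K := ⟨x, hx, rfl⟩
    rw [hKb, Subgroup.mem_bot] at this
    exact Subgroup.mem_bot.2 (Subtype.ext this)
  have hcm := hK.card_mul
  rw [hker, Subgroup.card_bot, one_mul] at hcm
  have hNP : N = (P : Subgroup G) := (Subgroup.eq_of_le_of_card_ge hPN (by
    rw [← hcm]
    exact (Nat.card_congr (Subgroup.subgroupOfEquivOfLe hPN).toEquiv).le)).symm
  -- then `P` is normal
  haveI : (P : Subgroup G).Normal := hNP ▸ hN
  letI := Sylow.unique_of_normal P inferInstance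
  simp at hn

end Cfsg.Agent.S1013
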