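import Cfsg.Statements.S1018
import Mathlib

set_option autoImplicit false
open Cfsg

namespace Cfsg.Agent.S1018

/-- Let P be a Sylow p-subgroup of order p of a finite group G, and consider the action of G on the left cosets of the normalizer N of P. Then every element of order p fixes exactly one coset, and an element of N that does not centralize P fixes at most as many cosets as there are orbits of P. -/
theorem result {G : Type*} [Group G] [Finite G] (p : ℕ) [Fact p.Prime] (P : Sylow p G) (hP : Nat.card ↥(P : Subgroup G) = p) : (∀ y : G, orderOf y = p → Nat.card (MulAction.fixedBy (G ⧸ Subgroup.normalizer ((P : Subgroup G) : Set G)) y) = 1) ∧ ∀ x : G, x ∈ Subgroup.normalizer ((P : Subgroup G) : Set G) → x ∉ Subgroup.centralizer ((P : Subgroup G) : Set G) → Nat.card (MulAction.fixedBy (G ⧸ Subgroup.normalizer ((P : Subgroup G) : Set G)) x) ≤ Nat.card (MulAction.orbitRel.Quotient ↥(P : Subgroup G) (G ⧸ Subgroup.normalizer ((P : Subgroup G) : Set G))) := by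
  classical
  have hp : p.Prime := Fact.out
  set N := Subgroup.normalizer ((P : Subgroup G) : Set G)
  have hfix : ∀ (y g : G), y • (QuotientGroup.mk g : G ⧸ N) = QuotientGroup.mk g ↔ g⁻¹ * y * g ∈ N := fun y g => by
    rw [MulAction.Quotient.smul_mk, smul_eq_mul, eq_comm, QuotientGroup.eq, mul_assoc]
  have hord : ∀ u ∈ (P : Subgroup G), u ≠ 1 → orderOf u = p ∧ Subgroup.zpowers u = (P : Subgroup G) := fun u hu hu1 => by
    have ho : orderOf u = p := by
      have := Subgroup.orderOf_dvd_natCard _ hu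
      rw [hP] at this
      exact ((Nat.dvd_prime hp).1 this).resolve_left fun h => hu1 (orderOf_eq_one_iff.1 h)
    refine ⟨ho, Subgroup.eq_of_le_of_card_ge (Subgroup.zpowers_le.2 hu) ?_⟩
    rw [Nat.card_zpowers, ho, hP]
  refine ⟨fun y hy => ?_, fun x hx hxC => ?_⟩
  · have hyp : IsPGroup p (Subgroup.zpowers y) := IsPGroup.of_card (n := 1) (by rw [Nat.card_zpowers, hy, pow_one])
    obtain ⟨R, hR⟩ := hyp.exists_le_sylow
    obtain ⟨g, rfl⟩ := MulAction.exists_smul_eq G P R
    have hy' : y ∈ ((g • P : Sylow p G) : Subgroup G) := hR (Subgroup.mem_zpowers y)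
    obtain ⟨w, hw, hwy⟩ := hy'
    have hwy' : g * w * g⁻¹ = y := hwy
    rw [Nat.card_eq_one_iff_unique]
    refine ⟨⟨fun a b => ?_⟩, ⟨⟨QuotientGroup.mk g, (hfix y g).2 (Subgroup.le_normalizer (by rw [← hwy', show g⁻¹ * (g * w * g⁻¹) * g = w by group]; exact hw))⟩⟩⟩
    suffices key : ∀ a : MulAction.fixedBy (G ⧸ N) y, (a : G ⧸ N) = QuotientGroup.mk g from Subtype.ext ((key a).trans (key b).symm)
    rintro ⟨a, ha⟩
    obtain ⟨c, rfl⟩ := QuotientGroup.mk_surjective a
    have hc : c⁻¹ * y * c ∈ N := (hfix y c).1 ha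
    have hcp : IsPGroup p (Subgroup.zpowers (c⁻¹ * y * c)) := IsPGroup.of_card (n := 1) (by
      rw [Nat.card_zpowers, pow_one]
      have := MulEquiv.orderOf_eq (MulAut.conj c⁻¹) y
      rw [MulAut.conj_apply, inv_inv] at this
      rw [this, hy])
    have hcP : c⁻¹ * y * c ∈ (P : Subgroup G) := ((hcp.inf_normalizer_sylow P).le ⟨Subgroup.mem_zpowers _, hc⟩).2
    have hy1 : y ≠ 1 := fun h => hp.ne_one (by rw [← hy, h, orderOf_one])
    show (QuotientGroup.mk c : G ⧸ N) = QuotientGroup.mk g
    rw [QuotientGroup.eq, Subgroup.mem_normalizer_iff]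
    have hwP := (hord w hw (fun h => hy1 (by rw [← hwy', h]; group))).2
    have hcP2 := (hord _ hcP (fun h => hy1 (by rw [show y = c * (c⁻¹ * y * c) * c⁻¹ by group, h]; group))).2
    have hmap : (P : Subgroup G).map (MulAut.conj (c⁻¹ * g)).toMonoidHom = P := by
      conv_lhs => rw [← hwP]
      rw [MonoidHom.map_zpowers]
      conv_rhs => rw [← hcP2]
      congr 1
      show (c⁻¹ * g) * w * (c⁻¹ * g)⁻¹ = _
      rw [← hwy']; group
    intro u
    constructor
    · intro hu
      rw [← SetLike.mem_coe, ← hmap]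
      exact ⟨u, hu, rfl⟩
    · intro hu
      rw [← SetLike.mem_coe, ← hmap] at hu
      obtain ⟨v, hv, hve⟩ := hu
      have : v = u := mul_left_cancel (mul_right_cancel (hve :))
      exact this ▸ hv
  · refine Nat.card_le_card_of_injective (fun a => Quotient.mk (MulAction.orbitRel ↥(P : Subgroup G) (G ⧸ N)) (a : G ⧸ N)) ?_
    rintro ⟨a, ha⟩ ⟨b, hb⟩ hab
    obtain ⟨⟨u, hu⟩, rfl⟩ := Quotient.exact hab
    refine Subtype.ext ?_
    show u • b = b
    change x • b = b at hb
    change x • (u • b) = u • b at ha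
    have hxu : x * u * x⁻¹ ∈ (P : Subgroup G) := (Subgroup.mem_normalizer_iff.1 hx u).1 hu
    have hw : u⁻¹ * (x * u * x⁻¹) ∈ (P : Subgroup G) := Subgroup.mul_mem _ (Subgroup.inv_mem _ hu) hxu
    have hwb : (u⁻¹ * (x * u * x⁻¹)) • b = b := by
      rw [mul_smul, mul_smul, mul_smul]
      conv_lhs => rw [← hb, inv_smul_smul, ha, inv_smul_smul]
    by_cases hw1 : u⁻¹ * (x * u * x⁻¹) = 1
    · have hxu' : u = x * u * x⁻¹ := inv_mul_eq_one.1 hw1
      rcases eq_or_ne u 1 with rfl | hu1
      · exact one_smul G b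
      · refine absurd (Subgroup.mem_centralizer_iff.2 fun v hv => ?_) hxC
        rw [SetLike.mem_coe, ← (hord u hu hu1).2] at hv
        obtain ⟨i, rfl⟩ := hv
        have hcomm : Commute x u := mul_inv_eq_iff_eq_mul.1 hxu'.symm
        exact (hcomm.zpow_right i).eq.symm
    · have hu' : u ∈ MulAction.stabilizer G b := by
        have : (P : Subgroup G) ≤ MulAction.stabilizer G b := by
          rw [← (hord _ hw hw1).2]; exact Subgroup.zpowers_le.2 hwb
        exact this hu
      exact hu'

end Cfsg.Agent.S1018
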