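import Cfsg.Statements.S1014
import Mathlib
import Cfsg.Agent.S1018

set_option autoImplicit false
open Cfsg

namespace Cfsg.Agent.S1014

/-- No finite simple group has order 1104 = 2^4 * 3 * 23. -/
theorem result {G : Type*} [Group G] [Finite G] [IsSimpleGroup G] : Nat.card G ≠ 1104 := by
  classical
  intro hG
  haveI : Fact (Nat.Prime 23) := ⟨by norm_num⟩
  obtain ⟨P⟩ := (inferInstance : Nonempty (Sylow 23 G))
  obtain ⟨N, hN⟩ : ∃ N : Subgroup G, N = Subgroup.normalizer ((P : Subgroup G) : Set G) := ⟨_, rfl⟩
  have hPc : Nat.card (P : Subgroup G) = 23 := by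
    rw [P.card_eq_multiplicity, hG, show (1104 : ℕ) = 23 * 48 by norm_num, Nat.factorization_mul (by norm_num) (by norm_num),
      Finsupp.add_apply, (show Nat.Prime 23 by norm_num).factorization_self, Nat.factorization_eq_zero_of_not_dvd (by norm_num), add_zero, pow_one]
  have hPne : (P : Subgroup G) ≠ ⊥ := fun h => by rw [h, Subgroup.card_bot] at hPc; omega
  have hPtop : (P : Subgroup G) ≠ ⊤ := fun h => by rw [h, Subgroup.card_top, hG] at hPc; omega
  have hnn : N ≠ ⊤ := fun h => by
    rcases (Subgroup.normalizer_eq_top_iff.1 (hN ▸ h)).eq_bot_or_eq_top with h' | h'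
    exacts [hPne h', hPtop h']
  have h24 : N.index = 24 := by
    have h1 := card_sylow_modEq_one 23 G
    rw [P.card_eq_index_normalizer] at h1
    replace h1 : N.index ≡ 1 [MOD 23] := by rw [hN]; exact h1
    have h2 : N.index ∣ 48 := by
      have := Subgroup.index_dvd_of_le (Subgroup.le_normalizer (H := (P : Subgroup G)))
      rw [← hN] at this
      have h3 : (P : Subgroup G).index = 48 := by
        have := (P : Subgroup G).index_mul_card
        rw [hPc, hG] at this; omega
      rwa [h3] at this
    have h3 : N.index ≠ 1 := fun h => hnn (Subgroup.index_eq_one.1 h)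
    have h4 : N.index ≤ 48 := Nat.le_of_dvd (by norm_num) h2
    rw [Nat.ModEq] at h1
    change N.index % 23 = 1 % 23 at h1
    have : N.index = 24 ∨ N.index = 47 := by omega
    rcases this with h | h
    · exact h
    · rw [h] at h2; norm_num at h2
  have hNc : Nat.card N = 46 := by
    have := N.index_mul_card
    rw [h24, hG] at this; omega
  haveI : Fact (Nat.Prime 2) := ⟨Nat.prime_two⟩
  obtain ⟨⟨x, hxN⟩, hx2⟩ := exists_prime_orderOf_dvd_card' (G := N) 2 (by rw [hNc]; norm_num)
  rw [Subgroup.orderOf_mk] at hx2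
  by_cases hxC : x ∈ Subgroup.centralizer ((P : Subgroup G) : Set G)
  · -- Burnside
    have hle : N ≤ Subgroup.centralizer ((P : Subgroup G) : Set G) := by
      have hPC : (P : Subgroup G) ≤ Subgroup.centralizer ((P : Subgroup G) : Set G) := fun a ha => Subgroup.mem_centralizer_iff.2 fun b hb => by
        haveI : IsCyclic ↥(P : Subgroup G) := isCyclic_of_prime_card hPc
        letI := IsCyclic.commGroup (α := ↥(P : Subgroup G))
        exact congrArg Subtype.val (mul_comm (⟨b, hb⟩ : (P : Subgroup G)) ⟨a, ha⟩)
      have hle' : (P : Subgroup G) ⊔ Subgroup.zpowers x ≤ N := sup_le (hN ▸ Subgroup.le_normalizer) (Subgroup.zpowers_le.2 hxN)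
      have heq : (P : Subgroup G) ⊔ Subgroup.zpowers x = N := by
        refine Subgroup.eq_of_le_of_card_ge hle' ?_
        have h1 : 23 ∣ Nat.card ↥((P : Subgroup G) ⊔ Subgroup.zpowers x) := by
          exact hPc.symm.dvd.trans (Subgroup.card_dvd_of_le le_sup_left)
        have h2 : 2 ∣ Nat.card ↥((P : Subgroup G) ⊔ Subgroup.zpowers x) := by
          rw [← hx2, ← Nat.card_zpowers]; exact Subgroup.card_dvd_of_le le_sup_right
        have := Nat.le_of_dvd Nat.card_pos (Nat.Coprime.mul_dvd_of_dvd_of_dvd (by norm_num : Nat.Coprime 23 2) h1 h2)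
        omega
      rw [← heq]
      exact sup_le hPC (Subgroup.zpowers_le.2 hxC)
    rw [hN] at hle
    have hc := MonoidHom.ker_transferSylow_isComplement' P hle
    rcases (MonoidHom.normal_ker (MonoidHom.transferSylow P hle)).eq_bot_or_eq_top with h | h
    · rw [h] at hc; exact hPtop (Subgroup.isComplement'_bot_left.1 hc)
    · rw [h] at hc; exact hPne (Subgroup.isComplement'_top_left.1 hc)
  · -- an odd permutation
    haveI : Fintype G := Fintype.ofFinite G
    obtain ⟨h1, h2⟩ := Cfsg.Agent.S1018.result 23 P hPc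
    rw [← hN] at h1 h2
    have hx := h2 x hxN hxC
    have horb : Nat.card (MulAction.orbitRel.Quotient ↥(P : Subgroup G) (G ⧸ N)) = 2 := by
      haveI : Fintype ↥(P : Subgroup G) := Fintype.ofFinite _
      haveI : Fintype (G ⧸ N) := Fintype.ofFinite _
      haveI : Fintype (MulAction.orbitRel.Quotient ↥(P : Subgroup G) (G ⧸ N)) := Fintype.ofFinite _
      have hb := MulAction.sum_card_fixedBy_eq_card_orbits_mul_card_group ↥(P : Subgroup G) (G ⧸ N)
      rw [← Finset.add_sum_erase _ _ (Finset.mem_univ 1), Finset.sum_congr rfl (g := fun _ => 1) (fun y hy => ?_), Finset.sum_const, smul_eq_mul, mul_one,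
        Finset.card_erase_of_mem (Finset.mem_univ _), Finset.card_univ] at hb
      · simp only [← Nat.card_eq_fintype_card, hPc] at hb
        rw [show MulAction.fixedBy (G ⧸ N) (1 : ↥(P : Subgroup G)) = Set.univ by ext; simp, Nat.card_univ, ← Subgroup.index_eq_card, h24] at hb
        show Nat.card (Quotient (MulAction.orbitRel ↥(P : Subgroup G) (G ⧸ N))) = 2
        omega
      · rw [← Nat.card_eq_fintype_card]
        refine h1 (y : G) ?_
        have := Subgroup.orderOf_dvd_natCard _ y.2
        rw [hPc] at this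
        exact ((Nat.dvd_prime (by norm_num)).1 this).resolve_left fun h => (Finset.mem_erase.1 hy).1 (Subtype.ext (orderOf_eq_one_iff.1 h))
    rw [horb] at hx
    haveI : Fintype (G ⧸ N) := Fintype.ofFinite _
    let f := Equiv.Perm.sign.comp (MulAction.toPermHom G (G ⧸ N))
    set σ := MulAction.toPermHom G (G ⧸ N) x with hσ
    have hσ2 : σ ^ 2 = 1 := by rw [hσ, ← map_pow, ← hx2, pow_orderOf_eq_one, map_one]
    have hfix : Nat.card (MulAction.fixedBy (G ⧸ N) x) + σ.support.card = 24 := by
      rw [← h24, Subgroup.index_eq_card, Nat.card_eq_fintype_card (α := G ⧸ N), ← Finset.card_add_card_compl σ.support, add_comm]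
      congr 1
      rw [Nat.card_eq_fintype_card, Fintype.card_subtype]
      congr 1
      ext a
      simp [hσ, MulAction.mem_fixedBy]
    have hone : 1 ≤ Nat.card (MulAction.fixedBy (G ⧸ N) x) := by
      haveI : Nonempty (MulAction.fixedBy (G ⧸ N) x) := ⟨⟨QuotientGroup.mk 1, by
        rw [MulAction.mem_fixedBy, MulAction.Quotient.smul_mk, smul_eq_mul, mul_one, eq_comm, QuotientGroup.eq, inv_one, one_mul]
        exact hxN⟩⟩
      exact Nat.card_pos
    have hsum := Equiv.Perm.sum_cycleType σ
    have hmem : ∀ m ∈ σ.cycleType, m = 2 := fun m hm => by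
      have h := (Equiv.Perm.dvd_of_mem_cycleType hm).trans (orderOf_dvd_of_pow_eq_one hσ2)
      exact (Nat.prime_two.eq_one_or_self_of_dvd m h).resolve_left (by have := Equiv.Perm.two_le_of_mem_cycleType hm; omega)
    rw [Multiset.eq_replicate_card.2 hmem, Multiset.sum_replicate, smul_eq_mul] at hsum
    have hf : f x = -1 := by
      show Equiv.Perm.sign σ = -1
      rw [Equiv.Perm.sign_of_cycleType, Multiset.eq_replicate_card.2 hmem, Multiset.sum_replicate, Multiset.card_replicate, smul_eq_mul]
      exact Odd.neg_one_pow ⟨16, by omega⟩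
    rcases (MonoidHom.normal_ker f).eq_bot_or_eq_top with h | h
    · have := Nat.card_le_card_of_injective f ((MonoidHom.ker_eq_bot_iff f).1 h)
      rw [hG, Nat.card_eq_fintype_card, Fintype.card_units_int] at this
      omega
    · have : x ∈ f.ker := h ▸ Subgroup.mem_top x
      rw [MonoidHom.mem_ker, hf] at this
      exact absurd this (by decide)

end Cfsg.Agent.S1014
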