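import Cfsg.Statements.S1015
import Mathlib
import Cfsg.Agent.S0985

set_option autoImplicit false
open Cfsg

namespace Cfsg.Agent.S1015

/-- No finite simple group has order 1200 = 2^4 * 3 * 5^2. -/
theorem result {G : Type*} [Group G] [Finite G] [IsSimpleGroup G] : Nat.card G ≠ 1200 := by
  classical
  intro hG
  haveI : Fact (Nat.Prime 5) := ⟨by norm_num⟩
  obtain ⟨P₀⟩ := (inferInstance : Nonempty (Sylow 5 G))
  -- a proper subgroup has index at least 9
  have hbig : ∀ K : Subgroup G, K ≠ ⊤ → 9 ≤ K.index := by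
    intro K hK
    by_contra hlt
    have hker : (MulAction.toPermHom G (G ⧸ K)).ker = ⊥ := by
      refine (MonoidHom.normal_ker _).eq_bot_or_eq_top.resolve_right fun h => hK (eq_top_iff.2 fun g _ => ?_)
      have hg : MulAction.toPermHom G (G ⧸ K) g = 1 := MonoidHom.mem_ker.1 (h ▸ Subgroup.mem_top g)
      have := congrArg (fun f : Equiv.Perm (G ⧸ K) => f (QuotientGroup.mk 1)) hg
      simp only [MulAction.toPermHom_apply, MulAction.toPerm_apply, Equiv.Perm.one_apply, MulAction.Quotient.smul_mk, smul_eq_mul, mul_one] at this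
      rw [eq_comm, QuotientGroup.eq, inv_one, one_mul] at this
      exact this
    haveI : Fintype (G ⧸ K) := Fintype.ofFinite _
    have h1 := Subgroup.card_dvd_of_injective _ ((MonoidHom.ker_eq_bot_iff _).1 hker)
    rw [hG, Nat.card_eq_fintype_card (α := Equiv.Perm _), Fintype.card_perm, ← Nat.card_eq_fintype_card, ← Subgroup.index_eq_card] at h1
    have h2 : K.index.factorial ∣ Nat.factorial 8 := Nat.factorial_dvd_factorial (by omega)
    have := h1.trans h2
    norm_num [Nat.factorial_succ] at this
  have hPc : ∀ P : Sylow 5 G, Nat.card (P : Subgroup G) = 25 := fun P => by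
    rw [P.card_eq_multiplicity, hG, show (1200 : ℕ) = 5 ^ 2 * 48 by norm_num, Nat.factorization_mul (by norm_num) (by norm_num),
      Finsupp.add_apply, Nat.factorization_pow, Finsupp.smul_apply, (show Nat.Prime 5 by norm_num).factorization_self,
      Nat.factorization_eq_zero_of_not_dvd (by norm_num)]
    norm_num
  set N := Subgroup.normalizer ((P₀ : Subgroup G) : Set G)
  have hN48 : N.index ∣ 48 := by
    have h := Subgroup.index_dvd_of_le (Subgroup.le_normalizer (H := (P₀ : Subgroup G)))
    have h3 : (P₀ : Subgroup G).index = 48 := by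
      have := (P₀ : Subgroup G).index_mul_card
      rw [hPc, hG] at this; omega
    rwa [h3] at h
  have hnot : ¬ Nat.card (Sylow 5 G) ≡ 1 [MOD 5 ^ 2] := fun h => by
    rw [P₀.card_eq_index_normalizer] at h
    change N.index % 25 = 1 % 25 at h
    have hne : N ≠ ⊤ := fun e => by
      rcases (Subgroup.normalizer_eq_top_iff.1 e).eq_bot_or_eq_top with h' | h' <;> have := hPc P₀ <;>
        rw [h'] at this <;> simp [hG] at this
    have h9 := hbig N hne
    have hle : N.index ≤ 48 := Nat.le_of_dvd (by norm_num) hN48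
    have h26 : N.index = 26 := by omega
    rw [h26] at hN48
    norm_num at hN48
  obtain ⟨P, R, hPR, hidx⟩ := Cfsg.Agent.S0985.result 5 2 hnot
  set D : Subgroup G := (P : Subgroup G) ⊓ (R : Subgroup G)
  have hDc : Nat.card D * ((R : Subgroup G).subgroupOf (P : Subgroup G)).index = 25 := by
    rw [← hPc P, ← Subgroup.index_mul_card ((R : Subgroup G).subgroupOf (P : Subgroup G)), mul_comm]
    congr 1
    rw [← Nat.card_congr (Subgroup.subgroupOfEquivOfLe (inf_le_left : D ≤ (P : Subgroup G))).toEquiv, Subgroup.inf_subgroupOf_left]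
  have hD5 : 5 ≤ Nat.card D := by
    norm_num at hidx
    nlinarith
  set K := Subgroup.normalizer (D : Set G)
  have hDP : D < (P : Subgroup G) := lt_of_le_of_ne inf_le_left fun e => hPR (Sylow.ext ((P : Sylow 5 G).3 R.2 (e.symm.le.trans inf_le_right)).symm)
  have hKtop : K ≠ ⊤ := fun e => by
    rcases (Subgroup.normalizer_eq_top_iff.1 e).eq_bot_or_eq_top with h' | h'
    · rw [h', Subgroup.card_bot] at hD5; omega
    · rw [h'] at hDP; exact not_top_lt hDP
  have hab : ∀ Q : Sylow 5 G, D ≤ (Q : Subgroup G) → (Q : Subgroup G) ≤ K := by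
    intro Q hQ
    have hcomm : ∀ a b : ↥(Q : Subgroup G), a * b = b * a := IsPGroup.commutative_of_card_eq_prime_sq (p := 5) (by rw [hPc Q]; norm_num)
    intro q hq
    rw [Subgroup.mem_normalizer_iff]
    intro d
    constructor
    · intro hd
      have := congrArg Subtype.val (hcomm ⟨q, hq⟩ ⟨d, hQ hd⟩)
      simp only [Subgroup.coe_mul] at this
      rwa [this, mul_inv_cancel_right]
    · intro hd
      have hdQ : d ∈ (Q : Subgroup G) := by
        have := (Q : Subgroup G).mul_mem ((Q : Subgroup G).mul_mem ((Q : Subgroup G).inv_mem hq) (hQ hd)) hq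
        simpa [mul_assoc] using this
      have := congrArg Subtype.val (hcomm ⟨q, hq⟩ ⟨d, hdQ⟩)
      simp only [Subgroup.coe_mul] at this
      rwa [this, mul_inv_cancel_right] at hd
  have hPK := hab P inf_le_left
  have hRK := hab R inf_le_right
  have hsy : 1 < Nat.card (Sylow 5 K) := Finite.one_lt_card_iff_nontrivial.2
    ⟨P.subtype hPK, R.subtype hRK, fun h => hPR (Sylow.subtype_injective h)⟩
  have hmod := card_sylow_modEq_one 5 K
  have hdvd : Nat.card (Sylow 5 K) * 25 ∣ Nat.card K := by
    have hc : Nat.card ↥((P.subtype hPK : Sylow 5 K) : Subgroup K) = 25 := by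
      rw [← hPc P]
      exact Nat.card_congr (Subgroup.subgroupOfEquivOfLe hPK).toEquiv
    rw [← Subgroup.index_mul_card ((P.subtype hPK : Sylow 5 K) : Subgroup K), hc]
    exact mul_dvd_mul_right (P.subtype hPK).card_dvd_index _
  have hKi := hbig K hKtop
  have hKc := K.index_mul_card
  rw [hG] at hKc
  change Nat.card (Sylow 5 K) % 5 = 1 % 5 at hmod
  have := Nat.le_of_dvd Nat.card_pos hdvd
  have hn6 : 6 ≤ Nat.card (Sylow 5 K) := by omega
  nlinarith

end Cfsg.Agent.S1015
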