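import Cfsg.Statements.S1019
import Mathlib

set_option autoImplicit false
open Cfsg

namespace Cfsg.Agent.S1019

/-- Let H be a subgroup of a finite group G and x an element of H. In the action of G on the left cosets of H, the number of cosets fixed by x, multiplied by the size of the conjugacy class of x, equals the index of H multiplied by the number of conjugates of x that lie in H. -/
theorem result {G : Type*} [Group G] [Finite G] (H : Subgroup G) (x : G) (hx : x ∈ H) : Nat.card (MulAction.fixedBy (G ⧸ H) x) * Nat.card {g : G // IsConj x g} = H.index * Nat.card {g : G // IsConj x g ∧ g ∈ H} := by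
  classical
  have key : ∀ K : Subgroup G, Nat.card {g : G // g⁻¹ * x * g ∈ K} =
      Nat.card {g : G // IsConj x g ∧ g ∈ K} * Nat.card (Subgroup.centralizer ({x} : Set G)) := by
    intro K
    choose t ht using fun a : {g : G // IsConj x g ∧ g ∈ K} => isConj_iff.1 a.2.1
    rw [← Nat.card_prod]
    refine (Nat.card_eq_of_bijective (fun ac : _ × Subgroup.centralizer ({x} : Set G) =>
      (⟨(ac.2 : G) * (t ac.1)⁻¹, ?_⟩ : {g : G // g⁻¹ * x * g ∈ K})) ⟨?_, ?_⟩).symm
    · have hc := Subgroup.mem_centralizer_singleton_iff.1 ac.2.2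
      rw [show ((ac.2 : G) * (t ac.1)⁻¹)⁻¹ * x * ((ac.2 : G) * (t ac.1)⁻¹) =
        t ac.1 * ((ac.2 : G)⁻¹ * (x * ac.2)) * (t ac.1)⁻¹ by group]
      rw [← hc, inv_mul_cancel_left, ht]
      exact ac.1.2.2
    · rintro ⟨a, c⟩ ⟨a', c'⟩ h
      have h' : (c : G) * (t a)⁻¹ = c' * (t a')⁻¹ := congrArg Subtype.val h
      have hcon : ∀ (a : {g : G // IsConj x g ∧ g ∈ K}) (c : Subgroup.centralizer ({x} : Set G)),
          ((c : G) * (t a)⁻¹)⁻¹ * x * ((c : G) * (t a)⁻¹) = (a : G) := by
        intro a c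
        have hc := Subgroup.mem_centralizer_singleton_iff.1 c.2
        rw [show ((c : G) * (t a)⁻¹)⁻¹ * x * ((c : G) * (t a)⁻¹) =
          t a * ((c : G)⁻¹ * (x * c)) * (t a)⁻¹ by group, ← hc, inv_mul_cancel_left, ht]
      have ha : a = a' := Subtype.ext (by rw [← hcon a c, h', hcon a' c'])
      subst ha
      exact Prod.ext rfl (Subtype.ext (mul_right_cancel h'))
    · rintro ⟨g, hg⟩
      let a : {g : G // IsConj x g ∧ g ∈ K} :=
        ⟨g⁻¹ * x * g, isConj_iff.2 ⟨g⁻¹, by rw [inv_inv]⟩, hg⟩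
      refine ⟨⟨a, ⟨g * t a, ?_⟩⟩, Subtype.ext ?_⟩
      · rw [Subgroup.mem_centralizer_singleton_iff]
        have h1 : t a * x * (t a)⁻¹ = g⁻¹ * x * g := ht a
        calc g * t a * x = g * (t a * x * (t a)⁻¹) * t a := by group
          _ = x * (g * t a) := by rw [h1]; group
      · show g * t a * (t a)⁻¹ = g
        group
  have hfix : Nat.card {g : G // g⁻¹ * x * g ∈ H} =
      Nat.card H * Nat.card (MulAction.fixedBy (G ⧸ H) x) := by
    rw [← Nat.card_prod]
    refine Nat.card_congr ((Equiv.subtypeEquivRight fun g => ?_).trans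
      (QuotientGroup.preimageMkEquivSubgroupProdSet H (MulAction.fixedBy (G ⧸ H) x)))
    show g⁻¹ * x * g ∈ H ↔ x • (g : G ⧸ H) = (g : G ⧸ H)
    rw [eq_comm, MulAction.Quotient.smul_coe, QuotientGroup.eq, smul_eq_mul, ← mul_assoc]
  have htop := key ⊤
  have hall : Nat.card {g : G // g⁻¹ * x * g ∈ (⊤ : Subgroup G)} = Nat.card G :=
    Nat.card_congr (Equiv.subtypeUnivEquiv fun g => Subgroup.mem_top _)
  rw [hall, Nat.card_congr (Equiv.subtypeEquivRight
    (fun g => (and_iff_left (Subgroup.mem_top g))))] at htop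
  have h1 := hfix.symm.trans (key H)
  have h2 := Subgroup.card_mul_index H
  have hpos : 0 < Nat.card H * Nat.card (Subgroup.centralizer ({x} : Set G)) :=
    Nat.mul_pos Nat.card_pos Nat.card_pos
  refine Nat.eq_of_mul_eq_mul_left hpos ?_
  calc Nat.card H * Nat.card (Subgroup.centralizer ({x} : Set G)) *
        (Nat.card (MulAction.fixedBy (G ⧸ H) x) * Nat.card {g : G // IsConj x g})
      = (Nat.card H * Nat.card (MulAction.fixedBy (G ⧸ H) x)) *
          (Nat.card {g : G // IsConj x g} * Nat.card (Subgroup.centralizer ({x} : Set G))) := by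
        ring
    _ = _ := by rw [h1, ← htop, ← h2]; ring

end Cfsg.Agent.S1019
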