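import Cfsg.Statements.S1030
import Cfsg.Agent.Lib.SL2.Presentation
import Cfsg.Agent.Lib.Chev.Univ.R3
import Cfsg.Agent.Lib.Chev.Group.Torus
open CfsgLib.SL2Presentation CfsgLib.Chev CfsgLib.Chev.Checks CfsgLib.Chev.Basic CfsgLib.Chev.Abstract
open scoped Matrix MatrixGroups

set_option autoImplicit false
open Cfsg

namespace Cfsg.Agent.S1030

/-- There is a homomorphism `SL₂(F) → GL` with image `⟨X_r, X_{-r}⟩` sending `[[1,t],[0,1]]` to `x_r(t)` and `[[1,0],[t,1]]` to `x_{-r}(t)`. -/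
theorem result {F : Type*} [Field F] (D : Cfsg.Lie.ChevalleyDatum) (hD : D ∈ [Cfsg.Lie.chevG2, Cfsg.Lie.chevB2, Cfsg.Lie.chevD4, Cfsg.Lie.chevF4, Cfsg.Lie.chevE6, Cfsg.Lie.chevE7, Cfsg.Lie.chevE8]) (r : ℕ) (hr : r < D.nroots) :
    ∃ φ : Matrix.SpecialLinearGroup (Fin 2) F →* GL D.Idx F,
      φ.range = D.rootSubgroup F r ⊔ D.rootSubgroup F (D.neg r) ∧
      ∀ (g : Matrix.SpecialLinearGroup (Fin 2) F) (t : F),
        ((g : Matrix (Fin 2) (Fin 2) F) = !![1, t; 0, 1] → ((φ g : GL D.Idx F) : Matrix D.Idx D.Idx F) = D.x F r t) ∧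
        ((g : Matrix (Fin 2) (Fin 2) F) = !![1, 0; t, 1] → ((φ g : GL D.Idx F) : Matrix D.Idx D.Idx F) = D.x F (D.neg r) t) := by
  have hD' : D ∈ dataList := hD
  obtain ⟨φ, hX, hY⟩ : ∃ φ : Matrix.SpecialLinearGroup (Fin 2) F →* GL D.Idx F,
      (∀ t, φ (up t) = xGL hD' F r t) ∧ ∀ t, φ (lo t) = xGL hD' F (D.neg r) t := by
    refine Rel.root_induction hD' (P := fun r => ∃ φ : Matrix.SpecialLinearGroup (Fin 2) F →* GL D.Idx F,
      (∀ t, φ (up t) = xGL hD' F r t) ∧ ∀ t, φ (lo t) = xGL hD' F (D.neg r) t) (fun a ha => ?_)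
      (fun i r hi hr ⟨φ, hX, hY⟩ => ?_) hr
    · let S : Sys hD' F (GL D.Idx F) :=
        { X := xGL hD' F
          add := fun r hr => Rel.xGL_add hD' hr
          comm := fun r s hr hs h1 h2 => Rel.comm_GL hD' hr hs h1 h2
          θ := MonoidHom.id _
          θX := fun r _ t => rfl }
      have hp := Rel.simple_lt hD' ha
      let T : Pre F (GL D.Idx F) :=
        { X := fun t => S.X (D.simple a) t
          Y := fun t => S.X (D.neg (D.simple a)) t
          addX := S.add _ hp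
          addY := S.add _ (Checks.neg_lt hD' hp)
          nX := fun t ht u => (Univ.n_conj_pos S ha ht u).trans (by congr 1; field_simp)
          nY := fun t ht u => Univ.n_conj_neg S ha ht u }
      have hh : ∀ (t : Fˣ), T.h (t : F) = hGL hD' F (D.simple a) t := fun t => S.θ_h hp (t : F)
      refine exists_hom T fun t u ht hu => ?_
      have h1 := hh (Units.mk0 t ht)
      have h2 := hh (Units.mk0 u hu)
      have h3 := hh (Units.mk0 t ht * Units.mk0 u hu)
      simp only [Units.val_mul, Units.val_mk0] at h1 h2 h3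
      rw [h1, h2, h3]
      have m1 := Torus.torus_root hD' hp (Units.mk0 t ht)
      have m2 := Torus.torus_root hD' hp (Units.mk0 u hu)
      have m3 := Torus.torus_root hD' hp (Units.mk0 t ht * Units.mk0 u hu)
      simp only [Units.val_mul, Units.val_mk0] at m1 m2 m3
      rw [← m1, ← m2, ← m3, ← map_mul]
      congr 1
      funext k
      rw [Pi.mul_apply, ← mul_zpow]
    · set r' := D.reflectRoot i r with hr'
      have hlt : r' < D.nroots := Rel.reflectRoot_lt hD' hi hr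
      have hback : D.reflectRoot i r' = r := Rel.reflect_invol hD' hi hr
      have hneg : (Rel.eta hD' i (D.neg r') : F) = (Rel.eta hD' i r' : F) := by
        unfold Rel.eta; rw [(Rel.refl hD' hi).eta_neg r' hlt]
      obtain ⟨ψ, pX, pY⟩ : ∃ ψ : Matrix.SpecialLinearGroup (Fin 2) F →* Matrix.SpecialLinearGroup (Fin 2) F,
          (∀ t, ψ (up t) = up ((Rel.eta hD' i r' : F) * t)) ∧
          ∀ t, ψ (lo t) = lo ((Rel.eta hD' i r' : F) * t) := by
        rcases Rel.eta_cases hD' i r' with e | e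
        · exact ⟨MonoidHom.id _, fun t => by simp [e], fun t => by simp [e]⟩
        · have hd : ((!![-1, 0; 0, 1] : Matrix (Fin 2) (Fin 2) F)).det = -1 := by simp
          have hq : (!![-1, 0; 0, 1] : Matrix (Fin 2) (Fin 2) F) * !![-1, 0; 0, 1] = 1 := by
            simp [Matrix.mul_fin_two, Matrix.one_fin_two]
          refine ⟨MonoidHom.mk' (fun g => ⟨!![-1, 0; 0, 1] * (g : Matrix (Fin 2) (Fin 2) F) * !![-1, 0; 0, 1], by
            rw [Matrix.det_mul, Matrix.det_mul, hd, g.det_coe]; simp⟩) (fun g h => Subtype.ext ?_),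
            fun t => Subtype.ext ?_, fun t => Subtype.ext ?_⟩
          · show _ * ((g : Matrix (Fin 2) (Fin 2) F) * (h : Matrix (Fin 2) (Fin 2) F)) * _ =
              (!![-1, 0; 0, 1] * (g : Matrix (Fin 2) (Fin 2) F) * !![-1, 0; 0, 1]) * (_ * (h : Matrix (Fin 2) (Fin 2) F) * _)
            simp only [mul_assoc]
            rw [← mul_assoc (!![-1, 0; 0, 1] : Matrix (Fin 2) (Fin 2) F) !![-1, 0; 0, 1], hq, one_mul]
          · show _ * (up t : Matrix (Fin 2) (Fin 2) F) * _ = _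
            simp [coe_up, e, Matrix.mul_fin_two]
          · show _ * (lo t : Matrix (Fin 2) (Fin 2) F) * _ = _
            simp [coe_lo, e, Matrix.mul_fin_two]
      set q := nGL hD' F (D.simple i) 1
      refine ⟨(MulAut.conj q).toMonoidHom.comp (φ.comp ψ), fun t => ?_, fun t => ?_⟩
      · show q * φ (ψ (up t)) * q⁻¹ = _
        rw [pX, hX, Rel.conj_GL hD' hi hlt, hback, ← mul_assoc, Rel.etaF_sq, one_mul]
      · show q * φ (ψ (lo t)) * q⁻¹ = _
        rw [pY, hY, Rel.conj_GL hD' hi (Checks.neg_lt hD' hlt), Rel.reflect_neg hD' hi hlt, hback, hneg,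
          ← mul_assoc, Rel.etaF_sq, one_mul]
  refine ⟨φ, ?_, fun g t => ⟨fun hg => ?_, fun hg => ?_⟩⟩
  · have htop : Subgroup.closure (Set.range (up (K := F)) ∪ Set.range lo) = ⊤ :=
      eq_top_iff.2 fun g _ => generated g
    rw [MonoidHom.range_eq_map, ← htop, MonoidHom.map_closure]
    refine le_antisymm ((Subgroup.closure_le _).2 ?_) (sup_le ?_ ?_)
    · rintro _ ⟨_, ⟨t, rfl⟩ | ⟨t, rfl⟩, rfl⟩
      · exact Subgroup.mem_sup_left ((Rel.mem_rootSubgroup hD' hr).2 ⟨t, hX t⟩)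
      · exact Subgroup.mem_sup_right ((Rel.mem_rootSubgroup hD' (Checks.neg_lt hD' hr)).2 ⟨t, hY t⟩)
    · intro g hg
      obtain ⟨t, rfl⟩ := (Rel.mem_rootSubgroup hD' hr).1 hg
      exact Subgroup.subset_closure ⟨_, Or.inl ⟨t, rfl⟩, hX t⟩
    · intro g hg
      obtain ⟨t, rfl⟩ := (Rel.mem_rootSubgroup hD' (Checks.neg_lt hD' hr)).1 hg
      exact Subgroup.subset_closure ⟨_, Or.inr ⟨t, rfl⟩, hY t⟩
  · rw [show g = up t from Subtype.ext hg, hX, xGL_val]
  · rw [show g = lo t from Subtype.ext hg, hY, xGL_val]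

end Cfsg.Agent.S1030
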