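import Cfsg.Statements.S1046
import Cfsg.Agent.Lib.Chev.Group.Canonical
open CfsgLib.Chev CfsgLib.Chev.Checks CfsgLib.Chev.Basic

set_option autoImplicit false
open Cfsg

namespace Cfsg.Agent.S1046

/-- Two elements of `H` conjugate in the Chevalley group are conjugate by an element of `N`. -/
theorem result {F : Type*} [Field F] (D : Cfsg.Lie.ChevalleyDatum) (hD : D ∈ [Cfsg.Lie.chevG2, Cfsg.Lie.chevB2, Cfsg.Lie.chevD4, Cfsg.Lie.chevF4, Cfsg.Lie.chevE6, Cfsg.Lie.chevE7, Cfsg.Lie.chevE8]) (h₁ h₂ g : GL D.Idx F) (h1 : h₁ ∈ D.diagonalSubgroup F) (h2 : h₂ ∈ D.diagonalSubgroup F)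
    (hg : g ∈ D.group F) (hc : g * h₁ * g⁻¹ = h₂) :
    ∃ n ∈ D.monomialSubgroup F, n * h₁ * n⁻¹ = h₂ := by
  have hD' : D ∈ dataList := by simpa [dataList] using hD
  obtain ⟨b, hb, l, hl, k, hk, u, hu, rfl⟩ := Canonical.exists_form hD' hg
  set m := N.nW hD' F l * k with hm
  have hmN : m ∈ D.monomialSubgroup F := mul_mem (N.nW_mem hD' hl) (Subgroup.mem_sup_left hk)
  have hh' : m * h₁ * m⁻¹ ∈ D.diagonalSubgroup F := by
    rw [hm, show N.nW hD' F l * k * h₁ * (N.nW hD' F l * k)⁻¹ =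
      N.nW hD' F l * (k * h₁ * k⁻¹) * (N.nW hD' F l)⁻¹ by group]
    exact N.nW_diag hD' hl (mul_mem (mul_mem hk h1) (inv_mem hk))
  refine ⟨m, hmN, ?_⟩
  have hdB : ∀ {x : GL D.Idx F}, x ∈ D.diagonalSubgroup F → x ∈ D.borelSubgroup F := fun h => Subgroup.mem_sup_right h
  have e : (b * (m * h₁ * m⁻¹)) * m * (h₁⁻¹ * u * h₁) = (h₂ * b) * m * u := by
    rw [← hc]; group
  have hu' : h₁⁻¹ * u * h₁ ∈ RootGen.gen D F (Canonical.Minus D l) :=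
    (Subgroup.mem_normalizer_iff''.1 (BH.diagonal_le_normalizer hD' (Canonical.Minus D l) h1) u).1 hu
  obtain ⟨eb, -⟩ := Canonical.minus_inj hD' hl hk (mul_mem hb (hdB hh')) (mul_mem (hdB h2) hb) hu' hu e
  obtain ⟨v, hv, t, ht, rfl⟩ := (BH.mem_borel_iff hD').1 hb
  have hv2 : h₂ * v * h₂⁻¹ ∈ D.posUnipotent F :=
    ((Subgroup.mem_normalizer_iff.1 (BH.diagonal_normalizes_pos hD' h2)) v).1 hv
  have e2 : (h₂ * v * h₂⁻¹)⁻¹ * v = (h₂ * t) * (t * (m * h₁ * m⁻¹))⁻¹ := by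
    calc (h₂ * v * h₂⁻¹)⁻¹ * v = (h₂ * v * h₂⁻¹)⁻¹ * (v * t * (m * h₁ * m⁻¹)) * (t * (m * h₁ * m⁻¹))⁻¹ := by group
      _ = _ := by rw [eb]; group
  have h0 : (h₂ * t) * (t * (m * h₁ * m⁻¹))⁻¹ ∈ D.posUnipotent F ⊓ D.diagonalSubgroup F :=
    ⟨e2 ▸ Subgroup.mul_mem _ (Subgroup.inv_mem _ hv2) hv, Subgroup.mul_mem _ (Subgroup.mul_mem _ h2 ht) (Subgroup.inv_mem _ (Subgroup.mul_mem _ ht hh'))⟩
  rw [BH.pos_inf_diagonal hD', Subgroup.mem_bot, mul_inv_eq_one, BH.diagonal_comm hD' h2 ht] at h0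
  exact (mul_left_cancel h0).symm

end Cfsg.Agent.S1046
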