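import Cfsg.Statements.S1058
import Cfsg.Agent.Lib.Symplectic.HeartTransport
import Cfsg.Agent.Lib.Chev.Group.Order

set_option autoImplicit false
open Cfsg

namespace Cfsg.Agent.S1058

theorem map_xMat {F K : Type*} [Field F] [Field K] (e : F ≃+* K) (r : Fin Cfsg.Lie.chevB2.nroots) (t : F)
    (a b : Cfsg.Lie.chevB2.Idx) :
    e (Cfsg.Lie.chevB2.xMat F r t a b) = Cfsg.Lie.chevB2.xMat K r (e t) a b := by
  rcases a with a | a <;> rcases b with b | b <;>
    simp [Cfsg.Lie.ChevalleyDatum.xMat, apply_ite e, map_list_sum, List.map_map, Function.comp_def]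

theorem xMat_sq : ∀ r : Fin Cfsg.Lie.chevB2.nroots,
    Cfsg.Lie.chevB2.xMat (ZMod 2) r 1 * Cfsg.Lie.chevB2.xMat (ZMod 2) r 1 = 1 := by
  decide +kernel

theorem swap_step : ∀ a b c : Fin 6, b ≠ c → b ≠ a → a ≠ c →
    Equiv.swap a c = Equiv.swap a b * Equiv.swap b c * Equiv.swap a b := by
  decide +kernel

/-- B₂(2) ≅ S₆. -/
theorem result {F : Type*} [Field F] [Fintype F] (hF : Fintype.card F = 2) :
    Nonempty (↥(Cfsg.Lie.chevB2.group F) ≃* Equiv.Perm (Fin 6)) := by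
  open CfsgLib.Symplectic.Heart in
  obtain ⟨e⟩ := exists_zmod_two hF
  set W : Fin 6 → (Cfsg.Lie.chevB2.Idx → ZMod 2) := fun k =>
    Sum.elim (fun i : Fin 2 => ((![98, 102, 518, 550, 582, 610] k / 2 ^ (i : ℕ) : ℕ) : ZMod 2))
      (fun r : Fin 8 => ((![98, 102, 518, 550, 582, 610] k / 2 ^ ((r : ℕ) + 2) : ℕ) : ZMod 2)) with hW
  have hWinj : Function.Injective W := by decide +kernel
  set ι : GL Cfsg.Lie.chevB2.Idx F →* GL Cfsg.Lie.chevB2.Idx (ZMod 2) :=
    (CfsgLib.Symplectic.Heart.glEquiv e).toMonoidHom with hι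
  set P : Fin 8 → Equiv.Perm (Fin 6) := ![Equiv.swap 0 5,
    Equiv.swap 0 5 * Equiv.swap 1 3 * Equiv.swap 2 4,
    Equiv.swap 0 5 * Equiv.swap 1 4 * Equiv.swap 2 3,
    Equiv.swap 2 4, Equiv.swap 2 3,
    Equiv.swap 0 1 * Equiv.swap 2 4 * Equiv.swap 3 5,
    Equiv.swap 0 1 * Equiv.swap 2 3 * Equiv.swap 4 5,
    Equiv.swap 0 1] with hP
  have hgen : ∀ (r : Fin 8) (k : Fin 6),
      Matrix.vecMul (W k) (Cfsg.Lie.chevB2.xMat (ZMod 2) r 1) = W (P r k) := by decide +kernel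
  have hzero : ∀ (r : Fin 8) (k : Fin 6),
      Matrix.vecMul (W k) (Cfsg.Lie.chevB2.xMat (ZMod 2) r 0) = W k := by decide +kernel
  have hmap : ∀ (g : GL Cfsg.Lie.chevB2.Idx F) (r : Fin 8) (t : F),
      (g : Matrix _ _ F) = Cfsg.Lie.chevB2.xMat F r t →
      ((ι g : GL _ (ZMod 2)) : Matrix _ _ (ZMod 2)) = Cfsg.Lie.chevB2.xMat (ZMod 2) r (e t) := by
    intro g r t hg
    ext a b
    change e (g.1 a b) = _
    rw [hg]
    exact map_xMat e r t a b
  have hG : ∀ g ∈ Cfsg.Lie.chevB2.group F, ∃ σ : Equiv.Perm (Fin 6),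
      ∀ k, Matrix.vecMul (W (σ k)) (ι g).1 = W k := by
    intro g hg
    refine Subgroup.closure_induction (p := fun g _ => ∃ σ : Equiv.Perm (Fin 6),
      ∀ k, Matrix.vecMul (W (σ k)) (ι g).1 = W k) ?_ ?_ ?_ ?_ hg
    · rintro g ⟨r, t, hg⟩
      rw [hmap g r t hg]
      rcases (show ∀ z : ZMod 2, z = 0 ∨ z = 1 by decide) (e t) with h | h <;> rw [h]
      · exact ⟨1, fun k => hzero r k⟩
      · exact ⟨(P r)⁻¹, fun k => (hgen r _).trans (congrArg W ((P r).apply_symm_apply k))⟩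
    · exact ⟨1, fun k => by rw [map_one, Units.val_one, Matrix.vecMul_one, Equiv.Perm.one_apply]⟩
    · rintro g g' - - ⟨σ, hσ⟩ ⟨τ, hτ⟩
      exact ⟨σ * τ, fun k => by
        rw [map_mul, Units.val_mul, ← Matrix.vecMul_vecMul, Equiv.Perm.mul_apply, hσ, hτ]⟩
    · rintro g - ⟨σ, hσ⟩
      refine ⟨σ⁻¹, fun k => ?_⟩
      have h := hσ (σ⁻¹ k)
      rw [Equiv.Perm.coe_inv, Equiv.apply_symm_apply] at h
      rw [← Equiv.Perm.coe_inv] at h
      calc Matrix.vecMul (W (σ⁻¹ k)) (ι g⁻¹).1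
          = Matrix.vecMul (Matrix.vecMul (W k) (ι g).1) (ι g⁻¹).1 := by rw [h]
        _ = W k := by rw [Matrix.vecMul_vecMul, ← Units.val_mul, ← map_mul, mul_inv_cancel,
            map_one, Units.val_one, Matrix.vecMul_one]
  have huniq : ∀ (g : GL Cfsg.Lie.chevB2.Idx F) (σ τ : Equiv.Perm (Fin 6)),
      (∀ k, Matrix.vecMul (W (σ k)) (ι g).1 = W k) →
      (∀ k, Matrix.vecMul (W (τ k)) (ι g).1 = W k) → σ = τ := by
    intro g σ τ h h'
    refine Equiv.ext fun k => hWinj ?_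
    have := congrArg (fun v => Matrix.vecMul v ((ι g)⁻¹).1) ((h k).trans (h' k).symm)
    simpa [Matrix.vecMul_vecMul] using this
  let f : Cfsg.Lie.chevB2.group F →* Equiv.Perm (Fin 6) :=
    { toFun := fun g => (hG g.1 g.2).choose
      map_one' := huniq 1 _ 1 (hG (1 : Cfsg.Lie.chevB2.group F).1 (one_mem _)).choose_spec
        (fun k => by rw [map_one, Units.val_one, Matrix.vecMul_one, Equiv.Perm.one_apply])
      map_mul' := fun g g' => huniq (g.1 * g'.1) _ _ (hG (g * g').1 (g * g').2).choose_spec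
        (fun k => by
          rw [map_mul, Units.val_mul, ← Matrix.vecMul_vecMul, Equiv.Perm.mul_apply,
            (hG g.1 g.2).choose_spec, (hG g'.1 g'.2).choose_spec]) }
  have hPmem : ∀ r : Fin 8, P r ∈ f.range := by
    intro r
    obtain ⟨x, hx, hxg⟩ : ∃ x : GL Cfsg.Lie.chevB2.Idx F,
        x.1 = Cfsg.Lie.chevB2.xMat F r 1 ∧ x ∈ Cfsg.Lie.chevB2.group F := by
      have hm : Cfsg.Lie.chevB2.xMat F r 1 * Cfsg.Lie.chevB2.xMat F r 1 = 1 := by
        apply (RingEquiv.mapMatrix (m := Cfsg.Lie.chevB2.Idx) e).injective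
        have hxe : RingEquiv.mapMatrix (m := Cfsg.Lie.chevB2.Idx) e (Cfsg.Lie.chevB2.xMat F r 1)
            = Cfsg.Lie.chevB2.xMat (ZMod 2) r 1 := by
          ext a b
          change e (Cfsg.Lie.chevB2.xMat F r 1 a b) = _
          exact (map_xMat e r 1 a b).trans (by rw [map_one])
        rw [map_mul, map_one, hxe]
        exact xMat_sq r
      exact ⟨⟨_, _, hm, hm⟩, rfl, Subgroup.subset_closure ⟨r, 1, rfl⟩⟩
    refine ⟨⟨x, hxg⟩⁻¹, ?_⟩
    have : f ⟨x, hxg⟩ = (P r)⁻¹ := by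
      refine huniq x _ _ (hG x hxg).choose_spec fun k => ?_
      rw [hmap x r 1 hx, map_one e]
      exact (hgen r _).trans (congrArg W ((P r).apply_symm_apply k))
    rw [map_inv, this, inv_inv]
  have hsurj : Function.Surjective f := by
    rw [← MonoidHom.range_eq_top, eq_top_iff, ← Equiv.Perm.closure_isSwap, Subgroup.closure_le]
    have hstep : ∀ a b c : Fin 6, b ≠ c → b ≠ a → a ≠ c → Equiv.swap a b ∈ f.range →
        Equiv.swap b c ∈ f.range → Equiv.swap a c ∈ f.range := by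
      intro a b c hbc hba hac h1 h2
      rw [swap_step a b c hbc hba hac]
      exact mul_mem (mul_mem h1 h2) h1
    have h01 : Equiv.swap (0 : Fin 6) 1 ∈ f.range := hPmem 7
    have h05 : Equiv.swap (0 : Fin 6) 5 ∈ f.range := hPmem 0
    have h13 : Equiv.swap (1 : Fin 6) 3 ∈ f.range := by
      have h := mul_mem (mul_mem (hPmem 0) (hPmem 1)) (hPmem 3)
      have e1 : P 0 * P 1 * P 3 = Equiv.swap (1 : Fin 6) 3 := by decide +kernel
      rwa [e1] at h
    have h03 := hstep 0 1 3 (by decide) (by decide) (by decide) h01 h13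
    have h02 := hstep 0 3 2 (by decide) (by decide) (by decide) h03
      (by rw [Equiv.swap_comm]; exact hPmem 4)
    have h04 := hstep 0 2 4 (by decide) (by decide) (by decide) h02 (hPmem 3)
    have h0 : ∀ a : Fin 6, a ≠ 0 → Equiv.swap 0 a ∈ f.range := by
      intro a ha
      fin_cases a
      · exact absurd rfl ha
      exacts [h01, h02, h03, h04, h05]
    rintro s ⟨a, b, hab, rfl⟩
    by_cases ha : a = 0
    · subst ha; exact h0 b (Ne.symm hab)
    by_cases hb : b = 0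
    · subst hb; rw [Equiv.swap_comm]; exact h0 a ha
    exact hstep a 0 b (Ne.symm hb) (Ne.symm ha) hab (by rw [Equiv.swap_comm]; exact h0 a ha) (h0 b hb)
  have hcard : Nat.card (Cfsg.Lie.chevB2.group F) ≤ Nat.card (Equiv.Perm (Fin 6)) := by
    have h := CfsgLib.Chev.Order.order_B2 (F := F)
    have h720 : Fintype.card F ^ (Cfsg.Lie.chevB2.nroots / 2) * (([2, 4] : List ℕ).map fun d => Fintype.card F ^ d - 1).prod = 720 := by
      rw [hF]; decide +kernel
    rw [h720] at h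
    rw [Nat.card_perm, Nat.card_fin]
    exact Nat.le_of_dvd (by decide) (by rw [show Nat.factorial 6 = 720 by decide, ← h]; exact dvd_mul_left _ _)
  exact ⟨MulEquiv.ofBijective f (hsurj.bijective_of_nat_card_le hcard)⟩

end Cfsg.Agent.S1058
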