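import Cfsg.Statements.S1077
import Mathlib
import Cfsg.Agent.Lib.Chev.Abstract.Present

set_option autoImplicit false
open Cfsg

namespace Cfsg.Agent.S1077

/-- Steinberg's Theorem: there is a homomorphism `x̄_r(t) ↦ x_r(t)` from the presented group onto the Chevalley group whose kernel is precisely the centre; hence `L(K) ≅ Ḡ/Z(Ḡ)`. -/
theorem result {K : Type*} [Field K] (D : Cfsg.Lie.ChevalleyDatum) (hD : D ∈ [Cfsg.Lie.chevG2, Cfsg.Lie.chevB2, Cfsg.Lie.chevD4, Cfsg.Lie.chevF4, Cfsg.Lie.chevE6, Cfsg.Lie.chevE7, Cfsg.Lie.chevE8]) :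
    ∃ θ : D.SteinbergGroup K →* ↥(D.group K), Function.Surjective θ ∧ θ.ker = Subgroup.center (D.SteinbergGroup K) ∧
      ∀ (r : ℕ) (t : K), r < D.nroots → ((θ (D.stGen K r t) : GL D.Idx K) : Matrix D.Idx D.Idx K) = D.x K r t := by
  refine ⟨CfsgLib.Chev.Abstract.onto hD subset_rfl, CfsgLib.Chev.Abstract.onto_surjective hD subset_rfl,
    CfsgLib.Chev.Abstract.ker_eq_center hD CfsgLib.Chev.Abstract.relsAB_subset subset_rfl, fun r t hr => ?_⟩
  exact (congrArg Units.val (CfsgLib.Chev.Abstract.canon_X hD subset_rfl hr t)).trans (CfsgLib.Chev.Basic.xGL_val hD r t)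

end Cfsg.Agent.S1077
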