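import Cfsg.Statements.S1078
import Mathlib
import Cfsg.Agent.Lib.Chev.Abstract.Perfect

set_option autoImplicit false
open Cfsg

namespace Cfsg.Agent.S1078

/-- For G₂, F₄, E₈ the presented group has trivial centre (the universal and adjoint groups coincide). -/
theorem result {K : Type*} [Field K] (D : Cfsg.Lie.ChevalleyDatum) (hD : D ∈ [Cfsg.Lie.chevG2, Cfsg.Lie.chevF4, Cfsg.Lie.chevE8]) :
    Subgroup.center (D.SteinbergGroup K) = ⊥ := by
  have hD' : D ∈ CfsgLib.Chev.Checks.dataList := by
    simp only [CfsgLib.Chev.Checks.dataList, List.mem_cons, List.not_mem_nil, or_false] at hD ⊢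
    tauto
  have hR : D.steinbergRelsAB K ⊆ D.steinbergRels K := CfsgLib.Chev.Abstract.relsAB_subset
  let S := CfsgLib.Chev.Abstract.sys hD' hR (CfsgLib.Chev.Abstract.canon hD' subset_rfl)
    fun r hr t => CfsgLib.Chev.Abstract.canon_X hD' subset_rfl hr t
  have hinj : Function.Injective (CfsgLib.Chev.Torus.torusHom D K) := by
    simp only [List.mem_cons, List.not_mem_nil, or_false] at hD
    rcases hD with rfl | rfl | rfl
    exacts [CfsgLib.Chev.Abstract.torus_injective_G2, CfsgLib.Chev.Abstract.torus_injective_F4,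
      CfsgLib.Chev.Abstract.torus_injective_E8]
  have hker := S.ker_trivial (CfsgLib.Chev.Abstract.sys_gen _ _ _ _) ?_ hinj
  · rw [← CfsgLib.Chev.Abstract.ker_eq_center hD' hR subset_rfl, CfsgLib.Chev.Abstract.onto_ker]
    exact hker
  · intro i hi t u ht hu
    simp only [S, CfsgLib.Chev.Abstract.sys_h]
    have h := CfsgLib.Chev.Abstract.mk_eq_one (R := D.steinbergRels K)
      (Or.inr ⟨D.simple i, t, u, CfsgLib.Chev.Rel.simple_lt hD' hi, ht, hu, rfl⟩)
    rwa [map_mul, map_mul, map_inv, mul_inv_eq_one] at h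

end Cfsg.Agent.S1078
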