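import Cfsg.Statements.S2397
import Cfsg.Agent.Lib.Chev.Univ.R3Finite
open CfsgLib.Chev CfsgLib.Chev.Checks

set_option autoImplicit false
open Cfsg

namespace Cfsg.Agent.S2397

/-- Over a finite field the relators (R3) h̄_r(t₁) h̄_r(t₂) = h̄_r(t₁ t₂) are consequences of (R1) and (R2): for each of the types G₂, B₂, D₄, F₄, E₆, E₇, E₈ (for types B₂ and G₂ the field must have more than two elements — the cases where the Chevalley group is not simple are set aside) the group presented by (R1), (R2) is canonically isomorphic to the one presented by (R1)–(R3), by an isomorphism matching the generators x̄_r(t). -/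
theorem result {K : Type*} [Field K] [Finite K] (D : Cfsg.Lie.ChevalleyDatum) (hD : D ∈ [Cfsg.Lie.chevG2, Cfsg.Lie.chevB2, Cfsg.Lie.chevD4, Cfsg.Lie.chevF4, Cfsg.Lie.chevE6, Cfsg.Lie.chevE7, Cfsg.Lie.chevE8]) (hK : D ∈ [Cfsg.Lie.chevB2, Cfsg.Lie.chevG2] → ∃ x : K, x ≠ 0 ∧ x ≠ 1) :
    ∃ e : D.SteinbergCover K ≃* D.SteinbergGroup K, ∀ (r : ℕ) (t : K), e (D.scGen K r t) = D.stGen K r t := by
  classical
  have hd : D ∈ dataList := by simpa [dataList] using hD
  let S := Abstract.sys hd (R := D.steinbergRelsAB K) subset_rfl (Abstract.canon hd Abstract.relsAB_subset)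
    fun _ hr t => Abstract.canon_X hd _ hr t
  have hgen : S.Gen := Abstract.sys_gen _ _ _ _
  let φ : D.SteinbergCover K →* D.SteinbergGroup K := PresentedGroup.toGroup (f := fun x => PresentedGroup.of x)
    fun g hg => by
      rw [show FreeGroup.lift (fun x => PresentedGroup.of (rels := D.steinbergRels K) x) =
        PresentedGroup.mk (D.steinbergRels K) from FreeGroup.ext_hom _ _ fun x => by simp; rfl]
      exact Abstract.mk_eq_one (Abstract.relsAB_subset hg)
  let ψ : D.SteinbergGroup K →* D.SteinbergCover K := PresentedGroup.toGroup (f := fun x => PresentedGroup.of x)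
    fun g hg => by
      rw [show FreeGroup.lift (fun x => PresentedGroup.of (rels := D.steinbergRelsAB K) x) =
        PresentedGroup.mk (D.steinbergRelsAB K) from FreeGroup.ext_hom _ _ fun x => by simp; rfl]
      rcases hg with hg | ⟨r, t, u, hr, ht, hu, rfl⟩
      · exact Abstract.mk_eq_one hg
      · rw [map_mul, map_mul, map_inv, ← Abstract.sys_h hd subset_rfl (Abstract.canon hd Abstract.relsAB_subset)
          (fun _ hr t => Abstract.canon_X hd _ hr t), ← Abstract.sys_h hd subset_rfl (Abstract.canon hd Abstract.relsAB_subset)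
          (fun _ hr t => Abstract.canon_X hd _ hr t), ← Abstract.sys_h hd subset_rfl (Abstract.canon hd Abstract.relsAB_subset)
          (fun _ hr t => Abstract.canon_X hd _ hr t), mul_inv_eq_one]
        exact Univ.r3_all S hgen hr ht hu
  refine ⟨φ.toMulEquiv ψ (PresentedGroup.ext fun x => ?_) (PresentedGroup.ext fun x => ?_), fun r t => ?_⟩
  · simp [φ, ψ, PresentedGroup.toGroup.of]
  · simp [φ, ψ, PresentedGroup.toGroup.of]
  · show φ (D.scGen K r t) = D.stGen K r t
    unfold Cfsg.Lie.ChevalleyDatum.scGen Cfsg.Lie.ChevalleyDatum.stGen Cfsg.Lie.ChevalleyDatum.stX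
    split_ifs with h
    · exact PresentedGroup.toGroup.of _
    · simp

end Cfsg.Agent.S2397
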