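import Cfsg.Statements.S1079
import Cfsg.Agent.Lib.Chev.Univ.Multiplier
import Cfsg.Agent.S2397
open CfsgLib.Chev CfsgLib.Chev.Checks CfsgLib.Chev.Univ CfsgLib.Chev.Abstract

set_option autoImplicit false
open Cfsg

namespace Cfsg.Agent.S1079

/-- `|Z(Ḡ)| = gcd(3, q-1)` for E₆ and `gcd(2, q-1)` for E₇ over a field with `q` elements (the centre is dual to the weight lattice modulo the root lattice). -/
theorem result {K : Type*} [Field K] [Fintype K] {q : ℕ} (hq : Fintype.card K = q)
    (p : Cfsg.Lie.ChevalleyDatum × ℕ) (hp : p ∈ [(Cfsg.Lie.chevE6, 3), (Cfsg.Lie.chevE7, 2)]) :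
    Nat.card (Subgroup.center (p.1.SteinbergGroup K)) = Nat.gcd p.2 (q - 1) := by
  classical
  subst hq
  have key : ∀ (D : Cfsg.Lie.ChevalleyDatum) (hD : D ∈ dataList), D ∈ [Cfsg.Lie.chevE6, Cfsg.Lie.chevE7] →
      adjOK D = true →
      (∀ φ : (Fin D.rank → Kˣ) →* D.SteinbergCover K,
        (∀ i t, φ (Pi.mulSingle i t) = PresentedGroup.mk (D.steinbergRelsAB K) (D.stH (D.simple i) (t : K))) →
        ∀ c, Torus.torusHom D K c = 1 → φ c = 1 → c = 1) →
      Nat.card (Subgroup.center (D.SteinbergGroup K)) = Nat.card (Torus.torusKer D K) := by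
    intro D hD hmem hadj hinj
    obtain ⟨e, -⟩ := Cfsg.Agent.S2397.result (K := K) D (by
      simp only [List.mem_cons, List.not_mem_nil, or_false] at hmem ⊢; tauto) (fun h => by
      simp only [List.mem_cons, List.not_mem_nil, or_false] at hmem
      rcases hmem with rfl | rfl <;> exact absurd h (by simp [Cfsg.Lie.chevE6, Cfsg.Lie.chevE7, Cfsg.Lie.chevB2, Cfsg.Lie.chevG2]))
    rw [← Nat.card_congr (Subgroup.centerCongr e).toEquiv,
      ← ker_eq_center (F := K) hD subset_rfl (relsAB_subset (D := D)), onto_ker]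
    let S := sys hD (R := D.steinbergRelsAB K) subset_rfl (canon hD relsAB_subset) fun _ hr t => canon_X hD _ hr t
    have hgen : S.Gen := sys_gen _ _ _ _
    have hR3 : ∀ i, i < D.rank → ∀ t u : K, t ≠ 0 → u ≠ 0 →
        S.h (D.simple i) t * S.h (D.simple i) u = S.h (D.simple i) (t * u) := fun i hi t u ht hu => by
      simp only [adjOK, List.all_eq_true, List.any_eq_true, List.mem_range, beq_iff_eq] at hadj
      obtain ⟨j, hj, hij⟩ := hadj i hi
      exact r3 S hgen hi hj hij ht hu
    obtain ⟨φ, hφ, hθφ, hH⟩ := exists_phi S hR3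
    let ψ : Torus.torusKer D K →* S.θ.ker := (φ.comp (Torus.torusKer D K).subtype).codRestrict S.θ.ker fun c => by
      rw [MonoidHom.mem_ker]
      have h1 := congrArg (fun f => f (c : Fin D.rank → Kˣ)) hθφ
      exact h1.trans c.2
    have hψ : Function.Bijective ψ := by
      constructor
      · rw [injective_iff_map_eq_one]
        intro c hc
        exact Subtype.ext (hinj φ (fun i t => by rw [hφ, sys_h]) c c.2 (congrArg Subtype.val hc))
      · rintro ⟨g, hg⟩
        obtain ⟨c, rfl⟩ := hH (S.ker_le_Hbar hgen hg)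
        have h1 := congrArg (fun f => f c) hθφ
        exact ⟨⟨c, h1.symm.trans hg⟩, rfl⟩
    exact (Nat.card_congr (Equiv.ofBijective ψ hψ)).symm
  have h8 : Cfsg.Lie.chevE8 ∈ dataList := by simp [dataList]
  simp only [List.mem_cons, List.not_mem_nil, or_false] at hp
  rcases hp with rfl | rfl
  all_goals dsimp only
  · rw [key _ (by simp [dataList]) (by simp) (by decide +kernel) fun φ hφ c _ hc =>
      inj_of_sub (by simp [dataList]) h8 (cert_spec _ certE6_ok).2.1 (cert_spec _ certE8_ok).2.1 subE6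
        torus_injective_E8 φ hφ c hc, Torus.ker_E6]
    simp
  · rw [key _ (by simp [dataList]) (by simp) (by decide +kernel) fun φ hφ c _ hc =>
      inj_of_sub (by simp [dataList]) h8 (cert_spec _ certE7_ok).2.1 (cert_spec _ certE8_ok).2.1 subE7
        torus_injective_E8 φ hφ c hc, Torus.ker_E7]
    simp

end Cfsg.Agent.S1079
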