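import Cfsg.Statements.S1081
import Cfsg.Agent.Lib.Chev.Aut.GraphExist
open CfsgLib.Chev CfsgLib.Chev.Checks CfsgLib.Chev.Aut

set_option autoImplicit false
open Cfsg

namespace Cfsg.Agent.S1081

/-- Graph automorphisms: for E₆ with ρ = (p₁ p₆)(p₃ p₅) and for D₄ with ρ the 3-cycle on the outer nodes there is a group automorphism sending `x_p(t) ↦ x_{ρ(p)}(t)` and `x_{-p}(t) ↦ x_{-ρ(p)}(t)` for every fundamental root `p`. -/
theorem result {F : Type*} [Field F] (p : Cfsg.Lie.ChevalleyDatum × List ℕ)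
    (hp : p ∈ [(Cfsg.Lie.chevE6, [5, 1, 4, 3, 2, 0]), (Cfsg.Lie.chevD4, [2, 1, 3, 0]), (Cfsg.Lie.chevD4, [3, 1, 0, 2])]) :
    ∃ α : ↥(p.1.group F) ≃* ↥(p.1.group F), ∀ (g : ↥(p.1.group F)) (i : ℕ) (t : F), i < p.1.rank →
      (((g : GL p.1.Idx F) : Matrix p.1.Idx p.1.Idx F) = p.1.x F (p.1.simple i) t →
        ((α g : GL p.1.Idx F) : Matrix p.1.Idx p.1.Idx F) = p.1.x F (p.1.simple (p.2.getD i 0)) t) ∧
      (((g : GL p.1.Idx F) : Matrix p.1.Idx p.1.Idx F) = p.1.x F (p.1.neg (p.1.simple i)) t →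
        ((α g : GL p.1.Idx F) : Matrix p.1.Idx p.1.Idx F) = p.1.x F (p.1.neg (p.1.simple (p.2.getD i 0))) t) := by
  classical
  have node : ∀ (D : Cfsg.Lie.ChevalleyDatum) (hD : D ∈ dataList) (G : GraphData),
      relOK D G 0 = true → dataOK D G 1 = true → ∀ l : List ℕ,
      ((List.range D.rank).all fun i => decide (l.getD i 0 < D.rank) && gRoot G (D.simple i) == D.simple (l.getD i 0) &&
        gRoot G (D.neg (D.simple i)) == D.neg (D.simple (l.getD i 0)) && gSign G (D.simple i) == 1 &&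
        gSign G (D.neg (D.simple i)) == 1 && gExpo G (D.simple i) == 1 && gExpo G (D.neg (D.simple i)) == 1) = true →
      ∃ φ : MulAut ↥(D.group F), ∀ i, i < D.rank → l.getD i 0 < D.rank ∧ ∀ t : F,
        φ (xe hD (D.simple i) t) = xe hD (D.simple (l.getD i 0)) t ∧
        φ (xe hD (D.neg (D.simple i)) t) = xe hD (D.neg (D.simple (l.getD i 0))) t := by
    intro D hD G h1 h2 l hl
    simp only [List.all_eq_true, List.mem_range, Bool.and_eq_true, beq_iff_eq, decide_eq_true_eq] at hl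
    obtain ⟨φ, hφ⟩ := exists_graph' (F := F) hD G 1 0 Int.cast_zero (fun h => absurd h (by norm_num))
      (fun h => absurd h (by norm_num)) h1 h2
    refine ⟨φ, fun i hi => ?_⟩
    obtain ⟨⟨⟨⟨⟨⟨a, b⟩, c⟩, d⟩, e⟩, f⟩, g⟩ := hl i hi
    refine ⟨a, fun t => ⟨?_, ?_⟩⟩
    · rw [hφ _ (Rel.simple_lt hD hi), b, d, f]; simp
    · rw [hφ _ (Checks.neg_lt hD (Rel.simple_lt hD hi)), c, e, g]; simp
  have fin : ∀ (D : Cfsg.Lie.ChevalleyDatum) (hD : D ∈ dataList) (φ : MulAut ↥(D.group F)) (m : ℕ → ℕ),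
      (∀ i, i < D.rank → ∀ t : F, φ (xe hD (D.simple i) t) = xe hD (D.simple (m i)) t ∧
        φ (xe hD (D.neg (D.simple i)) t) = xe hD (D.neg (D.simple (m i))) t) →
      ∃ α : ↥(D.group F) ≃* ↥(D.group F), ∀ (g : ↥(D.group F)) (i : ℕ) (t : F), i < D.rank →
      (((g : GL D.Idx F) : Matrix D.Idx D.Idx F) = D.x F (D.simple i) t →
        ((α g : GL D.Idx F) : Matrix D.Idx D.Idx F) = D.x F (D.simple (m i)) t) ∧
      (((g : GL D.Idx F) : Matrix D.Idx D.Idx F) = D.x F (D.neg (D.simple i)) t →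
        ((α g : GL D.Idx F) : Matrix D.Idx D.Idx F) = D.x F (D.neg (D.simple (m i))) t) := by
    intro D hD φ m h
    refine ⟨φ, fun g i t hi => ⟨fun hg => ?_, fun hg => ?_⟩⟩
    · obtain rfl : g = xe hD (D.simple i) t := Subtype.ext (Units.ext (hg.trans (xe_mat hD _ t).symm))
      rw [(h i hi t).1]; exact xe_mat hD _ t
    · obtain rfl : g = xe hD (D.neg (D.simple i)) t := Subtype.ext (Units.ext (hg.trans (xe_mat hD _ t).symm))
      rw [(h i hi t).2]; exact xe_mat hD _ t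
  have h4 : Cfsg.Lie.chevD4 ∈ dataList := by simp [dataList]
  have h6 : Cfsg.Lie.chevE6 ∈ dataList := by simp [dataList]
  simp only [List.mem_cons, List.not_mem_nil, or_false] at hp
  rcases hp with rfl | rfl | rfl
  all_goals dsimp only
  · obtain ⟨φ, hφ⟩ := node _ h6 GData.e6 GData.e6_ok.1 GData.e6_ok.2 [5, 1, 4, 3, 2, 0] (by decide +kernel)
    exact fin _ h6 φ _ fun i hi => (hφ i hi).2
  all_goals
    obtain ⟨a, ha⟩ := node _ h4 GData.d4a GData.d4a_ok.1 GData.d4a_ok.2 [2, 1, 0, 3] (by decide +kernel)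
    obtain ⟨b, hb⟩ := node _ h4 GData.d4b GData.d4b_ok.1 GData.d4b_ok.2 [0, 1, 3, 2] (by decide +kernel)
  · refine fin _ h4 (b.trans a) (fun i => [2, 1, 3, 0].getD i 0) fun i hi t => ?_
    obtain ⟨h, hb'⟩ := hb i hi
    obtain ⟨-, ha'⟩ := ha _ h
    have e : [2, 1, 0, 3].getD ([0, 1, 3, 2].getD i 0) 0 = [2, 1, 3, 0].getD i 0 := by
      replace hi : i < 4 := hi
      interval_cases i <;> rfl
    simp only [MulEquiv.trans_apply, (hb' t).1, (hb' t).2, (ha' t).1, (ha' t).2, e, and_self]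
  · refine fin _ h4 (a.trans b) (fun i => [3, 1, 0, 2].getD i 0) fun i hi t => ?_
    obtain ⟨h, ha'⟩ := ha i hi
    obtain ⟨-, hb'⟩ := hb _ h
    have e : [0, 1, 3, 2].getD ([2, 1, 0, 3].getD i 0) 0 = [3, 1, 0, 2].getD i 0 := by
      replace hi : i < 4 := hi
      interval_cases i <;> rfl
    simp only [MulEquiv.trans_apply, (hb' t).1, (hb' t).2, (ha' t).1, (ha' t).2, e, and_self]

end Cfsg.Agent.S1081
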