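import Cfsg.Statements.S1092
import Mathlib
import Cfsg.Agent.Lib.Chev.Group.WeylGroup

set_option autoImplicit false
open Cfsg

namespace Cfsg.Agent.S1092

open Cfsg.Lie CfsgLib.Chev
/-- extension of a matrix to all indices -/
def ext {n : ℕ} (M : CoxeterMatrix (Fin n)) (i j : ℕ) : ℕ :=
  if h : i < n then (if h' : j < n then M ⟨i, h⟩ ⟨j, h'⟩ else 1) else 1

/-- `|W(B₂)| = 8`, `|W(G₂)| = 12`, `|W(D₄)| = 192`, `|W(F₄)| = 1152` for the groups presented by the Coxeter matrices (the product of the degrees of the basic invariants). -/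
theorem result (p : (Σ n : ℕ, CoxeterMatrix (Fin n)) × ℕ)
    (hp : p ∈ [(⟨2, CoxeterMatrix.B 2⟩, 8), (⟨2, CoxeterMatrix.G₂⟩, 12), (⟨4, Cfsg.Lie.coxeterD4⟩, 192), (⟨4, CoxeterMatrix.F₄⟩, 1152)]) :
    Nat.card p.1.2.Group = p.2 := by
  have key : ∀ (D : Cfsg.Lie.ChevalleyDatum) (hD : D ∈ Checks.dataList) {T : Tables.Tab} {R : List ℕ}
      {reps : List (List (List ℕ))}, Tables.Valid D T → Lin.ValidL D T R → Weyl.weylOK D T R reps = true →
      ∀ M : CoxeterMatrix (Fin D.rank), WeylGroup.matrixOK D T (ext M) = true → ∀ n : ℕ,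
      (Weyl.words reps D.rank).length = n → Nat.card M.Group = n :=
    fun D hD T R reps hT hL hW M hok n hn => hn ▸ WeylGroup.card_coxeter hD hT hL hW M (ext M) (fun i j => by simp [ext]) hok
  simp only [List.mem_cons, List.not_mem_nil, or_false] at hp
  rcases hp with rfl | rfl | rfl | rfl
  · exact key Cfsg.Lie.chevB2 (by simp [Checks.dataList]) Data.B2.valid Data.B2.validL Data.B2.weyl_ok (CoxeterMatrix.B 2) (by decide +kernel) 8 (by decide +kernel)
  · exact key Cfsg.Lie.chevG2 (by simp [Checks.dataList]) Data.G2.valid Data.G2.validL Data.G2.weyl_ok CoxeterMatrix.G₂ (by decide +kernel) 12 (by decide +kernel)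
  · exact key Cfsg.Lie.chevD4 (by simp [Checks.dataList]) Data.D4.valid Data.D4.validL Data.D4.weyl_ok Cfsg.Lie.coxeterD4 (by decide +kernel) 192 (by decide +kernel)
  · exact key Cfsg.Lie.chevF4 (by simp [Checks.dataList]) Data.F4.valid Data.F4.validL Data.F4.weyl_ok CoxeterMatrix.F₄ (by decide +kernel) 1152 (by decide +kernel)

end Cfsg.Agent.S1092
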