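import Cfsg.Statements.S1093
import Cfsg.Agent.Lib.Chev.Group.WeylGroup
import Cfsg.Agent.Lib.Chev.Data.E6Weyl
import Cfsg.Agent.Lib.Chev.Data.E7Weyl
import Cfsg.Agent.Lib.Chev.Data.E8Weyl
import Cfsg.Agent.Lib.Chev.Data.E6
import Cfsg.Agent.Lib.Chev.Data.E7
import Cfsg.Agent.Lib.Chev.Data.E8
open Cfsg.Lie CfsgLib.Chev

set_option autoImplicit false
open Cfsg

namespace Cfsg.Agent.S1093

/-- `|W(E₆)| = 51840`, `|W(E₇)| = 2903040`, `|W(E₈)| = 696729600` for Mathlib's presented Coxeter groups. -/
theorem result (p : (Σ n : ℕ, CoxeterMatrix (Fin n)) × ℕ)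
    (hp : p ∈ [(⟨6, CoxeterMatrix.E₆⟩, 51840), (⟨7, CoxeterMatrix.E₇⟩, 2903040), (⟨8, CoxeterMatrix.E₈⟩, 696729600)]) :
    Nat.card p.1.2.Group = p.2 := by
  classical
  have hlen : ∀ (reps : List (List (List ℕ))) (k : ℕ),
      (Weyl.words reps k).length = ((List.range k).map fun i => (reps.getD i []).length).prod := by
    intro reps k
    induction k with
    | zero => simp [Weyl.words]
    | succ k ih =>
      rw [Weyl.words, List.length_flatMap, List.range_succ, List.map_append, List.prod_append, List.map_singleton,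
        List.prod_singleton, ← ih]
      simp [List.map_const', List.sum_replicate, mul_comm]
  have key : ∀ (D : Cfsg.Lie.ChevalleyDatum) (hD : D ∈ Checks.dataList) {T : Tables.Tab} {R : List ℕ}
      {reps : List (List (List ℕ))}, Tables.Valid D T → Lin.ValidL D T R → Weyl.weylOK D T R reps = true →
      ∀ (M : CoxeterMatrix (Fin D.rank)),
      WeylGroup.matrixOK D T (fun i j => if h : i < D.rank then (if h' : j < D.rank then M ⟨i, h⟩ ⟨j, h'⟩ else 1) else 1) = true →
      ∀ n : ℕ, ((List.range D.rank).map fun i => (reps.getD i []).length).prod = n → Nat.card M.Group = n :=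
    fun D hD T R reps hT hL hW M hok n hn => by
      rw [WeylGroup.card_coxeter hD hT hL hW M _ (fun i j => by simp) hok, hlen, hn]
  simp only [List.mem_cons, List.not_mem_nil, or_false] at hp
  rcases hp with rfl | rfl | rfl
  · exact key Cfsg.Lie.chevE6 (by simp [Checks.dataList]) Data.E6.valid Data.E6.validL Data.E6.weyl_ok CoxeterMatrix.E₆ (by decide +kernel) _ (by decide +kernel)
  · exact key Cfsg.Lie.chevE7 (by simp [Checks.dataList]) Data.E7.valid Data.E7.validL Data.E7.weyl_ok CoxeterMatrix.E₇ (by decide +kernel) _ (by decide +kernel)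
  · exact key Cfsg.Lie.chevE8 (by simp [Checks.dataList]) Data.E8.valid Data.E8.validL Data.E8.weyl_ok CoxeterMatrix.E₈ (by decide +kernel) _ (by decide +kernel)

end Cfsg.Agent.S1093
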