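import Cfsg.Statements.S1094
import Cfsg.Agent.Lib.Chev.Weyl.CoxeterWord
import Cfsg.Agent.Lib.Chev.Data.B2
import Cfsg.Agent.Lib.Chev.Data.G2
import Cfsg.Agent.Lib.Chev.Data.D4
import Cfsg.Agent.Lib.Chev.Data.F4
import Cfsg.Agent.Lib.Chev.Data.E6
import Cfsg.Agent.Lib.Chev.Data.E7
import Cfsg.Agent.Lib.Chev.Data.E8
open Cfsg.Lie CfsgLib.Chev CfsgLib.Chev.CoxeterWord

set_option autoImplicit false
open Cfsg

namespace Cfsg.Agent.S1094

/-- The Coxeter element `s₁ s₂ ⋯ s_l` of the Coxeter group of type B₂, G₂, D₄, F₄, E₆, E₇, E₈ has order `h = 2N/l` = 4, 6, 6, 12, 12, 18, 30. -/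
theorem result (p : (Σ n : ℕ, CoxeterMatrix (Fin n)) × ℕ)
    (hp : p ∈ [(⟨2, CoxeterMatrix.B 2⟩, 4), (⟨2, CoxeterMatrix.G₂⟩, 6), (⟨4, Cfsg.Lie.coxeterD4⟩, 6), (⟨4, CoxeterMatrix.F₄⟩, 12),
      (⟨6, CoxeterMatrix.E₆⟩, 12), (⟨7, CoxeterMatrix.E₇⟩, 18), (⟨8, CoxeterMatrix.E₈⟩, 30)]) :
    orderOf ((List.finRange p.1.1).map p.1.2.simple).prod = p.2 := by
  classical
  have key : ∀ (D : Cfsg.Lie.ChevalleyDatum) (hD : D ∈ Checks.dataList) {T : Tables.Tab}, Tables.Valid D T →
      ∀ (M : CoxeterMatrix (Fin D.rank)), WeylGroup.matrixOK D T (ext M) = true → ∀ o : ℕ, 0 < o →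
      (same D T ((powWord (List.finRange D.rank) o).map Fin.val) [] &&
        (List.range o).all fun k => k == 0 || !(same D T ((powWord (List.finRange D.rank) k).map Fin.val) [])) = true →
      orderOf ((List.finRange D.rank).map M.simple).prod = o := by
    intro D hD T hT M hok o ho h
    simp only [Bool.and_eq_true, List.all_eq_true, List.mem_range, Bool.or_eq_true, beq_iff_eq, Bool.not_eq_true'] at h
    obtain ⟨h1, h2⟩ := h
    refine (orderOf_eq_iff ho).2 ⟨?_, fun k hk hk0 e => ?_⟩
    · rw [← prod_powWord]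
      have := eq_of_same hD hT M hok (powWord (List.finRange D.rank) o) [] h1
      simpa using this
    · rw [← prod_powWord, eq_one_iff hD hT M hok] at e
      rcases h2 k hk with h | h
      · omega
      · have : same D T ((powWord (List.finRange D.rank) k).map Fin.val) [] = true := by
          simp only [same, List.reverse_nil, List.append_nil, List.all_eq_true, List.mem_range, beq_iff_eq]
          exact e
        rw [this] at h; exact absurd h (by simp)
  simp only [List.mem_cons, List.not_mem_nil, or_false] at hp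
  rcases hp with rfl | rfl | rfl | rfl | rfl | rfl | rfl
  · exact key Cfsg.Lie.chevB2 (by simp [Checks.dataList]) Data.B2.valid (CoxeterMatrix.B 2) (by decide +kernel) _ (by norm_num) (by decide +kernel)
  · exact key Cfsg.Lie.chevG2 (by simp [Checks.dataList]) Data.G2.valid CoxeterMatrix.G₂ (by decide +kernel) _ (by norm_num) (by decide +kernel)
  · exact key Cfsg.Lie.chevD4 (by simp [Checks.dataList]) Data.D4.valid Cfsg.Lie.coxeterD4 (by decide +kernel) _ (by norm_num) (by decide +kernel)
  · exact key Cfsg.Lie.chevF4 (by simp [Checks.dataList]) Data.F4.valid CoxeterMatrix.F₄ (by decide +kernel) _ (by norm_num) (by decide +kernel)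
  · exact key Cfsg.Lie.chevE6 (by simp [Checks.dataList]) Data.E6.valid CoxeterMatrix.E₆ (by decide +kernel) _ (by norm_num) (by decide +kernel)
  · exact key Cfsg.Lie.chevE7 (by simp [Checks.dataList]) Data.E7.valid CoxeterMatrix.E₇ (by decide +kernel) _ (by norm_num) (by decide +kernel)
  · exact key Cfsg.Lie.chevE8 (by simp [Checks.dataList]) Data.E8.valid CoxeterMatrix.E₈ (by decide +kernel) _ (by norm_num) (by decide +kernel)

end Cfsg.Agent.S1094
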