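import Cfsg.Statements.S1095
import Mathlib
import Cfsg.Agent.Lib.Chev.Group.N

set_option autoImplicit false
open Cfsg

namespace Cfsg.Agent.S1095

open Cfsg.Lie CfsgLib.Chev

/-- `n_p` (p = p_{i+1} fundamental) is the signed monomial matrix `h_{p_j} ↦ h_{p_j} - A_{p_j,p} h_p`, `e_s ↦ η_s e_{w_p(s)}`, with `η_s = ±1`, `η_p = η_{-p} = -1`, `η_s η_{w_p(s)} = (-1)^{A_{p,s}}`, `η_s η_{-s} = 1`. -/
theorem result {F : Type*} [Field F] (D : Cfsg.Lie.ChevalleyDatum) (hD : D ∈ [Cfsg.Lie.chevG2, Cfsg.Lie.chevB2, Cfsg.Lie.chevD4, Cfsg.Lie.chevF4, Cfsg.Lie.chevE6, Cfsg.Lie.chevE7, Cfsg.Lie.chevE8]) (i : ℕ) (hi : i < D.rank) :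
    ∃ η : ℕ → ℤ, (∀ s < D.nroots, η s = 1 ∨ η s = -1) ∧ η (D.simple i) = -1 ∧ η (D.neg (D.simple i)) = -1 ∧
      (∀ s < D.nroots, η s * η (D.reflectRoot i s) = (-1) ^ (D.cartan i s).natAbs ∧ η s * η (D.neg s) = 1) ∧
      D.nMat F (D.simple i) 1 = Matrix.of (fun (row col : D.Idx) =>
        Sum.elim
          (fun j' : Fin D.rank => Sum.elim
            (fun j : Fin D.rank => (if j' = j then (1 : F) else 0) - (if (j' : ℕ) = i then ((D.cartan j (D.simple i) : ℤ) : F) else 0))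
            (fun _ => (0 : F)) col)
          (fun s' : Fin D.nroots => Sum.elim
            (fun _ => (0 : F))
            (fun s : Fin D.nroots => if (s' : ℕ) = D.reflectRoot i s then ((η s : ℤ) : F) else 0) col)
          row) := by
  have R := Rel.refl hD hi
  refine ⟨Rel.eta hD i, fun s _ => Rel.eta_cases hD i s, R.eta_p, ?_, fun s hs => ⟨?_, ?_⟩, ?_⟩
  · unfold Rel.eta; rw [R.eta_neg _ (Rel.simple_lt hD hi)]; exact R.eta_p
  · rw [← R.eq s hs]; exact R.eta_mul s hs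
  · unfold Rel.eta; rw [R.eta_neg s hs]
    rcases Tables.eta_cases (T := Rel.tab hD) i s with h | h <;> simp [h]
  · refine Sem.ext_e fun k hk => ?_
    by_cases hkr : k < D.rank
    · rw [Rel.nMat_inl hD hi one_ne_zero hkr, show Sem.e D F k = Sem.e D F (⟨k, hkr⟩ : Fin D.rank).val from rfl,
        show Sem.e D F i = Sem.e D F (⟨i, hi⟩ : Fin D.rank).val from rfl, Sem.e_inl, Sem.e_inl, Matrix.mulVec_single_one]
      funext a
      rcases a with j | s
      · simp [Matrix.col_apply, Pi.single_apply, Fin.ext_iff]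
      · simp [Matrix.col_apply]
    · obtain ⟨s, hs, rfl⟩ : ∃ s < D.nroots, k = D.rank + s := ⟨k - D.rank, by omega, by omega⟩
      rw [Rel.nMat_inr hD hi one_ne_zero hs, Sem.e_inr' hs, Sem.e_inr' (Rel.reflectRoot_lt hD hi hs),
        Matrix.mulVec_single_one]
      funext a
      rcases a with j | u
      · simp [Matrix.col_apply]
      · simp [Matrix.col_apply, Pi.single_apply, Fin.ext_iff]

end Cfsg.Agent.S1095
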