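import Cfsg.Statements.S1097
import Mathlib
import Cfsg.Agent.Lib.Chev.Abstract.Present

set_option autoImplicit false
open Cfsg

namespace Cfsg.Agent.S1097

/-- Any homomorphism from the presented group to the Chevalley group with `x̄_r(t) ↦ x_r(t)` has kernel contained in `H̄ = ⟨h̄_p(t) : p fundamental, t ≠ 0⟩`. -/
theorem result {K : Type*} [Field K] (D : Cfsg.Lie.ChevalleyDatum) (hD : D ∈ [Cfsg.Lie.chevG2, Cfsg.Lie.chevB2, Cfsg.Lie.chevD4, Cfsg.Lie.chevF4, Cfsg.Lie.chevE6, Cfsg.Lie.chevE7, Cfsg.Lie.chevE8]) (θ : D.SteinbergGroup K →* ↥(D.group K))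
    (hθ : ∀ (r : ℕ) (t : K), r < D.nroots → ((θ (D.stGen K r t) : GL D.Idx K) : Matrix D.Idx D.Idx K) = D.x K r t) :
    θ.ker ≤ Subgroup.closure {h | ∃ (i : ℕ) (t : K), i < D.rank ∧ t ≠ 0 ∧ h = PresentedGroup.mk (D.steinbergRels K) (D.stH (D.simple i) t)} := by
  open CfsgLib.Chev in
  have hθ' : ∀ r, r < D.nroots → ∀ t : K, ((D.group K).subtype.comp θ) (D.stGen K r t) = Basic.xGL hD K r t :=
    fun r hr t => Units.ext ((hθ r t hr).trans (Basic.xGL_val hD r t).symm)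
  let S := CfsgLib.Chev.Abstract.sys hD (CfsgLib.Chev.Abstract.relsAB_subset (D := D) (F := K))
    ((D.group K).subtype.comp θ) hθ'
  intro g hg
  have h : g ∈ S.θ.ker := by
    rw [MonoidHom.mem_ker] at hg ⊢
    show ((θ g : ↥(D.group K)) : GL D.Idx K) = 1
    rw [hg]; rfl
  refine (Subgroup.closure_mono ?_) (S.ker_le_Hbar (CfsgLib.Chev.Abstract.sys_gen _ _ _ _) h)
  rintro x ⟨i, t, hi, ht, rfl⟩
  exact ⟨i, t, hi, ht, CfsgLib.Chev.Abstract.sys_h _ _ _ _ _ _⟩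

end Cfsg.Agent.S1097
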