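import Cfsg.Statements.S1098
import Cfsg.Agent.Lib.Chev.Aut.GraphExist
open CfsgLib.Chev CfsgLib.Chev.Checks CfsgLib.Chev.Aut

set_option autoImplicit false
open Cfsg

namespace Cfsg.Agent.S1098

/-- Graph automorphisms in characteristic 2 (K perfect): for B₂ (a short, b long) `x_a(t) ↦ x_b(t²)`, `x_b(t) ↦ x_a(t)`, and for F₄ (p₁, p₂ short, p₃, p₄ long) `x_{p₁}(t) ↦ x_{p₄}(t²)`, `x_{p₂}(t) ↦ x_{p₃}(t²)`, `x_{p₃}(t) ↦ x_{p₂}(t)`, `x_{p₄}(t) ↦ x_{p₁}(t)`, likewise on the negatives, extend to an automorphism of the group. -/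
theorem result {K : Type*} [Field K] [CharP K 2] (hperf : ∀ x : K, ∃ y : K, y ^ 2 = x)
    (p : Cfsg.Lie.ChevalleyDatum × List (ℕ × ℕ))
    (hp : p ∈ [(Cfsg.Lie.chevB2, [(1, 2), (0, 1)]), (Cfsg.Lie.chevF4, [(3, 2), (2, 2), (1, 1), (0, 1)])]) :
    ∃ α : ↥(p.1.group K) ≃* ↥(p.1.group K), ∀ (g : ↥(p.1.group K)) (i : ℕ) (t : K), i < p.1.rank →
      (((g : GL p.1.Idx K) : Matrix p.1.Idx p.1.Idx K) = p.1.x K (p.1.simple i) t →
        ((α g : GL p.1.Idx K) : Matrix p.1.Idx p.1.Idx K) = p.1.x K (p.1.simple (p.2.getD i (0, 1)).1) (t ^ (p.2.getD i (0, 1)).2)) ∧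
      (((g : GL p.1.Idx K) : Matrix p.1.Idx p.1.Idx K) = p.1.x K (p.1.neg (p.1.simple i)) t →
        ((α g : GL p.1.Idx K) : Matrix p.1.Idx p.1.Idx K) = p.1.x K (p.1.neg (p.1.simple (p.2.getD i (0, 1)).1)) (t ^ (p.2.getD i (0, 1)).2)) := by
  classical
  have node : ∀ (D : Cfsg.Lie.ChevalleyDatum) (hD : D ∈ dataList) (G : GraphData),
      relOK D G 2 = true → dataOK D G 2 = true → ∀ l : List (ℕ × ℕ),
      ((List.range D.rank).all fun i => gRoot G (D.simple i) == D.simple (l.getD i (0, 1)).1 &&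
        gRoot G (D.neg (D.simple i)) == D.neg (D.simple (l.getD i (0, 1)).1) && gSign G (D.simple i) == 1 &&
        gSign G (D.neg (D.simple i)) == 1 && gExpo G (D.simple i) == (l.getD i (0, 1)).2 &&
        gExpo G (D.neg (D.simple i)) == (l.getD i (0, 1)).2) = true →
      ∃ α : ↥(D.group K) ≃* ↥(D.group K), ∀ (g : ↥(D.group K)) (i : ℕ) (t : K), i < D.rank →
      (((g : GL D.Idx K) : Matrix D.Idx D.Idx K) = D.x K (D.simple i) t →
        ((α g : GL D.Idx K) : Matrix D.Idx D.Idx K) = D.x K (D.simple (l.getD i (0, 1)).1) (t ^ (l.getD i (0, 1)).2)) ∧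
      (((g : GL D.Idx K) : Matrix D.Idx D.Idx K) = D.x K (D.neg (D.simple i)) t →
        ((α g : GL D.Idx K) : Matrix D.Idx D.Idx K) = D.x K (D.neg (D.simple (l.getD i (0, 1)).1)) (t ^ (l.getD i (0, 1)).2)) := by
    intro D hD G h1 h2 l hl
    simp only [List.all_eq_true, List.mem_range, Bool.and_eq_true, beq_iff_eq] at hl
    obtain ⟨φ, hφ⟩ := exists_graph' (F := K) hD G 2 2 (by exact_mod_cast CharP.cast_eq_zero K 2)
      (fun _ => ⟨inferInstance, Nat.prime_two⟩) (fun _ => hperf) h1 h2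
    refine ⟨φ, fun g i t hi => ?_⟩
    obtain ⟨⟨⟨⟨⟨b, c⟩, d⟩, e⟩, f⟩, g'⟩ := hl i hi
    refine ⟨fun hg => ?_, fun hg => ?_⟩
    · obtain rfl : g = xe hD (D.simple i) t := Subtype.ext (Units.ext (hg.trans (xe_mat hD _ t).symm))
      rw [hφ _ (Rel.simple_lt hD hi), b, d, f, Int.cast_one, one_mul]; exact xe_mat hD _ _
    · obtain rfl : g = xe hD (D.neg (D.simple i)) t := Subtype.ext (Units.ext (hg.trans (xe_mat hD _ t).symm))
      rw [hφ _ (Checks.neg_lt hD (Rel.simple_lt hD hi)), c, e, g', Int.cast_one, one_mul]; exact xe_mat hD _ _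
  simp only [List.mem_cons, List.not_mem_nil, or_false] at hp
  rcases hp with rfl | rfl
  · exact node _ (by simp [dataList]) GData.b2 GData.b2_ok.1 GData.b2_ok.2 _ (by decide +kernel)
  · exact node _ (by simp [dataList]) GData.f4 GData.f4_ok.1 GData.f4_ok.2 _ (by decide +kernel)

end Cfsg.Agent.S1098
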