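import Cfsg.Statements.S1099
import Cfsg.Agent.Lib.Chev.Aut.GraphExist
open CfsgLib.Chev CfsgLib.Chev.Checks CfsgLib.Chev.Aut

set_option autoImplicit false
open Cfsg

namespace Cfsg.Agent.S1099

/-- Graph automorphism of G₂ in characteristic 3 (K perfect): `x_a(t) ↦ x_b(t³)`, `x_b(t) ↦ x_a(t)`, `x_{-a}(t) ↦ x_{-b}(t³)`, `x_{-b}(t) ↦ x_{-a}(t)` extend to an automorphism of the group. -/
theorem result {K : Type*} [Field K] [CharP K 3] (hperf : ∀ x : K, ∃ y : K, y ^ 3 = x) :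
    ∃ α : ↥(Cfsg.Lie.chevG2.group K) ≃* ↥(Cfsg.Lie.chevG2.group K), ∀ (g : ↥(Cfsg.Lie.chevG2.group K)) (t : K),
      (((g : GL Cfsg.Lie.chevG2.Idx K) : Matrix _ _ K) = Cfsg.Lie.chevG2.x K Cfsg.Lie.g2a t →
        ((α g : GL Cfsg.Lie.chevG2.Idx K) : Matrix _ _ K) = Cfsg.Lie.chevG2.x K Cfsg.Lie.g2b (t ^ 3)) ∧
      (((g : GL Cfsg.Lie.chevG2.Idx K) : Matrix _ _ K) = Cfsg.Lie.chevG2.x K Cfsg.Lie.g2b t →
        ((α g : GL Cfsg.Lie.chevG2.Idx K) : Matrix _ _ K) = Cfsg.Lie.chevG2.x K Cfsg.Lie.g2a t) ∧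
      (((g : GL Cfsg.Lie.chevG2.Idx K) : Matrix _ _ K) = Cfsg.Lie.chevG2.x K Cfsg.Lie.g2ma t →
        ((α g : GL Cfsg.Lie.chevG2.Idx K) : Matrix _ _ K) = Cfsg.Lie.chevG2.x K Cfsg.Lie.g2mb (t ^ 3)) ∧
      (((g : GL Cfsg.Lie.chevG2.Idx K) : Matrix _ _ K) = Cfsg.Lie.chevG2.x K Cfsg.Lie.g2mb t →
        ((α g : GL Cfsg.Lie.chevG2.Idx K) : Matrix _ _ K) = Cfsg.Lie.chevG2.x K Cfsg.Lie.g2ma t) := by
  classical
  have hD : Cfsg.Lie.chevG2 ∈ dataList := by simp [dataList]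
  obtain ⟨φ, hφ⟩ := exists_graph' (F := K) hD GData.g2 3 3 (by exact_mod_cast CharP.cast_eq_zero K 3)
    (fun _ => ⟨inferInstance, Nat.prime_three⟩) (fun _ => hperf) GData.g2_ok.1 GData.g2_ok.2
  refine ⟨φ, fun g t => ⟨fun hg => ?_, fun hg => ?_, fun hg => ?_, fun hg => ?_⟩⟩
  all_goals
    obtain rfl : g = xe hD _ t := Subtype.ext (Units.ext (hg.trans (xe_mat hD _ t).symm))
    rw [hφ _ (by decide +kernel)]
  all_goals rw [xe_mat]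
  · rw [show gRoot GData.g2 Cfsg.Lie.g2a = Cfsg.Lie.g2b from rfl, show gSign GData.g2 Cfsg.Lie.g2a = 1 from rfl,
      show gExpo GData.g2 Cfsg.Lie.g2a = 3 from rfl, Int.cast_one, one_mul]
  · rw [show gRoot GData.g2 Cfsg.Lie.g2b = Cfsg.Lie.g2a from rfl, show gSign GData.g2 Cfsg.Lie.g2b = 1 from rfl,
      show gExpo GData.g2 Cfsg.Lie.g2b = 1 from rfl, Int.cast_one, one_mul, pow_one]
  · rw [show gRoot GData.g2 Cfsg.Lie.g2ma = Cfsg.Lie.g2mb from rfl, show gSign GData.g2 Cfsg.Lie.g2ma = 1 from rfl,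
      show gExpo GData.g2 Cfsg.Lie.g2ma = 3 from rfl, Int.cast_one, one_mul]
  · rw [show gRoot GData.g2 Cfsg.Lie.g2mb = Cfsg.Lie.g2ma from rfl, show gSign GData.g2 Cfsg.Lie.g2mb = 1 from rfl,
      show gExpo GData.g2 Cfsg.Lie.g2mb = 1 from rfl, Int.cast_one, one_mul, pow_one]

end Cfsg.Agent.S1099
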