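import Cfsg.Statements.S1118
import Cfsg.Agent.Lib.RankOne.Setup

set_option autoImplicit false
open Cfsg

namespace Cfsg.Agent.S1118

open CfsgLib.RankOne

/-- In the rank-one set-up (`G` finite and doubly transitive on `Ω`, `t` an involution moving `a`, `Q` normal in `G_a` with `G_a = Q D`, `Q ⊓ D = 1` for the two-point stabiliser `D = G_a ⊓ G_{t • a}`, `|Q|` even, `|D|` odd), the normaliser of a subset of `Q` containing a non-identity element lies in `G_a`; consequently `N_G(Q) = N_G(G_a) = G_a`. -/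
theorem result {G Ω : Type*} [Group G] [Finite G] [MulAction G Ω] {a : Ω} {t : G} {Q : Subgroup G}
    (hS : Cfsg.IsRankOneSetup G Ω a t Q) :
    (∀ X : Set G, X ⊆ (Q : Set G) → (∃ x ∈ X, x ≠ 1) → Subgroup.normalizer X ≤ MulAction.stabilizer G a) ∧
      Subgroup.normalizer (Q : Set G) = MulAction.stabilizer G a ∧
      Subgroup.normalizer (MulAction.stabilizer G a : Set G) = MulAction.stabilizer G a := by
  have hn : ∀ X : Set G, X ⊆ (Q : Set G) → (∃ x ∈ X, x ≠ 1) →
      Subgroup.normalizer X ≤ MulAction.stabilizer G a := by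
    intro X hX hne g hg
    obtain ⟨x, hx, hx1⟩ := hne
    have h1 : g⁻¹ * x * g ∈ X := (Subgroup.mem_set_normalizer_iff''.1 hg x).1 hx
    have h2 : x • (g • a) = g • a := by
      have e := Q_fix_a hS (hX h1)
      rw [mul_smul, mul_smul, inv_smul_eq_iff] at e
      exact e
    exact Q_fix_only hS (hX hx) hx1 h2
  have hQne : ∃ x ∈ (Q : Set G), x ≠ 1 := by
    obtain ⟨s, hs, hs1, -⟩ := exists_involution_Q hS
    exact ⟨s, hs, hs1⟩
  refine ⟨hn, le_antisymm (hn _ subset_rfl hQne) ?_, le_antisymm ?_ Subgroup.le_normalizer⟩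
  · intro g hg
    rw [Subgroup.mem_normalizer_iff]
    refine fun n => ⟨fun h => conjQ hS hg h, fun h => ?_⟩
    have h' := conjQ' hS hg h
    rwa [show g⁻¹ * (g * n * g⁻¹) * g = n by group] at h'
  · intro g hg
    obtain ⟨s, hs, hs1, hs2⟩ := exists_involution_Q hS
    have h1 : g⁻¹ * s * g ∈ MulAction.stabilizer G a :=
      (Subgroup.mem_normalizer_iff''.1 hg s).1 (hS.le hs)
    have h2 : s • (g • a) = g • a := by
      have e : (g⁻¹ * s * g) • a = a := h1
      rw [mul_smul, mul_smul, inv_smul_eq_iff] at e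
      exact e
    exact Q_fix_only hS hs hs1 h2

end Cfsg.Agent.S1118
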