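import Cfsg.Statements.S1119
import Cfsg.Agent.Lib.RankOne.Setup

set_option autoImplicit false
open Cfsg

namespace Cfsg.Agent.S1119

open CfsgLib.RankOne

/-- In the rank-one set-up (`G` finite and doubly transitive on `Ω`, `t` an involution moving `a`, `Q` normal in `G_a` with `G_a = Q D`, `Q ⊓ D = 1` for the two-point stabiliser `D = G_a ⊓ G_{t • a}`, `|Q|` even, `|D|` odd): `Q` acts regularly on `Ω` minus `a`; hence `|Ω| = |Q| + 1`, `|G| = |Q| |D| (|Q| + 1)`, some Sylow 2-subgroup of `G` lies in `Q`, and each `g ∉ G_a` is uniquely `x t y` with `x ∈ G_a`, `y ∈ Q` (canonical form). -/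
theorem result {G Ω : Type*} [Group G] [Finite G] [MulAction G Ω] {a : Ω} {t : G} {Q : Subgroup G}
    (hS : Cfsg.IsRankOneSetup G Ω a t Q) :
    (∀ b c : Ω, b ≠ a → c ≠ a → ∃! x : Q, (x : G) • b = c) ∧
      Nat.card Ω = Nat.card Q + 1 ∧
      Nat.card G = Nat.card Q * Nat.card ↥(MulAction.stabilizer G a ⊓ MulAction.stabilizer G (t • a)) * (Nat.card Q + 1) ∧
      (∃ P : Sylow 2 G, (P : Subgroup G) ≤ Q) ∧
      ∀ g : G, g ∉ MulAction.stabilizer G a → ∃! p : G × G, p.1 ∈ MulAction.stabilizer G a ∧ p.2 ∈ Q ∧ g = p.1 * t * p.2 := by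
  refine ⟨?_, card_omega hS, card_group hS, ?_, ?_⟩
  · intro b c hb hc
    obtain ⟨p, hp, rfl⟩ := exists_q hS hb
    obtain ⟨q, hq, rfl⟩ := exists_q hS hc
    refine ⟨⟨q * p⁻¹, Q.mul_mem hq (Q.inv_mem hp)⟩, by simp [mul_smul], ?_⟩
    rintro ⟨x, hx⟩ h
    have h' : (x * p) • (t • a) = q • (t • a) := by rw [mul_smul]; exact h
    exact Subtype.ext (eq_mul_inv_of_mul_eq (q_unique hS (Q.mul_mem hx hp) hq h'))
  · haveI : Fact (Nat.Prime 2) := ⟨Nat.prime_two⟩
    obtain ⟨P⟩ : Nonempty (Sylow 2 G) := inferInstance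
    obtain ⟨S⟩ : Nonempty (Sylow 2 ↥Q) := inferInstance
    obtain ⟨P, hP⟩ := (S.2.map Q.subtype).exists_le_sylow
    refine ⟨P, ?_⟩
    have hnd : ¬ 2 ∣ ((S : Subgroup ↥Q).map Q.subtype).index := by
      rw [Subgroup.index_map_subtype]
      refine Nat.prime_two.not_dvd_mul S.not_dvd_index ?_
      have h1 := Q.card_mul_index
      rw [card_group hS, mul_assoc] at h1
      rw [mul_left_cancel₀ Nat.card_pos.ne' h1]
      refine Nat.prime_two.not_dvd_mul ?_ ?_
      · obtain ⟨m, hm⟩ := hS.odd_card; omega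
      · obtain ⟨m, hm⟩ := hS.even_card; omega
    have hmax := (IsPGroup.toSylow (S.2.map Q.subtype) hnd).3 P.2 hP
    rw [show (P : Subgroup G) = _ from hmax]
    exact Subgroup.map_subtype_le _
  · intro g hg
    have hne : g⁻¹ • a ≠ a := fun h => hg (inv_smul_eq_iff.1 h).symm
    obtain ⟨y0, hy0, hy⟩ := exists_q hS hne
    refine ⟨(g * y0 * t, y0⁻¹), ⟨?_, Q.inv_mem hy0, ?_⟩, ?_⟩
    · change (g * y0 * t) • a = a
      rw [mul_smul, mul_smul, hy, smul_inv_smul]
    · simp only [mul_assoc]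
      rw [← mul_assoc t t, hS.mul_self, one_mul, mul_inv_cancel, mul_one]
    · rintro ⟨x, y⟩ ⟨hx, hy', he⟩
      have h1 : (g * y⁻¹ * t) = x := by
        rw [he]; simp [mul_assoc, hS.mul_self]
      have h2 : y⁻¹ • (t • a) = g⁻¹ • a := by
        have : x • a = a := hx
        rw [← h1, mul_smul, mul_smul] at this
        exact eq_inv_smul_iff.2 this
      have h3 : y⁻¹ = y0 := q_unique hS (Q.inv_mem hy') hy0 (h2.trans hy.symm)
      subst h3
      simp [h1]

end Cfsg.Agent.S1119
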