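import Cfsg.Statements.S1120
import Cfsg.Agent.Lib.RankOne.Setup
import Cfsg.Agent.Lib.RankOne.FourGroup
import Cfsg.Agent.Lib.Core

set_option autoImplicit false
open Cfsg

namespace Cfsg.Agent.S1120

open CfsgLib.RankOne

/-- In the rank-one set-up (`G` finite and doubly transitive on `Ω`, `t` an involution moving `a`, `Q` normal in `G_a` with `G_a = Q D`, `Q ⊓ D = 1` for the two-point stabiliser `D = G_a ⊓ G_{t • a}`, `|Q|` even, `|D|` odd), if `G` has 2-rank at least 2 then `O_{2'}(G)` equals the normal core of `G_a`. -/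
theorem result {G Ω : Type*} [Group G] [Finite G] [MulAction G Ω] {a : Ω} {t : G} {Q : Subgroup G}
    (hS : Cfsg.IsRankOneSetup G Ω a t Q)
    (h2 : ∃ x y : G, x ≠ 1 ∧ y ≠ 1 ∧ x ≠ y ∧ x * x = 1 ∧ y * y = 1 ∧ x * y = y * x) :
    Cfsg.pPrimeCore 2 G = (MulAction.stabilizer G a).normalCore := by
  have hK : ∀ g ∈ (MulAction.stabilizer G a).normalCore, ∀ c : Ω, g • c = c := by
    intro g hg c
    obtain ⟨h, rfl⟩ := exists_smul_eq' hS c
    have h1 : (h⁻¹ * g * h⁻¹⁻¹) • a = a := hg h⁻¹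
    rw [inv_inv, mul_smul, mul_smul, inv_smul_eq_iff] at h1
    exact h1
  refine le_antisymm ?_ ?_
  · intro g hg
    obtain ⟨x, y, hx1, hy1, hxy, hx, hy, hc⟩ := h2
    obtain ⟨p, hp⟩ := inv_fix hS hx
    have hyp : y • p = p := inv_commute_fix hS hx1 hx hp hc.symm
    have hxy1 : x * y ≠ 1 := fun h => hxy (by
      rw [eq_inv_of_mul_eq_one_left h, inv_eq_of_mul_eq_one_right hy])
    have hxy2 : x * y * (x * y) = 1 := by
      rw [← mul_assoc, mul_assoc x y x, ← hc, ← mul_assoc x x, hx, one_mul, hy]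
    have hxyp : (x * y) • p = p := by rw [mul_smul, hyp, hp]
    have hN : (Cfsg.pPrimeCore 2 G).Normal := by
      have := CfsgLib.Core.pPrimeCore_characteristic (G := G) 2
      infer_instance
    have hodd : Odd (Nat.card ↥(Cfsg.pPrimeCore 2 G)) :=
      Nat.coprime_two_right.1 (CfsgLib.Core.card_pPrimeCore_coprime 2)
    have hle : Cfsg.pPrimeCore 2 G ≤ MulAction.stabilizer G p :=
      le_of_four_centralizers hx hy hc hodd (fun o ho => hN.conj_mem o ho x)
        (fun o ho => hN.conj_mem o ho y)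
        (fun o _ h => inv_commute_fix hS hx1 hx hp h.symm)
        (fun o _ h => inv_commute_fix hS hy1 hy hyp h.symm)
        (fun o _ h => inv_commute_fix hS hxy1 hxy2 hxyp h.symm)
    have hall : ∀ c : Ω, g • c = c := by
      intro c
      obtain ⟨h, rfl⟩ := exists_smul_eq' hS c
      obtain ⟨h', hh'⟩ := exists_smul_eq' hS p
      have hm : (h' * h⁻¹) * g * (h' * h⁻¹)⁻¹ ∈ Cfsg.pPrimeCore 2 G := hN.conj_mem g hg _
      have h3 := hle hm
      rw [MulAction.mem_stabilizer_iff, mul_inv_rev, inv_inv] at h3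
      simp only [mul_smul] at h3
      rw [← hh', inv_smul_smul, smul_left_cancel_iff, inv_smul_eq_iff] at h3
      exact h3
    intro k
    change (k * g * k⁻¹) • a = a
    rw [mul_smul, mul_smul, hall, smul_inv_smul]
  · refine CfsgLib.Core.le_pPrimeCore inferInstance (Nat.coprime_two_right.2 ?_)
    rw [← Nat.not_even_iff_odd, even_iff_two_dvd]
    intro hd
    have : Fact (Nat.Prime 2) := ⟨Nat.prime_two⟩
    obtain ⟨⟨u, hu⟩, huo⟩ := exists_prime_orderOf_dvd_card' 2 hd
    rw [Subgroup.orderOf_mk] at huo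
    have hu1 : u ≠ 1 := fun h => by simp [h] at huo
    have hu2 : u * u = 1 := by rw [← pow_two, ← huo, pow_orderOf_eq_one]
    exact hu1 (Q_fix_b hS (inv_mem_Q hS (hK u hu a) hu2) (hK u hu _))

end Cfsg.Agent.S1120
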