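import Cfsg.Statements.S1124
import Cfsg.Agent.Lib.RankOne.InvolutionOdd

set_option autoImplicit false
open scoped Pointwise
open Cfsg

namespace Cfsg.Agent.S1124

/-- Let `t` be an element of order 2 of a finite group normalising a subgroup `X` of odd order, `Y = C_X(t)` and `Z` the set of elements of `X` inverted by `t`. Then `(y, z) ↦ y z` is a bijection `Y × Z → X`, so `|X| = |Y| |Z|`, and the subgroup generated by `Z` is normal in `X`. -/
theorem result {M : Type*} [Group M] [Finite M]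
    (t : M) (ht : orderOf t = 2) (X : Subgroup M) (hodd : Odd (Nat.card X))
    (hnorm : ∀ x ∈ X, t * x * t⁻¹ ∈ X) :
    (∀ x ∈ X, ∃! p : M × M, p.1 ∈ X ⊓ Subgroup.centralizer {t} ∧ p.2 ∈ Cfsg.invertedBy X t ∧ x = p.1 * p.2) ∧
      Nat.card X = Nat.card ↥(X ⊓ Subgroup.centralizer {t}) * Nat.card (Cfsg.invertedBy X t) ∧
      ∀ x ∈ X, MulAut.conj x • Subgroup.closure (Cfsg.invertedBy X t) = Subgroup.closure (Cfsg.invertedBy X t) := by
  have htt : t * t = 1 := by rw [← pow_two, ← ht]; exact pow_orderOf_eq_one t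
  refine ⟨fun x hx => ?_, CfsgLib.RankOne.card_eq_card_centralizer_mul_inverted htt hnorm hodd, ?_⟩
  · obtain ⟨c, i, hc, htc, hi, he⟩ := CfsgLib.RankOne.decomp htt hnorm hodd hx
    refine ⟨(c, i), ⟨⟨hc, CfsgLib.RankOne.mem_centralizer_singleton'.2 htc⟩, hi, he⟩, ?_⟩
    rintro ⟨c', i'⟩ ⟨⟨_, hc'⟩, hi', he'⟩
    obtain ⟨h1, h2⟩ := CfsgLib.RankOne.decomp_unique hodd
      (CfsgLib.RankOne.mem_centralizer_singleton'.1 hc') hi' htc hi (he'.symm.trans he)
    exact Prod.ext h1 h2
  · have hle : ∀ x ∈ X, ∀ z ∈ Subgroup.closure (Cfsg.invertedBy X t),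
        x * z * x⁻¹ ∈ Subgroup.closure (Cfsg.invertedBy X t) := by
      intro x hx z hz
      obtain ⟨c, i, hc, htc, hi, he⟩ := CfsgLib.RankOne.decomp htt hnorm hodd hx
      have hil : i * z * i⁻¹ ∈ Subgroup.closure (Cfsg.invertedBy X t) :=
        mul_mem (mul_mem (Subgroup.subset_closure hi) hz) (inv_mem (Subgroup.subset_closure hi))
      have key : ∀ w ∈ Subgroup.closure (Cfsg.invertedBy X t),
          c * w * c⁻¹ ∈ Subgroup.closure (Cfsg.invertedBy X t) := by
        have hle : Subgroup.closure (Cfsg.invertedBy X t) ≤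
            (Subgroup.closure (Cfsg.invertedBy X t)).comap (MulAut.conj c).toMonoidHom := by
          refine (Subgroup.closure_le _).2 fun w hw => ?_
          refine Subgroup.subset_closure ⟨X.mul_mem (X.mul_mem hc hw.1) (X.inv_mem hc), ?_⟩
          have h1 : t * c * t⁻¹ = c := by rw [htc]; group
          calc t * (c * w * c⁻¹) * t⁻¹ = (t * c * t⁻¹) * (t * w * t⁻¹) * (t * c * t⁻¹)⁻¹ := by group
            _ = (c * w * c⁻¹)⁻¹ := by rw [h1, hw.2]; group
        exact fun w hw => hle hw
      have := key _ hil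
      have e : x * z * x⁻¹ = c * (i * z * i⁻¹) * c⁻¹ := by rw [he]; group
      rwa [e]
    intro x hx
    ext z
    rw [Subgroup.mem_pointwise_smul_iff_inv_smul_mem]
    constructor
    · intro h
      have := hle x hx _ h
      simpa [MulAut.smul_def, MulAut.conj_apply, ← map_inv, mul_assoc] using this
    · intro h
      have := hle x⁻¹ (X.inv_mem hx) _ h
      simpa [MulAut.smul_def, MulAut.conj_apply, ← map_inv, mul_assoc] using this

end Cfsg.Agent.S1124
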