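import Cfsg.Statements.S1125
import Cfsg.Agent.Lib.RankOne.Inverted

set_option autoImplicit false
open Cfsg

namespace Cfsg.Agent.S1125

open CfsgLib.RankOne

/-- In the rank-one set-up (`G` finite and doubly transitive on `Ω`, `t` an involution moving `a`, `Q` normal in `G_a` with `G_a = Q D`, `Q ⊓ D = 1` for the two-point stabiliser `D = G_a ⊓ G_{t • a}`, `|Q|` even, `|D|` odd), let `X ⊆ D` fix at least three points of `Ω`. Then `C_G(X)` is doubly transitive on the fixed-point set of `X`, `|C_Q(X)|` is even, and `C_{G_a}(X) = C_Q(X) C_D(X)`. -/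
theorem result {G Ω : Type*} [Group G] [Finite G] [MulAction G Ω] {a : Ω} {t : G} {Q : Subgroup G}
    (hS : Cfsg.IsRankOneSetup G Ω a t Q)
    (X : Set G) (hX : X ⊆ ((MulAction.stabilizer G a ⊓ MulAction.stabilizer G (t • a)) : Set G))
    (h3 : ∃ b c d : Ω, b ≠ c ∧ b ≠ d ∧ c ≠ d ∧ ∀ x ∈ X, x • b = b ∧ x • c = c ∧ x • d = d) :
    (∀ b₁ b₂ c₁ c₂ : Ω, (∀ x ∈ X, x • b₁ = b₁ ∧ x • b₂ = b₂ ∧ x • c₁ = c₁ ∧ x • c₂ = c₂) →
        b₁ ≠ b₂ → c₁ ≠ c₂ → ∃ g ∈ Subgroup.centralizer X, g • b₁ = c₁ ∧ g • b₂ = c₂) ∧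
      Even (Nat.card ↥(Subgroup.centralizer X ⊓ Q)) ∧
      (Subgroup.centralizer X ⊓ Q) ⊔ (Subgroup.centralizer X ⊓ (MulAction.stabilizer G a ⊓ MulAction.stabilizer G (t • a))) = Subgroup.centralizer X ⊓ MulAction.stabilizer G a := by
  have he := third_point hS h3
  refine ⟨?_, ?_, ?_⟩
  · intro b₁ b₂ c₁ c₂ h hb hc
    exact C_two_trans hS hX he (fun x hx => (h x hx).1) (fun x hx => (h x hx).2.1)
      (fun x hx => (h x hx).2.2.1) (fun x hx => (h x hx).2.2.2) hb hc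
  · obtain ⟨s, hsC, hsQ, hs1, hs2⟩ := C_involution hS hX he
    rw [even_iff_two_dvd]
    have hso : orderOf s = 2 := orderOf_eq_prime (by rw [pow_two, hs2]) hs1
    exact hso ▸ Subgroup.orderOf_dvd_natCard _ ⟨hsC, hsQ⟩
  · refine le_antisymm (sup_le (inf_le_inf_left _ hS.le) (inf_le_inf_left _ inf_le_left)) ?_
    rintro g ⟨hgC, hga⟩
    obtain ⟨q, hq, d, hd, rfl⟩ := exists_qd hS hga
    have key : ∀ x ∈ X, x * q = q * x ∧ x * d = d * x := by
      intro x hx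
      have hxD := hX hx
      have h1 : (x * q * x⁻¹) * (x * d * x⁻¹) = q * d := by
        rw [show (x * q * x⁻¹) * (x * d * x⁻¹) = x * (q * d) * x⁻¹ by group,
          mem_centralizer_set.1 hgC x hx, mul_inv_cancel_right]
      have h2 := qd_unique hS (conjQ hS hxD.1 hq) hq
        (show (x * d * x⁻¹) • (t • a) = t • a by
          rw [mul_smul, mul_smul, inv_smul_eq_iff.2 (mem_D.1 hxD).2.symm, (mem_D.1 hd).2,
            (mem_D.1 hxD).2])
        (mem_D.1 hd).2 h1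
      exact ⟨mul_inv_eq_iff_eq_mul.1 h2.1, mul_inv_eq_iff_eq_mul.1 h2.2⟩
    exact Subgroup.mul_mem_sup ⟨mem_centralizer_set.2 fun x hx => (key x hx).1, hq⟩
      ⟨mem_centralizer_set.2 fun x hx => (key x hx).2, hd⟩

end Cfsg.Agent.S1125
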