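import Cfsg.Statements.S1126
import Cfsg.Agent.Lib.RankOne.Inverted

set_option autoImplicit false
open Cfsg

namespace Cfsg.Agent.S1126

open CfsgLib.RankOne

/-- In the rank-one set-up (`G` finite and doubly transitive on `Ω`, `t` an involution moving `a`, `Q` normal in `G_a` with `G_a = Q D`, `Q ⊓ D = 1` for the two-point stabiliser `D = G_a ⊓ G_{t • a}`, `|Q|` even, `|D|` odd), a subset `X ⊆ D` fixing at least three points of `Ω` is conjugate by an element of `D` into `V = C_D(t)`. -/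
theorem result {G Ω : Type*} [Group G] [Finite G] [MulAction G Ω] {a : Ω} {t : G} {Q : Subgroup G}
    (hS : Cfsg.IsRankOneSetup G Ω a t Q)
    (X : Set G) (hX : X ⊆ ((MulAction.stabilizer G a ⊓ MulAction.stabilizer G (t • a)) : Set G))
    (h3 : ∃ b c d : Ω, b ≠ c ∧ b ≠ d ∧ c ≠ d ∧ ∀ x ∈ X, x • b = b ∧ x • c = c ∧ x • d = d) :
    ∃ k ∈ (MulAction.stabilizer G a ⊓ MulAction.stabilizer G (t • a)), ∀ x ∈ X, (k * x * k⁻¹) * t = t * (k * x * k⁻¹) := by
  have he := third_point hS h3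
  obtain ⟨s, hsC, hsQ, hs1, hs2⟩ := C_involution hS hX he
  have hfb : ∀ x ∈ X, x • (t • a) = t • a := fun x hx => (mem_D.1 (hX hx)).2
  have hne : t • a ≠ s • (t • a) := fun h => hs1 (Q_fix_b hS hsQ h.symm)
  obtain ⟨h, hh, h1, h2⟩ := C_to_ab hS hX he hfb (centralizer_preserves hsC hfb) hne
  have hu : (h * s * h⁻¹) * (h * s * h⁻¹) = 1 := by
    rw [show (h * s * h⁻¹) * (h * s * h⁻¹) = h * (s * s) * h⁻¹ by group, hs2]; group
  have hua : (h * s * h⁻¹) • a = t • a := by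
    rw [mul_smul, mul_smul, inv_smul_eq_iff.2 h1.symm, h2]
  have huC : h * s * h⁻¹ ∈ Subgroup.centralizer X :=
    Subgroup.mul_mem _ (Subgroup.mul_mem _ hh hsC) (Subgroup.inv_mem _ hh)
  have hk := swap_eq_tk hS hu hua
  have e := tk_eq_conj hS hk
  rw [← mul_assoc, hS.mul_self, one_mul] at e
  refine ⟨oddRoot (MulAction.stabilizer G a ⊓ MulAction.stabilizer G (t • a)) (t * (h * s * h⁻¹)),
    (oddRoot_inverted hk).1, fun x hx => ?_⟩
  set l := oddRoot (MulAction.stabilizer G a ⊓ MulAction.stabilizer G (t • a)) (t * (h * s * h⁻¹))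
  have hc := mem_centralizer_set.1 huC x hx
  rw [e] at hc
  calc (l * x * l⁻¹) * t = l * (x * (l⁻¹ * t * l)) * l⁻¹ := by group
    _ = l * ((l⁻¹ * t * l) * x) * l⁻¹ := by rw [hc]
    _ = t * (l * x * l⁻¹) := by group

end Cfsg.Agent.S1126
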