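import Cfsg.Statements.S1127
import Cfsg.Agent.Lib.RankOne.Inverted

set_option autoImplicit false
open Cfsg

namespace Cfsg.Agent.S1127

open CfsgLib.RankOne

/-- In the rank-one set-up (`G` finite and doubly transitive on `Ω`, `t` an involution moving `a`, `Q` normal in `G_a` with `G_a = Q D`, `Q ⊓ D = 1` for the two-point stabiliser `D = G_a ⊓ G_{t • a}`, `|Q|` even, `|D|` odd): if `s` is an involution of `G_a` and `r ∈ Q` satisfy `t s t = r⁻¹ t r`, then `C_D(t) = C_D(s)`; moreover `C_D(t) ⊓ C_D(K) = C_D(I ∩ G_a)`, where `K` is the set of elements of `D` inverted by `t` and `I ∩ G_a` the set of involutions of `G_a`. -/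
theorem result {G Ω : Type*} [Group G] [Finite G] [MulAction G Ω] {a : Ω} {t : G} {Q : Subgroup G}
    (hS : Cfsg.IsRankOneSetup G Ω a t Q) :
    (∀ s r : G, s ∈ Cfsg.involutionsIn (MulAction.stabilizer G a : Set G) → r ∈ Q → t * s * t = r⁻¹ * t * r →
        (MulAction.stabilizer G a ⊓ MulAction.stabilizer G (t • a)) ⊓ Subgroup.centralizer {t} = (MulAction.stabilizer G a ⊓ MulAction.stabilizer G (t • a)) ⊓ Subgroup.centralizer {s}) ∧
      (MulAction.stabilizer G a ⊓ MulAction.stabilizer G (t • a)) ⊓ Subgroup.centralizer {t} ⊓ Subgroup.centralizer (Cfsg.invertedBy (MulAction.stabilizer G a ⊓ MulAction.stabilizer G (t • a)) t) =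
        (MulAction.stabilizer G a ⊓ MulAction.stabilizer G (t • a)) ⊓ Subgroup.centralizer (Cfsg.involutionsIn (MulAction.stabilizer G a : Set G)) := by
  refine ⟨fun s r hs hr h => CD_eq hS hs hr h, ?_⟩
  obtain ⟨s, r, hs, hr, h⟩ := structure_exists hS
  have hV := CD_eq hS hs hr h
  ext d
  constructor
  · rintro ⟨⟨hd, hdt⟩, hdK⟩
    refine ⟨hd, mem_centralizer_set.2 fun s' hs' => ?_⟩
    obtain ⟨k, hk, rfl⟩ := K_trans hS hs hs'
    have hds : d ∈ (MulAction.stabilizer G a ⊓ MulAction.stabilizer G (t • a)) ⊓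
        Subgroup.centralizer {s} := hV ▸ ⟨hd, hdt⟩
    have h1 : Commute k d := mem_centralizer_set.1 hdK k hk
    have h2 : Commute s d := mem_centralizer_singleton'.1 hds.2
    exact ((h1.inv_left.mul_left h2).mul_left h1).eq
  · rintro ⟨hd, hdI⟩
    have hds : d ∈ (MulAction.stabilizer G a ⊓ MulAction.stabilizer G (t • a)) ⊓
        Subgroup.centralizer {s} := ⟨hd, mem_centralizer_singleton'.2 (mem_centralizer_set.1 hdI s hs)⟩
    have hdV : d ∈ (MulAction.stabilizer G a ⊓ MulAction.stabilizer G (t • a)) ⊓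
        Subgroup.centralizer {t} := hV ▸ hds
    refine ⟨hdV, mem_centralizer_set.2 fun k hk => ?_⟩
    have hI := mem_centralizer_set.1 hdI _ (conj_inv_mem hS hs hk.1.1)
    have h1 : k * d * k⁻¹ ∈ (MulAction.stabilizer G a ⊓ MulAction.stabilizer G (t • a)) ⊓
        Subgroup.centralizer {s} := by
      refine ⟨Subgroup.mul_mem _ (Subgroup.mul_mem _ hk.1 hd) (Subgroup.inv_mem _ hk.1),
        mem_centralizer_singleton'.2 ?_⟩
      calc s * (k * d * k⁻¹) = k * ((k⁻¹ * s * k) * d) * k⁻¹ := by group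
        _ = k * (d * (k⁻¹ * s * k)) * k⁻¹ := by rw [hI]
        _ = k * d * k⁻¹ * s := by group
    rw [← hV] at h1
    have h2 : t * (k * d * k⁻¹) * t⁻¹ = k * d * k⁻¹ := by
      rw [mem_centralizer_singleton'.1 h1.2, mul_inv_cancel_right]
    have h3 : t * d * t⁻¹ = d := by
      rw [mem_centralizer_singleton'.1 hdV.2, mul_inv_cancel_right]
    rw [show t * (k * d * k⁻¹) * t⁻¹ = (t * k * t⁻¹) * (t * d * t⁻¹) * (t * k * t⁻¹)⁻¹ by group,
      hk.2, h3] at h2
    have h4 : Commute (k * k) d := by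
      calc k * k * d = k * (k * d * k⁻¹) * k := by group
        _ = k * (k⁻¹ * d * k⁻¹⁻¹) * k := by rw [h2]
        _ = d * (k * k) := by group
    have h5 := (h4.pow_left ((Nat.card ↥(MulAction.stabilizer G a ⊓
      MulAction.stabilizer G (t • a)) + 1) / 2)).eq
    have h6 := oddRoot_unique hS.odd_card hk.1
    rw [oddRoot] at h6
    rwa [h6] at h5

end Cfsg.Agent.S1127
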