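import Cfsg.Statements.S1129
import Mathlib
import Cfsg.Agent.S1128
import Cfsg.Agent.Lib.RankOne.Inverted
import Cfsg.Agent.Lib.GroupB.FrobBasic

set_option autoImplicit false
open Cfsg

namespace Cfsg.Agent.S1129

open scoped Pointwise


/-- In the rank-one set-up (`G` finite and doubly transitive on `Ω`, `t` an involution moving `a`, `Q` normal in `G_a` with `G_a = Q D`, `Q ⊓ D = 1` for the two-point stabiliser `D = G_a ⊓ G_{t • a}`, `|Q|` even, `|D|` odd), with the action faithful and `G` containing two distinct commuting involutions: `Q` is nilpotent. -/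
theorem result {G Ω : Type*} [Group G] [Finite G] [MulAction G Ω] [FaithfulSMul G Ω] {a : Ω} {t : G} {Q : Subgroup G}
    (hS : Cfsg.IsRankOneSetup G Ω a t Q)
    (h2 : ∃ x y : G, x ≠ 1 ∧ y ≠ 1 ∧ x ≠ y ∧ x * x = 1 ∧ y * y = 1 ∧ x * y = y * x) :
    Group.IsNilpotent Q := by
  classical
  obtain ⟨x, y, hx1, hy1, hxy, hx2, hy2, hcomm⟩ := h2
  -- two involutions in the point stabiliser
  obtain ⟨e, he⟩ := CfsgLib.RankOne.inv_fix hS hx2
  have hye : y • e = e := by
    refine CfsgLib.RankOne.inv_fix_unique hS hx1 hx2 ?_ he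
    rw [← mul_smul, hcomm, mul_smul, he]
  obtain ⟨g, hg⟩ := CfsgLib.RankOne.exists_smul_eq' hS e
  have conjI : ∀ w : G, w ≠ 1 → w * w = 1 → w • e = e →
      g⁻¹ * w * g ∈ Cfsg.involutionsIn (MulAction.stabilizer G a : Set G) := by
    intro w h1 h hwe
    refine ⟨?_, fun h0 => h1 ?_, by rw [show g⁻¹ * w * g * (g⁻¹ * w * g) = g⁻¹ * (w * w) * g by group, h]; group⟩
    · show (g⁻¹ * w * g) • a = a
      rw [mul_smul, mul_smul, hg, hwe, ← hg, inv_smul_smul]
    · calc w = g * (g⁻¹ * w * g) * g⁻¹ := by group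
        _ = 1 := by rw [h0]; group
  let K := Cfsg.invertedBy (MulAction.stabilizer G a ⊓ MulAction.stabilizer G (t • a)) t
  obtain ⟨k, hk, hk1⟩ : ∃ k ∈ K, k ≠ 1 := by
    by_contra hh
    push Not at hh
    have hsub : K ⊆ {1} := fun k hk => hh k hk
    have h1 : Nat.card K ≤ 1 := by
      rw [Nat.card_coe_set_eq]
      exact (Set.ncard_le_ncard hsub (Set.toFinite _)).trans (Set.ncard_singleton _).le
    rw [CfsgLib.RankOne.card_K hS, Nat.card_coe_set_eq] at h1
    have h2' := Set.ncard_le_ncard (show ({g⁻¹ * x * g, g⁻¹ * y * g} : Set G) ⊆ _ from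
      Set.insert_subset_iff.2 ⟨conjI x hx1 hx2 he, Set.singleton_subset_iff.2 (conjI y hy1 hy2 hye)⟩) (Set.toFinite _)
    rw [Set.ncard_pair (fun h0 => hxy (mul_left_cancel (mul_right_cancel h0)))] at h2'
    omega
  have hpowK : ∀ n : ℕ, k ^ n ∈ K := fun n => by
    refine ⟨Subgroup.pow_mem _ hk.1 n, ?_⟩
    rw [← conj_pow, hk.2, inv_pow]
  obtain ⟨p, hp, hpd⟩ := Nat.exists_prime_and_dvd (show orderOf k ≠ 1 by rwa [Ne, orderOf_eq_one_iff])
  haveI := Fact.mk hp
  let k₀ := k ^ (orderOf k / p)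
  have ho : orderOf k₀ = p := orderOf_pow_orderOf_div (orderOf_pos k).ne' hpd
  have hfpf : ∀ h ∈ Subgroup.zpowers k₀, h ≠ 1 → ∀ v ∈ Q, h * v = v * h → v = 1 := by
    intro h hh h1 v hv hc
    obtain ⟨i, rfl⟩ := (isOfFinOrder_of_finite k₀).mem_powers_iff_mem_zpowers.2 hh
    have hb := Cfsg.Agent.S1128.result hS ⟨x, y, hx1, hy1, hxy, hx2, hy2, hcomm⟩ (k₀ ^ i)
      (by show (k ^ _) ^ i ∈ K; rw [← pow_mul]; exact hpowK _) h1
    have : v ∈ Q ⊓ Subgroup.centralizer {k₀ ^ i} :=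
      ⟨hv, Subgroup.mem_centralizer_singleton_iff.2 hc.symm⟩
    rw [hb] at this
    exact this
  have hkQ : k₀ ∈ Subgroup.normalizer (Q : Set G) := by
    have hka : k₀ ∈ MulAction.stabilizer G a := (hpowK _).1.1
    rw [Subgroup.mem_normalizer_iff]
    intro v
    refine ⟨fun hv => hS.conj_mem k₀ hka v hv, fun hv => ?_⟩
    have := hS.conj_mem k₀⁻¹ (inv_mem hka) _ hv
    simpa [mul_assoc] using this
  let M := Q ⊔ Subgroup.zpowers k₀
  let N := Q.subgroupOf M
  let C := (Subgroup.zpowers k₀).subgroupOf M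
  haveI hN : N.Normal := Subgroup.normal_subgroupOf_of_le_normalizer
    (sup_le Subgroup.le_normalizer (Subgroup.zpowers_le.2 hkQ))
  have hdis : Q ⊓ Subgroup.zpowers k₀ = ⊥ := by
    rw [Subgroup.eq_bot_iff_forall]
    rintro v ⟨hv, hv'⟩
    by_contra hv1
    exact hv1 (hfpf v hv' hv1 v hv rfl)
  have hc : Subgroup.IsComplement' N C := by
    apply Subgroup.isComplement'_of_disjoint_and_mul_eq_univ
    · rw [disjoint_iff, Subgroup.eq_bot_iff_forall]
      rintro v ⟨hv, hv'⟩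
      exact Subtype.ext ((Subgroup.eq_bot_iff_forall _).1 hdis v ⟨hv, hv'⟩)
    · rw [← Subgroup.normal_mul N C]
      rw [← Subgroup.subgroupOf_sup le_sup_left le_sup_right]
      simp [M]
  by_cases hQ : Q = ⊥
  · subst hQ; infer_instance
  have hF : Cfsg.IsFrobeniusComplement C := by
    refine CfsgLib.GroupB.FrobBasic.isFrobeniusComplement_of_fpf N hc (fun h => hQ ?_) (fun h => ?_) ?_
    · rw [Subgroup.subgroupOf_eq_bot] at h
      exact le_bot_iff.1 (disjoint_iff.1 (h.mono_right le_sup_left) ▸ le_inf le_rfl le_rfl)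
    · rw [Subgroup.subgroupOf_eq_bot] at h
      have h' : k₀ = 1 := Subgroup.mem_bot.1 (disjoint_iff.1 h ▸
        ⟨Subgroup.mem_zpowers k₀, le_sup_right (a := Q) (Subgroup.mem_zpowers k₀)⟩)
      rw [h', orderOf_one] at ho
      exact hp.one_lt.ne ho
    · intro h hh h1 v hv hcv
      exact Subtype.ext (hfpf h hh (fun e => h1 (Subtype.ext e)) v hv (congrArg Subtype.val hcv))
  haveI := CfsgLib.GroupB.FrobBasic.isNilpotent_kernel hF N hc
  exact Group.nilpotent_of_mulEquiv (Subgroup.subgroupOfEquivOfLe (le_sup_left : Q ≤ M))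

end Cfsg.Agent.S1129
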