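import Cfsg.Statements.S1134
import Cfsg.Agent.Lib.RankOne.Inverted

set_option autoImplicit false
open Cfsg

namespace Cfsg.Agent.S1134

open CfsgLib.RankOne

/-- In the rank-one set-up (`G` finite and doubly transitive on `Ω`, `t` an involution moving `a`, `Q` normal in `G_a` with `G_a = Q D`, `Q ⊓ D = 1` for the two-point stabiliser `D = G_a ⊓ G_{t • a}`, `|Q|` even, `|D|` odd), with the action faithful and `G` containing two distinct commuting involutions, with `V = C_D(t)`: subsets of `V` conjugate in `G` are conjugate in `V`. -/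
theorem result {G Ω : Type*} [Group G] [Finite G] [MulAction G Ω] [FaithfulSMul G Ω] {a : Ω} {t : G} {Q : Subgroup G}
    (hS : Cfsg.IsRankOneSetup G Ω a t Q)
    (h2 : ∃ x y : G, x ≠ 1 ∧ y ≠ 1 ∧ x ≠ y ∧ x * x = 1 ∧ y * y = 1 ∧ x * y = y * x)
    (X : Set G) (hX : X ⊆ (((MulAction.stabilizer G a ⊓ MulAction.stabilizer G (t • a)) ⊓ Subgroup.centralizer {t} : Subgroup G) : Set G)) (g : G)
    (hY : (fun x => g * x * g⁻¹) '' X ⊆ (((MulAction.stabilizer G a ⊓ MulAction.stabilizer G (t • a)) ⊓ Subgroup.centralizer {t} : Subgroup G) : Set G)) :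
    ∃ v ∈ (MulAction.stabilizer G a ⊓ MulAction.stabilizer G (t • a)) ⊓ Subgroup.centralizer {t}, (fun x => v * x * v⁻¹) '' X = (fun x => g * x * g⁻¹) '' X := by
  set D := MulAction.stabilizer G a ⊓ MulAction.stabilizer G (t • a) with hDdef
  have hXD : X ⊆ (D : Set G) := fun x hx => (hX hx).1
  have hct : ∀ {w : G}, w ∈ D ⊓ Subgroup.centralizer {t} → t * w = w * t := fun hw =>
    mem_centralizer_singleton'.1 hw.2
  obtain ⟨c, hc, hca, hcb⟩ := exists_fix_t hS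
  have hfix : ∀ {w : G}, w ∈ D ⊓ Subgroup.centralizer {t} →
      w • a = a ∧ w • (t • a) = t • a ∧ w • c = c := fun hw =>
    ⟨(mem_D.1 hw.1).1, (mem_D.1 hw.1).2,
      inv_commute_fix hS hS.ne_one hS.mul_self hc (hct hw).symm⟩
  set Y := (fun x => g * x * g⁻¹) '' X with hYdef
  have hYD : Y ⊆ (D : Set G) := fun y hy => (hY hy).1
  have hge : ∀ (e : Ω), (∀ x ∈ X, x • e = e) → ∀ y ∈ Y, y • (g • e) = g • e := by
    rintro e he _ ⟨x, hx, rfl⟩
    simp only [mul_smul, inv_smul_smul, he x hx]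
  have h3 : ∃ e : Ω, e ≠ a ∧ e ≠ t • a ∧ ∀ y ∈ Y, y • e = e :=
    ⟨c, hca, hcb, fun y hy => (hfix (hY hy)).2.2⟩
  obtain ⟨z, hz, hz1, hz2⟩ := C_to_ab hS hYD h3
    (hge a fun x hx => (hfix (hX hx)).1) (hge (t • a) fun x hx => (hfix (hX hx)).2.1)
    (fun h => ba hS (smul_left_cancel g h).symm)
  have hd : z * g ∈ D := mem_D.2 ⟨by rw [mul_smul, hz1], by rw [mul_smul, hz2]⟩
  obtain ⟨c₀, i, hc₀, hc₀t, hi, e⟩ := decomp hS.mul_self (D_norm hS) hS.odd_card hd
  refine ⟨c₀, ⟨hc₀, mem_centralizer_singleton'.2 hc₀t⟩, ?_⟩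
  refine Set.image_congr fun x hx => ?_
  have hxt : t * x = x * t := hct (hX hx)
  have hy : g * x * g⁻¹ ∈ Y := ⟨x, hx, rfl⟩
  have hyt : t * (g * x * g⁻¹) = g * x * g⁻¹ * t := hct (hY hy)
  have h1 : c₀ * i * x * (c₀ * i)⁻¹ = g * x * g⁻¹ := by
    rw [← e, show z * g * x * (z * g)⁻¹ = z * (g * x * g⁻¹) * z⁻¹ by group,
      ← mem_centralizer_set.1 hz _ hy, mul_inv_cancel_right]
  have hti := t_inv hS
  have h2 : t * (i * x * i⁻¹) * t⁻¹ = i * x * i⁻¹ := by
    have : i * x * i⁻¹ = c₀⁻¹ * (g * x * g⁻¹) * c₀ := by rw [← h1]; group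
    rw [this]
    have hc' : t * c₀⁻¹ = c₀⁻¹ * t := (Commute.inv_right (show Commute t c₀ from hc₀t)).eq
    have hcomm : Commute t (c₀⁻¹ * (g * x * g⁻¹) * c₀) :=
      ((show Commute t c₀⁻¹ from hc').mul_right hyt).mul_right hc₀t
    rw [hcomm.eq, mul_inv_cancel_right]
  have h3' : t * (i * x * i⁻¹) * t⁻¹ = i⁻¹ * x * i := by
    calc t * (i * x * i⁻¹) * t⁻¹ = (t * i * t⁻¹) * (t * x * t⁻¹) * (t * i * t⁻¹)⁻¹ := by group
      _ = i⁻¹ * x * i := by rw [hi.2, hxt, mul_inv_cancel_right, inv_inv]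
  have h4 : Commute (i * i) x := by
    have h := h2.symm.trans h3'
    calc i * i * x = i * (i * x * i⁻¹) * i := by group
      _ = i * (i⁻¹ * x * i) * i := by rw [h]
      _ = x * (i * i) := by group
  have h5 : Commute i x := by
    rw [← oddRoot_unique hS.odd_card hi.1]
    exact h4.pow_left _
  rw [← h1]
  simp only [mul_inv_rev, mul_assoc]
  rw [← mul_assoc i x, h5.eq, mul_assoc x i, mul_inv_cancel_left]

end Cfsg.Agent.S1134
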