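import Cfsg.Statements.S1135
import Cfsg.Agent.Lib.RankOne.Central

set_option autoImplicit false
open Cfsg

namespace Cfsg.Agent.S1135

open CfsgLib.RankOne

/-- In the rank-one set-up (`G` finite and doubly transitive on `Ω`, `t` an involution moving `a`, `Q` normal in `G_a` with `G_a = Q D`, `Q ⊓ D = 1` for the two-point stabiliser `D = G_a ⊓ G_{t • a}`, `|Q|` even, `|D|` odd), with the action faithful and `G` containing two distinct commuting involutions: if `x = u v` with `u, v` involutions and `x² ≠ 1`, then `x` is conjugate to `u' t` for some involution `u'` of `G_a`, and `|C_G(x)|` is odd. -/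
theorem result {G Ω : Type*} [Group G] [Finite G] [MulAction G Ω] [FaithfulSMul G Ω] {a : Ω} {t : G} {Q : Subgroup G}
    (hS : Cfsg.IsRankOneSetup G Ω a t Q)
    (h2 : ∃ x y : G, x ≠ 1 ∧ y ≠ 1 ∧ x ≠ y ∧ x * x = 1 ∧ y * y = 1 ∧ x * y = y * x)
    (u v : G) (hu1 : u ≠ 1) (hu2 : u * u = 1) (hv1 : v ≠ 1) (hv2 : v * v = 1) (hx : (u * v) * (u * v) ≠ 1) :
    (∃ g : G, ∃ u' ∈ Cfsg.involutionsIn (MulAction.stabilizer G a : Set G), g * (u * v) * g⁻¹ = u' * t) ∧
      Odd (Nat.card ↥(Subgroup.centralizer {u * v})) := by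
  obtain ⟨e, he⟩ := inv_fix hS hu2
  obtain ⟨f, hf⟩ := inv_fix hS hv2
  have hui : u⁻¹ = u := inv_eq_of_mul_eq_one_right hu2
  have hef : e ≠ f := by
    rintro rfl
    obtain ⟨g, hg⟩ := exists_smul_eq' hS e
    have hmem : ∀ {w : G}, w ≠ 1 → w * w = 1 → w • e = e →
        g⁻¹ * w * g ∈ Cfsg.involutionsIn (MulAction.stabilizer G a : Set G) := by
      intro w w1 w2 we
      refine ⟨?_, fun h => w1 ?_, ?_⟩
      · change (g⁻¹ * w * g) • a = a
        rw [mul_smul, mul_smul, hg, we, ← hg, inv_smul_smul]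
      · calc w = g * (g⁻¹ * w * g) * g⁻¹ := by group
          _ = 1 := by rw [h]; group
      · rw [show g⁻¹ * w * g * (g⁻¹ * w * g) = g⁻¹ * (w * w) * g by group, w2]; group
    have hu' := hmem hu1 hu2 he
    have hv' := hmem hv1 hv2 hf
    have hc := involution_central hS hu' (inv_mem_Q hS hv'.1 hv'.2.2)
    have hc' : u * v = v * u := by
      have := congrArg (fun z => g * z * g⁻¹) hc
      simpa only [mul_assoc, mul_inv_cancel_left, mul_inv_cancel, mul_one] using this
    exact hx (by rw [← mul_assoc, mul_assoc u v u, ← hc', ← mul_assoc u u, hu2, one_mul, hv2])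
  have hve : e ≠ v • e := fun h => hef (inv_fix_unique hS hv1 hv2 h.symm hf)
  obtain ⟨g, hge, hgv⟩ := two_pre hS hve (ba hS).symm
  have hv2' : g * v * g⁻¹ * (g * v * g⁻¹) = 1 := by
    rw [show g * v * g⁻¹ * (g * v * g⁻¹) = g * (v * v) * g⁻¹ by group, hv2]; group
  have hva : (g * v * g⁻¹) • a = t • a := by
    rw [mul_smul, mul_smul, inv_smul_eq_iff.2 hge.symm, hgv]
  have hk := swap_eq_tk hS hv2' hva
  have hconj := tk_eq_conj hS hk
  rw [← mul_assoc, hS.mul_self, one_mul] at hconj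
  set l := oddRoot (MulAction.stabilizer G a ⊓ MulAction.stabilizer G (t • a)) (t * (g * v * g⁻¹))
  have hl : l • a = a := (mem_D.1 (oddRoot_inverted hk).1).1
  have hu'mem : l * g * u * (l * g)⁻¹ ∈ Cfsg.involutionsIn (MulAction.stabilizer G a : Set G) := by
    refine ⟨?_, fun h => hu1 ?_, ?_⟩
    · change (l * g * u * (l * g)⁻¹) • a = a
      have : (l * g) • e = a := by rw [mul_smul, hge, hl]
      rw [mul_smul, mul_smul, inv_smul_eq_iff.2 this.symm, he, this]
    · calc u = (l * g)⁻¹ * (l * g * u * (l * g)⁻¹) * (l * g) := by group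
        _ = 1 := by rw [h]; group
    · rw [show l * g * u * (l * g)⁻¹ * (l * g * u * (l * g)⁻¹) = l * g * (u * u) * (l * g)⁻¹ by
        group, hu2]; group
  have hgx : l * g * (u * v) * (l * g)⁻¹ = l * g * u * (l * g)⁻¹ * t := by
    calc l * g * (u * v) * (l * g)⁻¹ = l * g * u * (l * g)⁻¹ * (l * (g * v * g⁻¹) * l⁻¹) := by
          group
      _ = _ := by rw [hconj]; group
  refine ⟨⟨l * g, _, hu'mem, hgx⟩, ?_⟩
  rw [← Nat.not_even_iff_odd, even_iff_two_dvd]
  intro hdvd
  obtain ⟨⟨w, hw⟩, how⟩ := exists_prime_orderOf_dvd_card' (G := ↥(Subgroup.centralizer {u * v})) 2 hdvd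
  rw [Subgroup.orderOf_mk] at how
  have hw2 : w * w = 1 := by rw [← pow_two, ← how, pow_orderOf_eq_one]
  have hw1 : w ≠ 1 := fun h => by simp [h] at how
  have hwc : Commute (u * v) w := mem_centralizer_singleton'.1 hw
  obtain ⟨p, hp⟩ := inv_fix hS hw2
  have hxp : (u * v) • p = p := inv_commute_fix hS hw1 hw2 hp hwc.eq
  have hinv : u * (u * v) * u⁻¹ = (u * v)⁻¹ := by
    rw [← mul_assoc, hu2, one_mul, mul_inv_rev, inv_eq_of_mul_eq_one_right hv2]
  have hxup : (u * v) • (u • p) = u • p := by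
    have h1 : (u * v)⁻¹ • p = p := inv_smul_eq_iff.2 hxp.symm
    have h2' : u * v * u = u * (u * v)⁻¹ := by
      rw [mul_inv_rev, inv_eq_of_mul_eq_one_right hv2, hui, mul_assoc]
    rw [← mul_smul, h2', mul_smul, h1]
  have hne : u • p ≠ p := by
    intro h
    have hpe := inv_fix_unique hS hu1 hu2 h he
    rw [hpe, mul_smul] at hxp
    exact hve (smul_left_cancel u (hxp.trans he.symm)).symm
  obtain ⟨h, hh1, hh2⟩ := two_pre hS hne.symm (ba hS).symm
  have hD : h * (u * v) * h⁻¹ ∈ MulAction.stabilizer G a ⊓ MulAction.stabilizer G (t • a) :=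
    mem_D.2 ⟨by rw [mul_smul, mul_smul, inv_smul_eq_iff.2 hh1.symm, hxp, hh1],
      by rw [mul_smul, mul_smul, inv_smul_eq_iff.2 hh2.symm, hxup, hh2]⟩
  have hodd := D_odd hS hD
  rw [← MulAut.conj_apply, MulEquiv.orderOf_eq] at hodd
  have := no_inverted hS hodd hw1 hw2 hp hwc.symm.eq hu2 hne hinv
  exact hx (by rw [this, one_mul])

end Cfsg.Agent.S1135
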