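import Cfsg.Statements.S1137
import Cfsg.Agent.Lib.SuzukiTwoCentre
import Mathlib

set_option autoImplicit false
open Cfsg

namespace Cfsg.Agent.S1137

/-- In a Suzuki 2-group `P` (a finite non-abelian 2-group with more than one involution admitting a cyclic group of automorphisms regular on its involutions) the involutions are exactly the non-identity central elements, and `Z(P)` is elementary abelian. -/
theorem result {P : Type*} [Group P] (hP : Cfsg.IsSuzukiTwoGroup P) :
    (∀ x : P, (x ≠ 1 ∧ x * x = 1) ↔ (x ∈ Subgroup.center P ∧ x ≠ 1)) ∧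
      ∀ z ∈ Subgroup.center P, z * z = 1 := by
  classical
  obtain ⟨hfin, h2, hna, ⟨x₀, y₀, -, hx₀, hx₀2, -, -⟩, K, hcyc, hreg⟩ := hP
  haveI := hfin
  haveI : Nontrivial P := ⟨⟨x₀, 1, hx₀⟩⟩
  have comm : ∀ k ∈ K, ∀ l ∈ K, k * l = l * k := fun k hk l hl => by
    obtain ⟨r, hr⟩ := hcyc.exists_generator
    obtain ⟨i, hi⟩ := Subgroup.mem_zpowers_iff.1 (hr ⟨k, hk⟩)
    obtain ⟨j, hj⟩ := Subgroup.mem_zpowers_iff.1 (hr ⟨l, hl⟩)
    have h1 : (⟨k, hk⟩ : K) * ⟨l, hl⟩ = ⟨l, hl⟩ * ⟨k, hk⟩ := by rw [← hi, ← hj, zpow_mul_comm]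
    exact congrArg Subtype.val h1
  have trans : ∀ x y : P, x ≠ 1 → x * x = 1 → y ≠ 1 → y * y = 1 → ∃ k ∈ K, k x = y := fun x y a b c d => by
    obtain ⟨k, hk, -⟩ := hreg x y a b c d
    exact ⟨k, k.2, hk⟩
  obtain ⟨z, hz, hz1, hz2⟩ : ∃ z ∈ Subgroup.center P, z ≠ 1 ∧ z * z = 1 := by
    haveI := h2.center_nontrivial
    obtain ⟨c, hc⟩ := IsPGroup.iff_card.1 (h2.to_subgroup (Subgroup.center P))
    have hdvd : 2 ∣ Nat.card (Subgroup.center P) := by
      rw [hc]
      refine dvd_pow_self 2 fun h => ?_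
      rw [h, pow_zero] at hc
      exact absurd hc (ne_of_gt Finite.one_lt_card)
    obtain ⟨x, hx⟩ := exists_prime_orderOf_dvd_card' 2 hdvd
    refine ⟨x, x.2, fun h => ?_, ?_⟩
    · have : x = 1 := Subtype.ext h
      rw [this, orderOf_one] at hx; omega
    · have h' := pow_orderOf_eq_one x
      rw [hx, pow_two] at h'
      exact congrArg Subtype.val h'
  have central : ∀ x : P, x * x = 1 → ∀ y, x * y = y * x := by
    intro x hx y
    by_cases hx1 : x = 1
    · rw [hx1, one_mul, mul_one]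
    obtain ⟨k, -, rfl⟩ := trans z x hz1 hz2 hx1 hx
    obtain ⟨y', rfl⟩ := k.surjective y
    rw [← map_mul, ← map_mul, Subgroup.mem_center_iff.1 hz y']
  have sq : ∀ k ∈ K, ∃ l ∈ K, k = l * l := by
    haveI : Finite (MulAut P) := Finite.of_injective (fun f : MulAut P => (f : P → P)) DFunLike.coe_injective
    have hinj : Function.Injective fun l : K => l * l := by
      intro l l' h
      have hkey : ∀ m : K, m * m = 1 → m = 1 := by
        intro m hm
        have hm' : ∀ u, (m : MulAut P) ((m : MulAut P) u) = u := fun u => DFunLike.congr_fun (congrArg Subtype.val hm) u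
        obtain ⟨u, hu1, hu2, hum⟩ : ∃ u : P, u ≠ 1 ∧ u * u = 1 ∧ (m : MulAut P) u = u := by
          let w := (m : MulAut P) z
          have hw2 : w * w = 1 := by show (m : MulAut P) z * (m : MulAut P) z = 1; rw [← map_mul, hz2, map_one]
          by_cases hzw : z * w = 1
          · exact ⟨z, hz1, hz2, mul_left_cancel (hzw.trans hz2.symm)⟩
          · refine ⟨z * w, hzw, ?_, ?_⟩
            · calc z * w * (z * w) = z * (w * z) * w := by group
                _ = z * (z * w) * w := by rw [central z hz2 w]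
                _ = (z * z) * (w * w) := by group
                _ = 1 := by rw [hz2, hw2, one_mul]
            · rw [map_mul]
              show w * (m : MulAut P) ((m : MulAut P) z) = z * w
              rw [hm', central z hz2 w]
        obtain ⟨q, -, huniq⟩ := hreg u u hu1 hu2 hu1 hu2
        rw [huniq m hum, huniq 1 rfl]
      have h2 : (l * l'⁻¹) * (l * l'⁻¹) = 1 := by
        have hc : Commute l l'⁻¹ := Subtype.ext (comm _ l.2 _ (l'⁻¹).2)
        have h3 : l * l = l' * l' := h
        calc (l * l'⁻¹) * (l * l'⁻¹) = l * (l'⁻¹ * l) * l'⁻¹ := by group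
          _ = l * (l * l'⁻¹) * l'⁻¹ := by rw [hc.eq]
          _ = (l * l) * (l' * l')⁻¹ := by group
          _ = 1 := by rw [h3, mul_inv_cancel]
      exact mul_inv_eq_one.1 (hkey _ h2)
    intro k hk
    obtain ⟨l, hl⟩ := Finite.injective_iff_surjective.1 hinj ⟨k, hk⟩
    exact ⟨l, l.2, (congrArg Subtype.val hl).symm⟩
  have hS : CfsgLib.SuzukiTwoCentre.Setup K := ⟨comm, sq, central, trans⟩
  have h := CfsgLib.SuzukiTwoCentre.centre_sq h2 hna hS
  refine ⟨fun x => ⟨fun ⟨h1, h2⟩ => ⟨Subgroup.mem_center_iff.2 fun g => (central x h2 g).symm, h1⟩,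
    fun ⟨h1, h2⟩ => ⟨h2, h x h1⟩⟩, h⟩

end Cfsg.Agent.S1137
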