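import Cfsg.Statements.S1141
import Mathlib
import Cfsg.Agent.Lib.Unitary.SylowTwo

set_option autoImplicit false
open Cfsg CfsgLib.Unitary.SylowTwo

namespace Cfsg.Agent.S1141

/-- Let `q = 2^n ≥ 4` and `|F| = q²`. A Sylow 2-subgroup `S` of `PSU₃(q)` has order `q³`, its centre has order `q`, and `S` is a Suzuki 2-group. -/
theorem result {F : Type*} [Field F] [Fintype F] {n : ℕ} (hn : 2 ≤ n)
    (hF : Fintype.card F = (2 ^ n) ^ 2) (S : Sylow 2 (Cfsg.PSU 3 F (2 ^ n))) :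
    Nat.card S = (2 ^ n) ^ 3 ∧ Nat.card (Subgroup.center ↥(S : Subgroup (Cfsg.PSU 3 F (2 ^ n)))) = 2 ^ n ∧
      Cfsg.IsSuzukiTwoGroup ↥(S : Subgroup (Cfsg.PSU 3 F (2 ^ n))) := by
  classical
  haveI : CharP F 2 := CfsgLib.Unitary.SylowTwo.charTwo hF
  obtain ⟨e⟩ := sylow_psu hF rfl S
  have h4 : 2 ^ 2 ≤ 2 ^ n := Nat.pow_le_pow_right two_pos hn
  obtain ⟨hfin, hp, ⟨a, b, hab⟩, ⟨a', b', hab', ha1, ha2, hb1, hb2⟩, K, hK, hreg⟩ :=
    isSuzukiTwoGroup (n := n) hF rfl (by norm_num at h4; omega)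
  refine ⟨(Nat.card_congr e.toEquiv).trans (card_U hF),
    (Nat.card_congr (Subgroup.centerCongr e).toEquiv).trans (card_center hF), inferInstance, hp.of_equiv e.symm,
    ⟨e.symm a, e.symm b, fun h => hab (e.symm.injective (by rw [map_mul, map_mul, h]))⟩,
    ⟨e.symm a', e.symm b', fun h => hab' (e.symm.injective h), fun h => ha1 (e.symm.map_eq_one_iff.mp h),
      by rw [← map_mul, ha2, map_one], fun h => hb1 (e.symm.map_eq_one_iff.mp h), by rw [← map_mul, hb2, map_one]⟩, ?_⟩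
  let c : MulAut (U hF) →* MulAut (S : Subgroup (Cfsg.PSU 3 F (2 ^ n))) :=
    MonoidHom.mk' (fun φ => (e.trans φ).trans e.symm) fun φ ψ => by
      ext x; simp [MulAut.mul_apply]
  refine ⟨K.map c, isCyclic_of_surjective (c.subgroupMap K) (c.subgroupMap_surjective K), fun x y hx hx2 hy hy2 => ?_⟩
  obtain ⟨k, hk, huniq⟩ := hreg (e x) (e y) (fun h => hx (e.map_eq_one_iff.mp h)) (by rw [← map_mul, hx2, map_one])
    (fun h => hy (e.map_eq_one_iff.mp h)) (by rw [← map_mul, hy2, map_one])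
  refine ⟨⟨c k, k, k.2, rfl⟩, ?_, ?_⟩
  · show e.symm ((k : MulAut (U hF)) (e x)) = y
    rw [hk, e.symm_apply_apply]
  · rintro ⟨_, l, hl, rfl⟩ hlx
    have : l (e x) = e y := e.symm.injective (by rw [e.symm_apply_apply]; exact hlx)
    exact Subtype.ext (congrArg c (congrArg Subtype.val (huniq ⟨l, hl⟩ this)))

end Cfsg.Agent.S1141
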