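import Cfsg.Statements.S1160
import Cfsg.Agent.Lib.PLocal.OddRankTwo

set_option autoImplicit false
set_option maxHeartbeats 1000000
open Cfsg

namespace Cfsg.Agent.S1160


section
variable {P E : Type*} [Group P] [AddCommGroup E] [DistribMulAction P E]

theorem cop_cancel {p q : ℕ} (h : p.Coprime q) {e : E} (hp : p • e = 0) (hq : q • e = 0) : e = 0 := by
  have h1 : addOrderOf e ∣ p.gcd q :=
    Nat.dvd_gcd (addOrderOf_dvd_of_nsmul_eq_zero hp) (addOrderOf_dvd_of_nsmul_eq_zero hq)
  rw [h.gcd_eq_one, Nat.dvd_one, AddMonoid.addOrderOf_eq_one_iff] at h1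
  exact h1

/-- The sum of the first `p` translates. -/
def S (u : P) (p : ℕ) (e : E) : E := ∑ i ∈ Finset.range p, u ^ i • e

theorem S_fix {u : P} {p : ℕ} {e : E} (h : u • e = e) : S u p e = p • e := by
  have : ∀ i : ℕ, u ^ i • e = e := fun i => by
    induction i with
    | zero => simp
    | succ i ih => rw [pow_succ, mul_smul, h, ih]
  simp [S, this]

theorem S_add (u : P) (p : ℕ) (a b : E) : S u p (a + b) = S u p a + S u p b := by
  simp [S, smul_add, Finset.sum_add_distrib]

theorem smul_S {u v : P} (h : Commute v u) (p : ℕ) (e : E) : v • S u p e = S u p (v • e) := by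
  simp only [S, Finset.smul_sum, ← mul_smul]
  exact Finset.sum_congr rfl fun i _ => by rw [(h.pow_right i).eq]

theorem fix_S {u : P} {p : ℕ} (hu : u ^ p = 1) (e : E) : u • S u p e = S u p e := by
  have h1 := Finset.sum_range_succ' (fun i => u ^ i • e) p
  rw [Finset.sum_range_succ, hu, one_smul, pow_zero, one_smul] at h1
  have h2 : ∑ i ∈ Finset.range p, u ^ (i + 1) • e = ∑ i ∈ Finset.range p, u ^ i • e := (add_right_cancel h1).symm
  simpa [S, Finset.smul_sum, ← mul_smul, ← pow_succ'] using h2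

theorem stab_zpowers {u v : P} {e : E} (h : u • e = e) (hv : v ∈ Subgroup.zpowers u) : v • e = e := by
  have : Subgroup.zpowers u ≤ MulAction.stabilizer P e := Subgroup.zpowers_le.mpr h
  exact this hv

variable [Finite P] {p q : ℕ}

theorem central_fpf [FaithfulSMul P E] (hpq : p.Coprime q) (hE : ∀ e : E, q • e = 0)
    (hconst : ∀ a b : E, a ≠ 0 → b ≠ 0 →
      Nat.card (MulAction.stabilizer P a) = Nat.card (MulAction.stabilizer P b))
    {z : P} (hzc : z ∈ Subgroup.center P) (hzp : z ^ p = 1) (hz : z ≠ 1) : ∀ e : E, z • e = e → e = 0 := by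
  intro a ha
  by_contra ha0
  have hg : ∀ g : P, Commute g z := fun g => Subgroup.mem_center_iff.mp hzc g
  have indep : ∀ w y : E, z • w = w → w = z • y - y → w = 0 := by
    intro w y hw hy
    refine cop_cancel hpq ?_ (hE w)
    have h1 := S_fix (p := p) hw
    have h2 : S z p (z • y) = S z p y := by rw [← smul_S (Commute.refl z) p y, fix_S hzp]
    have h3 : S z p w + S z p y = S z p (z • y) := by
      rw [← S_add, hy, sub_add_cancel]
    rw [h2, add_eq_right, h1] at h3
    exact h3
  obtain ⟨y, hy⟩ : ∃ y : E, z • y ≠ y := by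
    by_contra h
    push Not at h
    exact hz (eq_of_smul_eq_smul (α := E) fun e => by rw [h e, one_smul])
  obtain ⟨b, hb⟩ : ∃ b, b = z • y - y := ⟨_, rfl⟩
  have hb0 : b ≠ 0 := by rw [hb]; exact sub_ne_zero.mpr hy
  have hab : a + b ≠ 0 := fun h => ha0 (indep a (-y) ha (by
    rw [eq_neg_of_add_eq_zero_left h, hb, smul_neg]; abel))
  have hle : ∀ g : P, g • (a + b) = a + b → g • a = a ∧ g • b = b := by
    intro g hg'
    have e1 : g • a - a = b - g • b := by
      rw [smul_add] at hg'
      rw [sub_eq_sub_iff_add_eq_add, hg', add_comm]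
    have e2 : g • a - a = 0 := by
      refine indep _ (y - g • y) ?_ ?_
      · rw [smul_sub, ha, ← mul_smul, ← (hg g).eq, mul_smul, ha]
      · rw [e1, hb, smul_sub, smul_sub, ← mul_smul, ← mul_smul, (hg g).eq]
        abel
    exact ⟨sub_eq_zero.mp e2, (sub_eq_zero.mp (e1.symm.trans e2)).symm⟩
  have eA : MulAction.stabilizer P (a + b) = MulAction.stabilizer P a :=
    Subgroup.eq_of_le_of_card_ge (fun g h => (hle g h).1) (hconst a (a + b) ha0 hab).le
  have hzab : z • (a + b) = a + b := by
    have : z ∈ MulAction.stabilizer P (a + b) := eA ▸ ha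
    exact this
  exact hb0 (indep b y (hle z hzab).2 hb)

end


/-- Let `p ≠ 2` be prime and `P` a finite `p`-group acting faithfully by additive automorphisms on a finite elementary abelian `q`-group `E` (`q` prime), such that `|P_a|` is the same for all `a ≠ 0`. Then `P` is cyclic and every non-identity element of `P` fixes only `0`. -/
theorem result {P E : Type*} [Group P] [Finite P]
    [AddCommGroup E] [Finite E] [DistribMulAction P E] [FaithfulSMul P E]
    {p q : ℕ} [Fact p.Prime] (hp2 : p ≠ 2) (hP : IsPGroup p P) (hq : q.Prime) (hE : ∀ e : E, q • e = 0)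
    (hconst : ∀ a b : E, a ≠ 0 → b ≠ 0 →
      Nat.card (MulAction.stabilizer P a) = Nat.card (MulAction.stabilizer P b)) :
    IsCyclic P ∧ ∀ g : P, g ≠ 1 → ∀ a : E, g • a = a → a = 0 := by
  rcases subsingleton_or_nontrivial E with hsub | hnt
  · have : Subsingleton P := ⟨fun g h => eq_of_smul_eq_smul (α := E) fun e => Subsingleton.elim _ _⟩
    exact ⟨inferInstance, fun g hg => absurd (Subsingleton.elim g 1) hg⟩
  have hp := (Fact.out : p.Prime)
  by_cases hpq : p = q
  · subst hpq
    have : Subsingleton P := by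
      obtain ⟨e₀, he₀⟩ := exists_ne (0 : E)
      have hdvd : p ∣ Nat.card E := by
        have : addOrderOf e₀ = p := addOrderOf_eq_prime (hE e₀) he₀
        exact this ▸ addOrderOf_dvd_natCard e₀
      obtain ⟨a, ha, hane⟩ := hP.exists_fixed_point_of_prime_dvd_card_of_fixed_point E hdvd
        (a := (0 : E)) (fun g => smul_zero g)
      have hall : ∀ (g : P) (b : E), g • b = b := by
        intro g b
        by_cases hb : b = 0
        · rw [hb, smul_zero]
        have htop : MulAction.stabilizer P b = ⊤ := by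
          refine Subgroup.eq_top_of_card_eq _ ?_
          rw [hconst b a hb (Ne.symm hane), show MulAction.stabilizer P a = ⊤ from
            eq_top_iff.mpr fun x _ => ha x, Subgroup.card_top]
        have : g ∈ MulAction.stabilizer P b := htop ▸ Subgroup.mem_top g
        exact this
      exact ⟨fun g h => eq_of_smul_eq_smul (α := E) fun e => by rw [hall, hall]⟩
    exact ⟨inferInstance, fun g hg => absurd (Subsingleton.elim g 1) hg⟩
  have hcop : p.Coprime q := (Nat.coprime_primes hp hq).mpr hpq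
  have hfpf : ∀ z : P, z ∈ Subgroup.center P → z ^ p = 1 → z ≠ 1 → ∀ e : E, z • e = e → e = 0 :=
    fun z => central_fpf hcop hE hconst
  have hcyc : IsCyclic P := by
    by_contra hnc
    obtain ⟨A, -, hAn, ⟨hAc, hAp⟩, hcA⟩ := CfsgLib.PLocal.exists_normal_el hp2 hP ⊤
      (fun h => hnc (Subgroup.topEquiv.isCyclic.mp h))
    have hAb : A ≠ ⊥ := fun h => by
      rw [h, Subgroup.card_bot] at hcA
      exact absurd hcA (Nat.one_lt_pow two_ne_zero hp.one_lt).ne
    obtain ⟨⟨z, hzA⟩, hz1'⟩ := Subgroup.ne_bot_iff_exists_ne_one.mp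
      (CfsgLib.PStep.normal_inf_center_ne_bot hP hAn hAb)
    have hz1 : z ≠ 1 := fun h => hz1' (Subtype.ext h)
    have hzfpf := hfpf z hzA.2 (hAp z hzA.1) hz1
    have hcomm : ∀ u ∈ A, ∀ v ∈ A, Commute u v := fun u hu v hv =>
      congrArg Subtype.val (mul_comm' (⟨u, hu⟩ : A) ⟨v, hv⟩)
    have hord : ∀ u ∈ A, u ≠ 1 → orderOf u = p := fun u hu hu1 => orderOf_eq_prime (hAp u hu) hu1
    have indep : ∀ u ∈ A, ∀ v ∈ A, u ≠ 1 → v ∉ Subgroup.zpowers u →
        ∀ e : E, u • e = e → v • e = e → e = 0 := by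
      intro u hu v hv hu1 hvu e heu hev
      refine hzfpf e ?_
      set H := A ⊓ MulAction.stabilizer P e with hH
      have h1 : Subgroup.zpowers u < H := by
        refine lt_of_le_of_ne (Subgroup.zpowers_le.mpr ⟨hu, heu⟩) fun h => hvu ?_
        rw [h]; exact ⟨hv, hev⟩
      have h2 : Nat.card H ∣ p ^ 2 := hcA ▸ Subgroup.card_dvd_of_le inf_le_left
      obtain ⟨k, hk, hkc⟩ := (Nat.dvd_prime_pow hp).mp h2
      have h3 : Nat.card (Subgroup.zpowers u) < Nat.card H := by
        refine lt_of_le_of_ne (Subgroup.card_le_of_le h1.le) fun h => h1.ne ?_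
        exact Subgroup.eq_of_le_of_card_ge h1.le h.ge
      rw [Nat.card_zpowers, hord u hu hu1, hkc] at h3
      have h4 : k = 2 := by
        have : 1 < k := (Nat.pow_lt_pow_iff_right hp.one_lt).mp (by rw [pow_one]; exact h3)
        omega
      have h5 : H = A := Subgroup.eq_of_le_of_card_ge inf_le_left (by rw [hkc, h4, hcA])
      have : z ∈ H := h5 ▸ hzA.1
      exact this.2
    have Skill : ∀ u ∈ A, ∀ v ∈ A, u ≠ 1 → v ∉ Subgroup.zpowers u → ∀ e : E, v • e = e → S u p e = 0 :=
      fun u hu v hv hu1 hvu e hev => indep u hu v hv hu1 hvu _ (fix_S (hAp u hu) e)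
        (by rw [smul_S (hcomm v hv u hu), hev])
    obtain ⟨x, hxA, hx1, a, ha, ha0⟩ : ∃ x ∈ A, x ≠ 1 ∧ ∃ a : E, x • a = a ∧ a ≠ 0 := by
      by_contra hno
      push Not at hno
      obtain ⟨x, hxA, hxz⟩ : ∃ x ∈ A, x ∉ Subgroup.zpowers z := by
        by_contra h
        push Not at h
        have h' : Nat.card A ≤ Nat.card (Subgroup.zpowers z) := Subgroup.card_le_of_le h
        rw [hcA, Nat.card_zpowers, hord z hzA.1 hz1, sq] at h'
        exact absurd h' (not_le.mpr (lt_mul_of_one_lt_left hp.pos hp.one_lt))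
      obtain ⟨v, hv⟩ := exists_ne (0 : E)
      have hS : ∀ u ∈ A, u ≠ 1 → ∀ e : E, S u p e = 0 := fun u hu hu1 e => hno u hu hu1 _ (fix_S (hAp u hu) e)
      refine hv (cop_cancel hcop ?_ (hE v))
      have hne : ∀ j : ℕ, z ^ j * x ≠ 1 := fun j h => hxz (by
        have : x = (z ^ j)⁻¹ := eq_inv_of_mul_eq_one_right h
        rw [this]; exact inv_mem (Subgroup.npow_mem_zpowers z j))
      -- all lines other than that of `z`, summed
      have h1 : ∑ j ∈ Finset.range p, S (z ^ j * x) p v = 0 :=
        Finset.sum_eq_zero fun j _ => hS _ (A.mul_mem (A.pow_mem hzA.1 j) hxA) (hne j) v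
      simp only [S] at h1
      rw [Finset.sum_comm] at h1
      have h2 : ∀ i ∈ Finset.range p, i ≠ 0 → ∑ j ∈ Finset.range p, (z ^ j * x) ^ i • v = 0 := by
        intro i hi hi0
        have hzi : z ^ i ≠ 1 := fun h => by
          have := orderOf_dvd_of_pow_eq_one h
          rw [hord z hzA.1 hz1] at this
          exact absurd (Nat.le_of_dvd (Nat.pos_of_ne_zero hi0) this) (not_le.mpr (Finset.mem_range.mp hi))
        have := hS _ (A.pow_mem hzA.1 i) hzi (x ^ i • v)
        rw [← this, S]
        refine Finset.sum_congr rfl fun j _ => ?_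
        rw [← mul_smul, (hcomm _ (A.pow_mem hzA.1 j) x hxA).mul_pow, ← pow_mul, ← pow_mul, mul_comm j i]
      rw [Finset.sum_eq_single 0 h2 (fun h => absurd (Finset.mem_range.mpr hp.pos) h)] at h1
      simpa using h1
    have hxz : ∀ u ∈ A, u ≠ 1 → ∀ e : E, u • e = e → e ≠ 0 → z ∉ Subgroup.zpowers u :=
      fun u hu hu1 e he he0 h => he0 (hzfpf e (stab_zpowers he h))
    have hmem : ∀ u ∈ A, ∀ v ∈ A, u ≠ 1 → v ≠ 1 → v ∈ Subgroup.zpowers u → u ∈ Subgroup.zpowers v := by
      intro u hu v hv hu1 hv1 h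
      have e : Subgroup.zpowers v = Subgroup.zpowers u := Subgroup.eq_of_le_of_card_ge (Subgroup.zpowers_le.mpr h)
        (by rw [Nat.card_zpowers, Nat.card_zpowers, hord u hu hu1, hord v hv hv1])
      rw [e]; exact Subgroup.mem_zpowers u
    obtain ⟨g, hgx⟩ : ∃ g : P, g * x * g⁻¹ ∉ Subgroup.zpowers x := by
      by_contra h
      push Not at h
      refine ha0 (hfpf x (Subgroup.mem_center_iff.mpr fun g => ?_) (hAp x hxA) hx1 a ha)
      have hn : (Subgroup.zpowers x).Normal := ⟨fun y hy g => by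
        obtain ⟨k, rfl⟩ := hy
        show g * x ^ k * g⁻¹ ∈ _
        rw [← conj_zpow]
        exact zpow_mem (h g) k⟩
      have hb : Subgroup.zpowers x ≠ ⊥ := fun h' => hx1 (Subgroup.zpowers_eq_bot.mp h')
      obtain ⟨⟨w, hw⟩, hw1⟩ := Subgroup.ne_bot_iff_exists_ne_one.mp
        (CfsgLib.PStep.normal_inf_center_ne_bot hP hn hb)
      have hw1' : w ≠ 1 := fun h' => hw1 (Subtype.ext h')
      have hwA : w ∈ A := Subgroup.zpowers_le.mpr hxA hw.1
      obtain ⟨k, hk⟩ := hmem x hxA w hwA hx1 hw1' hw.1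
      rw [← hk]
      have hwc : w ∈ Subgroup.center P := hw.2
      exact Subgroup.mem_center_iff.mp (zpow_mem hwc k) g
    set x' := g * x * g⁻¹ with hx'
    have hx'A : x' ∈ A := hAn.conj_mem x hxA g
    have hx'1 : x' ≠ 1 := fun h => hgx (h ▸ one_mem _)
    set b := g • a with hb
    have hb' : x' • b = b := by rw [hx', hb, ← mul_smul, inv_mul_cancel_right, mul_smul, ha]
    have hb0 : b ≠ 0 := fun h => ha0 ((smul_eq_zero_iff_eq g).mp h)
    have hxx : x ∉ Subgroup.zpowers x' := fun h => hgx (hmem x' hx'A x hxA hx'1 hx1 h)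
    have hab : a + b ≠ 0 := fun h => ha0 (indep x hxA x' hx'A hx1 hgx a ha (by
      rw [eq_neg_of_add_eq_zero_left h, smul_neg, hb']))
    have hle : ∀ h : P, h • (a + b) = a + b → h • a = a ∧ h • b = b := by
      intro h hh
      set u := h * x * h⁻¹ with hu
      set v := h * x' * h⁻¹ with hv
      have huA : u ∈ A := hAn.conj_mem x hxA h
      have hvA : v ∈ A := hAn.conj_mem x' hx'A h
      have hu1 : u ≠ 1 := fun e => hx1 (conj_eq_one_iff.mp e)
      have hv1 : v ≠ 1 := fun e => hx'1 (conj_eq_one_iff.mp e)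
      have hua : u • (h • a) = h • a := by rw [hu, ← mul_smul, inv_mul_cancel_right, mul_smul, ha]
      have hvb : v • (h • b) = h • b := by rw [hv, ← mul_smul, inv_mul_cancel_right, mul_smul, hb']
      rw [smul_add] at hh
      have hS : S x p (h • a) + S x p (h • b) = p • a := by
        rw [← S_add, hh, S_add, S_fix ha, Skill x hxA x' hx'A hx1 hgx b hb', add_zero]
      have hpc : ∀ e f : E, p • e = p • f → e = f := fun e f h' =>
        sub_eq_zero.mp (cop_cancel hcop (by rw [smul_sub, h', sub_self]) (hE _))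
      by_cases hc1 : u ∈ Subgroup.zpowers x <;> by_cases hc2 : v ∈ Subgroup.zpowers x
      · exfalso
        refine ha0 ((smul_eq_zero_iff_eq h).mp (indep u huA v hvA hu1 ?_ _ hua ?_))
        · intro hc
          obtain ⟨k, hk⟩ := hc
          refine hgx ⟨k, ?_⟩
          show x ^ k = x'
          have : h * x ^ k * h⁻¹ = h * x' * h⁻¹ := by rw [← conj_zpow]; exact hk
          exact mul_left_cancel (mul_right_cancel this)
        · exact stab_zpowers (stab_zpowers hua (hmem x hxA u huA hx1 hu1 hc1)) hc2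
      · rw [S_fix (stab_zpowers hua (hmem x hxA u huA hx1 hu1 hc1)), Skill x hxA v hvA hx1 hc2 _ hvb, add_zero] at hS
        have h1 := hpc _ _ hS
        rw [h1] at hh
        exact ⟨h1, add_left_cancel hh⟩
      · rw [S_fix (stab_zpowers hvb (hmem x hxA v hvA hx1 hv1 hc2)), Skill x hxA u huA hx1 hc1 _ hua, zero_add] at hS
        exfalso
        have h1 := hpc _ _ hS
        rw [h1, add_comm] at hh
        have h2 : h • a = b := add_left_cancel hh
        have h3 : (h ^ 2) • a = a := by rw [pow_two, mul_smul, h2, h1]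
        obtain ⟨k, hk⟩ := (IsPGroup.iff_card.mp hP)
        obtain ⟨j, hj⟩ := ((hp.odd_of_ne_two hp2).pow (n := k)).of_dvd_nat (hk ▸ orderOf_dvd_natCard h)
        have h5 : h ∈ Subgroup.zpowers (h ^ 2) := by
          refine ⟨(j + 1 : ℕ), ?_⟩
          show (h ^ 2) ^ ((j + 1 : ℕ) : ℤ) = h
          rw [zpow_natCast, ← pow_mul, show 2 * (j + 1) = orderOf h + 1 by omega, pow_succ, pow_orderOf_eq_one, one_mul]
        have h4 : h • a = a := stab_zpowers h3 h5
        exact ha0 (indep x hxA x' hx'A hx1 hgx a ha (by rw [← h4, h2, hb']))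
      · rw [Skill x hxA u huA hx1 hc1 _ hua, Skill x hxA v hvA hx1 hc2 _ hvb, add_zero] at hS
        exact absurd (cop_cancel hcop hS.symm (hE a)) ha0
    have eA : MulAction.stabilizer P (a + b) = MulAction.stabilizer P a :=
      Subgroup.eq_of_le_of_card_ge (fun h hh => (hle h hh).1) (hconst a (a + b) ha0 hab).le
    have hxab : x • (a + b) = a + b := by
      have : x ∈ MulAction.stabilizer P (a + b) := eA ▸ ha
      exact this
    exact hb0 (indep x hxA x' hx'A hx1 hgx b (hle x hxab).2 hb')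
  refine ⟨hcyc, fun g hg e he => ?_⟩
  have hc : ∀ y : P, y ∈ Subgroup.center P := fun y => Subgroup.mem_center_iff.mpr fun w => by
    obtain ⟨c, hc⟩ := hcyc.exists_generator
    obtain ⟨i, rfl⟩ := hc y
    obtain ⟨j, rfl⟩ := hc w
    exact (Commute.refl c).zpow_zpow j i
  obtain ⟨⟨y, hy⟩, hyo⟩ : ∃ y : Subgroup.zpowers g, orderOf y = p := by
    refine exists_prime_orderOf_dvd_card' p ?_
    have : Nontrivial (Subgroup.zpowers g) :=
      (Subgroup.nontrivial_iff_ne_bot _).mpr fun h => hg (Subgroup.zpowers_eq_bot.mp h)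
    obtain ⟨k, hk, hck⟩ := (IsPGroup.nontrivial_iff_card (hP.to_subgroup _)).mp this
    rw [hck]; exact dvd_pow_self p hk.ne'
  rw [Subgroup.orderOf_mk] at hyo
  exact hfpf y (hc y) (hyo ▸ pow_orderOf_eq_one y) (fun h => hp.ne_one (by rw [← hyo, h, orderOf_one])) e
    (stab_zpowers he hy)

end Cfsg.Agent.S1160
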