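import Cfsg.Statements.S1176
import Mathlib

set_option autoImplicit false
open Cfsg

namespace Cfsg.Agent.S1176

open scoped commutatorElement

/-- Let x₀ be an involution of the finite group G and D its conjugacy class. Assume (a) for each x ∈ D the subgroup W(x) generated by the members of D commuting with x is a 2-group of nilpotency class at most 2, and (b) the product of two distinct commuting members of D again lies in D. Then for all x, y ∈ D, if xy has even order greater than 2, its order is 4. -/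
theorem result {G : Type*} [Group G] [Finite G] (x₀ : G) (hx₀ : orderOf x₀ = 2) (ha : ∀ x : G, IsConj x₀ x → IsPGroup 2 ↥(Subgroup.closure {y : G | IsConj x₀ y ∧ Commute y x}) ∧ ⁅⁅Subgroup.closure {y : G | IsConj x₀ y ∧ Commute y x}, Subgroup.closure {y : G | IsConj x₀ y ∧ Commute y x}⁆, Subgroup.closure {y : G | IsConj x₀ y ∧ Commute y x}⁆ = ⊥) (hb : ∀ x y : G, IsConj x₀ x → IsConj x₀ y → x ≠ y → Commute x y → IsConj x₀ (x * y)) (x y : G) (hx : IsConj x₀ x) (hy : IsConj x₀ y) (heven : Even (orderOf (x * y))) (hgt : 2 < orderOf (x * y)) : orderOf (x * y) = 4 := by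
  classical
  set r := x * y with hr
  have sq : ∀ d : G, IsConj x₀ d → d * d = 1 := fun d hd => by
    obtain ⟨c, rfl⟩ := isConj_iff.1 hd
    have h : x₀ * x₀ = 1 := by rw [← pow_two, ← hx₀, pow_orderOf_eq_one]
    rw [show c * x₀ * c⁻¹ * (c * x₀ * c⁻¹) = c * (x₀ * x₀) * c⁻¹ by group, h]; group
  have hxx := sq x hx
  have hyy := sq y hy
  have hxi : x⁻¹ = x := inv_eq_of_mul_eq_one_right hxx
  have hyi : y⁻¹ = y := inv_eq_of_mul_eq_one_right hyy
  have hrinv : r⁻¹ = y * x := by rw [hr, mul_inv_rev, hxi, hyi]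
  have hxr : ∀ i : ℕ, x * r ^ i = (r ^ i)⁻¹ * x := fun i => by
    have h : SemiconjBy x r r⁻¹ := by
      show x * r = r⁻¹ * x
      rw [hrinv, hr, ← mul_assoc, hxx, one_mul, mul_assoc, hxx, mul_one]
    simpa using (h.pow_right i).eq
  have hyr : ∀ i : ℕ, y * r ^ i = (r ^ i)⁻¹ * y := fun i => by
    have h : SemiconjBy y r r⁻¹ := by
      show y * r = r⁻¹ * y
      rw [hrinv, hr, mul_assoc]
    simpa using (h.pow_right i).eq
  obtain ⟨k, hk⟩ := heven
  rw [← two_mul] at hk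
  have hz2 : r ^ k * r ^ k = 1 := by rw [← pow_add, ← two_mul, ← hk, pow_orderOf_eq_one]
  have hzi : (r ^ k)⁻¹ = r ^ k := inv_eq_of_mul_eq_one_right hz2
  have hzx : Commute (r ^ k) x := by
    show r ^ k * x = x * r ^ k
    rw [hxr, hzi]
  have hzy : Commute (r ^ k) y := by
    show r ^ k * y = y * r ^ k
    rw [hyr, hzi]
  have hzne : r ^ k ≠ 1 := pow_ne_one_of_lt_orderOf (by omega) (by omega)
  have hxz : IsConj x₀ (x * r ^ k) := by
    rcases Nat.even_or_odd' k with ⟨j, rfl | rfl⟩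
    · refine hx.trans (isConj_iff.2 ⟨(r ^ j)⁻¹, ?_⟩)
      rw [inv_inv, two_mul, pow_add, ← mul_assoc, hxr]
    · refine hy.trans (isConj_iff.2 ⟨(r ^ j)⁻¹, ?_⟩)
      rw [inv_inv, pow_succ', ← mul_assoc, show x * r = y by rw [hr, ← mul_assoc, hxx, one_mul], two_mul, pow_add, ← mul_assoc, hyr]
  have hzD : IsConj x₀ (r ^ k) := by
    have h := hb x (x * r ^ k) hx hxz (fun e => hzne (mul_left_cancel (e.symm.trans (mul_one x).symm)))
      (((Commute.refl x).mul_right hzx.symm))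
    rwa [← mul_assoc, hxx, one_mul] at h
  obtain ⟨h2, hcl⟩ := ha _ hzD
  set W := Subgroup.closure {w : G | IsConj x₀ w ∧ Commute w (r ^ k)}
  have hxW : x ∈ W := Subgroup.subset_closure ⟨hx, hzx.symm⟩
  have hyW : y ∈ W := Subgroup.subset_closure ⟨hy, hzy.symm⟩
  have hr4 : r ^ 4 = 1 := by
    have hc : ⁅⁅x, y⁆, x⁆ = 1 := Subgroup.mem_bot.1 (hcl ▸ Subgroup.commutator_mem_commutator (Subgroup.commutator_mem_commutator hxW hyW) hxW)
    have hxy : ⁅x, y⁆ = r ^ 2 := by rw [commutatorElement_def, hxi, hyi, hr, pow_two, mul_assoc (x * y)]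
    have e : x * (r ^ 2)⁻¹ = r ^ 2 * x := by
      rw [mul_inv_eq_iff_eq_mul, mul_assoc, hxr, mul_inv_cancel_left]
    rw [hxy, commutatorElement_def, hxi] at hc
    rw [show r ^ 2 * x * (r ^ 2)⁻¹ * x = r ^ 2 * (x * (r ^ 2)⁻¹) * x by group, e] at hc
    rw [← hc, mul_assoc, mul_assoc (r ^ 2), hxx, mul_one, ← pow_add]
  obtain ⟨i, hi, he⟩ := (Nat.dvd_prime_pow Nat.prime_two).1 (show orderOf r ∣ 2 ^ 2 from orderOf_dvd_of_pow_eq_one hr4)
  rw [he] at hgt ⊢
  interval_cases i <;> simp_all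

end Cfsg.Agent.S1176
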