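import Cfsg.Statements.S1177
import Cfsg.Agent.Lib.Involution

set_option autoImplicit false
open Cfsg

namespace Cfsg.Agent.S1177

/-- Let A be a nontrivial elementary abelian 2-subgroup of a finite group G which is a T.I. set (each conjugate of A meets A trivially or equals A) and which does not commute elementwise with any conjugate of A other than A itself. Then for every a ∈ A, a ≠ 1, every conjugate of A contained in C_G(a) is equal to A (A is weakly closed in C_G(a)). -/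
theorem result {G : Type*} [Group G] [Finite G] (A : Subgroup G) (hA : Cfsg.IsElementaryAbelian 2 A) (hA1 : A ≠ ⊥) (hTI : ∀ g : G, A.map (MulAut.conj g).toMonoidHom ⊓ A = ⊥ ∨ A.map (MulAut.conj g).toMonoidHom = A) (hb : ∀ g : G, (∀ a ∈ A, ∀ b ∈ A.map (MulAut.conj g).toMonoidHom, a * b = b * a) → A.map (MulAut.conj g).toMonoidHom = A) (a : G) (ha : a ∈ A) (ha1 : a ≠ 1) (g : G) (hg : A.map (MulAut.conj g).toMonoidHom ≤ Subgroup.centralizer ({a} : Set G)) : A.map (MulAut.conj g).toMonoidHom = A := by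
  classical
  set B := A.map (MulAut.conj g).toMonoidHom with hB
  refine hb g fun x hx y hy => ?_
  have hmem : ∀ {c d : G}, d ∈ A → c * d * c⁻¹ ∈ A.map (MulAut.conj c).toMonoidHom := fun {c d} h =>
    ⟨d, h, rfl⟩
  have hmapB : ∀ c : G, B.map (MulAut.conj c).toMonoidHom = A.map (MulAut.conj (c * g)).toMonoidHom :=
    fun c => by
      rw [hB, Subgroup.map_map]
      congr 1
      ext; simp [mul_assoc]
  have hNB : ∀ b ∈ B, ∀ w ∈ A, b * w * b⁻¹ ∈ A := by
    intro b hbB w hw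
    have hab : b * a * b⁻¹ = a := by
      rw [Subgroup.mem_centralizer_singleton_iff.mp (hg hbB), mul_inv_cancel_right]
    rcases hTI b with h | h
    · exfalso
      have : a ∈ A.map (MulAut.conj b).toMonoidHom ⊓ A := ⟨hab ▸ hmem ha, ha⟩
      rw [h, Subgroup.mem_bot] at this
      exact ha1 this
    · exact h ▸ hmem hw
  have hsqB : ∀ b ∈ B, b * b = 1 := by
    rintro _ ⟨w, hw, rfl⟩
    simp [← pow_two, ← map_pow, hA.2 w hw]
  have hcommA : ∀ u ∈ A, ∀ v ∈ A, u * v = v * u := fun u hu v hv => by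
    haveI := hA.1
    exact congrArg Subtype.val (mul_comm' (⟨u, hu⟩ : A) ⟨v, hv⟩)
  have hinvA : ∀ u ∈ A, u⁻¹ = u := fun u hu =>
    inv_eq_of_mul_eq_one_right (by rw [← pow_two]; exact hA.2 u hu)
  have hinvB : ∀ b ∈ B, b⁻¹ = b := fun b hbB => inv_eq_of_mul_eq_one_right (hsqB b hbB)
  by_cases hAB : B ⊓ A = ⊥
  swap
  · rcases hTI g with h | h
    · exact absurd h hAB
    · exact hcommA x hx y (h ▸ hy)
  have hall : ∀ w ∈ A, (∃ b ∈ B, b ≠ 1 ∧ b * w = w * b) → ∀ c ∈ B, c * w = w * c := by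
    rintro w hw ⟨b, hbB, hb1, hbw⟩ c hc
    have hinter : b ∈ B.map (MulAut.conj w).toMonoidHom ⊓ B :=
      ⟨⟨b, hbB, by simp [← hbw]⟩, hbB⟩
    have hwB : B.map (MulAut.conj w).toMonoidHom = B := by
      rcases hTI (g⁻¹ * w * g) with h | h
      · exfalso
        have h' := congrArg (Subgroup.map (MulAut.conj g).toMonoidHom) h
        rw [Subgroup.map_inf _ _ _ (MulAut.conj g).injective, Subgroup.map_bot, Subgroup.map_map,
          show (MulAut.conj g).toMonoidHom.comp (MulAut.conj (g⁻¹ * w * g)).toMonoidHom =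
            (MulAut.conj (w * g)).toMonoidHom from by ext; simp [mul_assoc],
          ← hB, ← hmapB] at h'
        rw [h', Subgroup.mem_bot] at hinter
        exact hb1 hinter
      · have h' := congrArg (Subgroup.map (MulAut.conj g).toMonoidHom) h
        rwa [Subgroup.map_map,
          show (MulAut.conj g).toMonoidHom.comp (MulAut.conj (g⁻¹ * w * g)).toMonoidHom =
            (MulAut.conj (w * g)).toMonoidHom from by ext; simp [mul_assoc],
          ← hB, ← hmapB] at h'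
    have h1 : w * c * w⁻¹ * c⁻¹ ∈ B ⊓ A := by
      refine ⟨B.mul_mem (hwB ▸ ⟨c, hc, rfl⟩) (B.inv_mem hc), ?_⟩
      rw [show w * c * w⁻¹ * c⁻¹ = w * (c * w⁻¹ * c⁻¹) by group]
      exact A.mul_mem hw (hNB c hc _ (A.inv_mem hw))
    rw [hAB, Subgroup.mem_bot] at h1
    exact ((mul_inv_eq_iff_eq_mul).mp (mul_inv_eq_one.mp h1)).symm
  by_cases hxB : ∃ b ∈ B, b ≠ 1 ∧ b * x = x * b
  · exact (hall x hx hxB y hy).symm
  exfalso
  have hxB' : ∀ b ∈ B, b * x = x * b → b = 1 := fun b hbB hbx => by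
    by_contra h; exact hxB ⟨b, hbB, h, hbx⟩
  -- the map `b ↦ [x, b]` embeds `B` into the subgroup of `A` centralising `B`
  let D : Subgroup G := A ⊓ Subgroup.centralizer (B : Set G)
  have hD : ∀ b ∈ B, x * b * x⁻¹ * b⁻¹ ∈ D := by
    intro b hbB
    have hmemA : x * b * x⁻¹ * b⁻¹ ∈ A := by
      rw [show x * b * x⁻¹ * b⁻¹ = x * (b * x⁻¹ * b⁻¹) by group]
      exact A.mul_mem hx (hNB b hbB _ (A.inv_mem hx))
    refine ⟨hmemA, Subgroup.mem_centralizer_iff.mpr fun c hc => ?_⟩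
    by_cases hb1 : b = 1
    · simp [hb1]
    refine hall _ hmemA ⟨b, hbB, hb1, ?_⟩ c hc
    have hbxb : b * x * b⁻¹ ∈ A := hNB b hbB x hx
    rw [hinvB b hbB, hinvA x hx]
    rw [hinvB b hbB] at hbxb
    calc b * (x * b * x * b) = (b * x * b) * x * b := by group
      _ = x * (b * x * b) * b := by rw [hcommA _ hbxb x hx]
      _ = _ := by group
  let ψ : B → D := fun b => ⟨_, hD b b.2⟩
  have hψ : Function.Injective ψ := by
    intro b c h
    have h' : x * (b : G) * x⁻¹ * (b : G)⁻¹ = x * (c : G) * x⁻¹ * (c : G)⁻¹ := congrArg Subtype.val h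
    apply Subtype.ext
    refine inv_mul_eq_one.mp (hxB' _ (B.mul_mem (B.inv_mem c.2) b.2) ?_) |>.symm
    have h'' : x⁻¹ * ((b : G))⁻¹ * (c : G) = x⁻¹ * ((b : G))⁻¹ * (c : G) := rfl
    calc (c : G)⁻¹ * (b : G) * x
        = (c : G)⁻¹ * x⁻¹⁻¹ * ((x⁻¹ * b * x * (b : G)⁻¹) * (b : G)) := by group
      _ = (c : G)⁻¹ * x⁻¹⁻¹ * ((x * b * x⁻¹ * (b : G)⁻¹) * (b : G)) := by rw [hinvA x hx]
      _ = (c : G)⁻¹ * x⁻¹⁻¹ * ((x * c * x⁻¹ * (c : G)⁻¹) * (b : G)) := by rw [h']
      _ = (c : G)⁻¹ * x * (x * c * x⁻¹ * (c : G)⁻¹) * (b : G) := by group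
      _ = (c : G)⁻¹ * (x * x) * c * x⁻¹ * ((c : G)⁻¹ * b) := by group
      _ = _ := by rw [← pow_two, hA.2 x hx, hinvA x hx]; group
  have hcard : Nat.card A ≤ Nat.card D := by
    refine le_of_eq_of_le ?_ (Nat.card_le_card_of_injective ψ hψ)
    rw [hB, Nat.card_congr (A.equivMapOfInjective (MulAut.conj g).toMonoidHom (MulAut.conj g).injective).toEquiv]
  have hDA : D = A := Subgroup.eq_of_le_of_card_ge inf_le_left hcard
  obtain ⟨b, hbB, hb1⟩ : ∃ b ∈ B, b ≠ 1 := by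
    refine ⟨g * a * g⁻¹, hmem ha, fun h => ha1 ?_⟩
    rw [show a = g⁻¹ * (g * a * g⁻¹) * g by group, h]; group
  exact hxB ⟨b, hbB, hb1, Subgroup.mem_centralizer_iff.mp (hDA.ge hx).2 b hbB⟩

end Cfsg.Agent.S1177
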