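import Cfsg.Statements.S1178
import Cfsg.Agent.Lib.Involution

set_option autoImplicit false
open Cfsg

namespace Cfsg.Agent.S1178

/-- Let A be a subgroup of a Sylow 2-subgroup S of the finite group G which is weakly closed in S. If a conjugate g A g⁻¹ commutes elementwise with A, then g A g⁻¹ = A. -/
theorem result {G : Type*} [Group G] [Finite G] (S : Sylow 2 G) (A : Subgroup G) (hW : Cfsg.IsWeaklyClosed A (S : Subgroup G)) (g : G) (hc : ∀ a ∈ A, ∀ b ∈ A.map (MulAut.conj g).toMonoidHom, a * b = b * a) : A.map (MulAut.conj g).toMonoidHom = A := by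
  set B := A.map (MulAut.conj g).toMonoidHom with hB
  have hA2 : IsPGroup 2 A := S.isPGroup'.to_le hW.1
  have hB2 : IsPGroup 2 B := hA2.map _
  have hn : B ≤ Subgroup.normalizer (A : Set G) := fun b hb => by
    rw [Subgroup.mem_normalizer_iff]
    intro w
    constructor
    · intro hw; rwa [← hc w hw b hb, mul_inv_cancel_right]
    · intro hw
      have := hc _ hw b hb
      have hcw : b * w * b⁻¹ = w := by
        calc b * w * b⁻¹ = b⁻¹ * (b * (b * w * b⁻¹)) := by group
          _ = b⁻¹ * (b * w * b⁻¹ * b) := by rw [this]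
          _ = w := by group
      rwa [hcw] at hw
  obtain ⟨Q, hQ⟩ := (hA2.to_sup_of_normal_left' hB2 hn).exists_le_sylow
  obtain ⟨h, hh⟩ := MulAction.exists_smul_eq G Q S
  have key : ∀ k : G, A.map (MulAut.conj k).toMonoidHom ≤ (Q : Subgroup G) →
      A.map (MulAut.conj (h * k)).toMonoidHom = A := fun k hk => by
    apply hW.2
    rw [show (MulAut.conj (h * k)).toMonoidHom =
      (MulAut.conj h).toMonoidHom.comp (MulAut.conj k).toMonoidHom from by ext; simp [mul_assoc],
      ← Subgroup.map_map, ← hh]
    exact Subgroup.map_mono hk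
  have h1 := key g (le_sup_right.trans hQ)
  have h2 := key 1 (by rintro _ ⟨v, hv, rfl⟩; simpa using hQ (Subgroup.mem_sup_left hv))
  rw [mul_one] at h2
  apply Subgroup.map_injective (f := (MulAut.conj h).toMonoidHom) (MulAut.conj h).injective
  change Subgroup.map (MulAut.conj h).toMonoidHom B = Subgroup.map (MulAut.conj h).toMonoidHom A
  rw [h2, hB, Subgroup.map_map]
  convert h1 using 2
  ext; simp [mul_assoc]

end Cfsg.Agent.S1178
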