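import Cfsg.Statements.S1181
import Cfsg.Agent.Lib.Isolated

set_option autoImplicit false
open Cfsg

namespace Cfsg.Agent.S1181

/-- Let z be an isolated involution of the finite group G and N a normal subgroup with z ∉ N. Then the centralizer of zN in G/N is the image of C_G(z), and zN is an isolated involution of G/N. -/
theorem result {G : Type*} [Group G] [Finite G] (z : G) (hz : Cfsg.IsIsolatedInvolution z) (N : Subgroup G) [N.Normal] (hzN : z ∉ N) : Subgroup.centralizer ({(QuotientGroup.mk z : G ⧸ N)} : Set (G ⧸ N)) = (Subgroup.centralizer ({z} : Set G)).map (QuotientGroup.mk' N) ∧ Cfsg.IsIsolatedInvolution (QuotientGroup.mk z : G ⧸ N) := by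
  have hodd := fun g : G => CfsgLib.Isolated.odd_orderOf_mul_conj hz g
  constructor
  · refine le_antisymm ?_ ?_
    · intro c hc
      induction c using QuotientGroup.induction_on with | _ g => ?_
      rw [CfsgLib.Isolated.mem_centralizer_iff_conj, ← QuotientGroup.mk_inv, ← QuotientGroup.mk_mul,
        ← QuotientGroup.mk_mul, eq_comm, QuotientGroup.eq] at hc
      rw [CfsgLib.Involution.inv_eq hz.1] at hc
      obtain ⟨k, hk⟩ := CfsgLib.Isolated.exists_zpow_conj hz.1
        (CfsgLib.Involution.orderOf_conj' hz.1) (hodd g)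
      refine ⟨((z * (g * z * g⁻¹)) ^ k)⁻¹ * g, ?_, ?_⟩
      · rw [SetLike.mem_coe, CfsgLib.Isolated.mem_centralizer_iff_conj]
        generalize (z * (g * z * g⁻¹)) ^ k = d at hk
        calc d⁻¹ * g * z * (d⁻¹ * g)⁻¹ = d⁻¹ * (g * z * g⁻¹) * d := by group
          _ = z := by rw [← hk]; group
      · rw [QuotientGroup.mk'_apply, QuotientGroup.eq, mul_inv_rev, inv_inv,
          show g⁻¹ * (z * (g * z * g⁻¹)) ^ k * g = g⁻¹ * (z * (g * z * g⁻¹)) ^ k * g⁻¹⁻¹ by
            rw [inv_inv]]
        exact Subgroup.Normal.conj_mem inferInstance _ (N.zpow_mem hc k) _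
    · rintro _ ⟨g, hg, rfl⟩
      rw [SetLike.mem_coe, Subgroup.mem_centralizer_singleton_iff] at hg
      rw [Subgroup.mem_centralizer_singleton_iff, QuotientGroup.mk'_apply, ← QuotientGroup.mk_mul,
        hg, QuotientGroup.mk_mul]
  · have hz2 : orderOf (QuotientGroup.mk z : G ⧸ N) = 2 := by
      refine CfsgLib.Involution.orderOf_eq_two ?_ fun h => hzN ((QuotientGroup.eq_one_iff z).mp h)
      rw [← QuotientGroup.mk_mul, CfsgLib.Involution.mul_self hz.1, QuotientGroup.mk_one]
    refine ⟨hz2, fun c hc => ?_⟩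
    induction c using QuotientGroup.induction_on with | _ g => ?_
    have hv2 := CfsgLib.Involution.orderOf_conj' (g := (QuotientGroup.mk g : G ⧸ N)) hz2
    generalize hv : (QuotientGroup.mk g : G ⧸ N) * QuotientGroup.mk z * (QuotientGroup.mk g)⁻¹ = v
      at hc hv2 ⊢
    have hdvd : orderOf ((QuotientGroup.mk z : G ⧸ N) * v) ∣ 2 := orderOf_dvd_of_pow_eq_one (by
      rw [pow_two, hc.symm.mul_mul_mul_comm, CfsgLib.Involution.mul_self hz2,
        CfsgLib.Involution.mul_self hv2, one_mul])
    have hodd' : Odd (orderOf ((QuotientGroup.mk z : G ⧸ N) * v)) := by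
      refine (hodd g).of_dvd_nat ?_
      rw [← hv]
      exact orderOf_map_dvd (QuotientGroup.mk' N) (z * (g * z * g⁻¹))
    rcases (Nat.dvd_prime Nat.prime_two).mp hdvd with h | h
    · exact ((eq_inv_of_mul_eq_one_right (orderOf_eq_one_iff.mp h))).trans (CfsgLib.Involution.inv_eq hz2)
    · rw [h] at hodd'; exact absurd hodd' (by decide)

end Cfsg.Agent.S1181
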