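import Cfsg.Statements.S1182
import Cfsg.Agent.Lib.Isolated

set_option autoImplicit false
open Cfsg

namespace Cfsg.Agent.S1182

/-- Let z be an isolated involution of the finite group G and H a subgroup normalized by z. If x, y ∈ H both commute with z and y = h x h⁻¹ for some h ∈ H, then y = c x c⁻¹ for some c ∈ H commuting with z. -/
theorem result {G : Type*} [Group G] [Finite G] (z : G) (hz : Cfsg.IsIsolatedInvolution z) (H : Subgroup G) (hzH : z ∈ Subgroup.normalizer (H : Set G)) (x y : G) (hx : x ∈ H) (hy : y ∈ H) (hxz : Commute x z) (hyz : Commute y z) (h : G) (hh : h ∈ H) (hconj : h * x * h⁻¹ = y) : ∃ c ∈ H, Commute c z ∧ c * x * c⁻¹ = y := by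
  set z' := h⁻¹ * z * h with hz'
  have hz'e : z' = h⁻¹ * z * h⁻¹⁻¹ := by rw [inv_inv]
  have hz'2 : orderOf z' = 2 := hz'e ▸ CfsgLib.Involution.orderOf_conj' hz.1
  obtain ⟨k, hk⟩ := CfsgLib.Isolated.exists_zpow_conj hz.1 hz'2
    (hz'e ▸ CfsgLib.Isolated.odd_orderOf_mul_conj hz h⁻¹)
  set d := (z * z') ^ k
  have hzz' : z * z' ∈ H := by
    rw [show z * z' = (z * h⁻¹ * z⁻¹) * (z * z) * h by rw [hz']; group,
      CfsgLib.Involution.mul_self hz.1, mul_one]
    exact H.mul_mem ((Subgroup.mem_normalizer_iff.mp hzH _).mp (H.inv_mem hh)) hh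
  have hxz' : Commute x z' := by
    rw [show x = h⁻¹ * y * h by rw [← hconj]; group, hz']
    show h⁻¹ * y * h * (h⁻¹ * z * h) = _
    calc h⁻¹ * y * h * (h⁻¹ * z * h) = h⁻¹ * (y * z) * h := by group
      _ = _ := by rw [hyz.eq]; group
  have hxd : Commute x d := (hxz.mul_right hxz').zpow_right k
  refine ⟨h * d, H.mul_mem hh (H.zpow_mem hzz' k), ?_, ?_⟩
  · show h * d * z = z * (h * d)
    calc h * d * z = h * (d * z * d⁻¹) * d := by group
      _ = _ := by rw [hk, hz']; group
  · calc h * d * x * (h * d)⁻¹ = h * (d * x * d⁻¹) * h⁻¹ := by group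
      _ = y := by rw [← hxd.eq, mul_inv_cancel_right, hconj]

end Cfsg.Agent.S1182
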