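import Cfsg.Statements.S1183
import Mathlib
import Cfsg.Agent.Lib.Isolated

set_option autoImplicit false
open Cfsg

namespace Cfsg.Agent.S1183

/-- Let z be an isolated involution of the finite group G and C = C_G(z). Then the subgroup of G generated by its elements of odd order is all of G if and only if the subgroup of C generated by its elements of odd order is all of C. -/
theorem result {G : Type*} [Group G] [Finite G] (z : G) (hz : Cfsg.IsIsolatedInvolution z) : Cfsg.pResidual 2 G = ⊤ ↔ Cfsg.pResidual 2 ↥(Subgroup.centralizer ({z} : Set G)) = ⊤ := by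
  classical
  set C := Subgroup.centralizer ({z} : Set G) with hC
  have hz2 := hz.1
  have hzC : ∀ c ∈ C, Commute c z := fun c hc => Subgroup.mem_centralizer_singleton_iff.1 hc
  constructor
  · intro hG
    by_contra hne
    set R := Cfsg.pResidual 2 ↥C with hR
    haveI hRn : R.Normal := ⟨fun x hx g => by
      induction hx using Subgroup.closure_induction with
      | mem y hy =>
        refine Subgroup.subset_closure ?_
        show Nat.Coprime (orderOf (g * y * g⁻¹)) 2
        rw [CfsgLib.Involution.orderOf_conj]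
        exact hy
      | one => simp
      | mul a b _ _ ha hb => simpa [mul_assoc] using mul_mem ha hb
      | inv a _ ha => simpa [mul_assoc] using inv_mem ha⟩
    have hQ : IsPGroup 2 (↥C ⧸ R) := by
      intro q
      obtain ⟨c, rfl⟩ := QuotientGroup.mk_surjective q
      obtain ⟨e, m, hm, hord⟩ := Nat.exists_eq_two_pow_mul_odd (orderOf_pos c).ne'
      refine ⟨e, ?_⟩
      rw [← QuotientGroup.mk_pow, QuotientGroup.eq_one_iff]
      refine Subgroup.subset_closure ?_
      show Nat.Coprime (orderOf (c ^ 2 ^ e)) 2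
      rw [orderOf_pow_of_dvd (by positivity) (hord ▸ dvd_mul_right _ _), hord,
        Nat.mul_div_cancel_left _ (by positivity)]
      exact hm.coprime_two_right
    haveI : Nontrivial (↥C ⧸ R) := QuotientGroup.nontrivial_iff.2 hne
    haveI := hQ.isNilpotent
    have hlt : commutator (↥C ⧸ R) < ⊤ := IsSolvable.commutator_lt_top_of_nontrivial _
    let φ : ↥C →* Abelianization (↥C ⧸ R) := Abelianization.of.comp (QuotientGroup.mk' R)
    have hA : IsPGroup 2 (Abelianization (↥C ⧸ R)) :=
      hQ.of_surjective Abelianization.of (QuotientGroup.mk_surjective)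
    -- `V` is trivial as `G` is generated by odd order elements
    have hV : ∀ g : G, MonoidHom.transfer φ g = 1 := by
      intro g
      have hg : g ∈ Cfsg.pResidual 2 G := hG ▸ Subgroup.mem_top g
      induction hg using Subgroup.closure_induction with
      | mem y hy =>
        obtain ⟨k, hk⟩ := hA (MonoidHom.transfer φ y)
        exact orderOf_eq_one_iff.1 (Nat.eq_one_of_dvd_coprimes (Nat.Coprime.pow_right k hy)
          (orderOf_map_dvd _ y) (orderOf_dvd_of_pow_eq_one hk))
      | one => exact map_one _
      | mul a b _ _ ha hb => rw [map_mul, ha, hb, one_mul]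
      | inv a _ ha => rw [map_inv, ha, inv_one]
    -- transfer is the power map
    have hpow : ∀ x : ↥C, MonoidHom.transfer φ (x : G) = φ x ^ C.index := by
      intro x
      haveI := Fintype.ofFinite (Quotient (MulAction.orbitRel (Subgroup.zpowers (x : G)) (G ⧸ C)))
      letI := C.fintypeQuotientOfFiniteIndex
      rw [MonoidHom.transfer_eq_prod_quotient_orbitRel_zpowers_quot,
        Subgroup.index_eq_sum_minimalPeriod C (x : G), ← Finset.prod_pow_eq_pow_sum]
      refine Finset.prod_congr rfl fun q _ => ?_
      set k := Function.minimalPeriod ((x : G) • ·) q.out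
      have hk := QuotientGroup.out_conj_pow_minimalPeriod_mem C (x : G) q.out
      set g₀ := (Quotient.out (Quotient.out q))
      obtain ⟨h, hh, hh'⟩ := CfsgLib.Isolated.exists_conj_mem hz
        (Subgroup.centralizer ({g₀⁻¹ * (x : G) ^ k * g₀} : Set G))
        (g := g₀⁻¹)
        (Subgroup.mem_centralizer_singleton_iff.2 (hzC _ hk).eq.symm)
        (by
          rw [Subgroup.mem_centralizer_singleton_iff, inv_inv]
          have := ((hzC _ x.2).pow_left k).eq
          calc g₀⁻¹ * z * g₀ * (g₀⁻¹ * (x : G) ^ k * g₀) = g₀⁻¹ * (z * (x : G) ^ k) * g₀ := by group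
            _ = g₀⁻¹ * ((x : G) ^ k * z) * g₀ := by rw [this]
            _ = _ := by group)
      have hd : g₀ * h ∈ C := by
        rw [hC, Subgroup.mem_centralizer_singleton_iff]
        calc g₀ * h * z = g₀ * (h * z * h⁻¹) * h := by group
          _ = z * (g₀ * h) := by rw [hh']; group
      have hhc := Subgroup.mem_centralizer_singleton_iff.1 hh
      rw [← map_pow]
      have e : (⟨g₀⁻¹ * (x : G) ^ k * g₀, hk⟩ : ↥C) = ⟨g₀ * h, hd⟩⁻¹ * x ^ k * ⟨g₀ * h, hd⟩ := by
        apply Subtype.ext
        push_cast
        calc g₀⁻¹ * (x : G) ^ k * g₀ = h⁻¹ * (h * (g₀⁻¹ * (x : G) ^ k * g₀)) := by group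
          _ = h⁻¹ * (g₀⁻¹ * (x : G) ^ k * g₀ * h) := by rw [hhc]
          _ = _ := by group
      exact (congrArg φ e).trans (by rw [map_mul, map_mul, map_inv, inv_mul_cancel_comm])
    -- the index is odd
    have hodd : Odd C.index := by
      obtain ⟨S, hzS, -⟩ := CfsgLib.Involution.exists_sylow_mem_pair hz2 hz2 (Commute.refl z)
      have hSC : (S : Subgroup G) ≤ C := by
        intro s hs
        have hmem : z * (s * z * s⁻¹) ∈ (S : Subgroup G) :=
          mul_mem hzS (mul_mem (mul_mem hs hzS) (inv_mem hs))
        obtain ⟨k, hk⟩ := S.2 ⟨_, hmem⟩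
        have h1 := Nat.eq_one_of_dvd_coprimes
          ((CfsgLib.Isolated.odd_orderOf_mul_conj hz s).coprime_two_right.pow_right k) dvd_rfl
          (orderOf_dvd_of_pow_eq_one (by simpa using congrArg Subtype.val hk))
        rw [orderOf_eq_one_iff] at h1
        rw [hC, Subgroup.mem_centralizer_singleton_iff, ← mul_inv_eq_iff_eq_mul,
          eq_inv_of_mul_eq_one_right h1, CfsgLib.Involution.inv_eq hz2]
      exact Nat.odd_iff.2 (Nat.two_dvd_ne_zero.1 fun h => S.not_dvd_index
        (h.trans (Subgroup.index_dvd_of_le hSC)))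
    apply hlt.ne
    rw [eq_top_iff]
    intro q _
    obtain ⟨c, rfl⟩ := QuotientGroup.mk_surjective q
    obtain ⟨k, hk⟩ := hA (φ c)
    have h1 : φ c ^ C.index = 1 := by rw [← hpow, hV]
    have := orderOf_eq_one_iff.1 (Nat.eq_one_of_dvd_coprimes
      (Nat.Coprime.pow_right k hodd.coprime_two_right)
      (orderOf_dvd_of_pow_eq_one h1) (orderOf_dvd_of_pow_eq_one hk))
    exact (QuotientGroup.eq_one_iff _).1 this
  · intro hCt
    have hCle : C ≤ Cfsg.pResidual 2 G := by
      intro c hc
      have hmem : (⟨c, hc⟩ : ↥C) ∈ Cfsg.pResidual 2 ↥C := hCt ▸ Subgroup.mem_top _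
      have hle : Cfsg.pResidual 2 ↥C ≤ (Cfsg.pResidual 2 G).comap C.subtype := by
        refine (Subgroup.closure_le _).2 fun y hy => Subgroup.subset_closure ?_
        show Nat.Coprime (orderOf (C.subtype y)) 2
        rw [Subgroup.coe_subtype, Subgroup.orderOf_coe]
        exact hy
      exact hle hmem
    rw [eq_top_iff]
    intro g _
    obtain ⟨k, ⟨⟨hk, -⟩, hkz⟩, -⟩ := CfsgLib.Isolated.existsUnique_root hz g
    have h2 : k⁻¹ * g ∈ C := by
      rw [hC, Subgroup.mem_centralizer_singleton_iff]
      calc k⁻¹ * g * z = k⁻¹ * (g * z * g⁻¹) * g := by group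
        _ = z * (k⁻¹ * g) := by rw [← hkz]; group
    have h3 : k ∈ Cfsg.pResidual 2 G := Subgroup.subset_closure hk.coprime_two_right
    simpa using mul_mem h3 (hCle h2)

end Cfsg.Agent.S1183
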