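import Cfsg.Statements.S1185
import Cfsg.Agent.Lib.Isolated

set_option autoImplicit false
open Cfsg

namespace Cfsg.Agent.S1185

/-- Let z be an isolated involution of the finite group G with centralizer C. Then for every g ∈ G there is exactly one element k in the coset gC that has odd order and is inverted by z. -/
theorem result {G : Type*} [Group G] [Finite G] (z : G) (hz : Cfsg.IsIsolatedInvolution z) (g : G) : ∃! k : G, (Odd (orderOf k) ∧ z * k * z⁻¹ = k⁻¹) ∧ g⁻¹ * k ∈ Subgroup.centralizer ({z} : Set G) := by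
  have h : ∀ k : G, g⁻¹ * k ∈ Subgroup.centralizer ({z} : Set G) ↔ k * z * k⁻¹ = g * z * g⁻¹ := by
    intro k
    rw [CfsgLib.Isolated.mem_centralizer_iff_conj,
      show g⁻¹ * k * z * (g⁻¹ * k)⁻¹ = g⁻¹ * (k * z * k⁻¹) * g by group]
    constructor
    · intro e
      calc k * z * k⁻¹ = g * (g⁻¹ * (k * z * k⁻¹) * g) * g⁻¹ := by group
        _ = _ := by rw [e]
    · intro e; rw [e]; group
  simp only [h]
  exact CfsgLib.Isolated.existsUnique_root hz g

end Cfsg.Agent.S1185
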