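import Cfsg.Statements.S1186
import Mathlib
import Cfsg.Agent.Lib.Isolated
import Cfsg.Agent.Lib.InvolutionCount

set_option autoImplicit false
open Cfsg

namespace Cfsg.Agent.S1186

/-- Let z be an isolated involution of the finite group G, C = C_G(z), K the set of elements of odd order inverted by z, and s an involution of C. Then |G| = |C| · |C_K(sz)| · |C_K(s)|. -/
theorem result {G : Type*} [Group G] [Finite G] (z : G) (hz : Cfsg.IsIsolatedInvolution z) (s : G) (hs : orderOf s = 2) (hsz : Commute s z) : Nat.card G = Nat.card (Subgroup.centralizer ({z} : Set G)) * Nat.card {k : G // Odd (orderOf k) ∧ z * k * z⁻¹ = k⁻¹ ∧ Commute k (s * z)} * Nat.card {k : G // Odd (orderOf k) ∧ z * k * z⁻¹ = k⁻¹ ∧ Commute k s} := by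
  classical
  have hz2 := hz.1
  set C := Subgroup.centralizer ({z} : Set G) with hC
  let X : G → Type _ := fun w => {v : G // IsConj z v ∧ Commute v w}
  have hconjodd : ∀ {a b : G}, IsConj z a → IsConj z b → Odd (orderOf (a * b)) := by
    intro a b ha hb
    obtain ⟨g, rfl⟩ := isConj_iff.1 ha
    exact CfsgLib.Isolated.odd_orderOf_mul (CfsgLib.Isolated.conj_isolated hz g)
      ((isConj_iff.2 ⟨g, rfl⟩ : IsConj z _).symm.trans hb)
  have hord : ∀ {a : G}, IsConj z a → orderOf a = 2 := by
    intro a ha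
    obtain ⟨g, rfl⟩ := isConj_iff.1 ha
    exact CfsgLib.Involution.orderOf_conj' hz2
  have hroot : ∀ v, IsConj z v → ∀ w, Commute z w → Commute v w → ∃ k : G,
      (Odd (orderOf k) ∧ z * k * z⁻¹ = k⁻¹ ∧ Commute k w) ∧ k * z * k⁻¹ = v := by
    intro v hv w hzw hvw
    obtain ⟨g, rfl⟩ := isConj_iff.1 hv
    obtain ⟨k, ⟨⟨hk1, hk2⟩, hk3⟩, huniq⟩ := CfsgLib.Isolated.existsUnique_root hz g
    have hwk : w * k * w⁻¹ = k := by
      refine huniq _ ⟨⟨by rwa [CfsgLib.Involution.orderOf_conj], ?_⟩, ?_⟩
      · calc z * (w * k * w⁻¹) * z⁻¹ = (z * w) * k * (z * w)⁻¹ := by group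
          _ = (w * z) * k * (w * z)⁻¹ := by rw [hzw.eq]
          _ = w * (z * k * z⁻¹) * w⁻¹ := by group
          _ = (w * k * w⁻¹)⁻¹ := by rw [hk2]; group
      · have h1 : w⁻¹ * z * w = z := by rw [mul_assoc, hzw.eq, inv_mul_cancel_left]
        calc w * k * w⁻¹ * z * (w * k * w⁻¹)⁻¹ = w * (k * (w⁻¹ * z * w) * k⁻¹) * w⁻¹ := by group
          _ = g * z * g⁻¹ := by rw [h1, hk3, ← hvw.eq, mul_inv_cancel_right]
    exact ⟨k, ⟨hk1, hk2, (mul_inv_eq_iff_eq_mul.1 hwk).symm⟩, hk3⟩
  have hKX : ∀ w, Commute z w →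
      Nat.card {k : G // Odd (orderOf k) ∧ z * k * z⁻¹ = k⁻¹ ∧ Commute k w} = Nat.card (X w) := by
    intro w hzw
    refine Nat.card_eq_of_bijective
      (fun k => ⟨k.1 * z * k.1⁻¹, isConj_iff.2 ⟨k.1, rfl⟩,
        (k.2.2.2.mul_left hzw).mul_left k.2.2.2.inv_left⟩) ⟨?_, ?_⟩
    · rintro ⟨k, hk1, hk2, hk3⟩ ⟨l, hl1, hl2, hl3⟩ h
      have h' : k * z * k⁻¹ = l * z * l⁻¹ := congrArg Subtype.val h
      obtain ⟨r, -, huniq⟩ := CfsgLib.Isolated.existsUnique_root hz k
      exact Subtype.ext ((huniq k ⟨⟨hk1, hk2⟩, rfl⟩).trans (huniq l ⟨⟨hl1, hl2⟩, h'.symm⟩).symm)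
    · rintro ⟨v, hv, hvw⟩
      obtain ⟨k, hk, hkv⟩ := hroot v hv w hzw hvw
      exact ⟨⟨k, hk⟩, Subtype.ext hkv⟩
  have hall : Nat.card G = Nat.card C * Nat.card {v : G // IsConj z v} := by
    rw [mul_comm, hC, CfsgLib.InvolutionCount.card_class_mul_card_centralizer]
  have hzs : Commute z s := hsz.symm
  have hzsz : Commute z (s * z) := hzs.mul_right (Commute.refl z)
  have hprod : Nat.card {v : G // IsConj z v} = Nat.card (X s) * Nat.card (X (s * z)) := by
    choose k hk hkv using fun y : X s => hroot y.1 y.2.1 s hzs y.2.2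
    rw [← Nat.card_prod]
    refine (Nat.card_eq_of_bijective (fun yx : X s × X (s * z) =>
      (⟨k yx.1 * yx.2.1 * (k yx.1)⁻¹,
        yx.2.2.1.trans (isConj_iff.2 ⟨k yx.1, rfl⟩)⟩ : {v : G // IsConj z v})) ⟨?_, ?_⟩).symm
    · rintro ⟨y, x⟩ ⟨y', x'⟩ h
      have h' : k y * x.1 * (k y)⁻¹ = k y' * x'.1 * (k y')⁻¹ := congrArg Subtype.val h
      have hy : y = y' := by
        have hb : ∀ (y : X s) (x : X (s * z)),
            (y : G) * (k y * x.1 * (k y)⁻¹) * y = s * (k y * x.1 * (k y)⁻¹) * s := by
          intro y x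
          set u := k y * x.1 * (k y)⁻¹ with hu
          have hc : Commute u (y.1 * s) := by
            have e : y.1 * s = k y * (s * z) * (k y)⁻¹ := by
              rw [← hkv y]
              calc k y * z * (k y)⁻¹ * s = k y * z * ((k y)⁻¹ * s) := by group
                _ = k y * z * (s * (k y)⁻¹) := by rw [(hk y).2.2.inv_left.eq]
                _ = k y * (s * z) * (k y)⁻¹ := by rw [hsz.eq]; group
            rw [e, hu]
            exact x.2.2.map (MulAut.conj (k y))
          calc (y : G) * u * y = y * (u * (y * s)) * s := by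
                simp only [mul_assoc, CfsgLib.Involution.mul_self hs, mul_one]
            _ = y * ((y * s) * u) * s := by rw [hc.eq]
            _ = s * u * s := by
                simp only [← mul_assoc, CfsgLib.Involution.mul_self (hord y.2.1), one_mul]
        have h1 := hb y x
        have h2 := hb y' x'
        rw [← h', ← h1] at h2
        have hu : IsConj z (k y * x.1 * (k y)⁻¹) := x.2.1.trans (isConj_iff.2 ⟨k y, rfl⟩)
        have h3 : ((y : G) * (k y * x.1 * (k y)⁻¹)) ^ 2 = ((y' : G) * (k y * x.1 * (k y)⁻¹)) ^ 2 := by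
          rw [pow_two, pow_two, ← mul_assoc, ← h2]
          group
        exact Subtype.ext (mul_right_cancel (CfsgLib.Isolated.eq_of_sq_eq
          (hconjodd y.2.1 hu) (hconjodd y'.2.1 hu) h3))
      subst hy
      exact Prod.ext rfl (Subtype.ext (mul_left_cancel (mul_right_cancel h')))
    · rintro ⟨x, hx⟩
      have hx2 := hord hx
      have hs2 := CfsgLib.Involution.mul_self hs
      have hx' : IsConj z (s * x * s) := by
        refine hx.trans (isConj_iff.2 ⟨s, ?_⟩)
        rw [CfsgLib.Involution.inv_eq hs]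
      obtain ⟨m, hm⟩ := id (hconjodd hx' hx)
      set c := s * x * s * x with hcdef
      set r := c ^ (m + 1) with hr
      have hr2 : r * r = c := by
        rw [hr, ← pow_add, show m + 1 + (m + 1) = orderOf c + 1 by omega, pow_succ,
          pow_orderOf_eq_one, one_mul]
      have hrodd : Odd (orderOf r) := (hconjodd hx' hx).of_dvd_nat (orderOf_pow_dvd _)
      have hcinv : c⁻¹ = x * (s * x * s) := by
        rw [hcdef, mul_inv_rev, mul_inv_rev, mul_inv_rev, CfsgLib.Involution.inv_eq hs,
          CfsgLib.Involution.inv_eq hx2, mul_assoc s x s]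
      have hsr : s * r * s⁻¹ = r⁻¹ := by
        rw [hr, ← conj_pow, ← inv_pow]
        congr 1
        rw [hcinv, hcdef, CfsgLib.Involution.inv_eq hs]
        calc s * (s * x * s * x) * s = (s * s) * x * s * x * s := by group
          _ = x * (s * x * s) := by rw [hs2]; group
      have hxr : x * r * x⁻¹ = r⁻¹ := by
        rw [hr, ← conj_pow, ← inv_pow]
        congr 1
        rw [hcinv, hcdef, CfsgLib.Involution.inv_eq hx2]
        calc x * (s * x * s * x) * x = x * (s * x * s) * (x * x) := by group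
          _ = x * (s * x * s) := by rw [CfsgLib.Involution.mul_self hx2, mul_one]
      obtain ⟨j, hj⟩ := id hrodd
      have hdinv : x * r ^ (j + 1) * x⁻¹ = (r ^ (j + 1))⁻¹ := by rw [← conj_pow, hxr, inv_pow]
      have hyconj : IsConj x (r * x) := by
        refine isConj_iff.2 ⟨r ^ (j + 1), ?_⟩
        rw [← hdinv, CfsgLib.Involution.inv_eq hx2]
        calc r ^ (j + 1) * x * (x * r ^ (j + 1) * x)
            = r ^ (j + 1) * (x * x) * r ^ (j + 1) * x := by group
          _ = r * x := by
            rw [CfsgLib.Involution.mul_self hx2, mul_one, ← pow_add,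
              show j + 1 + (j + 1) = orderOf r + 1 by omega, pow_succ, pow_orderOf_eq_one, one_mul]
      have hys : Commute (r * x) s := by
        have hxs : s * x * s = c * x := by
          rw [hcdef, mul_assoc (s * x * s), CfsgLib.Involution.mul_self hx2, mul_one]
        show r * x * s = s * (r * x)
        have h5 : s * (r * x) * s = r * x := by
          calc s * (r * x) * s = s * r * s⁻¹ * (s * x * s) := by group
            _ = r⁻¹ * (r * r * x) := by rw [hsr, hxs, hr2]
            _ = r * x := by group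
        calc r * x * s = s * (r * x) * s * s := by rw [h5]
          _ = s * (r * x) := by rw [mul_assoc, hs2, mul_one]
      let y : X s := ⟨r * x, hx.trans hyconj, hys⟩
      refine ⟨(y, ⟨(k y)⁻¹ * x * k y, hx.trans (isConj_iff.2 ⟨(k y)⁻¹, by rw [inv_inv]⟩), ?_⟩),
        Subtype.ext (by show k y * ((k y)⁻¹ * x * k y) * (k y)⁻¹ = x; group)⟩
      have e : (r * x) * s = k y * (s * z) * (k y)⁻¹ := by
        rw [show r * x = k y * z * (k y)⁻¹ from (hkv y).symm]
        calc k y * z * (k y)⁻¹ * s = k y * z * ((k y)⁻¹ * s) := by group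
          _ = k y * z * (s * (k y)⁻¹) := by rw [(hk y).2.2.inv_left.eq]
          _ = k y * (s * z) * (k y)⁻¹ := by rw [hsz.eq]; group
      have hcx : Commute x ((r * x) * s) := by
        have h7 : (r * x) * x * (r * x) = s * x * s := by
          calc r * x * x * (r * x) = r * (x * x) * r * x := by group
            _ = c * x := by rw [CfsgLib.Involution.mul_self hx2, mul_one, hr2]
            _ = _ := by rw [hcdef, mul_assoc (s * x * s), CfsgLib.Involution.mul_self hx2, mul_one]
        have hy2 := CfsgLib.Involution.mul_self (hord (hx.trans hyconj))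
        show x * (r * x * s) = r * x * s * x
        calc x * (r * x * s) = (r * x * (r * x)) * x * (r * x) * s := by rw [hy2]; group
          _ = r * x * (r * x * x * (r * x)) * s := by group
          _ = r * x * (s * x * s) * s := by rw [h7]
          _ = r * x * s * x := by simp only [mul_assoc, hs2, mul_one]
      rw [e] at hcx
      have h8 := hcx.map (MulAut.conj (k y)⁻¹)
      simpa [mul_assoc] using h8
  rw [hall, hprod, hKX s hzs, hKX (s * z) hzsz]
  ring

end Cfsg.Agent.S1186
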