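import Cfsg.Statements.S1231
import Mathlib
import Cfsg.Agent.Lib.RankBasic

set_option autoImplicit false
open Cfsg

namespace Cfsg.Agent.S1231

/-- Let H be a subgroup of the finite group G, p a prime, k ≥ 1, and P a Sylow p-subgroup of H whose p-rank is at least k. Then N_G(X) ≤ H for every subgroup X of P of p-rank at least k if and only if H ∩ gHg⁻¹ has p-rank less than k for every g ∉ H. -/
theorem result {G : Type*} [Group G] [Finite G] {p : ℕ} [Fact p.Prime] (k : ℕ) (hk : 1 ≤ k) (H : Subgroup G) (P : Sylow p ↥H) (hP : ¬ Cfsg.PRankLE p (k - 1) ↥(P : Subgroup ↥H)) : (∀ X : Subgroup G, X ≤ (P : Subgroup ↥H).map H.subtype → ¬ Cfsg.PRankLE p (k - 1) ↥X → Subgroup.normalizer (X : Set G) ≤ H) ↔ (∀ g : G, g ∉ H → Cfsg.PRankLE p (k - 1) ↥(H ⊓ H.map (MulAut.conj g).toMonoidHom)) := by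
  classical
  let P' := (P : Subgroup ↥H).map H.subtype
  constructor
  · intro hΓ g hg
    by_contra hr
    apply hg
    obtain ⟨B, hBle, hBp, hBr⟩ := CfsgLib.RankBasic.exists_witness hr
    have hBH : B ≤ H := hBle.trans inf_le_left
    -- a conjugate (under `H`) of a `p`-subgroup of `H` lies in `P`
    have hconj : ∀ R : Subgroup G, R ≤ H → IsPGroup p R →
        ∃ a ∈ H, R.map (MulAut.conj a).toMonoidHom ≤ P' := by
      intro R hRH hR
      obtain ⟨Q, hQ⟩ := (hR.comap_subtype (K := H)).exists_le_sylow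
      obtain ⟨a, ha⟩ := MulAction.exists_smul_eq H Q P
      refine ⟨a, a.2, ?_⟩
      rintro _ ⟨r, hr, rfl⟩
      refine ⟨a * ⟨r, hRH hr⟩ * a⁻¹, ?_, by simp⟩
      rw [← ha]
      exact Subgroup.mem_map_of_mem _ (hQ hr)
    have hrconj : ∀ (a : G) (X : Subgroup G), ¬ Cfsg.PRankLE p (k - 1) X →
        ¬ Cfsg.PRankLE p (k - 1) (X.map (MulAut.conj a).toMonoidHom) := fun a X h h' =>
      h ((CfsgLib.RankBasic.pRankLE_map_iff _ (MulAut.conj a).injective X).1 h')
    -- a `p`-subgroup meeting some conjugate of `P` in `H` in large rank lies in `H`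
    have hkey : ∀ (d : ℕ) (R : Subgroup G) (a : G), IsPGroup p R → a ∈ H →
        ¬ Cfsg.PRankLE p (k - 1) ↥(R ⊓ P'.map (MulAut.conj a).toMonoidHom) →
        Nat.card G - Nat.card ↥(R ⊓ P'.map (MulAut.conj a).toMonoidHom) ≤ d → R ≤ H := by
      intro d
      induction d using Nat.strong_induction_on with
      | _ d ih =>
        intro R a hR ha hrank hd
        set D := R ⊓ P'.map (MulAut.conj a).toMonoidHom with hD
        have hDH : D ≤ H := by
          rintro x ⟨-, y, hy, rfl⟩
          exact H.mul_mem (H.mul_mem ha (Subgroup.map_subtype_le _ hy)) (H.inv_mem ha)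
        by_cases hRD : R ≤ D
        · exact hRD.trans hDH
        have hN : Subgroup.normalizer (D : Set G) ≤ H := by
          intro x hx
          have hX : D.map (MulAut.conj a⁻¹).toMonoidHom ≤ P' := by
            rintro _ ⟨z, ⟨-, y, hy, rfl⟩, rfl⟩
            simpa [mul_assoc] using hy
          have h1 : a⁻¹ * x * a ∈ Subgroup.normalizer
              ((D.map (MulAut.conj a⁻¹).toMonoidHom : Subgroup G) : Set G) := by
            rw [Subgroup.mem_normalizer_iff_map_conj_eq] at hx ⊢
            conv_rhs => rw [← hx]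
            rw [Subgroup.map_map, Subgroup.map_map]
            congr 1
            ext z
            simp [mul_assoc]
          have h2 := hΓ _ hX (hrconj _ _ hrank) h1
          simpa [mul_assoc] using H.mul_mem (H.mul_mem ha h2) (H.inv_mem ha)
        haveI : Group.IsNilpotent R := hR.isNilpotent
        have hgrow := normalizerCondition_of_isNilpotent (G := R) (D.subgroupOf R)
          (lt_top_iff_ne_top.2 fun h => hRD (Subgroup.subgroupOf_eq_top.1 h))
        obtain ⟨q, hqN, hqD⟩ := SetLike.exists_of_lt hgrow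
        let E := R ⊓ Subgroup.normalizer (D : Set G)
        have hqE : (q : G) ∈ E := by
          refine ⟨q.2, ?_⟩
          show (q : G) ∈ Subgroup.normalizer (D : Set G)
          rw [Subgroup.mem_normalizer_iff]
          rw [Subgroup.mem_normalizer_iff] at hqN
          intro x
          constructor
          · intro hx
            exact (hqN ⟨x, hx.1⟩).1 hx
          · intro hx
            have hxR : x ∈ R := by
              simpa [mul_assoc] using R.mul_mem (R.mul_mem (R.inv_mem q.2) hx.1) q.2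
            exact (hqN ⟨x, hxR⟩).2 hx
        obtain ⟨b, hb, hEb⟩ := hconj E (inf_le_right.trans hN) (hR.to_le inf_le_left)
        have hEle : E ≤ R ⊓ P'.map (MulAut.conj b⁻¹).toMonoidHom :=
          le_inf inf_le_left fun x hx => ⟨_, hEb ⟨x, hx, rfl⟩, by simp [mul_assoc]⟩
        have hDE : D ≤ E := le_inf inf_le_left Subgroup.le_normalizer
        have hlt : Nat.card D < Nat.card ↥(R ⊓ P'.map (MulAut.conj b⁻¹).toMonoidHom) := by
          refine lt_of_le_of_ne (Nat.le_of_dvd Nat.card_pos
            (Subgroup.card_dvd_of_le (hDE.trans hEle))) fun he => ?_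
          have heq := Subgroup.eq_of_le_of_card_ge (hDE.trans hEle) he.ge
          exact hqD (show (q : G) ∈ D from heq ▸ hEle hqE)
        have hle : Nat.card ↥(R ⊓ P'.map (MulAut.conj b⁻¹).toMonoidHom) ≤ Nat.card G :=
          Subgroup.card_le_card_group _
        refine ih (Nat.card G - Nat.card ↥(R ⊓ P'.map (MulAut.conj b⁻¹).toMonoidHom)) (by omega)
          R b⁻¹ hR (H.inv_mem hb) (fun h => hrank (CfsgLib.RankBasic.pRankLE_mono
            (hDE.trans hEle) h)) le_rfl
    obtain ⟨a, ha, haB⟩ := hconj B hBH hBp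
    have hB' : B.map (MulAut.conj g⁻¹).toMonoidHom ≤ H := by
      rintro _ ⟨x, hx, rfl⟩
      obtain ⟨y, hy, hyx⟩ := (Subgroup.mem_inf.1 (hBle hx)).2
      rw [← hyx]
      simpa [mul_assoc] using hy
    obtain ⟨c, hc, hcB⟩ := hconj _ hB' (hBp.map _)
    set m := a * g * c⁻¹ with hm
    have hmB : B.map (MulAut.conj a).toMonoidHom ≤ P'.map (MulAut.conj m).toMonoidHom := by
      rintro _ ⟨x, hx, rfl⟩
      exact ⟨_, hcB ⟨_, ⟨x, hx, rfl⟩, rfl⟩, by simp [hm, mul_assoc]⟩
    have hle : B.map (MulAut.conj a).toMonoidHom ≤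
        P'.map (MulAut.conj m).toMonoidHom ⊓ P'.map (MulAut.conj 1).toMonoidHom :=
      le_inf hmB fun x hx => ⟨x, haB hx, by simp⟩
    have hR : P'.map (MulAut.conj m).toMonoidHom ≤ H :=
      hkey _ _ 1 ((P.2.map _).map _) H.one_mem
        (fun h => hrconj a B hBr (CfsgLib.RankBasic.pRankLE_mono hle h)) le_rfl
    obtain ⟨e, he, heR⟩ := hconj _ hR ((P.2.map _).map _)
    have hmap : P'.map (MulAut.conj (e * m)).toMonoidHom ≤ P' := by
      rintro _ ⟨x, hx, rfl⟩
      have := heR ⟨_, ⟨x, hx, rfl⟩, rfl⟩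
      simpa [mul_assoc] using this
    have hem : e * m ∈ Subgroup.normalizer (P' : Set G) := by
      rw [Subgroup.mem_normalizer_iff_map_conj_eq]
      exact Subgroup.eq_of_le_of_card_ge hmap
        (le_of_eq (Subgroup.card_map_of_injective (MulAut.conj (e * m)).injective).symm)
    have hem' := hΓ P' le_rfl
      (fun h => hP ((CfsgLib.RankBasic.pRankLE_map_iff _ H.subtype_injective _).1 h)) hem
    rw [hm] at hem'
    have h1 := H.mul_mem (H.mul_mem (H.inv_mem ha) (H.inv_mem he)) (H.mul_mem hem' hc)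
    rwa [show a⁻¹ * e⁻¹ * (e * (a * g * c⁻¹) * c) = g by group] at h1
  · intro hr X hX hXr g hg
    by_contra hgH
    refine hXr (CfsgLib.RankBasic.pRankLE_mono (le_inf ?_ ?_) (hr g hgH))
    · exact hX.trans (Subgroup.map_subtype_le _)
    · intro x hx
      refine ⟨g⁻¹ * x * g, Subgroup.map_subtype_le _ (hX ?_), by simp [mul_assoc]⟩
      exact (Subgroup.mem_normalizer_iff''.1 hg x).1 hx

end Cfsg.Agent.S1231
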