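import Cfsg.Statements.S1236
import Cfsg.Agent.Lib.TwoModels.QuasiDihedralSub
import Mathlib

set_option autoImplicit false
open Cfsg

namespace CfsgLib.DihedralFour

open DihedralGroup

theorem zmod_two_torsion {m : ℕ} [NeZero m] {i j : ZMod m} (hi : i + i = 0) (hi0 : i ≠ 0) (hj : j + j = 0) :
    j = 0 ∨ j = i := by
  have key : ∀ a : ZMod m, a + a = 0 → a ≠ 0 → 2 * a.val = m := by
    intro a ha ha0
    have h1 : ((2 * a.val : ℕ) : ZMod m) = 0 := by
      rw [Nat.cast_mul, ZMod.natCast_val, ZMod.cast_id, Nat.cast_two, two_mul, ha]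
    obtain ⟨c, hc⟩ := (ZMod.natCast_eq_zero_iff _ _).1 h1
    have hlt := ZMod.val_lt a
    have hpos : 0 < a.val := ZMod.val_pos.2 ha0
    rcases c with _ | _ | c
    · omega
    · omega
    · nlinarith
  by_cases hj0 : j = 0
  · exact Or.inl hj0
  · refine Or.inr (ZMod.val_injective m ?_)
    have := key i hi hi0
    have := key j hj hj0
    omega

/-- A four-subgroup of a dihedral group is self-centralising. -/
theorem centralizer_le {m : ℕ} (hm : 2 ≤ m) {U : Subgroup (DihedralGroup m)} [IsKleinFour U] :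
    Subgroup.centralizer (U : Set (DihedralGroup m)) ≤ U := by
  classical
  haveI : NeZero m := ⟨by omega⟩
  obtain ⟨a, b, ha, hb, hne, ha1, hb1⟩ : ∃ a b, a ∈ U ∧ b ∈ U ∧ a ≠ b ∧ a ≠ 1 ∧ b ≠ 1 := by
    by_contra h
    push Not at h
    haveI : Nontrivial U := Finite.one_lt_card_iff_nontrivial.1 (by rw [IsKleinFour.card_four]; norm_num)
    obtain ⟨⟨a, ha⟩, ha1⟩ := exists_ne (1 : U)
    have ha1' : a ≠ 1 := fun e => ha1 (Subtype.ext e)
    have h2 : Nat.card U ≤ Nat.card ({1, a} : Finset (DihedralGroup m)) := by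
      refine Nat.card_le_card_of_injective (fun u : U => (⟨u.1, by
        rcases eq_or_ne u.1 1 with e | e
        · simp [e]
        · rcases eq_or_ne a u.1 with e' | e'
          · simp [e']
          · exact absurd (h a u.1 ha u.2 e' ha1') e⟩ : ({1, a} : Finset (DihedralGroup m)))) ?_
      intro u v huv
      exact Subtype.ext (congrArg (fun w : ({1, a} : Finset (DihedralGroup m)) => (w : DihedralGroup m)) huv)
    have h3 : Nat.card ({1, a} : Finset (DihedralGroup m)) ≤ 2 := by
      rw [Nat.card_eq_finsetCard]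
      exact Finset.card_le_two
    rw [IsKleinFour.card_four] at h2
    omega
  have hsq : ∀ u ∈ U, u * u = 1 := fun u hu => congrArg Subtype.val (IsKleinFour.mul_self (⟨u, hu⟩ : U))
  have hrot : ∀ i : ZMod m, r i ∈ U → i + i = 0 := fun i hi => by
    have := hsq _ hi
    rw [r_mul_r, one_def] at this
    exact r.inj this
  -- a rotation and a reflection
  obtain ⟨k, i, hk, hk0, hi⟩ : ∃ k i : ZMod m, r k ∈ U ∧ k ≠ 0 ∧ sr i ∈ U := by
    rcases a with x | x <;> rcases b with y | y
    · have hx0 : x ≠ 0 := fun e => ha1 (by rw [e]; rfl)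
      rcases zmod_two_torsion (hrot x ha) hx0 (hrot y hb) with e | e
      · exact absurd (by rw [e]; rfl) hb1
      · exact absurd (by rw [e]) hne
    · exact ⟨x, y, ha, fun e => ha1 (by rw [e]; rfl), hb⟩
    · exact ⟨y, x, hb, fun e => hb1 (by rw [e]; rfl), ha⟩
    · refine ⟨y - x, x, ?_, ?_, ha⟩
      · have := U.mul_mem ha hb
        rwa [sr_mul_sr] at this
      · intro e
        exact hne (by rw [sub_eq_zero.1 e])
  intro s hs
  have hcomm := Subgroup.mem_centralizer_iff.1 hs (sr i) hi
  have htor : ∀ j : ZMod m, sr i * r j = r j * sr i → r j ∈ U := by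
    intro j hj
    rw [sr_mul_r, r_mul_sr] at hj
    have hjj : j + j = 0 := by
      have h2 := sr.inj hj
      linear_combination h2
    rcases zmod_two_torsion (hrot k hk) hk0 hjj with e | e
    · rw [e]; exact U.one_mem
    · rw [e]; exact hk
  rcases s with j | j
  · exact htor j hcomm
  · have h1 : r (j - i) ∈ U := by
      refine htor _ ?_
      have e : sr i * sr j = r (j - i) := sr_mul_sr i j
      rw [← e, ← mul_assoc, hsq _ hi, one_mul, mul_assoc, ← hcomm, ← mul_assoc, hsq _ hi, one_mul]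
    have := U.mul_mem hi h1
    rwa [sr_mul_r, add_sub_cancel] at this

end CfsgLib.DihedralFour

namespace Cfsg.Agent.S1236

/-- Let R be a finite group, t a central involution of R such that R ⧸ ⟨t⟩ is dihedral (of order ≥ 4) or quasi-dihedral, and A ≤ R an elementary abelian subgroup of order 8 containing t. Then C_R(A) = A. -/
theorem result {R : Type*} [Group R] [Finite R] (t : R) (ht : orderOf t = 2) (htz : t ∈ Subgroup.center R) [(Subgroup.zpowers t).Normal] (hq : (∃ m : ℕ, 2 ≤ m ∧ Nonempty (R ⧸ Subgroup.zpowers t ≃* DihedralGroup m)) ∨ Cfsg.IsQuasiDihedral (R ⧸ Subgroup.zpowers t)) (A : Subgroup R) (hA : Cfsg.IsElementaryAbelian 2 A) (hA8 : Nat.card A = 8) (htA : t ∈ A) : Subgroup.centralizer (A : Set R) = A := by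
  classical
  set N := Subgroup.zpowers t with hN
  have hNA : N ≤ A := Subgroup.zpowers_le.2 htA
  set Ab := A.map (QuotientGroup.mk' N) with hAb
  have hkl : IsKleinFour Ab := by
    have hker : ((QuotientGroup.mk' N).comp A.subtype).ker = N.subgroupOf A := by
      ext a; simp [Subgroup.mem_subgroupOf]
    have hcard : Nat.card Ab = 4 := by
      have h1 := Subgroup.index_ker ((QuotientGroup.mk' N).comp A.subtype)
      rw [MonoidHom.range_comp, Subgroup.range_subtype, hker] at h1
      have h2 := Subgroup.card_mul_index (N.subgroupOf A)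
      rw [Nat.card_congr (Subgroup.subgroupOfEquivOfLe hNA).toEquiv, Nat.card_zpowers, ht, hA8, h1] at h2
      change 2 * Nat.card Ab = 8 at h2
      omega
    refine ⟨hcard, Nat.dvd_antisymm (Monoid.exponent_dvd_of_forall_pow_eq_one fun x => ?_) ?_⟩
    · obtain ⟨x, a, ha, rfl⟩ := x
      exact Subtype.ext (by rw [Subgroup.coe_pow, ← map_pow, hA.2 a ha, map_one]; rfl)
    · obtain ⟨y, hy⟩ := exists_prime_orderOf_dvd_card' (G := Ab) 2 (by rw [hcard]; norm_num)
      exact hy ▸ Monoid.order_dvd_exponent y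
  haveI := hkl
  have hsc : Subgroup.centralizer (Ab : Set (R ⧸ N)) ≤ Ab := by
    rcases hq with ⟨m, hm, ⟨e⟩⟩ | hqd
    · haveI : IsKleinFour (Ab.map e.toMonoidHom) := by
        have e' := (Ab.equivMapOfInjective e.toMonoidHom e.injective)
        exact ⟨by rw [← Nat.card_congr e'.toEquiv, IsKleinFour.card_four],
          by rw [← Monoid.exponent_eq_of_mulEquiv e', IsKleinFour.exponent_two]⟩
      intro x hx
      have h1 := CfsgLib.DihedralFour.centralizer_le hm (U := Ab.map e.toMonoidHom) (x := e x) (by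
        rw [Subgroup.mem_centralizer_iff]
        rintro _ ⟨u, hu, rfl⟩
        show e u * e x = e x * e u
        rw [← map_mul, ← map_mul, Subgroup.mem_centralizer_iff.1 hx u hu])
      obtain ⟨u, hu, he⟩ := h1
      exact e.injective he ▸ hu
    · obtain ⟨D⟩ := CfsgLib.TwoModels.QD.exists_gen hqd
      exact (D.kleinFour_centralizer hkl).1.le
  refine le_antisymm (fun x hx => ?_) fun a ha => Subgroup.mem_centralizer_iff.2 fun b hb =>
    congrArg Subtype.val (hA.1.is_comm.comm ⟨b, hb⟩ ⟨a, ha⟩)
  obtain ⟨a, ha, hax⟩ := hsc (x := QuotientGroup.mk' N x) (by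
    rw [Subgroup.mem_centralizer_iff]
    rintro _ ⟨b, hb, rfl⟩
    rw [← map_mul, ← map_mul, Subgroup.mem_centralizer_iff.1 hx b hb])
  have h2 : a⁻¹ * x ∈ A := hNA (QuotientGroup.eq.1 hax)
  simpa using A.mul_mem ha h2

end Cfsg.Agent.S1236
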