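import Cfsg.Statements.S1239
import Cfsg.Agent.Lib.WreathedIsolated
import Cfsg.Agent.Lib.Fusion.ZStarCenter
import Cfsg.Agent.Lib.TwoModels.QuasiDihedralSub

set_option autoImplicit false
open Cfsg

namespace Cfsg.Agent.S1239

/-- Let X be a finite group whose Sylow 2-subgroup S is quasi-dihedral or wreathed, and suppose some involution of S is isolated in X. Then the product of the largest normal odd-order subgroup O(X) with the centre of S is normal in X. -/
theorem result {X : Type*} [Group X] [Finite X] (S : Sylow 2 X) (hS : Cfsg.IsQuasiDihedral (S : Subgroup X) ∨ Cfsg.IsWreathed (S : Subgroup X)) (z : X) (hzS : z ∈ S) (hz : Cfsg.IsIsolatedInvolution z) : (Cfsg.oddCore X ⊔ (Subgroup.center (S : Subgroup X)).map (S : Subgroup X).subtype).Normal := by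
    classical
    haveI : Fact (Nat.Prime 2) := ⟨Nat.prime_two⟩
    haveI hN : (oddCore X).Normal := CfsgLib.ZStar.oddCore_normal
    have hzc : ∀ a ∈ (S : Subgroup X), a * z = z * a := fun a ha => by
      haveI : Finite X := inferInstance
      have h1 : a * z * a⁻¹ ∈ (S : Subgroup X) := mul_mem (mul_mem ha hzS) (inv_mem ha)
      obtain ⟨m, hm⟩ := CfsgLib.Isolated.odd_orderOf_mul_conj hz a
      obtain ⟨l, hl⟩ := S.2 ⟨z * (a * z * a⁻¹), mul_mem hzS h1⟩
      have h2 : orderOf (z * (a * z * a⁻¹)) ∣ 2 ^ l := orderOf_dvd_of_pow_eq_one (congrArg Subtype.val hl)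
      have h3 : orderOf (z * (a * z * a⁻¹)) = 1 :=
        Nat.Coprime.eq_one_of_dvd (Nat.Coprime.pow_right l (Nat.coprime_two_right.2 ⟨m, hm⟩)) h2
      have h4 := eq_inv_of_mul_eq_one_right (orderOf_eq_one_iff.1 h3)
      rw [CfsgLib.Involution.inv_eq hz.1] at h4
      exact mul_inv_eq_iff_eq_mul.1 h4
    have hclosed : ∀ y : X, y ∈ (Subgroup.center (S : Subgroup X)).map (S : Subgroup X).subtype →
        ∀ g, g * y * g⁻¹ ∈ (S : Subgroup X) → g * y * g⁻¹ = y := by
      rintro _ ⟨y, hy, rfl⟩ g hg
      have hyc : ∀ a ∈ (S : Subgroup X), a * (y : X) = (y : X) * a := fun a ha =>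
        congrArg Subtype.val (Subgroup.mem_center_iff.1 hy ⟨a, ha⟩)
      rcases hS with hS | hS
      · obtain ⟨D⟩ := CfsgLib.TwoModels.QD.exists_gen hS
        have hzm : (⟨z, hzS⟩ : (S : Subgroup X)) ∈ Subgroup.center (S : Subgroup X) :=
          Subgroup.mem_center_iff.2 fun a => Subtype.ext (hzc a a.2)
        have hz1 : (⟨z, hzS⟩ : (S : Subgroup X)) ≠ 1 := fun h => by
          exact CfsgLib.Involution.ne_one hz.1 (congrArg Subtype.val h)
        by_cases hy1 : y = 1
        · subst hy1
          simp
        have hyz : y = ⟨z, hzS⟩ := by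
          haveI : Finite (Subgroup.center (S : Subgroup X)) := inferInstance
          obtain ⟨u, v, huv, htop⟩ := (Nat.card_eq_two_iff).1 D.card_center
          have := fun w : Subgroup.center (S : Subgroup X) => (htop ▸ Set.mem_univ w : w ∈ ({u, v} : Set _))
          rcases this ⟨y, hy⟩ with h | h <;> rcases this ⟨_, hzm⟩ with h' | h' <;> rcases this 1 with h'' | h''
          all_goals first
            | exact congrArg Subtype.val (h.trans h'.symm)
            | exact absurd (congrArg Subtype.val (h.trans h''.symm)) hy1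
            | exact absurd (congrArg Subtype.val (h'.trans h''.symm)) hz1
        subst hyz
        exact hz.2 g (hzc _ hg).symm
      · have hall : ∀ T : Sylow 2 X, ∃ U' z', CfsgLib.WreathedIsolated.Facts (T : Subgroup X) U' z' := by
          intro T
          refine CfsgLib.WreathedIsolated.exists_facts _ ?_
          obtain ⟨n, hn, hc, a, b, c, ha, hab, hdis, hc2, hcab⟩ := hS
          let e := Sylow.equiv S T
          refine ⟨n, hn, (Nat.card_congr e.toEquiv).symm.trans hc, e a, e b, e c, ?_, ?_, ?_, ?_, ?_⟩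
          · rw [MulEquiv.orderOf_eq e, ha]
          · rw [← map_mul, hab, map_mul]
          · rw [← MulEquiv.coe_toMonoidHom, ← MonoidHom.map_zpowers, ← MonoidHom.map_zpowers,
              ← Subgroup.map_inf _ _ _ e.injective, hdis, Subgroup.map_bot]
          · rw [MulEquiv.orderOf_eq e, hc2]
          · rw [← map_inv, ← map_mul, ← map_mul, hcab]
        obtain ⟨U, z', F⟩ := hall S
        have hzz : z' = z := by
          rcases F.zc 1 z ⟨one_mem _, fun a _ => by simp⟩ ⟨hzS, hzc⟩
            (by rw [one_mul, CfsgLib.Involution.mul_self hz.1]) with h | h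
          · exact absurd h (CfsgLib.Involution.ne_one hz.1)
          · rw [h, mul_one]
        subst hzz
        obtain ⟨k, hk⟩ := S.2 y
        exact CfsgLib.WreathedIsolated.weakly_closed S F hz hall k _ ⟨y.2, hyc⟩ (congrArg Subtype.val hk) g hg
    refine ⟨fun x hx g => ?_⟩
    set K := Cfsg.oddCore X ⊔ (Subgroup.center (S : Subgroup X)).map (S : Subgroup X).subtype
    have hle : K ≤ K.comap (MulAut.conj g).toMonoidHom := by
      refine sup_le (fun o ho => Subgroup.mem_sup_left (hN.conj_mem o ho g)) fun y hy => ?_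
      have hyS : y ∈ (S : Subgroup X) := Subgroup.map_subtype_le _ hy
      have h := CfsgLib.Fusion.central_mod_oddCore _ S y rfl hyS (hclosed y hy) g
      show g * y * g⁻¹ ∈ K
      rw [show g * y * g⁻¹ = y * (y⁻¹ * (g * y * g⁻¹)) by group]
      exact mul_mem (Subgroup.mem_sup_right hy) (Subgroup.mem_sup_left h)
    exact hle hx

end Cfsg.Agent.S1239
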