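import Cfsg.Statements.S1241
import Mathlib
import Cfsg.Agent.Lib.TransferFusion

set_option autoImplicit false
open Cfsg

namespace Cfsg.Agent.S1241

/-- Let G be a finite group, p a prime, H a subgroup of index prime to p, K a subgroup of H normal in H with H/K commutative, and g ∈ H ∖ K an element of p-power order such that for all integers m and all a ∈ G with a g^m a⁻¹ ∈ H one has a g^m a⁻¹ ∈ g^m K. Then g ∉ G'. -/
theorem result {G : Type*} [Group G] [Finite G] {p : ℕ} [Fact p.Prime] (H K : Subgroup G) (hHK : K ≤ H) (hKn : (K.subgroupOf H).Normal) (hab : ∀ x ∈ H, ∀ y ∈ H, x * y * x⁻¹ * y⁻¹ ∈ K) (hidx : Nat.Coprime p H.index) (g : G) (hgH : g ∈ H) (hgK : g ∉ K) (hgp : ∃ k : ℕ, orderOf g = p ^ k) (hctrl : ∀ (m : ℤ) (a : G), a * g ^ m * a⁻¹ ∈ H → (a * g ^ m * a⁻¹) * (g ^ m)⁻¹ ∈ K) : g ∉ commutator G := by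
  obtain ⟨A, _, φ, -, hker, hτ⟩ := CfsgLib.TransferFusion.not_mem_commutator hHK hKn hab hgH (fun k x hx => by
    have := hctrl k x⁻¹ (by simpa using hx)
    simpa using this)
  intro hc
  have h1 : MonoidHom.transfer φ g = 1 := Abelianization.commutator_subset_ker _ hc
  rw [hτ] at h1
  obtain ⟨k, hk⟩ := hgp
  have h2 : φ ⟨g, hgH⟩ ^ p ^ k = 1 := by
    rw [← map_pow, show (⟨g, hgH⟩ : H) ^ p ^ k = 1 from Subtype.ext (by simp [← hk, pow_orderOf_eq_one]), map_one]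
  have h3 : φ ⟨g, hgH⟩ = 1 := orderOf_eq_one_iff.1 (Nat.eq_one_of_dvd_coprimes (hidx.pow_left k) (orderOf_dvd_of_pow_eq_one h2) (orderOf_dvd_of_pow_eq_one h1))
  rw [← MonoidHom.mem_ker, hker, Subgroup.mem_subgroupOf] at h3
  exact hgK h3

end Cfsg.Agent.S1241
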