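import Cfsg.Statements.S1242
import Mathlib
import Cfsg.Agent.Lib.TransferFusion
import Cfsg.Agent.Lib.PResidual
import Cfsg.Agent.Lib.Blocks.PPart

set_option autoImplicit false
open Cfsg

namespace Cfsg.Agent.S1242

open scoped commutatorElement

/-- Let G be a finite group, p a prime and H a subgroup of index prime to p such that any two elements of H of p-power order that are conjugate in G are conjugate in H. Then (O^p(G)·G') ∩ H = O^p(H)·H', where O^p denotes the subgroup generated by the elements of order prime to p. -/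
theorem result {G : Type*} [Group G] [Finite G] {p : ℕ} [Fact p.Prime] (H : Subgroup G) (hidx : Nat.Coprime p H.index) (hfus : ∀ g ∈ H, (∃ k : ℕ, orderOf g = p ^ k) → ∀ a : G, a * g * a⁻¹ ∈ H → ∃ h ∈ H, h * g * h⁻¹ = a * g * a⁻¹) : (Cfsg.pResidual p G ⊔ commutator G) ⊓ H = (Cfsg.pResidual p ↥H ⊔ commutator ↥H).map H.subtype := by
  classical
  haveI := CfsgLib.PResidual.pResidual_characteristic (G := ↥H) (p := p)
  let K₀ : Subgroup H := Cfsg.pResidual p H ⊔ commutator H
  let K : Subgroup G := K₀.map H.subtype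
  have hsub : K.subgroupOf H = K₀ := Subgroup.comap_map_eq_self_of_injective H.subtype_injective _
  have hKH : K ≤ H := Subgroup.map_subtype_le _
  have hKn : (K.subgroupOf H).Normal := by rw [hsub]; infer_instance
  have hcomm : ∀ x ∈ H, ∀ y ∈ H, x * y * x⁻¹ * y⁻¹ ∈ K := fun x hx y hy => by
    refine ⟨⁅(⟨x, hx⟩ : H), ⟨y, hy⟩⁆, Subgroup.mem_sup_right ?_, rfl⟩
    exact Subgroup.commutator_mem_commutator (Subgroup.mem_top _) (Subgroup.mem_top _)
  apply le_antisymm
  · rintro g ⟨hg, hgH : g ∈ H⟩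
    obtain ⟨x, y, hxy, hc, ⟨k, hk⟩, hy⟩ := CfsgLib.Blocks.exists_pPart (Fact.out : p.Prime) g
    obtain ⟨t, ht⟩ := CfsgLib.Blocks.pPart_eq_pow (Fact.out : p.Prime) hxy hc ⟨k, hk⟩ hy
    have hxH : x ∈ H := ht ▸ pow_mem hgH t
    have hxL : x ∈ Cfsg.pResidual p G ⊔ commutator G := ht ▸ pow_mem hg t
    have hyH : y ∈ H := by
      rw [show y = x⁻¹ * g by rw [← hxy, inv_mul_cancel_left]]
      exact mul_mem (inv_mem hxH) hgH
    have hyK : y ∈ K := ⟨⟨y, hyH⟩, Subgroup.mem_sup_left (CfsgLib.PResidual.mem_pResidual (by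
      rw [Subgroup.orderOf_mk]; exact Nat.coprime_comm.1 ((Fact.out : p.Prime).coprime_iff_not_dvd.2 hy))), rfl⟩
    show g ∈ K
    rw [← hxy]
    refine mul_mem ?_ hyK
    obtain ⟨A, _, φ, hsurj, hker, hτ⟩ := CfsgLib.TransferFusion.not_mem_commutator hKH hKn hcomm hxH (fun j a ha => by
      obtain ⟨c, hcH, hce⟩ := hfus (x ^ j) (pow_mem hxH j) (by
        obtain ⟨i, -, hi⟩ := (Nat.dvd_prime_pow (Fact.out : p.Prime)).1 (hk ▸ orderOf_pow_dvd j)
        exact ⟨i, hi⟩) a⁻¹ (by simpa using ha)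
      rw [inv_inv] at hce
      rw [← hce]
      exact hcomm c hcH _ (pow_mem hxH j))
    have hA : IsPGroup p A := by
      intro a
      obtain ⟨h, rfl⟩ := hsurj a
      obtain ⟨u, v, huv, huc, ⟨i, hi⟩, hv⟩ := CfsgLib.Blocks.exists_pPart (Fact.out : p.Prime) h
      refine ⟨i, ?_⟩
      have hv1 : φ v = 1 := by
        rw [← MonoidHom.mem_ker, hker, hsub]
        exact Subgroup.mem_sup_left (CfsgLib.PResidual.mem_pResidual (Nat.coprime_comm.1 ((Fact.out : p.Prime).coprime_iff_not_dvd.2 hv)))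
      rw [← huv, map_mul, hv1, mul_one, ← map_pow, ← hi, pow_orderOf_eq_one, map_one]
    have hle : Cfsg.pResidual p G ⊔ commutator G ≤ (MonoidHom.transfer φ).ker := by
      refine sup_le ((Subgroup.closure_le _).2 fun z hz => ?_) (Abelianization.commutator_subset_ker _)
      obtain ⟨i, hi⟩ := IsPGroup.iff_orderOf.1 hA (MonoidHom.transfer φ z)
      rw [SetLike.mem_coe, MonoidHom.mem_ker, ← orderOf_eq_one_iff]
      have hd : orderOf (MonoidHom.transfer φ z) ∣ orderOf z := orderOf_map_dvd _ z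
      exact Nat.eq_one_of_dvd_coprimes ((Nat.coprime_comm.1 hz).pow_left i) (hi ▸ dvd_rfl) hd
    have h1 : MonoidHom.transfer φ x = 1 := hle hxL
    rw [hτ] at h1
    obtain ⟨i, hi⟩ := IsPGroup.iff_orderOf.1 hA (φ ⟨x, hxH⟩)
    have h2 : φ ⟨x, hxH⟩ = 1 := orderOf_eq_one_iff.1 (Nat.eq_one_of_dvd_coprimes (hidx.pow_left i) (hi ▸ dvd_rfl) (orderOf_dvd_of_pow_eq_one h1))
    rw [← MonoidHom.mem_ker, hker, Subgroup.mem_subgroupOf] at h2
    exact h2
  · refine le_inf ?_ hKH
    rw [Subgroup.map_le_iff_le_comap]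
    refine sup_le ((Subgroup.closure_le _).2 fun z hz => Subgroup.mem_sup_left (CfsgLib.PResidual.mem_pResidual ?_)) ?_
    · exact (Subgroup.orderOf_coe z).symm ▸ hz
    · refine (Subgroup.commutator_le).2 fun a _ b _ => Subgroup.mem_sup_right ?_
      rw [map_commutatorElement]
      exact Subgroup.commutator_mem_commutator (Subgroup.mem_top _) (Subgroup.mem_top _)

end Cfsg.Agent.S1242
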