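import Cfsg.Statements.S1243
import Mathlib.GroupTheory.Sylow

set_option autoImplicit false
open Cfsg

namespace Cfsg.Agent.S1243

/-- Let T be a Sylow p-subgroup of the finite group G and W ≤ T a subgroup weakly closed in T. If d and g d g⁻¹ both centralize W, then g d g⁻¹ = h d h⁻¹ for some h ∈ N_G(W). -/
theorem result {G : Type*} [Group G] [Finite G] {p : ℕ} [Fact p.Prime] (T : Sylow p G) (W : Subgroup G) (hW : Cfsg.IsWeaklyClosed W (T : Subgroup G)) (d g : G) (hd : d ∈ Subgroup.centralizer (W : Set G)) (hgd : g * d * g⁻¹ ∈ Subgroup.centralizer (W : Set G)) : ∃ h ∈ Subgroup.normalizer (W : Set G), h * d * h⁻¹ = g * d * g⁻¹ := by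
  set e := g * d * g⁻¹ with he
  set C := Subgroup.centralizer ({e} : Set G)
  have hWp : IsPGroup p W := T.isPGroup'.to_le hW.1
  set W' := W.map (MulAut.conj g).toMonoidHom with hW'
  have h1 : W ≤ C := fun w hw => Subgroup.mem_centralizer_singleton_iff.mpr
    (Subgroup.mem_centralizer_iff.mp hgd w hw)
  have h2 : W' ≤ C := by
    rintro _ ⟨w, hw, rfl⟩
    refine Subgroup.mem_centralizer_singleton_iff.mpr ?_
    show g * w * g⁻¹ * e = e * (g * w * g⁻¹)
    calc g * w * g⁻¹ * e = g * (w * d) * g⁻¹ := by rw [he]; group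
      _ = _ := by rw [Subgroup.mem_centralizer_iff.mp hd w hw, he]; group
  obtain ⟨P₁, hP₁⟩ := (hWp.comap_subtype (K := C)).exists_le_sylow
  obtain ⟨P₂, hP₂⟩ := ((hWp.map (MulAut.conj g).toMonoidHom).comap_subtype (K := C)).exists_le_sylow
  obtain ⟨c, hc⟩ := MulAction.exists_smul_eq C P₂ P₁
  obtain ⟨P, hP⟩ := (P₁.isPGroup'.map C.subtype).exists_le_sylow
  have hWP : W ≤ (P : Subgroup G) := fun w hw => hP ⟨⟨w, h1 hw⟩, hP₁ hw, rfl⟩
  have hW''P : W.map (MulAut.conj ((c : G) * g)).toMonoidHom ≤ (P : Subgroup G) := by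
    rintro _ ⟨w, hw, rfl⟩
    refine hP ⟨c * ⟨g * w * g⁻¹, h2 ⟨w, hw, rfl⟩⟩ * c⁻¹, ?_, by simp [mul_assoc]⟩
    rw [SetLike.mem_coe, ← hc]
    exact Subgroup.smul_mem_pointwise_smul _ (MulAut.conj c) _ (hP₂ ⟨w, hw, rfl⟩)
  obtain ⟨k, hk⟩ := MulAction.exists_smul_eq G P T
  have key : ∀ a : G, W.map (MulAut.conj a).toMonoidHom ≤ (P : Subgroup G) →
      W.map (MulAut.conj (k * a)).toMonoidHom = W := fun a ha => by
    apply hW.2
    rw [show (MulAut.conj (k * a)).toMonoidHom =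
      (MulAut.conj k).toMonoidHom.comp (MulAut.conj a).toMonoidHom from by ext; simp [mul_assoc],
      ← Subgroup.map_map, ← hk]
    exact Subgroup.map_mono ha
  have e1 := key _ hW''P
  have e2 := key 1 (by rintro _ ⟨v, hv, rfl⟩; simpa using hWP hv)
  rw [mul_one] at e2
  refine ⟨(c : G) * g, Subgroup.mem_normalizer_iff_map_conj_eq.mpr ?_, ?_⟩
  · apply Subgroup.map_injective (f := (MulAut.conj k).toMonoidHom) (MulAut.conj k).injective
    show _ = Subgroup.map (MulAut.conj k).toMonoidHom W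
    rw [e2, Subgroup.map_map]
    convert e1 using 2
    ext; simp [mul_assoc]
  · have hc2 := Subgroup.mem_centralizer_singleton_iff.mp c.2
    calc (c : G) * g * d * ((c : G) * g)⁻¹ = (c : G) * e * (c : G)⁻¹ := by rw [he]; group
      _ = e := by rw [hc2, mul_inv_cancel_right]

end Cfsg.Agent.S1243
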