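import Cfsg.Statements.S1244
import Mathlib

set_option autoImplicit false
open Cfsg

namespace CfsgLib.S1244Aux

/-- A product of elements outside a subgroup of index two is inside iff the number of factors is even. -/
theorem prod_mem_iff {V : Type*} [CommGroup V] {W : Subgroup V} (hW : W.index = 2) {s : Finset V}
    (hs : ∀ x ∈ s, x ∉ W) : (∏ x ∈ s, x) ∈ W ↔ Even s.card := by
  classical
  induction s using Finset.induction_on with
  | empty => simp
  | @insert a s ha ih =>
    rw [Finset.prod_insert ha, Finset.card_insert_of_notMem ha, Subgroup.mul_mem_iff_of_index_two hW,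
      ih (fun x hx => hs x (Finset.mem_insert_of_mem hx)), Nat.even_add_one]
    simp [hs a (Finset.mem_insert_self a s)]

/-- A two-group without subgroups of index two is trivial. -/
theorem card_eq_one {Q : Type*} [Group Q] [Finite Q] (hQ : IsPGroup 2 Q) (h : ∀ K : Subgroup Q, K.index ≠ 2) :
    Nat.card Q = 1 := by
  haveI : Fact (Nat.Prime 2) := ⟨Nat.prime_two⟩
  obtain ⟨n, hn⟩ := IsPGroup.iff_card.1 hQ
  rcases n with _ | n
  · simpa using hn
  exfalso
  obtain ⟨K, hK, -⟩ := Sylow.exists_subgroup_card_pow_prime_le 2 (n := 0) (m := n) (G := Q)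
    (by rw [hn]; exact pow_dvd_pow 2 (Nat.le_succ n)) ⊥ (by simp) (Nat.zero_le n)
  refine h K (Nat.eq_of_mul_eq_mul_left (Nat.card_pos (α := K)) ?_)
  rw [K.card_mul_index, hK, hn, pow_succ]

end CfsgLib.S1244Aux

open Cfsg CfsgLib.S1244Aux

namespace Cfsg.Agent.S1244

/-- Let G be a finite group with no subgroup of index 2 whose Sylow 2-subgroup S is commutative, and let R ≤ S be a subgroup whose 2-rank is exactly one less than the 2-rank r of S. Then every involution of S is conjugate, by an element of N_G(S), to an element of R. -/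
theorem result {G : Type*} [Group G] [Finite G] (hG : ∀ H : Subgroup G, H.index ≠ 2) (S : Sylow 2 G) (hS : IsMulCommutative (S : Subgroup G)) (r : ℕ) (hr1 : 1 ≤ r) (hSr : Cfsg.PRankLE 2 r (S : Subgroup G) ∧ ¬ Cfsg.PRankLE 2 (r - 1) (S : Subgroup G)) (R : Subgroup G) (hRS : R ≤ S) (hRr : Cfsg.PRankLE 2 (r - 1) R ∧ (r = 1 ∨ ¬ Cfsg.PRankLE 2 (r - 2) R)) (t : G) (ht : orderOf t = 2) (htS : t ∈ S) : ∃ n ∈ Subgroup.normalizer ((S : Subgroup G) : Set G), n * t * n⁻¹ ∈ R := by
    classical
    haveI : Fact (Nat.Prime 2) := ⟨Nat.prime_two⟩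
    haveI := hS
    have hcomm : ∀ a ∈ (S : Subgroup G), ∀ b ∈ (S : Subgroup G), a * b = b * a := fun a ha b hb =>
      congrArg Subtype.val (hS.is_comm.comm ⟨a, ha⟩ ⟨b, hb⟩)
    let V : Subgroup G :=
      { carrier := {x | x ∈ (S : Subgroup G) ∧ x * x = 1}
        one_mem' := ⟨one_mem _, mul_one 1⟩
        mul_mem' := fun {a b} ha hb => ⟨mul_mem ha.1 hb.1, by
          calc a * b * (a * b) = a * (b * a) * b := by group
            _ = a * (a * b) * b := by rw [hcomm b hb.1 a ha.1]
            _ = (a * a) * (b * b) := by group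
            _ = 1 := by rw [ha.2, hb.2, mul_one]⟩
        inv_mem' := fun {a} ha => ⟨inv_mem ha.1, by rw [← mul_inv_rev, ha.2, inv_one]⟩ }
    have hVS : V ≤ (S : Subgroup G) := fun x hx => hx.1
    letI : CommGroup V := { (inferInstance : Group V) with
      mul_comm := fun a b => Subtype.ext (hcomm a a.2.1 b b.2.1) }
    set W : Subgroup G := V ⊓ R with hW
    -- the two ranks
    have hrank : ∀ (X : Subgroup G) (k : ℕ), X ≤ (S : Subgroup G) → PRankLE 2 k X →
        Nat.card ↥(V ⊓ X) ≤ 2 ^ k := by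
      intro X k hX h
      have h1 := h ((V ⊓ X).subgroupOf X) ⟨⟨fun a b => Subtype.ext (Subtype.ext
        (hcomm _ (hX a.1.2) _ (hX b.1.2)))⟩⟩ (fun a ha => Subtype.ext (by
          rw [SubmonoidClass.coe_pow, sq]
          exact ha.1.2))
      rwa [Nat.card_congr (Subgroup.subgroupOfEquivOfLe (inf_le_right : V ⊓ X ≤ X)).toEquiv] at h1
    have hrank' : ∀ (X : Subgroup G) (k : ℕ), X ≤ (S : Subgroup G) → ¬ PRankLE 2 k X →
        2 ^ k < Nat.card ↥(V ⊓ X) := by
      intro X k hX h
      rw [PRankLE] at h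
      push Not at h
      obtain ⟨A, -, hA2, hAc⟩ := h
      refine lt_of_lt_of_le hAc ?_
      rw [Nat.card_congr (A.equivMapOfInjective X.subtype X.subtype_injective).toEquiv]
      refine Subgroup.card_le_of_le ?_
      rintro _ ⟨a, ha, rfl⟩
      have h2 := congrArg Subtype.val (hA2 a ha)
      rw [SubmonoidClass.coe_pow, sq] at h2
      exact ⟨⟨hX a.2, h2⟩, a.2⟩
    have hpow : ∀ X : Subgroup G, X ≤ V → ∃ e, Nat.card X = 2 ^ e := fun X hX =>
      IsPGroup.iff_card.1 (S.2.to_le (hX.trans hVS))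
    have hVeq : Nat.card V = 2 ^ r := by
      obtain ⟨e, he⟩ := hpow V le_rfl
      have h1 := hrank S r le_rfl hSr.1
      have h2 := hrank' S (r - 1) le_rfl hSr.2
      rw [inf_eq_left.2 hVS, he] at h1 h2
      rw [Nat.pow_le_pow_iff_right (by norm_num)] at h1
      rw [Nat.pow_lt_pow_iff_right (by norm_num)] at h2
      rw [he]
      congr 1
      omega
    have hWeq : Nat.card W = 2 ^ (r - 1) := by
      obtain ⟨e, he⟩ := hpow W inf_le_left
      have h1 := hrank R (r - 1) hRS hRr.1
      rw [← hW, he, Nat.pow_le_pow_iff_right (by norm_num)] at h1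
      rw [he]
      congr 1
      rcases hRr.2 with hr | hr
      · omega
      · have h2 := hrank' R (r - 2) hRS hr
        rw [← hW, he, Nat.pow_lt_pow_iff_right (by norm_num)] at h2
        omega
    have hidx : (W.subgroupOf V).index = 2 := by
      have h1 := (W.subgroupOf V).card_mul_index
      rw [Nat.card_congr (Subgroup.subgroupOfEquivOfLe (inf_le_left : W ≤ V)).toEquiv, hWeq, hVeq,
        show 2 ^ r = 2 ^ (r - 1) * 2 by rw [← pow_succ, show r - 1 + 1 = r by omega]] at h1
      exact Nat.eq_of_mul_eq_mul_left (by positivity) h1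
    set N := Subgroup.normalizer ((S : Subgroup G) : Set G) with hN
    have hact : ∀ (n : N) (v : V), (n : G) * v * (n : G)⁻¹ ∈ V := fun n v =>
      ⟨(Subgroup.mem_normalizer_iff.1 n.2 _).1 v.2.1, by
        calc (n : G) * v * (n : G)⁻¹ * ((n : G) * v * (n : G)⁻¹) = (n : G) * ((v : G) * v) * (n : G)⁻¹ := by group
          _ = 1 := by rw [v.2.2]; group⟩
    letI act : MulAction N V :=
      { smul := fun n v => ⟨(n : G) * v * (n : G)⁻¹, hact n v⟩
        one_smul := fun v => Subtype.ext (show ((1 : N) : G) * v * ((1 : N) : G)⁻¹ = v by simp)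
        mul_smul := fun a b v => Subtype.ext (show ((a * b : N) : G) * v * ((a * b : N) : G)⁻¹ =
          (a : G) * ((b : G) * v * (b : G)⁻¹) * (a : G)⁻¹ by simp [mul_assoc]) }
    let t' : V := ⟨t, htS, by rw [← sq, ← ht, pow_orderOf_eq_one]⟩
    by_contra hcon
    push Not at hcon
    haveI : Fintype V := Fintype.ofFinite _
    let O : Finset V := (MulAction.orbit N t').toFinset
    have hO : ∀ v ∈ O, v ∉ W.subgroupOf V := by
      intro v hv hvW
      obtain ⟨n, rfl⟩ := Set.mem_toFinset.1 hv
      exact hcon n n.2 hvW.2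
    have hOodd : Odd O.card := by
      rw [show O.card = (MulAction.orbit N t').ncard from (Set.ncard_eq_toFinset_card' _).symm,
        ← MulAction.index_stabilizer, Nat.odd_iff, ← Nat.two_dvd_ne_zero]
      intro h
      have hle : (S : Subgroup G).subgroupOf N ≤ MulAction.stabilizer N t' := fun s hs =>
        Subtype.ext (show (s : G) * t * (s : G)⁻¹ = t by rw [hcomm (s : G) hs t htS, mul_inv_cancel_right])
      exact S.not_dvd_index ((h.trans (Subgroup.index_dvd_of_le hle)).trans
        (Subgroup.relIndex_dvd_index_of_le Subgroup.le_normalizer))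
    set P : V := ∏ v ∈ O, v with hP
    have hPfix : ∀ n : N, n • P = P := by
      intro n
      let φ : V →* V := MonoidHom.mk' (fun v => n • v) fun a b => Subtype.ext
        (show (n : G) * ((a : G) * b) * (n : G)⁻¹ = (n : G) * a * (n : G)⁻¹ * ((n : G) * b * (n : G)⁻¹) by group)
      show φ P = P
      rw [hP, map_prod]
      refine Finset.prod_bij (fun v _ => n • v) (fun v hv => ?_) (fun a _ b _ e => MulAction.injective n e)
        (fun v hv => ⟨n⁻¹ • v, ?_, smul_inv_smul n v⟩) (fun v _ => rfl)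
      · exact Set.mem_toFinset.2 (MulAction.mem_orbit_of_mem_orbit n (Set.mem_toFinset.1 hv))
      · exact Set.mem_toFinset.2 (MulAction.mem_orbit_of_mem_orbit n⁻¹ (Set.mem_toFinset.1 hv))
    have hPW : P ∉ W.subgroupOf V := fun h => by
      exact Nat.not_even_iff_odd.2 hOodd ((prod_mem_iff hidx hO).1 h)
    apply hPW
    -- transfer kills fixed elements
    letI : CommGroup (S : Subgroup G) := { (inferInstance : Group (S : Subgroup G)) with
      mul_comm := fun a b => Subtype.ext (hcomm a a.2 b b.2) }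
    let φ : G →* (S : Subgroup G) := MonoidHom.transfer (MonoidHom.id (S : Subgroup G))
    have hkey : ∀ (k : ℕ) (g₀ : G), g₀⁻¹ * (P : G) ^ k * g₀ ∈ (S : Subgroup G) →
        g₀⁻¹ * (P : G) ^ k * g₀ = (P : G) ^ k := by
      intro k g₀ hg
      obtain ⟨n, hn, hne⟩ := S.conj_eq_normalizer_conj_of_mem _ g₀ (pow_mem P.2.1 k) hg
      rw [hne]
      have h1 : (n⁻¹ : G) * P * n⁻¹⁻¹ = P := congrArg Subtype.val (hPfix ⟨n⁻¹, inv_mem hn⟩)
      calc n⁻¹ * (P : G) ^ k * n = n⁻¹ * (P : G) ^ k * n⁻¹⁻¹ := by rw [inv_inv]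
        _ = (P : G) ^ k := by rw [← conj_pow, h1]
    have hφP := MonoidHom.transfer_eq_pow (MonoidHom.id (S : Subgroup G)) (P : G) hkey
    have hrange : ∀ x : G, φ x = 1 := by
      intro x
      have h1 : Nat.card φ.range = 1 := card_eq_one (S.2.to_subgroup φ.range) fun K hK => hG (K.comap φ.rangeRestrict) (by
        rw [Subgroup.index_comap_of_surjective _ φ.rangeRestrict_surjective, hK])
      have h2 : (⟨φ x, ⟨x, rfl⟩⟩ : φ.range) = 1 := by
        haveI := (Nat.card_eq_one_iff_unique.1 h1).1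
        exact Subsingleton.elim _ _
      exact congrArg Subtype.val h2
    have h3 : φ (P : G) = MonoidHom.id (S : Subgroup G) ⟨(P : G) ^ (S : Subgroup G).index, _⟩ := hφP
    rw [hrange] at h3
    have h4 : (P : G) ^ (S : Subgroup G).index = 1 := (congrArg Subtype.val h3).symm
    obtain ⟨l, hl⟩ : Odd (S : Subgroup G).index := by
      rw [Nat.odd_iff, ← Nat.two_dvd_ne_zero]
      exact S.not_dvd_index
    rw [hl, pow_succ, pow_mul, sq, P.2.2, one_pow, one_mul] at h4
    have h5 : P = 1 := Subtype.ext h4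
    rw [h5]
    exact one_mem _

end Cfsg.Agent.S1244
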