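import Cfsg.Statements.S1246
import Cfsg.Agent.Lib.CharPLocal
import Cfsg.Agent.Lib.GenFitting

set_option autoImplicit false
open Cfsg

open CfsgLib.Components

namespace Cfsg.Agent.S1246

/-- Let V ≤ U be p-subgroups of the finite group G. If the generalized Fitting subgroup of C_G(V) is a p-group, then so is that of C_G(U). -/
theorem result {G : Type*} [Group G] [Finite G] {p : ℕ} [Fact p.Prime] (U V : Subgroup G) (hVU : V ≤ U) (hU : IsPGroup p U) (hV : IsPGroup p ↥(Cfsg.generalizedFittingSubgroup ↥(Subgroup.centralizer (V : Set G)))) : IsPGroup p ↥(Cfsg.generalizedFittingSubgroup ↥(Subgroup.centralizer (U : Set G))) := by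
  suffices key : ∀ (n : ℕ) (W : Subgroup G), V ≤ W → W ≤ U → Nat.card U - Nat.card W = n →
      CfsgLib.CharP.HasCharP p ↥(Subgroup.centralizer (W : Set G)) →
      CfsgLib.CharP.HasCharP p ↥(Subgroup.centralizer (U : Set G)) by
    have hV' : CfsgLib.CharP.HasCharP p ↥(Subgroup.centralizer (V : Set G)) := by
      have h1 : Cfsg.generalizedFittingSubgroup ↥(Subgroup.centralizer (V : Set G)) ≤ Cfsg.pCore p ↥(Subgroup.centralizer (V : Set G)) :=
        CfsgLib.Core.le_pCore (by rw [CfsgLib.GenFitting.genFitting_eq]; haveI := CfsgLib.Components.layer_normal (G := ↥(Subgroup.centralizer (V : Set G))); infer_instance) hV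
      refine le_trans ?_ h1
      exact (Subgroup.centralizer_le h1).trans CfsgLib.GenFitting.centralizer_genFitting_le
    rw [CfsgLib.GenFitting.genFitting_eq_of_charP (key _ V le_rfl hVU rfl hV')]
    exact CfsgLib.Core.isPGroup_pCore p
  intro n
  induction n using Nat.strong_induction_on with
  | _ n ih =>
    intro W hVW hWU hn hW
    by_cases hEq : W = U
    · rwa [hEq] at hW
    have hlt : W < U := lt_of_le_of_ne hWU hEq
    haveI : Group.IsNilpotent U := hU.isNilpotent
    obtain ⟨x, hx, hxW⟩ := SetLike.exists_of_lt (Group.normalizerCondition_of_isNilpotent (W.subgroupOf U)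
      (lt_top_iff_ne_top.2 fun h => hEq (le_antisymm hWU (Subgroup.subgroupOf_eq_top.1 h))))
    let T := U ⊓ Subgroup.normalizer (W : Set G)
    have hWT : W < T := by
      refine lt_of_le_not_ge (le_inf hWU Subgroup.le_normalizer) fun h => hxW (h ⟨x.2, ?_⟩)
      refine Subgroup.mem_normalizer_fintype fun y hy => ?_
      exact (Subgroup.mem_normalizer_iff.1 hx ⟨y, hWU hy⟩).1 hy
    have hTU : T ≤ U := inf_le_left
    refine ih (Nat.card U - Nat.card T) ?_ T (hVW.trans hWT.le) hTU rfl ?_
    · have h1 : Nat.card W < Nat.card T := Set.Finite.card_lt_card (Set.toFinite _) hWT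
      have h2 : Nat.card T ≤ Nat.card U := Subgroup.card_le_of_le hTU
      omega
    · exact CfsgLib.CharPLocal.charP_centralizer_of_le
        (CfsgLib.CharPLocal.charP_normalizer_of_centralizer (hU.to_le hWU) hW) (hU.to_le hTU) inf_le_right
        ((Subgroup.centralizer_le hWT.le).trans (Subgroup.centralizer_le_normalizer _))

end Cfsg.Agent.S1246
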