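import Cfsg.Statements.S1247
import Cfsg.Agent.Lib.Components.BenderLemma

set_option autoImplicit false
open Cfsg

namespace Cfsg.Agent.S1247

/-- Let G be a non-abelian finite simple group, A a maximal subgroup, F = F*(A) its generalized Fitting subgroup (viewed in G), and S ≤ F a subgroup subnormal in F with C_F(S) ≤ S. Let B be any subgroup of G containing S. Then (a) for every prime q not dividing |F(A)|, O_q(B) ∩ A = 1; and (b) for every prime p dividing |F(A)|, O_p(B) commutes elementwise with the subgroup of F generated by its elements of order prime to p. -/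
theorem result {G : Type*} [Group G] [Finite G] [IsSimpleGroup G] (hna : ¬ IsMulCommutative G) (A : Subgroup G) (hA : IsCoatom A) (S : Subgroup G) (hSF : S ≤ (Cfsg.generalizedFittingSubgroup ↥A).map A.subtype) (hSsn : (S.subgroupOf ((Cfsg.generalizedFittingSubgroup ↥A).map A.subtype)).IsSubnormal) (hSC : (Cfsg.generalizedFittingSubgroup ↥A).map A.subtype ⊓ Subgroup.centralizer (S : Set G) ≤ S) (B : Subgroup G) (hSB : S ≤ B) : (∀ q : ℕ, q.Prime → ¬ q ∣ Nat.card (Cfsg.fittingSubgroup ↥A) → (Cfsg.pCore q ↥B).map B.subtype ⊓ A = ⊥) ∧ (∀ p : ℕ, p.Prime → p ∣ Nat.card (Cfsg.fittingSubgroup ↥A) → ∀ x ∈ (Cfsg.pCore p ↥B).map B.subtype, ∀ y ∈ (Cfsg.pResidual p ↥(Cfsg.generalizedFittingSubgroup ↥A)).map ((Cfsg.generalizedFittingSubgroup ↥A).subtype) , x * (A.subtype y) = (A.subtype y) * x) := by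
      classical
      open CfsgLib.BenderLemma in
      set F := Cfsg.generalizedFittingSubgroup ↥A with hF
      have hSA : S ≤ A := hSF.trans (Subgroup.map_subtype_le _)
      set S' := S.subgroupOf A with hS'
      have hS'F : S' ≤ F := fun s hs => by
        obtain ⟨t, ht, e⟩ := hSF hs
        rwa [← Subtype.ext (e : (t : G) = (s : G))]
      have hS'sn : S'.IsSubnormal := by
        let e := F.equivMapOfInjective A.subtype A.subtype_injective
        have h1 : ((S.subgroupOf (F.map A.subtype)).comap e.toMonoidHom).IsSubnormal := hSsn.comap _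
        have h2 := CfsgLib.Components.isSubnormal_map_subtype h1 (Subgroup.Normal.isSubnormal inferInstance)
        have h3 : ((S.subgroupOf (F.map A.subtype)).comap e.toMonoidHom).map F.subtype = S' := by
          ext s
          constructor
          · rintro ⟨t, ht, rfl⟩
            exact ht
          · intro hs
            exact ⟨⟨s, hS'F hs⟩, hs, rfl⟩
        rwa [h3] at h2
      have hS'C : F ⊓ Subgroup.centralizer (S' : Set ↥A) ≤ S' := fun x hx => hSC ⟨⟨x, hx.1, rfl⟩,
        Subgroup.mem_centralizer_iff.mpr fun s hs =>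
          congrArg Subtype.val (Subgroup.mem_centralizer_iff.mp hx.2 ⟨s, hSA hs⟩ hs)⟩
      -- cores of `B`
      have hcore : ∀ q : ℕ, S ≤ Subgroup.normalizer (((Cfsg.pCore q ↥B).map B.subtype : Subgroup G) : Set G) := fun q =>
        hSB.trans (fun b hb => Subgroup.le_normalizer_map B.subtype
          ⟨⟨b, hb⟩, by rw [Subgroup.normalizer_eq_top (Cfsg.pCore q ↥B)]; exact Subgroup.mem_top _, rfl⟩)
      have hcoreA : ∀ q : ℕ, S' ≤ Subgroup.normalizer ((((Cfsg.pCore q ↥B).map B.subtype).subgroupOf A : Subgroup ↥A) : Set ↥A) :=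
        fun q s hs => Subgroup.mem_normalizer_iff.mpr fun v => by
          simp only [Subgroup.mem_subgroupOf]
          exact Subgroup.mem_normalizer_iff.mp (hcore q hs) (v : G)
      have hpg : ∀ q : ℕ, IsPGroup q ↥((Cfsg.pCore q ↥B).map B.subtype) := fun q => (CfsgLib.Core.isPGroup_pCore q).map _
      have hpgA : ∀ q : ℕ, IsPGroup q ↥(((Cfsg.pCore q ↥B).map B.subtype).subgroupOf A) := fun q => (hpg q).comap_subtype
      refine ⟨fun q hq hqF => ?_, fun p hp hpF x hx y hy => ?_⟩
      · haveI := Fact.mk hq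
        have h0 : Cfsg.pCore q ↥A = ⊥ := by
          by_contra hne
          apply hqF
          obtain ⟨n, hn⟩ := (CfsgLib.Core.isPGroup_pCore (G := ↥A) q).exists_card_eq
          rcases n with _ | n
          · exact absurd (Subgroup.card_eq_one.1 (hn.trans (pow_zero q))) hne
          · exact (hn ▸ dvd_pow_self q (Nat.succ_ne_zero n)).trans
              (Subgroup.card_dvd_of_le (CfsgLib.Core.pCore_le_fittingSubgroup hq))
        have h1 := CfsgLib.BenderLemma.eq_bot_of_not_dvd hS'sn hS'F hS'C hq h0 (hpgA q) (hcoreA q)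
        rw [Subgroup.eq_bot_iff_forall]
        intro v hv
        exact congrArg Subtype.val ((Subgroup.eq_bot_iff_forall _).1 h1 ⟨v, hv.2⟩ hv.1)
      haveI := Fact.mk hp
      set P := (Cfsg.pCore p ↥B).map B.subtype with hP
      set D := P.subgroupOf A with hD
      -- the centre of the `p`-core
      set Z := (Subgroup.center ↥(Cfsg.pCore p ↥A)).map (Cfsg.pCore p ↥A).subtype with hZ
      have hZS : Z ≤ S' := CfsgLib.BenderLemma.centre_core_le hS'sn hS'F hS'C hp
      have hZn : Z.Normal := inferInstance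
      have hnormA : ∀ W : Subgroup ↥A, W.Normal → W ≠ ⊥ →
          Subgroup.normalizer ((W.map A.subtype : Subgroup G) : Set G) = A := by
        intro W hW hW1
        refine (hA.le_iff.1 ?_).resolve_left fun e => ?_
        · intro a ha
          exact Subgroup.le_normalizer_map A.subtype
            ⟨⟨a, ha⟩, by haveI := hW; rw [Subgroup.normalizer_eq_top W]; exact Subgroup.mem_top _, rfl⟩
        · rcases (Subgroup.normalizer_eq_top_iff.1 e).eq_bot_or_eq_top with e' | e'
          · exact hW1 ((Subgroup.map_eq_bot_iff_of_injective _ A.subtype_injective).1 e')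
          · exact hA.1 (top_le_iff.1 (e' ▸ Subgroup.map_subtype_le W))
      have hOne : Cfsg.pCore p ↥A ≠ ⊥ := by
        obtain ⟨P₀⟩ := (inferInstance : Nonempty (Sylow p ↥(Cfsg.fittingSubgroup ↥A)))
        have e : Group.IsNilpotent ↥(Cfsg.fittingSubgroup ↥A) ↔
            ∀ (p : ℕ) (_hp : Fact p.Prime) (P : Sylow p ↥(Cfsg.fittingSubgroup ↥A)),
              (P : Subgroup ↥(Cfsg.fittingSubgroup ↥A)).Normal :=
          (Group.isNilpotent_of_finite_tfae (G := ↥(Cfsg.fittingSubgroup ↥A))).out 0 3
        haveI := P₀.characteristic_of_normal (e.mp CfsgLib.Core.isNilpotent_fittingSubgroup p ⟨hp⟩ P₀)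
        haveI : (Cfsg.fittingSubgroup ↥A).Normal := CfsgLib.Core.fittingSubgroup_normal
        have hle : (P₀ : Subgroup ↥(Cfsg.fittingSubgroup ↥A)).map (Cfsg.fittingSubgroup ↥A).subtype ≤ Cfsg.pCore p ↥A :=
          CfsgLib.Core.le_pCore inferInstance (P₀.2.map _)
        intro e0
        rw [e0, le_bot_iff, Subgroup.map_eq_bot_iff_of_injective _ (Subgroup.subtype_injective _)] at hle
        exact P₀.ne_bot_of_dvd_card hpF hle
      have hZ1 : Z ≠ ⊥ := by
        intro e
        haveI : Nontrivial ↥(Cfsg.pCore p ↥A) := (Subgroup.nontrivial_iff_ne_bot _).2 hOne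
        haveI := (CfsgLib.Core.isPGroup_pCore (G := ↥A) p).center_nontrivial
        rw [hZ, Subgroup.map_eq_bot_iff_of_injective _ (Subgroup.subtype_injective _)] at e
        exact (Subgroup.nontrivial_iff_ne_bot _).1 inferInstance e
      have hAZ : Subgroup.centralizer ((Z.map A.subtype : Subgroup G) : Set G) ≤ A :=
        (Subgroup.centralizer_le_normalizer _).trans (hnormA Z hZn hZ1).le
      have hDc := fun (d : ↥A) (hd : d ∈ D) =>
        CfsgLib.BenderLemma.centralizes_off hS'sn hS'F hS'C hp (hpgA p) (hcoreA p) hd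
      -- coprime elements of `S` acting trivially on `D` act trivially on `P`
      have hact : ∀ k : ↥A, k ∈ S' → (orderOf k).Coprime p → (∀ d ∈ D, k * d = d * k) → (∀ z ∈ Z, k * z = z * k) →
          ∀ v ∈ P, (k : G) * v = v * k := by
        intro k hk hkp hkD hkZ
        refine CfsgLib.GenFitting.thompson_pq (P := Z.map A.subtype) (((CfsgLib.Core.isPGroup_pCore p).to_le
          (Subgroup.map_subtype_le _)).map _) (hpg p) ?_ (by rwa [Subgroup.orderOf_coe]) ?_ (hcore p hk) ?_
        · rintro _ ⟨z, hz, rfl⟩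
          exact hcore p (hZS hz)
        · rintro _ ⟨z, hz, rfl⟩
          exact congrArg Subtype.val (hkZ z hz)
        · intro v hv
          exact congrArg Subtype.val (hkD ⟨v, hAZ hv.2⟩ hv.1)
      have hZc : ∀ z ∈ Z, ∀ r : ℕ, r.Prime → r ≠ p → ∀ k ∈ Cfsg.pCore r ↥A, k * z = z * k := fun z hz r hr hne k hk =>
        CfsgLib.BenderLemma.commute_cores hr hp hne hk (Subgroup.map_subtype_le _ hz)
      have hPr : ∀ r : ℕ, r.Prime → r ≠ p → ∀ k ∈ S' ⊓ Cfsg.pCore r ↥A, ∀ v ∈ P, (k : G) * v = v * k := by
        intro r hr hne k hk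
        refine hact k hk.1 ?_ (fun d hd => ((hDc d hd).2 r hr hne k hk.2).symm) (fun z hz => hZc z hz r hr hne k hk.2)
        obtain ⟨n, hn⟩ := CfsgLib.Core.isPGroup_pCore (G := ↥A) r ⟨k, hk.2⟩
        have hn' : k ^ r ^ n = 1 := by simpa using congrArg Subtype.val hn
        exact (((Nat.coprime_primes hr hp).mpr hne).pow_left n).coprime_dvd_left (orderOf_dvd_of_pow_eq_one hn')
      have hPl : ∀ k ∈ Cfsg.layer ↥A, ∀ v ∈ P, (k : G) * v = v * k := by
        set L := Cfsg.layer ↥A
        let C : Subgroup ↥L := (Subgroup.centralizer (P : Set G)).comap (A.subtype.comp L.subtype)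
        have hgen : Cfsg.pResidual p ↥L ≤ C := by
          refine (Subgroup.closure_le _).mpr fun k hk => Subgroup.mem_centralizer_iff.mpr fun v hv => ?_
          refine (hact (k : ↥A) ?_ (by rwa [Subgroup.orderOf_coe]) (fun d hd => ((hDc d hd).1 k k.2).symm)
            (fun z hz => CfsgLib.BenderLemma.commute_layer hp k.2 (Subgroup.map_subtype_le _ hz)) v hv).symm
          exact CfsgLib.BenderLemma.layer_le hS'sn hS'F hS'C k.2
        have htop : Cfsg.pResidual p ↥L = ⊤ := by
          set R := Cfsg.pResidual p ↥L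
          haveI : Group.IsPerfect ↥L := Subgroup.isPerfect_iff.mpr CfsgLib.Components.layer_perfect
          obtain ⟨T⟩ := (inferInstance : Nonempty (Sylow p ↥L))
          have hpq : IsPGroup p (↥L ⧸ R) := by
            refine T.2.of_surjective ((QuotientGroup.mk' R).comp (T : Subgroup ↥L).subtype) fun u => ?_
            obtain ⟨w, rfl⟩ := QuotientGroup.mk'_surjective R u
            have hw : w ∈ (T : Subgroup ↥L) ⊔ R := CfsgLib.PResidual.sup_pResidual_eq_top T ▸ Subgroup.mem_top w
            rw [← SetLike.mem_coe, Subgroup.mul_normal, Set.mem_mul] at hw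
            obtain ⟨t, ht, r, hr, rfl⟩ := hw
            exact ⟨⟨t, ht⟩, by
              show QuotientGroup.mk' R t = _
              rw [map_mul, show QuotientGroup.mk' R r = 1 from (QuotientGroup.eq_one_iff r).mpr hr, mul_one]⟩
          haveI := hpq.isNilpotent
          by_contra hne
          haveI : Nontrivial (↥L ⧸ R) := QuotientGroup.nontrivial_iff.mpr hne
          have hperf : commutator (↥L ⧸ R) = ⊤ := by
            rw [commutator_def, ← Subgroup.map_top_of_surjective _ (QuotientGroup.mk'_surjective R), ← Subgroup.map_commutator,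
              ← commutator_def, Group.IsPerfect.commutator_eq_top]
          exact absurd hperf (Group.IsSolvable.commutator_lt_top_of_nontrivial (G := ↥L ⧸ R)).ne
        intro k hk v hv
        exact ((Subgroup.mem_centralizer_iff.mp (hgen (htop ▸ Subgroup.mem_top (⟨k, hk⟩ : ↥L)))) v hv).symm
      -- the generated part
      set X := Cfsg.layer ↥A ⊔ ⨆ r : {r : ℕ // r.Prime ∧ r ≠ p}, Cfsg.pCore (r : ℕ) ↥A with hX
      obtain ⟨y', hy', rfl⟩ := hy
      have hyX : (y' : ↥A) ∈ X := by
        haveI : (Cfsg.layer ↥A).Normal := CfsgLib.Components.layer_normal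
        haveI : (⨆ r : {r : ℕ // r.Prime ∧ r ≠ p}, Cfsg.pCore (r : ℕ) ↥A).Normal := Subgroup.iSup_normal _
        haveI hXn : X.Normal := Subgroup.sup_normal _ _
        have hle : F ≤ X ⊔ Cfsg.pCore p ↥A := by
          rw [hF, CfsgLib.GenFitting.genFitting_eq, CfsgLib.Core.fittingSubgroup_eq_iSup_pCore]
          refine sup_le (le_sup_left.trans le_sup_left) (iSup_le fun r => ?_)
          by_cases h : (r : ℕ) = p
          · rw [h]; exact le_sup_right
          · exact le_sup_of_le_left (le_sup_of_le_right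
              (le_iSup (fun r : {r : ℕ // r.Prime ∧ r ≠ p} => Cfsg.pCore (r : ℕ) ↥A) ⟨r, r.2, h⟩))
        suffices h : Cfsg.pResidual p ↥F ≤ X.subgroupOf F from h hy'
        refine (Subgroup.closure_le _).mpr fun g hg => ?_
        have hgm := hle g.2
        rw [← SetLike.mem_coe, Subgroup.mul_normal, Set.mem_mul] at hgm
        obtain ⟨a, ha, b, hb, hab⟩ := hgm
        obtain ⟨j, hj⟩ := CfsgLib.Core.isPGroup_pCore (G := ↥A) p ⟨b, hb⟩
        have hj' : b ^ p ^ j = 1 := by simpa using congrArg Subtype.val hj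
        have hgb : QuotientGroup.mk' X (g : ↥A) = QuotientGroup.mk' X b := by
          rw [← hab, map_mul, show QuotientGroup.mk' X a = 1 from (QuotientGroup.eq_one_iff a).mpr ha, one_mul]
        have hc : (orderOf (QuotientGroup.mk' X (g : ↥A))).Coprime p :=
          Nat.Coprime.coprime_dvd_left ((orderOf_map_dvd _ _).trans (dvd_of_eq (Subgroup.orderOf_coe g))) hg
        have h1 := Nat.eq_one_of_dvd_coprimes (hc.pow_right j) dvd_rfl
          (by rw [hgb]; exact orderOf_dvd_of_pow_eq_one (by rw [← map_pow, hj', map_one]))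
        rw [orderOf_eq_one_iff] at h1
        show (g : ↥A) ∈ X
        exact (QuotientGroup.eq_one_iff (g : ↥A)).mp h1
      by_cases hXb : X = ⊥
      · rw [hXb, Subgroup.mem_bot] at hyX
        simp [hyX]
      have hPA : P ≤ A := by
        by_cases hl : Cfsg.layer ↥A = ⊥
        · obtain ⟨r, hr⟩ : ∃ r : {r : ℕ // r.Prime ∧ r ≠ p}, Cfsg.pCore (r : ℕ) ↥A ≠ ⊥ := by
            by_contra hno
            push Not at hno
            exact hXb (by rw [hX, hl, bot_sup_eq]; exact iSup_eq_bot.mpr hno)
          haveI := Fact.mk r.2.1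
          set W := (Subgroup.center ↥(Cfsg.pCore (r : ℕ) ↥A)).map (Cfsg.pCore (r : ℕ) ↥A).subtype with hW
          have hW1 : W ≠ ⊥ := by
            intro e
            haveI : Nontrivial ↥(Cfsg.pCore (r : ℕ) ↥A) := (Subgroup.nontrivial_iff_ne_bot _).2 hr
            haveI := (CfsgLib.Core.isPGroup_pCore (G := ↥A) (r : ℕ)).center_nontrivial
            rw [hW, Subgroup.map_eq_bot_iff_of_injective _ (Subgroup.subtype_injective _)] at e
            exact (Subgroup.nontrivial_iff_ne_bot _).1 inferInstance e
          intro v hv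
          rw [← hnormA W inferInstance hW1]
          refine Subgroup.centralizer_le_normalizer _ (Subgroup.mem_centralizer_iff.mpr ?_)
          rintro _ ⟨k, hk, rfl⟩
          exact hPr r r.2.1 r.2.2 k
            ⟨CfsgLib.BenderLemma.centre_core_le hS'sn hS'F hS'C r.2.1 hk, Subgroup.map_subtype_le _ hk⟩ v hv
        · intro v hv
          rw [← hnormA _ CfsgLib.Components.layer_normal hl]
          refine Subgroup.centralizer_le_normalizer _ (Subgroup.mem_centralizer_iff.mpr ?_)
          rintro _ ⟨k, hk, rfl⟩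
          exact hPl k hk v hv
      obtain ⟨hd1, hd2⟩ := hDc ⟨x, hPA hx⟩ hx
      have hfin : X ≤ Subgroup.centralizer ({⟨x, hPA hx⟩} : Set ↥A) :=
        sup_le (fun k hk => Subgroup.mem_centralizer_singleton_iff.mpr (hd1 k hk).symm)
          (iSup_le fun r k hk => Subgroup.mem_centralizer_singleton_iff.mpr (hd2 r r.2.1 r.2.2 k hk).symm)
      exact (congrArg Subtype.val (Subgroup.mem_centralizer_singleton_iff.mp (hfin hyX))).symm

end Cfsg.Agent.S1247
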