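import Cfsg.Statements.S1248
import Mathlib
import Cfsg.Agent.Lib.Unitary.SylowTwo

set_option autoImplicit false
open Cfsg CfsgLib.Unitary.SylowTwo

namespace Cfsg.Agent.S1248

/-- Let F be a field with 16 elements and S a Sylow 2-subgroup of PSU(3) over F (the unitary group U₃(4)). Then |S| = 64; the centre Z(S) is a Klein four-group and coincides with the subgroup generated by the involutions of S and with the derived subgroup; and every element of S ⧸ Z(S) squares to the identity, S ⧸ Z(S) having order 16. -/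
theorem result {F : Type*} [Field F] [Fintype F] (hF : Fintype.card F = 16) (S : Sylow 2 (Cfsg.PSU 3 F 4)) : Nat.card S = 64 ∧ IsKleinFour (Subgroup.center (S : Subgroup (Cfsg.PSU 3 F 4))) ∧ Subgroup.center (S : Subgroup (Cfsg.PSU 3 F 4)) = Subgroup.closure {x : (S : Subgroup (Cfsg.PSU 3 F 4)) | orderOf x = 2} ∧ Subgroup.center (S : Subgroup (Cfsg.PSU 3 F 4)) = commutator (S : Subgroup (Cfsg.PSU 3 F 4)) ∧ Nat.card ((S : Subgroup (Cfsg.PSU 3 F 4)) ⧸ Subgroup.center (S : Subgroup (Cfsg.PSU 3 F 4))) = 16 ∧ ∀ x : (S : Subgroup (Cfsg.PSU 3 F 4)) ⧸ Subgroup.center (S : Subgroup (Cfsg.PSU 3 F 4)), x ^ 2 = 1 := by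
  classical
  have hF' : Fintype.card F = 4 ^ 2 := by rw [hF]; norm_num
  haveI : CharP F 2 := CfsgLib.Unitary.SylowTwo.charTwo (n := 2) (by rw [hF]; norm_num)
  obtain ⟨e⟩ := sylow_psu (n := 2) hF' (by norm_num) S
  have hcard : Nat.card S = 64 := (Nat.card_congr e.toEquiv).trans ((card_U hF').trans (by norm_num))
  have hsq : ∀ g, g * g = 1 ↔ g ∈ Subgroup.center (S : Subgroup (Cfsg.PSU 3 F 4)) := fun g => by
    rw [← e.map_eq_one_iff, map_mul, sq_eq_one_iff_center hF', Subgroup.mem_center_iff, Subgroup.mem_center_iff]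
    constructor
    · intro h x; apply e.injective; rw [map_mul, map_mul]; exact h (e x)
    · intro h y; obtain ⟨x, rfl⟩ := e.surjective y; rw [← map_mul, ← map_mul, h x]
  have hZ : Nat.card (Subgroup.center (S : Subgroup (Cfsg.PSU 3 F 4))) = 4 :=
    (Nat.card_congr (Subgroup.centerCongr e).toEquiv).trans (card_center hF')
  have hq16 : Nat.card ((S : Subgroup (Cfsg.PSU 3 F 4)) ⧸ Subgroup.center (S : Subgroup (Cfsg.PSU 3 F 4))) = 16 := by
    have := Subgroup.card_eq_card_quotient_mul_card_subgroup (Subgroup.center (S : Subgroup (Cfsg.PSU 3 F 4)))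
    rw [hcard, hZ] at this
    omega
  refine ⟨hcard, ⟨hZ, ?_⟩, ?_, ?_, hq16, fun x => ?_⟩
  · haveI : Nontrivial (Subgroup.center (S : Subgroup (Cfsg.PSU 3 F 4))) := Finite.one_lt_card_iff_nontrivial.mp (by omega)
    exact (Monoid.exponent_eq_prime_iff Nat.prime_two).mpr fun g hg => orderOf_eq_prime (Subtype.ext (by
      show ((g ^ 2 : Subgroup.center _) : (S : Subgroup (Cfsg.PSU 3 F 4))) = 1
      rw [Subgroup.coe_pow, sq]; exact (hsq _).mpr g.2)) hg
  · refine le_antisymm (fun g hg => ?_) ((Subgroup.closure_le _).mpr fun g (hg : orderOf g = 2) =>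
      (hsq g).mp (by have := pow_orderOf_eq_one g; rwa [hg, sq] at this))
    by_cases h1 : g = 1
    · rw [h1]; exact one_mem _
    · exact Subgroup.subset_closure (orderOf_eq_prime (by rw [sq]; exact (hsq g).mpr hg) h1)
  · have h1 : (commutator (S : Subgroup (Cfsg.PSU 3 F 4))).map e.toMonoidHom = commutator (U hF') := by
      rw [commutator_def, Subgroup.map_commutator, Subgroup.map_top_of_surjective _ e.surjective, ← commutator_def]
    have h2 : (Subgroup.center (S : Subgroup (Cfsg.PSU 3 F 4))).map e.toMonoidHom = Subgroup.center (U hF') := by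
      ext u
      obtain ⟨x, rfl⟩ := e.surjective u
      rw [Subgroup.mem_map_equiv, e.symm_apply_apply, ← hsq, ← sq_eq_one_iff_center hF', ← map_mul, e.map_eq_one_iff]
    exact Subgroup.map_injective e.injective (by rw [h1, h2, commutator_eq_center hF'])
  · obtain ⟨g, rfl⟩ := QuotientGroup.mk'_surjective _ x
    rw [← map_pow, QuotientGroup.mk'_apply, QuotientGroup.eq_one_iff, ← hsq, sq]
    obtain ⟨a, b, h, hab⟩ := mk_surj hF' (e g)
    apply e.injective
    rw [map_mul, map_mul, map_one, ← hab, mk_sq hF', (sq_eq_one_iff hF' _).mpr rfl]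

end Cfsg.Agent.S1248
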