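import Cfsg.Statements.S1253
import Mathlib
import Cfsg.Agent.Lib.IsolatedSylow

set_option autoImplicit false
open Cfsg

namespace Cfsg.Agent.S1253

/-- Let z be an isolated involution of the finite group G with centralizer C, p an odd prime and P a Sylow p-subgroup of G normalized by z. Then P ∩ C has p-power-free index in C (it is a Sylow p-subgroup of C), and |P : C_P(z)| equals the number of elements x ∈ P with z x z⁻¹ = x⁻¹. -/
theorem result {G : Type*} [Group G] [Finite G] (z : G) (hz : Cfsg.IsIsolatedInvolution z) {p : ℕ} [Fact p.Prime] (hp : p ≠ 2) (P : Sylow p G) (hzP : z ∈ Subgroup.normalizer ((P : Subgroup G) : Set G)) : ¬ p ∣ ((P : Subgroup G) ⊓ Subgroup.centralizer ({z} : Set G)).relIndex (Subgroup.centralizer ({z} : Set G)) ∧ ((P : Subgroup G) ⊓ Subgroup.centralizer ({z} : Set G)).relIndex (P : Subgroup G) = Nat.card {x : G // x ∈ P ∧ z * x * z⁻¹ = x⁻¹} := by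
  classical
  have hzz : z * z = 1 := CfsgLib.Involution.mul_self hz.1
  have hzi : z⁻¹ = z := CfsgLib.Involution.inv_eq hz.1
  refine ⟨?_, ?_⟩
  · -- a Sylow subgroup of the centralizer
    let C : Subgroup G := Subgroup.centralizer ({z} : Set G)
    obtain ⟨R, hR⟩ := (IsPGroup.of_injective P.2 ((C.subtype.comp ((P : Subgroup G).subgroupOf C).subtype).codRestrict (P : Subgroup G) fun y => y.2)
        (fun a b e => Subtype.ext (Subtype.ext (congrArg Subtype.val e :)))).exists_le_sylow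
    let R' : Subgroup G := (R : Subgroup C).map C.subtype
    have hR'z : z ∈ Subgroup.normalizer (R' : Set G) := by
      refine Subgroup.centralizer_le_normalizer _ (Subgroup.mem_centralizer_iff.2 fun y hy => ?_)
      obtain ⟨y, -, rfl⟩ := hy
      exact Subgroup.mem_centralizer_singleton_iff.1 y.2
    obtain ⟨M, hRM, hM⟩ := Finite.exists_le_maximal (p := fun V : Subgroup G => IsPGroup p V ∧ z ∈ Subgroup.normalizer (V : Set G)) (a := R') ⟨R.2.map _, hR'z⟩
    obtain ⟨Q, hQ⟩ := CfsgLib.IsolatedSylow.exists_eq_of_maximal hz M hM.1.1 hM.1.2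
      (fun V h1 h2 h3 => le_antisymm (hM.2 ⟨h1, h2⟩ h3) h3)
    obtain ⟨c, hc, hPQ⟩ := CfsgLib.IsolatedSylow.exists_conj hz hp P Q hzP (hQ ▸ hM.1.2)
    have hle : R' ≤ ((P : Subgroup G) ⊓ C).map (MulAut.conj c).toMonoidHom := by
      intro y hy
      have h1 : y ∈ (Q : Subgroup G) := hQ ▸ hRM hy
      rw [← hPQ] at h1
      obtain ⟨x, hx, rfl⟩ := h1
      refine ⟨x, ⟨hx, ?_⟩, rfl⟩
      obtain ⟨w, -, hw⟩ := hy
      have h2 : c * x * c⁻¹ ∈ C := by
        have : (C.subtype w : G) = c * x * c⁻¹ := hw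
        rw [← this]; exact w.2
      simpa [mul_assoc] using mul_mem (mul_mem (inv_mem hc) h2) hc
    have h1 : Nat.card R' ≤ Nat.card ((P : Subgroup G).subgroupOf C) := by
      refine (Subgroup.card_le_of_le hle).trans (le_of_eq ?_)
      rw [Subgroup.card_map_of_injective (MulAut.conj c).injective, ← Subgroup.inf_subgroupOf_right]
      exact (Nat.card_congr (Subgroup.subgroupOfEquivOfLe inf_le_right).toEquiv).symm
    rw [Subgroup.card_map_of_injective C.subtype_injective] at h1
    have heq := Subgroup.eq_of_le_of_card_ge hR h1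
    rw [Subgroup.relIndex, Subgroup.inf_subgroupOf_right, heq]
    exact R.not_dvd_index
  · -- inverted elements form a transversal
    let PG : Subgroup G := (P : Subgroup G)
    let K : Subgroup PG := (PG ⊓ Subgroup.centralizer ({z} : Set G)).subgroupOf PG
    have hnorm : ∀ x : G, x ∈ PG → z * x * z⁻¹ ∈ PG := fun x hx => (Subgroup.mem_normalizer_iff.1 hzP x).1 hx
    let f : PG → {x : G // x ∈ P ∧ z * x * z⁻¹ = x⁻¹} := fun x =>
      ⟨(x : G) * (z * (x : G)⁻¹ * z⁻¹), mul_mem x.2 (hnorm _ (inv_mem x.2)), by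
        simp only [mul_inv_rev, inv_inv, hzi]
        calc z * ((x : G) * (z * (x : G)⁻¹ * z)) * z = z * x * z * (x : G)⁻¹ * (z * z) := by group
          _ = z * (x * z) * (x : G)⁻¹ := by rw [hzz, mul_one]; group
          _ = _ := by simp [mul_assoc]⟩
    have hmemK : ∀ x : PG, x ∈ K ↔ z * (x : G) = x * z := fun x => by
      simp only [K, Subgroup.mem_subgroupOf, Subgroup.mem_inf, Subgroup.mem_centralizer_singleton_iff]
      exact ⟨fun h => h.2.symm, fun h => ⟨x.2, h.symm⟩⟩
    have hfib : ∀ x y : PG, f x = f y ↔ x⁻¹ * y ∈ K := fun x y => by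
      rw [hmemK, Subtype.ext_iff]
      show (x : G) * (z * (x : G)⁻¹ * z⁻¹) = (y : G) * (z * (y : G)⁻¹ * z⁻¹) ↔ _
      push_cast
      constructor
      · intro h
        calc z * ((x : G)⁻¹ * y) = (x : G)⁻¹ * ((x : G) * (z * (x : G)⁻¹ * z⁻¹)) * z * y := by group
          _ = (x : G)⁻¹ * ((y : G) * (z * (y : G)⁻¹ * z⁻¹)) * z * y := by rw [h]
          _ = _ := by group
      · intro h
        calc (x : G) * (z * (x : G)⁻¹ * z⁻¹) = x * (z * ((x : G)⁻¹ * y)) * (y : G)⁻¹ * z⁻¹ := by group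
          _ = x * (((x : G)⁻¹ * y) * z) * (y : G)⁻¹ * z⁻¹ := by rw [h]
          _ = _ := by group
    let F : PG ⧸ K → {x : G // x ∈ P ∧ z * x * z⁻¹ = x⁻¹} := Quotient.lift f
      (fun a b h => (hfib a b).2 (QuotientGroup.leftRel_apply.1 h))
    refine Nat.card_congr (Equiv.ofBijective F ⟨?_, ?_⟩)
    · intro a b
      induction a using Quotient.inductionOn
      rename_i a
      induction b using Quotient.inductionOn
      rename_i b
      intro e
      exact QuotientGroup.eq.2 ((hfib a b).1 e)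
    · rintro ⟨y, hy, hinv⟩
      have hodd : Odd (orderOf y) := by
        obtain ⟨k, hk⟩ := IsPGroup.iff_orderOf.1 P.2 ⟨y, hy⟩
        rw [← Subgroup.orderOf_mk y hy, hk]
        exact ((Fact.out : p.Prime).odd_of_ne_two hp).pow
      obtain ⟨m, hm⟩ := hodd
      refine ⟨Quotient.mk'' ⟨y ^ (m + 1), pow_mem hy _⟩, Subtype.ext ?_⟩
      show y ^ (m + 1) * (z * (y ^ (m + 1))⁻¹ * z⁻¹) = y
      have h1 : z * (y ^ (m + 1))⁻¹ * z⁻¹ = y ^ (m + 1) := by
        rw [← inv_pow, ← conj_pow]
        congr 1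
        calc z * y⁻¹ * z⁻¹ = (z * y * z⁻¹)⁻¹ := by group
          _ = y := by rw [hinv, inv_inv]
      rw [h1, ← pow_add, show m + 1 + (m + 1) = (2 * m + 1) + 1 by ring, ← hm, pow_succ, pow_orderOf_eq_one, one_mul]

end Cfsg.Agent.S1253
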