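import Cfsg.Statements.S1254
import Cfsg.Agent.Lib.TwoModels.DihedralFusion

set_option autoImplicit false
open Cfsg

open CfsgLib.DihedralFusion

namespace Cfsg.Agent.S1254

/-- Let X be a finite group whose Sylow 2-subgroup S is dihedral (of order at least 4). Then X has a normal 2-complement if and only if, for every Klein four-subgroup U ≤ S, the normalizer N_X(U) is generated by C_X(U) and N_S(U). -/
theorem result {X : Type*} [Group X] [Finite X] (S : Sylow 2 X) (m : ℕ) (hm : 2 ≤ m) (eS : (S : Subgroup X) ≃* DihedralGroup m) : Cfsg.HasNormalPComplement 2 X ↔ ∀ U : Subgroup X, U ≤ S → IsKleinFour U → Subgroup.normalizer (U : Set X) = Subgroup.centralizer (U : Set X) ⊔ ((S : Subgroup X) ⊓ Subgroup.normalizer (U : Set X)) := by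
      obtain ⟨h, hh0, rfl, k, hk⟩ := exists_half hm eS
      haveI := hh0
      refine ⟨fun hN U hUS _ => npc_normalizer hN U hUS, fun H => ?_⟩
      rcases k with _ | k
      · obtain rfl : h = 1 := by simpa using hk
        exact npc_one eS H
      · have hh : Even h := ⟨2 ^ k, by rw [hk, pow_succ]; ring⟩
        exact npc eS hh (z_not_conj eS hh (fix_of_eq eS H))

end Cfsg.Agent.S1254
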