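import Cfsg.Statements.S1255
import Cfsg.Agent.Lib.TwoModels.DihedralFusion

set_option autoImplicit false
open Cfsg

open CfsgLib.DihedralFusion

namespace Cfsg.Agent.S1255

/-- Let X be a finite group whose Sylow 2-subgroup S is dihedral of order 2m ≥ 4. Then X has no subgroup of index 2 and no isolated involution if and only if either all involutions of X are conjugate, or for every Klein four-subgroup U ≤ S the index |N_X(U) : C_X(U)| equals 3 when |S| = 4 and equals 6 when |S| > 4. -/
theorem result {X : Type*} [Group X] [Finite X] (S : Sylow 2 X) (m : ℕ) (hm : 2 ≤ m) (eS : (S : Subgroup X) ≃* DihedralGroup m) : ((∀ H : Subgroup X, H.index ≠ 2) ∧ (∀ z : X, ¬ Cfsg.IsIsolatedInvolution z)) ↔ ((∀ a b : X, orderOf a = 2 → orderOf b = 2 → IsConj a b) ∨ (∀ U : Subgroup X, U ≤ S → IsKleinFour U → (Subgroup.centralizer (U : Set X)).relIndex (Subgroup.normalizer (U : Set X)) = (if Nat.card S = 4 then 3 else 6))) := by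
      obtain ⟨h, hh0, rfl, k, hk⟩ := exists_half hm eS
      haveI := hh0
      constructor
      · rintro ⟨hG, hiso⟩
        refine Or.inl (all_conj_of eS fun i => ?_)
        rcases k with _ | k
        · obtain rfl : h = 1 := by simpa using hk
          exact one_conj eS hiso i
        · exact conj_of_no_index eS ⟨2 ^ k, by rw [hk, pow_succ]; ring⟩ ⟨k + 1, hk⟩ hG hiso i
      · intro H
        have hall : ∀ a b : X, orderOf a = 2 → orderOf b = 2 → IsConj a b := by
          rcases H with H | H
          · exact H
          · refine all_conj_of eS fun i => z_conj_of_index eS ?_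
            rw [H _ (four_le' eS i) (four_klein eS i)]
            split_ifs <;> norm_num
        exact ⟨no_two eS hall, not_isolated eS hall⟩

end Cfsg.Agent.S1255
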