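import Cfsg.Statements.S1256
import Mathlib
import Cfsg.Agent.Lib.KleinBasic

set_option autoImplicit false
open Cfsg

namespace CfsgLib.DihKlein

open DihedralGroup CfsgLib.KleinBasic

section arith
variable {q : ℕ}

theorem two_mul_cases (hq : 0 < q) (t : ZMod (4 * q)) (h : t + t = 0 ∨ t + t = ((2 * q : ℕ) : ZMod (4 * q))) :
    ∃ j : ℕ, j < 4 ∧ t = ((j * q : ℕ) : ZMod (4 * q)) := by
  haveI : NeZero (4 * q) := ⟨by omega⟩
  have ht := ZMod.val_lt t
  have e : ((t.val + t.val : ℕ) : ZMod (4 * q)) = t + t := by push_cast; rw [ZMod.natCast_rightInverse t]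
  rcases h with h | h <;> rw [h] at e
  · have h' : (4 * q) ∣ t.val + t.val := (ZMod.natCast_eq_zero_iff _ _).1 e
    obtain ⟨k, hk⟩ := h'
    have : k < 2 := by by_contra h2; have := Nat.mul_le_mul_left (4 * q) (not_lt.1 h2); omega
    interval_cases k
    · exact ⟨0, by norm_num, by rw [← ZMod.natCast_rightInverse t, show t.val = 0 * q by omega]⟩
    · exact ⟨2, by norm_num, by rw [← ZMod.natCast_rightInverse t, show t.val = 2 * q by omega]⟩
  · have h' := (ZMod.natCast_eq_natCast_iff' _ _ _).1 e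
    rw [Nat.mod_eq_of_lt (show 2 * q < 4 * q by omega)] at h'
    rcases lt_or_ge (t.val + t.val) (4 * q) with h2 | h2
    · rw [Nat.mod_eq_of_lt h2] at h'
      exact ⟨1, by norm_num, by rw [← ZMod.natCast_rightInverse t, show t.val = 1 * q by omega]⟩
    · rw [Nat.mod_eq_sub_mod h2, Nat.mod_eq_of_lt (by omega)] at h'
      exact ⟨3, by norm_num, by rw [← ZMod.natCast_rightInverse t, show t.val = 3 * q by omega]⟩

theorem half_ne (hq : 0 < q) : ((2 * q : ℕ) : ZMod (4 * q)) ≠ 0 := fun h => by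
  have := Nat.le_of_dvd (by omega) ((ZMod.natCast_eq_zero_iff _ _).1 h)
  omega

theorem half_double : ((2 * q : ℕ) : ZMod (4 * q)) + ((2 * q : ℕ) : ZMod (4 * q)) = 0 := by
  rw [← Nat.cast_add, show 2 * q + 2 * q = 4 * q by ring, ZMod.natCast_self]

theorem double_eq_zero (hq : 0 < q) (t : ZMod (4 * q)) (h : t + t = 0) : t = 0 ∨ t = ((2 * q : ℕ) : ZMod (4 * q)) := by
  obtain ⟨j, hj, rfl⟩ := two_mul_cases hq t (Or.inl h)
  interval_cases j
  · left; simp
  · exfalso
    rw [← Nat.cast_add, show 1 * q + 1 * q = 2 * q by ring] at h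
    exact half_ne hq h
  · right; rfl
  · exfalso
    rw [← Nat.cast_add, show 3 * q + 3 * q = 4 * q + 2 * q by ring, Nat.cast_add, ZMod.natCast_self, zero_add] at h
    exact half_ne hq h

variable {G : Type*} [Group G]

/-- Four-subgroups of the image of a dihedral group. -/
theorem klein_in (hq : 0 < q) (f : DihedralGroup (4 * q) →* G) (hf : Function.Injective f) {W : Subgroup G}
    (hW : IsKleinFour W) (hWS : W ≤ f.range) :
    ∃ i : ZMod (4 * q), f (sr i) ∈ W ∧ f (r ((2 * q : ℕ) : ZMod (4 * q))) ∈ W := by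
  haveI := hW
  obtain ⟨u, v, hu, hv, hu1, hv1, huv, -⟩ := klein_gens W hW
  have sq : ∀ x ∈ W, x * x = 1 := fun x hx => congrArg Subtype.val (IsKleinFour.mul_self (⟨x, hx⟩ : W))
  obtain ⟨a, rfl⟩ := hWS hu
  obtain ⟨b, rfl⟩ := hWS hv
  have ha : a * a = 1 := hf (by rw [map_mul, map_one]; exact sq _ hu)
  have hb : b * b = 1 := hf (by rw [map_mul, map_one]; exact sq _ hv)
  have hab : (a * b) * (a * b) = 1 := hf (by rw [map_mul, map_one]; exact sq _ (by rw [map_mul]; exact W.mul_mem hu hv))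
  have ha1 : a ≠ 1 := fun e => hu1 (by rw [e, map_one])
  have hb1 : b ≠ 1 := fun e => hv1 (by rw [e, map_one])
  have hne : a ≠ b := fun e => huv (by rw [e])
  have rot : ∀ i : ZMod (4 * q), (r i : DihedralGroup (4 * q)) * r i = 1 → r i ≠ 1 → i = ((2 * q : ℕ) : ZMod (4 * q)) := by
    intro i h1 h2
    rw [r_mul_r, one_def, r.injEq] at h1
    exact (double_eq_zero hq i h1).resolve_left (fun e => h2 (by rw [e, r_zero]))
  rcases a with i | i <;> rcases b with j | j
  · exact absurd (congrArg r ((rot i ha ha1).trans (rot j hb hb1).symm)) hne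
  · exact ⟨j, hv, rot i ha ha1 ▸ hu⟩
  · exact ⟨i, hu, rot j hb hb1 ▸ hv⟩
  · refine ⟨i, hu, ?_⟩
    have h1 : f (r (j - i)) ∈ W := by rw [← sr_mul_sr, map_mul]; exact W.mul_mem hu hv
    have h2 : (r (j - i) : DihedralGroup (4 * q)) ≠ 1 := fun e => hne (by
      rw [one_def, r.injEq, sub_eq_zero] at e; rw [e])
    rw [← rot (j - i) (by rw [sr_mul_sr] at hab; exact hab) h2]
    exact h1

theorem klein_eq (hq : 0 < q) (f : DihedralGroup (4 * q) →* G) (hf : Function.Injective f) {V W : Subgroup G}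
    (hV : IsKleinFour V) (hW : IsKleinFour W) (i : ZMod (4 * q))
    (h1 : f (sr i) ∈ V) (h2 : f (r ((2 * q : ℕ) : ZMod (4 * q))) ∈ V)
    (h3 : f (sr i) ∈ W) (h4 : f (r ((2 * q : ℕ) : ZMod (4 * q))) ∈ W) : V = W := by
  have a1 : f (sr i) ≠ 1 := fun e => by
    have := hf (e.trans f.map_one.symm); rw [one_def] at this; nomatch this
  have a2 : f (r ((2 * q : ℕ) : ZMod (4 * q))) ≠ 1 := fun e => by
    have := hf (e.trans f.map_one.symm); rw [one_def, r.injEq] at this; exact half_ne hq this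
  have a3 : f (sr i) ≠ f (r ((2 * q : ℕ) : ZMod (4 * q))) := fun e => by exact absurd (hf e) (by simp)
  exact le_antisymm (klein_le hV h1 h2 a1 a2 a3 W h3 h4) (klein_le hW h3 h4 a1 a2 a3 V h1 h2)

theorem exists_std (hq : 0 < q) (f : DihedralGroup (4 * q) →* G) (hf : Function.Injective f) (i : ZMod (4 * q)) :
    ∃ W : Subgroup G, IsKleinFour W ∧ f (sr i) ∈ W ∧ f (r ((2 * q : ℕ) : ZMod (4 * q))) ∈ W ∧ W ≤ f.range := by
  set h : ZMod (4 * q) := ((2 * q : ℕ) : ZMod (4 * q)) with hh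
  have hd : h + h = 0 := half_double
  have a1 : f (sr i) ≠ 1 := fun e => by
    have := hf (e.trans f.map_one.symm); rw [one_def] at this; nomatch this
  have a2 : f (r h) ≠ 1 := fun e => by
    have := hf (e.trans f.map_one.symm); rw [one_def, r.injEq] at this; exact half_ne hq this
  have a3 : f (sr i) ≠ f (r h) := fun e => by exact absurd (hf e) (by simp)
  obtain ⟨W, hW, m1, m2, -⟩ := exists_klein (f (sr i)) (f (r h)) (by rw [← map_mul, sr_mul_self, map_one])
    (by rw [← map_mul, r_mul_r, hd, r_zero, map_one])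
    (by
      rw [← map_mul, ← map_mul, sr_mul_r, r_mul_sr]
      congr 2
      linear_combination hd)
    a1 a2 a3
  exact ⟨W, hW, m1, m2, klein_le hW m1 m2 a1 a2 a3 _ ⟨_, rfl⟩ ⟨_, rfl⟩⟩

end arith

end CfsgLib.DihKlein

open CfsgLib.DihKlein DihedralGroup CfsgLib.KleinBasic

namespace Cfsg.Agent.S1256

/-- Let X be a finite group whose Sylow 2-subgroup S is dihedral of order 2m ≥ 4. If |S| = 4, any two Klein four-subgroups of X are conjugate; if |S| > 4, there are Klein four-subgroups U₁, U₂ of X that are not conjugate, and every Klein four-subgroup of X is conjugate to U₁ or to U₂. -/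
theorem result {X : Type*} [Group X] [Finite X] (S : Sylow 2 X) (m : ℕ) (hm : 2 ≤ m) (eS : (S : Subgroup X) ≃* DihedralGroup m) : (Nat.card S = 4 → ∀ U V : Subgroup X, IsKleinFour U → IsKleinFour V → (∃ x : X, U.map (MulAut.conj x).toMonoidHom = V)) ∧ (4 < Nat.card S → ∃ U₁ U₂ : Subgroup X, IsKleinFour U₁ ∧ IsKleinFour U₂ ∧ ¬ (∃ x : X, U₁.map (MulAut.conj x).toMonoidHom = U₂) ∧ ∀ V : Subgroup X, IsKleinFour V → (∃ x : X, V.map (MulAut.conj x).toMonoidHom = U₁) ∨ (∃ x : X, V.map (MulAut.conj x).toMonoidHom = U₂)) := by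
  classical
  have hcardS : Nat.card S = 2 * m := by rw [Nat.card_congr eS.toEquiv, DihedralGroup.nat_card]
  obtain ⟨n, hn⟩ : ∃ n, Nat.card S = 2 ^ n := S.2.exists_card_eq
  haveI := Fintype.ofFinite X
  have hconj : ∀ (P : Sylow 2 X) (U : Subgroup X), U ≤ (P : Subgroup X) →
      ∃ a : X, ∀ u ∈ U, a * u * a⁻¹ ∈ (S : Subgroup X) := by
    intro P U hU
    obtain ⟨a, ha⟩ := MulAction.exists_smul_eq X P S
    refine ⟨a, fun u hu => ?_⟩
    rw [← ha]
    exact ⟨u, hU hu, rfl⟩
  have h2 : ∀ U : Subgroup X, IsKleinFour U → IsPGroup 2 U := fun U hU => by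
    haveI := hU
    exact IsPGroup.of_card (n := 2) (IsKleinFour.card_four (G := U))
  refine ⟨fun h4 U V hU hV => ?_, fun hlt => ?_⟩
  · have hsyl : ∀ U : Subgroup X, IsKleinFour U → ∃ P : Sylow 2 X, (P : Subgroup X) = U := by
      intro U hU
      obtain ⟨P, hP⟩ := (h2 U hU).exists_le_sylow
      haveI := hU
      refine ⟨P, (Subgroup.eq_of_le_of_card_ge hP ?_).symm⟩
      have e1 : Nat.card U = 4 := IsKleinFour.card_four
      rw [e1]
      exact le_of_eq ((Sylow.equiv P S).toEquiv |> Nat.card_congr |>.trans h4)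
    obtain ⟨P, rfl⟩ := hsyl U hU
    obtain ⟨Q, rfl⟩ := hsyl V hV
    obtain ⟨x, hx⟩ := MulAction.exists_smul_eq X P Q
    exact ⟨x, by rw [← hx]; rfl⟩
  obtain ⟨q, hq, hm4⟩ : ∃ q, 0 < q ∧ m = 4 * q := by
    rw [hn] at hlt hcardS
    have h3 : 3 ≤ n := by
      by_contra h; have := Nat.pow_le_pow_right (show 0 < 2 by norm_num) (show n ≤ 2 by omega); omega
    obtain ⟨k, rfl⟩ := Nat.exists_eq_add_of_le h3
    refine ⟨2 ^ k, by positivity, ?_⟩
    have : 2 ^ (3 + k) = 8 * 2 ^ k := by rw [pow_add]; norm_num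
    omega
  subst hm4
  haveI : NeZero (4 * q) := ⟨by omega⟩
  let f : DihedralGroup (4 * q) →* X := (S : Subgroup X).subtype.comp eS.symm.toMonoidHom
  have hf : Function.Injective f := fun a b h => eS.symm.injective (Subtype.ext h)
  have hrange : f.range = (S : Subgroup X) := by
    ext x
    exact ⟨fun ⟨d, hd⟩ => hd ▸ (eS.symm d).2, fun hx => ⟨eS ⟨x, hx⟩, by simp [f]⟩⟩
  set hh : ZMod (4 * q) := ((2 * q : ℕ) : ZMod (4 * q)) with hhh
  obtain ⟨U₁, hU₁, hU₁s, hU₁z, hU₁S⟩ := exists_std hq f hf 0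
  obtain ⟨U₂, hU₂, hU₂s, hU₂z, hU₂S⟩ := exists_std hq f hf 1
  -- conjugation by rotations
  have hrot : ∀ (t i : ZMod (4 * q)), f (r t) * f (sr i) * (f (r t))⁻¹ = f (sr (i - (t + t))) := fun t i => by
    rw [← map_inv, ← map_mul, ← map_mul, inv_r, r_mul_sr, sr_mul_r]
    congr 2; ring
  have hrotz : ∀ (d : DihedralGroup (4 * q)), f d * f (r hh) * (f d)⁻¹ = f (r hh) := fun d => by
    rw [← map_inv, ← map_mul, ← map_mul]
    congr 1
    rcases d with t | t
    · rw [inv_r, r_mul_r, r_mul_r]; congr 1; ring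
    · rw [inv_sr, sr_mul_r, sr_mul_sr]
      congr 1
      have := half_double (q := q)
      linear_combination -this
  have hclass : ∀ V : Subgroup X, IsKleinFour V → (∃ x : X, V.map (MulAut.conj x).toMonoidHom = U₁) ∨
      (∃ x : X, V.map (MulAut.conj x).toMonoidHom = U₂) := by
    intro V hV
    obtain ⟨P, hP⟩ := (h2 V hV).exists_le_sylow
    obtain ⟨a, ha⟩ := hconj P V hP
    set V' := V.map (MulAut.conj a).toMonoidHom with hV'
    have hV'K : ∀ (x : X) (A : Subgroup X), IsKleinFour A → IsKleinFour ↥(A.map (MulAut.conj x).toMonoidHom) := fun x A hA => by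
      haveI := hA
      let e := A.equivMapOfInjective (MulAut.conj x).toMonoidHom (MulAut.conj x).injective
      exact ⟨(Nat.card_congr e.toEquiv).symm.trans IsKleinFour.card_four,
        (Monoid.exponent_eq_of_mulEquiv e).symm.trans IsKleinFour.exponent_two⟩
    obtain ⟨i, hi, hiz⟩ := klein_in hq f hf (hV'K a V hV) (by
      rw [hrange]; rintro _ ⟨v, hv, rfl⟩; exact ha v hv)
    obtain ⟨t, i0, hi0, hit⟩ : ∃ (t i0 : ZMod (4 * q)), (i0 = 0 ∨ i0 = 1) ∧ i = i0 + (t + t) := by
      refine ⟨((i.val / 2 : ℕ) : ZMod (4 * q)), ((i.val % 2 : ℕ) : ZMod (4 * q)), ?_, ?_⟩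
      · rcases Nat.mod_two_eq_zero_or_one i.val with h | h <;> rw [h] <;> simp
      · rw [← Nat.cast_add, ← Nat.cast_add]
        conv_lhs => rw [← ZMod.natCast_rightInverse i]
        congr 1; omega
    have hfin : ∀ U : Subgroup X, IsKleinFour U → f (sr i0) ∈ U → f (r hh) ∈ U →
        ∃ x : X, V.map (MulAut.conj x).toMonoidHom = U := by
      intro U hU h1 h3
      refine ⟨f (r t) * a, klein_eq hq f hf (hV'K _ V hV) hU i0 ?_ ?_ h1 h3⟩
      · obtain ⟨v, hv, e⟩ := hi
        refine ⟨v, hv, ?_⟩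
        have h := hrot t i
        rw [← e, show i - (t + t) = i0 by rw [hit]; ring] at h
        rw [← h]
        simp [mul_assoc]
      · obtain ⟨v, hv, e⟩ := hiz
        refine ⟨v, hv, ?_⟩
        have h := hrotz (r t)
        rw [hhh] at h
        rw [← e] at h
        conv_rhs at h => rw [e]
        rw [← h]
        simp [mul_assoc]
    rcases hi0 with rfl | rfl
    · exact Or.inl (hfin U₁ hU₁ hU₁s hU₁z)
    · exact Or.inr (hfin U₂ hU₂ hU₂s hU₂z)
  refine ⟨U₁, U₂, hU₁, hU₂, ?_, hclass⟩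
  rintro ⟨g, hg⟩
  set cq : ZMod (4 * q) := ((q : ℕ) : ZMod (4 * q)) with hcq
  set c : X := f (r cq) with hc
  have hc2 : c * c = f (r hh) := by
    rw [hc, ← map_mul, r_mul_r, hcq, hhh, ← Nat.cast_add, two_mul]
  have hc21 : c * c ≠ 1 := fun e => by
    rw [hc2] at e
    have := hf (e.trans f.map_one.symm); rw [one_def, r.injEq] at this; exact half_ne hq this
  have hccn : c ∈ (S : Subgroup X) := hrange ▸ ⟨_, rfl⟩
  have hnorm : ∀ (i : ZMod (4 * q)) (U : Subgroup X), IsKleinFour U → f (sr i) ∈ U → f (r hh) ∈ U →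
      c ∈ Subgroup.normalizer (U : Set X) := by
    intro i U hU hs hz
    have hle : ∀ w ∈ U, c * w * c⁻¹ ∈ U := by
      intro w hw
      have a1 : f (sr i) ≠ 1 := fun e => by
        have := hf (e.trans f.map_one.symm); rw [one_def] at this; nomatch this
      have a2 : f (r hh) ≠ 1 := hc2 ▸ hc21
      have a3 : f (sr i) ≠ f (r hh) := fun e => absurd (hf e) (by simp)
      refine klein_le hU hs hz a1 a2 a3 (U.comap (MulAut.conj c).toMonoidHom) ?_ ?_ hw
      · show c * f (sr i) * c⁻¹ ∈ U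
        rw [hc, hrot, show i - (cq + cq) = i + hh by
          have := half_double (q := q)
          rw [hcq, hhh]; push_cast at this ⊢; linear_combination -this]
        rw [← sr_mul_r, map_mul]
        exact U.mul_mem hs hz
      · show c * f (r hh) * c⁻¹ ∈ U
        rw [hc, hrotz]
        exact hz
    rw [Subgroup.mem_normalizer_iff_map_conj_eq]
    refine Subgroup.eq_of_le_of_card_ge ?_ ?_
    · rintro _ ⟨w, hw, rfl⟩; exact hle w hw
    · exact le_of_eq (Nat.card_congr (U.equivMapOfInjective _ (MulAut.conj c).injective).toEquiv)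
  have key : ∀ (Q : Subgroup X), IsPGroup 2 Q → Q ≤ Subgroup.normalizer (U₂ : Set X) → ∀ x ∈ Q, ∀ y ∈ Q,
      x * x ≠ 1 → y * y ≠ 1 → x = y ∨ x = y⁻¹ := by
    intro Q hQ hQN x hx y hy hx2 hy2
    have hQU : IsPGroup 2 ↥(Q ⊔ U₂) := hQ.to_sup_of_normal_right' (h2 U₂ hU₂) hQN
    obtain ⟨P, hP⟩ := hQU.exists_le_sylow
    obtain ⟨a, ha⟩ := hconj P _ hP
    haveI := hU₂
    have hU' : IsKleinFour ↥(U₂.map (MulAut.conj a).toMonoidHom) := by
      let e := U₂.equivMapOfInjective (MulAut.conj a).toMonoidHom (MulAut.conj a).injective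
      exact ⟨(Nat.card_congr e.toEquiv).symm.trans IsKleinFour.card_four,
        (Monoid.exponent_eq_of_mulEquiv e).symm.trans IsKleinFour.exponent_two⟩
    obtain ⟨i, hi, hiz⟩ := klein_in hq f hf hU' (by
      rw [hrange]; rintro _ ⟨v, hv, rfl⟩; exact ha v (Subgroup.mem_sup_right hv))
    have four : ∀ w ∈ Q, w * w ≠ 1 → a * w * a⁻¹ = c ∨ a * w * a⁻¹ = c⁻¹ := by
      intro w hw hw2
      obtain ⟨d, hd⟩ : a * w * a⁻¹ ∈ f.range := hrange ▸ ha w (Subgroup.mem_sup_left hw)
      rcases d with t | t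
      · obtain ⟨u, hu, hue⟩ := hi
        have h1 : f (r t) * f (sr i) * (f (r t))⁻¹ ∈ U₂.map (MulAut.conj a).toMonoidHom := by
          refine ⟨w * u * w⁻¹, ((Subgroup.mem_normalizer_iff.1 (hQN hw)) u).1 hu, ?_⟩
          rw [hd, ← hue]
          simp [mul_assoc]
        rw [hrot] at h1
        have a1 : f (sr i) ≠ 1 := fun e => by
          have := hf (e.trans f.map_one.symm); rw [one_def] at this; nomatch this
        have a3 : f (sr i) ≠ f (r hh) := fun e => absurd (hf e) (by simp)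
        have hcases := mem_cases hU' ⟨u, hu, hue⟩ hiz a1 (hc2 ▸ hc21) a3 h1
        have ht : t + t = 0 ∨ t + t = hh := by
          rcases hcases with h | h | h | h
          · have := hf (h.trans f.map_one.symm); rw [one_def] at this; nomatch this
          · have := hf h; rw [sr.injEq] at this; exact Or.inl (by linear_combination -this)
          · exact absurd (hf h) (by simp)
          · rw [← map_mul, sr_mul_r] at h
            have := hf h; rw [sr.injEq] at this
            have hd2 := half_double (q := q)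
            exact Or.inr (by linear_combination -this - hd2)
        obtain ⟨j, hj, rfl⟩ := two_mul_cases hq t ht
        interval_cases j
        · exfalso; apply hw2
          have : a * w * a⁻¹ = 1 := by rw [← hd]; simp
          rw [show w = 1 by simpa using this, mul_one]
        · left; rw [← hd, hc, hcq, one_mul]
        · exfalso; apply hw2
          have : a * (w * w) * a⁻¹ = 1 := by
            rw [show a * (w * w) * a⁻¹ = (a * w * a⁻¹) * (a * w * a⁻¹) by group, ← hd, ← map_mul, r_mul_r,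
              half_double, r_zero, map_one]
          simpa using this
        · right
          rw [← hd, hc, ← map_inv, inv_r, hcq]
          congr 2
          rw [eq_neg_iff_add_eq_zero, ← Nat.cast_add, show 3 * q + q = 4 * q by ring, ZMod.natCast_self]
      · exfalso; apply hw2
        have : a * (w * w) * a⁻¹ = 1 := by
          rw [show a * (w * w) * a⁻¹ = (a * w * a⁻¹) * (a * w * a⁻¹) by group, ← hd, ← map_mul, sr_mul_self, map_one]
        simpa using this
    rcases four x hx hx2 with h | h <;> rcases four y hy hy2 with h' | h'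
    · exact Or.inl (mul_left_cancel (mul_right_cancel (h.trans h'.symm)))
    · refine Or.inr (mul_left_cancel (a := a) (mul_right_cancel (b := a⁻¹) ?_))
      rw [h, show a * y⁻¹ * a⁻¹ = (a * y * a⁻¹)⁻¹ by group, h', inv_inv]
    · refine Or.inr (mul_left_cancel (a := a) (mul_right_cancel (b := a⁻¹) ?_))
      rw [h, show a * y⁻¹ * a⁻¹ = (a * y * a⁻¹)⁻¹ by group, h']
    · exact Or.inl (mul_left_cancel (mul_right_cancel (h.trans h'.symm)))
  -- choose a conjugator normalising the cyclic group of order four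
  set N := Subgroup.normalizer (U₂ : Set X) with hN
  have hcN : c ∈ N := hnorm 1 U₂ hU₂ hU₂s hU₂z
  have hgcN : g * c * g⁻¹ ∈ N := by
    rw [hN, ← hg]
    refine Subgroup.le_normalizer_map _ ⟨c, hnorm 0 U₁ hU₁ hU₁s hU₁z, rfl⟩
  have hzp : ∀ y : X, y ∈ N → (∃ k : ℕ, y ^ 2 ^ k = 1) → ∀ hy : y ∈ N, IsPGroup 2 (Subgroup.zpowers (⟨y, hy⟩ : N)) := by
    rintro y - ⟨k, hk⟩ hy
    have : orderOf (⟨y, hy⟩ : N) ∣ 2 ^ k := orderOf_dvd_iff_pow_eq_one.2 (Subtype.ext hk)
    obtain ⟨l, -, hl⟩ := (Nat.dvd_prime_pow Nat.prime_two).1 this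
    exact IsPGroup.of_card (n := l) (by rw [Nat.card_zpowers, hl])
  have hc4 : c ^ 2 ^ 2 = 1 := by
    rw [hc, ← map_pow, r_pow, hcq, ← Nat.cast_mul, show q * 2 ^ 2 = 4 * q by ring, ZMod.natCast_self, r_zero, map_one]
  obtain ⟨Q1, hQ1⟩ := (hzp c hcN ⟨2, hc4⟩ hcN).exists_le_sylow
  obtain ⟨Q2, hQ2⟩ := (hzp _ hgcN ⟨2, by rw [conj_pow, hc4, mul_one, mul_inv_cancel]⟩ hgcN).exists_le_sylow
  obtain ⟨h, hh'⟩ := MulAction.exists_smul_eq N Q2 Q1
  have hQ : IsPGroup 2 ↥((Q1 : Subgroup N).map N.subtype) := Q1.2.map _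
  have m1 : c ∈ (Q1 : Subgroup N).map N.subtype := ⟨⟨c, hcN⟩, hQ1 (Subgroup.mem_zpowers _), rfl⟩
  have m2 : (h : X) * (g * c * g⁻¹) * (h : X)⁻¹ ∈ (Q1 : Subgroup N).map N.subtype := by
    refine ⟨h * ⟨_, hgcN⟩ * h⁻¹, ?_, rfl⟩
    rw [← hh']
    exact ⟨_, hQ2 (Subgroup.mem_zpowers _), rfl⟩
  set y : X := (h : X) * g with hy
  have hym : y * c * y⁻¹ = c ∨ y * c * y⁻¹ = c⁻¹ := by
    rw [show y * c * y⁻¹ = (h : X) * (g * c * g⁻¹) * (h : X)⁻¹ by rw [hy]; group]
    refine key _ hQ (by rintro _ ⟨v, -, rfl⟩; exact v.2) _ m2 _ m1 (fun e => hc21 ?_) hc21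
    have e2 : ((h : X) * g) * (c * c) * ((h : X) * g)⁻¹ = 1 := by rw [← e]; group
    simpa using mul_inv_eq_one.1 e2
  have hyU : U₁.map (MulAut.conj y).toMonoidHom = U₂ := by
    have hmap := Subgroup.mem_normalizer_iff_map_conj_eq.1 h.2
    conv_rhs => rw [← hmap, ← hg, Subgroup.map_map]
    congr 1
    ext v
    simp [hy, mul_assoc]
  -- the centraliser of c
  set C := Subgroup.centralizer ({c} : Set X) with hC
  have hmemC : ∀ v, v ∈ C ↔ v * c = c * v := fun v => Subgroup.mem_centralizer_singleton_iff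
  have hcc : c⁻¹ ≠ c := fun e => hc21 (by nth_rewrite 1 [← e]; exact inv_mul_cancel c)
  have hS_rot : ∀ d, f d ∈ C → ∃ t, d = r t := by
    intro d hd
    rcases d with t | t
    · exact ⟨t, rfl⟩
    · exfalso
      rw [hmemC, hc, ← map_mul, ← map_mul, sr_mul_r, r_mul_sr] at hd
      have := hf hd
      rw [sr.injEq] at this
      apply hc21
      rw [hc, ← map_mul, r_mul_r, show cq + cq = 0 by linear_combination this, r_zero, map_one]
  have hsr0 : f (sr 0) * c * (f (sr 0))⁻¹ = c⁻¹ := by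
    rw [hc, ← map_inv, ← map_mul, ← map_mul, ← map_inv, inv_sr, inv_r, sr_mul_r, sr_mul_sr]
    congr 2; ring
  let R : Subgroup X := (S : Subgroup X) ⊓ C
  obtain ⟨P, hP⟩ := (IsPGroup.comap_of_injective (S.2.to_le (inf_le_left : R ≤ _)) C.subtype Subtype.val_injective).exists_le_sylow
  have hPR : (P : Subgroup C).map C.subtype = R ∧ IsCyclic ↥(P : Subgroup C) := by
    have hP2 : IsPGroup 2 ↥((P : Subgroup C).map C.subtype) := P.2.map _
    have hRle : R ≤ (P : Subgroup C).map C.subtype := fun v hv => ⟨⟨v, hv.2⟩, hP (show v ∈ R from hv), rfl⟩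
    obtain ⟨P', hP'⟩ := hP2.exists_le_sylow
    obtain ⟨a, ha⟩ := hconj P' _ hP'
    obtain ⟨d, hd⟩ : a * c * a⁻¹ ∈ f.range := hrange ▸ ha c (hRle ⟨hccn, (hmemC c).2 rfl⟩)
    have hne2 : d * d ≠ 1 := fun e => hc21 (by
      have h1 := congrArg f e
      rw [map_mul, hd, map_one] at h1
      have : a * (c * c) * a⁻¹ = 1 := by rw [← h1]; group
      simpa using this)
    obtain ⟨t, rfl⟩ : ∃ t, d = r t := by
      rcases d with t | t
      · exact ⟨t, rfl⟩
      · exact absurd (sr_mul_self t) hne2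
    have hall : ∀ v ∈ (P : Subgroup C).map C.subtype, ∃ s, a * v * a⁻¹ = f (r s) := by
      intro v hv
      obtain ⟨e, he⟩ : a * v * a⁻¹ ∈ f.range := hrange ▸ ha v hv
      rcases e with s | s
      · exact ⟨s, he.symm⟩
      · exfalso
        apply hne2
        obtain ⟨v', hv', rfl⟩ := hv
        have h1 : f (sr s * r t) = f (r t * sr s) := by
          rw [map_mul, map_mul, he, hd]
          have := (hmemC _).1 v'.2
          calc a * (v' : X) * a⁻¹ * (a * c * a⁻¹) = a * ((v' : X) * c) * a⁻¹ := by group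
            _ = a * (c * (v' : X)) * a⁻¹ := by rw [this]
            _ = a * c * a⁻¹ * (a * (v' : X) * a⁻¹) := by group
        have := hf h1
        rw [sr_mul_r, r_mul_sr, sr.injEq] at this
        rw [r_mul_r, show t + t = 0 by linear_combination this, r_zero]
    refine ⟨le_antisymm ?_ hRle, ?_⟩
    · intro v hv
      obtain ⟨v', hv', rfl⟩ := hv
      -- compare cardinalities
      have hcardle : Nat.card ↥((P : Subgroup C).map C.subtype) ≤ Nat.card R := by
        refine Nat.card_le_card_of_injective (fun w => (⟨a * w.1 * a⁻¹, ?_⟩ : R)) ?_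
        · obtain ⟨s, hs⟩ := hall w.1 w.2
          rw [hs]
          refine ⟨hrange ▸ ⟨_, rfl⟩, (hmemC _).2 ?_⟩
          rw [hc, ← map_mul, ← map_mul, r_mul_r, r_mul_r, add_comm]
        · intro w w' e
          exact Subtype.ext (mul_left_cancel (mul_right_cancel (congrArg Subtype.val e :)))
      rw [Subgroup.eq_of_le_of_card_ge hRle hcardle]
      exact ⟨v', hv', rfl⟩
    · let e : ↥(P : Subgroup C) →* X := (MulAut.conj a).toMonoidHom.comp (C.subtype.comp (P : Subgroup C).subtype)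
      have hrg : e.range ≤ Subgroup.zpowers (f (r 1)) := by
        rintro _ ⟨v, rfl⟩
        obtain ⟨s, hs⟩ := hall _ ⟨v.1, v.2, rfl⟩
        refine ⟨(s.val : ℤ), ?_⟩
        show f (r 1) ^ (s.val : ℤ) = a * ((v : C) : X) * a⁻¹
        rw [zpow_natCast, ← map_pow, r_one_pow, ZMod.natCast_rightInverse s]
        exact hs.symm
      haveI : IsCyclic ↥e.range := isCyclic_of_injective (Subgroup.inclusion hrg) (Subgroup.inclusion_injective hrg)
      exact isCyclic_of_injective e.rangeRestrict (fun v w hvw => by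
        have := congrArg Subtype.val hvw
        exact Subtype.ext (Subtype.ext ((MulAut.conj a).injective this)))
  have hNC : Subgroup.normalizer ((P : Subgroup C) : Set C) ≤ Subgroup.centralizer ((P : Subgroup C) : Set C) := by
    haveI := hPR.2
    refine IsCyclic.normalizer_le_centralizer ?_ hPR.2
    refine ((Nat.minFac_eq_two_iff _).2 ?_)
    have : orderOf (⟨c, (hmemC c).2 rfl⟩ : C) ∣ Nat.card C := orderOf_dvd_natCard _
    refine dvd_trans ?_ this
    have h4 : orderOf (⟨c, (hmemC c).2 rfl⟩ : C) = 2 ^ (1 + 1) := orderOf_eq_prime_pow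
      (fun e => hc21 (by have := congrArg Subtype.val e; simpa [pow_two] using this))
      (Subtype.ext (by simpa using hc4))
    rw [h4]; norm_num
  set K := (MonoidHom.transferSylow P hNC).ker with hK
  have hKP := MonoidHom.ker_transferSylow_isComplement' P hNC
  have hKodd : ∀ k : C, k ∈ K ↔ ¬ 2 ∣ orderOf k := by
    intro k
    constructor
    · intro hk hd
      have := MonoidHom.not_dvd_card_ker_transferSylow P hNC
      exact this (hd.trans (Subgroup.orderOf_mk k hk ▸ orderOf_dvd_natCard (⟨k, hk⟩ : K)))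
    · intro hk
      rw [hK, MonoidHom.mem_ker, ← orderOf_eq_one_iff]
      obtain ⟨l, hl⟩ := P.2.exists_card_eq
      have hcop : Nat.Coprime (Nat.card ↥(P : Subgroup C)) (orderOf k) := by
        rw [hl]; exact Nat.Coprime.pow_left _ ((Nat.prime_two.coprime_iff_not_dvd).2 hk)
      exact Nat.eq_one_of_dvd_coprimes hcop (orderOf_dvd_natCard _) (orderOf_map_dvd _ k)
  have hdec : ∀ v ∈ C, ∃ k : C, k ∈ K ∧ ∃ s ∈ R, v = (k : X) * s := by
    intro v hv
    obtain ⟨⟨k, p⟩, e⟩ := hKP.2 ⟨v, hv⟩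
    exact ⟨k, k.2, (p : C), hPR.1 ▸ ⟨_, p.2, rfl⟩, (congrArg Subtype.val e :).symm⟩
  obtain ⟨k, hkK, s, hsS, hks⟩ : ∃ k : C, k ∈ K ∧ ∃ s ∈ (S : Subgroup X), y = (k : X) * s := by
    rcases hym with e | e
    · obtain ⟨k, hk, s, hs, e'⟩ := hdec y ((hmemC y).2 (mul_inv_eq_iff_eq_mul.1 e))
      exact ⟨k, hk, s, hs.1, e'⟩
    · have hv : y * f (sr 0) ∈ C := by
        rw [hmemC]
        rw [← mul_inv_eq_iff_eq_mul, mul_inv_rev,
          show y * f (sr 0) * c * ((f (sr 0))⁻¹ * y⁻¹) = y * (f (sr 0) * c * (f (sr 0))⁻¹) * y⁻¹ by group, hsr0,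
          show y * c⁻¹ * y⁻¹ = (y * c * y⁻¹)⁻¹ by group, e, inv_inv]
      obtain ⟨k, hk, s, hs, e'⟩ := hdec _ hv
      refine ⟨k, hk, s * (f (sr 0))⁻¹, (S : Subgroup X).mul_mem hs.1 ((S : Subgroup X).inv_mem (hrange ▸ ⟨_, rfl⟩)), ?_⟩
      rw [← mul_assoc, ← e', mul_inv_cancel_right]
  obtain ⟨d, rfl⟩ : s ∈ f.range := hrange ▸ hsS
  -- k centralises the conjugate of U₁
  have hfix : ∀ u ∈ U₁, (k : X) * (f d * u * (f d)⁻¹) * (k : X)⁻¹ = f d * u * (f d)⁻¹ := by
    intro u hu
    set v := f d * u * (f d)⁻¹ with hv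
    have hvS : v ∈ (S : Subgroup X) := by
      obtain ⟨du, rfl⟩ := hU₁S hu
      rw [hv, ← map_inv, ← map_mul, ← map_mul, ← hrange]; exact ⟨_, rfl⟩
    have hkvS : (k : X) * v * (k : X)⁻¹ ∈ (S : Subgroup X) := by
      have : y * u * y⁻¹ ∈ U₂ := hyU ▸ ⟨u, hu, rfl⟩
      rw [← hrange]
      refine hU₂S ?_
      rw [hks] at this
      convert this using 1
      rw [hv]; group
    have hvnorm : v * c * v⁻¹ = c ∨ v * c * v⁻¹ = c⁻¹ := by
      obtain ⟨e, he⟩ : v ∈ f.range := hrange ▸ hvS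
      rw [← he]
      rcases e with t | t
      · left; rw [hc, ← map_inv, ← map_mul, ← map_mul, inv_r, r_mul_r, r_mul_r]; congr 2; ring
      · right; rw [hc, ← map_inv, ← map_mul, ← map_mul, ← map_inv, inv_sr, inv_r, sr_mul_r, sr_mul_sr]; congr 2; ring
    have hkC : v * (k : X)⁻¹ * v⁻¹ ∈ C := by
      have hk' := (hmemC _).1 (C.inv_mem k.2)
      rw [hmemC]
      have : ∀ c', (k : X)⁻¹ * c' = c' * (k : X)⁻¹ → v * (k : X)⁻¹ * v⁻¹ * (v * c' * v⁻¹) = v * c' * v⁻¹ * (v * (k : X)⁻¹ * v⁻¹) :=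
        fun c' h' => by
          calc v * (k : X)⁻¹ * v⁻¹ * (v * c' * v⁻¹) = v * ((k : X)⁻¹ * c') * v⁻¹ := by group
            _ = v * (c' * (k : X)⁻¹) * v⁻¹ := by rw [h']
            _ = _ := by group
      rcases hvnorm with e | e
      · have := this c hk'; rwa [e] at this
      · have := this c⁻¹ (Commute.inv_right hk')
        rwa [show v * c⁻¹ * v⁻¹ = (v * c * v⁻¹)⁻¹ by group, e, inv_inv] at this
    have hkK' : (⟨_, hkC⟩ : C) ∈ K := by
      rw [hKodd]
      have h1 := (hKodd k).1 hkK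
      rwa [← Subgroup.orderOf_coe, show ((⟨_, hkC⟩ : C) : X) = MulAut.conj v (k : X)⁻¹ from rfl, MulEquiv.orderOf_eq,
        orderOf_inv, Subgroup.orderOf_coe]
    have hx : (k * ⟨_, hkC⟩ : C) ∈ K := K.mul_mem hkK hkK'
    have hxS : ((k * ⟨_, hkC⟩ : C) : X) ∈ (S : Subgroup X) := by
      show (k : X) * (v * (k : X)⁻¹ * v⁻¹) ∈ (S : Subgroup X)
      rw [show (k : X) * (v * (k : X)⁻¹ * v⁻¹) = ((k : X) * v * (k : X)⁻¹) * v⁻¹ by group]
      exact (S : Subgroup X).mul_mem hkvS ((S : Subgroup X).inv_mem hvS)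
    have hone : orderOf ((k * ⟨_, hkC⟩ : C) : X) = 1 := by
      obtain ⟨l, hl⟩ := S.2 ⟨_, hxS⟩
      obtain ⟨j, -, hj⟩ := (Nat.dvd_prime_pow Nat.prime_two).1 (orderOf_dvd_iff_pow_eq_one.2 (congrArg Subtype.val hl :))
      simp only [SubmonoidClass.coe_pow] at hj
      have := (hKodd _).1 hx
      rw [← Subgroup.orderOf_coe, hj] at this
      rcases j with _ | j
      · simpa using hj
      · exact absurd (dvd_pow_self 2 (Nat.succ_ne_zero j)) this
    rw [orderOf_eq_one_iff] at hone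
    have h2' : (k : X) * (v * (k : X)⁻¹ * v⁻¹) = 1 := hone
    calc (k : X) * v * (k : X)⁻¹ = (k : X) * (v * (k : X)⁻¹ * v⁻¹) * v := by group
      _ = v := by rw [h2', one_mul]
  -- so a 2-element conjugates U₁ to U₂: parity
  have hmem : f d * f (sr 0) * (f d)⁻¹ ∈ U₂ := by
    have h1 := hfix _ hU₁s
    rw [← h1, ← hyU]
    refine ⟨_, hU₁s, ?_⟩
    show y * f (sr 0) * y⁻¹ = _
    rw [hks]; group
  have hdiv : 2 ∣ 4 * q := ⟨2 * q, by ring⟩
  let π := ZMod.castHom hdiv (ZMod 2)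
  have hπh : π hh = 0 := by
    rw [hhh, map_natCast]; exact (ZMod.natCast_eq_zero_iff _ _).2 ⟨q, rfl⟩
  have hπ1 : π (1 : ZMod (4 * q)) = 1 := map_one π
  have hev : ∀ t : ZMod (4 * q), π (t + t) = 0 := fun t => by rw [map_add]; exact ZModModule.add_self _
  obtain ⟨j, hj, hj2⟩ : ∃ j, f (sr j) ∈ U₂ ∧ π j = 0 := by
    rcases d with t | t
    · exact ⟨0 - (t + t), hrot t 0 ▸ hmem, by rw [map_sub, map_zero, hev, sub_zero]⟩
    · refine ⟨t + t, ?_, hev t⟩
      rw [← map_inv, ← map_mul, ← map_mul, inv_sr, sr_mul_sr, r_mul_sr] at hmem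
      convert hmem using 3; ring
  have a1 : f (sr (1 : ZMod (4 * q))) ≠ 1 := fun e => by
    have := hf (e.trans f.map_one.symm); rw [one_def] at this; nomatch this
  have a3 : f (sr (1 : ZMod (4 * q))) ≠ f (r hh) := fun e => absurd (hf e) (by simp)
  rcases mem_cases hU₂ hU₂s hU₂z a1 (hc2 ▸ hc21) a3 hj with e | e | e | e
  · have := hf (e.trans f.map_one.symm); rw [one_def] at this; nomatch this
  · have := hf e; rw [sr.injEq] at this; rw [this, hπ1] at hj2; exact one_ne_zero hj2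
  · exact absurd (hf e) (by simp)
  · rw [← map_mul, sr_mul_r] at e
    have := hf e; rw [sr.injEq] at this; rw [this, map_add, hπ1, hπh, add_zero] at hj2; exact one_ne_zero hj2

end Cfsg.Agent.S1256
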