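import Cfsg.Statements.S1266
import Cfsg.Agent.Lib.PComponents2

set_option autoImplicit false
open Cfsg

namespace Cfsg.Agent.S1266
open CfsgLib.Components
open scoped commutatorElement

/-- Let P be a p-subgroup of the finite group G and N = N_G(P). Then the preimage in N of E(N / O_{p'}(N)) centralizes O_p(G). -/
theorem result {G : Type*} [Group G] [Finite G] (p : ℕ) [Fact p.Prime] (P : Subgroup G) (hP : IsPGroup p ↥P) : (((Cfsg.layer (↥(Subgroup.normalizer ((P : Subgroup G) : Set G)) ⧸ Cfsg.pPrimeCore p ↥(Subgroup.normalizer ((P : Subgroup G) : Set G)))).comap (QuotientGroup.mk' (Cfsg.pPrimeCore p ↥(Subgroup.normalizer ((P : Subgroup G) : Set G))))).map (Subgroup.normalizer ((P : Subgroup G) : Set G)).subtype) ≤ Subgroup.centralizer (Cfsg.pCore p G : Set G) := by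
  haveI := CfsgLib.Core.pCore_characteristic (G := G) p
  set D := Cfsg.pCore p G with hDdef
  set N := Subgroup.normalizer ((P : Subgroup G) : Set G) with hN
  set f := QuotientGroup.mk' (Cfsg.pPrimeCore p ↥N) with hf
  set W := (Cfsg.layer (↥N ⧸ Cfsg.pPrimeCore p ↥N)).comap f with hW
  have hDp : IsPGroup p ↥D := CfsgLib.Core.isPGroup_pCore p
  have hsol : ∀ R : Subgroup ↥N, R.Normal → IsPGroup p ↥R → ⁅W, R⁆ = ⊥ := by
    intro R hR hRp
    haveI := hR
    haveI : Group.IsNilpotent ↥(R.map f) := (hRp.map f).isNilpotent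
    haveI : Group.IsSolvable ↥(R.map f) := inferInstance
    haveI : (R.map f).Normal := hR.map f (QuotientGroup.mk'_surjective _)
    have h1 : ⁅W, R⁆.map f = ⊥ := by
      rw [Subgroup.map_commutator, Subgroup.map_comap_eq_self_of_surjective (QuotientGroup.mk'_surjective _)]
      exact CfsgLib.GenFitting.layer_comm_solvable inferInstance
    rw [Subgroup.map_eq_bot_iff, QuotientGroup.ker_mk'] at h1
    exact le_bot_iff.mp ((le_inf (Subgroup.commutator_le_right W R) h1).trans
      (CfsgLib.PConstrained.inf_eq_bot_of_coprime hRp (CfsgLib.Core.card_pPrimeCore_coprime p)).le)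
  set W' := W.map N.subtype with hW'
  have hcomm : ∀ R : Subgroup G, IsPGroup p ↥R → (R.subgroupOf N).Normal → ∀ x ∈ W', ∀ q ∈ R, q ∈ N → x * q = q * x := by
    rintro R hR hRn _ ⟨w, hw, rfl⟩ q hq hqN
    exact (congrArg Subtype.val (Subgroup.commutator_eq_bot_iff_le_centralizer.mp (hsol _ hRn hR.comap_subtype) hw ⟨q, hqN⟩
      (Subgroup.mem_subgroupOf.mpr hq))).symm
  have hcP := hcomm P hP inferInstance
  have hcD := hcomm D hDp inferInstance
  have hmem : ∀ x ∈ W', (orderOf x).Coprime p → x ∈ Subgroup.centralizer (D : Set G) := fun x hx hxo q hq =>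
    (CfsgLib.GenFitting.thompson_pq hP hDp (by rw [Subgroup.normalizer_eq_top]; exact le_top) hxo
      (fun y hy => hcP x hx y hy (Subgroup.le_normalizer hy)) (by rw [Subgroup.normalizer_eq_top]; trivial)
      (fun y hy => hcD x hx y hy.1 (Subgroup.centralizer_le_normalizer _ hy.2)) q hq).symm
  refine le_trans (CfsgLib.PComponents.le_of_coprime_mem (p := p) (H := W' ⊓ Subgroup.centralizer (D : Set G))
    inf_le_left ?_ (fun x hx hxo => ⟨hx, hmem x hx hxo⟩) ?_) inf_le_right
  · exact (le_inf Subgroup.le_normalizer (CfsgLib.LocalBasic.normalizer_centralizer_ge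
      (show W' ≤ Subgroup.normalizer (D : Set G) by rw [Subgroup.normalizer_eq_top]; exact le_top))).trans
      (CfsgLib.LocalBasic.normalizer_inf_ge inf_le_left inf_le_right)
  · have h1 : W ≤ ⁅W, W⁆ ⊔ Cfsg.pPrimeCore p ↥N := by
      rw [← QuotientGroup.ker_mk' (Cfsg.pPrimeCore p ↥N), ← Subgroup.comap_map_eq, Subgroup.map_commutator,
        Subgroup.map_comap_eq_self_of_surjective (QuotientGroup.mk'_surjective _), layer_perfect]
    refine (Subgroup.map_mono h1).trans ?_
    rw [Subgroup.map_sup, Subgroup.map_commutator]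
    refine sup_le_sup_left ?_ _
    rintro _ ⟨o, ho, rfl⟩
    have hoW : o ∈ W := by
      show f o ∈ Cfsg.layer _
      rw [show f o = 1 from (QuotientGroup.eq_one_iff o).mpr ho]
      exact one_mem _
    refine ⟨⟨o, hoW, rfl⟩, hmem _ ⟨o, hoW, rfl⟩ ?_⟩
    exact (CfsgLib.Core.card_pPrimeCore_coprime (G := ↥N) p).coprime_dvd_left
      ((orderOf_injective N.subtype N.subtype_injective o).symm ▸ Subgroup.orderOf_dvd_natCard _ ho)

end Cfsg.Agent.S1266
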