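import Cfsg.Statements.S1267
import Cfsg.Agent.Lib.PComponents2

set_option autoImplicit false
open Cfsg

namespace Cfsg.Agent.S1267
open CfsgLib.Components

/-- Let G be finite and P ≤ O_p(G). Then E(N_G(P)) = E(G). -/
theorem result {G : Type*} [Group G] [Finite G] (p : ℕ) [Fact p.Prime] (P : Subgroup G) (hP : P ≤ Cfsg.pCore p G) : (Cfsg.layer ↥(Subgroup.normalizer ((P : Subgroup G) : Set G))).map (Subgroup.normalizer ((P : Subgroup G) : Set G)).subtype = Cfsg.layer G := by
  haveI := CfsgLib.Core.pCore_characteristic (G := G) p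
  set Q := Cfsg.pCore p G with hQdef
  set N := Subgroup.normalizer ((P : Subgroup G) : Set G) with hN
  have hQp : IsPGroup p ↥Q := CfsgLib.Core.isPGroup_pCore p
  have hPp : IsPGroup p ↥P := hQp.to_le hP
  haveI : Group.IsNilpotent ↥Q := hQp.isNilpotent
  haveI : Group.IsSolvable ↥Q := inferInstance
  have hCn : (Subgroup.centralizer (Q : Set G)).Normal := Subgroup.normalizer_eq_top_iff.mp (eq_top_iff.mpr
    ((Subgroup.normalizer_eq_top Q).ge.trans (CfsgLib.LocalBasic.normalizer_centralizer_ge le_rfl)))
  have hCN : Subgroup.centralizer (Q : Set G) ≤ N :=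
    (Subgroup.centralizer_le (SetLike.coe_subset_coe.mpr hP)).trans (Subgroup.centralizer_le_normalizer _)
  refine le_antisymm (Subgroup.map_le_iff_le_comap.mpr (sSup_le fun L hL => Subgroup.map_le_iff_le_comap.mp ?_))
    (sSup_le fun L hL => ?_)
  · set L' := L.map N.subtype with hL'
    have hL'N : L' ≤ N := Subgroup.map_subtype_le _
    have hperf : ⁅L', L'⁆ = L' := by rw [hL', ← Subgroup.map_commutator, component_perfect hL]
    have hQN : ⁅L, Q.subgroupOf N⁆ = ⊥ := component_commutator_solvable hL
      (by
        haveI : Group.IsNilpotent ↥(Q.subgroupOf N) := (hQp.comap_subtype (H := Q) (K := N)).isNilpotent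
        infer_instance)
      (by rw [Subgroup.normalizer_eq_top]; exact le_top)
    have hcq : ∀ x ∈ L', ∀ q ∈ Q ⊓ N, x * q = q * x := by
      rintro _ ⟨l, hl, rfl⟩ q hq
      exact (congrArg Subtype.val (Subgroup.commutator_eq_bot_iff_le_centralizer.mp hQN hl ⟨q, hq.2⟩
        (Subgroup.mem_subgroupOf.mpr hq.1))).symm
    have hL'C : L' ≤ Subgroup.centralizer (Q : Set G) := by
      refine le_trans (CfsgLib.PComponents.le_of_coprime_mem (p := p) (H := L' ⊓ Subgroup.centralizer (Q : Set G))
        inf_le_left ?_ ?_ ?_) inf_le_right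
      · exact (le_inf Subgroup.le_normalizer (CfsgLib.LocalBasic.normalizer_centralizer_ge
          (show L' ≤ Subgroup.normalizer (Q : Set G) by rw [Subgroup.normalizer_eq_top]; exact le_top))).trans
          (CfsgLib.LocalBasic.normalizer_inf_ge inf_le_left inf_le_right)
      · intro x hx hxo
        refine ⟨hx, fun q hq => (CfsgLib.GenFitting.thompson_pq hPp hQp
          (by rw [Subgroup.normalizer_eq_top]; exact le_top) hxo
          (fun y hy => hcq x hx y ⟨hP hy, Subgroup.le_normalizer hy⟩) (by rw [Subgroup.normalizer_eq_top]; trivial)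
          (fun y hy => hcq x hx y ⟨hy.1, Subgroup.centralizer_le_normalizer _ hy.2⟩) q hq).symm⟩
      · rw [hperf]; exact le_sup_left
    have hsub : L'.IsSubnormal := by
      have h1 : (L'.subgroupOf (Subgroup.centralizer (Q : Set G))).IsSubnormal := by
        have h2 := hL.1.comap (Subgroup.inclusion hCN)
        convert h2 using 1
        ext x
        constructor
        · rintro ⟨l, hl, he⟩
          have he' : l = Subgroup.inclusion hCN x := Subtype.ext he
          show Subgroup.inclusion hCN x ∈ L
          rw [← he']; exact hl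
        · exact fun hx => ⟨_, hx, rfl⟩
      exact h1.trans hL'C hCn.isSubnormal
    exact component_le_layer ⟨hsub, CfsgLib.Layer2.isQuasisimple_of_equiv
      (Subgroup.equivMapOfInjective L N.subtype N.subtype_injective) hL.2⟩
  · have hLQ : ⁅L, Q⁆ = ⊥ := component_commutator_solvable hL inferInstance
      (by rw [Subgroup.normalizer_eq_top]; exact le_top)
    have hLN : L ≤ N := (Subgroup.commutator_eq_bot_iff_le_centralizer.mp hLQ).trans hCN
    calc L = (L.subgroupOf N).map N.subtype := (subgroupOf_map hLN).symm
      _ ≤ _ := Subgroup.map_mono (component_le_layer (component_subgroupOf hL hLN))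

end Cfsg.Agent.S1267
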