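import Cfsg.Statements.S1269
import Cfsg.Agent.Lib.CoreCentralizer
import Cfsg.Agent.S1266

set_option autoImplicit false
open Cfsg

namespace Cfsg.Agent.S1269
open CfsgLib.Components CfsgLib.PComponents CfsgLib.LocalBasic CfsgLib.CoreCentralizer CfsgLib.PIrr
open scoped commutatorElement


/-- Let G be finite with O_{p'}(G) = 1, P a p-subgroup, N = N_G(P), and x an element of the preimage in N of E(N / O_{p'}(N)). Then x normalizes every component L of G. -/
theorem result {G : Type*} [Group G] [Finite G] (p : ℕ) [Fact p.Prime] (hO : Cfsg.pPrimeCore p G = ⊥) (P : Subgroup G) (hP : IsPGroup p ↥P) (L : Subgroup G) (hL : Cfsg.IsComponent L) (x : G) (hx : x ∈ (((Cfsg.layer (↥(Subgroup.normalizer ((P : Subgroup G) : Set G)) ⧸ Cfsg.pPrimeCore p ↥(Subgroup.normalizer ((P : Subgroup G) : Set G)))).comap (QuotientGroup.mk' (Cfsg.pPrimeCore p ↥(Subgroup.normalizer ((P : Subgroup G) : Set G))))).map (Subgroup.normalizer ((P : Subgroup G) : Set G)).subtype)) : L.map (MulAut.conj x).toMonoidHom = L := by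
  haveI := CfsgLib.Core.pCore_characteristic (G := G) p
  set N := Subgroup.normalizer ((P : Subgroup G) : Set G) with hN
  set q := QuotientGroup.mk' (Cfsg.pPrimeCore p ↥N) with hq
  set W := (Cfsg.layer (↥N ⧸ Cfsg.pPrimeCore p ↥N)).comap q with hW
  set D := coreOf p (Subgroup.centralizer (P : Set G)) with hD
  have hD'cop : (Nat.card ↥(Cfsg.pPrimeCore p ↥N)).Coprime p := CfsgLib.Core.card_pPrimeCore_coprime p
  haveI : ((P.subgroupOf N)).Normal := inferInstance
  -- the layer preimage centralizes `P`
  have hWP : W.map N.subtype ≤ Subgroup.centralizer (P : Set G) := by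
    have h1 : ⁅W, P.subgroupOf N⁆ = ⊥ := by
      haveI : Group.IsNilpotent ↥((P.subgroupOf N).map q) := ((hP.comap_subtype (H := P) (K := N)).map q).isNilpotent
      haveI : ((P.subgroupOf N).map q).Normal := Subgroup.Normal.map inferInstance q (QuotientGroup.mk'_surjective _)
      have h2 : ⁅W, P.subgroupOf N⁆.map q = ⊥ := by
        rw [Subgroup.map_commutator, Subgroup.map_comap_eq_self_of_surjective (QuotientGroup.mk'_surjective _)]
        exact CfsgLib.GenFitting.layer_comm_solvable inferInstance
      rw [Subgroup.map_eq_bot_iff, QuotientGroup.ker_mk'] at h2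
      exact le_bot_iff.mp ((le_inf (Subgroup.commutator_le_right W _) h2).trans
        (CfsgLib.PConstrained.inf_eq_bot_of_coprime (hP.comap_subtype (H := P) (K := N)) hD'cop).le)
    rintro _ ⟨w, hw, rfl⟩ u hu
    exact congrArg Subtype.val (Subgroup.commutator_eq_bot_iff_le_centralizer.mp h1 hw ⟨u, Subgroup.le_normalizer hu⟩
      (Subgroup.mem_subgroupOf.mpr hu))
  have hWQ := Cfsg.Agent.S1266.result p P hP
  have hWC1 : W.map N.subtype ≤ C1 p P := le_inf hWP hWQ
  have hOD : (Cfsg.pPrimeCore p ↥N).map N.subtype = D := by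
    refine le_antisymm ?_ ?_
    · refine le_coreOf (le_trans (Subgroup.map_mono ?_) hWP) ?_ (coreOf_coprime N)
      · intro o ho
        show q o ∈ Cfsg.layer _
        rw [show q o = 1 from (QuotientGroup.eq_one_iff o).mpr ho]; exact one_mem _
      · exact (Subgroup.centralizer_le_normalizer _).trans (Subgroup.le_normalizer.trans (normalizer_le_coreOf N))
    · exact le_coreOf ((Subgroup.map_subtype_le _).trans (Subgroup.centralizer_le_normalizer _))
        ((normalizer_centralizer_ge le_rfl).trans (normalizer_le_coreOf _)) (coreOf_coprime _)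
  -- the kernel of the action on orbits and on components
  let K : Subgroup G := ⨅ M : {M : Subgroup G // Cfsg.IsComponent M}, Subgroup.normalizer ((M : Subgroup G) : Set G)
  have hKn : K.Normal := by
    refine ⟨fun k hk g => Subgroup.mem_iInf.mpr fun M => ?_⟩
    have h := Subgroup.mem_iInf.mp hk ⟨_, component_map_conj M.2 g⁻¹⟩
    refine mem_normalizer_of_conj_map_eq ?_
    have h2 := congrArg (Subgroup.map (MulAut.conj g).toMonoidHom) (conj_map_eq_of_mem_normalizer h)
    rw [Subgroup.map_map, Subgroup.map_map, Subgroup.map_map] at h2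
    refine Eq.trans ?_ (h2.trans ?_)
    · congr 1; ext y
      show g * k * g⁻¹ * y * (g * k * g⁻¹)⁻¹ = g * (k * (g⁻¹ * y * g⁻¹⁻¹) * k⁻¹) * g⁻¹
      group
    · conv_rhs => rw [← Subgroup.map_id (M : Subgroup G)]
      congr 1; ext y
      show g * (g⁻¹ * y * g⁻¹⁻¹) * g⁻¹ = y
      group
  -- orbit-preserving elements
  let R : Subgroup G :=
    { carrier := {v | v ∈ N ∧ ∀ M, Cfsg.IsComponent M → ∃ u ∈ P, M.map (MulAut.conj v).toMonoidHom = M.map (MulAut.conj u).toMonoidHom}
      mul_mem' := by
        rintro a b ⟨ha, hA⟩ ⟨hb, hB⟩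
        refine ⟨mul_mem ha hb, fun M hM => ?_⟩
        obtain ⟨u, hu, he⟩ := hB M hM
        obtain ⟨u', hu', he'⟩ := hA _ (component_map_conj hM u)
        refine ⟨u' * u, P.mul_mem hu' hu, ?_⟩
        rw [map_mul, map_mul,
          show (M.map (MulAut.conj a * MulAut.conj b).toMonoidHom) = (M.map (MulAut.conj b).toMonoidHom).map (MulAut.conj a).toMonoidHom by
            rw [Subgroup.map_map]; rfl,
          he, he', Subgroup.map_map]
        rfl
      one_mem' := ⟨one_mem _, fun M _ => ⟨1, P.one_mem, rfl⟩⟩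
      inv_mem' := by
        rintro a ⟨ha, hA⟩
        refine ⟨inv_mem ha, fun M hM => ?_⟩
        obtain ⟨u, hu, he⟩ := hA _ (component_map_conj hM a⁻¹)
        refine ⟨u⁻¹, P.inv_mem hu, ?_⟩
        have hM' : M = (M.map (MulAut.conj a⁻¹).toMonoidHom).map (MulAut.conj u).toMonoidHom := by
          refine Eq.trans ?_ he
          rw [Subgroup.map_map]
          conv_lhs => rw [← Subgroup.map_id M]
          congr 1; ext y
          show y = a * (a⁻¹ * y * a⁻¹⁻¹) * a⁻¹
          group
        conv_rhs => rw [hM']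
        rw [Subgroup.map_map, Subgroup.map_map]
        congr 1; ext y
        show a⁻¹ * y * a⁻¹⁻¹ = u⁻¹ * (u * (a⁻¹ * y * a⁻¹⁻¹) * u⁻¹) * u⁻¹⁻¹
        group }
  have hDR : D ≤ R := fun v hv =>
    ⟨Subgroup.centralizer_le_normalizer _ (Subgroup.map_subtype_le _ hv), fun M hM => core_maps_into_orbit hP hO hM hv⟩
  have hlayerR : N ⊓ Cfsg.layer G ≤ R := fun v hv => ⟨hv.1, fun M hM => ⟨1, P.one_mem, by
    rw [map_one]
    refine Eq.trans ?_ (Subgroup.map_id M).symm
    refine conj_map_eq_of_mem_normalizer ((?_ : Cfsg.layer G ≤ Subgroup.normalizer (M : Set G)) hv.2)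
    refine sSup_le fun J hJ => ?_
    by_cases h : J = M
    · exact h ▸ Subgroup.le_normalizer
    · exact (Subgroup.commutator_eq_bot_iff_le_centralizer.mp (component_comm hJ hM h)).trans
        (Subgroup.centralizer_le_normalizer _)⟩⟩
  have hWR : W.map N.subtype ≤ R := by
    have hcase : ∀ Kb, Cfsg.IsComponent Kb → (Kb.comap q).map N.subtype ≤ R := by
      intro Kb hKb
      set J := (Kb.comap q).map N.subtype with hJ
      have hJW : J ≤ W.map N.subtype := Subgroup.map_mono (Subgroup.comap_mono (component_le_layer hKb))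
      set C0 := C1 p P
      have hC0N : C0 ≤ N := (inf_le_left : C0 ≤ _).trans (Subgroup.centralizer_le_normalizer _)
      set V := Cfsg.layer G ⊓ C0 with hV
      have hVn : ((V.subgroupOf N).map q).Normal := by
        refine Subgroup.Normal.map ((Subgroup.normal_subgroupOf_iff_le_normalizer (inf_le_right.trans hC0N)).mpr ?_) q
          (QuotientGroup.mk'_surjective _)
        exact normalizer_inf_ge (by rw [Subgroup.normalizer_eq_top]; exact le_top) (normalizer_le_C1 P)
      rcases component_cases hKb hVn.isSubnormal with h | h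
      · rintro _ ⟨w, hw, rfl⟩
        obtain ⟨v, hv, hve⟩ := h hw
        have ho : v⁻¹ * w ∈ Cfsg.pPrimeCore p ↥N := (QuotientGroup.eq).mp hve
        have : (w : G) = (v : G) * ((v⁻¹ * w : ↥N) : G) := by simp
        show (w : G) ∈ R
        rw [this]
        refine R.mul_mem (hlayerR ⟨v.2, (Subgroup.mem_subgroupOf.mp hv).1⟩) (hDR ?_)
        rw [← hOD]; exact ⟨_, ho, rfl⟩
      · rintro v hvJ
        refine ⟨Subgroup.map_subtype_le _ hvJ, fun M hM => ?_⟩
        obtain ⟨c, hcM, hcp, hcC, -, hcN⟩ := exists_component_shift hP hO hM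
        set U := Cfsg.layer G ⊓ Subgroup.normalizer (C0 : Set G) with hU
        have hJC : J ≤ C0 := hJW.trans hWC1
        have hC0D : Subgroup.normalizer (C0 : Set G) ≤ Subgroup.normalizer (D : Set G) := by
          rw [hD, ← coreOf_C1 hP]; exact normalizer_le_coreOf _
        have hJV : ⁅J, V⁆ ≤ D := by
          have h' : ⁅Kb.comap q, V.subgroupOf N⁆ ≤ Cfsg.pPrimeCore p ↥N := by
            refine (?_ : _ ≤ q.ker).trans (QuotientGroup.ker_mk' _).le
            rw [← Subgroup.map_eq_bot_iff, Subgroup.map_commutator,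
              Subgroup.map_comap_eq_self_of_surjective (QuotientGroup.mk'_surjective _)]
            exact h
          have h2 := Subgroup.map_mono (f := N.subtype) h'
          rwa [Subgroup.map_commutator, subgroupOf_map (inf_le_right.trans hC0N), hOD] at h2
        have hUV : ⁅U, J⁆ ≤ V := by
          rw [Subgroup.commutator_le]
          intro a ha b hb
          rw [commutatorElement_def]
          refine Subgroup.mem_inf.mpr ⟨?_, mul_mem ((Subgroup.mem_normalizer_iff.mp ha.2 b).mp (hJC hb)) (inv_mem (hJC hb))⟩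
          rw [show a * b * a⁻¹ * b⁻¹ = a * (b * a⁻¹ * b⁻¹) by group]
          exact mul_mem ha.1 (layer_normal.conj_mem _ (inv_mem ha.1) b)
        have hUD : U ≤ Subgroup.normalizer (D : Set G) := inf_le_right.trans hC0D
        have hJD : J ≤ Subgroup.normalizer (D : Set G) := hJC.trans (Subgroup.le_normalizer.trans hC0D)
        have h3 : ⁅⁅J, J⁆, U⁆ ≤ D := by
          refine CfsgLib.LocalBasic.three_subgroup hJD hJD hUD ?_ ?_
          · refine (Subgroup.commutator_mono ((Subgroup.commutator_comm J U).le.trans hUV) le_rfl).trans ?_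
            rw [Subgroup.commutator_comm]; exact hJV
          · refine (Subgroup.commutator_mono hUV le_rfl).trans ?_
            rw [Subgroup.commutator_comm]; exact hJV
        have hcU : c ∈ U := ⟨orbit_le_layer hM hcM, hcN⟩
        set Z := Subgroup.normalizer (D : Set G) with hZ
        have hperf : J ≤ ⁅J, J⁆ ⊔ D := by
          rw [hJ, ← Subgroup.map_commutator, ← hOD, ← Subgroup.map_sup]
          refine Subgroup.map_mono (le_trans (b := ⁅Kb.comap q, Kb.comap q⁆ ⊔ q.ker) ?_ (sup_le_sup_left (QuotientGroup.ker_mk' _).le _))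
          rw [← Subgroup.comap_map_eq, Subgroup.map_commutator,
            Subgroup.map_comap_eq_self_of_surjective (QuotientGroup.mk'_surjective _), component_perfect hKb]
        have hvc : v * c * v⁻¹ * c⁻¹ ∈ D := by
          have hv' : v ∈ ((⁅J, J⁆ ⊔ D : Subgroup G) : Set G) := hperf hvJ
          rw [Subgroup.coe_mul_of_left_le_normalizer_right _ _ ((Subgroup.le_normalizer_iff_commutator_le_left.mp Subgroup.le_normalizer).trans hJD)] at hv'
          obtain ⟨a, ha, d, hd, rfl⟩ := hv'
          have h4 := h3 (Subgroup.commutator_mem_commutator ha hcU)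
          rw [commutatorElement_def] at h4
          have haD := ((Subgroup.le_normalizer_iff_commutator_le_left.mp (Subgroup.le_normalizer (H := J))).trans hJD) ha
          have h5 : d * (c * d⁻¹ * c⁻¹) ∈ D := mul_mem hd ((Subgroup.mem_normalizer_iff.mp (hUD hcU) _).mp (inv_mem hd))
          have h6 := mul_mem ((Subgroup.mem_normalizer_iff.mp haD _).mp h5) h4
          change a * d * c * (a * d)⁻¹ * c⁻¹ ∈ D
          convert h6 using 1
          group
        exact maps_into_orbit hM (fun u hu => (hWP (hJW hvJ) u hu).symm) hcM hcp hcC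
          ((coreOf_coprime _).coprime_dvd_left (Subgroup.orderOf_dvd_natCard _ hvc))
    have hsup : W ≤ (⨆ Kb : {Kb : Subgroup (↥N ⧸ Cfsg.pPrimeCore p ↥N) // Cfsg.IsComponent Kb}, Kb.1.comap q) ⊔ Cfsg.pPrimeCore p ↥N := by
      refine le_trans (b := (⨆ Kb : {Kb : Subgroup (↥N ⧸ Cfsg.pPrimeCore p ↥N) // Cfsg.IsComponent Kb}, Kb.1.comap q) ⊔ q.ker) ?_
        (sup_le_sup_left (QuotientGroup.ker_mk' _).le _)
      rw [← Subgroup.comap_map_eq]
      refine Subgroup.comap_mono (sSup_le fun Kb hKb => ?_)
      exact le_trans (Subgroup.map_comap_eq_self_of_surjective (QuotientGroup.mk'_surjective _) Kb).ge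
        (Subgroup.map_mono (le_iSup (fun Kb : {Kb : Subgroup (↥N ⧸ Cfsg.pPrimeCore p ↥N) // Cfsg.IsComponent Kb} => Kb.1.comap q) ⟨Kb, hKb⟩))
    refine (Subgroup.map_mono hsup).trans ?_
    rw [Subgroup.map_sup, Subgroup.map_iSup, hOD]
    exact sup_le (iSup_le fun Kb => hcase Kb.1 Kb.2) hDR
  -- `p'`-elements fix every component
  have hmem : ∀ v ∈ W.map N.subtype, (orderOf v).Coprime p → v ∈ K := by
    intro v hv hvo
    refine Subgroup.mem_iInf.mpr fun M => ?_
    obtain ⟨u, hu, he⟩ := (hWR hv).2 M.1 M.2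
    have hc : Commute v u := (hWP hv u hu).symm
    have hpow : ∀ j : ℕ, (M : Subgroup G).map (MulAut.conj (v ^ j)).toMonoidHom = (M : Subgroup G).map (MulAut.conj (u ^ j)).toMonoidHom := by
      intro j
      induction j with
      | zero => simp
      | succ j ih =>
        calc (M : Subgroup G).map (MulAut.conj (v ^ (j + 1))).toMonoidHom
            = ((M : Subgroup G).map (MulAut.conj (v ^ j)).toMonoidHom).map (MulAut.conj v).toMonoidHom := by
              rw [Subgroup.map_map, pow_succ', map_mul]; rfl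
          _ = ((M : Subgroup G).map (MulAut.conj (u ^ j)).toMonoidHom).map (MulAut.conj v).toMonoidHom := by rw [ih]
          _ = ((M : Subgroup G).map (MulAut.conj v).toMonoidHom).map (MulAut.conj (u ^ j)).toMonoidHom := by
              rw [Subgroup.map_map, Subgroup.map_map]; congr 1; ext y
              show v * (u ^ j * y * (u ^ j)⁻¹) * v⁻¹ = u ^ j * (v * y * v⁻¹) * (u ^ j)⁻¹
              calc _ = (v * u ^ j) * y * (v * u ^ j)⁻¹ := by group
                _ = (u ^ j * v) * y * (u ^ j * v)⁻¹ := by rw [(hc.pow_right j).eq]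
                _ = _ := by group
          _ = ((M : Subgroup G).map (MulAut.conj u).toMonoidHom).map (MulAut.conj (u ^ j)).toMonoidHom := by rw [he]
          _ = (M : Subgroup G).map (MulAut.conj (u ^ (j + 1))).toMonoidHom := by
              rw [Subgroup.map_map, pow_succ, map_mul]; rfl
    obtain ⟨k, hk⟩ := isPElt_iff_orderOf.mp (isPElt_of_mem hP hu)
    obtain ⟨m, hm⟩ := exists_pow_eq_self_of_coprime (x := u) (n := orderOf v) (by rw [hk]; exact hvo.pow_right k)
    have hun : u ^ orderOf v ∈ Subgroup.normalizer ((M : Subgroup G) : Set G) := by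
      refine mem_normalizer_of_conj_map_eq ?_
      rw [← hpow, pow_orderOf_eq_one, map_one]; exact Subgroup.map_id _
    have hu' : u ∈ Subgroup.normalizer ((M : Subgroup G) : Set G) := hm ▸ Subgroup.pow_mem _ hun m
    exact mem_normalizer_of_conj_map_eq (he.trans (conj_map_eq_of_mem_normalizer hu'))
  have hfin : W.map N.subtype ≤ K := by
    refine (le_of_coprime_mem (p := p) (H := W.map N.subtype ⊓ K) inf_le_left
      (normalizer_inf_ge Subgroup.le_normalizer (by rw [Subgroup.normalizer_eq_top]; exact le_top))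
      (fun v hv hvo => ⟨hv, hmem v hv hvo⟩) ?_).trans inf_le_right
    have h1 : W ≤ ⁅W, W⁆ ⊔ Cfsg.pPrimeCore p ↥N := by
      rw [← QuotientGroup.ker_mk' (Cfsg.pPrimeCore p ↥N), ← Subgroup.comap_map_eq, Subgroup.map_commutator,
        Subgroup.map_comap_eq_self_of_surjective (QuotientGroup.mk'_surjective _), layer_perfect]
    refine (Subgroup.map_mono h1).trans ?_
    rw [Subgroup.map_sup, Subgroup.map_commutator]
    refine sup_le_sup_left ?_ _
    intro o ho
    have hoW : o ∈ W.map N.subtype := by
      refine Subgroup.map_mono ?_ ho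
      intro o' ho'
      show q o' ∈ Cfsg.layer _
      rw [show q o' = 1 from (QuotientGroup.eq_one_iff o').mpr ho']; exact one_mem _
    rw [hOD] at ho
    exact ⟨hoW, hmem o hoW ((coreOf_coprime _).coprime_dvd_left (Subgroup.orderOf_dvd_natCard _ ho))⟩
  exact conj_map_eq_of_mem_normalizer (Subgroup.mem_iInf.mp (hfin hx) ⟨L, hL⟩)

end Cfsg.Agent.S1269
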