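import Cfsg.Statements.S1270
import Cfsg.Agent.Lib.PComponents2

set_option autoImplicit false
open Cfsg

namespace Cfsg.Agent.S1270
open CfsgLib.Components CfsgLib.PComponents
open scoped commutatorElement

/-- An element moving a perfect group only inside its center centralizes it. -/
theorem centralizes_of_mod_center {G : Type*} [Group G] {L : Subgroup G} (hp : ⁅L, L⁆ = L) {y : G}
    (h : ∀ l ∈ L, ∀ m ∈ L, m * (l⁻¹ * (y * l * y⁻¹)) = (l⁻¹ * (y * l * y⁻¹)) * m)
    (hy : ∀ l ∈ L, y * l * y⁻¹ ∈ L) : L ≤ Subgroup.centralizer ({y} : Set G) := by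
  rw [← hp, Subgroup.commutator_le]
  intro a ha b hb
  rw [Subgroup.mem_centralizer_singleton_iff]
  set z := a⁻¹ * (y * a * y⁻¹) with hz
  set w := b⁻¹ * (y * b * y⁻¹) with hw
  have hzL : z ∈ L := L.mul_mem (L.inv_mem ha) (hy a ha)
  have h1 := h a ha
  have h2 := h b hb
  have e : y * ⁅a, b⁆ * y⁻¹ = ⁅a, b⁆ := by
    rw [commutatorElement_def]
    calc y * (a * b * a⁻¹ * b⁻¹) * y⁻¹ = (y * a * y⁻¹) * (y * b * y⁻¹) * (y * a * y⁻¹)⁻¹ * (y * b * y⁻¹)⁻¹ := by group
      _ = (a * z) * (b * w) * (a * z)⁻¹ * (b * w)⁻¹ := by simp [hz, hw]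
      _ = a * (z * b) * (w * z⁻¹) * a⁻¹ * w⁻¹ * b⁻¹ := by group
      _ = a * (b * z) * (z⁻¹ * w) * a⁻¹ * w⁻¹ * b⁻¹ := by rw [← h1 b hb, h2 z⁻¹ (L.inv_mem hzL)]
      _ = a * b * (w * a⁻¹) * w⁻¹ * b⁻¹ := by group
      _ = a * b * (a⁻¹ * w) * w⁻¹ * b⁻¹ := by rw [h2 a⁻¹ (L.inv_mem ha)]
      _ = _ := by group
  calc ⁅a, b⁆ * y = y * ⁅a, b⁆ * y⁻¹ * y := by rw [e]
    _ = y * ⁅a, b⁆ := by group


/-- Let G be finite with O_{p'}(G) = 1, x of order p, and L a component with ⁅L, ⟨x⟩⁆ ≠ L. Then ⁅L, O_{p'}(C_G(x))⁆ = 1. -/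
theorem result {G : Type*} [Group G] [Finite G] (p : ℕ) [Fact p.Prime] (hO : Cfsg.pPrimeCore p G = ⊥) (x : G) (hx : orderOf x = p) (L : Subgroup G) (hL : Cfsg.IsComponent L) (hne : ⁅L, Subgroup.zpowers x⁆ ≠ L) : ⁅L, Cfsg.centralizerPPrimeCore p x⁆ = ⊥ := by
  have hp : p.Prime := Fact.out
  set C := Subgroup.centralizer ({x} : Set G) with hC
  set Y := Cfsg.centralizerPPrimeCore p x with hY
  have hYc : (Nat.card ↥Y).Coprime p := by
    show (Nat.card ↥((Cfsg.pPrimeCore p ↥C).map C.subtype)).Coprime p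
    rw [Subgroup.card_map_of_injective C.subtype_injective]
    exact CfsgLib.Core.card_pPrimeCore_coprime p
  have hpL : p ∣ Nat.card ↥L := prime_dvd_card_component hL hO
  have hxp : x ^ p = 1 := by rw [← hx, pow_orderOf_eq_one]
  have hcomp : ∀ D : Subgroup G, D ≤ C → Cfsg.IsComponent (D.subgroupOf C) → p ∣ Nat.card ↥D → ⁅D, Y⁆ = ⊥ := by
    intro D hD hDc hpD
    rcases component_cases hDc (Subgroup.Normal.isSubnormal (inferInstance : (Cfsg.pPrimeCore p ↥C).Normal)) with h | h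
    · exfalso
      refine hp.coprime_iff_not_dvd.mp (CfsgLib.Core.card_pPrimeCore_coprime (G := ↥C) p).symm (hpD.trans ?_)
      rw [← Nat.card_congr (Subgroup.subgroupOfEquivOfLe hD).toEquiv]
      exact Subgroup.card_dvd_of_le h
    · have := congrArg (Subgroup.map C.subtype) h
      rwa [Subgroup.map_commutator, subgroupOf_map hD, Subgroup.map_bot] at this
  by_cases hxL : x ∈ Subgroup.normalizer (L : Set G)
  · -- `x` normalizes, hence centralizes, `L`
    have hle : ⁅L, Subgroup.zpowers x⁆ ≤ L :=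
      Subgroup.le_normalizer_iff_commutator_le_left.mp (Subgroup.zpowers_le.mpr hxL)
    haveI : (⁅L, Subgroup.zpowers x⁆.subgroupOf L).Normal :=
      (Subgroup.normal_subgroupOf_iff_le_normalizer hle).mpr (Subgroup.normalizer_commutator_ge_left _ _)
    have hcen : ⁅L, Subgroup.zpowers x⁆.subgroupOf L ≤ Subgroup.center ↥L :=
      (quasisimple_normal_cases hL.2 _).resolve_left fun h => hne (le_antisymm hle (Subgroup.subgroupOf_eq_top.mp h))
    have hLC : L ≤ C := by
      refine centralizes_of_mod_center (component_perfect hL) (fun l hl m hm => ?_)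
        (fun l hl => (Subgroup.mem_normalizer_iff.mp hxL l).mp hl)
      have hc : l⁻¹ * (x * l * x⁻¹) ∈ ⁅L, Subgroup.zpowers x⁆ := by
        have := Subgroup.commutator_mem_commutator (H₁ := L) (H₂ := Subgroup.zpowers x) (L.inv_mem hl) (Subgroup.mem_zpowers x)
        simpa [commutatorElement_def, mul_assoc] using this
      exact congrArg Subtype.val (Subgroup.mem_center_iff.mp (hcen (Subgroup.mem_subgroupOf.mpr hc :
        (⟨_, hle hc⟩ : ↥L) ∈ _)) ⟨m, hm⟩)
    exact hcomp L hLC (component_subgroupOf hL hLC) hpL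
  -- `x` moves `L`: use the diagonal
  let Li : ℕ → Subgroup G := fun i => L.map (MulAut.conj (x ^ i)).toMonoidHom
  have hLi : ∀ i, Cfsg.IsComponent (Li i) := fun i => component_map_conj hL _
  have hLi_ne : ∀ i, i % p ≠ 0 → Li i ≠ L := by
    intro i hi he
    obtain ⟨m, hm⟩ := exists_pow_eq_self_of_coprime (x := x) (n := i)
      (by rw [hx]; exact (hp.coprime_iff_not_dvd.mpr (fun hd => hi (Nat.mod_eq_zero_of_dvd hd))).symm)
    exact hxL (hm ▸ Subgroup.pow_mem _ (CfsgLib.LocalBasic.mem_normalizer_of_conj_map_eq he) m)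
  let S : ℕ → Subgroup G := fun n => ⨆ i : {i : ℕ // i < n}, Li i
  have hshift : ∀ n, n < p → (S n).map (MulAut.conj x).toMonoidHom ≤ Subgroup.centralizer (L : Set G) := by
    intro n hn
    rw [Subgroup.map_iSup]
    refine iSup_le fun i => ?_
    have e : (Li i).map (MulAut.conj x).toMonoidHom = Li (i + 1) := by
      show (L.map _).map _ = L.map _
      rw [Subgroup.map_map]; congr 1; ext y
      show x * (x ^ (i : ℕ) * y * (x ^ (i : ℕ))⁻¹) * x⁻¹ = x ^ ((i : ℕ) + 1) * y * (x ^ ((i : ℕ) + 1))⁻¹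
      rw [pow_succ']; group
    rw [e]
    refine Subgroup.commutator_eq_bot_iff_le_centralizer.mp (component_comm (hLi _) hL (hLi_ne _ ?_))
    have := i.2
    rw [Nat.mod_eq_of_lt (by omega)]; omega
  let P : ℕ → G → G := fun n l => (l * x) ^ n * (x ^ n)⁻¹
  have hPs : ∀ n l, P (n + 1) l = l * (x * P n l * x⁻¹) := fun n l => by
    show (l * x) ^ (n + 1) * (x ^ (n + 1))⁻¹ = _
    rw [pow_succ' (l * x), pow_succ x]
    show _ = l * (x * ((l * x) ^ n * (x ^ n)⁻¹) * x⁻¹)
    group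
  have hP : ∀ n, n ≤ p → (∀ l ∈ L, P n l ∈ S n) ∧ (∀ l ∈ L, ∀ m ∈ L, P n (l * m) = P n l * P n m) := by
    intro n
    induction n with
    | zero => intro _; exact ⟨fun l _ => by simp [P], fun l _ m _ => by simp [P]⟩
    | succ n ih =>
      intro hn
      obtain ⟨h1, h2⟩ := ih (by omega)
      have hc : ∀ l ∈ L, x * P n l * x⁻¹ ∈ Subgroup.centralizer (L : Set G) := fun l hl =>
        hshift n (by omega) ⟨_, h1 l hl, rfl⟩
      refine ⟨fun l hl => ?_, fun l hl m hm => ?_⟩
      · rw [hPs]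
        refine mul_mem ?_ ?_
        · exact Subgroup.mem_iSup_of_mem (⟨0, Nat.succ_pos n⟩ : {i : ℕ // i < n + 1}) ⟨l, hl, by simp⟩
        · have h3 : x * P n l * x⁻¹ ∈ (S n).map (MulAut.conj x).toMonoidHom := ⟨_, h1 l hl, rfl⟩
          refine (?_ : (S n).map (MulAut.conj x).toMonoidHom ≤ S (n + 1)) h3
          rw [Subgroup.map_iSup]
          refine iSup_le fun i => le_iSup_of_le (⟨i + 1, by have := i.2; omega⟩ : {i : ℕ // i < n + 1}) (le_of_eq ?_)
          show (L.map _).map _ = L.map _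
          rw [Subgroup.map_map]; congr 1; ext y
          show x * (x ^ (i : ℕ) * y * (x ^ (i : ℕ))⁻¹) * x⁻¹ = x ^ ((i : ℕ) + 1) * y * (x ^ ((i : ℕ) + 1))⁻¹
          rw [pow_succ']; group
      · rw [hPs, hPs, hPs, h2 l hl m hm]
        have h4 := hc l hl m hm
        calc l * m * (x * (P n l * P n m) * x⁻¹) = l * (m * (x * P n l * x⁻¹)) * (x * P n m * x⁻¹) := by group
          _ = l * ((x * P n l * x⁻¹) * m) * (x * P n m * x⁻¹) := by rw [h4]
          _ = _ := by group
  obtain ⟨hPS, hPmul⟩ := hP p le_rfl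
  have hP1 : ∀ l : G, P p l = (l * x) ^ p := fun l => by simp [P, hxp]
  let π : ↥L →* G :=
    { toFun := fun l => ((l : G) * x) ^ p
      map_one' := by simp [hxp]
      map_mul' := fun l m => by
        have := hPmul l l.2 m m.2
        rw [hP1, hP1, hP1] at this
        exact this }
  have hrest : ∀ l ∈ L, ∃ r ∈ Subgroup.centralizer (L : Set G), (l * x) ^ p = l * r := fun l hl => by
    refine ⟨x * P (p - 1) l * x⁻¹, hshift (p - 1) (by have := hp.pos; omega) ⟨_, (hP (p - 1) (by omega)).1 l hl, rfl⟩, ?_⟩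
    rw [← hPs, Nat.sub_add_cancel hp.pos, hP1]
  have hker : π.ker ≤ Subgroup.center ↥L := by
    intro l hl
    obtain ⟨r, hr, he⟩ := hrest l l.2
    have h1 : ((l : G) * x) ^ p = 1 := hl
    rw [he] at h1
    refine Subgroup.mem_center_iff.mpr fun m => Subtype.ext ?_
    show (m : G) * l = l * m
    rw [eq_inv_of_mul_eq_one_left h1]
    exact (Subgroup.inv_mem _ hr) m m.2
  have hπC : π.range ≤ C := by
    rintro _ ⟨l, rfl⟩
    obtain ⟨r, hr, he⟩ := hrest l l.2
    refine Subgroup.mem_centralizer_singleton_iff.mpr ?_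
    show ((l : G) * x) ^ p * x = x * ((l : G) * x) ^ p
    have h1 : Commute (((l : G) * x) ^ p) ((l : G) * x) := (Commute.refl _).pow_left p
    have h2 : Commute (((l : G) * x) ^ p) (l : G) := by
      rw [he]
      exact (Commute.refl _).mul_left (Commute.symm (hr l l.2))
    have h3 := h2.inv_right.mul_right h1
    rwa [inv_mul_cancel_left] at h3
  have hπlayer : π.range ≤ Cfsg.layer G := by
    rintro _ ⟨l, rfl⟩
    refine (?_ : S p ≤ Cfsg.layer G) (?_ : π l ∈ S p)
    · exact iSup_le fun i => component_le_layer (hLi i)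
    · show ((l : G) * x) ^ p ∈ S p
      rw [← hP1]; exact hPS l l.2
  have hEN : Cfsg.layer G ≤ Subgroup.normalizer (L : Set G) := sSup_le fun K hK => by
    by_cases h : K = L
    · exact h ▸ Subgroup.le_normalizer
    · exact (Subgroup.commutator_eq_bot_iff_le_centralizer.mp (component_comm hK hL h)).trans
        (Subgroup.centralizer_le_normalizer _)
  have hEconj : ∀ e ∈ Subgroup.normalizer (L : Set G), e * x = x * e → ∀ l : ↥L, ∀ h : e * (l : G) * e⁻¹ ∈ L,
      e * π l * e⁻¹ = π ⟨e * (l : G) * e⁻¹, h⟩ := by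
    intro e _ hex l h
    show e * ((l : G) * x) ^ p * e⁻¹ = (e * l * e⁻¹ * x) ^ p
    rw [← conj_pow]
    congr 1
    calc e * ((l : G) * x) * e⁻¹ = e * l * (x * e⁻¹) := by group
      _ = e * l * (e⁻¹ * x) := by rw [((show Commute e x from hex).inv_left).eq]
      _ = _ := by group
  have hDnorm : Cfsg.layer G ⊓ C ≤ Subgroup.normalizer (π.range : Set G) := by
    refine fun e he => CfsgLib.LocalBasic.mem_normalizer_of_conj_map_eq (Subgroup.eq_of_le_of_card_ge ?_
      (Subgroup.card_map_of_injective (MulEquiv.injective _)).ge)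
    rintro _ ⟨_, ⟨l, rfl⟩, rfl⟩
    exact ⟨_, (hEconj e (hEN he.1) (Subgroup.mem_centralizer_singleton_iff.mp he.2) l
      ((Subgroup.mem_normalizer_iff.mp (hEN he.1) l).mp l.2)).symm⟩
  have hDq : Cfsg.IsQuasisimple ↥π.range := by
    refine (quasisimple_iff_of_central_ker π.rangeRestrict π.rangeRestrict_surjective ?_ ?_).1 hL.2
    · have := hL.2.1.commutator_eq_top
      rwa [commutator_def] at this
    · rw [MonoidHom.ker_rangeRestrict]; exact hker
  have hDc : Cfsg.IsComponent (π.range.subgroupOf C) := by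
    refine ⟨?_, CfsgLib.Layer2.isQuasisimple_of_equiv (Subgroup.subgroupOfEquivOfLe hπC).symm hDq⟩
    haveI hEn : ((Cfsg.layer G ⊓ C).subgroupOf C).Normal := by
      rw [Subgroup.inf_subgroupOf_right]; infer_instance
    refine subnormal_of_normalized (M := (Cfsg.layer G ⊓ C).subgroupOf C) (fun a ha => ⟨hπlayer ha, a.2⟩) hEn.isSubnormal fun e he => ?_
    rw [Subgroup.mem_normalizer_iff]
    exact fun a => Subgroup.mem_normalizer_iff.mp (hDnorm he) a
  have hpD : p ∣ Nat.card ↥π.range := by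
    by_contra hpD
    refine component_not_abelian hL fun a ha b hb => ?_
    have hle : pGen p (⊤ : Subgroup ↥L) ≤ Subgroup.center ↥L := by
      refine (Subgroup.closure_le _).mpr ?_
      rintro l ⟨-, hl⟩
      refine hker (MonoidHom.mem_ker.mpr ?_)
      obtain ⟨k, hk⟩ := isPElt_iff_orderOf.mp hl
      refine orderOf_eq_one_iff.mp (Nat.eq_one_of_dvd_coprimes
        ((hp.coprime_iff_not_dvd.mpr hpD).symm.pow_right k) ?_ (hk ▸ orderOf_map_dvd π l))
      exact Subgroup.orderOf_dvd_natCard _ ⟨l, rfl⟩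
    rw [pGen_eq_top hL.2 hpL] at hle
    exact congrArg Subtype.val (Subgroup.mem_center_iff.mp (hle (Subgroup.mem_top (⟨a, ha⟩ : ↥L))) ⟨b, hb⟩)
  have hDY := hcomp π.range hπC hDc hpD
  rw [Subgroup.commutator_eq_bot_iff_le_centralizer]
  intro l₀ hl₀ y hy
  have hyC : y ∈ C := Subgroup.map_subtype_le _ hy
  have hyx : y * x = x * y := Subgroup.mem_centralizer_singleton_iff.mp hyC
  have hyπ : ∀ l : ↥L, y * π l = π l * y := fun l =>
    Subgroup.commutator_eq_bot_iff_le_centralizer.mp hDY ⟨l, rfl⟩ y hy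
  set L' := L.map (MulAut.conj y).toMonoidHom with hL'
  obtain ⟨i, hi⟩ : ∃ i : {i : ℕ // i < p}, L' = Li i := by
    by_contra hcon
    simp only [not_exists] at hcon
    have hS : S p ≤ Subgroup.centralizer (L' : Set G) := iSup_le fun i =>
      Subgroup.commutator_eq_bot_iff_le_centralizer.mp (component_comm (hLi i) (component_map_conj hL y) (Ne.symm (hcon i)))
    refine component_not_abelian hL fun a ha b hb => ?_
    have h1 := hS (hPS a ha) (y * b * y⁻¹) ⟨b, hb, rfl⟩
    rw [hP1] at h1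
    obtain ⟨r, hr, he⟩ := hrest a ha
    have h2 : y * (a * x) ^ p = (a * x) ^ p * y := hyπ ⟨a, ha⟩
    have h3 : b * (a * x) ^ p = (a * x) ^ p * b := by
      calc b * (a * x) ^ p = y⁻¹ * (y * b * y⁻¹) * (y * (a * x) ^ p) := by group
        _ = y⁻¹ * ((y * b * y⁻¹) * (a * x) ^ p) * y := by rw [h2]; group
        _ = y⁻¹ * ((a * x) ^ p * (y * b * y⁻¹)) * y := by rw [h1]
        _ = y⁻¹ * ((a * x) ^ p * y) * b := by group
        _ = y⁻¹ * (y * (a * x) ^ p) * b := by rw [h2]
        _ = _ := by group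
    rw [he] at h3
    calc b * a = b * (a * r) * r⁻¹ := by group
      _ = a * r * b * r⁻¹ := by rw [h3]
      _ = a * (b * r) * r⁻¹ := by rw [mul_assoc a r b, hr b hb]
      _ = a * b := by group
  have hi0 : (i : ℕ) = 0 := by
    by_contra hi0
    have hpow : ∀ n : ℕ, L.map (MulAut.conj (y ^ n)).toMonoidHom = Li (i * n) := by
      intro n
      induction n with
      | zero => simp [Li]
      | succ n ih =>
        have e1 : L.map (MulAut.conj (y ^ (n + 1))).toMonoidHom =
            (L.map (MulAut.conj (y ^ n)).toMonoidHom).map (MulAut.conj y).toMonoidHom := by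
          rw [pow_succ', map_mul, Subgroup.map_map]; rfl
        have hc : Commute y (x ^ ((i : ℕ) * n)) := (show Commute y x from hyx).pow_right _
        rw [e1, ih]
        show (L.map (MulAut.conj (x ^ ((i : ℕ) * n))).toMonoidHom).map _ = Li ((i : ℕ) * (n + 1))
        have e2 : (L.map (MulAut.conj (x ^ ((i : ℕ) * n))).toMonoidHom).map (MulAut.conj y).toMonoidHom =
            L'.map (MulAut.conj (x ^ ((i : ℕ) * n))).toMonoidHom := by
          rw [hL', Subgroup.map_map, Subgroup.map_map]; congr 1; ext z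
          show y * (x ^ ((i : ℕ) * n) * z * (x ^ ((i : ℕ) * n))⁻¹) * y⁻¹ = x ^ ((i : ℕ) * n) * (y * z * y⁻¹) * (x ^ ((i : ℕ) * n))⁻¹
          calc _ = (y * x ^ ((i : ℕ) * n)) * z * (y * x ^ ((i : ℕ) * n))⁻¹ := by group
            _ = (x ^ ((i : ℕ) * n) * y) * z * (x ^ ((i : ℕ) * n) * y)⁻¹ := by rw [hc.eq]
            _ = _ := by group
        rw [e2, hi]
        show (L.map _).map _ = L.map _
        rw [Subgroup.map_map, Nat.mul_succ, pow_add, map_mul]; rfl
    refine hLi_ne ((i : ℕ) * orderOf y) (fun h => ?_) (by rw [← hpow, pow_orderOf_eq_one, map_one]; exact Subgroup.map_id L)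
    rcases hp.dvd_mul.mp (Nat.dvd_of_mod_eq_zero h) with h | h
    · exact hi0 (Nat.eq_zero_of_dvd_of_lt h i.2)
    · exact hp.coprime_iff_not_dvd.mp hYc.symm (h.trans (Subgroup.orderOf_dvd_natCard _ hy))
  have hyL : y ∈ Subgroup.normalizer (L : Set G) := by
    refine CfsgLib.LocalBasic.mem_normalizer_of_conj_map_eq ?_
    rw [← hL', hi, hi0]
    show L.map (MulAut.conj (x ^ 0)).toMonoidHom = L
    rw [pow_zero, map_one]
    exact Subgroup.map_id L
  have hfin : L ≤ Subgroup.centralizer ({y} : Set G) := by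
    refine centralizes_of_mod_center (component_perfect hL) (fun l hl m hm => ?_)
      (fun l hl => (Subgroup.mem_normalizer_iff.mp hyL l).mp hl)
    have hyl : y * l * y⁻¹ ∈ L := (Subgroup.mem_normalizer_iff.mp hyL l).mp hl
    have h : (⟨l, hl⟩ : ↥L)⁻¹ * ⟨y * l * y⁻¹, hyl⟩ ∈ π.ker := by
      rw [MonoidHom.mem_ker, map_mul, map_inv, ← hEconj y hyL hyx ⟨l, hl⟩, hyπ]
      group
    exact congrArg Subtype.val (Subgroup.mem_center_iff.mp (hker h) ⟨m, hm⟩)
  exact (Subgroup.mem_centralizer_singleton_iff.mp (hfin hl₀)).symm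

end Cfsg.Agent.S1270
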