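import Cfsg.Statements.S1271
import Cfsg.Agent.Lib.CoreCentralizer
import Cfsg.Agent.S1270

set_option autoImplicit false
open Cfsg

namespace Cfsg.Agent.S1271
open CfsgLib.Components CfsgLib.PComponents CfsgLib.LocalBasic CfsgLib.CoreCentralizer CfsgLib.PIrr
open scoped commutatorElement

theorem eq_one_of_centralizes {G : Type*} [Group G] [Finite G] {p : ℕ} [hp : Fact p.Prime]
    (hO : Cfsg.pPrimeCore p G = ⊥) {y : G} (hy : (orderOf y).Coprime p)
    (hQ : ∀ q ∈ Cfsg.pCore p G, q * y = y * q) (hL : ∀ L, Cfsg.IsComponent L → ∀ a ∈ L, a * y = y * a) : y = 1 := by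
  set F := Cfsg.generalizedFittingSubgroup G
  have hfit : Cfsg.fittingSubgroup G ≤ Cfsg.pCore p G := by
    rw [CfsgLib.Core.fittingSubgroup_eq_iSup_pCore]
    refine iSup_le fun r => ?_
    by_cases hr : (r : ℕ) = p
    · rw [hr]
    · haveI := CfsgLib.Core.pCore_characteristic (G := G) (r : ℕ)
      haveI := Fact.mk r.2
      obtain ⟨a, ha⟩ := IsPGroup.iff_card.mp (CfsgLib.Core.isPGroup_pCore (G := G) (r : ℕ))
      exact ((CfsgLib.Core.le_pPrimeCore inferInstance (by
        rw [ha]; exact Nat.Coprime.pow_left a ((Nat.coprime_primes r.2 hp.out).mpr hr))).trans hO.le).trans bot_le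
  have hyF : y ∈ Subgroup.centralizer (F : Set G) := by
    have h : F ≤ Subgroup.centralizer ({y} : Set G) := by
      refine sup_le (sSup_le fun K hK u hu => ?_) fun u hu => ?_ <;> rw [Subgroup.mem_centralizer_singleton_iff]
      · exact hL K hK u hu
      · exact hQ u (hfit hu)
    exact fun u hu => Subgroup.mem_centralizer_singleton_iff.mp (h hu)
  haveI : F.Normal := Subgroup.sup_normal (Cfsg.layer G) (Cfsg.fittingSubgroup G)
    (hK := CfsgLib.Core.fittingSubgroup_normal)
  haveI : (F ⊓ Subgroup.centralizer (F : Set G)).Normal := Subgroup.normalizer_eq_top_iff.mp (eq_top_iff.mpr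
    (normalizer_inf_ge (by rw [Subgroup.normalizer_eq_top]) (normalizer_centralizer_ge (by rw [Subgroup.normalizer_eq_top]))))
  have hnil : Group.IsNilpotent ↥(F ⊓ Subgroup.centralizer (F : Set G) : Subgroup G) :=
    CfsgLib.GenFitting.isNilpotent_of_center (N := F ⊓ Subgroup.centralizer (F : Set G)) (Z := ⊥)
      (by rw [le_bot_iff, Subgroup.commutator_eq_bot_iff_le_centralizer]; exact fun u hu v hv => hu.2 v hv.1)
      (fun u _ v hv => by rw [Subgroup.mem_bot.mp hv, one_mul, mul_one])
  have h2 := hfit (CfsgLib.Core.le_fittingSubgroup inferInstance hnil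
    (show y ∈ F ⊓ Subgroup.centralizer (F : Set G) from ⟨CfsgLib.GenFitting.centralizer_genFitting_le hyF, hyF⟩))
  obtain ⟨k, hk⟩ := CfsgLib.Core.isPGroup_pCore (G := G) p ⟨y, h2⟩
  exact orderOf_eq_one_iff.mp (Nat.eq_one_of_dvd_coprimes (hy.pow_right k) dvd_rfl
    (orderOf_dvd_of_pow_eq_one (congrArg Subtype.val hk)))


/-- Let G be finite with O_{p'}(G) = 1. Suppose that for every component L of G and every subgroup H ≥ L in which L is normal, the quotient H / C_H(L) is balanced for the prime p. Then G is balanced for p. -/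
theorem result {G : Type*} [Group G] [Finite G] (p : ℕ) [Fact p.Prime] (hO : Cfsg.pPrimeCore p G = ⊥) (h : ∀ L : Subgroup G, Cfsg.IsComponent L → ∀ H : Subgroup G, L ≤ H → (L.subgroupOf H).Normal → ∀ [((Subgroup.centralizer (L : Set G)).subgroupOf H).Normal], Cfsg.IsBalancedFor p (↥H ⧸ (Subgroup.centralizer (L : Set G)).subgroupOf H)) : Cfsg.IsBalancedFor p G := by
  intro x hx
  rw [hO]
  intro y hy
  rw [Subgroup.mem_bot]
  set P := Subgroup.zpowers x with hPdef
  have hP : IsPGroup p ↥P := IsPGroup.of_card (n := 1) (by rw [Nat.card_zpowers, hx, pow_one])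
  have hC : Subgroup.centralizer ({x} : Set G) = Subgroup.centralizer (P : Set G) := by
    rw [hPdef, Subgroup.zpowers_eq_closure, Subgroup.centralizer_closure]
  have hy' : y ∈ coreOf p (Subgroup.centralizer (P : Set G)) := hC ▸ hy
  refine eq_one_of_centralizes hO ((coreOf_coprime _).coprime_dvd_left (Subgroup.orderOf_dvd_natCard _ hy'))
    (fun q hq => coreOf_centralizer_pCore hP hy' q hq) fun L hL => ?_
  by_cases hne : ⁅L, P⁆ = L
  swap
  · intro a ha
    exact (Subgroup.commutator_eq_bot_iff_le_centralizer.mp (Cfsg.Agent.S1270.result p hO x hx L hL hne) ha y hy).symm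
  have hxL : x ∈ Subgroup.normalizer (L : Set G) := by
    have h := Subgroup.normalizer_commutator_ge_right L P
    rw [hne] at h
    exact h (Subgroup.mem_zpowers x)
  set Y := coreOf p (Subgroup.centralizer (P : Set G)) with hY
  have hYL : Y ≤ Subgroup.normalizer (L : Set G) := fun v hv => by
    obtain ⟨u, hu, he⟩ := core_maps_into_orbit hP hO hL hv
    exact mem_normalizer_of_conj_map_eq (he.trans (conj_map_eq_of_mem_normalizer (Subgroup.zpowers_le.mpr hxL hu)))
  set W := P ⊔ Y with hW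
  have hWL : W ≤ Subgroup.normalizer (L : Set G) := sup_le (Subgroup.zpowers_le.mpr hxL) hYL
  set H := L ⊔ W with hH
  have hLH : L ≤ H := le_sup_left
  have hHL : H ≤ Subgroup.normalizer (L : Set G) := sup_le Subgroup.le_normalizer hWL
  haveI hCn : ((Subgroup.centralizer (L : Set G)).subgroupOf H).Normal :=
    ⟨fun c hc g => Subgroup.mem_subgroupOf.mpr ((Subgroup.mem_normalizer_iff.mp (normalizer_centralizer_ge hHL g.2) _).mp (Subgroup.mem_subgroupOf.mp hc))⟩
  have hbal := h L hL H hLH ((Subgroup.normal_subgroupOf_iff_le_normalizer hLH).mpr hHL)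
  set f := QuotientGroup.mk' ((Subgroup.centralizer (L : Set G)).subgroupOf H) with hf
  have hxH : x ∈ H := Subgroup.mem_sup_right (Subgroup.mem_sup_left (Subgroup.mem_zpowers x))
  have hxC : x ∉ Subgroup.centralizer (L : Set G) := fun hc => component_ne_bot hL (by
    rw [← hne, Subgroup.commutator_eq_bot_iff_le_centralizer]
    intro a ha u hu
    obtain ⟨j, rfl⟩ := Subgroup.mem_zpowers_iff.mp hu
    exact ((show Commute x a from (hc a ha).symm).zpow_left j).eq)
  have hfx : orderOf (f ⟨x, hxH⟩) = p := by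
    refine orderOf_eq_prime ?_ fun he => hxC (Subgroup.mem_subgroupOf.mp ((QuotientGroup.eq_one_iff _).mp he))
    rw [← map_pow, show (⟨x, hxH⟩ : ↥H) ^ p = 1 from Subtype.ext (by simpa [hx] using pow_orderOf_eq_one x), map_one]
  have hYH : Y ≤ H := le_sup_right.trans le_sup_right
  set Cq := Subgroup.centralizer ({f ⟨x, hxH⟩} : Set (↥H ⧸ (Subgroup.centralizer (L : Set G)).subgroupOf H))
  have hZp : ∀ z ∈ L, z ∈ Subgroup.centralizer (L : Set G) → z ∈ Cfsg.pCore p G := by
    intro z hz hzC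
    have hsub : ∀ w ∈ L, w ∈ Subgroup.centralizer (L : Set G) → (Subgroup.zpowers w).IsSubnormal := fun w hw hwC => by
      refine subnormal_of_normalized (Subgroup.zpowers_le.mpr hw) hL.1 fun e he => Subgroup.centralizer_le_normalizer _ ?_
      rw [Subgroup.zpowers_eq_closure, Subgroup.centralizer_closure, Subgroup.mem_centralizer_singleton_iff]
      exact hwC e he
    set n := (orderOf z).factorization p
    have hw : z ^ p ^ n = 1 := by
      have hco : (orderOf (z ^ p ^ n)).Coprime p := by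
        rw [orderOf_pow_of_dvd (pow_ne_zero _ (Fact.out : p.Prime).ne_zero) (Nat.ordProj_dvd _ _)]
        exact ((Fact.out : p.Prime).coprime_iff_not_dvd.mpr (Nat.not_dvd_ordCompl Fact.out (orderOf_pos z).ne')).symm
      have := CfsgLib.Core.coprime_subnormal_le_pPrimeCore (hsub _ (pow_mem hz _) (pow_mem hzC _))
        (by rwa [Nat.card_zpowers]) (Subgroup.mem_zpowers (z ^ p ^ n))
      rwa [hO, Subgroup.mem_bot] at this
    exact CfsgLib.Core.isPGroup_subnormal_le_pCore (hsub z hz hzC) (by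
      obtain ⟨j, -, hj⟩ := (Nat.dvd_prime_pow (Fact.out : p.Prime)).mp (orderOf_dvd_of_pow_eq_one hw)
      exact IsPGroup.of_card ((Nat.card_zpowers z).trans hj)) (Subgroup.mem_zpowers z)
  have hnorm : ∀ g : ↥H, f g ∈ Cq → (g : G) ∈ Subgroup.normalizer (Y : Set G) := by
    intro g hg
    have hWC : W ≤ Subgroup.centralizer (P : Set G) := sup_le (fun u hu v hv => by
      obtain ⟨i, rfl⟩ := Subgroup.mem_zpowers_iff.mp hu
      obtain ⟨j, rfl⟩ := Subgroup.mem_zpowers_iff.mp hv
      rw [← zpow_add, ← zpow_add, add_comm]) (Subgroup.map_subtype_le _)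
    have hWY : W ≤ Subgroup.normalizer (Y : Set G) :=
      hWC.trans (Subgroup.le_normalizer.trans (normalizer_le_coreOf _))
    have hg2 : (g : G) ∈ ((L ⊔ W : Subgroup G) : Set G) := g.2
    rw [Subgroup.coe_mul_of_right_le_normalizer_left _ _ hWL] at hg2
    obtain ⟨l, hl, w, hw, hlw⟩ := hg2
    change l * w = (g : G) at hlw
    have hlx : ⁅l, x⁆ ∈ Cfsg.pCore p G := by
      have hwx : w * x = x * w := (hWC hw x (Subgroup.mem_zpowers x)).symm
      have e : ⁅l, x⁆ = ⁅(g : G), x⁆ := by
        rw [← hlw, commutatorElement_def, commutatorElement_def]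
        calc l * x * l⁻¹ * x⁻¹ = l * (x * w) * w⁻¹ * l⁻¹ * x⁻¹ := by group
          _ = l * (w * x) * w⁻¹ * l⁻¹ * x⁻¹ := by rw [hwx]
          _ = _ := by group
      refine hZp _ ?_ (e ▸ ?_)
      · rw [commutatorElement_def, show l * x * l⁻¹ * x⁻¹ = l * (x * l⁻¹ * x⁻¹) by group]
        exact mul_mem hl ((Subgroup.mem_normalizer_iff.mp hxL _).mp (inv_mem hl))
      · have : f ⁅g, (⟨x, hxH⟩ : ↥H)⁆ = 1 := by
          rw [map_commutatorElement, commutatorElement_eq_one_iff_mul_comm]
          exact Subgroup.mem_centralizer_singleton_iff.mp hg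
        exact Subgroup.mem_subgroupOf.mp ((QuotientGroup.eq_one_iff _).mp this)
    have hl1 : l ∈ Subgroup.normalizer (C1 p P : Set G) := by
      refine mem_normalizer_C1 fun u hu => ?_
      haveI := pCore_normal (G := G) (p := p)
      obtain ⟨j, rfl⟩ := Subgroup.mem_zpowers_iff.mp hu
      refine (QuotientGroup.eq_one_iff _).mp ?_
      show QuotientGroup.mk' (Cfsg.pCore p G) ⁅l, x ^ j⁆ = 1
      rw [map_commutatorElement, commutatorElement_eq_one_iff_mul_comm, map_zpow]
      refine (Commute.zpow_right ?_ j).eq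
      have : QuotientGroup.mk' (Cfsg.pCore p G) ⁅l, x⁆ = 1 := (QuotientGroup.eq_one_iff _).mpr hlx
      rwa [map_commutatorElement, commutatorElement_eq_one_iff_mul_comm] at this
    have hl2 : l ∈ Subgroup.normalizer (Y : Set G) := by
      rw [hY, ← coreOf_C1 hP]; exact normalizer_le_coreOf _ hl1
    rw [← hlw]
    exact mul_mem hl2 (hWY hw)
  set Yq := (Y.subgroupOf H).map f with hYq
  have hYqC : Yq ≤ Cq := by
    rintro _ ⟨v, hv, rfl⟩
    refine Subgroup.mem_centralizer_singleton_iff.mpr ?_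
    rw [← map_mul, ← map_mul]
    congr 1
    exact Subtype.ext (Subgroup.map_subtype_le _ (Subgroup.mem_subgroupOf.mp hv) x (Subgroup.mem_zpowers x)).symm
  have hYqn : Cq ≤ Subgroup.normalizer (Yq : Set _) := by
    intro c hc
    obtain ⟨g, rfl⟩ := QuotientGroup.mk'_surjective _ c
    refine mem_normalizer_of_conj_map_eq (Subgroup.eq_of_le_of_card_ge ?_
      (Subgroup.card_map_of_injective (MulEquiv.injective _)).ge)
    rintro _ ⟨_, ⟨v, hv, rfl⟩, rfl⟩
    refine ⟨g * v * g⁻¹, Subgroup.mem_subgroupOf.mpr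
      ((Subgroup.mem_normalizer_iff.mp (hnorm g hc) _).mp (Subgroup.mem_subgroupOf.mp hv)), ?_⟩
    rw [map_mul, map_mul, map_inv]
    rfl
  have hle : Yq ≤ Cfsg.centralizerPPrimeCore p (f ⟨x, hxH⟩) :=
    le_coreOf hYqC hYqn (CfsgLib.Core.coprime_card_map f (by
      rw [Nat.card_congr (Subgroup.subgroupOfEquivOfLe hYH).toEquiv]; exact coreOf_coprime _))
  have hOq : Cfsg.pPrimeCore p (↥H ⧸ (Subgroup.centralizer (L : Set G)).subgroupOf H) = ⊥ := by
    set D := (Cfsg.pPrimeCore p (↥H ⧸ (Subgroup.centralizer (L : Set G)).subgroupOf H)).comap f with hD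
    haveI : (L.subgroupOf H).Normal := (Subgroup.normal_subgroupOf_iff_le_normalizer hLH).mpr hHL
    set L' := L.subgroupOf H with hL'
    have hL'c : Cfsg.IsComponent L' := component_subgroupOf hL hLH
    have hLD : ⁅L', D⁆ ≤ L' ⊓ D := le_inf (Subgroup.commutator_le_left L' D) (Subgroup.commutator_le_right L' D)
    rcases quasisimple_normal_cases hL'c.2 ((L' ⊓ D).subgroupOf L') with h1 | h1
    · exfalso
      have hLD' : L' ≤ D := (Subgroup.subgroupOf_eq_top.mp h1).trans inf_le_right
      have hp : pGen p (⊤ : Subgroup ↥L') ≤ Subgroup.center ↥L' := by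
        refine (Subgroup.closure_le _).mpr ?_
        rintro u ⟨-, hu⟩
        obtain ⟨k, hk⟩ := isPElt_iff_orderOf.mp hu
        have hu1 : f (u : ↥H) = 1 := orderOf_eq_one_iff.mp (Nat.eq_one_of_dvd_coprimes
          ((CfsgLib.Core.card_pPrimeCore_coprime p).pow_right k) (Subgroup.orderOf_dvd_natCard _ (hLD' u.2))
          (hk ▸ Subgroup.orderOf_coe u ▸ orderOf_map_dvd f (u : ↥H)))
        refine Subgroup.mem_center_iff.mpr fun v => Subtype.ext (Subtype.ext ?_)
        exact Subgroup.mem_subgroupOf.mp ((QuotientGroup.eq_one_iff _).mp hu1) _ (Subgroup.mem_subgroupOf.mp v.2)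
      rw [pGen_eq_top hL'c.2 (by
        rw [Nat.card_congr (Subgroup.subgroupOfEquivOfLe hLH).toEquiv]; exact prime_dvd_card_component hL hO)] at hp
      exact component_not_abelian hL'c fun a ha b hb =>
        congrArg Subtype.val (Subgroup.mem_center_iff.mp (hp (Subgroup.mem_top ⟨a, ha⟩)) ⟨b, hb⟩)
    · have hc1 : ⁅⁅L', D⁆, L'⁆ = ⊥ := by
        rw [Subgroup.commutator_eq_bot_iff_le_centralizer]
        intro a ha b hb
        exact congrArg Subtype.val (Subgroup.mem_center_iff.mp (h1 (Subgroup.mem_subgroupOf.mpr (hLD ha) :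
          (⟨a, (hLD ha).1⟩ : ↥L') ∈ _)) ⟨b, hb⟩)
      have hc2 : ⁅⁅D, L'⁆, L'⁆ = ⊥ := by rw [Subgroup.commutator_comm D L']; exact hc1
      have hc3 := Subgroup.commutator_commutator_eq_bot_of_rotate (H₁ := L') (H₂ := L') (H₃ := D) hc1 hc2
      rw [component_perfect hL'c, Subgroup.commutator_eq_bot_iff_le_centralizer] at hc3
      have hDC : D ≤ (Subgroup.centralizer (L : Set G)).subgroupOf H := by
        intro d hd a ha
        exact (congrArg Subtype.val (hc3 (Subgroup.mem_subgroupOf.mpr ha : (⟨a, hLH ha⟩ : ↥H) ∈ L') d hd)).symm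
      rw [← Subgroup.map_comap_eq_self_of_surjective (QuotientGroup.mk'_surjective _)
        (Cfsg.pPrimeCore p (↥H ⧸ (Subgroup.centralizer (L : Set G)).subgroupOf H))]
      rw [Subgroup.map_eq_bot_iff, QuotientGroup.ker_mk']
      exact hDC
  intro a ha
  have h1 := (hle.trans (hbal _ hfx)).trans hOq.le ⟨⟨y, hYH hy'⟩, Subgroup.mem_subgroupOf.mpr hy', rfl⟩
  exact Subgroup.mem_subgroupOf.mp ((QuotientGroup.eq_one_iff _).mp (Subgroup.mem_bot.mp h1)) a ha

end Cfsg.Agent.S1271
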