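import Cfsg.Statements.S1273
import Cfsg.Agent.Lib.PComponents2

set_option autoImplicit false
open Cfsg

namespace Cfsg.Agent.S1273
open CfsgLib.PComponents

/-- Let K be a p-component of the finite group X and N a normal subgroup of K whose index in K is prime to p. Then N = K. -/
theorem result {X : Type*} [Group X] [Finite X] (p : ℕ) [Fact p.Prime] (K : Subgroup X) (hK : Cfsg.IsPComponent p K) (N : Subgroup ↥K) [N.Normal] (hidx : (N.index).Coprime p) : N = ⊤ := by
  have h : pGen p K ≤ N.map K.subtype := by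
    refine (Subgroup.closure_le _).mpr ?_
    rintro x ⟨hxK, hx⟩
    refine ⟨⟨x, hxK⟩, (QuotientGroup.eq_one_iff _).mp ?_, rfl⟩
    obtain ⟨k, hk⟩ := isPElt_iff_orderOf.mp hx
    refine orderOf_eq_one_iff.mp (Nat.eq_one_of_dvd_coprimes (hidx.pow_right k) ?_ ?_)
    · rw [N.index_eq_card]; exact orderOf_dvd_natCard _
    · exact hk ▸ (Subgroup.orderOf_mk x hxK ▸ orderOf_map_dvd (QuotientGroup.mk' N) ⟨x, hxK⟩)
  rw [pComponent_pGen_self hK] at h
  refine eq_top_iff.mpr fun x _ => ?_
  obtain ⟨y, hy, hye⟩ := h x.2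
  exact Subtype.ext hye ▸ hy

end Cfsg.Agent.S1273
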