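import Cfsg.Statements.S1275
import Cfsg.Agent.Lib.PComponents2

set_option autoImplicit false
open Cfsg

namespace Cfsg.Agent.S1275
open CfsgLib.PComponents

/-- For a 2-component K of a finite group X, the quotient of K by its core O(K) is quasisimple. -/
theorem result {X : Type*} [Group X] [Finite X] (K : Subgroup X) (hK : Cfsg.IsPComponent 2 K) : Cfsg.IsQuasisimple (↥K ⧸ Cfsg.oddCore ↥K) := by
  let f := (QuotientGroup.mk' (Cfsg.pPrimeCore 2 X)).subgroupMap K
  have hker : f.ker = Cfsg.oddCore ↥K := by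
    refine Subgroup.map_injective K.subtype_injective ?_
    show _ = (Cfsg.pPrimeCore 2 ↥K).map K.subtype
    rw [pPrimeCore_map_subnormal hK.1]
    ext x
    constructor
    · rintro ⟨y, hy, rfl⟩
      exact ⟨y.2, (QuotientGroup.eq_one_iff _).mp (congrArg Subtype.val (MonoidHom.mem_ker.mp hy))⟩
    · rintro ⟨h1, h2⟩
      exact ⟨⟨x, h1⟩, MonoidHom.mem_ker.mpr (Subtype.ext ((QuotientGroup.eq_one_iff x).mpr h2)), rfl⟩
  exact CfsgLib.Layer2.isQuasisimple_of_equiv
    ((QuotientGroup.quotientMulEquivOfEq hker.symm).trans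
      (QuotientGroup.quotientKerEquivOfSurjective f ((QuotientGroup.mk' _).subgroupMap_surjective K))).symm hK.2.1.2

end Cfsg.Agent.S1275
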