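import Cfsg.Statements.S1276
import Cfsg.Agent.Lib.PComponents2
import Cfsg.Agent.S1275

set_option autoImplicit false
open Cfsg

namespace Cfsg.Agent.S1276
open CfsgLib.PComponents CfsgLib.Components

/-- Let K be a 2-component of the finite group X. Then K is quasisimple if and only if ⁅K, O(K)⁆ = 1. -/
theorem result {X : Type*} [Group X] [Finite X] (K : Subgroup X) (hK : Cfsg.IsPComponent 2 K) : Cfsg.IsQuasisimple ↥K ↔ ⁅K, ((Cfsg.oddCore ↥K).map K.subtype)⁆ = ⊥ := by
  haveI := CfsgLib.Core.pPrimeCore_characteristic (G := ↥K) 2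
  have hperf : ⁅(⊤ : Subgroup ↥K), (⊤ : Subgroup ↥K)⁆ = ⊤ := by
    refine Subgroup.map_injective K.subtype_injective ?_
    rw [Subgroup.map_commutator, ← MonoidHom.range_eq_map, Subgroup.range_subtype, pComponent_perfect hK]
  have e : ⁅K, (Cfsg.oddCore ↥K).map K.subtype⁆ = ⁅(⊤ : Subgroup ↥K), Cfsg.oddCore ↥K⁆.map K.subtype := by
    rw [Subgroup.map_commutator, ← MonoidHom.range_eq_map, Subgroup.range_subtype]
  constructor
  · intro hq
    rcases quasisimple_normal_cases hq (Cfsg.oddCore ↥K) with h | h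
    · exfalso
      have h2 := CfsgLib.Core.card_pPrimeCore_coprime (G := ↥K) 2
      rw [show Cfsg.pPrimeCore 2 ↥K = ⊤ from h, Subgroup.card_top] at h2
      exact (Nat.Prime.coprime_iff_not_dvd Nat.prime_two).mp h2.symm (prime_dvd_card_pComponent hK)
    · rw [e, Subgroup.commutator_comm, Subgroup.commutator_top_right_eq_bot_iff_le_center.mpr h, Subgroup.map_bot]
  · intro h
    rw [e, Subgroup.map_eq_bot_iff, Subgroup.ker_subtype, le_bot_iff, Subgroup.commutator_comm,
      Subgroup.commutator_top_right_eq_bot_iff_le_center] at h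
    refine (quasisimple_iff_of_central_ker (QuotientGroup.mk' (Cfsg.oddCore ↥K)) (QuotientGroup.mk'_surjective _)
      hperf (by rw [QuotientGroup.ker_mk']; exact h)).2 (Cfsg.Agent.S1275.result K hK)

end Cfsg.Agent.S1276
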