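import Cfsg.Statements.S1277
import Cfsg.Agent.Lib.PComponents2

set_option autoImplicit false
open Cfsg

namespace Cfsg.Agent.S1277
open CfsgLib.PComponents CfsgLib.Components

/-- For a finite group X with core O(X): the image of E(X) in X / O(X) is all of E(X / O(X)) if and only if every 2-component of X is a component, i.e. L_{2'}(X) ≤ E(X). -/
theorem result {X : Type*} [Group X] [Finite X] : (Cfsg.layer X).map (QuotientGroup.mk' (Cfsg.oddCore X)) = Cfsg.layer (X ⧸ Cfsg.oddCore X) ↔ Cfsg.pLayer 2 X ≤ Cfsg.layer X := by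
  constructor
  · intro h
    refine sSup_le fun K hK => ?_
    set π := QuotientGroup.mk' (Cfsg.pPrimeCore 2 X) with hπ
    by_cases hex : ∃ L, Cfsg.IsComponent L ∧ L.map π = K.map π
    · obtain ⟨L, hL, he⟩ := hex
      exact ((pComponent_eq_pGen hK).le.trans (pGen_comap_le hL.1 he)).trans (component_le_layer hL)
    · exfalso
      refine component_not_abelian hK.2.1 ?_
      have h' : Cfsg.layer (X ⧸ Cfsg.pPrimeCore 2 X) ≤ Subgroup.centralizer (K.map π : Set (X ⧸ Cfsg.pPrimeCore 2 X)) := by
        refine h.ge.trans (Subgroup.map_le_iff_le_comap.mpr (sSup_le fun L hL => Subgroup.map_le_iff_le_comap.mp ?_))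
        by_cases hk : L ≤ π.ker
        · rw [(Subgroup.map_eq_bot_iff L).mpr hk]; exact bot_le
        · exact Subgroup.commutator_eq_bot_iff_le_centralizer.mp (component_comm
            (component_map_of_not_le_ker hL π (QuotientGroup.mk'_surjective _) hk) hK.2.1 fun he => hex ⟨L, hL, he⟩)
      exact (component_le_layer hK.2.1).trans h'
  · intro h
    refine le_antisymm (Subgroup.map_le_iff_le_comap.mpr (sSup_le fun L hL => Subgroup.map_le_iff_le_comap.mp ?_)) ?_
    · by_cases hk : L ≤ (QuotientGroup.mk' (Cfsg.oddCore X)).ker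
      · rw [(Subgroup.map_eq_bot_iff L).mpr hk]; exact bot_le
      · exact component_le_layer (component_map_of_not_le_ker hL _ (QuotientGroup.mk'_surjective _) hk)
    · exact (map_pLayer (G := X) (p := 2)).ge.trans (Subgroup.map_mono h)

end Cfsg.Agent.S1277
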