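import Cfsg.Statements.S1278
import Cfsg.Agent.Lib.PComponents2

set_option autoImplicit false
open Cfsg

namespace Cfsg.Agent.S1278
open CfsgLib.PComponents CfsgLib.Components

/-- Let K ≠ L be 2-components of the finite group X. Then ⁅K, L⁆ ≤ O(K) ⊓ O(L), and if K is quasisimple then ⁅K, L⁆ = 1. -/
theorem result {X : Type*} [Group X] [Finite X] (K L : Subgroup X) (hK : Cfsg.IsPComponent 2 K) (hL : Cfsg.IsPComponent 2 L) (hne : K ≠ L) : ⁅K, L⁆ ≤ ((Cfsg.oddCore ↥K).map K.subtype) ⊓ ((Cfsg.oddCore ↥L).map L.subtype) ∧ (Cfsg.IsQuasisimple ↥K → ⁅K, L⁆ = ⊥) := by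
  set π := QuotientGroup.mk' (Cfsg.pPrimeCore 2 X) with hπ
  have hne' : K.map π ≠ L.map π := fun h => hne (pComponent_ext hK hL h)
  have hc := component_comm hK.2.1 hL.2.1 hne'
  have hO : ⁅K, L⁆ ≤ Cfsg.pPrimeCore 2 X := by
    rw [← QuotientGroup.ker_mk' (Cfsg.pPrimeCore 2 X), ← Subgroup.map_eq_bot_iff, Subgroup.map_commutator]
    exact hc
  have h1 : ⁅K, L⁆ ≤ K := Subgroup.le_normalizer_iff_commutator_le_left.mp (pComponent_normalizes hK hL)
  have h2 : ⁅K, L⁆ ≤ L := by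
    rw [Subgroup.commutator_comm]
    exact Subgroup.le_normalizer_iff_commutator_le_left.mp (pComponent_normalizes hL hK)
  refine ⟨?_, fun hq => ?_⟩
  · show ⁅K, L⁆ ≤ (Cfsg.pPrimeCore 2 ↥K).map K.subtype ⊓ (Cfsg.pPrimeCore 2 ↥L).map L.subtype
    rw [pPrimeCore_map_subnormal hK.1, pPrimeCore_map_subnormal hL.1]
    exact le_inf (le_inf h1 hO) (le_inf h2 hO)
  · refine (component_cases (⟨hK.1, hq⟩ : Cfsg.IsComponent K) hL.1).resolve_left fun h => ?_
    exact component_not_abelian hK.2.1 fun a ha b hb =>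
      Subgroup.commutator_eq_bot_iff_le_centralizer.mp hc ha b (Subgroup.map_mono h hb)

end Cfsg.Agent.S1278
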