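import Cfsg.Statements.S1279
import Cfsg.Agent.Lib.PComponents2

set_option autoImplicit false
open Cfsg

namespace Cfsg.Agent.S1279
open CfsgLib.PComponents

/-- Let A be a noncyclic elementary abelian p-subgroup of the finite group G such that C_G(a) is solvable for every non-identity a ∈ A. Then a ↦ O_{p'}(C_G(a)) is a solvable A-signalizer functor on G. -/
theorem result {G : Type*} [Group G] [Finite G] (p : ℕ) [Fact p.Prime] (A : Subgroup G) (hA : Cfsg.IsElementaryAbelian p A) (hA2 : p ^ 2 ≤ Nat.card ↥A) (hsolv : ∀ a ∈ A, a ≠ 1 → Group.IsSolvable ↥(Subgroup.centralizer ({a} : Set G))) : Cfsg.IsSolvableSignalizerFunctor p A (fun a => Cfsg.centralizerPPrimeCore p a) := by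
  have hp : p.Prime := Fact.out
  have hmem : ∀ a ∈ A, ∀ b ∈ A, b ∈ Subgroup.centralizer ({a} : Set G) := fun a ha b hb =>
    Subgroup.mem_centralizer_singleton_iff.mpr (congrArg Subtype.val (hA.1.is_comm.comm ⟨b, hb⟩ ⟨a, ha⟩))
  refine ⟨⟨fun a _ _ => Subgroup.map_subtype_le _, ?_, ?_, ?_⟩, ?_⟩
  · intro a _ _
    show ¬ p ∣ Nat.card ↥((Cfsg.pPrimeCore p ↥(Subgroup.centralizer ({a} : Set G))).map _)
    rw [Subgroup.card_map_of_injective (Subgroup.subtype_injective _)]
    exact hp.coprime_iff_not_dvd.mp (CfsgLib.Core.card_pPrimeCore_coprime p).symm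
  · rintro a ha _ b hb _ ⟨x, hx, rfl⟩
    exact ⟨_, Subgroup.Normal.conj_mem inferInstance x hx ⟨b, hmem a ha b hb⟩, rfl⟩
  · intro a ha ha1 b hb hb1
    set Y := Subgroup.centralizer ({b} : Set G) with hY
    set Ca := Subgroup.centralizer ({a} : Set G) with hCa
    have haY : a ∈ Y := hmem b hb a ha
    set D := ((Cfsg.pPrimeCore p ↥Ca).map Ca.subtype).subgroupOf Y with hD
    have h1 : D ≤ Subgroup.centralizer ({(⟨a, haY⟩ : ↥Y)} : Set ↥Y) := fun d hd =>
      Subgroup.mem_centralizer_singleton_iff.mpr (Subtype.ext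
        (Subgroup.mem_centralizer_singleton_iff.mp (Subgroup.map_subtype_le _ (Subgroup.mem_subgroupOf.mp hd))))
    have h2 : Subgroup.centralizer ({(⟨a, haY⟩ : ↥Y)} : Set ↥Y) ≤ Subgroup.normalizer (D : Set ↥Y) := by
      intro y hy
      have hy' : (y : G) ∈ Ca := Subgroup.mem_centralizer_singleton_iff.mpr
        (congrArg Subtype.val (Subgroup.mem_centralizer_singleton_iff.mp hy))
      have hfwd : ∀ n : ↥Ca, ∀ d ∈ (Cfsg.pPrimeCore p ↥Ca).map Ca.subtype,
          (n : G) * d * (n : G)⁻¹ ∈ (Cfsg.pPrimeCore p ↥Ca).map Ca.subtype := by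
        rintro n _ ⟨x, hx, rfl⟩
        exact ⟨n * x * n⁻¹, Subgroup.Normal.conj_mem inferInstance x hx n, rfl⟩
      rw [Subgroup.mem_normalizer_iff]
      intro d
      constructor
      · exact fun hd => hfwd ⟨y, hy'⟩ _ hd
      · intro hd
        have := hfwd (⟨y, hy'⟩ : ↥Ca)⁻¹ _ hd
        simpa [mul_assoc, D, Subgroup.mem_subgroupOf] using this
    have h3 : (Nat.card ↥D).Coprime p := by
      refine Nat.Coprime.coprime_dvd_left (Subgroup.card_comap_dvd_of_injective _ _ Y.subtype_injective) ?_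
      rw [Subgroup.card_map_of_injective Ca.subtype_injective]
      exact CfsgLib.Core.card_pPrimeCore_coprime p
    have haP : CfsgLib.PIrr.IsPElt p a := ⟨1, by
      rw [pow_one]; exact hA.2 a ha⟩
    have h := le_pPrimeCore_of_constrained (constrained_of_solvable (hsolv b hb hb1))
      (CfsgLib.PIrr.coe_isPElt.mp haP : CfsgLib.PIrr.IsPElt p (⟨a, haY⟩ : ↥Y)) h1 h2 h3
    rintro x ⟨hx, hxY⟩
    exact ⟨⟨x, hxY⟩, h (Subgroup.mem_subgroupOf.mpr hx), rfl⟩
  · intro a ha ha1
    haveI := hsolv a ha ha1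
    exact Group.isSolvable_of_isSolvable_injective
      (Subgroup.inclusion_injective (Subgroup.map_subtype_le (Cfsg.pPrimeCore p ↥(Subgroup.centralizer ({a} : Set G)))))

end Cfsg.Agent.S1279
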