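import Cfsg.Statements.S1281
import Cfsg.Agent.Lib.Signalizer

set_option autoImplicit false
open Cfsg

namespace Cfsg.Agent.S1281
open CfsgLib.Signalizer

/-- Let θ be a solvable A-signalizer functor on the finite group G (A a noncyclic elementary abelian p-subgroup) and N a normal subgroup of order prime to p. Then for all non-identity a, b ∈ A, the image of θ a in G / N meets the centralizer of the image of b inside the image of θ b. -/
theorem result {G : Type*} [Group G] [Finite G] (p : ℕ) [Fact p.Prime] (A : Subgroup G) (hA : Cfsg.IsElementaryAbelian p A) (hA2 : p ^ 2 ≤ Nat.card ↥A) (θ : G → Subgroup G) (hθ : Cfsg.IsSolvableSignalizerFunctor p A θ) (N : Subgroup G) [N.Normal] (hN : ¬ p ∣ Nat.card ↥N) (a b : G) (ha : a ∈ A) (ha1 : a ≠ 1) (hb : b ∈ A) (hb1 : b ≠ 1) : (θ a).map (QuotientGroup.mk' N) ⊓ Subgroup.centralizer {QuotientGroup.mk' N b} ≤ (θ b).map (QuotientGroup.mk' N) := by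
  set f := QuotientGroup.mk' N with hf
  rintro _ ⟨⟨x, hx, rfl⟩, hxb⟩
  have hbθ := le_normalizer_of_mem (hθ.1.2.2.1 a ha ha1) hb
  have hbN : b ∈ Subgroup.normalizer ((N ⊓ θ a : Subgroup G) : Set G) :=
    CfsgLib.LocalBasic.normalizer_inf_ge (B := A) (by rw [Subgroup.normalizer_eq_top]; exact le_top)
      (le_normalizer_of_mem (hθ.1.2.2.1 a ha ha1)) hb
  have h : ∀ c ∈ Subgroup.zpowers b, x⁻¹ * c * x * c⁻¹ ∈ N ⊓ θ a := by
    intro c hc
    refine ⟨(QuotientGroup.eq_one_iff _).mp ?_, ?_⟩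
    · show f (x⁻¹ * c * x * c⁻¹) = 1
      have hcomm : f x * f c = f c * f x := by
        obtain ⟨j, rfl⟩ := Subgroup.mem_zpowers_iff.mp hc
        rw [map_zpow]
        exact (Commute.zpow_right (Subgroup.mem_centralizer_singleton_iff.mp hxb : f x * f b = f b * f x) j)
      rw [map_mul, map_mul, map_mul, map_inv, map_inv, mul_assoc (f x)⁻¹, ← hcomm]
      group
    · rw [show x⁻¹ * c * x * c⁻¹ = x⁻¹ * (c * x * c⁻¹) by group]
      exact (θ a).mul_mem ((θ a).inv_mem hx) (hθ.1.2.2.1 a ha ha1 c (Subgroup.zpowers_le.mpr hb hc) x hx)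
  obtain ⟨c, hc, hcN⟩ := exists_fixed_zpowers (hA.2 b hb) inf_le_right hbN hbθ (hθ.1.2.1 a ha ha1) hx h
  exact ⟨c, hθ.1.2.2.2 a ha ha1 b hb hb1 hc, ((QuotientGroup.eq).mpr hcN.1).symm⟩

end Cfsg.Agent.S1281
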