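import Cfsg.Statements.S1284
import Cfsg.Agent.Lib.Transitivity

set_option autoImplicit false
open Cfsg

namespace Cfsg.Agent.S1284
open CfsgLib.Signalizer CfsgLib.GroupB.Coprime

/-- Let θ be a solvable A-signalizer functor on the finite group G, A elementary abelian of rank at least 3, q a prime dividing some |θ a|, and Q maximal among the q-subgroups in the family of θ. Then (a) for every member H of the family, some c in the intersection of the θ a (a ∈ A non-identity) makes c Q c⁻¹ ∩ H a Sylow q-subgroup of H; and (b) for every nontrivial subgroup B ≤ A, C_Q(B) is a Sylow q-subgroup of the intersection of the θ b over the non-identity b ∈ B. -/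
theorem result {G : Type*} [Group G] [Finite G] (p : ℕ) [Fact p.Prime] (A : Subgroup G) (hA : Cfsg.IsElementaryAbelian p A) (hA3 : p ^ 3 ≤ Nat.card ↥A) (θ : G → Subgroup G) (hθ : Cfsg.IsSolvableSignalizerFunctor p A θ) (q : ℕ) [Fact q.Prime] (hq : ∃ a ∈ A, a ≠ 1 ∧ q ∣ Nat.card ↥(θ a)) (Q : Subgroup G) (hQW : Q ∈ Cfsg.signalizerFamily p A θ) (hQq : IsPGroup q ↥Q) (hQmax : ∀ R ∈ Cfsg.signalizerFamily p A θ, IsPGroup q ↥R → Q ≤ R → R = Q) : (∀ H : Subgroup G, H ∈ Cfsg.signalizerFamily p A θ → ∃ c ∈ Cfsg.signalizerInf A θ, ∃ S : Sylow q ↥H, (S : Subgroup ↥H).map H.subtype = Q.map (MulAut.conj c).toMonoidHom ⊓ H) ∧ (∀ B : Subgroup G, B ≤ A → B ≠ ⊥ → ∃ S : Sylow q ↥(Cfsg.signalizerInf B θ), (S : Subgroup ↥(Cfsg.signalizerInf B θ)).map (Cfsg.signalizerInf B θ).subtype = Q ⊓ Subgroup.centralizer (B : Set G)) := by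
  have hqp : q ≠ p := by
    rintro rfl
    obtain ⟨a, ha, ha1, h⟩ := hq
    exact hθ.1.2.1 a ha ha1 h
  have hQ : IsMax p q A θ Q := ⟨hQW, hQq, hQmax⟩
  have partA : ∀ H : Subgroup G, H ∈ Cfsg.signalizerFamily p A θ → ∃ c ∈ Cfsg.signalizerInf A θ,
      IsSylowOf q (Q.map (MulAut.conj c).toMonoidHom ⊓ H) H := by
    intro H hH
    obtain ⟨⟨S, hS, hSA⟩, -⟩ := invariant_sylow (le_normalizer_of_mem hH.2.2.1)
      (coprime_of_not_dvd (isPGroup_of_elementary hA) hH.2.1) (Or.inl hH.1) q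
    obtain ⟨R, hR, hle⟩ := exists_max_ge (mem_family_of_le hH hS.1 hSA) hS.isPGroup
    obtain ⟨c, hc, he⟩ := transitivity hA hA3 hθ hqp hQ hR
    refine ⟨c, hc, ?_⟩
    obtain ⟨k, hk⟩ := (hR.2.1.to_le (inf_le_left : R ⊓ H ≤ R)).exists_card_eq
    have hd : q ^ k ∣ Nat.card ↥H := hk ▸ Subgroup.card_dvd_of_le inf_le_right
    rw [he]
    refine ⟨inf_le_right, ?_⟩
    have h1 : Nat.card ↥(R ⊓ H : Subgroup G) ≤ Nat.card ↥S := by
      rw [hk, hS.2]
      exact Nat.pow_le_pow_right (Fact.out : q.Prime).pos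
        (((Fact.out : q.Prime).pow_dvd_iff_le_factorization Nat.card_pos.ne').mp hd)
    rw [← hS.2]
    exact le_antisymm h1 (Subgroup.card_le_of_le (le_inf hle hS.1))
  refine ⟨fun H hH => ?_, fun B hB hB1 => ?_⟩
  · obtain ⟨c, hc, h⟩ := partA H hH
    exact ⟨c, hc, h.exists_sylow⟩
  · obtain ⟨b, hb, hb1⟩ : ∃ b ∈ B, b ≠ 1 := by
      by_contra h
      simp only [not_exists, not_and, not_not] at h
      exact hB1 (eq_bot_iff.mpr fun x hx => Subgroup.mem_bot.mpr (h x hx))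
    have hAI : A ≤ Subgroup.normalizer ((Cfsg.signalizerInf B θ : Subgroup G) : Set G) := by
      refine le_normalizer_of_mem fun a ha x hx => Subgroup.mem_iInf.mpr fun d => ?_
      exact hθ.1.2.2.1 d (hB d.2.1) d.2.2 a ha x (Subgroup.mem_iInf.mp hx d)
    have hIF : Cfsg.signalizerInf B θ ∈ Cfsg.signalizerFamily p A θ :=
      mem_family_of_le (theta_mem_family hθ (hB hb) hb1) (iInf_le _ (⟨b, hb, hb1⟩ : {a : G // a ∈ B ∧ a ≠ 1})) hAI
    obtain ⟨c, hc, h⟩ := partA _ hIF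
    have hcI : c ∈ Cfsg.signalizerInf B θ :=
      Subgroup.mem_iInf.mpr fun d => Subgroup.mem_iInf.mp hc ⟨d, hB d.2.1, d.2.2⟩
    have h2 := h.map_conj (Subgroup.inv_mem _ (Subgroup.le_normalizer hcI))
    rw [Subgroup.map_inf _ _ _ (MulEquiv.injective (MulAut.conj c⁻¹)), conj_conj_inv,
      CfsgLib.LocalBasic.conj_map_eq_of_mem_normalizer (Subgroup.inv_mem _ (Subgroup.le_normalizer hcI))] at h2
    have heq : Q ⊓ Cfsg.signalizerInf B θ = Q ⊓ Subgroup.centralizer (B : Set G) :=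
      le_antisymm (inf_le_inf_left _ (signalizerInf_le_centralizer hθ hB))
        (le_inf inf_le_left (le_signalizerInf hQW hB))
    rw [heq] at h2
    exact h2.exists_sylow

end Cfsg.Agent.S1284
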