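import Cfsg.Statements.S1285
import Cfsg.Agent.Lib.Transitivity

set_option autoImplicit false
open Cfsg

namespace Cfsg.Agent.S1285
open CfsgLib.Signalizer CfsgLib.GroupB.Coprime

/-- Let θ be a solvable A-signalizer functor on the finite group G with A elementary abelian of rank at least 3, and suppose that for some prime q every θ a (a ∈ A non-identity) is a q-group. Then θ is complete. -/
theorem result {G : Type*} [Group G] [Finite G] (p : ℕ) [Fact p.Prime] (A : Subgroup G) (hA : Cfsg.IsElementaryAbelian p A) (hA3 : p ^ 3 ≤ Nat.card ↥A) (θ : G → Subgroup G) (hθ : Cfsg.IsSolvableSignalizerFunctor p A θ) (q : ℕ) [Fact q.Prime] (hq : ∀ a ∈ A, a ≠ 1 → IsPGroup q ↥(θ a)) : Cfsg.IsCompleteSignalizerFunctor p A θ := by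
  have hp : p.Prime := Fact.out
  refine ⟨hθ.1, ?_⟩
  by_cases hqp : q = p
  · refine ⟨⊥, fun b _ x hx => ?_, ?_, fun a ha ha1 => ?_⟩
    · rw [Subgroup.mem_bot.mp hx]; simp
    · rw [Subgroup.card_bot]; exact hp.not_dvd_one
    · rw [bot_inf_eq]
      obtain ⟨k, hk⟩ := (hq a ha ha1).exists_card_eq
      rcases Nat.eq_zero_or_pos k with rfl | hk0
      · exact (Subgroup.eq_bot_of_card_eq _ (by rw [hk, pow_zero])).symm
      · exact absurd (hk ▸ hqp ▸ dvd_pow_self q hk0.ne') (hθ.1.2.1 a ha ha1)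
  have hA2 : p ^ 2 ≤ Nat.card ↥A := (Nat.pow_le_pow_right hp.pos (by norm_num)).trans hA3
  have hqgroup : ∀ U ∈ Cfsg.signalizerFamily p A θ, IsPGroup q ↥U := by
    intro U hU
    obtain ⟨⟨S, hS, hSA⟩, -⟩ := invariant_sylow (le_normalizer_of_mem hU.2.2.1)
      (coprime_of_not_dvd (isPGroup_of_elementary hA) hU.2.1) (Or.inl hU.1) q
    refine hS.isPGroup.to_le ?_
    -- every prime other than `q` is absent
    have key : ∀ r : ℕ, r.Prime → r ∣ Nat.card ↥U → r = q := by
      intro r hr hrd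
      by_contra hrq
      haveI := Fact.mk hr
      obtain ⟨⟨R, hR, hRA⟩, -⟩ := invariant_sylow (le_normalizer_of_mem hU.2.2.1)
        (coprime_of_not_dvd (isPGroup_of_elementary hA) hU.2.1) (Or.inl hU.1) r
      have hRU := mem_family_of_le hU hR.1 hRA
      have hb : R ≤ ⊥ := CfsgLib.CoprimeGen.le_of_centralizers_le R A ⊥ hRA
        (hp.coprime_iff_not_dvd.mpr hRU.2.1).symm hA.1 hA.2 hA2 fun a ha ha1 => by
          have h1 : R ⊓ Subgroup.centralizer ({a} : Set G) ≤ R ⊓ θ a := le_inf inf_le_left (hRU.2.2.2 a ha ha1)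
          refine h1.trans (le_of_eq ?_)
          obtain ⟨i, hi⟩ := hR.isPGroup.exists_card_eq
          obtain ⟨j, hj⟩ := (hq a ha ha1).exists_card_eq
          exact Subgroup.inf_eq_bot_of_coprime (by
            rw [hi, hj]; exact Nat.Coprime.pow _ _ ((Nat.coprime_primes hr (Fact.out : q.Prime)).mpr hrq))
      have h2 := hR.2
      rw [le_bot_iff.mp hb, Subgroup.card_bot] at h2
      have h3 : (Nat.card ↥U).factorization r ≠ 0 :=
        Nat.pos_iff_ne_zero.mp (hr.factorization_pos_of_dvd Nat.card_pos.ne' hrd)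
      exact absurd h2.symm (Nat.one_lt_pow h3 hr.one_lt).ne'
    have hcard : Nat.card ↥U = q ^ (Nat.card ↥U).factorization q := by
      refine Nat.eq_of_factorization_eq Nat.card_pos.ne' (pow_ne_zero _ (Fact.out : q.Prime).ne_zero) fun r => ?_
      rw [(Fact.out : q.Prime).factorization_pow]
      by_cases hr : r = q
      · subst hr; simp
      · rw [Finsupp.single_apply, if_neg (Ne.symm hr)]
        by_contra h
        exact hr (key r (Nat.prime_of_mem_primeFactors (Finsupp.mem_support_iff.mpr h))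
          (Nat.dvd_of_factorization_pos h))
    exact (Subgroup.eq_of_le_of_card_ge hS.1 (by rw [hS.2, ← hcard])).ge
  obtain ⟨c₀, hc₀, hc₀1⟩ : ∃ a ∈ A, a ≠ 1 := by
    by_contra h
    simp only [not_exists, not_and, not_not] at h
    have hbot : A = ⊥ := eq_bot_iff.mpr fun x hx => Subgroup.mem_bot.mpr (h x hx)
    rw [hbot, Subgroup.card_bot] at hA2
    have := Nat.one_lt_pow two_ne_zero hp.one_lt
    omega
  have hI : Cfsg.signalizerInf A θ ∈ Cfsg.signalizerFamily p A θ :=
    mem_family_of_le (theta_mem_family hθ hc₀ hc₀1) (iInf_le _ (⟨c₀, hc₀, hc₀1⟩ : {a : G // a ∈ A ∧ a ≠ 1}))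
      (le_normalizer_of_mem fun a ha x hx => Subgroup.mem_iInf.mpr fun d =>
        hθ.1.2.2.1 d d.2.1 d.2.2 a ha x (Subgroup.mem_iInf.mp hx d))
  obtain ⟨Q, hQ, hIQ⟩ := exists_max_ge hI (hqgroup _ hI)
  refine ⟨Q, hQ.1.2.2.1, hQ.1.2.1, fun a ha ha1 => le_antisymm (hQ.1.2.2.2 a ha ha1) ?_⟩
  refine le_inf ?_ (hθ.1.1 a ha ha1)
  obtain ⟨R, hR, hle⟩ := exists_max_ge (theta_mem_family hθ ha ha1) (hq a ha ha1)
  obtain ⟨c, hc, he⟩ := transitivity hA hA3 hθ hqp hQ hR
  rw [CfsgLib.LocalBasic.conj_map_eq_of_mem_normalizer (Subgroup.le_normalizer (hIQ hc))] at he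
  exact he.symm ▸ hle

end Cfsg.Agent.S1285
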