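import Cfsg.Statements.S1286

set_option autoImplicit false
open Cfsg

namespace Cfsg.Agent.S1286
open Equiv

abbrev a : Perm (Fin 5) := swap 0 1
abbrev b : Perm (Fin 5) := swap 2 3
abbrev c : Perm (Fin 5) := swap 2 4 * swap 2 3
abbrev d : Perm (Fin 5) := swap 0 4 * swap 0 1

def A : Subgroup (Perm (Fin 5)) where
  carrier := {x | x = 1 ∨ x = a ∨ x = b ∨ x = a * b}
  one_mem' := Or.inl rfl
  mul_mem' := by
    rintro x y (rfl | rfl | rfl | rfl) (rfl | rfl | rfl | rfl) <;> simp only [Set.mem_setOf_eq] <;> decide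
  inv_mem' := by
    rintro x (rfl | rfl | rfl | rfl) <;> simp only [Set.mem_setOf_eq] <;> decide

def C3 (u : Perm (Fin 5)) (h : u * (u * u) = 1) : Subgroup (Perm (Fin 5)) where
  carrier := {x | x = 1 ∨ x = u ∨ x = u * u}
  one_mem' := Or.inl rfl
  mul_mem' := by
    rintro x y (rfl | rfl | rfl) (rfl | rfl | rfl) <;> simp [Set.mem_setOf_eq, h, mul_assoc]
  inv_mem' := by
    rintro x (rfl | rfl | rfl)
    · simp
    · exact Or.inr (Or.inr (inv_eq_of_mul_eq_one_right h))
    · exact Or.inr (Or.inl (inv_eq_of_mul_eq_one_right (by rw [mul_assoc]; exact h)))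

abbrev Tc := C3 c (by decide)
abbrev Td := C3 d (by decide)

def th (x : Perm (Fin 5)) : Subgroup (Perm (Fin 5)) := if x = a then Tc else if x = b then Td else ⊥

theorem card_C3 (u : Perm (Fin 5)) (h : u * (u * u) = 1) (h1 : u ≠ 1) : Nat.card (C3 u h) = 3 := by
  have : C3 u h = Subgroup.zpowers u := by
    refine le_antisymm ?_ (Subgroup.zpowers_le.mpr (Or.inr (Or.inl rfl)))
    rintro x (rfl | rfl | rfl)
    · exact one_mem _
    · exact Subgroup.mem_zpowers _
    · exact mul_mem (Subgroup.mem_zpowers _) (Subgroup.mem_zpowers _)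
  rw [this, Nat.card_zpowers]
  exact orderOf_eq_prime (by rw [pow_succ', pow_two]; exact h) h1


/-- There exist a finite group X, an elementary abelian subgroup A of order 4 and a solvable A-signalizer functor θ on X for the prime 2 which is not complete. -/
theorem result : ∃ (X : Type) (_ : Group X) (_ : Finite X) (A : Subgroup X) (θ : X → Subgroup X), Cfsg.IsElementaryAbelian 2 A ∧ Nat.card ↥A = 4 ∧ Cfsg.IsSolvableSignalizerFunctor 2 A θ ∧ ¬ Cfsg.IsCompleteSignalizerFunctor 2 A θ := by
  refine ⟨Perm (Fin 5), inferInstance, inferInstance, A, th, ⟨⟨⟨?_⟩⟩, ?_⟩, ?_, ⟨⟨?_, ?_, ?_, ?_⟩, ?_⟩, ?_⟩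
  · rintro ⟨x, rfl | rfl | rfl | rfl⟩ ⟨y, rfl | rfl | rfl | rfl⟩ <;> apply Subtype.ext <;> decide
  · rintro x (rfl | rfl | rfl | rfl) <;> decide
  · have : (A : Set (Perm (Fin 5))) = (↑({1, a, b, a * b} : Finset (Perm (Fin 5)))) := by
      ext x; simp only [SetLike.mem_coe, Finset.coe_insert, Finset.coe_singleton, Set.mem_insert_iff, Set.mem_singleton_iff]; rfl
    show Nat.card ↥(A : Set (Perm (Fin 5))) = 4
    rw [Nat.card_coe_set_eq, this, Set.ncard_coe_finset]; decide
  · rintro x (rfl | rfl | rfl | rfl) hx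
    · exact absurd rfl hx
    · rw [th, if_pos rfl]; rintro y (rfl | rfl | rfl) <;> rw [Subgroup.mem_centralizer_singleton_iff] <;> decide
    · rw [th, if_neg (by decide), if_pos rfl]; rintro y (rfl | rfl | rfl) <;> rw [Subgroup.mem_centralizer_singleton_iff] <;> decide
    · rw [th, if_neg (by decide), if_neg (by decide)]; exact bot_le
  · intro x _ _
    rw [th]
    split_ifs
    · rw [Tc, card_C3 _ _ (by decide)]; decide
    · rw [Td, card_C3 _ _ (by decide)]; decide
    · rw [Subgroup.card_bot]; decide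
  · rintro x - - y hy z hz
    rw [th] at hz ⊢
    split_ifs at hz ⊢
    · rcases hy with rfl | rfl | rfl | rfl <;> rcases hz with rfl | rfl | rfl <;>
        (show _ ∨ _ ∨ _) <;> decide
    · rcases hy with rfl | rfl | rfl | rfl <;> rcases hz with rfl | rfl | rfl <;>
        (show _ ∨ _ ∨ _) <;> decide
    · rw [Subgroup.mem_bot] at hz ⊢; subst hz; simp
  · rintro x - - y hy hy1 z ⟨hz, hzc⟩
    replace hz : z ∈ th x := hz
    replace hzc : z ∈ Subgroup.centralizer {y} := hzc
    rw [Subgroup.mem_centralizer_singleton_iff] at hzc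
    rw [th] at hz ⊢
    rcases hy with rfl | rfl | rfl | rfl
    · exact absurd rfl hy1
    on_goal 1 => rw [if_pos rfl]
    on_goal 2 => rw [if_neg (by decide), if_pos rfl]
    on_goal 3 => rw [if_neg (by decide), if_neg (by decide)]
    all_goals
      split_ifs at hz <;> first
        | exact hz
        | (rw [Subgroup.mem_bot] at hz; subst hz; exact one_mem _)
        | (rcases hz with rfl | rfl | rfl <;> first | exact one_mem _ | exact absurd hzc (by decide))
  · intro x _ _
    refine Group.isSolvable_of_comm fun u v => Subtype.ext ?_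
    show (u : Perm (Fin 5)) * v = v * u
    have hu : (u : Perm (Fin 5)) ∈ th x := u.2
    have hv : (v : Perm (Fin 5)) ∈ th x := v.2
    unfold th at hu hv
    split_ifs at hu hv
    · rcases hu with h | h | h <;> rcases hv with h' | h' | h' <;> rw [h, h'] <;> simp [mul_assoc]
    · rcases hu with h | h | h <;> rcases hv with h' | h' | h' <;> rw [h, h'] <;> simp [mul_assoc]
    · rw [Subgroup.mem_bot] at hu hv; rw [hu, hv]
  · rintro ⟨-, X, -, hX2, hX⟩
    have hc : c ∈ X := by
      have h := hX a (Or.inr (Or.inl rfl)) (by decide)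
      rw [th, if_pos rfl] at h
      exact (h.ge (Or.inr (Or.inl rfl))).1
    have hd : d ∈ X := by
      have h := hX b (Or.inr (Or.inr (Or.inl rfl))) (by decide)
      rw [th, if_neg (by decide), if_pos rfl] at h
      exact (h.ge (Or.inr (Or.inl rfl))).1
    have hw : c * d * c * d⁻¹ ∈ X := X.mul_mem (X.mul_mem (X.mul_mem hc hd) hc) (X.inv_mem hd)
    refine hX2 (dvd_trans (dvd_of_eq (orderOf_eq_prime ?_ ?_).symm) (X.orderOf_dvd_natCard hw)) <;> decide

end Cfsg.Agent.S1286
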