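import Cfsg.Statements.S1287
import Cfsg.Agent.Lib.CoprimeGen
import Cfsg.Agent.Lib.PLocal.ProductSet

set_option autoImplicit false
open scoped Pointwise commutatorElement
open Cfsg

namespace Cfsg.Agent.S1287

open scoped Pointwise
open CfsgLib.GroupB.Coprime

theorem le_normalizer_inf {G : Type*} [Group G] {A U V : Subgroup G} (hU : A ≤ Subgroup.normalizer (U : Set G))
    (hV : A ≤ Subgroup.normalizer (V : Set G)) : A ≤ Subgroup.normalizer ((U ⊓ V : Subgroup G) : Set G) :=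
  le_normalizer_of_conj_mem fun a ha x hx =>
    Subgroup.mem_inf.mpr ⟨(conj_mem_iff (hU ha)).mpr hx.1, (conj_mem_iff (hV ha)).mpr hx.2⟩

theorem le_normalizer_cent {G : Type*} [Group G] {A : Subgroup G} (hAc : IsMulCommutative ↥A) {a : G} (ha : a ∈ A) :
    A ≤ Subgroup.normalizer ((Subgroup.centralizer ({a} : Set G) : Subgroup G) : Set G) := fun b hb =>
  Subgroup.le_normalizer (Subgroup.mem_centralizer_singleton_iff.mpr (congrArg Subtype.val (hAc.is_comm.comm ⟨b, hb⟩ ⟨a, ha⟩)))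

theorem card_le_of_isPGroup {G : Type*} [Group G] [Finite G] {q : ℕ} [hq : Fact q.Prime] {U X : Subgroup G}
    (hU : IsPGroup q ↥U) (h : U ≤ X) : Nat.card ↥U ≤ q ^ (Nat.card ↥X).factorization q := by
  obtain ⟨k, hk⟩ := hU.exists_card_eq
  rw [hk]
  exact Nat.pow_le_pow_right hq.out.pos
    ((hq.out.pow_dvd_iff_le_factorization Nat.card_pos.ne').mp (hk ▸ Subgroup.card_dvd_of_le h))

/-- The centraliser of `a` in an invariant Sylow subgroup is a Sylow subgroup of the centraliser. -/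
theorem sylow_cent {G : Type*} [Group G] [Finite G] {q : ℕ} [Fact q.Prime] {A X P : Subgroup G}
    (hAc : IsMulCommutative ↥A) (hAX : A ≤ Subgroup.normalizer (X : Set G))
    (hcop : (Nat.card A).Coprime (Nat.card X)) (hsol : Group.IsSolvable ↥A)
    (hP : IsSylowOf q P X) (hAP : A ≤ Subgroup.normalizer (P : Set G)) {a : G} (ha : a ∈ A) :
    IsSylowOf q (P ⊓ Subgroup.centralizer ({a} : Set G)) (X ⊓ Subgroup.centralizer ({a} : Set G)) := by
  set C := Subgroup.centralizer ({a} : Set G) with hC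
  have hAXC := le_normalizer_inf hAX (le_normalizer_cent hAc ha)
  obtain ⟨⟨S, hS, hAS⟩, -⟩ := invariant_sylow hAXC
    (Nat.Coprime.coprime_dvd_right (Subgroup.card_dvd_of_le inf_le_left) hcop) (Or.inr hsol) q
  obtain ⟨T, hST, hT, hAT⟩ := exists_invariant_sylow_ge hAX hcop (Or.inr hsol) q
    (hS.1.trans inf_le_left) hS.isPGroup hAS
  obtain ⟨d, hd, hdT⟩ := (invariant_sylow hAX hcop (Or.inr hsol) q).2 T P hT hAT hP hAP
  refine ⟨inf_le_inf_right _ hP.1, le_antisymm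
    (card_le_of_isPGroup (hP.isPGroup.to_le inf_le_left) (inf_le_inf_right _ hP.1)) ?_⟩
  rw [← hS.2, ← Subgroup.card_map_of_injective (f := (MulAut.conj d).toMonoidHom) (MulAut.conj d).injective]
  refine Subgroup.card_le_of_le ?_
  rintro _ ⟨s, hs, rfl⟩
  refine Subgroup.mem_inf.mpr ⟨hdT ▸ Subgroup.mem_map_of_mem _ (hST hs), Subgroup.mem_centralizer_singleton_iff.mpr ?_⟩
  have h1 : Commute s a := Subgroup.mem_centralizer_singleton_iff.mp (hS.1 hs).2
  have h2 : Commute d a := ((Subgroup.mem_centralizer_iff.mp hd.2) a ha).symm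
  exact (((h2.mul_left h1).mul_left h2.inv_left)).eq

/-- The nilpotent case. -/
theorem pgroup_case {G : Type*} [Group G] [Finite G] {p q : ℕ} [Fact p.Prime] [Fact q.Prime] (A Q U V : Subgroup G)
    (hAc : IsMulCommutative ↥A) (hAp : ∀ a ∈ A, a ^ p = 1) (hcard : p ^ 2 ≤ Nat.card ↥A)
    (hQ : IsPGroup q ↥Q) (hcop : (Nat.card ↥Q).Coprime p) (hAQ : A ≤ Subgroup.normalizer (Q : Set G))
    (hU : U ≤ Q) (hV : V ≤ Q)
    (hfac : ∀ a ∈ A, a ≠ 1 → ∀ z ∈ Q ⊓ Subgroup.centralizer ({a} : Set G), ∃ x ∈ U, ∃ y ∈ V, z = x * y) :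
    ∀ z ∈ Q, ∃ x ∈ U, ∃ y ∈ V, z = x * y := by
  obtain ⟨n, hn⟩ := (Subgroup.isNilpotent_iff_lowerCentralSeries Q).mp hQ.isNilpotent
  suffices h : ∀ k i, i + k = n → ∀ z ∈ Q.lowerCentralSeries i, ∃ x ∈ U, ∃ y ∈ V, z = x * y from
    fun z hz => h n 0 (Nat.zero_add n) z hz
  have hle : ∀ i, Q.lowerCentralSeries i ≤ Q := fun i => Subgroup.lowerCentralSeries_antitone (S := Q) (Nat.zero_le i)
  have hAn : ∀ i, A ≤ Subgroup.normalizer ((Q.lowerCentralSeries i : Subgroup G) : Set G) := by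
    intro i
    induction i with
    | zero => exact hAQ
    | succ i ih => rw [Subgroup.lowerCentralSeries_succ]; exact CfsgLib.LocalBasic.normalizer_commutator_ge ih hAQ
  intro k
  induction k with
  | zero =>
    intro i hi z hz
    rw [Nat.add_zero] at hi
    rw [hi, hn, Subgroup.mem_bot] at hz
    exact ⟨1, one_mem _, 1, one_mem _, by rw [hz, one_mul]⟩
  | succ k ih =>
    intro i hi
    let W : Submonoid G :=
      { carrier := {z | z ∈ Q.lowerCentralSeries i ∧ ∃ x ∈ U, ∃ y ∈ V, z = x * y}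
        one_mem' := ⟨one_mem _, 1, one_mem _, 1, one_mem _, (one_mul 1).symm⟩
        mul_mem' := by
          rintro z₁ z₂ ⟨hz₁, x₁, hx₁, y₁, hy₁, rfl⟩ ⟨hz₂, x₂, hx₂, y₂, hy₂, rfl⟩
          refine ⟨mul_mem hz₁ hz₂, ?_⟩
          -- push the commutator into the next term of the series
          obtain ⟨c, hc⟩ : ∃ c, c = ⁅(x₂ * y₂)⁻¹, y₁⁻¹⁆ := ⟨_, rfl⟩
          have hcm : c ∈ Q.lowerCentralSeries (i + 1) := by
            rw [hc, Subgroup.lowerCentralSeries_succ]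
            exact Subgroup.commutator_mem_commutator (inv_mem hz₂) (inv_mem (hV hy₁))
          have hn' : y₂ * y₁ ∈ Subgroup.normalizer ((Q.lowerCentralSeries (i + 1) : Subgroup G) : Set G) :=
            Subgroup.self_le_normalizer_lowerCentralSeries (S := Q) (i + 1) (mul_mem (hV hy₂) (hV hy₁))
          obtain ⟨x₃, hx₃, y₃, hy₃, he⟩ := ih (i + 1) (by omega) _ ((conj_mem_iff hn').mpr (inv_mem hcm))
          refine ⟨x₁ * (x₂ * x₃), mul_mem hx₁ (mul_mem hx₂ hx₃), y₃ * (y₂ * y₁), mul_mem hy₃ (mul_mem hy₂ hy₁), ?_⟩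
          calc x₁ * y₁ * (x₂ * y₂) = x₁ * x₂ * ((y₂ * y₁) * ⁅(x₂ * y₂)⁻¹, y₁⁻¹⁆⁻¹ * (y₂ * y₁)⁻¹) * (y₂ * y₁) := by
                simp only [commutatorElement_def]; group
            _ = x₁ * x₂ * (x₃ * y₃) * (y₂ * y₁) := by rw [← hc, he]
            _ = x₁ * (x₂ * x₃) * (y₃ * (y₂ * y₁)) := by group }
    let S : Subgroup G :=
      { W with
        inv_mem' := by
          intro z hz
          obtain ⟨m, hm⟩ : ∃ m : ℕ, z⁻¹ = z ^ m := ⟨orderOf z - 1, inv_eq_of_mul_eq_one_right (by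
            rw [← pow_succ', Nat.sub_add_cancel (orderOf_pos z), pow_orderOf_eq_one])⟩
          show z⁻¹ ∈ W
          rw [hm]; exact pow_mem (show z ∈ W from hz) m }
    have hS : Q.lowerCentralSeries i ≤ S := CfsgLib.CoprimeGen.le_of_centralizers_le _ A S (hAn i)
      (Nat.Coprime.coprime_dvd_left (Subgroup.card_dvd_of_le (hle i)) hcop) hAc hAp hcard
      (fun a ha ha1 z hz => ⟨hz.1, hfac a ha ha1 z (Subgroup.mem_inf.mpr ⟨hle i hz.1, hz.2⟩)⟩)
    exact fun z hz => (hS hz).2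


/-- Let A be a noncyclic elementary abelian p-subgroup of a finite group H normalizing a subgroup K of order prime to p, and X, Y ≤ K subgroups normalized by A with C_K(a) = C_X(a) C_Y(a) (as sets) for every non-identity a ∈ A, where X is also normalized by C_K(A). Then K = XY as sets. -/
theorem result {H : Type*} [Group H] [Finite H] (p : ℕ) [Fact p.Prime] (A K X Y : Subgroup H) (hA : Cfsg.IsElementaryAbelian p A) (hA2 : p ^ 2 ≤ Nat.card ↥A) (hK : ¬ p ∣ Nat.card ↥K) (hAK : A ≤ Subgroup.normalizer (K : Set H)) (hX : X ≤ K) (hY : Y ≤ K) (hAX : A ≤ Subgroup.normalizer (X : Set H)) (hAY : A ≤ Subgroup.normalizer (Y : Set H)) (hCX : K ⊓ Subgroup.centralizer (A : Set H) ≤ Subgroup.normalizer (X : Set H)) (hfac : ∀ a ∈ A, a ≠ 1 → ((K ⊓ Subgroup.centralizer {a} : Subgroup H) : Set H) = ((X ⊓ Subgroup.centralizer {a} : Subgroup H) : Set H) * ((Y ⊓ Subgroup.centralizer {a} : Subgroup H) : Set H)) : (K : Set H) = (X : Set H) * (Y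 : Set H) := by
  classical
  have hAc := hA.1
  have hAp := hA.2
  have hApg : IsPGroup p ↥A := fun a => ⟨1, Subtype.ext (by simp [hAp _ a.2])⟩
  have hsol : Group.IsSolvable ↥A := by
    have := hApg.isNilpotent
    infer_instance
  have hKp : (Nat.card ↥K).Coprime p := ((Nat.Prime.coprime_iff_not_dvd (Fact.out)).mpr hK).symm
  have hcop : ∀ U : Subgroup H, U ≤ K → (Nat.card A).Coprime (Nat.card U) := by
    intro U hU
    obtain ⟨k, hk⟩ := hApg.exists_card_eq
    rw [hk]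
    exact (Nat.Coprime.coprime_dvd_left (Subgroup.card_dvd_of_le hU) hKp).symm.pow_left k
  have hprod : (X : Set H) * (Y : Set H) ⊆ (K : Set H) := by
    rintro _ ⟨x, hx, y, hy, rfl⟩
    exact mul_mem (hX hx) (hY hy)
  suffices hmain : Nat.card ↥K * Nat.card ↥(X ⊓ Y : Subgroup H) = Nat.card ↥X * Nat.card ↥Y by
    refine (Set.eq_of_subset_of_ncard_le hprod ?_ (Set.toFinite _)).symm
    rw [← CfsgLib.PLocal.ProductSet.card_mul_eq X Y] at hmain
    have h := Nat.eq_of_mul_eq_mul_right Nat.card_pos hmain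
    rw [← Nat.card_coe_set_eq, ← Nat.card_coe_set_eq]
    exact h.le
  refine Nat.eq_of_factorization_eq (mul_ne_zero Nat.card_pos.ne' Nat.card_pos.ne')
    (mul_ne_zero Nat.card_pos.ne' Nat.card_pos.ne') fun q => ?_
  by_cases hq : q.Prime
  swap
  · rw [Nat.factorization_eq_zero_of_not_prime _ hq, Nat.factorization_eq_zero_of_not_prime _ hq]
  haveI : Fact q.Prime := ⟨hq⟩
  -- invariant Sylow subgroups, moved into one Sylow subgroup of K
  obtain ⟨⟨QX, hQX, hAQX⟩, -⟩ := invariant_sylow hAX (hcop X hX) (Or.inr hsol) q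
  obtain ⟨Q, hQXQ, hQ, hAQ⟩ := exists_invariant_sylow_ge hAK (hcop K le_rfl) (Or.inr hsol) q
    (hQX.1.trans hX) hQX.isPGroup hAQX
  obtain ⟨⟨QY, hQY, hAQY⟩, -⟩ := invariant_sylow hAY (hcop Y hY) (Or.inr hsol) q
  obtain ⟨Q2, hQYQ, hQ2, hAQ2⟩ := exists_invariant_sylow_ge hAK (hcop K le_rfl) (Or.inr hsol) q
    (hQY.1.trans hY) hQY.isPGroup hAQY
  obtain ⟨c, hc, hcQ⟩ := (invariant_sylow hAK (hcop K le_rfl) (Or.inr hsol) q).2 Q2 Q hQ2 hAQ2 hQ hAQ
  have hcX : c ∈ Subgroup.normalizer (X : Set H) := hCX hc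
  have hcA : ∀ a ∈ A, a * c = c * a := Subgroup.mem_centralizer_iff.mp hc.2
  obtain ⟨Y', hY'⟩ : ∃ Y', Y' = Y.map (MulAut.conj c).toMonoidHom := ⟨_, rfl⟩
  obtain ⟨QY', hQY'⟩ : ∃ QY', QY' = QY.map (MulAut.conj c).toMonoidHom := ⟨_, rfl⟩
  have hY'K : Y' ≤ K := by
    rw [hY']; rintro _ ⟨y, hy, rfl⟩
    exact mul_mem (mul_mem hc.1 (hY hy)) (inv_mem hc.1)
  have hQY'Q : QY' ≤ Q := hQY' ▸ hcQ ▸ Subgroup.map_mono hQYQ
  have hcinj : Function.Injective (MulAut.conj c).toMonoidHom := (MulAut.conj c).injective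
  have hQY's : IsSylowOf q QY' Y' := ⟨hQY' ▸ hY' ▸ Subgroup.map_mono hQY.1, by
    rw [hQY', hY', Subgroup.card_map_of_injective hcinj, Subgroup.card_map_of_injective hcinj]; exact hQY.2⟩
  have hAconj : ∀ U : Subgroup H, A ≤ Subgroup.normalizer (U : Set H) →
      A ≤ Subgroup.normalizer ((U.map (MulAut.conj c).toMonoidHom : Subgroup H) : Set H) := by
    intro U hU
    refine le_normalizer_of_conj_mem fun a ha x hx => ?_
    obtain ⟨u, hu, rfl⟩ := hx
    refine ⟨a * u * a⁻¹, (conj_mem_iff (hU ha)).mpr hu, ?_⟩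
    show c * (a * u * a⁻¹) * c⁻¹ = a * (c * u * c⁻¹) * a⁻¹
    have h2 : a⁻¹ * c⁻¹ = c⁻¹ * a⁻¹ := by rw [← mul_inv_rev, ← mul_inv_rev, hcA a ha]
    calc c * (a * u * a⁻¹) * c⁻¹ = (c * a) * u * (a⁻¹ * c⁻¹) := by group
      _ = (a * c) * u * (c⁻¹ * a⁻¹) := by rw [← hcA a ha, h2]
      _ = a * (c * u * c⁻¹) * a⁻¹ := by group
  have hAY' : A ≤ Subgroup.normalizer (Y' : Set H) := hY' ▸ hAconj Y hAY
  have hAQY' : A ≤ Subgroup.normalizer (QY' : Set H) := hQY' ▸ hAconj QY hAQY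
  have hfac' : ∀ a ∈ A, a ≠ 1 → ((K ⊓ Subgroup.centralizer {a} : Subgroup H) : Set H) =
      ((X ⊓ Subgroup.centralizer {a} : Subgroup H) : Set H) * ((Y' ⊓ Subgroup.centralizer {a} : Subgroup H) : Set H) := by
    intro a ha ha1
    have hca : Commute c a := (hcA a ha).symm
    have hcom : ∀ g : H, Commute g a → Commute (c * g * c⁻¹) a := fun g hg => (hca.mul_left hg).mul_left hca.inv_left
    refine Set.Subset.antisymm (fun k hk => ?_) ?_
    · obtain ⟨hk1, hk2⟩ := Subgroup.mem_inf.mp hk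
      have hk' : c⁻¹ * k * c ∈ K ⊓ Subgroup.centralizer ({a} : Set H) := Subgroup.mem_inf.mpr
        ⟨mul_mem (mul_mem (inv_mem hc.1) hk1) hc.1, Subgroup.mem_centralizer_singleton_iff.mpr
          ((hca.inv_left.mul_left (Subgroup.mem_centralizer_singleton_iff.mp hk2)).mul_left hca).eq⟩
      have := (Set.ext_iff.mp (hfac a ha ha1) _).mp hk'
      obtain ⟨x, hx, y, hy, hxy⟩ := this
      obtain ⟨hx1, hx2⟩ := Subgroup.mem_inf.mp hx
      obtain ⟨hy1, hy2⟩ := Subgroup.mem_inf.mp hy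
      refine ⟨c * x * c⁻¹, Subgroup.mem_inf.mpr ⟨(conj_mem_iff hcX).mpr hx1, Subgroup.mem_centralizer_singleton_iff.mpr
        (hcom x (Subgroup.mem_centralizer_singleton_iff.mp hx2)).eq⟩, c * y * c⁻¹,
        Subgroup.mem_inf.mpr ⟨hY' ▸ ⟨y, hy1, rfl⟩, Subgroup.mem_centralizer_singleton_iff.mpr
        (hcom y (Subgroup.mem_centralizer_singleton_iff.mp hy2)).eq⟩, ?_⟩
      calc c * x * c⁻¹ * (c * y * c⁻¹) = c * (x * y) * c⁻¹ := by group
        _ = k := by simp only at hxy; rw [hxy]; group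
    · rintro _ ⟨x, hx, y, hy, rfl⟩
      exact mul_mem (Subgroup.mem_inf.mpr ⟨hX hx.1, hx.2⟩) (Subgroup.mem_inf.mpr ⟨hY'K hy.1, hy.2⟩)
  -- each centraliser in Q factorises, and the intersection of the factors is Sylow in that of the centralisers
  set W := X ⊓ Y' with hW
  set U := QX ⊓ QY' with hU
  have hmemU : ∀ a ∈ A, a ≠ 1 → (∀ z ∈ Q ⊓ Subgroup.centralizer ({a} : Set H), ∃ x ∈ QX, ∃ y ∈ QY', z = x * y) ∧
      q ^ (Nat.card ↥(W ⊓ Subgroup.centralizer ({a} : Set H))).factorization q ≤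
        Nat.card ↥(U ⊓ Subgroup.centralizer ({a} : Set H)) := by
    intro a ha ha1
    set C := Subgroup.centralizer ({a} : Set H) with hC
    have sK := sylow_cent hAc hAK (hcop K le_rfl) hsol hQ hAQ ha
    have sX := sylow_cent hAc hAX (hcop X hX) hsol hQX hAQX ha
    have sY := sylow_cent hAc hAY' (hcop Y' hY'K) hsol hQY's hAQY' ha
    have hG := CfsgLib.PLocal.ProductSet.card_mul_eq (X ⊓ C) (Y' ⊓ C)
    rw [← hfac' a ha ha1, ← inf_inf_distrib_right, ← hW] at hG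
    have hS := CfsgLib.PLocal.ProductSet.card_mul_eq (QX ⊓ C) (QY' ⊓ C)
    rw [← inf_inf_distrib_right, ← hU] at hS
    have hsub : ((QX ⊓ C : Subgroup H) : Set H) * ((QY' ⊓ C : Subgroup H) : Set H) ⊆ ((Q ⊓ C : Subgroup H) : Set H) := by
      rintro _ ⟨x, hx, y, hy, rfl⟩
      exact mul_mem (Subgroup.mem_inf.mpr ⟨hQXQ hx.1, hx.2⟩) (Subgroup.mem_inf.mpr ⟨hQY'Q hy.1, hy.2⟩)
    have hUle := card_le_of_isPGroup (q := q) (hQX.isPGroup.to_le (inf_le_left.trans inf_le_left : U ⊓ C ≤ QX))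
      (inf_le_inf_right C (inf_le_inf hQX.1 hQY's.1) : U ⊓ C ≤ W ⊓ C)
    have hle : (((QX ⊓ C : Subgroup H) : Set H) * ((QY' ⊓ C : Subgroup H) : Set H)).ncard ≤
        ((Q ⊓ C : Subgroup H) : Set H).ncard := Set.ncard_le_ncard hsub (Set.toFinite _)
    have hf := congrArg (fun n => n.factorization q) hG
    simp only [Nat.factorization_mul Nat.card_pos.ne' Nat.card_pos.ne', Finsupp.add_apply] at hf
    rw [Nat.card_coe_set_eq, sX.2, sY.2, ← pow_add] at hS
    have hK' : Nat.card ↥((K ⊓ C : Subgroup H) : Set H) = Nat.card ↥(K ⊓ C) := rfl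
    rw [hK'] at hf
    rw [← hf, pow_add, ← sK.2] at hS
    rw [← Nat.card_coe_set_eq (((Q ⊓ C : Subgroup H) : Set H))] at hle
    have hQc : Nat.card ↥((Q ⊓ C : Subgroup H) : Set H) = Nat.card ↥(Q ⊓ C) := rfl
    rw [hQc] at hle
    have hpos : 0 < Nat.card ↥(Q ⊓ C) := Nat.card_pos
    have hU' : q ^ (Nat.card ↥(W ⊓ C)).factorization q ≤ Nat.card ↥(U ⊓ C) := by
      refine Nat.le_of_mul_le_mul_left ?_ hpos
      rw [← hS]
      exact Nat.mul_le_mul_right _ hle
    refine ⟨fun z hz => ?_, hU'⟩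
    have hee := le_antisymm hUle hU'
    rw [← hee] at hS
    have h := Nat.eq_of_mul_eq_mul_right Nat.card_pos hS
    have heq := Set.eq_of_subset_of_ncard_le hsub (by
      rw [h, ← Nat.card_coe_set_eq]; exact le_of_eq hQc) (Set.toFinite _)
    obtain ⟨x, hx, y, hy, hxy⟩ := (Set.ext_iff.mp heq z).mpr hz
    exact ⟨x, hx.1, y, hy.1, hxy.symm⟩
  -- the intersection is a Sylow subgroup of W
  have hAU : A ≤ Subgroup.normalizer (U : Set H) := le_normalizer_inf hAQX hAQY'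
  obtain ⟨R, hUR, hR, hAR⟩ := exists_invariant_sylow_ge (le_normalizer_inf hAX hAY')
    (hcop W (inf_le_left.trans hX)) (Or.inr hsol) q (inf_le_inf hQX.1 hQY's.1) (hQX.isPGroup.to_le inf_le_left) hAU
  have hRU : R ≤ U := by
    refine CfsgLib.CoprimeGen.le_of_centralizers_le R A U hAR
      (Nat.Coprime.coprime_dvd_left (Subgroup.card_dvd_of_le (hR.1.trans (inf_le_left.trans hX))) hKp) hAc hAp hA2 ?_
    intro a ha ha1
    have h1 := card_le_of_isPGroup (hR.isPGroup.to_le (inf_le_left (b := Subgroup.centralizer ({a} : Set H))))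
      (inf_le_inf_right _ hR.1)
    have h2 := Subgroup.eq_of_le_of_card_ge (inf_le_inf_right _ hUR) (h1.trans (hmemU a ha ha1).2)
    exact h2 ▸ inf_le_left
  have hUcard : Nat.card ↥U = q ^ (Nat.card ↥W).factorization q := by rw [← le_antisymm hRU hUR]; exact hR.2
  -- the product of the factors is all of Q
  have hQeq : ((QX : Set H) * (QY' : Set H)) = (Q : Set H) := by
    refine Set.Subset.antisymm ?_ ?_
    · rintro _ ⟨x, hx, y, hy, rfl⟩
      exact mul_mem (hQXQ hx) (hQY'Q hy)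
    · intro z hz
      obtain ⟨x, hx, y, hy, rfl⟩ := pgroup_case (p := p) A Q QX QY' hAc hAp hA2 hQ.isPGroup
        (Nat.Coprime.coprime_dvd_left (Subgroup.card_dvd_of_le hQ.1) hKp) hAQ hQXQ hQY'Q
        (fun a ha ha1 => (hmemU a ha ha1).1) z hz
      exact ⟨x, hx, y, hy, rfl⟩
  have hfin := CfsgLib.PLocal.ProductSet.card_mul_eq QX QY'
  have hWc : Nat.card ↥W = Nat.card ↥(X ⊓ Y : Subgroup H) := by
    have : W = (X ⊓ Y).map (MulAut.conj c).toMonoidHom := by
      rw [Subgroup.map_inf _ _ _ hcinj, hW, hY', mem_normalizer_iff_map_conj_eq.mp hcX]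
    rw [this, Subgroup.card_map_of_injective hcinj]
  have hQc : Nat.card ↥((Q : Subgroup H) : Set H) = Nat.card ↥Q := rfl
  rw [hQeq, hQc, ← hU, hUcard, hQ.2, hQX.2, hQY's.2, hWc, hY', Subgroup.card_map_of_injective hcinj,
    ← pow_add, ← pow_add] at hfin
  rw [Nat.factorization_mul Nat.card_pos.ne' Nat.card_pos.ne', Nat.factorization_mul Nat.card_pos.ne' Nat.card_pos.ne',
    Finsupp.add_apply, Finsupp.add_apply]
  exact Nat.pow_right_injective hq.two_le hfin

end Cfsg.Agent.S1287
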