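import Cfsg.Statements.S1288
import Cfsg.Agent.Lib.Signalizer
import Cfsg.Agent.Lib.PComponents2

set_option autoImplicit false
open Cfsg

namespace Cfsg.Agent.S1288
open scoped commutatorElement

/-- Let A be a noncyclic elementary abelian p-subgroup of a finite group H normalizing a solvable subgroup K of order prime to p, q a prime dividing |K|, and U ≤ K a subgroup of order prime to q such that ⁅U, C_K(B)⁆ has order prime to q for every subgroup B of index p in A. Then U ≤ O_{q'}(K). -/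
theorem result {H : Type*} [Group H] [Finite H] (p : ℕ) [Fact p.Prime] (A K : Subgroup H) (hA : Cfsg.IsElementaryAbelian p A) (hA2 : p ^ 2 ≤ Nat.card ↥A) (hK : ¬ p ∣ Nat.card ↥K) (hKs : Group.IsSolvable ↥K) (hAK : A ≤ Subgroup.normalizer (K : Set H)) (q : ℕ) [Fact q.Prime] (hqK : q ∣ Nat.card ↥K) (U : Subgroup H) (hU : U ≤ K) (hUq : ¬ q ∣ Nat.card ↥U) (hcomm : ∀ B : Subgroup H, B ≤ A → B.relIndex A = p → ¬ q ∣ Nat.card ↥⁅U, K ⊓ Subgroup.centralizer (B : Set H)⁆) : U ≤ (Cfsg.pPrimeCore q ↥K).map K.subtype := by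
  set O := Cfsg.pPrimeCore q ↥K with hOdef
  set f := QuotientGroup.mk' O with hf
  haveI : Group.IsSolvable ↥K := hKs
  have hch : CfsgLib.CharP.HasCharP q (↥K ⧸ O) :=
    (CfsgLib.PComponents.charP_iff_layer_eq_bot CfsgLib.PComponents.quotient_core_trivial).2
      (CfsgLib.Components.eq_bot_of_perfect_solvable CfsgLib.Components.layer_perfect inferInstance)
  set Q := Cfsg.pCore q (↥K ⧸ O) with hQ
  haveI := CfsgLib.Core.pCore_characteristic (G := ↥K ⧸ O) q
  set F := (Q.comap f).map K.subtype with hF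
  set U' := U.subgroupOf K with hU'
  have hU'q : (Nat.card ↥U').Coprime q := by
    rw [Nat.card_congr (Subgroup.subgroupOfEquivOfLe hU).toEquiv]
    exact (((Fact.out : q.Prime).coprime_iff_not_dvd).mpr hUq).symm
  set Z := ((Subgroup.centralizer ((U'.map f : Subgroup (↥K ⧸ O)) : Set (↥K ⧸ O))).comap f).map K.subtype with hZ
  have hAF : A ≤ Subgroup.normalizer (F : Set H) := by
    intro a ha
    let e : ↥K ≃* ↥K := ((MulAut.conj a).subgroupMap K).trans
      (MulEquiv.subgroupCongr (CfsgLib.LocalBasic.conj_map_eq_of_mem_normalizer (hAK ha)))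
    have hFc : ∀ x ∈ Q.comap f, e x ∈ Q.comap f := by
      intro x hx
      have hO : O.map e.toMonoidHom = O := CfsgLib.Core.pPrimeCore_map_equiv e q
      let e' := QuotientGroup.congr O O e hO
      have := (CfsgLib.Core.pCore_map_equiv e' q).le ⟨f x, hx, rfl⟩
      exact this
    refine CfsgLib.LocalBasic.mem_normalizer_of_conj_map_eq (Subgroup.eq_of_le_of_card_ge ?_
      (Subgroup.card_map_of_injective (MulEquiv.injective _)).ge)
    rintro _ ⟨_, ⟨x, hx, rfl⟩, rfl⟩
    exact ⟨e x, hFc x hx, rfl⟩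
  have key : ∀ B : Subgroup H, B ≤ A → B.relIndex A = p → F ⊓ Subgroup.centralizer (B : Set H) ≤ Z := by
    rintro B hB hBi _ ⟨⟨x, hx, rfl⟩, hxB⟩
    refine ⟨x, ?_, rfl⟩
    rintro _ ⟨u, hu, rfl⟩
    rw [← commutatorElement_eq_one_iff_mul_comm, ← map_commutatorElement]
    have hmem : ((⁅u, x⁆ : ↥K) : H) ∈ ⁅U, K ⊓ Subgroup.centralizer (B : Set H)⁆ := by
      have := Subgroup.commutator_mem_commutator (H₁ := U) (H₂ := K ⊓ Subgroup.centralizer (B : Set H))
        (Subgroup.mem_subgroupOf.mp hu) (show (x : H) ∈ _ from ⟨x.2, hxB⟩)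
      simpa [commutatorElement_def] using this
    have h1 : (orderOf (f ⁅u, x⁆)).Coprime q := by
      refine Nat.Coprime.coprime_dvd_left (orderOf_map_dvd f _) ?_
      rw [← Subgroup.orderOf_coe]
      refine Nat.Coprime.coprime_dvd_left (Subgroup.orderOf_dvd_natCard _ hmem) ?_
      exact (((Fact.out : q.Prime).coprime_iff_not_dvd).mpr (hcomm B hB hBi)).symm
    have h2 : f ⁅u, x⁆ ∈ Q := by
      rw [map_commutatorElement, commutatorElement_def]
      exact Q.mul_mem (Subgroup.Normal.conj_mem inferInstance _ hx _) (Q.inv_mem hx)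
    obtain ⟨k, hk⟩ := CfsgLib.Core.isPGroup_pCore (G := ↥K ⧸ O) q ⟨_, h2⟩
    refine orderOf_eq_one_iff.mp (Nat.eq_one_of_dvd_coprimes (h1.pow_right k) dvd_rfl ?_)
    exact orderOf_dvd_of_pow_eq_one (by simpa using congrArg Subtype.val hk)
  have hFp : ¬ p ∣ Nat.card ↥F := fun hd => hK (hd.trans (Subgroup.card_dvd_of_le (Subgroup.map_subtype_le _)))
  have hFZ : F ≤ Z := (CfsgLib.Signalizer.le_iSup_hyperplane hA hA2 hFp hAF).trans
    (iSup_le fun B => key B.1 B.2.1 B.2.2)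
  intro u hu
  refine ⟨⟨u, hU hu⟩, (QuotientGroup.eq_one_iff _).mp ?_, rfl⟩
  refine CfsgLib.CharP.eq_one_of_centralizes hch (Nat.Coprime.coprime_dvd_left
    ((orderOf_map_dvd f (⟨u, hU hu⟩ : ↥K)).trans (Subgroup.orderOf_dvd_natCard U' (Subgroup.mem_subgroupOf.mpr hu))) hU'q) ?_
  intro y hy
  obtain ⟨x, rfl⟩ := QuotientGroup.mk'_surjective _ y
  obtain ⟨x', hx', he⟩ := hFZ (⟨x, hy, rfl⟩ : (x : H) ∈ F)
  obtain rfl : x' = x := Subtype.ext he
  exact hx' _ ⟨_, Subgroup.mem_subgroupOf.mpr hu, rfl⟩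

end Cfsg.Agent.S1288
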