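import Cfsg.Statements.S1289
import Cfsg.Agent.Lib.PComponents2

set_option autoImplicit false
open Cfsg

namespace Cfsg.Agent.S1289
open CfsgLib.PComponents CfsgLib.Components

/-- A p-component K of the finite group X is subnormal, perfect, of order divisible by p, and minimal among the subnormal perfect subgroups of X of order divisible by p. -/
theorem result {X : Type*} [Group X] [Finite X] (p : ℕ) [Fact p.Prime] (K : Subgroup X) (hK : Cfsg.IsPComponent p K) : K.IsSubnormal ∧ ⁅K, K⁆ = K ∧ p ∣ Nat.card ↥K ∧ ∀ H : Subgroup X, H ≤ K → H.IsSubnormal → ⁅H, H⁆ = H → p ∣ Nat.card ↥H → H = K := by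
  refine ⟨hK.1, pComponent_perfect hK, prime_dvd_card_pComponent hK, fun H hle hsn hperf hpH => hK.2.2 H hsn hle ?_⟩
  set π := QuotientGroup.mk' (Cfsg.pPrimeCore p X) with hπ
  have hH : ⁅H.map π, H.map π⁆ = H.map π := by rw [← Subgroup.map_commutator, hperf]
  have hne : H.map π ≠ ⊥ := by
    intro h
    rw [Subgroup.map_eq_bot_iff, QuotientGroup.ker_mk'] at h
    exact ((Fact.out : p.Prime).coprime_iff_not_dvd).mp (CfsgLib.Core.card_pPrimeCore_coprime p).symm
      (hpH.trans (Subgroup.card_dvd_of_le h))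
  rcases quasisimple_subnormal_cases hK.2.1.2
    ((hsn.map (QuotientGroup.mk'_surjective _)).subgroupOf (K := K.map π)) with h | h
  · exact le_antisymm (Subgroup.map_mono hle) (Subgroup.subgroupOf_eq_top.mp h)
  · refine absurd (eq_bot_of_perfect_comm hH fun a ha b hb => ?_) hne
    exact congrArg Subtype.val (Subgroup.mem_center_iff.mp (h (Subgroup.mem_subgroupOf.mpr ha :
      (⟨a, Subgroup.map_mono hle ha⟩ : ↥(K.map π)) ∈ (H.map π).subgroupOf (K.map π)))
      ⟨b, Subgroup.map_mono hle hb⟩)

end Cfsg.Agent.S1289
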