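import Cfsg.Statements.S1299
import Cfsg.Agent.Lib.CoprimeSignalizer
import Cfsg.Agent.Lib.Signalizer
import Cfsg.Agent.Lib.Core

set_option autoImplicit false
open Cfsg

namespace Cfsg.Agent.S1299

open CfsgLib.Signalizer CfsgLib.GroupB.Coprime

/-- Let G be finite and k-balanced for the prime p (k ≥ 1), A an elementary abelian p-subgroup of order at least p^(k+2) such that O_{p'}(C_G(a)) is solvable for every non-identity a ∈ A. For a ∈ A put θ a = the subgroup generated by the Δ_G(D) ∩ C_G(a) over the subgroups D ≤ A of order p^k. Then θ is an A-signalizer functor. -/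
theorem result {G : Type*} [Group G] [Finite G] (p k : ℕ) [Fact p.Prime] (hk : 1 ≤ k) (hbal : Cfsg.IsKBalanced p k G) (A : Subgroup G) (hA : Cfsg.IsElementaryAbelian p A) (hAk : p ^ (k + 2) ≤ Nat.card ↥A) (hsolv : ∀ a ∈ A, a ≠ 1 → Group.IsSolvable ↥(Cfsg.centralizerPPrimeCore p a)) : Cfsg.IsSignalizerFunctor p A (fun a => ⨆ D : {D : Subgroup G // D ≤ A ∧ Nat.card ↥D = p ^ k}, Cfsg.signalizerDelta p (D : Subgroup G) ⊓ Subgroup.centralizer {a}) := by
  have hp : p.Prime := Fact.out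
  have hAc : ∀ a ∈ A, ∀ b ∈ A, a * b = b * a := fun a ha b hb =>
    congrArg Subtype.val (hA.1.is_comm.comm ⟨a, ha⟩ ⟨b, hb⟩)
  have hAp : IsPGroup p ↥A := fun x => ⟨1, Subtype.ext (by simpa using hA.2 _ x.2)⟩
  have hord : ∀ a ∈ A, a ≠ 1 → orderOf a = p := fun a ha h1 => orderOf_eq_prime (hA.2 a ha) h1
  -- elementary subgroups
  have hel : ∀ B : Subgroup G, B ≤ A → Cfsg.IsElementaryAbelian p B := fun B hB =>
    ⟨⟨⟨fun x y => Subtype.ext (hAc _ (hB x.2) _ (hB y.2))⟩⟩, fun b hb => hA.2 b (hB hb)⟩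
  have hne : ∀ B : Subgroup G, p ^ k ≤ Nat.card ↥B → ∃ b ∈ B, b ≠ 1 := by
    intro B hBk
    by_contra h
    simp only [not_exists, not_and, not_not] at h
    have hbot : B = ⊥ := eq_bot_iff.mpr fun x hx => Subgroup.mem_bot.mpr (h x hx)
    rw [hbot, Subgroup.card_bot] at hBk
    have := Nat.one_lt_pow (by omega : k ≠ 0) hp.one_lt
    omega
  have hcore : ∀ a : G, ¬ p ∣ Nat.card ↥(Cfsg.centralizerPPrimeCore p a) := fun a => by
    refine hp.coprime_iff_not_dvd.mp ?_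
    show p.Coprime (Nat.card ↥((Cfsg.pPrimeCore p ↥(Subgroup.centralizer ({a} : Set G))).map _))
    rw [Subgroup.card_map_of_injective (Subgroup.subtype_injective _)]
    exact (CfsgLib.Core.card_pPrimeCore_coprime p).symm
  have hcoreC : ∀ a : G, Cfsg.centralizerPPrimeCore p a ≤ Subgroup.centralizer ({a} : Set G) := fun a =>
    Subgroup.map_subtype_le _
  have hcoreN : ∀ a : G, Subgroup.centralizer ({a} : Set G) ≤ Subgroup.normalizer (Cfsg.centralizerPPrimeCore p a : Set G) :=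
    fun a => le_normalizer_of_mem fun c hc x hx => by
      obtain ⟨y, hy, rfl⟩ := hx
      exact ⟨_, Subgroup.Normal.conj_mem inferInstance y hy ⟨c, hc⟩, rfl⟩
  have hΔN : ∀ B : Subgroup G, Subgroup.centralizer (B : Set G) ≤ Subgroup.normalizer (Cfsg.signalizerDelta p B : Set G) :=
    fun B => le_normalizer_of_mem fun c hc x hx => Subgroup.mem_iInf.mpr fun d =>
      (Subgroup.mem_normalizer_iff.mp (hcoreN d.1 (Subgroup.centralizer_le (Set.singleton_subset_iff.mpr d.2.1) hc)) x).mp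
        (Subgroup.mem_iInf.mp hx d)
  have hΔA : ∀ B : Subgroup G, B ≤ A → A ≤ Subgroup.normalizer (Cfsg.signalizerDelta p B : Set G) := fun B hB =>
    le_trans (show A ≤ Subgroup.centralizer (B : Set G) from fun c hc b hb => hAc b (hB hb) c hc) (hΔN B)
  have hanti : ∀ B E : Subgroup G, B ≤ E → Cfsg.signalizerDelta p E ≤ Cfsg.signalizerDelta p B := fun B E h =>
    le_iInf fun d => iInf_le _ (⟨d.1, h d.2.1, d.2.2⟩ : {a : G // a ∈ E ∧ a ≠ 1})
  have hΔC : ∀ E : Subgroup G, Cfsg.signalizerDelta p E ≤ Subgroup.centralizer (E : Set G) := fun E x hx e he => by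
    by_cases h1 : e = 1
    · simp [h1]
    exact (Subgroup.mem_centralizer_singleton_iff.mp
      (hcoreC e (Subgroup.mem_iInf.mp hx (⟨e, he, h1⟩ : {a : G // a ∈ E ∧ a ≠ 1})))).symm
  -- balance: fixed points of a bigger subgroup
  have hup : ∀ D E : Subgroup G, D ≤ A → Nat.card ↥D = p ^ k → E ≤ A →
      Cfsg.signalizerDelta p D ⊓ Subgroup.centralizer (E : Set G) ≤ Cfsg.signalizerDelta p E := fun D E hD hDk hE =>
    le_iInf fun d => (inf_le_inf_left _ (Subgroup.centralizer_le (Set.singleton_subset_iff.mpr d.2.1))).trans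
      (hbal D (hel D hD) hDk d (hord d (hE d.2.1) d.2.2) fun a ha => hAc a (hD ha) d (hE d.2.1))
  have hsub : ∀ (B : Subgroup G) (j : ℕ), B ≤ A → p ^ j ≤ Nat.card ↥B →
      ∀ H : Subgroup G, H ≤ B → Nat.card ↥H ≤ p ^ j → ∃ D : Subgroup G, H ≤ D ∧ D ≤ B ∧ Nat.card ↥D = p ^ j := by
    intro B j hB hj H hH hHj
    obtain ⟨i, hi⟩ := (hAp.to_le hB).exists_card_eq
    obtain ⟨l, hl⟩ := (hAp.to_le (hH.trans hB)).exists_card_eq
    have hij : j ≤ i := (Nat.pow_le_pow_iff_right hp.one_lt).mp (hi ▸ hj)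
    have hlj : l ≤ j := (Nat.pow_le_pow_iff_right hp.one_lt).mp (hl ▸ hHj)
    obtain ⟨K, hK, hHK⟩ := Sylow.exists_subgroup_card_pow_prime_le p
      (show p ^ j ∣ Nat.card ↥B from hi ▸ pow_dvd_pow p hij) (H.subgroupOf B)
      (show Nat.card ↥(H.subgroupOf B) = p ^ l by rw [Nat.card_congr (Subgroup.subgroupOfEquivOfLe hH).toEquiv, hl]) hlj
    refine ⟨K.map B.subtype, fun x hx => ⟨⟨x, hH hx⟩, hHK (Subgroup.mem_subgroupOf.mpr hx), rfl⟩,
      Subgroup.map_subtype_le _, ?_⟩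
    rw [Subgroup.card_map_of_injective (Subgroup.subtype_injective _), hK]
  obtain ⟨m, hm⟩ := hAp.exists_card_eq
  have hmk : k + 2 ≤ m := (Nat.pow_le_pow_iff_right hp.one_lt).mp (hm ▸ hAk)
  -- hyperplanes through given elements
  have hhyp : ∀ a ∈ A, ∀ b ∈ A, ∃ H : Subgroup G, a ∈ H ∧ b ∈ H ∧ H ≤ A ∧ H.relIndex A = p := by
    intro a ha b hb
    have hle : Nat.card ↥(Subgroup.zpowers a ⊔ Subgroup.zpowers b : Subgroup G) ≤ p ^ (m - 1) := by
      have hn : Subgroup.zpowers b ≤ Subgroup.normalizer (Subgroup.zpowers a : Set G) := Subgroup.zpowers_le.mpr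
        (Subgroup.centralizer_le_normalizer _ fun x hx => hAc x (Subgroup.zpowers_le.mpr ha hx) b hb)
      have h1 := Subgroup.relIndex_mul_relIndex ⊥ (Subgroup.zpowers a) (Subgroup.zpowers a ⊔ Subgroup.zpowers b) bot_le le_sup_left
      rw [Subgroup.relIndex_bot_left, Subgroup.relIndex_bot_left, Nat.card_zpowers,
        CfsgLib.GroupB.Coprime.relIndex_sup_of_le_normalizer hn] at h1
      have h2 : (Subgroup.zpowers a).relIndex (Subgroup.zpowers b) ∣ orderOf b :=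
        Nat.card_zpowers b ▸ Subgroup.relIndex_dvd_card _ _
      have ho : ∀ x ∈ A, orderOf x ∣ p := fun x hx => orderOf_dvd_of_pow_eq_one (hA.2 x hx)
      refine Nat.le_of_dvd (pow_pos hp.pos _) ((h1 ▸ mul_dvd_mul (ho a ha) (h2.trans (ho b hb))).trans ?_)
      calc p * p = p ^ 2 := (sq p).symm
        _ ∣ p ^ (m - 1) := pow_dvd_pow p (by omega)
    obtain ⟨H, hH1, hH2, hH3⟩ := hsub A (m - 1) le_rfl (hm ▸ Nat.pow_le_pow_right hp.pos (by omega)) _
      (sup_le (Subgroup.zpowers_le.mpr ha) (Subgroup.zpowers_le.mpr hb)) hle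
    refine ⟨H, hH1 (Subgroup.mem_sup_left (Subgroup.mem_zpowers a)), hH1 (Subgroup.mem_sup_right (Subgroup.mem_zpowers b)), hH2, ?_⟩
    have h1 := Subgroup.relIndex_mul_relIndex ⊥ H A bot_le hH2
    rw [Subgroup.relIndex_bot_left, Subgroup.relIndex_bot_left, hH3, hm,
      show p ^ m = p ^ (m - 1) * p by rw [← pow_succ]; congr 1; omega] at h1
    exact Nat.eq_of_mul_eq_mul_left (pow_pos hp.pos _) h1
  -- generation by hyperplanes through `a`, `b`
  have hgenab : ∀ a ∈ A, ∀ b ∈ A, ∀ V : Subgroup G, ¬ p ∣ Nat.card ↥V → A ≤ Subgroup.normalizer (V : Set G) →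
      V ≤ Subgroup.centralizer ({a} : Set G) → V ≤ Subgroup.centralizer ({b} : Set G) →
      V ≤ ⨆ H : {H : Subgroup G | a ∈ H ∧ b ∈ H ∧ H ≤ A ∧ H.relIndex A = p},
        V ⊓ Subgroup.centralizer ((H : Subgroup G) : Set G) := by
    intro a ha b hb V hV hVA hVa hVb
    have hA2 : p ^ 2 ≤ Nat.card ↥A := (Nat.pow_le_pow_right hp.pos (by omega)).trans hAk
    refine (le_iSup_hyperplane hA hA2 hV hVA).trans (iSup_le fun D => ?_)
    by_cases h : a ∈ (D : Subgroup G) ∧ b ∈ (D : Subgroup G)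
    · exact le_iSup (fun H : {H : Subgroup G | a ∈ H ∧ b ∈ H ∧ H ≤ A ∧ H.relIndex A = p} =>
        V ⊓ Subgroup.centralizer ((H : Subgroup G) : Set G)) ⟨D.1, h.1, h.2, D.2.1, D.2.2⟩
    obtain ⟨H, hH⟩ := hhyp a ha b hb
    refine le_trans ?_ (le_iSup (fun H : {H : Subgroup G | a ∈ H ∧ b ∈ H ∧ H ≤ A ∧ H.relIndex A = p} =>
        V ⊓ Subgroup.centralizer ((H : Subgroup G) : Set G)) ⟨H, hH⟩)
    rintro x ⟨hxV, hxD⟩
    refine ⟨hxV, fun y hy => ?_⟩
    have htop : A ≤ (D : Subgroup G) ⊔ Subgroup.zpowers a ⊔ Subgroup.zpowers b := by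
      refine Subgroup.relIndex_eq_one.mp ?_
      have hle : (D : Subgroup G) ⊔ Subgroup.zpowers a ⊔ Subgroup.zpowers b ≤ A :=
        sup_le (sup_le D.2.1 (Subgroup.zpowers_le.mpr ha)) (Subgroup.zpowers_le.mpr hb)
      have h1 := Subgroup.relIndex_mul_relIndex (D : Subgroup G) _ A (le_sup_left.trans le_sup_left) hle
      rw [D.2.2] at h1
      refine (hp.eq_one_or_self_of_dvd _ (Dvd.intro_left _ h1)).resolve_right fun hpp => h ?_
      rw [hpp] at h1
      have h2 : (D : Subgroup G).relIndex ((D : Subgroup G) ⊔ Subgroup.zpowers a ⊔ Subgroup.zpowers b) = 1 :=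
        Nat.eq_of_mul_eq_mul_right hp.pos (by rw [h1, one_mul])
      exact ⟨Subgroup.relIndex_eq_one.mp h2 (Subgroup.mem_sup_left (Subgroup.mem_sup_right (Subgroup.mem_zpowers a))),
        Subgroup.relIndex_eq_one.mp h2 (Subgroup.mem_sup_right (Subgroup.mem_zpowers b))⟩
    have hc : (D : Subgroup G) ⊔ Subgroup.zpowers a ⊔ Subgroup.zpowers b ≤ Subgroup.centralizer ({x} : Set G) :=
      sup_le (sup_le (fun d hd => Subgroup.mem_centralizer_singleton_iff.mpr (hxD d hd))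
        (Subgroup.zpowers_le.mpr (Subgroup.mem_centralizer_singleton_iff.mpr (Subgroup.mem_centralizer_singleton_iff.mp (hVa hxV)).symm)))
        (Subgroup.zpowers_le.mpr (Subgroup.mem_centralizer_singleton_iff.mpr (Subgroup.mem_centralizer_singleton_iff.mp (hVb hxV)).symm))
    exact Subgroup.mem_centralizer_singleton_iff.mp (hc (htop (hH.2.2.1 hy)))
  have hHk : ∀ H : Subgroup G, H ≤ A → H.relIndex A = p → p ^ (k + 1) ≤ Nat.card ↥H := by
    intro H hH hHi
    have h1 := Subgroup.relIndex_mul_relIndex ⊥ H A bot_le hH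
    rw [Subgroup.relIndex_bot_left, Subgroup.relIndex_bot_left, hHi] at h1
    rw [← h1, pow_succ] at hAk
    exact Nat.le_of_mul_le_mul_right hAk hp.pos
  -- the value at `a`
  obtain ⟨θ, hθ⟩ : ∃ θ : G → Subgroup G, θ = fun a => ⨆ D : {D : Subgroup G // D ≤ A ∧ Nat.card ↥D = p ^ k},
      Cfsg.signalizerDelta p (D : Subgroup G) ⊓ Subgroup.centralizer {a} := ⟨_, rfl⟩
  rw [← hθ]
  have hθle : ∀ a ∈ A, a ≠ 1 → θ a ≤ Cfsg.centralizerPPrimeCore p a := fun a ha ha1 => by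
    rw [hθ]
    exact iSup_le fun D => hbal D (hel D D.2.1) D.2.2 a (hord a ha ha1) fun d hd => hAc d (D.2.1 hd) a ha
  have hθC : ∀ a ∈ A, a ≠ 1 → θ a ≤ Subgroup.centralizer {a} := fun a ha ha1 => (hθle a ha ha1).trans (hcoreC a)
  have hθp : ∀ a ∈ A, a ≠ 1 → ¬ p ∣ Nat.card ↥(θ a) := fun a ha ha1 hd =>
    hcore a (hd.trans (Subgroup.card_dvd_of_le (hθle a ha ha1)))
  have hcenA : ∀ a ∈ A, A ≤ Subgroup.normalizer ((Subgroup.centralizer ({a} : Set G) : Subgroup G) : Set G) := fun a ha =>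
    le_trans (show A ≤ Subgroup.centralizer ({a} : Set G) from fun c hc =>
      Subgroup.mem_centralizer_singleton_iff.mpr (hAc c hc a ha)) Subgroup.le_normalizer
  have hθA : ∀ a ∈ A, A ≤ Subgroup.normalizer (θ a : Set G) := fun a ha => by
    rw [hθ]
    exact CfsgLib.CoprimeSignalizer.normalizer_iSup_ge fun D =>
      CfsgLib.LocalBasic.normalizer_inf_ge (hΔA D D.2.1) (hcenA a ha)
  have hΔθ : ∀ a ∈ A, ∀ H : Subgroup G, a ∈ H → H ≤ A → p ^ k ≤ Nat.card ↥H → Cfsg.signalizerDelta p H ≤ θ a := by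
    intro a ha H haH hH hHk'
    obtain ⟨D, -, hDH, hDk⟩ := hsub H k hH hHk' ⊥ bot_le (by rw [Subgroup.card_bot]; exact Nat.one_le_pow _ _ hp.pos)
    rw [hθ]
    exact le_iSup_of_le ⟨D, hDH.trans hH, hDk⟩ (le_inf (hanti D H hDH)
      ((hΔC H).trans (Subgroup.centralizer_le (Set.singleton_subset_iff.mpr haH))))
  refine ⟨hθC, hθp, fun a ha _ => conj_mem_of_le_normalizer (hθA a ha), fun a ha ha1 b hb hb1 => ?_⟩
  obtain ⟨X, hX⟩ : ∃ X, X = θ a := ⟨_, rfl⟩
  rw [← hX]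
  haveI hXs : Group.IsSolvable ↥X := by
    haveI := hsolv a ha ha1
    exact Group.isSolvable_of_isSolvable_injective (Subgroup.inclusion_injective (hX ▸ hθle a ha ha1))
  have hXp : ¬ p ∣ Nat.card ↥X := hX ▸ hθp a ha ha1
  have hXa : X ≤ Subgroup.centralizer ({a} : Set G) := hX ▸ hθC a ha ha1
  have key := CfsgLib.CoprimeSignalizer.centralizer_le hA.1 (hX ▸ hθA a ha) (coprime_of_not_dvd hAp hXp)
    {H : Subgroup G | a ∈ H ∧ a ∈ H ∧ H ≤ A ∧ H.relIndex A = p} (fun H hH => hH.2.2.1)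
    (Cfsg.signalizerDelta p)
    (fun H hH => ⟨le_inf (hX ▸ hΔθ a ha H hH.1 hH.2.2.1 ((Nat.pow_le_pow_right hp.pos (by omega)).trans (hHk H hH.2.2.1 hH.2.2.2)))
      (hΔC H), hΔA H hH.2.2.1⟩) ?_ (fun V hV hVA => hgenab a ha a ha V (fun hd => hXp (hd.trans (Subgroup.card_dvd_of_le hV)))
        hVA (hV.trans hXa) (hV.trans hXa)) ?_
  · refine (hgenab a ha b hb (X ⊓ Subgroup.centralizer {b}) (fun hd => hXp (hd.trans (Subgroup.card_dvd_of_le inf_le_left)))
      (CfsgLib.LocalBasic.normalizer_inf_ge (hX ▸ hθA a ha) (hcenA b hb)) (inf_le_left.trans hXa) inf_le_right).trans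
      (iSup_le fun H => ?_)
    exact ((inf_le_inf_right _ inf_le_left).trans (key H ⟨H.2.1, H.2.1, H.2.2.2.1, H.2.2.2.2⟩)).trans
      (hΔθ b hb H H.2.2.1 H.2.2.2.1 ((Nat.pow_le_pow_right hp.pos (by omega)).trans (hHk H H.2.2.2.1 H.2.2.2.2)))
  · refine (le_of_eq (hX.trans (congrFun hθ a))).trans (iSup_le fun D => ?_)
    obtain ⟨V, hV⟩ : ∃ V, V = Cfsg.signalizerDelta p (D : Subgroup G) ⊓ Subgroup.centralizer {a} := ⟨_, rfl⟩
    have hVX : V ≤ X := hX ▸ hV ▸ (by rw [hθ]; exact le_iSup_of_le D le_rfl)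
    refine le_trans (hV.ge) ?_
    refine (hgenab a ha a ha V (fun hd => hXp (hd.trans (Subgroup.card_dvd_of_le hVX)))
      (hV ▸ CfsgLib.LocalBasic.normalizer_inf_ge (hΔA D D.2.1) (hcenA a ha)) (hVX.trans hXa) (hVX.trans hXa)).trans
      (iSup_le fun H => le_iSup_of_le H ?_)
    rw [hV]
    exact (inf_le_inf_right _ inf_le_left).trans (hup D H D.2.1 D.2.2 H.2.2.2.1)
  · intro H hH H' hH'
    obtain ⟨D, -, hD, hDk⟩ : ∃ D : Subgroup G, (⊥ : Subgroup G) ≤ D ∧ D ≤ H ⊓ H' ∧ Nat.card ↥D = p ^ k := by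
      refine hsub (H ⊓ H') k (inf_le_left.trans hH.2.2.1) ?_ ⊥ bot_le (by rw [Subgroup.card_bot]; exact Nat.one_le_pow _ _ hp.pos)
      have h1 := Subgroup.relIndex_mul_relIndex ⊥ (H ⊓ H') A bot_le (inf_le_left.trans hH.2.2.1)
      have h2 : (H ⊓ H').relIndex A ≤ H.relIndex A * H'.relIndex A := Subgroup.relIndex_inf_le
      rw [Subgroup.relIndex_bot_left, Subgroup.relIndex_bot_left] at h1
      rw [hH.2.2.2, hH'.2.2.2] at h2
      refine Nat.le_of_mul_le_mul_right ?_ (Nat.mul_pos hp.pos hp.pos)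
      calc p ^ k * (p * p) = p ^ (k + 2) := by ring
        _ ≤ Nat.card ↥A := hAk
        _ = Nat.card ↥(H ⊓ H' : Subgroup G) * (H ⊓ H').relIndex A := h1.symm
        _ ≤ _ := Nat.mul_le_mul_left _ h2
    refine ⟨Cfsg.signalizerDelta p D, hanti D H (hD.trans inf_le_left), hanti D H' (hD.trans inf_le_right),
      hΔA D (hD.trans inf_le_left |>.trans hH.2.2.1), ?_, fun H'' hH'' => ?_⟩
    · exact inf_le_right.trans ((Subgroup.centralizer_le (SetLike.coe_subset_coe.mpr (hD.trans inf_le_left))).trans (hΔN D))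
    · exact (inf_le_inf_right _ inf_le_left).trans
        (hup D H'' (hD.trans inf_le_left |>.trans hH.2.2.1) hDk hH''.2.2.1)

end Cfsg.Agent.S1299
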