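import Cfsg.Statements.S1300
import Mathlib

set_option autoImplicit false
open Cfsg

namespace Cfsg.Agent.S1300

/-- For a finite group G, balance in the sense of commuting involutions is the same as 1-balance for the prime 2. -/
theorem result {G : Type*} [Group G] [Finite G] : Cfsg.IsBalanced G ↔ Cfsg.IsKBalanced 2 1 G := by
  have hle : ∀ x : G, Cfsg.centralizerPPrimeCore 2 x ≤ Subgroup.centralizer ({x} : Set G) := by
    rintro x _ ⟨y, -, rfl⟩
    exact y.2
  constructor
  · rintro hbal A hA hcard b hb hAb w ⟨hw1, hw2⟩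
    have hne : A ≠ ⊥ := fun h => by rw [h, Subgroup.card_bot] at hcard; simp at hcard
    obtain ⟨⟨a, ha⟩, ha1⟩ := Subgroup.ne_bot_iff_exists_ne_one.1 hne
    have ha1' : a ≠ 1 := fun h => ha1 (Subtype.ext h)
    have hord : orderOf a = 2 := orderOf_eq_prime (hA.2 a ha) ha1'
    have hw1' : w ∈ Cfsg.centralizerPPrimeCore 2 a := by
      rw [Cfsg.signalizerDelta] at hw1
      exact (Subgroup.mem_iInf.1 hw1) ⟨a, ha, ha1'⟩
    have h := hbal a b hord hb (hAb a ha)
    have : w ∈ Cfsg.centralizerPPrimeCore 2 a ⊓ Subgroup.centralizer ({b} : Set G) := ⟨hw1', hw2⟩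
    rw [h] at this
    exact this.1
  · intro h1 x y hx hy hxy
    have key : ∀ x y : G, orderOf x = 2 → orderOf y = 2 → x * y = y * x →
        Cfsg.centralizerPPrimeCore 2 x ⊓ Subgroup.centralizer ({y} : Set G) ≤
          Cfsg.centralizerPPrimeCore 2 y ⊓ Subgroup.centralizer ({x} : Set G) := by
      intro x y hx hy hxy w hw
      refine ⟨h1 (Subgroup.zpowers x) ⟨inferInstance, ?_⟩ (by rw [Nat.card_zpowers, hx, pow_one])
        y hy ?_ ⟨?_, hw.2⟩, hle x hw.1⟩
      · rintro a ⟨n, rfl⟩
        show (x ^ n) ^ 2 = 1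
        rw [← zpow_natCast, ← zpow_mul, mul_comm, zpow_mul, zpow_natCast, ← hx, pow_orderOf_eq_one,
          one_zpow]
      · rintro a ⟨n, rfl⟩
        exact ((show Commute x y from hxy).zpow_left n).eq
      · show w ∈ Cfsg.signalizerDelta 2 (Subgroup.zpowers x)
        rw [Cfsg.signalizerDelta, Subgroup.mem_iInf]
        rintro ⟨a, ⟨n, rfl⟩, ha⟩
        have hx2 : x ^ (2 : ℤ) = 1 := by
          rw [show (2 : ℤ) = ((2 : ℕ) : ℤ) from rfl, zpow_natCast, ← hx, pow_orderOf_eq_one]
        rcases Int.emod_two_eq_zero_or_one n with hn | hn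
        · exfalso
          apply ha
          show x ^ n = 1
          rw [← Int.emod_add_mul_ediv n 2, hn, zero_add, zpow_mul, hx2, one_zpow]
        · show w ∈ Cfsg.centralizerPPrimeCore 2 (x ^ n)
          rw [← Int.emod_add_mul_ediv n 2, hn, zpow_add, zpow_one, zpow_mul, hx2, one_zpow,
            mul_one]
          exact hw.1
    exact le_antisymm (key x y hx hy hxy) (key y x hy hx hxy.symm)

end Cfsg.Agent.S1300
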