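import Cfsg.Statements.S1302
import Cfsg.Agent.Lib.InvariantCore
import Cfsg.Agent.Lib.KInfDegree
import Cfsg.Agent.Lib.GroupB.ZJThompson

set_option autoImplicit false
open Cfsg

namespace Cfsg.Agent.S1302

open CfsgLib.LocalBasic
open scoped commutatorElement

/-- Let X be a finite p-constrained group, p an odd prime, and A an abelian p-subgroup of X containing every element of order p of C_X(A). Then every subgroup of X of order prime to p that is normalized by A lies in O_{p'}(X). -/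
theorem result {X : Type*} [Group X] [Finite X] (p : ℕ) [Fact p.Prime] (hp : p ≠ 2) (hX : Cfsg.IsPConstrained p X) (A : Subgroup X) (hA : IsMulCommutative ↥A) (hAp : IsPGroup p ↥A) (hΩ : ∀ x ∈ Subgroup.centralizer (A : Set X), orderOf x = p → x ∈ A) (Q : Subgroup X) (hQ : ¬ p ∣ Nat.card ↥Q) (hAQ : A ≤ Subgroup.normalizer (Q : Set X)) : Q ≤ Cfsg.pPrimeCore p X := by
  classical
  haveI := CfsgLib.PConstrained.pPrimeCore_normal (G := X) (p := p)
  set π := QuotientGroup.mk' (Cfsg.pPrimeCore p X) with hπ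
  have hπs := QuotientGroup.mk'_surjective (Cfsg.pPrimeCore p X)
  have hker : (Nat.card π.ker).Coprime p := by
    rw [hπ, QuotientGroup.ker_mk']; exact CfsgLib.Core.card_pPrimeCore_coprime p
  have hch := CfsgLib.PConstrained.isPConstrained_iff.mp hX
  set R := Cfsg.pCore p (X ⧸ Cfsg.pPrimeCore p X) with hR
  haveI := CfsgLib.Core.pCore_characteristic (G := X ⧸ Cfsg.pPrimeCore p X) p
  have hRp : IsPGroup p ↥R := CfsgLib.Core.isPGroup_pCore p
  obtain ⟨C, hCn, hCR, hCc, -, hCd⟩ := CfsgLib.KInfDegree.exists_critical (G := X ⧸ Cfsg.pPrimeCore p X) (p := p)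
  haveI := hCn
  have hcl : ∀ a ∈ C, ∀ b ∈ C, ∀ c ∈ C, Commute ⁅a, b⁆ c := fun a ha b hb c hc =>
    ((hCc (Subgroup.commutator_mem_commutator ha hb)) c hc).symm
  have hKb : (Nat.card ↥(Q.map π)).Coprime p :=
    (((Fact.out : p.Prime).coprime_iff_not_dvd.mpr hQ).symm).coprime_dvd_left (Subgroup.card_map_dvd Q π)
  have hAb : IsPGroup p ↥(A.map π) := hAp.map π
  have hAKb : A.map π ≤ Subgroup.normalizer ((Q.map π : Subgroup _) : Set _) :=
    (Subgroup.map_mono hAQ).trans (Subgroup.le_normalizer_map π)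
  have hn : ∀ (N : Subgroup (X ⧸ Cfsg.pPrimeCore p X)) [N.Normal] (Y : Subgroup (X ⧸ Cfsg.pPrimeCore p X)),
      Y ≤ Subgroup.normalizer (N : Set _) := fun N _ Y => by rw [Subgroup.normalizer_eq_top]; exact le_top
  -- the elements of order `p` of the critical subgroup
  let D : Subgroup (X ⧸ Cfsg.pPrimeCore p X) :=
    { carrier := {z | z ∈ C ∧ z ^ p = 1}
      one_mem' := ⟨one_mem C, one_pow p⟩
      mul_mem' := fun {a b} ha hb => ⟨mul_mem ha.1 hb.1, by
        have h2 := CfsgLib.PLocal.mul_pow_central (hcl b hb.1 a ha.1 a ha.1) (hcl b hb.1 a ha.1 b hb.1) p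
        rw [h2]
        obtain ⟨j, hj⟩ := (Fact.out : p.Prime).dvd_choose_self (k := 2) (by norm_num)
          (lt_of_le_of_ne (Fact.out : p.Prime).two_le (Ne.symm hp))
        have h5 : ∀ n : ℕ, ⁅b ^ n, a⁆ = ⁅b, a⁆ ^ n := by
          intro n
          induction n with
          | zero => simp
          | succ n ihn =>
            rw [pow_succ', show ⁅b * b ^ n, a⁆ = b * ⁅b ^ n, a⁆ * b⁻¹ * ⁅b, a⁆ by simp only [commutatorElement_def]; group,
              ihn, ← ((hcl b hb.1 a ha.1 b hb.1).pow_left n).eq, mul_inv_cancel_right, pow_succ]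
        rw [ha.2, hb.2, hj, pow_mul, ← h5, hb.2, commutatorElement_one_left, one_pow]; simp⟩
      inv_mem' := fun {a} ha => ⟨inv_mem ha.1, by rw [inv_pow, ha.2, inv_one]⟩ }
  haveI hDn : D.Normal := ⟨fun z hz g => ⟨hCn.conj_mem z hz.1 g, by rw [conj_pow, hz.2, mul_one, mul_inv_cancel]⟩⟩
  have hDp : IsPGroup p ↥D := hRp.to_le fun z hz => hCR hz.1
  have hfix : ∀ x ∈ D, (∀ e ∈ A.map π, e * x = x * e) → ∀ k ∈ Q.map π, k * x = x * k := by
    intro x hxD hxE k hk
    have hxA : x ∈ A.map π := by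
      have hxC : x ∈ (Subgroup.centralizer (A : Set X)).map π := by
        rw [CfsgLib.PConstrained.centralizer_map_eq π hπs hker hAp]; exact hxE
      obtain ⟨c, hc, rfl⟩ := hxC
      obtain ⟨α, β, hα, hβ, hab, ⟨j, hj⟩, hβo⟩ := CfsgLib.ThompsonNPC.exists_mul_parts p c
      have hπβ : π β = 1 := by
        obtain ⟨l, rfl⟩ := Subgroup.mem_zpowers_iff.mp hβ
        refine orderOf_eq_one_iff.mp (Nat.eq_one_of_dvd_coprimes hβo (orderOf_map_dvd π _)
          (orderOf_dvd_of_pow_eq_one ?_))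
        rw [map_zpow, ← zpow_natCast, ← zpow_mul, mul_comm, zpow_mul, zpow_natCast, hxD.2, one_zpow]
      have hπα : π α = π c := by rw [← hab, map_mul, hπβ, mul_one]
      have hαp : α ^ p = 1 := by
        have hK' : α ^ p ∈ Cfsg.pPrimeCore p X :=
          (QuotientGroup.eq_one_iff _).mp (show π (α ^ p) = 1 by rw [map_pow, hπα, hxD.2])
        refine orderOf_eq_one_iff.mp (Nat.eq_one_of_dvd_coprimes ((CfsgLib.Core.card_pPrimeCore_coprime (G := X) p).pow_right j)
          (Subgroup.orderOf_dvd_natCard _ hK') (orderOf_dvd_of_pow_eq_one ?_))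
        rw [← pow_mul, mul_comm, pow_mul, hj, one_pow]
      refine ⟨α, ?_, hπα⟩
      rcases eq_or_ne α 1 with h | h
      · rw [h]; exact one_mem A
      · exact hΩ α (Subgroup.zpowers_le.mpr hc hα) (orderOf_eq_prime hαp h)
    have hk' : x * k * x⁻¹ ∈ Q.map π := (Subgroup.mem_normalizer_iff.mp (hAKb hxA) k).mp hk
    have h1 : k * x * k⁻¹ * x⁻¹ ∈ R ⊓ Q.map π := Subgroup.mem_inf.mpr
      ⟨mul_mem ((inferInstance : R.Normal).conj_mem _ (hCR hxD.1) k) (inv_mem (hCR hxD.1)),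
        by rw [show k * x * k⁻¹ * x⁻¹ = k * (x * k⁻¹ * x⁻¹) by group]
           exact mul_mem hk ((Subgroup.mem_normalizer_iff.mp (hAKb hxA) _).mp (inv_mem hk))⟩
    rw [CfsgLib.PConstrained.inf_eq_bot_of_coprime hRp hKb, Subgroup.mem_bot, mul_inv_eq_one] at h1
    exact mul_inv_eq_iff_eq_mul.mp h1
  have hD := CfsgLib.InvariantCore.centralizes_of_fixed hp hAb hKb hAKb _ D rfl hDp (hn D _) (hn D _) hfix
  intro k hk
  refine (QuotientGroup.eq_one_iff k).mp ?_
  have hko : (orderOf (π k)).Coprime p :=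
    hKb.coprime_dvd_left (Subgroup.orderOf_dvd_natCard (Q.map π) (show π k ∈ Q.map π from ⟨k, hk, rfl⟩))
  have hC : ∀ c ∈ C, Commute (π k) c := CfsgLib.GroupB.ZJThompson.commute_of_omega hp (hRp.to_le hCR) hcl
    (by rw [Subgroup.normalizer_eq_top]; trivial) hko fun v hv hvp => hD _ ⟨k, hk, rfl⟩ v ⟨hv, hvp⟩
  refine CfsgLib.CharP.eq_one_of_centralizes hch hko fun x hx => ?_
  have hc : ⁅π k, x⁆ ∈ R ⊓ Subgroup.centralizer (C : Set _) := by
    refine Subgroup.mem_inf.mpr ⟨by rw [commutatorElement_def]; exact mul_mem ((inferInstance : R.Normal).conj_mem x hx _) (inv_mem hx),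
      fun c hc => ?_⟩
    have h1 := (hC (x⁻¹ * c * x) (by simpa using hCn.conj_mem c hc x⁻¹)).eq
    have h0 := (hC c hc).eq
    show c * ⁅π k, x⁆ = ⁅π k, x⁆ * c
    calc c * ⁅π k, x⁆ = (c * π k) * x * (π k)⁻¹ * x⁻¹ := by rw [commutatorElement_def]; group
      _ = π k * x * (x⁻¹ * c * x) * (π k)⁻¹ * x⁻¹ := by rw [← h0]; group
      _ = π k * x * (π k)⁻¹ * (π k * (x⁻¹ * c * x)) * (π k)⁻¹ * x⁻¹ := by group
      _ = π k * x * (π k)⁻¹ * ((x⁻¹ * c * x) * π k) * (π k)⁻¹ * x⁻¹ := by rw [h1]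
      _ = ⁅π k, x⁆ * c := by rw [commutatorElement_def]; group
  obtain ⟨j, hj⟩ := hRp ⟨_, (Subgroup.mem_inf.mp hc).1⟩
  exact commute_of_commutator_fixed (hC _ (hCd hc)).eq (j := j) (congrArg Subtype.val hj) hko

end Cfsg.Agent.S1302
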