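import Cfsg.Statements.S1303
import Cfsg.Agent.Lib.QdFree
import Cfsg.Agent.Lib.PComponents2
import Cfsg.Agent.Lib.PSL2.Sylow2
import Cfsg.Agent.S0144

set_option autoImplicit false
open Cfsg

namespace Cfsg.Agent.S1303
set_option linter.style.haveILetI false

/-- The group X = SL(2, 3): it is 2-constrained, O_{2'}(X) = 1, its centre A = Z(X) contains every involution of X = C_X(A), and X has a subgroup of order 3 (normalized by A) not contained in O_{2'}(X). -/
theorem result : Cfsg.IsPConstrained 2 (Matrix.SpecialLinearGroup (Fin 2) (ZMod 3)) ∧ Cfsg.pPrimeCore 2 (Matrix.SpecialLinearGroup (Fin 2) (ZMod 3)) = ⊥ ∧ (∀ t : Matrix.SpecialLinearGroup (Fin 2) (ZMod 3), orderOf t = 2 → t ∈ Subgroup.center (Matrix.SpecialLinearGroup (Fin 2) (ZMod 3))) ∧ ∃ Q : Subgroup (Matrix.SpecialLinearGroup (Fin 2) (ZMod 3)), Nat.card ↥Q = 3 ∧ ¬ (Q ≤ Cfsg.pPrimeCore 2 (Matrix.SpecialLinearGroup (Fin 2) (ZMod 3))) := by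
  haveI : Fact (Nat.Prime 3) := ⟨Nat.prime_three⟩
  haveI : Fact (Nat.Prime 2) := ⟨Nat.prime_two⟩
  let L := Matrix.SpecialLinearGroup (Fin 2) (ZMod 3)
  have hcard : Nat.card L = 24 := by
    rw [CfsgLib.PSL2Two.card_SL (by rw [ZMod.card]), ZMod.card]; norm_num
  have hsol : Group.IsSolvable L := Cfsg.Agent.S0144.result 2 3 3 1 Nat.prime_two Nat.prime_three (by rw [hcard]; norm_num)
  have hO : Cfsg.pPrimeCore 2 L = ⊥ := by
    set N := Cfsg.pPrimeCore 2 L
    haveI : N.Normal := inferInstance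
    have hd : Nat.card ↥N ∣ 24 := hcard ▸ Subgroup.card_subgroup_dvd_card N
    have hc : (Nat.card ↥N).Coprime 2 := CfsgLib.Core.card_pPrimeCore_coprime 2
    have hd3 : Nat.card ↥N ∣ 3 := (Nat.Coprime.pow_right 3 hc).dvd_of_dvd_mul_left (by norm_num; exact hd)
    rcases (Nat.dvd_prime Nat.prime_three).mp hd3 with h | h
    · exact Subgroup.card_eq_one.mp h
    exfalso
    have hall : ∀ x : L, x ^ 3 = 1 → x ∈ N := by
      intro x hx
      rw [← QuotientGroup.eq_one_iff x, ← orderOf_eq_one_iff]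
      refine Nat.eq_one_of_dvd_coprimes (by norm_num : Nat.Coprime 3 8) (orderOf_dvd_of_pow_eq_one ?_) ?_
      · rw [← QuotientGroup.mk_pow, hx]; rfl
      · refine (orderOf_dvd_natCard _).trans ?_
        have h8 := Subgroup.card_eq_card_quotient_mul_card_subgroup N
        rw [hcard, h] at h8
        exact dvd_of_eq (by omega)
    have htop : N = ⊤ := CfsgLib.QdFree.gen_sl2 (p := 3) N (hall _ CfsgLib.QdFree.up_pow_p) (hall _ (CfsgLib.QdFree.v_pow_p 1))
    rw [htop, Subgroup.card_top, hcard] at h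
    norm_num at h
  refine ⟨CfsgLib.PComponents.constrained_of_solvable hsol, hO, fun t ht => ?_, ?_⟩
  · have h2 : t * t = 1 := by
      have := pow_orderOf_eq_one t
      rw [ht, pow_two] at this
      exact this
    have hne : t ≠ 1 := fun h => by rw [h, orderOf_one] at ht; norm_num at ht
    have hm := CfsgLib.QdSection.eq_neg_one_of_sq (p := 3) (by norm_num) t h2 hne
    rw [Subgroup.mem_center_iff]
    intro g
    refine Subtype.ext ?_
    rw [Matrix.SpecialLinearGroup.coe_mul, Matrix.SpecialLinearGroup.coe_mul, hm]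
    simp
  · let u : L := CfsgLib.QdFree.up 3
    refine ⟨Subgroup.zpowers u, ?_, ?_⟩
    · rw [Nat.card_zpowers]
      refine orderOf_eq_prime CfsgLib.QdFree.up_pow_p fun h => ?_
      have h1 := congrFun (congrFun (congrArg Subtype.val h) 0) 1
      simp [u, CfsgLib.QdFree.up_coe] at h1
    · rw [hO, le_bot_iff, Subgroup.zpowers_eq_bot]
      intro h
      have h1 := congrFun (congrFun (congrArg Subtype.val h) 0) 1
      simp [u, CfsgLib.QdFree.up_coe] at h1

end Cfsg.Agent.S1303
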