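import Cfsg.Statements.S1306
import Cfsg.Agent.Lib.Components
import Cfsg.Agent.Lib.Layer2
import Cfsg.Agent.Lib.LocalBasic
import Cfsg.Agent.Lib.GroupB.Coprime

set_option autoImplicit false
open Cfsg

namespace Cfsg.Agent.S1306

/-- Let G be finite, x an involution and L ≤ C_G(x) a component of C_G(x). Suppose L is a component of C_G(y) for every involution y ∈ C_G(L), and ⁅L, g L g⁻¹⁆ ≠ 1 whenever g L g⁻¹ ≠ L. Then L is a standard subgroup of G. -/
theorem result {G : Type*} [Group G] [Finite G] (x : G) (hx : orderOf x = 2) (L : Subgroup G) (hLx : L ≤ Subgroup.centralizer ({x} : Set G)) (hL : Cfsg.IsComponent (L.subgroupOf (Subgroup.centralizer ({x} : Set G)))) (hne : ∀ y : G, orderOf y = 2 → y ∈ Subgroup.centralizer (L : Set G) → L ≤ Subgroup.centralizer ({y} : Set G) ∧ Cfsg.IsComponent (L.subgroupOf (Subgroup.centralizer ({y} : Set G)))) (hnc : ∀ g : G, L.map (MulAut.conj g).toMonoidHom ≠ L → ⁅L, L.map (MulAut.conj g).toMonoidHom⁆ ≠ ⊥) : Cfsg.IsStandardSubgroup L := by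
  classical
  set C := Subgroup.centralizer (L : Set G) with hC
  have hxC : x ∈ C := Subgroup.mem_centralizer_iff.mpr fun l hl => Subgroup.mem_centralizer_singleton_iff.mp (hLx hl)
  have key : ∀ (y : G) (g : G), orderOf y = 2 → y ∈ C → g⁻¹ * y * g ∈ C → L.map (MulAut.conj g).toMonoidHom = L := by
    intro y g hy hyC hgy
    by_contra hgne
    obtain ⟨hle, hcomp⟩ := hne y hy hyC
    obtain ⟨hle', hcomp'⟩ := hne (g⁻¹ * y * g) (by
      rw [show g⁻¹ * y * g = (MulAut.conj g⁻¹).toMonoidHom y by simp, orderOf_injective _ (MulEquiv.injective _), hy]) hgy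
    have hmap : (Subgroup.centralizer ({g⁻¹ * y * g} : Set G)).map (MulAut.conj g).toMonoidHom = Subgroup.centralizer ({y} : Set G) := by
      ext w
      rw [Subgroup.mem_centralizer_singleton_iff]
      constructor
      · rintro ⟨u, hu, rfl⟩
        have hu' := Subgroup.mem_centralizer_singleton_iff.mp hu
        show g * u * g⁻¹ * y = y * (g * u * g⁻¹)
        calc g * u * g⁻¹ * y = g * (u * (g⁻¹ * y * g)) * g⁻¹ := by group
          _ = g * ((g⁻¹ * y * g) * u) * g⁻¹ := by rw [hu']
          _ = _ := by group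
      · intro hw
        refine ⟨g⁻¹ * w * g, Subgroup.mem_centralizer_singleton_iff.mpr ?_, by simp [mul_assoc]⟩
        calc g⁻¹ * w * g * (g⁻¹ * y * g) = g⁻¹ * (w * y) * g := by group
          _ = g⁻¹ * (y * w) * g := by rw [hw]
          _ = _ := by group
    have hle'' : L.map (MulAut.conj g).toMonoidHom ≤ Subgroup.centralizer ({y} : Set G) :=
      (Subgroup.map_mono hle').trans hmap.le
    have hK : Cfsg.IsComponent ((L.map (MulAut.conj g).toMonoidHom).subgroupOf (Subgroup.centralizer ({y} : Set G))) := by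
      let e : ↥(Subgroup.centralizer ({g⁻¹ * y * g} : Set G)) ≃* ↥(Subgroup.centralizer ({y} : Set G)) :=
        (Subgroup.equivMapOfInjective _ (MulAut.conj g).toMonoidHom (MulEquiv.injective _)).trans (MulEquiv.subgroupCongr hmap)
      have := CfsgLib.Layer2.isComponent_map_equiv e hcomp'
      convert this using 1
      ext z
      constructor
      · rintro ⟨l, hl, hlz⟩
        exact ⟨⟨l, hle' hl⟩, hl, Subtype.ext hlz⟩
      · rintro ⟨l, hl, rfl⟩
        exact ⟨(l : G), hl, rfl⟩
    have hne2 : L.subgroupOf (Subgroup.centralizer ({y} : Set G)) ≠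
        (L.map (MulAut.conj g).toMonoidHom).subgroupOf (Subgroup.centralizer ({y} : Set G)) := fun e => by
      refine hgne ?_
      have := congrArg (Subgroup.map (Subgroup.centralizer ({y} : Set G)).subtype) e
      rw [Subgroup.map_subgroupOf_eq_of_le hle, Subgroup.map_subgroupOf_eq_of_le hle''] at this
      exact this.symm
    have hb := congrArg (Subgroup.map (Subgroup.centralizer ({y} : Set G)).subtype) (CfsgLib.Components.component_comm hcomp hK hne2)
    rw [Subgroup.map_commutator, Subgroup.map_subgroupOf_eq_of_le hle, Subgroup.map_subgroupOf_eq_of_le hle'', Subgroup.map_bot] at hb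
    exact hnc g hgne hb
  have hLN : ∀ g : G, L.map (MulAut.conj g).toMonoidHom = L → g ∈ Subgroup.normalizer (L : Set G) :=
    fun g hg => CfsgLib.GroupB.Coprime.mem_normalizer_iff_map_conj_eq.mpr hg
  refine ⟨CfsgLib.Layer2.isQuasisimple_of_equiv (Subgroup.subgroupOfEquivOfLe hLx) hL.2, ⟨?_, fun g hg => ?_⟩, hnc, ?_⟩
  · rw [even_iff_two_dvd, ← hx]
    exact C.orderOf_dvd_natCard hxC
  · by_contra hev
    obtain ⟨w, hw⟩ := exists_prime_orderOf_dvd_card' (G := ↥(C ⊓ C.map (MulAut.conj g).toMonoidHom)) 2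
      (even_iff_two_dvd.mp (Nat.not_odd_iff_even.mp hev))
    obtain ⟨y, hy1, hy2, hy⟩ : ∃ y, y ∈ C ∧ y ∈ C.map (MulAut.conj g).toMonoidHom ∧ orderOf y = 2 :=
      ⟨(w : G), w.2.1, w.2.2, (Subgroup.orderOf_coe w).trans hw⟩
    obtain ⟨z, hz, hzy⟩ := hy2
    refine hg ?_
    refine (CfsgLib.LocalBasic.normalizer_centralizer_ge le_rfl) (hLN g (key y g hy hy1 ?_))
    rw [show g⁻¹ * y * g = z by rw [← hzy]; simp [mul_assoc]]
    exact hz
  · refine le_antisymm (CfsgLib.LocalBasic.normalizer_centralizer_ge le_rfl) fun g hg => ?_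
    refine hLN g (key x g hx hxC ?_)
    exact (Subgroup.mem_normalizer_iff''.mp hg x).mp hxC

end Cfsg.Agent.S1306
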