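import Cfsg.Statements.S1307
import Cfsg.Agent.Lib.Components
import Cfsg.Agent.Lib.Layer2
import Cfsg.Agent.Lib.UniqueOrderP
import Cfsg.Agent.Lib.Isolated
import Cfsg.Agent.Lib.TwoSylow
import Cfsg.Agent.Lib.ZStar.Main

set_option autoImplicit false
open Cfsg

namespace Cfsg.Agent.S1307

/-- Let G be finite, x an involution and L ≤ C_G(x) a component of C_G(x) of even order and 2-rank 1, such that L is a component of C_G(y) for every involution y ∈ C_G(L). Then some involution of L is a classical involution of G. -/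
theorem result {G : Type*} [Group G] [Finite G] (x : G) (hx : orderOf x = 2) (L : Subgroup G) (hLx : L ≤ Subgroup.centralizer ({x} : Set G)) (hL : Cfsg.IsComponent (L.subgroupOf (Subgroup.centralizer ({x} : Set G)))) (heven : Even (Nat.card ↥L)) (hrk : Cfsg.PRankLE 2 1 ↥L) (hne : ∀ y : G, orderOf y = 2 → y ∈ Subgroup.centralizer (L : Set G) → L ≤ Subgroup.centralizer ({y} : Set G) ∧ Cfsg.IsComponent (L.subgroupOf (Subgroup.centralizer ({y} : Set G)))) : ∃ t ∈ L, Cfsg.IsClassicalInvolution t := by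
  classical
  haveI : Fact (Nat.Prime 2) := ⟨Nat.prime_two⟩
  have hQ : Cfsg.IsQuasisimple ↥L := CfsgLib.Layer2.isQuasisimple_of_equiv (Subgroup.subgroupOfEquivOfLe hLx) hL.2
  have hperf : commutator ↥L = ⊤ := hQ.1.commutator_eq_top
  have hpair : ∀ a b : ↥L, orderOf a = 2 → orderOf b = 2 → Commute a b → a = b := by
    intro a b ha hb hab
    by_contra hne
    have ha2 : a * a = 1 := by rw [← pow_two, ← ha, pow_orderOf_eq_one]
    have hb2 : b * b = 1 := by rw [← pow_two, ← hb, pow_orderOf_eq_one]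
    let A : Subgroup ↥L := Subgroup.closure {a, b}
    haveI hAc : IsMulCommutative ↥A := Subgroup.isMulCommutative_closure (fun u hu v hv => by
      rcases hu with rfl | rfl <;> rcases hv with rfl | rfl <;> first | rfl | exact hab | exact hab.symm)
    have hexp : ∀ u ∈ A, u ^ 2 = 1 := fun u hu => by
      induction hu using Subgroup.closure_induction with
      | mem u hu => rcases hu with rfl | rfl <;> rw [pow_two] <;> assumption
      | one => simp
      | mul u v hu hv hu2 hv2 =>
        have hc : Commute u v := congrArg Subtype.val (mul_comm' (⟨u, hu⟩ : ↥A) ⟨v, hv⟩)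
        rw [hc.mul_pow, hu2, hv2, one_mul]
      | inv u _ hu2 => rw [inv_pow, hu2, inv_one]
    have h4 := hrk A hAc hexp
    have h3 : ({1, a, b} : Finset ↥L).card = 3 := by
      rw [Finset.card_insert_of_notMem, Finset.card_pair hne]
      simp only [Finset.mem_insert, Finset.mem_singleton, not_or]
      exact ⟨fun e => by simp [← e] at ha, fun e => by simp [← e] at hb⟩
    have hsub : (({1, a, b} : Finset ↥L) : Set ↥L) ⊆ (A : Set ↥L) := by
      intro u hu
      simp only [Finset.coe_insert, Finset.coe_singleton, Set.mem_insert_iff, Set.mem_singleton_iff] at hu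
      rcases hu with rfl | rfl | rfl
      · exact one_mem A
      · exact Subgroup.subset_closure (by simp)
      · exact Subgroup.subset_closure (by simp)
    have := Set.ncard_le_ncard hsub (Set.toFinite _)
    rw [Set.ncard_coe_finset, h3, ← Nat.card_coe_set_eq] at this
    have h5 : Nat.card ↥A ≤ 2 := by simpa using h4
    exact absurd (this.trans h5) (by omega)
  obtain ⟨S⟩ : Nonempty (Sylow 2 ↥L) := inferInstance
  haveI : Nontrivial ↥(S : Subgroup ↥L) := (Subgroup.nontrivial_iff_ne_bot _).mpr fun e => by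
    have := S.dvd_card_of_dvd_card (even_iff_two_dvd.mp heven)
    rw [e, Subgroup.card_bot] at this
    exact absurd (Nat.le_of_dvd one_pos this) (by omega)
  haveI := S.2.center_nontrivial
  obtain ⟨z, hz⟩ : ∃ z : ↥(Subgroup.center ↥(S : Subgroup ↥L)), orderOf z = 2 :=
    exists_prime_orderOf_dvd_card' 2 ((Nat.prime_dvd_prime_iff_eq Nat.prime_two Nat.prime_two).mpr rfl |>.trans
      ((S.2.to_subgroup _).card_eq_or_dvd.resolve_left (Finite.one_lt_card).ne'))
  set t : ↥L := ((z : ↥(S : Subgroup ↥L)) : ↥L)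
  have ht : orderOf t = 2 := by rw [Subgroup.orderOf_coe, Subgroup.orderOf_coe, hz]
  have huniq : ∀ a : ↥(S : Subgroup ↥L), orderOf a = 2 → a = (z : ↥(S : Subgroup ↥L)) := fun a ha => Subtype.ext
    (hpair a t (by rw [Subgroup.orderOf_coe, ha]) ht (congrArg Subtype.val (Subgroup.mem_center_iff.mp z.2 a)))
  have hiso : Cfsg.IsIsolatedInvolution t := CfsgLib.Isolated.isIsolated_of_sylow (S := S) ht fun g hg =>
    congrArg Subtype.val (huniq ⟨_, hg⟩ (by rw [← Subgroup.orderOf_coe]; exact (orderOf_injective (MulAut.conj g).toMonoidHom (MulEquiv.injective _) t).trans ht))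
  have hO : Cfsg.oddCore ↥L ≤ Subgroup.center ↥L := by
    haveI := CfsgLib.ZStar.oddCore_normal (G := ↥L)
    refine (CfsgLib.Components.quasisimple_normal_cases hQ _).resolve_left fun e => ?_
    have := CfsgLib.ZStar.oddCore_odd (G := ↥L)
    rw [e, Subgroup.card_top] at this
    exact (Nat.not_odd_iff_even.mpr heven) this
  let f : ↥L →* ↥(Subgroup.center ↥L) :=
    { toFun := fun g => ⟨t * g * t⁻¹ * g⁻¹, hO (CfsgLib.ZStar.zstar hiso g)⟩
      map_one' := Subtype.ext (by simp)
      map_mul' := fun g k => Subtype.ext (by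
        show t * (g * k) * t⁻¹ * (g * k)⁻¹ = t * g * t⁻¹ * g⁻¹ * (t * k * t⁻¹ * k⁻¹)
        have hk := Subgroup.mem_center_iff.mp (hO (CfsgLib.ZStar.zstar hiso k))
        calc t * (g * k) * t⁻¹ * (g * k)⁻¹ = t * g * t⁻¹ * ((t * k * t⁻¹ * k⁻¹) * g⁻¹) := by group
          _ = t * g * t⁻¹ * (g⁻¹ * (t * k * t⁻¹ * k⁻¹)) := by rw [hk g⁻¹]
          _ = _ := by group) }
  have hf : ∀ g, f g = 1 := fun g => by
    have hker : commutator ↥L ≤ f.ker := by
      rw [commutator_def, Subgroup.commutator_le]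
      intro a _ b _
      rw [MonoidHom.mem_ker, map_commutatorElement, commutatorElement_eq_one_iff_mul_comm]
      exact Subtype.ext (Subgroup.mem_center_iff.mp (f b).2 _)
    exact MonoidHom.mem_ker.mp (hker (hperf ▸ Subgroup.mem_top g))
  have htc : ∀ l ∈ L, l * (t : G) = t * l := fun l hl => by
    have h1 : t * ⟨l, hl⟩ * t⁻¹ * (⟨l, hl⟩ : ↥L)⁻¹ = 1 := congrArg Subtype.val (hf ⟨l, hl⟩)
    rw [mul_inv_eq_one, mul_inv_eq_iff_eq_mul] at h1
    exact (congrArg Subtype.val h1).symm
  have htG : orderOf (t : G) = 2 := by rw [Subgroup.orderOf_coe, ht]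
  obtain ⟨hLt, hcomp⟩ := hne (t : G) htG (Subgroup.mem_centralizer_iff.mpr htc)
  have hnc : ¬ IsCyclic ↥(S : Subgroup ↥L) := fun hcyc => by
    obtain ⟨H, hH⟩ := CfsgLib.TwoSylow.exists_index_two heven S hcyc
    haveI := Subgroup.normal_of_index_eq_two hH
    have hq : commutator ↥L ≤ H := by
      haveI : Fact (Nat.Prime 2) := ⟨Nat.prime_two⟩
      haveI : IsCyclic (↥L ⧸ H) := isCyclic_of_prime_card (p := 2) hH
      letI : CommGroup (↥L ⧸ H) := IsCyclic.commGroup
      exact (Abelianization.commutator_subset_ker (QuotientGroup.mk' H)).trans (QuotientGroup.ker_mk' H).le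
    rw [hperf, top_le_iff] at hq
    rw [hq, Subgroup.index_top] at hH
    exact absurd hH (by omega)
  rcases CfsgLib.UniqueOrderP.cyclic_or_quaternion (p := 2) S.2 (fun a b ha hb => by
    rw [huniq a ha, huniq b hb]; exact Subgroup.mem_zpowers _) with h | ⟨-, n, ⟨e⟩⟩
  · exact absurd h hnc
  · obtain ⟨m, rfl⟩ : ∃ m, n = m + 1 := Nat.exists_eq_add_one_of_ne_zero fun h0 => hnc (by
      subst h0
      refine isCyclic_of_orderOf_eq_card (e.symm (QuaternionGroup.xa 0)) ?_
      rw [MulEquiv.orderOf_eq, QuaternionGroup.orderOf_xa, Nat.card_congr e.toEquiv, Nat.card_eq_fintype_card, QuaternionGroup.card]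
      rfl)
    exact ⟨(t : G), t.2, htG, L, hLt, t.2, hcomp.1, S, m, ⟨e⟩⟩

end Cfsg.Agent.S1307
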