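import Cfsg.Statements.S1314
import Cfsg.Agent.Lib.LocalBasic

set_option autoImplicit false
open Cfsg

namespace Cfsg.Agent.S1314
open scoped commutatorElement

/-- Let x be an involution of a group G and L a perfect subgroup with ⁅L, x L x⁻¹⁆ = 1. Then l ↦ l (x l x⁻¹) is a group homomorphism π from L to G whose kernel is central in L and whose image lies in C_G(x); and the commutator subgroup of C_{L ⊔ xLx⁻¹}(x) equals the image of π. -/
theorem result {G : Type*} [Group G] [Finite G] (x : G) (hx : orderOf x = 2) (L : Subgroup G) (hperf : ⁅L, L⁆ = L) (hcomm : ⁅L, L.map (MulAut.conj x).toMonoidHom⁆ = ⊥) : ∃ π : ↥L →* G, (∀ l : ↥L, π l = (l : G) * (x * (l : G) * x⁻¹)) ∧ π.ker ≤ Subgroup.center ↥L ∧ π.range ≤ Subgroup.centralizer ({x} : Set G) ∧ ⁅(L ⊔ L.map (MulAut.conj x).toMonoidHom) ⊓ Subgroup.centralizer ({x} : Set G), (L ⊔ L.map (MulAut.conj x).toMonoidHom) ⊓ Subgroup.centralizer ({x} : Set G)⁆ = π.range := by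
  set L' := L.map (MulAut.conj x).toMonoidHom with hL'
  have hx2 : x * x = 1 := by rw [← sq, ← hx, pow_orderOf_eq_one]
  have hxi : x⁻¹ = x := inv_eq_of_mul_eq_one_right hx2
  have hmem : ∀ l ∈ L, x * l * x⁻¹ ∈ L' := fun l hl => ⟨l, hl, rfl⟩
  have hc : ∀ a ∈ L, ∀ b ∈ L', a * b = b * a := fun a ha b hb =>
    (Subgroup.commutator_eq_bot_iff_le_centralizer.mp hcomm ha b hb).symm
  let π : ↥L →* G :=
    { toFun := fun l => (l : G) * (x * (l : G) * x⁻¹)
      map_one' := by simp
      map_mul' := fun l m => by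
        have h := hc m m.2 _ (hmem l l.2)
        show (l : G) * m * (x * ((l : G) * m) * x⁻¹) = (l : G) * (x * l * x⁻¹) * ((m : G) * (x * m * x⁻¹))
        calc (l : G) * m * (x * ((l : G) * m) * x⁻¹) = (l : G) * ((m : G) * (x * l * x⁻¹)) * (x * m * x⁻¹) := by group
          _ = (l : G) * ((x * l * x⁻¹) * (m : G)) * (x * m * x⁻¹) := by rw [h]
          _ = _ := by group }
  have hswap : ∀ y : G, x * (x * y * x⁻¹) * x⁻¹ = y := fun y => by
    rw [hxi, show x * (x * y * x) * x = (x * x) * y * (x * x) by group, hx2, one_mul, mul_one]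
  refine ⟨π, fun l => rfl, ?_, ?_, ?_⟩
  · intro l hl
    have h1 : (l : G) * (x * (l : G) * x⁻¹) = 1 := hl
    refine Subgroup.mem_center_iff.mpr fun m => Subtype.ext ?_
    have h2 := hc m m.2 _ (hmem l l.2)
    rw [eq_inv_of_mul_eq_one_right h1] at h2
    show (m : G) * l = l * m
    calc (m : G) * l = l * ((l : G)⁻¹ * m) * l := by group
      _ = l * ((m : G) * (l : G)⁻¹) * l := by rw [h2]
      _ = _ := by group
  · rintro _ ⟨l, rfl⟩
    refine Subgroup.mem_centralizer_singleton_iff.mpr ?_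
    show (l : G) * (x * l * x⁻¹) * x = x * ((l : G) * (x * l * x⁻¹))
    rw [hc l l.2 _ (hmem l l.2)]
    conv_rhs => rw [← hc l l.2 _ (hmem l l.2)]
    rw [hxi]
    calc x * l * x * l * x = x * (l * (x * l * x)) := by group
      _ = _ := rfl
  · apply le_antisymm
    · rw [Subgroup.commutator_le]
      have key : ∀ c ∈ (L ⊔ L') ⊓ Subgroup.centralizer ({x} : Set G),
          ∃ b : ↥L, ∃ z : G, c = π b * z ∧ ∀ y ∈ L ⊔ L', y * z = z * y := by
        intro c ⟨hc1, hc2⟩
        have hn : L' ≤ Subgroup.normalizer (L : Set G) := fun b hb =>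
          Subgroup.centralizer_le_normalizer _ fun a ha => hc a ha b hb
        replace hc1 : c ∈ ((L ⊔ L' : Subgroup G) : Set G) := hc1
        rw [Subgroup.coe_mul_of_right_le_normalizer_left _ _ hn, Set.mem_mul] at hc1
        obtain ⟨a, ha, _, ⟨b, hb, rfl⟩, hab⟩ := hc1
        change a * (x * b * x⁻¹) = c at hab
        have hfix : x * c * x⁻¹ = c := by
          rw [← Subgroup.mem_centralizer_singleton_iff.mp hc2]; group
        have h3 : (x * a * x⁻¹) * b = a * (x * b * x⁻¹) := by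
          calc (x * a * x⁻¹) * b = x * (a * (x * b * x⁻¹)) * x⁻¹ := by
                conv_lhs => rw [← hswap b]
                group
            _ = _ := by rw [hab, hfix]
        have hz : b⁻¹ * a = (x * a * x⁻¹) * (x * b * x⁻¹)⁻¹ := by
          have h4 : b * (x * a * x⁻¹) = a * (x * b * x⁻¹) := (hc b hb _ (hmem a ha)).trans h3
          calc b⁻¹ * a = b⁻¹ * (a * (x * b * x⁻¹)) * (x * b * x⁻¹)⁻¹ := by group
            _ = b⁻¹ * (b * (x * a * x⁻¹)) * (x * b * x⁻¹)⁻¹ := by rw [h4]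
            _ = _ := by group
        refine ⟨⟨b, hb⟩, b⁻¹ * a, ?_, ?_⟩
        · show c = b * (x * b * x⁻¹) * (b⁻¹ * a)
          rw [← hab, mul_assoc b, ← hc _ (L.mul_mem (L.inv_mem hb) ha) _ (hmem b hb)]
          group
        · intro y hy
          refine Subgroup.mem_centralizer_singleton_iff.mp ?_
          refine (sup_le (fun a' ha' => ?_) (fun a' ha' => ?_) : L ⊔ L' ≤ Subgroup.centralizer ({b⁻¹ * a} : Set G)) hy
          · rw [Subgroup.mem_centralizer_singleton_iff, hz]
            exact hc a' ha' _ (L'.mul_mem (hmem a ha) (L'.inv_mem (hmem b hb)))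
          · rw [Subgroup.mem_centralizer_singleton_iff]
            exact (hc _ (L.mul_mem (L.inv_mem hb) ha) a' ha').symm
      intro c hc' d hd
      obtain ⟨b, z, hcz, hz⟩ := key c hc'
      obtain ⟨b', z', hdz, hz'⟩ := key d hd
      have hπ : ∀ e : ↥L, π e ∈ L ⊔ L' := fun e => Subgroup.mul_mem_sup e.2 (hmem e e.2)
      refine ⟨⁅b, b'⁆, ?_⟩
      have hd' : d ∈ L ⊔ L' := hd.1
      have h1 := hz d hd'
      have h2 := hz' _ (hπ b)
      rw [map_commutatorElement, hcz, commutatorElement_def, commutatorElement_def]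
      calc π b * π b' * (π b)⁻¹ * (π b')⁻¹ = π b * π b' * ((π b)⁻¹ * z') * z'⁻¹ * (π b')⁻¹ := by group
        _ = π b * π b' * (z' * (π b)⁻¹) * z'⁻¹ * (π b')⁻¹ := by rw [hz' _ (inv_mem (hπ b))]
        _ = π b * d * (π b)⁻¹ * d⁻¹ := by rw [hdz]; group
        _ = π b * (d * z) * z⁻¹ * (π b)⁻¹ * d⁻¹ := by group
        _ = π b * (z * d) * z⁻¹ * (π b)⁻¹ * d⁻¹ := by rw [h1]
        _ = π b * z * d * (π b * z)⁻¹ * d⁻¹ := by group
    · rintro _ ⟨l, rfl⟩
      have hl : (l : G) ∈ ⁅L, L⁆ := hperf.symm ▸ l.2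
      have hle : (⁅L, L⁆.subgroupOf L).map π ≤ ⁅π.range, π.range⁆ := by
        rw [show ⁅L, L⁆.subgroupOf L = ⁅(⊤ : Subgroup ↥L), (⊤ : Subgroup ↥L)⁆ from
          Subgroup.map_injective L.subtype_injective (by
            rw [Subgroup.map_commutator, ← MonoidHom.range_eq_map, Subgroup.range_subtype]
            exact Subgroup.map_subgroupOf_eq_of_le (hperf.le)),
          Subgroup.map_commutator, ← MonoidHom.range_eq_map]
      refine Subgroup.commutator_mono ?_ ?_ (hle ⟨l, hl, rfl⟩) <;>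
      · rintro _ ⟨e, rfl⟩
        refine ⟨Subgroup.mul_mem_sup e.2 (hmem e e.2), Subgroup.mem_centralizer_singleton_iff.mpr ?_⟩
        show (e : G) * (x * e * x⁻¹) * x = x * ((e : G) * (x * e * x⁻¹))
        have hm := hmem e e.2
        rw [hxi] at hm ⊢
        rw [hc e e.2 _ hm]
        conv_rhs => rw [← hc e e.2 _ hm]
        calc x * (e : G) * x * e * x = x * ((e : G) * (x * e * x)) := by group
          _ = _ := rfl

end Cfsg.Agent.S1314
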