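import Cfsg.Statements.S1324
import Mathlib
import Cfsg.Agent.Lib.GroupB.CoprimeAbelian

set_option autoImplicit false
open Cfsg

namespace Cfsg.Agent.S1324

/-- Let A be a noncyclic elementary abelian p-subgroup of a finite group H normalizing a subgroup X of order prime to p. Then X is generated by the subgroups X ∩ C_H(B), B ranging over the subgroups of A of index at most p. -/
theorem result {H : Type*} [Group H] [Finite H] (p : ℕ) [Fact p.Prime] (A X : Subgroup H) (hA : Cfsg.IsElementaryAbelian p A) (hA2 : p ^ 2 ≤ Nat.card ↥A) (hX : ¬ p ∣ Nat.card ↥X) (hAX : A ≤ Subgroup.normalizer (X : Set H)) : X = ⨆ B : {B : Subgroup H // B ≤ A ∧ B.relIndex A ≤ p}, X ⊓ Subgroup.centralizer ((B : Subgroup H) : Set H) := by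
  have hcop : (Nat.card A).Coprime (Nat.card X) := by
    have hp : IsPGroup p A := fun a => ⟨1, Subtype.ext (by simpa using hA.2 a a.2)⟩
    obtain ⟨k, hk⟩ := IsPGroup.iff_card.1 hp
    rw [hk]
    exact ((Fact.out : p.Prime).coprime_iff_not_dvd.2 hX).pow_left k
  refine le_antisymm ?_ (iSup_le fun _ => inf_le_left)
  conv_lhs => rw [← CfsgLib.GroupB.CoprimeAbelian.iSup_centralizer_eq hA.1 hAX hcop]
  refine iSup₂_le fun B hB => ?_
  obtain ⟨hBA, a, ha, hsup⟩ := hB
  refine le_iSup_of_le ⟨B, hBA, ?_⟩ le_rfl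
  have hn : Subgroup.zpowers a ≤ Subgroup.normalizer (B : Set H) := by
    rw [Subgroup.zpowers_le]
    refine Subgroup.centralizer_le_normalizer _ (Subgroup.mem_centralizer_iff.2 fun b hb => ?_)
    exact congrArg Subtype.val (hA.1.is_comm.comm ⟨b, hBA hb⟩ ⟨a, ha⟩)
  have h1 : Nat.card A ≤ Nat.card B * p := by
    rw [← hsup]
    show Nat.card ((B ⊔ Subgroup.zpowers a : Subgroup H) : Set H) ≤ _
    rw [sup_comm, Subgroup.coe_mul_of_left_le_normalizer_right _ _ hn, mul_comm (Nat.card B) p]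
    refine Set.natCard_mul_le.trans (Nat.mul_le_mul_right _ ?_)
    show Nat.card (Subgroup.zpowers a) ≤ p
    rw [Nat.card_zpowers]
    exact orderOf_le_of_pow_eq_one (Fact.out : p.Prime).pos (hA.2 a ha)
  have h2 : Nat.card B * B.relIndex A = Nat.card A := by
    rw [← Subgroup.relIndex_bot_left, ← Subgroup.relIndex_bot_left, Subgroup.relIndex_mul_relIndex ⊥ B A bot_le hBA]
  exact Nat.le_of_mul_le_mul_left (h2 ▸ h1) Nat.card_pos

end Cfsg.Agent.S1324
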