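import Cfsg.Statements.S1328
import Cfsg.Agent.S1270
import Cfsg.Agent.Lib.GroupB.Coprime

set_option autoImplicit false
open Cfsg

namespace Cfsg.Agent.S1328
open CfsgLib.Components CfsgLib.PComponents CfsgLib.LocalBasic
open scoped commutatorElement

theorem normalizer_core_ge {G : Type*} [Group G] {B N : Subgroup G} (h : B ≤ Subgroup.normalizer (N : Set G)) :
    B ≤ Subgroup.normalizer (((Cfsg.oddCore ↥N).map N.subtype : Subgroup G) : Set G) := by
  intro b hb
  let e : ↥N ≃* ↥N := ((MulAut.conj b).subgroupMap N).trans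
    (MulEquiv.subgroupCongr (conj_map_eq_of_mem_normalizer (h hb)))
  refine mem_normalizer_of_conj_map_eq ?_
  conv_rhs => rw [show Cfsg.oddCore ↥N = (Cfsg.oddCore ↥N).map e.toMonoidHom from
    (CfsgLib.Core.pPrimeCore_map_equiv e 2).symm]
  rw [Subgroup.map_map, Subgroup.map_map]
  rfl


/-- Let G be finite, H ≤ G with O(H) = 1, t an involution of G normalizing H, and Y a nontrivial subgroup of O(C_H(t)). Then some component E of H is normalized by t and by Y and centralized by neither t nor Y. -/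
theorem result {G : Type*} [Group G] [Finite G] (H : Subgroup G) (hO : Cfsg.oddCore ↥H = ⊥) (t : G) (ht : orderOf t = 2) (htH : t ∈ Subgroup.normalizer (H : Set G)) (Y : Subgroup G) (hY1 : Y ≠ ⊥) (hY : Y ≤ (Cfsg.oddCore ↥(H ⊓ Subgroup.centralizer ({t} : Set G))).map (H ⊓ Subgroup.centralizer ({t} : Set G)).subtype) : ∃ E : Subgroup ↥H, Cfsg.IsComponent E ∧ (E.map H.subtype).map (MulAut.conj t).toMonoidHom = E.map H.subtype ∧ Y ≤ Subgroup.normalizer ((E.map H.subtype : Subgroup G) : Set G) ∧ ¬ (t ∈ Subgroup.centralizer ((E.map H.subtype : Subgroup G) : Set G)) ∧ ¬ (Y ≤ Subgroup.centralizer ((E.map H.subtype : Subgroup G) : Set G)) := by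
  have ht2 : t ^ 2 = 1 := by rw [← ht, pow_orderOf_eq_one]
  set N := H ⊓ Subgroup.centralizer ({t} : Set G) with hN
  set D := (Cfsg.oddCore ↥N).map N.subtype with hD
  have hDodd : (Nat.card ↥D).Coprime 2 := by
    rw [hD, Subgroup.card_map_of_injective N.subtype_injective]; exact CfsgLib.Core.card_pPrimeCore_coprime 2
  have hDN : D ≤ N := Subgroup.map_subtype_le _
  set R := (Cfsg.pCore 2 ↥H).map H.subtype with hR
  have hRH : R ≤ H := Subgroup.map_subtype_le _
  have hRp : IsPGroup 2 ↥R := (CfsgLib.Core.isPGroup_pCore 2).map _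
  have hHR : Subgroup.normalizer (H : Set G) ≤ Subgroup.normalizer (R : Set G) := by
    intro b hb
    let e : ↥H ≃* ↥H := ((MulAut.conj b).subgroupMap H).trans
      (MulEquiv.subgroupCongr (conj_map_eq_of_mem_normalizer hb))
    refine mem_normalizer_of_conj_map_eq ?_
    conv_rhs => rw [hR, show Cfsg.pCore 2 ↥H = (Cfsg.pCore 2 ↥H).map e.toMonoidHom from
      (CfsgLib.Core.pCore_map_equiv e 2).symm]
    rw [hR, Subgroup.map_map, Subgroup.map_map]
    rfl
  have hcent : D ≤ Subgroup.centralizer (R : Set G) := by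
    intro d hd r hr
    have hdo : (orderOf d).Coprime 2 := hDodd.coprime_dvd_left (Subgroup.orderOf_dvd_natCard _ hd)
    refine (CfsgLib.GenFitting.thompson_pq (P := Subgroup.zpowers t) (IsPGroup.of_card (n := 1) (by rw [Nat.card_zpowers, ht, pow_one]))
      hRp (Subgroup.zpowers_le.mpr (hHR htH)) hdo ?_ (hHR (Subgroup.le_normalizer (hDN hd).1)) ?_ r hr).symm
    · intro u hu
      obtain ⟨j, rfl⟩ := Subgroup.mem_zpowers_iff.mp hu
      exact ((show Commute d t from Subgroup.mem_centralizer_singleton_iff.mp (hDN hd).2).zpow_right j).eq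
    · rintro u ⟨huR, hut⟩
      have huN : u ∈ N := ⟨hRH huR, Subgroup.mem_centralizer_singleton_iff.mpr (hut t (Subgroup.mem_zpowers t)).symm⟩
      have h1 : ⁅d, u⁆ ∈ D := by
        rw [commutatorElement_def, show d * u * d⁻¹ * u⁻¹ = d * (u * d⁻¹ * u⁻¹) by group]
        exact D.mul_mem hd ((Subgroup.mem_normalizer_iff.mp (normalizer_core_ge Subgroup.le_normalizer huN) _).mp (D.inv_mem hd))
      have h2 : ⁅d, u⁆ ∈ R := by
        rw [commutatorElement_def]
        exact R.mul_mem ((Subgroup.mem_normalizer_iff.mp (hHR (Subgroup.le_normalizer (hDN hd).1)) u).mp huR) (R.inv_mem huR)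
      exact commutatorElement_eq_one_iff_mul_comm.mp (Subgroup.mem_bot.mp
        (CfsgLib.PConstrained.inf_eq_bot_of_coprime hRp hDodd ▸ ⟨h2, h1⟩))
  have hYH : Y ≤ H := hY.trans (hDN.trans inf_le_left)
  obtain ⟨E₀, hE₀, hEY⟩ : ∃ E₀ : Subgroup ↥H, Cfsg.IsComponent E₀ ∧
      ¬ Y ≤ Subgroup.centralizer ((E₀.map H.subtype : Subgroup G) : Set G) := by
    by_contra hcon
    simp only [not_exists, not_and, not_not] at hcon
    refine hY1 ((Subgroup.eq_bot_iff_forall Y).mpr fun y hy => ?_)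
    set F := Cfsg.generalizedFittingSubgroup ↥H
    have hfit : Cfsg.fittingSubgroup ↥H ≤ Cfsg.pCore 2 ↥H := by
      rw [CfsgLib.Core.fittingSubgroup_eq_iSup_pCore]
      refine iSup_le fun r => ?_
      by_cases hr : (r : ℕ) = 2
      · rw [hr]
      · haveI := CfsgLib.Core.pCore_characteristic (G := ↥H) (r : ℕ)
        haveI := Fact.mk r.2
        obtain ⟨a, ha⟩ := IsPGroup.iff_card.mp (CfsgLib.Core.isPGroup_pCore (G := ↥H) (r : ℕ))
        exact ((CfsgLib.Core.le_pPrimeCore inferInstance (by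
          rw [ha]; exact Nat.Coprime.pow_left a ((Nat.coprime_primes r.2 Nat.prime_two).mpr hr))).trans hO.le).trans bot_le
    have hyF : (⟨y, hYH hy⟩ : ↥H) ∈ Subgroup.centralizer (F : Set ↥H) := by
      have h : F ≤ Subgroup.centralizer ({⟨y, hYH hy⟩} : Set ↥H) := by
        refine sup_le (sSup_le fun K hK u hu => ?_) fun u hu => ?_ <;> rw [Subgroup.mem_centralizer_singleton_iff]
        · exact Subtype.ext (hcon K hK hy u ⟨u, hu, rfl⟩)
        · exact Subtype.ext ((hcent (hY hy) u ⟨u, hfit hu, rfl⟩).symm.symm)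
      exact fun u hu => Subgroup.mem_centralizer_singleton_iff.mp (h hu)
    haveI : F.Normal := Subgroup.sup_normal (Cfsg.layer ↥H) (Cfsg.fittingSubgroup ↥H)
      (hK := CfsgLib.Core.fittingSubgroup_normal)
    haveI : (F ⊓ Subgroup.centralizer (F : Set ↥H)).Normal := Subgroup.normalizer_eq_top_iff.mp (eq_top_iff.mpr
      (normalizer_inf_ge (by rw [Subgroup.normalizer_eq_top]) (normalizer_centralizer_ge (by rw [Subgroup.normalizer_eq_top]))))
    have hnil : Group.IsNilpotent ↥(F ⊓ Subgroup.centralizer (F : Set ↥H) : Subgroup ↥H) :=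
      CfsgLib.GenFitting.isNilpotent_of_center (N := F ⊓ Subgroup.centralizer (F : Set ↥H))
        (Z := ⊥) (by rw [le_bot_iff, Subgroup.commutator_eq_bot_iff_le_centralizer]; exact fun u hu v hv => hu.2 v hv.1)
        (fun u _ v hv => by rw [Subgroup.mem_bot.mp hv, one_mul, mul_one])
    have h2 := hfit (CfsgLib.Core.le_fittingSubgroup inferInstance hnil
      (show (⟨y, hYH hy⟩ : ↥H) ∈ F ⊓ Subgroup.centralizer (F : Set ↥H) from
        ⟨CfsgLib.GenFitting.centralizer_genFitting_le hyF, hyF⟩))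
    exact Subgroup.mem_bot.mp (CfsgLib.PConstrained.inf_eq_bot_of_coprime hRp hDodd ▸
      (⟨⟨_, h2, rfl⟩, hY hy⟩ : y ∈ R ⊓ D))
  set E := E₀.map H.subtype with hE
  have hEH : E ≤ H := Subgroup.map_subtype_le _
  have hE2 : 2 ∣ Nat.card ↥E := by
    rw [hE, Subgroup.card_map_of_injective H.subtype_injective]
    exact prime_dvd_card_component hE₀ hO
  have hEp : ⁅E, E⁆ = E := by rw [hE, ← Subgroup.map_commutator, component_perfect hE₀]
  -- the extension by `t`
  set X := H ⊔ Subgroup.zpowers t with hX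
  have hHX : H ≤ X := le_sup_left
  have htX : t ∈ X := Subgroup.mem_sup_right (Subgroup.mem_zpowers t)
  have hXH : X ≤ Subgroup.normalizer (H : Set G) := sup_le Subgroup.le_normalizer (Subgroup.zpowers_le.mpr htH)
  haveI hn : (H.subgroupOf X).Normal := (Subgroup.normal_subgroupOf_iff_le_normalizer hHX).mpr hXH
  have hOX : Cfsg.pPrimeCore 2 ↥X = ⊥ := by
    have hle : Cfsg.pPrimeCore 2 ↥X ≤ H.subgroupOf X := by
      intro u hu
      refine (QuotientGroup.eq_one_iff u).mp (orderOf_eq_one_iff.mp (Nat.eq_one_of_dvd_coprimes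
        (CfsgLib.Core.card_pPrimeCore_coprime (G := ↥X) 2) ((orderOf_map_dvd (QuotientGroup.mk' (H.subgroupOf X)) u).trans (Subgroup.orderOf_dvd_natCard _ hu)) ?_))
      refine (orderOf_dvd_natCard _).trans ?_
      show (H.subgroupOf X).index ∣ 2
      show H.relIndex X ∣ 2
      rw [hX, CfsgLib.GroupB.Coprime.relIndex_sup_of_le_normalizer (Subgroup.zpowers_le.mpr htH)]
      exact ht ▸ Nat.card_zpowers t ▸ Subgroup.relIndex_dvd_card H (Subgroup.zpowers t)
    have h1 := pPrimeCore_map_subnormal (p := 2) hn.isSubnormal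
    rw [inf_eq_right.mpr hle] at h1
    rw [← h1, ← CfsgLib.Core.pPrimeCore_map_equiv (Subgroup.subgroupOfEquivOfLe hHX).symm 2]
    rw [show Cfsg.pPrimeCore 2 ↥H = ⊥ from hO, Subgroup.map_bot, Subgroup.map_bot]
  set EX := E.subgroupOf X with hEX
  have hEXc : Cfsg.IsComponent EX := by
    refine ⟨?_, CfsgLib.Layer2.isQuasisimple_of_equiv ((Subgroup.equivMapOfInjective E₀ H.subtype H.subtype_injective).trans
      (Subgroup.subgroupOfEquivOfLe (hEH.trans hHX)).symm) hE₀.2⟩
    have h1 := isSubnormal_map_subtype (H := H.subgroupOf X)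
      (hE₀.1.map (f := (Subgroup.subgroupOfEquivOfLe hHX).symm.toMonoidHom) (Subgroup.subgroupOfEquivOfLe hHX).symm.surjective)
      hn.isSubnormal
    convert h1 using 1
    refine Subgroup.map_injective X.subtype_injective ?_
    rw [subgroupOf_map (hEH.trans hHX), Subgroup.map_map, Subgroup.map_map, hE]
    congr 1
  have hcore : D.subgroupOf X ≤ Cfsg.centralizerPPrimeCore 2 (⟨t, htX⟩ : ↥X) := by
    set C := Subgroup.centralizer ({(⟨t, htX⟩ : ↥X)} : Set ↥X) with hC
    have hDC : D.subgroupOf X ≤ C := fun u hu => Subgroup.mem_centralizer_singleton_iff.mpr (Subtype.ext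
      (Subgroup.mem_centralizer_singleton_iff.mp (hDN (Subgroup.mem_subgroupOf.mp hu)).2))
    have hnm : C ≤ Subgroup.normalizer ((D.subgroupOf X : Subgroup ↥X) : Set ↥X) := by
      intro u hu
      have hu1 : Subgroup.zpowers (u : G) ≤ Subgroup.normalizer (N : Set G) := by
        refine Subgroup.zpowers_le.mpr (normalizer_inf_ge (B := Subgroup.zpowers (u : G))
          (Subgroup.zpowers_le.mpr (hXH u.2)) (Subgroup.zpowers_le.mpr (Subgroup.le_normalizer
            (Subgroup.mem_centralizer_singleton_iff.mpr (congrArg Subtype.val (Subgroup.mem_centralizer_singleton_iff.mp hu)))))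
          (Subgroup.mem_zpowers _))
      have hu2 := normalizer_core_ge hu1 (Subgroup.mem_zpowers (u : G))
      exact Subgroup.mem_normalizer_iff.mpr fun a => Subgroup.mem_normalizer_iff.mp hu2 a
    show D.subgroupOf X ≤ (Cfsg.pPrimeCore 2 ↥C).map C.subtype
    rw [← subgroupOf_map hDC]
    refine Subgroup.map_mono (CfsgLib.Core.le_pPrimeCore
      ((Subgroup.normal_subgroupOf_iff_le_normalizer hDC).mpr hnm) ?_)
    rw [Nat.card_congr (Subgroup.subgroupOfEquivOfLe hDC).toEquiv,
      Nat.card_congr (Subgroup.subgroupOfEquivOfLe (hDN.trans (inf_le_left.trans hHX))).toEquiv]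
    exact hDodd
  have hEt : ⁅E, Subgroup.zpowers t⁆ = E := by
    have hXe : ⁅EX, Subgroup.zpowers (⟨t, htX⟩ : ↥X)⁆ = EX := by
      by_contra hne
      have h0 := Cfsg.Agent.S1270.result 2 hOX ⟨t, htX⟩ (by rwa [Subgroup.orderOf_mk]) EX hEXc hne
      refine hEY fun y hy a ha => ?_
      exact congrArg Subtype.val ((Subgroup.commutator_eq_bot_iff_le_centralizer.mp (Subgroup.commutator_comm EX _ ▸ h0))
        (hcore (Subgroup.mem_subgroupOf.mpr (hY hy) : (⟨y, hHX (hYH hy)⟩ : ↥X) ∈ D.subgroupOf X)) ⟨a, hHX (hEH ha)⟩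
        (Subgroup.mem_subgroupOf.mpr ha))
    have h := congrArg (Subgroup.map X.subtype) hXe
    rwa [Subgroup.map_commutator, MonoidHom.map_zpowers, subgroupOf_map (hEH.trans hHX)] at h
  have htE : t ∈ Subgroup.normalizer (E : Set G) := by
    have h := Subgroup.normalizer_commutator_ge_right E (Subgroup.zpowers t)
    rw [hEt] at h
    exact h (Subgroup.mem_zpowers t)
  refine ⟨E₀, hE₀, conj_map_eq_of_mem_normalizer htE, ?_, fun htc => ?_, hEY⟩
  · intro y hy
    by_contra hyE
    have hyH := hYH hy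
    set E' := E₀.map (MulAut.conj (⟨y, hyH⟩ : ↥H)).toMonoidHom with hE'
    have hE'c : Cfsg.IsComponent E' := component_map_conj hE₀ _
    have hne' : E₀ ≠ E' := fun he => hyE (mem_normalizer_of_conj_map_eq (by
      refine Eq.trans ?_ (congrArg (Subgroup.map H.subtype) he.symm)
      rw [hE', Subgroup.map_map, Subgroup.map_map]; rfl))
    -- a 2-element of `E`, not central, which `t` fixes modulo the centre
    have htop := sup_le (Subgroup.le_normalizer (H := E)) (Subgroup.zpowers_le.mpr htE)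
    set M := E ⊔ Subgroup.zpowers t with hM
    haveI : (E.subgroupOf M).Normal := (Subgroup.normal_subgroupOf_iff_le_normalizer le_sup_left).mpr htop
    have htM : t ∈ M := Subgroup.mem_sup_right (Subgroup.mem_zpowers t)
    obtain ⟨T, hT⟩ := (IsPGroup.of_card (n := 1)
      (show Nat.card ↥(Subgroup.zpowers (⟨t, htM⟩ : ↥M)) = 2 ^ 1 by rw [Nat.card_zpowers, Subgroup.orderOf_mk, ht, pow_one])).exists_le_sylow
    set Z := ((Subgroup.center ↥E).map E.subtype).subgroupOf M with hZ
    have hex : ∃ c : ↥M, c ∈ (T : Subgroup ↥M) ∧ c ∈ E.subgroupOf M ∧ c ∉ Z := by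
      by_contra hcon
      simp only [not_exists, not_and, not_not] at hcon
      have hp : pGen 2 (⊤ : Subgroup ↥E) ≤ Subgroup.center ↥E := by
        refine (Subgroup.closure_le _).mpr ?_
        rintro u ⟨-, hu⟩
        have huM : CfsgLib.PIrr.IsPElt 2 (Subgroup.inclusion (le_sup_left : E ≤ M) u) := CfsgLib.PIrr.map_isPElt _ hu
        obtain ⟨k, hk⟩ := isPElt_iff_orderOf.mp huM
        obtain ⟨T', hT'⟩ := (IsPGroup.of_card ((Nat.card_zpowers _).trans hk)).exists_le_sylow
        obtain ⟨g, hg⟩ := MulAction.exists_smul_eq ↥M T' T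
        have hmem : g * Subgroup.inclusion (le_sup_left : E ≤ M) u * g⁻¹ ∈ (T : Subgroup ↥M) := by
          rw [← hg]; exact ⟨_, hT' (Subgroup.mem_zpowers _), rfl⟩
        have hE' := Subgroup.Normal.conj_mem (inferInstance : (E.subgroupOf M).Normal)
          (Subgroup.inclusion (le_sup_left : E ≤ M) u) (Subgroup.mem_subgroupOf.mpr u.2) g
        obtain ⟨z, hz, hze⟩ := Subgroup.mem_subgroupOf.mp (hcon _ hmem hE')
        refine Subgroup.mem_center_iff.mpr fun v => Subtype.ext ?_
        have hgv : ((g : G) * v * (g : G)⁻¹) ∈ E := (Subgroup.mem_normalizer_iff.mp (htop g.2) v).mp v.2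
        have hc := congrArg Subtype.val (Subgroup.mem_center_iff.mp hz ⟨_, hgv⟩)
        change (g : G) * v * (g : G)⁻¹ * z = z * ((g : G) * v * (g : G)⁻¹) at hc
        rw [show (z : G) = (g : G) * u * (g : G)⁻¹ from hze] at hc
        show (v : G) * u = u * v
        calc (v : G) * u = (g : G)⁻¹ * ((g : G) * v * (g : G)⁻¹ * ((g : G) * u * (g : G)⁻¹)) * g := by group
          _ = _ := by rw [hc]; group
      have hq : Cfsg.IsQuasisimple ↥E := CfsgLib.Layer2.isQuasisimple_of_equiv
        (Subgroup.equivMapOfInjective E₀ H.subtype H.subtype_injective) hE₀.2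
      rw [pGen_eq_top hq hE2] at hp
      have hab : E ≤ Subgroup.centralizer (E : Set G) := fun a ha b hb =>
        congrArg Subtype.val (Subgroup.mem_center_iff.mp (hp (Subgroup.mem_top ⟨a, ha⟩)) ⟨b, hb⟩)
      exact component_ne_bot hE₀ ((Subgroup.map_eq_bot_iff_of_injective _ H.subtype_injective).mp
        (eq_bot_of_perfect_comm hEp hab))
    obtain ⟨c₀, hc₀T, hc₀E, hc₀Z⟩ := hex
    obtain ⟨c, hcT, hcE, hcZ, hczZ⟩ : ∃ c : ↥M, c ∈ (T : Subgroup ↥M) ∧ c ∈ E.subgroupOf M ∧ c ∉ Z ∧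
        ⁅c, (⟨t, htM⟩ : ↥M)⁆ ∈ Z := by
      by_contra hcon
      simp only [not_exists, not_and] at hcon
      have hnil : Group.IsNilpotent ↥(T : Subgroup ↥M) := T.2.isNilpotent
      obtain ⟨n, hn⟩ := Subgroup.nilpotent_iff_lowerCentralSeries.mp hnil
      have hit : ∀ k, ∃ c : ↥(T : Subgroup ↥M), c ∈ Subgroup.lowerCentralSeries (⊤ : Subgroup ↥(T : Subgroup ↥M)) k ∧
          (c : ↥M) ∈ E.subgroupOf M ∧ (c : ↥M) ∉ Z := by
        intro k
        induction k with
        | zero => exact ⟨⟨c₀, hc₀T⟩, by rw [Subgroup.lowerCentralSeries_zero]; trivial, hc₀E, hc₀Z⟩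
        | succ k ih =>
          obtain ⟨c, hck, hcE, hcZ⟩ := ih
          refine ⟨⁅c, (⟨⟨t, htM⟩, hT (Subgroup.mem_zpowers _)⟩ : ↥(T : Subgroup ↥M))⁆,
            Subgroup.commutator_mem_commutator hck (Subgroup.mem_top _), ?_, hcon _ c.2 hcE hcZ⟩
          show ⁅(c : ↥M), (⟨t, htM⟩ : ↥M)⁆ ∈ E.subgroupOf M
          rw [commutatorElement_def, show (c : ↥M) * ⟨t, htM⟩ * (c : ↥M)⁻¹ * (⟨t, htM⟩ : ↥M)⁻¹ =
            (c : ↥M) * (⟨t, htM⟩ * (c : ↥M)⁻¹ * (⟨t, htM⟩ : ↥M)⁻¹) by group]
          exact mul_mem hcE (Subgroup.Normal.conj_mem inferInstance _ (inv_mem hcE) _)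
      obtain ⟨c, hck, -, hcZ⟩ := hit n
      rw [hn, Subgroup.mem_bot] at hck
      exact hcZ (hck ▸ one_mem _)
    set z : G := ((⁅c, (⟨t, htM⟩ : ↥M)⁆ : ↥M) : G) with hz
    obtain ⟨z', hz', hze⟩ := Subgroup.mem_subgroupOf.mp hczZ
    change (z' : G) = z at hze
    have hzR : z ∈ R := by
      rw [← hze]
      have h2 : CfsgLib.PIrr.IsPElt 2 (z : G) := by
        have hm : ⁅c, (⟨t, htM⟩ : ↥M)⁆ ∈ (T : Subgroup ↥M) := by
          rw [commutatorElement_def]
          exact mul_mem (mul_mem (mul_mem hcT (hT (Subgroup.mem_zpowers _))) (inv_mem hcT)) (inv_mem (hT (Subgroup.mem_zpowers _)))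
        exact CfsgLib.PIrr.map_isPElt M.subtype (CfsgLib.PIrr.isPElt_of_mem T.2 hm)
      obtain ⟨z₀, hz₀, hz₀e⟩ := z'.2
      refine ⟨z₀, ?_, hz₀e⟩
      refine CfsgLib.Core.isPGroup_subnormal_le_pCore (H := Subgroup.zpowers z₀) ?_ ?_ (Subgroup.mem_zpowers z₀)
      · refine subnormal_of_normalized (Subgroup.zpowers_le.mpr hz₀) hE₀.1 fun e he => ?_
        refine Subgroup.centralizer_le_normalizer _ ?_
        rw [Subgroup.zpowers_eq_closure, Subgroup.centralizer_closure, Subgroup.mem_centralizer_singleton_iff]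
        have := congrArg Subtype.val (Subgroup.mem_center_iff.mp hz' ⟨e, e, he, rfl⟩)
        change (e : G) * z' = z' * e at this
        rw [← hz₀e] at this
        exact Subtype.ext this
      · obtain ⟨k, hk⟩ := isPElt_iff_orderOf.mp h2
        refine IsPGroup.of_card (n := k) ?_
        rw [Nat.card_zpowers, ← hk, ← hze, ← hz₀e]
        exact (orderOf_injective H.subtype H.subtype_injective z₀).symm
    set K₀ := N ⊓ Subgroup.centralizer (R : Set G) with hK₀
    have hNK₀ : N ≤ Subgroup.normalizer (K₀ : Set G) := normalizer_inf_ge Subgroup.le_normalizer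
      (normalizer_centralizer_ge (inf_le_left.trans (Subgroup.le_normalizer.trans hHR)))
    have hDeq : D = (Cfsg.oddCore ↥K₀).map K₀.subtype := by
      refine le_antisymm ?_ ?_
      · have hle : D ≤ K₀ := le_inf hDN hcent
        rw [← subgroupOf_map hle]
        refine Subgroup.map_mono (CfsgLib.Core.le_pPrimeCore
          ((Subgroup.normal_subgroupOf_iff_le_normalizer hle).mpr ((inf_le_left : K₀ ≤ N).trans (normalizer_core_ge Subgroup.le_normalizer))) ?_)
        rw [Nat.card_congr (Subgroup.subgroupOfEquivOfLe hle).toEquiv]; exact hDodd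
      · have hle : (Cfsg.oddCore ↥K₀).map K₀.subtype ≤ N := (Subgroup.map_subtype_le _).trans inf_le_left
        rw [hD, ← subgroupOf_map hle]
        refine Subgroup.map_mono (CfsgLib.Core.le_pPrimeCore
          ((Subgroup.normal_subgroupOf_iff_le_normalizer hle).mpr (normalizer_core_ge hNK₀)) ?_)
        rw [Nat.card_congr (Subgroup.subgroupOfEquivOfLe hle).toEquiv, Subgroup.card_map_of_injective K₀.subtype_injective]
        exact CfsgLib.Core.card_pPrimeCore_coprime 2
    have hcG : (c : G) ∈ E := Subgroup.mem_subgroupOf.mp hcE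
    have hcK : (c : G) ∈ Subgroup.normalizer (K₀ : Set G) := by
      refine mem_normalizer_of_conj_map_eq (Subgroup.eq_of_le_of_card_ge ?_
        (Subgroup.card_map_of_injective (MulEquiv.injective _)).ge)
      rintro _ ⟨k, ⟨⟨hkH, hkt⟩, hkR⟩, rfl⟩
      have hR' : (c : G) * k * (c : G)⁻¹ ∈ Subgroup.centralizer (R : Set G) :=
        (Subgroup.mem_normalizer_iff.mp (normalizer_centralizer_ge (Subgroup.le_normalizer.trans hHR) (hEH hcG)) k).mp hkR
      refine ⟨⟨H.mul_mem (H.mul_mem (hEH hcG) hkH) (H.inv_mem (hEH hcG)), ?_⟩, hR'⟩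
      refine Subgroup.mem_centralizer_singleton_iff.mpr ?_
      have e1 : z * t = (c : G) * t * (c : G)⁻¹ := by
        rw [hz]; simp [commutatorElement_def, mul_assoc]
      have hkt' : k * t = t * k := Subgroup.mem_centralizer_singleton_iff.mp hkt
      have h3 : z * ((c : G) * k * (c : G)⁻¹) = ((c : G) * k * (c : G)⁻¹) * z := hR' z hzR
      show (c : G) * k * (c : G)⁻¹ * t = t * ((c : G) * k * (c : G)⁻¹)
      have h4 : (c : G) * k * (c : G)⁻¹ * (z * t) = z * t * ((c : G) * k * (c : G)⁻¹) := by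
        rw [e1]
        calc (c : G) * k * (c : G)⁻¹ * ((c : G) * t * (c : G)⁻¹) = (c : G) * (k * t) * (c : G)⁻¹ := by group
          _ = (c : G) * (t * k) * (c : G)⁻¹ := by rw [hkt']
          _ = _ := by group
      rw [← mul_assoc _ z t, ← h3, mul_assoc z, mul_assoc z t] at h4
      exact mul_left_cancel h4
    have hcD : (c : G) ∈ Subgroup.normalizer (D : Set G) := by
      rw [hDeq]; exact normalizer_core_ge (Subgroup.zpowers_le.mpr hcK) (Subgroup.mem_zpowers _)
    have hcomm := component_comm hE₀ hE'c hne'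
    set c' : G := y * c * y⁻¹ with hc'
    have hc'E : c' ∈ E'.map H.subtype := by
      obtain ⟨c₁, hc₁, hc₁e⟩ := (hcG : (c : G) ∈ E₀.map H.subtype)
      refine ⟨_, ⟨c₁, hc₁, rfl⟩, ?_⟩
      show y * (c₁ : G) * y⁻¹ = c'
      rw [hc', ← hc₁e]; rfl
    have hEE' : ∀ a ∈ E, ∀ b ∈ E'.map H.subtype, a * b = b * a := by
      rintro _ ⟨a, ha, rfl⟩ _ ⟨b, hb, rfl⟩
      exact (congrArg Subtype.val (Subgroup.commutator_eq_bot_iff_le_centralizer.mp hcomm ha b hb)).symm
    have hw : c' * (c : G)⁻¹ ∈ D := by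
      rw [hc', show y * (c : G) * y⁻¹ * (c : G)⁻¹ = y * ((c : G) * y⁻¹ * (c : G)⁻¹) by group]
      exact D.mul_mem (hY hy) ((Subgroup.mem_normalizer_iff.mp hcD _).mp (D.inv_mem (hY hy)))
    have hn1 : (c' * (c : G)⁻¹) ^ Nat.card ↥D = 1 := by
      obtain ⟨k, hk⟩ := Subgroup.orderOf_dvd_natCard _ hw
      rw [hk, pow_mul, pow_orderOf_eq_one, one_pow]
    rw [(show Commute c' (c : G)⁻¹ from (show Commute c' (c : G) from (hEE' c hcG c' hc'E).symm).inv_right).mul_pow,
      inv_pow, mul_inv_eq_one] at hn1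
    obtain ⟨m, hm⟩ := exists_pow_eq_self_of_coprime (x := (c : G)) (n := Nat.card ↥D) (by
      obtain ⟨k, hk⟩ := isPElt_iff_orderOf.mp (CfsgLib.PIrr.map_isPElt M.subtype (CfsgLib.PIrr.isPElt_of_mem T.2 hcT))
      rw [show orderOf (c : G) = 2 ^ k from hk]
      exact hDodd.pow_right k)
    refine hcZ (Subgroup.mem_subgroupOf.mpr ⟨⟨(c : G), hcG⟩, Subgroup.mem_center_iff.mpr fun v => Subtype.ext ?_, rfl⟩)
    show (v : G) * c = c * v
    rw [← hm]
    exact ((show Commute (v : G) ((c : G) ^ Nat.card ↥D) by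
      rw [← hn1]; exact hEE' v v.2 _ (Subgroup.pow_mem _ hc'E _)).pow_right m).eq
  · refine component_ne_bot hE₀ ((Subgroup.map_eq_bot_iff_of_injective _ H.subtype_injective).mp ?_)
    rw [← hE, ← hEt, Subgroup.commutator_eq_bot_iff_le_centralizer]
    intro a ha u hu
    obtain ⟨j, rfl⟩ := Subgroup.mem_zpowers_iff.mp hu
    exact ((show Commute t a from (htc a ha).symm).zpow_left j).eq

end Cfsg.Agent.S1328
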