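import Cfsg.Statements.S1335
import Mathlib

set_option autoImplicit false
open Cfsg

namespace Cfsg.Agent.S1335

/-- Let H be a subgroup of the finite group G, p a prime, k ≥ 1, P a Sylow p-subgroup of H of p-rank at least k, and suppose N_G(X) ≤ H for every subgroup X ≤ P of p-rank at least k. Then P is a Sylow p-subgroup of G. -/
theorem result {G : Type*} [Group G] [Finite G] {p : ℕ} [Fact p.Prime] (k : ℕ) (hk : 1 ≤ k) (H : Subgroup G) (P : Sylow p ↥H) (hP : ¬ Cfsg.PRankLE p (k - 1) ↥(P : Subgroup ↥H)) (hΓ : (∀ X : Subgroup G, X ≤ (P : Subgroup ↥H).map H.subtype → ¬ Cfsg.PRankLE p (k - 1) ↥X → Subgroup.normalizer (X : Set G) ≤ H)) : ∃ Q : Sylow p G, (Q : Subgroup G) = (P : Subgroup ↥H).map H.subtype := by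
  set P' := (P : Subgroup ↥H).map H.subtype with hP'
  have hPH : P' ≤ H := Subgroup.map_subtype_le _
  have hPp : IsPGroup p P' := P.2.map _
  obtain ⟨Q, hQ⟩ := hPp.exists_le_sylow
  refine ⟨Q, ?_⟩
  by_contra hne
  have hrank : ¬ Cfsg.PRankLE p (k - 1) ↥P' := by
    intro hr
    apply hP
    intro A hA hAp
    let e := (P : Subgroup ↥H).equivMapOfInjective H.subtype H.subtype_injective
    have hcomm : IsMulCommutative (A.map e.toMonoidHom) := by
      refine ⟨⟨?_⟩⟩
      rintro ⟨_, a, ha, rfl⟩ ⟨_, b, hb, rfl⟩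
      apply Subtype.ext
      show e a * e b = e b * e a
      rw [← map_mul, ← map_mul]
      exact congrArg e (congrArg Subtype.val (mul_comm' (⟨a, ha⟩ : A) ⟨b, hb⟩))
    have h1 := hr (A.map e.toMonoidHom) hcomm (by
      rintro _ ⟨a, ha, rfl⟩
      rw [← map_pow, hAp a ha, map_one])
    rwa [Subgroup.card_map_of_injective e.injective] at h1
  have hN := hΓ P' le_rfl hrank
  haveI : Group.IsNilpotent (Q : Subgroup G) := Q.2.isNilpotent
  have hlt : P'.subgroupOf (Q : Subgroup G) < ⊤ := by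
    rw [lt_top_iff_ne_top, Ne, Subgroup.subgroupOf_eq_top]
    exact fun h => hne (le_antisymm h hQ)
  have hgrow := normalizerCondition_of_isNilpotent (G := (Q : Subgroup G)) _ hlt
  obtain ⟨q, hqN, hqP⟩ := SetLike.exists_of_lt hgrow
  have hqN' : (q : G) ∈ Subgroup.normalizer (P' : Set G) := by
    rw [Subgroup.mem_normalizer_iff] at hqN ⊢
    intro x
    constructor
    · intro hx
      exact (hqN ⟨x, hQ hx⟩).1 hx
    · intro hx
      have hxQ : x ∈ (Q : Subgroup G) := by
        have := mul_mem (mul_mem (inv_mem q.2) (hQ hx)) q.2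
        simpa [mul_assoc] using this
      exact (hqN ⟨x, hxQ⟩).2 hx
  have hle : (P : Subgroup ↥H) ≤ (Q : Subgroup G).subgroupOf H :=
    fun x hx => hQ ⟨x, hx, rfl⟩
  have heq := P.is_maximal' Q.2.comap_subtype hle
  apply hqP
  show (q : G) ∈ P'
  have : (⟨q, hN hqN'⟩ : ↥H) ∈ (Q : Subgroup G).subgroupOf H := q.2
  rw [show (Q : Subgroup G).subgroupOf H = (P : Subgroup ↥H) from heq] at this
  exact ⟨_, this, rfl⟩

end Cfsg.Agent.S1335
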