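import Cfsg.Statements.S1336
import Mathlib

set_option autoImplicit false
open Cfsg

namespace Cfsg.Agent.S1336

/-- Let G be finite and p prime. Then G has a proper subgroup H with p ∣ |H| and p ∤ |H ∩ gHg⁻¹| for every g ∉ H (a strongly p-embedded subgroup) if and only if G is not 1-connected for p. -/
theorem result {G : Type*} [Group G] [Finite G] (p : ℕ) [Fact p.Prime] : (∃ H : Subgroup G, H ≠ ⊤ ∧ p ∣ Nat.card ↥H ∧ ∀ g : G, g ∉ H → ¬ p ∣ Nat.card ↥(H ⊓ H.map (MulAut.conj g).toMonoidHom)) ↔ ¬ Cfsg.IsKConnected p 1 G := by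
  classical
  have hp : p.Prime := Fact.out
  let V : Subgroup G → Prop := fun A => Cfsg.IsElementaryAbelian p A ∧ p ^ 1 ≤ Nat.card ↥A
  let R : Subgroup G → Subgroup G → Prop := fun A B =>
    Cfsg.IsElementaryAbelian p A ∧ p ^ 1 ≤ Nat.card ↥A ∧ Cfsg.IsElementaryAbelian p B ∧
      p ^ 1 ≤ Nat.card ↥B ∧ ∀ a ∈ A, ∀ b ∈ B, a * b = b * a
  have hnt : ∀ A, V A → ∃ a ∈ A, a ≠ 1 ∧ orderOf a = p := by
    rintro A ⟨hA, hcard⟩
    have hne : A ≠ ⊥ := fun h => by
      rw [h, Subgroup.card_bot, pow_one] at hcard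
      exact absurd hcard (not_le.2 hp.one_lt)
    obtain ⟨⟨a, ha⟩, ha1⟩ := Subgroup.ne_bot_iff_exists_ne_one.1 hne
    exact ⟨a, ha, fun h => ha1 (Subtype.ext h), orderOf_eq_prime (hA.2 a ha)
      fun h => ha1 (Subtype.ext h)⟩
  have hz : ∀ a : G, orderOf a = p → V (Subgroup.zpowers a) := by
    intro a ha
    refine ⟨⟨inferInstance, ?_⟩, by rw [Nat.card_zpowers, ha, pow_one]⟩
    rintro _ ⟨n, rfl⟩
    show (a ^ n) ^ p = 1
    rw [← zpow_natCast, ← zpow_mul, mul_comm, zpow_mul, zpow_natCast, ← ha, pow_orderOf_eq_one,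
      one_zpow]
  have hdiv : ∀ (K : Subgroup G) (a : G), a ∈ K → orderOf a = p → p ∣ Nat.card K := by
    intro K a ha hord
    rw [← hord, ← Subgroup.orderOf_mk a ha]
    exact orderOf_dvd_natCard _
  constructor
  · rintro ⟨H, hHtop, hHp, hH⟩ hcon
    obtain ⟨⟨e, he⟩, heo⟩ := exists_prime_orderOf_dvd_card' p hHp
    rw [Subgroup.orderOf_mk] at heo
    obtain ⟨g, hg⟩ : ∃ g, g ∉ H := by
      by_contra h
      push Not at h
      exact hHtop ((Subgroup.eq_top_iff' H).2 h)
    have hge : orderOf (g⁻¹ * e * g) = p := by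
      rw [← heo]
      simpa using ((MulAut.conj g⁻¹).orderOf_eq e)
    have hout : g⁻¹ * e * g ∉ H := fun h => hH g hg (hdiv _ e
      ⟨he, Subgroup.mem_map.2 ⟨_, h, by simp [mul_assoc]⟩⟩ heo)
    have key : ∀ B, Relation.ReflTransGen R (Subgroup.zpowers e) B → B ≤ H := by
      intro B hB
      induction hB with
      | refl => exact Subgroup.zpowers_le.2 he
      | tail _ hstep ih =>
        obtain ⟨h1, h2, -, -, hc⟩ := hstep
        intro b hb
        obtain ⟨a, ha, -, hao⟩ := hnt _ ⟨h1, h2⟩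
        by_contra hbH
        refine hH b hbH (hdiv _ a ⟨ih ha, Subgroup.mem_map.2 ⟨a, ih ha, ?_⟩⟩ hao)
        show b * a * b⁻¹ = a
        rw [← hc a ha b hb, mul_inv_cancel_right]
    exact hout (key _ (hcon _ _ (hz e heo).1 (hz e heo).2 (hz _ hge).1 (hz _ hge).2)
      (Subgroup.mem_zpowers _))
  · intro hncon
    have hV : ∃ E E', V E ∧ V E' ∧ ¬ Relation.ReflTransGen R E E' := by
      by_contra h
      push Not at h
      exact hncon fun E E' h1 h2 h3 h4 => h E E' ⟨h1, h2⟩ ⟨h3, h4⟩
    obtain ⟨E, E', hE, hE', hEE'⟩ := hV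
    let c : G → Subgroup G → Subgroup G := fun g A => A.map (MulAut.conj g).toMonoidHom
    have hc1 : ∀ g h A, c g (c h A) = c (g * h) A := by
      intro g h A
      show (A.map _).map _ = _
      rw [Subgroup.map_map]
      congr 1
      ext x
      simp [mul_assoc]
    have hcinv : ∀ g A, c g⁻¹ (c g A) = A := by
      intro g A
      rw [hc1, inv_mul_cancel]
      show A.map _ = A
      ext x
      simp
    have hsymm : Symmetric R := fun A B ⟨h1, h2, h3, h4, h5⟩ =>
      ⟨h3, h4, h1, h2, fun a ha b hb => (h5 b hb a ha).symm⟩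
    have hcV : ∀ g A, V A → V (c g A) := by
      rintro g A ⟨⟨hA1, hA2⟩, hA3⟩
      refine ⟨⟨⟨⟨?_⟩⟩, ?_⟩, by rwa [Subgroup.card_map_of_injective (MulAut.conj g).injective]⟩
      · rintro ⟨_, a, ha, rfl⟩ ⟨_, b, hb, rfl⟩
        apply Subtype.ext
        show MulAut.conj g a * MulAut.conj g b = MulAut.conj g b * MulAut.conj g a
        rw [← map_mul, ← map_mul]
        exact congrArg _ (congrArg Subtype.val (mul_comm' (⟨a, ha⟩ : A) ⟨b, hb⟩))
      · rintro _ ⟨a, ha, rfl⟩
        rw [← map_pow, hA2 a ha, map_one]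
    have hcR : ∀ g A B, Relation.ReflTransGen R A B → Relation.ReflTransGen R (c g A) (c g B) := by
      intro g A B hAB
      refine hAB.lift (c g) fun A B ⟨h1, h2, h3, h4, h5⟩ => ?_
      refine ⟨(hcV g A ⟨h1, h2⟩).1, (hcV g A ⟨h1, h2⟩).2, (hcV g B ⟨h3, h4⟩).1,
        (hcV g B ⟨h3, h4⟩).2, ?_⟩
      rintro _ ⟨a, ha, rfl⟩ _ ⟨b, hb, rfl⟩
      rw [← map_mul, ← map_mul, h5 a ha b hb]
    have hsym : ∀ {A B}, Relation.ReflTransGen R A B → Relation.ReflTransGen R B A :=
      fun h => by
        induction h with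
        | refl => exact Relation.ReflTransGen.refl
        | tail _ h2 ih => exact Relation.ReflTransGen.head (hsymm h2) ih
    have hone : c 1 E = E := by
      show E.map _ = E
      ext x
      simp
    let H : Subgroup G :=
      { carrier := {g | Relation.ReflTransGen R (c g E) E}
        one_mem' := by show Relation.ReflTransGen R (c 1 E) E; rw [hone]
        mul_mem' := fun {g h} hg hh => by
          show Relation.ReflTransGen R (c (g * h) E) E
          rw [← hc1]
          exact (hcR g _ _ hh).trans hg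
        inv_mem' := fun {g} hg => by
          show Relation.ReflTransGen R (c g⁻¹ E) E
          have := hcR g⁻¹ _ _ hg
          rw [hcinv] at this
          exact hsym this }
    have hEH : E ≤ H := by
      intro e he
      show Relation.ReflTransGen R (c e E) E
      have : c e E = E := by
        ext x
        constructor
        · rintro ⟨y, hy, rfl⟩
          exact mul_mem (mul_mem he hy) (inv_mem he)
        · intro hx
          exact ⟨e⁻¹ * x * e, mul_mem (mul_mem (inv_mem he) hx) he, by simp [mul_assoc]⟩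
      rw [this]
    -- two elementary abelian subgroups inside one p-subgroup are linked
    have hlink : ∀ (Q : Subgroup G), IsPGroup p Q → ∀ A B, V A → V B → A ≤ Q → B ≤ Q →
        Relation.ReflTransGen R A B := by
      intro Q hQ A B hA hB hAQ hBQ
      haveI : Nontrivial Q := by
        obtain ⟨a, ha, ha1, -⟩ := hnt A hA
        exact ⟨⟨a, hAQ ha⟩, 1, fun h => ha1 (congrArg Subtype.val h)⟩
      haveI := hQ.center_nontrivial
      have hZ : p ∣ Nat.card (Subgroup.center Q) := by
        obtain ⟨n, hn⟩ := (hQ.to_subgroup (Subgroup.center Q)).exists_card_eq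
        rcases n with _ | n
        · exact absurd hn (Finite.one_lt_card (α := Subgroup.center Q)).ne'
        · rw [hn]; exact dvd_pow_self p (Nat.succ_ne_zero n)
      obtain ⟨⟨⟨z, hzQ⟩, hzc⟩, hzo⟩ := exists_prime_orderOf_dvd_card' p hZ
      rw [Subgroup.orderOf_mk, Subgroup.orderOf_mk] at hzo
      have hcomm : ∀ A : Subgroup G, A ≤ Q → ∀ a ∈ A, ∀ b ∈ Subgroup.zpowers z,
          a * b = b * a := by
        rintro A hAQ a ha _ ⟨n, rfl⟩
        have : Commute a z := congrArg Subtype.val (Subgroup.mem_center_iff.1 hzc ⟨a, hAQ ha⟩)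
        exact (this.zpow_right n).eq
      have h1 : R A (Subgroup.zpowers z) :=
        ⟨hA.1, hA.2, (hz z hzo).1, (hz z hzo).2, hcomm A hAQ⟩
      have h2 : R B (Subgroup.zpowers z) :=
        ⟨hB.1, hB.2, (hz z hzo).1, (hz z hzo).2, hcomm B hBQ⟩
      exact (Relation.ReflTransGen.single h1).tail (hsymm h2)
    have hVp : ∀ A, V A → IsPGroup p A := fun A hA a =>
      ⟨1, Subtype.ext (by simpa using hA.1.2 a a.2)⟩
    -- every element of order p of H is linked to E
    have hmem : ∀ x ∈ H, orderOf x = p → Relation.ReflTransGen R (Subgroup.zpowers x) E := by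
      intro x hx hxo
      have hxp : IsPGroup p ((Subgroup.zpowers x).subgroupOf H) :=
        (hVp _ (hz x hxo)).comap_subtype
      have hEp : IsPGroup p (E.subgroupOf H) := (hVp E hE).comap_subtype
      obtain ⟨S₁, hS₁⟩ := hxp.exists_le_sylow
      obtain ⟨S₂, hS₂⟩ := hEp.exists_le_sylow
      obtain ⟨h, hh⟩ := MulAction.exists_smul_eq H S₁ S₂
      have hsub : c (h : G) (Subgroup.zpowers x) ≤ (S₂ : Subgroup H).map H.subtype := by
        rintro _ ⟨y, hy, rfl⟩
        have hy' : (⟨y, Subgroup.zpowers_le.2 hx hy⟩ : H) ∈ (S₁ : Subgroup H) := hS₁ hy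
        refine ⟨h * ⟨y, Subgroup.zpowers_le.2 hx hy⟩ * h⁻¹, ?_, by simp⟩
        rw [← hh]
        exact Subgroup.mem_map_of_mem _ hy'
      have hEsub : E ≤ (S₂ : Subgroup H).map H.subtype := fun e he =>
        ⟨⟨e, hEH he⟩, hS₂ he, rfl⟩
      have h1 := hlink _ (S₂.2.map _) _ _ (hcV h _ (hz x hxo)) hE hsub hEsub
      have h2 := hcR (h : G)⁻¹ _ _ h1
      rw [hcinv] at h2
      exact h2.trans (inv_mem h.2)
    refine ⟨H, ?_, ?_, ?_⟩
    · intro htop
      apply hEE'
      obtain ⟨Q, hQ⟩ := (hVp E hE).exists_le_sylow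
      obtain ⟨Q', hQ'⟩ := (hVp E' hE').exists_le_sylow
      obtain ⟨g, hg⟩ := MulAction.exists_smul_eq G Q Q'
      have hsub : c g E ≤ (Q' : Subgroup G) := by
        rintro _ ⟨y, hy, rfl⟩
        rw [← hg]
        exact Subgroup.mem_map_of_mem _ (hQ hy)
      have h1 := hlink _ Q'.2 _ _ (hcV g E hE) hE' hsub hQ'
      have hgH : g ∈ H := by rw [htop]; exact Subgroup.mem_top g
      exact (hsym hgH).trans h1
    · obtain ⟨e, he, -, heo⟩ := hnt E hE
      exact hdiv H e (hEH he) heo
    · intro g hg hdvd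
      apply hg
      obtain ⟨⟨x, hx⟩, hxo⟩ := exists_prime_orderOf_dvd_card' p hdvd
      rw [Subgroup.orderOf_mk] at hxo
      obtain ⟨hx1, y, hy, hxy⟩ := hx
      have hyo : orderOf y = p := by
        rw [← (MulAut.conj g).orderOf_eq y]
        rw [show MulAut.conj g y = x from hxy, hxo]
      have h1 := hcR g _ _ (hmem y hy hyo)
      have h2 : c g (Subgroup.zpowers y) = Subgroup.zpowers x := by
        show (Subgroup.zpowers y).map _ = _
        rw [MonoidHom.map_zpowers]
        exact congrArg Subgroup.zpowers hxy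
      rw [h2] at h1
      exact (hsym h1).trans (hmem x hx1 hxo)

end Cfsg.Agent.S1336
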