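import Cfsg.Statements.S1338
import Cfsg.Agent.Lib.RankGraphSq

set_option autoImplicit false
open Cfsg

namespace Cfsg.Agent.S1338

theorem card_le_range {A : Type*} [Group A] [Finite A] (D : A →* A) (hk : Nat.card ↥D.ker ≤ 3)
    (H : Subgroup A) : Nat.card ↥H ≤ 3 * Nat.card ↥(H.map D) := by
  have h1 := Subgroup.relIndex_ker (K := H) D
  have h2 := Subgroup.relIndex_mul_relIndex ⊥ (D.ker ⊓ H) H bot_le inf_le_right
  rw [Subgroup.relIndex_bot_left, Subgroup.relIndex_bot_left, Subgroup.inf_relIndex_right, h1] at h2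
  rw [← h2]
  exact Nat.mul_le_mul ((Subgroup.card_le_of_le inf_le_left).trans hk) le_rfl

theorem cube_id {A : Type*} [CommGroup A] (h : ∀ u : A, u⁻¹ * u⁻¹ = u) (a b c : A) :
    a * c⁻¹ * (c * b⁻¹)⁻¹ * (c * b⁻¹ * (b * a⁻¹)⁻¹)⁻¹ = 1 := by
  rw [mul_inv_eq_one, mul_inv, mul_inv, inv_inv, inv_inv]
  calc a * c⁻¹ * (c⁻¹ * b) = a * b * (c⁻¹ * c⁻¹) := by ac_rfl
    _ = a * b * c := by rw [h c]
    _ = a * c * (b⁻¹ * b⁻¹) := by rw [h b]; ac_rfl
    _ = c * b⁻¹ * (b⁻¹ * a) := by ac_rfl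

/-- A finite 3-group of 3-rank at least 4 is 2-connected for the prime 3: its commuting graph on elementary abelian subgroups of order ≥ 9 is connected. -/
theorem result {P : Type*} [Group P] [Finite P] (hP : IsPGroup 3 P) (hrk : ¬ Cfsg.PRankLE 3 3 P) : Cfsg.IsKConnected 3 2 P := by
  classical
  haveI : Fact (Nat.Prime 3) := ⟨Nat.prime_three⟩
  have hrk2 : ¬ Cfsg.PRankLE 3 2 P := fun h => hrk fun A hAc hAe => (h A hAc hAe).trans (by norm_num)
  obtain ⟨U, -, -, -, hU⟩ := CfsgLib.RankGraphSq.component (p := 3) hP hrk2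
  unfold Cfsg.PRankLE at hrk
  push Not at hrk
  obtain ⟨E0, hE0c, hE0e, hE0n⟩ := hrk
  obtain ⟨k, hk⟩ := (hP.to_subgroup E0).exists_card_eq
  have hk4 : 4 ≤ k := by
    by_contra hlt
    exact not_le.mpr hE0n (by rw [hk]; exact Nat.pow_le_pow_right (by norm_num) (by omega))
  obtain ⟨K, hK⟩ := Sylow.exists_subgroup_card_pow_prime 3 (G := ↥E0) (n := 4) (hk ▸ pow_dvd_pow 3 hk4)
  obtain ⟨E, hE4, hEle⟩ : ∃ E : Subgroup P, Nat.card ↥E = 3 ^ 4 ∧ E ≤ E0 :=
    ⟨K.map E0.subtype, by rw [Subgroup.card_map_of_injective E0.subtype_injective, hK], Subgroup.map_subtype_le K⟩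
  obtain ⟨A, hAn, hAel, hA4⟩ := CfsgLib.GroupB.RankTwoOdd.exists_normal_four (p := 3) (by norm_num) _ P rfl hP E
    (CfsgLib.PLocal.el_mono ⟨hE0c, hE0e⟩ hEle) hE4
  haveI := hAn
  have hAc : ∀ a ∈ A, ∀ b ∈ A, a * b = b * a := fun a ha b hb =>
    congrArg Subtype.val (hAel.1.is_comm.comm ⟨a, ha⟩ ⟨b, hb⟩)
  have key : ∀ X : Subgroup P, Cfsg.IsElementaryAbelian 3 X → 3 ^ 2 ≤ Nat.card ↥X →
      ¬ Cfsg.PRankLE 3 2 ↥(Subgroup.centralizer (X : Set P)) := by
    intro X hX hX2
    have hXC : X ≤ Subgroup.centralizer (X : Set P) := fun a ha b hb =>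
      congrArg Subtype.val (hX.1.is_comm.comm ⟨b, hb⟩ ⟨a, ha⟩)
    by_cases hbig : 3 ^ 2 < Nat.card ↥X
    · exact CfsgLib.RankGraphSq.not_rankLE hXC hX hbig
    have hX9 : Nat.card ↥X = 3 ^ 2 := le_antisymm (not_lt.mp hbig) hX2
    by_cases hXA : X ≤ A
    · exact CfsgLib.RankGraphSq.not_rankLE (fun a ha b hb => hAc b (hXA hb) a ha) hAel (by rw [hA4]; norm_num)
    set S := A ⊓ Subgroup.centralizer (X : Set P) with hS
    by_cases hSX : S ≤ X
    swap
    · have hsup := CfsgLib.PLocal.el_sup hX (CfsgLib.PLocal.el_mono hAel (inf_le_left : S ≤ A))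
        (fun a ha b hb => (Subgroup.mem_inf.mp hb).2 a ha)
      refine CfsgLib.RankGraphSq.not_rankLE (sup_le hXC inf_le_right) hsup ?_
      rw [← hX9]
      refine lt_of_le_of_ne (Subgroup.card_le_of_le le_sup_left) fun e => hSX ?_
      exact le_sup_right.trans (Subgroup.eq_of_le_of_card_ge le_sup_left e.ge).ge
    exfalso
    obtain ⟨a, haS, ha1⟩ : ∃ a ∈ S, a ≠ 1 := by
      have hA3 : 3 ∣ Nat.card ↥A := hA4 ▸ dvd_pow_self 3 (by norm_num)
      letI : MulAction ↥X ↥A := MulAction.compHom ↥A ((MulAut.conjNormal : P →* MulAut ↥A).comp X.subtype)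
      obtain ⟨a, ha, ha1⟩ := (hP.to_subgroup X).exists_fixed_point_of_prime_dvd_card_of_fixed_point ↥A hA3
        (a := (1 : ↥A)) (fun g => map_one (MulAut.conjNormal (g : P) : MulAut ↥A))
      refine ⟨a, Subgroup.mem_inf.mpr ⟨a.2, fun g hg => ?_⟩, fun h => ha1 (Subtype.ext h).symm⟩
      exact mul_inv_eq_iff_eq_mul.mp (congrArg Subtype.val (ha ⟨g, hg⟩))
    obtain ⟨x, hxX, hxA⟩ := SetLike.not_le_iff_exists.mp hXA
    have hx3 : x ^ 3 = 1 := hX.2 x hxX
    have haX : a ∈ X := hSX haS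
    have ha3 : orderOf a = 3 := orderOf_eq_prime (hX.2 a haX) ha1
    set Y := Subgroup.zpowers a ⊔ Subgroup.zpowers x
    have hYX : Y ≤ X := sup_le (Subgroup.zpowers_le.mpr haX) (Subgroup.zpowers_le.mpr hxX)
    have hXA' : X ⊓ A = Subgroup.zpowers a := by
      refine (Subgroup.eq_of_le_of_card_ge (le_inf (Subgroup.zpowers_le.mpr haX)
        (Subgroup.zpowers_le.mpr (Subgroup.mem_inf.mp haS).1)) ?_).symm
      rw [Nat.card_zpowers, ha3]
      obtain ⟨j, hj⟩ := (hP.to_subgroup (X ⊓ A)).exists_card_eq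
      rw [hj]
      by_contra hlt
      have hj2 : 2 ≤ j := by
        by_contra h2
        exact hlt ((Nat.pow_le_pow_right (by norm_num) (Nat.le_of_lt_succ (not_le.mp h2))).trans (pow_one 3).le)
      exact hXA (inf_eq_left.mp (Subgroup.eq_of_le_of_card_ge inf_le_left
        (by rw [hX9, hj]; exact Nat.pow_le_pow_right (by norm_num) hj2)))
    have hYeq : Y = X := by
      refine Subgroup.eq_of_le_of_card_ge hYX ?_
      obtain ⟨j, hj⟩ := (hP.to_subgroup Y).exists_card_eq
      rw [hX9, hj]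
      refine Nat.pow_le_pow_right (by norm_num) ?_
      by_contra hlt
      have hle : Nat.card ↥Y ≤ Nat.card ↥(Subgroup.zpowers a) := by
        rw [hj, Nat.card_zpowers, ha3]
        exact (Nat.pow_le_pow_right (by norm_num) (Nat.le_of_lt_succ (not_le.mp hlt))).trans (pow_one 3).le
      exact hxA ((Subgroup.zpowers_le.mpr (Subgroup.mem_inf.mp haS).1)
        ((Subgroup.eq_of_le_of_card_ge le_sup_left hle).ge (Subgroup.mem_sup_right (Subgroup.mem_zpowers x))))
    letI : CommGroup ↥A := { (inferInstance : Group ↥A) with mul_comm := fun u v => Subtype.ext (hAc u u.2 v v.2) }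
    set T : MulAut ↥A := MulAut.conjNormal x with hT
    let D : ↥A →* ↥A :=
      { toFun := fun v => T v * v⁻¹
        map_one' := by simp
        map_mul' := fun u v => by simp only [map_mul, mul_inv]; exact mul_mul_mul_comm _ _ _ _ }
    have hker : Nat.card ↥D.ker ≤ 3 := by
      have hle : D.ker.map A.subtype ≤ S := by
        rintro _ ⟨v, hv, rfl⟩
        refine Subgroup.mem_inf.mpr ⟨v.2, ?_⟩
        have hvx : x * (v : P) = v * x := mul_inv_eq_iff_eq_mul.mp (by
          have h : T v = v := mul_inv_eq_one.mp (MonoidHom.mem_ker.mp hv)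
          have := congrArg Subtype.val h
          rwa [hT, MulAut.conjNormal_apply] at this)
        rw [← hYeq]
        show A.subtype v ∈ Subgroup.centralizer (Y : Set P)
        refine (Subgroup.le_centralizer_iff.mp (sup_le (Subgroup.zpowers_le.mpr ?_) (Subgroup.zpowers_le.mpr ?_)))
          (Subgroup.mem_zpowers (v : P))
        · exact fun w hw => by
            obtain ⟨i, rfl⟩ := Subgroup.mem_zpowers_iff.mp hw
            exact ((show Commute (v : P) a from hAc v v.2 a (Subgroup.mem_inf.mp haS).1).zpow_left i).eq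
        · exact fun w hw => by
            obtain ⟨i, rfl⟩ := Subgroup.mem_zpowers_iff.mp hw
            exact ((show Commute (v : P) x from hvx.symm).zpow_left i).eq
      have h1 := Subgroup.card_le_of_le (hle.trans (le_inf hSX (inf_le_left : S ≤ A)))
      rwa [Subgroup.card_map_of_injective A.subtype_injective, hXA', Nat.card_zpowers, ha3] at h1
    have hT3 : ∀ v, T (T (T v)) = v := fun v => by
      rw [← MulAut.mul_apply, ← MulAut.mul_apply, hT, ← map_mul, ← map_mul,
        show x * x * x = x ^ 3 by simp [pow_succ], hx3, map_one, MulAut.one_apply]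
    have hcube : ∀ u : ↥A, u⁻¹ * u⁻¹ = u := fun u => by
      refine (mul_inv_eq_iff_eq_mul.mpr ?_)
      refine inv_eq_of_mul_eq_one_right (Subtype.ext ?_)
      show (u : P) * ((u : P) * u) = 1
      rw [← pow_two, ← pow_succ']; exact hAel.2 u u.2
    have hD3 : ∀ v, D (D (D v)) = 1 := fun v => by
      show T (T (T v * v⁻¹) * (T v * v⁻¹)⁻¹) * (T (T v * v⁻¹) * (T v * v⁻¹)⁻¹)⁻¹ = 1
      simp only [map_mul, map_inv, hT3]
      exact cube_id hcube v (T v) (T (T v))
    have c1 := card_le_range D hker ⊤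
    have c2 := card_le_range D hker ((⊤ : Subgroup ↥A).map D)
    have c3 := card_le_range D hker (((⊤ : Subgroup ↥A).map D).map D)
    have hbot : (((⊤ : Subgroup ↥A).map D).map D).map D = ⊥ := by
      rw [eq_bot_iff]
      rintro _ ⟨_, ⟨_, ⟨v, -, rfl⟩, rfl⟩, rfl⟩
      exact Subgroup.mem_bot.mpr (hD3 v)
    rw [hbot, Subgroup.card_bot] at c3
    rw [Subgroup.card_top, hA4] at c1
    have h81 : (3 : ℕ) ^ 4 = 81 := by norm_num
    omega
  intro X Y hX hX2 hY hY2
  refine ((hU X hX hX2).mpr (key X hX hX2)).trans ?_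
  have hrev : ∀ Z, Relation.ReflTransGen (CfsgLib.RankGraphSq.Adj 3) Y Z → Relation.ReflTransGen (CfsgLib.RankGraphSq.Adj 3) Z Y := by
    intro Z hZ
    induction hZ with
    | refl => exact Relation.ReflTransGen.refl
    | tail _ hBC ih => exact Relation.ReflTransGen.head (CfsgLib.RankGraphSq.Adj.symm' hBC) ih
  exact hrev U ((hU Y hY hY2).mpr (key Y hY hY2))

end Cfsg.Agent.S1338
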