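import Cfsg.Statements.S1341
import Cfsg.Agent.Lib.PComponents2

set_option autoImplicit false
open Cfsg

namespace Cfsg.Agent.S1341
open CfsgLib.PComponents

/-- Let X be finite and T a Sylow 2-subgroup of L_{2'}(X) O_{2',2}(X). Then L*_{2'}(X) = L_{2'}(X) ⊔ O(X) ⊔ O(C_X(T)). -/
theorem result {X : Type*} [Group X] [Finite X] (T : Sylow 2 ↥(Cfsg.pLayer 2 X ⊔ Cfsg.pPrimePCore 2 X)) : Cfsg.extendedTwoLayer X = Cfsg.pLayer 2 X ⊔ Cfsg.oddCore X ⊔ ((Cfsg.oddCore ↥(Subgroup.centralizer (((T : Subgroup ↥(Cfsg.pLayer 2 X ⊔ Cfsg.pPrimePCore 2 X)).map (Cfsg.pLayer 2 X ⊔ Cfsg.pPrimePCore 2 X).subtype : Subgroup X) : Set X))).map (Subgroup.centralizer (((T : Subgroup ↥(Cfsg.pLayer 2 X ⊔ Cfsg.pPrimePCore 2 X)).map (Cfsg.pLayer 2 X ⊔ Cfsg.pPrimePCore 2 X).subtype : Subgroup X) : Set X)).subtype) := by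
  let M := Cfsg.pLayer 2 X ⊔ Cfsg.pPrimePCore 2 X
  let coreC : Subgroup X → Subgroup X := fun S =>
    (Cfsg.oddCore ↥(Subgroup.centralizer (S : Set X))).map (Subgroup.centralizer (S : Set X)).subtype
  have key : ∀ (e : X ≃* X) (S : Subgroup X), coreC (S.map e.toMonoidHom) = (coreC S).map e.toMonoidHom := by
    intro e S
    set C := Subgroup.centralizer (S : Set X) with hC
    have hmap : C.map e.toMonoidHom = Subgroup.centralizer ((S.map e.toMonoidHom : Subgroup X) : Set X) :=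
      CfsgLib.Layer2.centralizer_map_equiv e S
    let e' := (e.subgroupMap C).trans (MulEquiv.subgroupCongr hmap)
    show (Cfsg.pPrimeCore 2 ↥(Subgroup.centralizer ((S.map e.toMonoidHom : Subgroup X) : Set X))).map _ = _
    rw [← CfsgLib.Core.pPrimeCore_map_equiv e' 2]
    show _ = ((Cfsg.pPrimeCore 2 ↥C).map C.subtype).map e.toMonoidHom
    rw [Subgroup.map_map, Subgroup.map_map]
    rfl
  set T₀ := (T : Subgroup ↥M).map M.subtype with hT₀
  set W := Cfsg.pLayer 2 X ⊔ Cfsg.oddCore X with hWdef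
  haveI : (Cfsg.oddCore X).Normal := CfsgLib.PComponents.core_normal
  haveI hWn : W.Normal := Subgroup.sup_normal _ _
  have hWT : M ≤ W ⊔ T₀ := by
    set ρ := QuotientGroup.mk' W with hρ
    have hp : IsPGroup 2 ↥(M.map ρ) := by
      have hle : M.map ρ ≤ (Cfsg.pPrimePCore 2 X).map ρ := by
        rw [show M = Cfsg.pLayer 2 X ⊔ Cfsg.pPrimePCore 2 X from rfl, Subgroup.map_sup]
        refine sup_le ?_ le_rfl
        rw [show (Cfsg.pLayer 2 X).map ρ = ⊥ by rw [Subgroup.map_eq_bot_iff, QuotientGroup.ker_mk']; exact le_sup_left]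
        exact bot_le
      intro y
      obtain ⟨x, hx, hxy⟩ := hle y.2
      obtain ⟨k, hk⟩ := CfsgLib.Core.isPGroup_pCore (G := X ⧸ Cfsg.pPrimeCore 2 X) 2 ⟨_, hx⟩
      refine ⟨k, Subtype.ext ?_⟩
      rw [SubgroupClass.coe_pow, ← hxy, ← map_pow]
      refine (QuotientGroup.eq_one_iff _).mpr (le_sup_right (a := Cfsg.pLayer 2 X) ((QuotientGroup.eq_one_iff _).mp ?_))
      have := congrArg Subtype.val hk
      simpa using this
    let S := T.mapSurjective (ρ.subgroupMap_surjective M)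
    have hS : (S : Subgroup ↥(M.map ρ)) = ⊤ :=
      (S.3 (hp.to_subgroup ⊤) le_top).symm
    have h1 : M.map ρ ≤ T₀.map ρ := by
      intro y hy
      have h2 : (⟨y, hy⟩ : ↥(M.map ρ)) ∈ (S : Subgroup ↥(M.map ρ)) := hS ▸ Subgroup.mem_top _
      rw [Sylow.coe_mapSurjective] at h2
      obtain ⟨z, hz, hzy⟩ := h2
      exact ⟨z, ⟨z, hz, rfl⟩, congrArg Subtype.val hzy⟩
    have h3 := Subgroup.map_le_iff_le_comap.mp h1
    rwa [Subgroup.comap_map_eq, QuotientGroup.ker_mk', sup_comm] at h3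
  set U := W ⊔ coreC T₀ with hU
  have hTD : ∀ t ∈ T₀, (coreC T₀).map (MulAut.conj t).toMonoidHom = coreC T₀ := fun t ht => by
    rw [← key, CfsgLib.LocalBasic.conj_map_eq_of_mem_normalizer (Subgroup.le_normalizer ht)]
  have hMU : M ≤ Subgroup.normalizer (U : Set X) := by
    refine hWT.trans (sup_le (le_sup_left.trans Subgroup.le_normalizer) fun t ht => ?_)
    refine CfsgLib.LocalBasic.normalizer_sup_ge (B := Subgroup.zpowers t) ?_ ?_ (Subgroup.mem_zpowers t)
    · rw [Subgroup.normalizer_eq_top]; exact le_top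
    · exact Subgroup.zpowers_le.mpr (CfsgLib.LocalBasic.mem_normalizer_of_conj_map_eq (hTD t ht))
  show Cfsg.pLayer 2 X ⊔ Cfsg.oddCore X ⊔ ⨆ T' : Sylow 2 ↥M, coreC ((T' : Subgroup ↥M).map M.subtype) = U
  refine le_antisymm (sup_le le_sup_left (iSup_le fun T' => ?_))
    (sup_le_sup_left (le_iSup (fun T' : Sylow 2 ↥M => coreC ((T' : Subgroup ↥M).map M.subtype)) T) _)
  obtain ⟨m, rfl⟩ := MulAction.exists_smul_eq ↥M T T'
  have he : ((m • T : Sylow 2 ↥M) : Subgroup ↥M).map M.subtype = T₀.map (MulAut.conj (m : X)).toMonoidHom := by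
    show ((T : Subgroup ↥M).map (MulAut.conj m).toMonoidHom).map M.subtype = _
    rw [hT₀, Subgroup.map_map, Subgroup.map_map]
    rfl
  rw [he, key]
  exact (Subgroup.map_mono le_sup_right).trans (CfsgLib.LocalBasic.conj_map_eq_of_mem_normalizer (hMU m.2)).le

end Cfsg.Agent.S1341
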