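import Cfsg.Statements.S1342
import Mathlib
import Cfsg.Agent.Lib.Core
import Cfsg.Agent.Lib.Layer2

set_option autoImplicit false
open Cfsg

namespace Cfsg.Agent.S1342

/-- For a finite group X, L*_{2'}(X) is normal in X. -/
theorem result {X : Type*} [Group X] [Finite X] : (Cfsg.extendedTwoLayer X).Normal := by
  set N := Cfsg.pLayer 2 X ⊔ Cfsg.pPrimePCore 2 X with hNdef
  have hOmap : ∀ {A B : Type _} [Group A] [Group B] (e : A ≃* B),
      (Cfsg.oddCore A).map e.toMonoidHom = Cfsg.oddCore B :=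
    fun e => CfsgLib.Core.pPrimeCore_map_equiv e 2
  have hLn : (Cfsg.pLayer 2 X).Normal := by
    refine Subgroup.normal_iff_map_conj_eq.2 fun g => ?_
    exact CfsgLib.Layer2.pLayer_map_equiv (MulAut.conj g) 2
  have hPn : (Cfsg.pPrimePCore 2 X).Normal := by
    unfold Cfsg.pPrimePCore
    infer_instance
  haveI hOn : (Cfsg.oddCore X).Normal := CfsgLib.Layer2.oddCore_normal
  haveI hN : N.Normal := Subgroup.sup_normal _ _
  let F : Subgroup X → Subgroup X := fun T =>
    (Cfsg.oddCore ↥(Subgroup.centralizer (T : Set X))).map (Subgroup.centralizer (T : Set X)).subtype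
  have hcov : ∀ (g : X) (T : Subgroup X),
      (F T).map (MulAut.conj g).toMonoidHom = F (T.map (MulAut.conj g).toMonoidHom) := by
    intro g T
    have hC : (Subgroup.centralizer (T : Set X)).map (MulAut.conj g).toMonoidHom =
        Subgroup.centralizer ((T.map (MulAut.conj g).toMonoidHom : Subgroup X) : Set X) :=
      CfsgLib.Layer2.centralizer_map_equiv (MulAut.conj g) T
    let e : ↥(Subgroup.centralizer (T : Set X)) ≃*
        ↥(Subgroup.centralizer ((T.map (MulAut.conj g).toMonoidHom : Subgroup X) : Set X)) :=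
      ((MulAut.conj g).subgroupMap _).trans (MulEquiv.subgroupCongr hC)
    show _ = (Cfsg.oddCore _).map _
    rw [← hOmap e, Subgroup.map_map, Subgroup.map_map]
    congr 1
  show (Cfsg.pLayer 2 X ⊔ Cfsg.oddCore X ⊔
    ⨆ T : Sylow 2 ↥N, F ((T : Subgroup ↥N).map N.subtype)).Normal
  haveI : (⨆ T : Sylow 2 ↥N, F ((T : Subgroup ↥N).map N.subtype)).Normal := by
    suffices h : ∀ g : X, (⨆ T : Sylow 2 ↥N, F ((T : Subgroup ↥N).map N.subtype)).map
        (MulAut.conj g).toMonoidHom ≤ ⨆ T : Sylow 2 ↥N, F ((T : Subgroup ↥N).map N.subtype) from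
      ⟨fun x hx g => h g ⟨x, hx, rfl⟩⟩
    intro g
    rw [Subgroup.map_iSup]
    refine iSup_le fun T => ?_
    rw [hcov]
    have hmap : ((T : Subgroup ↥N).map N.subtype).map (MulAut.conj g).toMonoidHom ≤ N := by
      rintro _ ⟨_, ⟨t, -, rfl⟩, rfl⟩
      exact hN.conj_mem _ t.2 g
    let ψ : MulAut ↥N := MulAut.conjNormal g
    let T' : Sylow 2 ↥N := T.mapSurjective (f := ψ.toMonoidHom) ψ.surjective
    refine le_iSup_of_le T' (le_of_eq (congrArg F ?_))
    show _ = ((T : Subgroup ↥N).map ψ.toMonoidHom).map N.subtype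
    rw [Subgroup.map_map, Subgroup.map_map]
    congr 1
  exact Subgroup.sup_normal _ _

end Cfsg.Agent.S1342
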