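import Cfsg.Agent.S1341
import Cfsg.Prelude.Def_Balance
-- Template for statement S1343 (row 1343; see /opt/grader/pristine/manifest.json for weights).
-- Copy to Cfsg/Agent/S1343.lean and replace the sorry. The statement below is byte-identical to the frozen
-- statement Cfsg.CfsgFrozen.S1343 (Cfsg/Statements/S1343.lean; the theorem Cfsg.extended_two_layer_odd_complement);
-- the grader kernel-checks Cfsg.Agent.S1343.result against that frozen type. Keep the theorem IN THIS FILE
-- (a `result` declared elsewhere and merely imported here is not credited); helpers may live anywhere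
-- under Cfsg/Agent/.
-- import your own Cfsg.Agent.* helpers here

set_option autoImplicit false
open Cfsg

namespace Cfsg.Agent.S1343

/-- Let X be finite. Then L*_{2'}(X) = L_{2'}(X) ⊔ F for some subgroup F of odd order normalized by a Sylow 2-subgroup of X. -/
theorem result {X : Type*} [Group X] [Finite X] : ∃ F : Subgroup X, Odd (Nat.card ↥F) ∧ (∃ S : Sylow 2 X, (S : Subgroup X) ≤ Subgroup.normalizer (F : Set X)) ∧ Cfsg.extendedTwoLayer X = Cfsg.pLayer 2 X ⊔ F := by
  classical
  haveI : Fact (Nat.Prime 2) := ⟨Nat.prime_two⟩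
  haveI : (Cfsg.pLayer 2 X).Normal := inferInstance
  set M := Cfsg.pLayer 2 X ⊔ Cfsg.pPrimePCore 2 X with hM
  haveI : (Cfsg.pPrimePCore 2 X).Normal := by
    haveI : (Cfsg.pCore 2 (X ⧸ Cfsg.pPrimeCore 2 X)).Normal := inferInstance
    exact Subgroup.Normal.comap (inferInstance) _
  haveI hMn : M.Normal := Subgroup.sup_normal _ _
  obtain ⟨T⟩ := (inferInstance : Nonempty (Sylow 2 ↥M))
  set T₀ := (T : Subgroup ↥M).map M.subtype with hT₀
  set C := Subgroup.centralizer (T₀ : Set X) with hC
  set D := (Cfsg.oddCore ↥C).map C.subtype with hD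
  haveI : (Cfsg.oddCore X).Normal := CfsgLib.PComponents.core_normal
  have hodd : ∀ (Y : Type _) [Group Y] [Finite Y], Odd (Nat.card ↥(Cfsg.oddCore Y)) := fun Y _ _ => by
    exact Nat.coprime_two_left.mp (Nat.Coprime.symm (CfsgLib.Core.card_pPrimeCore_coprime 2))
  obtain ⟨S, hS⟩ := (T.2.map M.subtype).exists_le_sylow
  refine ⟨Cfsg.oddCore X ⊔ D, ?_, ⟨S, fun s hs => ?_⟩, ?_⟩
  · refine Odd.of_dvd_nat ((hodd ↥C).mul (hodd X)) ?_
    rw [show Nat.card ↥(Cfsg.oddCore ↥C) = Nat.card ↥D from (Subgroup.card_map_of_injective C.subtype_injective).symm, sup_comm]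
    exact CfsgLib.Core.card_sup_dvd_of_normal D (Cfsg.oddCore X)
  · have h1 : T₀.map (MulAut.conj s).toMonoidHom = T₀ := by
      have hTS : ∀ x ∈ S, x ∈ M → x ∈ T₀ := by
        intro x hx hxM
        have hp : IsPGroup 2 ↥((S : Subgroup X).subgroupOf M) :=
          S.2.comap_of_injective M.subtype M.subtype_injective
        have he := T.3 hp (fun y hy => hS ⟨y, hy, rfl⟩)
        exact ⟨⟨x, hxM⟩, he ▸ (show (⟨x, hxM⟩ : ↥M) ∈ (S : Subgroup X).subgroupOf M from hx), rfl⟩
      refine CfsgLib.LocalBasic.conj_map_eq_of_mem_normalizer (Subgroup.mem_normalizer_iff.mpr fun x => ⟨fun hx => ?_, fun hx => ?_⟩)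
      · exact hTS _ (mul_mem (mul_mem hs (hS hx)) (inv_mem hs)) (hMn.conj_mem x (Subgroup.map_subtype_le _ hx) s)
      · have h2 := hTS _ (mul_mem (mul_mem (inv_mem hs) (hS hx)) hs)
          (by simpa using hMn.conj_mem _ (Subgroup.map_subtype_le _ hx) s⁻¹)
        simpa [mul_assoc] using h2
    have hDs : D.map (MulAut.conj s).toMonoidHom = D := by
      have hCm : C.map (MulAut.conj s).toMonoidHom = C := by
        rw [hC, CfsgLib.Layer2.centralizer_map_equiv, h1]
      let e := ((MulAut.conj s).subgroupMap C).trans (MulEquiv.subgroupCongr hCm)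
      conv_rhs => rw [hD, Cfsg.oddCore, ← CfsgLib.Core.pPrimeCore_map_equiv e 2]
      rw [hD, Cfsg.oddCore, Subgroup.map_map, Subgroup.map_map]
      rfl
    refine Subgroup.mem_normalizer_iff_map_conj_eq.mpr ?_
    rw [Subgroup.map_sup]
    rw [show D.map (MulAut.conj s : X →* X) = D from hDs]
    congr 1
    exact CfsgLib.LocalBasic.conj_map_eq_of_mem_normalizer (by rw [Subgroup.normalizer_eq_top]; trivial)
  · rw [Cfsg.Agent.S1341.result T, sup_assoc]

end Cfsg.Agent.S1343
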