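import Cfsg.Agent.Lib.PComponents2
import Cfsg.Prelude.Def_Balance

set_option autoImplicit false
open Cfsg

namespace Cfsg.Agent.S1344

/-- Let K be a 2-component of the finite group X. Then K ≤ L*_{2'}(X) and K is normal in L*_{2'}(X). -/
theorem result {X : Type*} [Group X] [Finite X] (K : Subgroup X) (hK : Cfsg.IsPComponent 2 K) : K ≤ Cfsg.extendedTwoLayer X ∧ (K.subgroupOf (Cfsg.extendedTwoLayer X)).Normal := by
  classical
  set π := QuotientGroup.mk' (Cfsg.pPrimeCore 2 X) with hπ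
  haveI : Fact (Nat.Prime 2) := ⟨Nat.prime_two⟩
  have hcomp : Cfsg.IsComponent (K.map π) := hK.2.1
  have hKL : K ≤ Cfsg.extendedTwoLayer X :=
    ((CfsgLib.PComponents.pComponent_le_pLayer hK).trans le_sup_left).trans le_sup_left
  refine ⟨hKL, (Subgroup.normal_subgroupOf_iff_le_normalizer hKL).mpr ?_⟩
  have hbar : ∀ x : X, π x ∈ Subgroup.normalizer ((K.map π : Subgroup _) : Set _) →
      x ∈ Subgroup.normalizer (K : Set X) := by
    intro x hx
    refine Subgroup.mem_normalizer_iff_map_conj_eq.mpr ?_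
    refine CfsgLib.PComponents.pComponent_ext (CfsgLib.Layer2.isPComponent_map_equiv (MulAut.conj x) hK) hK ?_
    have e : (K.map (MulAut.conj x).toMonoidHom).map π = (K.map π).map (MulAut.conj (π x)).toMonoidHom := by
      rw [Subgroup.map_map, Subgroup.map_map]; congr 1
    exact e.trans (Subgroup.mem_normalizer_iff_map_conj_eq.mp hx)
  have hlayer : Cfsg.pLayer 2 X ≤ Subgroup.normalizer (K : Set X) :=
    sSup_le fun L hL => CfsgLib.PComponents.pComponent_normalizes hK hL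
  have hPP : Cfsg.pPrimePCore 2 X ≤ Subgroup.normalizer (K : Set X) := fun x hx => by
    refine hbar x (Subgroup.centralizer_le_normalizer _ ?_)
    haveI := (CfsgLib.Core.isPGroup_pCore (G := X ⧸ Cfsg.pPrimeCore 2 X) 2).isNilpotent
    have h0 := CfsgLib.Components.component_commutator_solvable hcomp
      (H := Cfsg.pCore 2 (X ⧸ Cfsg.pPrimeCore 2 X)) inferInstance
      (by rw [Subgroup.normalizer_eq_top]; exact le_top)
    exact Subgroup.le_centralizer_iff.mp (Subgroup.commutator_eq_bot_iff_le_centralizer.mp h0) hx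
  -- a `2`-element of `K` whose image is not central in the image of `K`
  obtain ⟨k, hk, hk2, hknc⟩ : ∃ k ∈ K, CfsgLib.PIrr.IsPElt 2 k ∧ π k ∉ Subgroup.centralizer ((K.map π : Subgroup _) : Set _) := by
    by_contra hcon
    push_neg at hcon
    refine CfsgLib.Components.component_not_abelian hcomp ?_
    rw [Subgroup.map_le_iff_le_comap]
    conv_lhs => rw [← CfsgLib.PComponents.pComponent_pGen_self hK]
    exact (Subgroup.closure_le _).mpr fun y hy => hcon y hy.1 hy.2
  refine sup_le (sup_le hlayer fun x hx => hbar x ?_) (iSup_le fun T => ?_)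
  · have h1 : π x = 1 := (QuotientGroup.eq_one_iff x).mpr hx
    rw [h1]
    exact one_mem _
  refine (Subgroup.map_subtype_le _).trans fun c hc => ?_
  have hkW : k ∈ (Cfsg.pLayer 2 X ⊔ Cfsg.pPrimePCore 2 X) := Subgroup.mem_sup_left (CfsgLib.PComponents.pComponent_le_pLayer hK hk)
  have hkp : IsPGroup 2 (Subgroup.zpowers (⟨k, hkW⟩ : ↥(Cfsg.pLayer 2 X ⊔ Cfsg.pPrimePCore 2 X))) := by
    obtain ⟨n, hn⟩ := CfsgLib.PComponents.isPElt_iff_orderOf.mp hk2
    exact IsPGroup.of_card (n := n) (by rw [Nat.card_zpowers, Subgroup.orderOf_mk, hn])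
  obtain ⟨T', hT'⟩ := hkp.exists_le_sylow
  obtain ⟨w, hw⟩ := MulAction.exists_smul_eq ↥(Cfsg.pLayer 2 X ⊔ Cfsg.pPrimePCore 2 X) T' T
  have hwN : (w : X) ∈ Subgroup.normalizer (K : Set X) := sup_le hlayer hPP w.2
  have hk'K : (w : X) * k * (w : X)⁻¹ ∈ K := (Subgroup.mem_normalizer_iff.mp hwN k).mp hk
  have hk'T : (w : X) * k * (w : X)⁻¹ ∈ ((T : Subgroup ↥(Cfsg.pLayer 2 X ⊔ Cfsg.pPrimePCore 2 X)).map (Cfsg.pLayer 2 X ⊔ Cfsg.pPrimePCore 2 X).subtype : Subgroup X) := by
    refine ⟨w * ⟨k, hkW⟩ * w⁻¹, ?_, rfl⟩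
    rw [SetLike.mem_coe, ← hw, Sylow.coe_subgroup_smul]
    exact ⟨⟨k, hkW⟩, hT' (Subgroup.mem_zpowers _), rfl⟩
  have hfix := Subgroup.mem_centralizer_iff.mp hc _ hk'T
  set k' := (w : X) * k * (w : X)⁻¹ with hk'
  have hnc : π k' ∉ Subgroup.centralizer ((K.map π : Subgroup _) : Set _) := by
    intro h
    apply hknc
    refine Subgroup.mem_centralizer_iff.mpr fun y hy => ?_
    obtain ⟨z, hz, rfl⟩ := hy
    have h1 := Subgroup.mem_centralizer_iff.mp h _ (Subgroup.mem_map_of_mem π ((Subgroup.mem_normalizer_iff.mp hwN z).mp hz))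
    rw [hk', map_mul, map_mul, map_mul, map_mul, map_inv] at h1
    have h2 : (π (w : X))⁻¹ * (π (w : X) * π z * (π (w : X))⁻¹ * (π (w : X) * π k * (π (w : X))⁻¹)) * π (w : X) =
        (π (w : X))⁻¹ * (π (w : X) * π k * (π (w : X))⁻¹ * (π (w : X) * π z * (π (w : X))⁻¹)) * π (w : X) := by rw [h1]
    simpa [mul_assoc] using h2
  refine hbar c (Subgroup.mem_normalizer_iff_map_conj_eq.mpr ?_)
  by_contra hne
  have hcomp' : Cfsg.IsComponent ((K.map π).map (MulAut.conj (π c)).toMonoidHom) :=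
    CfsgLib.Layer2.isComponent_map_equiv (MulAut.conj (π c)) hcomp
  refine hnc (Subgroup.commutator_eq_bot_iff_le_centralizer.mp
    (CfsgLib.Components.component_comm hcomp' hcomp hne) ⟨π k', Subgroup.mem_map_of_mem π hk'K, ?_⟩)
  show π c * π k' * (π c)⁻¹ = π k'
  rw [← map_mul, ← map_inv, ← map_mul, ← hfix, mul_inv_cancel_right]

end Cfsg.Agent.S1344
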