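import Cfsg.Statements.S1386
import Cfsg.Agent.Lib.GroupB.Coprime

set_option autoImplicit false
open Cfsg

namespace Cfsg.Agent.S1386


/-- Let G be a finite group, W₁, W₂ subgroups forming a self-normalizing cyclic pair, S a subgroup with W₂ ≤ S and W₁ a complement to S' in S, and (W₁, U, W₂') type-P data for S. Then W₂' = W₂ (that is, C_{S'}(W₁) = W₂). -/
theorem result {G : Type*} [Group G] [Finite G] (W₁ W₂ S U W₂' : Subgroup G) (hW : Cfsg.IsSelfNormalizingCyclic W₁ W₂)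
    (hSW : Cfsg.IsComplIn ⁅S, S⁆ W₁ S) (hW₂S : W₂ ≤ S) (hP : Cfsg.IsTypePWith S W₁ U W₂') :
    W₂' = W₂ := by
  classical
  obtain ⟨hW1ne, hW2ne, hinf, hcomm, hcyc, hnorm⟩ := hW
  obtain ⟨hW1ne', hW2ne', hinf', hcomm', hcyc', hnorm'⟩ := hP.selfNormalizing
  obtain ⟨x, hx, hx1⟩ := W₁.bot_or_exists_ne_one.resolve_left hW1ne
  obtain ⟨y, hy, hy1⟩ := W₂.bot_or_exists_ne_one.resolve_left hW2ne
  -- W₂ is inside W₁ ⊔ W₂'
  have hle : W₂ ≤ W₁ ⊔ W₂' := by
    intro w hw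
    obtain ⟨a, ha, b, hb, hab⟩ := hSW.2.2.2 w (hW₂S hw)
    have hxa : a ∈ W₂' := by
      rw [← hP.W₂_centralizer x hx hx1]
      refine ⟨ha, Subgroup.mem_centralizer_singleton_iff.mpr ?_⟩
      have h1 : x * w = w * x := hcomm x hx w hw
      haveI := hP.W₁_cyclic
      have h2 : x * b = b * x := by
        letI : CommGroup ↥W₁ := IsCyclic.commGroup
        exact congrArg Subtype.val (mul_comm (⟨x, hx⟩ : W₁) ⟨b, hb⟩)
      rw [show a = w * b⁻¹ by rw [hab, mul_inv_cancel_right]]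
      calc w * b⁻¹ * x = w * (b⁻¹ * x) := mul_assoc _ _ _
        _ = w * (x * b⁻¹) := by rw [((show Commute x b from h2).inv_right).eq]
        _ = (x * w) * b⁻¹ := by rw [h1, mul_assoc]
        _ = _ := mul_assoc _ _ _
    rw [hab]
    exact mul_mem (Subgroup.mem_sup_right hxa) (Subgroup.mem_sup_left hb)
  -- and conversely, by self-normalization
  have hxy : x * y ∈ (↑(W₁ ⊔ W₂) : Set G) \ (↑W₁ ∪ ↑W₂) := by
    refine ⟨Subgroup.mul_mem_sup hx hy, ?_⟩
    rintro (h | h)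
    · exact hy1 (Subgroup.mem_bot.mp (hinf.le ⟨(mul_mem_cancel_left hx).mp h, hy⟩))
    · exact hx1 (Subgroup.mem_bot.mp (hinf.le ⟨hx, (mul_mem_cancel_right hy).mp h⟩))
  have hsup : W₁ ⊔ W₂' = W₁ ⊔ W₂ := by
    refine le_antisymm ?_ (sup_le le_sup_left hle)
    rw [← hnorm {x * y} (Set.singleton_subset_iff.mpr hxy) (Set.singleton_nonempty _)]
    intro g hg
    refine Subgroup.mem_set_normalizer_iff.mpr fun n => ?_
    letI : CommGroup ↥(W₁ ⊔ W₂') := IsCyclic.commGroup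
    have hxy' : x * y ∈ W₁ ⊔ W₂' := sup_le le_sup_left hle (Subgroup.mul_mem_sup hx hy)
    have hgc : g * (x * y) * g⁻¹ = x * y := by
      rw [mul_inv_eq_iff_eq_mul]
      exact congrArg Subtype.val (mul_comm (⟨g, hg⟩ : ↥(W₁ ⊔ W₂')) ⟨x * y, hxy'⟩)
    simp only [Set.mem_singleton_iff]
    constructor
    · rintro rfl; exact hgc
    · intro h
      have h2 : g * n * g⁻¹ = g * (x * y) * g⁻¹ := h.trans hgc.symm
      exact mul_left_cancel (mul_right_cancel h2)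
  have hcard : ∀ A : Subgroup G, W₁ ⊓ A = ⊥ → (∀ a ∈ W₁, ∀ b ∈ A, a * b = b * a) →
      Nat.card ↥(W₁ ⊔ A) = Nat.card ↥W₁ * Nat.card ↥A := by
    intro A hA hc
    have hcW : W₁ ≤ Subgroup.centralizer (A : Set G) := fun a ha =>
      Subgroup.mem_centralizer_iff.mpr fun b hb => (hc a ha b hb).symm
    exact CfsgLib.GroupB.Coprime.card_sup_eq (N := W₁) (K := A)
      (fun b hb => Subgroup.centralizer_le_normalizer _ (Subgroup.mem_centralizer_iff.mpr fun a ha => hc a ha b hb)) hA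
  have hc := hcard W₂ hinf hcomm
  have hc' := hcard W₂' hinf' hcomm'
  rw [hsup, hc] at hc'
  have hn : Nat.card ↥W₂ = Nat.card ↥W₂' := Nat.eq_of_mul_eq_mul_left Nat.card_pos hc'
  haveI : Fintype ↥(W₁ ⊔ W₂) := Fintype.ofFinite _
  have key : ∀ A : Subgroup G, A ≤ W₁ ⊔ W₂ → Nat.card ↥A = Nat.card ↥W₂ →
      ((A.subgroupOf (W₁ ⊔ W₂) : Subgroup ↥(W₁ ⊔ W₂)) : Set ↥(W₁ ⊔ W₂)) =
        {a : ↥(W₁ ⊔ W₂) | a ^ Nat.card ↥W₂ = 1} := by
    intro A hA hAc
    refine Set.eq_of_subset_of_ncard_le (fun a ha => Subtype.ext ?_) ?_ (Set.toFinite _)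
    · rw [SubgroupClass.coe_pow, ← hAc]
      exact congrArg Subtype.val (pow_card_eq_one' (x := (⟨(a : G), ha⟩ : A)))
    · conv_rhs => rw [← Nat.card_coe_set_eq]
      rw [SetLike.coe_sort_coe, Nat.card_congr (Subgroup.subgroupOfEquivOfLe hA).toEquiv, hAc,
        Set.ncard_eq_toFinset_card']
      exact le_of_eq_of_le (by congr 1; ext; simp) (IsCyclic.card_pow_eq_one_le Nat.card_pos)
  have h1 := (key W₂' (hsup ▸ le_sup_right) hn.symm).trans (key W₂ le_sup_right rfl).symm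
  have h2 := Subgroup.subgroupOf_inj.mp (SetLike.coe_injective h1)
  rwa [inf_eq_left.mpr (hsup ▸ le_sup_right), inf_eq_left.mpr le_sup_right] at h2

end Cfsg.Agent.S1386
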