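import Cfsg.Statements.S1388
import Cfsg.Agent.Lib.TypePBasic

set_option autoImplicit false
open Cfsg

namespace Cfsg.Agent.S1388


/-- Let M be a subgroup of a finite group G with type-P data (W₁, U, W₂) and H = M_F. Then the derived subgroup of U centralizes H, and if U ≠ 1 then U does not centralize H. -/
theorem result {G : Type*} [Group G] [Finite G] (M W₁ U W₂ : Subgroup G) (hP : Cfsg.IsTypePWith M W₁ U W₂) :
    ⁅U, U⁆ ≤ Subgroup.centralizer (Cfsg.fittingHallOf M : Set G) ∧ (U ≠ ⊥ → ¬ U ≤ Subgroup.centralizer (Cfsg.fittingHallOf M : Set G)) := by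
  have hUM := hP.U_compl.2.1
  constructor
  · intro x hx
    have hx' : x ∈ Cfsg.fittingOf M := hP.fitting_eq ▸ hP.derived_two_le (Subgroup.commutator_mono hUM hUM hx)
    refine CfsgLib.TypePBasic.mem_centralizer_of_mem hP ?_ hx'
    exact (Subgroup.commutator_le.mpr fun a ha b hb => by
      rw [commutatorElement_def]; exact mul_mem (mul_mem (mul_mem ha hb) (inv_mem ha)) (inv_mem hb)) hx
  · intro hU hle
    have hMM : ⁅M, M⁆ ≤ M := Subgroup.commutator_le.mpr fun a ha b hb => by
      rw [commutatorElement_def]; exact mul_mem (mul_mem (mul_mem ha hb) (inv_mem ha)) (inv_mem hb)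
    have heq : ⁅M, M⁆ = Cfsg.fittingOf M := le_antisymm (fun m hm => by
      obtain ⟨h, hh, u, hu, rfl⟩ := hP.U_compl.2.2.2 m hm
      exact hP.fitting_eq ▸ Subgroup.mul_mem_sup hh ⟨CfsgLib.TypePBasic.U_le hP hu, hle hu⟩) hP.fitting_le
    set N := commutator ↥M
    have hNmap : N.map M.subtype = ⁅M, M⁆ := by
      rw [show N = ⁅(⊤ : Subgroup ↥M), ⊤⁆ from rfl, Subgroup.map_commutator, ← MonoidHom.range_eq_map,
        Subgroup.range_subtype]
    have hnil : Group.IsNilpotent ↥N := by
      haveI : Group.IsNilpotent ↥(⁅M, M⁆) := heq ▸ CfsgLib.TypePBasic.isNilpotent_fittingOf M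
      exact Group.nilpotent_of_mulEquiv ((MulEquiv.subgroupCongr hNmap.symm).trans
        (N.equivMapOfInjective M.subtype M.subtype_injective).symm)
    have hco : (Nat.card ↥N).Coprime N.index := by
      obtain ⟨-, hW, hinf, hprod⟩ := hP.W₁_compl
      have hc : Subgroup.IsComplement' N (W₁.subgroupOf M) := by
        refine Subgroup.isComplement'_of_disjoint_and_mul_eq_univ ?_ ?_
        · rw [disjoint_iff, eq_bot_iff]
          rintro m ⟨hm1, hm2⟩
          have h1 : (m : G) ∈ ⁅M, M⁆ ⊓ W₁ := ⟨hNmap ▸ Subgroup.mem_map_of_mem M.subtype hm1, hm2⟩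
          rw [hinf, Subgroup.mem_bot] at h1
          exact Subgroup.mem_bot.mpr (Subtype.ext h1)
        · refine Set.eq_univ_of_forall fun m => ?_
          obtain ⟨a, ha, b, hb, hab⟩ := hprod m m.2
          rw [← hNmap] at ha
          obtain ⟨a', ha', rfl⟩ := ha
          exact ⟨a', ha', ⟨b, hW hb⟩, hb, Subtype.ext hab.symm⟩
      rw [hc.symm.index_eq_card, ← hc.index_eq_card, Nat.card_congr (Subgroup.subgroupOfEquivOfLe hW).toEquiv,
        Nat.coprime_comm]
      exact hP.W₁_hall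
    have hUH : U ≤ Cfsg.fittingHallOf M := fun u hu => Subgroup.map_mono
      (le_sSup (⟨(inferInstance : N.Normal), hnil, hco⟩ : N.Normal ∧ Group.IsNilpotent ↥N ∧ (Nat.card ↥N).Coprime N.index) : N ≤ Cfsg.fittingHall ↥M) (hNmap.symm ▸ hUM hu)
    exact hU (le_bot_iff.mp (hP.U_compl.2.2.1 ▸ le_inf hUH le_rfl))

end Cfsg.Agent.S1388
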