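import Cfsg.Statements.S1393
import Cfsg.Agent.Lib.InvariantMax
import Cfsg.Agent.Lib.Transitivity
import Cfsg.Agent.Lib.PLocal.Elementary

set_option autoImplicit false
open Cfsg

namespace Cfsg.Agent.S1393

open CfsgLib.InvariantMax

/-- Let G be a minimal simple group of odd order, A a subgroup satisfying the transitivity hypothesis whose centre has rank at least 3, K = O_{π(A)'}(C_G(A)), and q a prime not dividing the order of A. Then any two maximal A-invariant q-subgroups of G are conjugate by an element of K. -/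
theorem result {G : Type*} [Group G] [Finite G] (hG : Cfsg.IsMinSimpleOddOrder G)
    (A : Subgroup G) (hA : Cfsg.TransitivityHypothesis A) (hZ : ¬ Cfsg.RankLE 2 ↥(A ⊓ Subgroup.centralizer (A : Set G)))
    (q : ℕ) (hq : q.Prime) (hqA : ¬ q ∣ Nat.card A) :
    ∀ Q₁ ∈ Cfsg.maxInvSubgroups ⊤ A {q}, ∀ Q₂ ∈ Cfsg.maxInvSubgroups ⊤ A {q}, ∃ k ∈ Cfsg.piCoreOf (Cfsg.primesNotDvd (Nat.card A)) (Subgroup.centralizer (A : Set G)), Q₂ = Q₁.map (MulAut.conj k).toMonoidHom := by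
  classical
  haveI := Fact.mk hq
  intro Q₁ h₁ Q₂ h₂
  by_cases hne : Q₁ ⊓ Q₂ ≠ ⊥
  · exact conj_of_inf_ne hA hG.2.1 hG.2.2.1 hG.2.2.2 hqA _ Q₁ Q₂ h₁ h₂ hne rfl
  push Not at hne
  by_cases hb₁ : Q₁ = ⊥
  · exact eq_of_bot h₁ h₂ hb₁
  by_cases hb₂ : Q₂ = ⊥
  · exact absurd ((h₂.2 _ h₁.1 (hb₂ ▸ bot_le)).trans hb₂) hb₁
  unfold Cfsg.RankLE Cfsg.PRankLE at hZ
  push Not at hZ
  obtain ⟨r, hr, E', hE'c, hE'e, hE'n⟩ := hZ
  haveI := Fact.mk hr
  have hE : Cfsg.IsElementaryAbelian r (E'.map (A ⊓ Subgroup.centralizer (A : Set G)).subtype) := CfsgLib.PLocal.el_map (A ⊓ Subgroup.centralizer (A : Set G)).subtype ⟨hE'c, hE'e⟩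
  have hcard : Nat.card ↥(E'.map (A ⊓ Subgroup.centralizer (A : Set G)).subtype) = Nat.card ↥E' := Subgroup.card_map_of_injective (A ⊓ Subgroup.centralizer (A : Set G)).subtype_injective
  obtain ⟨k, hk⟩ := (CfsgLib.Signalizer.isPGroup_of_elementary hE).exists_card_eq
  have hk3 : 3 ≤ k := by
    by_contra hlt
    exact not_le.mpr hE'n (by rw [← hcard, hk]; exact Nat.pow_le_pow_right hr.pos (by omega))
  have hE3 : r ^ 3 ≤ Nat.card ↥(E'.map (A ⊓ Subgroup.centralizer (A : Set G)).subtype) := hk ▸ Nat.pow_le_pow_right hr.pos hk3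
  have hEA : E'.map (A ⊓ Subgroup.centralizer (A : Set G)).subtype ≤ A := (Subgroup.map_subtype_le _).trans inf_le_left
  have hqr : q ≠ r := fun e => hqA (by
    rw [e]
    exact (dvd_pow_self r (by omega : k ≠ 0)).trans (hk ▸ Subgroup.card_dvd_of_le hEA))
  obtain ⟨a, ha, ha1, hn₁, hn₂⟩ := CfsgLib.Signalizer.exists_common_growth hE hE3 hqr
    (isPGroup_of_inv h₁.1) (isPGroup_of_inv h₂.1) (hEA.trans h₁.1.2.2) (hEA.trans h₂.1.2.2)
    (by rw [hne]; exact Ne.symm hb₁) (by rw [hne]; exact Ne.symm hb₂)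
  have haZ : a ∈ A ⊓ Subgroup.centralizer (A : Set G) := Subgroup.map_subtype_le _ ha
  have hAC : A ≤ Subgroup.centralizer ({a} : Set G) := fun b hb =>
    Subgroup.mem_centralizer_singleton_iff.mpr ((Subgroup.mem_inf.mp haZ).2 b hb)
  have hCt : Subgroup.centralizer ({a} : Set G) ≠ ⊤ := fun e => by
    have hac : a ∈ Subgroup.center G := Subgroup.mem_center_iff.mpr fun g =>
      Subgroup.mem_centralizer_singleton_iff.mp (e.ge (Subgroup.mem_top g))
    rcases hG.2.1.eq_bot_or_eq_top_of_normal (Subgroup.center G) inferInstance with h | h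
    · exact ha1 (Subgroup.mem_bot.mp (h ▸ hac))
    · exact hG.2.2.1 ⟨⟨fun x y => Subgroup.mem_center_iff.mp (h ▸ Subgroup.mem_top y) x⟩⟩
  exact conj_of_meet hA hG.2.1 hG.2.2.1 hG.2.2.2 hqA h₁ h₂ hCt hAC
    (fun e => hn₁ (le_trans (le_trans (le_inf inf_le_right (inf_le_left.trans inf_le_right)) e.le) bot_le))
    (fun e => hn₂ (le_trans (le_trans (le_inf inf_le_right (inf_le_left.trans inf_le_right)) e.le) bot_le))

end Cfsg.Agent.S1393
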