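import Cfsg.Statements.S1394
import Cfsg.Agent.Lib.InvariantMax
import Cfsg.Agent.Lib.Transitivity
import Cfsg.Agent.Lib.PLocal.Elementary

set_option autoImplicit false
open Cfsg

namespace Cfsg.Agent.S1394

open CfsgLib.InvariantMax

/-- Let G be a minimal simple group of odd order, A a subgroup satisfying the transitivity hypothesis whose centre has rank at least 2, K = O_{π(A)'}(C_G(A)), and q a prime dividing the order of C_G(A) but not that of A. Then any two maximal A-invariant q-subgroups of G are conjugate by an element of K. -/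
theorem result {G : Type*} [Group G] [Finite G] (hG : Cfsg.IsMinSimpleOddOrder G)
    (A : Subgroup G) (hA : Cfsg.TransitivityHypothesis A) (hZ : ¬ Cfsg.RankLE 1 ↥(A ⊓ Subgroup.centralizer (A : Set G)))
    (q : ℕ) (hq : q.Prime) (hqA : ¬ q ∣ Nat.card A) (hqC : q ∣ Nat.card (Subgroup.centralizer (A : Set G))) :
    ∀ Q₁ ∈ Cfsg.maxInvSubgroups ⊤ A {q}, ∀ Q₂ ∈ Cfsg.maxInvSubgroups ⊤ A {q}, ∃ k ∈ Cfsg.piCoreOf (Cfsg.primesNotDvd (Nat.card A)) (Subgroup.centralizer (A : Set G)), Q₂ = Q₁.map (MulAut.conj k).toMonoidHom := by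
  classical
  haveI := Fact.mk hq
  unfold Cfsg.RankLE Cfsg.PRankLE at hZ
  push Not at hZ
  obtain ⟨r, hr, E', hE'c, hE'e, hE'n⟩ := hZ
  haveI := Fact.mk hr
  set E := E'.map (A ⊓ Subgroup.centralizer (A : Set G)).subtype with hEdef
  have hE : Cfsg.IsElementaryAbelian r E := CfsgLib.PLocal.el_map (A ⊓ Subgroup.centralizer (A : Set G)).subtype ⟨hE'c, hE'e⟩
  have hcard : Nat.card ↥E = Nat.card ↥E' := Subgroup.card_map_of_injective (A ⊓ Subgroup.centralizer (A : Set G)).subtype_injective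
  obtain ⟨k, hk⟩ := (CfsgLib.Signalizer.isPGroup_of_elementary hE).exists_card_eq
  have hk2 : 2 ≤ k := by
    by_contra hlt
    exact not_le.mpr hE'n (by rw [← hcard, hk]; exact Nat.pow_le_pow_right hr.pos (by omega))
  have hE2 : r ^ 2 ≤ Nat.card ↥E := hk ▸ Nat.pow_le_pow_right hr.pos hk2
  have hEA : E ≤ A := (Subgroup.map_subtype_le _).trans inf_le_left
  have hqr : q ≠ r := fun e => hqA (by
    rw [e]
    exact (dvd_pow_self r (by omega : k ≠ 0)).trans (hk ▸ Subgroup.card_dvd_of_le hEA))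
  obtain ⟨x, hx⟩ := exists_prime_orderOf_dvd_card' q hqC
  set U := Subgroup.zpowers (x : G)
  have hUC : U ≤ Subgroup.centralizer (A : Set G) := Subgroup.zpowers_le.mpr x.2
  have hUq : IsPGroup q ↥U := IsPGroup.of_card (n := 1) (by rw [Nat.card_zpowers, Subgroup.orderOf_coe, hx, pow_one])
  obtain ⟨Q₀, hQ₀, hU₀⟩ := exists_max_ge (mem_inv hUq fun a ha => Subgroup.centralizer_le_normalizer _
    fun z hz => (hUC hz a ha).symm)
  have hUne : U ≠ ⊥ := fun e => by
    have hc : Nat.card ↥U = 1 := by rw [e, Subgroup.card_bot]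
    rw [Nat.card_zpowers, Subgroup.orderOf_coe, hx] at hc
    exact hq.ne_one hc
  have key : ∀ Q ∈ Cfsg.maxInvSubgroups ⊤ A {q}, ∃ k ∈ Cfsg.piCoreOf (Cfsg.primesNotDvd (Nat.card A)) (Subgroup.centralizer (A : Set G)),
      Q = Q₀.map (MulAut.conj k).toMonoidHom := by
    intro Q hQ
    have hQb : Q ≠ ⊥ := fun e => hUne (le_antisymm ((hU₀.trans ((hQ.2 _ hQ₀.1 (e ▸ bot_le)).le)).trans e.le) bot_le)
    have hnq : ¬ r ∣ Nat.card ↥Q := by
      obtain ⟨j, hj⟩ := (isPGroup_of_inv hQ.1).exists_card_eq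
      rw [hj]
      exact fun hd => hqr (((Nat.prime_dvd_prime_iff_eq hr hq).mp (hr.dvd_of_dvd_pow hd)).symm)
    have hgen := CfsgLib.Signalizer.le_iSup_hyperplane hE hE2 hnq (hEA.trans hQ.1.2.2)
    obtain ⟨B, hBE, hBi, hBQ⟩ : ∃ B : Subgroup G, B ≤ E ∧ B.relIndex E = r ∧ Q ⊓ Subgroup.centralizer (B : Set G) ≠ ⊥ := by
      by_contra hall
      push Not at hall
      exact hQb (le_antisymm (hgen.trans (iSup_le fun B => (hall B.1 B.2.1 B.2.2).le)) bot_le)
    obtain ⟨a, ha, ha1⟩ : ∃ a ∈ B, a ≠ 1 := by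
      by_contra hall
      push Not at hall
      have hB : B = ⊥ := eq_bot_iff.mpr fun y hy => Subgroup.mem_bot.mpr (hall y hy)
      rw [hB, Subgroup.relIndex_bot_left] at hBi
      rw [hBi] at hE2
      have := hr.two_le
      nlinarith
    have haZ : a ∈ A ⊓ Subgroup.centralizer (A : Set G) := Subgroup.map_subtype_le _ (hBE ha)
    have hAC : A ≤ Subgroup.centralizer ({a} : Set G) := fun b hb =>
      Subgroup.mem_centralizer_singleton_iff.mpr ((Subgroup.mem_inf.mp haZ).2 b hb)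
    have hCt : Subgroup.centralizer ({a} : Set G) ≠ ⊤ := fun e => by
      have hac : a ∈ Subgroup.center G := Subgroup.mem_center_iff.mpr fun g =>
        Subgroup.mem_centralizer_singleton_iff.mp (e.ge (Subgroup.mem_top g))
      rcases hG.2.1.eq_bot_or_eq_top_of_normal (Subgroup.center G) inferInstance with h | h
      · exact ha1 (Subgroup.mem_bot.mp (h ▸ hac))
      · exact hG.2.2.1 ⟨⟨fun u v => Subgroup.mem_center_iff.mp (h ▸ Subgroup.mem_top v) u⟩⟩
    refine conj_of_meet hA hG.2.1 hG.2.2.1 hG.2.2.2 hqA hQ₀ hQ hCt hAC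
      (fun e => hUne (le_antisymm ((le_inf ?_ hU₀).trans e.le) bot_le))
      (fun e => hBQ (le_antisymm ((le_inf (inf_le_right.trans (Subgroup.centralizer_le (Set.singleton_subset_iff.mpr ha))) inf_le_left).trans e.le) bot_le))
    exact fun u hu => Subgroup.mem_centralizer_singleton_iff.mpr ((hUC hu a (Subgroup.mem_inf.mp haZ).1).symm)
  intro Q₁ h₁ Q₂ h₂
  obtain ⟨k₁, hk₁, e₁⟩ := key Q₁ h₁
  obtain ⟨k₂, hk₂, e₂⟩ := key Q₂ h₂
  refine ⟨k₂ * k₁⁻¹, mul_mem hk₂ (inv_mem hk₁), ?_⟩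
  have hcomp : ((MulAut.conj (k₂ * k₁⁻¹)).toMonoidHom).comp (MulAut.conj k₁).toMonoidHom = (MulAut.conj k₂).toMonoidHom := by
    ext y
    show k₂ * k₁⁻¹ * (k₁ * y * k₁⁻¹) * (k₂ * k₁⁻¹)⁻¹ = k₂ * y * k₂⁻¹
    group
  rw [e₂, e₁, Subgroup.map_map, hcomp]

end Cfsg.Agent.S1394
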