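import Cfsg.Statements.S1396
import Cfsg.Agent.Lib.OddQuad
import Cfsg.Agent.S1302

set_option autoImplicit false
open Cfsg

namespace Cfsg.Agent.S1396

universe u

theorem piCore_eq {G : Type u} [Group G] [Finite G] {p k : ℕ} [hp : Fact p.Prime] (hk : k ≠ 0) :
    Cfsg.piCore (Cfsg.primesNotDvd (p ^ k)) G = Cfsg.pPrimeCore p G := by
  haveI := CfsgLib.PConstrained.pPrimeCore_normal (G := G) (p := p)
  refine le_antisymm (sSup_le fun N hN => CfsgLib.Core.le_pPrimeCore hN.1 ?_) (le_sSup ⟨inferInstance, fun r hr hrd => ⟨hr, fun hrp => ?_⟩⟩)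
  · exact (hp.out.coprime_iff_not_dvd.mpr fun hd => (hN.2 p hp.out hd).2 (dvd_pow_self p hk)).symm
  · exact hr.ne_one (Nat.eq_one_of_dvd_coprimes (CfsgLib.Core.card_pPrimeCore_coprime (G := G) p) hrd
      (((Nat.prime_dvd_prime_iff_eq hr hp.out).mp (hr.dvd_of_dvd_pow hrp)) ▸ dvd_rfl))

/-- Let G be a minimal simple group of odd order, p a prime dividing the order of G and A an abelian p-subgroup. Suppose either (1) A consists exactly of the elements x of C_G(A) with x^p = 1, and every proper subgroup of G has p-length at most one, or (2) A is normal and self-centralizing in some Sylow p-subgroup of G and has rank at least 2. Then A satisfies the transitivity hypothesis. -/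
theorem result {G : Type*} [Group G] [Finite G] (hG : Cfsg.IsMinSimpleOddOrder G)
    (p : ℕ) [Fact p.Prime] (hp : p ∣ Nat.card G) (A : Subgroup G) (hAp : IsPGroup p A) (hAc : IsMulCommutative A)
    (h : (∀ x ∈ Subgroup.centralizer (A : Set G), x ^ p = 1 ↔ x ∈ A) ∧ (∀ H : Subgroup G, H ≠ ⊤ → Cfsg.PLengthLE p 1 H) ∨
      ∃ P : Sylow p G, Cfsg.IsSCN (P : Subgroup G) A ∧ ¬ Cfsg.PRankLE p 1 A) :
    Cfsg.TransitivityHypothesis A := by
  classical
  have hpr : p.Prime := Fact.out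
  have hodd : p ≠ 2 := by
    rintro rfl
    exact absurd (hG.1) (Nat.not_odd_iff_even.mpr (even_iff_two_dvd.mpr hp))
  have hA1 : A ≠ ⊥ := by
    rintro rfl
    rcases h with ⟨h1, -⟩ | ⟨P, -, h2⟩
    · obtain ⟨x, hx⟩ := exists_prime_orderOf_dvd_card' p hp
      have := (h1 x (fun y hy => by rw [Subgroup.mem_bot.mp hy, one_mul, mul_one])).mp (hx ▸ pow_orderOf_eq_one x)
      rw [Subgroup.mem_bot.mp this, orderOf_one] at hx
      exact hpr.ne_one hx.symm
    · exact h2 fun B _ _ => le_trans (Subgroup.card_le_card_group B)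
        (le_of_eq_of_le (Subgroup.card_bot) (Nat.one_le_pow _ _ hpr.pos))
  have hA2 : A ≠ ⊤ := fun e => hG.2.2.1 ⟨⟨fun x y => congrArg Subtype.val
    (hAc.is_comm.comm ⟨x, e ▸ Subgroup.mem_top x⟩ ⟨y, e ▸ Subgroup.mem_top y⟩)⟩⟩
  have hΩ : ∀ x ∈ Subgroup.centralizer (A : Set G), orderOf x = p → x ∈ A := by
    intro x hx hxo
    rcases h with ⟨h1, -⟩ | ⟨P, hP, -⟩
    · exact (h1 x hx).mp (hxo ▸ pow_orderOf_eq_one x)
    · obtain ⟨hAP, hPN, hPC⟩ := hP
      set N := Subgroup.normalizer (A : Set G)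
      set C := (Subgroup.centralizer (A : Set G)).subgroupOf N
      haveI : C.Normal := ⟨fun c hc g => Subgroup.mem_subgroupOf.2 fun u hu => by
        show u * ((g : G) * c * (g : G)⁻¹) = (g : G) * c * (g : G)⁻¹ * u
        have := (Subgroup.mem_subgroupOf.1 hc) ((g : G)⁻¹ * u * g) ((Subgroup.mem_normalizer_iff''.1 g.2 u).1 hu)
        calc u * ((g : G) * c * (g : G)⁻¹) = (g : G) * (((g : G)⁻¹ * u * g) * c) * (g : G)⁻¹ := by group
          _ = (g : G) * (c * ((g : G)⁻¹ * u * g)) * (g : G)⁻¹ := by rw [this]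
          _ = (g : G) * c * (g : G)⁻¹ * u := by group⟩
      have hxN : x ∈ N := Subgroup.centralizer_le_normalizer _ hx
      obtain ⟨T, hT⟩ := (CfsgLib.LocalBasic.isPGroup_zpowers_of_pow_eq_one (x := (⟨x, hxN⟩ : ↥N)) (k := 1)
        (Subtype.ext (show x ^ p ^ 1 = 1 by rw [pow_one, ← hxo]; exact pow_orderOf_eq_one x))).exists_le_sylow
      obtain ⟨g, hg⟩ := MulAction.exists_smul_eq ↥N (P.subtype hPN) T
      have hxT := hT (Subgroup.mem_zpowers _)
      rw [← hg, Sylow.coe_subgroup_smul] at hxT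
      obtain ⟨y, hy, hyx⟩ := hxT
      have hyP : (y : G) ∈ (P : Subgroup G) := hy
      have hyx' : (g : G) * y * (g : G)⁻¹ = x := congrArg Subtype.val hyx
      have hyC : (y : G) ∈ Subgroup.centralizer (A : Set G) := by
        have h1 := (inferInstance : C.Normal).conj_mem ⟨x, hxN⟩ (Subgroup.mem_subgroupOf.mpr hx) g⁻¹
        rw [← hyx] at h1
        simpa [MulAut.conj_apply, mul_assoc] using Subgroup.mem_subgroupOf.mp h1
      rw [← hyx']
      exact (Subgroup.mem_normalizer_iff.mp g.2 _).mp (hPC.le (Subgroup.mem_inf.mpr ⟨hyP, hyC⟩))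
  refine ⟨hA1, hA2, fun X hX hAX => ?_⟩
  obtain ⟨k, hk⟩ := hAp.exists_card_eq
  have hk0 : k ≠ 0 := fun e => hA1 (Subgroup.card_eq_one.mp (by rw [hk, e, pow_zero]))
  rw [Cfsg.piCoreOf, hk, piCore_eq hk0]
  haveI := CfsgLib.PConstrained.pPrimeCore_normal (G := ↥X) (p := p)
  haveI : Group.IsSolvable ↥X := hG.2.2.2 X hX
  refine le_antisymm (sSup_le ?_) (le_sSup ⟨Subgroup.map_subtype_le _, ?_, ?_⟩)
  · rintro Y ⟨hYX, hY, hAY⟩
    have hcon : Cfsg.IsPConstrained p ↥X := CfsgLib.PConstrained.isPConstrained_iff.mpr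
      (CfsgLib.OddQuad.centralizer_pCore_le (CfsgLib.Core.pPrimeCore_quotient_eq_bot p))
    have h1 := Cfsg.Agent.S1302.result p hodd hcon (A.subgroupOf X)
      ⟨⟨fun a b => Subtype.ext (Subtype.ext (show ((a : ↥X) : G) * ((b : ↥X) : G) = ((b : ↥X) : G) * ((a : ↥X) : G) from congrArg Subtype.val
        (hAc.is_comm.comm ⟨((a : ↥X) : G), Subgroup.mem_subgroupOf.mp a.2⟩ ⟨((b : ↥X) : G), Subgroup.mem_subgroupOf.mp b.2⟩)))⟩⟩
      hAp.comap_subtype
      (fun z hz hzo => Subgroup.mem_subgroupOf.mpr (hΩ z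
        (fun a ha => congrArg Subtype.val (hz ⟨a, hAX ha⟩ (Subgroup.mem_subgroupOf.mpr ha))) (by rw [Subgroup.orderOf_coe]; exact hzo)))
      (Y.subgroupOf X) (by
        rw [Nat.card_congr (Subgroup.subgroupOfEquivOfLe hYX).toEquiv]
        exact fun hd => (hY p hpr hd).2 (dvd_pow_self p hk0))
      (fun a ha => Subgroup.mem_normalizer_fintype fun y hy => Subgroup.mem_subgroupOf.mpr
        ((Subgroup.mem_normalizer_iff.mp (hAY (Subgroup.mem_subgroupOf.mp ha)) _).mp (Subgroup.mem_subgroupOf.mp hy)))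
    have h2 := Subgroup.map_mono (f := X.subtype) h1
    rwa [Subgroup.map_subgroupOf_eq_of_le hYX] at h2
  · intro r hr hrd
    rw [Subgroup.card_map_of_injective X.subtype_injective] at hrd
    exact ⟨hr, fun hrp => hr.ne_one (Nat.eq_one_of_dvd_coprimes (CfsgLib.Core.card_pPrimeCore_coprime (G := ↥X) p) hrd
      (((Nat.prime_dvd_prime_iff_eq hr hpr).mp (hr.dvd_of_dvd_pow hrp)) ▸ dvd_rfl))⟩
  · intro a ha
    refine Subgroup.mem_normalizer_fintype ?_
    rintro _ ⟨y, hy, rfl⟩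
    exact ⟨⟨a, hAX ha⟩ * y * ⟨a, hAX ha⟩⁻¹, Subgroup.Normal.conj_mem inferInstance y hy _, rfl⟩

end Cfsg.Agent.S1396
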