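import Cfsg.Statements.S1441

set_option autoImplicit false
open Cfsg

namespace Cfsg.Agent.S1441
open scoped commutatorElement

/-- Let G be a finite group, H a solvable subgroup and A a subgroup normalizing H. Suppose there is a chain H = H₀ ≥ H₁ ≥ ⋯ ≥ H_n = 1 of subgroups normal in H and normalized by A such that A acts trivially on each factor H_{i-1}/H_i (that is, [H_{i-1}, A] ≤ H_i). Then every prime dividing the index of C_A(H) in A divides the order of H. -/
theorem result {G : Type*} [Group G] [Finite G] (H A : Subgroup G) (hH : Group.IsSolvable H) (hA : (A ≤ Subgroup.normalizer (H : Set G)))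
    (n : ℕ) (c : Fin (n + 1) → Subgroup G) (hc0 : c 0 = H) (hcn : c (Fin.last n) = ⊥) (hanti : Antitone c)
    (hcN : ∀ i, H ≤ Subgroup.normalizer ((c i : Subgroup G) : Set G)) (hcA : ∀ i, A ≤ Subgroup.normalizer ((c i : Subgroup G) : Set G))
    (htriv : ∀ i : Fin n, ⁅c i.castSucc, A⁆ ≤ c i.succ) :
    ∀ p : ℕ, p.Prime → p ∣ (A ⊓ Subgroup.centralizer (H : Set G)).relIndex A → p ∣ Nat.card H := by
  intro p hp hdvd
  by_contra hpH
  haveI := Fact.mk hp
  obtain ⟨P⟩ : Nonempty (Sylow p ↥A) := inferInstance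
  have hle : (P : Subgroup ↥A) ≤ (A ⊓ Subgroup.centralizer (H : Set G)).subgroupOf A := by
    intro a ha
    refine Subgroup.mem_subgroupOf.mpr ⟨a.2, ?_⟩
    obtain ⟨k, hk⟩ := P.2 ⟨a, ha⟩
    have hak : (a : G) ^ p ^ k = 1 := congrArg (fun w : ↥(P : Subgroup ↥A) => ((w : ↥A) : G)) hk
    have key : ∀ i : Fin (n + 1), ∀ x ∈ c i, (a : G) * x * (a : G)⁻¹ = x := by
      intro i
      induction i using Fin.reverseInduction with
      | last => intro x hx; rw [hcn, Subgroup.mem_bot] at hx; subst hx; simp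
      | cast i ih =>
        intro x hx
        obtain ⟨d, hd, hax⟩ : ∃ d ∈ c i.succ, (a : G) * x * (a : G)⁻¹ = d * x := by
          refine ⟨⁅x, (a : G)⁆⁻¹, inv_mem (htriv i (Subgroup.commutator_mem_commutator hx a.2)), ?_⟩
          rw [commutatorElement_def]; group
        have hpow : ∀ m : ℕ, (a : G) ^ m * x * ((a : G) ^ m)⁻¹ = d ^ m * x := by
          intro m
          induction m with
          | zero => simp
          | succ m ihm =>
            calc (a : G) ^ (m + 1) * x * ((a : G) ^ (m + 1))⁻¹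
                = (a : G) * ((a : G) ^ m * x * ((a : G) ^ m)⁻¹) * (a : G)⁻¹ := by rw [pow_succ']; group
              _ = ((a : G) * d ^ m * (a : G)⁻¹) * ((a : G) * x * (a : G)⁻¹) := by rw [ihm]; group
              _ = _ := by rw [ih _ (pow_mem hd m), hax, pow_succ, mul_assoc]
        have h1 := hpow (p ^ k)
        rw [hak, one_mul, inv_one, mul_one] at h1
        have h2 : d ^ p ^ k = 1 := mul_eq_right.mp h1.symm
        have hdH : d ∈ H := hc0 ▸ hanti (Fin.zero_le _) hd
        have h3 : d = 1 := orderOf_eq_one_iff.mp (Nat.eq_one_of_dvd_coprimes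
          ((hp.coprime_iff_not_dvd.mpr hpH).pow_left k) (orderOf_dvd_of_pow_eq_one h2)
          (Subgroup.orderOf_dvd_natCard H hdH))
        rw [hax, h3, one_mul]
    exact Subgroup.mem_centralizer_iff.mpr fun x hx => (mul_inv_eq_iff_eq_mul.mp (key 0 x (hc0.symm ▸ hx))).symm
  exact P.not_dvd_index (hdvd.trans (Subgroup.index_dvd_of_le hle))

end Cfsg.Agent.S1441
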