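import Cfsg.Statements.S1442

set_option autoImplicit false
open Cfsg

namespace Cfsg.Agent.S1442


/-- Let G be a finite group, H a nilpotent subgroup and A a subgroup normalizing H with the orders of A and H coprime. Put C = H ∩ C_G(A). If H ∩ C_G(C) ≤ C then A centralizes H. -/
theorem result {G : Type*} [Group G] [Finite G] (H A : Subgroup G) (hH : Group.IsNilpotent H) (hA : (A ≤ Subgroup.normalizer (H : Set G))) (hcop : (Nat.card A).Coprime (Nat.card H))
    (hC : H ⊓ Subgroup.centralizer (((H ⊓ Subgroup.centralizer (A : Set G)) : Subgroup G) : Set G) ≤ (H ⊓ Subgroup.centralizer (A : Set G))) :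
    A ≤ Subgroup.centralizer (H : Set G) := by
  set C := H ⊓ Subgroup.centralizer (A : Set G)
  have hC_le : C ≤ H := inf_le_left
  have hnorm : ∀ x ∈ H, x ∈ Subgroup.normalizer (C : Set G) → x ∈ C := by
    intro x hxH hxN
    refine ⟨hxH, Subgroup.mem_centralizer_iff.mpr fun a ha => ?_⟩
    set d := a * x * a⁻¹ * x⁻¹ with hd
    have hdH : d ∈ H := mul_mem ((Subgroup.mem_normalizer_iff.mp (hA ha) x).mp hxH) (inv_mem hxH)
    have hdC : d ∈ C := hC ⟨hdH, Subgroup.mem_centralizer_iff.mpr fun c hc => by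
      have hfix : ∀ w ∈ C, a * w * a⁻¹ = w := fun w hw =>
        mul_inv_eq_iff_eq_mul.mpr (Subgroup.mem_centralizer_iff.mp hw.2 a ha)
      have hxc : x⁻¹ * c * x ∈ C := by
        have := (Subgroup.mem_normalizer_iff.mp (inv_mem hxN) c).mp hc
        rwa [inv_inv] at this
      calc c * d = a * x * a⁻¹ * (a * (x⁻¹ * (a⁻¹ * (a * c * a⁻¹) * a) * x) * a⁻¹) * x⁻¹ := by
            rw [hd, hfix c hc]
            have : a⁻¹ * c * a = c := by
              calc a⁻¹ * c * a = a⁻¹ * (a * c * a⁻¹) * a := by rw [hfix c hc]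
                _ = c := by group
            calc c * (a * x * a⁻¹ * x⁻¹) = a * (a⁻¹ * c * a) * x * a⁻¹ * x⁻¹ := by group
              _ = _ := by rw [this]; group
        _ = a * x * a⁻¹ * (a * (x⁻¹ * c * x) * a⁻¹) * x⁻¹ := by group
        _ = d * c := by rw [hfix _ hxc, hd]; group⟩
    have hpow : ∀ m : ℕ, a ^ m * x * (a ^ m)⁻¹ = d ^ m * x := by
      intro m
      induction m with
      | zero => simp
      | succ m ihm =>
        calc a ^ (m + 1) * x * (a ^ (m + 1))⁻¹ = a * (a ^ m * x * (a ^ m)⁻¹) * a⁻¹ := by rw [pow_succ']; group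
          _ = (a * d ^ m * a⁻¹) * (a * x * a⁻¹) := by rw [ihm]; group
          _ = _ := by
            rw [mul_inv_eq_iff_eq_mul.mpr (Subgroup.mem_centralizer_iff.mp (pow_mem hdC m).2 a ha), hd, pow_succ]
            group
    have h1 := hpow (Nat.card ↥A)
    rw [show a ^ Nat.card ↥A = 1 from congrArg Subtype.val (pow_card_eq_one' (x := (⟨a, ha⟩ : A))), one_mul,
      inv_one, mul_one] at h1
    have h2 : d = 1 := orderOf_eq_one_iff.mp (Nat.eq_one_of_dvd_coprimes hcop
      (orderOf_dvd_of_pow_eq_one (mul_eq_right.mp h1.symm)) (Subgroup.orderOf_dvd_natCard H hdH))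
    rw [hd, mul_inv_eq_one, mul_inv_eq_iff_eq_mul] at h2
    exact h2
  haveI := hH
  have htop : C.subgroupOf H = ⊤ := by
    by_contra hne
    refine (Group.normalizerCondition_of_isNilpotent (C.subgroupOf H) (lt_top_iff_ne_top.mpr hne)).not_ge
      (fun x hx => Subgroup.mem_subgroupOf.mpr (hnorm x x.2 (by
      refine Subgroup.mem_normalizer_iff.mpr fun y => ?_
      have key : ∀ z : ↥H, z ∈ C.subgroupOf H ↔ x * z * x⁻¹ ∈ C.subgroupOf H := Subgroup.mem_normalizer_iff.mp hx
      constructor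
      · intro hy
        exact (key ⟨y, hC_le hy⟩).mp hy
      · intro hy
        have hyH : y ∈ H := by
          have := mul_mem (mul_mem (inv_mem x.2) (hC_le hy)) x.2
          simpa [mul_assoc] using this
        exact (key ⟨y, hyH⟩).mpr hy)))
  intro a ha
  exact Subgroup.mem_centralizer_iff.mpr fun x hx =>
    (Subgroup.mem_centralizer_iff.mp (htop.ge (Subgroup.mem_top (⟨x, hx⟩ : ↥H)) : x ∈ C).2 a ha).symm

end Cfsg.Agent.S1442
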