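import Cfsg.Statements.S1443
import Cfsg.Agent.S1442
import Cfsg.Agent.Lib.RigidAut

set_option autoImplicit false
open Cfsg

namespace Cfsg.Agent.S1443


/-- Let G be a finite group, p an odd prime, H a p-subgroup, E an elementary abelian subgroup of H, and A a subgroup of order coprime to p normalizing H. If A centralizes every element of order p in H ∩ C_G(E), then A centralizes H. -/
theorem result {G : Type*} [Group G] [Finite G] (p : ℕ) [Fact p.Prime] (hp : p ≠ 2) (H E A : Subgroup G) (hH : IsPGroup p H) (hE : E ≤ H) (hEe : Cfsg.IsElementaryAbelian p E)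
    (hA : (A ≤ Subgroup.normalizer (H : Set G))) (hcop : (Nat.card A).Coprime p)
    (hfix : ∀ x ∈ (H ⊓ Subgroup.centralizer (E : Set G)), orderOf x = p → A ≤ Subgroup.centralizer ({x} : Set G)) :
    A ≤ Subgroup.centralizer (H : Set G) := by
  classical
  set K := H ⊓ Subgroup.centralizer (E : Set G) with hK
  haveI hEc : IsMulCommutative ↥E := hEe.1
  have hEK : E ≤ K := le_inf hE (Subgroup.le_centralizer_iff_isMulCommutative.mpr hEc)
  have hAE : ∀ a ∈ A, ∀ e ∈ E, a * e = e * a := by
    intro a ha e he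
    rcases eq_or_ne e 1 with rfl | he1
    · simp
    exact Subgroup.mem_centralizer_singleton_iff.mp (hfix e (hEK he) (orderOf_eq_prime (hEe.2 e he) he1) ha)
  have hKinv : ∀ a ∈ A, ∀ x ∈ K, a * x * a⁻¹ ∈ K := fun a ha x hx =>
    ⟨(Subgroup.mem_normalizer_iff.mp (hA ha) x).mp hx.1, Subgroup.mem_centralizer_iff.mpr fun e he => by
      have h2 : e * x = x * e := Subgroup.mem_centralizer_iff.mp hx.2 e he
      have hc1 : Commute e a := (hAE a ha e he).symm
      exact ((hc1.mul_right h2).mul_right hc1.inv_right).eq⟩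
  have hAK : ∀ a ∈ A, ∀ x ∈ K, a * x = x * a := by
    intro a ha x hx
    have haN : a ∈ Subgroup.normalizer (K : Set G) := Subgroup.mem_normalizer_fintype fun y hy => hKinv a ha y hy
    set α : MulAut ↥K := K.normalizerMonoidHom ⟨a, haN⟩
    have hco : (orderOf α).Coprime p := Nat.Coprime.coprime_dvd_left
      ((orderOf_map_dvd _ _).trans (by rw [Subgroup.orderOf_mk]; exact Subgroup.orderOf_dvd_natCard A ha)) hcop
    have h1 := CfsgLib.RigidAut.eq_one_of_fix_small (Nat.card ↥K) rfl (hH.to_le inf_le_left) α hco fun y hy => by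
      rcases hy with hy | ⟨h2, -⟩
      · refine Subtype.ext ?_
        show a * y * a⁻¹ = y
        rcases eq_or_ne (y : G) 1 with h0 | h0
        · rw [h0]; simp
        rw [mul_inv_eq_iff_eq_mul]
        exact Subgroup.mem_centralizer_singleton_iff.mp
          (hfix y y.2 (orderOf_eq_prime (congrArg Subtype.val hy) h0) ha)
      · exact absurd h2 hp
    have h2 : a * x * a⁻¹ = x := congrArg Subtype.val (DFunLike.congr_fun h1 (⟨x, hx⟩ : ↥K))
    exact mul_inv_eq_iff_eq_mul.mp h2
  refine Cfsg.Agent.S1442.result H A hH.isNilpotent hA ?_ ?_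
  · obtain ⟨k, hk⟩ := hH.exists_card_eq
    rw [hk]; exact hcop.pow_right k
  · intro x hx
    have hxK : x ∈ K := ⟨hx.1, Subgroup.mem_centralizer_iff.mpr fun e he =>
      Subgroup.mem_centralizer_iff.mp hx.2 e ⟨hE he, Subgroup.mem_centralizer_iff.mpr fun a ha => hAE a ha e he⟩⟩
    exact ⟨hx.1, Subgroup.mem_centralizer_iff.mpr fun a ha => hAK a ha x hxK⟩

end Cfsg.Agent.S1443
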