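import Cfsg.Agent.S1450
import Cfsg.Agent.S0044
import Cfsg.Agent.Lib.GroupB.FrobBasic
import Cfsg.Agent.Lib.GroupB.Hall
-- Template for statement S1451 (row 1451; see /opt/grader/pristine/manifest.json for weights).
-- Copy to Cfsg/Agent/S1451.lean and replace the sorry. The statement below is byte-identical to the frozen
-- statement Cfsg.CfsgFrozen.S1451 (Cfsg/Statements/S1451.lean; the theorem Cfsg.odd_solvable_rank_two_derived_nilpotent_sylow_tower);
-- the grader kernel-checks Cfsg.Agent.S1451.result against that frozen type. Keep the theorem IN THIS FILE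
-- (a `result` declared elsewhere and merely imported here is not credited); helpers may live anywhere
-- under Cfsg/Agent/.
-- import your own Cfsg.Agent.* helpers here

set_option autoImplicit false
open Cfsg

namespace Cfsg.Agent.S1451

theorem prankle_of_injective {p k : ℕ} {H K : Type*} [Group H] [Group K] (f : H →* K) (hf : Function.Injective f)
    (h : Cfsg.PRankLE p k K) : Cfsg.PRankLE p k H := by
  intro A hA hAe
  rw [← Subgroup.card_map_of_injective hf]
  refine h _ ⟨⟨?_⟩⟩ ?_
  · rintro ⟨_, a, ha, rfl⟩ ⟨_, b, hb, rfl⟩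
    refine Subtype.ext ?_
    show f a * f b = f b * f a
    rw [← map_mul, ← map_mul, show a * b = b * a from congrArg Subtype.val (hA.is_comm.comm (⟨a, ha⟩ : A) ⟨b, hb⟩)]
  · rintro _ ⟨a, ha, rfl⟩
    rw [← map_pow, hAe a ha, map_one]

/-- The product of the cores at the primes satisfying `P`. -/
def cores (G : Type*) [Group G] (P : ℕ → Prop) : Subgroup G :=
  ⨆ r : {r : ℕ // r.Prime ∧ P r}, Cfsg.pCore (r : ℕ) G

theorem cores_normal {G : Type*} [Group G] (P : ℕ → Prop) : (cores G P).Normal := Subgroup.iSup_normal _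

theorem cores_prime {G : Type*} [Group G] [Finite G] (P : ℕ → Prop) :
    ∀ q : ℕ, q.Prime → q ∣ Nat.card (cores G P) → P q := by
  intro q hq
  rw [cores, ← sSup_range]
  refine CfsgLib.Core.sSup_normal_induction (P := fun N : Subgroup G => q ∣ Nat.card N → P q)
    (fun h => absurd (Nat.dvd_one.mp (by rwa [Subgroup.card_bot] at h)) hq.ne_one) (fun A B _ hB hA hB' h => ?_) _ ?_ ?_
  · haveI := hB
    rcases hq.dvd_mul.mp (h.trans (CfsgLib.Core.card_sup_dvd_of_normal A B)) with h | h
    exacts [hA h, hB' h]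
  · rintro _ ⟨r, rfl⟩; infer_instance
  · rintro _ ⟨⟨r, hr, hPr⟩, rfl⟩ h
    haveI := Fact.mk hr
    obtain ⟨n, hn⟩ := IsPGroup.iff_card.mp (CfsgLib.Core.isPGroup_pCore (G := G) r)
    rw [show Nat.card ↥(Cfsg.pCore r G) = r ^ n from hn] at h
    exact ((Nat.prime_dvd_prime_iff_eq hq hr).mp (hq.dvd_of_dvd_pow h)) ▸ hPr

theorem fitting_split {G : Type*} [Group G] [Finite G] (P : ℕ → Prop) {a : G} (ha : a ∈ Cfsg.fittingSubgroup G) :
    ∃ y ∈ cores G P, ∃ z ∈ cores G (fun r => ¬ P r), a = y * z := by
  classical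
  haveI := cores_normal (G := G) P
  have hle : Cfsg.fittingSubgroup G ≤ cores G P ⊔ cores G (fun r => ¬ P r) := by
    rw [CfsgLib.Core.fittingSubgroup_eq_iSup_pCore]
    refine iSup_le fun r => ?_
    by_cases h : P r
    · exact le_sup_of_le_left (le_iSup (fun r : {r : ℕ // r.Prime ∧ P r} => Cfsg.pCore (r : ℕ) G) ⟨r, r.2, h⟩)
    · exact le_sup_of_le_right (le_iSup (fun r : {r : ℕ // r.Prime ∧ ¬ P r} => Cfsg.pCore (r : ℕ) G) ⟨r, r.2, h⟩)
  obtain ⟨y, hy, z, hz, h⟩ := Subgroup.mem_sup_of_normal_left.mp (hle ha)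
  exact ⟨y, hy, z, hz, h.symm⟩

theorem cores_commute {G : Type*} [Group G] (P : ℕ → Prop) (x : G)
    (h : ∀ r, r.Prime → P r → ∀ z ∈ Cfsg.pCore r G, x * z = z * x) : ∀ z ∈ cores G P, x * z = z * x := by
  intro z hz
  have hle : cores G P ≤ Subgroup.centralizer ({x} : Set G) :=
    iSup_le fun r z hz => Subgroup.mem_centralizer_singleton_iff.mpr (h r r.2.1 r.2.2 z hz).symm
  exact (Subgroup.mem_centralizer_singleton_iff.mp (hle hz)).symm


/-- Let G be a solvable group of odd order such that G, or its Fitting subgroup, has no elementary abelian subgroup of order q ^ 3 for any prime q. Then G' is nilpotent; for every Sylow subgroup S of G, every characteristic subgroup T of S with T ≤ [S, S] is normal in G; and for every prime p, G has a characteristic subgroup that is a Hall subgroup for the set of primes greater than p. -/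
theorem result {G : Type*} [Group G] [Finite G] [Group.IsSolvable G] (hodd : Odd (Nat.card G)) (hr : Cfsg.RankLE 2 G ∨ Cfsg.RankLE 2 (Cfsg.fittingSubgroup G)) :
    Group.IsNilpotent ↥(commutator G) ∧
      (∀ (q : ℕ) [Fact q.Prime] (S : Sylow q G) (T : Subgroup ↥(S : Subgroup G)), T.Characteristic → T.map (S : Subgroup G).subtype ≤ ⁅(S : Subgroup G), (S : Subgroup G)⁆ →
        (T.map (S : Subgroup G).subtype).Normal) ∧
      ∀ p : ℕ, ∃ N : Subgroup G, N.Characteristic ∧ Cfsg.IsPiHall {q | q.Prime ∧ p < q} N := by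
  classical
  have hodd2 : ∀ g : G, ∀ q : ℕ, q.Prime → q ∣ orderOf g → q ≠ 2 := fun g q hq hd e =>
    Nat.not_even_iff_odd.mpr hodd (even_iff_two_dvd.mpr (e ▸ hd.trans (orderOf_dvd_natCard g)))
  have hCF : Subgroup.centralizer (Cfsg.fittingSubgroup G : Set G) ≤ Cfsg.fittingSubgroup G :=
    Cfsg.Agent.S0044.result
  have hrq : ∀ q : ℕ, q.Prime → Cfsg.PRankLE q 2 (Cfsg.pCore q G) := by
    intro q hq
    rcases hr with h | h
    · exact prankle_of_injective (Cfsg.pCore q G).subtype (Subgroup.subtype_injective _) (h q hq)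
    · exact prankle_of_injective (Subgroup.inclusion (CfsgLib.Core.pCore_le_fittingSubgroup hq))
        (Subgroup.inclusion_injective _) (h q hq)
  let φ : ∀ q : ℕ, G →* MulAut ↥(Cfsg.pCore q G) := fun q => MulAut.conjNormal
  have hφ : ∀ q x, φ q x = 1 → ∀ z ∈ Cfsg.pCore q G, x * z = z * x := fun q x hx z hz => by
    have h0 : (φ q x ⟨z, hz⟩ : G) = z := by rw [hx]; rfl
    rw [MulAut.conjNormal_apply] at h0
    exact mul_inv_eq_iff_eq_mul.mp h0
  have htriv : ∀ q : ℕ, q.Prime → q = 2 → Cfsg.pCore q G = ⊥ := by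
    intro q hq e
    haveI := Fact.mk hq
    obtain ⟨n, hn⟩ := IsPGroup.iff_card.mp (CfsgLib.Core.isPGroup_pCore (G := G) q)
    refine Subgroup.eq_bot_of_card_eq _ ?_
    rw [hn]
    rcases Nat.eq_zero_or_pos n with rfl | h
    · exact pow_zero q
    exact absurd (even_iff_two_dvd.mpr (e ▸ ((dvd_pow_self q h.ne').trans (hn ▸ Subgroup.card_subgroup_dvd_card _)))) (Nat.not_even_iff_odd.mpr hodd)
  have hφtriv : ∀ q : ℕ, q.Prime → q = 2 → ∀ x, φ q x = 1 := fun q hq e x => MulEquiv.ext fun z => Subtype.ext (by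
    have h0 : (z : G) = 1 := Subgroup.mem_bot.mp ((htriv q hq e).le z.2)
    show (φ q x z : G) = z
    rw [MulAut.conjNormal_apply, h0, mul_one, mul_inv_cancel])
  -- derived elements act on `O_q` as `q`-elements
  have hact : ∀ q : ℕ, q.Prime → ∀ c ∈ commutator G, ∃ n : ℕ, φ q (c ^ (q ^ n)) = 1 := by
    intro q hq c hc
    rcases eq_or_ne q 2 with e | e
    · exact ⟨0, hφtriv q hq e _⟩
    haveI := Fact.mk hq
    exact Cfsg.Agent.S1450.comm_pElement hodd e (CfsgLib.Core.isPGroup_pCore q) (hrq q hq) (φ q) c hc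
  have hact2 : ∀ q r : ℕ, q.Prime → r.Prime → q ≠ r → ∀ c ∈ commutator G, (∃ k, c ^ (r ^ k) = 1) → φ q c = 1 := by
    intro q r hq hr' hne c hc ⟨k, hk⟩
    obtain ⟨n, hn⟩ := hact q hq c hc
    have h1 : orderOf (φ q c) ∣ q ^ n := orderOf_dvd_of_pow_eq_one (by rw [← map_pow]; exact hn)
    have h2 : orderOf (φ q c) ∣ r ^ k := orderOf_dvd_of_pow_eq_one (by rw [← map_pow, hk, map_one])
    exact orderOf_eq_one_iff.mp (Nat.eq_one_of_dvd_coprimes (((Nat.coprime_primes hq hr').mpr hne).pow n k) h1 h2)
  -- (1)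
  have hnil : Group.IsNilpotent ↥(commutator G) := by
    refine CfsgLib.Core.isNilpotent_of_pCore_sylow fun r hr' R => ?_
    haveI := Fact.mk hr'
    let E : Subgroup ↥(commutator G) := ⨅ q : {q : ℕ // q.Prime ∧ q ≠ r}, ((φ q).comp (commutator G).subtype).ker
    have hEmem : ∀ x : ↥(commutator G), x ∈ E ↔ ∀ q : ℕ, q.Prime → q ≠ r → φ q (x : G) = 1 := fun x => by
      simp [E, Subgroup.mem_iInf, MonoidHom.mem_ker]
    have hEn : E.Normal := Subgroup.normal_iInf_normal fun _ => MonoidHom.normal_ker _
    have hRE : (R : Subgroup ↥(commutator G)) ≤ E := fun x hx => (hEmem x).mpr fun q hq hne => by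
      obtain ⟨k, hk⟩ := R.2 ⟨x, hx⟩
      exact hact2 q r hq hr' hne x x.2 ⟨k, by simpa using congrArg (fun u : (R : Subgroup ↥(commutator G)) => ((u : ↥(commutator G)) : G)) hk⟩
    have hOr : (Cfsg.pCore r G).subgroupOf (commutator G) ≤ (R : Subgroup ↥(commutator G)) :=
      CfsgLib.Core.sylow_inf_le R (CfsgLib.Core.isPGroup_pCore r).comap_subtype
    -- elements of `E` with a power centralizing `F`
    let A0 : Subgroup ↥(commutator G) := (Subgroup.centralizer (Cfsg.fittingSubgroup G : Set G)).subgroupOf (commutator G)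
    haveI : (Subgroup.centralizer (Cfsg.fittingSubgroup G : Set G)).Normal := by
      haveI := CfsgLib.Core.fittingSubgroup_normal (G := G)
      infer_instance
    have hA0 : ∀ a ∈ A0, a ∈ Subgroup.normalizer ((R : Subgroup ↥(commutator G)) : Set ↥(commutator G)) := by
      intro a ha
      have key : ∀ b ∈ A0, ∀ x ∈ (R : Subgroup ↥(commutator G)), b * x * b⁻¹ ∈ (R : Subgroup ↥(commutator G)) := by
        intro b hb x hx
        obtain ⟨y, hy, z, hz, hbyz⟩ := fitting_split (G := G) (fun q => q = r) (hCF hb)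
        have hy' : y ∈ Cfsg.pCore r G := (iSup_le fun q => le_of_eq (by rw [show ((q : ℕ)) = r from q.2.2]) :
          cores G (fun q => q = r) ≤ Cfsg.pCore r G) hy
        have hxz : (x : G) * z = z * x := cores_commute _ _ (fun q hq hne => hφ q _ ((hEmem x).mp (hRE hx) q hq hne)) z hz
        have h1 : ((b * x * b⁻¹ * x⁻¹ : ↥(commutator G)) : G) ∈ Cfsg.pCore r G := by
          have h2 : ((b * x * b⁻¹ * x⁻¹ : ↥(commutator G)) : G) = y * ((x : G) * y⁻¹ * (x : G)⁻¹) := by
            simp only [Subgroup.coe_mul, Subgroup.coe_inv]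
            rw [show (b : G) = y * z from hbyz]
            calc y * z * (x : G) * (y * z)⁻¹ * (x : G)⁻¹ = y * (z * x) * z⁻¹ * y⁻¹ * (x : G)⁻¹ := by group
              _ = y * (x * z) * z⁻¹ * y⁻¹ * (x : G)⁻¹ := by rw [hxz]
              _ = y * ((x : G) * y⁻¹ * (x : G)⁻¹) := by group
          rw [h2]
          exact mul_mem hy' ((inferInstance : (Cfsg.pCore r G).Normal).conj_mem _ (inv_mem hy') _)
        have := mul_mem (hOr (Subgroup.mem_subgroupOf.mpr h1)) hx
        rwa [inv_mul_cancel_right] at this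
      refine Subgroup.mem_normalizer_iff.mpr fun x => ⟨key a ha x, fun hx => ?_⟩
      have := key a⁻¹ (inv_mem ha) _ hx
      simpa [mul_assoc] using this
    have hE_le : E ≤ Subgroup.normalizer ((R : Subgroup ↥(commutator G)) : Set ↥(commutator G)) := by
      haveI : A0.Normal := inferInstance
      let ρ := QuotientGroup.mk' A0
      have hp' : IsPGroup r ↥(E.map ρ) := by
        rintro ⟨_, x, hx, rfl⟩
        obtain ⟨n, hn⟩ := hact r hr' x x.2
        refine ⟨n, Subtype.ext ?_⟩
        rw [SubgroupClass.coe_pow, ← map_pow]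
        refine (QuotientGroup.eq_one_iff _).mpr ?_
        show ((x ^ r ^ n : ↥(commutator G)) : G) ∈ Subgroup.centralizer _
        rw [SubgroupClass.coe_pow]
        refine Subgroup.mem_centralizer_iff.mpr fun f hf => ?_
        obtain ⟨y, hy, z, hz, rfl⟩ := fitting_split (G := G) (fun q => q = r) hf
        have e1 : (x : G) ^ r ^ n * y = y * (x : G) ^ r ^ n :=
          cores_commute _ _ (fun q _ hq => hφ q _ (hq ▸ hn)) y hy
        have e2 : (x : G) ^ r ^ n * z = z * (x : G) ^ r ^ n :=
          cores_commute _ _ (fun q hq hne => hφ q _ (by rw [map_pow, (hEmem x).mp hx q hq hne, one_pow])) z hz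
        rw [mul_assoc, ← e2, ← mul_assoc, ← e1, mul_assoc]
      let S := (R.subtype hRE).mapSurjective (ρ.subgroupMap_surjective E)
      have hS : (S : Subgroup ↥(E.map ρ)) = ⊤ := (S.3 (hp'.to_subgroup ⊤) le_top).symm
      intro x hx
      have h2 : (⟨ρ x, x, hx, rfl⟩ : ↥(E.map ρ)) ∈ (S : Subgroup ↥(E.map ρ)) := hS ▸ Subgroup.mem_top _
      rw [Sylow.coe_mapSurjective] at h2
      obtain ⟨u, hu, hux⟩ := h2
      have hu' : (u : ↥(commutator G)) ∈ (R : Subgroup ↥(commutator G)) := hu
      have h3 : (u : ↥(commutator G))⁻¹ * x ∈ A0 := QuotientGroup.eq.mp (congrArg Subtype.val hux : ρ (u : ↥(commutator G)) = ρ x)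
      have := mul_mem (Subgroup.le_normalizer hu') (hA0 _ h3)
      rwa [mul_inv_cancel_left] at this
    refine ⟨fun x hx d => ?_⟩
    set R' := ((d • R : Sylow r ↥(commutator G)) : Subgroup ↥(commutator G)) with hR'
    have hmem : d * x * d⁻¹ ∈ R' := by
      rw [hR', Sylow.coe_subgroup_smul]; exact ⟨x, hx, rfl⟩
    have hR'E : R' ≤ E := by
      rw [hR', Sylow.coe_subgroup_smul]
      rintro _ ⟨u, hu, rfl⟩
      exact hEn.conj_mem u (hRE hu) d
    have hsup : IsPGroup r ↥(R' ⊔ (R : Subgroup ↥(commutator G))) :=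
      IsPGroup.to_sup_of_normal_right' (d • R).2 R.2 (hR'E.trans hE_le)
    exact (R.3 hsup le_sup_right) ▸ Subgroup.mem_sup_left hmem
  refine ⟨hnil, ?_, fun p => ?_⟩
  · -- (2)
    intro q _ S T hT hTS
    set Rq := (S : Subgroup G).subgroupOf (commutator G) with hRq
    have hTder : T.map (S : Subgroup G).subtype ≤ commutator G :=
      hTS.trans (by rw [commutator_def]; exact Subgroup.commutator_mono le_top le_top)
    obtain ⟨P, hP⟩ := (S.2.comap_subtype (K := commutator G)).exists_le_sylow
    have hPn : (P : Subgroup ↥(commutator G)).Normal := by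
      have e : Group.IsNilpotent ↥(commutator G) ↔ ∀ (r : ℕ) (_hr : Fact r.Prime) (P : Sylow r ↥(commutator G)), (P : Subgroup ↥(commutator G)).Normal :=
        (Group.isNilpotent_of_finite_tfae (G := ↥(commutator G))).out 0 3
      exact e.mp hnil q inferInstance P
    have hPeq : Rq = P := by
      refine le_antisymm hP fun x hx => ?_
      have hn' : ((P : Subgroup ↥(commutator G)).map (commutator G).subtype).Normal := by
        haveI := P.characteristic_of_normal hPn
        exact ConjAct.normal_of_characteristic_of_normal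
      exact CfsgLib.Core.sylow_inf_le S (N := (P : Subgroup ↥(commutator G)).map (commutator G).subtype) (hN := hn') (P.2.map _) ⟨x, hx, rfl⟩
    -- the derived subgroup normalizes `T`
    set T' := T.map (S : Subgroup G).subtype with hT'
    have hST : (Subgroup.normalizer ((S : Subgroup G) : Set G)) ≤ Subgroup.normalizer (T' : Set G) :=
      CfsgLib.GroupB.Hall.normalizer_le_normalizer_map T
    have hRn : (Rq.map (commutator G).subtype).Normal := by
      rw [hPeq]
      haveI := P.characteristic_of_normal hPn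
      exact ConjAct.normal_of_characteristic_of_normal
    have hdn : ∀ d ∈ commutator G, d ∈ Subgroup.normalizer (T' : Set G) := by
      intro d hd
      obtain ⟨m, hm⟩ := IsPGroup.iff_card.mp P.2
      -- split `d` using the normal Sylow subgroup
      have hcent : ∀ u : ↥(commutator G), (orderOf u).Coprime q → ∀ v ∈ (P : Subgroup ↥(commutator G)), u * v = v * u := by
        intro u hu v hv
        haveI := hnil
        obtain ⟨k, hk⟩ := P.2 ⟨v, hv⟩
        have hv' : v ^ q ^ k = 1 := by simpa using congrArg Subtype.val hk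
        refine (CfsgLib.GroupB.FrobBasic.commute_of_coprime (a := u) (b := v) ?_).eq
        exact (Nat.Coprime.pow_right k hu).coprime_dvd_right (orderOf_dvd_of_pow_eq_one hv')
      obtain ⟨e, l, hl, hel⟩ := Nat.exists_eq_pow_mul_and_not_dvd (orderOf_pos (⟨d, hd⟩ : ↥(commutator G))).ne' q (Fact.out : q.Prime).ne_one
      set u := (⟨d, hd⟩ : ↥(commutator G)) with hu
      have hcop : Nat.Coprime (q ^ e) l := ((Fact.out : q.Prime).coprime_iff_not_dvd.mpr hl).pow_left e
      obtain ⟨a, b, hab⟩ := Nat.Coprime.isCoprime hcop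
      have h1 : u = (u ^ (q ^ e : ℕ)) ^ a * (u ^ l) ^ b := by
        rw [← zpow_natCast, ← zpow_natCast u l, ← zpow_mul, ← zpow_mul, ← zpow_add, mul_comm _ a, mul_comm _ b, hab, zpow_one]
      have hA : ((u ^ (q ^ e : ℕ)) ^ a : ↥(commutator G)).1 ∈ Subgroup.normalizer (T' : Set G) := by
        refine Subgroup.centralizer_le_normalizer _ (Subgroup.mem_centralizer_iff.mpr fun s hs => ?_)
        have hsR : (⟨s, hTder hs⟩ : ↥(commutator G)) ∈ (P : Subgroup ↥(commutator G)) := by
          rw [← hPeq]; exact Subgroup.mem_subgroupOf.mpr (Subgroup.map_subtype_le T hs)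
        have hco : (orderOf ((u ^ (q ^ e : ℕ)) ^ a)).Coprime q := by
          refine (((Fact.out : q.Prime).coprime_iff_not_dvd.mpr hl).symm).coprime_dvd_left (orderOf_dvd_of_pow_eq_one ?_)
          rw [← zpow_natCast, ← zpow_mul, mul_comm, zpow_mul, zpow_natCast, ← pow_mul, ← hel, pow_orderOf_eq_one, one_zpow]
        exact (congrArg Subtype.val (hcent _ hco _ hsR)).symm
      have hB : ((u ^ l) ^ b : ↥(commutator G)).1 ∈ Subgroup.normalizer (T' : Set G) := by
        refine hST (Subgroup.le_normalizer ?_)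
        have hmem : (u ^ l) ^ b ∈ (P : Subgroup ↥(commutator G)) := by
          refine zpow_mem ?_ b
          have hp2 : IsPGroup q ↥(Subgroup.zpowers (u ^ l)) := by
            refine IsPGroup.of_card_dvd_pow (n := e) ?_
            rw [Nat.card_zpowers]
            exact orderOf_dvd_of_pow_eq_one (by rw [← pow_mul, mul_comm, ← hel, pow_orderOf_eq_one])
          obtain ⟨P', hP'⟩ := hp2.exists_le_sylow
          haveI := hPn
          letI := Sylow.unique_of_normal P hPn
          exact (Subsingleton.elim P' P) ▸ hP' (Subgroup.mem_zpowers _)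
        rw [← hPeq] at hmem
        exact hmem
      have h3 := congrArg Subtype.val h1
      rw [hu] at h3 hA hB
      simp only [Subgroup.coe_mul] at h3
      exact h3 ▸ mul_mem hA hB
    -- Frattini
    set SD := (S : Subgroup G) ⊔ commutator G with hSD
    haveI hSDn : SD.Normal := ⟨fun x hx g => by
      have h1 : g * x * g⁻¹ * x⁻¹ ∈ SD :=
        Subgroup.mem_sup_right (Subgroup.commutator_mem_commutator (Subgroup.mem_top g) (Subgroup.mem_top x))
      have := mul_mem h1 hx
      rwa [inv_mul_cancel_right] at this⟩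
    refine Subgroup.normalizer_eq_top_iff.mp (eq_top_iff.mpr ?_)
    rw [← Sylow.normalizer_sup_eq_top' S (le_sup_left : (S : Subgroup G) ≤ SD)]
    exact sup_le hST (sup_le (Subgroup.le_normalizer.trans hST) hdn)
  · -- (3)
    set πs := {x : G | ∀ q : ℕ, q.Prime → q ∣ orderOf x → p < q} with hπs
    set M := Subgroup.closure πs with hM
    have hMc : M.Characteristic := by
      rw [Subgroup.characteristic_iff_map_le]
      intro ψ
      rw [hM, MonoidHom.map_closure]
      refine Subgroup.closure_mono ?_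
      rintro _ ⟨x, hx, rfl⟩ q hq hd
      exact hx q hq ((MulEquiv.orderOf_eq ψ x) ▸ hd)
    haveI := hMc
    refine ⟨M, hMc, fun q hq hd => ⟨hq, ?_⟩, fun q hq hpq hd => ?_⟩
    · set W := cores G (fun r => r ≤ p) with hW
      haveI := cores_normal (G := G) (fun r => r ≤ p)
      -- `M` centralizes `W`
      have hMW : ∀ x ∈ M, ∀ z ∈ W, x * z = z * x := by
        intro x hx z hz
        have hle : M ≤ Subgroup.centralizer ({z} : Set G) := by
          rw [hM, Subgroup.closure_le]
          intro y hy
          refine Subgroup.mem_centralizer_singleton_iff.mpr ?_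
          refine cores_commute _ y (fun r hr' hrp => hφ r y ?_) z hz
          by_contra hne
          obtain ⟨s, hs, hsd⟩ := Nat.exists_prime_and_dvd (n := orderOf (φ r y)) (fun e => hne (orderOf_eq_one_iff.mp e))
          have hps : p < s := hy s hs (hsd.trans (orderOf_map_dvd _ _))
          haveI := Fact.mk hr'
          have hr2 : r ≠ 2 := fun e => hne (hφtriv r hr' e y)
          have := (Cfsg.Agent.S0640.result hr2 (CfsgLib.Core.isPGroup_pCore r) (hrq r hr') s hs (by omega) (hsd.trans (orderOf_dvd_natCard _))).2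
          omega
        exact Subgroup.mem_centralizer_singleton_iff.mp (hle hx)
      -- a power of each element of `M` prime to `p!` lies in `W`
      have hpow : ∀ x ∈ M, ∃ n : ℕ, 0 < n ∧ (∀ r : ℕ, r.Prime → r ∣ n → p < r) ∧ x ^ n ∈ W := by
        have hab : ∀ a b : G, (a : G ⧸ commutator G) * b = (b : G ⧸ commutator G) * a := fun a b => by
          rw [← QuotientGroup.mk_mul, ← QuotientGroup.mk_mul]
          refine QuotientGroup.eq.mpr ?_
          have h0 := Subgroup.commutator_mem_commutator (Subgroup.mem_top b⁻¹) (Subgroup.mem_top a⁻¹)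
          rw [commutator_def]
          simpa [commutatorElement_def, mul_assoc] using h0
        intro x hx
        obtain ⟨n, hn0, hn, hxn⟩ : ∃ n : ℕ, 0 < n ∧ (∀ r : ℕ, r.Prime → r ∣ n → p < r) ∧ x ^ n ∈ commutator G := by
          induction hx using Subgroup.closure_induction with
          | mem y hy => exact ⟨orderOf y, orderOf_pos y, hy, by rw [pow_orderOf_eq_one]; exact one_mem _⟩
          | one => exact ⟨1, one_pos, fun r hr' h => absurd (Nat.dvd_one.mp h) hr'.ne_one, by rw [one_pow]; exact one_mem _⟩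
          | mul a b _ _ ha hb =>
            obtain ⟨n, hn0, hn, han⟩ := ha
            obtain ⟨m, hm0, hm, hbm⟩ := hb
            refine ⟨n * m, Nat.mul_pos hn0 hm0, fun r hr' h => (hr'.dvd_mul.mp h).elim (hn r hr') (hm r hr'), ?_⟩
            rw [← QuotientGroup.eq_one_iff, QuotientGroup.mk_pow, QuotientGroup.mk_mul, (show Commute (a : G ⧸ commutator G) b from hab a b).mul_pow,
              pow_mul, ← QuotientGroup.mk_pow, (QuotientGroup.eq_one_iff _).mpr han, one_pow, one_mul, mul_comm n m, pow_mul,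
              ← QuotientGroup.mk_pow, (QuotientGroup.eq_one_iff _).mpr hbm, one_pow]
          | inv a _ ha =>
            obtain ⟨n, hn0, hn, han⟩ := ha
            exact ⟨n, hn0, hn, by rw [inv_pow]; exact inv_mem han⟩
        have hF : commutator G ≤ Cfsg.fittingSubgroup G := CfsgLib.Core.le_fittingSubgroup inferInstance hnil
        obtain ⟨y, hy, z, hz, hyz⟩ := fitting_split (G := G) (fun r => r ≤ p) (hF hxn)
        refine ⟨n * orderOf z, Nat.mul_pos hn0 (orderOf_pos z), fun r hr' h => (hr'.dvd_mul.mp h).elim (hn r hr') fun h' => ?_, ?_⟩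
        · refine Nat.lt_of_not_le (cores_prime (G := G) (fun r => ¬ r ≤ p) r hr' (h'.trans ?_))
          have := orderOf_dvd_natCard (⟨z, hz⟩ : cores G (fun r => ¬ r ≤ p)); rwa [Subgroup.orderOf_mk] at this
        · rw [pow_mul, hyz, ← QuotientGroup.eq_one_iff (N := W), QuotientGroup.mk_pow, QuotientGroup.mk_mul,
            (QuotientGroup.eq_one_iff y).mpr hy, one_mul, ← QuotientGroup.mk_pow, pow_orderOf_eq_one, QuotientGroup.mk_one]
      set Z := W.subgroupOf M with hZ
      haveI : Z.Normal := inferInstance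
      have hZidx : ∀ r : ℕ, r.Prime → r ∣ Z.index → p < r := by
        intro r hr' hd'
        haveI := Fact.mk hr'
        obtain ⟨u, hu⟩ := exists_prime_orderOf_dvd_card' (G := ↥M ⧸ Z) r hd'
        obtain ⟨x, rfl⟩ := QuotientGroup.mk_surjective u
        obtain ⟨n, hn0, hn, hxn⟩ := hpow x x.2
        refine hn r hr' (hu ▸ orderOf_dvd_of_pow_eq_one ?_)
        rw [← QuotientGroup.mk_pow, QuotientGroup.eq_one_iff]
        exact hxn
      have hZcard : ∀ r : ℕ, r.Prime → r ∣ Nat.card Z → r ≤ p := fun r hr' hd' =>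
        cores_prime (G := G) (fun r => r ≤ p) r hr' (hd'.trans (Subgroup.card_dvd_of_injective
          ((M.subtype.comp Z.subtype).codRestrict W (fun x => x.2)) (fun a b h => Subtype.ext (Subtype.ext (congrArg Subtype.val h :)))))
      have hcop : (Nat.card Z).Coprime Z.index := Nat.coprime_of_dvd fun r hr' h1 h2 => by
        have := hZcard r hr' h1
        have := hZidx r hr' h2
        omega
      obtain ⟨H, hH⟩ := Subgroup.exists_right_complement'_of_coprime hcop
      have hHn : H.Normal := ⟨fun h hh g => by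
        obtain ⟨⟨z, k⟩, hzk, -⟩ := hH.existsUnique g
        have hz : ∀ w : ↥M, (z : ↥M) * w = w * (z : ↥M) := fun w => Subtype.ext (hMW w w.2 _ z.2).symm
        have e : g = (k : ↥M) * (z : ↥M) := hzk.symm.trans (hz k)
        rw [e]
        have e2 : (k : ↥M) * (z : ↥M) * h * ((k : ↥M) * (z : ↥M))⁻¹ = (k : ↥M) * h * (k : ↥M)⁻¹ := by
          rw [mul_assoc (k : ↥M) (z : ↥M), hz h]; group
        rw [e2]
        exact mul_mem (mul_mem k.2 hh) (inv_mem k.2)⟩
      haveI := hHn
      have hHi : H.index = Nat.card Z := hH.index_eq_card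
      have hMH : M ≤ H.map M.subtype := by
        conv_lhs => rw [hM]
        rw [Subgroup.closure_le]
        intro y hy
        have hyM : y ∈ M := Subgroup.subset_closure hy
        refine ⟨⟨y, hyM⟩, ?_, rfl⟩
        rw [SetLike.mem_coe, ← QuotientGroup.eq_one_iff, ← orderOf_eq_one_iff]
        refine Nat.eq_one_of_dvd_coprimes ?_ (hHi ▸ orderOf_dvd_natCard _ : orderOf ((⟨y, hyM⟩ : ↥M) : ↥M ⧸ H) ∣ Nat.card Z)
          ((orderOf_map_dvd (QuotientGroup.mk' H) (⟨y, hyM⟩ : ↥M)).trans (dvd_of_eq (Subgroup.orderOf_mk y hyM)))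
        exact Nat.coprime_of_dvd fun r hr' h1 h2 => by
          have := hZcard r hr' h1
          have := hy r hr' h2
          omega
      have h6 : q ∣ Nat.card H := by
        refine hd.trans (dvd_of_eq ?_)
        exact (congrArg (fun K : Subgroup G => Nat.card K) (le_antisymm hMH (Subgroup.map_subtype_le H))).trans
          (Subgroup.card_map_of_injective M.subtype_injective)
      rw [← hH.symm.index_eq_card] at h6
      exact hZidx q hq h6
    · haveI := Fact.mk hq
      obtain ⟨S⟩ := (inferInstance : Nonempty (Sylow q G))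
      refine S.not_dvd_index (hd.trans (Subgroup.index_dvd_of_le fun x hx => Subgroup.subset_closure fun r hr' hrd => ?_))
      obtain ⟨k, hk⟩ := S.2 ⟨x, hx⟩
      have h0 : orderOf x ∣ q ^ k := orderOf_dvd_of_pow_eq_one (by simpa using congrArg Subtype.val hk)
      rw [(Nat.prime_dvd_prime_iff_eq hr' hq).mp (hr'.dvd_of_dvd_pow (hrd.trans h0))]
      exact hpq.2

end Cfsg.Agent.S1451
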