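import Cfsg.Agent.S1450
import Cfsg.Agent.Lib.NarrowAut
import Cfsg.Agent.Lib.OddQuad
import Cfsg.Agent.Lib.PConstrained
import Cfsg.Agent.Lib.PSeries
import Cfsg.Agent.Lib.RankBasic
-- import your own Cfsg.Agent.* helpers here

set_option autoImplicit false
open Cfsg

namespace Cfsg.Agent.S1455

/-- Let G be a solvable group of odd order, p a prime dividing its order, and S a Sylow p-subgroup of G that is narrow; if S has an elementary abelian subgroup of order p ^ 3 assume also G = O_{p',p,p'}(G). Then every prime dividing the index of O_{p'}(G) is at most p; if p = 3 or p is the smallest prime divisor of #G then G has a normal p-complement; G' has a normal p-complement; every subgroup of G' of order coprime to p lies in O_{p'}(G'); and G' ≤ O_{p',p}(G) with the index of O_{p',p}(G) coprime to p. -/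
theorem result {G : Type*} [Group G] [Finite G] [Group.IsSolvable G] (hodd : Odd (Nat.card G)) (p : ℕ) [Fact p.Prime] (hpG : p ∣ Nat.card G) (S : Sylow p G) (hS : Cfsg.IsNarrow p ↥(S : Subgroup G))
    (hpl : ¬ Cfsg.PRankLE p 2 ↥(S : Subgroup G) → Cfsg.PLengthLE p 1 G) :
    (∀ q : ℕ, q.Prime → q ∣ (Cfsg.pPrimeCore p G).index → q ≤ p) ∧
      ((p = 3 ∨ ∀ q : ℕ, q.Prime → q ∣ Nat.card G → p ≤ q) → Cfsg.HasNormalPComplement p G) ∧
      Cfsg.HasNormalPComplement p ↥(commutator G) ∧
      (∀ L : Subgroup ↥(commutator G), (Nat.card L).Coprime p → L ≤ Cfsg.pPrimeCore p ↥(commutator G)) ∧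
      commutator G ≤ Cfsg.pPrimePCore p G ∧ ((Cfsg.pPrimePCore p G).index).Coprime p := by
  classical
  have hpp : p.Prime := Fact.out
  have hp : p ≠ 2 := fun e => Nat.not_even_iff_odd.mpr hodd (even_iff_two_dvd.mpr (e ▸ hpG))
  by_cases hr : Cfsg.PRankLE p 2 ↥(S : Subgroup G)
  · -- rank two
    refine Cfsg.Agent.S1450.result hodd p hpG fun A hA hAe => ?_
    obtain ⟨Q, hQ⟩ := IsPGroup.exists_le_sylow (G := G) (p := p) (P := A) fun a => ⟨1, Subtype.ext (by simpa using hAe a a.2)⟩
    exact CfsgLib.RankBasic.pRankLE_of_injective (Q.equiv S).toMonoidHom (Q.equiv S).injective hr (A.subgroupOf Q) inferInstance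
      (fun a ha => Subtype.ext (by rw [SubgroupClass.coe_pow]; exact hAe _ ha)) |>.trans' (Nat.card_congr (Subgroup.subgroupOfEquivOfLe hQ).toEquiv).ge
  obtain ⟨R₀, R₁, hR₀, hR₁, -, hcomm, hsup⟩ := hS.resolve_left hr
  set K := Cfsg.pPrimeCore p G with hK
  haveI hKn : K.Normal := CfsgLib.PConstrained.pPrimeCore_normal
  have hKcop : (Nat.card K).Coprime p := CfsgLib.Core.card_pPrimeCore_coprime p
  set π := QuotientGroup.mk' K with hπ
  set P := Cfsg.pCore p (G ⧸ K) with hP
  have hPp : IsPGroup p P := CfsgLib.Core.isPGroup_pCore p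
  -- `p`-length one
  have hU1 : CfsgLib.PSeries.U p G 1 = K := by
    refine le_antisymm (CfsgLib.Core.le_pPrimeCore inferInstance ?_) (CfsgLib.PSeries.le_succ_even (by decide) hKn bot_le ?_)
    · have h0 := CfsgLib.PSeries.relIndex_succ_even (p := p) (G := G) (n := 0) (by decide)
      rwa [CfsgLib.PSeries.zero, Subgroup.relIndex_bot_left] at h0
    · rw [CfsgLib.PSeries.zero, Subgroup.relIndex_bot_left]; exact hKcop
  have hPidx : P.index.Coprime p := by
    have h3 : CfsgLib.PSeries.U p G 3 = ⊤ := hpl hr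
    have h0 := CfsgLib.PSeries.relIndex_succ_even (p := p) (G := G) (n := 2) (by decide)
    rw [h3, Subgroup.relIndex_top_right] at h0
    obtain ⟨m, hm⟩ := CfsgLib.PSeries.relIndex_succ_odd (p := p) (G := G) (n := 1) (by decide)
    have h1 := CfsgLib.PSeries.le_succ (p := p) (G := G) 1
    rw [hU1] at hm h1
    have hle : CfsgLib.PSeries.U p G 2 ≤ P.comap π := fun x hx =>
      CfsgLib.Core.le_pCore ((inferInstance : (CfsgLib.PSeries.U p G 2).Normal).map π (QuotientGroup.mk'_surjective _))
        (IsPGroup.of_card (n := m) (by rw [hπ, CfsgLib.PSeries.card_map_mk _ _ h1]; exact hm)) ⟨x, hx, rfl⟩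
    rw [← Subgroup.index_comap_of_surjective P (QuotientGroup.mk'_surjective K)]
    exact h0.coprime_dvd_left (Subgroup.index_dvd_of_le hle)
  have hSP : ∀ s ∈ (S : Subgroup G), π s ∈ P := by
    intro s hs
    obtain ⟨k, hk⟩ := S.2 ⟨s, hs⟩
    refine (QuotientGroup.eq_one_iff (π s)).mp (orderOf_eq_one_iff.mp (Nat.eq_one_of_dvd_coprimes (hPidx.pow_right k) ?_ (orderOf_dvd_of_pow_eq_one ?_)))
    · exact orderOf_dvd_natCard _
    · have h0 : (s : G) ^ p ^ k = 1 := congrArg Subtype.val hk
      rw [← QuotientGroup.mk'_apply, ← map_pow, ← map_pow, h0, map_one, map_one]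
  let f : ↥(S : Subgroup G) →* P := (π.comp (S : Subgroup G).subtype).codRestrict P fun s => hSP s s.2
  have hf : Function.Injective f := by
    rw [injective_iff_map_eq_one]
    intro s hs
    have h1 : (s : G) ∈ K := (QuotientGroup.eq_one_iff _).mp (congrArg Subtype.val hs)
    obtain ⟨k, hk⟩ := S.2 s
    exact Subtype.ext (orderOf_eq_one_iff.mp (Nat.eq_one_of_dvd_coprimes (hKcop.pow_right k)
      (Subgroup.orderOf_dvd_natCard K h1) (orderOf_dvd_of_pow_eq_one (congrArg Subtype.val hk))))
  have hfb : Function.Bijective f := by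
    refine (Nat.bijective_iff_injective_and_card f).mpr ⟨hf, le_antisymm (Nat.card_le_card_of_injective f hf) ?_⟩
    obtain ⟨a, ha⟩ := IsPGroup.iff_card.mp hPp
    rw [ha, Sylow.card_eq_multiplicity]
    refine Nat.pow_le_pow_right hpp.pos ((hpp.pow_dvd_iff_le_factorization Nat.card_pos.ne').mp ?_)
    exact ha ▸ (Subgroup.card_subgroup_dvd_card P).trans (Subgroup.index_dvd_card K)
  let e : ↥(S : Subgroup G) ≃* P := MulEquiv.ofBijective f hfb
  have hrP : ¬ Cfsg.PRankLE p 2 P := fun h => hr (CfsgLib.RankBasic.pRankLE_of_injective e.toMonoidHom e.injective h)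
  set E := R₀.map e.toMonoidHom with hEdef
  haveI : IsCyclic R₀ := isCyclic_of_prime_card (p := p) hR₀
  have hE : Cfsg.IsElementaryAbelian p E := by
    refine ⟨⟨⟨?_⟩⟩, ?_⟩
    · rintro ⟨_, u, hu, rfl⟩ ⟨_, v, hv, rfl⟩
      refine Subtype.ext ?_
      show e u * e v = e v * e u
      rw [← map_mul, ← map_mul, show u * v = v * u from congrArg Subtype.val (IsCyclic.commGroup.mul_comm (⟨u, hu⟩ : R₀) ⟨v, hv⟩)]
    · rintro _ ⟨u, hu, rfl⟩
      have h0 : (⟨u, hu⟩ : R₀) ^ p = 1 := hR₀.subst (motive := fun n => (⟨u, hu⟩ : R₀) ^ n = 1) pow_card_eq_one'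
      exact (map_pow e u p).symm.trans ((congrArg e (congrArg Subtype.val h0)).trans (map_one e))
  -- the centralizer of `R₀` has rank two
  have hC0 : Cfsg.PRankLE p 2 ↥(Subgroup.centralizer (R₀ : Set ↥(S : Subgroup G))) := by
    intro A hA hAe
    set B := A.map (Subgroup.centralizer (R₀ : Set ↥(S : Subgroup G))).subtype with hB
    rw [← Subgroup.card_map_of_injective (K := A) (Subgroup.centralizer (R₀ : Set ↥(S : Subgroup G))).subtype_injective, ← hB]
    have hBC : B ≤ Subgroup.centralizer (R₀ : Set ↥(S : Subgroup G)) := Subgroup.map_subtype_le A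
    have hR1C : R₁ ≤ Subgroup.centralizer (R₀ : Set ↥(S : Subgroup G)) := hsup ▸ le_sup_right
    have hC : Nat.card ↥(Subgroup.centralizer (R₀ : Set ↥(S : Subgroup G))) ≤ p * Nat.card R₁ := by
      let g : R₀ × R₁ →* ↥(S : Subgroup G) :=
        MonoidHom.noncommCoprod R₀.subtype R₁.subtype fun a b => hcomm a a.2 b b.2
      have hg : g.range = Subgroup.centralizer (R₀ : Set ↥(S : Subgroup G)) := by
        refine (MonoidHom.noncommCoprod_range R₀.subtype R₁.subtype _).trans ?_
        rw [Subgroup.range_subtype, Subgroup.range_subtype, hsup]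
      rw [← hg]
      refine le_trans (Nat.le_of_dvd Nat.card_pos (Subgroup.card_range_dvd g)) ?_
      rw [Nat.card_prod, hR₀]
    have h1 := Subgroup.relIndex_mul_relIndex ⊥ (R₁ ⊓ B) B bot_le inf_le_right
    have h2 := Subgroup.relIndex_mul_relIndex ⊥ R₁ (Subgroup.centralizer (R₀ : Set ↥(S : Subgroup G))) bot_le hR1C
    rw [Subgroup.relIndex_bot_left, Subgroup.relIndex_bot_left] at h1 h2
    rw [Subgroup.inf_relIndex_right] at h1
    have h3 : R₁.relIndex (Subgroup.centralizer (R₀ : Set ↥(S : Subgroup G))) ≤ p :=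
      Nat.le_of_mul_le_mul_left (h2.le.trans (hC.trans (mul_comm _ _).le)) Nat.card_pos
    have h4 : R₁.relIndex B ≤ p := (Subgroup.relIndex_le_of_le_right hBC Subgroup.index_ne_zero_of_finite).trans h3
    have h5 : Nat.card ↥(R₁ ⊓ B) ≤ p := by
      haveI : IsCyclic ↥(R₁ ⊓ B) := Subgroup.isCyclic_of_le inf_le_left
      obtain ⟨g, hg⟩ := IsCyclic.exists_generator (α := ↥(R₁ ⊓ B))
      rw [← orderOf_eq_card_of_forall_mem_zpowers hg]
      refine Nat.le_of_dvd hpp.pos (orderOf_dvd_of_pow_eq_one (Subtype.ext ?_))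
      obtain ⟨a, ha, hga⟩ := g.2.2
      rw [SubgroupClass.coe_pow, ← hga, ← map_pow, hAe a ha]; rfl
    rw [← h1, pow_two]
    exact Nat.mul_le_mul h5 h4
  have hC : Cfsg.PRankLE p 2 ↥(Subgroup.centralizer (E : Set P)) := by
    refine CfsgLib.RankBasic.pRankLE_of_injective ((e.symm.toMonoidHom.comp (Subgroup.centralizer (E : Set P)).subtype).codRestrict _ ?_) ?_ hC0
    · intro x
      refine Subgroup.mem_centralizer_iff.mpr fun u hu => e.injective ?_
      have h0 := Subgroup.mem_centralizer_iff.mp x.2 (e u) ⟨u, hu, rfl⟩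
      simpa using h0
    · exact fun x y h => Subtype.ext (e.symm.injective (congrArg Subtype.val h))
  haveI : Group.IsSolvable (G ⧸ K) := Group.isSolvable_of_surjective (f := π) (QuotientGroup.mk'_surjective K)
  haveI : P.Normal := inferInstance
  have hCP : Subgroup.centralizer (P : Set (G ⧸ K)) ≤ P :=
    CfsgLib.OddQuad.centralizer_pCore_le (CfsgLib.Core.pPrimeCore_quotient_eq_bot p)
  let φ : (G ⧸ K) →* MulAut P := MulAut.conjNormal
  have hker : ∀ u, φ u = 1 → u ∈ P := fun u hu => hCP (Subgroup.mem_centralizer_iff.mpr fun x hx => by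
    have h0 : (φ u ⟨x, hx⟩ : G ⧸ K) = x := by rw [hu]; rfl
    rw [MulAut.conjNormal_apply] at h0
    exact (mul_inv_eq_iff_eq_mul.mp h0).symm)
  have hoddq : Odd (Nat.card (G ⧸ K)) := Odd.of_dvd_nat hodd (Subgroup.index_dvd_card K)
  -- the derived subgroup of the quotient lies in the `p`-core
  have hder : commutator (G ⧸ K) ≤ P := by
    refine CfsgLib.Core.le_pCore (inferInstanceAs (commutator (G ⧸ K)).Normal) fun c => ?_
    obtain ⟨n, hn⟩ := CfsgLib.NarrowAut.comm_pElement hoddq hp hPp E hE hC φ c c.2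
    obtain ⟨m, hm⟩ := hPp ⟨_, hker _ hn⟩
    exact ⟨n + m, Subtype.ext (by
      rw [SubgroupClass.coe_pow, pow_add, pow_mul]; exact congrArg Subtype.val hm)⟩
  have hderG : commutator G ≤ Cfsg.pPrimePCore p G := by
    refine le_trans ?_ (Subgroup.comap_mono hder)
    rw [← Subgroup.map_le_iff_le_comap, commutator_def, Subgroup.map_commutator]
    exact Subgroup.commutator_mono le_top le_top
  -- the index of `O_{p',p}` is prime to `p`
  have hidx : ((Cfsg.pPrimePCore p G).index).Coprime p := by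
    rw [show Cfsg.pPrimePCore p G = P.comap π from rfl, Subgroup.index_comap_of_surjective _ (QuotientGroup.mk'_surjective K)]
    refine (hpp.coprime_iff_not_dvd.mpr fun hd => ?_).symm
    obtain ⟨S⟩ := (inferInstance : Nonempty (Sylow p (G ⧸ K)))
    have hPS : P ≤ (S : Subgroup (G ⧸ K)) := CfsgLib.Core.pCore_le_sylow S
    have hSn : (S : Subgroup (G ⧸ K)).Normal := ⟨fun s hs g => by
      have h0 : g * s * g⁻¹ * s⁻¹ ∈ P := hder (Subgroup.commutator_mem_commutator (Subgroup.mem_top g) (Subgroup.mem_top s))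
      have := mul_mem (hPS h0) hs
      rwa [inv_mul_cancel_right] at this⟩
    exact S.not_dvd_index ((le_antisymm hPS (CfsgLib.Core.le_pCore hSn S.2)) ▸ hd)
  have hle_q : ∀ q : ℕ, q.Prime → q ∣ K.index → q ≤ p := by
    intro q hq hd
    rcases eq_or_ne q p with rfl | hqp
    · exact le_rfl
    haveI := Fact.mk hq
    obtain ⟨u, hu⟩ := exists_prime_orderOf_dvd_card' (G := G ⧸ K) q hd
    have hne : φ u ≠ 1 := fun e => by
      obtain ⟨m, hm⟩ := hPp ⟨u, hker u e⟩
      have h0 : orderOf u ∣ p ^ m := orderOf_dvd_of_pow_eq_one (by simpa using congrArg Subtype.val hm)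
      rw [hu] at h0
      exact hqp ((Nat.prime_dvd_prime_iff_eq hq hpp).mp (hq.dvd_of_dvd_pow h0))
    have ho : orderOf (φ u) = q := orderOf_eq_prime (by rw [← map_pow, ← hu, pow_orderOf_eq_one, map_one]) hne
    have h0 := CfsgLib.NarrowAut.orderOf_dvd_pred hp hPp E hE hC hrP (φ u) (by rw [ho]; exact (Nat.coprime_primes hq hpp).mpr hqp)
    rw [ho] at h0
    exact (Nat.le_of_dvd (by have := hpp.two_le; omega) h0).trans (Nat.sub_le p 1)
  -- complements
  have hcompl : ∀ (X : Type _) [Group X] [Finite X] (N : Subgroup X), N.Normal → (Nat.card N).Coprime p → (∃ k, N.index = p ^ k) →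
      Cfsg.HasNormalPComplement p X := by
    intro X _ _ N hN hNc ⟨k, hk⟩
    obtain ⟨S⟩ := (inferInstance : Nonempty (Sylow p X))
    refine ⟨S, N, hN, ?_⟩
    obtain ⟨j, hj⟩ := IsPGroup.iff_card.mp S.2
    refine Subgroup.isComplement'_of_coprime ?_ (hj ▸ Nat.Coprime.pow_right j hNc)
    rw [← N.card_mul_index, hk]
    congr 1
    have hk' := hk
    rw [Sylow.card_eq_multiplicity, ← N.card_mul_index, hk', Nat.factorization_mul Nat.card_pos.ne' (pow_ne_zero _ hpp.ne_zero),
      Finsupp.add_apply, Nat.Prime.factorization_pow hpp, Finsupp.single_eq_same,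
      Nat.factorization_eq_zero_of_not_dvd (hpp.coprime_iff_not_dvd.mp hNc.symm), zero_add]
  have hG' : IsPGroup p ((commutator G).map π) := hPp.to_le (Subgroup.map_le_iff_le_comap.mpr hderG)
  refine ⟨hle_q, fun hcase => ?_, ?_, ?_, hderG, hidx⟩
  · refine hcompl G K hKn hKcop (Nat.eq_prime_pow_of_unique_prime_dvd Subgroup.index_ne_zero_of_finite (fun {q} hq hd => ?_) |> fun h => ⟨_, h⟩)
    have h1 := hle_q q hq hd
    have hqG : q ∣ Nat.card G := hd.trans (Subgroup.index_dvd_card K)
    rcases hcase with h3 | hmin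
    · have hq2 : q ≠ 2 := fun e => Nat.not_even_iff_odd.mpr hodd (even_iff_two_dvd.mpr (e ▸ hqG))
      have := hq.two_le
      omega
    · exact le_antisymm h1 (hmin q hq hqG)
  · -- complement in the derived group
    set N := K.subgroupOf (commutator G) with hN
    refine hcompl _ N inferInstance (hKcop.coprime_dvd_left ?_) ?_
    · exact Subgroup.card_dvd_of_injective (((commutator G).subtype.comp N.subtype).codRestrict K (fun x => x.2)) (fun a b h => Subtype.ext (Subtype.ext (congrArg Subtype.val h :)))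
    · have hkerN : N = (π.comp (commutator G).subtype).ker := by
        ext x; simp [hN, Subgroup.mem_subgroupOf, hπ]
      obtain ⟨j, hj⟩ := IsPGroup.iff_card.mp hG'
      refine ⟨j, ?_⟩
      rw [hkerN, Subgroup.index_ker, MonoidHom.range_comp, Subgroup.range_subtype, hj]
  · intro L hL
    refine le_trans (fun (x : ↥(commutator G)) hx => ?_) (CfsgLib.Core.le_pPrimeCore (N := K.subgroupOf (commutator G)) inferInstance (hKcop.coprime_dvd_left
      (Subgroup.card_dvd_of_injective (((commutator G).subtype.comp (K.subgroupOf (commutator G)).subtype).codRestrict K (fun x => x.2)) (fun a b h => Subtype.ext (Subtype.ext (congrArg Subtype.val h :))))))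
    have h1 : orderOf (π (x : G)) ∣ Nat.card L := by
      refine (orderOf_map_dvd (π.comp (commutator G).subtype) x).trans ?_
      have := orderOf_dvd_natCard (⟨x, hx⟩ : L); rwa [Subgroup.orderOf_mk] at this
    obtain ⟨j, hj⟩ := IsPGroup.iff_card.mp hG'
    have h2 : orderOf (π (x : G)) ∣ p ^ j := by
      have := orderOf_dvd_natCard (⟨π (x : G), Subgroup.mem_map_of_mem π x.2⟩ : (commutator G).map π)
      rwa [← Subgroup.orderOf_coe, hj] at this
    have h3 := Nat.dvd_gcd h1 h2
    rw [Nat.Coprime.pow_right j hL, Nat.dvd_one, orderOf_eq_one_iff] at h3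
    exact (QuotientGroup.eq_one_iff (x : G)).mp h3

end Cfsg.Agent.S1455
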