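import Cfsg.Agent.S1451
import Cfsg.Agent.Lib.NarrowAut
-- Template for statement S1456 (row 1456; see /opt/grader/pristine/manifest.json for weights).
-- Copy to Cfsg/Agent/S1456.lean and replace the sorry. The statement below is byte-identical to the frozen
-- statement Cfsg.CfsgFrozen.S1456 (Cfsg/Statements/S1456.lean; the theorem Cfsg.odd_solvable_derived_le_fitting_of_small_centralizer_rank);
-- the grader kernel-checks Cfsg.Agent.S1456.result against that frozen type. Keep the theorem IN THIS FILE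
-- (a `result` declared elsewhere and merely imported here is not credited); helpers may live anywhere
-- under Cfsg/Agent/.
-- import your own Cfsg.Agent.* helpers here

set_option autoImplicit false
open Cfsg

namespace Cfsg.Agent.S1456

/-- Let G be a solvable group of odd order, p a prime, and E an elementary abelian p-subgroup of the Fitting subgroup F(G) such that F(G) ∩ C_G(E) has no elementary abelian subgroup of order q ^ 3 for any prime q. Then the derived subgroup of G is contained in F(G). -/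
theorem result {G : Type*} [Group G] [Finite G] [Group.IsSolvable G] (hodd : Odd (Nat.card G)) (p : ℕ) [Fact p.Prime] (E : Subgroup G) (hE : E ≤ Cfsg.fittingSubgroup G) (hEe : Cfsg.IsElementaryAbelian p E)
    (hr : Cfsg.RankLE 2 ↥(Cfsg.fittingSubgroup G ⊓ Subgroup.centralizer (E : Set G))) :
    commutator G ≤ Cfsg.fittingSubgroup G := by
  classical
  have hCF : Subgroup.centralizer (Cfsg.fittingSubgroup G : Set G) ≤ Cfsg.fittingSubgroup G :=
    Cfsg.Agent.S0044.result
  have hEC : ∀ u ∈ E, ∀ v ∈ E, u * v = v * u := fun u hu v hv =>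
    congrArg Subtype.val (hEe.1.is_comm.comm (⟨u, hu⟩ : E) ⟨v, hv⟩)
  -- `E` lies in `O_p`
  have hEp : E ≤ Cfsg.pCore p G := by
    intro u hu
    obtain ⟨y, hy, z, hz, huv⟩ := Cfsg.Agent.S1451.fitting_split (G := G) (fun r => r = p) (hE hu)
    have hy' : y ∈ Cfsg.pCore p G := (iSup_le fun q => le_of_eq (by rw [show ((q : ℕ)) = p from q.2.2]) :
      Cfsg.Agent.S1451.cores G (fun r => r = p) ≤ Cfsg.pCore p G) hy
    set N := Cfsg.Agent.S1451.cores G (fun r => ¬ r = p) with hN
    haveI := Cfsg.Agent.S1451.cores_normal (G := G) (fun r => ¬ r = p)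
    have h1 : (z : G ⧸ Cfsg.pCore p G) = (u : G ⧸ Cfsg.pCore p G) := by
      rw [huv, QuotientGroup.mk_mul, (QuotientGroup.eq_one_iff y).mpr hy', one_mul]
    have h2 : z ^ p ∈ Cfsg.pCore p G := by
      rw [← QuotientGroup.eq_one_iff, QuotientGroup.mk_pow, h1, ← QuotientGroup.mk_pow, hEe.2 u hu, QuotientGroup.mk_one]
    obtain ⟨k, hk⟩ := CfsgLib.Core.isPGroup_pCore (G := G) p ⟨_, h2⟩
    have h3 : z ^ (p * p ^ k) = 1 := by rw [pow_mul]; simpa using congrArg Subtype.val hk
    have hz1 : z = 1 := by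
      by_contra hne
      obtain ⟨q, hq, hqd⟩ := Nat.exists_prime_and_dvd (n := orderOf z) (fun e => hne (orderOf_eq_one_iff.mp e))
      have h4 : q ∣ p ^ (k + 1) := by rw [pow_succ']; exact hqd.trans (orderOf_dvd_of_pow_eq_one h3)
      have h5 := (Nat.prime_dvd_prime_iff_eq hq (Fact.out : p.Prime)).mp (hq.dvd_of_dvd_pow h4)
      refine Cfsg.Agent.S1451.cores_prime (G := G) (fun r => ¬ r = p) q hq ?_ h5
      refine hqd.trans ?_
      have := orderOf_dvd_natCard (⟨z, hz⟩ : N); rwa [Subgroup.orderOf_mk] at this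
    rw [huv, hz1, mul_one]; exact hy'
  let φ : ∀ q : ℕ, G →* MulAut ↥(Cfsg.pCore q G) := fun q => MulAut.conjNormal
  have hφ : ∀ q x, φ q x = 1 → ∀ z ∈ Cfsg.pCore q G, x * z = z * x := fun q x hx z hz => by
    have h0 : (φ q x ⟨z, hz⟩ : G) = z := by rw [hx]; rfl
    rw [MulAut.conjNormal_apply] at h0
    exact mul_inv_eq_iff_eq_mul.mp h0
  have hact : ∀ q : ℕ, q.Prime → ∀ c ∈ commutator G, ∃ n : ℕ, φ q (c ^ (q ^ n)) = 1 := by
    intro q hq c hc
    haveI := Fact.mk hq
    rcases eq_or_ne q 2 with rfl | e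
    · refine ⟨0, MulEquiv.ext fun z => ?_⟩
      obtain ⟨n, hn⟩ := IsPGroup.iff_card.mp (CfsgLib.Core.isPGroup_pCore (G := G) 2)
      have hn0 : n = 0 := by
        by_contra h
        exact Nat.not_even_iff_odd.mpr hodd (even_iff_two_dvd.mpr ((dvd_pow_self 2 h).trans (hn ▸ Subgroup.card_subgroup_dvd_card _)))
      rw [hn0, pow_zero] at hn
      haveI : Subsingleton ↥(Cfsg.pCore 2 G) := (Nat.card_eq_one_iff_unique.mp hn).1
      exact Subsingleton.elim _ _
    rcases eq_or_ne q p with rfl | hqp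
    · set E' := E.subgroupOf (Cfsg.pCore q G) with hE'
      refine CfsgLib.NarrowAut.comm_pElement hodd e (CfsgLib.Core.isPGroup_pCore q) E'
        ⟨⟨⟨fun u v => Subtype.ext (Subtype.ext (hEC _ u.2 _ v.2))⟩⟩, fun u hu => Subtype.ext (by
          rw [SubgroupClass.coe_pow]; exact hEe.2 _ hu)⟩ ?_ (φ q) c hc
      refine Cfsg.Agent.S1451.prankle_of_injective
        (((Cfsg.pCore q G).subtype.comp (Subgroup.centralizer (E' : Set ↥(Cfsg.pCore q G))).subtype).codRestrict
          (Cfsg.fittingSubgroup G ⊓ Subgroup.centralizer (E : Set G)) fun u =>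
            ⟨CfsgLib.Core.pCore_le_fittingSubgroup hq (u : ↥(Cfsg.pCore q G)).2, Subgroup.mem_centralizer_iff.mpr fun w hw =>
              congrArg Subtype.val (Subgroup.mem_centralizer_iff.mp u.2 ⟨w, hEp hw⟩ hw)⟩)
        (fun u v h => Subtype.ext (Subtype.ext (congrArg Subtype.val h :))) (hr q hq)
    · refine Cfsg.Agent.S1450.comm_pElement hodd e (CfsgLib.Core.isPGroup_pCore q) ?_ (φ q) c hc
      refine Cfsg.Agent.S1451.prankle_of_injective
        ((Cfsg.pCore q G).subtype.codRestrict (Cfsg.fittingSubgroup G ⊓ Subgroup.centralizer (E : Set G)) fun u =>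
            ⟨CfsgLib.Core.pCore_le_fittingSubgroup hq u.2, Subgroup.mem_centralizer_iff.mpr fun w hw => ?_⟩)
        (fun u v h => Subtype.ext (congrArg Subtype.val h :)) (hr q hq)
      exact Subgroup.commute_of_normal_of_disjoint _ _ inferInstance inferInstance
        (IsPGroup.disjoint_of_ne p q hqp.symm _ _ (CfsgLib.Core.isPGroup_pCore p) (CfsgLib.Core.isPGroup_pCore q)) w u (hEp hw) u.2
  have hact2 : ∀ q r : ℕ, q.Prime → r.Prime → q ≠ r → ∀ c ∈ commutator G, (∃ k, c ^ (r ^ k) = 1) → φ q c = 1 := by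
    intro q r hq hr' hne c hc ⟨k, hk⟩
    obtain ⟨n, hn⟩ := hact q hq c hc
    have h1 : orderOf (φ q c) ∣ q ^ n := orderOf_dvd_of_pow_eq_one (by rw [← map_pow]; exact hn)
    have h2 : orderOf (φ q c) ∣ r ^ k := orderOf_dvd_of_pow_eq_one (by rw [← map_pow, hk, map_one])
    exact orderOf_eq_one_iff.mp (Nat.eq_one_of_dvd_coprimes (((Nat.coprime_primes hq hr').mpr hne).pow n k) h1 h2)
  -- (1)
  have hnil : Group.IsNilpotent ↥(commutator G) := by
    refine CfsgLib.Core.isNilpotent_of_pCore_sylow fun r hr' R => ?_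
    haveI := Fact.mk hr'
    let E : Subgroup ↥(commutator G) := ⨅ q : {q : ℕ // q.Prime ∧ q ≠ r}, ((φ q).comp (commutator G).subtype).ker
    have hEmem : ∀ x : ↥(commutator G), x ∈ E ↔ ∀ q : ℕ, q.Prime → q ≠ r → φ q (x : G) = 1 := fun x => by
      simp [E, Subgroup.mem_iInf, MonoidHom.mem_ker]
    have hEn : E.Normal := Subgroup.normal_iInf_normal fun _ => MonoidHom.normal_ker _
    have hRE : (R : Subgroup ↥(commutator G)) ≤ E := fun x hx => (hEmem x).mpr fun q hq hne => by
      obtain ⟨k, hk⟩ := R.2 ⟨x, hx⟩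
      exact hact2 q r hq hr' hne x x.2 ⟨k, by simpa using congrArg (fun u : (R : Subgroup ↥(commutator G)) => ((u : ↥(commutator G)) : G)) hk⟩
    have hOr : (Cfsg.pCore r G).subgroupOf (commutator G) ≤ (R : Subgroup ↥(commutator G)) :=
      CfsgLib.Core.sylow_inf_le R (CfsgLib.Core.isPGroup_pCore r).comap_subtype
    -- elements of `E` with a power centralizing `F`
    let A0 : Subgroup ↥(commutator G) := (Subgroup.centralizer (Cfsg.fittingSubgroup G : Set G)).subgroupOf (commutator G)
    haveI : (Subgroup.centralizer (Cfsg.fittingSubgroup G : Set G)).Normal := by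
      haveI := CfsgLib.Core.fittingSubgroup_normal (G := G)
      infer_instance
    have hA0 : ∀ a ∈ A0, a ∈ Subgroup.normalizer ((R : Subgroup ↥(commutator G)) : Set ↥(commutator G)) := by
      intro a ha
      have key : ∀ b ∈ A0, ∀ x ∈ (R : Subgroup ↥(commutator G)), b * x * b⁻¹ ∈ (R : Subgroup ↥(commutator G)) := by
        intro b hb x hx
        obtain ⟨y, hy, z, hz, hbyz⟩ := Cfsg.Agent.S1451.fitting_split (G := G) (fun q => q = r) (hCF hb)
        have hy' : y ∈ Cfsg.pCore r G := (iSup_le fun q => le_of_eq (by rw [show ((q : ℕ)) = r from q.2.2]) :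
          Cfsg.Agent.S1451.cores G (fun q => q = r) ≤ Cfsg.pCore r G) hy
        have hxz : (x : G) * z = z * x := Cfsg.Agent.S1451.cores_commute _ _ (fun q hq hne => hφ q _ ((hEmem x).mp (hRE hx) q hq hne)) z hz
        have h1 : ((b * x * b⁻¹ * x⁻¹ : ↥(commutator G)) : G) ∈ Cfsg.pCore r G := by
          have h2 : ((b * x * b⁻¹ * x⁻¹ : ↥(commutator G)) : G) = y * ((x : G) * y⁻¹ * (x : G)⁻¹) := by
            simp only [Subgroup.coe_mul, Subgroup.coe_inv]
            rw [show (b : G) = y * z from hbyz]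
            calc y * z * (x : G) * (y * z)⁻¹ * (x : G)⁻¹ = y * (z * x) * z⁻¹ * y⁻¹ * (x : G)⁻¹ := by group
              _ = y * (x * z) * z⁻¹ * y⁻¹ * (x : G)⁻¹ := by rw [hxz]
              _ = y * ((x : G) * y⁻¹ * (x : G)⁻¹) := by group
          rw [h2]
          exact mul_mem hy' ((inferInstance : (Cfsg.pCore r G).Normal).conj_mem _ (inv_mem hy') _)
        have := mul_mem (hOr (Subgroup.mem_subgroupOf.mpr h1)) hx
        rwa [inv_mul_cancel_right] at this
      refine Subgroup.mem_normalizer_iff.mpr fun x => ⟨key a ha x, fun hx => ?_⟩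
      have := key a⁻¹ (inv_mem ha) _ hx
      simpa [mul_assoc] using this
    have hE_le : E ≤ Subgroup.normalizer ((R : Subgroup ↥(commutator G)) : Set ↥(commutator G)) := by
      haveI : A0.Normal := inferInstance
      let ρ := QuotientGroup.mk' A0
      have hp' : IsPGroup r ↥(E.map ρ) := by
        rintro ⟨_, x, hx, rfl⟩
        obtain ⟨n, hn⟩ := hact r hr' x x.2
        refine ⟨n, Subtype.ext ?_⟩
        rw [SubgroupClass.coe_pow, ← map_pow]
        refine (QuotientGroup.eq_one_iff _).mpr ?_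
        show ((x ^ r ^ n : ↥(commutator G)) : G) ∈ Subgroup.centralizer _
        rw [SubgroupClass.coe_pow]
        refine Subgroup.mem_centralizer_iff.mpr fun f hf => ?_
        obtain ⟨y, hy, z, hz, rfl⟩ := Cfsg.Agent.S1451.fitting_split (G := G) (fun q => q = r) hf
        have e1 : (x : G) ^ r ^ n * y = y * (x : G) ^ r ^ n :=
          Cfsg.Agent.S1451.cores_commute _ _ (fun q _ hq => hφ q _ (hq ▸ hn)) y hy
        have e2 : (x : G) ^ r ^ n * z = z * (x : G) ^ r ^ n :=
          Cfsg.Agent.S1451.cores_commute _ _ (fun q hq hne => hφ q _ (by rw [map_pow, (hEmem x).mp hx q hq hne, one_pow])) z hz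
        rw [mul_assoc, ← e2, ← mul_assoc, ← e1, mul_assoc]
      let S := (R.subtype hRE).mapSurjective (ρ.subgroupMap_surjective E)
      have hS : (S : Subgroup ↥(E.map ρ)) = ⊤ := (S.3 (hp'.to_subgroup ⊤) le_top).symm
      intro x hx
      have h2 : (⟨ρ x, x, hx, rfl⟩ : ↥(E.map ρ)) ∈ (S : Subgroup ↥(E.map ρ)) := hS ▸ Subgroup.mem_top _
      rw [Sylow.coe_mapSurjective] at h2
      obtain ⟨u, hu, hux⟩ := h2
      have hu' : (u : ↥(commutator G)) ∈ (R : Subgroup ↥(commutator G)) := hu
      have h3 : (u : ↥(commutator G))⁻¹ * x ∈ A0 := QuotientGroup.eq.mp (congrArg Subtype.val hux : ρ (u : ↥(commutator G)) = ρ x)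
      have := mul_mem (Subgroup.le_normalizer hu') (hA0 _ h3)
      rwa [mul_inv_cancel_left] at this
    refine ⟨fun x hx d => ?_⟩
    set R' := ((d • R : Sylow r ↥(commutator G)) : Subgroup ↥(commutator G)) with hR'
    have hmem : d * x * d⁻¹ ∈ R' := by
      rw [hR', Sylow.coe_subgroup_smul]; exact ⟨x, hx, rfl⟩
    have hR'E : R' ≤ E := by
      rw [hR', Sylow.coe_subgroup_smul]
      rintro _ ⟨u, hu, rfl⟩
      exact hEn.conj_mem u (hRE hu) d
    have hsup : IsPGroup r ↥(R' ⊔ (R : Subgroup ↥(commutator G))) :=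
      IsPGroup.to_sup_of_normal_right' (d • R).2 R.2 (hR'E.trans hE_le)
    exact (R.3 hsup le_sup_right) ▸ Subgroup.mem_sup_left hmem
  exact CfsgLib.Core.le_fittingSubgroup inferInstance hnil

end Cfsg.Agent.S1456
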