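import Cfsg.Statements.S1457
import Cfsg.Agent.Lib.OddQuad

set_option autoImplicit false
open Cfsg

namespace Cfsg.Agent.S1457


/-- Let G be a solvable group of odd order, p a prime, S a Sylow p-subgroup of G and A an abelian subgroup of S normal in S. Then A ≤ O_{p',p}(G). -/
theorem result {G : Type*} [Group G] [Finite G] [Group.IsSolvable G] (hodd : Odd (Nat.card G)) (p : ℕ) [Fact p.Prime] (S : Sylow p G) (A : Subgroup G) (hA : A ≤ (S : Subgroup G)) (hAc : IsMulCommutative A)
    (hAn : (S : Subgroup G) ≤ Subgroup.normalizer (A : Set G)) :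
    A ≤ Cfsg.pPrimePCore p G := by
  rcases eq_or_ne A ⊥ with rfl | hA1
  · exact bot_le
  have hp2 : p ≠ 2 := by
    rintro rfl
    obtain ⟨k, hk⟩ := (S.2.to_le hA).exists_card_eq
    have hk0 : k ≠ 0 := fun h => hA1 (Subgroup.eq_bot_of_card_eq A (by rw [hk, h, pow_zero]))
    exact (Nat.not_even_iff_odd.mpr hodd) (even_iff_two_dvd.mpr
      ((dvd_pow_self 2 hk0).trans (hk ▸ Subgroup.card_subgroup_dvd_card A)))
  haveI hKn : (Cfsg.pPrimeCore p G).Normal := by
    haveI := CfsgLib.Core.pPrimeCore_characteristic (G := G) p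
    infer_instance
  set K := Cfsg.pPrimeCore p G
  set f := QuotientGroup.mk' K
  have hf : Function.Surjective f := QuotientGroup.mk'_surjective K
  haveI : Group.IsSolvable (G ⧸ K) := Group.isSolvable_of_surjective hf
  haveI := Cfsg.pCore_normal p (G ⧸ K)
  haveI : IsMulCommutative ↥(A.map f) := by haveI := hAc; infer_instance
  set T := Cfsg.pCore p (G ⧸ K)
  have hTS : T ≤ (S : Subgroup G).map f := CfsgLib.Core.pCore_le_sylow (S.mapSurjective hf)
  have hn : T ≤ Subgroup.normalizer ((A.map f : Subgroup (G ⧸ K)) : Set (G ⧸ K)) := by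
    intro t ht
    obtain ⟨s, hs, rfl⟩ := hTS ht
    refine Subgroup.mem_normalizer_fintype ?_
    rintro _ ⟨x, hx, rfl⟩
    exact ⟨s * x * s⁻¹, (Subgroup.mem_normalizer_iff.mp (hAn hs) x).mp hx, by rw [map_mul, map_mul, map_inv]⟩
  have hc : IsPGroup p ↥(Subgroup.centralizer (T : Set (G ⧸ K))) :=
    (CfsgLib.Core.isPGroup_pCore p).to_le
      (CfsgLib.OddQuad.centralizer_pCore_le (CfsgLib.Core.pPrimeCore_quotient_eq_bot p))
  intro a ha
  exact CfsgLib.OddQuad.le_pCore_of_abelian hp2 (hodd.of_dvd_nat (Subgroup.card_quotient_dvd_card K)) T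
    (CfsgLib.Core.isPGroup_pCore p) hc (A.map f) hn (Subgroup.mem_map_of_mem f ha)

end Cfsg.Agent.S1457
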