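import Cfsg.Statements.S1458
import Cfsg.Agent.Lib.OddQuad
import Cfsg.Agent.Lib.PConstrained
import Cfsg.Agent.Lib.GroupB.ZJThompson
import Cfsg.Agent.Lib.Dickson.Section

set_option linter.style.haveILetI false

set_option autoImplicit false
open Cfsg

namespace Cfsg.Agent.S1458

/-- Let G be a solvable group of odd order, p a prime and S a Sylow p-subgroup of G. Then the subgroup generated by the centre of the Thompson subgroup of S and O_{p'}(G) is normal in G. -/
theorem result {G : Type*} [Group G] [Finite G] [Group.IsSolvable G] (hodd : Odd (Nat.card G)) (p : ℕ) [Fact p.Prime] (S : Sylow p G) :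
    (Cfsg.centerThompsonOf p (S : Subgroup G) ⊔ Cfsg.pPrimeCore p G).Normal := by
  classical
  have hp' : p.Prime := Fact.out
  haveI hKn : (Cfsg.pPrimeCore p G).Normal := by
    haveI := CfsgLib.Core.pPrimeCore_characteristic (G := G) p
    infer_instance
  by_cases hp2 : p = 2
  · have hS : (S : Subgroup G) = ⊥ := by
      obtain ⟨k, hk⟩ := S.2.exists_card_eq
      subst hp2
      rcases k with _ | k
      · exact Subgroup.eq_bot_of_card_eq _ (by rw [hk, pow_zero])
      · exact absurd (even_iff_two_dvd.mpr ((dvd_pow_self 2 k.succ_ne_zero).trans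
          (hk ▸ Subgroup.card_subgroup_dvd_card (S : Subgroup G)))) (Nat.not_even_iff_odd.mpr hodd)
    have h : Cfsg.centerThompsonOf p (S : Subgroup G) ≤ Cfsg.pPrimeCore p G := by
      refine inf_le_left.trans ((Subgroup.map_subtype_le _).trans ?_)
      rw [hS]; exact bot_le
    rw [sup_eq_right.mpr h]; exact hKn
  set π := QuotientGroup.mk' (Cfsg.pPrimeCore p G)
  have hπ : Function.Surjective π := QuotientGroup.mk'_surjective _
  haveI : Group.IsSolvable (G ⧸ Cfsg.pPrimeCore p G) := Group.isSolvable_of_surjective hπ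
  have hc := CfsgLib.OddQuad.centralizer_pCore_le (CfsgLib.Core.pPrimeCore_quotient_eq_bot (G := G) p)
  have hst : CfsgLib.Glauberman.Stable p (G ⧸ Cfsg.pPrimeCore p G) := by
    refine CfsgLib.Dickson.stable_of_slFree hp2 fun K f hf => ?_
    have h1 : Nat.card (Matrix.SpecialLinearGroup (Fin 2) (ZMod p)) ∣ Nat.card G :=
      (Subgroup.card_dvd_of_surjective f hf).trans
        ((Subgroup.card_subgroup_dvd_card K).trans (Subgroup.card_quotient_dvd_card _))
    have h2 : orderOf (-1 : Matrix.SpecialLinearGroup (Fin 2) (ZMod p)) = 2 := by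
      refine orderOf_eq_prime (by rw [pow_two, neg_mul_neg, one_mul]) fun h => hp2 ?_
      have h00 := congrFun (congrFun (congrArg Subtype.val h) 0) 0
      have h3 : ((2 : ℕ) : ZMod p) = 0 := by
        push_cast
        have h4 : (-1 : ZMod p) = 1 := by simpa using h00
        linear_combination -h4
      exact (Nat.prime_dvd_prime_iff_eq hp' Nat.prime_two).mp ((ZMod.natCast_eq_zero_iff _ _).mp h3)
    exact Nat.not_even_iff_odd.mpr hodd (even_iff_two_dvd.mpr ((h2 ▸ orderOf_dvd_natCard _).trans h1))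
  have hn := CfsgLib.GroupB.ZJThompson.normal_of_stable hp2 (S.mapSurjective hπ) hst hc
  have hinj : Set.InjOn π (S : Subgroup G) := by
    intro a ha b hb hab
    have h1 : a⁻¹ * b ∈ (S : Subgroup G) ⊓ π.ker := ⟨(S : Subgroup G).mul_mem ((S : Subgroup G).inv_mem ha) hb, by
      show π (a⁻¹ * b) = 1
      rw [map_mul, map_inv, hab, inv_mul_cancel]⟩
    rw [CfsgLib.PConstrained.inf_eq_bot_of_coprime S.2 (by
      rw [QuotientGroup.ker_mk']; exact CfsgLib.Core.card_pPrimeCore_coprime p), Subgroup.mem_bot, inv_mul_eq_one] at h1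
    exact h1
  have e : Cfsg.centerThompsonOf p (S : Subgroup G) =
      CfsgLib.ThompsonNPC.Z (CfsgLib.ThompsonNPC.J p (S : Subgroup G)) := by
    rw [Cfsg.centerThompsonOf, CfsgLib.ThompsonNPC.thompsonSubgroupOf_eq]; rfl
  rw [Sylow.coe_mapSurjective, ← CfsgLib.ThompsonNPC.J_map p hinj,
    ← CfsgLib.ThompsonNPC.Z_map (hinj.mono (CfsgLib.ThompsonNPC.J_le p _)), ← e] at hn
  have h2 := hn.comap π
  rwa [Subgroup.comap_map_eq, QuotientGroup.ker_mk'] at h2

end Cfsg.Agent.S1458
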