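import Cfsg.Statements.S1459
import Cfsg.Agent.Lib.GroupB.Coprime
import Cfsg.Agent.Lib.Solvable.Frattini
import Cfsg.Agent.Lib.Core
import Cfsg.Agent.Lib.CNGroup

set_option autoImplicit false
open Cfsg

namespace Cfsg.Agent.S1459

open scoped commutatorElement

theorem part_a {G : Type*} [Group G] [Finite G] [Group.IsSolvable G] (H K : Subgroup G) (hH : H.Normal)
    (hco : (Nat.card H).Coprime H.index) (hc : Subgroup.IsComplement' H K) (hle : H ≤ commutator G) :
    H = ⁅H, K⁆ ∧ H ⊓ Subgroup.centralizer (K : Set G) ≤ ⁅H, H⁆ := by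
  haveI := hH
  have hcardK : Nat.card ↥K = H.index := (hc.symm.index_eq_card).symm
  have hco' : (Nat.card ↥H).Coprime (Nat.card ↥K) := hcardK ▸ hco
  have hsup : H ⊔ K = ⊤ := hc.sup_eq_top
  have hHK : ⁅H, K⁆ ≤ H := Subgroup.commutator_le_left H K
  haveI hn : (⁅H, K⁆ : Subgroup G).Normal := by
    refine Subgroup.normalizer_eq_top_iff.mp (eq_top_iff.mpr ?_)
    rw [← hsup]
    exact CfsgLib.GroupB.Coprime.le_normalizer_commutator H K
  -- H ≤ ⁅H,K⁆
  have hfirst : H ≤ ⁅H, K⁆ := by
    set π := QuotientGroup.mk' ⁅H, K⁆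
    have hπ : Function.Surjective π := QuotientGroup.mk'_surjective _
    have hcomm : ⁅H.map π, K.map π⁆ = ⊥ := by
      rw [← Subgroup.map_commutator, Subgroup.map_eq_bot_iff, QuotientGroup.ker_mk']
    set A := H.map π
    set B := K.map π
    have hAB : ∀ a ∈ A, ∀ b ∈ B, a * b = b * a := fun a ha b hb =>
      commutatorElement_eq_one_iff_mul_comm.mp (Subgroup.mem_bot.mp (hcomm ▸ Subgroup.commutator_mem_commutator ha hb))
    haveI : A.Normal := Subgroup.Normal.map inferInstance π hπ
    have htop : A ⊔ B = ⊤ := by rw [← Subgroup.map_sup, hsup, Subgroup.map_top_of_surjective π hπ]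
    have hdec : ∀ q, ∃ a ∈ A, ∃ b ∈ B, q = a * b := fun q => by
      obtain ⟨a, ha, b, hb, e⟩ := Subgroup.mem_sup_of_normal_left.mp (htop.ge (Subgroup.mem_top q))
      exact ⟨a, ha, b, hb, e.symm⟩
    let D : Subgroup _ :=
      { carrier := {q | ∃ a ∈ ⁅A, A⁆, ∃ b ∈ ⁅B, B⁆, q = a * b}
        one_mem' := ⟨1, one_mem _, 1, one_mem _, (one_mul 1).symm⟩
        mul_mem' := by
          rintro _ _ ⟨a, ha, b, hb, rfl⟩ ⟨a', ha', b', hb', rfl⟩
          refine ⟨a * a', mul_mem ha ha', b * b', mul_mem hb hb', ?_⟩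
          have : b * a' = a' * b := (hAB a' (Subgroup.commutator_le_self A ha') b (Subgroup.commutator_le_self B hb)).symm
          calc a * b * (a' * b') = a * (b * a') * b' := by group
            _ = _ := by rw [this]; group
        inv_mem' := by
          rintro _ ⟨a, ha, b, hb, rfl⟩
          refine ⟨a⁻¹, inv_mem ha, b⁻¹, inv_mem hb, ?_⟩
          rw [mul_inv_rev]
          exact (hAB _ (inv_mem (Subgroup.commutator_le_self A ha)) _ (inv_mem (Subgroup.commutator_le_self B hb))).symm }
    have hD : commutator _ ≤ D := by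
      rw [commutator_def, Subgroup.commutator_le]
      intro x _ y _
      obtain ⟨a, ha, b, hb, rfl⟩ := hdec x
      obtain ⟨a', ha', b', hb', rfl⟩ := hdec y
      refine ⟨⁅a, a'⁆, Subgroup.commutator_mem_commutator ha ha', ⁅b, b'⁆, Subgroup.commutator_mem_commutator hb hb', ?_⟩
      have c1 : Commute a b' := hAB a ha b' hb'
      have c2 : Commute a' b := hAB a' ha' b hb
      have c3 : Commute a b := hAB a ha b hb
      have c4 : Commute a' b' := hAB a' ha' b' hb'
      calc ⁅a * b, a' * b'⁆ = a * (b * a') * b' * (b⁻¹ * a⁻¹) * b'⁻¹ * a'⁻¹ := by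
            rw [commutatorElement_def]; group
        _ = a * (a' * b) * b' * (a⁻¹ * b⁻¹) * b'⁻¹ * a'⁻¹ := by rw [c2.eq, c3.inv_inv.eq]
        _ = a * a' * ((b * b') * a⁻¹) * (b⁻¹ * b'⁻¹ * a'⁻¹) := by group
        _ = a * a' * (a⁻¹ * (b * b')) * (a'⁻¹ * (b⁻¹ * b'⁻¹)) := by
            rw [((c3.mul_right c1).inv_left).eq, ((c2.inv_inv).mul_right (c4.inv_inv)).eq]
        _ = a * a' * a⁻¹ * ((b * b') * a'⁻¹) * (b⁻¹ * b'⁻¹) := by group
        _ = a * a' * a⁻¹ * (a'⁻¹ * (b * b')) * (b⁻¹ * b'⁻¹) := by rw [((c2.mul_right c4).inv_left).eq]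
        _ = _ := by rw [commutatorElement_def, commutatorElement_def]; group
    have hperf : A ≤ ⁅A, A⁆ := by
      intro a ha
      have hac : a ∈ commutator _ := by
        obtain ⟨g, hg, rfl⟩ := ha
        rw [commutator_def, ← Subgroup.map_top_of_surjective π hπ, ← Subgroup.map_commutator]
        exact Subgroup.mem_map_of_mem π (hle hg)
      obtain ⟨a', ha', b, hb, he⟩ := hD hac
      have hb1 : b = 1 := by
        have hbA : b ∈ A := by
          have h := (mul_mem_cancel_left (Subgroup.commutator_le_self A ha')).mp (he ▸ ha)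
          exact h
        have hbB : b ∈ B := Subgroup.commutator_le_self B hb
        exact orderOf_eq_one_iff.mp (Nat.eq_one_of_dvd_coprimes
          ((hco'.coprime_dvd_left (H.card_map_dvd π)).coprime_dvd_right (K.card_map_dvd π))
          (Subgroup.orderOf_dvd_natCard A hbA) (Subgroup.orderOf_dvd_natCard B hbB))
      rw [he, hb1, mul_one]; exact ha'
    have hbot : A = ⊥ := by
      by_contra hA
      haveI : Nontrivial ↥A := (Subgroup.nontrivial_iff_ne_bot A).mpr hA
      refine (Group.IsSolvable.commutator_lt_top_of_nontrivial ↥A).ne ?_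
      refine Subgroup.map_injective A.subtype_injective ?_
      rw [show (commutator ↥A).map A.subtype = ⁅A, A⁆ by
        rw [commutator_def, Subgroup.map_commutator, ← MonoidHom.range_eq_map, Subgroup.range_subtype],
        ← MonoidHom.range_eq_map, Subgroup.range_subtype]
      exact le_antisymm (Subgroup.commutator_le_self A) hperf
    rw [Subgroup.map_eq_bot_iff, QuotientGroup.ker_mk'] at hbot
    exact hbot
  have heq : H = ⁅H, K⁆ := le_antisymm hfirst hHK
  refine ⟨heq, fun h ⟨hh, hhc⟩ => ?_⟩
  -- averaging over K in H modulo its derived group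
  haveI : (⁅H, H⁆ : Subgroup G).Normal := Subgroup.commutator_normal H H
  classical
  haveI : Fintype ↥K := Fintype.ofFinite _
  set π := QuotientGroup.mk' (⁅H, H⁆ : Subgroup G)
  set A := H.map π
  have hA : IsMulCommutative ↥A := by
    rw [← Subgroup.le_centralizer_iff_isMulCommutative, ← Subgroup.commutator_eq_bot_iff_le_centralizer,
      ← Subgroup.map_commutator, Subgroup.map_eq_bot_iff, QuotientGroup.ker_mk']
  letI : CommGroup ↥A := { (inferInstance : Group ↥A) with mul_comm := fun a b => mul_comm' a b }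
  let T : ↥K → ↥H →* ↥A := fun k =>
    ((π.comp H.subtype).codRestrict A fun x => Subgroup.mem_map_of_mem π x.2).comp (MulAut.conjNormal (k : G)).toMonoidHom
  let μ : ↥H →* ↥A := ∏ k : ↥K, T k
  have hμ : ∀ x : ↥H, μ x = ∏ k : ↥K, T k x := fun x => MonoidHom.finsetProd_apply T _ x
  have hT : ∀ (k : ↥K) (x : ↥H), ((T k x : ↥A) : G ⧸ (⁅H, H⁆ : Subgroup G)) = π ((k : G) * x * (k : G)⁻¹) := fun k x => by
    show π ((MulAut.conjNormal (k : G) x : ↥H) : G) = _
    rw [MulAut.conjNormal_apply]
  have hker : H.subgroupOf H ≤ μ.ker := by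
    have hle2 : (⁅H, K⁆ : Subgroup G) ≤ μ.ker.map H.subtype := by
      rw [Subgroup.commutator_le]
      intro x hx k hk
      refine ⟨⟨x, hx⟩ * (MulAut.conjNormal (k : G) (⟨x, hx⟩ : ↥H))⁻¹, ?_, ?_⟩
      · show μ _ = 1
        rw [map_mul, map_inv, mul_inv_eq_one, hμ, hμ]
        refine (Fintype.prod_equiv (Equiv.mulRight (⟨k, hk⟩ : ↥K)) _ _ fun j => Subtype.ext ?_).symm
        rw [hT, hT, MulAut.conjNormal_apply]
        congr 1
        simp [mul_assoc]
      · show x * ((MulAut.conjNormal (k : G) (⟨x, hx⟩ : ↥H) : ↥H) : G)⁻¹ = ⁅x, k⁆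
        rw [MulAut.conjNormal_apply, commutatorElement_def]; group
    rw [← heq] at hle2
    intro x hx
    obtain ⟨y, hy, he⟩ := hle2 hx
    rwa [← H.subtype_injective he]
  have h1 : μ ⟨h, hh⟩ = 1 := hker (show (⟨h, hh⟩ : ↥H) ∈ H.subgroupOf H from hh)
  have h2 : (⟨π h, Subgroup.mem_map_of_mem π hh⟩ : ↥A) ^ Nat.card ↥K = 1 := by
    rw [← h1, hμ, Nat.card_eq_fintype_card, ← Finset.card_univ, ← Finset.prod_const]
    refine Finset.prod_congr rfl fun k _ => Subtype.ext ?_
    rw [hT]
    congr 1
    rw [Subgroup.mem_centralizer_iff.mp hhc k k.2]; group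
  have h3 : π h ^ Nat.card ↥K = 1 := congrArg Subtype.val h2
  have h4 : π h = 1 := orderOf_eq_one_iff.mp (Nat.eq_one_of_dvd_coprimes hco'.symm (orderOf_dvd_of_pow_eq_one h3)
    ((orderOf_map_dvd π h).trans (Subgroup.orderOf_dvd_natCard H hh)))
  exact (QuotientGroup.eq_one_iff h).mp h4

theorem coprime_derived {G : Type*} [Group G] [Finite G] (hnil : Group.IsNilpotent ↥(commutator G))
    (hq : (commutator G).index.Prime) : (Nat.card ↥(commutator G)).Coprime (commutator G).index := by
  set q := (commutator G).index with hqdef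
  haveI := Fact.mk hq
  rw [Nat.coprime_comm, hq.coprime_iff_not_dvd]
  intro hdvd
  set D := commutator G
  -- the q'-part of D
  set N := D ⊓ Cfsg.pPrimeCore q G
  haveI : (Cfsg.pPrimeCore q G).Normal := by
    haveI := CfsgLib.Core.pPrimeCore_characteristic (G := G) q
    infer_instance
  haveI : N.Normal := inferInstance
  have hco : (Nat.card ↥N).Coprime q :=
    Nat.Coprime.coprime_dvd_left (Subgroup.card_dvd_of_le inf_le_right) (CfsgLib.Core.card_pPrimeCore_coprime q)
  have hqi : ∀ r : ℕ, r.Prime → r ∣ N.index → r = q := by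
    intro r hr hrN
    by_contra hne
    haveI := Fact.mk hr
    rw [← Subgroup.relIndex_mul_index (inf_le_left : N ≤ D)] at hrN
    rcases (hr.dvd_mul).mp hrN with h | h
    · obtain ⟨R⟩ : Nonempty (Sylow r ↥D) := inferInstance
      haveI hRn : (R : Subgroup ↥D).Normal := CfsgLib.CNGroup.sylow_normal hnil R
      haveI hRchar : (R : Subgroup ↥D).Characteristic := R.characteristic_of_normal hRn
      have hRm : ((R : Subgroup ↥D).map D.subtype).Normal := inferInstance
      have hRle : (R : Subgroup ↥D).map D.subtype ≤ N := by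
        refine le_inf (Subgroup.map_subtype_le _) (CfsgLib.Core.le_pPrimeCore hRm ?_)
        rw [Subgroup.card_map_of_injective D.subtype_injective]
        obtain ⟨j, hj⟩ := R.2.exists_card_eq
        rw [hj]
        exact ((Nat.coprime_primes hr hq).mpr hne).pow_left j
      have h1 : N.relIndex D ∣ ((R : Subgroup ↥D).map D.subtype).relIndex D := Subgroup.relIndex_dvd_of_le_left D hRle
      rw [Subgroup.relIndex, Subgroup.relIndex, Subgroup.subgroupOf, Subgroup.subgroupOf,
        Subgroup.comap_map_eq_self_of_injective D.subtype_injective] at h1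
      exact Sylow.not_dvd_index R (h.trans h1)
    · exact hne ((Nat.prime_dvd_prime_iff_eq hr hq).mp h)
  set π := QuotientGroup.mk' N
  have hQ : IsPGroup q (G ⧸ N) := by
    refine IsPGroup.of_card (n := N.index.primeFactorsList.length) ?_
    rw [← Subgroup.index_eq_card]
    exact Nat.eq_prime_pow_of_unique_prime_dvd Subgroup.index_ne_zero_of_finite fun {d} h1 h2 => hqi d h1 h2
  have hDmap : commutator (G ⧸ N) = D.map π := by
    show ⁅(⊤ : Subgroup (G ⧸ N)), (⊤ : Subgroup (G ⧸ N))⁆ = Subgroup.map π (⁅(⊤ : Subgroup G), (⊤ : Subgroup G)⁆ : Subgroup G)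
    rw [Subgroup.map_commutator, Subgroup.map_top_of_surjective π (QuotientGroup.mk'_surjective N)]
  have hidx : (commutator (G ⧸ N)).index = q := by
    rw [hDmap]
    exact Subgroup.index_map_eq _ (QuotientGroup.mk'_surjective N) (by rw [QuotientGroup.ker_mk']; exact inf_le_left)
  -- a q-group with cyclic abelianization is cyclic
  haveI : Group.IsNilpotent (G ⧸ N) := hQ.isNilpotent
  obtain ⟨g, hg⟩ : ∃ g : G ⧸ N, g ∉ commutator (G ⧸ N) := by
    by_contra hall
    push Not at hall
    rw [(eq_top_iff.mpr fun x _ => hall x : commutator (G ⧸ N) = ⊤), Subgroup.index_top] at hidx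
    exact hq.ne_one hidx.symm
  have hfr : Subgroup.zpowers g ⊔ commutator (G ⧸ N) = ⊤ := by
    haveI : Fact ((commutator (G ⧸ N)).index.Prime) := ⟨hidx.symm ▸ hq⟩
    have h1 : (Subgroup.zpowers g ⊔ commutator (G ⧸ N)).index ∣ q := hidx ▸ Subgroup.index_dvd_of_le le_sup_right
    rcases (Nat.dvd_prime hq).mp h1 with h | h
    · exact Subgroup.index_eq_one.mp h
    · exfalso
      have h2 := Subgroup.relIndex_mul_index (le_sup_right : commutator (G ⧸ N) ≤ Subgroup.zpowers g ⊔ commutator (G ⧸ N))
      rw [h, hidx] at h2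
      have h3 : (commutator (G ⧸ N)).relIndex (Subgroup.zpowers g ⊔ commutator (G ⧸ N)) = 1 :=
        Nat.eq_of_mul_eq_mul_right hq.pos (by rw [h2, one_mul])
      exact hg (Subgroup.relIndex_eq_one.mp h3 (Subgroup.mem_sup_left (Subgroup.mem_zpowers g)))
  have hcyc : Subgroup.zpowers g = ⊤ := by
    refine frattini_nongenerating ?_
    rw [eq_top_iff, ← hfr]
    exact sup_le_sup le_rfl ((CfsgLib.Solvable.commutator_le_frattini (F := (⊤ : Subgroup (G ⧸ N))) inferInstance))
  have hab : commutator (G ⧸ N) = ⊥ := by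
    rw [commutator_def, Subgroup.commutator_eq_bot_iff_le_centralizer, ← hcyc]
    exact Subgroup.le_centralizer_iff_isMulCommutative.mpr inferInstance
  rw [hDmap, Subgroup.map_eq_bot_iff, QuotientGroup.ker_mk'] at hab
  exact hq.coprime_iff_not_dvd.mp hco.symm (hdvd.trans (Subgroup.card_dvd_of_le hab))


/-- Let G be a finite solvable group. (a) If H is a normal subgroup of order coprime to its index, K is a complement to H, and H ≤ G', then H = [H, K] and H ∩ C_G(K) ≤ [H, H]. (b) If G' is nilpotent and has prime index in G, then the order of G' is coprime to its index and G' = [G, K] (the subgroup generated by commutators of elements of G with elements of K) for every complement K of G'. -/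
theorem result {G : Type*} [Group G] [Finite G] [Group.IsSolvable G] :
    (∀ (H K : Subgroup G), H.Normal → (Nat.card H).Coprime H.index → Subgroup.IsComplement' H K → H ≤ commutator G →
        H = ⁅H, K⁆ ∧ H ⊓ Subgroup.centralizer (K : Set G) ≤ ⁅H, H⁆) ∧
      (Group.IsNilpotent ↥(commutator G) → (commutator G).index.Prime →
        (Nat.card ↥(commutator G)).Coprime (commutator G).index ∧
        ∀ K : Subgroup G, Subgroup.IsComplement' (commutator G) K → commutator G = ⁅(⊤ : Subgroup G), K⁆) := by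
  refine ⟨fun H K hH hco hc hle => part_a H K hH hco hc hle, fun hnil hq => ?_⟩
  have hco := coprime_derived hnil hq
  refine ⟨hco, fun K hK => le_antisymm ?_ ?_⟩
  · exact (part_a (commutator G) K inferInstance hco hK le_rfl).1.le.trans (Subgroup.commutator_mono le_top le_rfl)
  · exact Subgroup.commutator_mono le_rfl le_top

end Cfsg.Agent.S1459
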