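import Cfsg.Statements.S1460
import Cfsg.Agent.Lib.GroupB.Coprime

set_option autoImplicit false
open Cfsg

namespace Cfsg.Agent.S1460
theorem focal_eq {G : Type*} [Group G] [Finite G] (K U H : Subgroup G) [K.Normal] (hKU : K ⊔ U = ⊤) (hH : H ≤ U)
    (hcop : (Nat.card H).Coprime (Nat.card K)) : H ⊓ commutator G = H ⊓ ⁅U, U⁆ := by
  refine le_antisymm (fun h hh => ⟨hh.1, ?_⟩) (inf_le_inf_left H (Subgroup.commutator_mono le_top le_top))
  have hsurj : (U.map (QuotientGroup.mk' K)) = ⊤ := by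
    have := congrArg (Subgroup.map (QuotientGroup.mk' K)) hKU
    rwa [Subgroup.map_sup, QuotientGroup.map_mk'_self, bot_sup_eq,
      Subgroup.map_top_of_surjective _ (QuotientGroup.mk'_surjective K)] at this
  have hG' : commutator G ≤ ⁅U, U⁆ ⊔ K := by
    have e : (commutator G).map (QuotientGroup.mk' K) = (⁅U, U⁆).map (QuotientGroup.mk' K) := by
      rw [Subgroup.map_commutator, hsurj, commutator_def, Subgroup.map_commutator,
        Subgroup.map_top_of_surjective _ (QuotientGroup.mk'_surjective K)]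
    have := Subgroup.map_eq_map_iff.mp e
    rw [QuotientGroup.ker_mk'] at this
    exact le_sup_left.trans this.le
  have hh2 : h ∈ ((⁅U, U⁆ ⊔ K : Subgroup G) : Set G) := hG' hh.2
  rw [Subgroup.mul_normal] at hh2
  obtain ⟨u, hu, k, hk, he⟩ := hh2
  have huU : u ∈ U := Subgroup.commutator_le_self U hu
  have hkU : k ∈ U := by
    rw [show k = u⁻¹ * h by rw [← he]; group]
    exact U.mul_mem (U.inv_mem huU) (hH hh.1)
  let f : ↥U →* Abelianization ↥U := Abelianization.of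
  have hker : ∀ x : ↥U, f x = 1 ↔ (x : G) ∈ ⁅U, U⁆ := fun x => by
    rw [← Subgroup.map_subtype_commutator, show f x = 1 ↔ x ∈ f.ker from Iff.rfl, Abelianization.ker_of]
    exact ⟨fun hx => ⟨x, hx, rfl⟩, fun ⟨y, hy, e⟩ => Subtype.ext e ▸ hy⟩
  have hord : ∀ (S : Subgroup G) (x : G) (hx : x ∈ U), x ∈ S → orderOf (f ⟨x, hx⟩) ∣ Nat.card S := fun S x hx hxS => by
    refine (orderOf_map_dvd f _).trans ?_
    rw [Subgroup.orderOf_mk]
    exact S.orderOf_dvd_natCard hxS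
  have hfu : f ⟨u, huU⟩ = 1 := (hker _).mpr hu
  have hfe : f ⟨h, hH hh.1⟩ = f ⟨k, hkU⟩ := by
    rw [show (⟨h, hH hh.1⟩ : ↥U) = ⟨u, huU⟩ * ⟨k, hkU⟩ from Subtype.ext he.symm, map_mul, hfu, one_mul]
  refine (hker ⟨h, hH hh.1⟩).mp (orderOf_eq_one_iff.mp (Nat.eq_one_of_dvd_coprimes hcop (hord H h _ hh.1) ?_))
  rw [hfe]
  exact hord K k hkU hk

theorem conj_factor {G : Type*} [Group G] [Finite G] [Group.IsSolvable G] (K U H : Subgroup G) [K.Normal] (hH : H ≤ U)
    (hcop : (Nat.card H).Coprime (Nat.card K)) {k : G} (hk : k ∈ K) (hkU : H.map (MulAut.conj k).toMonoidHom ≤ U) :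
    ∃ v ∈ K ⊓ U, v⁻¹ * k ∈ K ⊓ Subgroup.centralizer (H : Set G) := by
  have hn : H ≤ Subgroup.normalizer ((K ⊓ U : Subgroup G) : Set G) :=
    CfsgLib.GroupB.Coprime.le_normalizer_of_conj_mem fun h hh x hx =>
      ⟨Subgroup.Normal.conj_mem inferInstance x hx.1 h, U.mul_mem (U.mul_mem (hH hh) hx.2) (U.inv_mem (hH hh))⟩
  have hle : H.map (MulAut.conj k).toMonoidHom ≤ (K ⊓ U) ⊔ H := by
    rintro _ ⟨h, hh, rfl⟩
    have h1 : k * h * k⁻¹ * h⁻¹ ∈ K ⊓ U := by
      refine ⟨?_, U.mul_mem (hkU ⟨h, hh, rfl⟩) (U.inv_mem (hH hh))⟩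
      rw [show k * h * k⁻¹ * h⁻¹ = k * (h * k⁻¹ * h⁻¹) by group]
      exact K.mul_mem hk (Subgroup.Normal.conj_mem inferInstance _ (K.inv_mem hk) h)
    have := Subgroup.mul_mem_sup h1 hh
    rwa [inv_mul_cancel_right] at this
  obtain ⟨v, hv, he⟩ := CfsgLib.GroupB.Coprime.sup_conj (K ⊓ U) H _ hn
    (hcop.symm.coprime_dvd_left (Subgroup.card_dvd_of_le inf_le_left)) hle
    (Subgroup.card_map_of_injective (MulEquiv.injective _)) (Or.inl inferInstance)
  refine ⟨v, hv, K.mul_mem (K.inv_mem hv.1) hk, ?_⟩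
  refine CfsgLib.GroupB.Coprime.mem_centralizer_of_map_conj_eq (G := K) ?_ hcop (K.mul_mem (K.inv_mem hv.1) hk) ?_
  · rw [Subgroup.normalizer_eq_top K]; exact le_top
  · have := congrArg (Subgroup.map (MulAut.conj v⁻¹).toMonoidHom) he
    rw [Subgroup.map_map, Subgroup.map_map] at this
    refine Eq.trans ?_ (this.trans ?_)
    · congr 1; ext x; simp [mul_assoc]
    · rw [show ((MulAut.conj v⁻¹).toMonoidHom.comp (MulAut.conj v).toMonoidHom) = MonoidHom.id G from by ext x; simp [mul_assoc],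
        Subgroup.map_id]


/-- Let G be a finite solvable group, K a normal subgroup and U a subgroup with G = KU, and H ≤ U a subgroup whose order is coprime to that of K. Then H ∩ G' = H ∩ U'; N_G(H) is generated by K ∩ C_G(H) and U ∩ N_G(H); and if gHg⁻¹ ≤ U for some g ∈ G then g = u c with u ∈ U and c ∈ K ∩ C_G(H). -/
theorem result {G : Type*} [Group G] [Finite G] [Group.IsSolvable G] (K U H : Subgroup G) [K.Normal] (hKU : K ⊔ U = ⊤) (hH : H ≤ U) (hcop : (Nat.card H).Coprime (Nat.card K)) :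
    H ⊓ commutator G = H ⊓ ⁅U, U⁆ ∧
      Subgroup.normalizer (H : Set G) = (K ⊓ Subgroup.centralizer (H : Set G)) ⊔ (U ⊓ Subgroup.normalizer (H : Set G)) ∧
      ∀ g : G, H.map (MulAut.conj g).toMonoidHom ≤ U → ∃ u ∈ U, ∃ c ∈ K ⊓ Subgroup.centralizer (H : Set G), g = u * c := by
  refine ⟨focal_eq K U H hKU hH hcop, ?_, ?_⟩
  · refine le_antisymm (fun g hg => ?_) (sup_le (inf_le_right.trans (Subgroup.centralizer_le_normalizer _)) inf_le_right)
    have hg' : g ∈ ((K ⊔ U : Subgroup G) : Set G) := by rw [hKU]; exact Subgroup.mem_top _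
    rw [sup_comm, Subgroup.mul_normal] at hg'
    obtain ⟨u, hu, k, hk, rfl⟩ := hg'
    have hkU : H.map (MulAut.conj k).toMonoidHom ≤ U := by
      rintro _ ⟨h, hh, rfl⟩
      have h1 : u * k * h * (u * k)⁻¹ ∈ U := hH ((Subgroup.mem_normalizer_iff.mp hg h).mp hh)
      show k * h * k⁻¹ ∈ U
      rw [show k * h * k⁻¹ = u⁻¹ * (u * k * h * (u * k)⁻¹) * u by group]
      exact U.mul_mem (U.mul_mem (U.inv_mem hu) h1) hu
    obtain ⟨v, hv, hc⟩ := conj_factor K U H hH hcop hk hkU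
    have huv : u * v ∈ U ⊓ Subgroup.normalizer (H : Set G) := by
      refine ⟨U.mul_mem hu hv.2, ?_⟩
      rw [show u * v = (u * k) * (v⁻¹ * k)⁻¹ by group]
      exact Subgroup.mul_mem _ hg (Subgroup.inv_mem _ (Subgroup.centralizer_le_normalizer _ hc.2))
    show u * k ∈ _
    rw [show u * k = (u * v) * (v⁻¹ * k) by group]
    exact Subgroup.mul_mem _ (Subgroup.mem_sup_right huv) (Subgroup.mem_sup_left hc)
  · intro g hgU
    have hg' : g ∈ ((K ⊔ U : Subgroup G) : Set G) := by rw [hKU]; exact Subgroup.mem_top _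
    rw [sup_comm, Subgroup.mul_normal] at hg'
    obtain ⟨u, hu, k, hk, rfl⟩ := hg'
    have hkU : H.map (MulAut.conj k).toMonoidHom ≤ U := by
      rintro _ ⟨h, hh, rfl⟩
      have h1 : u * k * h * (u * k)⁻¹ ∈ U := hgU ⟨h, hh, rfl⟩
      show k * h * k⁻¹ ∈ U
      rw [show k * h * k⁻¹ = u⁻¹ * (u * k * h * (u * k)⁻¹) * u by group]
      exact U.mul_mem (U.mul_mem (U.inv_mem hu) h1) hu
    obtain ⟨v, hv, hc⟩ := conj_factor K U H hH hcop hk hkU
    exact ⟨u * v, U.mul_mem hu hv.2, v⁻¹ * k, hc, show u * k = _ by group⟩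

end Cfsg.Agent.S1460
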