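import Cfsg.Statements.S1461
import Cfsg.Agent.S1460
import Cfsg.Agent.Lib.PSeries

set_option autoImplicit false
open Cfsg

namespace Cfsg.Agent.S1461
open scoped Pointwise


/-- Let G be a finite solvable group, p a prime with G = O_{p',p,p'}(G), and S a Sylow p-subgroup. Then: if S ≤ G' then S ≤ [N_G(S), N_G(S)]; if Y ⊆ S and xYx⁻¹ ⊆ S then x = g c for some g ∈ N_G(S) and c centralizing Y; and for every p-subgroup Q there is x ∈ C_G(Q ∩ S) with xQx⁻¹ ≤ S. -/
theorem result {G : Type*} [Group G] [Finite G] [Group.IsSolvable G] (p : ℕ) [Fact p.Prime] (hpl : Cfsg.PLengthLE p 1 G) (S : Sylow p G) :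
    ((S : Subgroup G) ≤ commutator G → (S : Subgroup G) ≤ ⁅Subgroup.normalizer ((S : Subgroup G) : Set G), Subgroup.normalizer ((S : Subgroup G) : Set G)⁆) ∧
      (∀ (Y : Set G) (x : G), Y ⊆ (S : Subgroup G) → (fun y => x * y * x⁻¹) '' Y ⊆ (S : Subgroup G) →
        ∃ g ∈ Subgroup.normalizer ((S : Subgroup G) : Set G), ∃ c ∈ Subgroup.centralizer Y, g * c = x) ∧
      ∀ Q : Subgroup G, IsPGroup p Q → ∃ x ∈ Subgroup.centralizer ((Q ⊓ (S : Subgroup G) : Subgroup G) : Set G), Q.map (MulAut.conj x).toMonoidHom ≤ (S : Subgroup G) := by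
  classical
  set K := CfsgLib.PSeries.U p G 1
  set M := CfsgLib.PSeries.U p G 2
  haveI : K.Normal := (Cfsg.upperPSeries p G 1).2
  haveI : M.Normal := (Cfsg.upperPSeries p G 2).2
  have hKcop : (Nat.card K).Coprime p := by
    have := CfsgLib.PSeries.relIndex_succ_even (G := G) (p := p) (n := 0) (by simp)
    rwa [CfsgLib.PSeries.zero, Subgroup.relIndex_bot_left] at this
  have hMidx : M.index.Coprime p := by
    have := CfsgLib.PSeries.relIndex_succ_even (G := G) (p := p) (n := 2) (by decide)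
    rwa [show CfsgLib.PSeries.U p G (2 + 1) = ⊤ from hpl, Subgroup.relIndex_top_right] at this
  have hPM : ∀ Q : Subgroup G, IsPGroup p Q → Q ≤ M := by
    intro Q hQ x hx
    obtain ⟨n, hn⟩ := IsPGroup.iff_orderOf.mp hQ ⟨x, hx⟩
    rw [Subgroup.orderOf_mk] at hn
    rw [← QuotientGroup.eq_one_iff x, ← orderOf_eq_one_iff]
    refine Nat.eq_one_of_dvd_coprimes (hMidx.pow_right n).symm ?_ ?_
    · rw [← hn]; exact orderOf_map_dvd (QuotientGroup.mk' M) x
    · exact orderOf_dvd_natCard _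
  have hSM : (S : Subgroup G) ≤ M := hPM _ S.2
  have hKS : K ⊔ (S : Subgroup G) = M := by
    refine Subgroup.eq_of_le_of_card_ge (sup_le (CfsgLib.PSeries.le_succ 1) hSM) ?_
    obtain ⟨m, hm⟩ := CfsgLib.PSeries.relIndex_succ_odd (G := G) (p := p) (n := 1) (by simp)
    have hn : (S : Subgroup G) ≤ Subgroup.normalizer (K : Set G) := by rw [Subgroup.normalizer_eq_top K]; exact le_top
    obtain ⟨j, hj⟩ := IsPGroup.iff_card.mp S.2
    have hd : K ⊓ (S : Subgroup G) = ⊥ := CfsgLib.GroupB.Coprime.inf_eq_bot_of_coprime (hj ▸ hKcop.pow_right j)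
    rw [CfsgLib.GroupB.Coprime.card_sup_eq hn hd, ← Subgroup.relIndex_bot_left M,
      ← Subgroup.relIndex_mul_relIndex ⊥ K M bot_le (CfsgLib.PSeries.le_succ 1), Subgroup.relIndex_bot_left, hm]
    refine Nat.mul_le_mul_left _ (Nat.le_of_dvd Nat.card_pos ?_)
    have : p ^ m ∣ Nat.card G := by
      rw [← hm]; exact (Subgroup.relIndex_dvd_card K M).trans (Subgroup.card_subgroup_dvd_card M)
    exact S.pow_dvd_card_of_pow_dvd_card this
  set N := Subgroup.normalizer ((S : Subgroup G) : Set G)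
  have hcop : (Nat.card (S : Subgroup G)).Coprime (Nat.card K) := by
    obtain ⟨j, hj⟩ := IsPGroup.iff_card.mp S.2
    rw [hj]; exact (hKcop.pow_right j).symm
  have hKN : K ⊔ N = ⊤ := by
    refine top_unique ?_
    rw [← Sylow.normalizer_sup_eq_top' S hSM]
    exact sup_le le_sup_right (hKS.ge.trans (sup_le le_sup_left (le_sup_of_le_right Subgroup.le_normalizer)))
  have hKS1 : ∀ k ∈ K, ∀ y ∈ (S : Subgroup G), k * y * k⁻¹ ∈ (S : Subgroup G) → k * y = y * k := by
    intro k hk y hy hky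
    have h1 : k * y * k⁻¹ * y⁻¹ ∈ K ⊓ (S : Subgroup G) := by
      refine ⟨?_, Subgroup.mul_mem _ hky (Subgroup.inv_mem _ hy)⟩
      rw [show k * y * k⁻¹ * y⁻¹ = k * (y * k⁻¹ * y⁻¹) by group]
      exact K.mul_mem hk (Subgroup.Normal.conj_mem inferInstance _ (K.inv_mem hk) y)
    rw [CfsgLib.GroupB.Coprime.inf_eq_bot_of_coprime hcop.symm, Subgroup.mem_bot, mul_inv_eq_one, mul_inv_eq_iff_eq_mul] at h1
    exact h1
  refine ⟨fun hS => ?_, fun Y x hY hxY => ?_, fun Q hQ => ?_⟩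
  · have := Cfsg.Agent.S1460.focal_eq K N (S : Subgroup G) hKN Subgroup.le_normalizer hcop
    rw [inf_eq_left.mpr hS] at this
    exact this.le.trans inf_le_right
  · have hx : x ∈ ((N ⊔ K : Subgroup G) : Set G) := by rw [sup_comm, hKN]; exact Subgroup.mem_top _
    rw [Subgroup.mul_normal] at hx
    obtain ⟨g, hg, k, hk, rfl⟩ := hx
    refine ⟨g, hg, k, Subgroup.mem_centralizer_iff.mpr fun y hy => ?_, rfl⟩
    have h1 : g * k * y * (g * k)⁻¹ ∈ (S : Subgroup G) := hxY ⟨y, hy, rfl⟩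
    rw [show g * k * y * (g * k)⁻¹ = g * (k * y * k⁻¹) * g⁻¹ by group] at h1
    exact (hKS1 k hk y (hY hy) ((Subgroup.mem_normalizer_iff.mp hg _).mpr h1)).symm
  · obtain ⟨S', hS'⟩ := hQ.exists_le_sylow
    obtain ⟨g, hg⟩ := MulAction.exists_smul_eq G S' S
    have hx : g ∈ ((N ⊔ K : Subgroup G) : Set G) := by rw [sup_comm, hKN]; exact Subgroup.mem_top _
    rw [Subgroup.mul_normal] at hx
    obtain ⟨n, hn, k, hk, rfl⟩ := hx
    have hconj : ∀ z ∈ Q, k * z * k⁻¹ ∈ (S : Subgroup G) := by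
      intro z hz
      have h1 : n * k * z * (n * k)⁻¹ ∈ (S : Subgroup G) := by
        rw [← hg, Sylow.coe_subgroup_smul]
        exact ⟨z, hS' hz, rfl⟩
      rw [show n * k * z * (n * k)⁻¹ = n * (k * z * k⁻¹) * n⁻¹ by group] at h1
      exact (Subgroup.mem_normalizer_iff.mp hn _).mpr h1
    refine ⟨k, Subgroup.mem_centralizer_iff.mpr fun y hy => (hKS1 k hk y hy.2 (hconj y hy.1)).symm, ?_⟩
    rintro _ ⟨z, hz, rfl⟩
    exact hconj z hz

end Cfsg.Agent.S1461
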