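import Cfsg.Statements.S1462
import Cfsg.Agent.Lib.InvariantCore
import Cfsg.Agent.Lib.PSeries
import Cfsg.Agent.Lib.RigidAut
import Cfsg.Agent.Lib.OddQuad
import Cfsg.Agent.Lib.PLocal.Elementary

set_option autoImplicit false
open Cfsg

namespace Cfsg.Agent.S1462

open CfsgLib.LocalBasic

/-- Let G be a finite solvable group, p an odd prime with G = O_{p',p,p'}(G), E an elementary abelian p-subgroup contained in no larger elementary abelian p-subgroup of G, and L a subgroup of order coprime to p normalized by E. Then L ≤ O_{p'}(G). -/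
theorem result {G : Type*} [Group G] [Finite G] [Group.IsSolvable G] (p : ℕ) [Fact p.Prime] (hp : p ≠ 2) (hpl : Cfsg.PLengthLE p 1 G) (E L : Subgroup G) (hE : Cfsg.IsElementaryAbelian p E)
    (hEmax : ∀ B : Subgroup G, Cfsg.IsElementaryAbelian p B → E ≤ B → B = E) (hL : (Nat.card L).Coprime p) (hEL : E ≤ Subgroup.normalizer (L : Set G)) :
    L ≤ Cfsg.pPrimeCore p G := by
  classical
  set K := CfsgLib.PSeries.U p G 1
  set M := CfsgLib.PSeries.U p G 2
  haveI : K.Normal := (Cfsg.upperPSeries p G 1).2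
  haveI : M.Normal := (Cfsg.upperPSeries p G 2).2
  have hKcop : (Nat.card K).Coprime p := by
    have := CfsgLib.PSeries.relIndex_succ_even (G := G) (p := p) (n := 0) (by simp)
    rwa [CfsgLib.PSeries.zero, Subgroup.relIndex_bot_left] at this
  have hKle : K ≤ Cfsg.pPrimeCore p G := CfsgLib.Core.le_pPrimeCore inferInstance hKcop
  have hMidx : M.index.Coprime p := by
    have := CfsgLib.PSeries.relIndex_succ_even (G := G) (p := p) (n := 2) (by decide)
    rwa [show CfsgLib.PSeries.U p G (2 + 1) = ⊤ from hpl, Subgroup.relIndex_top_right] at this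
  have hpM : ∀ x : G, (∃ k, x ^ p ^ k = 1) → x ∈ M := by
    rintro x ⟨k, hk⟩
    rw [← QuotientGroup.eq_one_iff x, ← orderOf_eq_one_iff]
    exact Nat.eq_one_of_dvd_coprimes (hMidx.pow_right k) (orderOf_dvd_natCard _)
      ((orderOf_map_dvd (QuotientGroup.mk' M) x).trans (orderOf_dvd_of_pow_eq_one hk))
  set π := QuotientGroup.mk' K with hπ
  have hπs := QuotientGroup.mk'_surjective K
  have hker : (Nat.card π.ker).Coprime p := by rw [hπ, QuotientGroup.ker_mk']; exact hKcop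
  set P := M.map π with hP
  haveI : P.Normal := Subgroup.Normal.map inferInstance π hπs
  have hPp : IsPGroup p ↥P := by
    obtain ⟨m, hm⟩ := CfsgLib.PSeries.relIndex_succ_odd (G := G) (p := p) (n := 1) (by simp)
    exact IsPGroup.of_card (n := m) (by rw [hP, CfsgLib.PSeries.card_map_mk K M (CfsgLib.PSeries.le_succ 1)]; exact hm)
  have hEp : IsPGroup p ↥E := CfsgLib.PLocal.el_isPGroup hE
  have hEM : E ≤ M := fun e he => hpM e ⟨1, by rw [pow_one]; exact hE.2 e he⟩
  have hEb : E.map π ≤ P := Subgroup.map_mono hEM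
  have hLb : (Nat.card ↥(L.map π)).Coprime p := hL.coprime_dvd_left (Subgroup.card_map_dvd L π)
  have hcomm : ∀ k ∈ L.map π, ∀ e ∈ E.map π, e * k = k * e := by
    intro k hk e he
    have hek : e * k * e⁻¹ ∈ L.map π :=
      (Subgroup.mem_normalizer_iff.mp (((Subgroup.map_mono hEL).trans (Subgroup.le_normalizer_map π)) he) k).mp hk
    have h : e * k * e⁻¹ * k⁻¹ ∈ P ⊓ L.map π := Subgroup.mem_inf.mpr ⟨by
      rw [show e * k * e⁻¹ * k⁻¹ = e * (k * e⁻¹ * k⁻¹) by group]
      exact mul_mem (hEb he) ((inferInstance : P.Normal).conj_mem _ (inv_mem (hEb he)) k), mul_mem hek (inv_mem hk)⟩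
    rw [CfsgLib.PConstrained.inf_eq_bot_of_coprime hPp hLb, Subgroup.mem_bot, mul_inv_eq_one] at h
    exact mul_inv_eq_iff_eq_mul.mp h
  have hnP : ∀ X : Subgroup (G ⧸ K), X ≤ Subgroup.normalizer (P : Set _) := fun X => by
    rw [Subgroup.normalizer_eq_top]; exact le_top
  -- elements of order `p` centralising the maximal elementary subgroup lie in it
  have hsmall : ∀ x ∈ P, x ^ p = 1 → (∀ e ∈ E.map π, e * x = x * e) → x ∈ E.map π := by
    intro x hxP hxp hxE
    have hxC : x ∈ (Subgroup.centralizer (E : Set G)).map π := by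
      rw [CfsgLib.PConstrained.centralizer_map_eq π hπs hker hEp]; exact hxE
    obtain ⟨c, hc, rfl⟩ := hxC
    obtain ⟨α, β, hα, hβ, hab, ⟨j, hj⟩, hβo⟩ := CfsgLib.ThompsonNPC.exists_mul_parts p c
    have hπβ : π β = 1 := by
      obtain ⟨l, rfl⟩ := Subgroup.mem_zpowers_iff.mp hβ
      refine orderOf_eq_one_iff.mp (Nat.eq_one_of_dvd_coprimes hβo (orderOf_map_dvd π _)
        (orderOf_dvd_of_pow_eq_one ?_))
      rw [map_zpow, ← zpow_natCast, ← zpow_mul, mul_comm, zpow_mul, zpow_natCast, hxp, one_zpow]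
    have hπα : π α = π c := by rw [← hab, map_mul, hπβ, mul_one]
    have hαp : α ^ p = 1 := by
      have hK' : α ^ p ∈ K := (QuotientGroup.eq_one_iff _).mp (show π (α ^ p) = 1 by rw [map_pow, hπα, hxp])
      refine orderOf_eq_one_iff.mp (Nat.eq_one_of_dvd_coprimes (hKcop.pow_right j) (Subgroup.orderOf_dvd_natCard _ hK')
        (orderOf_dvd_of_pow_eq_one ?_))
      rw [← pow_mul, mul_comm, pow_mul, hj, one_pow]
    have h := hEmax _ (CfsgLib.PLocal.el_sup hE (CfsgLib.PLocal.el_zpowers hαp) (fun a ha b hb => by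
      obtain ⟨i, rfl⟩ := hb
      exact (Commute.zpow_right (show Commute a α from (Subgroup.zpowers_le.mpr hc hα) a ha) i).eq)) le_sup_left
    exact ⟨α, h.le (Subgroup.mem_sup_right (Subgroup.mem_zpowers α)), hπα⟩
  -- the centralizer in the normal subgroup is fixed
  set C1 := P ⊓ Subgroup.centralizer ((E.map π : Subgroup _) : Set _) with hC1
  have hfix : ∀ x ∈ P, (∀ e ∈ E.map π, e * x = x * e) → ∀ k ∈ L.map π, k * x = x * k := by
    intro x hx hxe k hk
    have hkN : ∀ z ∈ C1, k * z * k⁻¹ ∈ C1 := fun z hz => by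
      refine Subgroup.mem_inf.mpr ⟨(inferInstance : P.Normal).conj_mem _ (Subgroup.mem_inf.mp hz).1 k, fun e he => ?_⟩
      have c1 : Commute e k := hcomm k hk e he
      exact ((c1.mul_right (show Commute e z from (Subgroup.mem_inf.mp hz).2 e he)).mul_right c1.inv_right).eq
    have hkn : k ∈ Subgroup.normalizer (C1 : Set (G ⧸ K)) := Subgroup.mem_normalizer_fintype hkN
    set α : MulAut ↥C1 := Subgroup.normalizerMonoidHom C1 ⟨k, hkn⟩
    have hα : α = 1 := CfsgLib.RigidAut.eq_one_of_fix_small _ rfl (hPp.to_le inf_le_left) α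
      ((hLb.coprime_dvd_left (Subgroup.orderOf_dvd_natCard _ hk)).coprime_dvd_left
        ((orderOf_map_dvd (Subgroup.normalizerMonoidHom C1) (⟨k, hkn⟩ : ↥(Subgroup.normalizer (C1 : Set (G ⧸ K))))).trans (by rw [Subgroup.orderOf_mk])))
      (fun z hz => Subtype.ext (show k * (z : G ⧸ K) * k⁻¹ = z from mul_inv_eq_iff_eq_mul.mpr (by
        rcases hz with hz | ⟨h, -⟩
        · exact (hcomm k hk _ (hsmall _ (Subgroup.mem_inf.mp z.2).1 (by rw [← SubgroupClass.coe_pow, hz, Subgroup.coe_one])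
            (Subgroup.mem_inf.mp z.2).2)).symm
        · exact absurd h hp)))
    have hz := congrArg (fun f : MulAut ↥C1 => ((f ⟨x, Subgroup.mem_inf.mpr ⟨hx, hxe⟩⟩ : ↥C1) : G ⧸ K)) hα
    exact mul_inv_eq_iff_eq_mul.mp (show k * x * k⁻¹ = x from hz)
  have hcent := CfsgLib.InvariantCore.centralizes_of_commute (hEp.map π) hPp hLb (hnP _) (hnP _) hcomm hfix
  have hpcore : Cfsg.pCore p (G ⧸ K) ≤ P := by
    intro x hx
    obtain ⟨c, rfl⟩ := hπs x
    obtain ⟨α, β, hα, hβ, hab, ⟨j, hj⟩, hβo⟩ := CfsgLib.ThompsonNPC.exists_mul_parts p c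
    obtain ⟨i, hi⟩ := CfsgLib.Core.isPGroup_pCore (G := G ⧸ K) p ⟨_, hx⟩
    have hi' : π c ^ p ^ i = 1 := congrArg Subtype.val hi
    obtain ⟨l, rfl⟩ := Subgroup.mem_zpowers_iff.mp hβ
    have hπβ : π (c ^ l) = 1 := by
      refine orderOf_eq_one_iff.mp (Nat.eq_one_of_dvd_coprimes (hβo.pow_right i) (orderOf_map_dvd π _)
        (orderOf_dvd_of_pow_eq_one ?_))
      rw [map_zpow, ← zpow_natCast, ← zpow_mul, mul_comm, zpow_mul, zpow_natCast, hi', one_zpow]
    exact ⟨α, hpM α ⟨j, hj⟩, by rw [← hab, map_mul, hπβ, mul_one]⟩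
  have hcpc := CfsgLib.OddQuad.centralizer_pCore_le (p := p) (CfsgLib.PSeries.pPrimeCore_quotient_eq_bot (G := G) (p := p) (n := 1) (by simp))
  intro k hk
  have hk' : π k ∈ Cfsg.pCore p (G ⧸ K) := hcpc fun x hx => (hcent _ ⟨k, hk, rfl⟩ x (hpcore hx)).symm
  refine hKle ((QuotientGroup.eq_one_iff k).mp ?_)
  obtain ⟨i, hi⟩ := CfsgLib.Core.isPGroup_pCore (G := G ⧸ K) p ⟨_, hk'⟩
  exact orderOf_eq_one_iff.mp (Nat.eq_one_of_dvd_coprimes (hL.pow_right i)
    ((orderOf_map_dvd π k).trans (Subgroup.orderOf_dvd_natCard _ hk))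
    (orderOf_dvd_of_pow_eq_one (congrArg Subtype.val hi)))

end Cfsg.Agent.S1462
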