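import Cfsg.Statements.S1463
import Cfsg.Agent.Lib.Dickson.Pair

set_option autoImplicit false
open scoped MatrixGroups
open Cfsg

namespace Cfsg.Agent.S1463
open Matrix Polynomial

theorem nilpotent_sq {F : Type*} [Field F] {N : Matrix (Fin 2) (Fin 2) F} {k : ℕ} (h : N ^ k = 0) :
    N * N = 0 ∧ N.trace = 0 := by
  have hd : N.det = 0 := by
    have h1 := congrArg Matrix.det h
    rw [Matrix.det_pow, Matrix.det_zero] at h1
    exact (pow_eq_zero_iff'.mp h1).1
  have hsq : N * N = N.trace • N := by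
    rw [Matrix.det_fin_two] at hd
    ext i j
    fin_cases i <;> fin_cases j <;> simp [Matrix.mul_apply, Fin.sum_univ_two, Matrix.trace_fin_two] <;>
      first | linear_combination -hd | linear_combination hd | ring
  have htr : N.trace = 0 := by
    by_contra ht
    have hp : ∀ m : ℕ, N ^ (m + 1) = N.trace ^ m • N := by
      intro m
      induction m with
      | zero => simp
      | succ m ih => rw [pow_succ, ih, smul_mul_assoc, hsq, smul_smul, ← pow_succ]
    have h1 : N.trace ^ k • N = 0 := by rw [← hp, pow_succ, h, zero_mul]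
    rw [smul_eq_zero] at h1
    rcases h1 with h1 | h1
    · exact ht (pow_eq_zero_iff'.mp h1).1
    · exact ht (by rw [h1, Matrix.trace_zero])
  exact ⟨by rw [hsq, htr, zero_smul], htr⟩

/-- powers of a matrix of determinant one -/
noncomputable def U (R : Type*) [CommRing R] : ℕ → R[X]
  | 0 => 0
  | 1 => 1
  | n + 2 => X * U R (n + 1) - U R n

theorem U_monic (R : Type*) [CommRing R] [Nontrivial R] : ∀ n : ℕ, (U R (n + 1)).Monic ∧ (U R (n + 1)).natDegree = n ∧
    (U R n).degree < (n : WithBot ℕ) := by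
  intro n
  induction n with
  | zero => simp [U]
  | succ n ih =>
    obtain ⟨hm, hd, hl⟩ := ih
    have hX : (X * U R (n + 1)).Monic := monic_X.mul hm
    have hXd : (X * U R (n + 1)).degree = ((n + 1 : ℕ) : WithBot ℕ) := by
      rw [degree_eq_natDegree hX.ne_zero, monic_X.natDegree_mul hm, natDegree_X, hd, add_comm]
    have hlt : (U R n).degree < (X * U R (n + 1)).degree := by
      rw [hXd]; exact hl.trans (by exact_mod_cast Nat.lt_succ_self n)
    refine ⟨by rw [U]; exact hX.sub_of_left hlt, ?_, ?_⟩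
    · exact natDegree_eq_of_degree_eq_some (by rw [U, degree_sub_eq_left_of_degree_lt hlt, hXd])
    · rw [degree_eq_natDegree hm.ne_zero, hd]; exact_mod_cast Nat.lt_succ_self n

theorem pow_eq {R S : Type*} [CommRing R] [CommRing S] [Algebra R S] (M : Matrix (Fin 2) (Fin 2) S) (hd : M.det = 1) :
    ∀ n : ℕ, M ^ (n + 1) = aeval M.trace (U R (n + 1)) • M - aeval M.trace (U R n) • 1 := by
  have hsq : M * M = M.trace • M - 1 := by
    rw [Matrix.det_fin_two] at hd
    ext i j
    fin_cases i <;> fin_cases j <;> simp [Matrix.mul_apply, Fin.sum_univ_two, Matrix.trace_fin_two] <;>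
      first | linear_combination -hd | linear_combination hd | ring
  intro n
  induction n with
  | zero => simp [U]
  | succ n ih =>
    rw [pow_succ, ih, sub_mul, smul_mul_assoc, smul_mul_assoc, one_mul, hsq, smul_sub, smul_smul]
    rw [show U R (n + 1 + 1) = X * U R (n + 1) - U R n from by rw [U], map_sub, map_mul, aeval_X, sub_smul, mul_comm]
    abel

theorem cols_det {F : Type*} [Field F] {v w : Fin 2 → F} (hv : v ≠ 0) (hw : w ∉ Submodule.span F {v}) :
    (CfsgLib.Dickson.cols v w).det ≠ 0 := by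
  intro h
  simp [CfsgLib.Dickson.cols, Matrix.det_fin_two] at h
  refine hw (Submodule.mem_span_singleton.mpr ?_)
  by_cases h0 : v 0 = 0
  · have h1 : v 1 ≠ 0 := fun h1 => hv (funext fun i => by fin_cases i <;> assumption)
    refine ⟨w 1 / v 1, funext fun i => ?_⟩
    fin_cases i <;> simp <;> field_simp <;> linear_combination h
  · refine ⟨w 0 / v 0, funext fun i => ?_⟩
    fin_cases i <;> simp <;> field_simp <;> linear_combination -h


/-- Let F be a field of odd characteristic p and H a finite subgroup of odd order of GL(2, F) that leaves no 1-dimensional subspace of F² invariant. Then p does not divide the order of H. -/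
theorem result {F : Type*} [Field F] (p : ℕ) [Fact p.Prime] [CharP F p] (hp : p ≠ 2)
    (H : Subgroup (GL (Fin 2) F)) [Finite H] (hodd : Odd (Nat.card H))
    (hirr : ∀ v : Fin 2 → F, v ≠ 0 → ∃ g ∈ H, (g : Matrix (Fin 2) (Fin 2) F).mulVec v ∉ Submodule.span F {v}) :
    ¬ p ∣ Nat.card H := by
  classical
  intro hdvd
  letI : Algebra (ZMod p) F := ZMod.algebra F p
  obtain ⟨g, hg⟩ := exists_prime_orderOf_dvd_card' p hdvd
  set N : Matrix (Fin 2) (Fin 2) F := ((g : GL (Fin 2) F) : Matrix (Fin 2) (Fin 2) F) - 1 with hN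
  have hgp : ((g : GL (Fin 2) F) : Matrix (Fin 2) (Fin 2) F) ^ p = 1 := by
    have h1 : (g : GL (Fin 2) F) ^ p = 1 := by rw [← Subgroup.coe_pow, ← hg, pow_orderOf_eq_one]; rfl
    simpa using congrArg Units.val h1
  obtain ⟨hNN, hNtr⟩ := nilpotent_sq (N := N) (k := p) (by
    rw [hN, sub_pow_char_of_commute (R := Matrix (Fin 2) (Fin 2) F) (p := p) (Commute.one_right _), hgp, one_pow, sub_self])
  have hN0 : N ≠ 0 := fun h => by
    have : g = 1 := Subtype.ext (Units.ext (sub_eq_zero.mp (hN ▸ h)))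
    rw [this, orderOf_one] at hg
    exact (Fact.out : p.Prime).one_lt.ne hg
  -- a good vector
  obtain ⟨u, hu⟩ : ∃ u, N *ᵥ u ≠ 0 := by
    by_contra hall
    push Not at hall
    exact hN0 (Matrix.ext_iff_mulVec.mpr fun v => by rw [hall, Matrix.zero_mulVec])
  set v := N *ᵥ u with hv
  have hNv : N *ᵥ v = 0 := by rw [hv, Matrix.mulVec_mulVec, hNN, Matrix.zero_mulVec]
  obtain ⟨h, hh, hhv⟩ := hirr v hu
  set w := (h : Matrix (Fin 2) (Fin 2) F) *ᵥ v with hw
  have hNw : N *ᵥ w ≠ 0 := by
    intro h0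
    have hT := cols_det hu hhv
    have hz : N * CfsgLib.Dickson.cols v w = 0 := by
      ext i j
      have a1 := congrFun hNv i
      have a2 := congrFun h0 i
      simp [Matrix.mulVec, dotProduct, Fin.sum_univ_two] at a1 a2
      fin_cases j <;> simp [CfsgLib.Dickson.cols, Matrix.mul_apply, Fin.sum_univ_two] <;> assumption
    refine hN0 ?_
    calc N = N * CfsgLib.Dickson.cols v w * (CfsgLib.Dickson.cols v w)⁻¹ :=
          (Matrix.mul_nonsing_inv_cancel_right _ _ (isUnit_iff_ne_zero.mpr hT)).symm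
      _ = 0 := by rw [hz, zero_mul]
  set v' := N *ᵥ w with hv'
  have hNv' : N *ᵥ v' = 0 := by rw [hv', Matrix.mulVec_mulVec, hNN, Matrix.zero_mulVec]
  have hwv' : w ∉ Submodule.span F {v'} := by
    intro hm
    obtain ⟨c, hc⟩ := Submodule.mem_span_singleton.mp hm
    apply hNw
    rw [hv', ← hc, Matrix.mulVec_smul, hNv', smul_zero]
  set T := Matrix.GeneralLinearGroup.mkOfDetNeZero (CfsgLib.Dickson.cols v' w) (cols_det hNw hwv') with hT
  set b : GL (Fin 2) F := h * g * h⁻¹ with hb
  have hbH : b ∈ H := H.mul_mem (H.mul_mem hh g.2) (H.inv_mem hh)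
  set a' : GL (Fin 2) F := T⁻¹ * (g : GL (Fin 2) F) * T with ha'
  set b' : GL (Fin 2) F := T⁻¹ * b * T with hb'
  have hmv : ∀ (x y : GL (Fin 2) F) (z : Fin 2 → F),
      ((x * y : GL (Fin 2) F) : Matrix (Fin 2) (Fin 2) F) *ᵥ z = (x : Matrix (Fin 2) (Fin 2) F) *ᵥ ((y : Matrix (Fin 2) (Fin 2) F) *ᵥ z) := fun x y z => by
    rw [Units.val_mul, Matrix.mulVec_mulVec]
  have hone : ∀ z : Fin 2 → F, ((1 : GL (Fin 2) F) : Matrix (Fin 2) (Fin 2) F) *ᵥ z = z := fun z => by
    rw [Units.val_one, Matrix.one_mulVec]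
  have hT0 : (T : Matrix (Fin 2) (Fin 2) F) *ᵥ ![1, 0] = v' := CfsgLib.Dickson.cols_zero v' w
  have hT1 : (T : Matrix (Fin 2) (Fin 2) F) *ᵥ ![0, 1] = w := CfsgLib.Dickson.cols_one v' w
  have hgv : ∀ z : Fin 2 → F, ((g : GL (Fin 2) F) : Matrix (Fin 2) (Fin 2) F) *ᵥ z = N *ᵥ z + z := fun z => by
    rw [hN, Matrix.sub_mulVec, Matrix.one_mulVec, sub_add_cancel]
  have a0 : (a' : Matrix (Fin 2) (Fin 2) F) *ᵥ ![1, 0] = ![1, 0] := by
    rw [ha', hmv, hmv, hT0, hgv, hNv', zero_add, ← hT0, ← hmv, inv_mul_cancel, hone]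
  have a1 : (a' : Matrix (Fin 2) (Fin 2) F) *ᵥ ![0, 1] = ![1, 1] := by
    rw [ha', hmv, hmv, hT1, hgv, ← hv', ← hT0, ← hT1, ← Matrix.mulVec_add, ← hmv, inv_mul_cancel, hone]
    simp
  have b1 : (b' : Matrix (Fin 2) (Fin 2) F) *ᵥ ![0, 1] = ![0, 1] := by
    have hbw : (b : Matrix (Fin 2) (Fin 2) F) *ᵥ w = w := by
      rw [hb, hw, ← hmv, mul_assoc, inv_mul_cancel, mul_one, hmv, hgv, hNv, zero_add]
    rw [hb', hmv, hmv, hT1, hbw, ← hT1, ← hmv, inv_mul_cancel, hone]
  have haM : (a' : Matrix (Fin 2) (Fin 2) F) = !![1, 1; 0, 1] := by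
    have e00 := congrFun a0 0
    have e10 := congrFun a0 1
    have e01 := congrFun a1 0
    have e11 := congrFun a1 1
    simp [Matrix.mulVec, dotProduct, Fin.sum_univ_two] at e00 e10 e01 e11
    ext i j; fin_cases i <;> fin_cases j <;> simp [e00, e10, e01, e11]
  set lam := (b' : Matrix (Fin 2) (Fin 2) F) 1 0 with hlam
  have hbM : (b' : Matrix (Fin 2) (Fin 2) F) = !![1, 0; lam, 1] := by
    have e01 := congrFun b1 0
    have e11 := congrFun b1 1
    simp [Matrix.mulVec, dotProduct, Fin.sum_univ_two] at e01 e11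
    have htr : (b' : Matrix (Fin 2) (Fin 2) F).trace = 2 := by
      rw [show b' = (T⁻¹ * h) * (g : GL (Fin 2) F) * (T⁻¹ * h)⁻¹ by rw [hb', hb]; group]
      rw [Units.val_mul (T⁻¹ * h * (g : GL (Fin 2) F)), Units.val_mul (T⁻¹ * h), Matrix.trace_units_conj,
        show ((g : GL (Fin 2) F) : Matrix (Fin 2) (Fin 2) F) = N + 1 by rw [hN, sub_add_cancel], Matrix.trace_add, hNtr, zero_add, Matrix.trace_one]
      simp
    rw [Matrix.trace_fin_two, e11] at htr
    ext i j; fin_cases i <;> fin_cases j <;> simp [e01, e11, hlam]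
    linear_combination htr
  have hlam0 : lam ≠ 0 := by
    intro h0
    have h1 : b' = 1 := Units.ext (by rw [hbM, h0, Units.val_one]; ext i j; fin_cases i <;> fin_cases j <;> simp)
    have h2 : (g : GL (Fin 2) F) = 1 := by
      rw [hb', hb] at h1
      calc (g : GL (Fin 2) F) = h⁻¹ * T * (T⁻¹ * (h * g * h⁻¹) * T) * T⁻¹ * h := by group
        _ = 1 := by rw [h1]; group
    rw [← Subgroup.orderOf_coe, h2, orderOf_one] at hg
    exact (Fact.out : p.Prime).one_lt.ne hg
  -- conjugate back into H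
  let H' : Subgroup (GL (Fin 2) F) := H.map (MulAut.conj T⁻¹).toMonoidHom
  have hH'c : Nat.card H' = Nat.card H := Subgroup.card_map_of_injective (MulEquiv.injective _)
  have ha'H : a' ∈ H' := ⟨g, g.2, by simp [ha']⟩
  have hb'H : b' ∈ H' := ⟨b, hbH, by simp [hb']⟩
  haveI : Finite H' := Finite.of_equiv _ (H.equivMapOfInjective _ (MulEquiv.injective (MulAut.conj T⁻¹))).toEquiv
  obtain ⟨m, hm0, hm⟩ : ∃ m, 0 < m ∧ ((a' * b' : GL (Fin 2) F) : Matrix (Fin 2) (Fin 2) F) ^ m = 1 := by
    refine ⟨Nat.card H', Nat.card_pos, ?_⟩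
    have h1 : (⟨a' * b', H'.mul_mem ha'H hb'H⟩ : ↥H') ^ Nat.card H' = 1 := pow_card_eq_one'
    rw [← Units.val_pow_eq_pow_val, show (a' * b') ^ Nat.card H' = 1 from congrArg Subtype.val h1, Units.val_one]
  -- lam is algebraic
  have hint : IsIntegral (ZMod p) lam := by
    set M := ((a' * b' : GL (Fin 2) F) : Matrix (Fin 2) (Fin 2) F) with hM
    have hMe : M = !![1 + lam, 1; lam, 1] := by
      rw [hM, Units.val_mul, haM, hbM]
      ext i j; fin_cases i <;> fin_cases j <;> simp [Matrix.mul_apply, Fin.sum_univ_two]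
    have hdet : M.det = 1 := by simp [hMe, Matrix.det_fin_two]
    obtain ⟨k, rfl⟩ := Nat.exists_eq_add_one_of_ne_zero hm0.ne'
    rw [pow_eq (R := ZMod p) M hdet k, hMe] at hm
    have h01 := congrFun (congrFun hm 0) 1
    simp at h01
    have hi : IsIntegral (ZMod p) (lam + 1 + 1) := by
      refine ⟨U (ZMod p) (k + 1), (U_monic (ZMod p) k).1, ?_⟩
      rw [← Polynomial.aeval_def]
      simpa [Matrix.trace_fin_two, add_comm, add_assoc, add_left_comm] using h01
    simpa using (hi.sub isIntegral_one).sub isIntegral_one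
  haveI := IntermediateField.adjoin.finiteDimensional hint
  let K := IntermediateField.adjoin (ZMod p) ({lam} : Set F)
  haveI : Finite K := Module.finite_of_finite (ZMod p)
  letI : Fintype K := Fintype.ofFinite K
  haveI : CharP K p := charP_of_injective_algebraMap (algebraMap (ZMod p) K).injective p
  let l : K := ⟨lam, IntermediateField.mem_adjoin_simple_self (ZMod p) lam⟩
  let A : SpecialLinearGroup (Fin 2) K := ⟨!![1, 1; 0, 1], by simp [Matrix.det_fin_two]⟩
  let B : SpecialLinearGroup (Fin 2) K := ⟨!![1, 0; l, 1], by simp [Matrix.det_fin_two]⟩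
  let φ : SpecialLinearGroup (Fin 2) K →* GL (Fin 2) F :=
    Matrix.SpecialLinearGroup.toGL.comp (Matrix.SpecialLinearGroup.map (algebraMap K F))
  have hφ : Function.Injective φ := by
    intro x y e
    have e' := congrArg (fun z : GL (Fin 2) F => (z : Matrix (Fin 2) (Fin 2) F)) e
    refine Subtype.ext (Matrix.map_injective (algebraMap K F).injective ?_)
    exact e'
  have hφA : φ A = a' := Units.ext (by
    rw [haM]; ext i j; show algebraMap K F (A.1 i j) = _; fin_cases i <;> fin_cases j <;> simp [A])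
  have hφB : φ B = b' := Units.ext (by
    rw [hbM]; ext i j; show algebraMap K F (B.1 i j) = _; fin_cases i <;> fin_cases j <;> simp [B, l])
  set G := Subgroup.closure ({A, B} : Set (SpecialLinearGroup (Fin 2) K))
  have hGH : G.map φ ≤ H' := by
    rw [MonoidHom.map_closure, Subgroup.closure_le]
    rintro _ ⟨x, rfl | rfl, rfl⟩
    · rw [hφA]; exact ha'H
    · rw [hφB]; exact hb'H
  have hGodd : Odd (Nat.card G) := by
    refine (hH'c ▸ hodd).of_dvd_nat ?_
    rw [← Subgroup.card_map_of_injective hφ]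
    exact Subgroup.card_dvd_of_le hGH
  have hords : orderOf A = p ∧ orderOf B = p := by
    refine ⟨?_, ?_⟩
    · rw [← orderOf_injective φ hφ, hφA, ← hg, ← Subgroup.orderOf_coe g,
        ← orderOf_injective (MulAut.conj T⁻¹).toMonoidHom (MulEquiv.injective _) (g : GL (Fin 2) F)]
      simp [ha']
    · rw [← orderOf_injective φ hφ, hφB, ← hg, ← Subgroup.orderOf_coe g,
        ← orderOf_injective (MulAut.conj (T⁻¹ * h)).toMonoidHom (MulEquiv.injective _) (g : GL (Fin 2) F)]
      simp [hb', hb, mul_assoc]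
  have hsyl : 1 < Nat.card (Sylow p G) := by
    by_contra hle
    have h1 : Nat.card (Sylow p G) = 1 := by have := Nat.card_pos (α := Sylow p G); omega
    obtain ⟨⟨hsub⟩, ⟨P⟩⟩ := Nat.card_eq_one_iff_unique.mp h1
    have hmem : ∀ x : G, orderOf x = p → x ∈ (P : Subgroup G) := by
      intro x hx
      obtain ⟨Q, hQ⟩ := (IsPGroup.of_card (n := 1) (by rw [Nat.card_zpowers, hx, pow_one]) :
        IsPGroup p ↥(Subgroup.zpowers x)).exists_le_sylow
      exact (hsub Q P) ▸ hQ (Subgroup.mem_zpowers x)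
    let Ag : G := ⟨A, Subgroup.subset_closure (by simp)⟩
    let Bg : G := ⟨B, Subgroup.subset_closure (by simp)⟩
    have hAP := hmem Ag (by rw [← Subgroup.orderOf_coe]; exact hords.1)
    have hBP := hmem Bg (by rw [← Subgroup.orderOf_coe]; exact hords.2)
    haveI : Nontrivial ↥(P : Subgroup G) := ⟨⟨Ag, hAP⟩, 1, fun e => by
      have : A = 1 := congrArg (fun x : ↥(P : Subgroup G) => ((x : G) : SpecialLinearGroup (Fin 2) K)) e
      rw [this, orderOf_one] at hords
      exact (Fact.out : p.Prime).one_lt.ne hords.1⟩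
    haveI := P.2.center_nontrivial
    obtain ⟨⟨z, hz⟩, hz1⟩ := exists_ne (1 : Subgroup.center ↥(P : Subgroup G))
    obtain ⟨k, hk⟩ := IsPGroup.iff_orderOf.mp P.2 z
    have hzk : ((z : G) : SpecialLinearGroup (Fin 2) K) ^ p ^ k = 1 := by
      have := pow_orderOf_eq_one z
      rw [hk] at this
      exact congrArg (fun x : ↥(P : Subgroup G) => ((x : G) : SpecialLinearGroup (Fin 2) K)) this
    have hcA := congrArg (fun x : ↥(P : Subgroup G) => (((x : G) : SpecialLinearGroup (Fin 2) K) : Matrix (Fin 2) (Fin 2) K))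
      (Subgroup.mem_center_iff.mp hz ⟨Ag, hAP⟩)
    have hcB := congrArg (fun x : ↥(P : Subgroup G) => (((x : G) : SpecialLinearGroup (Fin 2) K) : Matrix (Fin 2) (Fin 2) K))
      (Subgroup.mem_center_iff.mp hz ⟨Bg, hBP⟩)
    obtain ⟨x, hx⟩ := CfsgLib.Dickson.upper_of_commute (p := p) (s := (1 : K)) one_ne_zero hzk hcA
    obtain ⟨y, hy⟩ := CfsgLib.Dickson.lower_of_commute (p := p) (s := l) (fun e => hlam0 (congrArg Subtype.val e)) hzk hcB
    have hx0 : x = 0 := by
      have := congrFun (congrFun (hx.symm.trans hy) 0) 1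
      simpa using this
    refine hz1 (Subtype.ext (Subtype.ext (Subtype.ext (Subtype.ext ?_))))
    rw [hx0] at hx
    exact hx.trans (Matrix.one_fin_two).symm
  obtain ⟨ψ, hψ, hψG⟩ := CfsgLib.Dickson.exists_sl_two_prime hp G hsyl
  have h2 : 2 ∣ Nat.card G := by
    refine dvd_trans ?_ (Subgroup.card_dvd_of_le hψG)
    rw [← Nat.card_congr (MonoidHom.ofInjective hψ).toEquiv]
    have ho : orderOf (-1 : SpecialLinearGroup (Fin 2) (ZMod p)) = 2 := by
      refine orderOf_eq_prime (by simp) fun e => ?_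
      have he := congrFun (congrFun (congrArg Subtype.val e) 0) 0
      simp at he
      haveI := Fact.mk ((Fact.out : p.Prime).two_le.lt_of_ne' hp)
      exact ZMod.neg_one_ne_one he
    exact ho.symm.dvd.trans (orderOf_dvd_natCard _)
  exact (Nat.not_even_iff_odd.mpr hGodd) (even_iff_two_dvd.mpr h2)

end Cfsg.Agent.S1463
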