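import Cfsg.Statements.S1464
import Cfsg.Agent.Lib.OddQuad

set_option autoImplicit false
open Cfsg

namespace Cfsg.Agent.S1464

open scoped commutatorElement

/-- Let p be an odd prime and G a solvable group of odd order, P a p-subgroup with O_{p'}(G)P normal in G, and A a p-subgroup of N_G(P) with [[P, A], A] = 1. Then the image of A in the quotient N_G(P)/C_G(P) is contained in the p-core of that quotient. -/
theorem result {G : Type*} [Group G] [Finite G] [Group.IsSolvable G] (hodd : Odd (Nat.card G)) (p : ℕ) [Fact p.Prime] (hp : p ≠ 2) (P A : Subgroup G) (hP : IsPGroup p P) (hPn : (Cfsg.pPrimeCore p G ⊔ P).Normal)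
    (hA : IsPGroup p A) (hAN : A ≤ Subgroup.normalizer (P : Set G)) (hquad : ⁅⁅P, A⁆, A⁆ = ⊥) :
    (A.subgroupOf (Subgroup.normalizer (P : Set G))).map
        (QuotientGroup.mk' ((Subgroup.centralizer (P : Set G)).subgroupOf (Subgroup.normalizer (P : Set G))))
      ≤ Cfsg.pCore p _ := by
  set N := Subgroup.normalizer (P : Set G)
  rintro _ ⟨a, ha, rfl⟩
  set V := P.subgroupOf N
  haveI : V.Normal := Subgroup.normal_in_normalizer
  have hVp : IsPGroup p ↥V := hP.comap_subtype
  have hq : ∀ v ∈ V, ⁅⁅v, a⁆, a⁆ = 1 := fun v hv => Subtype.ext (Subgroup.mem_bot.mp (hquad ▸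
    Subgroup.commutator_mem_commutator (Subgroup.commutator_mem_commutator (Subgroup.mem_subgroupOf.mp hv) (Subgroup.mem_subgroupOf.mp ha)) (Subgroup.mem_subgroupOf.mp ha) :
      (⁅⁅(v : G), (a : G)⁆, (a : G)⁆) ∈ (⊥ : Subgroup G)))
  have hodd' : Odd (Nat.card ↥N) := hodd.of_dvd_nat (Subgroup.card_subgroup_dvd_card N)
  have h := CfsgLib.OddQuad.mem_pCore_quot hp hodd' V hVp hq
  have e : Subgroup.centralizer (V : Set ↥N) = (Subgroup.centralizer (P : Set G)).subgroupOf N := by
    ext x
    rw [Subgroup.mem_subgroupOf, Subgroup.mem_centralizer_iff, Subgroup.mem_centralizer_iff]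
    exact ⟨fun hx y hy => congrArg Subtype.val (hx ⟨y, Subgroup.le_normalizer hy⟩ hy),
      fun hx y hy => Subtype.ext (hx _ hy)⟩
  haveI : ((Subgroup.centralizer (P : Set G)).subgroupOf N).Normal := e ▸ inferInstance
  have := CfsgLib.Core.pCore_map_le (QuotientGroup.quotientMulEquivOfEq e).toMonoidHom
    (QuotientGroup.quotientMulEquivOfEq e).surjective p ⟨_, h, rfl⟩
  exact this

end Cfsg.Agent.S1464
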