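import Cfsg.Statements.S1470

set_option autoImplicit false
open Cfsg

namespace Cfsg.Agent.S1470

/-- Let p and q be odd primes with (p^q − 1)/(p − 1) coprime to p − 1, and let E be the set of elements a of the field with p ^ q elements whose norm to the prime field is 1 and for which 2 − a also has norm 1. If a⁻¹ ∈ E for every a ∈ E and E has at least two elements, then p ≤ q. -/
theorem result (p q : ℕ) [Fact p.Prime] [Fact q.Prime] (hp : p ≠ 2) (hq : q ≠ 2) (hA : Nat.Coprime ((p ^ q - 1) / (p - 1)) (p - 1))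
    (hinv : ∀ a ∈ {a : GaloisField p q | Algebra.norm (ZMod p) a = 1 ∧ Algebra.norm (ZMod p) (2 - a) = 1}, a⁻¹ ∈ {a : GaloisField p q | Algebra.norm (ZMod p) a = 1 ∧ Algebra.norm (ZMod p) (2 - a) = 1})
    (h2 : 2 ≤ Set.ncard {a : GaloisField p q | Algebra.norm (ZMod p) a = 1 ∧ Algebra.norm (ZMod p) (2 - a) = 1}) :
    p ≤ q := by
  classical
  set E := {a : GaloisField p q | Algebra.norm (ZMod p) a = 1 ∧ Algebra.norm (ZMod p) (2 - a) = 1} with hE
  obtain ⟨a, ha, ha1⟩ := Set.exists_ne_of_one_lt_ncard (s := E) (by omega) 1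
  set N := Algebra.norm (ZMod p) (S := GaloisField p q) with hN
  set c : ℕ → GaloisField p q := fun n => n + 1 - n * a with hcdef
  have hstep : ∀ x ∈ E, (2 - x)⁻¹ ∈ E := fun x hx => hinv _ ⟨hx.2, by simpa using hx.1⟩
  have hne : ∀ x : GaloisField p q, N x = 1 → x ≠ 0 := fun x h h0 => by
    rw [h0, hN, Algebra.norm_zero] at h; exact zero_ne_one h
  have hc : ∀ n : ℕ, N (c n) = 1 ∧ N (c (n + 1)) = 1 ∧ c n / c (n + 1) ∈ E := by
    intro n
    induction n with
    | zero =>
      have e : c 1 = 2 - a := by simp [hcdef]; ring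
      refine ⟨by simp [hcdef, hN], by rw [e]; exact ha.2, ?_⟩
      rw [show c 0 / c (0 + 1) = (2 - a)⁻¹ by rw [zero_add, e]; simp [hcdef]]
      exact hstep a ha
    | succ n ih =>
      obtain ⟨h0, h1, hm⟩ := ih
      have e2 : 2 - c n / c (n + 1) = c (n + 2) / c (n + 1) := by
        have := hne _ h1
        field_simp
        simp only [hcdef]; push_cast; ring
      have hn2 : N (c (n + 2)) = 1 := by
        have h2 : N (2 - c n / c (n + 1)) = 1 := hm.2
        rw [e2, div_eq_mul_inv, map_mul] at h2
        have h3 : N (c (n + 1))⁻¹ = 1 := by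
          have := map_mul N (c (n + 1)) (c (n + 1))⁻¹
          rw [mul_inv_cancel₀ (hne _ h1), map_one, h1, one_mul] at this
          exact this.symm
        rwa [h3, mul_one] at h2
      refine ⟨h1, hn2, ?_⟩
      have := hstep _ hm
      rwa [e2, inv_div] at this
  set β : GaloisField p q := (1 - a)⁻¹
  have hb : (1 : GaloisField p q) - a ≠ 0 := sub_ne_zero.mpr (Ne.symm ha1)
  let b := Module.finBasis (ZMod p) (GaloisField p q)
  set M := Algebra.leftMulMatrix b (-β)
  have hev : ∀ m : ZMod p, N (1 - a) * M.charpoly.eval m = 1 := by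
    intro m
    rw [Matrix.eval_charpoly]
    have e : Matrix.scalar _ m - M = Algebra.leftMulMatrix b (algebraMap (ZMod p) (GaloisField p q) m - -β) := by
      rw [map_sub, AlgHom.commutes]; rfl
    rw [e, ← Algebra.norm_eq_matrix_det b, ← map_mul]
    have e2 : (1 - a) * (algebraMap (ZMod p) (GaloisField p q) m - -β) = c m.val := by
      rw [show algebraMap (ZMod p) (GaloisField p q) m = (m.val : GaloisField p q) by
        rw [← map_natCast (algebraMap (ZMod p) (GaloisField p q)), ZMod.natCast_zmod_val]]
      simp only [hcdef, β]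
      field_simp
      ring
    rw [e2]
    exact (hc m.val).1
  set P := M.charpoly - Polynomial.C (N (1 - a))⁻¹
  have hdeg : P.natDegree = q := by
    rw [Polynomial.natDegree_sub_C, Matrix.charpoly_natDegree_eq_dim, Fintype.card_fin,
      GaloisField.finrank p (Fact.out : q.Prime).ne_zero]
  have hP0 : P ≠ 0 := fun h => (Fact.out : q.Prime).ne_zero (by rw [← hdeg, h, Polynomial.natDegree_zero])
  have hroots : (Finset.univ : Finset (ZMod p)).val ⊆ P.roots := by
    intro m _
    rw [Polynomial.mem_roots hP0, Polynomial.IsRoot.def, Polynomial.eval_sub, Polynomial.eval_C,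
      eq_inv_of_mul_eq_one_right (hev m), sub_self]
  have := (Multiset.card_le_card (Multiset.le_iff_subset Finset.univ.nodup |>.mpr hroots)).trans (Polynomial.card_roots' P)
  rwa [hdeg, Finset.card_val, Finset.card_univ, ZMod.card] at this

end Cfsg.Agent.S1470
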