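import Cfsg.Statements.S1471
import Mathlib.NumberTheory.JacobiSum.Basic
import Mathlib.NumberTheory.DirichletCharacter.Orthogonality
import Mathlib.NumberTheory.MulChar.Lemmas
import Mathlib.Analysis.Complex.Polynomial.Basic
import Mathlib.FieldTheory.Finite.GaloisField
import Mathlib.LinearAlgebra.Matrix.Charpoly.Minpoly
import Mathlib.FieldTheory.IsSepClosed
import Mathlib.RingTheory.RootsOfUnity.AlgebraicallyClosed

set_option autoImplicit false
open Cfsg

namespace Cfsg.Agent.S1471

open Finset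

theorem cubic_case (p : ℕ) [Fact p.Prime] (hp : p ≠ 2) :
    ∃ a : GaloisField p 3, a ≠ 1 ∧ Algebra.norm (ZMod p) a = 1 ∧ Algebra.norm (ZMod p) (2 - a) = 1 := by
  classical
  have hp3 : 3 ≤ p := by have := (Fact.out : p.Prime).two_le; omega
  have h2 : (2 : ZMod p) ≠ 0 := by
    intro h
    have := (ZMod.natCast_eq_zero_iff 2 p).mp (by exact_mod_cast h) |> Nat.le_of_dvd two_pos
    omega
  let T : Finset (ZMod p) := ((Finset.univ.erase 0).erase 1).erase 2
  obtain ⟨c, hc⟩ : ∃ c : ZMod p, c ∉ insert 1 (T.image fun r => r + (r - 1) / (r * (r - 2))) := by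
    by_contra h
    simp only [not_exists, not_not] at h
    have h1 := Finset.card_le_card (fun c _ => h c : (Finset.univ : Finset (ZMod p)) ⊆ _)
    have h3 : T.card = p - 3 := by
      have h12 : (2 : ZMod p) ≠ 1 := fun h => one_ne_zero (by linear_combination h : (1 : ZMod p) = 0)
      simp only [T]
      rw [Finset.card_erase_of_mem (by simp [h12, h2]), Finset.card_erase_of_mem (by simp),
        Finset.card_erase_of_mem (Finset.mem_univ _), Finset.card_univ, ZMod.card]
      omega
    have h4 := (Finset.card_insert_le (1 : ZMod p) (T.image fun r => r + (r - 1) / (r * (r - 2)))).trans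
      (Nat.add_le_add_right Finset.card_image_le 1)
    rw [Finset.card_univ, ZMod.card] at h1
    omega
  simp only [Finset.mem_insert, not_or, Finset.mem_image, not_exists, not_and] at hc
  obtain ⟨g, hg⟩ : ∃ g : Polynomial (ZMod p), g = Polynomial.X * (Polynomial.X - Polynomial.C 2) *
      (Polynomial.X - Polynomial.C c) + (Polynomial.X - Polynomial.C 1) := ⟨_, rfl⟩
  have hev : ∀ r, g.eval r = r * (r - 2) * (r - c) + (r - 1) := fun r => by simp [hg]
  have hmon : g.Monic := by rw [hg]; monicity!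
  have hdeg : g.natDegree = 3 := by rw [hg]; compute_degree!
  have hroot : ∀ r, g.eval r ≠ 0 := by
    intro r hr
    rw [hev] at hr
    by_cases h0 : r = 0
    · subst h0; simp at hr
    by_cases hr2 : r = 2
    · subst hr2; norm_num at hr
    by_cases hr1 : r = 1
    · subst hr1; exact hc.1 (by linear_combination hr)
    refine hc.2 r (by simp [T, h0, hr1, hr2]) ?_
    have : r * (r - 2) ≠ 0 := mul_ne_zero h0 (sub_ne_zero.mpr hr2)
    field_simp
    linear_combination hr
  have hirr : Irreducible g :=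
    (Polynomial.Monic.irreducible_iff_roots_eq_zero_of_degree_le_three hmon (by omega) (by omega)).mpr
      (Multiset.eq_zero_of_forall_notMem fun r hr => hroot r (Polynomial.isRoot_of_mem_roots hr))
  haveI := Fact.mk hirr
  let pb := AdjoinRoot.powerBasis hmon.ne_zero
  have hdim : pb.dim = 3 := by simp [pb, hdeg]
  haveI : Module.Finite (ZMod p) (AdjoinRoot g) := pb.finite
  haveI : Finite (AdjoinRoot g) := Module.finite_of_finite (ZMod p)
  have hcard : Nat.card (AdjoinRoot g) = p ^ 3 := by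
    rw [Module.natCard_eq_pow_finrank (K := ZMod p), Nat.card_zmod, pb.finrank, hdim]
  let e := GaloisField.algEquivGaloisField p 3 hcard
  have hmin : minpoly (ZMod p) pb.gen = g := by
    simp only [pb, AdjoinRoot.powerBasis_gen]
    rw [AdjoinRoot.minpoly_root hmon.ne_zero, hmon.leadingCoeff]; simp
  have hnorm : ∀ t : ZMod p, Algebra.norm (ZMod p) (algebraMap _ (AdjoinRoot g) t - pb.gen) = g.eval t := by
    intro t
    have h := Matrix.eval_charpoly (Algebra.leftMulMatrix pb.basis pb.gen) t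
    rw [charpoly_leftMulMatrix pb, hmin] at h
    rw [Algebra.norm_eq_matrix_det pb.basis, map_sub, AlgHom.commutes, h]
    rfl
  have hfr : Module.finrank (ZMod p) (AdjoinRoot g) = 3 := by rw [pb.finrank, hdim]
  refine ⟨e pb.gen, fun h => ?_, ?_, ?_⟩
  · have h1 : pb.gen = 1 := e.injective (h.trans (map_one e).symm)
    have h0 := hnorm 1
    rw [h1, map_one, sub_self, Algebra.norm_zero, hev] at h0
    exact hc.1 (by linear_combination -h0)
  · rw [Algebra.norm_eq_of_algEquiv]
    have h0 := hnorm 0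
    rw [(algebraMap (ZMod p) (AdjoinRoot g)).map_zero, zero_sub, hev, show -pb.gen = algebraMap (ZMod p) (AdjoinRoot g) (-1) * pb.gen by simp, map_mul,
      Algebra.norm_algebraMap, hfr] at h0
    linear_combination -h0
  · rw [show (2 : GaloisField p 3) - e pb.gen = e (algebraMap (ZMod p) (AdjoinRoot g) 2 - pb.gen) by
      rw [map_sub, map_ofNat, map_ofNat], Algebra.norm_eq_of_algEquiv, hnorm, hev]
    ring

/-- Let p and q be odd primes with (p^q − 1)/(p − 1) coprime to p − 1. Then there are at least two elements a of the field with p ^ q elements such that both a and 2 − a have norm 1 to the prime field. -/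
theorem result (p q : ℕ) [Fact p.Prime] [Fact q.Prime] (hp : p ≠ 2) (hq : q ≠ 2) (hA : Nat.Coprime ((p ^ q - 1) / (p - 1)) (p - 1)) :
    2 ≤ Set.ncard {a : GaloisField p q | Algebra.norm (ZMod p) a = 1 ∧ Algebra.norm (ZMod p) (2 - a) = 1} := by
  classical
  haveI : Fintype (GaloisField p q) := Fintype.ofFinite _
  have hP : p.Prime := Fact.out
  have hQ : q.Prime := Fact.out
  have hp3 : 3 ≤ p := by have := hP.two_le; omega
  have hq3 : 3 ≤ q := by have := hQ.two_le; omega
  have hone : (1 : GaloisField p q) ∈ {a : GaloisField p q | Algebra.norm (ZMod p) a = 1 ∧ Algebra.norm (ZMod p) (2 - a) = 1} :=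
    ⟨map_one _, by rw [show (2 : GaloisField p q) - 1 = 1 by ring, map_one]⟩
  by_cases hq' : q = 3
  · subst hq'
    obtain ⟨a, ha1, ha⟩ := cubic_case p hp
    calc 2 = ({1, a} : Set (GaloisField p 3)).ncard := (Set.ncard_pair ha1.symm).symm
      _ ≤ _ := Set.ncard_le_ncard (by rintro x (rfl | rfl); exacts [hone, ha]) (Set.toFinite _)
  have hq5 : 4 ≤ q := by omega
  by_contra hlt
  obtain ⟨S, hS⟩ : ∃ S : Finset (GaloisField p q), S = Finset.univ.filter fun a : GaloisField p q =>
      Algebra.norm (ZMod p) a = 1 ∧ Algebra.norm (ZMod p) (2 - a) = 1 := ⟨_, rfl⟩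
  have hScard : S.card ≤ 1 := by
    have : {a : GaloisField p q | Algebra.norm (ZMod p) a = 1 ∧ Algebra.norm (ZMod p) (2 - a) = 1} = ↑S := by
      ext a; simp [hS]
    rw [this, Set.ncard_coe_finset] at hlt
    omega
  let lift : DirichletCharacter ℂ p → MulChar (GaloisField p q) ℂ := fun χ =>
    { toMonoidHom := χ.toMonoidHom.comp (Algebra.norm (ZMod p))
      map_nonunit' := fun a ha => by
        have : a = 0 := by simpa [isUnit_iff_ne_zero] using ha
        show χ (Algebra.norm (ZMod p) a) = 0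
        rw [this, Algebra.norm_zero, MulChar.map_zero] }
  have hlift : ∀ χ a, lift χ a = χ (Algebra.norm (ZMod p) a) := fun χ a => rfl
  have hlift1 : ∀ χ, lift χ = 1 → χ = 1 := by
    intro χ h
    refine MulChar.ext fun u => ?_
    obtain ⟨a, ha⟩ := FiniteField.norm_surjective (ZMod p) (GaloisField p q) (u : ZMod p)
    have ha0 : a ≠ 0 := fun h0 => u.ne_zero (by rw [← ha, h0, Algebra.norm_zero])
    rw [MulChar.one_apply_coe, ← ha, ← hlift, h, MulChar.one_apply (isUnit_iff_ne_zero.mpr ha0)]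
  have hcardF : Fintype.card (GaloisField p q) = p ^ q := by
    rw [← Nat.card_eq_fintype_card, GaloisField.card p q hQ.ne_zero]
  have hF2 : (2 : GaloisField p q) ≠ 0 := by
    intro h
    have := Nat.le_of_dvd two_pos ((CharP.cast_eq_zero_iff (GaloisField p q) p 2).mp (by exact_mod_cast h))
    omega
  obtain ⟨s, hs⟩ : ∃ s : ℝ, s = Real.sqrt (((p ^ q : ℕ)) : ℝ) := ⟨_, rfl⟩
  have hs1 : 1 ≤ s := by
    rw [hs]; exact Real.one_le_sqrt.mpr (by exact_mod_cast Nat.one_le_pow _ _ hP.pos)
  have hval : ∀ (φ : MulChar (GaloisField p q) ℂ) (a : GaloisField p q), a ≠ 0 → ‖φ a‖ = 1 := by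
    intro φ a ha
    refine Complex.norm_eq_one_of_pow_eq_one (n := Fintype.card (GaloisField p q) - 1) ?_ ?_
    · rw [← map_pow, FiniteField.pow_card_sub_one_eq_one a ha, map_one]
    · have := Fintype.one_lt_card (α := GaloisField p q); omega
  have hJ : ∀ φ ρ : MulChar (GaloisField p q) ℂ, ¬ (φ = 1 ∧ ρ = 1) → ‖jacobiSum φ ρ‖ ≤ s := by
    intro φ ρ h
    by_cases h1 : φ = 1
    · rw [h1, jacobiSum_one_nontrivial fun h2 => h ⟨h1, h2⟩]; simpa using hs1
    by_cases h2 : ρ = 1
    · rw [h2, jacobiSum_comm, jacobiSum_one_nontrivial h1]; simpa using hs1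
    by_cases h3 : φ * ρ = 1
    · rw [eq_inv_of_mul_eq_one_right h3, jacobiSum_nontrivial_inv h1, norm_neg, hval _ _ (neg_ne_zero.mpr one_ne_zero)]
      exact hs1
    have hne : ringChar ℂ ≠ ringChar (GaloisField p q) := by
      rw [ringChar.eq_zero, ringChar.eq (GaloisField p q) p]; exact hP.ne_zero.symm
    have hm := jacobiSum_mul_jacobiSum_inv hne h1 h2 h3
    have hconj : jacobiSum φ⁻¹ ρ⁻¹ = (starRingEnd ℂ) (jacobiSum φ ρ) := by
      simp only [jacobiSum, map_sum, map_mul]
      refine Finset.sum_congr rfl fun x _ => ?_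
      rw [← MulChar.star_apply', ← MulChar.star_apply']
      simp
    rw [hconj, Complex.mul_conj, hcardF] at hm
    have hm' : Complex.normSq (jacobiSum φ ρ) = ((p ^ q : ℕ) : ℝ) := by exact_mod_cast hm
    rw [hs, ← hm', Complex.norm_def]
  have hinner : ∀ χ ψ : DirichletCharacter ℂ p,
      ∑ a : GaloisField p q, χ (Algebra.norm (ZMod p) a) * ψ (Algebra.norm (ZMod p) (2 - a)) =
        lift χ 2 * lift ψ 2 * jacobiSum (lift χ) (lift ψ) := by
    intro χ ψ
    rw [jacobiSum, Finset.mul_sum]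
    refine (Fintype.sum_equiv (Equiv.mulLeft₀ (2 : GaloisField p q) hF2) _ _ fun b => ?_).symm
    show lift χ 2 * lift ψ 2 * (lift χ b * lift ψ (1 - b)) = lift χ (2 * b) * lift ψ (2 - 2 * b)
    rw [show (2 : GaloisField p q) - 2 * b = 2 * (1 - b) by ring, map_mul, map_mul]
    ring
  have hkey : ∑ x : DirichletCharacter ℂ p × DirichletCharacter ℂ p,
      lift x.1 2 * lift x.2 2 * jacobiSum (lift x.1) (lift x.2) = (S.card : ℂ) * ((p - 1 : ℕ) : ℂ) ^ 2 := by
    simp only [← hinner, Fintype.sum_prod_type]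
    rw [show (∑ χ : DirichletCharacter ℂ p, ∑ ψ : DirichletCharacter ℂ p, ∑ a : GaloisField p q,
        χ (Algebra.norm (ZMod p) a) * ψ (Algebra.norm (ZMod p) (2 - a))) =
      ∑ a : GaloisField p q, (∑ χ : DirichletCharacter ℂ p, χ (Algebra.norm (ZMod p) a)) *
        ∑ ψ : DirichletCharacter ℂ p, ψ (Algebra.norm (ZMod p) (2 - a)) by
      simp only [Finset.sum_mul_sum]
      rw [Finset.sum_comm_cycle]]
    simp only [DirichletCharacter.sum_characters_eq, Nat.totient_prime hP, ite_mul, zero_mul, mul_ite, mul_zero,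
      ← ite_and]
    rw [← Finset.sum_filter, Finset.sum_const, nsmul_eq_mul, hS, sq]
    simp only [and_comm]
  have hcardχ : Fintype.card (DirichletCharacter ℂ p) = p - 1 := by
    rw [← Nat.card_eq_fintype_card, DirichletCharacter.card_eq_totient_of_hasEnoughRootsOfUnity, Nat.totient_prime hP]
  rw [← Finset.add_sum_erase _ _ (Finset.mem_univ ((1, 1) : DirichletCharacter ℂ p × DirichletCharacter ℂ p))] at hkey
  have hmain : lift (1 : DirichletCharacter ℂ p) 2 * lift (1 : DirichletCharacter ℂ p) 2 *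
      jacobiSum (lift (1 : DirichletCharacter ℂ p)) (lift (1 : DirichletCharacter ℂ p)) = ((p ^ q : ℕ) : ℂ) - 2 := by
    have h1 : lift (1 : DirichletCharacter ℂ p) = 1 := MulChar.ext fun u => by
      rw [hlift, MulChar.one_apply_coe, MulChar.one_apply (isUnit_iff_ne_zero.mpr (Algebra.norm_ne_zero_iff.mpr u.ne_zero))]
    rw [h1, MulChar.one_apply (isUnit_iff_ne_zero.mpr hF2), one_mul, one_mul, jacobiSum_one_one, hcardF]
  simp only [hmain] at hkey
  have hbound : ‖∑ x ∈ Finset.univ.erase ((1, 1) : DirichletCharacter ℂ p × DirichletCharacter ℂ p),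
      lift x.1 2 * lift x.2 2 * jacobiSum (lift x.1) (lift x.2)‖ ≤ (((p - 1 : ℕ) : ℝ) ^ 2 - 1) * s := by
    refine (norm_sum_le _ _).trans ((Finset.sum_le_card_nsmul _ _ s fun x hx => ?_).trans (le_of_eq ?_))
    · rw [norm_mul, norm_mul, hval _ _ hF2, hval _ _ hF2, one_mul, one_mul]
      refine hJ _ _ fun h => (Finset.mem_erase.mp hx).1 ?_
      exact Prod.ext (hlift1 _ h.1) (hlift1 _ h.2)
    · rw [Finset.card_erase_of_mem (Finset.mem_univ _), Finset.card_univ, Fintype.card_prod, hcardχ, nsmul_eq_mul,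
        Nat.cast_sub (Nat.one_le_iff_ne_zero.mpr (Nat.mul_ne_zero (by omega) (by omega))), Nat.cast_mul, sq, Nat.cast_one]
  rw [eq_sub_of_add_eq' hkey] at hbound
  have hre := (abs_le.mp ((Complex.abs_re_le_norm _).trans hbound)).1
  simp only [Complex.sub_re, Complex.natCast_re, Complex.re_ofNat, ← Nat.cast_pow, ← Nat.cast_mul] at hre
  push_cast [Nat.cast_sub (by omega : 1 ≤ p)] at hre
  have hs2 : s ^ 2 = (p : ℝ) ^ q := by
    rw [hs, Real.sq_sqrt (Nat.cast_nonneg _)]; push_cast; rfl
  have hsp : (p : ℝ) ^ 2 ≤ s := by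
    rw [hs]
    refine Real.le_sqrt_of_sq_le ?_
    rw [← pow_mul]; push_cast
    exact pow_le_pow_right₀ (by exact_mod_cast hP.one_le) hq5
  have hp3' : (3 : ℝ) ≤ p := by exact_mod_cast hp3
  have hS1 : (S.card : ℝ) ≤ 1 := by exact_mod_cast hScard
  have hS0 : (S.card : ℝ) * ((p : ℝ) - 1) ^ 2 ≤ ((p : ℝ) - 1) ^ 2 := mul_le_of_le_one_left (sq_nonneg _) hS1
  have hfin : 2 * (p : ℝ) * (p : ℝ) ^ 2 ≤ s * (s - (p : ℝ) ^ 2 + 2 * p) := by
    nlinarith
  nlinarith

end Cfsg.Agent.S1471
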