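import Cfsg.Statements.S1474
import Cfsg.Agent.S0039
import Cfsg.Agent.Lib.FpfCN

set_option autoImplicit false
open Cfsg

open CfsgLib.CNGroup

namespace Cfsg.Agent.S1474

/-- Let G be a finite group in which every non-identity element has nilpotent centralizer, not itself nilpotent, and having a nontrivial normal Sylow p-subgroup for some prime p. Let H be the largest normal nilpotent Hall subgroup of G. Then H is a nontrivial proper normal subgroup with a complement E that is a Frobenius complement in G (no non-identity element of E centralizes a non-identity element of H), and G/H is nilpotent. -/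
theorem result {G : Type*} [Group G] [Finite G] (hCN : Cfsg.IsCNGroup G) (hnn : ¬ Group.IsNilpotent G) (p : ℕ) [Fact p.Prime] (P : Sylow p G)
    (hP1 : (P : Subgroup G) ≠ ⊥) (hPn : (P : Subgroup G).Normal) :
    Cfsg.fittingHall G ≠ ⊥ ∧ Cfsg.fittingHall G ≠ ⊤ ∧
      (∃ E : Subgroup G, Subgroup.IsComplement' (Cfsg.fittingHall G) E ∧ Cfsg.IsFrobeniusComplement E ∧
        ∀ e ∈ E, e ≠ 1 → Cfsg.fittingHall G ⊓ Subgroup.centralizer ({e} : Set G) = ⊥) ∧
      Group.IsNilpotent (G ⧸ Cfsg.fittingHall G) := by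
  classical
  set F := Cfsg.fittingSubgroup G with hFdef
  haveI : Group.IsNilpotent F := CfsgLib.Core.isNilpotent_fittingSubgroup
  haveI hFn : F.Normal := CfsgLib.Core.fittingSubgroup_normal
  have hPF : (P : Subgroup G) ≤ F := CfsgLib.Core.le_fittingSubgroup hPn (IsPGroup.isNilpotent P.2)
  haveI := hPn
  obtain ⟨x, hx, hx1⟩ := (P : Subgroup G).bot_or_exists_ne_one.resolve_left hP1
  have hCF : Subgroup.centralizer ((P : Subgroup G) : Set G) ≤ F :=
    CfsgLib.Core.le_fittingSubgroup inferInstance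
      (CfsgLib.CNQuotient.isNilpotent_le (Subgroup.centralizer_le (Set.singleton_subset_iff.2 hx)) (hCN x hx1))
  have hFmax : IsMaxNilp F := by
    refine ⟨inferInstance, fun L hL hle => le_antisymm ?_ hle⟩
    refine le_of_prime_pow_elements fun r hr a ha ⟨i, hi⟩ => ?_
    by_cases hrp : r = p
    · subst hrp
      refine hPF ?_
      have h1 : IsPGroup r (Subgroup.zpowers a) := IsPGroup.of_card (n := i) (by rw [Nat.card_zpowers, hi])
      exact (P.3 (h1.to_sup_of_normal_right P.2) le_sup_right).le (Subgroup.mem_sup_left (Subgroup.mem_zpowers a))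
    · refine hCF (Subgroup.mem_centralizer_iff.2 fun y hy => ?_)
      obtain ⟨j, hj⟩ := IsPGroup.iff_orderOf.1 P.2 ⟨y, hy⟩
      rw [Subgroup.orderOf_mk] at hj
      exact (commute_of_coprime hL ha (hle (hPF hy)) (by
        rw [hi, hj]; exact ((Nat.coprime_primes hr Fact.out).2 hrp).pow i j)).symm
  have hcopF : (Nat.card F).Coprime F.index := coprime_index hCN hFmax
  have hFH : Cfsg.fittingHall G = F :=
    le_antisymm (sSup_le fun N hN => CfsgLib.Core.le_fittingSubgroup hN.1 hN.2.1) (le_sSup ⟨hFn, inferInstance, hcopF⟩)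
  have hC : ∀ v ∈ F, v ≠ 1 → Subgroup.centralizer ({v} : Set G) ≤ F := fun v hv hv1 =>
    centralizer_le_of_ti hCN hFmax (fun g hg => absurd (Subgroup.mem_normalizer_iff_map_conj_eq.1 (by
      rw [Subgroup.normalizer_eq_top (H := F)]; exact Subgroup.mem_top g)) hg) hv hv1
  have hF1 : F ≠ ⊥ := fun h => hP1 (le_bot_iff.1 (h ▸ hPF))
  have hFtop : F ≠ ⊤ := fun h => hnn (by
    haveI : Group.IsNilpotent (⊤ : Subgroup G) := h ▸ (inferInstance : Group.IsNilpotent F)
    exact Group.nilpotent_of_mulEquiv (G := (⊤ : Subgroup G)) Subgroup.topEquiv)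
  obtain ⟨E, hE⟩ := Subgroup.exists_right_complement'_of_coprime hcopF
  have hE1 : E ≠ ⊥ := fun h => hFtop (by simpa [h, Subgroup.isComplement'_bot_right] using hE)
  have hfpf : ∀ e ∈ E, e ≠ 1 → F ⊓ Subgroup.centralizer ({e} : Set G) = ⊥ := by
    intro e he he1
    rw [eq_bot_iff]
    rintro v ⟨hv, hvc⟩
    rw [Subgroup.mem_bot]
    by_contra hv1
    exact he1 (Subgroup.disjoint_def.1 hE.disjoint
      (hC v hv hv1 (Subgroup.mem_centralizer_singleton_iff.2 (Subgroup.mem_centralizer_singleton_iff.1 hvc).symm)) he)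
  have hEn : Group.IsNilpotent E := by
    let V := F ⊓ Subgroup.centralizer (F : Set G)
    have hV1 : V ≠ ⊥ := by
      obtain ⟨q, hq, hqd⟩ := Nat.exists_prime_and_dvd fun h => hF1 (Subgroup.card_eq_one.1 h)
      obtain ⟨z, hz, hzo, hzc⟩ := exists_central hFmax.1 hq hqd
      intro h
      have h2 : z ∈ V := ⟨hz, Subgroup.mem_centralizer_iff.2 fun y hy => hzc y hy⟩
      rw [h, Subgroup.mem_bot] at h2
      exact hq.ne_one (by rw [← hzo, h2, orderOf_one])
    have hVc : IsMulCommutative V := ⟨⟨fun a b => Subtype.ext (Subgroup.mem_centralizer_iff.1 b.2.2 a a.2.1)⟩⟩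
    haveI hVn : V.Normal := inferInstance
    have hfV : ∀ e ∈ E, e ≠ 1 → V ⊓ Subgroup.centralizer ({e} : Set G) = ⊥ := fun e he he1 =>
      le_bot_iff.1 ((inf_le_inf_right _ inf_le_left).trans (hfpf e he he1).le)
    rcases Nat.even_or_odd (Nat.card E) with hev | hodd
    · have hinv : ∀ t ∈ E, orderOf t = 2 → ∀ v ∈ V, t * v * t⁻¹ = v⁻¹ := by
        intro t ht hto v hv
        have ht1 : t ≠ 1 := fun e => by rw [e, orderOf_one] at hto; omega
        have htt : t * t = 1 := by rw [← pow_two, ← hto, pow_orderOf_eq_one]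
        have hc : v * (t * v * t⁻¹) = (t * v * t⁻¹) * v :=
          congrArg Subtype.val (hVc.is_comm.comm ⟨v, hv⟩ ⟨_, hVn.conj_mem v hv t⟩)
        have htinv : t⁻¹ = t := inv_eq_of_mul_eq_one_right htt
        have h1 : v * (t * v * t⁻¹) ∈ V ⊓ Subgroup.centralizer ({t} : Set G) := by
          refine ⟨V.mul_mem hv (hVn.conj_mem v hv t), Subgroup.mem_centralizer_singleton_iff.2 ?_⟩
          rw [htinv] at hc ⊢
          calc v * (t * v * t) * t = v * t * v * (t * t) := by group
            _ = v * t * v := by rw [htt, mul_one]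
            _ = (t * t) * (v * t * v) := by rw [htt, one_mul]
            _ = t * (t * v * t * v) := by group
            _ = t * (v * (t * v * t)) := by rw [hc]
        rw [hfV t ht ht1, Subgroup.mem_bot] at h1
        exact eq_inv_of_mul_eq_one_right h1
      obtain ⟨t, hto⟩ := exists_prime_orderOf_dvd_card' (G := E) 2 (even_iff_two_dvd.1 hev)
      rw [← Subgroup.orderOf_coe] at hto
      refine CfsgLib.FpfCN.isNilpotent_of_central hCN (c := (t : G)) (fun e => by rw [e, orderOf_one] at hto; omega)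
        fun e he => ?_
      have hso : orderOf (e * (t : G) * e⁻¹) = 2 := by rw [← MulAut.conj_apply, MulEquiv.orderOf_eq, hto]
      have hsE : e * (t : G) * e⁻¹ ∈ E := E.mul_mem (E.mul_mem he t.2) (E.inv_mem he)
      suffices h : (t : G) * (e * t * e⁻¹) = 1 by
        have htt : (t : G) * t = 1 := by rw [← pow_two, ← hto, pow_orderOf_eq_one]
        calc e * (t : G) = ((t : G) * t) * (e * t * e⁻¹) * e := by rw [htt, one_mul]; group
          _ = (t : G) * ((t : G) * (e * t * e⁻¹)) * e := by group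
          _ = (t : G) * e := by rw [h, mul_one]
      by_contra hne
      obtain ⟨v, hv, hv1⟩ := V.bot_or_exists_ne_one.resolve_left hV1
      refine hv1 (Subgroup.mem_bot.1 (hfV _ (E.mul_mem t.2 hsE) hne ▸ ⟨hv, ?_⟩ : v ∈ (⊥ : Subgroup G)))
      have h1 := hinv _ hsE hso v hv
      have h2 := hinv _ t.2 hto v⁻¹ (V.inv_mem hv)
      rw [inv_inv] at h2
      refine Subgroup.mem_centralizer_singleton_iff.2 ?_
      generalize e * (t : G) * e⁻¹ = s at h1 ⊢
      calc v * ((t : G) * s) = ((t : G) * v⁻¹ * (t : G)⁻¹) * ((t : G) * s) := by rw [h2]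
        _ = (t : G) * v⁻¹ * s := by group
        _ = (t : G) * (s * v * s⁻¹) * s := by rw [h1]
        _ = (t : G) * s * v := by group
    · haveI := CfsgLib.FpfCN.isCyclic hCN hVc hV1 (Subgroup.normalizer_eq_top (H := V) ▸ le_top) hfV hodd
      letI := IsCyclic.commGroup (α := E)
      exact CommGroup.isNilpotent
  suffices key : ∀ (K : Subgroup G) [K.Normal], K = F →
      K ≠ ⊥ ∧ K ≠ ⊤ ∧ (∃ E : Subgroup G, Subgroup.IsComplement' K E ∧ Cfsg.IsFrobeniusComplement E ∧
        ∀ e ∈ E, e ≠ 1 → K ⊓ Subgroup.centralizer ({e} : Set G) = ⊥) ∧ Group.IsNilpotent (G ⧸ K) from key _ hFH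
  intro K hK hKF
  subst hKF
  refine ⟨hF1, hFtop, ⟨E, hE, (Cfsg.Agent.S0039.result F E hE hF1 hE1).2 hfpf, hfpf⟩, ?_⟩
  haveI := hEn
  refine Group.nilpotent_of_surjective ((QuotientGroup.mk' F).comp E.subtype) fun y => ?_
  obtain ⟨g, rfl⟩ := QuotientGroup.mk'_surjective F y
  obtain ⟨⟨⟨a, ha⟩, b⟩, hab⟩ := hE.2 g
  refine ⟨b, ?_⟩
  rw [← hab]
  show QuotientGroup.mk' F (b : G) = QuotientGroup.mk' F (a * (b : G))
  rw [map_mul, show QuotientGroup.mk' F a = 1 from (QuotientGroup.eq_one_iff _).2 ha, one_mul]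

end Cfsg.Agent.S1474
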