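import Cfsg.Statements.S1475
import Cfsg.Agent.Lib.PrimeGraph

set_option autoImplicit false
open Cfsg

namespace Cfsg.Agent.S1475

/-- Let G be a finite solvable group such that the order of every element is a prime power (1 included). Then at most two distinct primes divide the order of G. -/
theorem result {G : Type*} [Group G] [Finite G] [Group.IsSolvable G] (h : ∀ g : G, IsPrimePow (orderOf g) ∨ g = 1) :
    (Nat.card G).primeFactors.card ≤ 2 := by
  by_contra hlt
  obtain ⟨r, hr, s, hs, t, ht, hrs, hrt, hst⟩ := Finset.two_lt_card.mp (lt_of_not_ge hlt)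
  haveI : (⊤ : Subgroup G).Normal := inferInstance
  have hpr := fun {x : ℕ} (hx : x ∈ (Nat.card G).primeFactors) => Nat.mem_primeFactors.mp hx
  refine CfsgLib.PrimeGraph.solvable_normal_one (⊤ : Subgroup G) (hpr hr).1 (hpr hs).1 (hpr ht).1 hrs hrt hst
    (by rw [Subgroup.card_top]; exact (hpr hr).2.1) (by rw [Subgroup.card_top]; exact (hpr hs).2.1) (hpr ht).2.1 ?_
  rintro a ha b hb hab ⟨x, hx⟩
  have hA : ∀ y ∈ ({r, s, t} : Finset ℕ), y.Prime := by simp [(hpr hr).1, (hpr hs).1, (hpr ht).1]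
  rcases h x with h1 | h1
  · rw [hx] at h1
    exact hab (isPrimePow_iff_unique_prime_dvd.mp h1 |>.unique ⟨hA a ha, dvd_mul_right _ _⟩ ⟨hA b hb, dvd_mul_left _ _⟩)
  · rw [h1, orderOf_one] at hx
    exact (hA a ha).ne_one (mul_eq_one.mp hx.symm).1

end Cfsg.Agent.S1475
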