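import Cfsg.Statements.S1478
import Cfsg.Agent.Lib.CNOddMaximal
import Cfsg.Agent.Lib.FpfCN

set_option autoImplicit false
open Cfsg

open CfsgLib.CNGroup CfsgLib.CNOdd

namespace Cfsg.Agent.S1478

/-- Let G be a minimal simple group of odd order in which every non-identity element has nilpotent centralizer. Then no subgroup of G is a three-step group with respect to any prime. -/
theorem result {G : Type*} [Group G] [Finite G] (hG : Cfsg.IsMinSimpleOddOrder G) (hCN : Cfsg.IsCNGroup G) :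
    ∀ (H : Subgroup G) (p : ℕ), ¬ Cfsg.IsThreeStepGroup p ↥H := by
  rintro H p ⟨hcore, A, hA1, -, -, hAp, hnorm, hne, -, hfpf, hQ⟩
  set K := Cfsg.pCore p H with hK
  have hHtop : H ≠ ⊤ := by
    rintro rfl
    haveI := hG.2.1
    have h1 : (K.map (⊤ : Subgroup G).subtype).Normal := by
      refine ⟨?_⟩
      rintro _ ⟨k, hk, rfl⟩ g
      exact ⟨⟨g, Subgroup.mem_top g⟩ * k * ⟨g, Subgroup.mem_top g⟩⁻¹, (Cfsg.pCore_normal p _).conj_mem k hk _, rfl⟩
    rcases h1.eq_bot_or_eq_top with h | h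
    · exact hcore ((Subgroup.map_eq_bot_iff_of_injective _ (⊤ : Subgroup G).subtype_injective).1 h)
    · refine hne (top_le_iff.1 fun x _ => Subgroup.mem_sup_left ?_)
      have hx' : (x : G) ∈ K.map (⊤ : Subgroup G).subtype := by rw [h]; exact Subgroup.mem_top _
      obtain ⟨y, hy, hy'⟩ := hx'
      rwa [Subtype.ext hy'] at hy
  haveI : Group.IsSolvable H := hG.2.2.2 H hHtop
  set F := Cfsg.fittingSubgroup H with hF
  haveI : Group.IsNilpotent F := CfsgLib.Core.isNilpotent_fittingSubgroup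
  haveI hFn : F.Normal := CfsgLib.Core.fittingSubgroup_normal
  have hF1 : F ≠ ⊥ := fun h => hcore (le_bot_iff.1 (le_trans (le_top : K ≤ ⊤) fun x _ => by
    have h1 : x ∈ F := CfsgLib.GenFitting.solvableRadical_inf_centralizer_le
      ⟨(le_sSup (⟨inferInstance, inferInstance⟩ : (⊤ : Subgroup H).Normal ∧ Group.IsSolvable ↥(⊤ : Subgroup H)) :
        ⊤ ≤ Cfsg.solvableRadical H) (Subgroup.mem_top _), by
        show x ∈ Subgroup.centralizer (F : Set H)
        rw [h, Subgroup.mem_centralizer_iff]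
        intro y hy
        rw [Subgroup.mem_bot.1 hy, one_mul, mul_one]⟩
    rwa [h] at h1))
  obtain ⟨M, hFM, hM⟩ := exists_ge (C := F.map H.subtype) (CfsgLib.CNQuotient.isNilpotent_map _ (A := F) inferInstance)
  obtain ⟨v, hv, hv1⟩ := F.bot_or_exists_ne_one.resolve_left hF1
  have hHN : H ≤ Subgroup.normalizer (M : Set G) := by
    intro h hh
    rw [Subgroup.mem_normalizer_iff_map_conj_eq]
    by_contra hne'
    have h1 : h * (v : G) * h⁻¹ ∈ M ⊓ M.map (MulAut.conj h).toMonoidHom :=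
      ⟨hFM ⟨_, hFn.conj_mem v hv ⟨h, hh⟩, rfl⟩, v, hFM ⟨v, hv, rfl⟩, rfl⟩
    rw [ti hG hCN hM h hne', Subgroup.mem_bot] at h1
    exact hv1 (Subtype.ext (by
      calc (v : G) = h⁻¹ * (h * (v : G) * h⁻¹) * h := by group
        _ = 1 := by rw [h1]; group))
  -- the normaliser is abelian over the maximal nilpotent subgroup
  obtain ⟨E, ⟨-, hEN, -, hdec⟩, -, hEfpf⟩ := exists_compl hG hCN hM
  let V := M ⊓ Subgroup.centralizer (M : Set G)
  have hV1 : V ≠ ⊥ := by
    obtain ⟨q, hq, hqd⟩ := Nat.exists_prime_and_dvd fun h => maxNilp_ne_bot hG hM (Subgroup.card_eq_one.1 h)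
    obtain ⟨z, hz, hzo, hzc⟩ := exists_central hM.1 hq hqd
    intro h
    have h2 : z ∈ V := ⟨hz, Subgroup.mem_centralizer_iff.2 fun y hy => hzc y hy⟩
    rw [h, Subgroup.mem_bot] at h2
    exact hq.ne_one (by rw [← hzo, h2, orderOf_one])
  have hVc : IsMulCommutative V := ⟨⟨fun a b => Subtype.ext (Subgroup.mem_centralizer_iff.1 b.2.2 a a.2.1)⟩⟩
  have hEV : E ≤ Subgroup.normalizer (V : Set G) := by
    intro a ha
    refine Subgroup.mem_normalizer_fintype ?_
    rintro w ⟨hw, hwc⟩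
    have h' := Subgroup.mem_normalizer_iff.1 (hEN ha)
    refine ⟨(h' w).1 hw, Subgroup.mem_centralizer_iff.2 fun y hy => ?_⟩
    have hy' : a⁻¹ * y * a ∈ M := (h' _).2 (by simpa [mul_assoc] using hy)
    have h2 := Subgroup.mem_centralizer_iff.1 hwc _ hy'
    calc y * (a * w * a⁻¹) = a * ((a⁻¹ * y * a) * w) * a⁻¹ := by group
      _ = a * (w * (a⁻¹ * y * a)) * a⁻¹ := by rw [h2]
      _ = a * w * a⁻¹ * y := by group
  haveI hEc : IsCyclic E := CfsgLib.FpfCN.isCyclic hCN hVc hV1 hEV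
    (fun a ha ha1 => le_bot_iff.1 ((inf_le_inf_right _ inf_le_left).trans (hEfpf a ha ha1).le))
    (hG.1.of_dvd_nat (Subgroup.card_subgroup_dvd_card E))
  let MH := M.subgroupOf H
  haveI hMH : MH.Normal := ⟨fun x hx g => (Subgroup.mem_normalizer_iff.1 (hHN g.2) (x : G)).1 hx⟩
  let π := QuotientGroup.mk' (M.subgroupOf (Subgroup.normalizer (M : Set G)))
  haveI : (M.subgroupOf (Subgroup.normalizer (M : Set G))).Normal := Subgroup.normal_in_normalizer
  have hcomm : ∀ x y : H, x * y * x⁻¹ * y⁻¹ ∈ MH := by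
    intro x y
    have hq : ∀ u : Subgroup.normalizer (M : Set G), ∃ e : E,
        QuotientGroup.mk' (M.subgroupOf (Subgroup.normalizer (M : Set G))) u =
          QuotientGroup.mk' (M.subgroupOf (Subgroup.normalizer (M : Set G))) ⟨e, hEN e.2⟩ := by
      intro u
      obtain ⟨m, hm, e, he, hu⟩ := hdec u u.2
      refine ⟨⟨e, he⟩, ?_⟩
      rw [show u = ⟨m, Subgroup.le_normalizer hm⟩ * ⟨e, hEN he⟩ from Subtype.ext hu, map_mul,
        show QuotientGroup.mk' (M.subgroupOf (Subgroup.normalizer (M : Set G))) ⟨m, Subgroup.le_normalizer hm⟩ = 1 from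
          (QuotientGroup.eq_one_iff _).2 hm, one_mul]
    obtain ⟨e, he⟩ := hq ⟨x, hHN x.2⟩
    obtain ⟨f, hf⟩ := hq ⟨y, hHN y.2⟩
    have hef : e * f = f * e := (IsCyclic.commGroup (α := E)).mul_comm e f
    have h1 : QuotientGroup.mk' (M.subgroupOf (Subgroup.normalizer (M : Set G)))
        (⟨x, hHN x.2⟩ * ⟨y, hHN y.2⟩ * ⟨x, hHN x.2⟩⁻¹ * ⟨y, hHN y.2⟩⁻¹) = 1 := by
      rw [map_mul, map_mul, map_mul, map_inv, map_inv, he, hf]
      rw [← map_inv, ← map_inv, ← map_mul, ← map_mul, ← map_mul]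
      rw [show (⟨(e : G), hEN e.2⟩ : Subgroup.normalizer (M : Set G)) * ⟨f, hEN f.2⟩ * ⟨e, hEN e.2⟩⁻¹ * ⟨f, hEN f.2⟩⁻¹ = 1 from
        Subtype.ext (by
          have h2 : (e : G) * f = f * e := congrArg Subtype.val hef
          show (e : G) * f * (e : G)⁻¹ * (f : G)⁻¹ = 1
          rw [h2]; group), map_one]
    exact (QuotientGroup.eq_one_iff (N := M.subgroupOf (Subgroup.normalizer (M : Set G))) _).1 h1
  -- the kernel lies in `M`
  obtain ⟨a, haA, ha1⟩ := A.bot_or_exists_ne_one.resolve_left hA1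
  have hKM : K ≤ MH := by
    intro k hk
    let φ : K → K := fun j => ⟨a * j * a⁻¹ * (j : H)⁻¹,
      K.mul_mem ((Cfsg.pCore_normal p _).conj_mem (j : H) j.2 a) (K.inv_mem j.2)⟩
    have hφ : Function.Surjective φ := Finite.injective_iff_surjective.1 fun i j hij => by
      have h1 : a * (i : H) * a⁻¹ * (i : H)⁻¹ = a * (j : H) * a⁻¹ * (j : H)⁻¹ := congrArg Subtype.val hij
      have h2 : ((j : H)⁻¹ * i) ∈ K ⊓ Subgroup.centralizer ({a} : Set H) := by
        refine ⟨K.mul_mem (K.inv_mem j.2) i.2, Subgroup.mem_centralizer_singleton_iff.2 ?_⟩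
        calc (j : H)⁻¹ * i * a = (j : H)⁻¹ * ((a * (i : H) * a⁻¹ * (i : H)⁻¹)⁻¹ * (a * i)) := by group
          _ = (j : H)⁻¹ * ((a * (j : H) * a⁻¹ * (j : H)⁻¹)⁻¹ * (a * i)) := by rw [h1]
          _ = a * ((j : H)⁻¹ * i) := by group
      rw [hfpf a haA ha1, Subgroup.mem_bot, inv_mul_eq_one] at h2
      exact Subtype.ext h2.symm
    obtain ⟨j, hj⟩ := hφ ⟨k, hk⟩
    have h5 : a * (j : H) * a⁻¹ * (j : H)⁻¹ = k := congrArg Subtype.val hj
    rw [← h5]
    exact hcomm a j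
  obtain ⟨x, hx⟩ : ∃ x : H, x ∉ K ⊔ A := by
    by_contra hc
    push Not at hc
    exact hne (top_le_iff.1 fun x _ => hc x)
  have hy : x * a * x⁻¹ * a⁻¹ ∈ K ⊔ A := (K ⊔ A).mul_mem (hnorm.conj_mem a (Subgroup.mem_sup_right haA) x)
    ((K ⊔ A).inv_mem (Subgroup.mem_sup_right haA))
  refine hQ x hx a haA ha1 ?_
  have hyM := hcomm x a
  set y := x * a * x⁻¹ * a⁻¹ with hydef
  rw [← SetLike.mem_coe, Subgroup.normal_mul] at hy
  obtain ⟨k₁, hk₁, a₁, ha₁, hya⟩ := Set.mem_mul.1 hy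
  have ha₁M : a₁ ∈ MH := by
    have := MH.mul_mem (MH.inv_mem (hKM hk₁)) hyM
    rwa [← hya, inv_mul_cancel_left] at this
  suffices h : a₁ = 1 by rw [← hya, h, mul_one]; exact hk₁
  by_contra ha₁1
  obtain ⟨k, hk, hk1⟩ := K.bot_or_exists_ne_one.resolve_left hcore
  obtain ⟨j, hj⟩ := CfsgLib.Core.isPGroup_pCore p (⟨k, hk⟩ : K)
  have hcop : (orderOf (a₁ : G)).Coprime (orderOf (k : G)) := by
    rw [Subgroup.orderOf_coe, Subgroup.orderOf_coe]
    refine ((hAp.pow_right j).coprime_dvd_left ?_).coprime_dvd_right (orderOf_dvd_of_pow_eq_one ?_)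
    · exact Subgroup.orderOf_dvd_natCard A ha₁
    · exact congrArg Subtype.val hj
  have h3 := commute_of_coprime hM.1 (ha₁M : (a₁ : G) ∈ M) (hKM hk : (k : G) ∈ M) hcop
  have h4 : k ∈ K ⊓ Subgroup.centralizer ({a₁} : Set H) :=
    ⟨hk, Subgroup.mem_centralizer_singleton_iff.2 (Subtype.ext h3.symm)⟩
  rw [hfpf a₁ ha₁ ha₁1, Subgroup.mem_bot] at h4
  exact hk1 h4

end Cfsg.Agent.S1478
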