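import Cfsg.Statements.S1480
import Cfsg.Agent.Lib.InvariantCore
import Cfsg.Agent.Lib.Transitivity
import Cfsg.Agent.Lib.CentralSylow
import Cfsg.Agent.Lib.OffenderSym
import Cfsg.Agent.Lib.PLocal.Elementary

set_option autoImplicit false
open Cfsg

namespace Cfsg.Agent.S1480

open scoped commutatorElement
open CfsgLib.LocalBasic CfsgLib.GroupB.Coprime

universe u

variable {G : Type u} [Group G] [Finite G] {p : ℕ} [hp : Fact p.Prime]

/-- The `p'`-core of the centralizer of an element. -/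
noncomputable def theta (p : ℕ) (a : G) : Subgroup G :=
  (Cfsg.pPrimeCore p ↥(Subgroup.centralizer ({a} : Set G))).map (Subgroup.centralizer ({a} : Set G)).subtype

theorem coprime_of_q {q : ℕ} [hq : Fact q.Prime] (hqp : q ≠ p) {Q : Subgroup G} (hQ : IsPGroup q ↥Q) :
    (Nat.card ↥Q).Coprime p := by
  obtain ⟨k, hk⟩ := hQ.exists_card_eq
  rw [hk]
  exact ((Nat.coprime_primes hq.out hp.out).mpr hqp).pow_left k

theorem le_theta (hloc : ∀ T : Subgroup G, IsPGroup p T → T ≠ ⊥ → Cfsg.IsPConstrained p ↥(Subgroup.normalizer (T : Set G)))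
    (hcl : p = 2 → ∀ Q : Subgroup G, IsPGroup p ↥Q → ∀ a ∈ Q, ∀ b ∈ Q, ∀ c ∈ Q, ⁅a, b⁆ * c = c * ⁅a, b⁆)
    {E : Subgroup G} (hEp : IsPGroup p E) (hEab : ∀ a ∈ E, ∀ b ∈ E, a * b = b * a)
    (hfull : ∀ x ∈ Subgroup.centralizer (E : Set G), (∃ k, x ^ p ^ k = 1) → x ∈ E)
    {a : G} (ha : a ∈ E) (ha1 : a ≠ 1) {K : Subgroup G} (hKC : K ≤ Subgroup.centralizer ({a} : Set G))
    (hK : (Nat.card ↥K).Coprime p) (hEK : E ≤ Subgroup.normalizer (K : Set G)) : K ≤ theta p a := by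
  set U := Subgroup.zpowers a with hU
  have hUp : IsPGroup p ↥U := hEp.to_le (Subgroup.zpowers_le.mpr ha)
  set N := Subgroup.normalizer (U : Set G) with hN
  have hUN : U ≤ N := Subgroup.le_normalizer
  have hC : (Subgroup.centralizer ((U.subgroupOf N : Subgroup ↥N) : Set ↥N)).map N.subtype =
      Subgroup.centralizer ({a} : Set G) := by
    apply le_antisymm
    · rintro _ ⟨c, hc, rfl⟩
      exact Subgroup.mem_centralizer_singleton_iff.mpr (congrArg Subtype.val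
        (hc ⟨a, hUN (Subgroup.mem_zpowers a)⟩ (Subgroup.mem_subgroupOf.mpr (Subgroup.mem_zpowers a))).symm)
    · intro c hc
      have hcU : c ∈ Subgroup.centralizer (U : Set G) := by
        rw [hU, Subgroup.zpowers_eq_closure, Subgroup.centralizer_closure]; exact hc
      exact ⟨⟨c, Subgroup.centralizer_le_normalizer _ hcU⟩, fun u hu => Subtype.ext (hcU _ (Subgroup.mem_subgroupOf.mp hu)), rfl⟩
  set Ca := Subgroup.centralizer ({a} : Set G) with hCa
  have hcon : Cfsg.IsPConstrained p ↥Ca :=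
    CfsgLib.PConstrained.congr
      (((Subgroup.centralizer ((U.subgroupOf N : Subgroup ↥N) : Set ↥N)).equivMapOfInjective N.subtype N.subtype_injective).trans
        (MulEquiv.subgroupCongr hC))
      (CfsgLib.PConstrained.centralizer (hloc U hUp (fun e => ha1 (Subgroup.mem_bot.mp (e ▸ Subgroup.mem_zpowers a))))
        hUp.comap_subtype)
  have hECa : E ≤ Ca := fun e he => Subgroup.mem_centralizer_singleton_iff.mpr (hEab e he a ha)
  have hle := CfsgLib.InvariantCore.le_pPrimeCore hcon (E := E.subgroupOf Ca) (K := K.subgroupOf Ca) hEp.comap_subtype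
    (fun h2 Q hQ x hx y hy z hz => Subtype.ext (by
      simpa [commutatorElement_def] using hcl h2 (Q.map Ca.subtype) (hQ.map _) _ ⟨x, hx, rfl⟩ _ ⟨y, hy, rfl⟩ _ ⟨z, hz, rfl⟩))
    (fun x hx ⟨k, hk⟩ => Subgroup.mem_subgroupOf.mpr (hfull x
      (fun e he => congrArg Subtype.val (hx ⟨e, hECa he⟩ (Subgroup.mem_subgroupOf.mpr he)))
      ⟨k, by simpa using congrArg Subtype.val hk⟩))
    (by rw [Nat.card_congr (Subgroup.subgroupOfEquivOfLe hKC).toEquiv]; exact hK)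
    (fun e he => Subgroup.mem_normalizer_fintype fun k hk => Subgroup.mem_subgroupOf.mpr
      ((Subgroup.mem_normalizer_iff.mp (hEK (Subgroup.mem_subgroupOf.mp he)) _).mp (Subgroup.mem_subgroupOf.mp hk)))
  have h2 := Subgroup.map_mono (f := Ca.subtype) hle
  rwa [Subgroup.map_subgroupOf_eq_of_le hKC] at h2

theorem isPGroup_of_inv {E Q : Subgroup G} {q : ℕ} [Fact q.Prime] (hQ : Q ∈ Cfsg.invSubgroups ⊤ E {q}) :
    IsPGroup q ↥Q :=
  IsPGroup.of_card (n := (Nat.card ↥Q).primeFactorsList.length)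
    (Nat.eq_prime_pow_of_unique_prime_dvd Nat.card_pos.ne' fun {d} hd hdd => hQ.2.1 d hd hdd)

theorem mem_inv_of_isPGroup {E Q : Subgroup G} {q : ℕ} [hq : Fact q.Prime] (hQ : IsPGroup q ↥Q)
    (hEQ : E ≤ Subgroup.normalizer (Q : Set G)) : Q ∈ Cfsg.invSubgroups ⊤ E {q} := ⟨le_top, fun d hd hdd => by
  obtain ⟨k, hk⟩ := hQ.exists_card_eq
  exact (Nat.prime_dvd_prime_iff_eq hd hq.out).mp (hd.dvd_of_dvd_pow (hk ▸ hdd)), hEQ⟩

theorem mem_inv_conj {E Q : Subgroup G} {q : ℕ} [Fact q.Prime] {c : G} (hc : c ∈ Subgroup.centralizer (E : Set G))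
    (hQ : Q ∈ Cfsg.invSubgroups ⊤ E {q}) : Q.map (MulAut.conj c).toMonoidHom ∈ Cfsg.invSubgroups ⊤ E {q} := by
  refine mem_inv_of_isPGroup ((isPGroup_of_inv hQ).map _) fun e he => Subgroup.mem_normalizer_fintype ?_
  rintro _ ⟨u, hu, rfl⟩
  refine ⟨e * u * e⁻¹, (Subgroup.mem_normalizer_iff.mp (hQ.2.2 he) u).mp hu, ?_⟩
  have h := hc e he
  show c * (e * u * e⁻¹) * c⁻¹ = e * (c * u * c⁻¹) * e⁻¹
  calc c * (e * u * e⁻¹) * c⁻¹ = (c * e) * u * (c * e)⁻¹ := by group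
    _ = (e * c) * u * (e * c)⁻¹ := by rw [h]
    _ = _ := by group

theorem max_conj {E Q : Subgroup G} {q : ℕ} [Fact q.Prime] {c : G} (hc : c ∈ Subgroup.centralizer (E : Set G))
    (hQ : Q ∈ Cfsg.maxInvSubgroups ⊤ E {q}) : Q.map (MulAut.conj c).toMonoidHom ∈ Cfsg.maxInvSubgroups ⊤ E {q} := by
  refine ⟨mem_inv_conj hc hQ.1, fun R hR hle => ?_⟩
  have h := hQ.2 _ (mem_inv_conj (inv_mem hc) hR) (le_of_eq_of_le (CfsgLib.Signalizer.conj_conj_inv c Q).symm (Subgroup.map_mono hle))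
  have h2 := congrArg (Subgroup.map (MulAut.conj c⁻¹⁻¹).toMonoidHom) h
  rw [CfsgLib.Signalizer.conj_conj_inv, inv_inv] at h2
  exact h2

theorem trans_aux (hloc : ∀ T : Subgroup G, IsPGroup p T → T ≠ ⊥ → Cfsg.IsPConstrained p ↥(Subgroup.normalizer (T : Set G)))
    (hcl : p = 2 → ∀ Q : Subgroup G, IsPGroup p ↥Q → ∀ a ∈ Q, ∀ b ∈ Q, ∀ c ∈ Q, ⁅a, b⁆ * c = c * ⁅a, b⁆)
    {E A : Subgroup G} (hEp : IsPGroup p E) (hEc : IsMulCommutative E) (hAE : A ≤ E)
    (hA : Cfsg.IsElementaryAbelian p A) (hA3 : p ^ 3 ≤ Nat.card ↥A)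
    (hfull : ∀ x ∈ Subgroup.centralizer (E : Set G), (∃ k, x ^ p ^ k = 1) → x ∈ E)
    {q : ℕ} [hq : Fact q.Prime] (hqp : q ≠ p) : ∀ m, ∀ R₁ R₂ : Subgroup G, R₁ ∈ Cfsg.maxInvSubgroups ⊤ E {q} →
      R₂ ∈ Cfsg.maxInvSubgroups ⊤ E {q} → Nat.card G - Nat.card ↥(R₁ ⊓ R₂ : Subgroup G) = m →
      ∃ c ∈ Subgroup.centralizer (E : Set G), (orderOf c).Coprime p ∧ R₂ = R₁.map (MulAut.conj c).toMonoidHom := by
  haveI := hEc
  have hEab : ∀ a ∈ E, ∀ b ∈ E, a * b = b * a := fun a ha b hb => congrArg Subtype.val (hEc.is_comm.comm ⟨a, ha⟩ ⟨b, hb⟩)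
  have hpc := CfsgLib.CentralSylow.pcOn_of_pElements_le (p := p) (C := Subgroup.centralizer (E : Set G)) (T := E) le_rfl hfull
  intro m
  induction m using Nat.strong_induction_on with
  | _ m ih =>
    intro R₁ R₂ hR₁ hR₂ hm
    by_cases e1 : R₁ ⊓ R₂ = R₁
    · exact ⟨1, one_mem _, by simp, by rw [map_one]; exact (hR₁.2 _ hR₂.1 (inf_eq_left.mp e1)).trans (Subgroup.map_id R₁).symm⟩
    by_cases e2 : R₁ ⊓ R₂ = R₂
    · exact ⟨1, one_mem _, by simp, by rw [map_one]; exact ((Subgroup.map_id R₁).trans (hR₂.2 _ hR₁.1 (inf_eq_right.mp e2))).symm⟩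
    have hR₁q := isPGroup_of_inv hR₁.1
    have hR₂q := isPGroup_of_inv hR₂.1
    obtain ⟨a, ha, ha1, hn₁, hn₂⟩ := CfsgLib.Signalizer.exists_common_growth hA hA3 hqp hR₁q hR₂q
      (hAE.trans hR₁.1.2.2) (hAE.trans hR₂.1.2.2) e1 e2
    set D := R₁ ⊓ R₂ with hDdef
    have hED : E ≤ Subgroup.normalizer (D : Set G) := normalizer_inf_ge hR₁.1.2.2 hR₂.1.2.2
    have hEa : E ≤ Subgroup.centralizer ({a} : Set G) := fun e he =>
      Subgroup.mem_centralizer_singleton_iff.mpr (hEab e he a (hAE ha))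
    have hEN : E ≤ Subgroup.normalizer ((Subgroup.normalizer (D : Set G) : Subgroup G) : Set G) :=
      hED.trans Subgroup.le_normalizer
    set θ := theta p a with hθdef
    have hθn : E ≤ Subgroup.normalizer (θ : Set G) := fun e he => Subgroup.mem_normalizer_fintype fun t ht => by
      obtain ⟨t, ht, rfl⟩ := ht
      haveI := CfsgLib.PConstrained.pPrimeCore_normal (G := ↥(Subgroup.centralizer ({a} : Set G))) (p := p)
      exact ⟨⟨e, hEa he⟩ * t * ⟨e, hEa he⟩⁻¹, Subgroup.Normal.conj_mem inferInstance t ht _, rfl⟩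
    set H₀ := θ ⊓ Subgroup.normalizer (D : Set G) with hH₀
    set H := D ⊔ H₀ with hH
    have hEH : E ≤ Subgroup.normalizer (H : Set G) := normalizer_sup_ge hED (normalizer_inf_ge hθn hEN)
    have hHp : (Nat.card ↥H).Coprime p := by
      have hd : Nat.card ↥H ∣ Nat.card ↥D * Nat.card ↥H₀ :=
        ⟨_, (CfsgLib.OffenderSym.card_prod (H := D) (K := H₀) inf_le_right).symm⟩
      refine (Nat.Coprime.mul_left ((coprime_of_q hqp hR₁q).coprime_dvd_left (Subgroup.card_dvd_of_le inf_le_left)) ?_).coprime_dvd_left hd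
      refine Nat.Coprime.coprime_dvd_left (Subgroup.card_dvd_of_le inf_le_left) ?_
      rw [hθdef, theta, Subgroup.card_map_of_injective (Subgroup.subtype_injective _)]
      exact CfsgLib.Core.card_pPrimeCore_coprime p
    have hcopEH : (Nat.card ↥E).Coprime (Nat.card ↥H) := by
      obtain ⟨k, hk⟩ := hEp.exists_card_eq
      rw [hk]; exact hHp.symm.pow_left k
    have hEsol : Group.IsSolvable ↥E := by
      haveI := hEp.isNilpotent
      infer_instance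
    have hgrow : ∀ R : Subgroup G, R ∈ Cfsg.maxInvSubgroups ⊤ E {q} → D ≤ R →
        ¬ (Subgroup.normalizer (D : Set G) ⊓ R ⊓ Subgroup.centralizer {a} ≤ D) →
        ∃ S : Subgroup G, IsSylowOf q S H ∧ E ≤ Subgroup.normalizer (S : Set G) ∧ D < S ⊓ R := by
      intro R hR hDR hn
      have hEX : E ≤ Subgroup.normalizer ((Subgroup.normalizer (D : Set G) ⊓ R ⊓ Subgroup.centralizer {a} : Subgroup G) : Set G) :=
        normalizer_inf_ge (normalizer_inf_ge hEN hR.1.2.2) (hEa.trans Subgroup.le_normalizer)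
      have hle : Subgroup.normalizer (D : Set G) ⊓ R ⊓ Subgroup.centralizer {a} ≤ H₀ :=
        le_inf (le_theta hloc hcl hEp hEab hfull (hAE ha) ha1 inf_le_right
          ((coprime_of_q hqp (isPGroup_of_inv hR.1)).coprime_dvd_left (Subgroup.card_dvd_of_le (inf_le_left.trans inf_le_right))) hEX)
          (inf_le_left.trans inf_le_left)
      obtain ⟨S, hS, hSy, hSA⟩ := exists_invariant_sylow_ge hEH hcopEH (Or.inr hEsol) q
        (U := H ⊓ R) inf_le_left ((isPGroup_of_inv hR.1).to_le inf_le_right) (normalizer_inf_ge hEH hR.1.2.2)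
      refine ⟨S, hSy, hSA, lt_of_lt_of_le (lt_of_le_not_ge (le_inf le_sup_left hDR) fun h => hn ?_)
        (le_inf hS inf_le_right)⟩
      exact (le_inf (hle.trans le_sup_right) (fun x hx => hx.1.2)).trans h
    obtain ⟨S₁, hS₁, hS₁A, hlt₁⟩ := hgrow R₁ hR₁ inf_le_left hn₁
    obtain ⟨S₂, hS₂, hS₂A, hlt₂⟩ := hgrow R₂ hR₂ inf_le_right hn₂
    obtain ⟨c, hc, hcS⟩ := (invariant_sylow hEH hcopEH (Or.inr hEsol) q).2 S₁ S₂ hS₁ hS₁A hS₂ hS₂A
    obtain ⟨R₃, hle₃, hR₃⟩ := Finite.exists_le_maximal (p := fun V : Subgroup G => V ∈ Cfsg.invSubgroups ⊤ E {q})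
      (mem_inv_of_isPGroup hS₁.isPGroup hS₁A)
    have hR₃m : R₃ ∈ Cfsg.maxInvSubgroups ⊤ E {q} := ⟨hR₃.1, fun R hR hle => le_antisymm (hR₃.2 hR hle) hle⟩
    obtain ⟨hcH, hcE⟩ := Subgroup.mem_inf.mp hc
    have hco : (orderOf c).Coprime p := hHp.coprime_dvd_left (Subgroup.orderOf_dvd_natCard _ hcH)
    have hlt : ∀ R R' : Subgroup G, D < R ⊓ R' → Nat.card G - Nat.card ↥(R ⊓ R' : Subgroup G) < m := by
      intro R R' h
      rw [← hm]
      have h1 : Nat.card ↥D < Nat.card ↥(R ⊓ R' : Subgroup G) := lt_of_le_of_ne (Subgroup.card_le_of_le h.le)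
        fun he => h.ne (Subgroup.eq_of_le_of_card_ge h.le he.ge)
      have h2 := Subgroup.card_le_card_group (R ⊓ R')
      omega
    obtain ⟨c₁, hc₁, ho₁, e₁⟩ := ih _ (hlt R₁ R₃ (lt_of_lt_of_le hlt₁ (le_inf inf_le_right (inf_le_left.trans hle₃))))
      R₁ R₃ hR₁ hR₃m rfl
    obtain ⟨c₂, hc₂, ho₂, e₂⟩ := ih _ (hlt (R₃.map (MulAut.conj c).toMonoidHom) R₂ (lt_of_lt_of_le hlt₂
      (le_inf (inf_le_left.trans (hcS.ge.trans (Subgroup.map_mono hle₃))) inf_le_right)))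
      _ R₂ (max_conj hcE hR₃m) hR₂ rfl
    refine ⟨c₂ * c * c₁, mul_mem (mul_mem hc₂ hcE) hc₁,
      hpc _ (mul_mem hc₂ hcE) _ hc₁ (hpc _ hc₂ _ hcE ho₂ hco) ho₁, ?_⟩
    rw [map_mul, map_mul, e₂, e₁, Subgroup.map_map, Subgroup.map_map]
    rfl

/-- Let G be a finite group and p a prime such that the normalizer of every nontrivial p-subgroup of G is p-constrained; if p = 2 assume also that the Sylow 2-subgroups of G have nilpotency class at most 2. Let E be an abelian p-subgroup containing an elementary abelian subgroup of order p ^ 3 and containing every element of p-power order of C_G(E). Then for every prime q ≠ p, any two maximal E-invariant q-subgroups of G are conjugate by an element of O_{p'}(C_G(E)). -/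
theorem result {G : Type*} [Group G] [Finite G] (p : ℕ) [Fact p.Prime]
    (hloc : ∀ T : Subgroup G, IsPGroup p T → T ≠ ⊥ → Cfsg.IsPConstrained p ↥(Subgroup.normalizer (T : Set G)))
    (h2 : p = 2 → ∀ S : Sylow p G, Group.IsNilpotent (S : Subgroup G) ∧ Group.nilpotencyClass (S : Subgroup G) ≤ 2)
    (E : Subgroup G) (hEp : IsPGroup p E) (hEc : IsMulCommutative E) (hE3 : ¬ Cfsg.PRankLE p 2 E)
    (hEfull : ∀ x ∈ Subgroup.centralizer (E : Set G), IsPGroup p (Subgroup.zpowers x) → x ∈ E)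
    (q : ℕ) [Fact q.Prime] (hqp : q ≠ p) :
    ∀ Q₁ ∈ Cfsg.maxInvSubgroups ⊤ E {q}, ∀ Q₂ ∈ Cfsg.maxInvSubgroups ⊤ E {q},
        ∃ k ∈ Cfsg.piCoreOf (Cfsg.primesNotDvd p) (Subgroup.centralizer (E : Set G)), Q₂ = Q₁.map (MulAut.conj k).toMonoidHom := by
  intro Q₁ hQ₁ Q₂ hQ₂
  have hfull : ∀ x ∈ Subgroup.centralizer (E : Set G), (∃ k, x ^ p ^ k = 1) → x ∈ E :=
    fun x hx ⟨k, hk⟩ => hEfull x hx (CfsgLib.LocalBasic.isPGroup_zpowers_of_pow_eq_one hk)
  have hcl : p = 2 → ∀ Q : Subgroup G, IsPGroup p ↥Q → ∀ a ∈ Q, ∀ b ∈ Q, ∀ c ∈ Q, ⁅a, b⁆ * c = c * ⁅a, b⁆ := by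
    intro hp2 Q hQ a ha b hb c hc
    obtain ⟨S, hS⟩ := hQ.exists_le_sylow
    obtain ⟨hn, hcls⟩ := h2 hp2 S
    haveI := hn
    have h := Subgroup.lowerCentralSeries_eq_bot_iff_nilpotencyClass_le.mpr hcls
    have h3 : ⁅⁅(⟨a, hS ha⟩ : ↥(S : Subgroup G)), (⟨b, hS hb⟩ : ↥(S : Subgroup G))⁆, (⟨c, hS hc⟩ : ↥(S : Subgroup G))⁆ = 1 := by
      have hm : ⁅⁅(⟨a, hS ha⟩ : ↥(S : Subgroup G)), (⟨b, hS hb⟩ : ↥(S : Subgroup G))⁆, (⟨c, hS hc⟩ : ↥(S : Subgroup G))⁆ ∈ Subgroup.lowerCentralSeries (⊤ : Subgroup ↥(S : Subgroup G)) 2 :=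
        Subgroup.commutator_mem_commutator (Subgroup.commutator_mem_commutator (Subgroup.mem_top _) (Subgroup.mem_top _)) (Subgroup.mem_top _)
      rwa [h, Subgroup.mem_bot] at hm
    exact commutatorElement_eq_one_iff_mul_comm.mp (by simpa [commutatorElement_def] using congrArg Subtype.val h3)
  obtain ⟨A', hA'1, hA'2, hA'3⟩ : ∃ A' : Subgroup ↥E, IsMulCommutative A' ∧ (∀ a ∈ A', a ^ p = 1) ∧ ¬ Nat.card A' ≤ p ^ 2 := by
    unfold Cfsg.PRankLE at hE3
    push Not at hE3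
    obtain ⟨A', h1, h2', h3⟩ := hE3
    exact ⟨A', h1, h2', not_le.mpr h3⟩
  have hA : Cfsg.IsElementaryAbelian p (A'.map E.subtype) := CfsgLib.PLocal.el_map E.subtype ⟨hA'1, hA'2⟩
  have hA3 : p ^ 3 ≤ Nat.card ↥(A'.map E.subtype) := by
    rw [Subgroup.card_map_of_injective E.subtype_injective]
    obtain ⟨k, hk⟩ := (hEp.to_subgroup A').exists_card_eq
    rw [hk] at hA'3 ⊢
    have hpos : 0 < p := (Fact.out : p.Prime).pos
    refine Nat.pow_le_pow_right hpos ?_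
    by_contra hlt
    exact hA'3 (Nat.pow_le_pow_right hpos (by omega))
  obtain ⟨c, hc, hco, hcQ⟩ := trans_aux hloc hcl hEp hEc (Subgroup.map_subtype_le A') hA hA3 hfull hqp _ Q₁ Q₂ hQ₁ hQ₂ rfl
  refine ⟨c, ?_, hcQ⟩
  set C := Subgroup.centralizer (E : Set G)
  have hmem : c ∈ (Cfsg.pPrimeCore p ↥C).map C.subtype := by
    rw [CfsgLib.CentralSylow.map_pPrimeCore_eq le_rfl hfull]
    exact ⟨hc, hco⟩
  obtain ⟨c', hc', rfl⟩ := hmem
  refine ⟨c', ?_, rfl⟩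
  haveI := CfsgLib.PConstrained.pPrimeCore_normal (G := ↥C) (p := p)
  have hmemset : Cfsg.pPrimeCore p ↥C ∈ {N : Subgroup ↥C | N.Normal ∧ ∀ r : ℕ, r.Prime → r ∣ Nat.card N → r ∈ Cfsg.primesNotDvd p} :=
    ⟨inferInstance, fun r hr hrd => ⟨hr, fun hrp =>
      hr.ne_one (Nat.eq_one_of_dvd_coprimes (CfsgLib.Core.card_pPrimeCore_coprime (G := ↥C) p) hrd hrp)⟩⟩
  exact le_sSup hmemset hc'

end Cfsg.Agent.S1480
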