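import Cfsg.Statements.S1483
import Cfsg.Agent.Lib.CNOddMaximal

set_option autoImplicit false
open Cfsg

open CfsgLib.CNGroup CfsgLib.CNOdd

namespace Cfsg.Agent.S1483

/-- Let G be a minimal simple group of odd order in which every non-identity element has nilpotent centralizer. Then any two nilpotent subgroups each contained in no larger nilpotent subgroup are either conjugate or of coprime orders; and for primes p, q, r: if some elements x, y ≠ 1 of p-power and q-power order commute, and some elements y', z ≠ 1 of q-power and r-power order commute, then some elements of p-power and r-power order, both ≠ 1, commute. -/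
theorem result {G : Type*} [Group G] [Finite G] (hG : Cfsg.IsMinSimpleOddOrder G) (hCN : Cfsg.IsCNGroup G) :
    (∀ H₁ H₂ : Subgroup G, (Group.IsNilpotent ↥H₁ ∧ ∀ L : Subgroup G, Group.IsNilpotent L → H₁ ≤ L → L = H₁) → (Group.IsNilpotent ↥H₂ ∧ ∀ L : Subgroup G, Group.IsNilpotent L → H₂ ≤ L → L = H₂) → (∃ g : G, H₂ = H₁.map (MulAut.conj g).toMonoidHom) ∨ (Nat.card H₁).Coprime (Nat.card H₂)) ∧
      ∀ (p q r : ℕ), p.Prime → q.Prime → r.Prime → ∀ (x y y' z : G), x ≠ 1 → y ≠ 1 → y' ≠ 1 → z ≠ 1 →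
        IsPGroup p (Subgroup.zpowers x) → IsPGroup q (Subgroup.zpowers y) → IsPGroup q (Subgroup.zpowers y') → IsPGroup r (Subgroup.zpowers z) →
        x * y = y * x → y' * z = z * y' →
        ∃ x' z' : G, x' ≠ 1 ∧ z' ≠ 1 ∧ IsPGroup p (Subgroup.zpowers x') ∧ IsPGroup r (Subgroup.zpowers z') ∧ x' * z' = z' * x' := by
  refine ⟨fun H₁ H₂ h1 h2 => conj_or_coprime hG hCN h1 h2, ?_⟩
  intro p q r hp hq hr x y y' z hx hy hy' hz hxp hyq hyq' hzr hxy hyz
  haveI := Fact.mk hp
  haveI := Fact.mk hr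
  by_cases hpr : p = r
  · subst hpr
    exact ⟨x, x, hx, hx, hxp, hxp, rfl⟩
  haveI := Fact.mk hq
  have hcl : ∀ a b : G, a * b = b * a → Group.IsNilpotent (Subgroup.closure ({a, b} : Set G)) := by
    intro a b hab
    haveI : IsMulCommutative (Subgroup.closure ({a, b} : Set G)) := Subgroup.isMulCommutative_closure (by
      intro c hc d hd
      simp only [Set.mem_insert_iff, Set.mem_singleton_iff] at hc hd
      rcases hc with rfl | rfl <;> rcases hd with rfl | rfl <;> first | rfl | exact hab | exact hab.symm)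
    letI : CommGroup (Subgroup.closure ({a, b} : Set G)) := IsMulCommutative.instCommGroup
    exact CommGroup.isNilpotent
  obtain ⟨H₁, hH₁', hH₁⟩ := exists_ge (hcl x y hxy)
  obtain ⟨H₂, hH₂', hH₂⟩ := exists_ge (hcl y' z hyz)
  have hd : ∀ (H : Subgroup G) (w : G), w ≠ 1 → w ∈ H → IsPGroup q (Subgroup.zpowers w) → q ∣ Nat.card H := by
    intro H w hw hwH hwq
    haveI : Nontrivial (Subgroup.zpowers w) := ⟨⟨⟨w, Subgroup.mem_zpowers w⟩, 1, fun e => hw (congrArg Subtype.val e)⟩⟩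
    obtain ⟨n, hn0, hn⟩ := hwq.nontrivial_iff_card.mp inferInstance
    exact (hn ▸ dvd_pow_self q hn0.ne' : q ∣ Nat.card (Subgroup.zpowers w)).trans
      (Subgroup.card_dvd_of_le (Subgroup.zpowers_le.2 hwH))
  obtain ⟨g, hg⟩ := (conj_or_coprime hG hCN hH₁ hH₂).resolve_right fun hc => hq.not_dvd_one (hc.gcd_eq_one ▸
    Nat.dvd_gcd (hd H₁ y hy (hH₁' (Subgroup.subset_closure (by simp))) hyq)
      (hd H₂ y' hy' (hH₂' (Subgroup.subset_closure (by simp))) hyq'))
  have hxH : x ∈ H₁ := hH₁' (Subgroup.subset_closure (by simp))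
  have hzH : z ∈ H₁.map (MulAut.conj g).toMonoidHom := hg ▸ hH₂' (Subgroup.subset_closure (by simp))
  obtain ⟨z', hz'H, hz'⟩ := hzH
  obtain rfl : g * z' * g⁻¹ = z := hz'
  have hz'r : IsPGroup r (Subgroup.zpowers z') := by
    obtain ⟨k, hk⟩ := hzr ⟨_, Subgroup.mem_zpowers (g * z' * g⁻¹)⟩
    intro w
    obtain ⟨i, hi⟩ := Subgroup.mem_zpowers_iff.1 w.2
    refine ⟨k, Subtype.ext ?_⟩
    have h1 : (g * z' * g⁻¹) ^ r ^ k = 1 := congrArg Subtype.val hk
    rw [conj_pow, mul_inv_eq_one, mul_eq_left] at h1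
    rw [Subgroup.coe_pow, Subgroup.coe_one, ← hi, ← zpow_natCast, ← zpow_mul, mul_comm, zpow_mul, zpow_natCast, h1, one_zpow]
  refine ⟨x, z', hx, fun e => hz (by rw [e]; group), hxp, hz'r, ?_⟩
  obtain ⟨a, ha⟩ := IsPGroup.iff_orderOf.1 hxp ⟨x, Subgroup.mem_zpowers x⟩
  obtain ⟨b, hb⟩ := IsPGroup.iff_orderOf.1 hz'r ⟨z', Subgroup.mem_zpowers z'⟩
  rw [Subgroup.orderOf_mk] at ha hb
  exact commute_of_coprime hH₁.1 hxH hz'H (by rw [ha, hb]; exact ((Nat.coprime_primes hp hr).2 hpr).pow a b)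

end Cfsg.Agent.S1483
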