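import Cfsg.Statements.S1484
import Cfsg.Agent.Lib.CNOddMaximal

set_option autoImplicit false
open Cfsg

open CfsgLib.CNGroup CfsgLib.CNOdd

namespace Cfsg.Agent.S1484

/-- Let G be a minimal simple group of odd order in which every non-identity element has nilpotent centralizer, and M₁, …, M_k maximal subgroups, pairwise non-conjugate, such that every maximal subgroup is conjugate to some M_i. Let H_i be the largest normal nilpotent Hall subgroup of M_i. Then the orders of the H_i are pairwise coprime, their product is the order of G, and every element of G is conjugate to an element of some H_i. -/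
theorem result {G : Type*} [Group G] [Finite G] (hG : Cfsg.IsMinSimpleOddOrder G) (hCN : Cfsg.IsCNGroup G) (k : ℕ) (Mrep : Fin k → Subgroup G) (hmax : ∀ i, IsCoatom (Mrep i))
    (hnc : ∀ i j, i ≠ j → ∀ g : G, Mrep j ≠ (Mrep i).map (MulAut.conj g).toMonoidHom) (hall : ∀ M : Subgroup G, IsCoatom M → ∃ i, ∃ g : G, M = (Mrep i).map (MulAut.conj g).toMonoidHom) :
    (∀ i j, i ≠ j → (Nat.card (Cfsg.fittingHallOf (Mrep i))).Coprime (Nat.card (Cfsg.fittingHallOf (Mrep j)))) ∧
      ∏ i, Nat.card (Cfsg.fittingHallOf (Mrep i)) = Nat.card G ∧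
      ∀ x : G, ∃ i, ∃ g : G, g * x * g⁻¹ ∈ Cfsg.fittingHallOf (Mrep i) := by
  classical
  have hrep : ∀ i, ∃ H : Subgroup G, IsMaxNilp H ∧ Mrep i = Subgroup.normalizer (H : Set G) := fun i => exists_of_isCoatom hG hCN (hmax i)
  choose H hH hMH using hrep
  have hF : ∀ i, Cfsg.fittingHallOf (Mrep i) = H i := fun i => by rw [hMH i]; exact fittingHallOf_normalizer hCN (hH i)
  simp only [hF]
  have hcover : ∀ K : Subgroup G, IsMaxNilp K → ∃ i, ∃ g : G, H i = K.map (MulAut.conj g).toMonoidHom := by
    intro K hK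
    obtain ⟨i, g, hg⟩ := hall _ (isCoatom_normalizer hG hCN hK)
    refine ⟨i, g⁻¹, ?_⟩
    have h1 := fittingHallOf_normalizer hCN hK
    have h2 : Subgroup.normalizer (((H i).map (MulAut.conj g).toMonoidHom : Subgroup G) : Set G) = Subgroup.normalizer (K : Set G) := by
      rw [hg, hMH i, Subgroup.map_normalizer_eq_of_bijective _ (f := (MulAut.conj g).toMonoidHom) (MulAut.conj g).bijective]
    have h3 := fittingHallOf_normalizer hCN (isMaxNilp_map (hH i) g)
    rw [h2, h1] at h3
    rw [h3, Subgroup.map_map]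
    ext x; simp [mul_assoc]
  have hcop : ∀ i j, i ≠ j → (Nat.card (H i)).Coprime (Nat.card (H j)) := by
    intro i j hij
    refine (conj_or_coprime hG hCN (hH i) (hH j)).resolve_left fun ⟨g, hg⟩ => hnc i j hij g ?_
    rw [hMH j, hMH i, hg, Subgroup.map_normalizer_eq_of_bijective _ (f := (MulAut.conj g).toMonoidHom) (MulAut.conj g).bijective]
  refine ⟨hcop, ?_, fun x => ?_⟩
  · refine Nat.dvd_antisymm ?_ ?_
    · exact Fintype.prod_dvd_of_isRelPrime (fun i j h => Nat.coprime_iff_isRelPrime.1 (hcop i j h)) fun i => Subgroup.card_subgroup_dvd_card _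
    · refine (Nat.dvd_iff_prime_pow_dvd_dvd _ _).2 fun r k hr hrk => ?_
      rcases Nat.eq_zero_or_pos k with rfl | hk
      · simp
      haveI := Fact.mk hr
      obtain ⟨z, hz⟩ := exists_prime_orderOf_dvd_card' (G := G) r ((dvd_pow_self r hk.ne').trans hrk)
      obtain ⟨K, hzK, hK⟩ := exists_ge (C := Subgroup.zpowers z) (by
        letI : CommGroup (Subgroup.zpowers z) := IsMulCommutative.instCommGroup
        exact CommGroup.isNilpotent)
      obtain ⟨i, g, hg⟩ := hcover K hK
      have hc : Nat.card (H i) = Nat.card K := by rw [hg]; exact Subgroup.card_map_of_injective (MulAut.conj g).injective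
      refine dvd_trans ?_ (Finset.dvd_prod_of_mem _ (Finset.mem_univ i))
      rw [hc]
      have hrK : r ∣ Nat.card K := hz ▸ (Nat.card_zpowers z ▸ Subgroup.card_dvd_of_le hzK)
      have hcop' : (r ^ k).Coprime K.index := by
        refine (hr.coprime_iff_not_dvd.2 fun h => ?_).pow_left k
        exact hr.not_dvd_one ((coprime_index hCN hK).gcd_eq_one ▸ Nat.dvd_gcd hrK h)
      refine hcop'.dvd_of_dvd_mul_right ?_
      rwa [Subgroup.card_mul_index]
  · obtain ⟨K, hxK, hK⟩ := exists_ge (C := Subgroup.zpowers x) (by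
      letI : CommGroup (Subgroup.zpowers x) := IsMulCommutative.instCommGroup
      exact CommGroup.isNilpotent)
    obtain ⟨i, g, hg⟩ := hcover K hK
    exact ⟨i, g, hg ▸ ⟨x, hxK (Subgroup.mem_zpowers x), rfl⟩⟩

end Cfsg.Agent.S1484
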