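import Cfsg.Statements.S1485
import Mathlib
import Cfsg.Agent.Lib.Chars.Clifford

set_option autoImplicit false
open Cfsg

namespace Cfsg.Agent.S1485

/-- Let H be a normal subgroup of the finite group G and θ an irreducible character of H. On H, the function induced from θ equals r times the sum of the distinct G-conjugates of θ, where r is the number of elements of G fixing θ under conjugation divided by the order of H (the index of H in the inertia group). -/
theorem result {G : Type*} [Group G] [Fintype G] (H : Subgroup G) [hN : H.Normal] (θ : H → ℂ) (hθ : Cfsg.IsIrrCharacter H θ) : (fun h : H => Cfsg.indFun H θ h) = ((Nat.card {g : G // ∀ h : H, θ ⟨g * h * g⁻¹, hN.conj_mem h h.2 g⟩ = θ h} : ℂ) / (Nat.card H : ℂ)) • ∑ᶠ ψ ∈ {ψ : H → ℂ | ∃ g : G, ψ = fun h : H => θ ⟨g * h * g⁻¹, hN.conj_mem h h.2 g⟩}, ψ := by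
  classical
  haveI : Fintype H := Fintype.ofFinite H
  let th : Cfsg.IrrCharacter H := ⟨θ, hθ⟩
  let Ψ : G → (H → ℂ) := fun g h => θ ⟨g * h * g⁻¹, hN.conj_mem h h.2 g⟩
  have hΨ : ∀ g h, Ψ g h = (CfsgLib.Chars.conjIrr H th g : H → ℂ) h := fun g h =>
    (CfsgLib.Chars.conjIrr_apply' H th g h).symm
  set s := Nat.card {g : G // ∀ h : H, θ ⟨g * h * g⁻¹, hN.conj_mem h h.2 g⟩ = θ h} with hs
  have hfib : ∀ ψ ∈ Finset.univ.image Ψ, (Finset.univ.filter fun g => Ψ g = ψ).card = s := by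
    intro ψ hψ
    obtain ⟨g₀, -, rfl⟩ := Finset.mem_image.1 hψ
    have e1 : s = Nat.card {g : G // Ψ g = Ψ g₀} := by
      refine Nat.card_congr ((Equiv.mulRight g₀).subtypeEquiv fun g => ?_)
      show (∀ h : H, θ ⟨g * h * g⁻¹, _⟩ = θ h) ↔ Ψ (g * g₀) = Ψ g₀
      constructor
      · intro hg
        funext h
        show θ _ = θ _
        rw [← hg ⟨g₀ * h * g₀⁻¹, hN.conj_mem h h.2 g₀⟩]
        congr 1
        ext
        simp [mul_assoc]
      · intro hg h
        have := congrFun hg ⟨g₀⁻¹ * h * g₀, by simpa using hN.conj_mem h h.2 g₀⁻¹⟩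
        simp only [Ψ] at this
        convert this using 2 <;> (apply Subtype.ext; simp [mul_assoc])
    rw [e1, Nat.card_eq_fintype_card, Fintype.card_subtype]
  have hS : ({ψ : H → ℂ | ∃ g : G, ψ = fun h : H => θ ⟨g * h * g⁻¹, hN.conj_mem h h.2 g⟩} : Set (H → ℂ))
      = ↑(Finset.univ.image Ψ) := by
    ext ψ
    simp [Ψ, eq_comm]
  funext h
  rw [hS, finsum_mem_coe_finset, CfsgLib.Chars.indFun_res H θ h, Pi.smul_apply, smul_eq_mul, Finset.sum_apply,
    div_mul_eq_mul_div, inv_mul_eq_div, Finset.mul_sum]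
  congr 1
  rw [← Fintype.sum_equiv (Equiv.inv G) (fun x => Ψ x h) (fun x => θ (CfsgLib.Chars.conjN H x⁻¹ h))
    (fun x => by rw [Equiv.inv_apply, inv_inv]; exact hΨ x h),
    ← Finset.sum_fiberwise_of_maps_to (g := Ψ) (fun g _ => Finset.mem_image_of_mem Ψ (Finset.mem_univ g))]
  refine Finset.sum_congr rfl fun ψ hψ => ?_
  rw [Finset.sum_congr rfl (g := fun _ => ψ h) (fun g hg => by rw [(Finset.mem_filter.1 hg).2]),
    Finset.sum_const, hfib ψ hψ, nsmul_eq_mul]

end Cfsg.Agent.S1485
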