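import Cfsg.Statements.S1486
import Mathlib
import Cfsg.Agent.Lib.Chars.Clifford

set_option autoImplicit false
open Cfsg

namespace Cfsg.Agent.S1486

/-- Let H be a normal subgroup of the finite group G and θ, φ irreducible characters of H. If φ is a G-conjugate of θ then the functions induced from θ and φ coincide; if φ is not a G-conjugate of θ then the induced functions are orthogonal. -/
theorem result {G : Type*} [Group G] [Fintype G] (H : Subgroup G) [hN : H.Normal] (θ φ : H → ℂ) (hθ : Cfsg.IsIrrCharacter H θ) (hφ : Cfsg.IsIrrCharacter H φ) : ((∃ g : G, φ = fun h : H => θ ⟨g * h * g⁻¹, hN.conj_mem h h.2 g⟩) → Cfsg.indFun H φ = Cfsg.indFun H θ) ∧ ((¬ ∃ g : G, φ = fun h : H => θ ⟨g * h * g⁻¹, hN.conj_mem h h.2 g⟩) → Cfsg.classInner (Cfsg.indFun H φ) (Cfsg.indFun H θ) = 0) := by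
  classical
  haveI : Fintype H := Fintype.ofFinite H
  have hext : ∀ (f : H → ℂ) (y : G) (hy : y ∈ H), Cfsg.extendByZero H f y = f ⟨y, hy⟩ := fun f y hy =>
    CfsgLib.Chars.extendByZero_coe H f ⟨y, hy⟩
  refine ⟨?_, fun hne => ?_⟩
  · rintro ⟨g, rfl⟩
    funext y
    simp only [Cfsg.indFun]
    congr 1
    refine Fintype.sum_equiv (Equiv.mulRight g⁻¹) _ _ fun x => ?_
    show _ = Cfsg.extendByZero H θ ((x * g⁻¹)⁻¹ * y * (x * g⁻¹))
    by_cases hy : x⁻¹ * y * x ∈ H
    · have hy' : (x * g⁻¹)⁻¹ * y * (x * g⁻¹) ∈ H := by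
        convert hN.conj_mem _ hy g using 1
        group
      rw [hext _ _ hy, hext _ _ hy']
      congr 1
      ext
      simp [mul_assoc]
    · have hy' : (x * g⁻¹)⁻¹ * y * (x * g⁻¹) ∉ H := fun h => hy (by
        have := hN.conj_mem _ h g⁻¹
        convert this using 1
        group)
      rw [CfsgLib.Chars.extendByZero_apply, CfsgLib.Chars.extendByZero_apply, dif_neg hy, dif_neg hy']
  · rw [CfsgLib.Chars.frobenius H φ (CfsgLib.Chars.indFun_isClassFunction H θ)]
    let th : Cfsg.IrrCharacter H := ⟨θ, hθ⟩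
    let ph : Cfsg.IrrCharacter H := ⟨φ, hφ⟩
    have h0 : ∀ g : G, ∑ h : H, φ h * starRingEnd ℂ ((CfsgLib.Chars.conjIrr H th g : H → ℂ) h) = 0 := by
      intro g
      have hne' : ph ≠ CfsgLib.Chars.conjIrr H th g := fun e => hne ⟨g, funext fun h => by
        show φ h = _
        rw [show φ h = (ph : H → ℂ) h from rfl, e, CfsgLib.Chars.conjIrr_apply']⟩
      have := CfsgLib.Chars.sum_mul_conj_irr ph (CfsgLib.Chars.conjIrr H th g)
      rw [if_neg hne'] at this
      exact this
    simp only [Cfsg.classInner, CfsgLib.Chars.indFun_res H θ, map_mul, map_inv₀, map_natCast, map_sum,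
      Finset.mul_sum]
    rw [Finset.sum_comm]
    refine Finset.sum_eq_zero fun x _ => ?_
    rw [show (0 : ℂ) = (Nat.card H : ℂ)⁻¹ * ((Nat.card H : ℂ)⁻¹ * 0) by simp, ← h0 x⁻¹,
      Finset.mul_sum, Finset.mul_sum]
    refine Finset.sum_congr rfl fun h _ => ?_
    rw [CfsgLib.Chars.conjIrr_apply]
    ring

end Cfsg.Agent.S1486
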