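import Cfsg.Statements.S1488
import Mathlib
import Cfsg.Agent.Lib.Chars.Induced

set_option autoImplicit false
open Cfsg

namespace Cfsg.Agent.S1488

/-- Let A be a normal subgroup of the finite group G contained in the subgroup H, let θ be a function on H and θ₁ a function on the image of H in G ⧸ A whose composite with the projection is θ. Then the function induced from θ₁ to G ⧸ A, composed with the projection G → G ⧸ A, equals the function induced from θ to G. -/
theorem result {G : Type*} [Group G] [Fintype G] (A H : Subgroup G) [A.Normal] (hAH : A ≤ H) [Fintype (G ⧸ A)] [Fintype ↥(H.map (QuotientGroup.mk' A))] (θ : H → ℂ) (θ₁ : ↥(H.map (QuotientGroup.mk' A)) → ℂ) (hθ : ∀ x : H, θ₁ ⟨QuotientGroup.mk' A x, Subgroup.mem_map_of_mem _ x.2⟩ = θ x) (g : G) : Cfsg.indFun (H.map (QuotientGroup.mk' A)) θ₁ (QuotientGroup.mk' A g) = Cfsg.indFun H θ g := by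
  classical
  let π := QuotientGroup.mk' A
  have hπ : π = QuotientGroup.mk' A := rfl
  have key : ∀ z : G, Cfsg.extendByZero (H.map π) θ₁ (π z) = Cfsg.extendByZero H θ z := by
    intro z
    rw [CfsgLib.Chars.extendByZero_apply, CfsgLib.Chars.extendByZero_apply]
    by_cases hz : z ∈ H
    · rw [dif_pos hz, dif_pos (Subgroup.mem_map_of_mem _ hz)]
      exact hθ ⟨z, hz⟩
    · rw [dif_neg hz, dif_neg]
      rintro ⟨w, hw, hwz⟩
      apply hz
      have : w⁻¹ * z ∈ A := QuotientGroup.eq.1 hwz
      simpa using mul_mem hw (hAH this)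
  simp only [Cfsg.indFun]
  have hfib : ∀ q : G ⧸ A, (Finset.univ.filter fun x : G => π x = q).card = Nat.card A := by
    intro q
    rw [← Fintype.card_subtype, ← Nat.card_eq_fintype_card,
      Nat.card_congr ((Equiv.subtypeEquivRight (fun x => (by simp [hπ] : π x = q ↔
        x ∈ QuotientGroup.mk ⁻¹' ({q} : Set (G ⧸ A))))).trans
        (QuotientGroup.preimageMkEquivSubgroupProdSet A {q})), Nat.card_prod]
    simp
  have hsum : ∑ x : G, Cfsg.extendByZero H θ (x⁻¹ * g * x) =
      (Nat.card A : ℂ) * ∑ q : G ⧸ A, Cfsg.extendByZero (H.map π) θ₁ (q⁻¹ * π g * q) := by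
    rw [Finset.mul_sum, ← Finset.sum_fiberwise Finset.univ π]
    refine Finset.sum_congr rfl fun q _ => ?_
    rw [Finset.sum_congr rfl (g := fun _ => Cfsg.extendByZero (H.map π) θ₁ (q⁻¹ * π g * q))
      fun x hx => by rw [← key, map_mul, map_mul, map_inv, (Finset.mem_filter.1 hx).2],
      Finset.sum_const, hfib, nsmul_eq_mul]
  have hcard : Nat.card H = Nat.card A * Nat.card (H.map π) := by
    have h1 := Subgroup.card_mul_index (A.subgroupOf H)
    rw [Nat.card_congr (Subgroup.subgroupOfEquivOfLe hAH).toEquiv] at h1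
    rw [← h1, hπ, show (A.subgroupOf H).index = A.relIndex H from rfl,
      ← Subgroup.relIndex_ker, QuotientGroup.ker_mk']
  rw [hsum, hcard]
  have hA0 : (Nat.card A : ℂ) ≠ 0 := by exact_mod_cast Nat.card_pos.ne'
  push_cast
  field_simp
  rfl

end Cfsg.Agent.S1488
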