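import Cfsg.Statements.S1489
import Mathlib
import Cfsg.Agent.Lib.CliffordCorr

set_option autoImplicit false
open Cfsg

namespace Cfsg.Agent.S1489

/-- Let H be a normal subgroup of the finite group G, θ an irreducible character of H, and T the inertia group of θ (the elements g with θ(g h g⁻¹) = θ(h) for all h ∈ H). If ψ and ψ' are irreducible characters of T having nonzero inner product with the function induced from θ to T, then the function induced from ψ to G is an irreducible character of G, and it equals the one induced from ψ' only if ψ = ψ'. -/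
theorem result {G : Type*} [Group G] [Fintype G] (H T : Subgroup G) [hN : H.Normal] [Fintype T] (θ : H → ℂ) (hθ : Cfsg.IsIrrCharacter H θ) (hT : ∀ g : G, g ∈ T ↔ ∀ h : H, θ ⟨g * h * g⁻¹, hN.conj_mem h h.2 g⟩ = θ h) (hHT : H ≤ T) (ψ ψ' : T → ℂ) (hψ : Cfsg.IsIrrCharacter T ψ) (hψ' : Cfsg.IsIrrCharacter T ψ') (hc : Cfsg.classInner (Cfsg.indFun (H.subgroupOf T) (fun x => θ ⟨(x : T), Subgroup.mem_subgroupOf.mp x.2⟩)) ψ ≠ 0) (hc' : Cfsg.classInner (Cfsg.indFun (H.subgroupOf T) (fun x => θ ⟨(x : T), Subgroup.mem_subgroupOf.mp x.2⟩)) ψ' ≠ 0) : Cfsg.IsIrrCharacter G (Cfsg.indFun T ψ) ∧ (Cfsg.indFun T ψ = Cfsg.indFun T ψ' → ψ = ψ') := by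
  classical
  haveI : Fintype H := Fintype.ofFinite H
  haveI : Fintype (H.subgroupOf T) := Fintype.ofFinite _
  let t : Cfsg.IrrCharacter H := ⟨θ, hθ⟩
  have hmem : ∀ g, g ∈ T ↔ CfsgLib.Chars.conjIrr H t g = t := fun g => (hT g).trans
    ⟨fun h => Subtype.ext (funext fun n => (CfsgLib.Chars.conjIrr_apply' H t g n).trans (h n)),
     fun h n => (CfsgLib.Chars.conjIrr_apply' H t g n).symm.trans (congrFun (congrArg Subtype.val h) n)⟩
  have hover : ∀ φ : Cfsg.IrrCharacter T,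
      Cfsg.classInner (Cfsg.indFun (H.subgroupOf T) (fun x => θ ⟨(x : T), Subgroup.mem_subgroupOf.mp x.2⟩)) (φ : T → ℂ) ≠ 0 →
      Cfsg.classInner (fun n : H => (φ : T → ℂ) ⟨n, hHT n.2⟩) (t : H → ℂ) ≠ 0 := by
    intro φ h
    rw [CfsgLib.Chars.frobenius _ _ (CfsgLib.Chars.IsCharacter.isClassFunction (CfsgLib.Chars.isCharacter_irr φ))] at h
    change Cfsg.classInner (CfsgLib.CliffordCorr.subIrr H t hHT : H.subgroupOf T → ℂ) _ ≠ 0 at h
    rw [CfsgLib.Chars.classInner_character_comm (CfsgLib.Chars.isCharacter_irr (CfsgLib.CliffordCorr.subIrr H t hHT))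
        (CfsgLib.Chars.IsCharacter.restrict (CfsgLib.Chars.isCharacter_irr φ) _)] at h
    rw [← CfsgLib.CliffordCorr.classInner_subgroupOf H t hHT (φ : T → ℂ)]
    exact h
  obtain ⟨χ, hind, hne⟩ := CfsgLib.CliffordCorr.exists_induced H t hmem hHT ⟨ψ, hψ⟩ (hover ⟨ψ, hψ⟩ hc)
  refine ⟨hind ▸ χ.2, fun heq => ?_⟩
  obtain ⟨χ', hind', hne'⟩ := CfsgLib.CliffordCorr.exists_induced H t hmem hHT ⟨ψ', hψ'⟩ (hover ⟨ψ', hψ'⟩ hc')
  obtain rfl : χ' = χ := Subtype.ext (hind'.symm.trans (heq.symm.trans hind))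
  exact (congrArg Subtype.val ((CfsgLib.CliffordCorr.clifford_corr H t hmem hHT ⟨ψ, hψ⟩ (hover ⟨ψ, hψ⟩ hc) χ' hne).2.2
    ⟨ψ', hψ'⟩ hne' (hover ⟨ψ', hψ'⟩ hc'))).symm

end Cfsg.Agent.S1489
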