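import Cfsg.Statements.S1490
import Mathlib
import Cfsg.Agent.Lib.CliffordCorr

set_option autoImplicit false
open Cfsg

namespace Cfsg.Agent.S1490

/-- Let H be a normal subgroup of the finite group G, θ an irreducible character of H with inertia group T, and suppose the commutator of any two elements of T lies in H (T/H abelian). Then there are a positive integer e and a finite set C of irreducible characters of G with e ^ 2 * |C| * |H| = |T|, such that the function induced from θ is e times the sum of the members of C and every member of C has degree [G:T] * e * θ(1). -/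
theorem result {G : Type*} [Group G] [Fintype G] (H T : Subgroup G) [hN : H.Normal] (θ : H → ℂ) (hθ : Cfsg.IsIrrCharacter H θ) (hT : ∀ g : G, g ∈ T ↔ ∀ h : H, θ ⟨g * h * g⁻¹, hN.conj_mem h h.2 g⟩ = θ h) (hab : ∀ x ∈ T, ∀ y ∈ T, x * y * x⁻¹ * y⁻¹ ∈ H) : ∃ (e : ℕ) (C : Finset (G → ℂ)), 0 < e ∧ (∀ χ ∈ C, Cfsg.IsIrrCharacter G χ) ∧ e ^ 2 * C.card * Nat.card H = Nat.card T ∧ Cfsg.indFun H θ = (e : ℂ) • ∑ χ ∈ C, χ ∧ ∀ χ ∈ C, χ 1 = (T.index : ℂ) * e * θ 1 := by
  classical
  haveI : Fintype H := Fintype.ofFinite H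
  haveI : Fintype T := Fintype.ofFinite T
  let t : Cfsg.IrrCharacter H := ⟨θ, hθ⟩
  have hmem : ∀ g, g ∈ T ↔ CfsgLib.Chars.conjIrr H t g = t := fun g => (hT g).trans
    ⟨fun h => Subtype.ext (funext fun n => (CfsgLib.Chars.conjIrr_apply' H t g n).trans (h n)),
     fun h n => (CfsgLib.Chars.conjIrr_apply' H t g n).symm.trans (congrFun (congrArg Subtype.val h) n)⟩
  have hHT : H ≤ T := CfsgLib.CliffordCorr.le_inertia H t hmem
  haveI : Fintype (H.subgroupOf T) := Fintype.ofFinite _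
  haveI : (H.subgroupOf T).Normal := inferInstance
  have hind := CfsgLib.Chars.IsCharacter.indFun H (CfsgLib.Chars.isCharacter_irr t)
  have hmult : ∀ χ : Cfsg.IrrCharacter G, Cfsg.classInner (Cfsg.indFun H θ) (χ : G → ℂ) =
      Cfsg.classInner (fun n : H => (χ : G → ℂ) n) θ := fun χ => by
    rw [CfsgLib.Chars.frobenius H _ (CfsgLib.Chars.IsCharacter.isClassFunction (CfsgLib.Chars.isCharacter_irr χ))]
    exact CfsgLib.Chars.classInner_character_comm (CfsgLib.Chars.isCharacter_irr t)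
      (CfsgLib.Chars.IsCharacter.restrict (CfsgLib.Chars.isCharacter_irr χ) H)
  obtain ⟨χ₀, hχ₀⟩ := CfsgLib.CliffordCorr.exists_irr_constituent hind (by
    rw [CfsgLib.Chars.indFun_one]
    exact mul_ne_zero (Nat.cast_ne_zero.2 H.index_ne_zero_of_finite) (CfsgLib.Chars.irr_one_ne_zero t))
  rw [show Cfsg.classInner (Cfsg.indFun H (t : H → ℂ)) (χ₀ : G → ℂ) = _ from hmult χ₀] at hχ₀
  obtain ⟨ψ₀, hψ₀, hψ₀θ⟩ := CfsgLib.CliffordCorr.exists_corr H t hmem hHT χ₀ hχ₀
  obtain ⟨b, hb0, hb, hbval⟩ := CfsgLib.CliffordCorr.res_inertia H t hmem hHT ψ₀ hψ₀θ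
  have hall : ∀ χ : Cfsg.IrrCharacter G, Cfsg.classInner (fun n : H => (χ : G → ℂ) n) θ ≠ 0 →
      Cfsg.classInner (fun n : H => (χ : G → ℂ) n) θ = (b : ℂ) ∧ (χ : G → ℂ) 1 = (T.index : ℂ) * b * θ 1 := by
    intro χ hχ
    obtain ⟨ψ, hψ, hψθ⟩ := CfsgLib.CliffordCorr.exists_corr H t hmem hHT χ hχ
    obtain ⟨hindψ, hmul, -⟩ := CfsgLib.CliffordCorr.clifford_corr H t hmem hHT ψ hψθ χ hψ
    obtain ⟨c, hc0, hc, hcval⟩ := CfsgLib.CliffordCorr.res_inertia H t hmem hHT ψ hψθ
    have hcb : c = b := by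
      obtain ⟨f, hf1, hf⟩ := CfsgLib.CliffordCorr.exists_linear_twist (H.subgroupOf T)
        (fun x y => Subgroup.mem_subgroupOf.2 (hab x x.2 y y.2)) ψ₀ ψ (by
          have e : ∀ n : H.subgroupOf T, (ψ : T → ℂ) n * (starRingEnd ℂ) ((ψ₀ : T → ℂ) n) =
              (c : ℂ) * (b : ℂ) * ((fun h : H => θ h * (starRingEnd ℂ) (θ h)) (Subgroup.subgroupOfEquivOfLe hHT n)) := by
            intro n
            show (ψ : T → ℂ) ⟨((n : T) : G), hHT (Subgroup.subgroupOfEquivOfLe hHT n).2⟩ *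
              (starRingEnd ℂ) ((ψ₀ : T → ℂ) ⟨((n : T) : G), hHT (Subgroup.subgroupOfEquivOfLe hHT n).2⟩) = _
            rw [show (⟨((n : T) : G), hHT (Subgroup.subgroupOfEquivOfLe hHT n).2⟩ : T) = ⟨(Subgroup.subgroupOfEquivOfLe hHT n : H), hHT (Subgroup.subgroupOfEquivOfLe hHT n).2⟩ from rfl,
              hcval, hbval, map_mul, map_natCast]
            ring
          rw [Finset.sum_congr rfl (fun n _ => e n), ← Finset.mul_sum,
            show (∑ i, (fun h : H => θ h * (starRingEnd ℂ) (θ h)) ((Subgroup.subgroupOfEquivOfLe hHT) i)) =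
              ∑ h : H, θ h * (starRingEnd ℂ) (θ h) from (Subgroup.subgroupOfEquivOfLe hHT).toEquiv.sum_comp (fun h : H => θ h * (starRingEnd ℂ) (θ h))]
          have h1 := CfsgLib.Chars.sum_mul_conj_irr t t
          rw [if_pos rfl] at h1
          rw [h1]
          exact mul_ne_zero (mul_ne_zero (Nat.cast_ne_zero.2 hc0.ne') (Nat.cast_ne_zero.2 hb0.ne'))
            (Nat.cast_ne_zero.2 Nat.card_pos.ne'))
      have h := hf 1
      have h1 := hcval 1
      have h2 := hbval 1
      rw [show (⟨((1 : H) : G), hHT (1 : H).2⟩ : T) = 1 from rfl] at h1 h2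
      rw [map_one, Units.val_one, one_mul, h1, h2] at h
      exact_mod_cast mul_right_cancel₀ (CfsgLib.Chars.irr_one_ne_zero t) h
    subst hcb
    refine ⟨hmul.trans hc, ?_⟩
    rw [← hindψ, CfsgLib.Chars.indFun_one, show (ψ : T → ℂ) 1 = (c : ℂ) * θ 1 from hcval 1, mul_assoc]
  let S := Finset.univ.filter (fun χ : Cfsg.IrrCharacter G => Cfsg.classInner (fun n : H => (χ : G → ℂ) n) θ ≠ 0)
  refine ⟨b, S.map ⟨Subtype.val, Subtype.val_injective⟩, hb0, fun χ hχ => ?_, ?_, ?_, fun χ hχ => ?_⟩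
  · obtain ⟨c, -, rfl⟩ := Finset.mem_map.1 hχ
    exact c.2
  rotate_left
  · funext x
    rw [CfsgLib.Chars.classFunction_expand (CfsgLib.Chars.indFun_isClassFunction H θ) x, Pi.smul_apply,
      Finset.sum_apply, Finset.sum_map, smul_eq_mul, Finset.mul_sum, Finset.sum_filter]
    refine Finset.sum_congr rfl fun χ _ => ?_
    rw [hmult]
    split_ifs with h
    · rw [(hall χ h).1]; rfl
    · rw [not_not.1 h, zero_mul]
  · obtain ⟨c, hc, rfl⟩ := Finset.mem_map.1 hχ
    exact (hall c (Finset.mem_filter.1 hc).2).2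
  · rw [Finset.card_map]
    have h := CfsgLib.Chars.classFunction_expand (CfsgLib.Chars.indFun_isClassFunction H θ) 1
    rw [CfsgLib.Chars.indFun_one] at h
    have h' : (H.index : ℂ) * θ 1 = ∑ χ ∈ S, (b : ℂ) * ((T.index : ℂ) * b * θ 1) := by
      rw [h, Finset.sum_filter]
      refine Finset.sum_congr rfl fun χ _ => ?_
      rw [hmult]
      split_ifs with h
      · rw [(hall χ h).1, (hall χ h).2]
      · rw [not_not.1 h, zero_mul]
    rw [Finset.sum_const, nsmul_eq_mul] at h'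
    have h2 : (H.index : ℂ) = ((b ^ 2 * S.card * T.index : ℕ) : ℂ) := by
      refine mul_right_cancel₀ (CfsgLib.Chars.irr_one_ne_zero t) ?_
      show (H.index : ℂ) * θ 1 = _ * θ 1
      rw [h']; push_cast; ring
    have h3 : H.index = b ^ 2 * S.card * T.index := by exact_mod_cast h2
    refine Nat.eq_of_mul_eq_mul_left (Nat.pos_of_ne_zero T.index_ne_zero_of_finite) ?_
    calc T.index * (b ^ 2 * S.card * Nat.card H) = H.index * Nat.card H := by rw [h3]; ring
      _ = T.index * Nat.card T := by rw [Subgroup.index_mul_card, Subgroup.index_mul_card]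

end Cfsg.Agent.S1490
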