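import Cfsg.Statements.S1491
import Mathlib
import Cfsg.Agent.Lib.CliffordCorr
import Cfsg.Agent.Lib.Extendible
import Cfsg.Agent.S1490

set_option autoImplicit false
open Cfsg

namespace Cfsg.Agent.S1491

/-- Let H be a normal subgroup of the finite group G and θ an irreducible character of H with inertia group T, where T/H is abelian (commutators of T lie in H) and the index of H in T is coprime to the order of H. Then the function induced from θ is the sum of a set of exactly [T:H] irreducible characters of G, each of degree [G:T] * θ(1). -/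
theorem result {G : Type*} [Group G] [Fintype G] (H T : Subgroup G) [hN : H.Normal] (θ : H → ℂ) (hθ : Cfsg.IsIrrCharacter H θ) (hT : ∀ g : G, g ∈ T ↔ ∀ h : H, θ ⟨g * h * g⁻¹, hN.conj_mem h h.2 g⟩ = θ h) (hab : ∀ x ∈ T, ∀ y ∈ T, x * y * x⁻¹ * y⁻¹ ∈ H) (hcop : Nat.Coprime (Nat.card H) (H.relIndex T)) : ∃ C : Finset (G → ℂ), (∀ χ ∈ C, Cfsg.IsIrrCharacter G χ) ∧ C.card = H.relIndex T ∧ Cfsg.indFun H θ = ∑ χ ∈ C, χ ∧ ∀ χ ∈ C, χ 1 = (T.index : ℂ) * θ 1 := by
  classical
  haveI : Fintype H := Fintype.ofFinite H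
  haveI : Fintype T := Fintype.ofFinite T
  let t : Cfsg.IrrCharacter H := ⟨θ, hθ⟩
  have hmem : ∀ g, g ∈ T ↔ CfsgLib.Chars.conjIrr H t g = t := fun g => (hT g).trans
    ⟨fun h => Subtype.ext (funext fun n => (CfsgLib.Chars.conjIrr_apply' H t g n).trans (h n)),
     fun h n => (CfsgLib.Chars.conjIrr_apply' H t g n).symm.trans (congrFun (congrArg Subtype.val h) n)⟩
  have hHT : H ≤ T := CfsgLib.CliffordCorr.le_inertia H t hmem
  haveI : Fintype (H.subgroupOf T) := Fintype.ofFinite _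
  obtain ⟨e, C, he0, hC, hcard, hsum, hdeg⟩ := Cfsg.Agent.S1490.result H T θ hθ hT hab
  let θT := CfsgLib.CliffordCorr.subIrr H t hHT
  have hinvT : ∀ g : T, CfsgLib.Chars.conjIrr (H.subgroupOf T) θT g = θT := by
    intro g
    apply Subtype.ext; funext x
    rw [CfsgLib.Chars.conjIrr_apply']
    exact (hT g).1 g.2 ⟨((x : T) : G), Subgroup.mem_subgroupOf.1 x.2⟩
  have hcardH : Nat.card (H.subgroupOf T) = Nat.card H := Nat.card_congr (Subgroup.subgroupOfEquivOfLe hHT).toEquiv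
  obtain ⟨D, hD⟩ := CfsgLib.Extendible.exists_detHom θT
  obtain ⟨α, hα⟩ := CfsgLib.Extendible.extends_of_local (H.subgroupOf T) θT hinvT (fun p hp => by
    by_cases hpH : p ∣ Nat.card H
    · refine Or.inl ⟨H.subgroupOf T, le_rfl, θT, ?_, θT.2, fun n => rfl⟩
      exact (hcop.coprime_dvd_left hpH).symm
    · refine Or.inr ⟨Nat.card H, 1, ?_, fun n => ?_⟩
      · refine Nat.Coprime.mul_left ?_ ((hp.coprime_iff_not_dvd).2 hpH).symm
        exact ((hp.coprime_iff_not_dvd).2 (fun h => hpH (hcardH ▸ h.trans (CfsgLib.Chars.charDegree_dvd θT)))).symm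
      · rw [← hD, ← Units.val_pow_eq_pow_val, ← map_pow, ← hcardH, pow_card_eq_one', map_one]; rfl)
  have hαθ : Cfsg.classInner (fun n : H => (α : T → ℂ) ⟨n, hHT n.2⟩) (t : H → ℂ) = 1 := by
    rw [show (fun n : H => (α : T → ℂ) ⟨n, hHT n.2⟩) = (t : H → ℂ) from funext fun n => hα ⟨⟨n, hHT n.2⟩, n.2⟩,
      CfsgLib.Chars.classInner_irr, if_pos rfl]
  obtain ⟨χ, hind, hne⟩ := CfsgLib.CliffordCorr.exists_induced H t hmem hHT α (by rw [hαθ]; exact one_ne_zero)
  have hm := (CfsgLib.CliffordCorr.clifford_corr H t hmem hHT α (by rw [hαθ]; exact one_ne_zero) χ hne).2.1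
  rw [hαθ, CfsgLib.Chars.classInner_character_comm (CfsgLib.Chars.IsCharacter.restrict (CfsgLib.Chars.isCharacter_irr χ) H)
    (CfsgLib.Chars.isCharacter_irr t), ← CfsgLib.Chars.frobenius H (t : H → ℂ)
    (CfsgLib.Chars.IsCharacter.isClassFunction (CfsgLib.Chars.isCharacter_irr χ))] at hm
  change Cfsg.classInner (Cfsg.indFun H θ) (χ : G → ℂ) = 1 at hm
  have he1 : e = 1 := by
    have hx : Cfsg.classInner (∑ c ∈ C, c) (χ : G → ℂ) = if (χ : G → ℂ) ∈ C then 1 else 0 := by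
      rw [show (∑ c ∈ C, c) = fun g => ∑ c ∈ C, (1 : ℂ) * c g from funext fun g => by simp [Finset.sum_apply],
        CfsgLib.Chars.classInner_sum]
      simp only [one_mul]
      have hterm : ∀ c ∈ C, Cfsg.classInner c (χ : G → ℂ) = if c = (χ : G → ℂ) then (1 : ℂ) else 0 := fun c hc =>
        (CfsgLib.Chars.classInner_irr (⟨c, hC c hc⟩ : Cfsg.IrrCharacter G) χ).trans
          (if_congr Subtype.ext_iff rfl rfl)
      rw [Finset.sum_congr rfl hterm, Finset.sum_ite_eq']
    rw [hsum, show Cfsg.classInner ((e : ℂ) • ∑ c ∈ C, c) (χ : G → ℂ) = (e : ℂ) * Cfsg.classInner (∑ c ∈ C, c) (χ : G → ℂ) by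
      simp only [Cfsg.classInner, Pi.smul_apply, smul_eq_mul, mul_assoc, ← Finset.mul_sum]; ring, hx] at hm
    split_ifs at hm with h
    · rw [mul_one] at hm; exact_mod_cast hm
    · rw [mul_zero] at hm; exact absurd hm zero_ne_one
  subst he1
  rw [Nat.cast_one, one_smul] at hsum
  refine ⟨C, hC, ?_, hsum, fun χ hχ => by rw [hdeg χ hχ, Nat.cast_one, mul_one]⟩
  have h2 := Subgroup.index_mul_card (H.subgroupOf T)
  rw [hcardH] at h2
  rw [one_pow, one_mul, ← h2] at hcard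
  exact Nat.eq_of_mul_eq_mul_right Nat.card_pos hcard

end Cfsg.Agent.S1491
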