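import Cfsg.Statements.S1492
import Mathlib
import Cfsg.Agent.Lib.Chars.Clifford
import Cfsg.Agent.Lib.Chars.Misc
import Cfsg.Agent.Lib.Chars.Kernel

set_option autoImplicit false
open Cfsg

namespace Cfsg.Agent.S1492

/-- Let ψ be an irreducible character of the finite group G and B ≤ D ≤ C subgroups with B normal in C, every commutator of an element of D with an element of C lying in B (so D/B is central in C/B), and ψ constant equal to ψ 1 on B. Then ψ(1) ^ 2 * |C| * |D| ≤ |G| ^ 2. -/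
theorem result {G : Type*} [Group G] [Finite G] (ψ : G → ℂ) (hψ : Cfsg.IsIrrCharacter G ψ) (B C D : Subgroup G) (hBD : B ≤ D) (hDC : D ≤ C) (hBn : ∀ c ∈ C, ∀ b ∈ B, c * b * c⁻¹ ∈ B) (hcent : ∀ d ∈ D, ∀ c ∈ C, d * c * d⁻¹ * c⁻¹ ∈ B) (hker : ∀ b ∈ B, ψ b = ψ 1) : ‖ψ 1‖ ^ 2 * (Nat.card C : ℝ) * (Nat.card D : ℝ) ≤ (Nat.card G : ℝ) ^ 2 := by
  classical
  haveI : Fintype G := Fintype.ofFinite G
  haveI : Fintype C := Fintype.ofFinite C
  let ps : Cfsg.IrrCharacter G := ⟨ψ, hψ⟩
  have hres : Cfsg.IsCharacter C (fun c : C => ψ c) :=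
    CfsgLib.Chars.IsCharacter.restrict (CfsgLib.Chars.isCharacter_irr ps) C
  obtain ⟨θ, hθ⟩ : ∃ θ : Cfsg.IrrCharacter C, Cfsg.classInner (fun c : C => ψ c) (θ : C → ℂ) ≠ 0 := by
    by_contra hne
    push Not at hne
    apply CfsgLib.Chars.irr_one_ne_zero ps
    have h1 := CfsgLib.Chars.classFunction_expand (CfsgLib.Chars.IsCharacter.isClassFunction hres) 1
    simp only [hne, zero_mul, Finset.sum_const_zero, OneMemClass.coe_one] at h1
    exact h1
  have hθc := CfsgLib.Chars.isCharacter_irr θ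
  have hind := CfsgLib.Chars.IsCharacter.indFun C hθc
  -- degree bound
  have hdeg : Cfsg.charDegree ψ ≤ C.index * Cfsg.charDegree (θ : C → ℂ) := by
    refine le_trans (CfsgLib.Chars.charDegree_le_of_constituent hind ps ?_) (le_of_eq ?_)
    · rw [CfsgLib.Chars.frobenius C _ (CfsgLib.Chars.IsCharacter.isClassFunction (CfsgLib.Chars.isCharacter_irr ps)),
        CfsgLib.Chars.classInner_symm]
      exact fun h => hθ ((starRingEnd ℂ).injective (h.trans (map_zero _).symm))
    · have h1 := CfsgLib.Chars.indFun_one C (θ : C → ℂ)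
      rw [CfsgLib.Chars.IsCharacter.apply_one hind, CfsgLib.Chars.irr_apply_one] at h1
      exact_mod_cast h1
  -- `B` is in the kernel of `θ`
  haveI hBN : (B.subgroupOf C).Normal := ⟨fun b hb c => hBn c c.2 b hb⟩
  have hBθ : ∀ n ∈ B.subgroupOf C, (θ : C → ℂ) n = (θ : C → ℂ) 1 := by
    intro n hn
    -- `θ` is a constituent of the restriction, whose kernel contains `B`
    choose m hm using CfsgLib.Chars.exists_mult hres
    have he : ∀ g : C, ψ g = ∑ χ : Cfsg.IrrCharacter C, (m χ : ℂ) * (χ : C → ℂ) g := fun g => by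
      have := CfsgLib.Chars.classFunction_expand (CfsgLib.Chars.IsCharacter.isClassFunction hres) g
      simp only [hm] at this
      exact this
    have hm0 : m θ ≠ 0 := fun h0 => hθ (by rw [hm, h0, Nat.cast_zero])
    have hle : ∀ χ : Cfsg.IrrCharacter C, ((χ : C → ℂ) n).re ≤ ((χ : C → ℂ) 1).re := fun χ =>
      (Complex.re_le_norm _).trans ((CfsgLib.Chars.IsCharacter.norm_le (CfsgLib.Chars.isCharacter_irr χ) n).trans
        (by simp [CfsgLib.Chars.IsCharacter.apply_one (CfsgLib.Chars.isCharacter_irr χ)]))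
    have hk : ψ (n : G) = ψ ((1 : C) : G) := hker n hn
    rw [he, he] at hk
    have h2 := congrArg Complex.re hk
    simp only [Complex.re_sum, Complex.mul_re, Complex.natCast_re, Complex.natCast_im, zero_mul, sub_zero] at h2
    have h3 := (Finset.sum_eq_sum_iff_of_le fun χ _ =>
      mul_le_mul_of_nonneg_left (hle χ) (Nat.cast_nonneg (α := ℝ) (m χ))).1 h2 θ (Finset.mem_univ _)
    have hre : ((θ : C → ℂ) n).re = (Cfsg.charDegree (θ : C → ℂ) : ℝ) := by
      rw [mul_left_cancel₀ (Nat.cast_ne_zero.2 hm0) h3, CfsgLib.Chars.irr_apply_one, Complex.natCast_re]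
    have hnorm : ‖(θ : C → ℂ) n‖ ≤ (Cfsg.charDegree (θ : C → ℂ) : ℝ) :=
      (CfsgLib.Chars.IsCharacter.norm_le hθc n).trans (le_of_eq (by simp [CfsgLib.Chars.irr_apply_one]))
    have him : ((θ : C → ℂ) n).im = 0 := by
      have h4 : ((θ : C → ℂ) n).re * ((θ : C → ℂ) n).re + ((θ : C → ℂ) n).im * ((θ : C → ℂ) n).im =
          ‖(θ : C → ℂ) n‖ ^ 2 := by
        rw [Complex.sq_norm, Complex.normSq_apply]
      have h0 := norm_nonneg ((θ : C → ℂ) n)
      have : ((θ : C → ℂ) n).im * ((θ : C → ℂ) n).im ≤ 0 := by nlinarith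
      exact mul_self_eq_zero.1 (le_antisymm this (mul_self_nonneg _))
    rw [CfsgLib.Chars.irr_apply_one]
    exact Complex.ext (by simpa using hre) (by simpa using him)
  obtain ⟨σ, hσ⟩ := CfsgLib.Chars.exists_deflate (B.subgroupOf C) θ hBθ
  set e := Cfsg.charDegree (θ : C → ℂ) with he
  -- elements of `D` act as scalars
  have hsc : ∀ d : C, (d : G) ∈ D → Complex.normSq ((θ : C → ℂ) d) = (e : ℝ) ^ 2 := by
    intro d hd
    have hz : (QuotientGroup.mk d : C ⧸ B.subgroupOf C) ∈ Subgroup.center _ := by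
      rw [Subgroup.mem_center_iff]
      intro q
      induction q using QuotientGroup.induction_on with
      | _ c =>
        rw [← QuotientGroup.mk_mul, ← QuotientGroup.mk_mul, eq_comm, QuotientGroup.eq, Subgroup.mem_subgroupOf]
        simp only [Subgroup.coe_mul, Subgroup.coe_inv]
        have h1 := hBn (c * d)⁻¹ (C.inv_mem (C.mul_mem c.2 d.2)) _ (B.inv_mem (hcent d hd c c.2))
        convert h1 using 1
        group
    have h1 := CfsgLib.Chars.mul_central σ hz (QuotientGroup.mk d⁻¹)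
    rw [← QuotientGroup.mk_mul, mul_inv_cancel] at h1
    have hval : ∀ c : C, (σ : C ⧸ B.subgroupOf C → ℂ) (QuotientGroup.mk c) = (θ : C → ℂ) c := fun c =>
      (congrFun hσ c).symm
    rw [hval, hval, hval, CfsgLib.Chars.IsCharacter.map_inv hθc, Complex.mul_conj,
      show (σ : C ⧸ B.subgroupOf C → ℂ) 1 = (θ : C → ℂ) 1 from hval 1, CfsgLib.Chars.irr_apply_one, ← he] at h1
    have h2 := congrArg Complex.re h1
    simp at h2
    rw [sq]; exact h2.symm
  -- norm one
  have hn1 := CfsgLib.Chars.sum_mul_conj_irr θ θ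
  rw [if_pos rfl] at hn1
  have hnorm : ∑ c : C, Complex.normSq ((θ : C → ℂ) c) = (Nat.card C : ℝ) := by
    have h2 := congrArg Complex.re hn1
    simpa [Complex.mul_conj] using h2
  have hDcard : (Finset.univ.filter fun c : C => (c : G) ∈ D).card = Nat.card D := by
    rw [← Fintype.card_subtype, ← Nat.card_eq_fintype_card]
    exact Nat.card_congr (Subgroup.subgroupOfEquivOfLe hDC).toEquiv
  have hDe : (e : ℝ) ^ 2 * Nat.card D ≤ Nat.card C := by
    rw [← hnorm, ← hDcard]
    refine le_trans (le_of_eq ?_) (Finset.sum_le_sum_of_subset_of_nonneg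
      (Finset.filter_subset (fun c : C => (c : G) ∈ D) Finset.univ) fun _ _ _ => Complex.normSq_nonneg _)
    rw [Finset.sum_congr rfl fun d hd => hsc d (Finset.mem_filter.1 hd).2, Finset.sum_const, nsmul_eq_mul, mul_comm]
  rw [show ψ 1 = (Cfsg.charDegree ψ : ℂ) from CfsgLib.Chars.IsCharacter.apply_one (CfsgLib.Chars.isCharacter_irr ps),
    Complex.norm_natCast, ← Subgroup.index_mul_card C, Nat.cast_mul]
  have hd' : (Cfsg.charDegree ψ : ℝ) ≤ (C.index : ℝ) * e := by exact_mod_cast hdeg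
  have hC0 : (0 : ℝ) ≤ Nat.card C := Nat.cast_nonneg _
  calc (Cfsg.charDegree ψ : ℝ) ^ 2 * Nat.card C * Nat.card D
      ≤ ((C.index : ℝ) * e) ^ 2 * Nat.card C * Nat.card D := by gcongr
    _ = (C.index : ℝ) ^ 2 * Nat.card C * ((e : ℝ) ^ 2 * Nat.card D) := by ring
    _ ≤ (C.index : ℝ) ^ 2 * Nat.card C * Nat.card C :=
        mul_le_mul_of_nonneg_left hDe (by positivity)
    _ = _ := by ring

end Cfsg.Agent.S1492
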