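import Cfsg.Statements.S1494
import Mathlib
import Cfsg.Agent.Lib.CharAbelian

set_option autoImplicit false
open Cfsg

namespace Cfsg.Agent.S1494

/-- Let χ be a generalized character of the finite group G, p a prime, x an element of order p and y an element commuting with x. Then χ(x * y) − χ(y) = (1 − ε) * ω for some algebraic integer ω, where ε = exp(2πi/p). -/
theorem result {G : Type*} [Group G] [Finite G] (χ : G → ℂ) (hχ : Cfsg.IsGeneralizedCharacter G χ) (p : ℕ) (hp : p.Prime) (x y : G) (hx : orderOf x = p) (hxy : x * y = y * x) : ∃ ω : ℂ, IsIntegral ℤ ω ∧ χ (x * y) - χ y = (1 - Complex.exp (2 * Real.pi * Complex.I / p)) * ω := by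
  classical
  obtain ⟨A, B, hA, hB, rfl⟩ := hχ
  let E : Subgroup G := Subgroup.closure {x, y}
  have hcomm : ∀ a b : E, a * b = b * a := by
    have hle : E ≤ Subgroup.centralizer ({x, y} : Set G) := by
      rw [Subgroup.closure_le]
      intro a ha
      rw [SetLike.mem_coe, Subgroup.mem_centralizer_iff]
      intro b hb
      rcases ha with rfl | ha <;> rcases hb with rfl | hb
      · rfl
      · rw [Set.mem_singleton_iff] at hb; subst hb; exact hxy.symm
      · rw [Set.mem_singleton_iff] at ha; subst ha; exact hxy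
      · rw [Set.mem_singleton_iff] at ha hb; rw [ha, hb]
    have hle2 : E ≤ Subgroup.centralizer (E : Set G) := by
      rw [Subgroup.closure_le]
      intro a ha
      rw [SetLike.mem_coe, Subgroup.mem_centralizer_iff]
      intro b hb
      exact (Subgroup.mem_centralizer_iff.1 (hle hb) a ha).symm
    exact fun a b => Subtype.ext (Subgroup.mem_centralizer_iff.1 (hle2 b.2) a a.2)
  let x' : E := ⟨x, Subgroup.subset_closure (by simp)⟩
  let y' : E := ⟨y, Subgroup.subset_closure (by simp)⟩
  set ζ : ℂ := Complex.exp (2 * Real.pi * Complex.I / p) with hζ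
  have hprim : IsPrimitiveRoot ζ p := Complex.isPrimitiveRoot_exp p hp.ne_zero
  have hζi : IsIntegral ℤ ζ := hprim.isIntegral hp.pos
  have key : ∀ C : G → ℂ, IsCharacter G C → ∃ w : ℂ, IsIntegral ℤ w ∧ C (x * y) - C y = (1 - ζ) * w := by
    intro C hC
    obtain ⟨l, hl⟩ := CfsgLib.Chars.exists_list_hom hcomm (CfsgLib.Chars.IsCharacter.restrict hC E)
    have h0 : C (x * y) - C y = (l.map fun f => (f (x' * y') : ℂ)).sum - (l.map fun f => (f y' : ℂ)).sum := by
      rw [← hl, ← hl]; rfl
    rw [h0]
    clear h0 hl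
    induction l with
    | nil => exact ⟨0, isIntegral_zero, by simp⟩
    | cons f t ih =>
      obtain ⟨w, hw, he⟩ := ih
      have hxp : ((f x' : ℂˣ) : ℂ) ^ p = 1 := by
        rw [← Units.val_pow_eq_pow_val, ← map_pow, show x' ^ p = 1 from Subtype.ext (by simp [x', ← hx, pow_orderOf_eq_one]), map_one, Units.val_one]
      haveI : NeZero p := ⟨hp.ne_zero⟩
      obtain ⟨j, _, hj⟩ := hprim.eq_pow_of_pow_eq_one hxp
      have hy' : IsIntegral ℤ ((f y' : ℂˣ) : ℂ) := by
        refine IsIntegral.of_pow (n := orderOf y') (orderOf_pos _) ?_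
        rw [← Units.val_pow_eq_pow_val, ← map_pow, pow_orderOf_eq_one, map_one, Units.val_one]
        exact isIntegral_one
      refine ⟨-((f y' : ℂ) * ∑ i ∈ Finset.range j, ζ ^ i) + w,
        (((hy'.mul (IsIntegral.sum _ fun i _ => hζi.pow i)).neg).add hw), ?_⟩
      simp only [List.map_cons, List.sum_cons, map_mul, Units.val_mul] at he ⊢
      rw [← hj]
      linear_combination he + (f y' : ℂ) * (mul_geom_sum ζ j).symm
  obtain ⟨u, hu, eu⟩ := key A hA
  obtain ⟨v, hv, ev⟩ := key B hB
  exact ⟨u - v, hu.sub hv, by simp only [Pi.sub_apply]; linear_combination eu - ev⟩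

end Cfsg.Agent.S1494
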