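import Cfsg.Statements.S1495
import Mathlib

set_option autoImplicit false
open Cfsg

namespace Cfsg.Agent.S1495

/-- Let p be a prime, ε = exp(2πi/p), and n an integer such that n = (1 − ε) * ω for some algebraic integer ω. Then p divides n. -/
theorem result (p : ℕ) (hp : p.Prime) (n : ℤ) (ω : ℂ) (hω : IsIntegral ℤ ω) (h : (n : ℂ) = (1 - Complex.exp (2 * Real.pi * Complex.I / p)) * ω) : (p : ℤ) ∣ n := by
  classical
  set ε := Complex.exp (2 * Real.pi * Complex.I / p) with hε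
  have hprim : IsPrimitiveRoot ε p := Complex.isPrimitiveRoot_exp p hp.ne_zero
  have hεint : IsIntegral ℤ ε := hprim.isIntegral hp.pos
  have hu : ∀ k ∈ Finset.range (p - 1), ∃ u : ℂ, IsIntegral ℤ u ∧ 1 - ε = (1 - ε ^ (k + 1)) * u := by
    intro k hk
    have hk' := Finset.mem_range.1 hk
    have hco : Nat.Coprime (k + 1) p :=
      (hp.coprime_iff_not_dvd.2 fun hd => absurd (Nat.le_of_dvd (by omega) hd) (by omega)).symm
    obtain ⟨i, hi⟩ := Nat.exists_mul_mod_eq_one_of_coprime hco hp.one_lt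
    refine ⟨∑ j ∈ Finset.range i, (ε ^ (k + 1)) ^ j,
      IsIntegral.sum _ fun j _ => ((hεint.pow _).pow _), ?_⟩
    rw [mul_neg_geom_sum, ← pow_mul]
    congr 1
    conv_rhs => rw [← Nat.mod_add_div ((k + 1) * i) p]
    rw [pow_add, pow_mul, hprim.pow_eq_one, one_pow, mul_one]
    rw [hi.2, pow_one]
  choose u hu1 hu2 using hu
  have hprod : ∏ k ∈ Finset.range (p - 1), (1 - ε ^ (k + 1)) = (p : ℂ) := by
    obtain ⟨q, rfl⟩ : ∃ q, p = q + 1 := ⟨p - 1, by have := hp.pos; omega⟩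
    simpa using hprim.prod_one_sub_pow_eq_order
  have hpow : (n : ℂ) ^ (p - 1) = (p : ℂ) *
      ((∏ k ∈ (Finset.range (p - 1)).attach, u k.1 k.2) * ω ^ (p - 1)) := by
    rw [h, mul_pow, ← mul_assoc]
    congr 1
    rw [← hprod, ← Finset.prod_attach (Finset.range (p - 1)) (fun k => 1 - ε ^ (k + 1)),
      ← Finset.prod_mul_distrib]
    rw [Finset.prod_congr rfl fun k _ => (hu2 k.1 k.2).symm, Finset.prod_const, Finset.card_attach,
      Finset.card_range]
  set w := (∏ k ∈ (Finset.range (p - 1)).attach, u k.1 k.2) * ω ^ (p - 1) with hw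
  have hwint : IsIntegral ℤ w := (IsIntegral.prod _ fun k _ => hu1 _ _).mul (hω.pow _)
  have hp0 : (p : ℚ) ≠ 0 := by exact_mod_cast hp.ne_zero
  have hrat : w = algebraMap ℚ ℂ ((n : ℚ) ^ (p - 1) / p) := by
    rw [map_div₀, map_pow, map_intCast, map_natCast, hpow]
    rw [mul_div_cancel_left₀]
    exact_mod_cast hp.ne_zero
  rw [hrat] at hwint
  obtain ⟨z, hz⟩ := IsIntegrallyClosed.isIntegral_iff.1
    ((isIntegral_algHom_iff ((Algebra.ofId ℚ ℂ).restrictScalars ℤ)
      (algebraMap ℚ ℂ).injective).1 hwint)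
  have hdvd : (p : ℤ) ∣ n ^ (p - 1) := by
    refine ⟨z, ?_⟩
    rw [eq_intCast, eq_div_iff hp0] at hz
    have : ((n ^ (p - 1) : ℤ) : ℚ) = ((p * z : ℤ) : ℚ) := by push_cast; rw [← hz]; ring
    exact_mod_cast this
  exact Int.Prime.dvd_pow' hp hdvd

end Cfsg.Agent.S1495
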