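import Cfsg.Statements.S1496
import Mathlib

set_option autoImplicit false
open Cfsg

namespace Cfsg.Agent.S1496

/-- Let H be a subgroup of the finite group G and g an element normalising H whose order is coprime to the order of H. Then for every h ∈ H there are x ∈ H and c ∈ H commuting with g such that x * (h * g) * x⁻¹ = c * g. -/
theorem result {G : Type*} [Group G] [Finite G] (H : Subgroup G) (g : G) (hg : g ∈ Subgroup.normalizer (H : Set G)) (hcop : Nat.Coprime (orderOf g) (Nat.card H)) (h : G) (hh : h ∈ H) : ∃ x ∈ H, ∃ c ∈ H, c * g = g * c ∧ x * (h * g) * x⁻¹ = c * g := by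
  classical
  set C := H ⊓ Subgroup.centralizer ({g} : Set G) with hC
  have hgH : ∀ x ∈ H, g * x * g⁻¹ ∈ H := fun x hx => (Subgroup.mem_normalizer_iff.1 hg x).1 hx
  have hCg : ∀ c ∈ C, Commute c g := fun c hc => Subgroup.mem_centralizer_singleton_iff.1 hc.2
  obtain ⟨m, hm1, hm2⟩ := Nat.chineseRemainder hcop 1 0
  have hpow : ∀ c ∈ C, (c * g) ^ m = g := by
    intro c hc
    have e1 : g ^ m = g := by
      conv_rhs => rw [← pow_one g]
      exact pow_eq_pow_iff_modEq.2 hm1
    have e2 : c ^ m = 1 := by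
      obtain ⟨k, hk⟩ := Nat.modEq_zero_iff_dvd.1 hm2
      rw [hk, pow_mul]
      have h1 : (⟨c, hc.1⟩ : H) ^ Nat.card H = 1 := pow_card_eq_one'
      have h2 : c ^ Nat.card H = 1 := congrArg Subtype.val h1
      rw [h2, one_pow]
    rw [(hCg c hc).mul_pow, e1, e2, one_mul]
  let T := {z : G // z * g⁻¹ ∈ H}
  let Ψ : (H ⧸ C.subgroupOf H) × C → T := fun qc =>
    ⟨(qc.1.out : G) * (qc.2 * g) * (qc.1.out : G)⁻¹, by
      have h1 := hgH _ (inv_mem qc.1.out.2)
      have h2 := mul_mem (mul_mem qc.1.out.2 qc.2.2.1) h1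
      simpa [mul_assoc] using h2⟩
  have hinj : Function.Injective Ψ := by
    rintro ⟨q, ⟨c, hc⟩⟩ ⟨r, ⟨d, hd⟩⟩ he
    have he' : (q.out : G) * (c * g) * (q.out : G)⁻¹ = (r.out : G) * (d * g) * (r.out : G)⁻¹ :=
      congrArg Subtype.val he
    have hpw := congrArg (· ^ m) he'
    simp only [conj_pow, hpow c hc, hpow d hd] at hpw
    have hqr : q = r := by
      rw [← QuotientGroup.out_eq' q, ← QuotientGroup.out_eq' r, QuotientGroup.eq,
        Subgroup.mem_subgroupOf]
      refine ⟨H.mul_mem (H.inv_mem q.out.2) r.out.2, Subgroup.mem_centralizer_singleton_iff.2 ?_⟩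
      have := congrArg (fun z => (q.out : G)⁻¹ * z * (r.out : G)) hpw
      simp only [mul_assoc, inv_mul_cancel_left, inv_mul_cancel, mul_one] at this
      push_cast
      simp only [mul_assoc]
      exact this.symm
    subst hqr
    have hcd : c * g = d * g := mul_left_cancel (mul_right_cancel he')
    have := mul_right_cancel hcd
    subst this
    rfl
  have hcard : Nat.card ((H ⧸ C.subgroupOf H) × C) = Nat.card T := by
    rw [Nat.card_prod, ← Subgroup.index_eq_card,
      ← Nat.card_congr (Subgroup.subgroupOfEquivOfLe (inf_le_left : C ≤ H)).toEquiv, mul_comm,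
      Subgroup.card_mul_index]
    exact Nat.card_congr ((Equiv.mulRight g).subtypeEquiv fun x => by simp)
  have hbij := (Nat.bijective_iff_injective_and_card Ψ).2 ⟨hinj, hcard⟩
  obtain ⟨⟨q, c, hc⟩, hq⟩ := hbij.2 ⟨h * g, by simpa using hh⟩
  have hq' : (q.out : G) * (c * g) * (q.out : G)⁻¹ = h * g := congrArg Subtype.val hq
  refine ⟨(q.out : G)⁻¹, inv_mem q.out.2, c, hc.1, hCg c hc, ?_⟩
  rw [← hq']
  group

end Cfsg.Agent.S1496
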