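import Cfsg.Statements.S1497
import Mathlib

set_option autoImplicit false
open Cfsg

namespace Cfsg.Agent.S1497

/-- Let A be a nonempty subset of the finite group G not containing 1 and L a subgroup. Then A is a TI-subset whose normaliser is L if and only if the Dade hypothesis holds for A, L and the constant choice H(a) = ⊥. -/
theorem result {G : Type*} [Group G] [Finite G] (A : Set G) (hA : A.Nonempty) (h1 : (1 : G) ∉ A) (L : Subgroup G) : (Cfsg.IsTISubset A ∧ Subgroup.normalizer A = L) ↔ Cfsg.DadeHypothesis A L (fun _ => ⊥) := by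
  constructor
  · rintro ⟨hTI, hN⟩
    have hmem : ∀ a ∈ A, ∀ g : G, g * a * g⁻¹ ∈ A → g ∈ L := by
      intro a ha g hga
      rw [← hN]
      by_contra hg
      exact h1 (hTI g hg a ha hga ▸ ha)
    have hconj : ∀ x ∈ L, ∀ a ∈ A, x * a * x⁻¹ ∈ A := by
      intro x hx a ha
      rw [← hN] at hx
      exact (Subgroup.mem_set_normalizer_iff.1 hx a).1 ha
    refine ⟨h1, fun a ha => hmem a ha a (by simpa using ha), hconj,
      fun a ha g hga => ⟨g, hmem a ha g hga, rfl⟩, fun a _ => bot_le, ?_, fun a _ => bot_inf_eq _,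
      ?_, ?_⟩
    · intro a _ c _ u hu
      rw [Subgroup.mem_bot] at hu
      simp [hu]
    · intro a ha
      rw [bot_sup_eq, inf_eq_right]
      intro c hc
      refine hmem a ha c ?_
      rw [Subgroup.mem_centralizer_singleton_iff.1 hc, mul_inv_cancel_right]
      exact ha
    · intro a _ b _
      rw [Subgroup.card_bot]
      exact Nat.coprime_one_left _
  · intro hD
    have hmem : ∀ a ∈ A, ∀ g : G, g * a * g⁻¹ ∈ A → g ∈ L := by
      intro a ha g hga
      obtain ⟨x, hx, hxg⟩ := hD.fusion a ha g hga
      have hc : x⁻¹ * g ∈ Subgroup.centralizer ({a} : Set G) := by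
        rw [Subgroup.mem_centralizer_singleton_iff]
        calc x⁻¹ * g * a = x⁻¹ * (g * a * g⁻¹) * g := by group
          _ = a * (x⁻¹ * g) := by rw [← hxg]; group
      have hs := hD.sup_eq a ha
      rw [bot_sup_eq] at hs
      rw [← hs] at hc
      simpa using mul_mem hx hc.1
    have hN : Subgroup.normalizer A = L := by
      ext x
      constructor
      · intro hx
        obtain ⟨a, ha⟩ := hA
        exact hmem a ha x ((Subgroup.mem_set_normalizer_iff.1 hx a).1 ha)
      · intro hx
        refine Subgroup.mem_set_normalizer_iff.2 fun a => ⟨hD.conj_mem x hx a, fun h => ?_⟩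
        simpa [mul_assoc] using hD.conj_mem x⁻¹ (inv_mem hx) _ h
    refine ⟨fun g hg a ha hga => ?_, hN⟩
    rw [hN] at hg
    exact absurd (hmem a ha g hga) hg

end Cfsg.Agent.S1497
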