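import Cfsg.Statements.S1498
import Mathlib

set_option autoImplicit false
open Cfsg

namespace Cfsg.Agent.S1498

/-- Under the Dade hypothesis for (A, L, H): for a ∈ A and x ∈ L, the subgroup attached to x * a * x⁻¹ is the conjugate of H a by x. -/
theorem result {G : Type*} [Group G] [Finite G] (A : Set G) (L : Subgroup G) (H : G → Subgroup G) (hD : Cfsg.DadeHypothesis A L H) (a : G) (ha : a ∈ A) (x : G) (hx : x ∈ L) : H (x * a * x⁻¹) = (H a).map (MulAut.conj x).toMonoidHom := by
  have key : ∀ b ∈ A, ∀ u ∈ Subgroup.centralizer ({b} : Set G),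
      Nat.Coprime (orderOf u) (Nat.card ↥(L ⊓ Subgroup.centralizer ({b} : Set G))) → u ∈ H b := by
    intro b hb u hu hcop
    set C := Subgroup.centralizer ({b} : Set G) with hC
    set K := L ⊓ C with hK
    haveI hn : ((H b).subgroupOf C).Normal :=
      ⟨fun v hv c => Subgroup.mem_subgroupOf.2 (hD.conj_mem_H b hb c c.2 v hv)⟩
    have htop : K.subgroupOf C ⊔ (H b).subgroupOf C = ⊤ := by
      rw [← Subgroup.subgroupOf_sup inf_le_right (hD.le_centralizer b hb), sup_comm,
        hD.sup_eq b hb, Subgroup.subgroupOf_self]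
    have hidx : ((H b).subgroupOf C).index ∣ Nat.card K := by
      rw [← Subgroup.relIndex_top_right, ← htop, Subgroup.relIndex_sup_right,
        ← Nat.card_congr (Subgroup.subgroupOfEquivOfLe (inf_le_right : K ≤ C)).toEquiv]
      exact Subgroup.relIndex_dvd_card _ _
    have h1 : orderOf (QuotientGroup.mk' ((H b).subgroupOf C) ⟨u, hu⟩) ∣ orderOf u := by
      rw [← Subgroup.orderOf_mk u hu]
      exact orderOf_map_dvd _ _
    have h2 : orderOf (QuotientGroup.mk' ((H b).subgroupOf C) ⟨u, hu⟩) ∣ Nat.card K :=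
      (orderOf_dvd_natCard _).trans hidx
    have := orderOf_eq_one_iff.1 (Nat.eq_one_of_dvd_coprimes hcop h1 h2)
    exact Subgroup.mem_subgroupOf.1 ((QuotientGroup.eq_one_iff _).1 this)
  have hb : x * a * x⁻¹ ∈ A := hD.conj_mem x hx a ha
  ext u
  constructor
  · intro hu
    refine ⟨x⁻¹ * u * x, key a ha _ ?_ ?_, by simp [mul_assoc]⟩
    · have := Subgroup.mem_centralizer_singleton_iff.1 (hD.le_centralizer _ hb hu)
      rw [Subgroup.mem_centralizer_singleton_iff]
      calc x⁻¹ * u * x * a = x⁻¹ * (u * (x * a * x⁻¹)) * x := by group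
        _ = a * (x⁻¹ * u * x) := by rw [this]; group
    · have ho : orderOf (x⁻¹ * u * x) = orderOf u := by
        simpa using (MulAut.conj x⁻¹).orderOf_eq u
      rw [ho]
      refine Nat.Coprime.coprime_dvd_left ?_ (hD.coprime _ hb a ha)
      rw [← Subgroup.orderOf_mk u hu]
      exact orderOf_dvd_natCard _
  · rintro ⟨v, hv, rfl⟩
    refine key _ hb _ ?_ ?_
    · have := Subgroup.mem_centralizer_singleton_iff.1 (hD.le_centralizer _ ha hv)
      rw [Subgroup.mem_centralizer_singleton_iff]
      show x * v * x⁻¹ * (x * a * x⁻¹) = x * a * x⁻¹ * (x * v * x⁻¹)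
      calc x * v * x⁻¹ * (x * a * x⁻¹) = x * (v * a) * x⁻¹ := by group
        _ = _ := by rw [this]; group
    · rw [MulEquiv.coe_toMonoidHom, (MulAut.conj x).orderOf_eq]
      refine Nat.Coprime.coprime_dvd_left ?_ (hD.coprime _ ha _ hb)
      rw [← Subgroup.orderOf_mk v hv]
      exact orderOf_dvd_natCard _

end Cfsg.Agent.S1498
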