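import Cfsg.Statements.S1499
import Mathlib
import Cfsg.Agent.Lib.Dade.Basic

set_option autoImplicit false
open Cfsg

namespace Cfsg.Agent.S1499

/-- Under the Dade hypothesis for (A, L, H), let a, b ∈ A. If an element of the coset a·H(a) is conjugate in G to an element of b·H(b), then a and b are conjugate by an element of L. Moreover the set normaliser of the coset a·H(a) is the centraliser of a. -/
theorem result {G : Type*} [Group G] [Finite G] (A : Set G) (L : Subgroup G) (H : G → Subgroup G) (hD : Cfsg.DadeHypothesis A L H) (a b : G) (ha : a ∈ A) (hb : b ∈ A) : ((∃ u ∈ H a, ∃ v ∈ H b, ∃ g : G, g * (a * u) * g⁻¹ = b * v) → ∃ x ∈ L, x * a * x⁻¹ = b) ∧ Subgroup.normalizer ((fun u : G => a * u) '' (H a : Set G)) = Subgroup.centralizer ({a} : Set G) := by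
  refine ⟨fun ⟨u, hu, v, hv, g, hg⟩ => CfsgLib.Dade.exists_conj hD ha hb hu hv hg, ?_⟩
  ext x
  constructor
  · intro hx
    have h1 : x * (a * 1) * x⁻¹ ∈ (fun u : G => a * u) '' (H a : Set G) :=
      (Subgroup.mem_set_normalizer_iff.1 hx _).1 ⟨1, (H a).one_mem, rfl⟩
    obtain ⟨u, hu, hu'⟩ := h1
    have h2 := (CfsgLib.Dade.conj_eq hD ha ha (H a).one_mem hu hu'.symm).1
    rw [Subgroup.mem_centralizer_singleton_iff]
    exact mul_inv_eq_iff_eq_mul.1 h2
  · intro hx
    have key : ∀ c ∈ Subgroup.centralizer ({a} : Set G), ∀ h ∈ (fun u : G => a * u) '' (H a : Set G),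
        c * h * c⁻¹ ∈ (fun u : G => a * u) '' (H a : Set G) := by
      rintro c hc _ ⟨u, hu, rfl⟩
      refine ⟨c * u * c⁻¹, hD.conj_mem_H a ha c hc u hu, ?_⟩
      show a * (c * u * c⁻¹) = c * (a * u) * c⁻¹
      rw [← mul_assoc c a u, Subgroup.mem_centralizer_singleton_iff.1 hc]
      group
    refine Subgroup.mem_set_normalizer_iff.2 fun h => ⟨key x hx h, fun hh => ?_⟩
    have := key x⁻¹ (Subgroup.inv_mem _ hx) _ hh
    rwa [inv_inv, show x⁻¹ * (x * h * x⁻¹) * x = h by group] at this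

end Cfsg.Agent.S1499
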