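import Cfsg.Statements.S1500
import Mathlib
import Cfsg.Agent.Lib.Dade.Basic

set_option autoImplicit false
open Cfsg

namespace Cfsg.Agent.S1500

/-- Under the Dade hypothesis for (A, L, H), let α be a class function of L vanishing outside A. Then (i) for every class function β of L vanishing outside A, the inner product over G of the Dade images of α and β equals the inner product of α and β over L; and (ii) for every class function χ of G and every function ψ on L whose value at each a ∈ A is the average of χ over the coset a·H(a), the inner product over G of the Dade image of α with χ equals the inner product over L of α with ψ. -/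
theorem result {G : Type*} [Group G] [Fintype G] (A : Set G) (L : Subgroup G) [Fintype L] (H : G → Subgroup G) (hD : Cfsg.DadeHypothesis A L H) (α : L → ℂ) (hα : Cfsg.IsClassFunction L α) (hαA : ∀ x : L, (x : G) ∉ A → α x = 0) : (∀ β : L → ℂ, Cfsg.IsClassFunction L β → (∀ x : L, (x : G) ∉ A → β x = 0) → Cfsg.classInner (Cfsg.dadeIsometry A L H α) (Cfsg.dadeIsometry A L H β) = Cfsg.classInner α β) ∧ (∀ (χ : G → ℂ) (ψ : L → ℂ), Cfsg.IsClassFunction G χ → (∀ a : L, (a : G) ∈ A → ψ a = (Nat.card (H a) : ℂ)⁻¹ * ∑ᶠ u ∈ (H a : Set G), χ (a * u)) → Cfsg.classInner (Cfsg.dadeIsometry A L H α) χ = Cfsg.classInner α ψ) := by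
  classical
  have hG0 : (Nat.card G : ℂ) ≠ 0 := Nat.cast_ne_zero.2 Nat.card_pos.ne'
  have hL0 : (Nat.card L : ℂ) ≠ 0 := Nat.cast_ne_zero.2 Nat.card_pos.ne'
  have hH0 : ∀ g : G, (Nat.card (H g) : ℂ) ≠ 0 := fun g => Nat.cast_ne_zero.2 Nat.card_pos.ne'
  have hsupp : ∀ (β : L → ℂ), Cfsg.IsClassFunction L β → Cfsg.IsClassFunction G (Cfsg.dadeIsometry A L H β) := by
    intro β hβ g x
    by_cases hg : g ∈ CfsgLib.Dade.support A H
    · obtain ⟨a, ha, u, hu, y, hy⟩ := hg
      rw [CfsgLib.Dade.iso_apply hD hβ ⟨a, hD.subset ha⟩ ha hu (x := y * x⁻¹) (by rw [← hy]; group),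
        CfsgLib.Dade.iso_apply hD hβ ⟨a, hD.subset ha⟩ ha hu hy]
    · rw [CfsgLib.Dade.iso_eq_zero hD hg, CfsgLib.Dade.iso_eq_zero hD]
      rintro ⟨a, ha, u, hu, y, hy⟩
      exact hg ⟨a, ha, u, hu, y * x, by rw [← hy]; group⟩
  have key : ∀ (χ : G → ℂ) (ψ : L → ℂ), Cfsg.IsClassFunction G χ →
      (∀ a : L, (a : G) ∈ A → ψ a = (Nat.card (H a) : ℂ)⁻¹ * ∑ᶠ u ∈ (H a : Set G), χ (a * u)) →
      Cfsg.classInner (Cfsg.dadeIsometry A L H α) χ = Cfsg.classInner α ψ := by
    intro χ ψ hχ hψ
    have h := CfsgLib.Dade.sum_formula hD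
      (F := fun g => Cfsg.dadeIsometry A L H α g * starRingEnd ℂ (χ g))
      (fun g x => by rw [hsupp α hα g x, hχ g x]) (fun g hg => by rw [CfsgLib.Dade.iso_eq_zero hD hg, zero_mul])
    have h2 : ∑ a : L, α a * starRingEnd ℂ (ψ a) = ∑ a ∈ Finset.univ.filter (fun a : L => (a : G) ∈ A),
        (Nat.card (H (a : G)) : ℂ)⁻¹ * ∑ u ∈ Finset.univ.filter (fun u => u ∈ H (a : G)),
          Cfsg.dadeIsometry A L H α ((a : G) * u) * starRingEnd ℂ (χ ((a : G) * u)) := by
      rw [Finset.sum_filter]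
      refine Finset.sum_congr rfl fun a _ => ?_
      split_ifs with ha
      · rw [hψ a ha, finsum_mem_eq_finite_toFinset_sum _ (Set.toFinite _), map_mul, map_inv₀, map_natCast,
          map_sum, Finset.mul_sum, Finset.mul_sum, Finset.mul_sum]
        refine Finset.sum_congr (by ext u; simp) fun u hu => ?_
        rw [CfsgLib.Dade.iso_apply hD hα a ha (by simpa using hu) (x := 1) (by group)]
        ring
      · rw [hαA a ha, zero_mul]
    rw [← h2] at h
    simp only [Cfsg.classInner]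
    rw [inv_mul_eq_div, inv_mul_eq_div, div_eq_div_iff hG0 hL0]
    linear_combination h
  refine ⟨fun β hβ hβA => key _ β (hsupp β hβ) fun a ha => ?_, key⟩
  rw [finsum_mem_eq_finite_toFinset_sum _ (Set.toFinite _),
    Finset.sum_congr rfl (g := fun _ => β a) (fun u hu => CfsgLib.Dade.iso_apply hD hβ a ha
      (by simpa using hu) (x := 1) (by group)), Finset.sum_const, nsmul_eq_mul,
    ← Set.ncard_eq_toFinset_card _ (Set.toFinite _), ← Nat.card_coe_set_eq, ← mul_assoc]
  show β a = (Nat.card (H (a : G)) : ℂ)⁻¹ * (Nat.card (H (a : G)) : ℂ) * β a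
  rw [inv_mul_cancel₀ (hH0 _), one_mul]

end Cfsg.Agent.S1500
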