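import Cfsg.Statements.S1501
import Mathlib
import Cfsg.Agent.Lib.Dade.Basic
import Cfsg.Agent.Lib.BrauerInd.Main

set_option autoImplicit false
open Cfsg

namespace Cfsg.Agent.S1501

universe uX
open CfsgLib.Chars CfsgLib.BrauerInd CfsgLib.Dade
open scoped ComplexConjugate Classical

variable {G : Type uX} [Group G] {A : Set G} {L : Subgroup G} {H : G → Subgroup G}

/-- Nonempty finite subsets of `A`. -/
abbrev Idx (A : Set G) (_L : Subgroup G) : Type uX := {B : Finset G // B.Nonempty ∧ ∀ b ∈ B, b ∈ A}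

/-- The intersection of the `H b`, `b ∈ B`. -/
def hInf (H : G → Subgroup G) (B : Finset G) : Subgroup G := ⨅ b ∈ B, H b

theorem mem_hInf {B : Finset G} {u : G} : u ∈ hInf H B ↔ ∀ b ∈ B, u ∈ H b := by
  simp [hInf, Subgroup.mem_iInf]

/-- Conjugation of subsets. -/
@[reducible] def idxAction (hD : DadeHypothesis A L H) : MulAction L (Idx A L) where
  smul m B := ⟨B.1.map (MulAut.conj (m : G)).toEquiv.toEmbedding, B.2.1.map, fun b hb => by
    obtain ⟨c, hc, rfl⟩ := Finset.mem_map.1 hb
    exact hD.conj_mem m m.2 c (B.2.2 c hc)⟩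
  one_smul B := Subtype.ext (by
    show B.1.map _ = B.1
    ext; simp [MulAut.one_def])
  mul_smul m m' B := Subtype.ext (by
    show B.1.map _ = (B.1.map _).map _
    ext; simp [MulAut.mul_def, mul_assoc])

theorem mem_smul (hD : DadeHypothesis A L H) (m : L) (B : Idx A L) (x : G) :
    letI := idxAction hD
    x ∈ (m • B).1 ↔ (m : G)⁻¹ * x * m ∈ B.1 := by
  show x ∈ B.1.map _ ↔ _
  rw [Finset.mem_map_equiv]
  simp

theorem card_smul (hD : DadeHypothesis A L H) (m : L) (B : Idx A L) :
    letI := idxAction hD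
    (m • B).1.card = B.1.card := Finset.card_map _

variable [Finite G]

theorem mem_H_of_commute (hD : DadeHypothesis A L H) {a b u : G} (ha : a ∈ A) (hb : b ∈ A) (hu : u ∈ H b) (hc : Commute u a) :
    u ∈ H a := by
  set C := Subgroup.centralizer ({a} : Set G)
  have hcC : u ∈ C := Subgroup.mem_centralizer_singleton_iff.2 hc.eq
  haveI : ((H a).subgroupOf C).Normal := ⟨fun x hx c => hD.conj_mem_H a ha c c.2 x hx⟩
  refine (QuotientGroup.eq_one_iff (N := (H a).subgroupOf C) (⟨_, hcC⟩ : C)).1 ?_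
  rw [← orderOf_eq_one_iff]
  refine Nat.eq_one_of_dvd_coprimes (hD.coprime b hb a ha) ?_ ?_
  · refine (orderOf_map_dvd (QuotientGroup.mk' _) _).trans ?_
    rw [Subgroup.orderOf_mk, ← Subgroup.orderOf_mk u hu]
    exact orderOf_dvd_natCard _
  · rw [← index_eq hD ha]
    exact orderOf_dvd_natCard _

theorem mem_hInf_insert (hD : DadeHypothesis A L H) (B : Idx A L) {l u : G} (hl : l ∈ A) :
    u ∈ hInf H (insert l B.1) ↔ u ∈ hInf H B.1 ∧ Commute u l := by
  classical
  obtain ⟨b, hb⟩ := B.2.1
  simp only [mem_hInf, Finset.forall_mem_insert]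
  exact ⟨fun h => ⟨h.2, (commute_of_mem hD hl h.1).symm⟩, fun h => ⟨mem_H_of_commute hD hl (B.2.2 b hb) (h.1 b hb) h.2, h.1⟩⟩

theorem hInf_conj (hD : DadeHypothesis A L H) (B : Idx A L) (m : L) :
    letI := idxAction hD
    ∀ u ∈ hInf H B.1, (m : G) * u * (m : G)⁻¹ ∈ hInf H (m • B).1 := by
  intro u hu
  refine mem_hInf.2 fun x hx => ?_
  rw [mem_smul] at hx
  have h := conj_mem_of_mem hD (B.2.2 _ hx) m.2 (mem_hInf.1 hu _ hx)
  rwa [show (m : G) * ((m : G)⁻¹ * x * m) * (m : G)⁻¹ = x by group] at h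

theorem inter_eq_one (hD : DadeHypothesis A L H) (B : Idx A L) {u : G} (hu : u ∈ hInf H B.1) (hL : u ∈ L) : u = 1 := by
  obtain ⟨b, hb⟩ := B.2.1
  have h : u ∈ H b ⊓ (L ⊓ Subgroup.centralizer ({b} : Set G)) :=
    ⟨mem_hInf.1 hu b hb, hL, hD.le_centralizer b (B.2.2 b hb) (mem_hInf.1 hu b hb)⟩
  rwa [hD.inf_eq_bot b (B.2.2 b hb), Subgroup.mem_bot] at h

/-- The group `H(B) N_L(B)`. -/
def mGroup (hD : DadeHypothesis A L H) (B : Idx A L) : Subgroup G :=
  letI := idxAction hD
  hInf H B.1 ⊔ (MulAction.stabilizer L B).map L.subtype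

theorem mGroup_exists (hD : DadeHypothesis A L H) (B : Idx A L) {y : G} (hy : y ∈ mGroup hD B) :
    letI := idxAction hD
    ∃ m : L, m ∈ MulAction.stabilizer L B ∧ y * (m : G)⁻¹ ∈ hInf H B.1 := by
  letI := idxAction hD
  have hn : (MulAction.stabilizer L B).map L.subtype ≤ Subgroup.normalizer (hInf H B.1 : Set G) := by
    rintro _ ⟨m, hm, rfl⟩
    rw [Subgroup.mem_normalizer_iff]
    intro u
    refine ⟨fun h => ?_, fun h => ?_⟩
    · have := hInf_conj hD B m u h
      rwa [MulAction.mem_stabilizer_iff.1 hm] at this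
    · have := hInf_conj hD B m⁻¹ _ h
      rw [MulAction.mem_stabilizer_iff.1 (inv_mem hm)] at this
      simpa [mul_assoc] using this
  unfold mGroup at hy
  rw [← SetLike.mem_coe, Subgroup.coe_mul_of_right_le_normalizer_left _ _ hn] at hy
  obtain ⟨u, hu, _, ⟨m, hm, rfl⟩, rfl⟩ := hy
  exact ⟨m, hm, by simpa using hu⟩

theorem mGroup_unique (hD : DadeHypothesis A L H) (B : Idx A L) {y : G} {m m' : L}
    (h : y * (m : G)⁻¹ ∈ hInf H B.1) (h' : y * (m' : G)⁻¹ ∈ hInf H B.1) : m = m' := by
  have h2 := inter_eq_one hD B ((hInf H B.1).mul_mem ((hInf H B.1).inv_mem h) h') (by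
    simp only [mul_inv_rev, inv_inv, mul_assoc, inv_mul_cancel_left]
    exact L.mul_mem m.2 (L.inv_mem m'.2))
  simp only [mul_inv_rev, inv_inv, mul_assoc, inv_mul_cancel_left, mul_inv_eq_one] at h2
  exact Subtype.ext h2

/-- The projection onto `N_L(B)`. -/
noncomputable def proj (hD : DadeHypothesis A L H) (B : Idx A L) : mGroup hD B →* L where
  toFun y := (mGroup_exists hD B y.2).choose
  map_one' := mGroup_unique hD B (mGroup_exists hD B (mGroup hD B).one_mem).choose_spec.2 (by simp [Subgroup.one_mem])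
  map_mul' y z := by
    letI := idxAction hD
    obtain ⟨hy, hy'⟩ := (mGroup_exists hD B y.2).choose_spec
    obtain ⟨-, hz'⟩ := (mGroup_exists hD B z.2).choose_spec
    refine mGroup_unique hD B (y := ((y * z : mGroup hD B) : G)) (mGroup_exists hD B (y * z).2).choose_spec.2 ?_
    have h := hInf_conj hD B (mGroup_exists hD B y.2).choose _ hz'
    rw [MulAction.mem_stabilizer_iff.1 hy] at h
    have h2 := (hInf H B.1).mul_mem hy' h
    simpa [mul_assoc] using h2

variable [Fintype G]

open Classical in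
/-- Fibre sizes of conjugation. -/
noncomputable def cnt (g y : G) : ℂ := ((Finset.univ.filter fun x : G => x⁻¹ * g * x = y).card : ℂ)

omit [Finite G] in
theorem cnt_conj (g y c : G) : cnt g (c * y * c⁻¹) = cnt g y := by
  classical
  unfold cnt
  congr 1
  refine Finset.card_equiv (Equiv.mulRight c) fun x => ?_
  simp only [Finset.mem_filter, Finset.mem_univ, true_and, Equiv.coe_mulRight, mul_inv_rev]
  constructor
  · intro h
    rw [show c⁻¹ * x⁻¹ * g * (x * c) = c⁻¹ * (x⁻¹ * g * x) * c by group, h]; group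
  · intro h
    rw [← h]; group

open Classical in
/-- The averaged section sum. -/
noncomputable def secSum (H : G → Subgroup G) (g : G) (B : Finset G) (l : G) : ℂ :=
  (Nat.card (hInf H B) : ℂ)⁻¹ * ∑ u ∈ Finset.univ.filter (fun u => u ∈ hInf H B), cnt g (l * u)

open Classical in
/-- The weight of `B`. -/
noncomputable def wSum (hD : DadeHypothesis A L H) (α : L → ℂ) (g : G) (B : Idx A L) : ℂ :=
  letI := idxAction hD
  ∑ m ∈ Finset.univ.filter (fun m : L => (m : G) ∈ A ∧ m • B = B), α m * secSum H g (insert (m : G) B.1) m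

set_option maxHeartbeats 400000 in
theorem coset_sum (hD : DadeHypothesis A L H) (B : Idx A L) (g : G) {m : L} (hm : (m : G) ∈ A)
    (hmB : letI := idxAction hD; m • B = B) :
    (Nat.card (hInf H (insert (m : G) B.1)) : ℂ) * ∑ v ∈ Finset.univ.filter (fun u => u ∈ hInf H B.1), cnt g (v * m) =
      (Nat.card (hInf H B.1) : ℂ) * ∑ u ∈ Finset.univ.filter (fun u => u ∈ hInf H (insert (m : G) B.1)), cnt g (m * u) := by
  classical
  set K := hInf H B.1
  set K' := hInf H (insert (m : G) B.1)
  set S := Finset.univ.filter (fun u => u ∈ K)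
  set S' := Finset.univ.filter (fun u => u ∈ K')
  have hK' : ∀ u, u ∈ K' ↔ u ∈ K ∧ Commute u (m : G) := fun u => mem_hInf_insert hD B hm
  have hconj : ∀ u ∈ K, (m : G) * u * (m : G)⁻¹ ∈ K := fun u hu => by
    have h := hInf_conj hD B m u hu
    rwa [hmB] at h
  let Ψ : G × G → G := fun t => t.1 * (m * t.2) * t.1⁻¹ * (m : G)⁻¹
  have hmaps : ∀ t ∈ S ×ˢ S', Ψ t ∈ S := fun t ht => by
    simp only [S, S', Finset.mem_product, Finset.mem_filter, Finset.mem_univ, true_and] at ht ⊢
    show t.1 * (m * t.2) * t.1⁻¹ * (m : G)⁻¹ ∈ K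
    rw [show t.1 * ((m : G) * t.2) * t.1⁻¹ * (m : G)⁻¹ = t.1 * ((m : G) * (t.2 * t.1⁻¹) * (m : G)⁻¹) by group]
    exact K.mul_mem ht.1 (hconj _ (K.mul_mem ((hK' _).1 ht.2).1 (K.inv_mem ht.1)))
  have hcs : ∀ K₀ : Subgroup G, ∀ [DecidablePred fun u => u ∈ K₀], (Finset.univ.filter fun u => u ∈ K₀).card = Nat.card K₀ := fun K₀ _ => by
    rw [← Fintype.card_subtype, ← Nat.card_eq_fintype_card]
  have hfib : ∀ v ∈ S, ((S ×ˢ S').filter fun t => Ψ t = v).card ≤ S'.card := by
    intro v _
    rcases ((S ×ˢ S').filter fun t => Ψ t = v).eq_empty_or_nonempty with h | ⟨t₀, ht₀⟩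
    · simp [h]
    simp only [S, S', Finset.mem_filter, Finset.mem_product, Finset.mem_univ, true_and] at ht₀
    have key : ∀ t ∈ (S ×ˢ S').filter (fun t => Ψ t = v), t₀.1⁻¹ * t.1 ∈ K' ∧ t₀.2 = (t₀.1⁻¹ * t.1) * t.2 * (t₀.1⁻¹ * t.1)⁻¹ := by
      intro t ht
      simp only [S, S', Finset.mem_filter, Finset.mem_product, Finset.mem_univ, true_and] at ht
      have h := conj_eq hD (x := t₀.1⁻¹ * t.1) hm hm (mem_hInf.1 ht.1.2 _ (Finset.mem_insert_self _ _)) (mem_hInf.1 ht₀.1.2 _ (Finset.mem_insert_self _ _)) (by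
        have e := mul_right_cancel (ht.2.trans ht₀.2.symm)
        calc t₀.1⁻¹ * t.1 * ((m : G) * t.2) * (t₀.1⁻¹ * t.1)⁻¹ = t₀.1⁻¹ * (t.1 * ((m : G) * t.2) * t.1⁻¹) * t₀.1 := by group
          _ = t₀.1⁻¹ * (t₀.1 * ((m : G) * t₀.2) * t₀.1⁻¹) * t₀.1 := by rw [e]
          _ = (m : G) * t₀.2 := by group)
      exact ⟨(hK' _).2 ⟨K.mul_mem (K.inv_mem ht₀.1.1) ht.1.1, mul_inv_eq_iff_eq_mul.1 h.1⟩, h.2.symm⟩
    refine Finset.card_le_card_of_injOn (fun t => t₀.1⁻¹ * t.1) (fun t ht => Finset.mem_filter.2 ⟨Finset.mem_univ _, (key t ht).1⟩) fun t ht t' ht' e => ?_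
    have e1 : t.1 = t'.1 := mul_left_cancel e
    have h1 := (key t ht).2
    have h2 := (key t' ht').2
    rw [e1] at h1
    exact Prod.ext e1 (mul_left_cancel (mul_right_cancel (h1.symm.trans h2)))
  have htot : ∑ v ∈ S, ((S ×ˢ S').filter fun t => Ψ t = v).card = ∑ _v ∈ S, S'.card := by
    rw [← Finset.card_eq_sum_card_fiberwise hmaps, Finset.sum_const, Finset.card_product, smul_eq_mul]
  have heq := (Finset.sum_eq_sum_iff_of_le hfib).1 htot
  have e : ∑ t ∈ S ×ˢ S', cnt g (Ψ t * m) = (S'.card : ℂ) * ∑ v ∈ S, cnt g (v * m) := by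
    rw [← Finset.sum_fiberwise_of_maps_to hmaps, Finset.mul_sum]
    refine Finset.sum_congr rfl fun v hv => ?_
    rw [Finset.sum_congr rfl (fun t ht => by rw [(Finset.mem_filter.1 ht).2]), Finset.sum_const, heq v hv, nsmul_eq_mul]
  have e2 : ∑ t ∈ S ×ˢ S', cnt g (Ψ t * m) = (S.card : ℂ) * ∑ u ∈ S', cnt g (m * u) := by
    rw [Finset.sum_product, ← nsmul_eq_mul, ← Finset.sum_const]
    refine Finset.sum_congr rfl fun h _ => Finset.sum_congr rfl fun u _ => ?_
    simp only [Ψ, inv_mul_cancel_right, cnt_conj]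
  rw [e, hcs K', hcs K] at e2
  exact e2

theorem ind_eq (hD : DadeHypothesis A L H) (α : L → ℂ) (hαA : ∀ x : L, (x : G) ∉ A → α x = 0) (g : G) (B : Idx A L) :
    indFun (mGroup hD B) (fun y => α (proj hD B y)) g =
      (Nat.card (letI := idxAction hD; MulAction.stabilizer L B) : ℂ)⁻¹ * wSum hD α g B := by
  classical
  letI := idxAction hD
  set K := hInf H B.1
  let St := Finset.univ.filter (fun m : L => m • B = B)
  let SK := Finset.univ.filter (fun u : G => u ∈ K)
  have hle1 : K ≤ mGroup hD B := le_sup_left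
  have hle2 : ∀ m : L, m • B = B → (m : G) ∈ mGroup hD B := fun m hm =>
    (le_sup_right : (MulAction.stabilizer L B).map L.subtype ≤ mGroup hD B) ⟨m, hm, rfl⟩
  have hproj : ∀ (y : mGroup hD B) (m : L), (y : G) * (m : G)⁻¹ ∈ K → proj hD B y = m := fun y m h =>
    mGroup_unique hD B (mGroup_exists hD B y.2).choose_spec.2 h
  have hcard : Nat.card (mGroup hD B) = Nat.card K * Nat.card (MulAction.stabilizer L B) := by
    rw [← Nat.card_prod]
    refine (Nat.card_congr (Equiv.ofBijective (fun t : K × MulAction.stabilizer L B => (⟨t.1 * ((t.2 : L) : G), (mGroup hD B).mul_mem (hle1 t.1.2) (hle2 _ t.2.2)⟩ : mGroup hD B)) ⟨fun s t h => ?_, fun y => ?_⟩)).symm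
    · have h' : (s.1 : G) * ((s.2 : L) : G) = t.1 * ((t.2 : L) : G) := congrArg Subtype.val h
      have h2 : (s.2 : L) = t.2 := mGroup_unique hD B (y := (s.1 : G) * ((s.2 : L) : G)) (by simp [K]) (by rw [h']; simp [K])
      rw [h2] at h'
      exact Prod.ext (Subtype.ext (mul_right_cancel h')) (Subtype.ext h2)
    · obtain ⟨m, hm, hu⟩ := mGroup_exists hD B y.2
      exact ⟨(⟨_, hu⟩, ⟨m, hm⟩), Subtype.ext (inv_mul_cancel_right _ _)⟩
  have hsum : ∑ x : G, extendByZero (mGroup hD B) (fun y => α (proj hD B y)) (x⁻¹ * g * x) =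
      ∑ m ∈ St, α m * ∑ v ∈ SK, cnt g (v * m) := by
    rw [← Finset.sum_fiberwise (s := Finset.univ) (fun x : G => x⁻¹ * g * x)]
    simp_rw [Finset.mul_sum]
    rw [← Finset.sum_product']
    rw [← Finset.sum_subset (Finset.subset_univ ((St ×ˢ SK).image fun t => t.2 * (t.1 : G)))]
    · rw [Finset.sum_image]
      · refine Finset.sum_congr rfl fun t ht => ?_
        simp only [St, SK, Finset.mem_product, Finset.mem_filter, Finset.mem_univ, true_and] at ht
        rw [Finset.sum_congr rfl (fun x hx => by rw [(Finset.mem_filter.1 hx).2]), Finset.sum_const, nsmul_eq_mul, mul_comm, cnt]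
        congr 1
        have hy : t.2 * (t.1 : G) ∈ mGroup hD B := (mGroup hD B).mul_mem (hle1 ht.2) (hle2 _ ht.1)
        rw [show t.2 * (t.1 : G) = ((⟨_, hy⟩ : mGroup hD B) : G) from rfl, extendByZero_coe, hproj ⟨_, hy⟩ t.1 (by simp [ht.2])]
      · intro s hs t ht h
        simp only [St, SK, Finset.coe_product, Set.mem_prod, Finset.coe_filter, Set.mem_setOf_eq, Finset.mem_univ, true_and] at hs ht
        simp only at h
        have h2 : s.1 = t.1 := mGroup_unique hD B (y := s.2 * (s.1 : G)) (by simpa using hs.2) (by rw [h]; simpa using ht.2)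
        rw [h2] at h
        exact Prod.ext h2 (mul_right_cancel h)
    · intro y _ hy
      refine Finset.sum_eq_zero fun x hx => ?_
      rw [(Finset.mem_filter.1 hx).2, extendByZero_apply, dif_neg]
      intro hym
      obtain ⟨m, hm, hu⟩ := mGroup_exists hD B hym
      exact hy (Finset.mem_image.2 ⟨(m, y * (m : G)⁻¹), by
        simp only [St, SK, Finset.mem_product, Finset.mem_filter, Finset.mem_univ, true_and]
        exact ⟨hm, hu⟩, inv_mul_cancel_right _ _⟩)
  have hSA : wSum hD α g B = ∑ m ∈ St, α m * ((Nat.card K : ℂ)⁻¹ * ∑ v ∈ SK, cnt g (v * m)) := by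
    rw [wSum, ← Finset.sum_filter_of_ne (s := St) (p := fun m : L => (m : G) ∈ A) (fun m _ h => by
      by_contra hA; exact h (by rw [hαA m hA, zero_mul]))]
    simp only [St, Finset.filter_filter, and_comm]
    refine Finset.sum_congr (by ext; simp [and_comm]) fun m hm => ?_
    simp only [Finset.mem_filter, Finset.mem_univ, true_and] at hm
    rw [secSum]
    congr 1
    have h := coset_sum hD B g (m := m) (by tauto) (by tauto)
    have h1 : (Nat.card (hInf H (insert (m : G) B.1)) : ℂ) ≠ 0 := natCast_card_ne_zero _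
    have h2 : (Nat.card K : ℂ) ≠ 0 := natCast_card_ne_zero _
    field_simp
    linear_combination -h
  rw [indFun, hsum, hcard, hSA, Nat.cast_mul, mul_inv_rev, Finset.mul_sum, Finset.mul_sum]
  exact Finset.sum_congr rfl fun m _ => by ring

theorem wSum_smul (hD : DadeHypothesis A L H) (α : L → ℂ) (hαc : IsClassFunction L α) (g : G) (m : L) (B : Idx A L) :
    wSum hD α g (letI := idxAction hD; m • B) = wSum hD α g B := by
  classical
  letI := idxAction hD
  unfold wSum
  symm
  refine Finset.sum_equiv (MulAut.conj m).toEquiv (fun k => ?_) fun k hk => ?_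
  · simp only [Finset.mem_filter, Finset.mem_univ, true_and, MulEquiv.toEquiv_eq_coe, EquivLike.coe_coe, MulAut.conj_apply, mul_smul, inv_smul_smul, smul_left_cancel_iff]
    refine and_congr ⟨fun h => hD.conj_mem m m.2 _ h, fun h => ?_⟩ Iff.rfl
    have := hD.conj_mem (m : G)⁻¹ (L.inv_mem m.2) _ h
    simpa [mul_assoc] using this
  · simp only [Finset.mem_filter, Finset.mem_univ, true_and] at hk
    simp only [MulEquiv.toEquiv_eq_coe, EquivLike.coe_coe, MulAut.conj_apply, hαc k m]
    congr 1
    let B' : Idx A L := ⟨insert (k : G) B.1, Finset.insert_nonempty _ _, by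
      simpa [Finset.forall_mem_insert] using ⟨hk.1, B.2.2⟩⟩
    have hB' : insert ((m * k * m⁻¹ : L) : G) (m • B).1 = (m • B').1 := by
      ext x
      simp only [Finset.mem_insert, mem_smul, B', Subgroup.coe_mul, Subgroup.coe_inv]
      refine or_congr ⟨fun h => by rw [h]; group, fun h => by rw [← h]; group⟩ Iff.rfl
    unfold secSum
    rw [hB']
    have hbij : ∀ u, u ∈ hInf H B'.1 ↔ (m : G) * u * (m : G)⁻¹ ∈ hInf H (m • B').1 := fun u =>
      ⟨hInf_conj hD B' m u, fun h => by
        have := hInf_conj hD (m • B') m⁻¹ _ h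
        simpa [inv_smul_smul, mul_assoc] using this⟩
    congr 1
    · congr 2
      exact Nat.card_congr (Equiv.subtypeEquiv (MulAut.conj (m : G)).toEquiv hbij)
    · refine Finset.sum_equiv (MulAut.conj (m : G)).toEquiv (fun u => by simpa using hbij u) fun u _ => ?_
      show cnt g ((k : G) * u) = cnt g (((m * k * m⁻¹ : L) : G) * ((m : G) * u * (m : G)⁻¹))
      rw [← cnt_conj g ((k : G) * u) (m : G)]
      congr 1
      simp only [Subgroup.coe_mul, Subgroup.coe_inv]
      group

theorem main_identity (hD : DadeHypothesis A L H) (α : L → ℂ) (hαc : IsClassFunction L α) (g : G) :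
    Cfsg.dadeIsometry A L H α g = (Nat.card L : ℂ)⁻¹ * ∑ B : Idx A L, (((-1) ^ (B.1.card + 1) : ℤ) : ℂ) * wSum hD α g B := by
  classical
  letI := idxAction hD
  have htog : ∀ m : L, (m : G) ∈ A → ∑ B ∈ Finset.univ.filter (fun B : Idx A L => m • B = B),
      (((-1) ^ (B.1.card + 1) : ℤ) : ℂ) * secSum H g (insert (m : G) B.1) m = secSum H g {(m : G)} m := by
    intro m hm
    let s₀ : Idx A L := ⟨{(m : G)}, Finset.singleton_nonempty _, by simpa using hm⟩
    have hs₀ : m • s₀ = s₀ := Subtype.ext (by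
      ext x
      simp only [mem_smul, s₀, Finset.mem_singleton]
      exact ⟨fun h => by rw [← mul_left_cancel_iff (a := (m : G)⁻¹), ← mul_right_cancel_iff (a := (m : G))]; rw [h]; group, fun h => by rw [h]; group⟩)
    have hmem : s₀ ∈ Finset.univ.filter (fun B : Idx A L => m • B = B) := Finset.mem_filter.2 ⟨Finset.mem_univ s₀, hs₀⟩
    rw [← Finset.add_sum_erase _ _ hmem]
    have hz : ∑ B ∈ (Finset.univ.filter (fun B : Idx A L => m • B = B)).erase s₀,
        (((-1) ^ (B.1.card + 1) : ℤ) : ℂ) * secSum H g (insert (m : G) B.1) m = 0 := by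
      let T : ∀ B ∈ (Finset.univ.filter (fun B : Idx A L => m • B = B)).erase s₀, Idx A L := fun B hB =>
        if h : (m : G) ∈ B.1 then ⟨B.1.erase m, by
            rw [Finset.nonempty_iff_ne_empty, ne_eq, Finset.erase_eq_empty_iff]
            rintro (h0 | h0)
            · exact B.2.1.ne_empty h0
            · exact (Finset.mem_erase.1 hB).1 (Subtype.ext h0), fun b hb => B.2.2 b (Finset.mem_of_mem_erase hb)⟩
        else ⟨insert (m : G) B.1, Finset.insert_nonempty _ _, by simpa [Finset.forall_mem_insert] using ⟨hm, B.2.2⟩⟩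
      refine Finset.sum_involution T (fun B hB => ?_) (fun B hB _ => ?_) (fun B hB => ?_) (fun B hB => ?_)
      · have hc : (B.1.card + 1) = (T B hB).1.card + 2 ∨ (T B hB).1.card + 1 = B.1.card + 2 := by
          dsimp only [T]
          split_ifs with h
          · left; have := Finset.card_erase_add_one h; simp only; omega
          · right; simp only [Finset.card_insert_of_notMem h]
        have hi : insert (m : G) (T B hB).1 = insert (m : G) B.1 := by
          dsimp only [T]
          split_ifs with h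
          · simp only [Finset.insert_erase h, Finset.insert_eq_of_mem h]
          · simp only [Finset.insert_idem]
        rw [hi]
        rcases hc with hc | hc <;> simp [hc, pow_succ]
      · intro h
        have h' := congrArg (fun C : Idx A L => decide ((m : G) ∈ C.1)) h
        dsimp only [T] at h'
        split_ifs at h' with hh <;> simp [hh] at h'
      · have hBm := (Finset.mem_filter.1 (Finset.mem_of_mem_erase hB)).2
        have hB' : ∀ x, (m : G)⁻¹ * x * m ∈ B.1 ↔ x ∈ B.1 := fun x => by rw [← mem_smul hD m B x, hBm]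
        have hm' : ∀ x, (m : G)⁻¹ * x * m = m ↔ x = m := fun x =>
          ⟨fun h => by rw [← mul_left_cancel_iff (a := (m : G)⁻¹), ← mul_right_cancel_iff (a := (m : G))]; rw [h]; group, fun h => by rw [h]; group⟩
        refine Finset.mem_erase.2 ⟨?_, Finset.mem_filter.2 ⟨Finset.mem_univ _, Subtype.ext (Finset.ext fun x => ?_)⟩⟩
        · intro h
          have h' := congrArg Subtype.val h
          dsimp only [T] at h'
          split_ifs at h' with hh
          · have := Finset.mem_singleton_self (m : G)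
            rw [← show B.1.erase (m : G) = {(m : G)} from h'] at this
            simp at this
          · obtain ⟨b, hb⟩ := B.2.1
            have h2 : b ∈ ({(m : G)} : Finset G) := by
              rw [← show insert (m : G) B.1 = {(m : G)} from h']
              exact Finset.mem_insert_of_mem hb
            exact hh (Finset.mem_singleton.1 h2 ▸ hb)
        · rw [mem_smul]
          dsimp only [T]
          split_ifs <;> simp [hB', hm', ne_eq]
      · apply Subtype.ext
        by_cases h : (m : G) ∈ B.1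
        · simp [T, h, Finset.insert_erase]
        · simp [T, h, Finset.erase_insert]
    rw [hz, add_zero]
    simp [s₀]
  have hswap : ∑ B : Idx A L, (((-1) ^ (B.1.card + 1) : ℤ) : ℂ) * wSum hD α g B =
      ∑ m ∈ Finset.univ.filter (fun m : L => (m : G) ∈ A), α m * secSum H g {(m : G)} m := by
    simp only [wSum, Finset.mul_sum]
    rw [Finset.sum_comm' (t' := Finset.univ.filter (fun m : L => (m : G) ∈ A)) (s' := fun m => Finset.univ.filter (fun B : Idx A L => m • B = B)) (by simp [and_comm])]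
    refine Finset.sum_congr rfl fun m hm => ?_
    rw [← htog m (Finset.mem_filter.1 hm).2, Finset.mul_sum]
    exact Finset.sum_congr rfl fun B _ => by ring
  have hiso : ∀ x y : G, Cfsg.dadeIsometry A L H α (x * y * x⁻¹) = Cfsg.dadeIsometry A L H α y := by
    intro x y
    by_cases hy : y ∈ support A H
    · obtain ⟨a, ha, u, hu, c, hc⟩ := hy
      rw [iso_apply hD hαc ⟨a, hD.subset ha⟩ ha hu (x := c * x⁻¹) (by rw [← hc]; group), iso_apply hD hαc ⟨a, hD.subset ha⟩ ha hu hc]
    · rw [iso_eq_zero hD hy, iso_eq_zero hD]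
      rintro ⟨a, ha, u, hu, c, hc⟩
      exact hy ⟨a, ha, u, hu, c * x, by rw [← hc]; group⟩
  have h := sum_formula (K := ℂ) hD (F := fun y => Cfsg.dadeIsometry A L H α y * cnt g y)
    (fun y x => by rw [hiso, cnt_conj]) (fun y hy => by rw [iso_eq_zero hD hy, zero_mul])
  have hl : ∑ y, Cfsg.dadeIsometry A L H α y * cnt g y = (Nat.card G : ℂ) * Cfsg.dadeIsometry A L H α g := by
    have e : ∀ x : G, Cfsg.dadeIsometry A L H α (x⁻¹ * g * x) = Cfsg.dadeIsometry A L H α g := fun x => by
      simpa using hiso x⁻¹ g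
    rw [Nat.card_eq_fintype_card, ← Finset.card_univ, ← nsmul_eq_mul, ← Finset.sum_const, ← Finset.sum_congr rfl (fun x _ => e x),
      ← Finset.sum_fiberwise (s := Finset.univ) (fun x : G => x⁻¹ * g * x) (fun x => Cfsg.dadeIsometry A L H α (x⁻¹ * g * x))]
    refine Finset.sum_congr rfl fun y _ => ?_
    rw [Finset.sum_congr rfl (fun x hx => by rw [(Finset.mem_filter.1 hx).2]), Finset.sum_const, nsmul_eq_mul, mul_comm, cnt]
  rw [hl] at h
  have hG : (Nat.card G : ℂ) ≠ 0 := natCast_card_ne_zero G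
  have hL : (Nat.card L : ℂ) ≠ 0 := natCast_card_ne_zero L
  rw [hswap]
  have h' : (Nat.card L : ℂ) * Cfsg.dadeIsometry A L H α g = ∑ m ∈ Finset.univ.filter (fun m : L => (m : G) ∈ A), α m * secSum H g {(m : G)} m := by
    refine mul_left_cancel₀ hG ?_
    rw [mul_left_comm, h]
    congr 1
    refine Finset.sum_congr rfl fun m hm => ?_
    have he : hInf H {(m : G)} = H (m : G) := by ext u; simp [mem_hInf]
    simp only [secSum, he, Finset.mul_sum]
    refine Finset.sum_congr rfl fun u hu => ?_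
    rw [iso_apply hD hαc m (Finset.mem_filter.1 hm).2 (Finset.mem_filter.1 hu).2 (x := 1) (by group)]
    ring
  rw [← h', ← mul_assoc, inv_mul_cancel₀ hL, one_mul]

omit [Finite G] in
theorem isGeneralized_zcomb {ι : Type*} [Fintype ι] (c : ι → ℤ) (F : ι → G → ℂ) (h : ∀ i, IsGeneralizedCharacter G (F i)) :
    IsGeneralizedCharacter G (fun g => ∑ i, (c i : ℂ) * F i g) := by
  refine isGeneralized_closure (F := F) h ?_
  rw [show (fun g => ∑ i, (c i : ℂ) * F i g) = ∑ i, c i • F i from funext fun g => by simp [zsmul_eq_mul]]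
  exact sum_mem fun i _ => zsmul_mem (AddSubgroup.subset_closure (Set.mem_range_self i)) _

/-- Under the Dade hypothesis for (A, L, H): if α is a generalized character of L vanishing outside A, then its image under the Dade map is a generalized character of G. -/
theorem result {G : Type*} [Group G] [Fintype G] (A : Set G) (L : Subgroup G) [Fintype L] (H : G → Subgroup G) (hD : Cfsg.DadeHypothesis A L H) (α : L → ℂ) (hα : Cfsg.IsGeneralizedCharacter L α) (hαA : ∀ x : L, (x : G) ∉ A → α x = 0) : Cfsg.IsGeneralizedCharacter G (Cfsg.dadeIsometry A L H α) := by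
  classical
  letI := idxAction hD
  have hαc : IsClassFunction L α := by
    obtain ⟨χ, ψ, hχ, hψ, rfl⟩ := hα
    exact fun a b => by simp only [Pi.sub_apply, IsCharacter.isClassFunction hχ a b, IsCharacter.isClassFunction hψ a b]
  let sgn : Idx A L → ℤ := fun B => (-1) ^ (B.1.card + 1)
  let Q := Quotient (MulAction.orbitRel L (Idx A L))
  haveI : Fintype Q := Fintype.ofFinite Q
  have hrep : Cfsg.dadeIsometry A L H α = fun g => ∑ ω : Q, (sgn ω.out : ℂ) * indFun (mGroup hD ω.out) (fun y => α (proj hD ω.out y)) g := by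
    funext g
    have h1 : ∀ ω : Q, (sgn ω.out : ℂ) * indFun (mGroup hD ω.out) (fun y => α (proj hD ω.out y)) g =
        (Nat.card L : ℂ)⁻¹ * ∑ B ∈ Finset.univ.filter (fun B : Idx A L => Quotient.mk _ B = ω), (sgn B : ℂ) * wSum hD α g B := by
      intro ω
      rw [Finset.sum_congr rfl (g := fun _ => (sgn ω.out : ℂ) * wSum hD α g ω.out) (fun B hB => ?_)]
      · rw [Finset.sum_const, nsmul_eq_mul, ind_eq hD α hαA g ω.out]
        have hc : (Finset.univ.filter (fun B : Idx A L => Quotient.mk _ B = ω)).card * Nat.card (MulAction.stabilizer L ω.out) = Nat.card L := by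
          have h := MulAction.index_stabilizer L ω.out
          rw [← Subgroup.index_mul_card (MulAction.stabilizer L ω.out), h, ← Fintype.card_subtype, ← Nat.card_eq_fintype_card, ← Nat.card_coe_set_eq]
          congr 1
          refine Nat.card_congr (Equiv.subtypeEquivRight fun B => ?_)
          conv_lhs => rw [← Quotient.out_eq ω]
          rw [Quotient.eq, MulAction.orbitRel_apply]
        have hL : (Nat.card L : ℂ) ≠ 0 := natCast_card_ne_zero L
        have hS : (Nat.card (MulAction.stabilizer L ω.out) : ℂ) ≠ 0 := natCast_card_ne_zero _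
        have hc' : ((Finset.univ.filter (fun B : Idx A L => Quotient.mk _ B = ω)).card : ℂ) * Nat.card (MulAction.stabilizer L ω.out) = Nat.card L := by exact_mod_cast hc
        field_simp
        rw [← hc']
        ring
      · have hB' : (MulAction.orbitRel L (Idx A L)) B ω.out := Quotient.exact ((Finset.mem_filter.1 hB).2.trans (Quotient.out_eq ω).symm)
        obtain ⟨m, rfl⟩ := MulAction.orbitRel_apply.1 hB'
        rw [wSum_smul hD α hαc]
        simp only [sgn, card_smul]
    rw [Finset.sum_congr rfl fun ω _ => h1 ω, ← Finset.mul_sum, Finset.sum_fiberwise]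
    exact main_identity hD α hαc g
  refine hrep ▸ isGeneralized_zcomb (fun ω : Q => sgn ω.out) _ fun ω => ?_
  obtain ⟨χ, ψ, hχ, hψ, rfl⟩ := hα
  refine ⟨indFun (mGroup hD ω.out) (fun y => χ (proj hD ω.out y)), indFun (mGroup hD ω.out) (fun y => ψ (proj hD ω.out y)),
    IsCharacter.indFun _ (IsCharacter.comp hχ _), IsCharacter.indFun _ (IsCharacter.comp hψ _), ?_⟩
  rw [show (fun y => (χ - ψ) (proj hD ω.out y)) = (fun y => χ (proj hD ω.out y)) + (-1 : ℂ) • (fun y => ψ (proj hD ω.out y)) from
    funext fun y => by simp [sub_eq_add_neg], indFun_add, indFun_smul, neg_one_smul, sub_eq_add_neg]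

end Cfsg.Agent.S1501
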