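import Cfsg.Statements.S1502
import Mathlib
import Cfsg.Agent.Lib.CyclicTI2
import Cfsg.Agent.Lib.SignedGrid
import Cfsg.Agent.Lib.Coherence

set_option autoImplicit false
open Cfsg

namespace CfsgLib.CyclicTI

open Cfsg CfsgLib.Chars CfsgLib.Virtual CfsgLib.SignedGrid

universe u

variable {G : Type u} [Group G] [Fintype G]

/-- The virtual character with given coordinates. -/
noncomputable def ofCoord (z : IrrCharacter G → ℤ) : G → ℂ := ∑ θ : IrrCharacter G, (z θ : ℂ) • (θ : G → ℂ)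

theorem inner_ofCoord (z w : IrrCharacter G → ℤ) : classInner (ofCoord z) (ofCoord w) = ((ip z w : ℤ) : ℂ) :=
  inner_eq_sum_coord rfl rfl

theorem ofCoord_add (z w : IrrCharacter G → ℤ) : ofCoord (z + w) = ofCoord z + ofCoord w := by
  simp [ofCoord, add_smul, Finset.sum_add_distrib]

theorem ofCoord_genChar (z : IrrCharacter G → ℤ) : IsGeneralizedCharacter G (ofCoord z) :=
  genChar_sum _ _ fun θ _ => by rw [Int.cast_smul_eq_zsmul]; exact genChar_zsmul (genChar_of_char (isCharacter_irr θ)) _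

theorem ofCoord_irr (z : IrrCharacter G → ℤ) (h : ip z z = 1) :
    IsIrrCharacter G (ofCoord z) ∨ IsIrrCharacter G (-ofCoord z) := by
  obtain ⟨ε, μ, hε, e⟩ := exists_single (ofCoord_genChar z) (by rw [inner_ofCoord, h, Int.cast_one])
  rcases hε with rfl | rfl
  · left; rw [e, one_smul]; exact μ.2
  · right; rw [e, neg_one_smul, neg_neg]; exact μ.2

theorem ofCoord_one (z : IrrCharacter G → ℤ) :
    classInner (ofCoord z) (fun _ => 1) = (z ⟨_, isIrrCharacter_one G⟩ : ℂ) := by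
  classical
  rw [ofCoord, ci_sum_left, Finset.sum_eq_single (⟨_, isIrrCharacter_one G⟩ : IrrCharacter G)]
  · rw [ci_smul_left, CfsgLib.Coherence.inner_irr_self (isIrrCharacter_one G), mul_one]
  · intro b _ hb
    rw [ci_smul_left, CfsgLib.Coherence.inner_irr_ne b.2 (isIrrCharacter_one G) (fun e => hb (Subtype.ext e)), mul_zero]
  · simp

theorem grid_either {ι M N : Type*} [Fintype ι] [Fintype M] [Fintype N] [DecidableEq M] [DecidableEq N]
    {d : ι → ℤ} (hd : ∀ i, 0 < d i) {v : M → N → ι → ℤ} (hv : ∀ m n, Three d (v m n))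
    (hg : ∀ m n m' n', ip (v m n) (v m' n') =
      (if m = m' then 1 else 0) + (if n = n' then 1 else 0) + (if m = m' then 1 else 0) * (if n = n' then 1 else 0))
    (hM : Fintype.card M = 2 ∨ 4 ≤ Fintype.card M) (hN : Fintype.card N = 2 ∨ 4 ≤ Fintype.card N)
    (hne : Fintype.card M ≠ Fintype.card N) :
    ∃ (X : M → ι → ℤ) (Y : N → ι → ℤ) (Z : M → N → ι → ℤ),
      (∀ m n, v m n = X m + Y n + Z m n) ∧
      (∀ m m', ip (X m) (X m') = if m = m' then 1 else 0) ∧ (∀ n n', ip (Y n) (Y n') = if n = n' then 1 else 0) ∧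
      (∀ m n, ip (X m) (Y n) = 0) ∧ (∀ m m' n, ip (X m') (Z m n) = 0) ∧ (∀ m n n', ip (Y n') (Z m n) = 0) ∧
      (∀ m n m' n', ip (Z m n) (Z m' n') = (if m = m' then 1 else 0) * (if n = n' then 1 else 0)) := by
  by_cases h : 4 ≤ Fintype.card N
  · exact grid hd hv hg h hM
  · obtain ⟨Y, X, Z, h1, h2, h3, h4, h5, h6, h7⟩ := grid (v := fun n m => v m n) hd (fun n m => hv m n)
      (fun n m n' m' => by rw [hg]; ring) (show 4 ≤ Fintype.card M by omega) hN
    exact ⟨X, Y, fun m n => Z n m, fun m n => by rw [h1 n m, add_comm (Y n)], h3, h2,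
      fun m n => by rw [ip_comm]; exact h4 n m, fun m m' n => h6 n m m', fun m n n' => h5 n n' m,
      fun m n m' n' => by rw [h7 n m n' m']; ring⟩

end CfsgLib.CyclicTI

open Cfsg CfsgLib.Chars CfsgLib.Virtual CfsgLib.SignedGrid CfsgLib.CyclicTI

namespace Cfsg.Agent.S1502

/-- Let W₁, W₂ be nontrivial subgroups of the finite group G generating a cyclic subgroup W = W₁ ⊔ W₂ of odd order that is the normaliser of every nonempty set of its elements outside W₁ ∪ W₂. Then there is a family attaching to each linear character ω of W an irreducible character of G up to sign, orthonormal, sending the trivial character to the principal character, with χ ω = ω on W outside W₁ ∪ W₂, and such that inducing (1 − φ)(1 − ψ) to G gives 1 − χ φ − χ ψ + χ (φψ) whenever φ ≠ 1 is trivial on W₂ and ψ ≠ 1 is trivial on W₁. -/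
theorem result {G : Type*} [Group G] [Fintype G] (W₁ W₂ : Subgroup G) (hW : Cfsg.IsSelfNormalizingCyclic W₁ W₂) (hodd : Odd (Nat.card ↥(W₁ ⊔ W₂))) : ∃ χ : (↥(W₁ ⊔ W₂) →* ℂˣ) → (G → ℂ), Cfsg.IsCyclicTIFamily W₁ W₂ χ := by
  classical
  letI := Fintype.ofFinite ↥(W₁ ⊔ W₂)
  obtain ⟨p₁, p₂, hsplit, hp₁, hp₂, h1, h2⟩ := exists_proj hW
  haveI : IsCyclic ↥(W₁ ⊔ W₂) := hW.2.2.2.2.1
  haveI : Finite (↥(W₁ ⊔ W₂) →* ℂˣ) := by
    haveI := finite_irr ↥(W₁ ⊔ W₂)
    exact Finite.of_injective _ homIrr_injective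
  letI := Fintype.ofFinite (↥(W₁ ⊔ W₂) →* ℂˣ)
  let M := {φ : ↥(W₁ ⊔ W₂) →* ℂˣ // φ ≠ 1 ∧ ∀ w : ↥(W₁ ⊔ W₂), (w : G) ∈ W₂ → φ w = 1}
  let N := {ψ : ↥(W₁ ⊔ W₂) →* ℂˣ // ψ ≠ 1 ∧ ∀ w : ↥(W₁ ⊔ W₂), (w : G) ∈ W₁ → ψ w = 1}
  letI : Fintype M := Fintype.ofFinite M
  letI : Fintype N := Fintype.ofFinite N
  have hcard : ∀ {P : (↥(W₁ ⊔ W₂) →* ℂˣ) → Prop}, P 1 → ∀ c, Nat.card {φ // P φ} = c → Nat.card {φ // φ ≠ 1 ∧ P φ} = c - 1 := by
    intro P hP c hc
    rw [Nat.card_eq_fintype_card, Fintype.card_subtype] at hc ⊢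
    have e : Finset.univ.filter (fun φ => φ ≠ 1 ∧ P φ) = (Finset.univ.filter P).erase 1 := by
      ext φ; simp [Finset.mem_erase]
    rw [e, Finset.card_erase_of_mem (by simp [hP]), hc]
  have hM : Fintype.card M = Nat.card W₁ - 1 := by
    rw [← Nat.card_eq_fintype_card]
    exact hcard (P := fun φ => ∀ w : ↥(W₁ ⊔ W₂), (w : G) ∈ W₂ → φ w = 1) (fun w _ => rfl) _ (card_trivial_right hW)
  have hN : Fintype.card N = Nat.card W₂ - 1 := by
    rw [← Nat.card_eq_fintype_card]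
    exact hcard (P := fun ψ => ∀ w : ↥(W₁ ⊔ W₂), (w : G) ∈ W₁ → ψ w = 1) (fun w _ => rfl) _ (card_trivial_left hW)
  have hsize : ∀ A : Subgroup G, A ≠ ⊥ → A ≤ W₁ ⊔ W₂ → (Nat.card A - 1 = 2 ∨ 4 ≤ Nat.card A - 1) := by
    intro A hA hle
    have ho := hodd.of_dvd_nat (Subgroup.card_dvd_of_le hle)
    have h1 : Nat.card A ≠ 1 := fun e => hA (Subgroup.card_eq_one.1 e)
    obtain ⟨k, hk⟩ := ho
    omega
  -- the virtual characters `Ind α - 1`
  have hαv : ∀ (m : M) (n : N), IsGeneralizedCharacter G (indFun (W₁ ⊔ W₂) (CfsgLib.CyclicTI.alpha m.1 n.1)) := by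
    intro m n
    have hc : ∀ a : ↥(W₁ ⊔ W₂) →* ℂˣ, IsCharacter ↥(W₁ ⊔ W₂) (homFun a) := fun a => isCharacter_hom a
    refine ⟨indFun (W₁ ⊔ W₂) (homFun 1 + homFun (m.1 * n.1)), indFun (W₁ ⊔ W₂) (homFun m.1 + homFun n.1),
      IsCharacter.indFun _ (IsCharacter.add (hc _) (hc _)), IsCharacter.indFun _ (IsCharacter.add (hc _) (hc _)), ?_⟩
    funext g
    simp only [alpha_eq, indFun, Pi.sub_apply, Pi.add_apply, ← mul_sub, ← Finset.sum_sub_distrib, extendByZero_apply]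
    refine congrArg _ (Finset.sum_congr rfl fun x _ => ?_)
    split_ifs <;> first | (simp only [Pi.sub_apply, Pi.add_apply, homFun, MonoidHom.one_apply, Units.val_one]; ring) | simp
  have hone := isIrrCharacter_one G
  have hIone : ∀ (m : M) (n : N), classInner (indFun (W₁ ⊔ W₂) (CfsgLib.CyclicTI.alpha m.1 n.1)) (fun _ => 1) = 1 := fun m n => by
    rw [CfsgLib.Chars.frobenius _ _ (f := fun _ : G => (1 : ℂ)) (fun _ _ => rfl)]
    have h := (alpha_gram m.2.1 m.2.1 n.2.1 n.2.1 (fun w hw => ⟨m.2.2 w hw, m.2.2 w hw⟩) (fun w hw => ⟨n.2.2 w hw, n.2.2 w hw⟩)).1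
    convert h using 2
    funext x; simp [homFun]
  have hbv : ∀ (m : M) (n : N), IsGeneralizedCharacter G (indFun (W₁ ⊔ W₂) (CfsgLib.CyclicTI.alpha m.1 n.1) - fun _ => 1) :=
    fun m n => genChar_sub (hαv m n) (genChar_of_char (IsIrrCharacter.isCharacter hone))
  choose z hzc hze using fun m n => exists_coord (hbv m n)
  let d : IrrCharacter G → ℤ := fun θ => (charDegree (θ : G → ℂ) : ℤ)
  have hd : ∀ θ, 0 < d θ := fun θ => Int.natCast_pos.2 (charDegree_pos θ)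
  have hg : ∀ (m : M) (n : N) (m' : M) (n' : N), ip (z m n) (z m' n') =
      (if m = m' then 1 else 0) + (if n = n' then 1 else 0) + (if m = m' then 1 else 0) * (if n = n' then 1 else 0) := by
    intro m n m' n'
    have h := inner_eq_sum_coord (hze m n) (hze m' n')
    have hf : ∀ w : ↥(W₁ ⊔ W₂), (w : G) ∈ W₂ → m.1 w = 1 ∧ m'.1 w = 1 := fun w hw => ⟨m.2.2 w hw, m'.2.2 w hw⟩
    have hg' : ∀ w : ↥(W₁ ⊔ W₂), (w : G) ∈ W₁ → n.1 w = 1 ∧ n'.1 w = 1 := fun w hw => ⟨n.2.2 w hw, n'.2.2 w hw⟩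
    rw [ci_sub_left, ci_sub_right, ci_sub_right, hIone, classInner_symm (fun _ => 1) (indFun _ _), hIone,
      CfsgLib.Coherence.inner_irr_self hone, gram_ind hW hf hg', (alpha_gram m.2.1 m'.2.1 n.2.1 n'.2.1 hf hg').2] at h
    simp only [map_one, Subtype.coe_inj] at h
    have h' : ((ip (z m n) (z m' n') : ℤ) : ℂ) =
        (((if m = m' then 1 else 0) + (if n = n' then 1 else 0) + (if m = m' then 1 else 0) * (if n = n' then 1 else 0) : ℤ) : ℂ) := by
      unfold ip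
      rw [← h]; push_cast; ring
    exact_mod_cast h'
  have hthree : ∀ m n, Three d (z m n) := fun m n => by
    refine ⟨by rw [hg]; simp, ?_⟩
    have h := congrFun (hze m n) 1
    simp only [Pi.sub_apply, indFun_one, Finset.sum_apply, Pi.smul_apply, smul_eq_mul, irr_apply_one] at h
    have h0 : CfsgLib.CyclicTI.alpha m.1 n.1 1 = 0 := by simp [CfsgLib.CyclicTI.alpha]
    rw [h0, mul_zero, zero_sub] at h
    have h' : ((∑ θ, d θ * z m n θ : ℤ) : ℂ) = ((-1 : ℤ) : ℂ) := by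
      push_cast
      rw [h]
      exact Finset.sum_congr rfl fun θ _ => by simp [d, mul_comm]
    exact_mod_cast h'
  obtain ⟨X, Y, Z, hv, hXX, hYY, hXY, hXZ, hYZ, hZZ⟩ := grid_either hd hthree hg
    (hM ▸ hsize W₁ hW.1 le_sup_left) (hN ▸ hsize W₂ hW.2.1 le_sup_right) (by
      rw [hM, hN]
      have h1 : 0 < Nat.card W₁ := Nat.card_pos
      have h2 : 0 < Nat.card W₂ := Nat.card_pos
      have := card_ne hW
      omega)
  set one' : IrrCharacter G := ⟨_, hone⟩ with hone'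
  have hz1 : ∀ m n, z m n one' = 0 := fun m n => by
    have h := hzc m n one'
    rw [show (one' : G → ℂ) = fun _ => 1 from rfl, ci_sub_left, hIone, CfsgLib.Coherence.inner_irr_self hone, sub_self] at h
    exact_mod_cast h.symm
  have honly : ∀ (A : IrrCharacter G → ℤ) (u : IrrCharacter G → ℤ), ip A A = 1 → ip A u = 1 → u one' = 0 → A one' = 0 := by
    intro A u hA hAu hu
    by_contra h
    have hz : ∀ θ, θ ≠ one' → A θ = 0 := fun θ hθ => by
      by_contra h'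
      have hle := Finset.sum_le_sum_of_subset_of_nonneg (f := fun k => A k * A k)
        (Finset.subset_univ ({θ, one'} : Finset (IrrCharacter G))) (fun j _ _ => mul_self_nonneg _)
      rw [Finset.sum_pair hθ] at hle
      have : ∑ k, A k * A k = 1 := hA
      have := mul_self_pos.2 h
      have := mul_self_pos.2 h'
      omega
    rw [ip, Finset.sum_eq_single one' (fun θ _ hθ => by rw [hz θ hθ, zero_mul]) (by simp), hu, mul_zero] at hAu
    exact zero_ne_one hAu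
  have hXu : ∀ m n, ip (X m) (z m n) = 1 := fun m n => by
    rw [hv, ip_add_right, ip_add_right, hXX, if_pos rfl, hXY, hXZ]; ring
  have hYu : ∀ m n, ip (Y n) (z m n) = 1 := fun m n => by
    rw [hv, ip_add_right, ip_add_right, hYY, if_pos rfl, ip_comm, hXY, hYZ]; ring
  obtain ⟨m0⟩ : Nonempty M := Fintype.card_pos_iff.1 (by have := hM ▸ hsize W₁ hW.1 le_sup_left; omega)
  obtain ⟨n0⟩ : Nonempty N := Fintype.card_pos_iff.1 (by have := hN ▸ hsize W₂ hW.2.1 le_sup_right; omega)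
  have hX1 : ∀ m, X m one' = 0 := fun m => honly _ _ ((hXX m m).trans (if_pos rfl)) (hXu m n0) (hz1 m n0)
  have hY1 : ∀ n, Y n one' = 0 := fun n => honly _ _ ((hYY n n).trans (if_pos rfl)) (hYu m0 n) (hz1 m0 n)
  have hZ1 : ∀ m n, Z m n one' = 0 := fun m n => by
    have h := congrFun (hv m n) one'
    simp only [Pi.add_apply, hz1, hX1, hY1] at h
    linarith
  -- the family
  have hc₁ : ∀ ω : ↥(W₁ ⊔ W₂) →* ℂˣ, ∀ w : ↥(W₁ ⊔ W₂), (w : G) ∈ W₂ → (ω.comp p₁) w = 1 := fun ω w hw => by simp [(h2 w hw).1]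
  have hc₂ : ∀ ω : ↥(W₁ ⊔ W₂) →* ℂˣ, ∀ w : ↥(W₁ ⊔ W₂), (w : G) ∈ W₁ → (ω.comp p₂) w = 1 := fun ω w hw => by simp [(h1 w hw).2]
  let χ : (↥(W₁ ⊔ W₂) →* ℂˣ) → (G → ℂ) := fun ω =>
    if ha : ω.comp p₁ = 1 then
      (if hc : ω.comp p₂ = 1 then (fun _ => 1) else -ofCoord (Y ⟨_, hc, hc₂ ω⟩))
    else
      (if hc : ω.comp p₂ = 1 then -ofCoord (X ⟨_, ha, hc₁ ω⟩) else ofCoord (Z ⟨_, ha, hc₁ ω⟩ ⟨_, hc, hc₂ ω⟩))
  have hω : ∀ ω : ↥(W₁ ⊔ W₂) →* ℂˣ, ω.comp p₁ * ω.comp p₂ = ω := fun ω => MonoidHom.ext fun x => by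
    show ω (p₁ x) * ω (p₂ x) = ω x
    rw [← map_mul, hsplit]
  have h1i : ∀ A : IrrCharacter G → ℤ, A one' = 0 →
      classInner (ofCoord A) (fun _ => 1) = 0 ∧ classInner (fun _ => 1) (ofCoord A) = 0 := fun A hA => by
    have h : classInner (ofCoord A) (fun _ => 1) = 0 := by rw [ofCoord_one, ← hone', hA, Int.cast_zero]
    exact ⟨h, by rw [classInner_symm, h, map_zero]⟩
  have horth : ∀ ω ω', classInner (χ ω) (χ ω') = if ω = ω' then 1 else 0 := by
    intro ω ω'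
    have hiff : ω = ω' ↔ ω.comp p₁ = ω'.comp p₁ ∧ ω.comp p₂ = ω'.comp p₂ :=
      ⟨fun e => by subst e; exact ⟨rfl, rfl⟩, fun ⟨e, e'⟩ => by rw [← hω ω, e, e', hω ω']⟩
    simp only [χ]
    by_cases a : ω.comp p₁ = 1 <;> by_cases c : ω.comp p₂ = 1 <;> by_cases a' : ω'.comp p₁ = 1 <;>
      by_cases c' : ω'.comp p₂ = 1 <;>
      simp only [dif_pos, dif_neg, a, c, a', c', not_false_eq_true, hiff] <;>
      simp only [ci_neg_left, ci_neg_right, neg_neg, CfsgLib.Coherence.inner_irr_self hone,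
        (h1i _ (hX1 _)).1, (h1i _ (hX1 _)).2, (h1i _ (hY1 _)).1, (h1i _ (hY1 _)).2, (h1i _ (hZ1 _ _)).1, (h1i _ (hZ1 _ _)).2,
        inner_ofCoord, hXX, hYY, hXY, hXZ, hYZ, hZZ, ip_comm (Y _) (X _), ip_comm (Z _ _) (X _), ip_comm (Z _ _) (Y _),
        true_and, and_true, false_and, and_false, if_true, if_false] <;>
      (try simp)
    all_goals first
      | exact fun h => absurd h.symm (by assumption)
      | exact fun h _ => absurd h.symm (by assumption)
      | exact fun _ h => absurd h.symm (by assumption)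
      | exact if_congr ⟨fun h => congrArg Subtype.val h, fun h => Subtype.ext h⟩ rfl rfl
      | (by_cases e : ω.comp p₁ = ω'.comp p₁ <;> by_cases e' : ω.comp p₂ = ω'.comp p₂ <;>
          simp [e, e'] <;> first | exact (fun h => e (congrArg Subtype.val h)) | exact (fun h => e' (congrArg Subtype.val h)) | exact (fun h _ => e' (congrArg Subtype.val h)) | exact (fun _ h => e (congrArg Subtype.val h)) | skip)
  have hind : ∀ φ ψ : ↥(W₁ ⊔ W₂) →* ℂˣ, φ ≠ 1 → ψ ≠ 1 →
      (∀ w : ↥(W₁ ⊔ W₂), (w : G) ∈ W₂ → φ w = 1) → (∀ w : ↥(W₁ ⊔ W₂), (w : G) ∈ W₁ → ψ w = 1) →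
      indFun (W₁ ⊔ W₂) (CfsgLib.CyclicTI.alpha φ ψ) = fun g => 1 - χ φ g - χ ψ g + χ (φ * ψ) g := by
    intro φ ψ hφ hψ hφ2 hψ1
    have hφp : φ.comp p₁ = φ ∧ φ.comp p₂ = 1 := by
      have e : φ.comp p₂ = 1 := MonoidHom.ext fun x => hφ2 _ (hp₂ x)
      have := hω φ
      rw [e, hom_mul_one] at this
      exact ⟨this, e⟩
    have hψp : ψ.comp p₁ = 1 ∧ ψ.comp p₂ = ψ := by
      have e : ψ.comp p₁ = 1 := MonoidHom.ext fun x => hψ1 _ (hp₁ x)
      have := hω ψ
      rw [e, hom_one_mul] at this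
      exact ⟨e, this⟩
    have e1 : (φ * ψ).comp p₁ = φ := by rw [MonoidHom.mul_comp, hφp.1, hψp.1, hom_mul_one]
    have e2 : (φ * ψ).comp p₂ = ψ := by rw [MonoidHom.mul_comp, hφp.2, hψp.2, hom_one_mul]
    let m : M := ⟨φ, hφ, hφ2⟩
    let n : N := ⟨ψ, hψ, hψ1⟩
    have e3 : χ φ = -ofCoord (X m) := by
      simp only [χ, dif_pos hφp.2, dif_neg (show ¬φ.comp p₁ = 1 by rw [hφp.1]; exact hφ)]
      congr 3; exact Subtype.ext hφp.1
    have e4 : χ ψ = -ofCoord (Y n) := by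
      simp only [χ, dif_pos hψp.1, dif_neg (show ¬ψ.comp p₂ = 1 by rw [hψp.2]; exact hψ)]
      congr 3; exact Subtype.ext hψp.2
    have e5 : χ (φ * ψ) = ofCoord (Z m n) := by
      simp only [χ, dif_neg (show ¬(φ * ψ).comp p₁ = 1 by rw [e1]; exact hφ), dif_neg (show ¬(φ * ψ).comp p₂ = 1 by rw [e2]; exact hψ)]
      congr 2 <;> exact Subtype.ext (by assumption)
    have e6 : indFun (W₁ ⊔ W₂) (CfsgLib.CyclicTI.alpha φ ψ) = (fun _ => 1) + ofCoord (z m n) := by
      show _ = _ + ∑ θ, (z m n θ : ℂ) • (θ : G → ℂ)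
      rw [← hze m n]
      abel
    rw [e6, hv, ofCoord_add, ofCoord_add, e3, e4, e5]
    funext g
    simp only [Pi.add_apply, Pi.neg_apply]
    ring
  refine ⟨χ, fun ω => ?_, fun ω ω' => by convert horth ω ω' using 2, ?_, fun ω w hw₁ hw₂ => ?_, hind⟩
  · simp only [χ]
    split_ifs
    · exact Or.inl hone
    · exact ((ofCoord_irr _ ((hYY _ _).trans (if_pos rfl))).symm).imp id (fun h => by rwa [neg_neg])
    · exact ((ofCoord_irr _ ((hXX _ _).trans (if_pos rfl))).symm).imp id (fun h => by rwa [neg_neg])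
    · exact ofCoord_irr _ ((hZZ _ _ _ _).trans (by simp))
  · simp only [χ]
    rw [dif_pos (MonoidHom.one_comp _), dif_pos (MonoidHom.one_comp _)]
  · have hχc : IsClassFunction G (χ ω) := by
      simp only [χ]
      split_ifs
      exacts [fun _ _ => rfl, genChar_classFun (genChar_neg (ofCoord_genChar _)),
        genChar_classFun (genChar_neg (ofCoord_genChar _)), genChar_classFun (ofCoord_genChar _)]
    let b : (↥(W₁ ⊔ W₂) →* ℂˣ) → ℂ := fun ω' =>
      classInner (fun x : ↥(W₁ ⊔ W₂) => χ ω x) (homFun ω') - (if ω = ω' then 1 else 0)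
    have hb : ∀ a c : ↥(W₁ ⊔ W₂) →* ℂˣ, a ≠ 1 → c ≠ 1 → (∀ w : ↥(W₁ ⊔ W₂), (w : G) ∈ W₂ → a w = 1) →
        (∀ w : ↥(W₁ ⊔ W₂), (w : G) ∈ W₁ → c w = 1) → b (a * c) = b a + b c - b 1 := by
      intro a c ha hc ha2 hc1
      have h := CfsgLib.Chars.frobenius (W₁ ⊔ W₂) (CfsgLib.CyclicTI.alpha a c) hχc
      have hone1 : χ 1 = fun _ => (1 : ℂ) := by
        simp only [χ]; rw [dif_pos (MonoidHom.one_comp _), dif_pos (MonoidHom.one_comp _)]
      have e : indFun (W₁ ⊔ W₂) (CfsgLib.CyclicTI.alpha a c) = χ 1 - χ a - χ c + χ (a * c) := by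
        rw [hind a c ha hc ha2 hc1, hone1]
        rfl
      rw [e, alpha_eq] at h
      have h' := congrArg (starRingEnd ℂ) h
      rw [← classInner_symm, ← classInner_symm, ci_add_right, ci_sub_right, ci_sub_right, horth, horth, horth, horth,
        ci_add_right, ci_sub_right, ci_sub_right] at h'
      simp only [b]
      linear_combination -h'
    have h0 := sum_additive_eq_zero hW b hb w hw₁ hw₂
    simp only [b, sub_mul, Finset.sum_sub_distrib] at h0
    have hcomm : ∀ a c : ↥(W₁ ⊔ W₂), a * c = c * a := by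
      letI := IsCyclic.commGroup (α := ↥(W₁ ⊔ W₂))
      exact fun a c => mul_comm a c
    have hexp : χ ω w = ∑ ω' : ↥(W₁ ⊔ W₂) →* ℂˣ, classInner (fun x : ↥(W₁ ⊔ W₂) => χ ω x) (homFun ω') * (ω' w : ℂ) := by
      refine (classFunction_expand (f := fun x : ↥(W₁ ⊔ W₂) => χ ω x) (fun x y => by simp [hcomm y x]) w).trans ?_
      refine (Fintype.sum_bijective homIrr ⟨homIrr_injective, fun χ' => ?_⟩ _ _ fun ω => rfl).symm
      exact exists_homIrr χ' (charDegree_eq_one_of_comm hcomm χ')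
    rw [← hexp] at h0
    simp only [ite_mul, one_mul, zero_mul, Finset.sum_ite_eq, Finset.mem_univ, if_true] at h0
    exact sub_eq_zero.1 h0

end Cfsg.Agent.S1502
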