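import Cfsg.Statements.S1503
import Mathlib
import Cfsg.Agent.Lib.CyclicTI

set_option autoImplicit false
open Cfsg

open Cfsg CfsgLib.Chars CfsgLib.Virtual CfsgLib.CyclicTI

namespace Cfsg.Agent.S1503

/-- Let W₁, W₂ ≤ G with W = W₁ ⊔ W₂ and let χ an orthonormal family of irreducible characters of G up to sign, indexed by the linear characters ω of W, with χ_1 = 1, χ_ω = ω on W outside W₁ ∪ W₂, and the induction identity for (1 − φ)(1 − ψ). If θ is an irreducible character of G orthogonal to χ ω for every linear character ω of W, then θ vanishes at every element of W lying outside W₁ ∪ W₂. -/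
theorem result {G : Type*} [Group G] [Fintype G] (W₁ W₂ : Subgroup G) (hW : Cfsg.IsSelfNormalizingCyclic W₁ W₂) (χ : (↥(W₁ ⊔ W₂) →* ℂˣ) → (G → ℂ)) (hχ : Cfsg.IsCyclicTIFamily W₁ W₂ χ) (θ : G → ℂ) (hθ : Cfsg.IsIrrCharacter G θ) (horth : ∀ ω, Cfsg.classInner θ (χ ω) = 0) (w : ↥(W₁ ⊔ W₂)) (hw₁ : (w : G) ∉ W₁) (hw₂ : (w : G) ∉ W₂) : θ w = 0 := by
  classical
  letI := Fintype.ofFinite ↥(W₁ ⊔ W₂)
  haveI : IsCyclic ↥(W₁ ⊔ W₂) := hW.2.2.2.2.1
  have hcomm : ∀ a b : ↥(W₁ ⊔ W₂), a * b = b * a := by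
    letI := IsCyclic.commGroup (α := ↥(W₁ ⊔ W₂))
    exact fun a b => mul_comm a b
  have hθc : IsClassFunction G θ := IsCharacter.isClassFunction (IsIrrCharacter.isCharacter hθ)
  set b : (↥(W₁ ⊔ W₂) →* ℂˣ) → ℂ := fun ω => classInner (fun x : ↥(W₁ ⊔ W₂) => θ x) (homFun ω) with hb
  have key : ∀ a c : ↥(W₁ ⊔ W₂) →* ℂˣ, (∀ w : ↥(W₁ ⊔ W₂), (w : G) ∈ W₂ → a w = 1) →
      (∀ w : ↥(W₁ ⊔ W₂), (w : G) ∈ W₁ → c w = 1) → b (a * c) = b a + b c - b 1 := by
    intro a c ha hc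
    by_cases ha1 : a = 1
    · subst ha1; rw [hom_one_mul]; ring
    by_cases hc1 : c = 1
    · subst hc1; rw [hom_mul_one]; ring
    have he : indFun (W₁ ⊔ W₂) (CfsgLib.CyclicTI.alpha a c) = χ 1 - χ a - χ c + χ (a * c) := by
      refine (hχ.induced_eq a c ha1 hc1 ha hc).trans ?_
      rw [hχ.map_one]; rfl
    have h0 : classInner (indFun (W₁ ⊔ W₂) (CfsgLib.CyclicTI.alpha a c)) θ = 0 := by
      rw [classInner_symm, he, ci_add_right, ci_sub_right, ci_sub_right, horth, horth, horth, horth]; simp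
    rw [CfsgLib.Chars.frobenius _ _ hθc, classInner_symm, alpha_eq] at h0
    have h1 := congrArg (starRingEnd ℂ) h0
    rw [Complex.conj_conj, map_zero, ci_add_right, ci_sub_right, ci_sub_right] at h1
    simp only [hb]
    linear_combination h1
  let m : ↥W₁ × ↥W₂ →* ↥(W₁ ⊔ W₂) :=
    { toFun := fun p => ⟨(p.1 : G) * p.2, Subgroup.mul_mem_sup p.1.2 p.2.2⟩
      map_one' := by ext; simp
      map_mul' := fun p q => by
        ext
        simp only [Prod.fst_mul, Prod.snd_mul, Subgroup.coe_mul]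
        rw [mul_assoc (p.1 : G), mul_assoc (p.1 : G), ← mul_assoc (q.1 : G), hW.2.2.2.1 q.1 q.1.2 p.2 p.2.2, mul_assoc (p.2 : G)] }
  have hm : Function.Bijective m := by
    refine ⟨fun p q h => ?_, fun x => ?_⟩
    · have := Subgroup.mul_injective_of_disjoint (disjoint_iff.2 hW.2.2.1) (a₁ := p) (a₂ := q) (congrArg Subtype.val h)
      exact this
    · have hn : W₁ ≤ Subgroup.normalizer (W₂ : Set G) := fun a ha => Subgroup.mem_normalizer_iff.2 fun u => by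
        constructor
        · intro hu; rw [hW.2.2.2.1 a ha u hu, mul_inv_cancel_right]; exact hu
        · intro hu
          have := hW.2.2.2.1 a ha _ hu
          rw [show a * u * a⁻¹ * a = a * u by group, mul_left_cancel_iff] at this
          rwa [this] at hu
      have hx := x.2
      rw [← SetLike.mem_coe, Subgroup.coe_mul_of_left_le_normalizer_right _ _ hn] at hx
      obtain ⟨a, ha, c, hc, e⟩ := hx
      exact ⟨(⟨a, ha⟩, ⟨c, hc⟩), Subtype.ext e⟩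
  let e := MulEquiv.ofBijective m hm
  let p₁ : ↥(W₁ ⊔ W₂) →* ↥(W₁ ⊔ W₂) := m.comp (((MonoidHom.inl _ _).comp (MonoidHom.fst _ _)).comp e.symm.toMonoidHom)
  let p₂ : ↥(W₁ ⊔ W₂) →* ↥(W₁ ⊔ W₂) := m.comp (((MonoidHom.inr _ _).comp (MonoidHom.snd _ _)).comp e.symm.toMonoidHom)
  have hsplit : ∀ x, p₁ x * p₂ x = x := fun x => by
    have h := e.apply_symm_apply x
    conv_rhs => rw [← h]
    change m (_, 1) * m (1, _) = m _
    rw [← map_mul]; simp
  have hp₁ : ∀ x : ↥(W₁ ⊔ W₂), (x : G) ∈ W₂ → p₁ x = 1 := fun x hx => by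
    have : e.symm x = (1, ⟨x, hx⟩) := e.symm_apply_eq.2 (Subtype.ext (by simp [e, m]))
    show m ((e.symm x).1, 1) = 1
    rw [this]; exact map_one m
  have hp₂ : ∀ x : ↥(W₁ ⊔ W₂), (x : G) ∈ W₁ → p₂ x = 1 := fun x hx => by
    have : e.symm x = (⟨x, hx⟩, 1) := e.symm_apply_eq.2 (Subtype.ext (by simp [e, m]))
    show m (1, (e.symm x).2) = 1
    rw [this]; exact map_one m
  have hdec : ∀ ω : ↥(W₁ ⊔ W₂) →* ℂˣ, b ω = b (ω.comp p₁) + b (ω.comp p₂) - b 1 := fun ω => by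
    rw [← key _ _ (fun x hx => by simp [hp₁ x hx]) (fun x hx => by simp [hp₂ x hx])]
    congr 1
    refine MonoidHom.ext fun x => ?_
    show ω x = ω (p₁ x) * ω (p₂ x)
    rw [← map_mul, hsplit]
  haveI : Finite (↥(W₁ ⊔ W₂) →* ℂˣ) := by
    haveI := finite_irr ↥(W₁ ⊔ W₂)
    exact Finite.of_injective _ homIrr_injective
  letI := Fintype.ofFinite (↥(W₁ ⊔ W₂) →* ℂˣ)
  have hexp : θ w = ∑ ω : ↥(W₁ ⊔ W₂) →* ℂˣ, b ω * (ω w : ℂ) := by
    refine (classFunction_expand (f := fun x : ↥(W₁ ⊔ W₂) => θ x) (fun x y => by simp [hcomm y x]) w).trans ?_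
    refine (Fintype.sum_bijective homIrr ⟨homIrr_injective, fun χ' => ?_⟩ _ _ fun ω => rfl).symm
    exact exists_homIrr χ' (charDegree_eq_one_of_comm hcomm χ')
  have htrick : ∀ (p q : ↥(W₁ ⊔ W₂) →* ↥(W₁ ⊔ W₂)) (f : (↥(W₁ ⊔ W₂) →* ℂˣ) → ℂ), (∀ x, q (p x) = 1) → q w ≠ 1 →
      ∑ ω : ↥(W₁ ⊔ W₂) →* ℂˣ, f (ω.comp p) * (ω w : ℂ) = 0 := by
    intro p q f hqp hqw
    obtain ⟨φ, hφ⟩ : ∃ φ : ↥(W₁ ⊔ W₂) →* ℂˣ, φ (q w) ≠ 1 := by
      letI := IsCyclic.commGroup (α := ↥(W₁ ⊔ W₂))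
      exact CommGroup.exists_apply_ne_one_of_hasEnoughRootsOfUnity ↥(W₁ ⊔ W₂) ℂ hqw
    set S := ∑ ω : ↥(W₁ ⊔ W₂) →* ℂˣ, f (ω.comp p) * (ω w : ℂ) with hS
    have hs : S = (φ (q w) : ℂ) * S := by
      conv_lhs => rw [hS, ← Equiv.sum_comp (Equiv.mulLeft (φ.comp q))]
      rw [hS, Finset.mul_sum]
      refine Finset.sum_congr rfl fun ω _ => ?_
      have : ((Equiv.mulLeft (φ.comp q)) ω).comp p = ω.comp p := MonoidHom.ext fun x => by simp [hqp x]
      rw [this]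
      simp [mul_left_comm]
    by_contra hne
    exact hφ (Units.ext (mul_right_cancel₀ hne (by rw [Units.val_one, one_mul]; exact hs.symm)))
  have hw1 : p₁ w ≠ 1 := fun h => hw₂ (by
    have := hsplit w
    rw [h, one_mul] at this
    rw [← this]
    show (m (1, _) : G) ∈ W₂
    simp [m])
  have hw2 : p₂ w ≠ 1 := fun h => hw₁ (by
    have := hsplit w
    rw [h, mul_one] at this
    rw [← this]
    show (m (_, 1) : G) ∈ W₁
    simp [m])
  have h12 : ∀ x, p₂ (p₁ x) = 1 := fun x => hp₂ _ (by show (m (_, 1) : G) ∈ W₁; simp [m])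
  have h21 : ∀ x, p₁ (p₂ x) = 1 := fun x => hp₁ _ (by show (m (1, _) : G) ∈ W₂; simp [m])
  rw [hexp, Finset.sum_congr rfl fun ω _ => by rw [hdec ω, sub_mul, add_mul]]
  rw [Finset.sum_sub_distrib, Finset.sum_add_distrib, htrick p₁ p₂ b h12 hw2, htrick p₂ p₁ b h21 hw1,
    htrick p₁ p₂ (fun _ => b 1) h12 hw2]
  ring

end Cfsg.Agent.S1503
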