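import Cfsg.Statements.S1506
import Mathlib
import Cfsg.Agent.Lib.CyclicTI

set_option autoImplicit false
open Cfsg

open Cfsg CfsgLib.Chars CfsgLib.Virtual CfsgLib.CyclicTI

namespace Cfsg.Agent.S1506

/-- Let W₁, W₂ ≤ G form a self-normalising cyclic subgroup W = W₁ ⊔ W₂ and χ an orthonormal family of irreducible characters of G up to sign, indexed by the linear characters ω of W, with χ_1 = 1, χ_ω = ω on W outside W₁ ∪ W₂, and the induction identity for (1 − φ)(1 − ψ). Let θ be a class function of G vanishing at every element of W outside W₁ ∪ W₂. For linear characters φ, φ' of W trivial on W₂ and ψ, ψ' trivial on W₁, the inner products a(ω) = ⟨θ, χ ω⟩ satisfy a(φψ) + a(φ'ψ') = a(φψ') + a(φ'ψ). -/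
theorem result {G : Type*} [Group G] [Fintype G] (W₁ W₂ : Subgroup G) (hW : Cfsg.IsSelfNormalizingCyclic W₁ W₂) (χ : (↥(W₁ ⊔ W₂) →* ℂˣ) → (G → ℂ)) (hχ : Cfsg.IsCyclicTIFamily W₁ W₂ χ) (θ : G → ℂ) (hθ : Cfsg.IsClassFunction G θ) (hθV : ∀ w : ↥(W₁ ⊔ W₂), (w : G) ∉ W₁ → (w : G) ∉ W₂ → θ w = 0) (φ φ' ψ ψ' : ↥(W₁ ⊔ W₂) →* ℂˣ) (hφ₂ : ∀ w : ↥(W₁ ⊔ W₂), (w : G) ∈ W₂ → φ w = 1 ∧ φ' w = 1) (hψ₁ : ∀ w : ↥(W₁ ⊔ W₂), (w : G) ∈ W₁ → ψ w = 1 ∧ ψ' w = 1) : Cfsg.classInner θ (χ (φ * ψ)) + Cfsg.classInner θ (χ (φ' * ψ')) = Cfsg.classInner θ (χ (φ * ψ')) + Cfsg.classInner θ (χ (φ' * ψ)) := by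
  classical
  letI := Fintype.ofFinite ↥(W₁ ⊔ W₂)
  have key : ∀ a b : ↥(W₁ ⊔ W₂) →* ℂˣ, (∀ w : ↥(W₁ ⊔ W₂), (w : G) ∈ W₂ → a w = 1) →
      (∀ w : ↥(W₁ ⊔ W₂), (w : G) ∈ W₁ → b w = 1) →
      classInner θ (χ (a * b)) = classInner θ (χ a) + classInner θ (χ b) - classInner θ (χ 1) := by
    intro a b ha hb
    by_cases ha1 : a = 1
    · subst ha1; rw [hom_one_mul]; ring
    by_cases hb1 : b = 1
    · subst hb1; rw [hom_mul_one]; ring
    have h0 : classInner θ (indFun (W₁ ⊔ W₂) (CfsgLib.CyclicTI.alpha a b)) = 0 := by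
      rw [classInner_symm, CfsgLib.Chars.frobenius _ _ hθ]
      simp only [classInner]
      rw [Finset.sum_eq_zero fun w _ => ?_, mul_zero, map_zero]
      by_cases hw : (w : G) ∈ (↑(W₁ ⊔ W₂) : Set G) \ (↑W₁ ∪ ↑W₂)
      · rw [hθV w (fun h => hw.2 (Or.inl h)) (fun h => hw.2 (Or.inr h)), map_zero, mul_zero]
      · rw [alpha_vanish hW ha hb w hw, zero_mul]
    have he : indFun (W₁ ⊔ W₂) (CfsgLib.CyclicTI.alpha a b) = χ 1 - χ a - χ b + χ (a * b) := by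
      refine (hχ.induced_eq a b ha1 hb1 ha hb).trans ?_
      rw [hχ.map_one]; rfl
    rw [he, ci_add_right, ci_sub_right, ci_sub_right] at h0
    linear_combination h0
  rw [key φ ψ (fun w h => (hφ₂ w h).1) (fun w h => (hψ₁ w h).1), key φ' ψ' (fun w h => (hφ₂ w h).2) (fun w h => (hψ₁ w h).2),
    key φ ψ' (fun w h => (hφ₂ w h).1) (fun w h => (hψ₁ w h).2), key φ' ψ (fun w h => (hφ₂ w h).2) (fun w h => (hψ₁ w h).1)]
  ring

end Cfsg.Agent.S1506
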