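import Cfsg.Statements.S1507
import Mathlib
import Cfsg.Agent.Lib.CyclicTI2
import Cfsg.Agent.S1506

set_option autoImplicit false
open Cfsg

open Cfsg CfsgLib.Chars CfsgLib.Virtual CfsgLib.CyclicTI

namespace Cfsg.Agent.S1507

open Classical in
/-- Let W₁, W₂ ≤ G form a self-normalising cyclic subgroup W = W₁ ⊔ W₂ of odd order with Nat.card W₁ < Nat.card W₂, and χ an orthonormal family of irreducible characters of G up to sign, indexed by the linear characters ω of W, with χ_1 = 1, χ_ω = ω on W outside W₁ ∪ W₂, and the induction identity for (1 − φ)(1 − ψ). Let θ be a class function of G vanishing on W outside W₁ ∪ W₂, and suppose fewer than 2 · Nat.card W₁ linear characters ω of W have ⟨θ, χ ω⟩ ≠ 0. Then one of: all ⟨θ, χ ω⟩ vanish; or there are ψ₀ and a with ⟨θ, χ ω⟩ = a when ω ψ₀⁻¹ is trivial on W₂ and 0 otherwise; or there are φ₀ and a with ⟨θ, χ ω⟩ = a when ω φ₀⁻¹ is trivial on W₁ and 0 otherwise. -/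
theorem result {G : Type*} [Group G] [Fintype G] (W₁ W₂ : Subgroup G) (hW : Cfsg.IsSelfNormalizingCyclic W₁ W₂) (hodd : Odd (Nat.card ↥(W₁ ⊔ W₂))) (χ : (↥(W₁ ⊔ W₂) →* ℂˣ) → (G → ℂ)) (hχ : Cfsg.IsCyclicTIFamily W₁ W₂ χ) (hlt : Nat.card W₁ < Nat.card W₂) (θ : G → ℂ) (hθ : Cfsg.IsClassFunction G θ) (hθV : ∀ w : ↥(W₁ ⊔ W₂), (w : G) ∉ W₁ → (w : G) ∉ W₂ → θ w = 0) (hfew : Nat.card {ω : ↥(W₁ ⊔ W₂) →* ℂˣ // Cfsg.classInner θ (χ ω) ≠ 0} < 2 * Nat.card W₁) : (∀ ω, Cfsg.classInner θ (χ ω) = 0) ∨ (∃ (ψ₀ : ↥(W₁ ⊔ W₂) →* ℂˣ) (a : ℂ), ∀ ω, Cfsg.classInner θ (χ ω) = if (∀ w : ↥(W₁ ⊔ W₂), (w : G) ∈ W₂ → (ω * ψ₀⁻¹) w = 1) then a else 0) ∨ (∃ (φ₀ : ↥(W₁ ⊔ W₂) →* ℂˣ) (a : ℂ), ∀ ω, Cfsg.classInner θ (χ ω) = if (∀ w : ↥(W₁ ⊔ W₂), (w : G) ∈ W₁ → (ω * φ₀⁻¹) w = 1) then a else 0) := by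
  classical
  letI := Fintype.ofFinite ↥(W₁ ⊔ W₂)
  obtain ⟨p₁, p₂, hsplit, hp₁, hp₂, h1, h2⟩ := exists_proj hW
  have hω : ∀ ω : ↥(W₁ ⊔ W₂) →* ℂˣ, ω.comp p₁ * ω.comp p₂ = ω := fun ω => MonoidHom.ext fun x => by
    show ω (p₁ x) * ω (p₂ x) = ω x
    rw [← map_mul, hsplit]
  have hA : ∀ φ : ↥(W₁ ⊔ W₂) →* ℂˣ, ∀ x : ↥(W₁ ⊔ W₂), (x : G) ∈ W₂ → (φ.comp p₁) x = 1 := fun φ x hx => by simp [(h2 x hx).1]
  have hB : ∀ φ : ↥(W₁ ⊔ W₂) →* ℂˣ, ∀ x : ↥(W₁ ⊔ W₂), (x : G) ∈ W₁ → (φ.comp p₂) x = 1 := fun φ x hx => by simp [(h1 x hx).2]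
  haveI : Finite (↥(W₁ ⊔ W₂) →* ℂˣ) := by
    haveI := finite_irr ↥(W₁ ⊔ W₂)
    exact Finite.of_injective _ homIrr_injective
  letI := Fintype.ofFinite (↥(W₁ ⊔ W₂) →* ℂˣ)
  let P := {φ : ↥(W₁ ⊔ W₂) →* ℂˣ // ∀ w : ↥(W₁ ⊔ W₂), (w : G) ∈ W₂ → φ w = 1}
  let Q := {ψ : ↥(W₁ ⊔ W₂) →* ℂˣ // ∀ w : ↥(W₁ ⊔ W₂), (w : G) ∈ W₁ → ψ w = 1}
  letI : Fintype P := Fintype.ofFinite P
  letI : Fintype Q := Fintype.ofFinite Q
  have hP : Fintype.card P = Nat.card W₁ := by rw [← Nat.card_eq_fintype_card]; exact card_trivial_right hW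
  have hQ : Fintype.card Q = Nat.card W₂ := by rw [← Nat.card_eq_fintype_card]; exact card_trivial_left hW
  have hfst : ∀ (a : P) (c : Q), (a.1 * c.1).comp p₁ = a.1 ∧ (a.1 * c.1).comp p₂ = c.1 := fun a c => by
    refine ⟨MonoidHom.ext fun x => ?_, MonoidHom.ext fun x => ?_⟩
    · show a.1 (p₁ x) * c.1 (p₁ x) = a.1 x
      rw [c.2 _ (hp₁ x), mul_one]
      conv_rhs => rw [← hsplit x, map_mul, a.2 _ (hp₂ x), mul_one]
    · show a.1 (p₂ x) * c.1 (p₂ x) = c.1 x
      rw [a.2 _ (hp₂ x), one_mul]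
      conv_rhs => rw [← hsplit x, map_mul, c.2 _ (hp₁ x), one_mul]
  set A : (↥(W₁ ⊔ W₂) →* ℂˣ) → ℂ := fun ω => classInner θ (χ ω) with hAdef
  let one₁ : P := ⟨1, fun w _ => rfl⟩
  let one₂ : Q := ⟨1, fun w _ => rfl⟩
  let r : P → ℂ := fun a => A a.1 - A 1
  let c : Q → ℂ := fun b => A b.1
  have hadd : ∀ (a : P) (b : Q), A (a.1 * b.1) = r a + c b := fun a b => by
    have h := Cfsg.Agent.S1506.result W₁ W₂ hW χ hχ θ hθ hθV a.1 1 b.1 1
      (fun w hw => ⟨a.2 w hw, rfl⟩) (fun w hw => ⟨b.2 w hw, rfl⟩)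
    rw [hom_mul_one, hom_mul_one a.1, hom_one_mul] at h
    simp only [hAdef, r, c]
    linear_combination h
  -- the nonzero entries
  let E : (↥(W₁ ⊔ W₂) →* ℂˣ) ≃ P × Q :=
    { toFun := fun ω => (⟨ω.comp p₁, hA ω⟩, ⟨ω.comp p₂, hB ω⟩)
      invFun := fun p => p.1.1 * p.2.1
      left_inv := fun ω => hω ω
      right_inv := fun p => Prod.ext (Subtype.ext (hfst p.1 p.2).1) (Subtype.ext (hfst p.1 p.2).2) }
  have hEv : ∀ ω, A ω = r (E ω).1 + c (E ω).2 := fun ω => by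
    rw [← hadd]; exact congrArg A (E.left_inv ω).symm
  have hcount : ∑ b : Q, (Finset.univ.filter fun a : P => r a + c b ≠ 0).card < 2 * Nat.card W₁ := by
    refine lt_of_eq_of_lt ?_ hfew
    rw [← Finset.card_sigma, Nat.card_eq_fintype_card, Fintype.card_subtype]
    refine Finset.card_bij' (fun s _ => s.2.1 * s.1.1) (fun ω _ => ⟨(E ω).2, (E ω).1⟩) ?_ ?_ ?_ ?_
    · intro s hs
      simp only [Finset.mem_sigma, Finset.mem_filter, Finset.mem_univ, true_and] at hs ⊢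
      show A (s.2.1 * s.1.1) ≠ 0
      rw [hadd]; exact hs
    · intro ω hω'
      simp only [Finset.mem_sigma, Finset.mem_filter, Finset.mem_univ, true_and] at hω' ⊢
      rw [← hEv]; exact hω'
    · intro s _
      have := E.right_inv (s.2, s.1)
      exact Sigma.ext (congrArg Prod.snd this) (heq_of_eq (congrArg Prod.fst this))
    · intro ω _
      exact E.left_inv ω
  have hP2 : 2 ≤ Fintype.card P := by
    rw [hP]
    exact Subgroup.one_lt_card_iff_ne_bot W₁ |>.2 hW.1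
  have hPodd : Odd (Fintype.card P) := hP ▸ hodd.of_dvd_nat (Subgroup.card_dvd_of_le le_sup_left)
  have hQodd : Odd (Fintype.card Q) := hQ ▸ hodd.of_dvd_nat (Subgroup.card_dvd_of_le le_sup_right)
  by_cases hr : ∀ a, r a = r one₁
  · -- columns
    by_cases hc : ∀ b, r one₁ + c b = 0
    · exact Or.inl fun ω => by
        show A ω = 0
        rw [hEv, hr, hc]
    · push Not at hc
      obtain ⟨b₀, hb₀⟩ := hc
      have hone : ∀ b, r one₁ + c b ≠ 0 → b = b₀ := by
        intro b hb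
        by_contra hne
        have full : ∀ b, r one₁ + c b ≠ 0 → (Finset.univ.filter fun a : P => r a + c b ≠ 0).card = Fintype.card P := fun b hb => by
          rw [Finset.filter_true_of_mem (fun a _ => by rw [hr]; exact hb), Finset.card_univ]
        have := Finset.sum_le_sum_of_subset_of_nonneg (f := fun b => (Finset.univ.filter fun a : P => r a + c b ≠ 0).card)
          (Finset.subset_univ ({b, b₀} : Finset Q)) (fun i _ _ => Nat.zero_le _)
        rw [Finset.sum_pair hne, full b hb, full b₀ hb₀] at this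
        omega
      refine Or.inr (Or.inl ⟨b₀.1, r one₁ + c b₀, fun ω => ?_⟩)
      show A ω = _
      have hiff : (∀ w : ↥(W₁ ⊔ W₂), (w : G) ∈ W₂ → (ω * b₀.1⁻¹) w = 1) ↔ (E ω).2 = b₀ := by
        constructor
        · intro h
          refine Subtype.ext (MonoidHom.ext fun x => ?_)
          have h' := h (p₂ x) (hp₂ x)
          rw [MonoidHom.mul_apply, MonoidHom.inv_apply, mul_inv_eq_one] at h'
          show ω (p₂ x) = b₀.1 x
          rw [h']
          conv_rhs => rw [← hsplit x, map_mul, b₀.2 _ (hp₁ x), one_mul]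
        · intro h w hw
          have h' : ω (p₂ w) = b₀.1 w := DFunLike.congr_fun (congrArg Subtype.val h) w
          rw [(h2 w hw).2] at h'
          rw [MonoidHom.mul_apply, MonoidHom.inv_apply, h', mul_inv_cancel]
      split_ifs with h
      · rw [hEv, hr, hiff.1 h]
      · rw [hEv, hr]
        by_contra hne
        exact h (hiff.2 (hone _ hne))
  · -- one row
    push Not at hr
    obtain ⟨a₁, ha₁⟩ := hr
    have hlow : ∀ b, ∃ a, r a + c b ≠ 0 := fun b => by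
      by_contra h
      push Not at h
      exact ha₁ (by linear_combination h a₁ - h one₁)
    have hone : ∀ b, 1 ≤ (Finset.univ.filter fun a : P => r a + c b ≠ 0).card := fun b => by
      obtain ⟨a, ha⟩ := hlow b
      exact Finset.card_pos.2 ⟨a, by simp [ha]⟩
    obtain ⟨b₁, hb₁⟩ : ∃ b, (Finset.univ.filter fun a : P => r a + c b ≠ 0).card ≤ 1 := by
      by_contra h
      push Not at h
      have := Finset.card_nsmul_le_sum Finset.univ (fun b : Q => (Finset.univ.filter fun a : P => r a + c b ≠ 0).card) 2 fun b _ => h b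
      rw [Finset.card_univ, smul_eq_mul] at this
      omega
    obtain ⟨a₀, ha₀⟩ := Finset.card_eq_one.1 (le_antisymm hb₁ (hone b₁))
    have hrest : ∀ a, a ≠ a₀ → r a + c b₁ = 0 := fun a ha => by
      by_contra h
      have : a ∈ Finset.univ.filter (fun a : P => r a + c b₁ ≠ 0) := by simp [h]
      rw [ha₀, Finset.mem_singleton] at this
      exact ha this
    have hall : ∀ b, c b = c b₁ := by
      intro b
      by_contra hne
      have hbig : Fintype.card P - 1 ≤ (Finset.univ.filter fun a : P => r a + c b ≠ 0).card := by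
        rw [← Finset.card_univ, ← Finset.card_erase_of_mem (Finset.mem_univ a₀)]
        refine Finset.card_le_card fun a ha => ?_
        simp only [Finset.mem_filter, Finset.mem_univ, true_and]
        intro h
        exact hne (by linear_combination h - hrest a (Finset.mem_erase.1 ha).1)
      have h := Finset.add_sum_erase Finset.univ (fun b => (Finset.univ.filter fun a : P => r a + c b ≠ 0).card) (Finset.mem_univ b)
      have := Finset.card_nsmul_le_sum (Finset.univ.erase b) (fun b : Q => (Finset.univ.filter fun a : P => r a + c b ≠ 0).card) 1 fun b _ => hone b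
      rw [Finset.card_erase_of_mem (Finset.mem_univ b), Finset.card_univ, smul_eq_mul] at this
      obtain ⟨k, hk⟩ := hPodd
      obtain ⟨l, hl⟩ := hQodd
      omega
    refine Or.inr (Or.inr ⟨a₀.1, r a₀ + c b₁, fun ω => ?_⟩)
    show A ω = _
    have hiff : (∀ w : ↥(W₁ ⊔ W₂), (w : G) ∈ W₁ → (ω * a₀.1⁻¹) w = 1) ↔ (E ω).1 = a₀ := by
      constructor
      · intro h
        refine Subtype.ext (MonoidHom.ext fun x => ?_)
        have h' := h (p₁ x) (hp₁ x)
        rw [MonoidHom.mul_apply, MonoidHom.inv_apply, mul_inv_eq_one] at h'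
        show ω (p₁ x) = a₀.1 x
        rw [h']
        conv_rhs => rw [← hsplit x, map_mul, a₀.2 _ (hp₂ x), mul_one]
      · intro h w hw
        have h' : ω (p₁ w) = a₀.1 w := DFunLike.congr_fun (congrArg Subtype.val h) w
        rw [(h1 w hw).1] at h'
        rw [MonoidHom.mul_apply, MonoidHom.inv_apply, h', mul_inv_cancel]
    split_ifs with h
    · rw [hEv, hiff.1 h, hall]
    · rw [hEv, hall]
      exact hrest _ fun e => h (hiff.2 e)

end Cfsg.Agent.S1507
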