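import Cfsg.Statements.S1508
import Mathlib
import Cfsg.Agent.Lib.CyclicTI2
import Cfsg.Agent.S1503
import Cfsg.Agent.Lib.Chars.Galois
import Cfsg.Agent.Lib.Chars.GaloisTwist

set_option autoImplicit false
open Cfsg

open Cfsg CfsgLib.Chars CfsgLib.Virtual CfsgLib.CyclicTI

namespace Cfsg.Agent.S1508

/-- Let W₁, W₂ ≤ G form a self-normalising cyclic subgroup W = W₁ ⊔ W₂ of odd order and χ an orthonormal family of irreducible characters of G up to sign, indexed by the linear characters ω of W, with χ_1 = 1, χ_ω = ω on W outside W₁ ∪ W₂, and the induction identity for (1 − φ)(1 − ψ). Let ω be a linear character of W and g an element of G whose order is coprime to the order of ω. Then χ ω g is an integer. -/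
theorem result {G : Type*} [Group G] [Fintype G] (W₁ W₂ : Subgroup G) (hW : Cfsg.IsSelfNormalizingCyclic W₁ W₂) (hodd : Odd (Nat.card ↥(W₁ ⊔ W₂))) (χ : (↥(W₁ ⊔ W₂) →* ℂˣ) → (G → ℂ)) (hχ : Cfsg.IsCyclicTIFamily W₁ W₂ χ) (ω : ↥(W₁ ⊔ W₂) →* ℂˣ) (g : G) (hg : Nat.Coprime (orderOf g) (orderOf ω)) : ∃ n : ℤ, χ ω g = n := by
  classical
  letI := Fintype.ofFinite ↥(W₁ ⊔ W₂)
  obtain ⟨p₁, p₂, hsplit, hp₁, hp₂, h1, h2⟩ := exists_proj hW
  haveI : IsCyclic ↥(W₁ ⊔ W₂) := hW.2.2.2.2.1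
  haveI : Finite (↥(W₁ ⊔ W₂) →* ℂˣ) := by
    haveI := finite_irr ↥(W₁ ⊔ W₂)
    exact Finite.of_injective _ homIrr_injective
  obtain ⟨ε, μ, hε, hμ⟩ : ∃ (ε : ℂ) (μ : IrrCharacter G), (ε = 1 ∨ ε = -1) ∧ χ ω = ε • (μ : G → ℂ) := by
    rcases hχ.irr_or_neg ω with h | h
    · exact ⟨1, ⟨_, h⟩, Or.inl rfl, by simp⟩
    · exact ⟨-1, ⟨_, h⟩, Or.inr rfl, by funext x; simp⟩
  have hεε : ε * ε = 1 := by rcases hε with rfl | rfl <;> norm_num
  -- elements of `V`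
  have hthree : ∀ A : Subgroup G, A ≠ ⊥ → A ≤ W₁ ⊔ W₂ → ∀ a ∈ A, a ≠ 1 → a * a ≠ 1 := by
    intro A _ hle a ha ha1 h
    have ho := hodd.of_dvd_nat (Subgroup.card_dvd_of_le hle)
    have hd : orderOf a ∣ 2 := orderOf_dvd_iff_pow_eq_one.2 (by rw [pow_two]; exact h)
    have hd' : orderOf a ∣ Nat.card A := Subgroup.orderOf_mk a ha ▸ orderOf_dvd_natCard (⟨a, ha⟩ : A)
    rcases (Nat.dvd_prime Nat.prime_two).1 hd with e | e
    · exact ha1 (orderOf_eq_one_iff.1 e)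
    · rw [e] at hd'
      exact absurd (even_iff_two_dvd.2 hd') (Nat.not_even_iff_odd.2 ho)
  have hVab : ∀ a b : ↥(W₁ ⊔ W₂), (a : G) ∈ W₁ → a ≠ 1 → (b : G) ∈ W₂ → b ≠ 1 →
      ((a * b : ↥(W₁ ⊔ W₂)) : G) ∉ W₁ ∧ ((a * b : ↥(W₁ ⊔ W₂)) : G) ∉ W₂ := by
    intro a b ha ha1 hb hb1
    constructor <;> intro h
    · have : (b : G) ∈ W₁ ⊓ W₂ := ⟨(W₁.mul_mem_cancel_left ha).1 h, hb⟩
      rw [hW.2.2.1, Subgroup.mem_bot] at this
      exact hb1 (Subtype.ext this)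
    · have : (a : G) ∈ W₁ ⊓ W₂ := ⟨ha, (W₂.mul_mem_cancel_right hb).1 h⟩
      rw [hW.2.2.1, Subgroup.mem_bot] at this
      exact ha1 (Subtype.ext this)
  obtain ⟨a0, ha0, ha01⟩ : ∃ a : ↥(W₁ ⊔ W₂), (a : G) ∈ W₁ ∧ a ≠ 1 := by
    obtain ⟨⟨a, ha⟩, h⟩ := Subgroup.ne_bot_iff_exists_ne_one.1 hW.1
    exact ⟨⟨a, Subgroup.mem_sup_left ha⟩, ha, fun e => h (Subtype.ext (congrArg Subtype.val e :))⟩
  obtain ⟨b0, hb0, hb01⟩ : ∃ b : ↥(W₁ ⊔ W₂), (b : G) ∈ W₂ ∧ b ≠ 1 := by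
    obtain ⟨⟨b, hb⟩, h⟩ := Subgroup.ne_bot_iff_exists_ne_one.1 hW.2.1
    exact ⟨⟨b, Subgroup.mem_sup_right hb⟩, hb, fun e => h (Subtype.ext (congrArg Subtype.val e :))⟩
  -- uniqueness of the family
  have huniq : ∀ k : ℕ, k.Coprime (Nat.card G) → ∀ x : G, χ ω (x ^ k) = χ (ω ^ k) x := by
    intro k hk
    let μ' := powIrr hk μ
    have hμ' : ∀ x, (μ' : G → ℂ) x = (μ : G → ℂ) (x ^ k) := fun x => rfl
    have hkW : k.Coprime (Nat.card ↥(W₁ ⊔ W₂)) := hk.coprime_dvd_right (Subgroup.card_subgroup_dvd_card _)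
    have hval : ∀ w : ↥(W₁ ⊔ W₂), (w : G) ∉ W₁ → (w : G) ∉ W₂ → ε * (μ' : G → ℂ) w = (((ω ^ k) w : ℂˣ) : ℂ) := by
      intro w hw1 hw2
      obtain ⟨l, hl⟩ : ∃ l : ℕ, (w ^ k) ^ l = w := exists_pow_eq_self_of_coprime (hkW.coprime_dvd_right (orderOf_dvd_natCard w))
      have hl' : ((w : G) ^ k) ^ l = w := congrArg Subtype.val hl
      have h := hχ.eq_on ω (w ^ k) (fun h => hw1 (by rw [← hl']; exact W₁.pow_mem h l))
        (fun h => hw2 (by rw [← hl']; exact W₂.pow_mem h l))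
      rw [hμ] at h
      rw [hμ', MonoidHom.pow_apply, ← map_pow]
      exact h
    obtain ⟨ω', hω'⟩ : ∃ ω', classInner (μ' : G → ℂ) (χ ω') ≠ 0 := by
      by_contra hno
      push Not at hno
      obtain ⟨v1, v2⟩ := hVab a0 b0 ha0 ha01 hb0 hb01
      have h := hval _ v1 v2
      rw [Cfsg.Agent.S1503.result W₁ W₂ hW χ hχ μ' μ'.2 hno _ v1 v2, mul_zero] at h
      exact Units.ne_zero _ h.symm
    obtain ⟨δ, ν, hδ, hν⟩ : ∃ (δ : ℂ) (ν : IrrCharacter G), (δ = 1 ∨ δ = -1) ∧ χ ω' = δ • (ν : G → ℂ) := by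
      rcases hχ.irr_or_neg ω' with h | h
      · exact ⟨1, ⟨_, h⟩, Or.inl rfl, by simp⟩
      · exact ⟨-1, ⟨_, h⟩, Or.inr rfl, by funext x; simp⟩
    have he : μ' = ν := by
      by_contra hne
      rw [hν, ci_smul_right, classInner_irr, if_neg hne, mul_zero] at hω'
      exact hω' rfl
    subst he
    have hδδ : δ * δ = 1 := by rcases hδ with rfl | rfl <;> norm_num
    have hh : ∀ w : ↥(W₁ ⊔ W₂), (w : G) ∉ W₁ → (w : G) ∉ W₂ → (((ω ^ k) w : ℂˣ) : ℂ) = ε * δ * ((ω' w : ℂˣ) : ℂ) := by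
      intro w hw1 hw2
      have e2 := hχ.eq_on ω' w hw1 hw2
      rw [hν, Pi.smul_apply, smul_eq_mul] at e2
      rw [← hval w hw1 hw2, ← e2]
      calc ε * (μ' : G → ℂ) w = ε * (δ * δ) * (μ' : G → ℂ) w := by rw [hδδ, mul_one]
        _ = ε * δ * (δ * (μ' : G → ℂ) w) := by ring
    obtain ⟨sgn, hsgn⟩ : ∃ sgn : ℂˣ, (sgn : ℂ) = ε * δ := ⟨Units.mk0 (ε * δ) (by
      rcases hε with rfl | rfl <;> rcases hδ with rfl | rfl <;> norm_num), rfl⟩
    set q : ↥(W₁ ⊔ W₂) →* ℂˣ := (ω ^ k) * ω'⁻¹ with hq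
    have hqv : ∀ a b : ↥(W₁ ⊔ W₂), (a : G) ∈ W₁ → a ≠ 1 → (b : G) ∈ W₂ → b ≠ 1 → q a * q b = sgn := by
      intro a b ha ha1 hb hb1
      obtain ⟨v1, v2⟩ := hVab a b ha ha1 hb hb1
      refine Units.ext ?_
      rw [← map_mul, hq, MonoidHom.mul_apply, MonoidHom.inv_apply, Units.val_mul, hh _ v1 v2, hsgn, mul_assoc, ← Units.val_mul,
        mul_inv_cancel, Units.val_one, mul_one]
    have hqa : ∀ a : ↥(W₁ ⊔ W₂), (a : G) ∈ W₁ → q a = 1 := by
      intro a ha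
      by_cases ha1 : a = 1
      · rw [ha1, map_one]
      have haa : a * a ≠ 1 := fun e => hthree W₁ hW.1 le_sup_left a ha (fun e' => ha1 (Subtype.ext e')) (congrArg Subtype.val e :)
      have h := (hqv (a * a) b0 (W₁.mul_mem ha ha) haa hb0 hb01).trans (hqv a b0 ha ha1 hb0 hb01).symm
      rw [mul_left_inj, map_mul] at h
      exact mul_eq_left.1 h
    have hqb : ∀ b : ↥(W₁ ⊔ W₂), (b : G) ∈ W₂ → q b = 1 := by
      intro b hb
      by_cases hb1 : b = 1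
      · rw [hb1, map_one]
      have hbb : b * b ≠ 1 := fun e => hthree W₂ hW.2.1 le_sup_right b hb (fun e' => hb1 (Subtype.ext e')) (congrArg Subtype.val e :)
      have h := (hqv a0 (b * b) ha0 ha01 (W₂.mul_mem hb hb) hbb).trans (hqv a0 b ha0 ha01 hb hb1).symm
      rw [mul_right_inj, map_mul] at h
      exact mul_eq_left.1 h
    have hq1 : q = 1 := hom_ext_sup (fun w hw => hqa w hw) (fun w hw => hqb w hw)
    have hω'e : ω' = ω ^ k := MonoidHom.ext fun w => by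
      have := DFunLike.congr_fun hq1 w
      rw [hq, MonoidHom.mul_apply, MonoidHom.inv_apply, MonoidHom.one_apply, mul_inv_eq_one] at this
      exact this.symm
    have hsd : ε * δ = 1 := by
      rw [← hsgn]
      have := hqv a0 b0 ha0 ha01 hb0 hb01
      rw [hqa a0 ha0, hqb b0 hb0, one_mul] at this
      rw [← this, Units.val_one]
    have hεδ : ε = δ := by linear_combination δ * hsd - ε * hδδ
    intro x
    rw [hμ, ← hω'e, hν, hεδ]
    rfl
  -- rationality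
  have hμc : IsCharacter G (μ : G → ℂ) := isCharacter_irr μ
  have hfix : ∀ k : ℕ, k.Coprime (orderOf g) → (μ : G → ℂ) (g ^ k) = (μ : G → ℂ) g := by
    intro k hk
    obtain ⟨x, hx1, hx2⟩ := Nat.chineseRemainder hg k 1
    have hxo : x.Coprime (orderOf g * orderOf ω) := by
      refine Nat.Coprime.mul_right ?_ ?_
      · rw [Nat.Coprime, Nat.ModEq.gcd_eq hx1]; exact hk
      · rw [Nat.Coprime, Nat.ModEq.gcd_eq hx2]; exact Nat.gcd_one_left _
    have hωG : orderOf ω ∣ Nat.card G := by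
      refine dvd_trans ?_ (Subgroup.card_subgroup_dvd_card (W₁ ⊔ W₂))
      refine orderOf_dvd_of_pow_eq_one (MonoidHom.ext fun w => ?_)
      rw [MonoidHom.pow_apply, ← map_pow, pow_card_eq_one', map_one]
      rfl
    have hdvd : orderOf g * orderOf ω ∣ Nat.card G := hg.mul_dvd_of_dvd_of_dvd (orderOf_dvd_natCard g) hωG
    haveI : NeZero (Nat.card G) := ⟨Nat.card_pos.ne'⟩
    obtain ⟨u, hu⟩ := ZMod.unitsMap_surjective hdvd (ZMod.unitOfCoprime x hxo)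
    have hk' : ((u : ZMod (Nat.card G)).val).Coprime (Nat.card G) := ZMod.val_coe_unit_coprime u
    set k' := (u : ZMod (Nat.card G)).val with hk'def
    have hmod : k' ≡ x [MOD orderOf g * orderOf ω] := by
      rw [← ZMod.natCast_eq_natCast_iff]
      have h := congrArg Units.val hu
      rw [ZMod.unitsMap_def, Units.coe_map, ZMod.coe_unitOfCoprime] at h
      rw [← h, hk'def, ZMod.natCast_val]
      rfl
    have h1' : g ^ k' = g ^ k := pow_eq_pow_iff_modEq.2 ((hmod.of_mul_right _).trans hx1)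
    have h2' : ω ^ k' = ω := by
      have hm : k' % orderOf ω = 1 % orderOf ω := (hmod.of_mul_left _).trans hx2
      refine MonoidHom.ext fun w => ?_
      have hord : ω w ^ orderOf ω = 1 := DFunLike.congr_fun (pow_orderOf_eq_one ω) w
      have e1 := Nat.mod_add_div k' (orderOf ω)
      have e2 := Nat.mod_add_div 1 (orderOf ω)
      rw [MonoidHom.pow_apply]
      conv_lhs => rw [← e1, pow_add, pow_mul, hord, one_pow, mul_one, hm]
      conv_rhs => rw [← pow_one (ω w), ← e2, pow_add, pow_mul, hord, one_pow, mul_one]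
    have h := huniq k' hk' g
    rw [h1', h2', hμ] at h
    simp only [Pi.smul_apply, smul_eq_mul] at h
    exact mul_left_cancel₀ (by rcases hε with rfl | rfl <;> norm_num) h
  obtain ⟨q, hq⟩ := exists_rat_of_fixed (x := ⟨(μ : G → ℂ) g, IsCharacter.mem_algebraicClosure hμc g⟩) fun σ => by
    obtain ⟨k, hk, hσ⟩ := exists_coprime_pow_embedding (G := G) σ (orderOf g) (orderOf_pos g)
    rw [hσ _ hμc g dvd_rfl, hfix k hk]
  have hq' : (μ : G → ℂ) g = (q : ℂ) := hq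
  have hz : IsIntegral ℤ q :=
    (isIntegral_algebraMap_iff (algebraMap ℚ ℂ).injective).mp (by rw [eq_ratCast, ← hq']; exact IsCharacter.isIntegral hμc g)
  obtain ⟨z, hz⟩ := IsIntegrallyClosed.isIntegral_iff.mp hz
  have hz' : (μ : G → ℂ) g = (z : ℂ) := by
    rw [hq', show q = (z : ℚ) by simpa using hz.symm]; simp
  rcases hε with rfl | rfl
  · exact ⟨z, by rw [hμ]; simp [hz']⟩
  · exact ⟨-z, by rw [hμ]; simp [hz']⟩

end Cfsg.Agent.S1508
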