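import Cfsg.Statements.S1509
import Mathlib
import Cfsg.Agent.Lib.Chars.Induced

set_option autoImplicit false
open Cfsg

namespace Cfsg.Agent.S1509

/-- Let α, β, γ, δ be functions on a finite group X each of which is an irreducible character or the negative of one, and u, v nonzero real numbers. Suppose ⟨α, β⟩ = ⟨γ, δ⟩ = 0, ⟨α − β, uγ − vδ⟩ = 0, α 1 = β 1 and u γ 1 = v δ 1. Then also ⟨α, γ⟩ = ⟨α, δ⟩ = ⟨β, γ⟩ = ⟨β, δ⟩ = 0. -/
theorem result {X : Type*} [Group X] [Fintype X] (α β γ δ : X → ℂ) (hα : Cfsg.IsIrrCharacter X α ∨ Cfsg.IsIrrCharacter X (-α)) (hβ : Cfsg.IsIrrCharacter X β ∨ Cfsg.IsIrrCharacter X (-β)) (hγ : Cfsg.IsIrrCharacter X γ ∨ Cfsg.IsIrrCharacter X (-γ)) (hδ : Cfsg.IsIrrCharacter X δ ∨ Cfsg.IsIrrCharacter X (-δ)) (u v : ℝ) (hu : u ≠ 0) (hv : v ≠ 0) (hab : Cfsg.classInner α β = 0) (hcd : Cfsg.classInner γ δ = 0) (hmix : Cfsg.classInner (α - β) ((u : ℂ) • γ - (v : ℂ) • δ) = 0) (h1 : α 1 = β 1) (h2 : (u : ℂ) * γ 1 = (v : ℂ) *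 δ 1) : Cfsg.classInner α γ = 0 ∧ Cfsg.classInner α δ = 0 ∧ Cfsg.classInner β γ = 0 ∧ Cfsg.classInner β δ = 0 := by
  classical
  have key : ∀ α β γ δ : X → ℂ, (Cfsg.IsIrrCharacter X α ∨ Cfsg.IsIrrCharacter X (-α)) →
      (Cfsg.IsIrrCharacter X β ∨ Cfsg.IsIrrCharacter X (-β)) → (Cfsg.IsIrrCharacter X γ ∨ Cfsg.IsIrrCharacter X (-γ)) →
      (Cfsg.IsIrrCharacter X δ ∨ Cfsg.IsIrrCharacter X (-δ)) → ∀ u v : ℂ, u ≠ 0 → v ≠ 0 →
      Cfsg.classInner α β = 0 → Cfsg.classInner γ δ = 0 →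
      u * Cfsg.classInner α γ - v * Cfsg.classInner α δ - u * Cfsg.classInner β γ + v * Cfsg.classInner β δ = 0 →
      α 1 = β 1 → u * γ 1 = v * δ 1 → Cfsg.classInner α γ = 0 := by
    intro α β γ δ hα hβ hγ hδ u v hu hv hab hcd hmix h1 h2
    have sig : ∀ f : X → ℂ, (Cfsg.IsIrrCharacter X f ∨ Cfsg.IsIrrCharacter X (-f)) →
        ∃ (e : ℂ) (F : Cfsg.IrrCharacter X), (e = 1 ∨ e = -1) ∧ f = e • (F : X → ℂ) := by
      rintro f (h | h)
      · exact ⟨1, ⟨f, h⟩, Or.inl rfl, by simp⟩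
      · exact ⟨-1, ⟨-f, h⟩, Or.inr rfl, by simp⟩
    obtain ⟨ea, A, hea, rfl⟩ := sig α hα
    obtain ⟨eb, B, heb, rfl⟩ := sig β hβ
    obtain ⟨ec, C, hec, rfl⟩ := sig γ hγ
    obtain ⟨ed, D, hed, rfl⟩ := sig δ hδ
    have inn : ∀ (a b : ℂ) (F F' : Cfsg.IrrCharacter X), (b = 1 ∨ b = -1) →
        Cfsg.classInner (a • (F : X → ℂ)) (b • (F' : X → ℂ)) = a * b * if F = F' then 1 else 0 := by
      intro a b F F' hb
      rw [← CfsgLib.Chars.classInner_irr F F']
      have hbb : (starRingEnd ℂ) b = b := by rcases hb with rfl | rfl <;> simp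
      simp only [Cfsg.classInner, Pi.smul_apply, smul_eq_mul, map_mul, hbb, Finset.mul_sum]
      exact Finset.sum_congr rfl fun x _ => by ring
    rw [inn _ _ _ _ heb] at hab
    rw [inn _ _ _ _ hed] at hcd
    rw [inn _ _ _ _ hec, inn _ _ _ _ hed, inn _ _ _ _ hec, inn _ _ _ _ hed] at hmix
    rw [inn _ _ _ _ hec]
    have a0 : ea ≠ 0 := by rcases hea with rfl | rfl <;> norm_num
    have b0 : eb ≠ 0 := by rcases heb with rfl | rfl <;> norm_num
    have c0 : ec ≠ 0 := by rcases hec with rfl | rfl <;> norm_num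
    have d0 : ed ≠ 0 := by rcases hed with rfl | rfl <;> norm_num
    have hAB : A ≠ B := fun h => by rw [if_pos h, mul_one] at hab; exact mul_ne_zero a0 b0 hab
    have hCD : C ≠ D := fun h => by rw [if_pos h, mul_one] at hcd; exact mul_ne_zero c0 d0 hcd
    by_cases hAC : A = C
    · exfalso
      subst hAC
      rw [if_pos rfl, if_neg hCD, if_neg (Ne.symm hAB), mul_one, mul_zero, mul_zero, mul_zero, mul_zero, sub_zero, sub_zero] at hmix
      by_cases hBD : B = D
      · subst hBD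
        rw [if_pos rfl, mul_one] at hmix
        simp only [Pi.smul_apply, smul_eq_mul] at h1 h2
        have hA0 := CfsgLib.Chars.irr_one_ne_zero A
        have hB0 := CfsgLib.Chars.irr_one_ne_zero B
        have hpos : (A : X → ℂ) 1 + (B : X → ℂ) 1 ≠ 0 := by
          rw [CfsgLib.Chars.irr_apply_one, CfsgLib.Chars.irr_apply_one, ← Nat.cast_add]
          exact Nat.cast_ne_zero.2 (by have := CfsgLib.Chars.charDegree_pos A; omega)
        have heab : ea = eb := by
          rcases hea with rfl | rfl <;> rcases heb with rfl | rfl <;>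
            first
              | rfl
              | exact absurd (by linear_combination h1) hpos
              | exact absurd (by linear_combination -h1) hpos
        have e2 : u * (ea * ec) * (A : X → ℂ) 1 = v * (eb * ed) * (B : X → ℂ) 1 := by
          rw [← heab]
          linear_combination ea * h2
        have e3 : u * (ea * ec) * ((A : X → ℂ) 1 + (B : X → ℂ) 1) = 0 := by linear_combination e2 + (B : X → ℂ) 1 * hmix
        refine mul_ne_zero (mul_ne_zero hu (mul_ne_zero a0 c0)) ?_ e3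
        rw [CfsgLib.Chars.irr_apply_one, CfsgLib.Chars.irr_apply_one, ← Nat.cast_add]
        exact Nat.cast_ne_zero.2 (by have := CfsgLib.Chars.charDegree_pos A; omega)
      · rw [if_neg hBD, mul_zero, mul_zero, add_zero] at hmix
        exact mul_ne_zero hu (mul_ne_zero a0 c0) hmix
    · rw [if_neg hAC, mul_zero]
  have hexp : (u : ℂ) * Cfsg.classInner α γ - (v : ℂ) * Cfsg.classInner α δ - (u : ℂ) * Cfsg.classInner β γ + (v : ℂ) * Cfsg.classInner β δ = 0 := by
    rw [← hmix]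
    simp only [Cfsg.classInner, Finset.mul_sum, Pi.sub_apply, Pi.smul_apply, smul_eq_mul, map_sub, map_mul, Complex.conj_ofReal,
      ← Finset.sum_sub_distrib, ← Finset.sum_add_distrib]
    exact Finset.sum_congr rfl fun x _ => by ring
  have hu' : (u : ℂ) ≠ 0 := Complex.ofReal_ne_zero.2 hu
  have hv' : (v : ℂ) ≠ 0 := Complex.ofReal_ne_zero.2 hv
  have hba : Cfsg.classInner β α = 0 := by rw [CfsgLib.Chars.classInner_symm, hab, map_zero]
  have hdc : Cfsg.classInner δ γ = 0 := by rw [CfsgLib.Chars.classInner_symm, hcd, map_zero]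
  exact ⟨key α β γ δ hα hβ hγ hδ u v hu' hv' hab hcd hexp h1 h2,
    key α β δ γ hα hβ hδ hγ v u hv' hu' hab hdc (by linear_combination -hexp) h1 h2.symm,
    key β α γ δ hβ hα hγ hδ u v hu' hv' hba hcd (by linear_combination -hexp) h1.symm h2,
    key β α δ γ hβ hα hδ hγ v u hv' hu' hba hdc (by linear_combination hexp) h1.symm h2.symm⟩

end Cfsg.Agent.S1509
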