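import Cfsg.Statements.S1510
import Mathlib

set_option autoImplicit false
open Cfsg

namespace Cfsg.Agent.S1510

/-- Let L be a finite group with a normal subgroup K and a nontrivial cyclic subgroup W₁ of order coprime to its index, K ⊓ W₁ = ⊥ and K ⊔ W₁ = ⊤; let W₂ ≠ ⊥ be a cyclic subgroup of K with K ⊓ C_L(x) = W₂ for every non-identity x ∈ W₁, and suppose W₁ ⊔ W₂ has odd order. Then (W₁, W₂) is a self-normalising cyclic pair in L. -/
theorem result {L : Type*} [Group L] [Fintype L] (K W₁ W₂ : Subgroup L) [hK : K.Normal] (hKW₁ : K ⊓ W₁ = ⊥) (hKW₁' : K ⊔ W₁ = ⊤) (hW₁ : W₁ ≠ ⊥) (hW₁c : IsCyclic W₁) (hHall : Nat.Coprime (Nat.card W₁) W₁.index) (hW₂ : W₂ ≠ ⊥) (hW₂c : IsCyclic W₂) (hW₂K : W₂ ≤ K) (hC : ∀ x ∈ W₁, x ≠ 1 → K ⊓ Subgroup.centralizer ({x} : Set L) = W₂) (hodd : Odd (Nat.card ↥(W₁ ⊔ W₂))) : Cfsg.IsSelfNormalizingCyclic W₁ W₂ := by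
  have hcomm : ∀ a ∈ W₁, ∀ b ∈ W₂, a * b = b * a := by
    intro a ha b hb
    rcases eq_or_ne a 1 with rfl | h1
    · simp
    have hb' : b ∈ K ⊓ Subgroup.centralizer ({a} : Set L) := (hC a ha h1).symm ▸ hb
    exact (Subgroup.mem_centralizer_singleton_iff.1 hb'.2).symm
  have hcop : (Nat.card W₁).Coprime (Nat.card W₂) := by
    refine hHall.coprime_dvd_right ((Subgroup.card_dvd_of_le hW₂K).trans ?_)
    rw [(Subgroup.isComplement'_of_disjoint_and_mul_eq_univ (disjoint_iff.2 hKW₁) (by rw [← Subgroup.normal_mul, hKW₁']; rfl)).index_eq_card]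
  haveI := hW₁c
  haveI := hW₂c
  letI : CommGroup W₁ := IsCyclic.commGroup
  letI : CommGroup W₂ := IsCyclic.commGroup
  have hcm : ∀ (a : W₁) (b : W₂), Commute (W₁.subtype a) (W₂.subtype b) := fun a b => hcomm a a.2 b b.2
  let φ : W₁ × W₂ →* L := MonoidHom.noncommCoprod W₁.subtype W₂.subtype hcm
  have hφ : φ.range = W₁ ⊔ W₂ := by
    show (MonoidHom.noncommCoprod W₁.subtype W₂.subtype hcm).range = _
    rw [MonoidHom.noncommCoprod_range, Subgroup.range_subtype, Subgroup.range_subtype]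
  haveI : IsCyclic (W₁ × W₂) := Group.isCyclic_prod_iff.2 ⟨hW₁c, hW₂c, hcop⟩
  have hcyc : IsCyclic ↥(W₁ ⊔ W₂) := hφ ▸ isCyclic_of_surjective φ.rangeRestrict φ.rangeRestrict_surjective
  refine ⟨hW₁, hW₂, le_bot_iff.1 (hKW₁ ▸ le_inf (inf_le_right.trans hW₂K) inf_le_left), hcomm, hcyc, fun X hX hne => le_antisymm (fun g hg => ?_) fun g hg => ?_⟩
  · obtain ⟨x, hx⟩ := hne
    have hy : g * x * g⁻¹ ∈ X := (Subgroup.mem_set_normalizer_iff.1 hg x).1 hx
    have hdec : ∀ z ∈ X, ∃ a ∈ W₁, ∃ b ∈ W₂, a ≠ 1 ∧ z = a * b := by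
      intro z hz
      obtain ⟨h1, h2⟩ := hX hz
      rw [SetLike.mem_coe, ← hφ] at h1
      obtain ⟨⟨a, b⟩, rfl⟩ := h1
      refine ⟨a, a.2, b, b.2, fun ha => h2 (Or.inr ?_), rfl⟩
      show (a : L) * b ∈ W₂
      rw [ha, one_mul]; exact b.2
    obtain ⟨a, ha, b, hb, ha1, rfl⟩ := hdec x hx
    obtain ⟨a', ha', b', hb', -, he⟩ := hdec _ hy
    obtain ⟨k, hk1, hk0⟩ := Nat.chineseRemainder hcop 1 0
    have hpow : ∀ a ∈ W₁, ∀ b ∈ W₂, (a * b : L) ^ k = a := by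
      intro a ha b hb
      have h1 : a ^ k = a := by
        conv_rhs => rw [← pow_one a]
        exact pow_eq_pow_iff_modEq.2 (hk1.of_dvd (Subgroup.orderOf_mk a ha ▸ orderOf_dvd_natCard _))
      have h2 : b ^ k = 1 := orderOf_dvd_iff_pow_eq_one.1
        ((Subgroup.orderOf_mk b hb ▸ orderOf_dvd_natCard _).trans (Nat.modEq_zero_iff_dvd.1 hk0))
      rw [(show Commute a b from hcomm a ha b hb).mul_pow, h1, h2, mul_one]
    have hga : g * a * g⁻¹ = a' := by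
      have h := congrArg (· ^ k) he
      simp only [conj_pow, hpow a ha b hb, hpow a' ha' b' hb'] at h
      exact h
    have hg' : g ∈ K ⊔ W₁ := hKW₁' ▸ Subgroup.mem_top g
    rw [← SetLike.mem_coe, Subgroup.normal_mul] at hg'
    obtain ⟨c, hc, w, hw, rfl⟩ := hg'
    have hwa : w * a * w⁻¹ = a := by
      have h := congrArg (Subtype.val : W₁ → L) (mul_comm (⟨w, hw⟩ : W₁) ⟨a, ha⟩)
      simp only [Subgroup.coe_mul] at h
      rw [h, mul_inv_cancel_right]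
    have hca : c * a * c⁻¹ = a' := by
      rw [← hga, show c * w * a * (c * w)⁻¹ = c * (w * a * w⁻¹) * c⁻¹ by group, hwa]
    have he' : a' = a := by
      have hm : a' * a⁻¹ ∈ K ⊓ W₁ := ⟨by
        rw [← hca, show c * a * c⁻¹ * a⁻¹ = c * (a * c⁻¹ * a⁻¹) by group]
        exact K.mul_mem hc (hK.conj_mem _ (K.inv_mem hc) a), W₁.mul_mem ha' (W₁.inv_mem ha)⟩
      rw [hKW₁, Subgroup.mem_bot, mul_inv_eq_one] at hm
      exact hm
    rw [he', mul_inv_eq_iff_eq_mul] at hca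
    have hcW : c ∈ W₂ := by
      rw [← hC a ha ha1]
      exact ⟨hc, Subgroup.mem_centralizer_singleton_iff.2 hca⟩
    exact Subgroup.mul_mem _ (Subgroup.mem_sup_right hcW) (Subgroup.mem_sup_left hw)
  · haveI := hcyc
    letI : CommGroup ↥(W₁ ⊔ W₂) := IsCyclic.commGroup
    have hc : ∀ z ∈ W₁ ⊔ W₂, g * z = z * g := fun z hz =>
      congrArg Subtype.val (mul_comm (⟨g, hg⟩ : ↥(W₁ ⊔ W₂)) ⟨z, hz⟩)
    refine Subgroup.mem_set_normalizer_iff.2 fun z => ⟨fun hz => ?_, fun hz => ?_⟩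
    · rwa [hc z (hX hz).1, mul_inv_cancel_right]
    · have hzW : z ∈ W₁ ⊔ W₂ := by
        have := Subgroup.mul_mem _ (Subgroup.mul_mem _ (Subgroup.inv_mem _ hg) (hX hz).1) hg
        simpa [mul_assoc] using this
      rwa [hc z hzW, mul_inv_cancel_right] at hz

end Cfsg.Agent.S1510
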