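import Cfsg.Statements.S1511
import Mathlib
import Cfsg.Agent.Lib.CyclicTI2
import Cfsg.Agent.Lib.Coherence
import Cfsg.Agent.S1502
import Cfsg.Agent.S1510

set_option autoImplicit false
open Cfsg

open Cfsg CfsgLib.Chars CfsgLib.Virtual CfsgLib.CyclicTI

namespace Cfsg.Agent.S1511

/-- Let L be a finite group with K normal with complement W₁ ≠ 1 a cyclic Hall subgroup, and W₂ ≠ 1 a cyclic subgroup of K equal to C_K(x) for every non-identity x ∈ W₁, with W₁W₂ of odd order. Then there are a map μ from the linear characters of W = W₁ ⊔ W₂ to irreducible characters of L, injective, and a sign δ(ω) ∈ {1, −1} depending only on the values of ω on W₂, such that: for ω, ω' agreeing on W₂, the function induced to L from ω − ω' equals δ(ω) • (μ ω − μ ω'); μ ω x = δ(ω) ω x for x ∈ W outside W₂; every irreducible character of L not of the form μ ω vanishes on W outside W₂; and μ ω 1 − δ(ω) is an integer multiple of Nat.card W₁. -/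
theorem result {L : Type*} [Group L] [Fintype L] (K W₁ W₂ : Subgroup L) [hK : K.Normal] (hKW₁ : K ⊓ W₁ = ⊥) (hKW₁' : K ⊔ W₁ = ⊤) (hW₁ : W₁ ≠ ⊥) (hW₁c : IsCyclic W₁) (hHall : Nat.Coprime (Nat.card W₁) W₁.index) (hW₂ : W₂ ≠ ⊥) (hW₂c : IsCyclic W₂) (hW₂K : W₂ ≤ K) (hC : ∀ x ∈ W₁, x ≠ 1 → K ⊓ Subgroup.centralizer ({x} : Set L) = W₂) (hodd : Odd (Nat.card ↥(W₁ ⊔ W₂))) : ∃ (μ : (↥(W₁ ⊔ W₂) →* ℂˣ) → (L → ℂ)) (δ : (↥(W₁ ⊔ W₂) →* ℂˣ) → ℂ), Function.Injective μ ∧ (∀ ω, Cfsg.IsIrrCharacter L (μ ω)) ∧ (∀ ω, δ ω = 1 ∨ δ ω = -1) ∧ (∀ ω ω' : ↥(W₁ ⊔ W₂) →* ℂˣ, (∀ w : ↥(W₁ ⊔ W₂), (w : L) ∈ W₂ → ω w = ω' w) → δ ω = δ ω' ∧ Cfsg.indFun (W₁ ⊔ W₂) (fun w => (ω w : ℂ) - (ω' w : ℂ)) = δ ω • (μ ω - μ ω')) ∧ (∀ ω, ∀ w : ↥(W₁ ⊔ W₂), (w : L) ∉ W₂ → μ ω w = δ ω * (ω w : ℂ)) ∧ (∀ θ : L → ℂ, Cfsg.IsIrrCharacter L θ → (∀ ω, θ ≠ μ ω) → ∀ w : ↥(W₁ ⊔ W₂), (w : L) ∉ W₂ → θ w = 0) ∧ (∀ ω, ∃ n : ℤ, μ ω 1 - δ ω = n * (Nat.card W₁ : ℂ)) := by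
  classical
  letI := Fintype.ofFinite ↥(W₁ ⊔ W₂)
  have hW := Cfsg.Agent.S1510.result K W₁ W₂ hKW₁ hKW₁' hW₁ hW₁c hHall hW₂ hW₂c hW₂K hC hodd
  obtain ⟨χ, hχ⟩ := Cfsg.Agent.S1502.result W₁ W₂ hW hodd
  obtain ⟨p₁, p₂, hsplit, hp₁, hp₂, h1, h2⟩ := exists_proj hW
  haveI hcyc : IsCyclic ↥(W₁ ⊔ W₂) := hW.2.2.2.2.1
  have hcomm : ∀ a c : ↥(W₁ ⊔ W₂), a * c = c * a := by
    letI := IsCyclic.commGroup (α := ↥(W₁ ⊔ W₂))
    exact fun a c => mul_comm a c
  haveI : Finite (↥(W₁ ⊔ W₂) →* ℂˣ) := by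
    haveI := finite_irr ↥(W₁ ⊔ W₂)
    exact Finite.of_injective _ homIrr_injective
  letI := Fintype.ofFinite (↥(W₁ ⊔ W₂) →* ℂˣ)
  -- `W \ W₂` is TI with normaliser `W`
  have hti : ∀ g : L, g ∉ W₁ ⊔ W₂ → ∀ t ∈ ((↑(W₁ ⊔ W₂) : Set L) \ ↑W₂),
      g * t * g⁻¹ ∈ ((↑(W₁ ⊔ W₂) : Set L) \ ↑W₂) → t = 1 := by
    intro g hg x hx hy
    exfalso
    have hcop : (Nat.card W₁).Coprime (Nat.card W₂) := by
      refine hHall.coprime_dvd_right ((Subgroup.card_dvd_of_le hW₂K).trans ?_)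
      rw [(Subgroup.isComplement'_of_disjoint_and_mul_eq_univ (disjoint_iff.2 hKW₁) (by rw [← Subgroup.normal_mul, hKW₁']; rfl)).index_eq_card]
    have hdec : ∀ z : L, z ∈ ((↑(W₁ ⊔ W₂) : Set L) \ ↑W₂) → ∃ a ∈ W₁, ∃ b ∈ W₂, a ≠ 1 ∧ z = a * b := by
      intro z hz
      refine ⟨_, hp₁ ⟨z, hz.1⟩, _, hp₂ ⟨z, hz.1⟩, fun e => hz.2 ?_, (congrArg Subtype.val (hsplit ⟨z, hz.1⟩)).symm⟩
      show z ∈ W₂
      have h := congrArg Subtype.val (hsplit ⟨z, hz.1⟩)
      rw [Subgroup.coe_mul, e, one_mul] at h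
      have := hp₂ ⟨z, hz.1⟩
      rw [h] at this; exact this
    obtain ⟨a, ha, b, hb, ha1, rfl⟩ := hdec x hx
    obtain ⟨a', ha', b', hb', -, he⟩ := hdec _ hy
    obtain ⟨k, hk1, hk0⟩ := Nat.chineseRemainder hcop 1 0
    have hpow : ∀ a ∈ W₁, ∀ b ∈ W₂, (a * b : L) ^ k = a := by
      intro a ha b hb
      have h1 : a ^ k = a := by
        conv_rhs => rw [← pow_one a]
        exact pow_eq_pow_iff_modEq.2 (hk1.of_dvd (Subgroup.orderOf_mk a ha ▸ orderOf_dvd_natCard _))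
      have h2 : b ^ k = 1 := orderOf_dvd_iff_pow_eq_one.1
        ((Subgroup.orderOf_mk b hb ▸ orderOf_dvd_natCard _).trans (Nat.modEq_zero_iff_dvd.1 hk0))
      rw [(show Commute a b from hW.2.2.2.1 a ha b hb).mul_pow, h1, h2, mul_one]
    have hga : g * a * g⁻¹ = a' := by
      have h := congrArg (· ^ k) he
      simp only [conj_pow, hpow a ha b hb, hpow a' ha' b' hb'] at h
      exact h
    have hg' : g ∈ K ⊔ W₁ := hKW₁' ▸ Subgroup.mem_top g
    rw [← SetLike.mem_coe, Subgroup.normal_mul] at hg'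
    obtain ⟨c, hc, w, hw, rfl⟩ := hg'
    have hwa : w * a * w⁻¹ = a := by
      have h : w * a = a * w := congrArg Subtype.val (hcomm ⟨w, Subgroup.mem_sup_left hw⟩ ⟨a, Subgroup.mem_sup_left ha⟩)
      rw [h, mul_inv_cancel_right]
    have hca : c * a * c⁻¹ = a' := by
      rw [← hga, show c * w * a * (c * w)⁻¹ = c * (w * a * w⁻¹) * c⁻¹ by group, hwa]
    have he' : a' = a := by
      have hm : a' * a⁻¹ ∈ K ⊓ W₁ := ⟨by
        rw [← hca, show c * a * c⁻¹ * a⁻¹ = c * (a * c⁻¹ * a⁻¹) by group]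
        exact K.mul_mem hc (hK.conj_mem _ (K.inv_mem hc) a), W₁.mul_mem ha' (W₁.inv_mem ha)⟩
      rw [hKW₁, Subgroup.mem_bot, mul_inv_eq_one] at hm
      exact hm
    rw [he', mul_inv_eq_iff_eq_mul] at hca
    have hcW : c ∈ W₂ := by
      rw [← hC a ha ha1]
      exact ⟨hc, Subgroup.mem_centralizer_singleton_iff.2 hca⟩
    exact hg (Subgroup.mul_mem _ (Subgroup.mem_sup_right hcW) (Subgroup.mem_sup_left hw))
  have hcl : ∀ f : ↥(W₁ ⊔ W₂) → ℂ, IsClassFunction ↥(W₁ ⊔ W₂) f := fun f x y => by simp [hcomm y x]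
  have hω : ∀ ω : ↥(W₁ ⊔ W₂) →* ℂˣ, ω.comp p₁ * ω.comp p₂ = ω := fun ω => MonoidHom.ext fun x => by
    show ω (p₁ x) * ω (p₂ x) = ω x
    rw [← map_mul, hsplit]
  -- additive defect
  have hF : ∀ θ : L → ℂ, IsClassFunction L θ → ∀ a c : ↥(W₁ ⊔ W₂) →* ℂˣ,
      (∀ w : ↥(W₁ ⊔ W₂), (w : L) ∈ W₂ → a w = 1) → (∀ w : ↥(W₁ ⊔ W₂), (w : L) ∈ W₁ → c w = 1) →
      classInner (fun x : ↥(W₁ ⊔ W₂) => θ x) (homFun (a * c)) - classInner θ (χ (a * c)) =
      (classInner (fun x : ↥(W₁ ⊔ W₂) => θ x) (homFun a) - classInner θ (χ a)) +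
        (classInner (fun x : ↥(W₁ ⊔ W₂) => θ x) (homFun c) - classInner θ (χ c)) -
        (classInner (fun x : ↥(W₁ ⊔ W₂) => θ x) (homFun 1) - classInner θ (χ 1)) := by
    intro θ hθ a c ha hc
    by_cases ha1 : a = 1
    · subst ha1; rw [hom_one_mul]; ring
    by_cases hc1 : c = 1
    · subst hc1; rw [hom_mul_one]; ring
    have e : indFun (W₁ ⊔ W₂) (CfsgLib.CyclicTI.alpha a c) = χ 1 - χ a - χ c + χ (a * c) := by
      refine (hχ.induced_eq a c ha1 hc1 ha hc).trans ?_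
      rw [hχ.map_one]; rfl
    have h := CfsgLib.Chars.frobenius (W₁ ⊔ W₂) (CfsgLib.CyclicTI.alpha a c) hθ
    rw [e, alpha_eq] at h
    have h' := congrArg (starRingEnd ℂ) h
    rw [← classInner_symm, ← classInner_symm, ci_add_right, ci_sub_right, ci_sub_right, ci_add_right, ci_sub_right, ci_sub_right] at h'
    linear_combination -h'
  have hχirr : ∀ ω, ∃ (δ : ℂ) (μ : L → ℂ), (δ = 1 ∨ δ = -1) ∧ IsIrrCharacter L μ ∧ χ ω = δ • μ := fun ω => by
    rcases hχ.irr_or_neg ω with h | h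
    · exact ⟨1, _, Or.inl rfl, h, (one_smul ℂ _).symm⟩
    · exact ⟨-1, _, Or.inr rfl, h, by funext x; simp⟩
  choose δ μ hδ hμ hχe using hχirr
  have hχv : ∀ ω, IsGeneralizedCharacter L (χ ω) := fun ω => by
    rcases hχ.irr_or_neg ω with h | h
    · exact genChar_of_char (IsIrrCharacter.isCharacter h)
    · rw [← neg_neg (χ ω)]; exact genChar_neg (genChar_of_char (IsIrrCharacter.isCharacter h))
  have horth : ∀ ω ω', classInner (χ ω) (χ ω') = if ω = ω' then 1 else 0 := fun ω ω' => by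
    convert hχ.orthonormal ω ω' using 2
  -- the induced differences
  have hindv : ∀ ω ω' : ↥(W₁ ⊔ W₂) →* ℂˣ, IsGeneralizedCharacter L (indFun (W₁ ⊔ W₂) (homFun ω - homFun ω')) := fun ω ω' => by
    refine ⟨indFun (W₁ ⊔ W₂) (homFun ω), indFun (W₁ ⊔ W₂) (homFun ω'), IsCharacter.indFun _ (isCharacter_hom ω),
      IsCharacter.indFun _ (isCharacter_hom ω'), ?_⟩
    funext g
    simp only [indFun, Pi.sub_apply, ← mul_sub, ← Finset.sum_sub_distrib, extendByZero_apply]
    refine congrArg _ (Finset.sum_congr rfl fun x _ => ?_)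
    split_ifs <;> simp
  have key : ∀ ω ω' : ↥(W₁ ⊔ W₂) →* ℂˣ, ω.comp p₂ = ω'.comp p₂ →
      indFun (W₁ ⊔ W₂) (homFun ω - homFun ω') = χ ω - χ ω' := by
    intro ω ω' hsame
    set φ := ω.comp p₁ with hφdef
    set φ' := ω'.comp p₁ with hφ'def
    by_cases hφφ : φ = φ'
    · have : ω = ω' := by rw [← hω ω, ← hω ω', ← hφdef, ← hφ'def, hφφ, hsame]
      subst this
      rw [sub_self, sub_self]
      funext g; simp [indFun, extendByZero_apply]
    let Q := {c : ↥(W₁ ⊔ W₂) →* ℂˣ // ∀ w : ↥(W₁ ⊔ W₂), (w : L) ∈ W₁ → c w = 1}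
    letI : Fintype Q := Fintype.ofFinite Q
    have hQ : 3 ≤ Fintype.card Q := by
      rw [← Nat.card_eq_fintype_card]
      rw [show Nat.card Q = Nat.card W₂ from card_trivial_left hW]
      obtain ⟨k, hk⟩ := hodd.of_dvd_nat (Subgroup.card_dvd_of_le (le_sup_right : W₂ ≤ W₁ ⊔ W₂))
      have := (Subgroup.one_lt_card_iff_ne_bot W₂).2 hW₂
      omega
    have hφ2 : ∀ w : ↥(W₁ ⊔ W₂), (w : L) ∈ W₂ → φ w = 1 := fun w hw => by simp [hφdef, (h2 w hw).1]
    have hφ'2 : ∀ w : ↥(W₁ ⊔ W₂), (w : L) ∈ W₂ → φ' w = 1 := fun w hw => by simp [hφ'def, (h2 w hw).1]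
    let V : Q → (L → ℂ) := fun c =>
      indFun (W₁ ⊔ W₂) (homFun (φ * c.1) - homFun (φ' * c.1)) - χ (φ * c.1) + χ (φ' * c.1)
    have hVv : ∀ c, IsGeneralizedCharacter L (V c) := fun c => genChar_add (genChar_sub (hindv _ _) (hχv _)) (hχv _)
    have hVc : ∀ c c', V c = V c' := by
      intro c c'
      refine sub_eq_zero.1 (funext fun x => ?_)
      rw [classFunction_expand (genChar_classFun (genChar_sub (hVv c) (hVv c'))) x]
      refine Finset.sum_eq_zero fun θ _ => mul_eq_zero_of_left ?_ _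
      have hθc := IsCharacter.isClassFunction (isCharacter_irr θ)
      have e : ∀ d : Q, classInner (V d) (θ : L → ℂ) = (starRingEnd ℂ)
          ((classInner (fun x : ↥(W₁ ⊔ W₂) => (θ : L → ℂ) x) (homFun φ) - classInner (θ : L → ℂ) (χ φ)) -
           (classInner (fun x : ↥(W₁ ⊔ W₂) => (θ : L → ℂ) x) (homFun φ') - classInner (θ : L → ℂ) (χ φ'))) := by
        intro d
        have a := hF _ hθc φ d.1 hφ2 d.2
        have a' := hF _ hθc φ' d.1 hφ'2 d.2
        rw [show classInner (V d) (θ : L → ℂ) = (starRingEnd ℂ) (classInner (θ : L → ℂ) (V d)) from classInner_symm _ _]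
        congr 1
        simp only [V, ci_add_right, ci_sub_right]
        rw [classInner_symm (θ : L → ℂ) (indFun _ _), CfsgLib.Chars.frobenius _ _ hθc, ← classInner_symm, ci_sub_right]
        linear_combination a - a'
      rw [ci_sub_left, e c, e c', sub_self]
    obtain ⟨c0⟩ : Nonempty Q := Fintype.card_pos_iff.1 (by omega)
    obtain ⟨nV, hnV, hnV0⟩ := int_norm (hVv c0)
    choose x hx using fun c : Q => int_inner (hVv c0) (hχv (φ * c.1))
    choose y hy using fun c : Q => int_inner (hVv c0) (hχv (φ' * c.1))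
    have hne : ∀ c d : Q, φ * c.1 ≠ φ' * d.1 := fun c d e => hφφ ((pair_inj hφ2 hφ'2 c.2 d.2).1 e).1
    have hinj : ∀ (a : ↥(W₁ ⊔ W₂) →* ℂˣ) (c d : Q), a * c.1 = a * d.1 → c = d := fun a c d e =>
      Subtype.ext (mul_left_cancel e)
    have ht : ∀ c : Q, (nV : ℤ) + 2 * (x c - y c) = 0 := by
      intro c
      have hnorm : classInner (indFun (W₁ ⊔ W₂) (homFun (φ * c.1) - homFun (φ' * c.1)))
          (indFun (W₁ ⊔ W₂) (homFun (φ * c.1) - homFun (φ' * c.1))) = 2 := by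
        rw [CfsgLib.Chars.frobenius _ _ (indFun_isClassFunction _ _)]
        have hvan : ∀ w : ↥(W₁ ⊔ W₂), (w : L) ∉ ((↑(W₁ ⊔ W₂) : Set L) \ ↑W₂) → (homFun (φ * c.1) - homFun (φ' * c.1)) w = 0 := by
          intro w hw
          have : (w : L) ∈ W₂ := by
            by_contra h
            exact hw ⟨w.2, h⟩
          simp [homFun, hφ2 w this, hφ'2 w this]
        have hres : classInner (homFun (φ * c.1) - homFun (φ' * c.1))
            (fun h : ↥(W₁ ⊔ W₂) => indFun (W₁ ⊔ W₂) (homFun (φ * c.1) - homFun (φ' * c.1)) h) =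
            classInner (homFun (φ * c.1) - homFun (φ' * c.1)) (homFun (φ * c.1) - homFun (φ' * c.1)) := by
          simp only [classInner]
          refine congrArg _ (Finset.sum_congr rfl fun w _ => ?_)
          by_cases hw : (w : L) ∈ ((↑(W₁ ⊔ W₂) : Set L) \ ↑W₂)
          · rw [CfsgLib.TIInduce.indFun_eq (W₁ ⊔ W₂) _ hti _ (hcl _) hvan w hw (fun e => hw.2 (show (w : L) ∈ W₂ from e ▸ W₂.one_mem))]
          · rw [hvan w hw, zero_mul, zero_mul]
        rw [hres]
        simp only [ci_sub_left, ci_sub_right, inner_homFun, if_pos, if_neg (hne c c), if_neg (Ne.symm (hne c c))]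
        norm_num
      rw [show indFun (W₁ ⊔ W₂) (homFun (φ * c.1) - homFun (φ' * c.1)) = V c0 + (χ (φ * c.1) - χ (φ' * c.1)) by
        rw [hVc c0 c]; simp only [V]; abel] at hnorm
      simp only [ci_add_left, ci_add_right, ci_sub_left, ci_sub_right, horth, if_pos, if_neg (hne c c), if_neg (Ne.symm (hne c c)),
        hnV, hx, hy, classInner_symm (χ _) (V c0), map_intCast] at hnorm
      have : (((nV : ℤ) + 2 * (x c - y c) : ℤ) : ℂ) = ((0 : ℤ) : ℂ) := by push_cast; linear_combination hnorm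
      exact_mod_cast this
    have hbes : ∑ c : Q, (x c * x c + y c * y c) ≤ (nV : ℤ) := by
      set Δ := V c0 - ∑ c : Q, (x c • χ (φ * c.1) + y c • χ (φ' * c.1)) with hΔ
      have hΔv : IsGeneralizedCharacter L Δ :=
        genChar_sub (hVv c0) (genChar_sum _ _ fun c _ => genChar_add (genChar_zsmul (hχv _) _) (genChar_zsmul (hχv _) _))
      obtain ⟨nΔ, hnΔ, -⟩ := int_norm hΔv
      have e1 : ∀ d : Q, classInner Δ (χ (φ * d.1)) = 0 := fun d => by
        rw [hΔ, ci_sub_left, ci_sum_left, Finset.sum_eq_single d (fun b _ hb => by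
          rw [ci_add_left, ci_zsmul_left, ci_zsmul_left, horth, horth, if_neg (fun e => hb (hinj φ b d e)), if_neg (Ne.symm (hne d b))]; ring)
          (by simp), ci_add_left (x d • χ (φ * d.1)), ci_zsmul_left, ci_zsmul_left, horth, horth, if_pos rfl, if_neg (Ne.symm (hne d d)), hx]
        ring
      have e2 : ∀ d : Q, classInner Δ (χ (φ' * d.1)) = 0 := fun d => by
        rw [hΔ, ci_sub_left, ci_sum_left, Finset.sum_eq_single d (fun b _ hb => by
          rw [ci_add_left, ci_zsmul_left, ci_zsmul_left, horth, horth, if_neg (fun e => hb (hinj φ' b d e)), if_neg (hne b d)]; ring)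
          (by simp), ci_add_left (x d • χ (φ * d.1)), ci_zsmul_left, ci_zsmul_left, horth, horth, if_pos rfl, if_neg (hne d d), hy]
        ring
      have e3 : classInner Δ Δ = classInner Δ (V c0) := by
        conv_lhs => arg 2; rw [hΔ]
        rw [ci_sub_right, ci_sum_right, Finset.sum_eq_zero (fun d _ => by
          rw [ci_add_right, ci_zsmul_right, ci_zsmul_right, e1, e2]; ring), sub_zero]
      rw [hnΔ, hΔ, ci_sub_left, ci_sum_left, hnV, Finset.sum_congr rfl (fun c _ => by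
        rw [ci_add_left, ci_zsmul_left, ci_zsmul_left, classInner_symm (χ _) (V c0), classInner_symm (χ (φ' * _)) (V c0), hx, hy,
          map_intCast, map_intCast])] at e3
      have : ((nΔ : ℤ) : ℂ) = (((nV : ℤ) - ∑ c : Q, (x c * x c + y c * y c) : ℤ) : ℂ) := by
        push_cast; linear_combination e3
      have h' : (nΔ : ℤ) = (nV : ℤ) - ∑ c : Q, (x c * x c + y c * y c) := by exact_mod_cast this
      have : (0 : ℤ) ≤ nΔ := Nat.cast_nonneg _
      linarith
    have hV0 : V c0 = 0 := hnV0 (by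
      by_contra h0
      have hpos : (1 : ℤ) ≤ nV := by omega
      have hlow : ∀ c, (x c - y c) * (x c - y c) ≤ 2 * (x c * x c + y c * y c) := fun c => by nlinarith [sq_nonneg (x c + y c)]
      have hsum := Finset.sum_le_sum (s := (Finset.univ : Finset Q)) fun c _ => hlow c
      rw [← Finset.mul_sum, Finset.sum_congr rfl (fun c _ => by rw [show x c - y c = x c0 - y c0 by linarith [ht c, ht c0]]),
        Finset.sum_const, Finset.card_univ, nsmul_eq_mul] at hsum
      have hb1 : ∀ c, 1 ≤ x c * x c + y c * y c := fun c => by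
        by_contra h
        push Not at h
        have : x c = 0 := by nlinarith
        have : y c = 0 := by nlinarith
        have := ht c
        omega
      have hsum2 := Finset.sum_le_sum (s := (Finset.univ : Finset Q)) fun c _ => hb1 c
      rw [Finset.sum_const, Finset.card_univ, nsmul_eq_mul, mul_one] at hsum2
      have h3 : (3 : ℤ) ≤ Fintype.card Q := by exact_mod_cast hQ
      have ht0 := ht c0
      have hm : 3 * ((x c0 - y c0) * (x c0 - y c0)) ≤ (Fintype.card Q : ℤ) * ((x c0 - y c0) * (x c0 - y c0)) :=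
        mul_le_mul_of_nonneg_right h3 (mul_self_nonneg _)
      nlinarith)
    let c1 : Q := ⟨ω.comp p₂, fun w hw => by simp [(h1 w hw).2]⟩
    have hV1 : V c1 = 0 := by rw [hVc c1 c0, hV0]
    simp only [V, c1] at hV1
    rw [hφdef, hω] at hV1
    have e : φ' * ω.comp p₂ = ω' := by rw [hsame, hφ'def, hω]
    rw [e] at hV1
    rwa [sub_add, sub_eq_zero] at hV1
  have hdeg : ∀ ω, μ ω 1 ≠ 0 := fun ω => irr_one_ne_zero (⟨μ ω, hμ ω⟩ : IrrCharacter L)
  have hδ0 : ∀ ω, δ ω * δ ω = 1 := fun ω => by rcases hδ ω with e | e <;> rw [e] <;> norm_num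
  -- values off `W₂`
  have hres : ∀ θ : L → ℂ, IsClassFunction L θ → ∀ w : ↥(W₁ ⊔ W₂), (w : L) ∉ W₂ →
      θ w = ∑ ω : ↥(W₁ ⊔ W₂) →* ℂˣ, classInner θ (χ ω) * (ω w : ℂ) := by
    intro θ hθ w hw
    set F : (↥(W₁ ⊔ W₂) →* ℂˣ) → ℂ := fun ω => classInner (fun x : ↥(W₁ ⊔ W₂) => θ x) (homFun ω) - classInner θ (χ ω) with hFd
    have hFc : ∀ ω ω', ω.comp p₂ = ω'.comp p₂ → F ω = F ω' := by
      intro ω ω' h
      have hk := key ω ω' h
      have h' := congrArg (starRingEnd ℂ) (CfsgLib.Chars.frobenius (W₁ ⊔ W₂) (homFun ω - homFun ω') hθ)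
      rw [hk, ← classInner_symm, ← classInner_symm, ci_sub_right, ci_sub_right] at h'
      simp only [hFd]
      linear_combination -h'
    have hexp : θ w = ∑ ω : ↥(W₁ ⊔ W₂) →* ℂˣ, classInner (fun x : ↥(W₁ ⊔ W₂) => θ x) (homFun ω) * (ω w : ℂ) := by
      refine (classFunction_expand (f := fun x : ↥(W₁ ⊔ W₂) => θ x) (hcl _) w).trans ?_
      refine (Fintype.sum_bijective homIrr ⟨homIrr_injective, fun χ' => ?_⟩ _ _ fun ω => rfl).symm
      exact exists_homIrr χ' (charDegree_eq_one_of_comm hcomm χ')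
    have hw1 : p₁ w ≠ 1 := fun h => hw (by
      have := hsplit w
      rw [h, one_mul] at this
      exact this ▸ hp₂ w)
    obtain ⟨φ, hφ⟩ : ∃ φ : ↥(W₁ ⊔ W₂) →* ℂˣ, φ (p₁ w) ≠ 1 := by
      letI := IsCyclic.commGroup (α := ↥(W₁ ⊔ W₂))
      exact CommGroup.exists_apply_ne_one_of_hasEnoughRootsOfUnity ↥(W₁ ⊔ W₂) ℂ hw1
    set T := ∑ ω : ↥(W₁ ⊔ W₂) →* ℂˣ, F ω * (ω w : ℂ) with hT
    have hT0 : T = 0 := by
      have hs : T = (φ (p₁ w) : ℂ) * T := by
        conv_lhs => rw [hT, ← Equiv.sum_comp (Equiv.mulLeft (φ.comp p₁))]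
        rw [hT, Finset.mul_sum]
        refine Finset.sum_congr rfl fun ω _ => ?_
        have : F ((Equiv.mulLeft (φ.comp p₁)) ω) = F ω := hFc _ _ (MonoidHom.ext fun x => by simp [(h2 _ (hp₂ x)).1])
        rw [this]
        simp [mul_left_comm]
      by_contra hne
      exact hφ (Units.ext (mul_right_cancel₀ hne (by rw [Units.val_one, one_mul]; exact hs.symm)))
    rw [hT] at hT0
    simp only [hFd, sub_mul, Finset.sum_sub_distrib] at hT0
    rw [hexp, ← sub_eq_zero]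
    exact hT0
  refine ⟨μ, δ, fun ω ω' e => ?_, hμ, hδ, fun ω ω' h => ?_, fun ω w hw => ?_, fun θ hθ hne w hw => ?_, fun ω => ?_⟩
  · by_contra hne
    have h := horth ω ω'
    rw [if_neg hne, hχe, hχe ω', ← e, ci_smul_left, ci_smul_right, CfsgLib.Coherence.inner_irr_self (hμ ω), mul_one] at h
    rcases hδ ω with a | a <;> rcases hδ ω' with b | b <;> simp [a, b] at h
  · have h' : ω.comp p₂ = ω'.comp p₂ := MonoidHom.ext fun x => h _ (hp₂ x)
    have hk := key ω ω' h'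
    have hd : δ ω = δ ω' := by
      have h1 := congrFun hk 1
      rw [indFun_one, Pi.sub_apply, Pi.sub_apply, show homFun ω 1 - homFun ω' 1 = 0 by simp [homFun], mul_zero, hχe, hχe ω'] at h1
      have ha := irr_apply_one (⟨μ ω, hμ ω⟩ : IrrCharacter L)
      have hb := irr_apply_one (⟨μ ω', hμ ω'⟩ : IrrCharacter L)
      have hap := charDegree_pos (⟨μ ω, hμ ω⟩ : IrrCharacter L)
      simp only [Pi.smul_apply, smul_eq_mul, show μ ω 1 = _ from ha, show μ ω' 1 = _ from hb] at h1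
      rcases hδ ω with a | a <;> rcases hδ ω' with b | b <;> rw [a, b] at h1 ⊢
      all_goals
        exfalso
        have h3 : ((charDegree (μ ω) + charDegree (μ ω') : ℕ) : ℂ) = 0 := by
          push_cast; first | linear_combination h1 | linear_combination -h1
        have := Nat.cast_eq_zero.1 h3
        simp only at hap
        omega
    refine ⟨hd, ?_⟩
    refine Eq.trans hk ?_
    rw [hχe, hχe ω', hd, smul_sub]
  · have hc : IsClassFunction L (μ ω) := IsCharacter.isClassFunction (IsIrrCharacter.isCharacter (hμ ω))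
    rw [hres _ hc w hw, Finset.sum_eq_single ω]
    · rw [hχe, ci_smul_right, CfsgLib.Coherence.inner_irr_self (hμ ω), mul_one]
      rcases hδ ω with a | a <;> simp [a]
    · intro ω' _ hne
      have h := horth ω ω'
      rw [if_neg (Ne.symm hne), hχe, ci_smul_left, mul_eq_zero] at h
      rcases h with h | h
      · rcases hδ ω with a | a <;> simp [a] at h
      · rw [h, zero_mul]
    · simp
  · rw [hres θ (IsCharacter.isClassFunction (IsIrrCharacter.isCharacter hθ)) w hw]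
    refine Finset.sum_eq_zero fun ω _ => ?_
    rw [hχe, ci_smul_right, CfsgLib.Coherence.inner_irr_ne hθ (hμ ω) (hne ω), mul_zero, zero_mul]
  · letI : Fintype W₁ := Fintype.ofFinite _
    let i : ↥W₁ →* ↥(W₁ ⊔ W₂) := Subgroup.inclusion le_sup_left
    set f : ↥W₁ → ℂ := (fun x : ↥W₁ => μ ω (x : L)) - δ ω • (fun x : ↥W₁ => (ω (i x) : ℂ)) with hf
    have hfv : IsGeneralizedCharacter ↥W₁ f := by
      have hlin : IsGeneralizedCharacter ↥W₁ (fun x => (ω (i x) : ℂ)) := genChar_of_char (isCharacter_hom (ω.comp i))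
      refine genChar_sub (genChar_of_char (IsCharacter.restrict (IsIrrCharacter.isCharacter (hμ ω)) W₁)) ?_
      rcases hδ ω with a | a <;> rw [a]
      · rw [one_smul]; exact hlin
      · rw [neg_one_smul]; exact genChar_neg hlin
    obtain ⟨n, hn⟩ := int_inner hfv (genChar_of_char (IsIrrCharacter.isCharacter (isIrrCharacter_one ↥W₁)))
    refine ⟨n, ?_⟩
    rw [← hn, classInner, Finset.sum_eq_single (1 : ↥W₁)]
    · rw [mul_comm _ (Nat.card W₁ : ℂ), ← mul_assoc, mul_inv_cancel₀ (natCast_card_ne_zero ↥W₁)]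
      simp [hf, i]
    · intro x _ hx
      have hx2 : (x : L) ∉ W₂ := fun h => hx (by
        have : (x : L) ∈ W₁ ⊓ W₂ := ⟨x.2, h⟩
        rw [hW.2.2.1, Subgroup.mem_bot] at this
        exact Subtype.ext this)
      have h : μ ω (x : L) = δ ω * (ω (i x) : ℂ) := by
        have hc : IsClassFunction L (μ ω) := IsCharacter.isClassFunction (IsIrrCharacter.isCharacter (hμ ω))
        refine (hres _ hc (i x) hx2).trans ?_
        rw [Finset.sum_eq_single ω]
        · rw [hχe, ci_smul_right, CfsgLib.Coherence.inner_irr_self (hμ ω), mul_one]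
          rcases hδ ω with a | a <;> simp [a]
        · intro ω' _ hne
          have h := horth ω ω'
          rw [if_neg (Ne.symm hne), hχe, ci_smul_left, mul_eq_zero] at h
          rcases h with h | h
          · rcases hδ ω with a | a <;> simp [a] at h
          · rw [h, zero_mul]
        · simp
      simp [hf, h]
    · simp

end Cfsg.Agent.S1511
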