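import Cfsg.Statements.S1512
import Mathlib
import Cfsg.Agent.Lib.Chars.Central

set_option autoImplicit false
open Cfsg

namespace Cfsg.Agent.S1512

/-- Let K be a normal subgroup of the finite group L and x a non-identity element whose order is coprime to the order of K, such that K ⊓ C_L(y) = W₂ for every non-identity element y of the cyclic group generated by x. Then the number of conjugacy classes of K mapped to themselves by conjugation by x is at most Nat.card W₂. -/
theorem result {L : Type*} [Group L] [Finite L] (K W₂ : Subgroup L) [hK : K.Normal] (x : L) (hx1 : x ≠ 1) (hx : Nat.Coprime (orderOf x) (Nat.card K)) (hC : ∀ y ∈ Subgroup.zpowers x, y ≠ 1 → K ⊓ Subgroup.centralizer ({y} : Set L) = W₂) : Nat.card {C : ConjClasses K // ConjClasses.map (MulEquiv.toMonoidHom ((MulAut.conjNormal x : MulAut K))) C = C} ≤ Nat.card W₂ := by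
  classical
  have hW : ∀ w ∈ W₂, w ∈ K ∧ x * w = w * x := fun w hw => by
    rw [← hC x (Subgroup.mem_zpowers x) hx1] at hw
    exact ⟨hw.1, (Subgroup.mem_centralizer_singleton_iff.1 hw.2).symm⟩
  set n := orderOf x with hn
  have hn1 : n ≠ 1 := fun h => hx1 (orderOf_eq_one_iff.1 h)
  obtain ⟨q, hq, hqn⟩ := Nat.exists_prime_and_dvd hn1
  haveI : Fact q.Prime := ⟨hq⟩
  set y := x ^ (n / q) with hy
  have hyord : orderOf y = q := orderOf_pow_orderOf_div (orderOf_pos x).ne' hqn
  have hy1 : y ≠ 1 := fun h => hq.ne_one (by rw [← hyord, h, orderOf_one])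
  let c : L →* MulAut K := MulAut.conjNormal
  have key : ∀ C : ConjClasses K, ConjClasses.map (MulEquiv.toMonoidHom (c x)) C = C →
      ∃ w : W₂, ∀ hw : (w : L) ∈ K, ConjClasses.mk (⟨w, hw⟩ : K) = C := by
    intro C hC'
    haveI : Fintype K := Fintype.ofFinite K
    let S := {h : K // ConjClasses.mk h = C}
    have hstab : ∀ m : ℕ, ∀ h : K, ConjClasses.mk h = C → ConjClasses.mk (c (x ^ m) h) = C := by
      intro m
      induction m with
      | zero => intro h hh; simpa using hh
      | succ m ih =>
        intro h hh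
        rw [pow_succ', map_mul, MulAut.mul_apply]
        show ConjClasses.map (MulEquiv.toMonoidHom (c x)) (ConjClasses.mk (c (x ^ m) h)) = C
        rw [ih h hh]
        exact hC'
    let Y := Subgroup.zpowers y
    have hYst : ∀ (a : Y) (h : K), ConjClasses.mk h = C → ConjClasses.mk (c (a : L) h) = C := by
      intro a h hh
      obtain ⟨m, hm⟩ := (isOfFinOrder_of_finite y).mem_powers_iff_mem_zpowers.2 a.2
      rw [← hm]
      show ConjClasses.mk (c (y ^ m) h) = C
      rw [hy, ← pow_mul]
      exact hstab _ h hh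
    letI : MulAction Y S :=
      { smul := fun a h => ⟨c (a : L) h.1, hYst a h.1 h.2⟩
        one_smul := fun h => Subtype.ext (show c (1 : L) h.1 = h.1 by rw [map_one]; rfl)
        mul_smul := fun a b h => Subtype.ext (show c ((a : L) * b) h.1 = c (a : L) (c (b : L) h.1) by rw [map_mul]; rfl) }
    have hY : IsPGroup q Y := IsPGroup.of_card (n := 1) (by rw [Nat.card_zpowers, hyord, pow_one])
    have hmod := hY.card_modEq_card_fixedPoints S
    have hS : ¬ q ∣ Nat.card S := by
      intro hd
      obtain ⟨h₀, rfl⟩ := ConjClasses.mk_surjective C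
      have : Nat.card S = (Subgroup.centralizer ({h₀} : Set K)).index := by
        rw [← CfsgLib.Chars.card_isConj_eq_index]
        refine Nat.card_congr (Equiv.subtypeEquivRight fun h => ?_)
        rw [ConjClasses.mk_eq_mk_iff_isConj]
        exact ⟨IsConj.symm, IsConj.symm⟩
      rw [this] at hd
      exact hq.ne_one (Nat.eq_one_of_dvd_coprimes hx hqn (hd.trans (Subgroup.index_dvd_card _)))
    obtain ⟨⟨h, hfix⟩⟩ : Nonempty (MulAction.fixedPoints Y S) := by
      rw [← not_isEmpty_iff]
      intro he
      rw [Nat.card_of_isEmpty (α := MulAction.fixedPoints Y S)] at hmod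
      exact hS (Nat.modEq_zero_iff_dvd.1 hmod)
    have hfy : c y h.1 = h.1 := congrArg Subtype.val (hfix ⟨y, Subgroup.mem_zpowers y⟩)
    have hwW : ((h.1 : K) : L) ∈ W₂ := by
      rw [← hC y (by rw [hy]; exact Subgroup.pow_mem _ (Subgroup.mem_zpowers x) _) hy1]
      refine ⟨h.1.2, Subgroup.mem_centralizer_singleton_iff.2 ?_⟩
      have := congrArg Subtype.val hfy
      rw [MulAut.conjNormal_apply] at this
      exact (mul_inv_eq_iff_eq_mul.1 this).symm
    exact ⟨⟨_, hwW⟩, fun _ => h.2⟩
  choose f hf using fun C : {C : ConjClasses K // ConjClasses.map (MulEquiv.toMonoidHom (c x)) C = C} => key C.1 C.2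
  refine Nat.card_le_card_of_injective f fun C D h => Subtype.ext ?_
  rw [← hf C (hW _ (f C).2).1, ← hf D (hW _ (f D).2).1]
  simp only [h]

end Cfsg.Agent.S1512
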