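import Cfsg.Statements.S1513
import Mathlib
import Cfsg.Agent.Lib.Chars.GlaubermanFixed
import Cfsg.Agent.S1491

set_option autoImplicit false
open Cfsg

namespace Cfsg.Agent.S1513

open CfsgLib.Chars CfsgLib.Chars.Glauberman

/-- Let L be a finite group with K normal with complement W₁ ≠ 1 a cyclic Hall subgroup, and W₂ ≠ 1 a cyclic subgroup of K equal to C_K(x) for every non-identity x ∈ W₁, with W₁W₂ of odd order. For an irreducible character θ of K: if θ is not fixed under conjugation by some element of W₁, then the function induced from θ to L is an irreducible character of L; and the irreducible characters of K fixed by all of W₁ are exactly Nat.card W₂ in number, each inducing to the sum of Nat.card W₁ pairwise distinct irreducible characters of L. -/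
theorem result {L : Type*} [Group L] [Fintype L] (K W₁ W₂ : Subgroup L) [hK : K.Normal] (hKW₁ : K ⊓ W₁ = ⊥) (hKW₁' : K ⊔ W₁ = ⊤) (hW₁ : W₁ ≠ ⊥) (hW₁c : IsCyclic W₁) (hHall : Nat.Coprime (Nat.card W₁) W₁.index) (hW₂ : W₂ ≠ ⊥) (hW₂c : IsCyclic W₂) (hW₂K : W₂ ≤ K) (hC : ∀ x ∈ W₁, x ≠ 1 → K ⊓ Subgroup.centralizer ({x} : Set L) = W₂) (hodd : Odd (Nat.card ↥(W₁ ⊔ W₂))) : (∀ θ : K → ℂ, Cfsg.IsIrrCharacter K θ → (∃ x ∈ W₁, (fun k : K => θ ⟨x * k * x⁻¹, hK.conj_mem (k : L) k.2 x⟩) ≠ θ) → Cfsg.IsIrrCharacter L (Cfsg.indFun K θ)) ∧ Nat.card {θ : Cfsg.IrrCharacter K // ∀ x ∈ W₁, (fun k : K => (θ : K → ℂ) ⟨x * k * x⁻¹, hK.conj_mem (k : L) k.2 x⟩) = θ} = Nat.card W₂ ∧ (∀ θ : K → ℂ, Cfsg.IsIrrCharacter K θ → (∀ x ∈ W₁, (fun k : K => θ ⟨x * k * x⁻¹, hK.conj_mem (k : L) k.2 x⟩) = θ) → ∃ C : Finset (L → ℂ), C.card = Nat.card W₁ ∧ (∀ μ ∈ C, Cfsg.IsIrrCharacter L μ) ∧ Cfsg.indFun K θ = ∑ μ ∈ C, μ) := by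
  classical
  haveI := hW₁c
  haveI := hW₂c
  letI : CommGroup W₁ := IsCyclic.commGroup
  letI : CommGroup W₂ := IsCyclic.commGroup
  have hcompl : Subgroup.IsComplement' K W₁ :=
    Subgroup.isComplement'_of_disjoint_and_mul_eq_univ (disjoint_iff.2 hKW₁) (by rw [← Subgroup.normal_mul, hKW₁']; rfl)
  have hindex : K.index = Nat.card W₁ := hcompl.symm.index_eq_card
  have hcopK : (Nat.card K).Coprime (Nat.card W₁) := by
    rw [← hcompl.index_eq_card]; exact hHall.symm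
  let φ : W₁ →* MulAut K := (MulAut.conjNormal (H := K)).comp W₁.subtype
  have hfix : ∀ (S : Subgroup W₁), S ≠ ⊥ → Nat.card {χ : IrrCharacter K // IsInv (φ.comp S.subtype) (χ : K → ℂ)} = Nat.card W₂ := by
    intro S hS
    obtain ⟨s, hs, hs1⟩ := (Subgroup.ne_bot_iff_exists_ne_one.1 hS) |> fun ⟨s, hs⟩ => (⟨s.1, s.2, fun h => hs (Subtype.ext h)⟩ : ∃ s : W₁, s ∈ S ∧ s ≠ 1)
    haveI : Group.IsSolvable S := Group.isSolvable_of_comm fun a b => mul_comm a b
    rw [card_inv_eq_fixed (Nat.card S) K S (φ.comp S.subtype) le_rfl (hcopK.coprime_dvd_right (Subgroup.card_subgroup_dvd_card S)) (W₂.subgroupOf K) (fun g => ?_),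
      card_irr_congr (Subgroup.subgroupOfEquivOfLe hW₂K), card_irr]
    · exact Nat.card_congr (ConjClasses.mkEquiv).symm
    · simp only [Subgroup.mem_subgroupOf, MonoidHom.comp_apply, Subgroup.coe_subtype, φ, Subtype.ext_iff, MulAut.conjNormal_apply]
      constructor
      · intro hg t
        rcases eq_or_ne ((t : W₁) : L) 1 with h | h
        · simp [h]
        · have hg' : (g : L) ∈ K ⊓ Subgroup.centralizer ({((t : W₁) : L)} : Set L) := (hC _ (t : W₁).2 h).symm ▸ hg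
          rw [← Subgroup.mem_centralizer_singleton_iff.1 hg'.2, mul_inv_cancel_right]
      · intro hg
        rw [← hC (s : L) s.2 (fun h => hs1 (Subtype.ext h))]
        exact ⟨g.2, Subgroup.mem_centralizer_singleton_iff.2 (mul_inv_eq_iff_eq_mul.1 (hg ⟨s, hs⟩)).symm⟩
  have hInvTop : ∀ θ : IrrCharacter K, IsInv (φ.comp (⊤ : Subgroup W₁).subtype) (θ : K → ℂ) ↔ ∀ x ∈ W₁, (fun k : K => (θ : K → ℂ) ⟨x * k * x⁻¹, hK.conj_mem (k : L) k.2 x⟩) = θ := fun θ => by
    refine ⟨fun h x hx => funext fun k => ?_, fun h s k => ?_⟩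
    · exact (congrArg (θ : K → ℂ) (Subtype.ext (MulAut.conjNormal_apply x k).symm)).trans (h ⟨⟨x, hx⟩, Subgroup.mem_top _⟩ k)
    · exact (congrArg (θ : K → ℂ) (Subtype.ext (MulAut.conjNormal_apply _ k))).trans (congrFun (h _ (s : W₁).2) k)
  have hW₁top : (⊤ : Subgroup W₁) ≠ ⊥ := by
    haveI := (Subgroup.nontrivial_iff_ne_bot W₁).2 hW₁
    exact top_ne_bot
  -- invariance under one element gives invariance
  have hall : ∀ (θ : IrrCharacter K) (w : W₁), w ≠ 1 → (∀ k : K, (θ : K → ℂ) (MulAut.conjNormal (H := K) (w : L) k) = (θ : K → ℂ) k) →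
      ∀ x ∈ W₁, (fun k : K => (θ : K → ℂ) ⟨x * k * x⁻¹, hK.conj_mem (k : L) k.2 x⟩) = θ := by
    intro θ w hw h
    let S := Subgroup.zpowers w
    let A := {χ : IrrCharacter K // IsInv (φ.comp S.subtype) (χ : K → ℂ)}
    let B := {χ : IrrCharacter K // IsInv (φ.comp (⊤ : Subgroup W₁).subtype) (χ : K → ℂ)}
    have hmem : IsInv (φ.comp S.subtype) (θ : K → ℂ) := by
      let T : Subgroup W₁ :=
        { carrier := {u | ∀ k, (θ : K → ℂ) (φ u k) = (θ : K → ℂ) k}
          one_mem' := fun k => by simp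
          mul_mem' := fun {u v} hu hv k => by rw [map_mul, MulAut.mul_apply, hu, hv]
          inv_mem' := fun {u} hu k => by
            have := hu (φ u⁻¹ k)
            rw [← MulAut.mul_apply, ← map_mul, mul_inv_cancel, map_one] at this
            simpa using this.symm }
      exact fun s k => (Subgroup.zpowers_le.2 (show w ∈ T from h) s.2) k
    haveI := finite_irr K
    haveI := Fintype.ofFinite (IrrCharacter K)
    let f : B → A := fun χ => ⟨χ.1, fun s k => χ.2 ⟨s, Subgroup.mem_top _⟩ k⟩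
    have hf : Function.Injective f := fun a b hab => Subtype.ext (congrArg (fun x : A => x.1) hab)
    have hbij : Function.Bijective f := hf.bijective_of_nat_card_le (by
      rw [hfix S (by simpa [S] using hw), hfix ⊤ hW₁top])
    obtain ⟨χ, hχ⟩ := hbij.2 ⟨θ, hmem⟩
    have : χ.1 = θ := congrArg (fun x : A => x.1) hχ
    exact (hInvTop θ).1 (this ▸ χ.2)
  have hab : ∀ x y : L, x * y * x⁻¹ * y⁻¹ ∈ K := fun x y => by
    haveI : IsCyclic (L ⧸ K) := isCyclic_of_surjective ((QuotientGroup.mk' K).comp W₁.subtype) fun q => by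
      obtain ⟨g, rfl⟩ := QuotientGroup.mk'_surjective K q
      have hg : g ∈ K ⊔ W₁ := hKW₁' ▸ Subgroup.mem_top g
      rw [← SetLike.mem_coe, Subgroup.normal_mul] at hg
      obtain ⟨c, hc, w, hw, rfl⟩ := hg
      exact ⟨⟨w, hw⟩, by simp [(QuotientGroup.eq_one_iff c).2 hc]⟩
    letI : CommGroup (L ⧸ K) := IsCyclic.commGroup
    refine (QuotientGroup.eq_one_iff _).1 ?_
    simp [mul_comm (QuotientGroup.mk x : L ⧸ K)]
  refine ⟨fun θ hθ hmov => ?_, ?_, fun θ hθ hinv => ?_⟩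
  · have hT : ∀ g : L, g ∈ K ↔ ∀ k : K, θ ⟨g * k * g⁻¹, hK.conj_mem k k.2 g⟩ = θ k := by
      intro g
      refine ⟨fun hg k => IsCharacter.isClassFunction (IsIrrCharacter.isCharacter hθ) k ⟨g, hg⟩, fun h => ?_⟩
      have hg : g ∈ K ⊔ W₁ := hKW₁' ▸ Subgroup.mem_top g
      rw [← SetLike.mem_coe, Subgroup.normal_mul] at hg
      obtain ⟨c, hc, w, hw, rfl⟩ := hg
      rcases eq_or_ne w 1 with rfl | hw1
      · simpa using hc
      exfalso
      obtain ⟨x, hx, hne⟩ := hmov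
      refine hne (hall ⟨θ, hθ⟩ ⟨w, hw⟩ (fun e => hw1 (congrArg Subtype.val e)) (fun k => ?_) x hx)
      have h1 := IsCharacter.isClassFunction (IsIrrCharacter.isCharacter hθ) (MulAut.conjNormal (H := K) w k) ⟨c, hc⟩
      refine h1.symm.trans ?_
      refine Eq.trans (congrArg θ (Subtype.ext ?_)) (h k)
      simp [MulAut.conjNormal_apply, mul_assoc]
    obtain ⟨C, hC1, hC2, hC3, -⟩ := Cfsg.Agent.S1491.result K K θ hθ hT (fun x _ y _ => hab x y) (by rw [Subgroup.relIndex_self]; exact Nat.coprime_one_right _)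
    rw [Subgroup.relIndex_self] at hC2
    obtain ⟨χ, rfl⟩ := Finset.card_eq_one.1 hC2
    rw [hC3, Finset.sum_singleton]
    exact hC1 χ (Finset.mem_singleton_self χ)
  · rw [← hfix ⊤ hW₁top]
    exact Nat.card_congr (Equiv.subtypeEquivRight fun θ => (hInvTop θ).symm)
  · have hT : ∀ g : L, g ∈ (⊤ : Subgroup L) ↔ ∀ k : K, θ ⟨g * k * g⁻¹, hK.conj_mem k k.2 g⟩ = θ k := by
      intro g
      refine ⟨fun _ k => ?_, fun _ => Subgroup.mem_top g⟩
      have hg : g ∈ K ⊔ W₁ := hKW₁' ▸ Subgroup.mem_top g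
      rw [← SetLike.mem_coe, Subgroup.normal_mul] at hg
      obtain ⟨c, hc, w, hw, rfl⟩ := hg
      refine Eq.trans ?_ ((IsCharacter.isClassFunction (IsIrrCharacter.isCharacter hθ) ⟨w * k * w⁻¹, hK.conj_mem k k.2 w⟩ ⟨c, hc⟩).trans (congrFun (hinv w hw) k))
      exact congrArg θ (Subtype.ext (by simp [mul_assoc]))
    obtain ⟨C, hC1, hC2, hC3, -⟩ := Cfsg.Agent.S1491.result K ⊤ θ hθ hT (fun x _ y _ => hab x y) (by rw [Subgroup.relIndex_top_right, hindex]; exact hcopK)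
    exact ⟨C, by rw [hC2, Subgroup.relIndex_top_right, hindex], hC1, hC3⟩

end Cfsg.Agent.S1513
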