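import Cfsg.Statements.S1514
import Mathlib
import Cfsg.Agent.Lib.Coherence

set_option autoImplicit false
open Cfsg

namespace Cfsg.Agent.S1514

open Cfsg CfsgLib.Chars CfsgLib.Virtual CfsgLib.Coherence

/-- Let S be a nonempty set of irreducible characters of the finite group L, closed under complex conjugation and containing no real-valued member, and τ a linear isometry on the integer combinations of S vanishing at 1, with values virtual characters of G vanishing at 1. Then there is a choice R making (S, τ, R) a coherence system. -/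
theorem result {L : Type*} [Group L] [Fintype L] {G : Type*} [Group G] [Fintype G] (S : Set (L → ℂ)) (hS : S.Nonempty) (hirr : ∀ χ ∈ S, Cfsg.IsIrrCharacter L χ) (hconj : ∀ χ ∈ S, Cfsg.conjFun χ ∈ S ∧ Cfsg.conjFun χ ≠ χ) (τ : (L → ℂ) → (G → ℂ)) (hτ : Cfsg.IsLinearIsometryOn (Cfsg.zspanOn S {1}ᶜ) τ) (hτ1 : ∀ α ∈ Cfsg.zspanOn S {1}ᶜ, τ α 1 = 0) : ∃ R : (L → ℂ) → Finset (G → ℂ), Cfsg.IsCoherenceSystem S τ R := by
  classical
  have key : ∀ χ ∈ S, ∃ ab : IrrCharacter G × IrrCharacter G, ab.1 ≠ ab.2 ∧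
      τ (χ - conjFun χ) = (ab.1 : G → ℂ) - (ab.2 : G → ℂ) ∧ χ - conjFun χ ∈ zspanOn S {1}ᶜ := by
    intro χ hχ
    obtain ⟨hc, hne⟩ := hconj χ hχ
    have hmem : χ - conjFun χ ∈ zspanOn S {1}ᶜ := mem_zspanOn_one.2 ⟨zspan_sub (mem_zspan hχ) (mem_zspan hc),
      by rw [Pi.sub_apply, conjFun_one_real (irr_char (hirr χ hχ)), sub_self]⟩
    have hn : classInner (τ (χ - conjFun χ)) (τ (χ - conjFun χ)) = 2 := by
      rw [hτ.2.2.1 _ hmem _ hmem, ci_sub_left, ci_sub_right, ci_sub_right, inner_irr_self (hirr χ hχ),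
        inner_irr_self (hirr _ hc), inner_irr_ne (hirr χ hχ) (hirr _ hc) hne.symm, inner_irr_ne (hirr _ hc) (hirr χ hχ) hne]
      ring
    obtain ⟨a, b, hab, e⟩ := exists_pair (hτ.2.2.2 _ hmem) hn (hτ1 _ hmem)
    exact ⟨(a, b), hab, e, hmem⟩
  haveI : Nonempty (IrrCharacter G) := ⟨⟨fun _ => 1, isIrrCharacter_one G⟩⟩
  choose! f hf using key
  have hfR : ∀ χ : L → ℂ, ∀ hχ : χ ∈ S, ∀ x ∈ ({((f χ).1 : G → ℂ), -((f χ).2 : G → ℂ)} : Finset (G → ℂ)),
      x = ((f χ).1 : G → ℂ) ∨ x = -((f χ).2 : G → ℂ) := fun χ _ x hx => by simpa using hx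
  have hne2 : ∀ a b : IrrCharacter G, a ≠ b → classInner (a : G → ℂ) (b : G → ℂ) = 0 := fun a b h =>
    inner_irr_ne a.2 b.2 fun e => h (Subtype.ext e)
  refine ⟨fun χ => {((f χ).1 : G → ℂ), -((f χ).2 : G → ℂ)}, hS, fun χ hχ => irr_char (hirr χ hχ),
    fun χ hχ => (hconj χ hχ).1, fun χ hχ => (hconj χ hχ).2, hτ, hτ1,
    fun χ hχ φ hφ h => inner_irr_ne (hirr χ hχ) (hirr φ hφ) h, ?_, ?_, ?_, ?_⟩
  · intro χ hχ x hx y hy
    obtain ⟨hab, -, -⟩ := hf χ hχ
    have h12 := irr_ne_neg (f χ).1 (f χ).2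
    rcases hfR χ hχ x hx with rfl | rfl <;> rcases hfR χ hχ y hy with rfl | rfl
    · rw [if_pos rfl, inner_irr_self (f χ).1.2]
    · rw [if_neg h12, ci_neg_right, hne2 _ _ hab, neg_zero]
    · rw [if_neg (Ne.symm h12), ci_neg_left, hne2 _ _ hab.symm, neg_zero]
    · rw [if_pos rfl, ci_neg_left, ci_neg_right, inner_irr_self (f χ).2.2, neg_neg]
  · intro χ hχ x hx
    rcases hfR χ hχ x hx with rfl | rfl
    · exact genChar_of_char (irr_char (f χ).1.2)
    · exact genChar_neg (genChar_of_char (irr_char (f χ).2.2))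
  · intro χ hχ
    rw [Finset.sum_pair (irr_ne_neg _ _), (hf χ hχ).2.1, sub_eq_add_neg]
  · intro χ hχ φ hφ h1 h2
    obtain ⟨hab, hτe, hmem⟩ := hf χ hχ
    obtain ⟨hab', hτe', hmem'⟩ := hf φ hφ
    have hcc : ∀ α : L → ℂ, conjFun (conjFun α) = α := fun α => funext fun x => Complex.conj_conj _
    have hz : classInner (τ (φ - conjFun φ)) (τ (χ - conjFun χ)) = 0 := by
      have h3 : classInner (conjFun φ) χ = 0 := by
        have := inner_conjFun φ (conjFun χ)
        rw [hcc, h2, map_zero] at this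
        exact this
      rw [hτ.2.2.1 _ hmem' _ hmem, ci_sub_left, ci_sub_right, ci_sub_right, h1, h2, h3,
        inner_conjFun, h1, map_zero]
      ring
    rw [hτe, hτe', ci_sub_left, ci_sub_right, ci_sub_right] at hz
    simp only [classInner_irr] at hz
    have hall : (f φ).1 ≠ (f χ).1 ∧ (f φ).1 ≠ (f χ).2 ∧ (f φ).2 ≠ (f χ).1 ∧ (f φ).2 ≠ (f χ).2 := by
      refine ⟨?_, ?_, ?_, ?_⟩ <;> intro e <;> simp only [e] at hz hab' <;>
        split_ifs at hz <;> first | (exfalso; simp_all) | skip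
      all_goals norm_num at hz
    intro x hx y hy
    rcases hfR φ hφ x hx with rfl | rfl <;> rcases hfR χ hχ y hy with rfl | rfl <;>
      simp [ci_neg_left, ci_neg_right, hne2 _ _ hall.1, hne2 _ _ hall.2.1, hne2 _ _ hall.2.2.1, hne2 _ _ hall.2.2.2]

end Cfsg.Agent.S1514
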