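import Cfsg.Statements.S1517
import Mathlib
import Cfsg.Agent.Lib.Coherence
import Cfsg.Agent.S1515

set_option autoImplicit false
open Cfsg

open Cfsg CfsgLib.Chars CfsgLib.Virtual CfsgLib.Coherence

namespace Cfsg.Agent.S1517

/-- Let (S, τ, R) be a coherence system from L to G such that φ 1 = ψ 1 for all φ, ψ ∈ S. Then (S, L minus 1, τ) is coherent. -/
theorem result {L : Type*} [Group L] [Fintype L] {G : Type*} [Group G] [Fintype G] (S : Set (L → ℂ)) (τ : (L → ℂ) → (G → ℂ)) (R : (L → ℂ) → Finset (G → ℂ)) (hS : Cfsg.IsCoherenceSystem S τ R) (hdeg : ∀ φ ∈ S, ∀ ψ ∈ S, φ 1 = ψ 1) : Cfsg.IsCoherent S {1}ᶜ τ := by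
  classical
  obtain ⟨χ, hχ⟩ := hS.nonempty
  have hne0 : ∀ x ∈ S, classInner x x ≠ 0 := fun x hx h => by
    have := eq_zero_of_inner_self h
    subst this
    exact hS.conj_ne 0 hx (funext fun g => by simp [conjFun])
  have hli : LinearIndependent ℂ (fun x : S => (x : L → ℂ)) := by
    rw [linearIndependent_iff']
    intro s c hsum i hi
    have h := congrArg (fun f => classInner f (i : L → ℂ)) hsum
    simp only [ci_sum_left, ci_smul_left, ci_zero_left] at h
    rw [Finset.sum_eq_single i (fun b _ hb => by rw [hS.orthogonal _ b.2 _ i.2 (fun e => hb (Subtype.ext e)), mul_zero])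
      (fun h' => absurd hi h')] at h
    exact (mul_eq_zero.1 h).resolve_right (hne0 _ i.2)
  haveI : Finite S := hli.finite
  set F : Finset (L → ℂ) := (Set.toFinite S).toFinset with hF
  have hFS : (↑F : Set (L → ℂ)) = S := Set.Finite.coe_toFinset _
  have hd : ∀ x ∈ S, ∀ y ∈ S, x - y ∈ zspanOn S {1}ᶜ := fun x hx y hy => mem_zspanOn_one.2
    ⟨zspan_sub (mem_zspan hx) (mem_zspan hy), by rw [Pi.sub_apply, hdeg x hx y hy, sub_self]⟩
  have hτi := hS.isometry
  obtain ⟨nχ, hnχ, -⟩ := int_norm (genChar_of_char (hS.isCharacter χ hχ))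
  have hvirt : ∀ x ∈ S, ∀ s ⊆ R x, ∀ c : (G → ℂ) → ℤ, IsGeneralizedCharacter G (∑ α ∈ s, c α • α) :=
    fun x hx s hs c => genChar_sum _ _ fun α hα => genChar_zsmul (hS.virtual x hx α (hs hα)) _
  obtain ⟨e0, he0v, he0n, he0T⟩ : ∃ e0 : G → ℂ, IsGeneralizedCharacter G e0 ∧ classInner e0 e0 = (nχ : ℂ) ∧
      ∀ φ ∈ S, φ ≠ χ → classInner e0 (τ (χ - φ)) = (nχ : ℂ) := by
    have hc := hS.conj_mem χ hχ
    by_cases hB : ∀ φ ∈ S, φ = χ ∨ φ = conjFun χ
    · have hcard : (R χ).card = 2 * nχ := by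
        obtain ⟨nb, hnb, -⟩ := int_norm (genChar_of_char (hS.isCharacter _ hc))
        have e1 : (nb : ℂ) = nχ := by rw [← hnb, inner_conjFun, hnχ, map_natCast]
        have h := hτi.2.2.1 _ (hd χ hχ _ hc) _ (hd χ hχ _ hc)
        rw [hS.sum_eq χ hχ, ci_sum_left, Finset.sum_congr rfl (fun α hα => by
          rw [ci_sum_right, Finset.sum_congr rfl (fun β hβ => hS.orthonormal χ hχ α hα β hβ), Finset.sum_ite_eq, if_pos hα]),
          ci_sub_left, ci_sub_right, ci_sub_right, hnχ, hnb, hS.orthogonal χ hχ _ hc (hS.conj_ne χ hχ).symm,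
          hS.orthogonal _ hc χ hχ (hS.conj_ne χ hχ), e1] at h
        simp only [Finset.sum_const, nsmul_eq_mul, mul_one, sub_zero, zero_sub, sub_neg_eq_add] at h
        rw [← two_mul] at h
        exact_mod_cast h
      obtain ⟨s, hs, hsc⟩ := Finset.exists_subset_card_eq (show nχ ≤ (R χ).card by omega)
      have hsum : ∀ t ⊆ R χ, classInner (∑ α ∈ s, α) (∑ α ∈ t, α) = ((s ∩ t).card : ℂ) := fun t ht => by
        rw [ci_sum_left, Finset.sum_congr rfl (fun α hα => by
          rw [ci_sum_right, Finset.sum_congr rfl (fun β hβ => hS.orthonormal χ hχ α (hs hα) β (ht hβ)), Finset.sum_ite_eq]),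
          Finset.sum_boole, Finset.filter_mem_eq_inter]
      refine ⟨∑ α ∈ s, α, genChar_sum _ _ fun α hα => hS.virtual χ hχ α (hs hα), by rw [hsum s hs, Finset.inter_self, hsc],
        fun φ hφ hne => ?_⟩
      rw [(hB φ hφ).resolve_left hne, hS.sum_eq χ hχ, hsum _ subset_rfl, Finset.inter_eq_left.2 hs, hsc]
    · push Not at hB
      obtain ⟨φ0, hφ0, hne1, hne2⟩ := hB
      have key : ∀ φ ∈ S, φ ≠ χ → φ ≠ conjFun χ → ∃ a b : (G → ℂ) → ℤ,
          (∑ α ∈ R χ, a α * a α = (nχ : ℤ)) ∧ (∑ α ∈ R χ, a α = (nχ : ℤ)) ∧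
          τ (χ - φ) = (∑ α ∈ R χ, a α • α) - ∑ β ∈ R φ, b β • β := by
        intro φ hφ h1 h2
        have hφc := hS.conj_mem φ hφ
        have hcc : ∀ x : L → ℂ, conjFun (conjFun x) = x := fun x => funext fun g => Complex.conj_conj _
        have h3 : conjFun φ ≠ χ := fun e => h2 (by rw [← e, hcc])
        have app : ∀ x ∈ S, ∀ y ∈ S, x ≠ y → conjFun x ≠ y →
            ((classInner x x).re ≤ ∑ α ∈ R x, ‖classInner (τ (x - y)) α‖ ^ 2 ∧
            ((classInner y y).re ≤ (classInner (τ (x - y)) (τ (x - y))).re - ∑ α ∈ R x, ‖classInner (τ (x - y)) α‖ ^ 2 →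
              (∑ α ∈ R x, ‖classInner (τ (x - y)) α‖ ^ 2 = (classInner x x).re ∧
                ∀ α ∈ R x, classInner (τ (x - y)) α = 0 ∨ classInner (τ (x - y)) α = 1))) := by
          intro x hx y hy hxy hxy'
          have hsubm : zspan ({x - y, x - conjFun x} : Set (L → ℂ)) ⊆ zspanOn S {1}ᶜ := by
            intro v hv
            refine zspan_induction (p := fun v => v ∈ zspanOn S {1}ᶜ) ?_ ?_ ?_ ?_ hv
            · intro u hu
              rcases hu with rfl | rfl
              · exact hd x hx y hy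
              · exact hd x hx _ (hS.conj_mem x hx)
            · exact mem_zspanOn_one.2 ⟨zspan_zero S, rfl⟩
            · intro u w _ _ hu hw
              refine mem_zspanOn_one.2 ⟨zspan_add hu.1 hw.1, ?_⟩
              rw [Pi.add_apply, (mem_zspanOn_one.1 hu).2, (mem_zspanOn_one.1 hw).2, add_zero]
            · intro n u _ hu
              refine mem_zspanOn_one.2 ⟨zspan_zsmul n hu.1, ?_⟩
              rw [Pi.smul_apply, (mem_zspanOn_one.1 hu).2, smul_zero]
          exact Cfsg.Agent.S1515.result S τ R hS x hx y (mem_zspan hy) (hS.orthogonal x hx y hy hxy)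
            (hS.orthogonal _ (hS.conj_mem x hx) y hy hxy') τ
            ⟨fun u hu w hw => hτi.1 u (hsubm hu) w (hsubm hw), fun u hu => hτi.2.1 u (hsubm hu),
              fun u hu w hw => hτi.2.2.1 u (hsubm hu) w (hsubm hw), fun u hu => hτi.2.2.2 u (hsubm hu)⟩ (fun n => rfl)
        obtain ⟨A1, A2⟩ := app χ hχ φ hφ (Ne.symm h1) (Ne.symm h2)
        obtain ⟨B1, B2⟩ := app φ hφ χ hχ h1 h3
        set T := τ (χ - φ) with hT
        have hneg : τ (φ - χ) = -T := by
          rw [← neg_sub χ φ, iso_neg hτi (hd χ hχ φ hφ)]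
        have hTv : IsGeneralizedCharacter G T := hτi.2.2.2 _ (hd χ hχ φ hφ)
        have hia : ∀ α ∈ R χ, ∃ n : ℤ, classInner T α = (n : ℂ) := fun α hα => int_inner hTv (hS.virtual χ hχ α hα)
        have hib : ∀ α ∈ R φ, ∃ n : ℤ, classInner (τ (φ - χ)) α = (n : ℂ) := fun α hα =>
          int_inner (hτi.2.2.2 _ (hd φ hφ χ hχ)) (hS.virtual φ hφ α hα)
        choose! a ha using hia
        choose! b hb using hib
        obtain ⟨nφ, hnφ, -⟩ := int_norm (genChar_of_char (hS.isCharacter φ hφ))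
        have hTT : classInner T T = (nχ : ℂ) + nφ := by
          rw [hτi.2.2.1 _ (hd χ hχ φ hφ) _ (hd χ hχ φ hφ), ci_sub_left, ci_sub_right, ci_sub_right, hnχ, hnφ,
            hS.orthogonal χ hχ φ hφ (Ne.symm h1), hS.orthogonal φ hφ χ hχ h1]
          ring
        set Δ : G → ℂ := T - ∑ α ∈ R χ, a α • α + ∑ β ∈ R φ, b β • β with hΔ
        have hΔv : IsGeneralizedCharacter G Δ :=
          genChar_add (genChar_sub hTv (hvirt χ hχ _ subset_rfl a)) (hvirt φ hφ _ subset_rfl b)
        have hort : ∀ β ∈ R φ, ∀ α ∈ R χ, classInner β α = 0 :=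
          hS.disjoint χ hχ φ hφ (hS.orthogonal φ hφ χ hχ h1) (hS.orthogonal φ hφ _ hc h2)
        have hα0 : ∀ α ∈ R χ, classInner Δ α = 0 := fun α hα => by
          rw [hΔ, ci_add_left, ci_sub_left, ci_sum_left, ci_sum_left,
            Finset.sum_congr rfl (fun x hx => by rw [ci_zsmul_left, hS.orthonormal χ hχ x hx α hα, mul_ite, mul_one, mul_zero]),
            Finset.sum_ite_eq' (R χ) α, if_pos hα,
            Finset.sum_eq_zero (fun x hx => by rw [ci_zsmul_left, hort x hx α hα, mul_zero]), ha α hα]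
          ring
        have hβ0 : ∀ β ∈ R φ, classInner Δ β = 0 := fun β hβ => by
          have : classInner T β = -(b β : ℂ) := by rw [← hb β hβ, hneg, ci_neg_left, neg_neg]
          rw [hΔ, ci_add_left, ci_sub_left, ci_sum_left, ci_sum_left,
            Finset.sum_eq_zero (fun x hx => by rw [ci_zsmul_left, classInner_symm, hort β hβ x hx, map_zero, mul_zero]),
            Finset.sum_congr rfl (fun x hx => by rw [ci_zsmul_left, hS.orthonormal φ hφ x hx β hβ, mul_ite, mul_one, mul_zero]),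
            Finset.sum_ite_eq' (R φ) β, if_pos hβ, this]
          ring
        have hΔΔ : classInner Δ Δ = classInner T T - (∑ α ∈ R χ, (a α : ℂ) * a α) - ∑ β ∈ R φ, (b β : ℂ) * b β := by
          have e : classInner Δ Δ = classInner Δ T := by
            conv_lhs => arg 2; rw [hΔ]
            rw [ci_add_right, ci_sub_right, ci_sum_right, ci_sum_right,
              Finset.sum_eq_zero (fun x hx => by rw [ci_zsmul_right, hα0 x hx, mul_zero]),
              Finset.sum_eq_zero (fun x hx => by rw [ci_zsmul_right, hβ0 x hx, mul_zero])]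
            ring
          rw [e, hΔ, ci_add_left, ci_sub_left, ci_sum_left, ci_sum_left,
            Finset.sum_congr rfl (fun x hx => by
              rw [ci_zsmul_left, show classInner x T = (a x : ℂ) by rw [classInner_symm, ha x hx, map_intCast]]),
            show (∑ x ∈ R φ, classInner (b x • x) T) = -∑ x ∈ R φ, (b x : ℂ) * b x by
              rw [← Finset.sum_neg_distrib]
              refine Finset.sum_congr rfl fun x hx => ?_
              rw [ci_zsmul_left, show classInner x T = -(b x : ℂ) by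
                rw [classInner_symm, ← neg_neg T, ← hneg, ci_neg_left, hb x hx, map_neg, map_intCast]]
              ring]
          ring
        obtain ⟨nΔ, hnΔ, hnΔ0⟩ := int_norm hΔv
        have sa : ∑ α ∈ R χ, ‖classInner T α‖ ^ 2 = ((∑ α ∈ R χ, a α * a α : ℤ) : ℝ) := by
          push_cast
          exact Finset.sum_congr rfl fun α hα => by rw [ha α hα, Complex.norm_intCast, sq_abs]; ring
        have sb : ∑ α ∈ R φ, ‖classInner (τ (φ - χ)) α‖ ^ 2 = ((∑ α ∈ R φ, b α * b α : ℤ) : ℝ) := by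
          push_cast
          exact Finset.sum_congr rfl fun α hα => by rw [hb α hα, Complex.norm_intCast, sq_abs]; ring
        have hN : (nΔ : ℤ) + ∑ α ∈ R χ, a α * a α + ∑ α ∈ R φ, b α * b α = nχ + nφ := by
          rw [hnΔ, hTT] at hΔΔ
          have : (((nΔ : ℤ) + ∑ α ∈ R χ, a α * a α + ∑ α ∈ R φ, b α * b α : ℤ) : ℂ) = ((nχ + nφ : ℤ) : ℂ) := by
            push_cast; linear_combination hΔΔ
          exact_mod_cast this
        rw [sa, hnχ] at A1 A2
        rw [sb, hnφ] at B1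
        rw [hnφ, hTT] at A2
        simp only [Complex.natCast_re, Complex.add_re] at A1 A2 B1
        have A1' : (nχ : ℤ) ≤ ∑ α ∈ R χ, a α * a α := by exact_mod_cast A1
        have B1' : (nφ : ℤ) ≤ ∑ α ∈ R φ, b α * b α := by exact_mod_cast B1
        have e1 : ∑ α ∈ R χ, a α * a α = (nχ : ℤ) := by omega
        have hz : nΔ = 0 := by omega
        obtain ⟨-, ha01⟩ := A2 (by rw [e1]; push_cast; linarith)
        refine ⟨a, b, e1, ?_, ?_⟩
        · rw [← e1]
          refine Finset.sum_congr rfl fun α hα => ?_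
          rcases ha01 α hα with h | h <;> rw [ha α hα] at h
          · have : a α = 0 := by exact_mod_cast h
            rw [this, mul_zero]
          · have : a α = 1 := by exact_mod_cast h
            rw [this, mul_one]
        · have := hnΔ0 hz
          rw [hΔ, sub_add] at this
          exact sub_eq_zero.1 this
      obtain ⟨a, b, haa, has, hT0⟩ := key φ0 hφ0 hne1 hne2
      set e0 : G → ℂ := ∑ α ∈ R χ, a α • α with he0
      have horth2 : ∀ x ∈ S, ∀ y ∈ S, x ≠ y → x ≠ conjFun y → ∀ u v : (G → ℂ) → ℤ,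
          classInner (∑ α ∈ R x, u α • α) (∑ β ∈ R y, v β • β) = 0 := by
        intro x hx y hy h1 h2 u v
        rw [ci_sum_left]
        refine Finset.sum_eq_zero fun α hα => ?_
        rw [ci_sum_right]
        refine (Finset.sum_eq_zero fun β hβ => ?_)
        rw [ci_zsmul_left, ci_zsmul_right, hS.disjoint y hy x hx (hS.orthogonal x hx y hy h1)
          (hS.orthogonal x hx _ (hS.conj_mem y hy) h2) α hα β hβ, mul_zero, mul_zero]
      have hcc : ∀ x : L → ℂ, conjFun (conjFun x) = x := fun x => funext fun g => Complex.conj_conj _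
      have he0e : classInner e0 e0 = (nχ : ℂ) := by
        rw [he0, ci_sum_left, Finset.sum_congr rfl (fun α hα => by
          rw [ci_zsmul_left, ci_sum_right, Finset.sum_congr rfl (fun β hβ => by
            rw [ci_zsmul_right, hS.orthonormal χ hχ α hα β hβ, mul_ite, mul_one, mul_zero]), Finset.sum_ite_eq, if_pos hα])]
        exact_mod_cast haa
      have hsum1 : ∀ x ∈ S, τ (x - conjFun x) = ∑ α ∈ R x, (1 : ℤ) • α := fun x hx => by
        rw [hS.sum_eq x hx]; simp
      refine ⟨e0, hvirt χ hχ _ subset_rfl a, he0e, fun φ hφ hne => ?_⟩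
      by_cases h2 : φ = conjFun χ
      · subst h2
        rw [hS.sum_eq χ hχ, he0, ci_sum_left, Finset.sum_congr rfl (fun α hα => by
          rw [ci_zsmul_left, ci_sum_right, Finset.sum_congr rfl (fun β hβ => hS.orthonormal χ hχ α hα β hβ),
            Finset.sum_ite_eq, if_pos hα, mul_one])]
        exact_mod_cast has
      obtain ⟨a', b', -, -, hTφ⟩ := key φ hφ hne h2
      have hχ0 : φ0 ≠ conjFun χ := hne2
      have horth0 : classInner e0 (∑ β ∈ R φ0, (b β) • β) = 0 :=
        horth2 χ hχ φ0 hφ0 (Ne.symm hne1) (fun e => hne2 (by rw [e, hcc])) a b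
      by_cases h3 : φ = φ0
      · subst h3; rw [hT0, ci_sub_right, he0e, horth0, sub_zero]
      by_cases h4 : φ = conjFun φ0
      · subst h4
        rw [show χ - conjFun φ0 = (χ - φ0) + (φ0 - conjFun φ0) by abel,
          hτi.1 _ (hd χ hχ φ0 hφ0) _ (hd φ0 hφ0 _ hφ), hT0, ci_add_right, ci_sub_right, he0e, horth0, hsum1 φ0 hφ0,
          horth2 χ hχ φ0 hφ0 (Ne.symm hne1) (fun e => hne2 (by rw [e, hcc])) a (fun _ => 1)]
        ring
      have e5 : e0 = τ (χ - φ0) + ∑ β ∈ R φ0, b β • β := by rw [hT0]; abel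
      rw [e5, ci_add_left, hτi.2.2.1 _ (hd χ hχ φ0 hφ0) _ (hd χ hχ φ hφ), hTφ, ci_sub_right (∑ β ∈ R φ0, b β • β),
        horth2 φ0 hφ0 χ hχ hne1 hne2 b a', horth2 φ0 hφ0 φ hφ (Ne.symm h3) (fun e => h4 (by rw [e, hcc])) b b',
        ci_sub_left, ci_sub_right, ci_sub_right, hnχ, hS.orthogonal χ hχ φ hφ (Ne.symm hne),
        hS.orthogonal φ0 hφ0 χ hχ hne1, hS.orthogonal φ0 hφ0 φ hφ (Ne.symm h3)]
      ring
  let e : (L → ℂ) → (G → ℂ) := fun φ => e0 - τ (χ - φ)
  have hz0 : τ (χ - χ) = 0 := by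
    rw [sub_self]; exact iso_zero hτi (mem_zspanOn_one.2 ⟨zspan_zero S, rfl⟩)
  have heT : ∀ φ ∈ S, classInner e0 (τ (χ - φ)) = (nχ : ℂ) - classInner χ φ := fun φ hφ => by
    by_cases h : φ = χ
    · subst h; rw [hz0, ci_zero_right, hnχ, sub_self]
    · rw [he0T φ hφ h, hS.orthogonal χ hχ φ hφ (Ne.symm h), sub_zero]
  have hmem : ∀ {x}, x ∈ F → x ∈ S := fun {x} hx => hFS ▸ (Finset.mem_coe.2 hx)
  obtain ⟨τ₁, hτ₁, hτ₁e⟩ := exists_extension F (fun x hx y hy h => hS.orthogonal x (hmem hx) y (hmem hy) h)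
    (fun x hx => hne0 x (hmem hx)) e
    (fun x hx => genChar_sub he0v (hτi.2.2.2 _ (hd χ hχ x (hmem hx))))
    (fun x hx y hy => by
      simp only [e, ci_sub_left, ci_sub_right, he0n, heT y (hmem hy), classInner_symm (τ (χ - x)) e0, heT x (hmem hx),
        hτi.2.2.1 _ (hd χ hχ x (hmem hx)) _ (hd χ hχ y (hmem hy)), map_sub, map_natCast, ← classInner_symm, hnχ]
      ring)
  rw [hFS] at hτ₁
  have hχ1 : χ 1 ≠ 0 := fun h => by
    refine hS.conj_ne χ hχ (funext fun g => ?_)
    have := IsCharacter.norm_le (hS.isCharacter χ hχ) g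
    rw [h] at this
    simp only [Complex.zero_re] at this
    have hg : χ g = 0 := norm_le_zero_iff.1 this
    simp [conjFun, hg]
  refine ⟨⟨χ - conjFun χ, hd χ hχ _ (hS.conj_mem χ hχ), fun h => hS.conj_ne χ hχ (sub_eq_zero.1 h).symm⟩, τ₁, hτ₁, fun α hα => ?_⟩
  obtain ⟨n, hn, hn'⟩ : ∃ n : ℤ, α - n • χ ∈ zspanOn S {1}ᶜ ∧ τ₁ (α - n • χ) = τ (α - n • χ) := by
    refine zspan_induction (p := fun α => ∃ n : ℤ, α - n • χ ∈ zspanOn S {1}ᶜ ∧ τ₁ (α - n • χ) = τ (α - n • χ)) ?_ ?_ ?_ ?_ hα.1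
    · intro x hx
      refine ⟨1, by rw [one_smul]; exact hd x hx χ hχ, ?_⟩
      have hxF : x ∈ F := Finset.mem_coe.1 (hFS.symm ▸ hx)
      have hχF : χ ∈ F := Finset.mem_coe.1 (hFS.symm ▸ hχ)
      rw [one_smul, iso_sub hτ₁ (mem_zspan hx) (zspan_neg (mem_zspan hχ)) (mem_zspan hχ), hτ₁e x hxF, hτ₁e χ hχF,
        ← neg_sub χ x, iso_neg hτi (hd χ hχ x hx)]
      simp only [e, hz0]
      abel
    · refine ⟨0, ?_, ?_⟩
      · rw [zero_smul, sub_zero]; exact mem_zspanOn_one.2 ⟨zspan_zero S, rfl⟩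
      · rw [zero_smul, sub_zero, iso_zero hτi (mem_zspanOn_one.2 ⟨zspan_zero S, rfl⟩), iso_zero hτ₁ (zspan_zero S)]
    · rintro x y _ _ ⟨n, hn, hn'⟩ ⟨m, hm, hm'⟩
      refine ⟨n + m, ?_, ?_⟩
      · rw [show x + y - (n + m) • χ = (x - n • χ) + (y - m • χ) by rw [add_smul]; abel]
        exact mem_zspanOn_one.2 ⟨zspan_add hn.1 hm.1, by
          rw [Pi.add_apply, (mem_zspanOn_one.1 hn).2, (mem_zspanOn_one.1 hm).2, add_zero]⟩
      · rw [show x + y - (n + m) • χ = (x - n • χ) + (y - m • χ) by rw [add_smul]; abel,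
          hτ₁.1 _ hn.1 _ hm.1, hτi.1 _ hn _ hm, hn', hm']
    · rintro k x _ ⟨n, hn, hn'⟩
      refine ⟨k * n, ?_, ?_⟩
      · rw [mul_smul, ← smul_sub]
        exact mem_zspanOn_one.2 ⟨zspan_zsmul k hn.1, by rw [Pi.smul_apply, (mem_zspanOn_one.1 hn).2, smul_zero]⟩
      · rw [mul_smul, ← smul_sub, hτ₁.2.1 _ hn.1, hτi.2.1 _ hn, hn']
  have hn0 : n = 0 := by
    have h := (mem_zspanOn_one.1 hn).2
    rw [Pi.sub_apply, Pi.smul_apply, (mem_zspanOn_one.1 hα).2, zero_sub, neg_eq_zero, zsmul_eq_mul, mul_eq_zero] at h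
    exact_mod_cast h.resolve_right hχ1
  rw [hn0, zero_smul, sub_zero] at hn'
  exact hn' 

end Cfsg.Agent.S1517
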