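import Cfsg.Statements.S1518
import Mathlib
import Cfsg.Agent.Lib.Coherence
import Cfsg.Agent.S1500
import Cfsg.Agent.S1501
import Cfsg.Agent.Lib.Chars.Linear

set_option autoImplicit false
open Cfsg

open Cfsg CfsgLib.Chars CfsgLib.Virtual

namespace Cfsg.Agent.S1518

/-- Under the Dade hypothesis for (A, L, H): if χ is an irreducible character of L vanishing at every non-identity element of L outside A, then the Dade image of χ − conj χ equals μ − conj μ for some irreducible character μ of G. -/
theorem result {G : Type*} [Group G] [Fintype G] (A : Set G) (L : Subgroup G) [Fintype L] (H : G → Subgroup G) (hD : Cfsg.DadeHypothesis A L H) (χ : L → ℂ) (hχ : Cfsg.IsIrrCharacter L χ) (hsupp : ∀ x : L, x ≠ 1 → (x : G) ∉ A → χ x = 0) : ∃ μ : G → ℂ, Cfsg.IsIrrCharacter G μ ∧ Cfsg.dadeIsometry A L H (χ - Cfsg.conjFun χ) = μ - Cfsg.conjFun μ := by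
  classical
  set χb := conjFun χ with hχb
  have hχbi : IsIrrCharacter L χb := isIrrCharacter_conj (⟨χ, hχ⟩ : IrrCharacter L)
  have hχc := IsIrrCharacter.isCharacter hχ
  set α : L → ℂ := χ - χb with hα
  have hα1 : α 1 = 0 := by
    rw [hα, Pi.sub_apply, hχb, CfsgLib.Coherence.conjFun_one_real hχc, sub_self]
  have hαA : ∀ x : L, (x : G) ∉ A → α x = 0 := fun x hx => by
    by_cases h : x = 1
    · rw [h, hα1]
    · simp [hα, hχb, conjFun, hsupp x h hx]
  have hαv : IsGeneralizedCharacter L α :=
    genChar_sub (genChar_of_char hχc) (genChar_of_char (IsIrrCharacter.isCharacter hχbi))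
  set T := dadeIsometry A L H α with hT
  have hneg : conjFun T = -T := by
    funext g
    simp only [hT, conjFun, dadeIsometry, Pi.neg_apply]
    split_ifs with h
    · simp [hα, hχb, conjFun]
    · simp
  by_cases he : χb = χ
  · refine ⟨fun _ => 1, isIrrCharacter_one G, ?_⟩
    funext g
    simp [hT, hα, he, dadeIsometry, conjFun]
  have hT1 : T 1 = 0 := by
    simp only [hT, dadeIsometry]
    split_ifs with h
    · exfalso
      obtain ⟨a, ha, x, u, hu, e⟩ := h
      rw [mul_one, mul_inv_cancel] at e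
      have hm : (a : G) ∈ H a ⊓ (L ⊓ Subgroup.centralizer ({(a : G)} : Set G)) := by
        refine ⟨?_, a.2, Subgroup.mem_centralizer_singleton_iff.2 rfl⟩
        have h' := (H a).inv_mem hu
        rwa [← eq_inv_of_mul_eq_one_left e.symm] at h'
      rw [hD.inf_eq_bot _ ha, Subgroup.mem_bot] at hm
      exact hD.one_not_mem (hm ▸ ha)
    · rfl
  have hn : classInner T T = 2 := by
    rw [hT, (Cfsg.Agent.S1500.result A L H hD α (genChar_classFun hαv) hαA).1 α (genChar_classFun hαv) hαA, hα,
      ci_sub_left, ci_sub_right, ci_sub_right, CfsgLib.Coherence.inner_irr_self hχ, CfsgLib.Coherence.inner_irr_self hχbi,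
      CfsgLib.Coherence.inner_irr_ne hχ hχbi (Ne.symm he), CfsgLib.Coherence.inner_irr_ne hχbi hχ he]
    ring
  obtain ⟨a, b, hab, hTab⟩ := exists_pair (Cfsg.Agent.S1501.result A L H hD α hαv hαA) hn hT1
  refine ⟨a, a.2, ?_⟩
  rw [← hT] at hTab
  let a' : IrrCharacter G := ⟨conjFun a, isIrrCharacter_conj a⟩
  let b' : IrrCharacter G := ⟨conjFun b, isIrrCharacter_conj b⟩
  have h2 : (a' : G → ℂ) - b' = (b : G → ℂ) - a := by
    rw [hTab, neg_sub] at hneg
    rw [← hneg]
    funext g
    simp [a', b', conjFun]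
  have h3 := congrArg (fun f => classInner f (b : G → ℂ)) h2
  simp only [ci_sub_left, classInner_irr, if_neg hab, if_pos] at h3
  have : a' = b := by
    by_contra hne
    rw [if_neg hne] at h3
    split_ifs at h3 <;> norm_num at h3
  refine hTab.trans ?_
  rw [show conjFun (a : G → ℂ) = (b : G → ℂ) from congrArg Subtype.val this]

end Cfsg.Agent.S1518
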