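import Cfsg.Statements.S1520
import Cfsg.Agent.Lib.InducedCoherence

set_option autoImplicit false
open Cfsg

open scoped commutatorElement

namespace Cfsg.Agent.S1520

/-- Let K be a solvable normal subgroup of the finite group L and (S, τ, R) a coherence system from L to G with S the functions induced from non-principal irreducible characters of K; S(A) the members of S induced from characters whose kernel contains A. Let M ≤ H₁ ≤ H ≤ K be normal subgroups of L such that every term of the lower central series of H eventually lies in M (H/M nilpotent), S(H₁) is coherent and [H:H₁] > 4 * [L:K]^2 + 1. Then S(M) is coherent. -/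
theorem result {L : Type*} [Group L] [Fintype L] {G : Type*} [Group G] [Fintype G] (K : Subgroup L) [hK : K.Normal] (hsolv : Group.IsSolvable K) (τ : (L → ℂ) → (G → ℂ)) (R : (L → ℂ) → Finset (G → ℂ)) (hS : Cfsg.IsCoherenceSystem (Cfsg.inducedIrrAbove K ⊥) τ R) (M H₁ H : Subgroup L) [M.Normal] [H₁.Normal] [H.Normal] (hMH₁ : M ≤ H₁) (hH₁H : H₁ ≤ H) (hHK : H ≤ K) [(M.subgroupOf H).Normal] (hnil : Group.IsNilpotent (↥H ⧸ M.subgroupOf H)) (hcoh : Cfsg.IsCoherent (Cfsg.inducedIrrAbove K H₁) {1}ᶜ τ) (hbig : 4 * K.index ^ 2 + 1 < H₁.relIndex H) : Cfsg.IsCoherent (Cfsg.inducedIrrAbove K M) {1}ᶜ τ := by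
  classical
  haveI : Fintype K := Fintype.ofFinite _
  obtain ⟨hne, -⟩ := id hcoh
  have hH₁K : H₁ < K := by
    refine lt_of_le_of_ne (hH₁H.trans hHK) fun he => ?_
    rw [he] at hbig hH₁H
    rw [Subgroup.relIndex_eq_one.2 hHK] at hbig
    omega
  obtain ⟨n, hn⟩ : ∃ n, (Subgroup.lowerCentralSeries H n) ≤ M := by
    obtain ⟨n, hn⟩ := (Subgroup.nilpotent_iff_lowerCentralSeries).1 hnil
    refine ⟨n, ?_⟩
    have key : ∀ i, H.lowerCentralSeries i ≤ ((⊤ : Subgroup (↥H ⧸ M.subgroupOf H)).lowerCentralSeries i |>.comap (QuotientGroup.mk' (M.subgroupOf H))).map H.subtype := by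
      intro i
      induction i with
      | zero => intro x hx; exact ⟨⟨x, hx⟩, Subgroup.mem_top _, rfl⟩
      | succ i ih =>
        rw [Subgroup.lowerCentralSeries_succ, Subgroup.commutator_le]
        intro a ha b hb
        obtain ⟨a', ha', rfl⟩ := ih ha
        refine ⟨⁅a', ⟨b, hb⟩⁆, ?_, map_commutatorElement _ _ _⟩
        show QuotientGroup.mk' _ ⁅a', (⟨b, hb⟩ : H)⁆ ∈ (⊤ : Subgroup (↥H ⧸ M.subgroupOf H)).lowerCentralSeries (i + 1)
        rw [map_commutatorElement, Subgroup.lowerCentralSeries_succ]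
        exact Subgroup.commutator_mem_commutator ha' (Subgroup.mem_top _)
    refine (key n).trans ?_
    rintro _ ⟨x, hx, rfl⟩
    rw [SetLike.mem_coe, Subgroup.mem_comap, hn, Subgroup.mem_bot] at hx
    exact (QuotientGroup.eq_one_iff (N := M.subgroupOf H) x).1 hx
  -- descend from `H₁` to `M`
  suffices key : ∀ (m : ℕ) (B : Subgroup L), B.Normal → M ≤ B → B ≤ H₁ → Nat.card H₁ - Nat.card B = m →
      Cfsg.IsCoherent (Cfsg.inducedIrrAbove K B) {1}ᶜ τ from key _ M inferInstance le_rfl hMH₁ rfl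
  intro m
  induction m using Nat.strong_induction_on with
  | _ m ih =>
    intro B hBn hMB hBH hm
    by_cases hEq : B = H₁
    · rwa [hEq]
    haveI := hBn
    obtain ⟨A, -, ⟨hAn, hBA, hAH⟩, hAmin⟩ := Finite.exists_le_minimal
      (p := fun U : Subgroup L => U.Normal ∧ B < U ∧ U ≤ H₁) (a := H₁) ⟨inferInstance, lt_of_le_of_ne hBH hEq, le_rfl⟩
    haveI := hAn
    have hAH' : A ≤ H := hAH.trans hH₁H
    have hAK : A < K := lt_of_le_of_lt hAH hH₁K
    have hcoA : Cfsg.IsCoherent (Cfsg.inducedIrrAbove K A) {1}ᶜ τ := by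
      refine ih (Nat.card H₁ - Nat.card A) ?_ A hAn (hMB.trans hBA.le) hAH rfl
      have h1 : Nat.card B < Nat.card A := Set.Finite.card_lt_card (Set.toFinite _) hBA
      have h2 : Nat.card A ≤ Nat.card H₁ := Subgroup.card_le_of_le hAH
      omega
    -- the factor is central in `H / B`
    have hcent : ⁅A, H⁆ ≤ B := by
      haveI : (⁅A, H⁆ ⊔ B).Normal := inferInstance
      by_contra hc
      have heq : A ≤ ⁅A, H⁆ ⊔ B := hAmin ⟨inferInstance, lt_of_le_of_ne le_sup_right (fun e => hc (e ▸ le_sup_left)),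
        sup_le ((Subgroup.commutator_le_left A H).trans hAH) hBH⟩ (sup_le (Subgroup.commutator_le_left A H) hBA.le)
      have hAi : ∀ i, A ≤ H.lowerCentralSeries i ⊔ B := by
        intro i
        induction i with
        | zero => exact hAH'.trans le_sup_left
        | succ i ih' =>
          refine heq.trans (sup_le ?_ le_sup_right)
          refine (Subgroup.commutator_mono ih' le_rfl).trans (Subgroup.commutator_le.2 fun a ha b hb => ?_)
          rw [← SetLike.mem_coe, Subgroup.mul_normal] at ha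
          obtain ⟨c, hc', d, hd, rfl⟩ := Set.mem_mul.1 ha
          rw [show ⁅c * d, b⁆ = c * ⁅d, b⁆ * c⁻¹ * ⁅c, b⁆ by simp only [commutatorElement_def]; group]
          refine Subgroup.mul_mem _ (Subgroup.mem_sup_right (hBn.conj_mem _ ?_ c)) (Subgroup.mem_sup_left ?_)
          · rw [commutatorElement_def, mul_assoc, mul_assoc, ← mul_assoc b]
            exact B.mul_mem hd (hBn.conj_mem _ (B.inv_mem hd) b)
          · rw [Subgroup.lowerCentralSeries_succ]
            exact Subgroup.commutator_mem_commutator hc' hb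
      exact hBA.not_ge ((hAi n).trans (sup_le (hn.trans hMB) le_rfl))
    refine CfsgLib.InducedCoherence.coherent_above K hsolv hS A B H A hAK (lt_of_le_of_lt hBH hH₁K) hBA.le hAH' hHK
      (fun x hx y hy => hcent (Subgroup.commutator_mem_commutator hx hy)) hcoA ?_
    -- the numerical condition
    have e1 : A.relIndex H * H.relIndex K = A.relIndex K := Subgroup.relIndex_mul_relIndex A H K hAH' hHK
    have e2 : A.relIndex H₁ * H₁.relIndex H = A.relIndex H := Subgroup.relIndex_mul_relIndex A H₁ H hAH hH₁H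
    have e3 : H.relIndex K * K.index = H.index := Subgroup.relIndex_mul_index hHK
    have p1 : 0 < H.relIndex K := Nat.pos_of_ne_zero Subgroup.index_ne_zero_of_finite
    have p2 : 0 < A.relIndex H₁ := Nat.pos_of_ne_zero Subgroup.index_ne_zero_of_finite
    have p3 : 4 * K.index ^ 2 + 2 ≤ A.relIndex H := by
      rw [← e2]
      exact le_trans (by omega) (Nat.le_mul_of_pos_left _ p2)
    rw [← e3, ← e1]
    obtain ⟨r, hr⟩ := Nat.exists_eq_add_of_le p3
    obtain ⟨s, hs⟩ := Nat.exists_eq_add_of_le p1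
    rw [hr, hs]
    have h5 : (4 * K.index ^ 2 + 2 + r) * (1 + s) - 1 = (4 * K.index ^ 2 + 1 + r) + (4 * K.index ^ 2 + 2 + r) * s := by
      have : (4 * K.index ^ 2 + 2 + r) * (1 + s) = (4 * K.index ^ 2 + 2 + r) + (4 * K.index ^ 2 + 2 + r) * s := by ring
      omega
    show 4 * ((1 + s) * K.index) ^ 2 * (4 * K.index ^ 2 + 2 + r) < ((4 * K.index ^ 2 + 2 + r) * (1 + s) - 1) ^ 2
    rw [h5]
    nlinarith [Nat.zero_le (r * s * s), Nat.zero_le (r * s), Nat.zero_le (K.index * s), Nat.zero_le (r * r)]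

end Cfsg.Agent.S1520
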