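import Cfsg.Statements.S1521
import Cfsg.Agent.Lib.InducedCoherence
import Cfsg.Agent.S1517
import Cfsg.Agent.S1520
import Cfsg.Agent.Lib.GroupB.CoprimeAbelian

set_option autoImplicit false
open Cfsg

namespace CfsgLib.FrobeniusSection

set_option maxHeartbeats 800000

open Cfsg CfsgLib.Chars CfsgLib.Coherence
open scoped commutatorElement

universe u v

variable {L : Type u} [Group L] [Fintype L] (K H₁ : Subgroup L) [hK : K.Normal] [hH : H₁.Normal]

theorem index_dvd (hK' : ⁅K, K⁆ ≤ H₁) (hfrob : ∀ k ∈ K, k ∉ H₁ → ∀ x : L, x * k * x⁻¹ * k⁻¹ ∈ H₁ → x ∈ K)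
    (X : Subgroup L) [hX : X.Normal] (hHX : H₁ ≤ X) (hXK : X ≤ K) : K.index ∣ H₁.relIndex X - 1 := by
  classical
  let f := QuotientGroup.mk' H₁
  have hf : Function.Surjective f := QuotientGroup.mk'_surjective H₁
  haveI hKb : (K.map f).Normal := hK.map f hf
  haveI hXb : (X.map f).Normal := hX.map f hf
  have hker : K.map f ≤ (MulAut.conjNormal (H := X.map f)).ker := by
    rintro _ ⟨k, hk, rfl⟩
    rw [MonoidHom.mem_ker]
    ext ⟨_, y, hy, rfl⟩
    rw [MulAut.conjNormal_apply, MulAut.one_apply]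
    show f k * f y * (f k)⁻¹ = f y
    rw [← map_inv, ← map_mul, ← map_mul]
    refine (QuotientGroup.eq.2 ?_).symm
    have h1 : y⁻¹ * (k * y * k⁻¹) = ⁅y⁻¹, k⁆ := by simp [commutatorElement_def, mul_assoc]
    rw [h1]
    exact hK' (Subgroup.commutator_mem_commutator (K.inv_mem (hXK hy)) hk)
  let ψ : (L ⧸ H₁) ⧸ K.map f →* MulAut (X.map f) := QuotientGroup.lift (K.map f) MulAut.conjNormal hker
  letI : MulAction ((L ⧸ H₁) ⧸ K.map f) (X.map f) := MulAction.compHom _ ψ
  let S : SubMulAction ((L ⧸ H₁) ⧸ K.map f) (X.map f) :=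
    { carrier := {y | y ≠ 1}
      smul_mem' := fun a y hy h => hy (by
        have h' : ψ a y = 1 := h
        exact (ψ a).map_eq_one_iff.1 h') }
  have hfree : ∀ s : S, MulAction.stabilizer ((L ⧸ H₁) ⧸ K.map f) s = ⊥ := by
    intro s
    rw [Subgroup.eq_bot_iff_forall]
    intro a ha
    obtain ⟨q, rfl⟩ := QuotientGroup.mk'_surjective (K.map f) a
    obtain ⟨x, rfl⟩ := hf q
    obtain ⟨⟨_, y, hy, rfl⟩, hy1⟩ := s
    have h2 : f x * f y * (f x)⁻¹ = f y := congrArg (fun t : S => ((t.1 : X.map f) : L ⧸ H₁)) ha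
    refine (QuotientGroup.eq_one_iff _).2 ⟨x, hfrob y (hXK hy) (fun hyH => hy1 (Subtype.ext ?_)) x ?_, rfl⟩
    · exact (QuotientGroup.eq_one_iff y).2 hyH
    · rw [← QuotientGroup.eq_one_iff]
      show f (x * y * x⁻¹ * y⁻¹) = 1
      rw [map_mul, map_mul, map_mul, map_inv, map_inv, h2, mul_inv_cancel]
  have h1 := Nat.card_congr (MulAction.selfEquivSigmaOrbitsQuotientStabilizer ((L ⧸ H₁) ⧸ K.map f) S)
  letI := Fintype.ofFinite (MulAction.orbitRel.Quotient ((L ⧸ H₁) ⧸ K.map f) S)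
  rw [Nat.card_sigma] at h1
  have h2 : ∀ ω : MulAction.orbitRel.Quotient ((L ⧸ H₁) ⧸ K.map f) S,
      Nat.card (((L ⧸ H₁) ⧸ K.map f) ⧸ MulAction.stabilizer ((L ⧸ H₁) ⧸ K.map f) ω.out) = K.index :=
    fun ω => by
      rw [hfree, Nat.card_congr QuotientGroup.quotientBot.toEquiv, ← Subgroup.index_eq_card]
      exact Subgroup.index_map_eq _ hf (by rw [QuotientGroup.ker_mk']; exact hHX.trans hXK)
  simp only [h2, Finset.sum_const, smul_eq_mul] at h1
  have h3 : Nat.card S = Nat.card (X.map f) - 1 := by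
    show Nat.card ↥({y : X.map f | y ≠ 1} : Set _) = _
    rw [Nat.card_coe_set_eq, show ({y : X.map f | y ≠ 1} : Set _) = ({1} : Set _)ᶜ from rfl, Set.ncard_compl,
      Set.ncard_singleton]
  have h4 : Nat.card (X.map f) = H₁.relIndex X := by
    have := Subgroup.relIndex_ker (f := f) X
    rw [QuotientGroup.ker_mk'] at this
    exact this.symm
  rw [← h4, ← h3, h1]
  exact dvd_mul_left _ _

theorem two_mul_add_one_le (hodd : Odd (Nat.card L)) {m : ℕ} (hm : m ∣ Nat.card L) (hm1 : m ≠ 1)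
    (hdvd : K.index ∣ m - 1) : 2 * K.index + 1 ≤ m := by
  obtain ⟨a, ha⟩ := hodd.of_dvd_nat hm
  obtain ⟨b, hb⟩ := hodd.of_dvd_nat K.index_dvd_card
  have h2 : 2 * K.index ∣ m - 1 := by
    refine Nat.Coprime.mul_dvd_of_dvd_of_dvd ?_ ⟨a, by omega⟩ hdvd
    exact (Nat.coprime_two_left).2 ⟨b, hb⟩
  have := Nat.le_of_dvd (by omega) h2
  omega

theorem big_of_between (hodd : Odd (Nat.card L)) (hK' : ⁅K, K⁆ ≤ H₁)
    (hfrob : ∀ k ∈ K, k ∉ H₁ → ∀ x : L, x * k * x⁻¹ * k⁻¹ ∈ H₁ → x ∈ K)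
    (N : Subgroup L) [N.Normal] (h1 : H₁ < N) (h2 : N < K) : 4 * K.index ^ 2 + 1 < H₁.relIndex K := by
  have hdN := index_dvd K H₁ hK' hfrob N h1.le h2.le
  have hdK := index_dvd K H₁ hK' hfrob K (h1.le.trans h2.le) le_rfl
  have e : H₁.relIndex N * N.relIndex K = H₁.relIndex K := Subgroup.relIndex_mul_relIndex _ _ _ h1.le h2.le
  have p1 : 0 < H₁.relIndex N := Nat.pos_of_ne_zero Subgroup.index_ne_zero_of_finite
  have p2 : 0 < N.relIndex K := Nat.pos_of_ne_zero Subgroup.index_ne_zero_of_finite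
  have hA := two_mul_add_one_le K hodd ((Subgroup.relIndex_dvd_card _ _).trans (Subgroup.card_subgroup_dvd_card _))
    (fun h => h1.not_ge (Subgroup.relIndex_eq_one.1 h)) hdN
  have hB : K.index ∣ N.relIndex K - 1 := by
    obtain ⟨a, ha⟩ := hdN
    rw [← e] at hdK
    have h3 : H₁.relIndex N * N.relIndex K - 1 = K.index * a * N.relIndex K + (N.relIndex K - 1) := by
      obtain ⟨r, hr⟩ := Nat.exists_eq_add_of_le p2
      have hN : H₁.relIndex N = K.index * a + 1 := by omega
      rw [hN, hr, add_mul, one_mul]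
      omega
    rw [h3] at hdK
    exact (Nat.dvd_add_right ((Dvd.intro _ rfl).trans (dvd_mul_right _ _))).1 hdK
  have hB' := two_mul_add_one_le K hodd ((Subgroup.relIndex_dvd_card _ _).trans (Subgroup.card_subgroup_dvd_card _))
    (fun h => h2.not_ge (Subgroup.relIndex_eq_one.1 h)) hB
  have hi : 0 < K.index := Nat.pos_of_ne_zero Subgroup.index_ne_zero_of_finite
  rw [← e]
  nlinarith

variable {G : Type v} [Group G] [Fintype G] {τ : (L → ℂ) → (G → ℂ)} {R : (L → ℂ) → Finset (G → ℂ)}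

theorem coherent_top (hsolv : Group.IsSolvable K) (hS : IsCoherenceSystem (inducedIrrAbove K ⊥) τ R)
    (hK' : ⁅K, K⁆ ≤ H₁) (hlt : H₁ < K) : IsCoherent (inducedIrrAbove K H₁) {1}ᶜ τ := by
  classical
  haveI : Fintype K := Fintype.ofFinite _
  have hsub := CfsgLib.InducedCoherence.above_subset K H₁
  have hz : ∀ {a}, a ∈ zspanOn (inducedIrrAbove K H₁) {1}ᶜ → a ∈ zspanOn (inducedIrrAbove K ⊥) {1}ᶜ :=
    fun {a} ha => ⟨zspan_mono hsub ha.1, ha.2⟩
  have hdeg : ∀ φ ∈ inducedIrrAbove K H₁, φ 1 = (K.index : ℂ) := by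
    rintro _ ⟨θ, hθ, -, hA, rfl⟩
    haveI : (H₁.subgroupOf K).Normal := hH.subgroupOf K
    haveI : Fintype (K ⧸ H₁.subgroupOf K) := Fintype.ofFinite _
    obtain ⟨ψ, hψ⟩ := exists_deflate (H₁.subgroupOf K) ⟨θ, hθ⟩ (fun a ha => hA a ha)
    have hZ : (⊤ : Subgroup (K ⧸ H₁.subgroupOf K)) ≤ Subgroup.center _ := by
      intro a _
      rw [Subgroup.mem_center_iff]
      intro b
      obtain ⟨a, rfl⟩ := QuotientGroup.mk'_surjective _ a
      obtain ⟨b, rfl⟩ := QuotientGroup.mk'_surjective _ b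
      refine commutatorElement_eq_one_iff_mul_comm.1 ?_
      rw [← map_commutatorElement]
      exact (QuotientGroup.eq_one_iff _).2 (hK' (Subgroup.commutator_mem_commutator b.2 a.2))
    have h := CfsgLib.InducedCoherence.deg_sq_mul_le ψ ⊤ hZ
    rw [Subgroup.card_top] at h
    have h1 : charDegree (ψ : (K ⧸ H₁.subgroupOf K) → ℂ) = 1 := by
      have hp := charDegree_pos ψ
      have : charDegree (ψ : (K ⧸ H₁.subgroupOf K) → ℂ) ^ 2 ≤ 1 := Nat.le_of_mul_le_mul_right (by rw [one_mul]; exact h) Nat.card_pos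
      nlinarith
    rw [indFun_one, show θ 1 = (ψ : (K ⧸ H₁.subgroupOf K) → ℂ) 1 from congrFun hψ 1, irr_apply_one, h1]
    simp
  obtain ⟨φ, hφ, -⟩ := CfsgLib.InducedCoherence.exists_nontrivial_linear K hsolv H₁ hlt
  exact Cfsg.Agent.S1517.result (inducedIrrAbove K H₁) τ R
    { nonempty := ⟨φ, hφ⟩
      isCharacter := fun χ h => hS.isCharacter χ (hsub h)
      conj_mem := fun χ h => CfsgLib.InducedCoherence.conj_mem_above K H₁ h
      conj_ne := fun χ h => hS.conj_ne χ (hsub h)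
      isometry := ⟨fun a ha b hb => hS.isometry.1 a (hz ha) b (hz hb), fun a ha k => hS.isometry.2.1 a (hz ha) k,
        fun a ha b hb => hS.isometry.2.2.1 a (hz ha) b (hz hb), fun a ha => hS.isometry.2.2.2 a (hz ha)⟩
      map_one := fun a ha => hS.map_one a (hz ha)
      orthogonal := fun χ h ψ h' => hS.orthogonal χ (hsub h) ψ (hsub h')
      orthonormal := fun χ h => hS.orthonormal χ (hsub h)
      virtual := fun χ h => hS.virtual χ (hsub h)
      sum_eq := fun χ h => hS.sum_eq χ (hsub h)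
      disjoint := fun χ h ψ h' => hS.disjoint χ (hsub h) ψ (hsub h') }
    (fun a ha b hb => by rw [hdeg a ha, hdeg b hb])

theorem abstract_prime_power {Y : Type u} [Group Y] [Finite Y] [Group.IsNilpotent Y] {p c : ℕ} (hp : p.Prime)
    (hC : (commutator Y).index = p ^ c) :
    (∃ m, Nat.card Y = p ^ m) ∧ (c ≤ 1 → ∀ a b : Y, a * b = b * a) := by
  haveI := Fact.mk hp
  refine ⟨?_, fun hc1 => ?_⟩
  · obtain ⟨P⟩ : Nonempty (Sylow p Y) := inferInstance
    haveI : (P : Subgroup Y).Normal := inferInstance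
    have htop : (P : Subgroup Y) ⊔ commutator Y = ⊤ := by
      rw [← Subgroup.index_eq_one]
      have h2 : ((P : Subgroup Y) ⊔ commutator Y).index ∣ p ^ c := by
        rw [← hC]; exact Subgroup.index_dvd_of_le le_sup_right
      have h1 : ((P : Subgroup Y) ⊔ commutator Y).index ∣ (P : Subgroup Y).index := Subgroup.index_dvd_of_le le_sup_left
      refine Nat.eq_one_of_dvd_coprimes ?_ h1 h2
      exact Nat.Coprime.pow_right _ ((hp.coprime_iff_not_dvd.2 P.not_dvd_index).symm)
    have := CfsgLib.GroupB.CoprimeAbelian.eq_top_of_sup_commutator_eq_top htop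
    obtain ⟨m, hm⟩ := P.2.exists_card_eq
    exact ⟨m, by rw [← hm, this, Subgroup.card_top]⟩
  · obtain ⟨x, hx⟩ : ∃ x : Y, Subgroup.zpowers x ⊔ commutator Y = ⊤ := by
      by_cases h : commutator Y = ⊤
      · exact ⟨1, by rw [h, sup_top_eq]⟩
      obtain ⟨x, -, hx⟩ := SetLike.exists_of_lt (lt_top_iff_ne_top.2 h)
      refine ⟨x, ?_⟩
      rw [← Subgroup.index_eq_one]
      have hd := Subgroup.index_dvd_of_le (le_sup_right : commutator Y ≤ Subgroup.zpowers x ⊔ commutator Y)
      rw [hC] at hd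
      obtain ⟨j, hj, hj'⟩ := (Nat.dvd_prime_pow hp).1 hd
      rcases Nat.eq_zero_or_pos j with rfl | hj0
      · simpa using hj'
      exfalso
      apply hx
      have he : commutator Y = Subgroup.zpowers x ⊔ commutator Y :=
        Subgroup.eq_of_le_of_card_ge le_sup_right (by
          have a1 := Subgroup.card_mul_index (commutator Y)
          have a2 := Subgroup.card_mul_index (Subgroup.zpowers x ⊔ commutator Y)
          rw [hC] at a1
          rw [hj', ← a1, show j = c by omega] at a2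
          exact le_of_eq (Nat.eq_of_mul_eq_mul_right (pow_pos hp.pos c) a2))
      rw [he]
      exact Subgroup.mem_sup_left (Subgroup.mem_zpowers x)
    have htop := CfsgLib.GroupB.CoprimeAbelian.eq_top_of_sup_commutator_eq_top hx
    intro a b
    obtain ⟨i, hi⟩ := Subgroup.mem_zpowers_iff.1 (htop ▸ Subgroup.mem_top a : a ∈ Subgroup.zpowers x)
    obtain ⟨j, hj⟩ := Subgroup.mem_zpowers_iff.1 (htop ▸ Subgroup.mem_top b : b ∈ Subgroup.zpowers x)
    rw [← hi, ← hj]
    exact zpow_mul_comm x i j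

/-- The abelianisation of a nilpotent section of prime-power index is one of prime-power order. -/
theorem prime_power_of (M : Subgroup L) [M.Normal] (hMK : M ≤ K) (hH₁ : H₁ = ⁅K, K⁆ ⊔ M)
    [(M.subgroupOf K).Normal] (hnil : Group.IsNilpotent (↥K ⧸ M.subgroupOf K)) {p c : ℕ} (hp : p.Prime)
    (hc : H₁.relIndex K = p ^ c) : (∃ m, M.relIndex K = p ^ m) ∧ (c ≤ 1 → ⁅K, K⁆ ≤ M) := by
  classical
  haveI := hnil
  haveI := Fact.mk hp
  set f := QuotientGroup.mk' (M.subgroupOf K) with hf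
  have hfs : Function.Surjective f := QuotientGroup.mk'_surjective _
  have hcomap : (commutator (↥K ⧸ M.subgroupOf K)).comap f = H₁.subgroupOf K := by
    rw [commutator_def, ← Subgroup.map_top_of_surjective f hfs, ← Subgroup.map_commutator, Subgroup.comap_map_eq,
      hf, QuotientGroup.ker_mk', hH₁]
    apply Subgroup.map_injective K.subtype_injective
    rw [Subgroup.map_sup, Subgroup.map_commutator, ← MonoidHom.range_eq_map, Subgroup.range_subtype,
      Subgroup.map_subgroupOf_eq_of_le hMK,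
      Subgroup.map_subgroupOf_eq_of_le (sup_le (Subgroup.commutator_le_left K K) hMK)]
  have hC : (commutator (↥K ⧸ M.subgroupOf K)).index = p ^ c := by
    rw [← Subgroup.index_comap_of_surjective _ hfs, hcomap]; exact hc
  have hcard : Nat.card (↥K ⧸ M.subgroupOf K) = M.relIndex K := (Subgroup.index_eq_card _).symm
  obtain ⟨h1, h2⟩ := abstract_prime_power hp hC
  refine ⟨hcard ▸ h1, fun hc1 => ?_⟩
  rw [Subgroup.commutator_le]
  intro a ha b hb
  have h3 : f ⁅(⟨a, ha⟩ : K), ⟨b, hb⟩⁆ = 1 := by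
    rw [map_commutatorElement, commutatorElement_eq_one_iff_mul_comm]
    exact h2 hc1 _ _
  exact (QuotientGroup.eq_one_iff (N := M.subgroupOf K) _).1 h3

end CfsgLib.FrobeniusSection

open CfsgLib.FrobeniusSection
open scoped commutatorElement

namespace Cfsg.Agent.S1521

/-- Let K be a solvable normal subgroup of the finite group L of odd order and (S, τ, R) a coherence system from L to G with S the functions induced from non-principal irreducible characters of K; S(A) as before. Let M ≤ K be normal in L with K/M nilpotent, H₁ = [K, K] ⊔ M, H₁ < K < L, and suppose every element of K outside H₁ is centralised modulo H₁ only from inside K (L/H₁ is a Frobenius group with kernel K/H₁). Suppose one of the following: some normal subgroup of L lies strictly between H₁ and K; or [K:H₁] > 4[L:K]^2 + 1; or [K:M] is not a prime power; or [K,K] ≤ M; or [K:M] is a power of a prime p with [L:K] dividing p − 1. Then S(M) is coherent. -/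
theorem result {L : Type*} [Group L] [Fintype L] {G : Type*} [Group G] [Fintype G] (K : Subgroup L) [hK : K.Normal] (hsolv : Group.IsSolvable K) (τ : (L → ℂ) → (G → ℂ)) (R : (L → ℂ) → Finset (G → ℂ)) (hS : Cfsg.IsCoherenceSystem (Cfsg.inducedIrrAbove K ⊥) τ R) (hodd : Odd (Nat.card L)) (M : Subgroup L) [M.Normal] (hMK : M ≤ K) [(M.subgroupOf K).Normal] (hnil : Group.IsNilpotent (↥K ⧸ M.subgroupOf K)) (H₁ : Subgroup L) (hH₁ : H₁ = ⁅K, K⁆ ⊔ M) (hH₁K : H₁ < K) (hKL : K < ⊤) (hfrob : ∀ k ∈ K, k ∉ H₁ → ∀ x : L, x * k * x⁻¹ * k⁻¹ ∈ H₁ → x ∈ K) (hgood : (∃ N : Subgroup L, N.Normal ∧ H₁ < N ∧ N < K) ∨ 4 * K.index ^ 2 + 1 < H₁.relIndex K ∨ (¬ ∃ p m : ℕ, p.Prime ∧ M.relIndex K = p ^ m) ∨ ⁅K, K⁆ ≤ M ∨ (∃ p m : ℕ, p.Prime ∧ M.relIndex K = p ^ m ∧ K.index ∣ p - 1)) : Cfsg.IsCoherent (Cfsg.inducedIrrAbove K M) {1}ᶜ τ := by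
  classical
  haveI : H₁.Normal := by rw [hH₁]; infer_instance
  have hK' : ⁅K, K⁆ ≤ H₁ := by rw [hH₁]; exact le_sup_left
  have hMH : M ≤ H₁ := by rw [hH₁]; exact le_sup_right
  have htop := coherent_top K H₁ hsolv hS hK' hH₁K
  have hbigcase : 4 * K.index ^ 2 + 1 < H₁.relIndex K → Cfsg.IsCoherent (Cfsg.inducedIrrAbove K M) {1}ᶜ τ := fun h =>
    Cfsg.Agent.S1520.result K hsolv τ R hS M H₁ K hMH hH₁K.le le_rfl hnil htop h
  have habcase : ⁅K, K⁆ ≤ M → Cfsg.IsCoherent (Cfsg.inducedIrrAbove K M) {1}ᶜ τ := fun h => by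
    have he : H₁ = M := hH₁.trans (sup_eq_right.2 h)
    rwa [← he]
  have hnpp : (∀ p c : ℕ, p.Prime → H₁.relIndex K ≠ p ^ c) → 4 * K.index ^ 2 + 1 < H₁.relIndex K := by
    intro hno
    have hne1 : H₁.relIndex K ≠ 1 := fun h => hH₁K.not_ge (Subgroup.relIndex_eq_one.1 h)
    obtain ⟨p, hp, hpd⟩ := Nat.exists_prime_and_dvd hne1
    haveI := Fact.mk hp
    let f := QuotientGroup.mk' H₁
    have hfs : Function.Surjective f := QuotientGroup.mk'_surjective H₁
    haveI : (K.map f).Normal := hK.map f hfs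
    have hcard : Nat.card (K.map f) = H₁.relIndex K := by
      have := Subgroup.relIndex_ker (f := f) K
      rw [QuotientGroup.ker_mk'] at this
      exact this.symm
    have hab : IsMulCommutative (K.map f) := by
      refine ⟨⟨?_⟩⟩
      rintro ⟨_, a, ha, rfl⟩ ⟨_, b, hb, rfl⟩
      refine Subtype.ext (commutatorElement_eq_one_iff_mul_comm.1 ?_)
      rw [← map_commutatorElement]
      exact (QuotientGroup.eq_one_iff _).2 (hK' (Subgroup.commutator_mem_commutator ha hb))
    obtain ⟨P⟩ : Nonempty (Sylow p (K.map f)) := inferInstance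
    haveI hPn : (P : Subgroup (K.map f)).Normal :=
      ⟨fun x hx g => by rw [hab.is_comm.comm g x, mul_inv_cancel_right]; exact hx⟩
    haveI : (P : Subgroup (K.map f)).Characteristic := P.characteristic_of_normal hPn
    haveI hPn' : ((P : Subgroup (K.map f)).map (K.map f).subtype).Normal := ConjAct.normal_of_characteristic_of_normal
    let N := ((P : Subgroup (K.map f)).map (K.map f).subtype).comap f
    obtain ⟨k, hk⟩ := P.2.exists_card_eq
    have hNK : N ≤ K := fun x hx => by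
      have h1 : f x ∈ K.map f := Subgroup.map_subtype_le _ hx
      obtain ⟨y, hy, he⟩ := h1
      have h2 : y⁻¹ * x ∈ H₁ := QuotientGroup.eq.1 he
      simpa using K.mul_mem hy (hH₁K.le h2)
    refine big_of_between K H₁ hodd hK' hfrob N ?_ (lt_of_le_of_ne hNK ?_)
    · refine lt_of_le_of_ne (fun x hx => ?_) ?_
      · show f x ∈ (P : Subgroup (K.map f)).map (K.map f).subtype
        rw [show f x = 1 from (QuotientGroup.eq_one_iff x).2 hx]
        exact one_mem _
      · intro he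
        have h1 : Nat.card (P : Subgroup (K.map f)) = 1 := by
          rw [Subgroup.card_eq_one, Subgroup.eq_bot_iff_forall]
          rintro ⟨_, a, ha, rfl⟩ hP
          have h2 : a ∈ N := ⟨_, hP, rfl⟩
          rw [← he] at h2
          exact Subtype.ext ((QuotientGroup.eq_one_iff a).2 h2)
        refine P.not_dvd_index ?_
        have h3 := Subgroup.card_mul_index (P : Subgroup (K.map f))
        rw [h1, one_mul, hcard] at h3
        rwa [h3]
    · intro he
      refine hno p k hp ?_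
      rw [← hcard, ← hk]
      have hPtop : (P : Subgroup (K.map f)) = ⊤ := by
        rw [eq_top_iff]
        rintro ⟨_, a, ha, rfl⟩ -
        have h2 : a ∈ N := he.symm ▸ ha
        obtain ⟨y, hy, hye⟩ := h2
        have e : y = ⟨f a, Subgroup.mem_map_of_mem f ha⟩ := Subtype.ext hye
        rw [e] at hy
        exact hy
      rw [hPtop, Subgroup.card_top]
  rcases hgood with ⟨N, hN, h1, h2⟩ | h | h | h | ⟨p, m, hp, hpm, hdvd⟩
  · haveI := hN
    exact hbigcase (big_of_between K H₁ hodd hK' hfrob N h1 h2)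
  · exact hbigcase h
  · refine hbigcase (hnpp fun p c hp hc => h ?_)
    obtain ⟨m, hm⟩ := (prime_power_of K H₁ M hMK hH₁ hnil hp hc).1
    exact ⟨p, m, hp, hm⟩
  · exact habcase h
  · have hd : H₁.relIndex K ∣ p ^ m := hpm ▸ Dvd.intro_left _ (Subgroup.relIndex_mul_relIndex M H₁ K hMH hH₁K.le)
    obtain ⟨c, -, hc⟩ := (Nat.dvd_prime_pow hp).1 hd
    by_cases hc1 : c ≤ 1
    · exact habcase ((prime_power_of K H₁ M hMK hH₁ hnil hp hc).2 hc1)
    · refine hbigcase ?_
      have hpd : p ∣ Nat.card L := by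
        refine ((dvd_pow_self p (by omega : c ≠ 0)).trans hc.symm.dvd).trans ?_
        exact (Subgroup.relIndex_dvd_card _ _).trans (Subgroup.card_subgroup_dvd_card _)
      have h3 := two_mul_add_one_le K hodd hpd hp.ne_one hdvd
      rw [hc]
      have hi : 0 < K.index := Nat.pos_of_ne_zero Subgroup.index_ne_zero_of_finite
      calc 4 * K.index ^ 2 + 1 < (2 * K.index + 1) ^ 2 := by nlinarith
        _ ≤ p ^ 2 := Nat.pow_le_pow_left h3 2
        _ ≤ p ^ c := Nat.pow_le_pow_right hp.pos (by omega)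

end Cfsg.Agent.S1521
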