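import Cfsg.Statements.S1522
import Cfsg.Agent.Lib.InducedCoherence
import Cfsg.Agent.S1517
import Cfsg.Agent.S1521

set_option autoImplicit false
open Cfsg

open Cfsg CfsgLib.Chars CfsgLib.Virtual CfsgLib.Coherence
open scoped commutatorElement

namespace Cfsg.Agent.S1522

/-- Let K be a nilpotent normal subgroup of the finite group L of odd order with [K,K] < K < L and L/[K,K] a Frobenius group with kernel K/[K,K] (elements of K outside [K,K] are centralised modulo [K,K] only from inside K); let (S, τ, R) be a coherence system from L to G with S the functions induced from non-principal irreducible characters of K. Let Z be a nontrivial normal subgroup of L contained in the centre of K, and suppose every member of S outside S(Z) is an irreducible character of L. Then S minus S(Z) is the set of irreducible characters χ of L with χ z ≠ χ 1 for some z ∈ Z, and it is coherent. -/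
theorem result {L : Type*} [Group L] [Fintype L] {G : Type*} [Group G] [Fintype G] (K : Subgroup L) [hK : K.Normal] (hsolv : Group.IsSolvable K) (τ : (L → ℂ) → (G → ℂ)) (R : (L → ℂ) → Finset (G → ℂ)) (hS : Cfsg.IsCoherenceSystem (Cfsg.inducedIrrAbove K ⊥) τ R) (hodd : Odd (Nat.card L)) (hnil : Group.IsNilpotent K) (hH₁K : ⁅K, K⁆ < K) (hKL : K < ⊤) (hfrob : ∀ k ∈ K, k ∉ ⁅K, K⁆ → ∀ x : L, x * k * x⁻¹ * k⁻¹ ∈ ⁅K, K⁆ → x ∈ K) (Z : Subgroup L) [Z.Normal] (hZ1 : Z ≠ ⊥) (hZK : Z ≤ K) (hZc : ∀ z ∈ Z, ∀ k ∈ K, z * k = k * z) (hirr : ∀ χ ∈ Cfsg.inducedIrrAbove K ⊥ \ Cfsg.inducedIrrAbove K Z, Cfsg.IsIrrCharacter L χ) : Cfsg.inducedIrrAbove K ⊥ \ Cfsg.inducedIrrAbove K Z = {χ | Cfsg.IsIrrCharacter L χ ∧ ∃ z ∈ Z, χ z ≠ χ 1} ∧ Cfsg.IsCoherent (Cfsg.inducedIrrAbove K ⊥ \ Cfsg.inducedIrrAbove K Z) {1}ᶜ τ := by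
  classical
  haveI : Fintype K := Fintype.ofFinite _
  have hsetS := CfsgLib.InducedCoherence.above_subset K Z
  have hconstZ : ∀ θ : Cfsg.IrrCharacter K, ∀ χ : L → ℂ, Cfsg.IsCharacter L χ →
      classInner (fun k : K => χ k) (θ : K → ℂ) ≠ 0 → (∀ z ∈ Z, χ z = χ 1) →
      ∀ a : K, (a : L) ∈ Z → (θ : K → ℂ) a = (θ : K → ℂ) 1 := fun θ χ hχ hne hz a ha =>
    CfsgLib.InducedCoherence.constituent_kernel (IsCharacter.restrict hχ K) θ hne (hz a ha)
  have hnotone : ∀ θ : K → ℂ, θ = (fun _ => 1) → ∀ a : K, θ a = θ 1 := fun θ h a => by rw [h]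
  have heq : Cfsg.inducedIrrAbove K ⊥ \ Cfsg.inducedIrrAbove K Z = {χ | Cfsg.IsIrrCharacter L χ ∧ ∃ z ∈ Z, χ z ≠ χ 1} := by
    ext χ
    constructor
    · intro hχ
      refine ⟨hirr χ hχ, ?_⟩
      by_contra hc
      push Not at hc
      obtain ⟨⟨θ, hθ, hθ1, -, rfl⟩, hχZ⟩ := hχ
      refine hχZ ⟨θ, hθ, hθ1, hconstZ ⟨θ, hθ⟩ _ (IsCharacter.indFun K (IsIrrCharacter.isCharacter hθ)) ?_ hc, rfl⟩
      have h := frobenius K θ (indFun_isClassFunction K θ)
      rw [classInner_character_comm (IsCharacter.restrict (IsCharacter.indFun K (IsIrrCharacter.isCharacter hθ)) K) (IsIrrCharacter.isCharacter hθ), ← h]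
      intro h0
      have h1 := congrFun (eq_zero_of_inner_self h0) 1
      rw [indFun_one, Pi.zero_apply] at h1
      exact mul_ne_zero (Nat.cast_ne_zero.2 Subgroup.index_ne_zero_of_finite) (irr_one_ne_zero ⟨θ, hθ⟩) h1
    · rintro ⟨hχi, z, hz, hzne⟩
      have hχc := IsIrrCharacter.isCharacter hχi
      have hres := IsCharacter.restrict hχc K
      obtain ⟨θ, hθ⟩ : ∃ θ : Cfsg.IrrCharacter K, classInner (fun k : K => χ k) (θ : K → ℂ) ≠ 0 := by
        by_contra h
        push Not at h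
        have e := classFunction_expand (IsCharacter.isClassFunction hres) 1
        simp only [h, zero_mul, Finset.sum_const_zero] at e
        exact irr_one_ne_zero ⟨χ, hχi⟩ e
      have hind := IsCharacter.indFun K (isCharacter_irr θ)
      have hne : classInner (indFun K (θ : K → ℂ)) χ ≠ 0 := by
        rw [frobenius K _ (IsCharacter.isClassFunction hχc), classInner_character_comm (isCharacter_irr θ) hres]
        exact hθ
      have hθZ : ¬ ∀ a : K, (a : L) ∈ Z → (θ : K → ℂ) a = (θ : K → ℂ) 1 := fun h => hzne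
        (CfsgLib.InducedCoherence.constituent_kernel hind ⟨χ, hχi⟩ hne
          (CfsgLib.InducedCoherence.indFun_eq_one K h (hZK hz) hz))
      have hθ1 : (θ : K → ℂ) ≠ fun _ => 1 := fun h => hθZ fun a _ => hnotone _ h a
      have hmem : indFun K (θ : K → ℂ) ∈ Cfsg.inducedIrrAbove K ⊥ :=
        ⟨θ, θ.2, hθ1, fun a ha => by rw [Subgroup.mem_bot, OneMemClass.coe_eq_one] at ha; rw [ha], rfl⟩
      have hnot : indFun K (θ : K → ℂ) ∉ Cfsg.inducedIrrAbove K Z := by
        rintro ⟨θ', hθ', -, hZ', he⟩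
        exact hzne (CfsgLib.InducedCoherence.constituent_kernel hind ⟨χ, hχi⟩ hne (by
          rw [he]; exact CfsgLib.InducedCoherence.indFun_eq_one K hZ' (hZK hz) hz))
      have he : indFun K (θ : K → ℂ) = χ := by
        by_contra h
        exact hne (inner_irr_ne (hirr _ ⟨hmem, hnot⟩) hχi h)
      exact he ▸ ⟨hmem, hnot⟩
  refine ⟨heq, ?_⟩
  -- the set is not empty
  haveI hZn' : (Z.subgroupOf K).Normal := (inferInstance : Z.Normal).subgroupOf K
  haveI := finite_irr K
  letI : Fintype (Cfsg.IrrCharacter K) := Fintype.ofFinite _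
  let S := (CfsgLib.InducedCoherence.finite_above K ⊥).toFinset
  let SZ := (CfsgLib.InducedCoherence.finite_above K Z).toFinset
  let T := S \ SZ
  have hT : ∀ φ, φ ∈ T ↔ φ ∈ Cfsg.inducedIrrAbove K ⊥ \ Cfsg.inducedIrrAbove K Z := fun φ => by
    simp [T, S, SZ]
  let d : (L → ℂ) → ℕ := fun φ => charDegree φ
  have hd : ∀ φ ∈ Cfsg.inducedIrrAbove K ⊥, φ 1 = (d φ : ℂ) := fun φ h => IsCharacter.apply_one (hS.isCharacter φ h)
  choose! n hn using fun φ (h : φ ∈ Cfsg.inducedIrrAbove K ⊥) =>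
    exists_mult_character (hS.isCharacter φ h) (hS.isCharacter φ h)
  have hn1 : ∀ φ ∈ T, n φ = 1 := fun φ h => by
    have h' := (hT φ).1 h
    have := (hn φ h'.1).symm.trans (inner_irr_self (hirr φ h'))
    exact_mod_cast this
  have hsum : ∑ φ ∈ T, (d φ : ℝ) ^ 2 = (K.index : ℝ) * ((Z.relIndex K : ℝ) * ((Nat.card Z : ℝ) - 1)) := by
    have h1 := CfsgLib.InducedCoherence.sum_sq_div K hS ⊥ S (CfsgLib.InducedCoherence.finite_above K ⊥).coe_toFinset d n hd hn
    have h2 := CfsgLib.InducedCoherence.sum_sq_div K hS Z SZ (CfsgLib.InducedCoherence.finite_above K Z).coe_toFinset d n hd hn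
    have hsub : SZ ⊆ S := fun φ h => by
      simp only [SZ, S, Set.Finite.mem_toFinset] at h ⊢
      exact hsetS h
    rw [← Finset.sum_sdiff hsub, h2, Subgroup.relIndex_bot_left] at h1
    have h3 : ∑ φ ∈ T, ((d φ : ℝ) ^ 2 / (n φ : ℝ)) = ∑ φ ∈ T, (d φ : ℝ) ^ 2 :=
      Finset.sum_congr rfl fun φ h => by rw [hn1 φ h, Nat.cast_one, div_one]
    rw [h3] at h1
    have h4 : (Nat.card K : ℝ) = (Nat.card Z : ℝ) * (Z.relIndex K : ℝ) := by
      rw [← Subgroup.card_mul_index (Z.subgroupOf K), Nat.card_congr (Subgroup.subgroupOfEquivOfLe hZK).toEquiv]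
      push_cast; rfl
    rw [h4] at h1
    linarith
  have hipos : 0 < K.index := Nat.pos_of_ne_zero Subgroup.index_ne_zero_of_finite
  have hQpos : 0 < Z.relIndex K := Nat.pos_of_ne_zero Subgroup.index_ne_zero_of_finite
  have hZ2 : 2 ≤ Nat.card Z := (Subgroup.one_lt_card_iff_ne_bot Z).2 hZ1
  have hTne : T.Nonempty := by
    rw [Finset.nonempty_iff_ne_empty]
    intro he
    rw [he, Finset.sum_empty] at hsum
    have : (0 : ℝ) < (K.index : ℝ) * ((Z.relIndex K : ℝ) * ((Nat.card Z : ℝ) - 1)) := by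
      refine mul_pos (by exact_mod_cast hipos) (mul_pos (by exact_mod_cast hQpos) ?_)
      have : (2 : ℝ) ≤ (Nat.card Z : ℝ) := by exact_mod_cast hZ2
      linarith
    linarith
  have hTc : ∀ φ ∈ T, conjFun φ ∈ T := fun φ h => by
    have h' := (hT φ).1 h
    refine (hT _).2 ⟨hS.conj_mem φ h'.1, fun hc => h'.2 ?_⟩
    have := CfsgLib.InducedCoherence.conj_mem_above K Z hc
    rwa [show conjFun (conjFun φ) = φ from funext fun g => Complex.conj_conj _] at this
  by_cases hpp : ∃ p m : ℕ, p.Prime ∧ (⊥ : Subgroup L).relIndex K = p ^ m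
  swap
  · -- the whole set is coherent
    haveI : ((⊥ : Subgroup L).subgroupOf K).Normal := (inferInstance : (⊥ : Subgroup L).Normal).subgroupOf K
    haveI := hnil
    have hall := Cfsg.Agent.S1521.result K hsolv τ R hS hodd ⊥ bot_le
      (Group.nilpotent_of_surjective (QuotientGroup.mk' _) (QuotientGroup.mk'_surjective _)) ⁅K, K⁆ (sup_bot_eq _).symm
      hH₁K hKL hfrob (Or.inr (Or.inr (Or.inl hpp)))
    obtain ⟨-, τ₁, h1, h2⟩ := hall
    obtain ⟨φ, hφ⟩ := hTne
    have hφ' := (hT φ).1 hφ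
    have hm := zspan_mono (Set.diff_subset (s := Cfsg.inducedIrrAbove K ⊥) (t := Cfsg.inducedIrrAbove K Z))
    refine ⟨⟨φ - conjFun φ, mem_zspanOn_one.2 ⟨zspan_sub (mem_zspan hφ') (mem_zspan ((hT _).1 (hTc φ hφ))), ?_⟩, ?_⟩, ?_⟩
    · rw [Pi.sub_apply, conjFun_one_real (hS.isCharacter φ hφ'.1), sub_self]
    · exact sub_ne_zero.2 (hS.conj_ne φ hφ'.1).symm
    exact ⟨τ₁, ⟨fun a ha b hb => h1.1 a (hm ha) b (hm hb), fun a ha k => h1.2.1 a (hm ha) k,
      fun a ha b hb => h1.2.2.1 a (hm ha) b (hm hb), fun a ha => h1.2.2.2 a (hm ha)⟩, fun α hα => h2 α ⟨hm hα.1, hα.2⟩⟩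
  obtain ⟨p, m, hp, hpm⟩ := hpp
  rw [Subgroup.relIndex_bot_left] at hpm
  have hp3 : 3 ≤ p := by
    rcases Nat.eq_zero_or_pos m with rfl | hm0
    · exfalso
      refine hH₁K.not_ge ?_
      rw [Subgroup.card_eq_one.1 (by rw [hpm, pow_zero] : Nat.card K = 1)]
      exact bot_le
    have h2 : Odd p := hodd.of_dvd_nat ((dvd_pow_self p hm0.ne').trans (hpm ▸ Subgroup.card_subgroup_dvd_card K))
    have := hp.two_le
    obtain ⟨c, hc⟩ := h2
    omega
  have hcop : K.index.Coprime p := by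
    have hdv := CfsgLib.FrobeniusSection.index_dvd K ⁅K, K⁆ le_rfl hfrob K hH₁K.le le_rfl
    have hd' : (⁅K, K⁆ : Subgroup L).relIndex K ∣ p ^ m := hpm ▸ Subgroup.relIndex_dvd_card _ _
    obtain ⟨c, -, hc⟩ := (Nat.dvd_prime_pow hp).1 hd'
    have hc0 : c ≠ 0 := fun h => hH₁K.not_ge (Subgroup.relIndex_eq_one.1 (by rw [hc, h, pow_zero]))
    refine (hp.coprime_iff_not_dvd.2 fun h => ?_).symm
    have h2 : p ∣ p ^ c - 1 := by rw [← hc]; exact h.trans hdv
    have h3 : p ∣ p ^ c := dvd_pow_self p hc0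
    have h4 := Nat.dvd_sub h3 h2
    have h5 : p ^ c - (p ^ c - 1) = 1 := by
      have := Nat.one_le_pow c p hp.pos
      omega
    rw [h5] at h4
    exact hp.not_dvd_one h4
  have hdeg : ∀ φ ∈ T, ∃ i, d φ = K.index * p ^ i ∧ i ≤ m ∧ p ^ (2 * i) ∣ Z.relIndex K := by
    intro φ hφ
    obtain ⟨⟨θ, hθ, hθ1, -, rfl⟩, -⟩ := (hT _).1 hφ
    obtain ⟨i, him, hi⟩ := (Nat.dvd_prime_pow hp).1 (hpm ▸ charDegree_dvd (⟨θ, hθ⟩ : Cfsg.IrrCharacter K))
    refine ⟨i, ?_, him, ?_⟩
    · have h := hd _ ((hT _).1 hφ).1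
      rw [indFun_one, IsCharacter.apply_one (IsIrrCharacter.isCharacter hθ), show charDegree θ = p ^ i from hi] at h
      exact_mod_cast h.symm
    · have hb := CfsgLib.InducedCoherence.deg_sq_le K ⊥ K Z bot_le hZK le_rfl
        (fun x hx y hy => by rw [Subgroup.mem_bot, hZc x hx y hy]; group) ⟨θ, hθ⟩
        (fun a ha => by rw [Subgroup.mem_bot, OneMemClass.coe_eq_one] at ha; rw [ha])
      rw [Subgroup.relIndex_self, one_pow, one_mul, show charDegree θ = p ^ i from hi, ← pow_mul, mul_comm i 2] at hb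
      obtain ⟨j, -, hj⟩ := (Nat.dvd_prime_pow hp).1 (hpm ▸ Subgroup.relIndex_dvd_card Z K : Z.relIndex K ∣ p ^ m)
      rw [hj] at hb ⊢
      exact pow_dvd_pow p ((Nat.pow_le_pow_iff_right hp.one_lt).1 hb)
  have hnat : ∑ φ ∈ T, d φ ^ 2 = K.index * (Z.relIndex K * (Nat.card Z - 1)) := by
    have : ((∑ φ ∈ T, d φ ^ 2 : ℕ) : ℝ) = ((K.index * (Z.relIndex K * (Nat.card Z - 1)) : ℕ) : ℝ) := by
      push_cast [Nat.cast_sub (le_trans one_le_two hZ2)]
      exact hsum
    exact_mod_cast this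
  let V : ℕ → Finset (L → ℂ) := fun k => T.filter fun φ => d φ < K.index * p ^ k
  have hVc : ∀ k, ∀ φ ∈ V k, conjFun φ ∈ V k := fun k φ h => by
    obtain ⟨h1, h2⟩ := Finset.mem_filter.1 h
    refine Finset.mem_filter.2 ⟨hTc φ h1, ?_⟩
    have e : d (conjFun φ) = d φ := by
      have h3 := hd _ ((hT _).1 (hTc φ h1)).1
      rw [conjFun_one_real (hS.isCharacter φ ((hT φ).1 h1).1), hd φ ((hT φ).1 h1).1] at h3
      exact_mod_cast h3.symm
    rwa [e]
  have main : ∀ k, (V k).Nonempty → Cfsg.IsCoherent (↑(V k) : Set (L → ℂ)) {1}ᶜ τ := by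
    intro k
    induction k with
    | zero =>
      rintro ⟨φ, hφ⟩
      obtain ⟨h1, h2⟩ := Finset.mem_filter.1 hφ
      obtain ⟨i, hi, -⟩ := hdeg φ h1
      rw [hi, pow_zero] at h2
      have := Nat.one_le_pow i p hp.pos
      nlinarith
    | succ k ih =>
      intro hne
      have hnew : ∀ φ ∈ V (k + 1), φ ∉ V k → d φ = K.index * p ^ k ∧ p ^ (2 * k) ∣ Z.relIndex K := by
        intro φ h h'
        obtain ⟨h1, h2⟩ := Finset.mem_filter.1 h
        obtain ⟨i, hi, -, hiQ⟩ := hdeg φ h1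
        rw [hi] at h2
        have a1 : i < k + 1 := (Nat.pow_lt_pow_iff_right hp.one_lt).1 (Nat.lt_of_mul_lt_mul_left h2)
        have a2 : ¬ i < k := fun hlt => h' (Finset.mem_filter.2 ⟨h1, by
          rw [hi]; exact Nat.mul_lt_mul_of_pos_left (Nat.pow_lt_pow_right hp.one_lt hlt) hipos⟩)
        obtain rfl : i = k := by omega
        exact ⟨hi, hiQ⟩
      have hsubV : ∀ j, (↑(V j) : Set (L → ℂ)) ⊆ Cfsg.inducedIrrAbove K ⊥ := fun j φ h =>
        ((hT φ).1 (Finset.mem_filter.1 h).1).1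
      by_cases hVk : (V k).Nonempty
      · have step : ∀ W : Finset (L → ℂ), W ⊆ V (k + 1) → ∃ U : Finset (L → ℂ), V k ⊆ U ∧ W ⊆ U ∧ U ⊆ V (k + 1) ∧
            (∀ φ ∈ U, conjFun φ ∈ U) ∧ Cfsg.IsCoherent (↑U : Set (L → ℂ)) {1}ᶜ τ := by
          intro W
          induction W using Finset.induction_on with
          | empty =>
            intro _
            refine ⟨V k, le_rfl, Finset.empty_subset _, fun φ h => ?_, hVc k, ih hVk⟩
            obtain ⟨h1, h2⟩ := Finset.mem_filter.1 h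
            exact Finset.mem_filter.2 ⟨h1, h2.trans_le (Nat.mul_le_mul_left _ (Nat.pow_le_pow_right hp.pos (Nat.le_succ k)))⟩
          | insert χ W _ ihW =>
            intro hW
            obtain ⟨U, hU0, hUW, hUV, hUc, hUcoh⟩ := ihW fun φ h => hW (Finset.mem_insert_of_mem h)
            by_cases hχU : χ ∈ U
            · exact ⟨U, hU0, Finset.insert_subset hχU hUW, hUV, hUc, hUcoh⟩
            have hχV := hW (Finset.mem_insert_self χ W)
            obtain ⟨hdχ, hkQ⟩ := hnew χ hχV fun h => hχU (hU0 h)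
            have hcc : conjFun (conjFun χ) = χ := funext fun g => Complex.conj_conj _
            have hχc : conjFun χ ∉ U := fun h => hχU (hcc ▸ hUc _ h)
            obtain ⟨χ₁, hχ₁, hmin⟩ := Finset.exists_min_image (V k) d hVk
            obtain ⟨hχ₁T, hχ₁lt⟩ := Finset.mem_filter.1 hχ₁
            obtain ⟨i, hi, -⟩ := hdeg χ₁ hχ₁T
            have hik : i < k := by
              rw [hi] at hχ₁lt
              exact (Nat.pow_lt_pow_iff_right hp.one_lt).1 (Nat.lt_of_mul_lt_mul_left hχ₁lt)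
            have hdvd : d χ₁ ∣ d χ := by rw [hi, hdχ]; exact Nat.mul_dvd_mul_left _ (pow_dvd_pow p hik.le)
            have hbig : K.index ^ 2 * p ^ (2 * k) ≤ ∑ φ ∈ V k, d φ ^ 2 := by
              refine Nat.le_of_dvd ?_ ((hcop.pow 2 (2 * k)).mul_dvd_of_dvd_of_dvd ?_ ?_)
              · refine Finset.sum_pos (fun φ h => ?_) hVk
                obtain ⟨j, hj, -⟩ := hdeg φ (Finset.mem_filter.1 h).1
                rw [hj]; exact pow_pos (Nat.mul_pos hipos (pow_pos hp.pos _)) 2
              · refine Finset.dvd_sum fun φ h => ?_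
                obtain ⟨j, hj, -⟩ := hdeg φ (Finset.mem_filter.1 h).1
                rw [hj, mul_pow]; exact dvd_mul_right _ _
              · have h1 := Finset.sum_filter_add_sum_filter_not T (fun φ => d φ < K.index * p ^ k) (fun φ => d φ ^ 2)
                rw [hnat] at h1
                have h2 : p ^ (2 * k) ∣ ∑ φ ∈ T.filter (fun φ => ¬ d φ < K.index * p ^ k), d φ ^ 2 := by
                  refine Finset.dvd_sum fun φ h => ?_
                  obtain ⟨ha, hb⟩ := Finset.mem_filter.1 h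
                  obtain ⟨j, hj, -⟩ := hdeg φ ha
                  rw [hj] at hb ⊢
                  have hkj : k ≤ j := by
                    by_contra hlt
                    exact hb (Nat.mul_lt_mul_of_pos_left (Nat.pow_lt_pow_right hp.one_lt (not_le.1 hlt)) hipos)
                  rw [mul_pow, ← pow_mul, mul_comm j 2]
                  exact (pow_dvd_pow p (by omega)).trans (dvd_mul_left _ _)
                exact (Nat.dvd_add_left h2).1 (h1 ▸ (hkQ.trans ((dvd_mul_right _ _).trans (dvd_mul_left _ _))))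
            have hineq : (2 * d χ * d χ₁ : ℝ) < ∑ φ ∈ U, ((d φ : ℝ) ^ 2 / (n φ : ℝ)) := by
              refine lt_of_lt_of_le ?_ (Finset.sum_le_sum_of_subset_of_nonneg hU0 fun φ _ _ => by positivity)
              rw [Finset.sum_congr rfl fun φ h => by rw [hn1 φ (Finset.mem_filter.1 h).1, Nat.cast_one, div_one]]
              refine lt_of_lt_of_le ?_ (by exact_mod_cast hbig : ((K.index ^ 2 * p ^ (2 * k) : ℕ) : ℝ) ≤ ∑ φ ∈ V k, (d φ : ℝ) ^ 2)
              rw [hdχ, hi]
              have : 2 * (K.index * p ^ k) * (K.index * p ^ i) < K.index ^ 2 * p ^ (2 * k) := by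
                have hlt2 : 2 * p ^ i < p ^ k := by
                  calc 2 * p ^ i < p * p ^ i := Nat.mul_lt_mul_of_pos_right (by omega) (pow_pos hp.pos i)
                    _ = p ^ (i + 1) := (pow_succ' p i).symm
                    _ ≤ p ^ k := Nat.pow_le_pow_right hp.pos hik
                calc 2 * (K.index * p ^ k) * (K.index * p ^ i) = K.index ^ 2 * p ^ k * (2 * p ^ i) := by ring
                  _ < K.index ^ 2 * p ^ k * p ^ k := Nat.mul_lt_mul_of_pos_left hlt2 (Nat.mul_pos (pow_pos hipos 2) (pow_pos hp.pos k))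
                  _ = _ := by ring
              exact_mod_cast this
            have h := Cfsg.Agent.S1516.result _ τ R hS d n hd hn U (fun φ h => hsubV _ (hUV h)) hUc hUcoh χ
              (hsubV _ hχV) hχU hχc χ₁ (hU0 hχ₁) hdvd hineq
            refine ⟨insert χ (insert (conjFun χ) U),
              hU0.trans ((Finset.subset_insert _ _).trans (Finset.subset_insert _ _)),
              Finset.insert_subset (Finset.mem_insert_self _ _) (hUW.trans ((Finset.subset_insert _ _).trans (Finset.subset_insert _ _))),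
              Finset.insert_subset hχV (Finset.insert_subset (hVc _ χ hχV) hUV), ?_, ?_⟩
            · intro φ hφ
              simp only [Finset.mem_insert] at hφ ⊢
              rcases hφ with rfl | rfl | hφ
              exacts [Or.inr (Or.inl rfl), Or.inl hcc, Or.inr (Or.inr (hUc φ hφ))]
            · convert h using 1
              ext φ
              simp only [Finset.coe_insert, Set.mem_insert_iff, Set.mem_union, Set.mem_singleton_iff]
              tauto
        obtain ⟨U, -, hWU, hUV, -, hUcoh⟩ := step (V (k + 1)) le_rfl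
        rwa [le_antisymm hWU hUV]
      · -- a single degree
        have hall : ∀ φ ∈ V (k + 1), d φ = K.index * p ^ k := fun φ h => (hnew φ h fun h' => hVk ⟨φ, h'⟩).1
        have hsub := hsubV (k + 1)
        have hz : ∀ {a}, a ∈ zspanOn (↑(V (k + 1)) : Set (L → ℂ)) {1}ᶜ → a ∈ zspanOn (Cfsg.inducedIrrAbove K ⊥) {1}ᶜ :=
          fun {a} ha => ⟨zspan_mono hsub ha.1, ha.2⟩
        exact Cfsg.Agent.S1517.result (↑(V (k + 1)) : Set (L → ℂ)) τ R
          { nonempty := hne
            isCharacter := fun χ h => hS.isCharacter χ (hsub h)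
            conj_mem := fun χ h => hVc _ χ h
            conj_ne := fun χ h => hS.conj_ne χ (hsub h)
            isometry := ⟨fun a ha b hb => hS.isometry.1 a (hz ha) b (hz hb), fun a ha j => hS.isometry.2.1 a (hz ha) j,
              fun a ha b hb => hS.isometry.2.2.1 a (hz ha) b (hz hb), fun a ha => hS.isometry.2.2.2 a (hz ha)⟩
            map_one := fun a ha => hS.map_one a (hz ha)
            orthogonal := fun χ h ψ h' => hS.orthogonal χ (hsub h) ψ (hsub h')
            orthonormal := fun χ h => hS.orthonormal χ (hsub h)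
            virtual := fun χ h => hS.virtual χ (hsub h)
            sum_eq := fun χ h => hS.sum_eq χ (hsub h)
            disjoint := fun χ h ψ h' => hS.disjoint χ (hsub h) ψ (hsub h') }
          (fun a ha b hb => by rw [hd a (hsub ha), hd b (hsub hb), hall a ha, hall b hb])
  have hVT : V (m + 1) = T := Finset.filter_true_of_mem fun φ h => by
    obtain ⟨i, hi, him, -⟩ := hdeg φ h
    rw [hi]
    exact Nat.mul_lt_mul_of_pos_left (Nat.pow_lt_pow_right hp.one_lt (Nat.lt_succ_of_le him)) hipos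
  have hfin := main (m + 1) (by rw [hVT]; exact hTne)
  rw [hVT] at hfin
  rwa [show (↑T : Set (L → ℂ)) = Cfsg.inducedIrrAbove K ⊥ \ Cfsg.inducedIrrAbove K Z from Set.ext fun φ => hT φ] at hfin

end Cfsg.Agent.S1522
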