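import Cfsg.Statements.S1523
import Mathlib
import Cfsg.Agent.Lib.Sibley

set_option autoImplicit false
open Cfsg

namespace CfsgLib.CongruenceTI

open Cfsg CfsgLib.Chars

universe u

variable {G : Type u} [Group G] [Fintype G]

open Classical in
theorem congruence {p : ℕ} [Fact p.Prime] (P : Sylow p G) (hTI : IsTISubset ((P : Subgroup G) : Set G))
    (hodd : Odd (Nat.card (Subgroup.normalizer ((P : Subgroup G) : Set G)))) (Z : Subgroup G) (hZP : Z ≤ P)
    (hZn : ∀ x ∈ Subgroup.normalizer ((P : Subgroup G) : Set G), ∀ z ∈ Z, x * z * x⁻¹ ∈ Z)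
    (hZc : ∀ z ∈ Z, ∀ y ∈ (P : Subgroup G), z * y = y * z) (θ : IrrCharacter G) (t : ℂ)
    (ht : ∀ y ∈ Z, y ≠ 1 → (θ : G → ℂ) y = t) (z : G) (hz : z ∈ Z) (hz1 : z ≠ 1) :
    ∃ e : ℕ, ¬ p ∣ e ∧ IsIntegral ℤ ((e : ℂ) * ((θ : G → ℂ) 1 - t) / (Nat.card (P : Subgroup G) : ℂ)) := by
  set Q : Subgroup G := (P : Subgroup G) with hQ
  haveI : Fintype Q := Fintype.ofFinite Q
  have hclassθ := IsCharacter.isClassFunction (isCharacter_irr θ)
  have hmove : ∀ g : G, ∀ h ∈ Q, h ≠ 1 → g * h * g⁻¹ ∈ Q → g ∈ Subgroup.normalizer (Q : Set G) :=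
    fun g h hh h1 hg => by
      by_contra hgn
      exact h1 (hTI g hgn h hh hg)
  -- a `p`-element of the normalizer lies in `P`
  have hpmem : ∀ w ∈ Z, ∀ y : G, IsConj w y → y ∈ Subgroup.normalizer (Q : Set G) → y ∈ Q := by
    intro w hw y hy hyn
    obtain ⟨c, rfl⟩ := isConj_iff.1 hy
    obtain ⟨n, hn⟩ := IsPGroup.iff_orderOf.1 P.isPGroup' ⟨w, hZP hw⟩
    let N := Subgroup.normalizer (Q : Set G)
    haveI : (Q.subgroupOf N).Normal := Subgroup.normal_in_normalizer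
    have hyo : orderOf (c * w * c⁻¹) = p ^ n := by
      rw [show c * w * c⁻¹ = MulAut.conj c w from rfl, MulEquiv.orderOf_eq]
      rw [← Subgroup.orderOf_coe] at hn
      exact hn
    have hcop : (p ^ n).Coprime (Q.subgroupOf N).index := by
      refine Nat.Coprime.pow_left n ((Fact.out : p.Prime).coprime_iff_not_dvd.2 fun h => P.not_dvd_index (h.trans ?_))
      rw [show (Q.subgroupOf N).index = Q.relIndex N from rfl]
      exact Subgroup.relIndex_dvd_index_of_le Subgroup.le_normalizer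
    have h1 : orderOf (QuotientGroup.mk' (Q.subgroupOf N) (⟨_, hyn⟩ : N)) = 1 := by
      refine Nat.eq_one_of_dvd_coprimes hcop ?_ ?_
      · rw [← hyo]
        exact (orderOf_map_dvd _ _).trans (by rw [← Subgroup.orderOf_coe])
      · exact (orderOf_dvd_natCard _).trans (by rw [Subgroup.index])
    exact (QuotientGroup.eq_one_iff (N := Q.subgroupOf N) (⟨_, hyn⟩ : N)).1 (orderOf_eq_one_iff.1 h1)
  have hin : ∀ w ∈ Z, w ≠ 1 → ∀ h ∈ Q, IsConj w h →
      h ∈ Z ∧ h ≠ 1 ∧ ∃ c ∈ Subgroup.normalizer (Q : Set G), h = c * w * c⁻¹ := by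
    intro w hw hw1 h hh hconj
    obtain ⟨c, rfl⟩ := isConj_iff.1 hconj
    have hc := hmove c w (hZP hw) hw1 hh
    exact ⟨hZn c hc w hw, fun e => hw1 (conj_eq_one_iff.1 e), c, hc, rfl⟩
  have hnotinv : ∀ l ∈ Subgroup.normalizer (Q : Set G), l * z * l⁻¹ ≠ z⁻¹ := by
    intro l hl hlz
    have h2 : (l * l) * z * (l * l)⁻¹ = z := by
      calc (l * l) * z * (l * l)⁻¹ = l * (l * z * l⁻¹) * l⁻¹ := by group
        _ = l * z⁻¹ * l⁻¹ := by rw [hlz]
        _ = (l * z * l⁻¹)⁻¹ := by group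
        _ = z := by rw [hlz, inv_inv]
    obtain ⟨k, hk⟩ := hodd
    have hpowl : l ^ (2 * k + 1) = 1 := by
      rw [← hk]
      exact congrArg Subtype.val (pow_card_eq_one' (x := (⟨l, hl⟩ : Subgroup.normalizer (Q : Set G))))
    have hcomm : Commute (l * l) z := by
      calc (l * l) * z = (l * l) * z * (l * l)⁻¹ * (l * l) := by group
        _ = z * (l * l) := by rw [h2]
    have hl' : Commute l z := by
      have hp' : (l * l) ^ (k + 1) = l := by
        rw [← pow_two, ← pow_mul, show 2 * (k + 1) = (2 * k + 1) + 1 by omega, pow_succ, hpowl, one_mul]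
      rw [← hp']
      exact hcomm.pow_left _
    rw [hl'.eq, mul_inv_cancel_right] at hlz
    refine hz1 ?_
    have hzn : z ∈ Subgroup.normalizer (Q : Set G) := Subgroup.le_normalizer (hZP hz)
    have hpowz : z ^ (2 * k + 1) = 1 := by
      rw [← hk]
      exact congrArg Subtype.val (pow_card_eq_one' (x := (⟨z, hzn⟩ : Subgroup.normalizer (Q : Set G))))
    rw [pow_succ, pow_mul, pow_two] at hpowz
    nth_rewrite 2 [hlz] at hpowz
    rwa [mul_inv_cancel, one_pow, one_mul] at hpowz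
  let K : Finset G := Finset.univ.filter fun x => IsConj z x
  let PF : Finset G := Finset.univ.filter fun x => x ∈ Q
  have hrest : ∀ w ∈ Z, w ≠ 1 → ∃ r : ℂ, IsIntegral ℤ r ∧
      (∑ x ∈ K ×ˢ (Finset.univ.filter fun x => IsConj w x), (θ : G → ℂ) (x.1 * x.2)) =
      (∑ x ∈ (K ∩ PF) ×ˢ ((Finset.univ.filter fun x => IsConj w x) ∩ PF), (θ : G → ℂ) (x.1 * x.2)) +
        (Nat.card Q : ℂ) * r := by
    intro w hw hw1
    set Kw := Finset.univ.filter fun x => IsConj w x with hKw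
    let U : Finset (G × G) := (K ×ˢ Kw).filter fun x => ¬ (x.1 ∈ PF ∧ x.2 ∈ PF)
    have hstab : ∀ (k : Q) (x : G), (k : G) * x * (k : G)⁻¹ ∈ PF ↔ x ∈ PF := by
      intro k x
      simp only [PF, Finset.mem_filter, Finset.mem_univ, true_and]
      refine ⟨fun h => ?_, fun h => Q.mul_mem (Q.mul_mem k.2 h) (Q.inv_mem k.2)⟩
      simpa [mul_assoc] using Q.mul_mem (Q.mul_mem (Q.inv_mem k.2) h) k.2
    have hconjK : ∀ (a c x : G), IsConj a x → IsConj a (c * x * c⁻¹) := fun a c x h =>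
      h.trans (isConj_iff.2 ⟨c, rfl⟩)
    letI : MulAction Q {x : G × G // x ∈ U} :=
      { smul := fun k x => ⟨((k : G) * x.1.1 * (k : G)⁻¹, (k : G) * x.1.2 * (k : G)⁻¹), by
          have := x.2
          simp only [U, K, hKw, Finset.mem_filter, Finset.mem_product, Finset.mem_univ, true_and] at this ⊢
          rw [hstab k, hstab k]
          exact ⟨⟨hconjK _ _ _ this.1.1, hconjK _ _ _ this.1.2⟩, this.2⟩⟩
        one_smul := fun x => Subtype.ext (by simp [HSMul.hSMul, SMul.smul])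
        mul_smul := fun a b x => Subtype.ext (by simp [HSMul.hSMul, SMul.smul, mul_assoc]) }
    obtain ⟨r, hr, hsum⟩ := CfsgLib.Sibley.free_sum (K := Q) (Ω := {x : G × G // x ∈ U})
      (fun x => (θ : G → ℂ) (x.1.1 * x.1.2))
      (fun k x => by
        show (θ : G → ℂ) ((k : G) * x.1.1 * (k : G)⁻¹ * ((k : G) * x.1.2 * (k : G)⁻¹)) = _
        rw [show (k : G) * x.1.1 * (k : G)⁻¹ * ((k : G) * x.1.2 * (k : G)⁻¹) =
          (k : G) * (x.1.1 * x.1.2) * (k : G)⁻¹ by group]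
        exact hclassθ _ _)
      (fun k x hk => by
        have h1 : (k : G) * x.1.1 * (k : G)⁻¹ = x.1.1 := congrArg (fun y => y.1.1) hk
        have h2 : (k : G) * x.1.2 * (k : G)⁻¹ = x.1.2 := congrArg (fun y => y.1.2) hk
        have hx := x.2
        simp only [U, K, hKw, Finset.mem_filter, Finset.mem_product, Finset.mem_univ, true_and] at hx
        by_contra hk1
        have hk1' : (k : G) ≠ 1 := fun e => hk1 (Subtype.ext e)
        have key : ∀ y : G, (k : G) * y * (k : G)⁻¹ = y → y ∈ Subgroup.normalizer (Q : Set G) := fun y hy => by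
          refine hmove y k k.2 hk1' ?_
          have : y * (k : G) * y⁻¹ = k := by
            calc y * (k : G) * y⁻¹ = (k : G) * y * (k : G)⁻¹ * (k : G) * y⁻¹ := by rw [hy]
              _ = k := by group
          rw [this]; exact k.2
        refine hx.2 ⟨Finset.mem_filter.2 ⟨Finset.mem_univ _, hpmem z hz _ hx.1.1 (key _ h1)⟩,
          Finset.mem_filter.2 ⟨Finset.mem_univ _, hpmem w hw _ hx.1.2 (key _ h2)⟩⟩)
      (fun x => IsCharacter.isIntegral (isCharacter_irr θ) _)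
    refine ⟨r, hr, ?_⟩
    rw [← hsum, ← Finset.sum_filter_add_sum_filter_not (K ×ˢ Kw) (fun x => x.1 ∈ PF ∧ x.2 ∈ PF),
      ← Finset.sum_subtype U (fun _ => Iff.rfl) (fun x : G × G => (θ : G → ℂ) (x.1 * x.2))]
    congr 1
    refine Finset.sum_congr ?_ fun _ _ => rfl
    ext x
    simp only [Finset.mem_filter, Finset.mem_product, Finset.mem_inter]
    tauto
  have hω : ∀ w : G, (∑ x ∈ K ×ˢ (Finset.univ.filter fun x => IsConj w x), (θ : G → ℂ) (x.1 * x.2)) =
      (θ : G → ℂ) 1 * (omega (θ : G → ℂ) (classInd z) * omega (θ : G → ℂ) (classInd w)) := by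
    intro w
    rw [← omega_conv θ (classInd_isClassFunction _) (classInd_isClassFunction _), omega,
      mul_div_cancel₀ _ (irr_one_ne_zero θ)]
    simp only [CfsgLib.Chars.conv, Finset.sum_mul]
    rw [Finset.sum_comm, Finset.sum_product]
    simp only [K, classInd, Finset.sum_filter]
    refine Finset.sum_congr rfl fun y _ => ?_
    by_cases hy : IsConj z y
    · rw [if_pos hy]
      refine Fintype.sum_equiv (Equiv.mulLeft y) _ _ fun x => ?_
      simp [hy, -isConj_iff]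
    · simp [hy, -isConj_iff]
  have heq : omega (θ : G → ℂ) (classInd z⁻¹) = omega (θ : G → ℂ) (classInd z) := by
    rw [omega_classInd hclassθ, omega_classInd hclassθ]
    simp only [centralChar]
    rw [ht z hz hz1, ht z⁻¹ (Z.inv_mem hz) (inv_ne_one.2 hz1)]
    congr 4
    ext g
    simp only [Subgroup.mem_centralizer_singleton_iff]
    exact ⟨fun h => (Commute.inv_right_iff (a := g) (b := z)).1 h, fun h => (Commute.inv_right_iff (a := g) (b := z)).2 h⟩
  obtain ⟨r, hr, h1⟩ := hrest z hz hz1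
  obtain ⟨r', hr', h2⟩ := hrest z⁻¹ (Z.inv_mem hz) (inv_ne_one.2 hz1)
  rw [hω] at h1 h2
  rw [heq] at h2
  set O := K ∩ PF with hO
  set O' := (Finset.univ.filter fun x => IsConj z⁻¹ x) ∩ PF with hO'
  have hmemO : ∀ x ∈ O, x ∈ Z ∧ x ≠ 1 ∧ ∃ c ∈ Subgroup.normalizer (Q : Set G), x = c * z * c⁻¹ := by
    intro x hx
    simp only [hO, K, PF, Finset.mem_inter, Finset.mem_filter, Finset.mem_univ, true_and] at hx
    exact hin z hz hz1 x hx.2 hx.1
  have hinvO : ∀ x, x ∈ O' ↔ x⁻¹ ∈ O := by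
    intro x
    simp only [hO, hO', K, PF, Finset.mem_inter, Finset.mem_filter, Finset.mem_univ, true_and]
    constructor
    · rintro ⟨hc, hx⟩
      obtain ⟨c, rfl⟩ := isConj_iff.1 hc
      exact ⟨isConj_iff.2 ⟨c, by group⟩, Q.inv_mem hx⟩
    · rintro ⟨hc, hx⟩
      obtain ⟨c, hc⟩ := isConj_iff.1 hc
      exact ⟨isConj_iff.2 ⟨c, by rw [← inv_inv x, ← hc]; group⟩, inv_mem_iff.1 hx⟩
  have hval : ∀ x ∈ O, ∀ y ∈ Z, x * y ≠ 1 → (θ : G → ℂ) (x * y) = t := fun x hx y hy hne =>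
    ht _ (Z.mul_mem (hmemO x hx).1 hy) hne
  have hsumOO : ∑ x ∈ O ×ˢ O, (θ : G → ℂ) (x.1 * x.2) = (O.card * O.card : ℕ) * t := by
    rw [Finset.sum_congr rfl (g := fun _ => t), Finset.sum_const, Finset.card_product, nsmul_eq_mul]
    rintro ⟨x, y⟩ hxy
    obtain ⟨hx, hy⟩ := Finset.mem_product.1 hxy
    refine hval x hx y (hmemO y hy).1 fun e => ?_
    obtain ⟨-, -, l, hl, rfl⟩ := hmemO x hx
    obtain ⟨-, -, l', hl', rfl⟩ := hmemO y hy
    refine hnotinv (l⁻¹ * l') (Subgroup.mul_mem _ (Subgroup.inv_mem _ hl) hl') ?_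
    have hb' : l' * z * l'⁻¹ = (l * z * l⁻¹)⁻¹ := eq_inv_of_mul_eq_one_right e
    calc l⁻¹ * l' * z * (l⁻¹ * l')⁻¹ = l⁻¹ * (l' * z * l'⁻¹) * l := by group
      _ = l⁻¹ * (l * z * l⁻¹)⁻¹ * l := by rw [hb']
      _ = z⁻¹ := by group
  have hsumOO' : ∑ x ∈ O ×ˢ O', (θ : G → ℂ) (x.1 * x.2) =
      (O.card * O.card : ℕ) * t + (O.card : ℕ) * ((θ : G → ℂ) 1 - t) := by
    rw [Finset.sum_product]
    have : ∀ x ∈ O, ∑ y ∈ O', (θ : G → ℂ) (x * y) = (O.card : ℕ) * t + ((θ : G → ℂ) 1 - t) := by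
      intro x hx
      rw [Finset.sum_congr rfl (g := fun y => t + if y = x⁻¹ then (θ : G → ℂ) 1 - t else 0) (fun y hy => ?_),
        Finset.sum_add_distrib, Finset.sum_const, Finset.sum_ite_eq', if_pos ((hinvO _).2 (by simpa using hx)),
        nsmul_eq_mul]
      · congr 3
        refine Finset.card_nbij' (fun y => y⁻¹) (fun y => y⁻¹) (fun y hy => (hinvO y).1 hy)
          (fun y hy => (hinvO _).2 (by simpa using hy)) (fun y _ => inv_inv y) (fun y _ => inv_inv y)
      · split_ifs with he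
        · rw [he, mul_inv_cancel]; ring
        · have hyZ : y ∈ Z := inv_mem_iff.1 (hmemO _ ((hinvO y).1 hy)).1
          rw [hval x hx y hyZ fun e => he (eq_inv_of_mul_eq_one_right e), add_zero]
    rw [Finset.sum_congr rfl this, Finset.sum_const, nsmul_eq_mul]
    push_cast; ring
  rw [hsumOO] at h1
  rw [hsumOO'] at h2
  refine ⟨O.card, ?_, ?_⟩
  · let N := Subgroup.normalizer (Q : Set G)
    let zN : N := ⟨z, Subgroup.le_normalizer (hZP hz)⟩
    have hle : Q.subgroupOf N ≤ Subgroup.centralizer ({zN} : Set N) := fun g hg =>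
      Subgroup.mem_centralizer_singleton_iff.2 (Subtype.ext (hZc z hz g hg).symm)
    have hOc : O.card = (Subgroup.centralizer ({zN} : Set N)).index := by
      rw [← card_isConj_eq_index, Nat.card_eq_fintype_card, Fintype.card_subtype]
      refine (Finset.card_bij (fun (y : N) _ => (y : G)) (fun y hy => ?_) (fun _ _ _ _ h => Subtype.ext h)
        fun x hx => ?_).symm
      · obtain ⟨c, hc⟩ := isConj_iff.1 (Finset.mem_filter.1 hy).2
        subst hc
        simp only [hO, K, PF, Finset.mem_inter, Finset.mem_filter, Finset.mem_univ, true_and]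
        exact ⟨isConj_iff.2 ⟨(c : G), rfl⟩, hZP (hZn c c.2 z hz)⟩
      · obtain ⟨hxZ, -, l, hl, hlx⟩ := hmemO x hx
        exact ⟨⟨x, Subgroup.le_normalizer (hZP hxZ)⟩,
          Finset.mem_filter.2 ⟨Finset.mem_univ _, isConj_iff.2 ⟨⟨l, hl⟩, Subtype.ext hlx.symm⟩⟩, rfl⟩
    rw [hOc]
    intro h
    refine P.not_dvd_index (h.trans ((Subgroup.index_dvd_of_le hle).trans ?_))
    rw [show (Q.subgroupOf N).index = Q.relIndex N from rfl]
    exact Subgroup.relIndex_dvd_index_of_le Subgroup.le_normalizer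
  · have : (O.card : ℂ) * ((θ : G → ℂ) 1 - t) = (Nat.card Q : ℂ) * (r - r') := by linear_combination h1 - h2
    rw [this, mul_div_cancel_left₀ _ (natCast_card_ne_zero Q)]
    exact IsIntegral.sub hr hr'

end CfsgLib.CongruenceTI

namespace Cfsg.Agent.S1523

/-- Let G be a finite group, p a prime, P a Sylow p-subgroup whose underlying set is a TI-subset of G, with L the set normaliser of P of odd order. Let Z ≠ ⊥ be a subgroup of P, normal in L and central in P, such that the centralisers in L of any two non-identity elements of Z have the same order. If ψ is an irreducible character of G taking the same value at all non-identity elements of Z, then for z ∈ Z, z ≠ 1, the value ψ z is an integer n with Nat.card P dividing ψ(1) − n (as integers, ψ 1 being the degree). -/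
theorem result {G : Type*} [Group G] [Finite G] (p : ℕ) [Fact p.Prime] (P : Sylow p G) (hTI : Cfsg.IsTISubset ((P : Subgroup G) : Set G)) (hodd : Odd (Nat.card (Subgroup.normalizer ((P : Subgroup G) : Set G)))) (Z : Subgroup G) (hZ1 : Z ≠ ⊥) (hZP : Z ≤ P) (hZn : ∀ x ∈ Subgroup.normalizer ((P : Subgroup G) : Set G), ∀ z ∈ Z, x * z * x⁻¹ ∈ Z) (hZc : ∀ z ∈ Z, ∀ y ∈ (P : Subgroup G), z * y = y * z) (hCL : ∀ z ∈ Z, ∀ z' ∈ Z, z ≠ 1 → z' ≠ 1 → Nat.card ↥(Subgroup.normalizer ((P : Subgroup G) : Set G) ⊓ Subgroup.centralizer ({z} : Set G)) = Nat.card ↥(Subgroup.normalizer ((P : Subgroup G) : Set G) ⊓ Subgroup.centralizer ({z'} : Set G))) (ψ : G → ℂ) (hψ : Cfsg.IsIrrCharacter G ψ) (hconst : ∀ z ∈ Z, ∀ z' ∈ Z, z ≠ 1 → z' ≠ 1 → ψ z = ψ z') (z : G) (hz : z ∈ Z) (hz1 : z ≠ 1) : ∃ n d : ℤ, ψ z = n ∧ ψ 1 = d ∧ (Nat.card (P : Subgroup G) : ℤ) ∣ d - n := by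
  classical
  let θ : Cfsg.IrrCharacter G := ⟨ψ, hψ⟩
  haveI : Fintype G := Fintype.ofFinite G
  haveI : Fintype Z := Fintype.ofFinite Z
  have ht : ∀ y ∈ Z, y ≠ 1 → ψ y = ψ z := fun y hy hy1 => hconst y hy z hz hy1 hz1
  have hres := CfsgLib.Chars.IsCharacter.restrict (CfsgLib.Chars.isCharacter_irr θ) Z
  obtain ⟨b, hb⟩ := CfsgLib.Chars.exists_mult hres
    (⟨fun _ => 1, CfsgLib.Chars.isIrrCharacter_one Z⟩ : Cfsg.IrrCharacter Z)
  obtain ⟨n0, hn0⟩ : ∃ n : ℤ, ψ z = n := by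
    have hs : (Nat.card Z : ℂ) * (b : ℂ) = ψ 1 + ((Nat.card Z : ℂ) - 1) * ψ z := by
      rw [← hb]
      simp only [Cfsg.classInner, map_one, mul_one]
      rw [← mul_assoc, mul_inv_cancel₀ (CfsgLib.Chars.natCast_card_ne_zero Z), one_mul,
        ← Finset.add_sum_erase _ _ (Finset.mem_univ (1 : Z)), Finset.sum_congr rfl (g := fun _ => ψ z) (fun y hy => by
          exact ht y y.2 fun e => (Finset.mem_erase.1 hy).1 (Subtype.ext e)), Finset.sum_const, nsmul_eq_mul,
        Finset.card_erase_of_mem (Finset.mem_univ _), Finset.card_univ, ← Nat.card_eq_fintype_card,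
        Nat.cast_sub Nat.card_pos, Nat.cast_one]
      rfl
    rw [show ψ 1 = (Cfsg.charDegree ψ : ℂ) from CfsgLib.Chars.irr_apply_one θ] at hs
    have hc1 : 1 < Nat.card Z := (Subgroup.one_lt_card_iff_ne_bot Z).2 hZ1
    have hne : ((((Nat.card Z : ℕ) : ℤ) - 1 : ℤ) : ℂ) ≠ 0 := by
      rw [Int.cast_ne_zero]; omega
    have hq : ψ z = ((((((Nat.card Z : ℕ) : ℤ) * b - Cfsg.charDegree ψ : ℤ) : ℚ) / ((((Nat.card Z : ℕ) : ℤ) - 1 : ℤ) : ℚ) : ℚ) : ℂ) := by
      push_cast at hne ⊢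
      rw [eq_div_iff hne]
      linear_combination -hs
    have hi := CfsgLib.Chars.IsCharacter.isIntegral (CfsgLib.Chars.isCharacter_irr θ) z
    change IsIntegral ℤ (ψ z) at hi
    rw [hq] at hi ⊢
    have hi' := (isIntegral_algebraMap_iff (A := ℚ) (B := ℂ) (algebraMap ℚ ℂ).injective).1 hi
    obtain ⟨n, hn⟩ := IsIntegrallyClosed.isIntegral_iff.1 hi'
    exact ⟨n, by rw [← hn]; simp⟩
  refine ⟨n0, Cfsg.charDegree ψ, hn0, by exact_mod_cast CfsgLib.Chars.irr_apply_one θ, ?_⟩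
  obtain ⟨e, he, hint⟩ := CfsgLib.CongruenceTI.congruence P hTI hodd Z hZP hZn hZc θ (ψ z) ht z hz hz1
  rw [show (θ : G → ℂ) 1 = (Cfsg.charDegree ψ : ℂ) from CfsgLib.Chars.irr_apply_one θ, hn0] at hint
  set x : ℤ := (e : ℤ) * ((Cfsg.charDegree ψ : ℤ) - n0) with hx
  have hint2 : IsIntegral ℤ (((x.natAbs : ℕ) : ℂ) / ((Nat.card (P : Subgroup G) : ℕ) : ℂ)) := by
    have h' : IsIntegral ℤ ((x : ℂ) / ((Nat.card (P : Subgroup G) : ℕ) : ℂ)) := by
      rw [hx]; push_cast; exact hint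
    rcases Int.natAbs_eq x with h | h
    · rw [h] at h'; simpa using h'
    · rw [h] at h'
      have := h'.neg
      simpa [neg_div] using this
  have hdvd : (Nat.card (P : Subgroup G) : ℤ) ∣ x :=
    Int.natCast_dvd.2 (CfsgLib.Chars.exists_int_of_isIntegral_div Nat.card_pos.ne' hint2)
  obtain ⟨j, hj⟩ := IsPGroup.iff_card.1 P.isPGroup'
  refine Int.dvd_of_dvd_mul_right_of_gcd_one hdvd ?_
  rw [Int.gcd_natCast_natCast, hj]
  exact Nat.Coprime.pow_left j ((Fact.out : p.Prime).coprime_iff_not_dvd.2 he)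

end Cfsg.Agent.S1523
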