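import Cfsg.Statements.S1524
import Mathlib
import Cfsg.Agent.Lib.SibleySetup

set_option autoImplicit false
open Cfsg

namespace Cfsg.Agent.S1524

/-- Let G be a finite group and H ≤ L subgroups with L of odd order, H ≠ ⊥ nilpotent and normal in L with a nontrivial complement W₁ in L (H ⊓ W₁ = ⊥, H ⊔ W₁ = L) acting on H without non-identity fixed points (L is a Frobenius group with kernel H), and suppose the underlying set of H is a TI-subset of G whose normaliser is L. Let S be the set of functions on L induced from the non-principal irreducible characters of H. Then (S, L minus 1, induction to G) is coherent. -/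
theorem result {G : Type*} [Group G] [Fintype G] (H L W₁ : Subgroup G) [Fintype L] (hodd : Odd (Nat.card L)) (hHL : H ≤ L) (hW₁L : W₁ ≤ L) (hH1 : H ≠ ⊥) (hW1 : W₁ ≠ ⊥) (hnil : Group.IsNilpotent H) (hHn : ∀ x ∈ L, ∀ h ∈ H, x * h * x⁻¹ ∈ H) (hinf : H ⊓ W₁ = ⊥) (hsup : H ⊔ W₁ = L) (hfpf : ∀ w ∈ W₁, w ≠ 1 → ∀ h ∈ H, w * h = h * w → h = 1) (hTI : Cfsg.IsTISubset (H : Set G)) (hN : Subgroup.normalizer (H : Set G) = L) : Cfsg.IsCoherent (Cfsg.inducedIrrAbove (H.subgroupOf L) ⊥) {1}ᶜ (fun α : L → ℂ => Cfsg.indFun L α) := by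
  classical
  set HL := H.subgroupOf L with hHLdef
  haveI : HL.Normal := ⟨fun h hh x => hHn x x.2 h hh⟩
  have hcardH : Nat.card HL = Nat.card H := Nat.card_congr (Subgroup.subgroupOfEquivOfLe hHL).toEquiv
  have hTI' : ∀ g : G, ∀ h ∈ HL, h ≠ 1 → ∀ h' ∈ HL, g * (h : G) * g⁻¹ = (h' : G) → g ∈ L := by
    intro g h hh h1 h' hh' he
    by_contra hg
    exact h1 (Subtype.ext (hTI g (hN.symm ▸ hg) (h : G) hh (he.symm ▸ hh')))
  have hle : W₁ ≤ Subgroup.normalizer (H : Set G) := hN.symm ▸ hW₁L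
  -- the complement acts without fixed points, so centralizers lie in the kernel
  have hC : ∀ g : G, ∀ h ∈ HL, h ≠ 1 → g * (h : G) = h * g → ∃ g' ∈ HL, (g' : G) = g := by
    intro g h hh h1 hg
    have hgL : g ∈ L := hTI' g h hh h1 h hh (by rw [hg, mul_inv_cancel_right])
    have hg' := hgL
    rw [← hsup] at hg'
    obtain ⟨a, ha, w, hw, rfl⟩ : ∃ a ∈ H, ∃ w ∈ W₁, a * w = g := by
      have : (g : G) ∈ (↑(H ⊔ W₁) : Set G) := hg'
      rw [Subgroup.coe_mul_of_right_le_normalizer_left H W₁ hle] at this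
      obtain ⟨a, ha, w, hw, e⟩ := this
      exact ⟨a, ha, w, hw, e⟩
    suffices hw1 : w = 1 by subst hw1; exact ⟨⟨a * 1, hgL⟩, by simpa [hHLdef, Subgroup.mem_subgroupOf] using ha, rfl⟩
    by_contra hw1
    let ψ : H → H := fun c => ⟨(c : G) * (w * (c : G)⁻¹ * w⁻¹),
      H.mul_mem c.2 (hHn w (hW₁L hw) _ (H.inv_mem c.2))⟩
    have hinj : Function.Injective ψ := fun c c' hcc => by
      have e : (c : G) * (w * (c : G)⁻¹ * w⁻¹) = (c' : G) * (w * (c' : G)⁻¹ * w⁻¹) := congrArg Subtype.val hcc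
      have e2 : (c' : G)⁻¹ * c = 1 := hfpf w hw hw1 _ (H.mul_mem (H.inv_mem c'.2) c.2) (by
        calc w * ((c' : G)⁻¹ * c) = (c' : G)⁻¹ * ((c' : G) * (w * (c' : G)⁻¹ * w⁻¹)) * w * c := by group
          _ = (c' : G)⁻¹ * ((c : G) * (w * (c : G)⁻¹ * w⁻¹)) * w * c := by rw [e]
          _ = (c' : G)⁻¹ * c * w := by group)
      exact Subtype.ext (inv_mul_eq_one.1 e2).symm
    obtain ⟨c, hc⟩ := Finite.injective_iff_surjective.1 hinj ⟨a, ha⟩
    have hc' : a * w = (c : G) * w * (c : G)⁻¹ := by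
      rw [← show (c : G) * (w * (c : G)⁻¹ * w⁻¹) = a from congrArg Subtype.val hc]; group
    rw [hc'] at hg
    have := hfpf w hw hw1 ((c : G)⁻¹ * h * c) (H.mul_mem (H.mul_mem (H.inv_mem c.2) hh) c.2) (by
      calc w * ((c : G)⁻¹ * h * c) = (c : G)⁻¹ * ((c : G) * w * (c : G)⁻¹ * h) * c := by group
        _ = (c : G)⁻¹ * (h * ((c : G) * w * (c : G)⁻¹)) * c := by rw [hg]
        _ = (c : G)⁻¹ * h * c * w := by group)
    refine h1 (Subtype.ext ?_)
    calc (h : G) = (c : G) * ((c : G)⁻¹ * h * c) * (c : G)⁻¹ := by group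
      _ = 1 := by rw [this]; group
  have hCL : ∀ h ∈ HL, h ≠ 1 → Subgroup.centralizer ({h} : Set L) ≤ HL := fun h hh h1 g hg => by
    obtain ⟨g', hg', he'⟩ := hC (g : G) h hh h1 (congrArg Subtype.val (Subgroup.mem_centralizer_singleton_iff.1 hg))
    rwa [← Subtype.ext he']
  have hH1' : HL ≠ ⊥ := fun h => hH1 (disjoint_self.1 ((Subgroup.subgroupOf_eq_bot.1 h).mono_right hHL))
  have hH2' : HL ≠ ⊤ := fun h => hW1 (disjoint_self.1 (by
    rw [disjoint_iff]
    exact le_bot_iff.1 (le_trans (inf_le_inf_right _ (hW₁L.trans (Subgroup.subgroupOf_eq_top.1 h))) hinf.le)))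
  have he : Nat.card HL ≠ HL.index + 1 := fun h => by
    have h1 : Odd (Nat.card HL) := hodd.of_dvd_nat (Subgroup.card_subgroup_dvd_card HL)
    have h2 : Odd HL.index := hodd.of_dvd_nat HL.index_dvd_card
    rw [h, Nat.odd_add_one] at h1
    exact h1 h2
  have hset : Cfsg.inducedIrrAbove (H.subgroupOf L) ⊥ = (↑(CfsgLib.Sibley.irrOn HL) : Set (L → ℂ)) := by
    haveI : Fintype HL := Fintype.ofFinite _
    ext χ
    constructor
    · rintro ⟨θ, hθ, hθ1, -, rfl⟩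
      exact CfsgLib.Sibley.mem_irrOn.2 ⟨CfsgLib.Feit1535.ind_irr HL hCL ⟨θ, hθ⟩ hθ1,
        CfsgLib.Feit1535.ind_mem HL hCL ⟨θ, hθ⟩ hθ1⟩
    · intro hχ
      obtain ⟨φ, hφ, rfl, -, -⟩ := CfsgLib.Sibley.degH_spec HL hCL hχ
      refine ⟨φ, φ.2, hφ, fun a ha => ?_, rfl⟩
      rw [show a = 1 from Subtype.ext (Subgroup.mem_bot.1 ha)]
  rw [hset]
  rcases CfsgLib.SibleySetup.coherent_or L HL hH1' hH2' he hC hTI' with h | ⟨⟨m, hm⟩, -, -⟩
  · exact h
  exfalso
  have h1 : Odd (Nat.card HL) := hodd.of_dvd_nat (Subgroup.card_subgroup_dvd_card HL)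
  rcases Nat.eq_zero_or_pos m with h0 | h0
  · exact hH1' (Subgroup.card_eq_one.1 (by rw [hm, h0, pow_zero]))
  · rw [hm] at h1; exact (Nat.not_even_iff_odd.2 h1) ((Nat.even_pow).2 ⟨even_two, h0.ne'⟩)

end Cfsg.Agent.S1524
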