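import Cfsg.Statements.S1525
import Mathlib
import Cfsg.Agent.Lib.Dade.Basic

set_option autoImplicit false
open Cfsg

namespace Cfsg.Agent.S1525

/-- Under the Dade hypothesis for (A, L, H), let χ be a class function of G and let ψ be a function on L whose value at each a ∈ A is the average of χ over the coset a·H(a). Then (1/|G|) Σ |χ g|² over the elements g of G conjugate into some coset a·H(a) with a ∈ A is at least (1/|L|) Σ_{a ∈ A ∩ L} |ψ a|². -/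
theorem result {G : Type*} [Group G] [Fintype G] (A : Set G) (L : Subgroup G) [Fintype L] (H : G → Subgroup G) (hD : Cfsg.DadeHypothesis A L H) (χ : G → ℂ) (hχ : Cfsg.IsClassFunction G χ) (ψ : L → ℂ) (hψ : ∀ a : L, (a : G) ∈ A → ψ a = (Nat.card (H a) : ℂ)⁻¹ * ∑ᶠ u ∈ (H a : Set G), χ (a * u)) : (Nat.card L : ℝ)⁻¹ * ∑ᶠ a ∈ {a : L | (a : G) ∈ A}, ‖ψ a‖ ^ 2 ≤ (Nat.card G : ℝ)⁻¹ * ∑ᶠ g ∈ {g : G | ∃ a ∈ A, ∃ u ∈ H a, ∃ x : G, x * g * x⁻¹ = a * u}, ‖χ g‖ ^ 2 := by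
  classical
  let F : G → ℝ := fun g => if g ∈ CfsgLib.Dade.support A H then ‖χ g‖ ^ 2 else 0
  have hsup : ∀ g x : G, g ∈ CfsgLib.Dade.support A H → x * g * x⁻¹ ∈ CfsgLib.Dade.support A H := by
    rintro g x ⟨a, ha, u, hu, y, hy⟩
    exact ⟨a, ha, u, hu, y * x⁻¹, by rw [← hy]; group⟩
  have h := CfsgLib.Dade.sum_formula hD (F := F)
    (fun g x => by
      have hiff : x * g * x⁻¹ ∈ CfsgLib.Dade.support A H ↔ g ∈ CfsgLib.Dade.support A H := by
        refine ⟨fun hm => ?_, hsup g x⟩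
        have := hsup _ x⁻¹ hm
        rwa [inv_inv, show x⁻¹ * (x * g * x⁻¹) * x = g by group] at this
      simp only [F, hiff, hχ g x]) (fun g hg => if_neg hg)
  set Y := ∑ a ∈ Finset.univ.filter (fun a : L => (a : G) ∈ A),
    (Nat.card (H (a : G)) : ℝ)⁻¹ * ∑ u ∈ Finset.univ.filter (fun u => u ∈ H (a : G)), F ((a : G) * u)
  have hG0 : (0 : ℝ) < Nat.card G := Nat.cast_pos.2 Nat.card_pos
  have hL0 : (0 : ℝ) < Nat.card L := Nat.cast_pos.2 Nat.card_pos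
  have h2 : ∑ᶠ g ∈ {g : G | ∃ a ∈ A, ∃ u ∈ H a, ∃ x : G, x * g * x⁻¹ = a * u}, ‖χ g‖ ^ 2 = ∑ g, F g := by
    rw [finsum_mem_eq_finite_toFinset_sum _ (Set.toFinite _), ← Finset.sum_filter]
    exact Finset.sum_congr (by ext g; simp only [Set.Finite.mem_toFinset, Finset.mem_filter, Finset.mem_univ, true_and, CfsgLib.Dade.support, Set.mem_setOf_eq]) fun _ _ => rfl
  have h3 : (Nat.card G : ℝ)⁻¹ * ∑ g, F g = (Nat.card L : ℝ)⁻¹ * Y := by
    rw [inv_mul_eq_div, inv_mul_eq_div, div_eq_div_iff hG0.ne' hL0.ne']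
    linear_combination h
  rw [h2, h3, finsum_mem_eq_finite_toFinset_sum _ (Set.toFinite _),
    show (Set.toFinite {a : L | (a : G) ∈ A}).toFinset = Finset.univ.filter (fun a : L => (a : G) ∈ A) by
      ext a; simp]
  refine mul_le_mul_of_nonneg_left (Finset.sum_le_sum fun a ha => ?_) (inv_nonneg.2 hL0.le)
  replace ha : (a : G) ∈ A := (Finset.mem_filter.1 ha).2
  set U := Finset.univ.filter (fun u => u ∈ H (a : G))
  have hm : (Nat.card (H (a : G)) : ℝ) = U.card := by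
    rw [Nat.card_eq_fintype_card, Nat.cast_inj]
    exact Fintype.card_subtype _
  rw [hψ a ha, finsum_mem_eq_finite_toFinset_sum _ (Set.toFinite _),
    show (Set.toFinite (H (a : G) : Set G)).toFinset = U by ext u; simp [U]]
  have hF : ∀ u ∈ U, F ((a : G) * u) = ‖χ ((a : G) * u)‖ ^ 2 := fun u hu =>
    if_pos ⟨a, ha, u, (Finset.mem_filter.1 hu).2, 1, by group⟩
  rw [Finset.sum_congr rfl hF, norm_mul, norm_inv, Complex.norm_natCast, mul_pow, hm]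
  have h4 := sq_sum_le_card_mul_sum_sq (s := U) (f := fun u => ‖χ ((a : G) * u)‖)
  have hpos : (0 : ℝ) < U.card := by rw [← hm]; exact Nat.cast_pos.2 Nat.card_pos
  calc ((U.card : ℝ)⁻¹) ^ 2 * ‖∑ u ∈ U, χ ((a : G) * u)‖ ^ 2
      ≤ ((U.card : ℝ)⁻¹) ^ 2 * (∑ u ∈ U, ‖χ ((a : G) * u)‖) ^ 2 := by
        gcongr
        exact norm_sum_le _ _
    _ ≤ ((U.card : ℝ)⁻¹) ^ 2 * (U.card * ∑ u ∈ U, ‖χ ((a : G) * u)‖ ^ 2) :=
        mul_le_mul_of_nonneg_left h4 (sq_nonneg _)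
    _ = (U.card : ℝ)⁻¹ * ∑ u ∈ U, ‖χ ((a : G) * u)‖ ^ 2 := by
        field_simp

end Cfsg.Agent.S1525
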