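import Cfsg.Statements.S1527
import Mathlib

set_option autoImplicit false
open Cfsg

namespace Cfsg.Agent.S1527

/-- Let G be a finite group and H i (i in a finite index type) subgroups of pairwise coprime orders, each of whose underlying sets is a TI-subset of G, such that every non-identity element of G is conjugate to an element of some H i. Then Nat.card G − 1 = Σ_i [G : N_G(H i)] · (Nat.card (H i) − 1). -/
theorem result {G : Type*} [Group G] [Finite G] {ι : Type*} [Fintype ι] (H : ι → Subgroup G) (hcop : ∀ i j, i ≠ j → Nat.Coprime (Nat.card (H i)) (Nat.card (H j))) (hTI : ∀ i, Cfsg.IsTISubset (H i : Set G)) (hcover : ∀ g : G, g ≠ 1 → ∃ i, ∃ x : G, x * g * x⁻¹ ∈ H i) : Nat.card G - 1 = ∑ i, (Subgroup.normalizer (H i : Set G)).index * (Nat.card (H i) - 1) := by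
  classical
  let N : ι → Subgroup G := fun i => Subgroup.normalizer (H i : Set G)
  let S := Σ i, (G ⧸ N i) × {h : H i // h ≠ 1}
  let f : S → {g : G // g ≠ 1} := fun s =>
    ⟨(s.2.1.out : G) * (s.2.2.1 : G) * (s.2.1.out : G)⁻¹, fun h =>
      s.2.2.2 (Subtype.ext (conj_eq_one_iff.1 h))⟩
  have hbij : Function.Bijective f := by
    constructor
    · rintro ⟨i, q, ⟨a, ha⟩, ha1⟩ ⟨j, r, ⟨b, hb⟩, hb1⟩ he
      have he' : (q.out : G) * a * (q.out : G)⁻¹ = (r.out : G) * b * (r.out : G)⁻¹ :=
        congrArg Subtype.val he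
      have hij : i = j := by
        by_contra hne
        apply ha1
        apply Subtype.ext
        apply orderOf_eq_one_iff.1
        refine Nat.eq_one_of_dvd_coprimes (hcop i j hne) ?_ ?_
        · rw [← Subgroup.orderOf_mk a ha]
          exact orderOf_dvd_natCard _
        · have ho : orderOf a = orderOf b := by
            have h1 := (MulAut.conj (q.out : G)).orderOf_eq a
            have h2 := (MulAut.conj (r.out : G)).orderOf_eq b
            rw [MulAut.conj_apply] at h1 h2
            rw [← h1, he', h2]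
          rw [ho, ← Subgroup.orderOf_mk b hb]
          exact orderOf_dvd_natCard _
      subst hij
      have hqr : q = r := by
        rw [← QuotientGroup.out_eq' q, ← QuotientGroup.out_eq' r, QuotientGroup.eq]
        by_contra hn
        apply hb1
        apply Subtype.ext
        refine hTI i _ hn b hb ?_
        have : (q.out : G)⁻¹ * r.out * b * ((q.out : G)⁻¹ * r.out)⁻¹ = a := by
          calc _ = (q.out : G)⁻¹ * (r.out * b * (r.out : G)⁻¹) * q.out := by group
            _ = a := by rw [← he']; group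
        rw [this]
        exact ha
      subst hqr
      have hab : a = b := mul_left_cancel (mul_right_cancel he')
      subst hab
      rfl
    · rintro ⟨g, hg⟩
      obtain ⟨i, x, hx⟩ := hcover g hg
      obtain ⟨n, hn⟩ := QuotientGroup.mk_out_eq_mul (N i) x⁻¹
      have hh : (n : G)⁻¹ * (x * g * x⁻¹) * n ∈ H i :=
        (Subgroup.mem_normalizer_iff.1 n.2 _).2 (by simpa [mul_assoc] using hx)
      refine ⟨⟨i, (x⁻¹ : G), ⟨_, hh⟩, fun h => hg ?_⟩, Subtype.ext ?_⟩
      · have h' : (n : G)⁻¹ * (x * g * x⁻¹) * n = 1 := congrArg Subtype.val h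
        have h3 : (n : G)⁻¹ * (x * g * x⁻¹) * (n : G)⁻¹⁻¹ = 1 := by rwa [inv_inv]
        rw [conj_eq_one_iff, conj_eq_one_iff] at h3
        exact h3
      · show (((x⁻¹ : G) : G ⧸ N i).out : G) * _ * (((x⁻¹ : G) : G ⧸ N i).out : G)⁻¹ = g
        rw [hn]
        show x⁻¹ * n * ((n : G)⁻¹ * (x * g * x⁻¹) * n) * (x⁻¹ * n)⁻¹ = g
        group
  have hone : ∀ {α : Type _} [Finite α] (a : α), Nat.card {x : α // x ≠ a} = Nat.card α - 1 := by
    intro α _ a
    haveI := Fintype.ofFinite α
    rw [Nat.card_eq_fintype_card, Nat.card_eq_fintype_card, Fintype.card_subtype_compl,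
      Fintype.card_subtype_eq]
  have hc := Nat.card_eq_of_bijective f hbij
  rw [hone] at hc
  rw [← hc]
  show Nat.card (Σ i, (G ⧸ N i) × {h : H i // h ≠ 1}) = _
  rw [Nat.card_sigma]
  refine Finset.sum_congr rfl fun i _ => ?_
  rw [Nat.card_prod, hone, ← Subgroup.index_eq_card]

end Cfsg.Agent.S1527
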