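import Cfsg.Statements.S1530
import Mathlib
import Cfsg.Agent.Lib.Coherence

set_option autoImplicit false
open Cfsg

namespace Cfsg.Agent.S1530

open Cfsg CfsgLib.Chars CfsgLib.Virtual CfsgLib.Coherence

/-- Let N be a subgroup of the finite group G and S₀ a finite set of irreducible characters of N, χ an irreducible character of N not in S₀, with degrees ξ 1 = d ξ. Let τ be a linear isometry on the integer combinations of S₀ ∪ {χ} vanishing at 1, with values virtual characters of G vanishing at 1, such that (S₀, N minus 1, τ) is coherent. If some ψ ∈ S₀ has d ψ dividing d χ and 2 · d ψ · d χ < Σ_{ξ ∈ S₀} (d ξ)², then (S₀ ∪ {χ}, N minus 1, τ) is coherent. -/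
theorem result {G : Type*} [Group G] [Fintype G] (N : Subgroup G) [Fintype N] (S₀ : Finset (N → ℂ)) (χ : N → ℂ) (hirr : ∀ ξ ∈ S₀, Cfsg.IsIrrCharacter N ξ) (hχ : Cfsg.IsIrrCharacter N χ) (hχS : χ ∉ S₀) (d : (N → ℂ) → ℕ) (hd : ∀ ξ ∈ insert χ S₀, ξ 1 = (d ξ : ℂ)) (τ : (N → ℂ) → (G → ℂ)) (hτ : Cfsg.IsLinearIsometryOn (Cfsg.zspanOn (↑(insert χ S₀) : Set (N → ℂ)) {1}ᶜ) τ) (hτ1 : ∀ α ∈ Cfsg.zspanOn (↑(insert χ S₀) : Set (N → ℂ)) {1}ᶜ, τ α 1 = 0) (hcoh : Cfsg.IsCoherent (↑S₀ : Set (N → ℂ)) {1}ᶜ τ) (ψ : N → ℂ) (hψ : ψ ∈ S₀) (hdvd : d ψ ∣ d χ) (hlt : 2 * d ψ * d χ < ∑ ξ ∈ S₀, d ξ ^ 2) : Cfsg.IsCoherent (↑(insert χ S₀) : Set (N → ℂ)) {1}ᶜ τ := by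
  classical
  obtain ⟨⟨α₀, hα₀, hα₀ne⟩, τ₁, hτ₁, hτag⟩ := hcoh
  set S : Finset (N → ℂ) := insert χ S₀ with hSdef
  have hsub : (↑S₀ : Set (N → ℂ)) ⊆ ↑S := by intro x hx; simp [hSdef]; exact Or.inr hx
  have hSirr : ∀ x ∈ S, IsIrrCharacter N x := fun x hx => by
    rcases Finset.mem_insert.1 hx with rfl | h
    · exact hχ
    · exact hirr x h
  obtain ⟨k, hk⟩ := hdvd
  have hdψ : d ψ ≠ 0 := fun h => irr_one_ne_zero (⟨ψ, hirr ψ hψ⟩ : IrrCharacter N)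
    (show ψ 1 = 0 by rw [hd ψ (Finset.mem_insert_of_mem hψ), h, Nat.cast_zero])
  set β : N → ℂ := χ - (k : ℤ) • ψ with hβ
  have hχψ : χ ≠ ψ := fun e => hχS (e ▸ hψ)
  have hβmem : β ∈ zspanOn (↑S : Set (N → ℂ)) {1}ᶜ := mem_zspanOn_one.2
    ⟨zspan_sub (mem_zspan (by simp [hSdef])) (zspan_zsmul _ (mem_zspan (hsub hψ))),
      by simp [hβ, hd χ (Finset.mem_insert_self _ _), hd ψ (Finset.mem_insert_of_mem hψ), hk, mul_comm]⟩
  set T := τ β with hT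
  have hTn : classInner T T = 1 + (k : ℂ) * k := by
    rw [hτ.2.2.1 _ hβmem _ hβmem, hβ, ci_sub_left, ci_sub_right, ci_sub_right, ci_zsmul_left, ci_zsmul_left,
      ci_zsmul_right, ci_zsmul_right, inner_irr_self hχ, inner_irr_self (hirr ψ hψ), inner_irr_ne hχ (hirr ψ hψ) hχψ,
      inner_irr_ne (hirr ψ hψ) hχ hχψ.symm]
    push_cast; ring
  have hTv : IsGeneralizedCharacter G T := hτ.2.2.2 _ hβmem
  have hev : ∀ ξ ∈ S₀, IsGeneralizedCharacter G (τ₁ ξ) := fun ξ h => hτ₁.2.2.2 _ (mem_zspan h)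
  have heo : ∀ ξ ∈ S₀, ∀ η ∈ S₀, classInner (τ₁ ξ) (τ₁ η) = if ξ = η then 1 else 0 := fun ξ h η h' => by
    rw [hτ₁.2.2.1 _ (mem_zspan h) _ (mem_zspan h')]
    by_cases e : ξ = η
    · rw [if_pos e, ← e, inner_irr_self (hirr ξ h)]
    · rw [if_neg e, inner_irr_ne (hirr ξ h) (hirr η h') e]
  have hint : ∀ ξ ∈ S₀, ∃ n : ℤ, classInner T (τ₁ ξ) = (n : ℂ) := fun ξ h => int_inner hTv (hev ξ h)
  choose! c hc using hint
  set x : ℤ := c ψ + k with hx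
  have hkey : ∀ ξ ∈ S₀, ξ ≠ ψ → (d ψ : ℤ) * c ξ = d ξ * x ∧ (d ψ : ℂ) * τ₁ ξ 1 = d ξ * τ₁ ψ 1 := by
    intro ξ hξ hne
    set γ : N → ℂ := (d ψ : ℤ) • ξ - (d ξ : ℤ) • ψ with hγ
    have hγ0 : γ ∈ zspanOn (↑S₀ : Set (N → ℂ)) {1}ᶜ := mem_zspanOn_one.2
      ⟨zspan_sub (zspan_zsmul _ (mem_zspan hξ)) (zspan_zsmul _ (mem_zspan hψ)),
        by simp [hγ, hd ξ (Finset.mem_insert_of_mem hξ), hd ψ (Finset.mem_insert_of_mem hψ), mul_comm]⟩
    have hγS : γ ∈ zspanOn (↑S : Set (N → ℂ)) {1}ᶜ := ⟨zspan_mono hsub hγ0.1, hγ0.2⟩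
    have e1 : τ γ = (d ψ : ℤ) • τ₁ ξ - (d ξ : ℤ) • τ₁ ψ := by
      rw [← hτag γ hγ0, hγ, iso_sub hτ₁ (zspan_zsmul _ (mem_zspan hξ)) (zspan_neg (zspan_zsmul _ (mem_zspan hψ)))
        (zspan_zsmul _ (mem_zspan hψ)), hτ₁.2.1 _ (mem_zspan hξ), hτ₁.2.1 _ (mem_zspan hψ)]
    have e2 := hτ.2.2.1 _ hβmem _ hγS
    rw [e1, hγ, hβ] at e2
    simp only [ci_sub_left, ci_sub_right, ci_zsmul_left, ci_zsmul_right, inner_irr_ne hχ (hirr ξ hξ) (fun e => hχS (e ▸ hξ)),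
      inner_irr_ne hχ (hirr ψ hψ) hχψ, inner_irr_ne (hirr ψ hψ) (hirr ξ hξ) (Ne.symm hne), inner_irr_self (hirr ψ hψ)] at e2
    rw [← hT, hc ξ hξ, hc ψ hψ] at e2
    have e3 := hτ1 γ hγS
    rw [e1] at e3
    simp only [Pi.sub_apply, Pi.smul_apply, zsmul_eq_mul, Int.cast_natCast, Pi.mul_apply, Pi.intCast_apply, Pi.natCast_apply] at e3
    refine ⟨?_, by linear_combination e3⟩
    have : (((d ψ : ℤ) * c ξ : ℤ) : ℂ) = ((d ξ * x : ℤ) : ℂ) := by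
      rw [hx]; push_cast at e2 ⊢; linear_combination e2
    exact_mod_cast this
  set Δ : G → ℂ := T - ∑ ξ ∈ S₀, c ξ • τ₁ ξ with hΔ
  have hΔv : IsGeneralizedCharacter G Δ := genChar_sub hTv (genChar_sum _ _ fun ξ h => genChar_zsmul (hev ξ h) _)
  have hΔo : ∀ ξ ∈ S₀, classInner Δ (τ₁ ξ) = 0 := fun ξ h => by
    rw [hΔ, ci_sub_left, ci_sum_left, Finset.sum_eq_single ξ (fun η hη hne => by
      rw [ci_zsmul_left, heo η hη ξ h, if_neg hne, mul_zero]) (fun h' => absurd h h'), ci_zsmul_left,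
      heo ξ h ξ h, if_pos rfl, hc ξ h, mul_one, sub_self]
  obtain ⟨nΔ, hnΔ, hnΔ0⟩ := int_norm hΔv
  have hnorm : (nΔ : ℤ) + ∑ ξ ∈ S₀, c ξ * c ξ = 1 + k * k := by
    have e : classInner Δ Δ = classInner Δ T := by
      conv_lhs => arg 2; rw [hΔ]
      rw [ci_sub_right, ci_sum_right, Finset.sum_eq_zero (fun ξ h => by rw [ci_zsmul_right, hΔo ξ h, mul_zero]), sub_zero]
    rw [hnΔ, hΔ, ci_sub_left, ci_sum_left, hTn, Finset.sum_congr rfl (fun ξ h => by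
      rw [ci_zsmul_left, show classInner (τ₁ ξ) T = (c ξ : ℂ) by rw [classInner_symm, hc ξ h, map_intCast]])] at e
    have : (((nΔ : ℤ) + ∑ ξ ∈ S₀, c ξ * c ξ : ℤ) : ℂ) = ((1 + k * k : ℤ) : ℂ) := by
      push_cast; linear_combination e
    exact_mod_cast this
  set D : ℤ := ∑ ξ ∈ S₀, (d ξ : ℤ) * d ξ with hD
  have hDlt : 2 * (d ψ : ℤ) * (d χ : ℤ) < D := by
    have : ((2 * d ψ * d χ : ℕ) : ℤ) < ((∑ ξ ∈ S₀, d ξ ^ 2 : ℕ) : ℤ) := by exact_mod_cast hlt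
    simp only [hD, ← pow_two]; push_cast at this ⊢; linarith
  have hDge : (d ψ : ℤ) * d ψ ≤ D :=
    Finset.single_le_sum (f := fun ξ => (d ξ : ℤ) * d ξ) (fun i _ => mul_self_nonneg _) hψ
  have hdk : (d χ : ℤ) = d ψ * k := by exact_mod_cast hk
  have hsum : (d ψ : ℤ) * d ψ * ∑ ξ ∈ S₀, c ξ * c ξ = x * x * D + (d ψ : ℤ) * d ψ * (k * k - 2 * k * x) := by
    have : ∀ ξ ∈ S₀, (d ψ : ℤ) * d ψ * (c ξ * c ξ) = x * x * ((d ξ : ℤ) * d ξ) +
        (if ξ = ψ then (d ψ : ℤ) * d ψ * (k * k - 2 * k * x) else 0) := by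
      intro ξ hξ
      by_cases e : ξ = ψ
      · subst e; rw [if_pos rfl, hx]; ring
      · rw [if_neg e, add_zero, show (d ψ : ℤ) * d ψ * (c ξ * c ξ) = ((d ψ : ℤ) * c ξ) * ((d ψ : ℤ) * c ξ) by ring,
          (hkey ξ hξ e).1]; ring
    rw [Finset.mul_sum, Finset.sum_congr rfl this, Finset.sum_add_distrib, ← Finset.mul_sum, Finset.sum_ite_eq',
      if_pos hψ]
  have hP : (0 : ℤ) < d ψ * d ψ := by positivity
  have hmain : x * x * D - 2 * ((d ψ : ℤ) * d χ) * x = (d ψ : ℤ) * d ψ * (1 - nΔ) := by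
    rw [hdk]; linear_combination -hsum + ((d ψ : ℤ) * d ψ) * hnorm
  have hnΔge : (0 : ℤ) ≤ nΔ := Nat.cast_nonneg _
  have hQ0 : (0 : ℤ) < (d ψ : ℤ) * d χ := by
    have h : d χ ≠ 0 := fun h => irr_one_ne_zero (⟨χ, hχ⟩ : IrrCharacter N)
      (show χ 1 = 0 by rw [hd χ (Finset.mem_insert_self _ _), h, Nat.cast_zero])
    positivity
  have hQ := hQ0.le
  have hx01 : x = 0 ∨ x = 1 := by
    rcases le_or_gt x (-1) with h | h
    · exfalso
      nlinarith [mul_nonneg hP.le hnΔge, mul_le_mul_of_nonneg_left h hQ,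
        mul_le_mul_of_nonneg_left (show (1 : ℤ) ≤ x * x by nlinarith) (show (0 : ℤ) ≤ D by nlinarith)]
    rcases le_or_gt 2 x with h' | h'
    · exfalso
      nlinarith [mul_nonneg hP.le hnΔge, mul_lt_mul_of_pos_left hDlt (show (0 : ℤ) < x by linarith),
        mul_le_mul_of_nonneg_left (show (2 : ℤ) ≤ x * x - x by nlinarith) (show (0 : ℤ) ≤ D by nlinarith)]
    · omega
  have hx0 : x = 0 := by
    refine hx01.resolve_right fun h1 => ?_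
    have hn0 : nΔ = 0 := by
      have h2 : (0 : ℤ) < (d ψ : ℤ) * d ψ * (1 - nΔ) := by rw [← hmain, h1]; linarith
      have := pos_of_mul_pos_right h2 hP.le
      omega
    have hT0 : T 1 = 0 := hτ1 β hβmem
    have hTe : T = ∑ ξ ∈ S₀, c ξ • τ₁ ξ := sub_eq_zero.1 (hnΔ0 hn0)
    have h3 : ((d ψ : ℂ) * d ψ) * T 1 = τ₁ ψ 1 * ((D - (d ψ : ℤ) * d ψ * k : ℤ) : ℂ) := by
      have : ∀ ξ ∈ S₀, ((d ψ : ℂ) * d ψ) * (c ξ • τ₁ ξ) 1 = τ₁ ψ 1 * (((d ξ : ℤ) * d ξ : ℤ) : ℂ) -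
          (if ξ = ψ then τ₁ ψ 1 * (((d ψ : ℤ) * d ψ * k : ℤ) : ℂ) else 0) := by
        intro ξ hξ
        rw [Pi.smul_apply, zsmul_eq_mul]
        by_cases e : ξ = ψ
        · subst e
          rw [if_pos rfl, show c ξ = 1 - k by omega]; push_cast; ring
        · rw [if_neg e, sub_zero]
          have e1 : ((d ψ : ℂ)) * (c ξ : ℂ) = (d ξ : ℂ) := by
            have := (hkey ξ hξ e).1
            rw [h1, mul_one] at this
            exact_mod_cast this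
          have e2 := (hkey ξ hξ e).2
          push_cast
          linear_combination ((d ψ : ℂ) * τ₁ ξ 1) * e1 + (d ξ : ℂ) * e2
      rw [hTe, Finset.sum_apply, Finset.mul_sum, Finset.sum_congr rfl this, Finset.sum_sub_distrib, Finset.sum_ite_eq',
        if_pos hψ, ← Finset.mul_sum, hD]
      push_cast; ring
    rw [hT0, mul_zero] at h3
    rcases mul_eq_zero.1 h3.symm with h4 | h4
    · obtain ⟨ε, μ, hε, he⟩ := exists_single (hev ψ hψ) (by rw [heo ψ hψ ψ hψ, if_pos rfl])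
      rw [he, Pi.smul_apply, smul_eq_mul, mul_eq_zero] at h4
      rcases h4 with h4 | h4
      · rcases hε with rfl | rfl <;> norm_num at h4
      · exact irr_one_ne_zero μ h4
    · have h5 : D - (d ψ : ℤ) * d ψ * k = 0 := by exact_mod_cast h4
      nlinarith
  have hnΔ1 : classInner Δ Δ = 1 := by
    rw [hx0] at hmain
    have : (1 : ℤ) - nΔ = 0 := (mul_eq_zero.1 (show (d ψ : ℤ) * d ψ * (1 - nΔ) = 0 by linarith)).resolve_left hP.ne'
    rw [hnΔ, show nΔ = 1 by omega, Nat.cast_one]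
  let e : (N → ℂ) → (G → ℂ) := fun ξ => if ξ = χ then Δ else τ₁ ξ
  have heχ : e χ = Δ := if_pos rfl
  have he0 : ∀ ξ ∈ S₀, e ξ = τ₁ ξ := fun ξ h => if_neg fun (h' : ξ = χ) => hχS (by rw [← h']; exact h)
  obtain ⟨τ₂, hτ₂, hτ₂e⟩ := exists_extension S
    (fun a ha b hb h => inner_irr_ne (hSirr a ha) (hSirr b hb) h)
    (fun a ha => by rw [inner_irr_self (hSirr a ha)]; exact one_ne_zero) e
    (fun a ha => by
      rcases Finset.mem_insert.1 ha with rfl | h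
      · rw [heχ]; exact hΔv
      · rw [he0 a h]; exact hev a h)
    (fun a ha b hb => by
      rcases Finset.mem_insert.1 ha with rfl | h <;> rcases Finset.mem_insert.1 hb with rfl | h'
      · rw [heχ, hnΔ1, inner_irr_self hχ]
      · rw [heχ, he0 b h', hΔo b h', inner_irr_ne hχ (hirr b h') (fun e => hχS (e ▸ h'))]
      · rw [heχ, he0 a h, classInner_symm, hΔo a h, map_zero, inner_irr_ne (hirr a h) hχ (fun e => hχS (e ▸ h))]
      · rw [he0 a h, he0 b h', heo a h b h']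
        by_cases e : a = b
        · rw [if_pos e, ← e, inner_irr_self (hirr a h)]
        · rw [if_neg e, inner_irr_ne (hirr a h) (hirr b h') e])
  have hTval : T = Δ - (k : ℤ) • τ₁ ψ := by
    have hcz : ∀ ξ ∈ S₀, ξ ≠ ψ → c ξ = 0 := fun ξ h hne => by
      have := (hkey ξ h hne).1
      rw [hx0, mul_zero, mul_eq_zero] at this
      exact this.resolve_left (by exact_mod_cast hdψ)
    rw [hΔ, Finset.sum_eq_single ψ (fun ξ h hne => by rw [hcz ξ h hne, zero_smul]) (fun h => absurd hψ h),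
      show c ψ = -(k : ℤ) by omega, neg_smul]
    abel
  refine ⟨⟨α₀, ⟨zspan_mono hsub hα₀.1, hα₀.2⟩, hα₀ne⟩, τ₂, hτ₂, fun α hα => ?_⟩
  obtain ⟨a, z, hz, hαe⟩ : ∃ a : ℤ, ∃ z ∈ zspan (↑S₀ : Set (N → ℂ)), α = a • χ + z := by
    have := hα.1
    rw [hSdef, Finset.coe_insert] at this
    exact Submodule.mem_span_insert.1 this
  have hdec : α = a • β + (z + (a * k) • ψ) := by rw [hαe, hβ, smul_sub, mul_smul]; abel
  have hz' : z + (a * k) • ψ ∈ zspan (↑S₀ : Set (N → ℂ)) := zspan_add hz (zspan_zsmul _ (mem_zspan hψ))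
  have hz1 : (z + (a * k) • ψ) 1 = 0 := by
    have h1 := (mem_zspanOn_one.1 hα).2
    rw [hdec, Pi.add_apply, Pi.smul_apply, (mem_zspanOn_one.1 hβmem).2, smul_zero, zero_add] at h1
    exact h1
  have hβ2 : τ₂ β = T := by
    rw [hβ, iso_sub hτ₂ (mem_zspan (by simp [hSdef])) (zspan_neg (zspan_zsmul _ (mem_zspan (hsub hψ))))
      (zspan_zsmul _ (mem_zspan (hsub hψ))), hτ₂.2.1 _ (mem_zspan (hsub hψ)), hτ₂e χ (Finset.mem_insert_self _ _),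
      hτ₂e ψ (Finset.mem_insert_of_mem hψ), heχ, he0 ψ hψ, hTval]
  have hτ₂S₀ : IsLinearIsometryOn (zspan (↑S₀ : Set (N → ℂ))) τ₂ :=
    ⟨fun a ha b hb => hτ₂.1 a (zspan_mono hsub ha) b (zspan_mono hsub hb),
      fun a ha n => hτ₂.2.1 a (zspan_mono hsub ha) n,
      fun a ha b hb => hτ₂.2.2.1 a (zspan_mono hsub ha) b (zspan_mono hsub hb),
      fun a ha => hτ₂.2.2.2 a (zspan_mono hsub ha)⟩
  have haβ : a • β ∈ zspanOn (↑S : Set (N → ℂ)) {1}ᶜ :=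
    mem_zspanOn_one.2 ⟨zspan_zsmul a hβmem.1, by rw [Pi.smul_apply, (mem_zspanOn_one.1 hβmem).2, smul_zero]⟩
  rw [hdec, hτ₂.1 _ (zspan_zsmul a hβmem.1) _ (zspan_mono hsub hz'), hτ₂.2.1 _ hβmem.1, hβ2,
    hτ.1 _ haβ _ (mem_zspanOn_one.2 ⟨zspan_mono hsub hz', hz1⟩), hτ.2.1 _ hβmem, hT,
    ← hτag _ (mem_zspanOn_one.2 ⟨hz', hz1⟩),
    iso_ext hτ₂S₀ hτ₁ (fun ξ h => by rw [hτ₂e ξ (Finset.mem_insert_of_mem h), he0 ξ h]) hz']

end Cfsg.Agent.S1530
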