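import Cfsg.Statements.S1531
import Mathlib
import Cfsg.Agent.Lib.Coherence
import Cfsg.Agent.S1529

set_option autoImplicit false
open Cfsg

open Cfsg CfsgLib.Chars CfsgLib.Virtual CfsgLib.Coherence

namespace Cfsg.Agent.S1531

/-- Let N be a subgroup of the finite group G, S a set of irreducible characters of N, and α a linear isometry on the integer combinations of S vanishing at 1 with values virtual characters of G vanishing at 1. Let X, Y ⊆ S be disjoint, each with at least two members, and σ, τ linear isometries on ℤ[X], ℤ[Y] into virtual characters agreeing with α on the members vanishing at 1. Then ⟨σ χ, τ η⟩ = 0 for χ ∈ X, η ∈ Y; and if for some χ₀ ∈ X, η₀ ∈ Y with degrees c = χ₀ 1, e = η₀ 1 one has α (c • η₀ − e • χ₀) = c • τ η₀ − e • σ χ₀, then (X ∪ Y, N minus 1, α) is coherent. -/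
theorem result {G : Type*} [Group G] [Fintype G] (N : Subgroup G) [Fintype N] (S X Y : Set (N → ℂ)) (hirr : ∀ ξ ∈ S, Cfsg.IsIrrCharacter N ξ) (hXS : X ⊆ S) (hYS : Y ⊆ S) (hXY : Disjoint X Y) (hX2 : ∃ a ∈ X, ∃ b ∈ X, a ≠ b) (hY2 : ∃ a ∈ Y, ∃ b ∈ Y, a ≠ b) (α : (N → ℂ) → (G → ℂ)) (hα : Cfsg.IsLinearIsometryOn (Cfsg.zspanOn S {1}ᶜ) α) (hα1 : ∀ θ ∈ Cfsg.zspanOn S {1}ᶜ, α θ 1 = 0) (σ τ : (N → ℂ) → (G → ℂ)) (hσ : Cfsg.IsLinearIsometryOn (Cfsg.zspan X) σ) (hσα : ∀ θ ∈ Cfsg.zspanOn X {1}ᶜ, σ θ = α θ) (hτ : Cfsg.IsLinearIsometryOn (Cfsg.zspan Y) τ) (hτα : ∀ θ ∈ Cfsg.zspanOn Y {1}ᶜ, τ θ = α θ) : (∀ χ ∈ X, ∀ η ∈ Y, Cfsg.classInner (σ χ) (τ η) = 0) ∧ ((∃ χ₀ ∈ X, ∃ η₀ ∈ Y, α (χ₀ 1 • η₀ - η₀ 1 • χ₀) = χ₀ 1 • τ η₀ - η₀ 1 • σ χ₀) → Cfsg.IsCoherent (X ∪ Y) {1}ᶜ α) := by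
  classical
  have hsubX : ∀ {v}, v ∈ zspanOn X {1}ᶜ → v ∈ zspanOn S {1}ᶜ := fun {v} hv => ⟨zspan_mono hXS hv.1, hv.2⟩
  have hsubY : ∀ {v}, v ∈ zspanOn Y {1}ᶜ → v ∈ zspanOn S {1}ᶜ := fun {v} hv => ⟨zspan_mono hYS hv.1, hv.2⟩
  obtain ⟨ε, hε, hεX, hinjX⟩ := Cfsg.Agent.S1529.result N X (fun x hx => hirr x (hXS hx))
    (by obtain ⟨a, ha, b, hb, h⟩ := hX2; exact ⟨a, ha, b, hb, h⟩) σ hσ
    (fun v hv h1 => by
      have hm := mem_zspanOn_one.2 ⟨hv, h1⟩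
      rw [hσα v hm]; exact hα1 v (hsubX hm))
  obtain ⟨δ, hδ, hδY, hinjY⟩ := Cfsg.Agent.S1529.result N Y (fun x hx => hirr x (hYS hx))
    (by obtain ⟨a, ha, b, hb, h⟩ := hY2; exact ⟨a, ha, b, hb, h⟩) τ hτ
    (fun v hv h1 => by
      have hm := mem_zspanOn_one.2 ⟨hv, h1⟩
      rw [hτα v hm]; exact hα1 v (hsubY hm))
  have hdeg : ∀ x ∈ S, x 1 = ((charDegree x : ℤ) : ℂ) ∧ 0 < charDegree x := fun x hx =>
    ⟨by rw [Int.cast_natCast]; exact irr_apply_one (⟨x, hirr x hx⟩ : IrrCharacter N),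
      charDegree_pos (⟨x, hirr x hx⟩ : IrrCharacter N)⟩
  have hε0 : ε ≠ 0 := by rcases hε with rfl | rfl <;> norm_num
  have hδ0 : δ ≠ 0 := by rcases hδ with rfl | rfl <;> norm_num
  have horth : ∀ χ ∈ X, ∀ η ∈ Y, classInner (σ χ) (τ η) = 0 := by
    intro χ hχ η hη
    obtain ⟨χ', hχ', hne⟩ : ∃ χ' ∈ X, χ ≠ χ' := by
      obtain ⟨a, ha, b, hb, h⟩ := hX2
      by_cases e : χ = a
      · exact ⟨b, hb, e ▸ h⟩
      · exact ⟨a, ha, e⟩
    obtain ⟨η', hη', hne'⟩ : ∃ η' ∈ Y, η ≠ η' := by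
      obtain ⟨a, ha, b, hb, h⟩ := hY2
      by_cases e : η = a
      · exact ⟨b, hb, e ▸ h⟩
      · exact ⟨a, ha, e⟩
    let P : (N → ℂ) → (N → ℂ) → ℕ := fun x y => if ε • σ x = δ • τ y then 1 else 0
    have hP : ∀ x ∈ X, ∀ y ∈ Y, classInner (σ x) (τ y) = ε * δ * (P x y : ℂ) := by
      intro x hx y hy
      have h := classInner_irr (⟨_, hεX x hx⟩ : IrrCharacter G) ⟨_, hδY y hy⟩
      simp only [Subtype.mk.injEq, ci_smul_left, ci_smul_right] at h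
      have hc : (starRingEnd ℂ) δ = δ := by rcases hδ with rfl | rfl <;> simp
      have e2 : δ * δ = 1 := by rcases hδ with rfl | rfl <;> norm_num
      have e1 : ε * ε = 1 := by rcases hε with rfl | rfl <;> norm_num
      rw [hc] at h
      calc classInner (σ x) (τ y) = (ε * ε) * (δ * δ) * classInner (σ x) (τ y) := by rw [e1, e2]; ring
        _ = ε * δ * (δ * (ε * classInner (σ x) (τ y))) := by ring
        _ = ε * δ * (P x y : ℂ) := by rw [h]; simp only [P]; split_ifs <;> simp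
    obtain ⟨hc, hc0⟩ := hdeg χ (hXS hχ)
    obtain ⟨hc', hc0'⟩ := hdeg χ' (hXS hχ')
    obtain ⟨hd, hd0⟩ := hdeg η (hYS hη)
    obtain ⟨hd', hd0'⟩ := hdeg η' (hYS hη')
    set c : ℤ := (charDegree χ : ℤ)
    set c' : ℤ := (charDegree χ' : ℤ)
    set d : ℤ := (charDegree η : ℤ)
    set d' : ℤ := (charDegree η' : ℤ)
    have hu : c' • χ - c • χ' ∈ zspanOn X {1}ᶜ := mem_zspanOn_one.2
      ⟨zspan_sub (zspan_zsmul _ (mem_zspan hχ)) (zspan_zsmul _ (mem_zspan hχ')), by simp [hc, hc', mul_comm]⟩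
    have hv : d' • η - d • η' ∈ zspanOn Y {1}ᶜ := mem_zspanOn_one.2
      ⟨zspan_sub (zspan_zsmul _ (mem_zspan hη)) (zspan_zsmul _ (mem_zspan hη')), by simp [hd, hd', mul_comm]⟩
    have h := hα.2.2.1 _ (hsubX hu) _ (hsubY hv)
    have hxy : ∀ x ∈ X, ∀ y ∈ Y, classInner x y = 0 := fun x hx y hy =>
      inner_irr_ne (hirr x (hXS hx)) (hirr y (hYS hy)) fun e => Set.disjoint_left.1 hXY hx (e ▸ hy)
    rw [← hσα _ hu, ← hτα _ hv,
      iso_sub hσ (zspan_zsmul _ (mem_zspan hχ)) (zspan_neg (zspan_zsmul _ (mem_zspan hχ'))) (zspan_zsmul _ (mem_zspan hχ')),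
      iso_sub hτ (zspan_zsmul _ (mem_zspan hη)) (zspan_neg (zspan_zsmul _ (mem_zspan hη'))) (zspan_zsmul _ (mem_zspan hη')),
      hσ.2.1 _ (mem_zspan hχ), hσ.2.1 _ (mem_zspan hχ'), hτ.2.1 _ (mem_zspan hη), hτ.2.1 _ (mem_zspan hη')] at h
    simp only [ci_sub_left, ci_sub_right, ci_zsmul_left, ci_zsmul_right, hxy χ hχ η hη, hxy χ hχ η' hη', hxy χ' hχ' η hη,
      hxy χ' hχ' η' hη', hP χ hχ η hη, hP χ hχ η' hη', hP χ' hχ' η hη, hP χ' hχ' η' hη', mul_zero, sub_zero] at h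
    have h2 : ε * δ * ((c' * d' * P χ η - c * d' * P χ' η - c' * d * P χ η' + c * d * P χ' η' : ℤ) : ℂ) = 0 := by
      push_cast; linear_combination h
    have h3 : c' * d' * P χ η - c * d' * P χ' η - c' * d * P χ η' + c * d * P χ' η' = 0 := by
      exact_mod_cast (mul_eq_zero.1 h2).resolve_left (mul_ne_zero hε0 hδ0)
    rw [hP χ hχ η hη]
    by_cases hp : ε • σ χ = δ • τ η
    · exfalso
      have f1 : ε • σ χ' ≠ δ • τ η := fun e => hne (hinjX χ hχ χ' hχ' (smul_right_injective _ hε0 (hp.trans e.symm)))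
      have f2 : ε • σ χ ≠ δ • τ η' := fun e => hne' (hinjY η hη η' hη' (smul_right_injective _ hδ0 (hp.symm.trans e)))
      simp only [P, if_pos hp, if_neg f1, if_neg f2, Nat.cast_zero, mul_zero, sub_zero, Nat.cast_one, mul_one] at h3
      have g1 : 0 < c' * d' := mul_pos (Int.natCast_pos.2 hc0') (Int.natCast_pos.2 hd0')
      have g2 : 0 ≤ c * d * ((if ε • σ χ' = δ • τ η' then 1 else 0 : ℕ) : ℤ) := by positivity
      omega
    · simp [P, hp]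
  refine ⟨horth, fun ⟨χ₀, hχ₀, η₀, hη₀, hlink⟩ => ?_⟩
  haveI : Finite (IrrCharacter N) := finite_irr N
  have hfin : (X ∪ Y).Finite := (Set.finite_range (fun x : IrrCharacter N => (x : N → ℂ))).subset fun x hx =>
    ⟨⟨x, hirr x (by rcases hx with h | h; exacts [hXS h, hYS h])⟩, rfl⟩
  set F : Finset (N → ℂ) := hfin.toFinset with hF
  have hFc : (↑F : Set (N → ℂ)) = X ∪ Y := hfin.coe_toFinset
  have hmem : ∀ x ∈ F, x ∈ X ∨ x ∈ Y := fun x hx => by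
    have : x ∈ (↑F : Set (N → ℂ)) := hx
    rwa [hFc] at this
  have hFi : ∀ x ∈ F, IsIrrCharacter N x := fun x hx => (hmem x hx).elim (fun h => hirr x (hXS h)) (fun h => hirr x (hYS h))
  let e : (N → ℂ) → (G → ℂ) := fun x => if x ∈ X then σ x else τ x
  have heY : ∀ y ∈ Y, e y = τ y := fun y hy => if_neg fun h => Set.disjoint_left.1 hXY h hy
  have heX : ∀ x ∈ X, e x = σ x := fun x hx => if_pos hx
  obtain ⟨τ₂, hτ₂, hτ₂e⟩ := exists_extension F (fun x hx y hy h => inner_irr_ne (hFi x hx) (hFi y hy) h)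
    (fun x hx => by rw [inner_irr_self (hFi x hx)]; exact one_ne_zero) e
    (fun x hx => by
      rcases hmem x hx with h | h
      · rw [heX x h]; exact hσ.2.2.2 _ (mem_zspan h)
      · rw [heY x h]; exact hτ.2.2.2 _ (mem_zspan h))
    (fun x hx y hy => by
      rcases hmem x hx with h | h <;> rcases hmem y hy with h' | h'
      · rw [heX x h, heX y h', hσ.2.2.1 _ (mem_zspan h) _ (mem_zspan h')]
      · rw [heX x h, heY y h', horth x h y h', inner_irr_ne (hFi x hx) (hFi y hy) fun e' => Set.disjoint_left.1 hXY h (e' ▸ h')]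
      · rw [heY x h, heX y h', classInner_symm, horth y h' x h, map_zero,
          inner_irr_ne (hFi x hx) (hFi y hy) fun e' => Set.disjoint_left.1 hXY h' (e' ▸ h)]
      · rw [heY x h, heY y h', hτ.2.2.1 _ (mem_zspan h) _ (mem_zspan h')])
  rw [hFc] at hτ₂
  have restr : ∀ {T : Set (N → ℂ)}, T ⊆ X ∪ Y → IsLinearIsometryOn (zspan T) τ₂ := fun {T} hT =>
    ⟨fun a ha b hb => hτ₂.1 a (zspan_mono hT ha) b (zspan_mono hT hb),
      fun a ha n => hτ₂.2.1 a (zspan_mono hT ha) n,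
      fun a ha b hb => hτ₂.2.2.1 a (zspan_mono hT ha) b (zspan_mono hT hb),
      fun a ha => hτ₂.2.2.2 a (zspan_mono hT ha)⟩
  have hin : ∀ z ∈ X ∪ Y, z ∈ F := fun z hz => Finset.mem_coe.1 (hFc.symm ▸ hz)
  have eX : ∀ v ∈ zspan X, τ₂ v = σ v := fun v hv =>
    iso_ext (restr Set.subset_union_left) hσ (fun x hx => by rw [hτ₂e x (hin x (Or.inl hx)), heX x hx]) hv
  have eY : ∀ v ∈ zspan Y, τ₂ v = τ v := fun v hv =>
    iso_ext (restr Set.subset_union_right) hτ (fun x hx => by rw [hτ₂e x (hin x (Or.inr hx)), heY x hx]) hv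
  refine ⟨?_, τ₂, hτ₂, fun v hv => ?_⟩
  · obtain ⟨a, ha, b, hb, hab⟩ := hX2
    obtain ⟨e1, h1⟩ := hdeg a (hXS ha)
    obtain ⟨e2, h2⟩ := hdeg b (hXS hb)
    refine ⟨(charDegree b : ℤ) • a - (charDegree a : ℤ) • b, mem_zspanOn_one.2
      ⟨zspan_sub (zspan_zsmul _ (mem_zspan (Or.inl ha))) (zspan_zsmul _ (mem_zspan (Or.inl hb))), by simp [e1, e2, mul_comm]⟩, fun h => ?_⟩
    have h' := congrArg (fun f => classInner f a) h
    simp only [ci_sub_left, ci_zsmul_left, ci_zero_left, inner_irr_self (hirr a (hXS ha)),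
      inner_irr_ne (hirr b (hXS hb)) (hirr a (hXS ha)) hab.symm, mul_one, mul_zero, sub_zero, Int.cast_natCast, Nat.cast_eq_zero] at h'
    omega
  obtain ⟨x, hx, y, hy, rfl⟩ : ∃ x ∈ zspan X, ∃ y ∈ zspan Y, v = x + y := by
    have h := hv.1
    have h' : v ∈ Submodule.span ℤ X ⊔ Submodule.span ℤ Y := by rw [← Submodule.span_union]; exact h
    obtain ⟨x, hx, y, hy, e⟩ := Submodule.mem_sup.1 h'
    exact ⟨x, hx, y, hy, e.symm⟩
  obtain ⟨k, hk⟩ : ∃ k : ℤ, x 1 = k := by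
    refine zspan_induction (p := fun x => ∃ k : ℤ, x 1 = k) (fun z hz => ⟨_, (hdeg z (hXS hz)).1⟩) ⟨0, by simp⟩ ?_ ?_ hx
    · rintro u w - - ⟨m, hm⟩ ⟨n, hn⟩; exact ⟨m + n, by simp [hm, hn]⟩
    · rintro n u - ⟨m, hm⟩; exact ⟨n * m, by simp [hm]⟩
  obtain ⟨ea, ha0⟩ := hdeg χ₀ (hXS hχ₀)
  obtain ⟨eb, hb0⟩ := hdeg η₀ (hYS hη₀)
  set a : ℤ := (charDegree χ₀ : ℤ)
  set b : ℤ := (charDegree η₀ : ℤ)
  have hy1 : y 1 = -(k : ℂ) := by
    have := (mem_zspanOn_one.1 hv).2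
    rw [Pi.add_apply, hk] at this
    linear_combination this
  have hxx : (a * b) • x - (b * k) • χ₀ ∈ zspanOn X {1}ᶜ := mem_zspanOn_one.2
    ⟨zspan_sub (zspan_zsmul _ hx) (zspan_zsmul _ (mem_zspan hχ₀)), by simp [hk, ea]; ring⟩
  have hyy : (a * b) • y + (a * k) • η₀ ∈ zspanOn Y {1}ᶜ := mem_zspanOn_one.2
    ⟨zspan_add (zspan_zsmul _ hy) (zspan_zsmul _ (mem_zspan hη₀)), by simp [hy1, eb]; ring⟩
  set β : N → ℂ := a • η₀ - b • χ₀ with hβ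
  have hβm : β ∈ zspanOn S {1}ᶜ := mem_zspanOn_one.2
    ⟨zspan_sub (zspan_zsmul _ (mem_zspan (hYS hη₀))) (zspan_zsmul _ (mem_zspan (hXS hχ₀))), by simp [hβ, ea, eb, mul_comm]⟩
  have hβe : α β = a • τ η₀ - b • σ χ₀ := by
    have := hlink
    rw [ea, eb, Int.cast_smul_eq_zsmul, Int.cast_smul_eq_zsmul, Int.cast_smul_eq_zsmul, Int.cast_smul_eq_zsmul] at this
    exact this
  have hdec : (a * b) • (x + y) = ((a * b) • x - (b * k) • χ₀) + ((a * b) • y + (a * k) • η₀) + (-k) • β := by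
    rw [hβ]; module
  have hβU : β ∈ zspan (X ∪ Y) :=
    zspan_sub (zspan_zsmul _ (mem_zspan (Or.inr hη₀))) (zspan_zsmul _ (mem_zspan (Or.inl hχ₀)))
  have hτβ : τ₂ β = α β := by
    rw [hβe, hβ, iso_sub hτ₂ (zspan_zsmul _ (mem_zspan (Or.inr hη₀))) (zspan_neg (zspan_zsmul _ (mem_zspan (Or.inl hχ₀))))
      (zspan_zsmul _ (mem_zspan (Or.inl hχ₀))), hτ₂.2.1 _ (mem_zspan (Or.inr hη₀)), hτ₂.2.1 _ (mem_zspan (Or.inl hχ₀)),
      hτ₂e _ (hin _ (Or.inr hη₀)), hτ₂e _ (hin _ (Or.inl hχ₀)), heX χ₀ hχ₀, heY η₀ hη₀]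
  have hkβ : (-k) • β ∈ zspanOn S {1}ᶜ :=
    mem_zspanOn_one.2 ⟨zspan_zsmul _ hβm.1, by rw [Pi.smul_apply, (mem_zspanOn_one.1 hβm).2, smul_zero]⟩
  have hsum : ((a * b) • x - (b * k) • χ₀) + ((a * b) • y + (a * k) • η₀) ∈ zspanOn S {1}ᶜ :=
    mem_zspanOn_one.2 ⟨zspan_add (hsubX hxx).1 (hsubY hyy).1, by
      rw [Pi.add_apply, (mem_zspanOn_one.1 hxx).2, (mem_zspanOn_one.1 hyy).2, add_zero]⟩
  have hvS : x + y ∈ zspanOn S {1}ᶜ := ⟨zspan_add (zspan_mono hXS hx) (zspan_mono hYS hy), hv.2⟩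
  have hmain : (a * b) • τ₂ (x + y) = (a * b) • α (x + y) := by
    rw [← hτ₂.2.1 _ hv.1, ← hα.2.1 _ hvS, hdec, hα.1 _ hsum _ hkβ, hα.1 _ (hsubX hxx) _ (hsubY hyy), hα.2.1 _ hβm,
      hτ₂.1 _ (zspan_add (zspan_mono Set.subset_union_left hxx.1) (zspan_mono Set.subset_union_right hyy.1)) _ (zspan_zsmul _ hβU),
      hτ₂.1 _ (zspan_mono Set.subset_union_left hxx.1) _ (zspan_mono Set.subset_union_right hyy.1),
      eX _ hxx.1, eY _ hyy.1, hσα _ hxx, hτα _ hyy, hτ₂.2.1 _ hβU, hτβ]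
  exact smul_right_injective (G → ℂ) (mul_ne_zero (by simp [a]; omega) (by simp [b]; omega)) hmain

end Cfsg.Agent.S1531
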