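import Cfsg.Statements.S1532
import Mathlib
import Cfsg.Agent.Lib.SibleySetup

set_option autoImplicit false
open Cfsg

namespace Cfsg.Agent.S1532

/-- Let G be a finite group, p an odd prime and P a Sylow p-subgroup that is non-abelian, whose underlying set is a TI-subset of G, with P properly contained in its set normaliser N and C_G(x) ≤ P for every non-identity x ∈ P. Let Z be a nontrivial subgroup of the centre of P normalised by N. Then the set of irreducible characters χ of N with χ z ≠ χ 1 for some z ∈ Z is coherent for the map induced by induction from N to G. -/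
theorem result {G : Type*} [Group G] [Fintype G] (p : ℕ) [Fact p.Prime] (hp : p ≠ 2) (P : Sylow p G) (hna : ¬ IsMulCommutative (P : Subgroup G)) (hTI : Cfsg.IsTISubset ((P : Subgroup G) : Set G)) (hlt : (P : Subgroup G) < Subgroup.normalizer ((P : Subgroup G) : Set G)) (hC : ∀ k ∈ (P : Subgroup G), k ≠ 1 → Subgroup.centralizer ({k} : Set G) ≤ (P : Subgroup G)) [Fintype ↥(Subgroup.normalizer ((P : Subgroup G) : Set G))] (Z : Subgroup G) (hZ1 : Z ≠ ⊥) (hZP : ∀ z ∈ Z, z ∈ (P : Subgroup G) ∧ ∀ y ∈ (P : Subgroup G), z * y = y * z) (hZn : ∀ x ∈ Subgroup.normalizer ((P : Subgroup G) : Set G), ∀ z ∈ Z, x * z * x⁻¹ ∈ Z) : Cfsg.IsCoherent {χ : ↥(Subgroup.normalizer ((P : Subgroup G) : Set G)) → ℂ | Cfsg.IsIrrCharacter ↥(Subgroup.normalizer ((P : Subgroup G) : Set G)) χ ∧ ∃ z : ↥(Subgroup.normalizer ((P : Subgroup G) : Set G)), (z : G) ∈ Z ∧ χ z ≠ χ 1} {1}ᶜ (fun α => Cfsg.indFun (Subgroup.normalizer ((P : Subgroup G) : Set G)) α) := by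
  classical
  obtain ⟨hCL, hCG, hT⟩ := CfsgLib.SibleySetup.of_TI (P : Subgroup G) hTI hC
  haveI : ((P : Subgroup G).subgroupOf (Subgroup.normalizer ((P : Subgroup G) : Set G))).Normal :=
    Subgroup.normal_in_normalizer
  set H := (P : Subgroup G).subgroupOf (Subgroup.normalizer ((P : Subgroup G) : Set G)) with hH
  have hKN : (P : Subgroup G) ≤ (Subgroup.normalizer ((P : Subgroup G) : Set G)) := hlt.le
  have hcard : Nat.card H = Nat.card (P : Subgroup G) := Nat.card_congr (Subgroup.subgroupOfEquivOfLe hKN).toEquiv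
  have hP : IsPGroup p H := P.isPGroup'.of_equiv (Subgroup.subgroupOfEquivOfLe hKN).symm
  have hnaH : ¬ IsMulCommutative H := fun h => hna ⟨⟨fun a b => Subtype.ext (congrArg (fun x : H => ((x : (Subgroup.normalizer ((P : Subgroup G) : Set G))) : G))
    (h.is_comm.comm ⟨⟨a.1, hKN a.2⟩, a.2⟩ ⟨⟨b.1, hKN b.2⟩, b.2⟩))⟩⟩
  obtain ⟨m, hm⟩ := IsPGroup.iff_card.1 hP
  have hodd := CfsgLib.SibleySetup.odd_card H hCL (hm ▸ ((Fact.out : p.Prime).odd_of_ne_two hp).pow) hnaH
  let Z' := Z.subgroupOf (Subgroup.normalizer ((P : Subgroup G) : Set G))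
  haveI : Z'.Normal := ⟨fun z hz x => hZn x x.2 z hz⟩
  have hZ'H : Z' ≤ H := fun z hz => (hZP z hz).1
  have hZ'1 : Z' ≠ ⊥ := fun h => hZ1 (by
    have hle : Z ≤ (Subgroup.normalizer ((P : Subgroup G) : Set G)) := fun z hz => hKN (hZP z hz).1
    exact disjoint_self.1 ((Subgroup.subgroupOf_eq_bot.1 h).mono_right hle))
  have hH1 : H ≠ ⊥ := fun h => hZ'1 (eq_bot_iff.2 (h ▸ hZ'H))
  have h := CfsgLib.Sibley.coherent_central (Subgroup.normalizer ((P : Subgroup G) : Set G)) H hCG hT hodd Fact.out hp hP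
    (CfsgLib.SibleySetup.not_dvd_index H hCL Fact.out hP hH1) Z' hZ'H
    (fun z hz x hx => Subtype.ext ((hZP z hz).2 x hx)) hZ'1
  rw [CfsgLib.Sibley.coe_irrOn] at h
  exact h

end Cfsg.Agent.S1532
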