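import Cfsg.Statements.S1533
import Mathlib
import Cfsg.Agent.Lib.SibleySetup

set_option autoImplicit false
open Cfsg

namespace Cfsg.Agent.S1533

/-- Let G be a finite group, p an odd prime, and P a nontrivial Sylow p-subgroup whose underlying set is a TI-subset of G, with P properly contained in its set normaliser N and C_G(x) ≤ P for every non-identity x ∈ P. Let S be the set of irreducible characters χ of N with χ x ≠ χ 1 for some x ∈ P. Then either S has exactly one member, P is elementary abelian and Nat.card P = [N:P] + 1; or (S, N minus 1, induction to G) is coherent. -/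
theorem result {G : Type*} [Group G] [Fintype G] (p : ℕ) [Fact p.Prime] (hp : p ≠ 2) (P : Sylow p G) (hP1 : (P : Subgroup G) ≠ ⊥) (hTI : Cfsg.IsTISubset ((P : Subgroup G) : Set G)) (hlt : (P : Subgroup G) < Subgroup.normalizer ((P : Subgroup G) : Set G)) (hC : ∀ k ∈ (P : Subgroup G), k ≠ 1 → Subgroup.centralizer ({k} : Set G) ≤ (P : Subgroup G)) [Fintype ↥(Subgroup.normalizer ((P : Subgroup G) : Set G))] : (Nat.card {χ : ↥(Subgroup.normalizer ((P : Subgroup G) : Set G)) → ℂ // Cfsg.IsIrrCharacter ↥(Subgroup.normalizer ((P : Subgroup G) : Set G)) χ ∧ ∃ x : ↥(Subgroup.normalizer ((P : Subgroup G) : Set G)), (x : G) ∈ (P : Subgroup G) ∧ χ x ≠ χ 1} = 1 ∧ Cfsg.IsElementaryAbelian p (P : Subgroup G) ∧ Nat.card (P : Subgroup G) = ((P : Subgroup G).subgroupOf (Subgroup.normalizer ((P : Subgroup G) : Set G))).index + 1) ∨ Cfsg.IsCoherent {χ : ↥(Subgroup.normalizer ((P : Subgroup G) : Set G)) → ℂ | Cfsg.IsIrrCharacter ↥(Subgroup.normalizer ((P : Subgroup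 G) : Set G)) χ ∧ ∃ x : ↥(Subgroup.normalizer ((P : Subgroup G) : Set G)), (x : G) ∈ (P : Subgroup G) ∧ χ x ≠ χ 1} {1}ᶜ (fun α => Cfsg.indFun (Subgroup.normalizer ((P : Subgroup G) : Set G)) α) := by
  classical
  obtain ⟨hCL, hCG, hT⟩ := CfsgLib.SibleySetup.of_TI (P : Subgroup G) hTI hC
  haveI : ((P : Subgroup G).subgroupOf (Subgroup.normalizer ((P : Subgroup G) : Set G))).Normal :=
    Subgroup.normal_in_normalizer
  set H := (P : Subgroup G).subgroupOf (Subgroup.normalizer ((P : Subgroup G) : Set G)) with hH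
  have hKN : (P : Subgroup G) ≤ (Subgroup.normalizer ((P : Subgroup G) : Set G)) := hlt.le
  have hcard : Nat.card H = Nat.card (P : Subgroup G) := Nat.card_congr (Subgroup.subgroupOfEquivOfLe hKN).toEquiv
  have hH1 : H ≠ ⊥ := fun h => hP1 (disjoint_self.1 ((Subgroup.subgroupOf_eq_bot.1 h).mono_right hKN))
  have hH2 : H ≠ ⊤ := fun h => hlt.not_ge (Subgroup.subgroupOf_eq_top.1 h)
  haveI : Fintype H := Fintype.ofFinite H
  haveI : Group.IsNilpotent H := CfsgLib.Feit1535.nilp H hCL hH1 hH2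
  by_cases he : Nat.card H = H.index + 1
  · left
    obtain ⟨hab, ⟨q, hq, hqd, hpow⟩, hone⟩ := CfsgLib.SibleySetup.degenerate H hCL hH1 he
    obtain ⟨m, hm⟩ := IsPGroup.iff_card.1 P.isPGroup'
    obtain rfl : q = p := (Nat.prime_dvd_prime_iff_eq hq Fact.out).1 (hq.dvd_of_dvd_pow (hm ▸ hcard ▸ hqd))
    refine ⟨?_, ⟨⟨⟨fun a b => ?_⟩⟩, fun a ha => ?_⟩, by rw [← hcard]; exact he⟩
    · rw [← hone, ← Fintype.card_coe, ← Nat.card_eq_fintype_card]
      exact Nat.card_congr (Equiv.subtypeEquivRight fun χ => (CfsgLib.Sibley.mem_irrOn (A := H) (χ := χ)).symm)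
    · exact Subtype.ext (congrArg (fun x : H => ((x : (Subgroup.normalizer ((P : Subgroup G) : Set G))) : G))
        (hab.is_comm.comm ⟨⟨a.1, hKN a.2⟩, a.2⟩ ⟨⟨b.1, hKN b.2⟩, b.2⟩))
    · exact congrArg Subtype.val (hpow ⟨a, hKN ha⟩ ha)
  right
  rcases CfsgLib.SibleySetup.coherent_or (Subgroup.normalizer ((P : Subgroup G) : Set G)) H hH1 hH2 he hCG hT with h | ⟨⟨m, hm⟩, -, -⟩
  · rw [CfsgLib.Sibley.coe_irrOn] at h; exact h
  exfalso
  obtain ⟨j, hj⟩ := IsPGroup.iff_card.1 P.isPGroup'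
  rw [hcard, hj] at hm
  rcases Nat.eq_zero_or_pos j with h0 | h0
  · rw [h0, pow_zero] at hj; exact hP1 (Subgroup.card_eq_one.1 hj)
  · exact hp ((Nat.prime_dvd_prime_iff_eq Fact.out Nat.prime_two).1
      ((Fact.out : p.Prime).dvd_of_dvd_pow (hm ▸ dvd_pow_self p h0.ne')))

end Cfsg.Agent.S1533
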