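import Cfsg.Statements.S1534
import Mathlib
import Cfsg.Agent.Lib.SibleySetup

set_option autoImplicit false
open Cfsg

namespace Cfsg.Agent.S1534

/-- Let G be a finite group and K a nontrivial nilpotent subgroup whose underlying set is a TI-subset of G, properly contained in its set normaliser N, with C_G(k) ≤ K for every non-identity k ∈ K; let e be the index of K in N and S the set of irreducible characters χ of N with χ k ≠ χ 1 for some k ∈ K. Then one of: S has exactly one member, Nat.card K = e + 1 and K is an elementary abelian p-group for some prime p; or K is a Sylow 2-subgroup of G (Nat.card K is the largest power of 2 dividing Nat.card G) and [K : [K,K]] < 4e²; or (S, N minus 1, induction to G) is coherent. -/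
theorem result {G : Type*} [Group G] [Fintype G] (K : Subgroup G) (hK1 : K ≠ ⊥) (hnil : Group.IsNilpotent K) (hTI : Cfsg.IsTISubset (K : Set G)) (hlt : K < Subgroup.normalizer (K : Set G)) (hC : ∀ k ∈ K, k ≠ 1 → Subgroup.centralizer ({k} : Set G) ≤ K) [Fintype ↥(Subgroup.normalizer (K : Set G))] : (Nat.card {χ : ↥(Subgroup.normalizer (K : Set G)) → ℂ // Cfsg.IsIrrCharacter ↥(Subgroup.normalizer (K : Set G)) χ ∧ ∃ k : ↥(Subgroup.normalizer (K : Set G)), (k : G) ∈ K ∧ χ k ≠ χ 1} = 1 ∧ Nat.card K = (K.subgroupOf (Subgroup.normalizer (K : Set G))).index + 1 ∧ ∃ p : ℕ, p.Prime ∧ Cfsg.IsElementaryAbelian p K) ∨ (Nat.card K = 2 ^ (Nat.card G).factorization 2 ∧ (⁅K, K⁆.subgroupOf K).index < 4 * (K.subgroupOf (Subgroup.normalizer (K : Set G))).index ^ 2) ∨ Cfsg.IsCoherent {χ : ↥(Subgroup.normalizer (K : Set G)) → ℂ | Cfsg.IsIrrCharacter ↥(Subgroup.normalizer (K : Set G)) χ ∧ ∃ k : ↥(Subgroup.normalizer (K : Set G)), (k : G) ∈ K ∧ χ k ≠ χ 1} {1}ᶜ (fun α => Cfsg.indFun (Subgroup.normalizer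 (K : Set G)) α) := by
  classical
  obtain ⟨hCL, hCG, hT⟩ := CfsgLib.SibleySetup.of_TI K hTI hC
  haveI : (K.subgroupOf (Subgroup.normalizer (K : Set G))).Normal := Subgroup.normal_in_normalizer
  set H := K.subgroupOf (Subgroup.normalizer (K : Set G)) with hH
  have hKN : K ≤ (Subgroup.normalizer (K : Set G)) := hlt.le
  have hcard : Nat.card H = Nat.card K := Nat.card_congr (Subgroup.subgroupOfEquivOfLe hKN).toEquiv
  have hH1 : H ≠ ⊥ := fun h => hK1 (disjoint_self.1 ((Subgroup.subgroupOf_eq_bot.1 h).mono_right hKN))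
  have hH2 : H ≠ ⊤ := fun h => hlt.not_ge (Subgroup.subgroupOf_eq_top.1 h)
  haveI : Fintype H := Fintype.ofFinite H
  haveI : Group.IsNilpotent H := CfsgLib.Feit1535.nilp H hCL hH1 hH2
  have hset : (↑(CfsgLib.Sibley.irrOn H) : Set ((Subgroup.normalizer (K : Set G)) → ℂ)) =
      {χ : (Subgroup.normalizer (K : Set G)) → ℂ | Cfsg.IsIrrCharacter (Subgroup.normalizer (K : Set G)) χ ∧ ∃ k : (Subgroup.normalizer (K : Set G)), (k : G) ∈ K ∧ χ k ≠ χ 1} := CfsgLib.Sibley.coe_irrOn H
  by_cases he : Nat.card H = H.index + 1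
  · left
    obtain ⟨hab, ⟨p, hp, -, hpow⟩, hone⟩ := CfsgLib.SibleySetup.degenerate H hCL hH1 he
    refine ⟨?_, by rw [← hcard]; exact he, p, hp, ⟨⟨fun a b => ?_⟩⟩, fun a ha => ?_⟩
    · rw [← hone, ← Fintype.card_coe, ← Nat.card_eq_fintype_card]
      exact Nat.card_congr (Equiv.subtypeEquivRight fun χ => (CfsgLib.Sibley.mem_irrOn (A := H) (χ := χ)).symm)
    · exact Subtype.ext (congrArg (fun x : H => ((x : (Subgroup.normalizer (K : Set G))) : G))
        (hab.is_comm.comm ⟨⟨a.1, hKN a.2⟩, a.2⟩ ⟨⟨b.1, hKN b.2⟩, b.2⟩))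
    · exact congrArg Subtype.val (hpow ⟨a, hKN ha⟩ ha)
  right
  rcases CfsgLib.SibleySetup.coherent_or (Subgroup.normalizer (K : Set G)) H hH1 hH2 he hCG hT with h | ⟨⟨m, hm⟩, hna, hsmall⟩
  · right; rw [← hset]; exact h
  left
  have hidx : (⁅K, K⁆.subgroupOf K).index = (⁅H, H⁆.subgroupOf H).index := by
    have e1 : ⁅K, K⁆.subgroupOf K = commutator K := by
      rw [Subgroup.subgroupOf, ← Subgroup.map_subtype_commutator,
        Subgroup.comap_map_eq_self_of_injective K.subtype_injective]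
    have e2 : ⁅H, H⁆.subgroupOf H = commutator H := by
      rw [Subgroup.subgroupOf, ← Subgroup.map_subtype_commutator,
        Subgroup.comap_map_eq_self_of_injective H.subtype_injective]
    have e : (commutator H).map (Subgroup.subgroupOfEquivOfLe hKN).toMonoidHom = commutator K := by
      rw [commutator_def, Subgroup.map_commutator, Subgroup.map_top_of_surjective _ (MulEquiv.surjective _),
        commutator_def]
    rw [e1, e2, ← e]
    exact Subgroup.index_map_of_bijective (f := (Subgroup.subgroupOfEquivOfLe hKN).toMonoidHom) (Subgroup.subgroupOfEquivOfLe hKN).bijective (commutator H)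
  haveI := Fact.mk Nat.prime_two
  have hP : IsPGroup 2 H := IsPGroup.of_card hm
  have hodd : ¬ 2 ∣ H.index := CfsgLib.SibleySetup.not_dvd_index H hCL Nat.prime_two hP hH1
  have he1 : 1 < H.index := Subgroup.one_lt_index_of_ne_top hH2
  refine ⟨?_, ?_⟩
  · have hKP : IsPGroup 2 K := IsPGroup.of_card (n := m) (by rw [← hcard]; exact hm)
    obtain ⟨T, hT'⟩ := hKP.exists_le_sylow
    rcases hT'.eq_or_lt with heq | hlt'
    · conv_lhs => rw [heq]
      exact T.card_eq_multiplicity
    · exfalso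
      haveI := T.isPGroup'.isNilpotent
      have hlt2 : K.subgroupOf (T : Subgroup G) < ⊤ :=
        lt_top_iff_ne_top.2 fun h => hlt'.not_ge (Subgroup.subgroupOf_eq_top.1 h)
      obtain ⟨x, hxn, hxK⟩ := SetLike.exists_of_lt (Group.normalizerCondition_of_isNilpotent (G := (T : Subgroup G)) _ hlt2)
      have hxN : (x : G) ∈ (Subgroup.normalizer (K : Set G)) := Subgroup.mem_normalizer_iff.2 fun g => by
        constructor
        · intro hg
          exact Subgroup.mem_subgroupOf.1 ((Subgroup.mem_normalizer_iff.1 hxn ⟨g, hT' hg⟩).1 hg)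
        · intro hg
          have hgT : g ∈ (T : Subgroup G) := by
            have := (T : Subgroup G).mul_mem ((T : Subgroup G).mul_mem ((T : Subgroup G).inv_mem x.2) (hT' hg)) x.2
            simpa [mul_assoc] using this
          exact (Subgroup.mem_normalizer_iff.1 hxn ⟨g, hgT⟩).2 hg
      have hxH : (⟨x, hxN⟩ : (Subgroup.normalizer (K : Set G))) ∉ H := hxK
      obtain ⟨k, hk⟩ := IsPGroup.iff_orderOf.1 T.isPGroup' x
      have hk' : orderOf (⟨x, hxN⟩ : (Subgroup.normalizer (K : Set G))) = 2 ^ k := by rw [← Subgroup.orderOf_coe]; simpa using hk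
      have h1 : orderOf (QuotientGroup.mk' H (⟨x, hxN⟩ : (Subgroup.normalizer (K : Set G)))) ∣ 2 ^ k := hk' ▸ orderOf_map_dvd _ _
      obtain ⟨i, -, hi⟩ := (Nat.dvd_prime_pow Nat.prime_two).1 h1
      have hi0 : i ≠ 0 := fun h => hxH ((QuotientGroup.eq_one_iff _).1 (orderOf_eq_one_iff.1 (hi.trans (by rw [h, pow_zero]))))
      exact hodd ((dvd_pow_self 2 hi0).trans (hi ▸ (orderOf_dvd_natCard _).trans (by rw [Subgroup.index])))
  · rw [hidx]
    refine lt_of_le_of_ne (Nat.le_of_lt_succ (lt_of_le_of_ne hsmall ?_)) ?_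
    · intro h
      have h2 : (⁅H, H⁆.subgroupOf H).index ∣ 2 ^ m := hm ▸ Subgroup.index_dvd_card _
      obtain ⟨i, -, hi⟩ := (Nat.dvd_prime_pow Nat.prime_two).1 h2
      rw [h] at hi
      rcases Nat.eq_zero_or_pos i with h0 | h0
      · rw [h0, pow_zero] at hi
        nlinarith
      · have h5 : 4 * H.index ^ 2 + 1 = 2 ^ i := hi
        have : 2 ∣ 4 * H.index ^ 2 + 1 := h5.symm ▸ dvd_pow_self 2 h0.ne'
        omega
    · intro h
      have h2 : (⁅H, H⁆.subgroupOf H).index ∣ 2 ^ m := hm ▸ Subgroup.index_dvd_card _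
      have h3 : H.index ∣ 2 ^ m := (dvd_mul_of_dvd_right (dvd_pow_self _ two_ne_zero) 4).trans (h ▸ h2)
      obtain ⟨i, -, hi⟩ := (Nat.dvd_prime_pow Nat.prime_two).1 h3
      rcases Nat.eq_zero_or_pos i with h0 | h0
      · rw [h0, pow_zero] at hi; omega
      · exact hodd (hi ▸ dvd_pow_self 2 h0.ne')

end Cfsg.Agent.S1534
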