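import Cfsg.Statements.S1536
import Mathlib
import Cfsg.Agent.Lib.FixedIrr
import Cfsg.Agent.S1496

set_option autoImplicit false
open Cfsg

namespace Cfsg.Agent.S1536

/-- Let H be a normal subgroup of the finite group M whose order is coprime to its index. For x ∈ M: some non-principal irreducible character of H is unchanged under h ↦ θ(x h x⁻¹) if and only if some non-identity element of H commutes with x. -/
theorem result {M : Type*} [Group M] [Finite M] (H : Subgroup M) [hN : H.Normal] (hHall : Nat.Coprime (Nat.card H) H.index) (x : M) : (∃ θ : H → ℂ, Cfsg.IsIrrCharacter H θ ∧ θ ≠ (fun _ => 1) ∧ (fun h : H => θ ⟨x * h * x⁻¹, hN.conj_mem h h.2 x⟩) = θ) ↔ ∃ h ∈ H, h ≠ 1 ∧ x * h = h * x := by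
  classical
  haveI := Fintype.ofFinite M
  constructor
  · rintro ⟨θ, hθ, hne, hfix⟩
    by_contra hcon
    refine hne (CfsgLib.FixedIrr.eq_one_of_fixed H (x := x) (θ := ⟨θ, hθ⟩) ?_
      (Subtype.ext (funext fun h => (CfsgLib.Chars.conjIrr_apply' H ⟨θ, hθ⟩ x h).trans (congrFun hfix h))))
    intro h k hh heq
    apply hcon
    obtain ⟨m, hm0, hm1⟩ := Nat.chineseRemainder hHall 0 1
    -- `x ^ m` has order prime to `|H|` and lies in the coset of `x`
    have hcoset : ∀ z : M, (QuotientGroup.mk (z ^ m) : M ⧸ H) = QuotientGroup.mk z := fun z => by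
      rw [QuotientGroup.mk_pow]
      conv_rhs => rw [← pow_one (QuotientGroup.mk z : M ⧸ H)]
      rw [pow_eq_pow_iff_modEq]
      exact hm1.of_dvd (orderOf_dvd_natCard _)
    have hord : ∀ z : M, (orderOf (z ^ m)).Coprime (Nat.card H) := fun z => by
      refine Nat.Coprime.coprime_dvd_left (orderOf_dvd_of_pow_eq_one (n := H.index) ?_) hHall.symm
      rw [← pow_mul, ← orderOf_dvd_iff_pow_eq_one]
      refine (orderOf_dvd_natCard z).trans ?_
      rw [← Subgroup.index_mul_card H, mul_comm m]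
      exact mul_dvd_mul_left _ (Nat.modEq_zero_iff_dvd.1 hm0)
    by_cases hx : x ^ m = x
    · set y := (k : M)⁻¹ * x with hy
      have hyc : Commute y h := by
        have h1 : (x * h * x⁻¹ : M) = k * h * (k : M)⁻¹ := heq
        show y * h = h * y
        rw [hy]
        calc (k : M)⁻¹ * x * h = (k : M)⁻¹ * (x * h * x⁻¹) * x := by group
          _ = (k : M)⁻¹ * (k * h * (k : M)⁻¹) * x := by rw [h1]
          _ = h * ((k : M)⁻¹ * x) := by group
      have hyx : y ^ m * x⁻¹ ∈ H := by
        rw [← QuotientGroup.eq_one_iff, QuotientGroup.mk_mul, QuotientGroup.mk_inv, hcoset, hy,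
          QuotientGroup.mk_mul, QuotientGroup.mk_inv, (QuotientGroup.eq_one_iff (k : M)).2 k.2]
        simp
      obtain ⟨u, hu, c, hc, hcx, huc⟩ := Cfsg.Agent.S1496.result H x
        (by rw [Subgroup.normalizer_eq_top]; exact Subgroup.mem_top x) (hx ▸ hord x) _ hyx
      rw [inv_mul_cancel_right] at huc
      have hc1 : c = 1 := by
        have hco : (orderOf (c * x)).Coprime (Nat.card H) := by
          rw [← huc, show u * y ^ m * u⁻¹ = MulAut.conj u (y ^ m) from rfl, MulEquiv.orderOf_eq]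
          exact hord y
        have hxo : (orderOf x).Coprime (Nat.card H) := hx ▸ hord x
        have h1 : orderOf c ∣ orderOf (c * x) * orderOf x := by
          have h2 := Commute.orderOf_mul_dvd_lcm (x := c * x) (y := x⁻¹)
            ((Commute.mul_left hcx (Commute.refl x)).inv_right)
          rw [mul_inv_cancel_right, orderOf_inv] at h2
          exact h2.trans (Nat.lcm_dvd_mul _ _)
        exact orderOf_eq_one_iff.1 (Nat.eq_one_of_dvd_coprimes (hco.mul_left hxo) h1
          (Subgroup.orderOf_mk c hc ▸ orderOf_dvd_natCard _))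
      rw [hc1, one_mul] at huc
      refine ⟨u * h * u⁻¹, hN.conj_mem _ h.2 u, fun e => hh (Subtype.ext (conj_eq_one_iff.1 e)), ?_⟩
      have h3 : y ^ m * h = h * y ^ m := (hyc.pow_left m).eq
      calc x * (u * h * u⁻¹) = u * y ^ m * u⁻¹ * (u * h * u⁻¹) := by rw [huc]
        _ = u * (y ^ m * h) * u⁻¹ := by group
        _ = u * (h * y ^ m) * u⁻¹ := by rw [h3]
        _ = u * h * u⁻¹ * (u * y ^ m * u⁻¹) := by group
        _ = _ := by rw [huc]
    · refine ⟨(x ^ m)⁻¹ * x, ?_, fun e => hx (inv_mul_eq_one.1 e), ?_⟩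
      · rw [← QuotientGroup.eq]; exact hcoset x
      · exact ((Commute.self_pow x m).inv_right.mul_right (Commute.refl x)).eq
  · rintro ⟨h, hh, hne, hcomm⟩
    by_contra hcon
    push Not at hcon
    haveI := CfsgLib.Chars.finite_irr H
    let one : Cfsg.IrrCharacter H := ⟨fun _ => 1, CfsgLib.Chars.isIrrCharacter_one H⟩
    have h1 : Nat.card {θ : Cfsg.IrrCharacter H // CfsgLib.Chars.conjIrr H θ x = θ} ≤ 1 := by
      refine Finite.card_le_one_iff_subsingleton.2 ⟨fun ⟨θ, hθ⟩ ⟨σ, hσ⟩ => Subtype.ext ?_⟩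
      suffices key : ∀ θ : Cfsg.IrrCharacter H, CfsgLib.Chars.conjIrr H θ x = θ → θ = one from
        (key θ hθ).trans (key σ hσ).symm
      intro θ hθ
      by_contra hne'
      exact hcon θ θ.2 (fun e => hne' (Subtype.ext e)) (funext fun k => by
        rw [← CfsgLib.Chars.conjIrr_apply' H θ x k, hθ])
    rw [CfsgLib.FixedIrr.card_fixed] at h1
    haveI := Finite.card_le_one_iff_subsingleton.1 h1
    have hfix : ∀ k : H, CfsgLib.Chars.conjN H x k = k →
        ∀ k', ConjClasses.mk k' = ConjClasses.mk k → ConjClasses.mk (CfsgLib.Chars.conjN H x k') = ConjClasses.mk k := by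
      intro k hk k' hk'
      obtain ⟨c, hc⟩ := isConj_iff.1 (ConjClasses.mk_eq_mk_iff_isConj.1 hk')
      rw [ConjClasses.mk_eq_mk_iff_isConj, isConj_iff]
      exact ⟨CfsgLib.Chars.conjN H x c, by rw [← map_inv, ← map_mul, ← map_mul, hc, hk]⟩
    have e := congrArg Subtype.val (Subsingleton.elim
      (⟨ConjClasses.mk (1 : H), hfix 1 (map_one _)⟩ : {C : ConjClasses H // ∀ g, ConjClasses.mk g = C →
        ConjClasses.mk (CfsgLib.Chars.conjN H x g) = C})
      ⟨ConjClasses.mk ⟨h, hh⟩, hfix _ (Subtype.ext (by rw [CfsgLib.Chars.conjN_coe]; simp [hcomm]))⟩)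
    obtain ⟨c, hc⟩ := isConj_iff.1 (ConjClasses.mk_eq_mk_iff_isConj.1 e)
    rw [mul_one, mul_inv_cancel] at hc
    exact hne (congrArg Subtype.val hc).symm

end Cfsg.Agent.S1536
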