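import Cfsg.Statements.S1546
import Mathlib

set_option autoImplicit false
open Cfsg

namespace Cfsg.Agent.S1546

/-- Let p and q be odd primes and N = (p ^ q − 1) / (p − 1) = 1 + p + ⋯ + p^(q−1). Then N is odd; if p ≡ 1 (mod q) then q ∣ N; and if p is not ≡ 1 (mod q) then N is coprime to p − 1 and every divisor of N is ≡ 1 (mod q). -/
theorem result (p q : ℕ) (hp : p.Prime) (hq : q.Prime) (hp2 : p ≠ 2) (hq2 : q ≠ 2) : Odd ((p ^ q - 1) / (p - 1)) ∧ (p % q = 1 → q ∣ (p ^ q - 1) / (p - 1)) ∧ (p % q ≠ 1 → Nat.Coprime ((p ^ q - 1) / (p - 1)) (p - 1) ∧ ∀ x : ℕ, x ∣ (p ^ q - 1) / (p - 1) → x % q = 1) := by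
  have hp2' : 2 ≤ p := hp.two_le
  rw [← Nat.geomSum_eq hp2' q]
  haveI := Fact.mk hq
  set N := ∑ i ∈ Finset.range q, p ^ i with hN
  have hNmod : ∀ d : ℕ, (p : ZMod d) = 1 → (N : ZMod d) = q := by
    intro d hd
    simp [hN, hd]
  refine ⟨?_, ?_, ?_⟩
  · have h1 : (p : ZMod 2) = 1 := ZMod.natCast_eq_one_iff_odd.2 (hp.odd_of_ne_two hp2)
    rw [← ZMod.natCast_eq_one_iff_odd, hNmod 2 h1]
    exact ZMod.natCast_eq_one_iff_odd.2 (hq.odd_of_ne_two hq2)
  · intro h
    have h1 : (p : ZMod q) = 1 := by rw [← ZMod.natCast_mod, h, Nat.cast_one]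
    rw [← ZMod.natCast_eq_zero_iff, hNmod q h1, ZMod.natCast_self]
  · intro h
    have hsub : ∀ d : ℕ, d ∣ p - 1 → (p : ZMod d) = 1 := by
      intro d hd
      rw [← Nat.cast_one, ZMod.natCast_eq_natCast_iff']
      exact ((Nat.modEq_iff_dvd' (by omega)).2 hd).symm
    have hqp : ¬ q ∣ p - 1 := by
      intro hd
      apply h
      have h2 := (Nat.modEq_iff_dvd' (show 1 ≤ p by omega)).2 hd
      rw [← h2, Nat.mod_eq_of_lt hq.one_lt]
    have hco : Nat.Coprime N (p - 1) := by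
      have h1 := hsub _ (Nat.gcd_dvd_right N (p - 1))
      have h2 := hNmod _ h1
      rw [(ZMod.natCast_eq_zero_iff _ _).2 (Nat.gcd_dvd_left N (p - 1))] at h2
      have h3 := (ZMod.natCast_eq_zero_iff _ _).1 h2.symm
      rcases (Nat.dvd_prime hq).1 h3 with h4 | h4
      · exact h4
      · exact absurd (h4 ▸ Nat.gcd_dvd_right N (p - 1)) hqp
    refine ⟨hco, ?_⟩
    have hprime : ∀ r : ℕ, r.Prime → r ∣ N → r % q = 1 := by
      intro r hr hrN
      haveI := Fact.mk hr
      have hgeom : ((p : ZMod r) - 1) * (N : ZMod r) = (p : ZMod r) ^ q - 1 := by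
        rw [hN]
        push_cast
        exact mul_geom_sum _ _
      rw [(ZMod.natCast_eq_zero_iff _ _).2 hrN, mul_zero] at hgeom
      have hpq : (p : ZMod r) ^ q = 1 := sub_eq_zero.1 hgeom.symm
      have hne : (p : ZMod r) ≠ 1 := by
        intro h1
        rw [← Nat.cast_one, ZMod.natCast_eq_natCast_iff'] at h1
        have h2 : r ∣ p - 1 := (Nat.modEq_iff_dvd' (by omega)).1 h1.symm
        exact hr.not_dvd_one (hco ▸ Nat.dvd_gcd hrN h2)
      have hord : orderOf (p : ZMod r) = q := orderOf_eq_prime hpq hne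
      have hp0 : (p : ZMod r) ≠ 0 := by
        intro h0
        rw [h0, zero_pow hq.ne_zero] at hpq
        exact zero_ne_one hpq
      have hd : q ∣ r - 1 := hord ▸ orderOf_dvd_of_pow_eq_one (ZMod.pow_card_sub_one_eq_one hp0)
      have h2 := (Nat.modEq_iff_dvd' hr.one_lt.le).2 hd
      rw [← h2, Nat.mod_eq_of_lt hq.one_lt]
    intro x hx
    have hx0 : x ≠ 0 := by
      rintro rfl
      rw [zero_dvd_iff, hN] at hx
      have : 0 < ∑ i ∈ Finset.range q, p ^ i :=
        Finset.sum_pos (fun i _ => pow_pos hp.pos i) ⟨0, Finset.mem_range.2 hq.pos⟩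
      omega
    induction x using Nat.recOnMul with
    | zero => exact absurd rfl hx0
    | one => exact Nat.mod_eq_of_lt hq.one_lt
    | prime r hr => exact hprime r hr hx
    | mul a b iha ihb =>
      rw [Nat.mul_mod, iha ((dvd_mul_right a b).trans hx) (left_ne_zero_of_mul hx0),
        ihb ((dvd_mul_left b a).trans hx) (right_ne_zero_of_mul hx0), one_mul,
        Nat.mod_eq_of_lt hq.one_lt]

end Cfsg.Agent.S1546
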