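import Cfsg.Statements.S1551
import Cfsg.Agent.Lib.Golay.Stabs

set_option autoImplicit false
set_option linter.all false
open scoped Pointwise
open Cfsg

namespace Cfsg.Agent.S1551
open Cfsg CfsgLib.Golay CfsgLib.Golay.Stabs
open scoped Pointwise

/-- Structure of a sextet stabiliser: it induces every permutation of the six tetrads, the subgroup fixing each tetrad setwise has order 192, and there is a normal subgroup of order 64 consisting of elements squaring to the identity. -/
theorem result (S : Finset (Finset Cfsg.GolayPt)) (hS : S ∈ Cfsg.sextets) : (∀ e : Equiv.Perm ↥S, ∃ g ∈ MulAction.stabilizer Cfsg.M24 S, ∀ t : ↥S, (g : Equiv.Perm Cfsg.GolayPt) • (t : Finset Cfsg.GolayPt) = ((e t : ↥S) : Finset Cfsg.GolayPt)) ∧ Nat.card {g : ↥(MulAction.stabilizer Cfsg.M24 S) // ∀ t ∈ S, ((g : Cfsg.M24) : Equiv.Perm Cfsg.GolayPt) • t = t} = 192 ∧ ∃ N : Subgroup ↥(MulAction.stabilizer Cfsg.M24 S), N.Normal ∧ Nat.card N = 64 ∧ ∀ x ∈ N, x * x = 1 := by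
  classical
  obtain ⟨a, ha, hS'⟩ := exists_sex0 hS
  subst hS'
  refine ⟨fun e => ?_, ?_, ?_⟩
  · let f : ↥(Sys sex0) ≃ ↥(a • Sys sex0) := (MulAction.toPerm a).subtypeEquiv fun t =>
      (Finset.smul_mem_smul_finset_iff a).symm
    obtain ⟨g, hg, h⟩ := sextet_perms ((f.trans e).trans f.symm)
    have key : ∀ t : ↥(a • Sys sex0), (a * g * a⁻¹) • (t : Finset GolayPt) = e t := fun t => by
      have h' := h (f.symm t)
      simp only [Equiv.trans_apply, Equiv.apply_symm_apply] at h'
      rw [mul_smul, mul_smul]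
      have e1 : ((f.symm t : ↥(Sys sex0)) : Finset GolayPt) = a⁻¹ • (t : Finset GolayPt) := rfl
      have e2 : ((f.symm (e t) : ↥(Sys sex0)) : Finset GolayPt) = a⁻¹ • ((e t : ↥(a • Sys sex0)) : Finset GolayPt) := rfl
      rw [← e1, h', e2, smul_inv_smul]
    refine ⟨⟨a * g * a⁻¹, mul_mem (mul_mem ha hg) (inv_mem ha)⟩, ?_, key⟩
    rw [MulAction.mem_stabilizer_iff]
    apply Finset.eq_of_subset_of_card_le
    · intro z hz
      obtain ⟨t, ht, rfl⟩ := Finset.mem_smul_finset.1 hz
      show (a * g * a⁻¹) • t ∈ _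
      rw [key ⟨t, ht⟩]; exact (e ⟨t, ht⟩).2
    · exact (Finset.card_smul_finset _ _).ge
  · rw [← sex_checks.1, ← keepers.2, card_conj ha fun g => (keep_conj (a := a) (g := g) (Sys sex0)).symm]
    refine Nat.card_congr
      { toFun := fun g => ⟨((g.1 : ↥M24) : Equiv.Perm GolayPt), (g.1 : ↥M24).2, g.2⟩
        invFun := fun g => ⟨⟨⟨g.1, g.2.1⟩, MulAction.mem_stabilizer_iff.2 ?_⟩, g.2.2⟩
        left_inv := fun g => rfl
        right_inv := fun g => rfl }
    apply Finset.eq_of_subset_of_card_le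
    · intro z hz
      obtain ⟨t, ht, rfl⟩ := Finset.mem_smul_finset.1 hz
      show g.1 • t ∈ _
      rw [g.2.2 t ht]; exact ht
    · exact (Finset.card_smul_finset _ _).ge
  · let P : Equiv.Perm GolayPt → Prop := fun g => Keep (a • Sys sex0) g ∧ g * g = 1
    have hP : ∀ g, P g ↔ Keep (Sys sex0) (a⁻¹ * g * a) ∧ (a⁻¹ * g * a) * (a⁻¹ * g * a) = 1 := fun g => by
      refine and_congr ?_ ?_
      · conv_lhs => rw [show g = a * (a⁻¹ * g * a) * a⁻¹ by group]
        exact keep_conj _
      · rw [show a⁻¹ * g * a * (a⁻¹ * g * a) = a⁻¹ * (g * g) * a by group]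
        constructor
        · intro h; rw [h]; group
        · intro h
          calc g * g = a * (a⁻¹ * (g * g) * a) * a⁻¹ := by group
            _ = 1 := by rw [h]; group
    have hinv : ∀ g, g ∈ M24 → P g → g⁻¹ = g := fun g _ h => inv_eq_of_mul_eq_one_right h.2
    let N : Subgroup ↥(MulAction.stabilizer M24 (a • Sys sex0)) :=
      { carrier := {g | P ((g : ↥M24) : Equiv.Perm GolayPt)}
        one_mem' := ⟨fun t _ => one_smul _ t, one_mul 1⟩
        mul_mem' := by
          intro x y hx hy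
          refine ⟨fun t ht => ?_, ?_⟩
          · show (((x : ↥M24) : Equiv.Perm GolayPt) * ((y : ↥M24) : Equiv.Perm GolayPt)) • t = t
            rw [mul_smul, hy.1 t ht, hx.1 t ht]
          · obtain ⟨k1, s1⟩ := (hP _).1 hx
            obtain ⟨k2, s2⟩ := (hP _).1 hy
            have h := keep_mul_sq (mul_mem (mul_mem (inv_mem ha) (x : ↥M24).2) ha)
              (mul_mem (mul_mem (inv_mem ha) (y : ↥M24).2) ha) k1 k2 s1 s2
            show ((x : ↥M24) : Equiv.Perm GolayPt) * ((y : ↥M24) : Equiv.Perm GolayPt) *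
              (((x : ↥M24) : Equiv.Perm GolayPt) * ((y : ↥M24) : Equiv.Perm GolayPt)) = 1
            generalize ((x : ↥M24) : Equiv.Perm GolayPt) = u at h
            generalize ((y : ↥M24) : Equiv.Perm GolayPt) = v at h
            calc u * v * (u * v) = a * ((a⁻¹ * u * a) * (a⁻¹ * v * a) * ((a⁻¹ * u * a) * (a⁻¹ * v * a))) * a⁻¹ := by group
              _ = 1 := by rw [h]; group
        inv_mem' := by
          intro x hx
          have h := hinv _ (x : ↥M24).2 hx
          show P (((x⁻¹ : ↥(MulAction.stabilizer M24 (a • Sys sex0))) : ↥M24) : Equiv.Perm GolayPt)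
          rw [Subgroup.coe_inv, Subgroup.coe_inv, h]
          exact hx }
    refine ⟨N, ⟨fun n hn g => ?_⟩, ?_, fun x hx => ?_⟩
    · refine ⟨fun t ht => ?_, ?_⟩
      · show (((g : ↥M24) : Equiv.Perm GolayPt) * ((n : ↥M24) : Equiv.Perm GolayPt) *
          ((g : ↥M24) : Equiv.Perm GolayPt)⁻¹) • t = t
        have hg : ((g : ↥M24) : Equiv.Perm GolayPt) • (a • Sys sex0) = a • Sys sex0 :=
          MulAction.mem_stabilizer_iff.1 g.2
        have h0 : ((g : ↥M24) : Equiv.Perm GolayPt)⁻¹ • t ∈ a • Sys sex0 :=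
          Finset.inv_smul_mem_iff.2 (by rw [hg]; exact ht)
        rw [mul_smul, mul_smul, hn.1 _ h0, smul_inv_smul]
      · show ((g : ↥M24) : Equiv.Perm GolayPt) * ((n : ↥M24) : Equiv.Perm GolayPt) *
          ((g : ↥M24) : Equiv.Perm GolayPt)⁻¹ * (((g : ↥M24) : Equiv.Perm GolayPt) *
          ((n : ↥M24) : Equiv.Perm GolayPt) * ((g : ↥M24) : Equiv.Perm GolayPt)⁻¹) = 1
        have h := hn.2
        generalize ((g : ↥M24) : Equiv.Perm GolayPt) = u
        generalize ((n : ↥M24) : Equiv.Perm GolayPt) = v at h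
        calc u * v * u⁻¹ * (u * v * u⁻¹) = u * (v * v) * u⁻¹ := by group
          _ = 1 := by rw [h]; group
    · rw [← card_keep_sq, card_conj (P := fun g => Keep (Sys sex0) g ∧ g * g = 1) (Q := P) ha fun g => by
        rw [hP, show a⁻¹ * (a * g * a⁻¹) * a = g by group]]
      refine Nat.card_congr
        { toFun := fun g => ⟨((g.1 : ↥M24) : Equiv.Perm GolayPt), (g.1 : ↥M24).2, g.2⟩
          invFun := fun g => ⟨⟨⟨g.1, g.2.1⟩, MulAction.mem_stabilizer_iff.2 ?_⟩, g.2.2⟩
          left_inv := fun g => rfl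
          right_inv := fun g => rfl }
      apply Finset.eq_of_subset_of_card_le
      · intro z hz
        obtain ⟨t, ht, rfl⟩ := Finset.mem_smul_finset.1 hz
        show g.1 • t ∈ _
        rw [g.2.2.1 t ht]; exact ht
      · exact (Finset.card_smul_finset _ _).ge
    · exact Subtype.ext (Subtype.ext hx.2)

end Cfsg.Agent.S1551
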