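import Cfsg.Statements.S1552
import Cfsg.Agent.Lib.Golay.OrbitStmt
import Cfsg.Agent.Lib.Golay.CertSexSexOk

set_option autoImplicit false
set_option linter.all false
open scoped Pointwise
open Cfsg

namespace Cfsg.Agent.S1552

/-- A sextet stabiliser has four orbits on the 1771 sextets, of sizes 1, 90, 240, 1440; and the stabiliser is a maximal proper subgroup. -/
theorem result (S : Finset (Finset Cfsg.GolayPt)) (hS : S ∈ Cfsg.sextets) : ∃ X₁ ∈ Cfsg.sextets, ∃ X₂ ∈ Cfsg.sextets, ∃ X₃ ∈ Cfsg.sextets, (MulAction.orbit ↥(MulAction.stabilizer Cfsg.M24 S) X₁).ncard = 90 ∧ (MulAction.orbit ↥(MulAction.stabilizer Cfsg.M24 S) X₂).ncard = 240 ∧ (MulAction.orbit ↥(MulAction.stabilizer Cfsg.M24 S) X₃).ncard = 1440 ∧ Cfsg.sextets = {S} ∪ MulAction.orbit ↥(MulAction.stabilizer Cfsg.M24 S) X₁ ∪ MulAction.orbit ↥(MulAction.stabilizer Cfsg.M24 S) X₂ ∪ MulAction.orbit ↥(MulAction.stabilizer Cfsg.M24 S) X₃ ∧ IsCoatom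 (MulAction.stabilizer Cfsg.M24 S) := by
  have hS_mem := hS
  obtain ⟨a, ha, hS⟩ := CfsgLib.Golay.exists_sex0 hS
  suffices key : (∃ X₁ ∈ Cfsg.sextets, ∃ X₂ ∈ Cfsg.sextets, ∃ X₃ ∈ Cfsg.sextets, (MulAction.orbit ↥(MulAction.stabilizer Cfsg.M24 S) X₁).ncard = 90 ∧ (MulAction.orbit ↥(MulAction.stabilizer Cfsg.M24 S) X₂).ncard = 240 ∧ (MulAction.orbit ↥(MulAction.stabilizer Cfsg.M24 S) X₃).ncard = 1440 ∧ Cfsg.sextets = {S} ∪ MulAction.orbit ↥(MulAction.stabilizer Cfsg.M24 S) X₁ ∪ MulAction.orbit ↥(MulAction.stabilizer Cfsg.M24 S) X₂ ∪ MulAction.orbit ↥(MulAction.stabilizer Cfsg.M24 S) X₃) by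
    obtain ⟨X₁, h1, X₂, h2, X₃, h3, a1, a2, a3, a4⟩ := key
    refine ⟨X₁, h1, X₂, h2, X₃, h3, a1, a2, a3, a4, ?_⟩
    refine CfsgLib.Golay.sexKind.isCoatom CfsgLib.Golay.certSexSex_ok ha hS hS_mem CfsgLib.Golay.sex_trans
      ((congrArg (fun Z => a • Z) (CfsgLib.Golay.Sys_eq_of_same (b := CfsgLib.Golay.sex0) (by decide +kernel))).trans hS)
      (by decide +kernel) (by decide +kernel) ?_ ?_
    · rw [show CfsgLib.Golay.sexKind.Ys.ncard = 1771 from CfsgLib.Golay.ncard_sextets]; decide +kernel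
    · rw [show CfsgLib.Golay.sexKind.Ys.ncard = 1771 from CfsgLib.Golay.ncard_sextets]; norm_num
  obtain ⟨m1, -, c1⟩ := CfsgLib.Golay.sexKind.orbit_eq CfsgLib.Golay.certSexSex_ok ha hS (i := 1) (by decide +kernel)
  rw [show CfsgLib.Golay.sizeAt CfsgLib.Golay.certSexSex 1 = 90 by decide +kernel] at c1
  obtain ⟨m2, -, c2⟩ := CfsgLib.Golay.sexKind.orbit_eq CfsgLib.Golay.certSexSex_ok ha hS (i := 2) (by decide +kernel)
  rw [show CfsgLib.Golay.sizeAt CfsgLib.Golay.certSexSex 2 = 240 by decide +kernel] at c2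
  obtain ⟨m3, -, c3⟩ := CfsgLib.Golay.sexKind.orbit_eq CfsgLib.Golay.certSexSex_ok ha hS (i := 3) (by decide +kernel)
  rw [show CfsgLib.Golay.sizeAt CfsgLib.Golay.certSexSex 3 = 1440 by decide +kernel] at c3
  obtain ⟨-, -, c0⟩ := CfsgLib.Golay.sexKind.orbit_eq CfsgLib.Golay.certSexSex_ok ha hS (i := 0) (by decide +kernel)
  rw [show CfsgLib.Golay.sizeAt CfsgLib.Golay.certSexSex 0 = 1 by decide +kernel] at c0
  have h0 : CfsgLib.Golay.rootOf CfsgLib.Golay.certSexSex a 0 = _ := (congrArg (fun Z => a • Z) (CfsgLib.Golay.Sys_eq_of_same (b := CfsgLib.Golay.sex0) (by decide +kernel))).trans hS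
  refine ⟨_, m1, _, m2, _, m3, c1, c2, c3, ?_⟩
  apply Set.Subset.antisymm
  · intro Y hY
    obtain ⟨i, hi, hi'⟩ := CfsgLib.Golay.sexKind.cover CfsgLib.Golay.certSexSex_ok ha hS (Y := Y) hY
    rw [show CfsgLib.Golay.certSexSex.1.length = 4 by decide +kernel] at hi
    obtain rfl | rfl | rfl | rfl : i = 0 ∨ i = 1 ∨ i = 2 ∨ i = 3 := by omega
    · refine Or.inl (Or.inl (Or.inl (Set.mem_singleton_iff.2 ?_)))
      obtain ⟨Z, hZ⟩ := Set.ncard_eq_one.1 c0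
      have hz1 := MulAction.mem_orbit_self (M := ↥(MulAction.stabilizer Cfsg.M24 S)) (CfsgLib.Golay.rootOf CfsgLib.Golay.certSexSex a 0)
      rw [hZ, Set.mem_singleton_iff] at hz1 hi'
      rw [hi', ← hz1, h0]
    · exact Or.inl (Or.inl (Or.inr (hi')))
    · exact Or.inl (Or.inr (hi'))
    · exact Or.inr (hi')
  · exact (Set.union_subset (Set.union_subset (Set.union_subset (Set.singleton_subset_iff.2 hS_mem) (CfsgLib.Golay.subset_of_orbit (fun g Y hY => CfsgLib.Golay.sexKind.smul' g hY) m1)) (CfsgLib.Golay.subset_of_orbit (fun g Y hY => CfsgLib.Golay.sexKind.smul' g hY) m2)) (CfsgLib.Golay.subset_of_orbit (fun g Y hY => CfsgLib.Golay.sexKind.smul' g hY) m3))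

end Cfsg.Agent.S1552
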