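import Cfsg.Statements.S1553
import Cfsg.Agent.Lib.Golay.Stabs

set_option autoImplicit false
set_option linter.all false
open scoped Pointwise
open Cfsg

namespace Cfsg.Agent.S1553
open Cfsg CfsgLib.Golay CfsgLib.Golay.Stabs
open scoped Pointwise

/-- The stabiliser of an octad in the group of the length-24 code induces on the octad exactly its alternating group. -/
theorem result (o : Finset Cfsg.GolayPt) (ho : o ∈ Cfsg.octads) : {e : Equiv.Perm ↥o | ∃ g : Equiv.Perm Cfsg.GolayPt, g ∈ Cfsg.M24 ∧ ∃ h : (∀ x, g x ∈ o ↔ x ∈ o), g.subtypePerm h = e} = (alternatingGroup ↥o : Set (Equiv.Perm ↥o)) := by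
  classical
  rw [← range_restr ho]
  ext e
  simp only [Set.mem_ofPred_eq, SetLike.mem_coe, MonoidHom.mem_range]
  constructor
  · rintro ⟨g, hg, h, rfl⟩
    refine ⟨⟨g, hg, MulAction.mem_stabilizer_iff.2 ?_⟩, rfl⟩
    apply Finset.eq_of_subset_of_card_le
    · intro z hz
      obtain ⟨w, hw, rfl⟩ := Finset.mem_smul_finset.1 hz
      exact (h w).2 hw
    · rw [Finset.card_smul_finset]
  · rintro ⟨g, rfl⟩
    refine ⟨(g : Equiv.Perm GolayPt), g.2.1, fun x => ?_, rfl⟩
    have h : (g : Equiv.Perm GolayPt) • o = o := MulAction.mem_stabilizer_iff.1 g.2.2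
    generalize (g : Equiv.Perm GolayPt) = a at h
    conv_lhs => rw [← h]
    exact Finset.smul_mem_smul_finset_iff a

end Cfsg.Agent.S1553
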