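import Cfsg.Statements.S1554
import Cfsg.Agent.Lib.Golay.Stabs

set_option autoImplicit false
set_option linter.all false
open scoped Pointwise
open Cfsg

namespace Cfsg.Agent.S1554
open Cfsg CfsgLib.Golay CfsgLib.Golay.Stabs
open scoped Pointwise

/-- An octad stabiliser is a split extension: the joint stabiliser of the octad and a point outside it is a complement to the pointwise stabiliser of the octad, and is isomorphic to the alternating group of degree 8. -/
theorem result (o : Finset Cfsg.GolayPt) (ho : o ∈ Cfsg.octads) (p : Cfsg.GolayPt) (hp : p ∉ o) : (Cfsg.M24 ⊓ fixingSubgroup (Equiv.Perm Cfsg.GolayPt) (o : Set Cfsg.GolayPt)) ⊓ (Cfsg.M24 ⊓ MulAction.stabilizer (Equiv.Perm Cfsg.GolayPt) o ⊓ MulAction.stabilizer (Equiv.Perm Cfsg.GolayPt) p) = ⊥ ∧ (Cfsg.M24 ⊓ fixingSubgroup (Equiv.Perm Cfsg.GolayPt) (o : Set Cfsg.GolayPt)) ⊔ (Cfsg.M24 ⊓ MulAction.stabilizer (Equiv.Perm Cfsg.GolayPt) o ⊓ MulAction.stabilizer (Equiv.Perm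 Cfsg.GolayPt) p) = (Cfsg.M24 ⊓ MulAction.stabilizer (Equiv.Perm Cfsg.GolayPt) o) ∧ Nonempty (↥(Cfsg.M24 ⊓ MulAction.stabilizer (Equiv.Perm Cfsg.GolayPt) o ⊓ MulAction.stabilizer (Equiv.Perm Cfsg.GolayPt) p) ≃* alternatingGroup (Fin 8)) := by
  classical
  obtain ⟨hex, huniq⟩ := octad_regular ho hp hp
  have hstab : ∀ g : Equiv.Perm GolayPt, (∀ x ∈ o, g x = x) → g • o = o := fun g h => by
    apply Finset.eq_of_subset_of_card_le
    · intro z hz
      obtain ⟨w, hw, rfl⟩ := Finset.mem_smul_finset.1 hz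
      rw [Equiv.Perm.smul_def, h w hw]; exact hw
    · rw [Finset.card_smul_finset]
  have hfix : ∀ g : Equiv.Perm GolayPt, g ∈ fixingSubgroup (Equiv.Perm GolayPt) (o : Set GolayPt) ↔
      ∀ x ∈ o, g x = x := fun g => by simp [mem_fixingSubgroup_iff]
  have hsplit : ∀ g ∈ M24, g • o = o → ∃ n ∈ M24, (∀ x ∈ o, n x = x) ∧ n p = g p := fun g hg hgo =>
    (octad_regular ho hp (show g p ∉ o by
      rw [← hgo, ← Equiv.Perm.smul_def, Finset.smul_mem_smul_finset_iff]; exact hp)).1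
  refine ⟨?_, ?_, ?_⟩
  · rw [Subgroup.eq_bot_iff_forall]
    rintro g ⟨⟨hg, hf⟩, -, hgp⟩
    exact huniq g hg ((hfix g).1 hf) (MulAction.mem_stabilizer_iff.1 hgp)
  · refine le_antisymm (sup_le (fun g hg => ⟨hg.1, MulAction.mem_stabilizer_iff.2
      (hstab g ((hfix g).1 hg.2))⟩) fun g hg => hg.1) ?_
    rintro g ⟨hg0, hgo : g • o = o⟩
    have hg : g ∈ M24 := hg0
    obtain ⟨n, hn, hno, hnp⟩ := hsplit g hg hgo
    rw [show g = n * (n⁻¹ * g) by group]
    refine Subgroup.mul_mem_sup ⟨hn, (hfix n).2 hno⟩ ⟨⟨(show n⁻¹ * g ∈ M24 from mul_mem (inv_mem hn) hg), ?_⟩, ?_⟩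
    · show (n⁻¹ * g) • o = o
      rw [mul_smul, hgo, inv_smul_eq_iff, hstab n hno]
    · show (n⁻¹ * g) p = p
      rw [Equiv.Perm.mul_apply, Equiv.Perm.inv_eq_iff_eq, hnp]
  · let φ : ↥(M24 ⊓ MulAction.stabilizer (Equiv.Perm GolayPt) o ⊓
        MulAction.stabilizer (Equiv.Perm GolayPt) p) →* Equiv.Perm ↥o :=
      (restr o).comp (Subgroup.inclusion inf_le_left)
    have hinj : Function.Injective φ := by
      rw [← MonoidHom.ker_eq_bot_iff, Subgroup.eq_bot_iff_forall]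
      intro g hg
      refine Subtype.ext (huniq _ g.2.1.1 (fun x hx => ?_) (MulAction.mem_stabilizer_iff.1 g.2.2))
      exact congrArg Subtype.val (Equiv.congr_fun (MonoidHom.mem_ker.1 hg) ⟨x, hx⟩)
    have hrange : φ.range = alternatingGroup ↥o := by
      rw [← range_restr ho]
      refine le_antisymm ?_ ?_
      · rintro _ ⟨g, rfl⟩; exact ⟨_, rfl⟩
      · rintro _ ⟨g, rfl⟩
        obtain ⟨n, hn, hno, hnp⟩ := hsplit _ g.2.1 (MulAction.mem_stabilizer_iff.1 g.2.2)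
        have hgm : (g : Equiv.Perm GolayPt) ∈ M24 := g.2.1
        refine ⟨⟨n⁻¹ * (g : Equiv.Perm GolayPt), ⟨(show n⁻¹ * (g : Equiv.Perm GolayPt) ∈ M24 from mul_mem (inv_mem hn) hgm),
          MulAction.mem_stabilizer_iff.2 (by
            rw [mul_smul, MulAction.mem_stabilizer_iff.1 g.2.2, inv_smul_eq_iff, hstab n hno])⟩,
          MulAction.mem_stabilizer_iff.2 (by
            rw [Equiv.Perm.smul_def, Equiv.Perm.mul_apply, Equiv.Perm.inv_eq_iff_eq, hnp])⟩, ?_⟩
        refine Equiv.ext fun x => Subtype.ext ?_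
        show (n⁻¹ * (g : Equiv.Perm GolayPt)) x = (g : Equiv.Perm GolayPt) x
        rw [Equiv.Perm.mul_apply, Equiv.Perm.inv_eq_iff_eq, hno]
        have h : (g : Equiv.Perm GolayPt) • o = o := MulAction.mem_stabilizer_iff.1 g.2.2
        exact (congrArg ((g : Equiv.Perm GolayPt) • (x : GolayPt) ∈ ·) h).mp
          (Finset.smul_mem_smul_finset x.2)
    exact ⟨(MonoidHom.ofInjective hinj).trans ((MulEquiv.subgroupCongr hrange).trans
      (Equiv.altCongrHom (Finset.equivFinOfCardEq (card_octad ho))))⟩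

end Cfsg.Agent.S1554
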