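import Cfsg.Statements.S1555
import Cfsg.Agent.Lib.Golay.OctPts

set_option autoImplicit false
set_option linter.all false
open scoped Pointwise
open Cfsg

namespace Cfsg.Agent.S1555

/-- Bottom row of the Leech triangle: an octad is met in a prescribed pair of its points by exactly 16 octads and in a prescribed 4-subset by exactly 4 octads. -/
theorem result (o : Finset Cfsg.GolayPt) (ho : o ∈ Cfsg.octads) (s : Finset Cfsg.GolayPt) (hs : s ⊆ o) : (s.card = 2 → {o' : Finset Cfsg.GolayPt | o' ∈ Cfsg.octads ∧ o ∩ o' = s}.ncard = 16) ∧ (s.card = 4 → {o' : Finset Cfsg.GolayPt | o' ∈ Cfsg.octads ∧ o ∩ o' = s}.ncard = 4) := by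
  refine ⟨fun hk => ?_, fun hk => ?_⟩
  · obtain ⟨a, ha, e', e⟩ := CfsgLib.Golay.exists_octad_pts 3 2 rfl o ho
      ((Finset.equivFinOfCardEq hk).symm.toEmbedding.trans (Function.Embedding.subtype _))
      (fun i => hs ((Finset.equivFinOfCardEq hk).symm i).2)
    have hst : a • CfsgLib.Golay.toSet 8388609 = s := by
      refine Finset.eq_of_subset_of_card_le (fun z hz => ?_) (by
        rw [Finset.card_smul_finset, hk, show (CfsgLib.Golay.toSet 8388609).card = 2 by decide +kernel])
      obtain ⟨w, hw, rfl⟩ := Finset.mem_smul_finset.1 hz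
      obtain ⟨i, rfl⟩ := (by decide +kernel : ∀ w ∈ CfsgLib.Golay.toSet 8388609, ∃ i : Fin 2, CfsgLib.Golay.bp i = w) w hw
      rw [Equiv.Perm.smul_def, e i]
      exact ((Finset.equivFinOfCardEq hk).symm i).2
    have hXs : ([[CfsgLib.Golay.octO], [8388609]].map CfsgLib.Golay.Sys).map (a • ·) =
        [({o} : Finset (Finset Cfsg.GolayPt)), {s}] := by
      simp [CfsgLib.Golay.Sys_single, Finset.smul_finset_singleton, e', hst]
    rw [← CfsgLib.Golay.octKind.count_singles rfl (B := Cfsg.octads) (by decide +kernel) ha hXs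
      (k := [256 ^ 2, 256 ^ 2]) (n := 16) (by decide +kernel)]
    congr 1
    ext x
    simp only [Set.mem_ofPred_eq, CfsgLib.Golay.Pats, List.map_cons, List.map_nil, CfsgLib.Golay.Pat_singles,
      List.cons.injEq, and_true, (Nat.pow_right_injective (by norm_num : 2 ≤ 256)).eq_iff]
    refine and_congr_right fun _ => ?_
    constructor
    · rintro hx
      subst hx
      refine ⟨hk, ?_⟩
      rw [Finset.inter_assoc, Finset.inter_self]; exact hk
    · rintro ⟨hox, hsx⟩
      have h1 : s ∩ x = s := Finset.eq_of_subset_of_card_le Finset.inter_subset_left (by rw [hsx, hk])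
      refine (Finset.eq_of_subset_of_card_le (fun z hz => ?_) (by rw [hox, hk])).symm
      rw [← h1] at hz
      exact Finset.mem_inter.2 ⟨hs (Finset.mem_inter.1 hz).1, (Finset.mem_inter.1 hz).2⟩
  · obtain ⟨a, ha, e', e⟩ := CfsgLib.Golay.exists_octad_pts 1 4 rfl o ho
      ((Finset.equivFinOfCardEq hk).symm.toEmbedding.trans (Function.Embedding.subtype _))
      (fun i => hs ((Finset.equivFinOfCardEq hk).symm i).2)
    have hst : a • CfsgLib.Golay.toSet 8388615 = s := by
      refine Finset.eq_of_subset_of_card_le (fun z hz => ?_) (by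
        rw [Finset.card_smul_finset, hk, show (CfsgLib.Golay.toSet 8388615).card = 4 by decide +kernel])
      obtain ⟨w, hw, rfl⟩ := Finset.mem_smul_finset.1 hz
      obtain ⟨i, rfl⟩ := (by decide +kernel : ∀ w ∈ CfsgLib.Golay.toSet 8388615, ∃ i : Fin 4, CfsgLib.Golay.bp i = w) w hw
      rw [Equiv.Perm.smul_def, e i]
      exact ((Finset.equivFinOfCardEq hk).symm i).2
    have hXs : ([[CfsgLib.Golay.octO], [8388615]].map CfsgLib.Golay.Sys).map (a • ·) =
        [({o} : Finset (Finset Cfsg.GolayPt)), {s}] := by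
      simp [CfsgLib.Golay.Sys_single, Finset.smul_finset_singleton, e', hst]
    rw [← CfsgLib.Golay.octKind.count_singles rfl (B := Cfsg.octads) (by decide +kernel) ha hXs
      (k := [256 ^ 4, 256 ^ 4]) (n := 4) (by decide +kernel)]
    congr 1
    ext x
    simp only [Set.mem_ofPred_eq, CfsgLib.Golay.Pats, List.map_cons, List.map_nil, CfsgLib.Golay.Pat_singles,
      List.cons.injEq, and_true, (Nat.pow_right_injective (by norm_num : 2 ≤ 256)).eq_iff]
    refine and_congr_right fun _ => ?_
    constructor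
    · rintro hx
      subst hx
      refine ⟨hk, ?_⟩
      rw [Finset.inter_assoc, Finset.inter_self]; exact hk
    · rintro ⟨hox, hsx⟩
      have h1 : s ∩ x = s := Finset.eq_of_subset_of_card_le Finset.inter_subset_left (by rw [hsx, hk])
      refine (Finset.eq_of_subset_of_card_le (fun z hz => ?_) (by rw [hox, hk])).symm
      rw [← h1] at hz
      exact Finset.mem_inter.2 ⟨hs (Finset.mem_inter.1 hz).1, (Finset.mem_inter.1 hz).2⟩

end Cfsg.Agent.S1555
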