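import Cfsg.Statements.S1557
import Cfsg.Agent.Lib.Golay.Kinds

set_option autoImplicit false
set_option linter.all false
open scoped Pointwise
open Cfsg

namespace Cfsg.Agent.S1557

/-- The complement of the union of two disjoint octads is an octad, and the code has exactly 3795 trios of pairwise disjoint octads. -/
theorem result : (∀ o o' : Finset Cfsg.GolayPt, o ∈ Cfsg.octads → o' ∈ Cfsg.octads → Disjoint o o' → (o ∪ o')ᶜ ∈ Cfsg.octads) ∧ Cfsg.trios.ncard = 3795 := by
  refine ⟨fun o o' ho ho' hd => ?_, CfsgLib.Golay.ncard_trios⟩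
  obtain ⟨a, ha, rfl⟩ := CfsgLib.Golay.exists_mask_octad ho
  obtain ⟨b, hb, rfl⟩ := CfsgLib.Golay.exists_mask_octad ho'
  have h0 : (CfsgLib.Golay.toSet (a &&& b)).card = 0 := by
    rw [CfsgLib.Golay.toSet_and, Finset.disjoint_iff_inter_eq_empty.1 hd, Finset.card_empty]
  have e : CfsgLib.Golay.toSet a ∪ CfsgLib.Golay.toSet b = CfsgLib.Golay.toSet (a ^^^ b) := by
    rw [CfsgLib.Golay.toSet_xor]; exact (Disjoint.symmDiff_eq_sup hd).symm
  rw [e, ← CfsgLib.Golay.toSet_compl]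
  refine CfsgLib.Golay.toSet_mem_octads (CfsgLib.Golay.mem_octList.2
    ⟨CfsgLib.Golay.inCode_xor (by decide) (CfsgLib.Golay.inCode_xor
      (CfsgLib.Golay.mem_octList.1 ha).1 (CfsgLib.Golay.mem_octList.1 hb).1), ?_⟩)
  rw [← CfsgLib.Golay.card_toSet, CfsgLib.Golay.toSet_compl, Finset.card_compl, ← e,
    Finset.card_union_of_disjoint hd, CfsgLib.Golay.card_toSet, CfsgLib.Golay.card_toSet,
    (CfsgLib.Golay.mem_octList.1 ha).2, (CfsgLib.Golay.mem_octList.1 hb).2]
  decide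

end Cfsg.Agent.S1557
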