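import Cfsg.Statements.S1559
import Cfsg.Agent.Lib.Golay.OrbitStmt
import Cfsg.Agent.Lib.Golay.CertTriTriOk

set_option autoImplicit false
set_option linter.all false
open scoped Pointwise
open Cfsg

namespace Cfsg.Agent.S1559

/-- A trio stabiliser has five orbits on the 3795 trios, of sizes 1, 42, 56, 1008, 2688; and the stabiliser is a maximal proper subgroup. -/
theorem result (T : Finset (Finset Cfsg.GolayPt)) (hT : T ∈ Cfsg.trios) : ∃ X₁ ∈ Cfsg.trios, ∃ X₂ ∈ Cfsg.trios, ∃ X₃ ∈ Cfsg.trios, ∃ X₄ ∈ Cfsg.trios, (MulAction.orbit ↥(MulAction.stabilizer Cfsg.M24 T) X₁).ncard = 42 ∧ (MulAction.orbit ↥(MulAction.stabilizer Cfsg.M24 T) X₂).ncard = 56 ∧ (MulAction.orbit ↥(MulAction.stabilizer Cfsg.M24 T) X₃).ncard = 1008 ∧ (MulAction.orbit ↥(MulAction.stabilizer Cfsg.M24 T) X₄).ncard = 2688 ∧ Cfsg.trios = {T} ∪ MulAction.orbit ↥(MulAction.stabilizer Cfsg.M24 T) X₁ ∪ MulAction.orbit ↥(MulAction.stabilizer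 Cfsg.M24 T) X₂ ∪ MulAction.orbit ↥(MulAction.stabilizer Cfsg.M24 T) X₃ ∪ MulAction.orbit ↥(MulAction.stabilizer Cfsg.M24 T) X₄ ∧ IsCoatom (MulAction.stabilizer Cfsg.M24 T) := by
  have hS_mem := hT
  obtain ⟨a, ha, hS⟩ := CfsgLib.Golay.exists_trio0 hT
  suffices key : (∃ X₁ ∈ Cfsg.trios, ∃ X₂ ∈ Cfsg.trios, ∃ X₃ ∈ Cfsg.trios, ∃ X₄ ∈ Cfsg.trios, (MulAction.orbit ↥(MulAction.stabilizer Cfsg.M24 T) X₁).ncard = 42 ∧ (MulAction.orbit ↥(MulAction.stabilizer Cfsg.M24 T) X₂).ncard = 56 ∧ (MulAction.orbit ↥(MulAction.stabilizer Cfsg.M24 T) X₃).ncard = 1008 ∧ (MulAction.orbit ↥(MulAction.stabilizer Cfsg.M24 T) X₄).ncard = 2688 ∧ Cfsg.trios = {T} ∪ MulAction.orbit ↥(MulAction.stabilizer Cfsg.M24 T) X₁ ∪ MulAction.orbit ↥(MulAction.stabilizer Cfsg.M24 T) X₂ ∪ MulAction.orbit ↥(MulAction.stabilizer Cfsg.M24 T) X₃ ∪ MulAction.orbit ↥(MulAction.stabilizer Cfsg.M24 T) X₄) by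
    obtain ⟨X₁, h1, X₂, h2, X₃, h3, X₄, h4, a1, a2, a3, a4, a5⟩ := key
    refine ⟨X₁, h1, X₂, h2, X₃, h3, X₄, h4, a1, a2, a3, a4, a5, ?_⟩
    refine CfsgLib.Golay.trioKind.isCoatom CfsgLib.Golay.certTriTri_ok ha hS hS_mem CfsgLib.Golay.trio_trans
      ((congrArg (fun Z => a • Z) (CfsgLib.Golay.Sys_eq_of_same (b := CfsgLib.Golay.trio0) (by decide +kernel))).trans hS)
      (by decide +kernel) (by decide +kernel) ?_ ?_
    · rw [show CfsgLib.Golay.trioKind.Ys.ncard = 3795 from CfsgLib.Golay.ncard_trios]; decide +kernel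
    · rw [show CfsgLib.Golay.trioKind.Ys.ncard = 3795 from CfsgLib.Golay.ncard_trios]; norm_num
  obtain ⟨m1, -, c1⟩ := CfsgLib.Golay.trioKind.orbit_eq CfsgLib.Golay.certTriTri_ok ha hS (i := 1) (by decide +kernel)
  rw [show CfsgLib.Golay.sizeAt CfsgLib.Golay.certTriTri 1 = 42 by decide +kernel] at c1
  obtain ⟨m2, -, c2⟩ := CfsgLib.Golay.trioKind.orbit_eq CfsgLib.Golay.certTriTri_ok ha hS (i := 2) (by decide +kernel)
  rw [show CfsgLib.Golay.sizeAt CfsgLib.Golay.certTriTri 2 = 56 by decide +kernel] at c2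
  obtain ⟨m3, -, c3⟩ := CfsgLib.Golay.trioKind.orbit_eq CfsgLib.Golay.certTriTri_ok ha hS (i := 3) (by decide +kernel)
  rw [show CfsgLib.Golay.sizeAt CfsgLib.Golay.certTriTri 3 = 1008 by decide +kernel] at c3
  obtain ⟨m4, -, c4⟩ := CfsgLib.Golay.trioKind.orbit_eq CfsgLib.Golay.certTriTri_ok ha hS (i := 4) (by decide +kernel)
  rw [show CfsgLib.Golay.sizeAt CfsgLib.Golay.certTriTri 4 = 2688 by decide +kernel] at c4
  obtain ⟨-, -, c0⟩ := CfsgLib.Golay.trioKind.orbit_eq CfsgLib.Golay.certTriTri_ok ha hS (i := 0) (by decide +kernel)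
  rw [show CfsgLib.Golay.sizeAt CfsgLib.Golay.certTriTri 0 = 1 by decide +kernel] at c0
  have h0 : CfsgLib.Golay.rootOf CfsgLib.Golay.certTriTri a 0 = _ := (congrArg (fun Z => a • Z) (CfsgLib.Golay.Sys_eq_of_same (b := CfsgLib.Golay.trio0) (by decide +kernel))).trans hS
  refine ⟨_, m1, _, m2, _, m3, _, m4, c1, c2, c3, c4, ?_⟩
  apply Set.Subset.antisymm
  · intro Y hY
    obtain ⟨i, hi, hi'⟩ := CfsgLib.Golay.trioKind.cover CfsgLib.Golay.certTriTri_ok ha hS (Y := Y) hY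
    rw [show CfsgLib.Golay.certTriTri.1.length = 5 by decide +kernel] at hi
    obtain rfl | rfl | rfl | rfl | rfl : i = 0 ∨ i = 1 ∨ i = 2 ∨ i = 3 ∨ i = 4 := by omega
    · refine Or.inl (Or.inl (Or.inl (Or.inl (Set.mem_singleton_iff.2 ?_))))
      obtain ⟨Z, hZ⟩ := Set.ncard_eq_one.1 c0
      have hz1 := MulAction.mem_orbit_self (M := ↥(MulAction.stabilizer Cfsg.M24 T)) (CfsgLib.Golay.rootOf CfsgLib.Golay.certTriTri a 0)
      rw [hZ, Set.mem_singleton_iff] at hz1 hi'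
      rw [hi', ← hz1, h0]
    · exact Or.inl (Or.inl (Or.inl (Or.inr (hi'))))
    · exact Or.inl (Or.inl (Or.inr (hi')))
    · exact Or.inl (Or.inr (hi'))
    · exact Or.inr (hi')
  · exact (Set.union_subset (Set.union_subset (Set.union_subset (Set.union_subset (Set.singleton_subset_iff.2 hS_mem) (CfsgLib.Golay.subset_of_orbit (fun g Y hY => CfsgLib.Golay.trioKind.smul' g hY) m1)) (CfsgLib.Golay.subset_of_orbit (fun g Y hY => CfsgLib.Golay.trioKind.smul' g hY) m2)) (CfsgLib.Golay.subset_of_orbit (fun g Y hY => CfsgLib.Golay.trioKind.smul' g hY) m3)) (CfsgLib.Golay.subset_of_orbit (fun g Y hY => CfsgLib.Golay.trioKind.smul' g hY) m4))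

end Cfsg.Agent.S1559
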