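import Cfsg.Statements.S1560
import Cfsg.Agent.Lib.Golay.Inter
import Cfsg.Agent.Lib.Golay.CertDodDodOk

set_option autoImplicit false
set_option linter.all false
open scoped Pointwise
open Cfsg

namespace Cfsg.Agent.S1560

/-- Intersection numbers of dodecads: a dodecad meets every other dodecad in 0, 4, 6 or 8 points, meeting 495 of them in 4 points, 1584 in 6 points and 495 in 8 points. -/
theorem result (d : Finset Cfsg.GolayPt) (hd : d ∈ Cfsg.dodecads) : (∀ d' ∈ Cfsg.dodecads, d' ≠ d → (d ∩ d').card = 0 ∨ (d ∩ d').card = 4 ∨ (d ∩ d').card = 6 ∨ (d ∩ d').card = 8) ∧ {d' : Finset Cfsg.GolayPt | d' ∈ Cfsg.dodecads ∧ (d ∩ d').card = 4}.ncard = 495 ∧ {d' : Finset Cfsg.GolayPt | d' ∈ Cfsg.dodecads ∧ (d ∩ d').card = 6}.ncard = 1584 ∧ {d' : Finset Cfsg.GolayPt | d' ∈ Cfsg.dodecads ∧ (d ∩ d').card = 8}.ncard = 495 := by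
  obtain ⟨a, ha, hS⟩ := CfsgLib.Golay.exists_dodD_Sys hd
  refine ⟨fun d' hd' hne => ?_,
    CfsgLib.Golay.dodKind.single_count rfl CfsgLib.Golay.certDodDod_ok ha hS (i := 2) (k := 4) (n := 495) (by decide +kernel) (by decide +kernel) (by decide +kernel),
    CfsgLib.Golay.dodKind.single_count rfl CfsgLib.Golay.certDodDod_ok ha hS (i := 4) (k := 6) (n := 1584) (by decide +kernel) (by decide +kernel) (by decide +kernel),
    CfsgLib.Golay.dodKind.single_count rfl CfsgLib.Golay.certDodDod_ok ha hS (i := 3) (k := 8) (n := 495) (by decide +kernel) (by decide +kernel) (by decide +kernel)⟩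
  obtain ⟨i, hi, hk⟩ := CfsgLib.Golay.dodKind.single_inter rfl CfsgLib.Golay.certDodDod_ok ha hS hd'
  rw [show CfsgLib.Golay.certDodDod.1.length = 5 by decide +kernel] at hi
  obtain rfl | rfl | rfl | rfl | rfl : i = 0 ∨ i = 1 ∨ i = 2 ∨ i = 3 ∨ i = 4 := by omega
  · exfalso
    have h12 := CfsgLib.Golay.pow256_inj (b := 12) (hk.trans (by decide +kernel))
    have e1 : d ∩ d' = d := Finset.eq_of_subset_of_card_le Finset.inter_subset_left
      (by rw [h12, CfsgLib.Golay.card_dodecad hd])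
    have e2 : d ∩ d' = d' := Finset.eq_of_subset_of_card_le Finset.inter_subset_right
      (by rw [h12, CfsgLib.Golay.card_dodecad hd'])
    exact hne (e2.symm.trans e1)
  · exact Or.inl (CfsgLib.Golay.pow256_inj (hk.trans (by decide +kernel)))
  · exact Or.inr (Or.inl (CfsgLib.Golay.pow256_inj (hk.trans (by decide +kernel))))
  · exact Or.inr (Or.inr (Or.inr (CfsgLib.Golay.pow256_inj (hk.trans (by decide +kernel)))))
  · exact Or.inr (Or.inr (Or.inl (CfsgLib.Golay.pow256_inj (hk.trans (by decide +kernel)))))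

end Cfsg.Agent.S1560
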