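import Cfsg.Statements.S1562
import Cfsg.Agent.Lib.Golay.CertP3ZP3Ok

set_option autoImplicit false
set_option linter.all false
open scoped Pointwise
open Cfsg

namespace Cfsg.Agent.S1562

/-- Orbits of a triad stabiliser on the triads disjoint from it: the 210 triads inside a common octad with it form one orbit and the remaining 1120 another. -/
theorem result (T : Finset Cfsg.GolayPt) (hT : T.card = 3) : {U : Finset Cfsg.GolayPt | U.card = 3 ∧ Disjoint T U ∧ (∃ o ∈ Cfsg.octads, T ∪ U ⊆ o)}.ncard = 210 ∧ {U : Finset Cfsg.GolayPt | U.card = 3 ∧ Disjoint T U ∧ ¬ (∃ o ∈ Cfsg.octads, T ∪ U ⊆ o)}.ncard = 1120 ∧ ∀ U U' : Finset Cfsg.GolayPt, U.card = 3 → U'.card = 3 → Disjoint T U → Disjoint T U' → ((∃ o ∈ Cfsg.octads, T ∪ U ⊆ o) ↔ (∃ o ∈ Cfsg.octads, T ∪ U' ⊆ o)) → ∃ g : Equiv.Perm Cfsg.GolayPt, g ∈ Cfsg.M24 ∧ g • T = T ∧ g • U = U' := by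
  classical
  obtain ⟨a, ha, e⟩ := CfsgLib.Golay.exists_smul_eq_small (k := 3) (by norm_num) (s := CfsgLib.Golay.toSet CfsgLib.Golay.triad0)
    (by decide +kernel) hT
  have hlen : CfsgLib.Golay.certP3ZP3.1.length = 5 := by decide +kernel
  have hst : MulAction.stabilizer Cfsg.M24 (a • CfsgLib.Golay.Sys CfsgLib.Golay.triadSys) =
      MulAction.stabilizer Cfsg.M24 ({T} : Finset (Finset Cfsg.GolayPt)) := by
    have h1 : (⟨a, ha⟩ : Cfsg.M24) • ({CfsgLib.Golay.toSet CfsgLib.Golay.triad0} : Finset (Finset Cfsg.GolayPt)) = {T} := by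
      rw [Finset.smul_finset_singleton]; exact congrArg _ e
    rw [← h1, show a • CfsgLib.Golay.Sys CfsgLib.Golay.triadSys = (⟨a, ha⟩ : Cfsg.M24) • CfsgLib.Golay.Sys CfsgLib.Golay.triadSys from rfl,
      MulAction.stabilizer_smul_eq_stabilizer_map_conj, MulAction.stabilizer_smul_eq_stabilizer_map_conj,
      CfsgLib.Golay.stab_triadSys]
  revert hst
  generalize hZdef : a • CfsgLib.Golay.Sys CfsgLib.Golay.triadSys = Z
  intro hst
  -- the two predicates
  let P : Finset Cfsg.GolayPt → Prop := fun U => U.card = 3 ∧ Disjoint T U ∧ ∃ o ∈ Cfsg.octads, T ∪ U ⊆ o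
  let Q : Finset Cfsg.GolayPt → Prop := fun U => U.card = 3 ∧ Disjoint T U ∧ ¬ ∃ o ∈ Cfsg.octads, T ∪ U ⊆ o
  have hroot : ∀ i < 5, CfsgLib.Golay.rootAt CfsgLib.Golay.certP3ZP3 i = [(CfsgLib.Golay.rootAt CfsgLib.Golay.certP3ZP3 i).headD 0] ∧
      (fun m => CfsgLib.Golay.pc m = 3 ∧
      ((CfsgLib.Golay.triad0 &&& m == 0) = (i == 2 || i == 4)) ∧
      (CfsgLib.Golay.octList.any (fun o => (CfsgLib.Golay.triad0 ||| m) &&& o == (CfsgLib.Golay.triad0 ||| m)) =
        (i == 0 || i == 1 || i == 2 || i == 3))) ((CfsgLib.Golay.rootAt CfsgLib.Golay.certP3ZP3 i).headD 0) := by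
    decide +kernel
  -- description of an orbit
  have key : ∀ i < 5, ∀ U : Finset Cfsg.GolayPt,
      U ∈ {U : Finset Cfsg.GolayPt | ({U} : Finset (Finset Cfsg.GolayPt)) ∈
        MulAction.orbit ↥(MulAction.stabilizer Cfsg.M24 Z) (CfsgLib.Golay.rootOf CfsgLib.Golay.certP3ZP3 a i)} →
      (P U ↔ i = 2) ∧ (Q U ↔ i = 4) := by
    intro i hi U hU
    obtain ⟨hr, hm3, hdis, hoct⟩ := hroot i hi
    revert hr hm3 hdis hoct
    generalize (CfsgLib.Golay.rootAt CfsgLib.Golay.certP3ZP3 i).headD 0 = m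
    intro hr hm3 hdis hoct
    obtain ⟨g, hg⟩ := hU
    have hgT : ((g : Cfsg.M24) : Equiv.Perm Cfsg.GolayPt) • T = T := by
      have h2 : (g : Cfsg.M24) ∈ MulAction.stabilizer Cfsg.M24 ({T} : Finset (Finset Cfsg.GolayPt)) :=
        (SetLike.ext_iff.1 hst _).1 g.2
      exact Finset.singleton_inj.1 ((Finset.smul_finset_singleton _).symm.trans h2)
    set b : Equiv.Perm Cfsg.GolayPt := ((g : Cfsg.M24) : Equiv.Perm Cfsg.GolayPt) * a
    have hb : b ∈ Cfsg.M24 := mul_mem (g : Cfsg.M24).2 ha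
    have hbT : b • CfsgLib.Golay.toSet CfsgLib.Golay.triad0 = T := by rw [mul_smul, e, hgT]
    have hbU : b • CfsgLib.Golay.toSet m = U := by
      have h1 : ((g : Cfsg.M24) : Equiv.Perm Cfsg.GolayPt) • CfsgLib.Golay.rootOf CfsgLib.Golay.certP3ZP3 a i = {U} := hg
      rw [CfsgLib.Golay.rootOf, hr, CfsgLib.Golay.Sys_single, Finset.smul_finset_singleton, Finset.smul_finset_singleton,
        Finset.singleton_inj] at h1
      rw [mul_smul]; exact h1
    have hU3 : U.card = 3 := by rw [← hbU, Finset.card_smul_finset, CfsgLib.Golay.card_toSet, hm3]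
    have hd : Disjoint T U ↔ (i = 2 ∨ i = 4) := by
      rw [Finset.disjoint_iff_inter_eq_empty, ← Finset.card_eq_zero, ← hbT, ← hbU, ← CfsgLib.Golay.smul_inter',
        Finset.card_smul_finset, ← CfsgLib.Golay.toSet_and, CfsgLib.Golay.card_toSet]
      have hlt : CfsgLib.Golay.triad0 &&& m < 16777216 := lt_of_le_of_lt Nat.and_le_left (by decide)
      rw [show (i = 2 ∨ i = 4) ↔ (i == 2 || i == 4) = true by simp, ← hdis, beq_iff_eq]
      exact ⟨fun h => CfsgLib.Golay.pc_eq_zero hlt h, fun h => by rw [h]; decide +kernel⟩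
    have ho : (∃ o ∈ Cfsg.octads, T ∪ U ⊆ o) ↔ i ≠ 4 := by
      have h4 : i ≠ 4 ↔ (i == 0 || i == 1 || i == 2 || i == 3) = true := by simp; omega
      rw [h4, ← hoct, List.any_eq_true]
      simp only [beq_iff_eq]
      have hm24 : m < 16777216 := by
        have hr2 := List.all_eq_true.1 CfsgLib.Golay.set3Kind.ok _
          ((CfsgLib.Golay.set3Kind.cert_spec CfsgLib.Golay.certP3ZP3_ok).2.1 _ (CfsgLib.Golay.rootAt_mem (c := CfsgLib.Golay.certP3ZP3) (i := i) (by omega)))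
        rw [hr] at hr2
        simpa [CfsgLib.Golay.okSys] using hr2
      have hlt2 : CfsgLib.Golay.triad0 ||| m < 16777216 := Nat.or_lt_two_pow (n := 24) (by decide) hm24
      constructor
      · rintro ⟨o, ho, hsub⟩
        obtain ⟨o1, ho1, he1⟩ := CfsgLib.Golay.exists_mask_octad (CfsgLib.Golay.smul_octad (inv_mem hb) ho)
        refine ⟨o1, ho1, (CfsgLib.Golay.toSet_subset_iff hlt2).1 ?_⟩
        rw [he1, CfsgLib.Golay.toSet_or, Finset.subset_smul_finset_iff, inv_inv, Finset.smul_finset_union, hbT, hbU]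
        exact hsub
      · rintro ⟨o, ho, hsub⟩
        refine ⟨b • CfsgLib.Golay.toSet o, CfsgLib.Golay.smul_octad hb (CfsgLib.Golay.toSet_mem_octads ho), ?_⟩
        rw [← hbT, ← hbU, ← Finset.smul_finset_union, ← CfsgLib.Golay.toSet_or]
        exact Finset.smul_finset_subset_smul_finset ((CfsgLib.Golay.toSet_subset_iff hlt2).2 hsub)
    refine ⟨?_, ?_⟩
    · simp only [P, hU3, hd, ho, true_and]; omega
    · simp only [Q, hU3, hd, ho, true_and]; omega
  have hset : ∀ i < 5, ∀ R : Finset Cfsg.GolayPt → Prop, (∀ U, R U → U.card = 3) →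
      (∀ j < 5, ∀ U : Finset Cfsg.GolayPt, ({U} : Finset (Finset Cfsg.GolayPt)) ∈
        MulAction.orbit ↥(MulAction.stabilizer Cfsg.M24 Z) (CfsgLib.Golay.rootOf CfsgLib.Golay.certP3ZP3 a j) →
        (R U ↔ j = i)) →
      (fun U : Finset Cfsg.GolayPt => ({U} : Finset (Finset Cfsg.GolayPt))) '' {U | R U} =
        MulAction.orbit ↥(MulAction.stabilizer Cfsg.M24 Z) (CfsgLib.Golay.rootOf CfsgLib.Golay.certP3ZP3 a i) := by
    intro i hi R hR3 hR
    ext Y
    constructor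
    · rintro ⟨U, hU, rfl⟩
      obtain ⟨j, hj, hm⟩ := CfsgLib.Golay.set3Kind.cover CfsgLib.Golay.certP3ZP3_ok ha hZdef (Y := {U}) ⟨U, hR3 U hU, rfl⟩
      rw [hlen] at hj
      obtain rfl := (hR j hj U hm).1 hU
      exact hm
    · intro hY
      have hm := (CfsgLib.Golay.subset_of_orbit (fun g Y hY => CfsgLib.Golay.set3Kind.smul' g hY)
        (CfsgLib.Golay.set3Kind.orbit_eq CfsgLib.Golay.certP3ZP3_ok ha hZdef (i := i) (by omega)).1 hY)
      obtain ⟨U, hU, rfl⟩ := hm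
      exact ⟨U, (hR i hi U hY).2 rfl, rfl⟩
  have eP := hset 2 (by norm_num) P (fun U h => h.1) (fun j hj U h => (key j hj U h).1)
  have eQ := hset 4 (by norm_num) Q (fun U h => h.1) (fun j hj U h => (key j hj U h).2)
  have cP : {U | P U}.ncard = 210 := by
    rw [← Set.ncard_image_of_injective {U | P U} Finset.singleton_injective, eP,
      (CfsgLib.Golay.set3Kind.orbit_eq CfsgLib.Golay.certP3ZP3_ok ha hZdef (i := 2) (by omega)).2.2]
    decide +kernel
  have cQ : {U | Q U}.ncard = 1120 := by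
    rw [← Set.ncard_image_of_injective {U | Q U} Finset.singleton_injective, eQ,
      (CfsgLib.Golay.set3Kind.orbit_eq CfsgLib.Golay.certP3ZP3_ok ha hZdef (i := 4) (by omega)).2.2]
    decide +kernel
  refine ⟨cP, cQ, fun U U' hU hU' hd hd' hiff => ?_⟩
  have h1 : ∀ R : Finset Cfsg.GolayPt → Prop, ∀ i : ℕ,
      (fun U : Finset Cfsg.GolayPt => ({U} : Finset (Finset Cfsg.GolayPt))) '' {U | R U} =
        MulAction.orbit ↥(MulAction.stabilizer Cfsg.M24 Z) (CfsgLib.Golay.rootOf CfsgLib.Golay.certP3ZP3 a i) →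
      R U → R U' → ∃ g : Equiv.Perm Cfsg.GolayPt, g ∈ Cfsg.M24 ∧ g • T = T ∧ g • U = U' := by
    intro R i eR hR hR'
    have m1 : ({U} : Finset (Finset Cfsg.GolayPt)) ∈
        MulAction.orbit ↥(MulAction.stabilizer Cfsg.M24 Z) (CfsgLib.Golay.rootOf CfsgLib.Golay.certP3ZP3 a i) := by
      rw [← eR]; exact ⟨U, hR, rfl⟩
    have m2 : ({U'} : Finset (Finset Cfsg.GolayPt)) ∈
        MulAction.orbit ↥(MulAction.stabilizer Cfsg.M24 Z) (CfsgLib.Golay.rootOf CfsgLib.Golay.certP3ZP3 a i) := by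
      rw [← eR]; exact ⟨U', hR', rfl⟩
    rw [← MulAction.orbit_eq_iff.2 m1] at m2
    obtain ⟨g, hg⟩ := m2
    have h2 : (g : Cfsg.M24) ∈ MulAction.stabilizer Cfsg.M24 ({T} : Finset (Finset Cfsg.GolayPt)) :=
      (SetLike.ext_iff.1 hst _).1 g.2
    refine ⟨_, (g : Cfsg.M24).2,
      Finset.singleton_inj.1 ((Finset.smul_finset_singleton _).symm.trans h2), ?_⟩
    exact Finset.singleton_inj.1 ((Finset.smul_finset_singleton _).symm.trans hg)
  by_cases hc : ∃ o ∈ Cfsg.octads, T ∪ U ⊆ o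
  · exact h1 P 2 eP ⟨hU, hd, hc⟩ ⟨hU', hd', hiff.1 hc⟩
  · exact h1 Q 4 eQ ⟨hU, hd, hc⟩ ⟨hU', hd', fun h => hc (hiff.2 h)⟩

end Cfsg.Agent.S1562
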