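import Cfsg.Statements.S1563
import Cfsg.Agent.Lib.Golay.CertP2P2Ok

set_option autoImplicit false
set_option linter.all false
open scoped Pointwise
open Cfsg

namespace Cfsg.Agent.S1563

/-- The stabiliser of a pair of points (setwise) is a maximal proper subgroup of the group of the length-24 code. -/
theorem result (s : Finset Cfsg.GolayPt) (hs : s.card = 2) : IsCoatom (MulAction.stabilizer Cfsg.M24 s) := by
  obtain ⟨a, ha, e⟩ := CfsgLib.Golay.exists_smul_eq_small (k := 2) (by norm_num) (s := CfsgLib.Golay.toSet 8388609)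
    (by decide +kernel) hs
  have hS : a • CfsgLib.Golay.Sys [8388609] = ({s} : Finset (Finset Cfsg.GolayPt)) := by
    rw [CfsgLib.Golay.Sys_single, Finset.smul_finset_singleton, e]
  rw [← CfsgLib.Golay.stab_single s]
  refine CfsgLib.Golay.set2Kind.isCoatom CfsgLib.Golay.certP2P2_ok ha hS ⟨s, hs, rfl⟩
    (CfsgLib.Golay.trans_of_base (B := ({s} : Finset (Finset Cfsg.GolayPt))) fun Y hY => by
      obtain ⟨t, ht, rfl⟩ := hY
      obtain ⟨g, hg, e'⟩ := CfsgLib.Golay.exists_smul_eq_small (k := 2) (by norm_num) hs ht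
      exact ⟨g, hg, by rw [Finset.smul_finset_singleton, e']⟩)
    ((congrArg (fun Z => a • Z) (CfsgLib.Golay.Sys_eq_of_same (b := [8388609]) (by decide +kernel))).trans hS)
    (by decide +kernel) (by decide +kernel) ?_ ?_
  · rw [show CfsgLib.Golay.set2Kind.Ys.ncard = 276 from ?_]
    · decide +kernel
    · exact (Set.ncard_image_of_injective _ Finset.singleton_injective).trans (by
        rw [CfsgLib.Golay.set2_eq, ← CfsgLib.Golay.set2_check.2.2, CfsgLib.Golay.ncard_image_toSet _
          ((CfsgLib.Golay.pairwise_of_incB CfsgLib.Golay.set2_check.2.1).imp fun h => ne_of_lt h) fun _ h => (CfsgLib.Golay.set2_lt h).1])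
  · rw [show CfsgLib.Golay.set2Kind.Ys.ncard = 276 from ?_]
    · norm_num
    · exact (Set.ncard_image_of_injective _ Finset.singleton_injective).trans (by
        rw [CfsgLib.Golay.set2_eq, ← CfsgLib.Golay.set2_check.2.2, CfsgLib.Golay.ncard_image_toSet _
          ((CfsgLib.Golay.pairwise_of_incB CfsgLib.Golay.set2_check.2.1).imp fun h => ne_of_lt h) fun _ h => (CfsgLib.Golay.set2_lt h).1])

end Cfsg.Agent.S1563
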