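import Cfsg.Statements.S1564
import Cfsg.Agent.Lib.Golay.CertP3ZP3Ok

set_option autoImplicit false
set_option linter.all false
open scoped Pointwise
open Cfsg

namespace Cfsg.Agent.S1564

/-- The stabiliser of a set of three points (setwise) is a maximal proper subgroup of the group of the length-24 code. -/
theorem result (s : Finset Cfsg.GolayPt) (hs : s.card = 3) : IsCoatom (MulAction.stabilizer Cfsg.M24 s) := by
  obtain ⟨a, ha, e⟩ := CfsgLib.Golay.exists_smul_eq_small (k := 3) (by norm_num) (s := CfsgLib.Golay.toSet CfsgLib.Golay.triad0)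
    (by decide +kernel) hs
  have hst : MulAction.stabilizer Cfsg.M24 (a • CfsgLib.Golay.Sys CfsgLib.Golay.triadSys) =
      MulAction.stabilizer Cfsg.M24 ({s} : Finset (Finset Cfsg.GolayPt)) := by
    have h1 : (⟨a, ha⟩ : Cfsg.M24) • ({CfsgLib.Golay.toSet CfsgLib.Golay.triad0} : Finset (Finset Cfsg.GolayPt)) = {s} := by
      rw [Finset.smul_finset_singleton]; exact congrArg _ e
    rw [← h1, show a • CfsgLib.Golay.Sys CfsgLib.Golay.triadSys = (⟨a, ha⟩ : Cfsg.M24) • CfsgLib.Golay.Sys CfsgLib.Golay.triadSys from rfl,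
      MulAction.stabilizer_smul_eq_stabilizer_map_conj, MulAction.stabilizer_smul_eq_stabilizer_map_conj,
      CfsgLib.Golay.stab_triadSys]
  rw [← CfsgLib.Golay.stab_single s]
  refine CfsgLib.Golay.set3Kind.isCoatom_of_stab CfsgLib.Golay.certP3ZP3_ok ha (S := {s}) rfl hst ⟨s, hs, rfl⟩
    (CfsgLib.Golay.trans_of_base (B := ({s} : Finset (Finset Cfsg.GolayPt))) fun Y hY => by
      obtain ⟨t, ht, rfl⟩ := hY
      obtain ⟨g, hg, e'⟩ := CfsgLib.Golay.exists_smul_eq_small (k := 3) (by norm_num) hs ht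
      exact ⟨g, hg, by rw [Finset.smul_finset_singleton, e']⟩)
    (by
      rw [CfsgLib.Golay.rootOf, CfsgLib.Golay.Sys_eq_of_same (b := [CfsgLib.Golay.triad0]) (by decide +kernel), CfsgLib.Golay.Sys_single,
        Finset.smul_finset_singleton, e])
    (by decide +kernel) (by decide +kernel) ?_ ?_
  · rw [show CfsgLib.Golay.set3Kind.Ys.ncard = 2024 from ?_]
    · decide +kernel
    · exact (Set.ncard_image_of_injective _ Finset.singleton_injective).trans (by
        rw [CfsgLib.Golay.set3_eq, ← CfsgLib.Golay.set3_check.2.2, CfsgLib.Golay.ncard_image_toSet _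
          ((CfsgLib.Golay.pairwise_of_incB CfsgLib.Golay.set3_check.2.1).imp fun h => ne_of_lt h) fun _ h => (CfsgLib.Golay.set3_lt h).1])
  · rw [show CfsgLib.Golay.set3Kind.Ys.ncard = 2024 from ?_]
    · norm_num
    · exact (Set.ncard_image_of_injective _ Finset.singleton_injective).trans (by
        rw [CfsgLib.Golay.set3_eq, ← CfsgLib.Golay.set3_check.2.2, CfsgLib.Golay.ncard_image_toSet _
          ((CfsgLib.Golay.pairwise_of_incB CfsgLib.Golay.set3_check.2.1).imp fun h => ne_of_lt h) fun _ h => (CfsgLib.Golay.set3_lt h).1])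

end Cfsg.Agent.S1564
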