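import Cfsg.Statements.S1565
import Cfsg.Agent.Lib.Golay.OrbitStmt
import Cfsg.Agent.Lib.Golay.CertOctOctOk

set_option autoImplicit false
set_option linter.all false
open scoped Pointwise
open Cfsg

namespace Cfsg.Agent.S1565

/-- The stabiliser of an octad is a maximal proper subgroup of the group of the length-24 code. -/
theorem result (o : Finset Cfsg.GolayPt) (ho : o ∈ Cfsg.octads) : IsCoatom (MulAction.stabilizer Cfsg.M24 o) := by
  obtain ⟨a, ha, hS⟩ := CfsgLib.Golay.exists_octO_Sys ho
  rw [← CfsgLib.Golay.stab_single o]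
  refine CfsgLib.Golay.octKind.isCoatom CfsgLib.Golay.certOctOct_ok ha hS ⟨o, ho, rfl⟩ CfsgLib.Golay.oct_trans
    ((congrArg (fun Z => a • Z) (CfsgLib.Golay.Sys_eq_of_same (b := [CfsgLib.Golay.octO]) (by decide +kernel))).trans hS)
    (by decide +kernel) (by decide +kernel) ?_ ?_
  · rw [CfsgLib.Golay.ncard_octKind]; decide +kernel
  · rw [CfsgLib.Golay.ncard_octKind]; norm_num

end Cfsg.Agent.S1565
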