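import Cfsg.Statements.S1566
import Cfsg.Agent.Lib.Golay.OrbitStmt
import Cfsg.Agent.Lib.Golay.CertPairPairOk

set_option autoImplicit false
set_option linter.all false
open scoped Pointwise
open Cfsg

namespace Cfsg.Agent.S1566

/-- The setwise stabiliser of a dodecad together with its complement is a maximal proper subgroup of the group of the length-24 code. -/
theorem result (d : Finset Cfsg.GolayPt) (hd : d ∈ Cfsg.dodecads) : IsCoatom (MulAction.stabilizer Cfsg.M24 ({d, dᶜ} : Finset (Finset Cfsg.GolayPt))) := by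
  obtain ⟨a, ha, hS⟩ := CfsgLib.Golay.exists_pair0 hd
  refine CfsgLib.Golay.pairKind.isCoatom CfsgLib.Golay.certPairPair_ok ha hS ⟨d, hd, rfl⟩ CfsgLib.Golay.pair_trans
    ((congrArg (fun Z => a • Z) (CfsgLib.Golay.Sys_eq_of_same (b := CfsgLib.Golay.pair0) (by decide +kernel))).trans hS)
    (by decide +kernel) (by decide +kernel) ?_ ?_
  · rw [CfsgLib.Golay.ncard_pairKind]; decide +kernel
  · rw [CfsgLib.Golay.ncard_pairKind]; norm_num

end Cfsg.Agent.S1566
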