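import Cfsg.Statements.S1579
import Cfsg.Agent.Lib.Leech.Pairs

set_option autoImplicit false
set_option linter.all false
open Cfsg

namespace Cfsg.Agent.S1579

/-- The stabiliser of a vector of customary norm 6 is transitive on the 552 minimal vectors that complete it to a sum of two minimal vectors. -/
theorem result (u v v' : ↥Cfsg.leechLattice) (hu : Cfsg.sqNorm (u : Cfsg.GolayPt → ℤ) = 48) (hv : Cfsg.sqNorm (v : Cfsg.GolayPt → ℤ) = 32 ∧ Cfsg.sqNorm ((u - v) : Cfsg.GolayPt → ℤ) = 32) (hv' : Cfsg.sqNorm (v' : Cfsg.GolayPt → ℤ) = 32 ∧ Cfsg.sqNorm ((u - v') : Cfsg.GolayPt → ℤ) = 32) : ∃ g : ↥Cfsg.Co0, g • u = u ∧ g • v = v' := by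
  have key : ∀ x : Cfsg.leechLattice, Cfsg.sqNorm (x : Cfsg.GolayPt → ℤ) = 32 →
      Cfsg.sqNorm ((u - x : Cfsg.leechLattice) : Cfsg.GolayPt → ℤ) = 32 →
      Cfsg.dotInt (x : Cfsg.GolayPt → ℤ) ((u - x : Cfsg.leechLattice) : Cfsg.GolayPt → ℤ) = -8 := by
    intro x h1 h2
    have e := CfsgLib.Leech.sqNorm_add (x : Cfsg.GolayPt → ℤ) ((u - x : Cfsg.leechLattice) : Cfsg.GolayPt → ℤ)
    rw [← AddSubgroup.coe_add, add_sub_cancel, hu, h1, h2] at e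
    omega
  obtain ⟨g, h1, h2⟩ := CfsgLib.Leech.pairs_eight hv.1 hv.2 (key v hv.1 hv.2) hv'.1 hv'.2
    (key v' hv'.1 hv'.2)
  refine ⟨g, ?_, h1⟩
  rw [show u = v + (u - v) by abel, CfsgLib.Leech.co0_add, h1, h2]
  abel

end Cfsg.Agent.S1579
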