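import Cfsg.Statements.S1585
import Cfsg.Prelude.Def_MonsterType
import Cfsg.Agent.Lib.Leech.Pairs

set_option autoImplicit false
set_option linter.all false
open Cfsg

namespace Cfsg.Agent.S1585

/-- Two vectors of customary norm 6 with inner product −4 are exchanged by some automorphism of the lattice. -/
theorem result (v w : ↥Cfsg.leechLattice) (hv : Cfsg.sqNorm (v : Cfsg.GolayPt → ℤ) = 48) (hw : Cfsg.sqNorm (w : Cfsg.GolayPt → ℤ) = 48) (hvw : Cfsg.dotInt (v : Cfsg.GolayPt → ℤ) (w : Cfsg.GolayPt → ℤ) = -32) : ∃ g : ↥Cfsg.Co0, g • v = w ∧ g • w = v := by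
  have hs : Cfsg.sqNorm ((v + w : Cfsg.leechLattice) : Cfsg.GolayPt → ℤ) = 32 := by
    rw [AddSubgroup.coe_add, CfsgLib.Leech.sqNorm_add, hv, hw, hvw]; norm_num
  have hn : Cfsg.sqNorm ((-(v + w) : Cfsg.leechLattice) : Cfsg.GolayPt → ℤ) = 32 := by
    rw [AddSubgroup.coe_neg, CfsgLib.Leech.sqNorm_neg, hs]
  have dvv : Cfsg.dotInt ((-(v + w) : Cfsg.leechLattice) : Cfsg.GolayPt → ℤ) (v : Cfsg.GolayPt → ℤ) = -16 := by
    rw [AddSubgroup.coe_neg, Cfsg.dotInt_neg_left, AddSubgroup.coe_add, Cfsg.dotInt_add_left,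
      CfsgLib.Leech.dot_self, hv, CfsgLib.Leech.dot_comm, hvw]
    norm_num
  have dww : Cfsg.dotInt ((-(v + w) : Cfsg.leechLattice) : Cfsg.GolayPt → ℤ) (w : Cfsg.GolayPt → ℤ) = -16 := by
    rw [AddSubgroup.coe_neg, Cfsg.dotInt_neg_left, AddSubgroup.coe_add, Cfsg.dotInt_add_left,
      CfsgLib.Leech.dot_self, hw, hvw]
    norm_num
  obtain ⟨g, h1, h2⟩ := CfsgLib.Leech.pairs_three hn hv dvv hn hw dww
  refine ⟨g, h2, ?_⟩
  have e : g • (v + w) = v + w := by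
    have := congrArg Neg.neg h1
    rwa [← CfsgLib.Leech.coe_co0Hom, map_neg, neg_neg, neg_neg, CfsgLib.Leech.coe_co0Hom] at this
  rw [CfsgLib.Leech.co0_add, h2] at e
  exact add_left_cancel (a := w) (by rw [e, add_comm])

end Cfsg.Agent.S1585
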