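import Cfsg.Statements.S1587


set_option autoImplicit false
set_option linter.all false
open Matrix
open Cfsg

namespace Cfsg.Agent.S1587

/-- First step of the characterisation of the rank-24 lattice: in an even lattice without roots, norm-8 vectors congruent modulo 2 are equal, opposite or orthogonal. -/
theorem result (B : Matrix (Fin 24) (Fin 24) ℤ) (hsymm : B.IsSymm) (hpos : ∀ x : Fin 24 → ℤ, x ≠ 0 → 0 < x ⬝ᵥ (B *ᵥ x)) (heven : ∀ x : Fin 24 → ℤ, (2 : ℤ) ∣ x ⬝ᵥ (B *ᵥ x)) (h2 : ∀ x : Fin 24 → ℤ, x ⬝ᵥ (B *ᵥ x) ≠ 2) (x y : Fin 24 → ℤ) (hx : x ⬝ᵥ (B *ᵥ x) = 8) (hy : y ⬝ᵥ (B *ᵥ y) = 8) (hc : ∀ i, (2 : ℤ) ∣ (x - y) i) : y = x ∨ y = -x ∨ x ⬝ᵥ (B *ᵥ y) = 0 := by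
  have bil : ∀ a b : Fin 24 → ℤ, a ⬝ᵥ (B *ᵥ b) = b ⬝ᵥ (B *ᵥ a) := fun a b => by
    rw [Matrix.dotProduct_mulVec, ← Matrix.mulVec_transpose, hsymm.eq, dotProduct_comm]
  by_contra hcon
  simp only [not_or] at hcon
  obtain ⟨h1, h3, h4⟩ := hcon
  obtain ⟨w, hw⟩ : ∃ w : Fin 24 → ℤ, x - y = 2 • w := by
    refine ⟨fun i => (x - y) i / 2, funext fun i => ?_⟩
    have := hc i
    show (x - y) i = 2 • ((x - y) i / 2)
    rw [nsmul_eq_mul]
    omega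
  have key : ∀ a : Fin 24 → ℤ, a ≠ 0 → 4 ≤ a ⬝ᵥ (B *ᵥ a) := fun a ha => by
    have := hpos a ha
    have := heven a
    have := h2 a
    omega
  have e : ∀ a b : Fin 24 → ℤ, (a + b) ⬝ᵥ (B *ᵥ (a + b)) =
      a ⬝ᵥ (B *ᵥ a) + b ⬝ᵥ (B *ᵥ b) + 2 * (a ⬝ᵥ (B *ᵥ b)) := fun a b => by
    rw [Matrix.mulVec_add, add_dotProduct, dotProduct_add, dotProduct_add, bil b a]
    ring
  have hx' : x = y + 2 • w := by rw [← hw]; abel
  have k1 := key w (fun h => h1 (by rw [hx', h, smul_zero, add_zero]))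
  have k2 := key (y + w) (fun h => h3 (by
    rw [hx', eq_neg_iff_add_eq_zero, show y + (y + 2 • w) = 2 • (y + w) by module, h, smul_zero]))
  rw [e] at k2
  have e1 := e y (2 • w)
  rw [← hx', hx, hy] at e1
  rw [Matrix.mulVec_smul, smul_dotProduct, dotProduct_smul, dotProduct_smul] at e1
  simp only [nsmul_eq_mul] at e1
  refine h4 ?_
  rw [hx', add_dotProduct, hy, smul_dotProduct, nsmul_eq_mul, bil w y]
  push_cast at *
  omega

end Cfsg.Agent.S1587
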