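import Cfsg.Statements.S1600
import Cfsg.Agent.Lib.Golay.Compl

set_option autoImplicit false
set_option linter.all false
open scoped Pointwise
open Cfsg

namespace Cfsg.Agent.S1600

/-- The pointwise stabiliser of three points of a dodecad inside the dodecad stabiliser (order 72) is transitive on the complementary dodecad. -/
theorem result (d : Finset Cfsg.GolayPt) (hd : d ∈ Cfsg.dodecads) (p q r : Cfsg.GolayPt) (hp : p ∈ d) (hq : q ∈ d) (hr : r ∈ d) (hpq : p ≠ q) (hpr : p ≠ r) (hqr : q ≠ r) : Nat.card ↥(MulAction.stabilizer Cfsg.M24 d ⊓ MulAction.stabilizer Cfsg.M24 p ⊓ MulAction.stabilizer Cfsg.M24 q ⊓ MulAction.stabilizer Cfsg.M24 r) = 72 ∧ ∀ x ∉ d, ∀ y ∉ d, ∃ g ∈ (MulAction.stabilizer Cfsg.M24 d ⊓ MulAction.stabilizer Cfsg.M24 p ⊓ MulAction.stabilizer Cfsg.M24 q ⊓ MulAction.stabilizer Cfsg.M24 r), ((g : ↥Cfsg.M24) : Equiv.Perm Cfsg.GolayPt) x = y := by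
  classical
  obtain ⟨b, hb, hb'⟩ := CfsgLib.Golay.exists_dodD hd
  obtain ⟨z, hz, hz'⟩ := CfsgLib.Golay.exists_extend (s := CfsgLib.Golay.toSet CfsgLib.Golay.dodD) (n := 2) ![b⁻¹ p, b⁻¹ q, b⁻¹ r]
    (by intro i j; fin_cases i <;> fin_cases j <;> simp [hpq, hpr, hqr, hpq.symm, hpr.symm, hqr.symm])
    (by intro i; fin_cases i; exacts [CfsgLib.Golay.mem_of_conj hb' hp, CfsgLib.Golay.mem_of_conj hb' hq, CfsgLib.Golay.mem_of_conj hb' hr])
    (by rw [CfsgLib.Golay.card_toSet]; decide +kernel)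
  obtain ⟨c, hc, hcz⟩ := CfsgLib.Golay.S12_tuple ⟨![CfsgLib.Golay.pt 0, CfsgLib.Golay.pt 1, CfsgLib.Golay.pt 2, CfsgLib.Golay.pt 3, CfsgLib.Golay.pt 4], by decide +kernel⟩ z
    (by decide +kernel) hz
  set a := b * c with hadef
  have ha : a ∈ Cfsg.M24 := mul_mem hb hc.1
  have e : a • CfsgLib.Golay.toSet CfsgLib.Golay.dodD = d := by
    rw [hadef, mul_smul, MulAction.mem_stabilizer_iff.1 hc.2, hb']
  have e0 : a (CfsgLib.Golay.pt 0) = p := by
    have := (hcz (Fin.castAdd 2 (0 : Fin 3))).trans (hz' 0)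
    rw [hadef, Equiv.Perm.mul_apply]
    exact (congrArg b this).trans (b.apply_symm_apply p)
  have e1 : a (CfsgLib.Golay.pt 1) = q := by
    have := (hcz (Fin.castAdd 2 (1 : Fin 3))).trans (hz' 1)
    rw [hadef, Equiv.Perm.mul_apply]
    exact (congrArg b this).trans (b.apply_symm_apply q)
  have e2 : a (CfsgLib.Golay.pt 2) = r := by
    have := (hcz (Fin.castAdd 2 (2 : Fin 3))).trans (hz' 2)
    rw [hadef, Equiv.Perm.mul_apply]
    exact (congrArg b this).trans (b.apply_symm_apply r)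
  refine ⟨?_, fun x hx y hy => ?_⟩
  · have E := CfsgLib.Golay.conjEquiv (H := MulAction.stabilizer Cfsg.M24 d ⊓ MulAction.stabilizer Cfsg.M24 p ⊓
        MulAction.stabilizer Cfsg.M24 q ⊓ MulAction.stabilizer Cfsg.M24 r) ha CfsgLib.Golay.S3pt_le (fun g => by
      rw [CfsgLib.Golay.mem_S3pt]
      constructor
      · rintro ⟨⟨⟨h1, h2⟩, h3⟩, h4⟩
        refine ⟨Subgroup.mem_inf.2 ⟨mul_mem (mul_mem (inv_mem ha) g.2) ha, CfsgLib.Golay.conj_smul.2 ?_⟩,
          CfsgLib.Golay.conj_fix.2 ?_, CfsgLib.Golay.conj_fix.2 ?_, CfsgLib.Golay.conj_fix.2 ?_⟩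
        · rw [e]; exact h1
        · rw [e0]; exact h2
        · rw [e1]; exact h3
        · rw [e2]; exact h4
      · rintro ⟨h1, h2, h3, h4⟩
        have k1 := CfsgLib.Golay.conj_smul.1 h1.2
        have k2 := CfsgLib.Golay.conj_fix.1 h2
        have k3 := CfsgLib.Golay.conj_fix.1 h3
        have k4 := CfsgLib.Golay.conj_fix.1 h4
        rw [e] at k1; rw [e0] at k2; rw [e1] at k3; rw [e2] at k4
        exact ⟨⟨⟨k1, k2⟩, k3⟩, k4⟩)
    rw [Nat.card_congr E.toEquiv]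
    exact CfsgLib.Golay.card_S3pt
  · obtain ⟨g, hg, hgx⟩ := CfsgLib.Golay.S3pt_trans (CfsgLib.Golay.notMem_of_conj e hx) (CfsgLib.Golay.notMem_of_conj e hy)
    obtain ⟨h1, h2, h3, h4⟩ := CfsgLib.Golay.mem_S3pt.1 hg
    obtain ⟨hm, hs⟩ := CfsgLib.Golay.conj_mem_of_stab_dod ha e h1
    refine ⟨⟨a * g * a⁻¹, hm⟩, Subgroup.mem_inf.2 ⟨Subgroup.mem_inf.2 ⟨Subgroup.mem_inf.2 ⟨hs, ?_⟩, ?_⟩, ?_⟩, ?_⟩
    · rw [MulAction.mem_stabilizer_iff, ← e0]
      change (a * g * a⁻¹) (a _) = a _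
      rw [CfsgLib.Golay.conj_apply', h2]
    · rw [MulAction.mem_stabilizer_iff, ← e1]
      change (a * g * a⁻¹) (a _) = a _
      rw [CfsgLib.Golay.conj_apply', h3]
    · rw [MulAction.mem_stabilizer_iff, ← e2]
      change (a * g * a⁻¹) (a _) = a _
      rw [CfsgLib.Golay.conj_apply', h4]
    · change a (g (a⁻¹ x)) = y
      rw [hgx]; exact a.apply_symm_apply _

end Cfsg.Agent.S1600
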