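import Cfsg.Statements.S1604
import Cfsg.Agent.Lib.Golay.OctPts
import Cfsg.Agent.Lib.Golay.CertPQoOctOk

set_option autoImplicit false
set_option linter.all false
open scoped Pointwise
open Cfsg

namespace Cfsg.Agent.S1604

/-- A hexad stabiliser in the two-point stabiliser has orbits of sizes 1, 16, 60 on the 77 hexads: the 16 hexads disjoint from it and the 60 meeting it in two points. -/
theorem result (p q : Cfsg.GolayPt) (hpq : p ≠ q) (o o' o'' : Finset Cfsg.GolayPt) (ho : o ∈ Cfsg.octads) (ho' : o' ∈ Cfsg.octads) (ho'' : o'' ∈ Cfsg.octads) (hp : p ∈ o ∧ p ∈ o' ∧ p ∈ o'') (hq : q ∈ o ∧ q ∈ o' ∧ q ∈ o'') (h : (o ∩ o').card = (o ∩ o'').card) : {x : Finset Cfsg.GolayPt | x ∈ Cfsg.octads ∧ p ∈ x ∧ q ∈ x ∧ (o ∩ x).card = 2}.ncard = 16 ∧ {x : Finset Cfsg.GolayPt | x ∈ Cfsg.octads ∧ p ∈ x ∧ q ∈ x ∧ (o ∩ x).card = 4}.ncard = 60 ∧ ∃ g : Equiv.Perm Cfsg.GolayPt, g ∈ Cfsg.M24 ∧ g p = p ∧ g q = q ∧ g • o = o ∧ g •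 o' = o'' := by
  obtain ⟨a, ha, e, h1, h2⟩ := CfsgLib.Golay.exists_octad_two ho hpq hp.1 hq.1
  have hXs : ([[8388608], [1], [CfsgLib.Golay.octO]].map CfsgLib.Golay.Sys).map (a • ·) =
      [({{p}} : Finset (Finset Cfsg.GolayPt)), {{q}}, {o}] := by
    simp only [List.map_cons, List.map_nil, List.cons.injEq, and_true]
    refine ⟨CfsgLib.Golay.smul_Sys_pt (i := 23) (by norm_num) h1, CfsgLib.Golay.smul_Sys_pt (i := 0) (by norm_num) h2, ?_⟩
    rw [CfsgLib.Golay.Sys_single, Finset.smul_finset_singleton, e]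
  have key : ∀ k : ℕ, {x : Finset Cfsg.GolayPt | x ∈ Cfsg.octads ∧ p ∈ x ∧ q ∈ x ∧ (o ∩ x).card = k} =
      {x | x ∈ Cfsg.octads ∧ CfsgLib.Golay.Pats [({{p}} : Finset (Finset Cfsg.GolayPt)), {{q}}, {o}] {x} = [256, 256, 256 ^ k]} := by
    intro k
    ext x
    simp only [Set.mem_ofPred_eq, CfsgLib.Golay.Pats, List.map_cons, List.map_nil, CfsgLib.Golay.Pat_singles,
      CfsgLib.Golay.card_singleton_inter, List.cons.injEq, and_true]
    refine and_congr_right fun _ => ?_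
    by_cases ha' : p ∈ x <;> by_cases hb' : q ∈ x <;> simp [ha', hb']
  refine ⟨?_, ?_, ?_⟩
  · rw [key]; exact CfsgLib.Golay.octKind.count_singles rfl (by decide +kernel) ha hXs (by decide +kernel)
  · rw [key]; exact CfsgLib.Golay.octKind.count_singles rfl (by decide +kernel) ha hXs (by decide +kernel)
  · obtain ⟨g, hg, hfix, hgt⟩ := CfsgLib.Golay.octKind.trans CfsgLib.Golay.certPQoOct_ok ha hXs
      (Y := {o'}) (Y' := {o''}) ⟨o', ho', rfl⟩ ⟨o'', ho'', rfl⟩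
      (by simp [CfsgLib.Golay.Pats, CfsgLib.Golay.Pat_singles, CfsgLib.Golay.card_singleton_inter, hp, hq, h])
    simp only [List.mem_cons, List.not_mem_nil, or_false, forall_eq_or_imp, forall_eq,
      Finset.smul_finset_singleton, Finset.singleton_inj, Equiv.Perm.smul_def] at hfix hgt
    exact ⟨g, hg, hfix.1, hfix.2.1, hfix.2.2, hgt⟩

end Cfsg.Agent.S1604
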