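import Cfsg.Statements.S1605
import Cfsg.Agent.Lib.Golay.OctPts
import Cfsg.Agent.Lib.Golay.CertPROctOk
import Cfsg.Agent.Lib.Golay.CertPRoOctOk

set_option autoImplicit false
set_option linter.all false
open scoped Pointwise
open Cfsg

namespace Cfsg.Agent.S1605

/-- The two-point stabiliser acts on the 176 octads through the first point avoiding the second with rank 3 and subdegrees 1, 70, 105 (intersections 8, 2, 4). -/
theorem result (p q : Cfsg.GolayPt) (hpq : p ≠ q) : {x : Finset Cfsg.GolayPt | (x ∈ Cfsg.octads ∧ p ∈ x ∧ q ∉ x)}.ncard = 176 ∧ (∀ o o' : Finset Cfsg.GolayPt, (o ∈ Cfsg.octads ∧ p ∈ o ∧ q ∉ o) → (o' ∈ Cfsg.octads ∧ p ∈ o' ∧ q ∉ o') → ∃ g : Equiv.Perm Cfsg.GolayPt, g ∈ Cfsg.M24 ∧ g p = p ∧ g q = q ∧ g • o = o') ∧ ∀ o : Finset Cfsg.GolayPt, (o ∈ Cfsg.octads ∧ p ∈ o ∧ q ∉ o) → {x : Finset Cfsg.GolayPt | (x ∈ Cfsg.octads ∧ p ∈ x ∧ q ∉ x) ∧ (o ∩ x).card = 2}.ncard = 70 ∧ {x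 : Finset Cfsg.GolayPt | (x ∈ Cfsg.octads ∧ p ∈ x ∧ q ∉ x) ∧ (o ∩ x).card = 4}.ncard = 105 ∧ ∀ o' o'' : Finset Cfsg.GolayPt, (o' ∈ Cfsg.octads ∧ p ∈ o' ∧ q ∉ o') → (o'' ∈ Cfsg.octads ∧ p ∈ o'' ∧ q ∉ o'') → (o ∩ o').card = (o ∩ o'').card → ∃ g : Equiv.Perm Cfsg.GolayPt, g ∈ Cfsg.M24 ∧ g p = p ∧ g q = q ∧ g • o = o ∧ g • o' = o'' := by
  obtain ⟨b, hb, hb'⟩ := CfsgLib.Golay.exists_map_tuple (k := 2) (by norm_num)
    ⟨![CfsgLib.Golay.bp 0, CfsgLib.Golay.bp 6], by decide +kernel⟩ ⟨![p, q], by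
      intro i j
      fin_cases i <;> fin_cases j <;> simp [hpq, Ne.symm hpq]⟩
  have hXp : ([[8388608], [16]].map CfsgLib.Golay.Sys).map (b • ·) =
      [({{p}} : Finset (Finset Cfsg.GolayPt)), {{q}}] := by
    simp only [List.map_cons, List.map_nil, List.cons.injEq, and_true]
    exact ⟨CfsgLib.Golay.smul_Sys_pt (i := 23) (by norm_num) (hb' 0), CfsgLib.Golay.smul_Sys_pt (i := 4) (by norm_num) (hb' 1)⟩
  have hPQ : ∀ x : Finset Cfsg.GolayPt, (p ∈ x ∧ q ∉ x) ↔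
      CfsgLib.Golay.Pats [({{p}} : Finset (Finset Cfsg.GolayPt)), {{q}}] {x} = [256, 1] := by
    intro x
    by_cases ha' : p ∈ x <;> by_cases hb2 : q ∈ x <;>
      simp [CfsgLib.Golay.Pats, CfsgLib.Golay.Pat_singles, CfsgLib.Golay.card_singleton_inter, ha', hb2]
  refine ⟨?_, fun o o' ho ho' => ?_, fun o ho => ?_⟩
  · simp only [hPQ]
    exact CfsgLib.Golay.octKind.count_singles rfl (by decide +kernel) hb hXp (by decide +kernel)
  · obtain ⟨g, hg, hfix, hgt⟩ := CfsgLib.Golay.octKind.trans CfsgLib.Golay.certPROct_ok hb hXp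
      (Y := {o}) (Y' := {o'}) ⟨o, ho.1, rfl⟩ ⟨o', ho'.1, rfl⟩
      (((hPQ o).1 ho.2).trans ((hPQ o').1 ho'.2).symm)
    simp only [List.mem_cons, List.not_mem_nil, or_false, forall_eq_or_imp, forall_eq,
      Finset.smul_finset_singleton, Finset.singleton_inj, Equiv.Perm.smul_def] at hfix hgt
    exact ⟨g, hg, hfix.1, hfix.2, hgt⟩
  obtain ⟨a, ha, e, h1, h2⟩ := CfsgLib.Golay.exists_octad_in_out ho.1 ho.2.1 ho.2.2
  have hXs : ([[8388608], [16], [CfsgLib.Golay.octO]].map CfsgLib.Golay.Sys).map (a • ·) =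
      [({{p}} : Finset (Finset Cfsg.GolayPt)), {{q}}, {o}] := by
    simp only [List.map_cons, List.map_nil, List.cons.injEq, and_true]
    refine ⟨CfsgLib.Golay.smul_Sys_pt (i := 23) (by norm_num) h1, CfsgLib.Golay.smul_Sys_pt (i := 4) (by norm_num) h2, ?_⟩
    rw [CfsgLib.Golay.Sys_single, Finset.smul_finset_singleton, e]
  have key : ∀ k : ℕ, {x : Finset Cfsg.GolayPt | (x ∈ Cfsg.octads ∧ p ∈ x ∧ q ∉ x) ∧ (o ∩ x).card = k} =
      {x | x ∈ Cfsg.octads ∧ CfsgLib.Golay.Pats [({{p}} : Finset (Finset Cfsg.GolayPt)), {{q}}, {o}] {x} = [256, 1, 256 ^ k]} := by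
    intro k
    ext x
    simp only [Set.mem_ofPred_eq, CfsgLib.Golay.Pats, List.map_cons, List.map_nil, CfsgLib.Golay.Pat_singles,
      CfsgLib.Golay.card_singleton_inter, List.cons.injEq, and_true, and_assoc]
    refine and_congr_right fun _ => ?_
    by_cases ha' : p ∈ x <;> by_cases hb2 : q ∈ x <;> simp [ha', hb2]
  refine ⟨?_, ?_, fun o' o'' ho' ho'' h => ?_⟩
  · rw [key]; exact CfsgLib.Golay.octKind.count_singles rfl (by decide +kernel) ha hXs (by decide +kernel)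
  · rw [key]; exact CfsgLib.Golay.octKind.count_singles rfl (by decide +kernel) ha hXs (by decide +kernel)
  · obtain ⟨g, hg, hfix, hgt⟩ := CfsgLib.Golay.octKind.trans CfsgLib.Golay.certPRoOct_ok ha hXs
      (Y := {o'}) (Y' := {o''}) ⟨o', ho'.1, rfl⟩ ⟨o'', ho''.1, rfl⟩
      (by simp [CfsgLib.Golay.Pats, CfsgLib.Golay.Pat_singles, CfsgLib.Golay.card_singleton_inter, ho'.2, ho''.2, h])
    simp only [List.mem_cons, List.not_mem_nil, or_false, forall_eq_or_imp, forall_eq,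
      Finset.smul_finset_singleton, Finset.singleton_inj, Equiv.Perm.smul_def] at hfix hgt
    exact ⟨g, hg, hfix.1, hfix.2.1, hfix.2.2, hgt⟩

end Cfsg.Agent.S1605
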