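import Cfsg.Statements.S1608
import Cfsg.Agent.Lib.Golay.CertPXoOctOk

set_option autoImplicit false
set_option linter.all false
open scoped Pointwise
open Cfsg

namespace Cfsg.Agent.S1608

/-- The point stabiliser acts on the 506 octads avoiding the point with rank 4 and subdegrees 1, 15, 210, 280, the suborbits being given by intersection size with the fixed octad. -/
theorem result (x : Cfsg.GolayPt) (o : Finset Cfsg.GolayPt) (ho : o ∈ Cfsg.octads) (hx : x ∉ o) : {o' : Finset Cfsg.GolayPt | o' ∈ Cfsg.octads ∧ x ∉ o' ∧ (o ∩ o').card = 0}.ncard = 15 ∧ {o' : Finset Cfsg.GolayPt | o' ∈ Cfsg.octads ∧ x ∉ o' ∧ (o ∩ o').card = 4}.ncard = 210 ∧ {o' : Finset Cfsg.GolayPt | o' ∈ Cfsg.octads ∧ x ∉ o' ∧ (o ∩ o').card = 2}.ncard = 280 ∧ ∀ o' o'' : Finset Cfsg.GolayPt, o' ∈ Cfsg.octads → o'' ∈ Cfsg.octads → x ∉ o' → x ∉ o'' → (o ∩ o').card = (o ∩ o'').card → ∃ g : Equiv.Perm Cfsg.GolayPt, g ∈ Cfsg.M24 ∧ g x = x ∧ g • o = o ∧ g • o' = o'' := by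
  obtain ⟨p, hp⟩ := Finset.card_pos.1 (show 0 < o.card by rw [CfsgLib.Golay.card_octad ho]; norm_num)
  obtain ⟨a, ha, e, -, h1⟩ := CfsgLib.Golay.exists_octad_in_out ho hp hx
  have hXs : ([[16], [CfsgLib.Golay.octO]].map CfsgLib.Golay.Sys).map (a • ·) =
      [({{x}} : Finset (Finset Cfsg.GolayPt)), {o}] := by
    simp only [List.map_cons, List.map_nil, List.cons.injEq, and_true]
    refine ⟨CfsgLib.Golay.smul_Sys_pt (i := 4) (by norm_num) h1, ?_⟩
    rw [CfsgLib.Golay.Sys_single, Finset.smul_finset_singleton, e]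
  have key : ∀ k : ℕ, {y : Finset Cfsg.GolayPt | y ∈ Cfsg.octads ∧ x ∉ y ∧ (o ∩ y).card = k} =
      {y | y ∈ Cfsg.octads ∧ CfsgLib.Golay.Pats [({{x}} : Finset (Finset Cfsg.GolayPt)), {o}] {y} = [1, 256 ^ k]} := by
    intro k
    ext y
    simp only [Set.mem_ofPred_eq, CfsgLib.Golay.Pats, List.map_cons, List.map_nil, CfsgLib.Golay.Pat_singles,
      CfsgLib.Golay.card_singleton_inter, List.cons.injEq, and_true,
      (Nat.pow_right_injective (by norm_num : 2 ≤ 256)).eq_iff]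
    refine and_congr_right fun _ => ?_
    by_cases hy : x ∈ y <;> simp [hy]
  refine ⟨?_, ?_, ?_, fun u w hu hw hxu hxw h => ?_⟩
  · rw [key]; exact CfsgLib.Golay.octKind.count_singles rfl (by decide +kernel) ha hXs (by decide +kernel)
  · rw [key]; exact CfsgLib.Golay.octKind.count_singles rfl (by decide +kernel) ha hXs (by decide +kernel)
  · rw [key]; exact CfsgLib.Golay.octKind.count_singles rfl (by decide +kernel) ha hXs (by decide +kernel)
  · obtain ⟨g, hg, hfix, hgt⟩ := CfsgLib.Golay.octKind.trans CfsgLib.Golay.certPXoOct_ok ha hXs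
      (Y := {u}) (Y' := {w}) ⟨u, hu, rfl⟩ ⟨w, hw, rfl⟩
      (by simp [CfsgLib.Golay.Pats, CfsgLib.Golay.Pat_singles, CfsgLib.Golay.card_singleton_inter, hxu, hxw, h])
    simp only [List.mem_cons, List.not_mem_nil, or_false, forall_eq_or_imp, forall_eq,
      Finset.smul_finset_singleton, Finset.singleton_inj, Equiv.Perm.smul_def] at hfix hgt
    exact ⟨g, hg, hfix.1, hfix.2, hgt⟩

end Cfsg.Agent.S1608
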