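import Cfsg.Statements.S1618
import Cfsg.Agent.Lib.ThreeTransp.ProductsCore
import Cfsg.Agent.Lib.ThreeTransp.ZStar

set_option autoImplicit false
open Cfsg
open scoped commutatorElement

namespace Cfsg.Agent.S1618

/-- A group generated by a class of involutions whose pairwise products (of distinct members) have p-power order for a fixed odd prime p has nilpotent derived subgroup. -/
theorem result {G : Type*} [Group G] [Finite G] (p : ℕ) (hp : p.Prime) (hodd : p ≠ 2) {D : Set G} (hinv : ∀ d ∈ D, orderOf d = 2) (hconj : ∃ d ∈ D, D = conjugatesOf d) (hgen : Subgroup.closure D = ⊤) (hprod : ∀ x ∈ D, ∀ y ∈ D, x ≠ y → ∃ k : ℕ, orderOf (x * y) = p ^ k) : Group.IsNilpotent ↥(commutator G) := by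
  haveI : Fact p.Prime := ⟨hp⟩
  obtain ⟨d, hdD, rfl⟩ := hconj
  have hd := hinv d hdD
  have hmem := CfsgLib.ThreeTransp.products_mem_pCore (CfsgLib.ThreeTransp.zStarAll G) hp hodd hd
    (fun a ha b hb => by
      by_cases h : a = b
      · subst h
        exact ⟨0, by rw [← pow_two, ← hinv a ha, pow_orderOf_eq_one, orderOf_one, pow_zero]⟩
      · exact hprod a ha b hb h)
  haveI := CfsgLib.Core.pCore_characteristic (G := G) p
  let f := QuotientGroup.mk' (Cfsg.pCore p G)
  have hz : ∀ g : G, f g ∈ Subgroup.zpowers (f d) := fun g => by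
    have hle : Subgroup.closure (conjugatesOf d) ≤ (Subgroup.zpowers (f d)).comap f :=
      (Subgroup.closure_le _).mpr fun x hx => by
        have h1 : f (x * d) = 1 := (QuotientGroup.eq_one_iff _).mpr (hmem x hx d mem_conjugatesOf_self)
        rw [map_mul] at h1
        rw [SetLike.mem_coe, Subgroup.mem_comap, eq_inv_of_mul_eq_one_left h1]
        exact inv_mem (Subgroup.mem_zpowers _)
    exact hle (hgen ▸ Subgroup.mem_top g)
  have hle : commutator G ≤ Cfsg.pCore p G := by
    rw [_root_.commutator_def, Subgroup.commutator_le]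
    intro x _ y _
    refine (QuotientGroup.eq_one_iff _).mp ?_
    show f ⁅x, y⁆ = 1
    rw [map_commutatorElement, commutatorElement_eq_one_iff_commute]
    obtain ⟨i, hi⟩ := Subgroup.mem_zpowers_iff.mp (hz x)
    obtain ⟨j, hj⟩ := Subgroup.mem_zpowers_iff.mp (hz y)
    rw [← hi, ← hj]
    exact Commute.zpow_zpow (Commute.refl _) _ _
  exact ((CfsgLib.Core.isPGroup_pCore p).to_le hle).isNilpotent

end Cfsg.Agent.S1618
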