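import Cfsg.Statements.S1631
import Cfsg.Agent.Lib.Unitary.GenerationMain
import Cfsg.Agent.S2644

set_option autoImplicit false
open scoped MatrixGroups
open Cfsg

namespace Cfsg.Agent.S1631

open scoped Matrix
open CfsgLib.Unitary.FieldNorm CfsgLib.Unitary.Basic CfsgLib.Unitary.Order CfsgLib.Unitary.Isotropic
open CfsgLib.Unitary.Generation

theorem sq_zero {F : Type} [Field F] {n : ℕ} (g : Matrix.SpecialLinearGroup (Fin n) F)
    (h : ((g : Matrix (Fin n) (Fin n) F) - 1).rank = 1) :
    ((g : Matrix (Fin n) (Fin n) F) - 1) * ((g : Matrix (Fin n) (Fin n) F) - 1) = 0 := by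
  classical
  set N := (g : Matrix (Fin n) (Fin n) F) - 1 with hN
  obtain ⟨⟨u, hur⟩, hu0, hspan⟩ := finrank_eq_one_iff'.1 (show Module.finrank F (LinearMap.range N.mulVecLin) = 1 from h)
  have hex : ∀ x, ∃ c : F, N *ᵥ x = c • u := fun x => by
    obtain ⟨c, hc⟩ := hspan ⟨N *ᵥ x, ⟨x, rfl⟩⟩
    exact ⟨c, (congrArg Subtype.val hc).symm⟩
  choose f hf using hex
  set r : Fin n → F := fun k => f (Pi.single k 1) with hr
  have hNe : N = (Matrix.of fun s (_ : Fin 1) => u s) * (Matrix.of fun (_ : Fin 1) k => r k) := by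
    ext s k
    have := congrFun (hf (Pi.single k 1)) s
    rw [Matrix.mulVec_single_one] at this
    simp only [Matrix.mul_apply, Matrix.of_apply, Fin.sum_univ_one, hr]
    rw [mul_comm]; exact this
  have hdet : ∑ k, r k * u k = 0 := by
    have := g.2
    rw [show (g : Matrix (Fin n) (Fin n) F) = 1 + N by rw [hN]; abel, hNe, Matrix.det_one_add_mul_comm,
      Matrix.det_fin_one] at this
    simpa [Matrix.mul_apply] using this
  rw [hNe, Matrix.mul_assoc, ← Matrix.mul_assoc (Matrix.of fun (_ : Fin 1) k => r k)]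
  rw [show ((Matrix.of fun (_ : Fin 1) k => r k) * Matrix.of fun s (_ : Fin 1) => u s) = 0 by
    ext a b; simpa [Matrix.mul_apply] using hdet, Matrix.zero_mul, Matrix.mul_zero]

/-- The unitary transvections of SU(n, 2), n ≥ 4, form a generating conjugacy class of 3-transpositions. -/
theorem result (F : Type) [Field F] [Fintype F] [DecidableEq F] (hF : Fintype.card F = 4) (n : ℕ) (hn : 4 ≤ n) : Cfsg.IsThreeTranspositionClass {g : ↥(Cfsg.SU n F 2) | (((g : Matrix.SpecialLinearGroup (Fin n) F) : Matrix (Fin n) (Fin n) F) - 1).rank = 1} := by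
  classical
  haveI : Fact (Nat.Prime 2) := ⟨Nat.prime_two⟩
  haveI : CharP F 2 := charP_of_card_eq_prime_pow (f := 2) (by rw [hF]; norm_num)
  have hK : Fintype.card F = 2 ^ 2 := by rw [hF]; norm_num
  have hshape : ∀ g : ↥(Cfsg.SU n F 2), ((g.1.1 : Matrix (Fin n) (Fin n) F) - 1).rank = 1 →
      ∃ u : Fin n → F, u ≠ 0 ∧ Cfsg.hermForm n F 2 u u = 0 ∧ g.1.1 = Cfsg.unitaryTransvection n 2 u 1 := by
    intro g hg
    obtain ⟨u, hu, hiu, c, hc, hcq, hge⟩ := shape hK g hg (sq_zero g.1 hg)
    have : c = 1 := mul_left_cancel₀ hc (by rw [← sq, hcq, CharTwo.neg_eq, mul_one])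
    exact ⟨u, hu, hiu, this ▸ hge⟩
  have hrank : ∀ (g : ↥(Cfsg.SU n F 2)) (v : Fin n → F) (c : F), g.1.1 = Cfsg.unitaryTransvection n 2 v c → g ≠ 1 →
      ((g.1.1 : Matrix (Fin n) (Fin n) F) - 1).rank = 1 := by
    intro g v c hg hne
    have hle : LinearMap.range ((g.1.1 : Matrix (Fin n) (Fin n) F) - 1).mulVecLin ≤ F ∙ v := by
      rintro _ ⟨x, rfl⟩
      rw [Matrix.mulVecLin_apply, hg, Matrix.sub_mulVec, umat_mulVec, Matrix.one_mulVec, add_sub_cancel_left]
      exact Submodule.smul_mem _ _ (Submodule.mem_span_singleton_self v)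
    have h1 : Module.finrank F (LinearMap.range ((g.1.1 : Matrix (Fin n) (Fin n) F) - 1).mulVecLin) ≤ 1 :=
      (Submodule.finrank_mono hle).trans ((finrank_span_le_card ({v} : Set (Fin n → F))).trans (by simp))
    refine le_antisymm h1 (Nat.one_le_iff_ne_zero.2 fun h0 => hne (Subtype.ext (Subtype.ext ?_)))
    refine sub_eq_zero.1 (Matrix.ext_iff_mulVec.2 fun x => ?_)
    have hbot : LinearMap.range ((g.1.1 : Matrix (Fin n) (Fin n) F) - 1).mulVecLin = ⊥ := Submodule.finrank_eq_zero.1 h0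
    have := LinearMap.congr_fun (LinearMap.range_eq_bot.1 hbot) x
    rw [Matrix.mulVecLin_apply] at this
    rw [Matrix.zero_mulVec]; exact this
  have hord : ∀ g : ↥(Cfsg.SU n F 2), ((g.1.1 : Matrix (Fin n) (Fin n) F) - 1).rank = 1 → g * g = 1 ∧ g ≠ 1 := by
    intro g hg
    constructor
    · refine Subtype.ext (Subtype.ext ?_)
      have h := sq_zero g.1 hg
      show g.1.1 * g.1.1 = 1
      have h2 : ∀ A : Matrix (Fin n) (Fin n) F, A + A = 0 := fun A => by ext i j; exact CharTwo.add_self_eq_zero _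
      rw [sub_mul, mul_sub, mul_sub, Matrix.one_mul, Matrix.mul_one, Matrix.one_mul] at h
      linear_combination (norm := abel) h + h2 g.1.1 - h2 1
    · rintro rfl
      rw [OneMemClass.coe_one, Matrix.SpecialLinearGroup.coe_one, sub_self, Matrix.rank_zero] at hg
      exact zero_ne_one hg
  refine ⟨⟨fun d hd => orderOf_eq_prime (by rw [sq]; exact (hord d hd).1) (hord d hd).2, fun d hd e he => ?_⟩, ?_, ?_⟩
  · obtain ⟨u, hu, hiu, hde⟩ := hshape d hd
    obtain ⟨v, hv, hiv, hee⟩ := hshape e he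
    have hdd := (hord d hd).1
    have hee' := (hord e he).1
    have hdx : ∀ x, d.1.1 *ᵥ x = x + Cfsg.hermForm n F 2 x u • u := fun x => by rw [hde, umat_mulVec, one_mul]
    have hex : ∀ x, e.1.1 *ᵥ x = x + Cfsg.hermForm n F 2 x v • v := fun x => by rw [hee, umat_mulVec, one_mul]
    set h := Cfsg.hermForm n F 2 v u with hh
    have huv : Cfsg.hermForm n F 2 u v = h ^ 2 := (H_conj hK v u).symm
    have h22 : ∀ x : Fin n → F, x + x = 0 := fun x => funext fun i => CharTwo.add_self_eq_zero _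
    by_cases h0 : h = 0
    · left
      have hcom : d * e = e * d := Subtype.ext (Subtype.ext (Matrix.ext_iff_mulVec.2 fun x => by
        rw [su_mulVec, su_mulVec, hex, hdx, hdx x, hex, H_add_left, H_smul_left, H_add_left, H_smul_left, ← hh, huv, h0]
        module))
      rw [sq, show d * e * (d * e) = d * (e * d) * e by group, ← hcom, show d * (d * e) * e = (d * d) * (e * e) by group,
        hdd, hee', one_mul]
    · right
      have h3 : h * h * h = 1 := by
        have := FiniteField.pow_card_sub_one_eq_one h h0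
        rw [hF] at this
        linear_combination this
      have hbr : d * e * d = e * d * e := Subtype.ext (Subtype.ext (Matrix.ext_iff_mulVec.2 fun x => by
        rw [su_mulVec, su_mulVec, su_mulVec, su_mulVec]
        simp only [hdx, hex, H_add_left, H_smul_left, ← hh, huv, hiu, hiv, mul_zero, add_zero]
        funext i
        simp only [Pi.add_apply, Pi.smul_apply, smul_eq_mul]
        have e2 : (2 : F) = 0 := CharTwo.two_eq_zero
        linear_combination (Cfsg.hermForm n F 2 x u * u i - Cfsg.hermForm n F 2 x v * v i) * h3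
          + (Cfsg.hermForm n F 2 x u * u i - Cfsg.hermForm n F 2 x v * v i) * e2))
      calc (d * e) ^ 3 = (d * e * d) * (e * d * e) := by rw [pow_succ, sq]; group
        _ = (d * e * d) * (d * e * d) := by rw [hbr]
        _ = d * e * (d * d) * e * d := by group
        _ = d * (e * e) * d := by rw [hdd]; group
        _ = 1 := by rw [hee', mul_one, hdd]
  · obtain ⟨ζ, hζ⟩ := exists_norm hK (c := (-1 : F)) (by simp) (by rw [neg_pow_q hK, one_pow])
    let i0 : Fin n := ⟨0, by omega⟩
    let i1 : Fin n := ⟨1, by omega⟩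
    have h01 : i0 ≠ i1 := by simp [i0, i1, Fin.ext_iff]
    obtain ⟨t, -, htx⟩ := exists_tv hK (c := (1 : F)) (CfsgLib.Unitary.GenerationMain.u0_iso hK h01 hζ)
      (by rw [one_pow, CharTwo.neg_eq])
    have htu : t.1.1 = Cfsg.unitaryTransvection n 2 (Pi.single i0 1 + ζ • Pi.single i1 1) 1 :=
      Matrix.ext_iff_mulVec.2 fun x => by rw [htx, umat_mulVec]
    have ht1 : t ≠ 1 := by
      rintro rfl
      have h := htx (Pi.single i0 1)
      rw [OneMemClass.coe_one, Matrix.SpecialLinearGroup.coe_one, Matrix.one_mulVec, one_mul, H_single_left] at h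
      have := congrFun h i0
      simp [h01] at this
    have htr := hrank t _ 1 htu ht1
    refine ⟨t, htr, Set.ext fun g => ⟨fun hg => ?_, fun hg => ?_⟩⟩
    · exact Cfsg.Agent.S2644.result hK (by omega) t g ⟨htr, sq_zero t.1 htr⟩ ⟨hg, sq_zero g.1 hg⟩
    · obtain ⟨c, rfl⟩ := isConj_iff.1 hg
      obtain ⟨u, hu, hiu, hue⟩ := hshape t htr
      refine hrank _ (c.1.1 *ᵥ u) 1 (Matrix.ext_iff_mulVec.2 fun x => ?_) fun h1 => ht1 ?_
      · obtain ⟨y, rfl⟩ : ∃ y, c.1.1 *ᵥ y = x := ⟨(c⁻¹).1.1 *ᵥ x, by rw [← su_mulVec, mul_inv_cancel]; exact Matrix.one_mulVec x⟩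
        rw [su_mulVec, su_mulVec, su_inv_cancel, hue, umat_mulVec, umat_mulVec, SU_H, Matrix.mulVec_add, Matrix.mulVec_smul]
      · have := congrArg (fun z => c⁻¹ * z * c) h1
        simpa [mul_assoc] using this
  · rw [eq_top_iff, ← CfsgLib.Unitary.GenerationMain.closure_eq_top hK (Or.inl hn)]
    refine (Subgroup.closure_le _).2 ?_
    rintro g ⟨v, c, -, hg⟩
    by_cases h1 : g = 1
    · rw [h1]; exact one_mem _
    · exact Subgroup.subset_closure (hrank g v c hg h1)

end Cfsg.Agent.S1631
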