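import Cfsg.Statements.S1635
import Cfsg.Agent.Lib.Golay.Cosets

set_option autoImplicit false
set_option linter.all false
open Cfsg

namespace Cfsg.Agent.S1635

/-- Coset leaders of the length-24 code: a coset contains a unique word of weight ≤ 3, or else exactly six words of weight 4 and none lighter. -/
theorem result (w : Cfsg.GolayPt → ZMod 2) : ({v : Cfsg.GolayPt → ZMod 2 | hammingNorm v ≤ 4 ∧ w - v ∈ Cfsg.golayCode}.ncard = 1 ∧ ∃ v : Cfsg.GolayPt → ZMod 2, hammingNorm v ≤ 3 ∧ w - v ∈ Cfsg.golayCode) ∨ ({v : Cfsg.GolayPt → ZMod 2 | hammingNorm v ≤ 4 ∧ w - v ∈ Cfsg.golayCode}.ncard = 6 ∧ ∀ v : Cfsg.GolayPt → ZMod 2, w - v ∈ Cfsg.golayCode → hammingNorm v ≤ 4 → hammingNorm v = 4) := by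
  classical
  set m := CfsgLib.Golay.toMask (Cfsg.support₂ w) with hm
  rcases CfsgLib.Golay.coset_dichotomy (m := m) (CfsgLib.Golay.toMask_lt _) with ⟨v, hv, hpv, hc, huniq⟩ | ⟨S, hS, hiff⟩
  · left
    refine ⟨?_, CfsgLib.Golay.toWord v, by rw [CfsgLib.Golay.hammingNorm_toWord]; exact hpv, by
      rw [CfsgLib.Golay.sub_mem_iff, CfsgLib.Golay.support₂_toWord, CfsgLib.Golay.toMask_toSet hv]; exact hc⟩
    rw [Set.ncard_eq_one]
    refine ⟨CfsgLib.Golay.toWord v, Set.eq_singleton_iff_unique_mem.2 ⟨⟨by rw [CfsgLib.Golay.hammingNorm_toWord]; omega, by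
      rw [CfsgLib.Golay.sub_mem_iff, CfsgLib.Golay.support₂_toWord, CfsgLib.Golay.toMask_toSet hv]; exact hc⟩, fun u hu => ?_⟩⟩
    obtain ⟨hu4, huc⟩ := hu
    rw [CfsgLib.Golay.sub_mem_iff] at huc
    have := huniq (CfsgLib.Golay.toMask (Cfsg.support₂ u)) (CfsgLib.Golay.toMask_lt _)
      (by rw [← CfsgLib.Golay.card_toSet, CfsgLib.Golay.toSet_toMask]; exact hu4) huc
    rw [← this, CfsgLib.Golay.toWord_toMask_support₂]
  · right
    have key : ∀ v : Cfsg.GolayPt → ZMod 2,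
        (hammingNorm v ≤ 4 ∧ w - v ∈ Cfsg.golayCode) ↔ Cfsg.support₂ v ∈ S := by
      intro v
      have h := hiff (CfsgLib.Golay.toMask (Cfsg.support₂ v)) (CfsgLib.Golay.toMask_lt _)
      rw [CfsgLib.Golay.toSet_toMask, ← CfsgLib.Golay.card_toSet, CfsgLib.Golay.toSet_toMask] at h
      rw [CfsgLib.Golay.sub_mem_iff]
      exact h
    refine ⟨?_, fun v hv hn => ?_⟩
    · rw [show {v : Cfsg.GolayPt → ZMod 2 | hammingNorm v ≤ 4 ∧ w - v ∈ Cfsg.golayCode} =
          Cfsg.support₂ ⁻¹' (S : Set (Finset Cfsg.GolayPt)) from Set.ext key,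
        Set.ncard_preimage_of_injective_subset_range (fun _ _ h => CfsgLib.Golay.support₂_inj h)
          (fun s _ => ⟨CfsgLib.Golay.toWord (CfsgLib.Golay.toMask s), by rw [CfsgLib.Golay.support₂_toWord, CfsgLib.Golay.toSet_toMask]⟩),
        Set.ncard_coe_finset, hS.1]
    · rw [CfsgLib.Golay.hammingNorm_eq_card]
      exact hS.2.1 _ ((key v).1 ⟨hn, hv⟩)

end Cfsg.Agent.S1635
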