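import Cfsg.Statements.S1636
import Cfsg.Agent.Lib.Golay.Octads

set_option autoImplicit false
set_option linter.all false
open Cfsg

namespace Cfsg.Agent.S1636

/-- The punctured length-23 code has weight distribution 0^1 7^253 8^506 11^1288 12^1288 15^506 16^253 23^1. -/
theorem result : {u : ZMod 23 → ZMod 2 | ∃ w ∈ Cfsg.golayCode, ∀ x : ZMod 23, u x = w (some x)}.ncard = 4096 ∧ {u : ZMod 23 → ZMod 2 | u ∈ {u : ZMod 23 → ZMod 2 | ∃ w ∈ Cfsg.golayCode, ∀ x : ZMod 23, u x = w (some x)} ∧ hammingNorm u = 7}.ncard = 253 ∧ {u : ZMod 23 → ZMod 2 | u ∈ {u : ZMod 23 → ZMod 2 | ∃ w ∈ Cfsg.golayCode, ∀ x : ZMod 23, u x = w (some x)} ∧ hammingNorm u = 8}.ncard = 506 ∧ {u : ZMod 23 → ZMod 2 | u ∈ {u : ZMod 23 → ZMod 2 | ∃ w ∈ Cfsg.golayCode, ∀ x : ZMod 23, u x = w (some x)} ∧ hammingNorm u = 11}.ncard = 1288 ∧ {u : ZMod 23 → ZMod 2 | u ∈ {u : ZMod 23 → ZMod 2 | ∃ w ∈ Cfsg.golayCode, ∀ x : ZMod 23, u x = w (some x)} ∧ hammingNorm u = 12}.ncard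 = 1288 ∧ {u : ZMod 23 → ZMod 2 | u ∈ {u : ZMod 23 → ZMod 2 | ∃ w ∈ Cfsg.golayCode, ∀ x : ZMod 23, u x = w (some x)} ∧ hammingNorm u = 15}.ncard = 506 ∧ {u : ZMod 23 → ZMod 2 | u ∈ {u : ZMod 23 → ZMod 2 | ∃ w ∈ Cfsg.golayCode, ∀ x : ZMod 23, u x = w (some x)} ∧ hammingNorm u = 16}.ncard = 253 ∧ ∀ u ∈ {u : ZMod 23 → ZMod 2 | ∃ w ∈ Cfsg.golayCode, ∀ x : ZMod 23, u x = w (some x)}, u ≠ 0 → 7 ≤ hammingNorm u := by
  classical
  let r : ℕ → ZMod 23 → ZMod 2 := fun m x => CfsgLib.Golay.toWord m (some x)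
  have hset : {u : ZMod 23 → ZMod 2 | ∃ w ∈ Cfsg.golayCode, ∀ x : ZMod 23, u x = w (some x)} =
      r '' {m | m ∈ CfsgLib.Golay.codeList} := by
    ext u
    simp only [Set.mem_ofPred_eq, Set.mem_image]
    constructor
    · rintro ⟨w, hw, hu⟩
      refine ⟨CfsgLib.Golay.toMask (Cfsg.support₂ w), CfsgLib.Golay.mem_codeList.2 ((CfsgLib.Golay.mem_golayCode_iff w).1 hw), ?_⟩
      funext x
      simp only [r, CfsgLib.Golay.toWord_toMask_support₂, hu]
    · rintro ⟨m, hm, rfl⟩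
      exact ⟨CfsgLib.Golay.toWord m, (CfsgLib.Golay.toWord_mem_iff (CfsgLib.Golay.lt_of_inCode (CfsgLib.Golay.mem_codeList.1 hm))).2
        (CfsgLib.Golay.mem_codeList.1 hm), fun x => rfl⟩
  have hnorm : ∀ m, hammingNorm (r m) = CfsgLib.Golay.pc (m &&& 8388607) := by
    intro m
    rw [← CfsgLib.Golay.card_toSet, hammingNorm, ← Finset.card_map ⟨Option.some, Option.some_injective _⟩]
    congr 1
    ext p
    have h := (by decide +kernel : ∀ p : Cfsg.GolayPt, (8388607 : ℕ).testBit (CfsgLib.Golay.idx p) = p.isSome) p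
    rw [CfsgLib.Golay.mem_toSet, Nat.testBit_and, h]
    cases p <;> simp [r, CfsgLib.Golay.toWord]
  have hinj : Set.InjOn r {m | m ∈ CfsgLib.Golay.codeList} := by
    intro a ha b hb e
    have hab := CfsgLib.Golay.inCode_xor (CfsgLib.Golay.mem_codeList.1 ha) (CfsgLib.Golay.mem_codeList.1 hb)
    have hz : CfsgLib.Golay.pc ((a ^^^ b) &&& 8388607) = 0 := by
      rw [← hnorm, hammingNorm_eq_zero]
      funext x
      have := congrFun e x
      simp only [r] at this ⊢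
      rw [CfsgLib.Golay.toWord_xor, Pi.add_apply, this, Pi.zero_apply]
      generalize CfsgLib.Golay.toWord b (some x) = y
      revert y; decide
    have hsplit : (CfsgLib.Golay.codeList.all fun m => !(Nat.beq (CfsgLib.Golay.pc (m &&& 8388607)) 0) || Nat.beq m 0) = true := by
      decide +kernel
    have := List.all_eq_true.1 hsplit _ (CfsgLib.Golay.mem_codeList.2 hab)
    simp [hz] at this
    exact this
  have hcount : ∀ n k : ℕ, (CfsgLib.Golay.codeList.filter fun m => CfsgLib.Golay.pc (m &&& 8388607) == n).length = k →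
      {u : ZMod 23 → ZMod 2 | u ∈ r '' {m | m ∈ CfsgLib.Golay.codeList} ∧ hammingNorm u = n}.ncard = k := by
    intro n k hk
    have e : {u : ZMod 23 → ZMod 2 | u ∈ r '' {m | m ∈ CfsgLib.Golay.codeList} ∧ hammingNorm u = n} =
        r '' ↑((CfsgLib.Golay.codeList.filter fun m => CfsgLib.Golay.pc (m &&& 8388607) == n).toFinset) := by
      ext u
      simp only [Set.mem_ofPred_eq, Set.mem_image, List.coe_toFinset, List.mem_filter, beq_iff_eq]
      constructor
      · rintro ⟨⟨m, hm, rfl⟩, hn⟩; exact ⟨m, ⟨hm, by rw [← hnorm]; exact hn⟩, rfl⟩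
      · rintro ⟨m, ⟨hm, hn⟩, rfl⟩; exact ⟨⟨m, hm, rfl⟩, by rw [hnorm]; exact hn⟩
    rw [e, (hinj.mono (fun m hm => by
        simp only [List.coe_toFinset, List.mem_filter] at hm; exact hm.1)).ncard_image,
      Set.ncard_coe_finset, List.toFinset_card_of_nodup (CfsgLib.Golay.codeList_nodup.filter _), hk]
  rw [hset]
  refine ⟨?_, hcount 7 253 (by decide +kernel), hcount 8 506 (by decide +kernel),
    hcount 11 1288 (by decide +kernel), hcount 12 1288 (by decide +kernel),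
    hcount 15 506 (by decide +kernel), hcount 16 253 (by decide +kernel), ?_⟩
  · rw [hinj.ncard_image, show {m | m ∈ CfsgLib.Golay.codeList} = (↑(CfsgLib.Golay.codeList.toFinset) : Set ℕ) by simp,
      Set.ncard_coe_finset, List.toFinset_card_of_nodup CfsgLib.Golay.codeList_nodup]
    decide +kernel
  · rintro _ ⟨m, hm, rfl⟩ hne
    have h7 : (CfsgLib.Golay.codeList.all fun m => Nat.beq (CfsgLib.Golay.pc (m &&& 8388607)) 0 || Nat.ble 7 (CfsgLib.Golay.pc (m &&& 8388607))) = true := by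
      decide +kernel
    have := List.all_eq_true.1 h7 m hm
    simp only [Bool.or_eq_true, Nat.beq_eq, Nat.ble_eq] at this
    rw [hnorm]
    rcases this with h | h
    · exact absurd (hammingNorm_eq_zero.1 ((hnorm m).trans h)) hne
    · exact h

end Cfsg.Agent.S1636
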