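import Cfsg.Statements.S1637
import Cfsg.Agent.Lib.Golay.Cosets

set_option autoImplicit false
set_option linter.all false
open Cfsg

namespace Cfsg.Agent.S1637

/-- The punctured length-23 code is a perfect 3-error-correcting code: each word of length 23 is within distance 3 of exactly one codeword. -/
theorem result (u : ZMod 23 → ZMod 2) : ∃! c : ZMod 23 → ZMod 2, c ∈ {u : ZMod 23 → ZMod 2 | ∃ w ∈ Cfsg.golayCode, ∀ x : ZMod 23, u x = w (some x)} ∧ hammingDist u c ≤ 3 := by
  classical
  -- extend by zero at the extra point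
  let e : Cfsg.GolayPt → ZMod 2 := fun p => p.elim 0 u
  set m := CfsgLib.Golay.toMask (Cfsg.support₂ e) with hm
  have res : ∀ v : Cfsg.GolayPt → ZMod 2, (hammingNorm fun x : ZMod 23 => v (some x)) =
      ((Cfsg.support₂ v).erase none).card := by
    intro v
    rw [hammingNorm, ← Finset.card_map ⟨Option.some, Option.some_injective _⟩]
    congr 1
    ext p
    cases p <;> simp [Cfsg.support₂]
  have make : ∀ v : Cfsg.GolayPt → ZMod 2, e - v ∈ Cfsg.golayCode →
      ((Cfsg.support₂ v).erase none).card ≤ 3 →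
      ∃ c : ZMod 23 → ZMod 2, c ∈ {u : ZMod 23 → ZMod 2 | ∃ w ∈ Cfsg.golayCode, ∀ x : ZMod 23, u x = w (some x)} ∧
        hammingDist u c ≤ 3 := by
    intro v hv h3
    refine ⟨fun x => (e - v) (some x), ⟨e - v, hv, fun x => rfl⟩, ?_⟩
    rw [hammingDist_eq_hammingNorm]
    refine le_trans (le_of_eq ?_) h3
    rw [← res]
    congr 1
    funext x
    simp [e]
    generalize u x = a
    generalize v (some x) = b
    revert a b; decide
  obtain ⟨c, hc, hd⟩ : ∃ c : ZMod 23 → ZMod 2,
      c ∈ {u : ZMod 23 → ZMod 2 | ∃ w ∈ Cfsg.golayCode, ∀ x : ZMod 23, u x = w (some x)} ∧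
        hammingDist u c ≤ 3 := by
    rcases CfsgLib.Golay.coset_dichotomy (m := m) (CfsgLib.Golay.toMask_lt _) with ⟨v, hv, hpv, hc, -⟩ | ⟨S, hS, hiff⟩
    · refine make (CfsgLib.Golay.toWord v) (by rw [CfsgLib.Golay.sub_mem_iff, CfsgLib.Golay.support₂_toWord, CfsgLib.Golay.toMask_toSet hv]; exact hc) ?_
      rw [CfsgLib.Golay.support₂_toWord]
      exact (Finset.card_le_card (Finset.erase_subset _ _)).trans (by rw [CfsgLib.Golay.card_toSet]; exact hpv)
    · obtain ⟨t, ht, hnt⟩ := CfsgLib.Golay.sextet_cover hS none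
      have h := (hiff (CfsgLib.Golay.toMask t) (CfsgLib.Golay.toMask_lt _)).2 (by rw [CfsgLib.Golay.toSet_toMask]; exact ht)
      refine make (CfsgLib.Golay.toWord (CfsgLib.Golay.toMask t)) ?_ ?_
      · rw [CfsgLib.Golay.sub_mem_iff, CfsgLib.Golay.support₂_toWord, CfsgLib.Golay.toMask_toSet (CfsgLib.Golay.toMask_lt _), ← hm]
        exact h.2
      rw [CfsgLib.Golay.support₂_toWord, CfsgLib.Golay.toSet_toMask, Finset.card_erase_of_mem hnt, hS.2.1 t ht]
  refine ⟨c, ⟨hc, hd⟩, fun c' hc' => ?_⟩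
  obtain ⟨⟨w', hw', hw'e⟩, hd'⟩ := hc'
  obtain ⟨w, hw, hwe⟩ := hc
  have hdd : hammingDist c' c ≤ 6 := by
    have h := hammingDist_triangle c' u c
    have h' : hammingDist c' u ≤ 3 := by rw [hammingDist_comm]; exact hd'
    omega
  have hsm : hammingNorm (w' - w) ≤ 7 := by
    rw [hammingDist_eq_hammingNorm] at hdd
    have e2 : (fun x => (w' - w) (some x)) = -c' + c := by
      funext x; simp [hw'e, hwe]
      generalize w' (some x) = a
      generalize w (some x) = b
      revert a b; decide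
    have h6 : ((Cfsg.support₂ (w' - w)).erase none).card ≤ 6 := by rw [← res, e2]; exact hdd
    rw [CfsgLib.Golay.hammingNorm_eq_card]
    have := Finset.card_le_card_sdiff_add_card (s := Cfsg.support₂ (w' - w)) (t := {none})
    rw [Finset.sdiff_singleton_eq_erase, Finset.card_singleton] at this
    omega
  have hz : w' - w = 0 := by
    have hmem := (CfsgLib.Golay.mem_golayCode_iff _).1 (Submodule.sub_mem _ hw' hw)
    rw [CfsgLib.Golay.hammingNorm_eq_card, ← CfsgLib.Golay.toSet_toMask (Cfsg.support₂ (w' - w)), CfsgLib.Golay.card_toSet] at hsm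
    have h0 := CfsgLib.Golay.pc_eq_zero (CfsgLib.Golay.toMask_lt _) (show CfsgLib.Golay.pc (CfsgLib.Golay.toMask (Cfsg.support₂ (w' - w))) = 0 by
      rcases CfsgLib.Golay.pc_cases hmem with h | h | h | h | h <;> omega)
    rw [← CfsgLib.Golay.toWord_toMask_support₂ (w' - w), h0]
    funext p; simp [CfsgLib.Golay.toWord]
  funext x
  rw [hw'e, hwe, sub_eq_zero.1 hz]

end Cfsg.Agent.S1637
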