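import Cfsg.Statements.S1638
import Cfsg.Agent.Lib.Golay.PairOrb

set_option autoImplicit false
set_option linter.all false
open scoped Pointwise
open Cfsg

namespace Cfsg.Agent.S1638
open Cfsg CfsgLib.Golay CfsgLib.Golay.Stabs CfsgLib.Golay.Search CfsgLib.Golay.Classes
open scoped Pointwise

/-- Fix two points p ≠ q and a pair s of two further points. Among the pairs avoiding p, q and disjoint from s, exactly 30 lie in an octad together with p, q and s and exactly 160 do not; and any two pairs other than s that meet s in equally many points and agree on that octad property are carried to one another by an element of the group of the length-24 code fixing p, q and s. -/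
theorem result (p q : Cfsg.GolayPt) (hpq : p ≠ q) (s : Finset Cfsg.GolayPt) (hs : (s.card = 2 ∧ p ∉ s ∧ q ∉ s)) : {t : Finset Cfsg.GolayPt | (t.card = 2 ∧ p ∉ t ∧ q ∉ t) ∧ Disjoint s t ∧ (∃ o ∈ Cfsg.octads, p ∈ o ∧ q ∈ o ∧ s ∪ t ⊆ o)}.ncard = 30 ∧ {t : Finset Cfsg.GolayPt | (t.card = 2 ∧ p ∉ t ∧ q ∉ t) ∧ Disjoint s t ∧ ¬ (∃ o ∈ Cfsg.octads, p ∈ o ∧ q ∈ o ∧ s ∪ t ⊆ o)}.ncard = 160 ∧ ∀ t t' : Finset Cfsg.GolayPt, (t.card = 2 ∧ p ∉ t ∧ q ∉ t) → (t'.card = 2 ∧ p ∉ t' ∧ q ∉ t') → t ≠ s → t' ≠ s → (s ∩ t).card = (s ∩ t').card → ((∃ o ∈ Cfsg.octads, p ∈ o ∧ q ∈ o ∧ s ∪ t ⊆ o) ↔ (∃ o ∈ Cfsg.octads, p ∈ o ∧ q ∈ o ∧ s ∪ t' ⊆ o)) → ∃ g : Equiv.Perm Cfsg.GolayPt, g ∈ Cfsg.M24 ∧ g p = p ∧ g q = q ∧ g • s = s ∧ g • t = t' := by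
  classical
  obtain ⟨hs2, hps, hqs⟩ := hs
  obtain ⟨x, y, hxy, rfl⟩ := Finset.card_eq_two.1 hs2
  simp only [Finset.mem_insert, Finset.mem_singleton, not_or] at hps hqs
  obtain ⟨a, ha, hax⟩ := exists_map_tuple (k := 4) (by norm_num)
    ⟨![none, some 0, pt 1, pt 2], by intro i j; revert i j; decide +kernel⟩
    ⟨![p, q, x, y], by
      intro i j hij
      fin_cases i <;> fin_cases j <;>
        first
        | rfl
        | (exfalso; simp [hpq, hpq.symm, hxy, hxy.symm, hps.1, hps.2, hqs.1, hqs.2, Ne.symm hps.1,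
            Ne.symm hps.2, Ne.symm hqs.1, Ne.symm hqs.2] at hij)⟩
  have e0 : a none = p := hax 0
  have e1 : a (some 0) = q := hax 1
  have e2 : a (pt 1) = x := hax 2
  have e3 : a (pt 2) = y := hax 3
  have es : a • toSet PairOrb.s0 = {x, y} := by
    rw [show toSet PairOrb.s0 = {pt 1, pt 2} by decide +kernel, Finset.smul_finset_insert,
      Finset.smul_finset_singleton, Equiv.Perm.smul_def, Equiv.Perm.smul_def, e2, e3]
  have hav : ∀ t : Finset GolayPt, (t.card = 2 ∧ p ∉ t ∧ q ∉ t) ↔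
      ((a⁻¹ • t).card = 2 ∧ none ∉ a⁻¹ • t ∧ (some 0 : GolayPt) ∉ a⁻¹ • t) := fun t => by
    rw [Finset.card_smul_finset, Finset.mem_inv_smul_finset_iff, Finset.mem_inv_smul_finset_iff,
      Equiv.Perm.smul_def, Equiv.Perm.smul_def, e0, e1]
  have hcop : ∀ t : Finset GolayPt, (∃ o ∈ octads, p ∈ o ∧ q ∈ o ∧ {x, y} ∪ t ⊆ o) ↔
      PairOrb.Copl none (some 0) (toSet PairOrb.s0) (a⁻¹ • t) := fun t => by
    constructor
    · rintro ⟨o, ho, h1, h2, h3⟩
      refine ⟨a⁻¹ • o, smul_octad (inv_mem ha) ho, ?_, ?_, ?_⟩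
      · rw [Finset.mem_inv_smul_finset_iff, Equiv.Perm.smul_def, e0]; exact h1
      · rw [Finset.mem_inv_smul_finset_iff, Equiv.Perm.smul_def, e1]; exact h2
      · rw [show toSet PairOrb.s0 = a⁻¹ • ({x, y} : Finset GolayPt) by rw [← es, inv_smul_smul],
          ← Finset.smul_finset_union]
        exact Finset.smul_finset_subset_smul_finset h3
    · rintro ⟨o, ho, h1, h2, h3⟩
      refine ⟨a • o, smul_octad ha ho, ?_, ?_, ?_⟩
      · rw [← e0]; exact Finset.smul_mem_smul_finset h1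
      · rw [← e1]; exact Finset.smul_mem_smul_finset h2
      · have := Finset.smul_finset_subset_smul_finset (a := a) h3
        rwa [Finset.smul_finset_union, es, smul_inv_smul] at this
  have hdisj : ∀ t : Finset GolayPt, Disjoint ({x, y} : Finset GolayPt) t ↔
      Disjoint (toSet PairOrb.s0) (a⁻¹ • t) := fun t => by
    rw [Finset.disjoint_iff_inter_eq_empty, Finset.disjoint_iff_inter_eq_empty, ← es]
    constructor
    · intro h
      rw [← inv_smul_smul a (toSet PairOrb.s0), ← smul_inter', h, Finset.smul_finset_empty]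
    · intro h
      rw [← smul_inv_smul a t, ← smul_inter', h, Finset.smul_finset_empty]
  refine ⟨?_, ?_, fun t t' ht ht' _ _ hi hc => ?_⟩
  · rw [← PairOrb.count_std (fun u => Disjoint (toSet PairOrb.s0) u ∧
        PairOrb.Copl none (some 0) (toSet PairOrb.s0) u)
      (fun m => (m &&& PairOrb.s0 == 0) && PairOrb.coplB m) (fun m hm => by
        rw [Bool.and_eq_true, PairOrb.disj_iff hm, PairOrb.copl_std hm]) PairOrb.cert_check.2.2.2.1,
      ← Set.ncard_image_of_injective _ (MulAction.injective a⁻¹)]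
    congr 1
    ext u
    simp only [Set.mem_image, Set.mem_ofPred_eq]
    constructor
    · rintro ⟨t, ⟨h1, h2, h3⟩, rfl⟩
      exact ⟨(hav t).1 h1, (hdisj t).1 h2, (hcop t).1 h3⟩
    · rintro ⟨h1, h2, h3⟩
      exact ⟨a • u, ⟨(hav _).2 (by rwa [inv_smul_smul]), (hdisj _).2 (by rwa [inv_smul_smul]),
        (hcop _).2 (by rwa [inv_smul_smul])⟩, inv_smul_smul a u⟩
  · rw [← PairOrb.count_std (fun u => Disjoint (toSet PairOrb.s0) u ∧
        ¬ PairOrb.Copl none (some 0) (toSet PairOrb.s0) u)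
      (fun m => (m &&& PairOrb.s0 == 0) && !PairOrb.coplB m) (fun m hm => by
        rw [Bool.and_eq_true, PairOrb.disj_iff hm, PairOrb.copl_std hm, Bool.not_eq_true',
          Bool.not_eq_true]) PairOrb.cert_check.2.2.2.2,
      ← Set.ncard_image_of_injective _ (MulAction.injective a⁻¹)]
    congr 1
    ext u
    simp only [Set.mem_image, Set.mem_ofPred_eq]
    constructor
    · rintro ⟨t, ⟨h1, h2, h3⟩, rfl⟩
      exact ⟨(hav t).1 h1, (hdisj t).1 h2, fun h => h3 ((hcop t).2 h)⟩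
    · rintro ⟨h1, h2, h3⟩
      exact ⟨a • u, ⟨(hav _).2 (by rwa [inv_smul_smul]), (hdisj _).2 (by rwa [inv_smul_smul]),
        fun h => h3 (by have := (hcop _).1 h; rwa [inv_smul_smul] at this)⟩, inv_smul_smul a u⟩
  · obtain ⟨m, hm, em⟩ := (PairOrb.pairs_list _).1 ((hav t).1 ht)
    obtain ⟨m', hm', em'⟩ := (PairOrb.pairs_list _).1 ((hav t').1 ht')
    obtain ⟨g, hg, gn, g0, gs, gm⟩ := PairOrb.trans_std hm hm' (by
        rw [em, em', show toSet PairOrb.s0 = a⁻¹ • ({x, y} : Finset GolayPt) by rw [← es, inv_smul_smul],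
          ← smul_inter', ← smul_inter', Finset.card_smul_finset, Finset.card_smul_finset, hi])
      (by rw [em, em', ← hcop, ← hcop, hc])
    refine ⟨a * g * a⁻¹, mul_mem (mul_mem ha hg) (inv_mem ha), ?_, ?_, ?_, ?_⟩
    · rw [Equiv.Perm.mul_apply, Equiv.Perm.mul_apply, Equiv.Perm.inv_eq_iff_eq.2 e0.symm, gn, e0]
    · rw [Equiv.Perm.mul_apply, Equiv.Perm.mul_apply, Equiv.Perm.inv_eq_iff_eq.2 e1.symm, g0, e1]
    · rw [← es, mul_smul, mul_smul, inv_smul_smul, gs]
    · rw [mul_smul, mul_smul, ← em, gm, em', smul_inv_smul]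

end Cfsg.Agent.S1638
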