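import Cfsg.Statements.S1639
import Cfsg.Agent.Lib.Golay.CertPdDodOk
import Cfsg.Agent.Lib.Golay.SmallGroups

set_option autoImplicit false
set_option linter.all false
open scoped Pointwise
open Cfsg

namespace Cfsg.Agent.S1639

/-- The point stabiliser acts on the 1288 dodecads through the point with rank 4 and subdegrees 1, 165, 330, 792, distinguished by intersection 4, 8, 6 with the fixed dodecad. -/
theorem result (x : Cfsg.GolayPt) (d : Finset Cfsg.GolayPt) (hd : d ∈ Cfsg.dodecads) (hx : x ∈ d) : {d' : Finset Cfsg.GolayPt | d' ∈ Cfsg.dodecads ∧ x ∈ d' ∧ (d ∩ d').card = 4}.ncard = 165 ∧ {d' : Finset Cfsg.GolayPt | d' ∈ Cfsg.dodecads ∧ x ∈ d' ∧ (d ∩ d').card = 8}.ncard = 330 ∧ {d' : Finset Cfsg.GolayPt | d' ∈ Cfsg.dodecads ∧ x ∈ d' ∧ (d ∩ d').card = 6}.ncard = 792 ∧ ∀ d' d'' : Finset Cfsg.GolayPt, d' ∈ Cfsg.dodecads → d'' ∈ Cfsg.dodecads → x ∈ d' → x ∈ d'' → (d ∩ d').card = (d ∩ d'').card → ∃ g : Equiv.Perm Cfsg.GolayPt,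 g ∈ Cfsg.M24 ∧ g x = x ∧ g • d = d ∧ g • d' = d'' := by
  obtain ⟨a, ha, e, h1⟩ := CfsgLib.Golay.exists_dod_pt hd hx
  have hXs : ([[1], [CfsgLib.Golay.dodD]].map CfsgLib.Golay.Sys).map (a • ·) =
      [({{x}} : Finset (Finset Cfsg.GolayPt)), {d}] := by
    simp only [List.map_cons, List.map_nil, List.cons.injEq, and_true]
    refine ⟨CfsgLib.Golay.smul_Sys_pt (i := 0) (by norm_num) h1, ?_⟩
    rw [CfsgLib.Golay.Sys_single, Finset.smul_finset_singleton, e]
  have key : ∀ k : ℕ, {y : Finset Cfsg.GolayPt | y ∈ Cfsg.dodecads ∧ x ∈ y ∧ (d ∩ y).card = k} =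
      {y | y ∈ Cfsg.dodecads ∧ CfsgLib.Golay.Pats [({{x}} : Finset (Finset Cfsg.GolayPt)), {d}] {y} = [256, 256 ^ k]} := by
    intro k
    ext y
    simp only [Set.mem_ofPred_eq, CfsgLib.Golay.Pats, List.map_cons, List.map_nil, CfsgLib.Golay.Pat_singles,
      CfsgLib.Golay.card_singleton_inter, List.cons.injEq, and_true,
      (Nat.pow_right_injective (by norm_num : 2 ≤ 256)).eq_iff]
    refine and_congr_right fun _ => ?_
    by_cases hy : x ∈ y <;> simp [hy]
  refine ⟨?_, ?_, ?_, fun u w hu hw hxu hxw h => ?_⟩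
  · rw [key]; exact CfsgLib.Golay.dodKind.count_singles rfl (by decide +kernel) ha hXs (by decide +kernel)
  · rw [key]; exact CfsgLib.Golay.dodKind.count_singles rfl (by decide +kernel) ha hXs (by decide +kernel)
  · rw [key]; exact CfsgLib.Golay.dodKind.count_singles rfl (by decide +kernel) ha hXs (by decide +kernel)
  · obtain ⟨g, hg, hfix, hgt⟩ := CfsgLib.Golay.dodKind.trans CfsgLib.Golay.certPdDod_ok ha hXs
      (Y := {u}) (Y' := {w}) ⟨u, hu, rfl⟩ ⟨w, hw, rfl⟩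
      (by simp [CfsgLib.Golay.Pats, CfsgLib.Golay.Pat_singles, CfsgLib.Golay.card_singleton_inter, hxu, hxw, h])
    simp only [List.mem_cons, List.not_mem_nil, or_false, forall_eq_or_imp, forall_eq,
      Finset.smul_finset_singleton, Finset.singleton_inj, Equiv.Perm.smul_def] at hfix hgt
    exact ⟨g, hg, hfix.1, hfix.2, hgt⟩

end Cfsg.Agent.S1639
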