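import Cfsg.Statements.S1640
import Cfsg.Agent.Lib.Leech.CensusDot

set_option autoImplicit false
set_option linter.all false
open Cfsg

namespace Cfsg.Agent.S1640

/-- The stabiliser of a vector of customary norm 6 is transitive on the 11178 minimal vectors of customary inner product −2 with it. -/
theorem result (u : ↥Cfsg.leechLattice) (hu : Cfsg.sqNorm (u : Cfsg.GolayPt → ℤ) = 48) : {x : ↥Cfsg.leechLattice | Cfsg.sqNorm (x : Cfsg.GolayPt → ℤ) = 32 ∧ Cfsg.dotInt (u : Cfsg.GolayPt → ℤ) (x : Cfsg.GolayPt → ℤ) = -16}.ncard = 11178 ∧ ∀ x ∈ {x : ↥Cfsg.leechLattice | Cfsg.sqNorm (x : Cfsg.GolayPt → ℤ) = 32 ∧ Cfsg.dotInt (u : Cfsg.GolayPt → ℤ) (x : Cfsg.GolayPt → ℤ) = -16}, ∀ x' ∈ {x : ↥Cfsg.leechLattice | Cfsg.sqNorm (x : Cfsg.GolayPt → ℤ) = 32 ∧ Cfsg.dotInt (u : Cfsg.GolayPt → ℤ) (x : Cfsg.GolayPt → ℤ) = -16}, ∃ g : ↥Cfsg.Co0, g • u = u ∧ g • x = x' := by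
  refine ⟨?_, fun x hx x' hx' => ?_⟩
  · have key := CfsgLib.Leech.dot_census_48 hu (d := -16) (c := 953856)
      fun v hv => (CfsgLib.Leech.census_32 hv.1 hv.2).2.2.2
    rw [CfsgLib.Leech.ncard_subtype]
    omega
  · obtain ⟨g, h1, h2⟩ := CfsgLib.Leech.pairs_three hx.1 hu (by rw [CfsgLib.Leech.dot_comm]; exact hx.2)
      hx'.1 hu (by rw [CfsgLib.Leech.dot_comm]; exact hx'.2)
    exact ⟨g, h2, h1⟩

end Cfsg.Agent.S1640
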