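import Cfsg.Statements.S1691


set_option autoImplicit false
set_option linter.all false
open Cfsg

namespace Cfsg.Agent.S1691
open Cfsg Cfsg.Spor in
theorem node_all : ∀ x : Fi24.Gen, x ∈ coxNodes Fi24.edges := by
  intro x; cases x <;> decide

open Cfsg Cfsg.Spor in
/-- the image of a generator in the abelianisation -/
noncomputable def im (x : Fi24.Gen) : Abelianization Fi24 := Abelianization.of (PresentedGroup.of x)

open Cfsg Cfsg.Spor in
theorem rel (x y : Fi24.Gen) : (im x * im y) ^ coxLabel Fi24.edges x y = 1 := by
  have h : PresentedGroup.mk (coxRelators Fi24.edges ∪ {r | r ∈ Fi24.extra})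
      ((FreeGroup.of x * FreeGroup.of y) ^ coxLabel Fi24.edges x y) = 1 :=
    PresentedGroup.one_of_mem (Or.inl ⟨x, node_all x, y, node_all y, rfl⟩)
  have := congrArg Abelianization.of h
  rw [map_one, map_pow, map_mul, map_pow, map_mul] at this
  exact this

open Cfsg Cfsg.Spor in
theorem sq (x : Fi24.Gen) : im x * im x = 1 := by
  have := rel x x
  rwa [show coxLabel Fi24.edges x x = 1 by simp [coxLabel], pow_one] at this

open Cfsg Cfsg.Spor in
theorem edge {x y : Fi24.Gen} (h : coxLabel Fi24.edges x y = 3) : im x = im y := by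
  have h3 := rel x y
  rw [h, mul_pow, pow_succ (im x) 2, pow_succ (im y) 2, pow_two, pow_two, sq, sq, one_mul,
    one_mul] at h3
  rw [← one_mul (im x), ← sq y, mul_assoc, mul_comm (im y) (im x), h3, mul_one]

open Cfsg Cfsg.Spor in
theorem all_eq (x : Fi24.Gen) : im x = im .d := by
  have c : im .c = im .d := edge (by decide)
  have b : im .b = im .d := (edge (by decide)).trans c
  have a : im .a = im .d := (edge (by decide)).trans b
  have k : im .k = im .d := (edge (by decide)).trans a
  have l : im .l = im .d := (edge (by decide)).trans k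
  have e : im .e = im .d := edge (by decide)
  have f : im .f = im .d := (edge (by decide)).trans e
  have g : im .g = im .d := (edge (by decide)).trans f
  have j : im .j = im .d := (edge (by decide)).trans g
  have hh : im .h = im .d := edge (by decide)
  have i : im .i = im .d := (edge (by decide)).trans hh
  cases x <;> first | rfl | assumption

open Cfsg Cfsg.Spor in
theorem lift_one : ∀ r ∈ coxRelators Fi24.edges ∪ {r | r ∈ Fi24.extra},
    FreeGroup.lift (fun _ : Fi24.Gen => (-1 : ℤˣ)) r = 1 := by
  rintro r (⟨x, -, y, -, rfl⟩ | hr)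
  · simp
  · simp only [Fi24.extra, Set.mem_setOf_eq, List.mem_cons, List.not_mem_nil, or_false] at hr
    rcases hr with rfl | rfl <;> simp <;> decide


/-- The commutator subgroup of the presented group Fi₂₄ has index 2 (the presented group is Fi₂₄′:2 with Fi₂₄′ its derived subgroup). -/
theorem result : (commutator Cfsg.Spor.Fi24).index = 2 := by
  classical
  obtain ⟨s, hs⟩ : ∃ s : Cfsg.Spor.Fi24 →* ℤˣ, ∀ x, s (PresentedGroup.of x) = -1 :=
    ⟨PresentedGroup.toGroup lift_one, fun x => by rw [PresentedGroup.toGroup.of]⟩
  obtain ⟨ε, hε⟩ : ∃ ε, ε = im Cfsg.Spor.Fi24.Gen.d := ⟨_, rfl⟩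
  have hgen : ∀ w : Abelianization Cfsg.Spor.Fi24, w = 1 ∨ w = ε := by
    intro w
    obtain ⟨g, rfl⟩ : ∃ g, Abelianization.of g = w := QuotientGroup.mk_surjective w
    have hg : g ∈ Subgroup.closure (Set.range PresentedGroup.of) := by
      rw [PresentedGroup.closure_range_of]; exact Subgroup.mem_top g
    induction hg using Subgroup.closure_induction with
    | mem x hx => obtain ⟨y, rfl⟩ := hx; exact Or.inr ((all_eq y).trans hε.symm)
    | one => exact Or.inl (map_one _)
    | mul x y _ _ hx hy =>
      rw [map_mul]
      rcases hx with h | h <;> rcases hy with h' | h' <;> simp [h, h', hε, sq]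
    | inv x _ hx =>
      rw [map_inv]
      rcases hx with h | h
      · simp [h]
      · right; rw [h, inv_eq_iff_mul_eq_one, hε, sq]
  have hne : ε ≠ 1 := by
    intro h
    have := congrArg (Abelianization.lift s) (hε.symm.trans h)
    rw [im, Abelianization.lift_apply_of, hs, map_one] at this
    exact absurd this (by decide)
  change Nat.card (Abelianization Cfsg.Spor.Fi24) = 2
  rw [Nat.card_eq_two_iff]
  exact ⟨1, ε, hne.symm, Set.eq_univ_of_forall fun w => hgen w⟩

end Cfsg.Agent.S1691
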