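import Cfsg.Statements.S1717


set_option autoImplicit false
set_option linter.all false
open Cfsg

namespace Cfsg.Agent.S1717
/-- position of an index in the ordering `0, 2, 3, 4, 1` -/
def pos : Fin 5 → ℕ := ![0, 4, 1, 2, 3]

theorem pos_inj : Function.Injective pos := by decide

/-- triangularity for the ordering `pos` with offset `k` -/
def Low (k : ℕ) (M : Matrix (Fin 5) (Fin 5) (ZMod 2)) : Prop :=
  ∀ i j, pos j < pos i + k → M i j = 0

theorem low_mul {a b : ℕ} {M N : Matrix (Fin 5) (Fin 5) (ZMod 2)} (hM : Low a M) (hN : Low b N) :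
    Low (a + b) (M * N) := by
  intro i j h
  rw [Matrix.mul_apply]
  refine Finset.sum_eq_zero fun l _ => ?_
  by_cases hl : pos l < pos i + a
  · rw [hM i l hl, zero_mul]
  · rw [hN l j (by omega), mul_zero]

theorem low_five {M : Matrix (Fin 5) (Fin 5) (ZMod 2)} (h : Low 5 M) : M = 0 := by
  ext i j
  refine h i j ?_
  have : ∀ j, pos j < 5 := by decide
  have := this j
  omega

theorem low_pow {N : Matrix (Fin 5) (Fin 5) (ZMod 2)} (h : Low 1 N) : N ^ 5 = 0 :=
  low_five (by
    have h2 : Low 2 (N * N) := low_mul h h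
    have h5 : Low 5 (N * N * (N * N) * N) := low_mul (low_mul h2 h2) h
    rwa [show N ^ 5 = N * N * (N * N) * N by rw [pow_succ, pow_succ, pow_succ, pow_two]; simp only [mul_assoc]])

/-- unitriangular matrices for the ordering -/
def W : Submonoid (Matrix.SpecialLinearGroup (Fin 5) (ZMod 2)) where
  carrier := {M | Low 1 ((M : Matrix (Fin 5) (Fin 5) (ZMod 2)) - 1)}
  one_mem' := by intro i j _; simp
  mul_mem' := by
    intro A B hA hB i j hij
    obtain ⟨a, ha⟩ : ∃ a, a = (A : Matrix (Fin 5) (Fin 5) (ZMod 2)) - 1 := ⟨_, rfl⟩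
    obtain ⟨b, hb⟩ : ∃ b, b = (B : Matrix (Fin 5) (Fin 5) (ZMod 2)) - 1 := ⟨_, rfl⟩
    have e : ((A * B : Matrix.SpecialLinearGroup (Fin 5) (ZMod 2)) : Matrix (Fin 5) (Fin 5) (ZMod 2))
        - 1 = a * b + a + b := by
      rw [ha, hb, Matrix.SpecialLinearGroup.coe_mul]
      noncomm_ring
    have hA' : Low 1 a := by rw [ha]; exact hA
    have hB' : Low 1 b := by rw [hb]; exact hB
    rw [e, Matrix.add_apply, Matrix.add_apply, low_mul hA' hB' i j (by omega),
      hA' i j hij, hB' i j hij, add_zero, add_zero]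

theorem W_pow {A : Matrix.SpecialLinearGroup (Fin 5) (ZMod 2)} (hA : A ∈ W) : A ^ 8 = 1 := by
  apply Subtype.ext
  obtain ⟨a, ha⟩ : ∃ a, a = (A : Matrix (Fin 5) (Fin 5) (ZMod 2)) - 1 := ⟨_, rfl⟩
  have hA' : (A : Matrix (Fin 5) (Fin 5) (ZMod 2)) = 1 + a := by rw [ha]; abel
  have h := add_pow_char_pow_of_commute (R := Matrix (Fin 5) (Fin 5) (ZMod 2)) (p := 2) (n := 3)
    (Commute.one_left a)
  have hA'' : Low 1 a := by rw [ha]; exact hA
  rw [Matrix.SpecialLinearGroup.coe_pow, hA', show (8 : ℕ) = 2 ^ 3 from rfl, h, one_pow,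
    show (2 : ℕ) ^ 3 = 5 + 3 from rfl, pow_add a, low_pow hA'', zero_mul, add_zero,
    Matrix.SpecialLinearGroup.coe_one]

theorem W_inv {A : Matrix.SpecialLinearGroup (Fin 5) (ZMod 2)} (hA : A ∈ W) : A⁻¹ ∈ W := by
  have h7 : A⁻¹ = A ^ 7 := by
    rw [inv_eq_iff_mul_eq_one, ← pow_succ']
    exact W_pow hA
  exact h7 ▸ W.pow_mem hA 7

/-- the subgroup of unitriangular matrices -/
def WG : Subgroup (Matrix.SpecialLinearGroup (Fin 5) (ZMod 2)) :=
  { W with inv_mem' := W_inv }

theorem WG_two : IsPGroup 2 WG := fun A =>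
  ⟨3, Subtype.ext (by simpa using W_pow (A := A.1) A.2)⟩

/-- a transvection -/
def tv (a b : Fin 5) (h : a ≠ b) : Matrix.SpecialLinearGroup (Fin 5) (ZMod 2) :=
  ⟨Matrix.transvection a b 1, Matrix.det_transvection_of_ne a b h 1⟩

theorem tv_mem {a b : Fin 5} (h : pos a < pos b) : tv a b (fun e => by simp [e] at h) ∈ WG := by
  intro i j hij
  show (Matrix.transvection a b (1 : ZMod 2) - 1) i j = 0
  rw [Matrix.transvection, add_sub_cancel_left, Matrix.single_apply, if_neg]
  rintro ⟨rfl, rfl⟩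
  omega

theorem commute_W {s : Matrix.SpecialLinearGroup (Fin 5) (ZMod 2)}
    (hs : (s : Matrix (Fin 5) (Fin 5) (ZMod 2)) = Matrix.transvection 0 1 1)
    {A : Matrix.SpecialLinearGroup (Fin 5) (ZMod 2)} (hA : A ∈ WG) : s * A = A * s := by
  apply Subtype.ext
  rw [Matrix.SpecialLinearGroup.coe_mul, Matrix.SpecialLinearGroup.coe_mul, hs]
  obtain ⟨a, ha⟩ : ∃ a, a = (A : Matrix (Fin 5) (Fin 5) (ZMod 2)) - 1 := ⟨_, rfl⟩
  have hA' : (A : Matrix (Fin 5) (Fin 5) (ZMod 2)) = 1 + a := by rw [ha]; abel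
  have hl : Low 1 a := by rw [ha]; exact hA
  have hp : ∀ j : Fin 5, pos j ≤ 4 := by decide
  have e1 : Matrix.single (0 : Fin 5) (1 : Fin 5) (1 : ZMod 2) * a = 0 := by
    ext i j
    by_cases hi : i = 0
    · subst hi
      rw [Matrix.single_mul_apply_same, hl 1 j (by have := hp j; show pos j < 4 + 1; omega), mul_zero,
        Matrix.zero_apply]
    · rw [Matrix.single_mul_apply_of_ne _ _ _ _ _ hi, Matrix.zero_apply]
  have e2 : a * Matrix.single (0 : Fin 5) (1 : Fin 5) (1 : ZMod 2) = 0 := by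
    ext i j
    by_cases hj : j = 1
    · subst hj
      rw [Matrix.mul_single_apply_same, hl i 0 (by show (0 : ℕ) < pos i + 1; omega), zero_mul,
        Matrix.zero_apply]
    · rw [Matrix.mul_single_apply_of_ne _ _ _ _ _ hj, Matrix.zero_apply]
  rw [Matrix.transvection, hA', add_mul, mul_add, add_mul, mul_add, mul_add, mul_add, e1, e2]
  simp only [one_mul, mul_one, add_zero]
  abel

theorem centralizer_W {s M : Matrix.SpecialLinearGroup (Fin 5) (ZMod 2)}
    (hs : (s : Matrix (Fin 5) (Fin 5) (ZMod 2)) = Matrix.transvection 0 1 1)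
    (h : ∀ A ∈ WG, A * M = M * A) : M = 1 ∨ M = s := by
  obtain ⟨m, hm⟩ : ∃ m, m = (M : Matrix (Fin 5) (Fin 5) (ZMod 2)) := ⟨_, rfl⟩
  have hc : ∀ a b : Fin 5, pos a < pos b →
      Matrix.single a b (1 : ZMod 2) * m = m * Matrix.single a b 1 := by
    intro a b hab
    have := congrArg Subtype.val (h _ (tv_mem hab))
    change Matrix.transvection a b 1 * (M : Matrix (Fin 5) (Fin 5) (ZMod 2)) =
      (M : Matrix (Fin 5) (Fin 5) (ZMod 2)) * Matrix.transvection a b 1 at this
    simp only [Matrix.transvection, add_mul, mul_add, one_mul, mul_one, ← hm] at this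
    exact add_left_cancel this
  have hcol : ∀ a b i : Fin 5, pos a < pos b → i ≠ a → m i a = 0 := fun a b i hab hi => by
    have := congrFun₂ (hc a b hab) i b
    rwa [Matrix.single_mul_apply_of_ne _ _ _ _ _ hi, Matrix.mul_single_apply_same, mul_one,
      eq_comm] at this
  have hrow : ∀ a b j : Fin 5, pos a < pos b → j ≠ b → m b j = 0 := fun a b j hab hj => by
    have := congrFun₂ (hc a b hab) a j
    rwa [Matrix.single_mul_apply_same, Matrix.mul_single_apply_of_ne _ _ _ _ _ hj, one_mul] at this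
  have hdiag : ∀ a b : Fin 5, pos a < pos b → m a a = m b b := fun a b hab => by
    have := congrFun₂ (hc a b hab) a b
    rw [Matrix.single_mul_apply_same, Matrix.mul_single_apply_same, one_mul, mul_one] at this
    exact this.symm
  have hd0 : ∀ i, m i i = m 0 0 := fun i => by
    by_cases hi : i = 0
    · rw [hi]
    · refine (hdiag 0 i ?_).symm
      revert i
      decide
  have hoff : ∀ i j, i ≠ j → ¬ (i = 0 ∧ j = 1) → m i j = 0 := by
    intro i j hij hne
    by_cases hj : j = 1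
    · subst hj
      have hpos : ∀ i : Fin 5, i ≠ 0 → pos 0 < pos i := by decide
      exact hrow 0 i 1 (hpos i fun h => hne ⟨h, rfl⟩) (Ne.symm hij)
    · have hpos : ∀ j : Fin 5, j ≠ 1 → pos j < pos 1 := by decide
      exact hcol j 1 i (hpos j hj) hij
  have hne0 : m 0 0 = 1 := by
    by_contra hne
    have hz : ∀ t : ZMod 2, t ≠ 1 → t = 0 := by decide
    have hdet := M.det_coe
    rw [← hm, Matrix.det_eq_zero_of_row_eq_zero (4 : Fin 5) (fun j => ?_)] at hdet
    · exact zero_ne_one hdet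
    · by_cases hj : j = 4
      · subst hj; rw [hd0]; exact hz _ hne
      · exact hoff 4 j (Ne.symm hj) (fun h => absurd h.1 (by decide))
  have h2 : m 0 1 = 0 ∨ m 0 1 = 1 := by generalize m 0 1 = t; revert t; decide
  rcases h2 with h2 | h2
  · left
    apply Subtype.ext
    rw [← hm, Matrix.SpecialLinearGroup.coe_one]
    ext i j
    rw [Matrix.one_apply]
    split_ifs with hij
    · subst hij; rw [hd0, hne0]
    · by_cases hs' : i = 0 ∧ j = 1
      · rw [hs'.1, hs'.2, h2]
      · exact hoff i j hij hs'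
  · right
    apply Subtype.ext
    rw [← hm, hs]
    ext i j
    rw [Matrix.transvection, Matrix.add_apply, Matrix.one_apply, Matrix.single_apply]
    by_cases hs' : i = 0 ∧ j = 1
    · rw [hs'.1, hs'.2, h2]; decide
    · rw [if_neg (fun h : 0 = i ∧ 1 = j => hs' ⟨h.1.symm, h.2.symm⟩), add_zero]
      split_ifs with hij
      · subst hij; rw [hd0, hne0]
      · exact hoff i j hij hs'


/-- Let G be a finite group with an involution z whose centraliser C is isomorphic to the centraliser of a transvection of SL(5, 2). Then a Sylow 2-subgroup of C, viewed in G, is a Sylow 2-subgroup of G (its index in G is odd). -/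
theorem result {G : Type*} [Group G] [Finite G] (s : Matrix.SpecialLinearGroup (Fin 5) (ZMod 2)) (hs : (s : Matrix (Fin 5) (Fin 5) (ZMod 2)) = Matrix.transvection 0 1 1) (z : G) (hz : orderOf z = 2) (e : (Subgroup.centralizer ({z} : Set G)) ≃* Subgroup.centralizer ({s} : Set (Matrix.SpecialLinearGroup (Fin 5) (ZMod 2)))) (T : Sylow 2 (Subgroup.centralizer ({z} : Set G))) : ¬ 2 ∣ ((T : Subgroup (Subgroup.centralizer ({z} : Set G))).map (Subgroup.subtype (Subgroup.centralizer ({z} : Set G)))).index := by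
  classical
  haveI : Fact (Nat.Prime 2) := ⟨Nat.prime_two⟩
  obtain ⟨C, hC⟩ : ∃ C, C = Subgroup.centralizer ({z} : Set G) := ⟨_, rfl⟩
  have hsne : s ≠ 1 := by
    intro h
    rw [h, Matrix.SpecialLinearGroup.coe_one] at hs
    exact absurd (congrFun₂ hs 0 1) (by decide)
  obtain ⟨W', hW'⟩ : ∃ W', W' = WG.subgroupOf (Subgroup.centralizer
      ({s} : Set (Matrix.SpecialLinearGroup (Fin 5) (ZMod 2)))) := ⟨_, rfl⟩
  obtain ⟨T0, hT0⟩ := (show IsPGroup 2 W' from hW' ▸ WG_two.comap_subtype).exists_le_sylow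
  obtain ⟨T', hT'⟩ : ∃ T' : Sylow 2 (Subgroup.centralizer
      ({s} : Set (Matrix.SpecialLinearGroup (Fin 5) (ZMod 2)))), T' = T.mapSurjective (f := e.toMonoidHom) e.surjective :=
    ⟨_, rfl⟩
  obtain ⟨g, hg⟩ := MulAction.exists_smul_eq (Subgroup.centralizer
    ({s} : Set (Matrix.SpecialLinearGroup (Fin 5) (ZMod 2)))) T0 T'
  have hZ : ∀ x ∈ (T : Subgroup (Subgroup.centralizer ({z} : Set G))),
      (∀ y ∈ (T : Subgroup (Subgroup.centralizer ({z} : Set G))), y * x = x * y) →
      (e x : Matrix.SpecialLinearGroup (Fin 5) (ZMod 2)) = 1 ∨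
        (e x : Matrix.SpecialLinearGroup (Fin 5) (ZMod 2)) = s := by
    intro x hx hcx
    obtain ⟨M, hM⟩ : ∃ M, M = g⁻¹ * e x * g := ⟨_, rfl⟩
    have hMW : ∀ A ∈ WG, A * (M : Matrix.SpecialLinearGroup (Fin 5) (ZMod 2)) = M * A := by
      intro A hA
      have hAc : A ∈ Subgroup.centralizer
          ({s} : Set (Matrix.SpecialLinearGroup (Fin 5) (ZMod 2))) :=
        Subgroup.mem_centralizer_singleton_iff.2 (commute_W hs hA).symm
      have h1 : (⟨A, hAc⟩ : Subgroup.centralizer _) ∈ T0 := hT0 (by rw [hW']; exact hA)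
      have h2 : g * ⟨A, hAc⟩ * g⁻¹ ∈ T' := by
        rw [← hg, Sylow.smul_def]
        exact ⟨_, h1, rfl⟩
      rw [hT'] at h2
      obtain ⟨y, hy, hye⟩ := h2
      have h3 := congrArg e (hcx y hy)
      rw [map_mul, map_mul, show e y = g * ⟨A, hAc⟩ * g⁻¹ from hye] at h3
      have h4 : (⟨A, hAc⟩ : Subgroup.centralizer _) * M = M * ⟨A, hAc⟩ := by
        rw [hM]
        have := congrArg (fun w => g⁻¹ * w * g) h3
        simpa [mul_assoc] using this
      exact congrArg Subtype.val h4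
    have hsg : ∀ w : Subgroup.centralizer ({s} : Set (Matrix.SpecialLinearGroup (Fin 5) (ZMod 2))),
        (w : Matrix.SpecialLinearGroup (Fin 5) (ZMod 2)) * s = s * w := fun w =>
      Subgroup.mem_centralizer_singleton_iff.1 w.2
    have hex : (e x : Matrix.SpecialLinearGroup (Fin 5) (ZMod 2)) =
        (g : Matrix.SpecialLinearGroup (Fin 5) (ZMod 2)) * M * (g : Matrix.SpecialLinearGroup (Fin 5) (ZMod 2))⁻¹ := by
      rw [hM]; simp [mul_assoc]
    rcases centralizer_W hs hMW with h | h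
    · left; rw [hex, h, mul_one, mul_inv_cancel]
    · right; rw [hex, h, hsg g, mul_assoc, mul_inv_cancel, mul_one]
  have hzC : z ∈ Subgroup.centralizer ({z} : Set G) := Subgroup.mem_centralizer_singleton_iff.2 rfl
  have hzT : (⟨z, hzC⟩ : Subgroup.centralizer ({z} : Set G)) ∈ T := by
    haveI : (Subgroup.zpowers (⟨z, hzC⟩ : Subgroup.centralizer ({z} : Set G))).Normal := by
      refine ⟨fun n hn w => ?_⟩
      obtain ⟨k, rfl⟩ := Subgroup.mem_zpowers_iff.1 hn
      have hc : Commute w (⟨z, hzC⟩ : Subgroup.centralizer ({z} : Set G)) :=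
        Subtype.ext (Subgroup.mem_centralizer_singleton_iff.1 w.2)
      rw [(hc.zpow_right k).eq, mul_inv_cancel_right]
      exact hn
    have hp : IsPGroup 2 (Subgroup.zpowers (⟨z, hzC⟩ : Subgroup.centralizer ({z} : Set G))) := by
      refine IsPGroup.of_card (n := 1) ?_
      rw [Nat.card_zpowers, Subgroup.orderOf_mk, hz, pow_one]
    obtain ⟨P0, hP0⟩ := hp.exists_le_sylow
    obtain ⟨w, hw⟩ := MulAction.exists_smul_eq (Subgroup.centralizer ({z} : Set G)) P0 T
    rw [← hw, Sylow.smul_def]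
    refine ⟨_, hP0 (Subgroup.mem_zpowers _), ?_⟩
    apply Subtype.ext
    show (w : G) * z * (w : G)⁻¹ = z
    rw [Subgroup.mem_centralizer_singleton_iff.1 w.2, mul_assoc, mul_inv_cancel, mul_one]
  intro hdvd
  obtain ⟨S, hS⟩ : ∃ S, S = (T : Subgroup (Subgroup.centralizer ({z} : Set G))).map
      (Subgroup.subtype (Subgroup.centralizer ({z} : Set G))) := ⟨_, rfl⟩
  rw [← hS] at hdvd
  have hS2 : IsPGroup 2 S := hS ▸ T.2.map _
  obtain ⟨P, hP⟩ := hS2.exists_le_sylow
  have hPS : S ≠ P := fun h => P.not_dvd_index (h ▸ hdvd)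
  haveI := P.2.isNilpotent
  have hlt := normalizerCondition_of_isNilpotent (S.subgroupOf P) (lt_of_le_of_ne le_top (by
    rw [Ne, Subgroup.subgroupOf_eq_top]
    exact fun h => hPS (le_antisymm hP h)))
  obtain ⟨x, hxN, hxS⟩ := SetLike.exists_of_lt hlt
  rw [Subgroup.mem_subgroupOf] at hxS
  have hzS : z ∈ S := hS ▸ ⟨⟨z, hzC⟩, hzT, rfl⟩
  have hnorm : ∀ u ∈ S, (x : G) * u * (x : G)⁻¹ ∈ S := fun u hu =>
    Subgroup.mem_subgroupOf.1 ((Subgroup.mem_normalizer_iff.1 hxN ⟨u, hP hu⟩).1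
      (Subgroup.mem_subgroupOf.2 hu))
  have hxz := hnorm z hzS
  rw [hS] at hxz
  obtain ⟨y, hy, hyx⟩ := hxz
  have hnorm' : ∀ u ∈ S, (x : G)⁻¹ * u * (x : G) ∈ S := fun u hu =>
    Subgroup.mem_subgroupOf.1 ((Subgroup.mem_normalizer_iff.1 hxN ⟨(x : G)⁻¹ * u * x,
      mul_mem (mul_mem (inv_mem x.2) (hP hu)) x.2⟩).2
      (Subgroup.mem_subgroupOf.2 (by simpa [mul_assoc] using hu)))
  have hcy : ∀ w ∈ (T : Subgroup (Subgroup.centralizer ({z} : Set G))), w * y = y * w := by
    intro w hw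
    apply Subtype.ext
    show (w : G) * (y : G) = y * w
    rw [show (y : G) = (x : G) * z * (x : G)⁻¹ from hyx]
    have hw' : (x : G)⁻¹ * w * x ∈ S := hnorm' w (hS ▸ ⟨w, hw, rfl⟩)
    rw [hS] at hw'
    obtain ⟨v, -, hv⟩ := hw'
    have := Subgroup.mem_centralizer_singleton_iff.1 v.2
    rw [show (v : G) = (x : G)⁻¹ * w * x from hv] at this
    calc (w : G) * (x * z * (x : G)⁻¹) = x * (((x : G)⁻¹ * w * x) * z) * (x : G)⁻¹ := by group
      _ = x * (z * ((x : G)⁻¹ * w * x)) * (x : G)⁻¹ := by rw [this]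
      _ = x * z * (x : G)⁻¹ * w := by group
  have hz1 : z ≠ 1 := fun h => by simp [h] at hz
  have hy1 : y ≠ 1 := by
    intro h
    apply hz1
    have : (x : G) * z * (x : G)⁻¹ = 1 := by rw [← hyx, h]; rfl
    simpa [mul_assoc, mul_eq_one_iff_eq_inv] using this
  have hey : (e y : Matrix.SpecialLinearGroup (Fin 5) (ZMod 2)) = s :=
    (hZ y hy hcy).resolve_left fun h => hy1 (e.injective ((Subtype.ext h).trans e.map_one.symm))
  have hez : (e ⟨z, hzC⟩ : Matrix.SpecialLinearGroup (Fin 5) (ZMod 2)) = s :=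
    (hZ ⟨z, hzC⟩ hzT fun w _ => Subtype.ext (Subgroup.mem_centralizer_singleton_iff.1 w.2)).resolve_left
      fun h => hz1 (congrArg Subtype.val (e.injective ((Subtype.ext h).trans e.map_one.symm) : (⟨z, hzC⟩ : Subgroup.centralizer ({z} : Set G)) = 1))
  have hyz : (y : G) = z := congrArg Subtype.val (e.injective (Subtype.ext (hey.trans hez.symm)))
  have hxC : (x : G) ∈ Subgroup.centralizer ({z} : Set G) := by
    rw [Subgroup.mem_centralizer_singleton_iff]
    calc (x : G) * z = x * z * (x : G)⁻¹ * x := by group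
      _ = z * x := by rw [← hyx]; exact congrArg (· * (x : G)) hyz
  have hmax := T.3 (P.2.comap_subtype (K := Subgroup.centralizer ({z} : Set G)))
    (fun w hw => hP (hS ▸ ⟨w, hw, rfl⟩))
  exact hxS (hS ▸ ⟨⟨x, hxC⟩, hmax ▸ x.2, rfl⟩)

end Cfsg.Agent.S1717
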