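import Cfsg.Statements.S1753

set_option autoImplicit false
universe u
open Cfsg

namespace Cfsg.Agent.S1753

/-- Let K be any property of groups. (1) If G is a minimal counterexample relative to K — a finite non-abelian simple group not satisfying K such that every finite non-abelian simple group of smaller order satisfies K — then every proper subgroup of G is a K-group (all its non-abelian simple sections satisfy K), since such sections have smaller order than G. (2) Consequently (induction on the order), if every finite non-abelian simple group all of whose proper subgroups are K-groups satisfies K, then every finite non-abelian simple group satisfies K. -/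
theorem result (K : ∀ (X : Type u) [Group X], Prop) :
    (∀ (G : Type u) [Group G], Cfsg.IsMinCounterexampleWith K G → Cfsg.IsKProperWith K G) ∧
      ((∀ (X : Type u) [Group X] [Finite X], IsSimpleGroup X → ¬ IsMulCommutative X → Cfsg.IsKProperWith K X → K X) →
        ∀ (G : Type u) [Group G] [Finite G], IsSimpleGroup G → ¬ IsMulCommutative G → K G) := by
  constructor
  · intro G _ hG H hH A N _ hs hc
    obtain ⟨hfin, -, -, -, hsmall⟩ := hG
    apply hsmall _ hs hc
    calc Nat.card (↥A ⧸ N) ≤ Nat.card ↥A := Nat.le_of_dvd Nat.card_pos (Subgroup.card_quotient_dvd_card N)
      _ ≤ Nat.card ↥H := Nat.le_of_dvd Nat.card_pos (Subgroup.card_subgroup_dvd_card A)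
      _ < Nat.card G := lt_of_le_of_ne (Subgroup.card_le_card_group H) fun h =>
          hH (Subgroup.eq_top_of_card_eq H h)
  · intro hstep G _ _ hs hc
    induction hn : Nat.card G using Nat.strong_induction_on generalizing G with
    | _ n ih =>
      refine hstep G hs hc ?_
      intro H hH A N _ hs' hc'
      refine ih _ ?_ _ hs' hc' rfl
      subst hn
      calc Nat.card (↥A ⧸ N) ≤ Nat.card ↥A := Nat.le_of_dvd Nat.card_pos (Subgroup.card_quotient_dvd_card N)
        _ ≤ Nat.card ↥H := Nat.le_of_dvd Nat.card_pos (Subgroup.card_subgroup_dvd_card A)
        _ < Nat.card G := lt_of_le_of_ne (Subgroup.card_le_card_group H) fun h =>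
            hH (Subgroup.eq_top_of_card_eq H h)

end Cfsg.Agent.S1753
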