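import Cfsg.Statements.S1754
import Cfsg.Agent.Lib.LocalBasic

set_option autoImplicit false
open Cfsg

namespace Cfsg.Agent.S1754
open CfsgLib.LocalBasic

theorem isQuasisimple_equiv {H K : Type*} [Group H] [Group K] (e : H ≃* K) (h : Cfsg.IsQuasisimple H) :
    Cfsg.IsQuasisimple K := by
  obtain ⟨hp, hs⟩ := h
  have hZ : Subgroup.map e.toMonoidHom (Subgroup.center H) = Subgroup.center K := by
    refine le_antisymm ?_ fun k hk => ⟨e.symm k, ?_, by simp⟩
    · rintro _ ⟨z, hz, rfl⟩
      exact Subgroup.mem_center_iff.mpr fun g => by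
        have := congrArg e (Subgroup.mem_center_iff.mp hz (e.symm g))
        simpa using this
    · exact Subgroup.mem_center_iff.mpr fun g => by
        have := congrArg e.symm (Subgroup.mem_center_iff.mp hk (e g))
        simpa using this
  refine ⟨⟨?_⟩, ?_⟩
  · have h1 := congrArg (Subgroup.map e.toMonoidHom) hp.commutator_eq_top
    rwa [commutator_def, Subgroup.map_commutator, Subgroup.map_top_of_surjective _ e.surjective] at h1
  · haveI := hs
    let f := QuotientGroup.congr _ _ e hZ
    haveI : Nontrivial (K ⧸ Subgroup.center K) := f.symm.toEquiv.nontrivial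
    exact IsSimpleGroup.isSimpleGroup_of_surjective f.toMonoidHom f.surjective


/-- Let A be a standard subgroup of the finite group G (A quasisimple, C_G(A) tightly embedded of even order, A commuting elementwise with no other conjugate of itself, and N_G(A) = N_G(C_G(A))), and let t be an involution of G centralizing A. Then the centralizer of t lies in the normalizer of A; in particular A, viewed inside C_G(t), is a component of C_G(t). -/
theorem result {G : Type*} [Group G] [Finite G]
    (A : Subgroup G) (hA : Cfsg.IsStandardSubgroup A) (t : G) (ht : orderOf t = 2) (htA : t ∈ Subgroup.centralizer (A : Set G)) :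
    Subgroup.centralizer ({t} : Set G) ≤ Subgroup.normalizer (A : Set G) ∧
      Cfsg.IsComponent (A.subgroupOf (Subgroup.centralizer ({t} : Set G))) := by
  obtain ⟨hq, hti, -, hnorm⟩ := hA
  have hle : Subgroup.centralizer ({t} : Set G) ≤ Subgroup.normalizer (A : Set G) := by
    rw [hnorm]
    intro c hc
    by_contra hcn
    have hmem : t ∈ Subgroup.centralizer (A : Set G) ⊓ (Subgroup.centralizer (A : Set G)).map (MulAut.conj c).toMonoidHom :=
      ⟨htA, t, htA, by simp [Subgroup.mem_centralizer_singleton_iff.mp hc]⟩
    have h1 := Subgroup.orderOf_dvd_natCard _ hmem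
    rw [ht] at h1
    exact (hti.2 c hcn).not_two_dvd_nat h1
  refine ⟨hle, ?_⟩
  have hAC : A ≤ Subgroup.centralizer ({t} : Set G) := fun a ha =>
    Subgroup.mem_centralizer_singleton_iff.mpr (Subgroup.mem_centralizer_iff.mp htA a ha)
  refine ⟨?_, isQuasisimple_equiv (Subgroup.subgroupOfEquivOfLe hAC).symm hq⟩
  refine Subgroup.Normal.isSubnormal ?_
  rw [← Subgroup.normalizer_eq_top_iff, ← Subgroup.subgroupOf_normalizer_eq hAC, Subgroup.subgroupOf_eq_top]
  exact hle

end Cfsg.Agent.S1754
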