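import Cfsg.Statements.S1755
import Cfsg.Agent.Lib.Core
import Cfsg.Agent.Lib.TwoSylow
import Cfsg.Agent.Lib.GenFitting
import Cfsg.Agent.Lib.Components

set_option autoImplicit false
open Cfsg

namespace Cfsg.Agent.S1755

/-- Let G be a finite group and let z be an involution of G such that Q, the generalized Fitting subgroup of the centralizer C of z, is a 2-group of symplectic type (every characteristic abelian subgroup of Q is cyclic). Let B be a characteristic abelian subgroup of Q, viewed as a subgroup of G. Then for every g in G, the conjugate of B by g either equals B or meets B trivially. -/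
theorem result {G : Type*} [Group G] [Finite G] (z : G) (hz : orderOf z = 2) (hQ : Cfsg.IsOfSymplecticType ↥(Cfsg.generalizedFittingSubgroup ↥(Subgroup.centralizer ({z} : Set G))))
    (B : Subgroup ↥(Cfsg.generalizedFittingSubgroup ↥(Subgroup.centralizer ({z} : Set G)))) (hBc : B.Characteristic) (hBa : IsMulCommutative ↥B) (g : G) :
    ((B.map (Cfsg.generalizedFittingSubgroup ↥(Subgroup.centralizer ({z} : Set G))).subtype).map (Subgroup.centralizer ({z} : Set G)).subtype).map (MulAut.conj g).toMonoidHom =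
        (B.map (Cfsg.generalizedFittingSubgroup ↥(Subgroup.centralizer ({z} : Set G))).subtype).map (Subgroup.centralizer ({z} : Set G)).subtype ∨
      ((B.map (Cfsg.generalizedFittingSubgroup ↥(Subgroup.centralizer ({z} : Set G))).subtype).map (Subgroup.centralizer ({z} : Set G)).subtype).map (MulAut.conj g).toMonoidHom ⊓
        (B.map (Cfsg.generalizedFittingSubgroup ↥(Subgroup.centralizer ({z} : Set G))).subtype).map (Subgroup.centralizer ({z} : Set G)).subtype = ⊥ := by
  classical
  haveI : Fact (Nat.Prime 2) := ⟨Nat.prime_two⟩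
  revert B
  set C := Subgroup.centralizer ({z} : Set G) with hC
  set F := Cfsg.generalizedFittingSubgroup ↥C
  intro B hBc hBa
  set B' := (B.map F.subtype).map C.subtype
  have hzC : z ∈ C := Subgroup.mem_centralizer_singleton_iff.mpr rfl
  have hzc : (⟨z, hzC⟩ : ↥C) ∈ Subgroup.center ↥C := Subgroup.mem_center_iff.mpr fun c => Subtype.ext (Subgroup.mem_centralizer_singleton_iff.mp c.2)
  have hzF : (⟨z, hzC⟩ : ↥C) ∈ F := (le_sup_right : Cfsg.fittingSubgroup ↥C ≤ F)
    (CfsgLib.Core.le_fittingSubgroup (N := Subgroup.center ↥C) inferInstance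
      (@CommGroup.isNilpotent _ ({ (inferInstance : Group ↥(Subgroup.center ↥C)) with
        mul_comm := fun a b => Subtype.ext (Subgroup.mem_center_iff.mp b.2 (a : ↥C)) } : CommGroup ↥(Subgroup.center ↥C))) hzc)
  set z' : ↥F := ⟨_, hzF⟩
  have hz' : orderOf z' = 2 := by rw [← Subgroup.orderOf_coe, ← Subgroup.orderOf_coe]; exact hz
  have hz'c : z' ∈ Subgroup.center ↥F := Subgroup.mem_center_iff.mpr fun f => Subtype.ext (Subgroup.mem_center_iff.mp hzc f)
  haveI : IsCyclic ↥(Subgroup.center ↥F) := hQ.2 _ inferInstance inferInstance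
  haveI : IsCyclic ↥B := hQ.2 B hBc hBa
  by_cases hBbot : B = ⊥
  · left; simp [B', hBbot]
  obtain ⟨t, ht⟩ := exists_prime_orderOf_dvd_card' 2 (G := ↥B) ((hQ.1.to_subgroup B).card_eq_or_dvd.resolve_left
    (mt Subgroup.card_eq_one.mp hBbot))
  haveI : B.Normal := inferInstance
  have htc : (t : ↥F) ∈ Subgroup.center ↥F := Subgroup.mem_center_iff.mpr fun f => by
    have hm : f * t * f⁻¹ ∈ B := Subgroup.Normal.conj_mem inferInstance _ t.2 f
    have : (⟨_, hm⟩ : ↥B) = t := CfsgLib.TwoSylow.involution_unique (by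
      rw [← Subgroup.orderOf_coe]
      exact (orderOf_injective (MulAut.conj f).toMonoidHom (MulEquiv.injective _) (t : ↥F)).trans (by rw [Subgroup.orderOf_coe, ht])) ht
    exact mul_inv_eq_iff_eq_mul.mp (congrArg Subtype.val this)
  have htz : (t : ↥F) = z' := congrArg Subtype.val (CfsgLib.TwoSylow.involution_unique (a := (⟨_, htc⟩ : ↥(Subgroup.center ↥F))) (b := ⟨z', hz'c⟩)
    (by rw [← Subgroup.orderOf_coe]; exact (Subgroup.orderOf_coe t).trans ht) (by rw [← Subgroup.orderOf_coe, hz']))
  refine or_iff_not_imp_right.mpr fun hne => ?_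
  -- the intersection contains `z`, which is then fixed by `g`
  obtain ⟨w, hw⟩ : ∃ w : ↥(B'.map (MulAut.conj g).toMonoidHom ⊓ B'), orderOf w = 2 := by
    refine exists_prime_orderOf_dvd_card' 2 ((IsPGroup.card_eq_or_dvd (p := 2) ?_).resolve_left (mt Subgroup.card_eq_one.mp hne))
    exact (((hQ.1.to_subgroup B).map F.subtype).map C.subtype).to_le inf_le_right
  have hBz : ∀ u ∈ B', orderOf u = 2 → u = z := by
    rintro _ ⟨_, ⟨b, hb, rfl⟩, rfl⟩ hu
    rw [Subgroup.coe_subtype, Subgroup.coe_subtype, Subgroup.orderOf_coe, Subgroup.orderOf_coe] at hu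
    have : (⟨b, hb⟩ : ↥B) = t := CfsgLib.TwoSylow.involution_unique (by rw [← Subgroup.orderOf_coe]; exact hu) ht
    rw [show b = z' from (congrArg Subtype.val this).trans htz]
    rfl
  obtain ⟨⟨b, hb, hbw⟩, hwB⟩ := w.2
  have hwz : (w : G) = z := hBz _ hwB (by rw [Subgroup.orderOf_coe, hw])
  have hbz : b = z := hBz b hb (by
    rw [← orderOf_injective (MulAut.conj g).toMonoidHom (MulEquiv.injective _) b, hbw, Subgroup.orderOf_coe, hw])
  have hgC : g ∈ C := Subgroup.mem_centralizer_singleton_iff.mpr (by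
    rw [hwz, hbz] at hbw
    exact mul_inv_eq_iff_eq_mul.mp hbw)
  haveI hFn : F.Normal := by
    haveI := CfsgLib.Components.layer_characteristic (G := ↥C)
    haveI := CfsgLib.Core.fittingSubgroup_normal (G := ↥C)
    exact Subgroup.sup_normal _ _
  haveI hBn : (B.map F.subtype).Normal := CfsgLib.Components.normal_map_of_characteristic fun e => Subgroup.characteristic_iff_map_le.mp hBc e
  refine Subgroup.eq_of_le_of_card_ge ?_ (Subgroup.card_map_of_injective (MulEquiv.injective _)).ge
  rintro _ ⟨_, ⟨u, hu, rfl⟩, rfl⟩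
  exact ⟨_, hBn.conj_mem u hu ⟨g, hgC⟩, rfl⟩

end Cfsg.Agent.S1755
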