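import Cfsg.Statements.S1756
import Cfsg.Agent.Lib.LocalBasic
import Mathlib.GroupTheory.IndexNormal

set_option autoImplicit false
open Cfsg

namespace Cfsg.Agent.S1756
open CfsgLib.LocalBasic
open scoped commutatorElement Pointwise

theorem card_centralizer_mul {Q : Type*} [Group Q] [Finite Q] (hQ : Cfsg.IsExtraspecial 2 Q) :
    ∀ (n : ℕ) (M : Subgroup Q), Nat.card ↥M = n → Subgroup.center Q ≤ M →
      Nat.card Q * Nat.card ↥(Subgroup.center Q) ≤ Nat.card ↥(Subgroup.centralizer (M : Set Q)) * Nat.card ↥M := by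
  intro n
  induction n using Nat.strong_induction_on with
  | _ n ih =>
    intro M hn hZM
    by_cases hMZ : M = Subgroup.center Q
    · rw [hMZ]
      refine Nat.mul_le_mul_right _ ?_
      have h : Subgroup.centralizer ((Subgroup.center Q : Subgroup Q) : Set Q) = ⊤ := by
        rw [eq_top_iff]
        intro q _
        exact Subgroup.mem_centralizer_iff.mpr fun c hc => (Subgroup.mem_center_iff.mp hc q).symm
      rw [h, Subgroup.card_top]
    · obtain ⟨M', hM'⟩ := (Set.toFinite {X : Subgroup Q | Subgroup.center Q ≤ X ∧ X < M}).exists_maximal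
        ⟨_, le_rfl, lt_of_le_of_ne hZM (Ne.symm hMZ)⟩
      obtain ⟨hZM', hlt⟩ := hM'.1
      obtain ⟨a, haM, haM'⟩ := SetLike.exists_of_lt hlt
      have hsup : M' ⊔ Subgroup.zpowers a = M := by
        by_contra hne
        have h := hM'.2 (y := M' ⊔ Subgroup.zpowers a) ⟨hZM'.trans le_sup_left,
          lt_of_le_of_ne (sup_le hlt.le (Subgroup.zpowers_le.mpr haM)) hne⟩ le_sup_left
        exact haM' (h (Subgroup.mem_sup_right (Subgroup.mem_zpowers a)))
      have hcard : 2 * Nat.card ↥M' ≤ Nat.card ↥M := by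
        obtain ⟨k, hk⟩ := Subgroup.card_dvd_of_le hlt.le
        rw [hk, mul_comm]
        refine Nat.mul_le_mul le_rfl ?_
        by_contra h
        have h1 : k = 0 ∨ k = 1 := by omega
        rcases h1 with rfl | rfl
        · rw [Nat.mul_zero] at hk; exact Nat.card_pos.ne' hk
        · rw [mul_one] at hk
          exact hlt.ne (Subgroup.eq_of_le_of_card_ge hlt.le hk.le)
      have hIH := ih (Nat.card ↥M') (hn ▸ by
        have := Nat.card_pos (α := ↥M'); omega) M' rfl hZM'
      have hcomm : ∀ q : Q, ⁅q, a⁆ ∈ Subgroup.center Q := by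
        intro q
        rw [← hQ.1.2.2]
        exact Subgroup.commutator_mem_commutator (Subgroup.mem_top q) (Subgroup.mem_top a)
      let φ : Q →* ↥(Subgroup.center Q) :=
        { toFun := fun q => ⟨⁅q, a⁆, hcomm q⟩
          map_one' := Subtype.ext (commutatorElement_one_left a)
          map_mul' := fun q r => Subtype.ext (by
            change ⁅q * r, a⁆ = ⁅q, a⁆ * ⁅r, a⁆
            have h := Subgroup.mem_center_iff.mp (hcomm r) q
            calc ⁅q * r, a⁆ = q * ⁅r, a⁆ * q⁻¹ * ⁅q, a⁆ := by simp only [commutatorElement_def]; group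
              _ = ⁅r, a⁆ * ⁅q, a⁆ := by rw [h, mul_inv_cancel_right]
              _ = ⁅q, a⁆ * ⁅r, a⁆ := (Subgroup.mem_center_iff.mp (hcomm r) _).symm) }
      have hker : φ.ker = Subgroup.centralizer ({a} : Set Q) := by
        ext q
        rw [MonoidHom.mem_ker, Subgroup.mem_centralizer_singleton_iff, ← commutatorElement_eq_one_iff_mul_comm]
        exact ⟨fun h => congrArg Subtype.val h, fun h => Subtype.ext h⟩
      have hCa : Nat.card Q ≤ 2 * Nat.card ↥(Subgroup.centralizer ({a} : Set Q)) := by
        rw [← hker, ← Subgroup.index_mul_card φ.ker, Subgroup.index_ker]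
        refine Nat.mul_le_mul ?_ le_rfl
        rw [← hQ.2]
        exact Subgroup.card_le_card_group _
      have hinf : Subgroup.centralizer (M' : Set Q) ⊓ Subgroup.centralizer ({a} : Set Q) ≤ Subgroup.centralizer (M : Set Q) := by
        rintro q ⟨h1, h2⟩
        refine Subgroup.mem_centralizer_iff.mpr fun m hm => ?_
        have hle : M ≤ Subgroup.centralizer ({q} : Set Q) := by
          rw [← hsup]
          refine sup_le (fun x hx => Subgroup.mem_centralizer_singleton_iff.mpr (Subgroup.mem_centralizer_iff.mp h1 x hx)) ?_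
          exact Subgroup.zpowers_le.mpr (Subgroup.mem_centralizer_singleton_iff.mpr
            (Subgroup.mem_centralizer_singleton_iff.mp h2).symm)
        exact Subgroup.mem_centralizer_singleton_iff.mp (hle hm)
      have hml := card_mul_le (Subgroup.centralizer (M' : Set Q)) (Subgroup.centralizer ({a} : Set Q))
      have hle2 := hml.trans (Nat.mul_le_mul
        (Nat.card_le_card_of_injective (fun x => (x : Q)) Subtype.val_injective)
        (Subgroup.card_le_of_le hinf))
      set C' := Nat.card ↥(Subgroup.centralizer (M' : Set Q))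
      set C := Nat.card ↥(Subgroup.centralizer (M : Set Q))
      set Ca := Nat.card ↥(Subgroup.centralizer ({a} : Set Q))
      set N := Nat.card Q
      have hNpos : 0 < N := Nat.card_pos
      have h1 : C' * N ≤ 2 * C * N := by nlinarith
      have h2 : C' ≤ 2 * C := Nat.le_of_mul_le_mul_right h1 hNpos
      calc N * Nat.card ↥(Subgroup.center Q) ≤ C' * Nat.card ↥M' := hIH
        _ ≤ 2 * C * Nat.card ↥M' := Nat.mul_le_mul_right _ h2
        _ = C * (2 * Nat.card ↥M') := by ring
        _ ≤ C * Nat.card ↥M := Nat.mul_le_mul_left _ hcard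

theorem inner_of_small_index {Q : Type*} [Group Q] [Finite Q] (hQ : Cfsg.IsExtraspecial 2 Q) (α : MulAut Q)
    (hα : ∀ x, α (α x) = x) (M : Subgroup Q) (hM : ∀ x, x ∈ M ↔ α x = x) (hi : M.index ≤ 2) :
    ∃ y : Q, ∀ q, α q = y * q * y⁻¹ := by
  haveI : Fact (Nat.Prime 2) := ⟨Nat.prime_two⟩
  by_cases hMtop : M = ⊤
  · exact ⟨1, fun q => by simpa using (hM q).mp (hMtop ▸ Subgroup.mem_top q)⟩
  obtain ⟨x, -, hx⟩ := SetLike.exists_of_lt (lt_top_iff_ne_top.mpr hMtop)
  have hidx : M.index = 2 := by
    have h0 : M.index ≠ 0 := Subgroup.index_ne_zero_of_finite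
    have h1 : M.index ≠ 1 := fun h => hMtop (Subgroup.index_eq_one.mp h)
    omega
  obtain ⟨⟨z, hzc⟩, hz⟩ := exists_prime_orderOf_dvd_card' (G := ↥(Subgroup.center Q)) 2 (hQ.2 ▸ dvd_rfl)
  have hz1 : z ≠ 1 := by
    intro h
    subst h
    simp at hz
  have hcz : ∀ c ∈ Subgroup.center Q, c = 1 ∨ c = z := by
    intro c hc
    have htop : Subgroup.zpowers (⟨z, hzc⟩ : ↥(Subgroup.center Q)) = ⊤ :=
      Subgroup.eq_top_of_card_eq _ (by rw [Nat.card_zpowers, hz, hQ.2])
    obtain ⟨k, hk⟩ := Subgroup.mem_zpowers_iff.mp (htop ▸ Subgroup.mem_top (⟨c, hc⟩ : ↥(Subgroup.center Q)))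
    have hk' : c = z ^ k := by
      have h := congrArg Subtype.val hk
      simpa using h.symm
    have hzz : z ^ (2 : ℤ) = 1 := by
      have := congrArg Subtype.val (pow_orderOf_eq_one (⟨z, hzc⟩ : ↥(Subgroup.center Q)))
      rw [hz] at this
      simpa using this
    rcases Int.even_or_odd k with ⟨j, rfl⟩ | ⟨j, rfl⟩
    · left; rw [hk', ← two_mul, zpow_mul, hzz, one_zpow]
    · right; rw [hk', zpow_add, zpow_mul, hzz, one_zpow, one_mul, zpow_one]
  have hzM : Subgroup.center Q ≤ M := by
    have hfz : α z = z := by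
      have hmem : α z ∈ Subgroup.center Q := Subgroup.mem_center_iff.mpr fun g => by
        have := congrArg α (Subgroup.mem_center_iff.mp hzc (α g))
        rwa [map_mul, map_mul, hα] at this
      exact (hcz _ hmem).resolve_left fun h => hz1 (α.injective (h.trans (map_one α).symm))
    intro c hc
    rcases hcz c hc with h | h
    · rw [h]; exact M.one_mem
    · rw [h]; exact (hM z).mpr hfz
  haveI hMn : M.Normal := Subgroup.normal_of_index_eq_two hidx
  set c := x⁻¹ * α x with hc
  have hαx : α x = x * c := by rw [hc]; group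
  have hcM : c ∈ M := by
    rw [hc, Subgroup.mul_mem_iff_of_index_two hidx, Subgroup.inv_mem_iff]
    exact iff_of_false hx (fun h => hx (by
      have := (hM _).mp h
      rw [hα] at this
      exact this ▸ h))
  have hcc : c * c = 1 := by
    have h := hα x
    rw [hαx, map_mul, (hM c).mp hcM, hαx, mul_assoc] at h
    exact mul_eq_left.mp h
  have hc1 : c ≠ 1 := fun h => hx ((hM x).mpr (by rw [hαx, h, mul_one]))
  have hx2M : x * x ∈ M := by rw [← pow_two]; exact Subgroup.sq_mem_of_index_two hidx x
  have hcz' : c = z := by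
    by_contra hne
    have hcZ : c ∉ Subgroup.center Q := fun h => (hcz c h).elim hc1 hne
    have hcent : ∀ m ∈ M, m * c = c * m := by
      intro m hm
      have h1 : x * m * x⁻¹ ∈ M := hMn.conj_mem m hm x
      have h2 := (hM _).mp h1
      rw [map_mul, map_mul, map_inv, hαx, (hM m).mp hm, mul_inv_rev] at h2
      have h3 : c * m * c⁻¹ = m := by
        calc c * m * c⁻¹ = x⁻¹ * (x * c * m * (c⁻¹ * x⁻¹)) * x := by group
          _ = x⁻¹ * (x * m * x⁻¹) * x := by rw [h2]
          _ = m := by group
      calc m * c = c * m * c⁻¹ * c := by rw [h3]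
        _ = c * m := by group
    have hcx : x⁻¹ * c * x ≠ c := by
      intro h
      apply hcZ
      rw [Subgroup.mem_center_iff]
      intro g
      by_cases hg : g ∈ M
      · exact hcent g hg
      · have hgm : x⁻¹ * g ∈ M := by
          rw [Subgroup.mul_mem_iff_of_index_two hidx, Subgroup.inv_mem_iff]; exact iff_of_false hx hg
        calc g * c = x * ((x⁻¹ * g) * c) := by group
          _ = x * c * (x⁻¹ * g) := by rw [hcent _ hgm]; group
          _ = x * (x⁻¹ * c * x) * (x⁻¹ * g) := by rw [h]
          _ = c * g := by group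
    have hd : x⁻¹ * c * x * c⁻¹ = z := by
      refine (hcz _ ?_).resolve_left fun h => hcx (mul_inv_eq_one.mp h)
      rw [← hQ.1.2.2]
      have := Subgroup.commutator_mem_commutator (Subgroup.mem_top x⁻¹) (Subgroup.mem_top c)
      rw [commutator_def]
      simpa [commutatorElement_def] using this
    have h4 := (hM _).mp hx2M
    rw [map_mul, hαx] at h4
    apply hz1
    calc z = x⁻¹ * c * x * c⁻¹ := hd.symm
      _ = (x * x)⁻¹ * (x * c * (x * c)) * (c * c)⁻¹ := by group
      _ = 1 := by rw [h4, hcc]; group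
  obtain ⟨y, hyC, hyZ⟩ : ∃ y ∈ Subgroup.centralizer (M : Set Q), y ∉ Subgroup.center Q := by
    by_contra hcon
    simp only [not_exists, not_and, not_not] at hcon
    have h1 := card_centralizer_mul hQ _ M rfl hzM
    have h2 : Nat.card ↥(Subgroup.centralizer (M : Set Q)) ≤ Nat.card ↥(Subgroup.center Q) :=
      Subgroup.card_le_of_le hcon
    have h3 : Nat.card Q = 2 * Nat.card ↥M := by rw [← Subgroup.index_mul_card M, hidx]
    rw [hQ.2] at h1 h2
    have h4 := Nat.mul_le_mul_right (Nat.card ↥M) h2
    have := Nat.card_pos (α := ↥M)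
    omega
  refine ⟨y, fun q => ?_⟩
  have hyM : ∀ m ∈ M, y * m * y⁻¹ = m := fun m hm => by
    rw [← Subgroup.mem_centralizer_iff.mp hyC m hm, mul_inv_cancel_right]
  have hyx : y * x * y⁻¹ = x * z := by
    have hmem : x⁻¹ * (y * x * y⁻¹) ∈ Subgroup.center Q := by
      rw [← hQ.1.2.2, commutator_def]
      have := Subgroup.commutator_mem_commutator (Subgroup.mem_top x⁻¹) (Subgroup.mem_top y)
      simpa [commutatorElement_def, mul_assoc] using this
    rcases hcz _ hmem with h | h
    · exfalso
      apply hyZ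
      rw [Subgroup.mem_center_iff]
      intro g
      by_cases hg : g ∈ M
      · exact Subgroup.mem_centralizer_iff.mp hyC g hg
      · have hgm : x⁻¹ * g ∈ M := by
          rw [Subgroup.mul_mem_iff_of_index_two hidx, Subgroup.inv_mem_iff]; exact iff_of_false hx hg
        have hxy : y * x * y⁻¹ = x := (inv_mul_eq_one.mp h).symm
        calc g * y = x * ((x⁻¹ * g) * y) := by group
          _ = x * y * (x⁻¹ * g) := by rw [Subgroup.mem_centralizer_iff.mp hyC _ hgm]; group
          _ = (y * x * y⁻¹) * y * (x⁻¹ * g) := by rw [hxy]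
          _ = y * g := by group
    · exact inv_mul_eq_iff_eq_mul.mp h
  by_cases hq : q ∈ M
  · rw [(hM q).mp hq, hyM q hq]
  · have hgm : x⁻¹ * q ∈ M := by
      rw [Subgroup.mul_mem_iff_of_index_two hidx, Subgroup.inv_mem_iff]; exact iff_of_false hx hq
    calc α q = α x * α (x⁻¹ * q) := by rw [← map_mul]; group
      _ = (y * x * y⁻¹) * (y * (x⁻¹ * q) * y⁻¹) := by rw [(hM _).mp hgm, hyM _ hgm, hyx, hαx, hcz']
      _ = y * q * y⁻¹ := by group


/-- Let Q be an extraspecial 2-subgroup of the finite group G (special with centre of order 2) and t an involution of G normalizing Q such that the centralizer of t in Q has index at most 2 in Q. Then t lies in the product of Q with the centralizer of Q. -/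
theorem result {G : Type*} [Group G] [Finite G] (Q : Subgroup G)
    (hQ : Cfsg.IsExtraspecial 2 ↥Q) (t : G) (ht : orderOf t = 2) (htN : t ∈ Subgroup.normalizer (Q : Set G))
    (hi : (Subgroup.centralizer ({t} : Set G) ⊓ Q).relIndex Q ≤ 2) :
    t ∈ Q ⊔ Subgroup.centralizer (Q : Set G) := by
  have ht2 : t * t = 1 := by rw [← pow_two, ← ht]; exact pow_orderOf_eq_one t
  let α : MulAut ↥Q :=
    { toFun := fun q => ⟨t * q * t⁻¹, (Subgroup.mem_normalizer_iff.mp htN _).mp q.2⟩
      invFun := fun q => ⟨t⁻¹ * q * t, (Subgroup.mem_normalizer_iff''.mp htN _).mp q.2⟩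
      left_inv := fun q => Subtype.ext (by simp [mul_assoc])
      right_inv := fun q => Subtype.ext (by simp [mul_assoc])
      map_mul' := fun q r => Subtype.ext (by simp [mul_assoc]) }
  have hα : ∀ q, α (α q) = q := fun q => Subtype.ext (by
    change t * (t * q * t⁻¹) * t⁻¹ = q
    calc t * (t * q * t⁻¹) * t⁻¹ = (t * t) * q * (t * t)⁻¹ := by group
      _ = q := by rw [ht2]; group)
  obtain ⟨y, hy⟩ := inner_of_small_index hQ α hα ((Subgroup.centralizer ({t} : Set G) ⊓ Q).subgroupOf Q) (fun q => by
    rw [Subgroup.mem_subgroupOf, Subgroup.mem_inf, Subgroup.mem_centralizer_singleton_iff]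
    constructor
    · rintro ⟨h, -⟩
      refine Subtype.ext ?_
      change t * q * t⁻¹ = q
      rw [← h, mul_inv_cancel_right]
    · intro h
      refine ⟨?_, q.2⟩
      have h' : t * q * t⁻¹ = q := congrArg Subtype.val h
      calc (q : G) * t = t * q * t⁻¹ * t := by rw [h']
        _ = t * q := by group) hi
  have hmem : (y : G)⁻¹ * t ∈ Subgroup.centralizer (Q : Set G) := by
    refine Subgroup.mem_centralizer_iff.mpr fun q hq => ?_
    have h : t * q * t⁻¹ = (y : G) * q * (y : G)⁻¹ := congrArg Subtype.val (hy ⟨q, hq⟩)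
    calc q * ((y : G)⁻¹ * t) = (y : G)⁻¹ * ((y : G) * q * (y : G)⁻¹) * t := by group
      _ = (y : G)⁻¹ * (t * q * t⁻¹) * t := by rw [h]
      _ = (y : G)⁻¹ * t * q := by group
  have := Subgroup.mul_mem_sup (y.2 : (y : G) ∈ Q) hmem
  rwa [mul_inv_cancel_left] at this

end Cfsg.Agent.S1756
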