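import Cfsg.Statements.S1757
import Cfsg.Agent.Lib.LocalBasic

set_option autoImplicit false
open Cfsg

namespace Cfsg.Agent.S1757
open CfsgLib.LocalBasic
open scoped Pointwise commutatorElement

/-- Let p be a prime and A, B p-subgroups of the finite group G, each of which meets every conjugate of itself other than itself trivially. Suppose the order of A is at most that of B, A and B intersect trivially, and B normalizes A. Then A and B commute elementwise. -/
theorem result {G : Type*} [Group G] [Finite G] (p : ℕ) [Fact p.Prime] (A B : Subgroup G)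
    (hA : IsPGroup p ↥A) (hB : IsPGroup p ↥B)
    (hAti : ∀ g : G, A.map (MulAut.conj g).toMonoidHom = A ∨ A.map (MulAut.conj g).toMonoidHom ⊓ A = ⊥)
    (hBti : ∀ g : G, B.map (MulAut.conj g).toMonoidHom = B ∨ B.map (MulAut.conj g).toMonoidHom ⊓ B = ⊥)
    (hle : Nat.card ↥A ≤ Nat.card ↥B) (hAB : A ⊓ B = ⊥) (hN : B ≤ Subgroup.normalizer (A : Set G)) : ⁅A, B⁆ = ⊥ := by
  have hnorm : ∀ a ∈ A, B.map (MulAut.conj a).toMonoidHom = B := by
    intro a ha
    by_cases ha1 : a = 1
    · rw [ha1]; exact conj_map_eq_of_mem_normalizer (Subgroup.one_mem _)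
    refine (hBti a).resolve_right fun hdis => ?_
    set P := A ⊔ B
    have hPset : (P : Set G) = (A : Set G) * (B : Set G) := Subgroup.coe_mul_of_right_le_normalizer_left A B hN
    have hcardP : Nat.card ↥P ≤ Nat.card ↥A * Nat.card ↥B := by
      have hs : Function.Surjective (fun q : ↥A × ↥B => (⟨q.1.1 * q.2.1,
          Subgroup.mul_mem_sup q.1.2 q.2.2⟩ : ↥P)) := by
        rintro ⟨x, hx⟩
        rw [← SetLike.mem_coe, hPset] at hx
        obtain ⟨u, hu, v, hv, rfl⟩ := hx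
        exact ⟨(⟨u, hu⟩, ⟨v, hv⟩), rfl⟩
      rw [← Nat.card_prod]
      exact Nat.card_le_card_of_surjective _ hs
    have haP : a ∈ P := Subgroup.mem_sup_left ha
    let f : ↥B × ↥B → ↥P := fun q => ⟨q.1.1 * (a * q.2.1 * a⁻¹), P.mul_mem (Subgroup.mem_sup_right q.1.2)
      (P.mul_mem (P.mul_mem haP (Subgroup.mem_sup_right q.2.2)) (P.inv_mem haP))⟩
    have hinj : Function.Injective f := by
      rintro ⟨b, c⟩ ⟨b', c'⟩ h
      have h' : (b : G) * (a * c * a⁻¹) = b' * (a * c' * a⁻¹) := congrArg Subtype.val h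
      have hmem : (b' : G)⁻¹ * b ∈ B.map (MulAut.conj a).toMonoidHom ⊓ B := by
        refine ⟨⟨(c' : G) * (c : G)⁻¹, B.mul_mem c'.2 (B.inv_mem c.2), ?_⟩, B.mul_mem (B.inv_mem b'.2) b.2⟩
        simp only [MulEquiv.coe_toMonoidHom, MulAut.conj_apply]
        calc a * ((c' : G) * (c : G)⁻¹) * a⁻¹ = (b' : G)⁻¹ * ((b' : G) * (a * c' * a⁻¹)) * (a * c * a⁻¹)⁻¹ := by group
          _ = (b' : G)⁻¹ * ((b : G) * (a * c * a⁻¹)) * (a * c * a⁻¹)⁻¹ := by rw [h']
          _ = (b' : G)⁻¹ * b := by group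
      rw [hdis, Subgroup.mem_bot, inv_mul_eq_one] at hmem
      rw [hmem] at h'
      exact Prod.ext (Subtype.ext hmem.symm) (Subtype.ext (mul_left_cancel (mul_right_cancel (mul_left_cancel h'))))
    have hcard : Nat.card ↥P ≤ Nat.card (↥B × ↥B) := by
      rw [Nat.card_prod]; exact hcardP.trans (Nat.mul_le_mul hle le_rfl)
    obtain ⟨⟨b, c⟩, hbc⟩ := (hinj.bijective_of_nat_card_le hcard).surjective ⟨a⁻¹, P.inv_mem haP⟩
    have hbc' : (b : G) * (a * c * a⁻¹) = a⁻¹ := congrArg Subtype.val hbc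
    have haB : a ∈ B := by
      have : a = (b : G)⁻¹ * (c : G)⁻¹ := by
        calc a = (b : G)⁻¹ * (((b : G) * (a * c * a⁻¹)) * a) * (c : G)⁻¹ := by group
          _ = (b : G)⁻¹ * (c : G)⁻¹ := by rw [hbc']; group
      rw [this]; exact B.mul_mem (B.inv_mem b.2) (B.inv_mem c.2)
    exact ha1 (Subgroup.mem_bot.mp (hAB ▸ ⟨ha, haB⟩))
  rw [eq_bot_iff, Subgroup.commutator_le]
  intro a ha b hb
  rw [← hAB]
  constructor
  · rw [commutatorElement_def, mul_assoc, mul_assoc, ← mul_assoc b]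
    exact A.mul_mem ha ((Subgroup.mem_normalizer_iff.mp (hN hb) _).mp (A.inv_mem ha))
  · rw [commutatorElement_def]
    refine B.mul_mem ?_ (B.inv_mem hb)
    exact (Subgroup.mem_normalizer_iff.mp (mem_normalizer_of_conj_map_eq (hnorm a ha)) b).mp hb

end Cfsg.Agent.S1757
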