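import Cfsg.Statements.S1774
import Cfsg.Agent.Lib.Core
import Cfsg.Agent.Lib.TwoSylow
import Cfsg.Agent.Lib.GenFitting
import Cfsg.Agent.Lib.Components
import Cfsg.Agent.S0012
import Cfsg.Agent.S0093

set_option autoImplicit false
open Cfsg

namespace Cfsg.Agent.S1774

open scoped commutatorElement

/-- In a group of symplectic type and exponent 4, squares and commutators lie in the subgroup of order 2 of the centre. -/
theorem symplectic_four {Q : Type*} [Group Q] [Finite Q] (hQ : Cfsg.IsOfSymplecticType Q)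
    (h4 : ∀ q : Q, q ^ 4 = 1) {z : Q} (hz : orderOf z = 2) (hzc : ∀ q, q * z = z * q) :
    (∀ x : Q, x * x = 1 ∨ x * x = z) ∧ (∀ x y : Q, ⁅x, y⁆ = 1 ∨ ⁅x, y⁆ = z) ∧
      ∀ x : Q, (∀ y, x * y = y * x) → x * x = 1 → x = 1 ∨ x = z := by
  classical
  haveI : Fact (Nat.Prime 2) := ⟨Nat.prime_two⟩
  have huniq : ∀ A : Subgroup Q, IsCyclic ↥A → z ∈ A → ∀ x ∈ A, x * x = 1 → x = 1 ∨ x = z := by
    intro A hA hzA x hx hxx
    haveI := hA
    by_cases h1 : x = 1
    · exact Or.inl h1
    have ho : orderOf x = 2 := orderOf_eq_prime (by rw [pow_two]; exact hxx) h1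
    exact Or.inr (congrArg Subtype.val (CfsgLib.TwoSylow.involution_unique (a := (⟨x, hx⟩ : ↥A)) (b := ⟨z, hzA⟩)
      (by rw [← Subgroup.orderOf_coe]; exact ho) (by rw [← Subgroup.orderOf_coe]; exact hz)))
  obtain ⟨K, hKc, hphi, hcomm, hcen⟩ := Cfsg.Agent.S0093.result hQ.1
  haveI := hKc
  obtain ⟨Z, hZ⟩ : ∃ Z, Z = Subgroup.centralizer (K : Set Q) := ⟨_, rfl⟩
  have hZchar : Z.Characteristic := by
    refine Subgroup.characteristic_iff_map_le.mpr fun e => ?_
    rintro _ ⟨x, hx, rfl⟩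
    rw [hZ] at hx ⊢
    refine Subgroup.mem_centralizer_iff.mpr fun k hk => ?_
    have hk' : k ∈ K.map e.toMonoidHom := (Subgroup.characteristic_iff_map_eq.mp hKc e).symm ▸ hk
    obtain ⟨l, hl, rfl⟩ := hk'
    show e l * e x = e x * e l
    rw [← map_mul, ← map_mul, Subgroup.mem_centralizer_iff.mp hx l hl]
  have hZab : IsMulCommutative ↥Z := isMulCommutative_iff.mpr fun a b => Subtype.ext (by
    have ha : (a : Q) ∈ Subgroup.centralizer (K : Set Q) := hZ.le a.2
    have hb : (b : Q) ∈ Subgroup.centralizer (K : Set Q) := hZ.le b.2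
    exact Subgroup.mem_centralizer_iff.mp hb a (hcen ha))
  have hzZ : z ∈ Z := hZ ▸ Subgroup.mem_centralizer_iff.mpr fun k _ => hzc k
  have hZu := huniq Z (hQ.2 Z hZchar hZab) hzZ
  have hkk : ∀ k ∈ K, k * k = 1 ∨ k * k = z := by
    intro k hk
    have h1 := (Cfsg.Agent.S0012.result 2 (hQ.1.to_subgroup K)).2 ⟨k, hk⟩
    have h2 := hphi ⟨_, h1, rfl⟩
    refine hZu _ (hZ ▸ by simpa [pow_two] using h2) ?_
    have := h4 k
    rw [pow_succ, pow_succ, pow_two] at this
    rwa [← mul_assoc]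
  have hkkc : ∀ k ∈ K, ∀ q, q * (k * k) = (k * k) * q := by
    intro k hk q
    rcases hkk k hk with h | h <;> rw [h]
    · simp
    · exact hzc q
  have hkq : ∀ k ∈ K, ∀ q, ⁅k, q⁆ = 1 ∨ ⁅k, q⁆ = z := by
    intro k hk q
    have h1 := Subgroup.mem_inf.mp (hcomm (Subgroup.commutator_mem_commutator hk (Subgroup.mem_top q)))
    refine hZu _ (hZ ▸ h1.2) ?_
    have hck : k * ⁅k, q⁆ = ⁅k, q⁆ * k := Subgroup.mem_centralizer_iff.mp h1.2 k hk
    calc ⁅k, q⁆ * ⁅k, q⁆ = (⁅k, q⁆ * k) * k⁻¹ * ⁅k, q⁆ := by rw [mul_inv_cancel_right]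
      _ = (k * ⁅k, q⁆) * k⁻¹ * ⁅k, q⁆ := by rw [hck]
      _ = ⁅k * k, q⁆ := by simp only [commutatorElement_def]; group
      _ = 1 := commutatorElement_eq_one_iff_mul_comm.mpr (hkkc k hk q).symm
  have hzz : z * z = 1 := by rw [← pow_two, ← hz]; exact pow_orderOf_eq_one z
  have hsq : ∀ q : Q, q * q = 1 ∨ q * q = z := by
    intro q
    refine hZu _ (hZ ▸ Subgroup.mem_centralizer_iff.mpr fun k hk => ?_) ?_
    · rcases hkq k hk q with h | h
      · have h' : k * q = q * k := commutatorElement_eq_one_iff_mul_comm.mp h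
        rw [← mul_assoc, h', mul_assoc, h', ← mul_assoc]
      · have h' : k * q = z * (q * k) := by rw [← h, commutatorElement_def]; group
        calc k * (q * q) = (k * q) * q := by group
          _ = z * (q * k) * q := by rw [h']
          _ = z * q * (k * q) := by group
          _ = z * q * (z * (q * k)) := by rw [h']
          _ = (z * q) * z * q * k := by group
          _ = (q * z) * z * q * k := by rw [hzc q]
          _ = q * (z * z) * q * k := by group
          _ = q * q * k := by rw [hzz, mul_one]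
    · have := h4 q
      rw [pow_succ, pow_succ, pow_two] at this
      rwa [← mul_assoc]
  refine ⟨hsq, fun x y => ?_, fun x hx hxx => huniq (Subgroup.center Q) (hQ.2 _ inferInstance inferInstance)
    (Subgroup.mem_center_iff.mpr hzc) x (Subgroup.mem_center_iff.mpr fun y => (hx y).symm) hxx⟩
  have e : ⁅x, y⁆ = (x * x) * ((x⁻¹ * y) * (x⁻¹ * y)) * (y⁻¹ * y⁻¹) := by
    simp only [commutatorElement_def]; group
  rcases hsq x with h1 | h1 <;> rcases hsq (x⁻¹ * y) with h2 | h2 <;> rcases hsq y⁻¹ with h3 | h3 <;>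
    simp [e, h1, h2, h3, hzz]

/-- The properties of the pair consisting of a central involution of a centralizer and its generalized Fitting subgroup. -/
structure Pr {G : Type*} [Group G] (z : G) (Q : Subgroup G) : Prop where
  inv : z * z = 1
  ne : z ≠ 1
  mem : z ∈ Q
  cent : ∀ q ∈ Q, q * z = z * q
  norm : ∀ c, c * z = z * c → ∀ q ∈ Q, c * q * c⁻¹ ∈ Q
  sq : ∀ q ∈ Q, q * q = 1 ∨ q * q = z
  comm : ∀ x ∈ Q, ∀ y ∈ Q, ⁅x, y⁆ = 1 ∨ ⁅x, y⁆ = z
  centre : ∀ x ∈ Q, (∀ y ∈ Q, x * y = y * x) → x * x = 1 → x = 1 ∨ x = z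
  stab : ∀ c, c * z = z * c → (∀ q ∈ Q, ⁅c, q⁆ = 1 ∨ ⁅c, q⁆ = z) → c ∈ Q

theorem Pr.conj {G : Type*} [Group G] {z : G} {Q : Subgroup G} (h : Pr z Q) (g : G) :
    Pr (g * z * g⁻¹) (Q.map (MulAut.conj g).toMonoidHom) := by
  set φ := (MulAut.conj g).toMonoidHom with hφ
  have hz : g * z * g⁻¹ = φ z := rfl
  have hinj : Function.Injective φ := (MulAut.conj g).injective
  have hsur : ∀ c, ∃ c', φ c' = c := (MulAut.conj g).surjective
  have h12 : ∀ a, a = 1 ∨ a = z → φ a = 1 ∨ φ a = φ z := by rintro a (rfl | rfl) <;> simp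
  have h21 : ∀ a, φ a = 1 ∨ φ a = φ z → a = 1 ∨ a = z := fun a ha =>
    ha.imp (fun e => hinj (e.trans (map_one φ).symm)) (fun e => hinj e)
  rw [hz]
  refine ⟨by rw [← map_mul, h.inv, map_one], fun e => h.ne (hinj (e.trans (map_one φ).symm)),
    Subgroup.mem_map_of_mem φ h.mem, ?_, ?_, ?_, ?_, ?_, ?_⟩
  · rintro _ ⟨q, hq, rfl⟩
    rw [← map_mul, ← map_mul, h.cent q hq]
  · intro c hc _ hq
    obtain ⟨c, rfl⟩ := hsur c
    obtain ⟨q, hq, rfl⟩ := hq
    rw [← map_inv, ← map_mul, ← map_mul]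
    exact Subgroup.mem_map_of_mem φ (h.norm c (hinj (by rw [map_mul, map_mul, hc])) q hq)
  · rintro _ ⟨q, hq, rfl⟩
    rw [← map_mul]; exact h12 _ (h.sq q hq)
  · rintro _ ⟨x, hx, rfl⟩ _ ⟨y, hy, rfl⟩
    rw [← map_commutatorElement]; exact h12 _ (h.comm x hx y hy)
  · rintro _ ⟨x, hx, rfl⟩ hc hxx
    exact h12 _ (h.centre x hx (fun y hy => hinj (by
      rw [map_mul, map_mul]; exact hc _ (Subgroup.mem_map_of_mem φ hy))) (hinj (by rw [map_mul, hxx, map_one])))
  · intro c hc hs
    obtain ⟨c, rfl⟩ := hsur c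
    exact Subgroup.mem_map_of_mem φ (h.stab c (hinj (by rw [map_mul, map_mul, hc])) fun q hq => h21 _ (by
      rw [map_commutatorElement]; exact hs _ (Subgroup.mem_map_of_mem φ hq)))

theorem mem_of_mem {G : Type*} [Group G] {z z' : G} {Q Q' : Subgroup G} (hA : Pr z Q) (hB : Pr z' Q')
    (hconj : ∀ t, t * z * t⁻¹ = z' → ∀ q ∈ Q, t * q * t⁻¹ ∈ Q') (hne : z' ≠ z) (hin : z' ∈ Q) : z ∈ Q' := by
  classical
  by_contra hzQ
  have hzz' : z' * z = z * z' := hA.cent z' hin
  have hE : z * z' ∈ Q := mul_mem hA.mem hin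
  obtain ⟨x, hx, hxc⟩ : ∃ x ∈ Q, ⁅x, z'⁆ = z := by
    by_contra hcon
    push Not at hcon
    have := hA.centre z' hin (fun y hy => ((commutatorElement_eq_one_iff_mul_comm.mp
      ((hA.comm y hy z' hin).resolve_right (hcon y hy)))).symm) hB.inv
    rcases this with h | h
    · exact hB.ne h
    · exact hne h
  have hx' : x * z' * x⁻¹ = z * z' := by rw [← hxc, commutatorElement_def, inv_mul_cancel_right]
  -- if some element of the second subgroup moves z to z·z', then z lies in it
  have hcase : ∀ h ∈ Q', ⁅h, z⁆ = 1 ∨ ⁅h, z⁆ = z' → h * z = z * h := by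
    intro h hh hh'
    rcases hh' with e | e
    · exact commutatorElement_eq_one_iff_mul_comm.mp e
    · exfalso
      have h1 : h * z * h⁻¹ = z' * z := by rw [← e, commutatorElement_def, inv_mul_cancel_right]
      have h2 : h * z' * h⁻¹ = z' := by rw [hB.cent h hh, mul_inv_cancel_right]
      have h3 : x * z * x⁻¹ = z := by rw [hA.cent x hx, mul_inv_cancel_right]
      have h4 : (x * h) * z * (x * h)⁻¹ = z' := by
        calc (x * h) * z * (x * h)⁻¹ = x * (h * z * h⁻¹) * x⁻¹ := by group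
          _ = (x * z' * x⁻¹) * (x * z * x⁻¹) := by rw [h1]; group
          _ = z * z' * z := by rw [hx', h3]
          _ = z' := by rw [← hzz', mul_assoc, hA.inv, mul_one]
      have h5 : (x * h) * (z * z') * (x * h)⁻¹ = z := by
        calc (x * h) * (z * z') * (x * h)⁻¹ = x * ((h * z * h⁻¹) * (h * z' * h⁻¹)) * x⁻¹ := by group
          _ = x * (z' * z * z') * x⁻¹ := by rw [h1, h2]
          _ = x * z * x⁻¹ := by rw [hzz', mul_assoc z z' z', hB.inv, mul_one]
          _ = z := h3
      exact hzQ (h5 ▸ hconj _ h4 _ hE)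
  have hzN : ∀ h ∈ Q', z * h * z⁻¹ ∈ Q' := hB.norm z hzz'.symm
  -- the intersection of Q and Q'
  have hR : ∀ r ∈ Q, r ∈ Q' → r * r = 1 := by
    intro r h1 h2
    rcases hA.sq r h1 with e | e
    · exact e
    · exact absurd (e ▸ mul_mem h2 h2) hzQ
  have hDcl : ∀ e ∈ Q, e * z' = z' * e → e * e = 1 → (∀ d ∈ Q, d * z' = z' * d → e * d = d * e) →
      e = 1 ∨ e = z ∨ e = z' ∨ e = z * z' := by
    intro e he hez hee hD
    by_cases hc : ∀ y ∈ Q, e * y = y * e
    · rcases hA.centre e he hc hee with h | h <;> simp [h]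
    push Not at hc
    obtain ⟨y, hy, hye⟩ := hc
    -- e and z' induce the same map on Q
    have hez' : ∀ w ∈ Q, (e * z') * w = w * (e * z') := by
      intro w hw
      by_cases hwz : w * z' = z' * w
      · rw [mul_assoc, ← hwz, ← mul_assoc, hD w hw hwz, mul_assoc]
      · have h1 : ⁅z', w⁆ = z := (hA.comm z' hin w hw).resolve_left
          fun h => hwz (commutatorElement_eq_one_iff_mul_comm.mp h).symm
        have h1' : z' * w = z * (w * z') := by rw [← h1, commutatorElement_def]; group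
        have h2 : e * w = z * (w * e) := by
          by_cases hew : e * w = w * e
          · exfalso
            by_cases hyz : y * z' = z' * y
            · exact hye (hD y hy hyz)
            · have h3 : ⁅z', y⁆ = z := (hA.comm z' hin y hy).resolve_left
                fun h => hyz (commutatorElement_eq_one_iff_mul_comm.mp h).symm
              have h3' : z' * y = z * (y * z') := by rw [← h3, commutatorElement_def]; group
              have hwy : (w * y) * z' = z' * (w * y) := by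
                calc (w * y) * z' = w * (y * z') := by group
                  _ = (w * z) * (z * (y * z')) * 1 := by
                      rw [mul_one, mul_assoc, ← mul_assoc z z, hA.inv, one_mul]
                  _ = (z * w) * (z' * y) := by rw [mul_one, ← h3', hA.cent w hw]
                  _ = z * (w * z') * y := by group
                  _ = z' * w * y := by rw [← h1']
                  _ = z' * (w * y) := by group
              have h4 := hD _ (mul_mem hw hy) hwy
              rw [← mul_assoc, hew, mul_assoc, mul_assoc, mul_right_inj] at h4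
              exact hye h4
          · have h3 : ⁅e, w⁆ = z := (hA.comm e he w hw).resolve_left
              fun h => hew (commutatorElement_eq_one_iff_mul_comm.mp h)
            rw [← h3, commutatorElement_def]; group
        calc (e * z') * w = e * (z * (w * z')) := by rw [mul_assoc, h1']
          _ = (e * z) * w * z' := by group
          _ = z * (e * w) * z' := by rw [hA.cent e he]; group
          _ = (z * z) * (w * e) * z' := by rw [h2]; group
          _ = w * (e * z') := by rw [hA.inv, one_mul, mul_assoc]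
    have h2 : (e * z') * (e * z') = 1 := by
      calc (e * z') * (e * z') = e * (z' * e) * z' := by group
        _ = (e * e) * (z' * z') := by rw [← hez]; group
        _ = 1 := by rw [hee, hB.inv, one_mul]
    rcases hA.centre _ (mul_mem he hin) hez' h2 with h | h
    · right; right; left
      calc e = e * (z' * z') := by rw [hB.inv, mul_one]
        _ = z' := by rw [← mul_assoc, h, one_mul]
    · right; right; right
      calc e = e * (z' * z') := by rw [hB.inv, mul_one]
        _ = z * z' := by rw [← mul_assoc, h]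
  have hR' : ∀ r ∈ Q, r ∈ Q' → r = 1 ∨ r = z' := by
    intro r h1 h2
    have hr : r * z' = z' * r := hB.cent r h2
    have := hDcl r h1 hr (hR r h1 h2) fun d hd hdz => by
      have h3 : ⁅r, d⁆ ∈ Q' := by
        have e : ⁅r, d⁆ = r * (d * r⁻¹ * d⁻¹) := by simp only [commutatorElement_def]; group
        rw [e]; exact mul_mem h2 (hB.norm d hdz _ (inv_mem h2))
      exact commutatorElement_eq_one_iff_mul_comm.mp ((hA.comm r h1 d hd).resolve_right fun e => hzQ (e ▸ h3))
    rcases this with h | h | h | h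
    · exact Or.inl h
    · exact absurd (h ▸ h2) hzQ
    · exact Or.inr h
    · exfalso
      refine hzQ ?_
      have := mul_mem (h ▸ h2 : z * z' ∈ Q') hB.mem
      rwa [mul_assoc, hB.inv, mul_one] at this
  -- some element of Q' is moved by z
  have hzs : ¬ ∀ h ∈ Q', h * z = z * h := fun hall => hzQ (hB.stab z hzz'.symm fun q hq =>
    Or.inl (commutatorElement_eq_one_iff_mul_comm.mpr (hall q hq).symm))
  -- commutators with z
  have hW : ∀ h ∈ Q', ⁅z, h⁆ ∈ Q' ∧ ⁅z, h⁆ * z = z * ⁅z, h⁆ ∧ ⁅z, h⁆ * ⁅z, h⁆ = 1 := by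
    intro h hh
    have hz1 : z⁻¹ = z := inv_eq_of_mul_eq_one_right hA.inv
    have hw : ⁅z, h⁆ ∈ Q' := by
      rw [commutatorElement_def]; exact mul_mem (hzN h hh) (inv_mem hh)
    have h1 : z * ⁅z, h⁆ * z⁻¹ = ⁅z, h⁆⁻¹ := by
      calc z * ⁅z, h⁆ * z⁻¹ = (z * z) * h * z⁻¹ * h⁻¹ * z⁻¹ := by simp only [commutatorElement_def]; group
        _ = h * z * h⁻¹ * z⁻¹ := by rw [hA.inv, one_mul, hz1]
        _ = ⁅z, h⁆⁻¹ := by simp only [commutatorElement_def]; group
    have h2 : ⁅⁅z, h⁆, z⁆ = ⁅z, h⁆ * ⁅z, h⁆ := by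
      have e : ∀ w, ⁅w, z⁆ = w * (z * w * z⁻¹)⁻¹ := fun w => by simp only [commutatorElement_def]; group
      rw [e, h1, inv_inv]
    have h3 := hcase _ hw (by rw [h2]; exact hB.sq _ hw)
    refine ⟨hw, h3, ?_⟩
    rw [← h2]; exact commutatorElement_eq_one_iff_mul_comm.mpr h3
  -- elements of Q' centralising all commutators with z centralise z
  have hWc : ∀ c ∈ Q', (∀ h ∈ Q', c * ⁅z, h⁆ = ⁅z, h⁆ * c) → c * z = z * c := by
    intro c hc hcw
    have hkey : ∀ h ∈ Q', (z * c * z⁻¹) * h * (z * c * z⁻¹)⁻¹ = c * h * c⁻¹ := by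
      intro h hh
      obtain ⟨hwQ, hwz, -⟩ := hW h hh
      have hzh : z * h * z⁻¹ = ⁅z, h⁆ * h := by simp only [commutatorElement_def]; group
      have hcen : ∀ a ∈ Q', ∀ b ∈ Q', z * ⁅a, b⁆ * z⁻¹ = ⁅a, b⁆ := by
        intro a ha b hb
        rcases hB.comm a ha b hb with e | e <;> rw [e]
        · simp
        · rw [← hzz', mul_inv_cancel_right]
      have h1 : z * c * z⁻¹ * ⁅z, h⁆ = ⁅z, h⁆ * (z * c * z⁻¹) := by
        calc z * c * z⁻¹ * ⁅z, h⁆ = z * c * (z⁻¹ * (⁅z, h⁆ * z)) * z⁻¹ := by group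
          _ = z * (c * ⁅z, h⁆) * z⁻¹ := by rw [hwz, inv_mul_cancel_left]; group
          _ = (z * ⁅z, h⁆) * c * z⁻¹ := by rw [hcw h hh]; group
          _ = ⁅z, h⁆ * (z * c * z⁻¹) := by rw [← hwz]; group
      have h2 : ⁅z * c * z⁻¹, h⁆ = ⁅c, h⁆ := by
        have e1 : ⁅z * c * z⁻¹, ⁅z, h⁆ * h⁆ = z * ⁅c, h⁆ * z⁻¹ := by
          rw [← hzh]; simp only [commutatorElement_def]; group
        rw [hcen c hc h hh] at e1
        have e2 : ⁅z * c * z⁻¹, ⁅z, h⁆ * h⁆ = ⁅z, h⁆ * ⁅z * c * z⁻¹, h⁆ * ⁅z, h⁆⁻¹ := by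
          calc ⁅z * c * z⁻¹, ⁅z, h⁆ * h⁆ = (z * c * z⁻¹ * ⁅z, h⁆) * h * (z * c * z⁻¹)⁻¹ * h⁻¹ * ⁅z, h⁆⁻¹ := by
                rw [commutatorElement_def]; group
            _ = ⁅z, h⁆ * ⁅z * c * z⁻¹, h⁆ * ⁅z, h⁆⁻¹ := by
                rw [h1, commutatorElement_def (g₁ := z * c * z⁻¹)]; group
        rw [← e1, e2]
        rcases hB.comm _ (hzN c hc) h hh with e | e <;> rw [e]
        · rw [mul_one, mul_inv_cancel]
        · rw [hB.cent _ hwQ, mul_inv_cancel_right]
      calc (z * c * z⁻¹) * h * (z * c * z⁻¹)⁻¹ = ⁅z * c * z⁻¹, h⁆ * h := by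
            rw [commutatorElement_def]; group
        _ = c * h * c⁻¹ := by rw [h2, commutatorElement_def]; group
    refine hcase c hc (hB.centre _ (by
      have e : ⁅c, z⁆ = c * (z * c⁻¹ * z⁻¹) := by simp only [commutatorElement_def]; group
      rw [e]; exact mul_mem hc (hzN _ (inv_mem hc))) (fun h hh => ?_) ?_)
    · obtain ⟨u, hu⟩ : ∃ u, u = z * c * z⁻¹ := ⟨_, rfl⟩
      have huQ : u ∈ Q' := hu ▸ hzN c hc
      have e : ⁅c, z⁆ = c * u⁻¹ := by rw [hu, commutatorElement_def]; group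
      have h3 := hkey (u⁻¹ * h * u) (mul_mem (mul_mem (inv_mem huQ) hh) huQ)
      rw [← hu] at h3
      calc ⁅c, z⁆ * h = (c * (u⁻¹ * h * u) * c⁻¹) * (c * u⁻¹) := by rw [e]; group
        _ = (u * (u⁻¹ * h * u) * u⁻¹) * (c * u⁻¹) := by rw [h3]
        _ = h * ⁅c, z⁆ := by rw [e]; group
    · have e : ⁅c, z⁆ = ⁅z, c⁆⁻¹ := (commutatorElement_inv z c).symm
      rw [e, ← mul_inv_rev, (hW c hc).2.2, inv_one]
  -- elements of D = C_Q(z') square into {1}
  have hDsq : ∀ d ∈ Q, d * z' = z' * d → d * d = 1 := by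
    intro d hd hdz
    rcases hA.sq d hd with e | e
    · exact e
    exfalso
    -- action of d on the centralizer of z in Q'
    have hdp : ∀ p ∈ Q', p * z = z * p → ⁅d, p⁆ = 1 ∨ ⁅d, p⁆ = z' := by
      intro p hp hpz
      refine hR' _ ?_ ?_
      · have e : ⁅d, p⁆ = d * (p * d⁻¹ * p⁻¹) := by simp only [commutatorElement_def]; group
        rw [e]; exact mul_mem hd (hA.norm p hpz _ (inv_mem hd))
      · rw [commutatorElement_def]; exact mul_mem (hB.norm d hdz p hp) (inv_mem hp)
    refine hzs fun h hh => hcase h hh ?_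
    have hc : ⁅d, h⁆ ∈ Q' := by
      rw [commutatorElement_def]; exact mul_mem (hB.norm d hdz h hh) (inv_mem hh)
    have hcp : ∀ p ∈ Q', p * z = z * p → ⁅d, h⁆ * p = p * ⁅d, h⁆ := by
      intro p hp hpz
      have e0 : ∀ a, (a = 1 ∨ a = z') → d * a * d⁻¹ = a := by
        rintro a (rfl | rfl)
        · simp
        · rw [hdz, mul_inv_cancel_right]
      have e1 : ⁅d * h * d⁻¹, d * p * d⁻¹⁆ = ⁅h, p⁆ := by
        rw [← e0 _ (hB.comm h hh p hp)]; simp only [commutatorElement_def]; group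
      have hp' : d * p * d⁻¹ = ⁅d, p⁆ * p := by simp only [commutatorElement_def]; group
      have hh' : d * h * d⁻¹ = ⁅d, h⁆ * h := by simp only [commutatorElement_def]; group
      have hcen : ∀ a, (a = 1 ∨ a = z') → ∀ b ∈ Q', b * a = a * b := by
        rintro a (rfl | rfl) b hb
        · simp
        · exact hB.cent b hb
      have e2 : ⁅d * h * d⁻¹, ⁅d, p⁆ * p⁆ = ⁅d * h * d⁻¹, p⁆ := by
        have hk := hcen _ (hdp p hp hpz)
        have hX := hB.norm d hdz h hh
        have hXp : ⁅d * h * d⁻¹, p⁆ ∈ Q' := by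
          rw [commutatorElement_def]; exact mul_mem (mul_mem (mul_mem hX hp) (inv_mem hX)) (inv_mem hp)
        have aux : ∀ X k : G, ⁅X, k * p⁆ = ⁅X, k⁆ * (k * ⁅X, p⁆ * k⁻¹) := fun X k => by
          simp only [commutatorElement_def]; group
        rw [aux, commutatorElement_eq_one_iff_mul_comm.mpr (hk _ hX), one_mul, ← hk _ hXp, mul_inv_cancel_right]
      rw [hp', e2, hh'] at e1
      have e3 : ⁅⁅d, h⁆ * h, p⁆ = ⁅d, h⁆ * ⁅h, p⁆ * (p * ⁅d, h⁆⁻¹ * p⁻¹) := by
        simp only [commutatorElement_def (g₁ := ⁅d, h⁆ * h), commutatorElement_def (g₁ := h)]; group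
      rw [e3, ← hcen _ (hB.comm h hh p hp) _ hc |>.symm] at e1
      have e4 : ⁅d, h⁆ * (p * ⁅d, h⁆⁻¹ * p⁻¹) = 1 := mul_eq_left.mp (by rw [← mul_assoc]; exact e1)
      calc ⁅d, h⁆ * p = (⁅d, h⁆ * (p * ⁅d, h⁆⁻¹ * p⁻¹)) * (p * ⁅d, h⁆) := by group
        _ = p * ⁅d, h⁆ := by rw [e4, one_mul]
    have hcz : ⁅d, h⁆ * z = z * ⁅d, h⁆ := hWc _ hc fun k hk => hcp _ (hW k hk).1 (hW k hk).2.1
    have hzh : ⁅z, h⁆ = ⁅d, ⁅d, h⁆⁆ * (⁅d, h⁆ * ⁅d, h⁆) := by
      rw [← e]; simp only [commutatorElement_def]; group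
    have hk : ⁅z, h⁆ = 1 ∨ ⁅z, h⁆ = z' := by
      rw [hzh]
      rcases hdp _ hc hcz with a | a <;> rcases hB.sq _ hc with b | b <;> simp [a, b, hB.inv]
    have hz'i : z'⁻¹ = z' := inv_eq_of_mul_eq_one_right hB.inv
    rw [← commutatorElement_inv]
    rcases hk with a | a <;> simp [a, hz'i]
  -- so D is the four-group generated by z and z'
  have hDE : ∀ d ∈ Q, d * z' = z' * d → d = 1 ∨ d = z ∨ d = z' ∨ d = z * z' := by
    intro d hd hdz
    refine hDcl d hd hdz (hDsq d hd hdz) fun b hb hbz => ?_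
    have h1 := hDsq d hd hdz
    have h2 := hDsq b hb hbz
    have h3 := hDsq _ (mul_mem hd hb) (by rw [mul_assoc, hbz, ← mul_assoc, hdz, mul_assoc])
    calc d * b = d⁻¹ * b⁻¹ := by rw [inv_eq_of_mul_eq_one_right h1, inv_eq_of_mul_eq_one_right h2]
      _ = (b * d)⁻¹ := by rw [mul_inv_rev]
      _ = b * d := by
          have : (b * d) * (b * d) = 1 := hDsq _ (mul_mem hb hd) (by rw [mul_assoc, hdz, ← mul_assoc, hbz, mul_assoc])
          exact inv_eq_of_mul_eq_one_right this
  refine hzs fun h hh => ?_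
  obtain ⟨hwQ, hwz, hww⟩ := hW h hh
  set w := ⁅z, h⁆ with hwdef
  have hwx : ⁅w, x⁆ ∈ Q := by rw [commutatorElement_def]; exact mul_mem (hA.norm w hwz x hx) (inv_mem hx)
  have hwz' : w * z' = z' * w := hB.cent w hwQ
  have hwD : ∀ d ∈ Q, d * z' = z' * d → w * d = d * w := by
    intro d hd hdz
    rcases hDE d hd hdz with rfl | rfl | rfl | rfl
    · simp
    · exact hwz
    · exact hwz'
    · rw [← mul_assoc, hwz, mul_assoc, hwz', ← mul_assoc]
  have hw1 : w = 1 ∨ w = z' := by
    refine hR' w (hA.stab w hwz fun q hq => ?_) hwQ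
    by_cases hq' : q * z' = z' * q
    · exact Or.inl (commutatorElement_eq_one_iff_mul_comm.mpr (hwD q hq hq'))
    -- q is in the other coset; w sends q to e q
    have hek : ⁅w, q⁆ ∈ Q := by rw [commutatorElement_def]; exact mul_mem (hA.norm w hwz q hq) (inv_mem hq)
    obtain ⟨k, hk, hkc⟩ : ∃ k, k = ⁅w, q⁆ ∧ w * q * w⁻¹ = k * q :=
      ⟨_, rfl, by rw [commutatorElement_def, inv_mul_cancel_right]⟩
    have hsqq : (k * q) * (k * q) = q * q := by
      rw [← hkc]
      calc w * q * w⁻¹ * (w * q * w⁻¹) = w * (q * q) * w⁻¹ := by group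
        _ = q * q := by
            rcases hA.sq q hq with a | a <;> rw [a]
            · simp
            · rw [hwz, mul_inv_cancel_right]
    have hkz' : k * z' = z' * k := by
      -- w fixes z', so w q w⁻¹ acts on z' as q does
      have hq1 : ⁅q, z'⁆ = z := (hA.comm q hq z' hin).resolve_left
        fun a => hq' (commutatorElement_eq_one_iff_mul_comm.mp a)
      have hq2 : q * z' = z * (z' * q) := by rw [← hq1, commutatorElement_def]; group
      have h3 : (k * q) * z' = z * (z' * (k * q)) := by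
        rw [← hkc]
        calc w * q * w⁻¹ * z' = w * q * (w⁻¹ * (z' * w)) * w⁻¹ := by group
          _ = w * (q * z') * w⁻¹ := by rw [← hwz', inv_mul_cancel_left]; group
          _ = (w * z) * z' * q * w⁻¹ := by rw [hq2]; group
          _ = z * (w * z') * q * w⁻¹ := by rw [hwz]; group
          _ = z * (z' * (w * q * w⁻¹)) := by rw [hwz']; group
      rw [mul_assoc, hq2, ← mul_assoc, hA.cent k (hk ▸ hek), mul_assoc, mul_right_inj, ← mul_assoc,
        ← mul_assoc, mul_left_inj] at h3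
      exact h3
    rw [← hk]
    rcases hDE k (hk ▸ hek) hkz' with a | a | a | a
    · exact Or.inl a
    · exact Or.inr a
    all_goals
      exfalso
      have hq1 : ⁅q, z'⁆ = z := (hA.comm q hq z' hin).resolve_left
        fun a => hq' (commutatorElement_eq_one_iff_mul_comm.mp a)
      have hq2 : q * z' = z * (z' * q) := by rw [← hq1, commutatorElement_def]; group
      rw [a] at hsqq
    · refine hA.ne ((mul_eq_right (a := z) (b := q * q)).mp ?_)
      calc z * (q * q) = z * (z' * z') * (q * q) := by rw [hB.inv, mul_one]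
        _ = (z * z') * (z' * q) * q := by group
        _ = (z' * z) * (z' * q) * q := by rw [hzz']
        _ = z' * (q * z') * q := by rw [hq2]; group
        _ = q * q := by rw [← hsqq]; group
    · refine hA.ne ((mul_eq_right (a := z) (b := q * q)).mp ?_)
      calc z * (q * q) = z * (z' * z') * (q * q) := by rw [hB.inv, mul_one]
        _ = (z * z') * (z' * q) * q := by group
        _ = (z' * z) * (z' * q) * q := by rw [hzz']
        _ = z' * (q * z') * q := by rw [hq2]; group
        _ = (z * z) * (z' * (q * z') * q) := by rw [hA.inv, one_mul]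
        _ = z * ((z * z') * q * z' * q) := by group
        _ = z * (z' * (z * q) * z' * q) := by rw [← hzz']; group
        _ = z * (z' * (q * z) * z' * q) := by rw [hA.cent q hq]
        _ = z * (z' * q * (z * z') * q) := by group
        _ = (z * z' * q) * (z * z' * q) := by group
        _ = q * q := hsqq
  refine hcase h hh ?_
  rw [← commutatorElement_inv, ← hwdef]
  rcases hw1 with a | a <;> simp [a, inv_eq_of_mul_eq_one_right hB.inv]

theorem pr_of_symplectic {G : Type*} [Group G] [Finite G] (z : G) (hz : orderOf z = 2)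
    (hQ : Cfsg.IsOfSymplecticType ↥(Cfsg.generalizedFittingSubgroup ↥(Subgroup.centralizer ({z} : Set G))))
    (h4 : ∀ q ∈ (Cfsg.generalizedFittingSubgroup ↥(Subgroup.centralizer ({z} : Set G))).map (Subgroup.centralizer ({z} : Set G)).subtype, q ^ 4 = 1) :
    Pr z ((Cfsg.generalizedFittingSubgroup ↥(Subgroup.centralizer ({z} : Set G))).map (Subgroup.centralizer ({z} : Set G)).subtype) := by
  classical
  haveI : Fact (Nat.Prime 2) := ⟨Nat.prime_two⟩
  set C := Subgroup.centralizer ({z} : Set G) with hC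
  set F := Cfsg.generalizedFittingSubgroup ↥C with hF
  have hCm : ∀ c, c ∈ C ↔ c * z = z * c := fun c => Subgroup.mem_centralizer_singleton_iff
  have hzC : z ∈ C := (hCm z).mpr rfl
  have hzc : (⟨z, hzC⟩ : ↥C) ∈ Subgroup.center ↥C := Subgroup.mem_center_iff.mpr fun c => Subtype.ext ((hCm c).mp c.2)
  have hzF : (⟨z, hzC⟩ : ↥C) ∈ F := (le_sup_right : Cfsg.fittingSubgroup ↥C ≤ F)
    (CfsgLib.Core.le_fittingSubgroup (N := Subgroup.center ↥C) inferInstance
      (@CommGroup.isNilpotent _ ({ (inferInstance : Group ↥(Subgroup.center ↥C)) with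
        mul_comm := fun a b => Subtype.ext (Subgroup.mem_center_iff.mp b.2 (a : ↥C)) } : CommGroup ↥(Subgroup.center ↥C))) hzc)
  haveI hFn : F.Normal := by
    haveI := CfsgLib.Components.layer_characteristic (G := ↥C)
    haveI := CfsgLib.Core.fittingSubgroup_normal (G := ↥C)
    exact Subgroup.sup_normal _ _
  obtain ⟨hsq, hcomm, hcentre⟩ := symplectic_four hQ (fun q => Subtype.ext (Subtype.ext (by
      simpa using h4 _ ⟨q.1, q.2, rfl⟩))) (z := (⟨_, hzF⟩ : ↥F))
    (by rw [← Subgroup.orderOf_coe, ← Subgroup.orderOf_coe]; exact hz)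
    (fun q => Subtype.ext (Subgroup.mem_center_iff.mp hzc q.1))
  have hzz : z * z = 1 := by rw [← pow_two, ← hz]; exact pow_orderOf_eq_one z
  have hFc : ∀ q : ↥F, (q : ↥C).1 * z = z * (q : ↥C).1 := fun q => (hCm _).mp (q : ↥C).2
  refine ⟨hzz, fun e => by simp [e] at hz, ⟨_, hzF, rfl⟩, ?_, ?_, ?_, ?_, ?_, ?_⟩
  · rintro _ ⟨q, hq, rfl⟩
    exact hFc ⟨q, hq⟩
  · intro c hc _ hq
    obtain ⟨q, hq, rfl⟩ := hq
    exact ⟨⟨c, (hCm c).mpr hc⟩ * q * ⟨c, (hCm c).mpr hc⟩⁻¹, hFn.conj_mem q hq _, rfl⟩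
  · rintro _ ⟨q, hq, rfl⟩
    exact (hsq ⟨q, hq⟩).imp (fun e => congrArg (fun t : ↥F => ((t : ↥C) : G)) e)
      (fun e => congrArg (fun t : ↥F => ((t : ↥C) : G)) e)
  · rintro _ ⟨x, hx, rfl⟩ _ ⟨y, hy, rfl⟩
    exact (hcomm ⟨x, hx⟩ ⟨y, hy⟩).imp (fun e => congrArg (fun t : ↥F => ((t : ↥C) : G)) e)
      (fun e => congrArg (fun t : ↥F => ((t : ↥C) : G)) e)
  · rintro _ ⟨x, hx, rfl⟩ hc hxx
    exact (hcentre ⟨x, hx⟩ (fun y => Subtype.ext (Subtype.ext (hc _ ⟨y.1, y.2, rfl⟩)))
      (Subtype.ext (Subtype.ext hxx))).imp (fun e => congrArg (fun t : ↥F => ((t : ↥C) : G)) e)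
      (fun e => congrArg (fun t : ↥F => ((t : ↥C) : G)) e)
  · intro c hc hs
    -- the stability group of the series F ≥ ⟨z⟩
    let N : Subgroup ↥C :=
      { carrier := {c | ∀ q ∈ F, ⁅(c : G), (q : G)⁆ = 1 ∨ ⁅(c : G), (q : G)⁆ = z}
        one_mem' := fun q _ => Or.inl (by simp)
        mul_mem' := by
          intro a b ha hb q hq
          have e : ⁅((a * b : ↥C) : G), (q : G)⁆ = (a : G) * ⁅(b : G), (q : G)⁆ * (a : G)⁻¹ * ⁅(a : G), (q : G)⁆ := by
            rw [Subgroup.coe_mul]; simp only [commutatorElement_def]; group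
          have haz : (a : G) * z * (a : G)⁻¹ = z := by rw [(hCm a).mp a.2, mul_inv_cancel_right]
          rcases ha q hq with h1 | h1 <;> rcases hb q hq with h2 | h2 <;> rw [e, h1, h2]
          · left; group
          · right; rw [haz, mul_one]
          · right; group
          · left; rw [haz, hzz]
        inv_mem' := by
          intro a ha q hq
          have e : ⁅((a⁻¹ : ↥C) : G), (q : G)⁆ = (a : G)⁻¹ * ⁅(a : G), (q : G)⁆⁻¹ * (a : G) := by
            rw [Subgroup.coe_inv]; simp only [commutatorElement_def]; group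
          have haz := (hCm a).mp a.2
          rcases ha q hq with h1 | h1
          · left; rw [e, h1]; group
          · right
            rw [e, h1, inv_eq_of_mul_eq_one_right hzz, mul_assoc, ← haz, inv_mul_cancel_left] }
    have hNn : N.Normal := by
      refine ⟨fun a ha t q hq => ?_⟩
      have e : ⁅((t * a * t⁻¹ : ↥C) : G), (q : G)⁆ = (t : G) * ⁅(a : G), ((t⁻¹ * q * t⁻¹⁻¹ : ↥C) : G)⁆ * (t : G)⁻¹ := by
        simp only [Subgroup.coe_mul, Subgroup.coe_inv, commutatorElement_def]; group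
      have htz := (hCm t).mp t.2
      rcases ha _ (hFn.conj_mem q hq t⁻¹) with h | h
      · left; rw [e, h]; group
      · right; rw [e, h, htz, mul_inv_cancel_right]
    have hN2 : IsPGroup 2 ↥N := by
      rintro ⟨a, ha⟩
      have h : a * a ∈ Subgroup.centralizer (F : Set ↥C) := Subgroup.mem_centralizer_iff.mpr fun q hq =>
        Subtype.ext (show (q : G) * ((a : G) * (a : G)) = ((a : G) * (a : G)) * (q : G) by
          have haz := (hCm a).mp a.2
          refine (commutatorElement_eq_one_iff_mul_comm.mp ?_).symm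
          have e : ⁅(a : G) * (a : G), (q : G)⁆ = (a : G) * ⁅(a : G), (q : G)⁆ * (a : G)⁻¹ * ⁅(a : G), (q : G)⁆ := by
            simp only [commutatorElement_def]; group
          rcases ha q hq with h1 | h1 <;> simp [e, h1, haz, hzz])
      have h' := CfsgLib.GenFitting.centralizer_genFitting_le h
      obtain ⟨k, hk⟩ := hQ.1 ⟨a * a, h'⟩
      refine ⟨k + 1, Subtype.ext ?_⟩
      have := congrArg Subtype.val hk
      rw [pow_succ', pow_mul, SubmonoidClass.coe_pow]
      simpa [pow_two] using this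
    have hcN : (⟨c, (hCm c).mpr hc⟩ : ↥C) ∈ N := fun q hq => hs _ ⟨q, hq, rfl⟩
    exact ⟨_, (le_sup_right : Cfsg.fittingSubgroup ↥C ≤ F)
      (CfsgLib.Core.pCore_le_fittingSubgroup Nat.prime_two (CfsgLib.Core.le_pCore hNn hN2 hcN)), rfl⟩

theorem main {G : Type*} [Group G] {z : G} {Q : Subgroup G} (hA : Pr z Q) (g : G)
    (hne : g * z * g⁻¹ ≠ z) (hin : g * z * g⁻¹ ∈ Q) :
    z ∈ Q.map (MulAut.conj g).toMonoidHom ∧
      ∀ u ∈ Subgroup.closure ({z, g * z * g⁻¹} : Set G), ∀ v ∈ Subgroup.closure ({z, g * z * g⁻¹} : Set G),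
        u ≠ 1 → v ≠ 1 → u ≠ v →
          ∃ x ∈ Q ⊔ Q.map (MulAut.conj g).toMonoidHom, x * z * x⁻¹ = u ∧ x * (g * z * g⁻¹) * x⁻¹ = v := by
  have hB := hA.conj g
  set z' := g * z * g⁻¹ with hz'
  set Q' := Q.map (MulAut.conj g).toMonoidHom with hQ'
  have hzQ' : z ∈ Q' := by
    refine mem_of_mem hA hB (fun t ht q hq => ?_) hne hin
    have hc : (g⁻¹ * t) * z = z * (g⁻¹ * t) := by
      calc (g⁻¹ * t) * z = g⁻¹ * (t * z * t⁻¹) * t := by group
        _ = z * (g⁻¹ * t) := by rw [ht, hz']; group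
    exact ⟨_, hA.norm _ hc q hq, by simp [mul_assoc]⟩
  refine ⟨hzQ', ?_⟩
  have hzz' : z' * z = z * z' := hA.cent z' hin
  obtain ⟨a, ha, hac⟩ : ∃ a ∈ Q, ⁅a, z'⁆ = z := by
    by_contra hcon
    push Not at hcon
    rcases hA.centre z' hin (fun y hy => ((commutatorElement_eq_one_iff_mul_comm.mp
      ((hA.comm y hy z' hin).resolve_right (hcon y hy)))).symm) hB.inv with h | h
    · exact hB.ne h
    · exact hne h
  obtain ⟨b, hb, hbc⟩ : ∃ b ∈ Q', ⁅b, z⁆ = z' := by
    by_contra hcon
    push Not at hcon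
    rcases hB.centre z hzQ' (fun y hy => ((commutatorElement_eq_one_iff_mul_comm.mp
      ((hB.comm y hy z hzQ').resolve_right (hcon y hy)))).symm) hA.inv with h | h
    · exact hA.ne h
    · exact hne h.symm
  have a1 : a * z * a⁻¹ = z := by rw [hA.cent a ha, mul_inv_cancel_right]
  have a2 : a * z' * a⁻¹ = z * z' := by rw [← hac, commutatorElement_def, inv_mul_cancel_right]
  have a3 : a * (z * z') * a⁻¹ = z' := by
    calc a * (z * z') * a⁻¹ = (a * z * a⁻¹) * (a * z' * a⁻¹) := by group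
      _ = (z * z) * z' := by rw [a1, a2, mul_assoc]
      _ = z' := by rw [hA.inv, one_mul]
  have b1 : b * z * b⁻¹ = z * z' := by rw [← hzz', ← hbc, commutatorElement_def, inv_mul_cancel_right]
  have b2 : b * z' * b⁻¹ = z' := by rw [hB.cent b hb, mul_inv_cancel_right]
  have b3 : b * (z * z') * b⁻¹ = z := by
    calc b * (z * z') * b⁻¹ = (b * z * b⁻¹) * (b * z' * b⁻¹) := by group
      _ = z := by rw [b1, b2, mul_assoc, hB.inv, mul_one]
  have hmem : ∀ u ∈ Subgroup.closure ({z, z'} : Set G), u = 1 ∨ u = z ∨ u = z' ∨ u = z * z' := by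
    intro u hu
    induction hu using Subgroup.closure_induction with
    | mem x hx =>
      rcases hx with rfl | hx
      · simp
      · rw [Set.mem_singleton_iff] at hx; simp [hx]
    | one => simp
    | mul x y _ _ hx hy =>
      have e1 : z * (z * z') = z' := by rw [← mul_assoc, hA.inv, one_mul]
      have e2 : z' * (z * z') = z := by rw [← hzz', ← mul_assoc, hB.inv, one_mul]
      have e3 : z * z' * z = z' := by rw [← hzz', mul_assoc, hA.inv, mul_one]
      have e4 : z * z' * z' = z := by rw [mul_assoc, hB.inv, mul_one]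
      have e5 : z * z' * (z * z') = 1 := by rw [← mul_assoc, e3, hB.inv]
      rcases hx with rfl | rfl | rfl | rfl <;> rcases hy with rfl | rfl | rfl | rfl <;>
        simp only [one_mul, mul_one, hA.inv, hB.inv, hzz', e1, e2, e3, e4, e5] <;> tauto
    | inv x _ hx =>
      have i1 := inv_eq_of_mul_eq_one_right hA.inv
      have i2 := inv_eq_of_mul_eq_one_right hB.inv
      rcases hx with rfl | rfl | rfl | rfl
      · simp
      · simp [i1]
      · simp [i2]
      · rw [mul_inv_rev, i1, i2, hzz']; simp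
  have cc : ∀ p q t : G, (p * q) * t * (p * q)⁻¹ = p * (q * t * q⁻¹) * p⁻¹ := fun p q t => by group
  have haS : a ∈ Q ⊔ Q' := Subgroup.mem_sup_left ha
  have hbS : b ∈ Q ⊔ Q' := Subgroup.mem_sup_right hb
  intro u hu v hv hu1 hv1 huv
  rcases hmem u hu with e | e | e | e <;> rcases hmem v hv with e' | e' | e' | e' <;>
    rw [e] at hu1 huv ⊢ <;> rw [e'] at hv1 huv ⊢ <;>
    first
      | exact (hu1 rfl).elim
      | exact (hv1 rfl).elim
      | exact (huv rfl).elim
      | (refine ⟨1, one_mem _, ?_, ?_⟩ <;> (simp; done))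
      | exact ⟨a, haS, a1, a2⟩
      | exact ⟨b, hbS, b1, b2⟩
      | (refine ⟨a * b, mul_mem haS hbS, ?_, ?_⟩
         · rw [cc, b1, a3]
         · rw [cc, b2, a2])
      | (refine ⟨b * a, mul_mem hbS haS, ?_, ?_⟩
         · rw [cc, a1, b1]
         · rw [cc, a2, b3])
      | (refine ⟨a * (b * a), mul_mem haS (mul_mem hbS haS), ?_, ?_⟩
         · rw [cc, cc, a1, b1, a3]
         · rw [cc, cc, a2, b3, a1])


/-- Let G be a finite group and let z be an involution of G such that Q, the generalized Fitting subgroup of the centralizer C of z, is a 2-group of symplectic type (every characteristic abelian subgroup of Q is cyclic); suppose every element of Q has order dividing 4. Let g ∈ G with z' = g z g⁻¹ ≠ z and z' ∈ Q. Then z lies in the conjugate g Q g⁻¹, and the subgroup X generated by Q and g Q g⁻¹ induces every automorphism of the four-group generated by z and z': for any two distinct non-identity elements u, v of that four-group there is x ∈ X with x z x⁻¹ = u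 and x z' x⁻¹ = v. -/
theorem result {G : Type*} [Group G] [Finite G] (z : G) (hz : orderOf z = 2) (hQ : Cfsg.IsOfSymplecticType ↥(Cfsg.generalizedFittingSubgroup ↥(Subgroup.centralizer ({z} : Set G))))
    (h4 : ∀ q ∈ (Cfsg.generalizedFittingSubgroup ↥(Subgroup.centralizer ({z} : Set G))).map (Subgroup.centralizer ({z} : Set G)).subtype, q ^ 4 = 1) (g : G) (hne : g * z * g⁻¹ ≠ z) (hin : g * z * g⁻¹ ∈ (Cfsg.generalizedFittingSubgroup ↥(Subgroup.centralizer ({z} : Set G))).map (Subgroup.centralizer ({z} : Set G)).subtype) :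
    z ∈ ((Cfsg.generalizedFittingSubgroup ↥(Subgroup.centralizer ({z} : Set G))).map (Subgroup.centralizer ({z} : Set G)).subtype).map (MulAut.conj g).toMonoidHom ∧
      ∀ u ∈ Subgroup.closure ({z, g * z * g⁻¹} : Set G), ∀ v ∈ Subgroup.closure ({z, g * z * g⁻¹} : Set G),
        u ≠ 1 → v ≠ 1 → u ≠ v →
          ∃ x ∈ (Cfsg.generalizedFittingSubgroup ↥(Subgroup.centralizer ({z} : Set G))).map (Subgroup.centralizer ({z} : Set G)).subtype ⊔ ((Cfsg.generalizedFittingSubgroup ↥(Subgroup.centralizer ({z} : Set G))).map (Subgroup.centralizer ({z} : Set G)).subtype).map (MulAut.conj g).toMonoidHom, x * z * x⁻¹ = u ∧ x * (g * z * g⁻¹) * x⁻¹ = v := by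
  exact main (pr_of_symplectic z hz hQ h4) g hne hin

end Cfsg.Agent.S1774
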