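import Cfsg.Statements.S1780

set_option autoImplicit false
open Cfsg

namespace Cfsg.Agent.S1780
private theorem step {A : Type*} [CommGroup A] (hA : IsPGroup 2 A) (t : MulAut A)
    (hC : ∀ a : A, t (t a) = a → t a = a) :
    ∀ a : A, (t * t) ((t * t) a) = a → (t * t) a = a := by
  intro a ha
  have key : ∀ x : A, (t * t) ((t * t) x) = x → (((t * t) x) / x) ^ 2 = 1 → (t * t) x = x := by
    intro x hx hc
    simp only [MulAut.mul_apply] at hx hc ⊢
    set c := t (t x) / x with hcdef
    have hc1 : t (t c) = c := by
      have h1 : c⁻¹ = c := inv_eq_of_mul_eq_one_right (by rwa [← pow_two])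
      conv_rhs => rw [← h1, hcdef, inv_div]
      rw [hcdef, map_div, map_div, hx]
    have htc : t c = c := hC _ hc1
    have he : t x / x = t (t x / x) := by
      have : t (t (t x / x)) = t x / x := by
        have h1 : t (t x / x) * (t x / x) = c := by rw [map_div, hcdef, div_mul_div_cancel]
        have h2 := congrArg t h1
        rw [map_mul, htc, ← h1] at h2
        rw [mul_comm (t (t x / x))] at h2
        exact mul_right_cancel h2
      exact (hC _ this).symm
    have hsq : t (x ^ 2) / x ^ 2 = c := by
      rw [map_pow, ← div_pow, pow_two, hcdef]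
      nth_rewrite 1 [he]
      rw [map_div, div_mul_div_cancel]
    have hfix : t (t (x ^ 2)) = x ^ 2 := by
      have h1 : t (x ^ 2) = c * x ^ 2 := by rw [← hsq, div_mul_cancel]
      rw [h1, map_mul, htc, h1, ← mul_assoc, ← pow_two, hc, one_mul]
    rw [hC _ hfix, div_self'] at hsq
    exact div_eq_one.mp hsq.symm
  obtain ⟨k, hk⟩ := hA (((t * t) a) / a)
  induction k generalizing a with
  | zero => rw [pow_zero, pow_one] at hk; exact div_eq_one.mp hk
  | succ k ih =>
    have h2 : (t * t) (a ^ 2 ^ k) = a ^ 2 ^ k := by
      apply key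
      · rw [map_pow, map_pow, ha]
      · rw [map_pow, ← div_pow, ← pow_mul, ← pow_succ, hk]
    apply ih a ha
    rw [div_pow, ← map_pow, h2, div_self']

private theorem main {A : Type*} [CommGroup A] (hA : IsPGroup 2 A) :
    ∀ (k : ℕ) (t : MulAut A), (∀ a : A, t (t a) = a → t a = a) → t ^ 2 ^ k = 1 → ∀ a, t a = a := by
  intro k
  induction k with
  | zero => intro t _ h a; rw [pow_zero, pow_one] at h; simp [h]
  | succ k ih =>
    intro t hC h a
    apply hC
    have := ih (t * t) (step hA t hC) (by rw [← pow_two, ← pow_mul, ← pow_succ']; exact h) a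
    simpa using this


/-- Let A be a finite abelian 2-group and t an automorphism of A whose order is a power of 2. If every element of A fixed by t² is fixed by t, then t fixes every element of A. -/
theorem result {A : Type*} [CommGroup A] [Finite A]
    (hA : IsPGroup 2 A) (t : MulAut A) (ht : ∃ k : ℕ, orderOf t = 2 ^ k) (hC : ∀ a : A, t (t a) = a → t a = a) :
    ∀ a : A, t a = a := by
  obtain ⟨k, hk⟩ := ht
  exact main hA k t hC (hk ▸ pow_orderOf_eq_one t)

end Cfsg.Agent.S1780
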