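import Cfsg.Statements.S1781
import Cfsg.Agent.Lib.LocalBasic
import Cfsg.Agent.S1757

set_option autoImplicit false
open Cfsg

namespace Cfsg.Agent.S1781
open CfsgLib.LocalBasic
open scoped commutatorElement

/-- Let A be an abelian 2-subgroup of the finite group G such that every conjugate of A equals A or meets A trivially, and let g ∈ G with g A g⁻¹ ≠ A. Then either the subgroup of those elements of A that normalize g A g⁻¹ is an elementary abelian 2-group, or A and g A g⁻¹ commute elementwise. -/
theorem result {G : Type*} [Group G] [Finite G] (A : Subgroup G)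
    (hA2 : IsPGroup 2 ↥A) (hAa : IsMulCommutative ↥A)
    (hti : ∀ h : G, A.map (MulAut.conj h).toMonoidHom = A ∨ A.map (MulAut.conj h).toMonoidHom ⊓ A = ⊥)
    (g : G) (hg : A.map (MulAut.conj g).toMonoidHom ≠ A) :
    Cfsg.IsElementaryAbelian 2 (A ⊓ Subgroup.normalizer ((A.map (MulAut.conj g).toMonoidHom : Subgroup G) : Set G)) ∨
      ⁅A, A.map (MulAut.conj g).toMonoidHom⁆ = ⊥ := by
  haveI : Fact (Nat.Prime 2) := ⟨Nat.prime_two⟩
  set B := A.map (MulAut.conj g).toMonoidHom with hBdef
  set N := Subgroup.normalizer (B : Set G)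
  have hAB : A ⊓ B = ⊥ := by rw [inf_comm]; exact (hti g).resolve_left hg
  have hBti : ∀ h : G, B.map (MulAut.conj h).toMonoidHom = B ∨ B.map (MulAut.conj h).toMonoidHom ⊓ B = ⊥ := by
    intro h
    have e : B.map (MulAut.conj h).toMonoidHom =
        ((A.map (MulAut.conj (g⁻¹ * h * g)).toMonoidHom)).map (MulAut.conj g).toMonoidHom := by
      rw [hBdef, Subgroup.map_map, Subgroup.map_map]
      congr 1
      ext x; simp [mul_assoc]
    rcases hti (g⁻¹ * h * g) with h1 | h1
    · left; rw [e, h1]
    · right; rw [e, hBdef, ← Subgroup.map_inf _ _ _ (MulEquiv.injective _), h1, Subgroup.map_bot]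
  have hB2 : IsPGroup 2 ↥B := hA2.map _
  have hcard : Nat.card ↥B = Nat.card ↥A := Subgroup.card_map_of_injective (f := (MulAut.conj g).toMonoidHom) (MulEquiv.injective _)
  have hBa : IsMulCommutative ↥B := Subgroup.map_isMulCommutative A _
  by_cases hcom : ⁅A, B⁆ = ⊥
  · exact Or.inr hcom
  left
  refine ⟨⟨⟨fun a b => Subtype.ext (congrArg (fun w : ↥A => (w : G)) (mul_comm' (⟨a.1, a.2.1⟩ : ↥A) ⟨b.1, b.2.1⟩) :)⟩⟩, ?_⟩
  -- it suffices to treat elements of order dividing four
  have h4 : ∀ a ∈ A ⊓ N, (a * a) * (a * a) = 1 → a * a = 1 := by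
    rintro a ⟨haA, haN⟩ ha4
    by_contra hu1
    apply hcom
    have ha1 : a ≠ 1 := fun h => hu1 (by rw [h, one_mul])
    have hBn : B ≤ Subgroup.normalizer (A : Set G) := by
      have hkey : ∀ b ∈ B, ∀ v ∈ A, v ≠ 1 → b * v = v * b → b ∈ Subgroup.normalizer (A : Set G) := by
        intro b _ v hv hv1 hbv
        refine mem_normalizer_of_conj_map_eq ((hti b).resolve_right fun hdis => hv1 ?_)
        have hmem : v ∈ A.map (MulAut.conj b).toMonoidHom ⊓ A :=
          ⟨⟨v, hv, by simp [hbv]⟩, hv⟩
        rw [hdis] at hmem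
        exact hmem
      have hcn : ∀ b ∈ B, b ∈ Subgroup.normalizer (A : Set G) → b * a = a * b := by
        intro b hb hbn
        have h1 : ⁅b, a⁆ ∈ A ⊓ B := by
          constructor
          · rw [commutatorElement_def]
            exact A.mul_mem ((Subgroup.mem_normalizer_iff.mp hbn a).mp haA) (A.inv_mem haA)
          · rw [commutatorElement_def, mul_assoc, mul_assoc, ← mul_assoc a]
            exact B.mul_mem hb ((Subgroup.mem_normalizer_iff.mp haN _).mp (B.inv_mem hb))
        rw [hAB, Subgroup.mem_bot] at h1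
        exact commutatorElement_eq_one_iff_mul_comm.mp h1
      by_contra hne
      set H := B ⊔ Subgroup.zpowers a with hH
      have hHp : IsPGroup 2 ↥H := IsPGroup.to_sup_of_normal_left' hB2 (hA2.to_le (Subgroup.zpowers_le.mpr haA))
        (Subgroup.zpowers_le.mpr haN)
      set Z := B ⊓ Subgroup.normalizer (A : Set G)
      have hnB : (Subgroup.zpowers a).subgroupOf H ≤ Subgroup.normalizer ((B.subgroupOf H : Subgroup ↥H) : Set ↥H) := by
        intro x hx
        rw [← Subgroup.subgroupOf_normalizer_eq le_sup_left, Subgroup.mem_subgroupOf]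
        exact (Subgroup.zpowers_le.mpr haN) hx
      obtain ⟨D, hD, hDZ, hDK, -⟩ := exists_commutator_le hHp.isNilpotent (C := B.subgroupOf H)
        (K := (Subgroup.zpowers a).subgroupOf H) (Z := Z.subgroupOf H) hnB (fun h => hne fun b hb => (h (show (⟨b, Subgroup.mem_sup_left hb⟩ : ↥H) ∈ B.subgroupOf H from hb)).2)
      obtain ⟨b', hb'D, hb'Z⟩ := SetLike.not_le_iff_exists.mp hDZ
      set b : G := (b' : G)
      have hbB : b ∈ B := hD hb'D
      have hbn : b ∉ Subgroup.normalizer (A : Set G) := fun h => hb'Z ⟨hbB, h⟩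
      have hcZ : ⁅b, a⁆ ∈ Z := hDK (Subgroup.commutator_mem_commutator hb'D
        (show (⟨a, Subgroup.mem_sup_right (Subgroup.mem_zpowers a)⟩ : ↥H) ∈ (Subgroup.zpowers a).subgroupOf H from Subgroup.mem_zpowers a))
      set c := ⁅b, a⁆ with hc
      have hca : c * a = a * c := hcn c hcZ.1 hcZ.2
      have hcb : c * b = b * c := congrArg Subtype.val (mul_comm' (⟨c, hcZ.1⟩ : ↥B) ⟨b, hbB⟩)
      have hba : b * a * b⁻¹ = c * a := by rw [hc, commutatorElement_def]; group
      have hu : b * (a * a) * b⁻¹ = c * c * (a * a) := by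
        calc b * (a * a) * b⁻¹ = (b * a * b⁻¹) * (b * a * b⁻¹) := by group
          _ = c * (a * c) * a := by rw [hba]; group
          _ = c * c * (a * a) := by rw [← hca]; group
      have hbc : b * c * b⁻¹ = c := by rw [← hcb, mul_inv_cancel_right]
      have hc4 : (c * c) * (c * c) = 1 := by
        have hcu : c * c * (a * a) = a * a * (c * c) :=
          (((show Commute c a from hca).mul_left hca).mul_right ((show Commute c a from hca).mul_left hca)).eq
        have h := congrArg (fun w => b * w * b⁻¹) ha4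
        simp only [mul_one, mul_inv_cancel] at h
        have e : b * (a * a * (a * a)) * b⁻¹ = c * c * (c * c) * (a * a * (a * a)) := by
          calc b * (a * a * (a * a)) * b⁻¹ = (b * (a * a) * b⁻¹) * (b * (a * a) * b⁻¹) := by group
            _ = c * c * ((a * a) * (c * c)) * (a * a) := by rw [hu]; group
            _ = c * c * (c * c) * (a * a * (a * a)) := by rw [← hcu]; group
        rw [e, ha4, mul_one] at h
        exact h
      have hb2u : (b * b) * (a * a) = (a * a) * (b * b) := by
        have e : (b * b) * (a * a) * (b * b)⁻¹ = a * a := by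
          calc (b * b) * (a * a) * (b * b)⁻¹ = b * (b * (a * a) * b⁻¹) * b⁻¹ := by group
            _ = (b * c * b⁻¹) * (b * c * b⁻¹) * (b * (a * a) * b⁻¹) := by (conv_lhs => rw [hu]); group
            _ = c * c * (c * c) * (a * a) := by rw [hbc, hu]; group
            _ = a * a := by rw [hc4, one_mul]
        calc b * b * (a * a) = b * b * (a * a) * (b * b)⁻¹ * (b * b) := by group
          _ = a * a * (b * b) := by rw [e]
      have hb2a := hcn _ (B.mul_mem hbB hbB) (hkey _ (B.mul_mem hbB hbB) _ (A.mul_mem haA haA) hu1 hb2u)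
      have hc2 : c * c = 1 := by
        have e : (b * b) * a * (b * b)⁻¹ = c * c * a := by
          calc (b * b) * a * (b * b)⁻¹ = b * (b * a * b⁻¹) * b⁻¹ := by group
            _ = (b * c * b⁻¹) * (b * a * b⁻¹) := by (conv_lhs => rw [hba]); group
            _ = c * c * a := by rw [hbc, hba]; group
        rw [hb2a, mul_inv_cancel_right] at e
        exact mul_eq_right.mp e.symm
      refine hbn (hkey b hbB _ (A.mul_mem haA haA) hu1 ?_)
      rw [hc2, one_mul] at hu
      calc b * (a * a) = b * (a * a) * b⁻¹ * b := by group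
        _ = a * a * b := by rw [hu]
    exact Cfsg.Agent.S1757.result 2 A B hA2 hB2 hti hBti hcard.ge hAB hBn
  intro a ha
  rw [pow_two]
  obtain ⟨k, hk⟩ := hA2 ⟨a, ha.1⟩
  have hk' : a ^ 2 ^ k = 1 := by simpa using congrArg Subtype.val hk
  clear hk
  induction k generalizing a with
  | zero => rw [pow_zero, pow_one] at hk'; rw [hk', one_mul]
  | succ k ih => exact h4 a ha (ih (a * a) ((A ⊓ N).mul_mem ha ha) (by rw [← pow_two, ← pow_mul, ← pow_succ', hk']))

end Cfsg.Agent.S1781
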