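import Cfsg.Statements.S1782
import Cfsg.Agent.Lib.LocalBasic
import Cfsg.Agent.S1757

set_option autoImplicit false
open Cfsg

namespace Cfsg.Agent.S1782
open CfsgLib.LocalBasic

/-- The Frattini subgroup of a group of exponent two is trivial. -/
theorem frattini_eq_bot_of_sq {E : Type*} [Group E] [Finite E] (h : ∀ x : E, x * x = 1) : frattini E = ⊥ := by
  have hcomm : ∀ a b : E, a * b = b * a := by
    intro a b
    have hinv : ∀ c : E, c⁻¹ = c := fun c => inv_eq_of_mul_eq_one_right (h c)
    calc a * b = (a * b)⁻¹ := (hinv _).symm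
      _ = b⁻¹ * a⁻¹ := mul_inv_rev a b
      _ = b * a := by rw [hinv a, hinv b]
  rw [eq_bot_iff]
  intro x hx
  rw [Subgroup.mem_bot]
  by_contra hx1
  obtain ⟨M, hM⟩ := (Set.toFinite {M : Subgroup E | x ∉ M}).exists_maximal ⟨⊥, by simpa using hx1⟩
  have key : ∀ y, y ∉ M → x⁻¹ * y ∈ M := by
    intro y hy
    let M' : Subgroup E :=
      { carrier := {e | e ∈ M ∨ y⁻¹ * e ∈ M}
        one_mem' := Or.inl M.one_mem
        mul_mem' := by
          rintro a b (ha | ha) (hb | hb)
          · exact Or.inl (M.mul_mem ha hb)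
          · exact Or.inr (by rw [← mul_assoc, hcomm y⁻¹ a, mul_assoc]; exact M.mul_mem ha hb)
          · exact Or.inr (by rw [← mul_assoc]; exact M.mul_mem ha hb)
          · refine Or.inl ?_
            have e : y⁻¹ * a * (y⁻¹ * b) = a * b := by
              rw [hcomm y⁻¹ a, mul_assoc, ← mul_assoc y⁻¹, ← mul_inv_rev, h y, inv_one, one_mul]
            exact e ▸ M.mul_mem ha hb
        inv_mem' := by
          intro a ha
          simpa [inv_eq_of_mul_eq_one_right (h a)] using ha }
    by_contra hne
    have hx' : x ∉ M' := by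
      rintro (hh | hh)
      · exact hM.1 hh
      · apply hne
        have := M.inv_mem hh
        rwa [mul_inv_rev, inv_inv] at this
    exact hy (hM.2 hx' (fun e he => Or.inl he) (Or.inr (by simp)))
  have hco : IsCoatom M := by
    refine ⟨fun hh => hM.1 (hh ▸ Subgroup.mem_top x), fun N hN => ?_⟩
    obtain ⟨y, hyN, hyM⟩ := SetLike.exists_of_lt hN
    have hxN : x ∈ N := by
      have := N.mul_mem hyN (N.inv_mem (hN.le (key y hyM)))
      simpa [mul_assoc] using this
    rw [Subgroup.eq_top_iff']
    intro e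
    by_cases he : e ∈ M
    · exact hN.le he
    · simpa [mul_assoc] using N.mul_mem hxN (hN.le (key e he))
  exact hM.1 (frattini_le_coatom hco hx)

universe u

theorem main : ∀ (n : ℕ) {S : Type u} [Group S] [Finite S], Nat.card S = n → IsPGroup 2 S →
    ∀ Δ : Set (Subgroup S), (∀ s : S, ∀ R ∈ Δ, R.map (MulAut.conj s).toMonoidHom ∈ Δ) →
    (∀ R ∈ Δ, frattini ↥R ≠ ⊥) → (∀ R ∈ Δ, ∀ T ∈ Δ, Nat.card ↥R = Nat.card ↥T) →
    (∀ R ∈ Δ, ∀ T ∈ Δ, R = T ∨ R ⊓ T = ⊥) → ∀ R ∈ Δ, ∀ T ∈ Δ, R ≠ T → ⁅R, T⁆ = ⊥ := by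
  intro n
  induction n using Nat.strong_induction_on with
  | _ n ih =>
    intro S _ _ hn hS Δ hinv hΦ hord hti R hR T hT hRT
    haveI : Fact (Nat.Prime 2) := ⟨Nat.prime_two⟩
    have hdis : R ⊓ T = ⊥ := (hti R hR T hT).resolve_left hRT
    have hne : ∀ X ∈ Δ, X ≠ ⊥ := by
      intro X hX h
      apply hΦ X hX
      subst h
      exact Subsingleton.elim _ _
    have hTI : ∀ X ∈ Δ, ∀ g : S, X.map (MulAut.conj g).toMonoidHom = X ∨ X.map (MulAut.conj g).toMonoidHom ⊓ X = ⊥ :=
      fun X hX g => hti _ (hinv g X hX) X hX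
    by_cases hN1 : R ≤ Subgroup.normalizer (T : Set S)
    · rw [Subgroup.commutator_comm]
      exact Cfsg.Agent.S1757.result 2 T R (hS.to_subgroup T) (hS.to_subgroup R) (hTI T hT) (hTI R hR)
        (hord T hT R hR).le (by rw [inf_comm]; exact hdis) hN1
    by_cases hN2 : T ≤ Subgroup.normalizer (R : Set S)
    · exact Cfsg.Agent.S1757.result 2 R T (hS.to_subgroup R) (hS.to_subgroup T) (hTI R hR) (hTI T hT)
        (hord R hR T hT).le hdis hN2
    exfalso
    -- distinct conjugates of a member commute, by induction in a maximal subgroup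
    have hcomm : ∀ X ∈ Δ, ∀ g : S, g ∉ Subgroup.normalizer (X : Set S) →
        ∀ a ∈ X, ∀ b ∈ X, a * (g * b * g⁻¹) = g * b * g⁻¹ * a := by
      intro X hX g hg a ha b hb
      have hXtop : X ≠ ⊤ := by
        rintro rfl
        rcases hti ⊤ hX R hR with h | h
        · rcases hti ⊤ hX T hT with h' | h'
          · exact hRT (h.symm.trans h')
          · exact hne T hT (by simpa using h')
        · exact hne R hR (by simpa using h)
      obtain ⟨M, hM, hXM⟩ := (IsCoatomic.eq_top_or_exists_le_coatom X).resolve_left hXtop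
      haveI hnil : Group.IsNilpotent S := hS.isNilpotent
      have hMn : M.Normal := Subgroup.NormalizerCondition.normal_of_coatom M Group.normalizerCondition_of_isNilpotent hM
      set X' := X.map (MulAut.conj g).toMonoidHom
      have hX'M : X' ≤ M := by
        rintro _ ⟨y, hy, rfl⟩
        simpa using hMn.conj_mem y (hXM hy) g
      have hlt : Nat.card ↥M < n := hn ▸ lt_of_le_of_ne (Subgroup.card_le_card_group M) fun h => hM.1 (Subgroup.eq_top_of_card_eq M h)
      have hcard : ∀ Y : Subgroup ↥M, Nat.card ↥(Y.map M.subtype) = Nat.card ↥Y := fun Y =>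
        Subgroup.card_map_of_injective M.subtype_injective
      have h := ih _ hlt (S := ↥M) rfl (hS.to_subgroup M) {Y | Y.map M.subtype ∈ Δ} ?_ ?_ ?_ ?_
        (X.subgroupOf M) ?_ (X'.subgroupOf M) ?_ ?_
      · rw [← Subgroup.map_eq_bot_iff_of_injective _ M.subtype_injective, Subgroup.map_commutator,
          Subgroup.map_subgroupOf_eq_of_le hXM, Subgroup.map_subgroupOf_eq_of_le hX'M,
          Subgroup.commutator_eq_bot_iff_le_centralizer] at h
        exact (Subgroup.mem_centralizer_iff.mp (h ha) _ ⟨b, hb, rfl⟩).symm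
      · intro s Y hY
        show (Y.map _).map M.subtype ∈ Δ
        rw [Subgroup.map_map, show M.subtype.comp (MulAut.conj s).toMonoidHom =
          ((MulAut.conj (s : S)).toMonoidHom).comp M.subtype by ext; simp, ← Subgroup.map_map]
        exact hinv _ _ hY
      · intro Y hY h0
        apply hΦ _ hY
        have e := (Y.equivMapOfInjective M.subtype M.subtype_injective)
        rw [eq_bot_iff]
        refine (frattini_le_comap_frattini_of_surjective (φ := e.symm.toMonoidHom) e.symm.surjective).trans ?_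
        rw [h0]
        intro y hy
        rw [Subgroup.mem_comap, Subgroup.mem_bot] at hy
        exact Subgroup.mem_bot.mpr (e.symm.injective (hy.trans (map_one e.symm).symm))
      · intro Y hY Z hZ; rw [← hcard Y, ← hcard Z]; exact hord _ hY _ hZ
      · intro Y hY Z hZ
        rcases hti _ hY _ hZ with h | h
        · exact Or.inl (Subgroup.map_injective M.subtype_injective h)
        · refine Or.inr ?_
          rw [← Subgroup.map_eq_bot_iff_of_injective _ M.subtype_injective, Subgroup.map_inf _ _ _ M.subtype_injective, h]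
      · show _ ∈ Δ; rw [Subgroup.map_subgroupOf_eq_of_le hXM]; exact hX
      · show _ ∈ Δ; rw [Subgroup.map_subgroupOf_eq_of_le hX'M]; exact hinv g X hX
      · intro h
        have := congrArg (Subgroup.map M.subtype) h
        rw [Subgroup.map_subgroupOf_eq_of_le hXM, Subgroup.map_subgroupOf_eq_of_le hX'M] at this
        exact hg (mem_normalizer_of_conj_map_eq this.symm)
    obtain ⟨t, htT, ht, htt⟩ : ∃ t ∈ T, t ∉ Subgroup.normalizer (R : Set S) ∧ t * t ∈ Subgroup.normalizer (R : Set S) := by
      obtain ⟨t, ht, htn⟩ := SetLike.not_le_iff_exists.mp hN2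
      obtain ⟨k, hk⟩ := hS t
      induction k generalizing t with
      | zero => exact absurd (by rw [pow_zero, pow_one] at hk; rw [hk]; exact Subgroup.one_mem _) htn
      | succ k ihk =>
        by_cases h : t * t ∈ Subgroup.normalizer (R : Set S)
        · exact ⟨t, ht, htn, h⟩
        · exact ihk (t * t) (T.mul_mem ht ht) h (by rw [← pow_two, ← pow_mul, ← pow_succ', hk])
    have hint : ∀ r ∈ R, ∀ r' ∈ R, r = t * r' * t⁻¹ → r = 1 := by
      intro r hr r' hr' h
      have hmem : r ∈ R.map (MulAut.conj t).toMonoidHom ⊓ R := ⟨⟨r', hr', h.symm⟩, hr⟩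
      rw [((hTI R hR t).resolve_left fun h' => ht (mem_normalizer_of_conj_map_eq h'))] at hmem
      exact hmem
    have hinvol : ∀ x ∈ R, x ∉ Subgroup.normalizer (T : Set S) → x * x = 1 := by
      intro x hx hxn
      set a := t * x * t⁻¹
      have hax : ∀ r ∈ R, ∀ r' ∈ R, r * (t * r' * t⁻¹) = t * r' * t⁻¹ * r := fun r hr r' hr' => hcomm R hR t ht r hr r' hr'
      set x2 := (t * t) * x * (t * t)⁻¹ with hx2
      have hx2R : x2 ∈ R := (Subgroup.mem_normalizer_iff.mp htt x).mp hx
      have hct := hcomm T hT x hxn t htT t⁻¹ (T.inv_mem htT)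
      -- `t` commutes with `x t⁻¹ x⁻¹`, hence with `a x⁻¹`
      have hfix : t * (a * x⁻¹) * t⁻¹ = a * x⁻¹ := by
        simp only [a]
        calc t * (t * x * t⁻¹ * x⁻¹) * t⁻¹ = t * (t * (x * t⁻¹ * x⁻¹)) * t⁻¹ := by group
          _ = t * (x * t⁻¹ * x⁻¹ * t) * t⁻¹ := by rw [hct]
          _ = t * x * t⁻¹ * x⁻¹ := by group
      have hfix' : x2 * a⁻¹ = a * x⁻¹ := by rw [← hfix]; simp only [a, hx2]; group
      have hxa := hax x hx x hx
      have hkey : x2 * x = a * a := by
        calc x2 * x = (x2 * a⁻¹) * (a * x) := by group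
          _ = (a * x⁻¹) * (x * a) := by rw [hfix', ← hxa]
          _ = a * a := by group
      have h1 := hint _ (R.mul_mem hx2R hx) (x * x) (R.mul_mem hx hx) (by rw [hkey]; simp only [a]; group)
      have h2 : a * a = 1 := hkey ▸ h1
      calc x * x = t⁻¹ * (a * a) * t := by simp only [a]; group
        _ = 1 := by rw [h2]; group
    obtain ⟨x, hxR, hxn⟩ := SetLike.not_le_iff_exists.mp hN1
    have hx2 : x * x = 1 := hinvol x hxR hxn
    have hall : ∀ a ∈ R, a * a = 1 := by
      have h4 : ∀ a ∈ R, (a * a) * (a * a) = 1 → a * a = 1 := by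
        intro a ha ha4
        by_cases han : a ∈ Subgroup.normalizer (T : Set S)
        swap
        · exact hinvol a ha han
        set u := a * a
        have hxa : x * a * (x * a) = 1 := by
          refine hinvol _ (R.mul_mem hxR ha) fun h => hxn ?_
          have := Subgroup.mul_mem _ h (Subgroup.inv_mem _ han)
          simpa [mul_assoc] using this
        have hxinv : x⁻¹ = x := inv_eq_of_mul_eq_one_right hx2
        have hxax : x * a * x⁻¹ = a⁻¹ := by
          rw [hxinv]
          calc x * a * x = x * a * (x * a) * a⁻¹ := by group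
            _ = a⁻¹ := by rw [hxa, one_mul]
        have hxu : x * u * x⁻¹ = u := by
          calc x * u * x⁻¹ = (x * a * x⁻¹) * (x * a * x⁻¹) := by simp only [u]; group
            _ = u⁻¹ := by rw [hxax]; simp only [u]; group
            _ = u := inv_eq_of_mul_eq_one_right ha4
        set b := t * a * t⁻¹
        have hc : b * a⁻¹ ∈ T := by
          have := T.mul_mem htT ((Subgroup.mem_normalizer_iff.mp han _).mp (T.inv_mem htT))
          simpa [b, mul_assoc] using this
        have hab := hcomm R hR t ht a⁻¹ (R.inv_mem ha) a ha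
        set d := (t * u * t⁻¹) * u⁻¹ with hd
        have hdT : d ∈ T := by
          have : d = (b * a⁻¹) * (b * a⁻¹) := by
            simp only [hd, b, u]
            calc t * (a * a) * t⁻¹ * (a * a)⁻¹ = (t * a * t⁻¹) * ((t * a * t⁻¹) * a⁻¹) * a⁻¹ := by group
              _ = (t * a * t⁻¹) * (a⁻¹ * (t * a * t⁻¹)) * a⁻¹ := by rw [hab]
              _ = _ := by group
          rw [this]; exact T.mul_mem hc hc
        have hxtu := hcomm R hR t ht x hxR u (R.mul_mem ha ha)
        have hdx : x * d * x⁻¹ = d := by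
          calc x * d * x⁻¹ = (x * (t * u * t⁻¹)) * x⁻¹ * (x * u⁻¹ * x⁻¹) := by simp only [hd]; group
            _ = ((t * u * t⁻¹) * x) * x⁻¹ * (x * u * x⁻¹)⁻¹ := by rw [hxtu]; group
            _ = d := by rw [hxu]; simp only [hd]; group
        have hd1 : d = 1 := by
          have hmem : d ∈ T.map (MulAut.conj x).toMonoidHom ⊓ T := ⟨⟨d, hdT, hdx⟩, hdT⟩
          rw [((hTI T hT x).resolve_left fun h' => hxn (mem_normalizer_of_conj_map_eq h'))] at hmem
          exact hmem
        refine hint u (R.mul_mem ha ha) u (R.mul_mem ha ha) ?_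
        exact (mul_inv_eq_one.mp hd1).symm
      intro a ha
      obtain ⟨k, hk⟩ := hS a
      induction k generalizing a with
      | zero => rw [pow_zero, pow_one] at hk; rw [hk, one_mul]
      | succ k ihk => exact h4 a ha (ihk (a * a) (R.mul_mem ha ha) (by rw [← pow_two, ← pow_mul, ← pow_succ', hk]))
    exact hΦ R hR (frattini_eq_bot_of_sq fun a => Subtype.ext (hall a.1 a.2))


/-- Let S be a finite 2-group and Δ a set of subgroups of S closed under conjugation by S, all of the same order, each with nontrivial Frattini subgroup, and such that two distinct members of Δ meet trivially. Then any two distinct members of Δ commute elementwise. -/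
theorem result {S : Type*} [Group S] [Finite S] (hS : IsPGroup 2 S)
    (Δ : Set (Subgroup S)) (hinv : ∀ s : S, ∀ R ∈ Δ, R.map (MulAut.conj s).toMonoidHom ∈ Δ)
    (hΦ : ∀ R ∈ Δ, frattini ↥R ≠ ⊥) (hord : ∀ R ∈ Δ, ∀ T ∈ Δ, Nat.card ↥R = Nat.card ↥T)
    (hti : ∀ R ∈ Δ, ∀ T ∈ Δ, R = T ∨ R ⊓ T = ⊥) :
    ∀ R ∈ Δ, ∀ T ∈ Δ, R ≠ T → ⁅R, T⁆ = ⊥ := by
  exact main _ rfl hS Δ hinv hΦ hord hti

end Cfsg.Agent.S1782
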