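import Cfsg.Statements.S1783
import Cfsg.Agent.Lib.Core
import Cfsg.Agent.Lib.LocalBasic
import Cfsg.Agent.Lib.GenFitting
import Cfsg.Agent.S0012
import Cfsg.Agent.S0093

set_option autoImplicit false
open Cfsg

namespace Cfsg.Agent.S1783

open scoped commutatorElement

theorem squares_le_pCore {X : Type*} [Group X] [Finite X]
    (hX : Cfsg.generalizedFittingSubgroup X = Cfsg.pCore 2 X) (A : Subgroup X) (hA2 : IsPGroup 2 ↥A)
    (hAc : ∀ x ∈ A, ∀ y ∈ A, x * y = y * x)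
    (hTI : ∀ z ∈ A, z ≠ 1 → ∀ g : X, g * z = z * g → ∀ y ∈ A, g⁻¹ * y * g ∈ A)
    {a : X} (ha : a ∈ A) : a ^ 2 ∈ Cfsg.pCore 2 X := by
  classical
  haveI : Fact (Nat.Prime 2) := ⟨Nat.prime_two⟩
  by_cases ha2 : a ^ 2 = 1
  · rw [ha2]; exact one_mem _
  have hQp : IsPGroup 2 ↥(Cfsg.pCore 2 X) := CfsgLib.Core.isPGroup_pCore 2
  haveI : (Cfsg.pCore 2 X).Characteristic := CfsgLib.Core.pCore_characteristic 2
  set Q := Cfsg.pCore 2 X with hQ
  haveI hQn : Q.Normal := inferInstance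
  obtain ⟨H, hHc, hHphi, hHcomm, hHcen⟩ := Cfsg.Agent.S0093.result hQp
  haveI := hHc
  obtain ⟨C, hC⟩ : ∃ C, C = H.map Q.subtype := ⟨_, rfl⟩
  haveI hCn : C.Normal := hC ▸ inferInstance
  haveI : (Subgroup.centralizer (C : Set X)).Normal := inferInstance
  obtain ⟨D, hD⟩ : ∃ D, D = C ⊓ Subgroup.centralizer (C : Set X) := ⟨_, rfl⟩
  haveI hDn : D.Normal := hD ▸ Subgroup.normal_inf_normal _ _
  have hCQ : C ≤ Q := hC ▸ Subgroup.map_subtype_le H
  have hDC : D ≤ C := hD ▸ inf_le_left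
  have hmemC : ∀ h : ↥Q, h ∈ H → (h : X) ∈ C := fun h hh => hC ▸ ⟨h, hh, rfl⟩
  have hCmem : ∀ x ∈ C, ∃ h : ↥Q, h ∈ H ∧ (h : X) = x := by
    rw [hC]; rintro x ⟨h, hh, rfl⟩; exact ⟨h, hh, rfl⟩
  have hmemD : ∀ h : ↥Q, h ∈ H → h ∈ Subgroup.centralizer (H : Set ↥Q) → (h : X) ∈ D := by
    intro h h1 h2
    rw [hD]
    refine Subgroup.mem_inf.mpr ⟨hmemC h h1, Subgroup.mem_centralizer_iff.mpr fun c hc => ?_⟩
    obtain ⟨k, hk, rfl⟩ := hCmem c hc
    exact congrArg Subtype.val (Subgroup.mem_centralizer_iff.mp h2 k hk)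
  have hsq : ∀ x ∈ C, x ^ 2 ∈ D := by
    intro x hx
    obtain ⟨h, hh, rfl⟩ := hCmem x hx
    have h1 := (Cfsg.Agent.S0012.result 2 (hQp.to_subgroup H)).2 ⟨h, hh⟩
    have h2 := hmemD (h ^ 2) (pow_mem hh 2) (hHphi ⟨_, h1, rfl⟩)
    simpa using h2
  have hQcomm : ∀ x ∈ C, ∀ q ∈ Q, ⁅x, q⁆ ∈ D := by
    intro x hx q hq
    obtain ⟨h, hh, rfl⟩ := hCmem x hx
    have h1 := Subgroup.mem_inf.mp (hHcomm (Subgroup.commutator_mem_commutator hh (Subgroup.mem_top (⟨q, hq⟩ : ↥Q))))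
    have h2 := hmemD _ h1.1 h1.2
    simpa [commutatorElement_def] using h2
  have hcent : ∀ x ∈ Q, (∀ c ∈ C, x * c = c * x) → x ∈ C := by
    intro x hx hc
    exact hmemC ⟨x, hx⟩ (hHcen (Subgroup.mem_centralizer_iff.mpr fun k hk =>
      Subtype.ext (hc k (hmemC k hk)).symm))
  have hDcen : ∀ x ∈ D, ∀ c ∈ C, x * c = c * x := by
    intro x hx c hc
    rw [hD] at hx
    exact (Subgroup.mem_centralizer_iff.mp (Subgroup.mem_inf.mp hx).2 c hc).symm
  have hcommD : ∀ x ∈ C, ∀ y ∈ C, ⁅x, y⁆ ∈ D := fun x hx y hy => hQcomm x hx y (hCQ hy)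
  -- the endomorphism-like maps
  let α : X → X := fun x => a * x * a⁻¹
  let δ : X → X := fun x => x⁻¹ * (a * x * a⁻¹)
  have hαC : ∀ x ∈ C, α x ∈ C := fun x hx => hCn.conj_mem x hx a
  have hδC : ∀ x ∈ C, δ x ∈ C := fun x hx => mul_mem (inv_mem hx) (hαC x hx)
  have hδD : ∀ x ∈ D, δ x ∈ D := fun x hx => mul_mem (inv_mem hx) (hDn.conj_mem x hx a)
  have hαδ : ∀ x, α x = x * δ x := fun x => by simp only [α, δ]; group
  have hαm : ∀ x y, α (x * y) = α x * α y := fun x y => by simp only [α]; group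
  have hfix : ∀ x, δ x = 1 ↔ α x = x := fun x => by
    simp only [α, δ]; rw [inv_mul_eq_one]; exact eq_comm
  -- descent along the nilpotent group Q⟨a⟩
  have hdesc : ∀ P : X → Prop, P 1 → (∀ x ∈ C, P (δ x) → P x) → ∀ x ∈ C, P x := by
    intro P h1 hstep
    obtain ⟨S, hS⟩ : ∃ S, S = Subgroup.zpowers a ⊔ Q := ⟨_, rfl⟩
    have hSp : IsPGroup 2 ↥S := hS ▸ IsPGroup.to_sup_of_normal_right
      (hA2.to_le ((Subgroup.zpowers_le).mpr ha)) hQp
    obtain ⟨n, hn⟩ := (Subgroup.isNilpotent_iff_lowerCentralSeries (S := S)).mp hSp.isNilpotent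
    suffices h : ∀ k j, k + j = n → ∀ x ∈ C, x ∈ S.lowerCentralSeries j → P x by
      intro x hx
      exact h n 0 (by simp) x hx (by
        rw [Subgroup.lowerCentralSeries_zero, hS]; exact Subgroup.mem_sup_right (hCQ hx))
    intro k
    induction k with
    | zero =>
      intro j hj x _ hxj
      rw [Nat.zero_add] at hj
      rw [hj, hn, Subgroup.mem_bot] at hxj
      rw [hxj]; exact h1
    | succ k ih =>
      intro j hj x hx hxj
      refine hstep x hx (ih (j + 1) (by omega) _ (hδC x hx) ?_)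
      have h2 := Subgroup.commutator_mem_commutator (inv_mem hxj)
        (show a ∈ S by rw [hS]; exact Subgroup.mem_sup_left (Subgroup.mem_zpowers a))
      rw [Subgroup.lowerCentralSeries_succ]
      simpa [δ, commutatorElement_def, mul_assoc] using h2
  have hA1 : ∀ x ∈ A, δ x = 1 := fun x hx => by
    simp only [δ]; rw [hAc a ha x hx, mul_inv_cancel_right, inv_mul_cancel]
  have hN : ∀ g : X, (∀ y ∈ A, g⁻¹ * y * g ∈ A) → δ g ∈ A := by
    intro g hg
    have : δ g = g⁻¹ * a * g * a⁻¹ := by simp only [δ]; group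
    rw [this]; exact mul_mem (hg a ha) (inv_mem ha)
  have hNsq : ∀ x, α (α x) = x → δ x ∈ A := by
    intro x hx
    refine hN x (hTI (a ^ 2) (pow_mem ha 2) ha2 x ?_)
    calc x * a ^ 2 = α (α x) * a ^ 2 := by rw [hx]
      _ = a ^ 2 * x := by simp only [α, pow_two]; group
  have hDpow : ∀ x ∈ D, ∀ n : ℕ, δ x ^ n = δ (x ^ n) := by
    intro x hx n
    have h1 : Commute x⁻¹ (a * x * a⁻¹) :=
      hDcen _ (inv_mem hx) _ (hαC x (hDC hx))
    simp only [δ]
    rw [h1.mul_pow, inv_pow, conj_pow]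
  have hαsq : ∀ x, δ (δ x) = 1 → α (α x) = x * δ x ^ 2 := by
    intro x hx
    rw [hαδ x, hαm, hαδ x, (hfix _).mp hx, pow_two, mul_assoc]
  have hdd : ∀ e ∈ C, δ (δ e) = 1 := by
    by_cases hAD : ∃ z ∈ A, z ∈ D ∧ z ≠ 1
    · obtain ⟨z, hzA, hzD, hz1⟩ := hAD
      intro e he
      exact hA1 _ (hN e (hTI z hzA hz1 e (hDcen z hzD e he).symm))
    push Not at hAD
    have hDfix : ∀ x ∈ D, δ x = 1 := by
      have h0 : ∀ x ∈ D, δ (δ x) = 1 → δ x ^ 2 = 1 → δ x = 1 := by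
        intro x hx h1 h2
        exact hAD _ (hNsq x (by rw [hαsq x h1, h2, mul_one])) (hδD x hx)
      have hinv : ∀ x ∈ C, x ∈ D → x ^ 2 = 1 → δ x = 1 := by
        refine hdesc _ (fun _ _ => by simp [δ]) fun x _ ih hxD hx2 => ?_
        have h2 : δ x ^ 2 = 1 := by rw [hDpow x hxD, hx2]; simp [δ]
        exact h0 x hxD (ih (hδD x hxD) h2) h2
      suffices h : ∀ k : ℕ, ∀ x ∈ D, x ^ 2 ^ k = 1 → δ x = 1 by
        intro x hx
        obtain ⟨k, hk⟩ := hQp ⟨x, hCQ (hDC hx)⟩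
        exact h k x hx (by simpa using congrArg Subtype.val hk)
      intro k
      induction k with
      | zero => intro x _ hx; simp only [pow_zero, pow_one] at hx; subst hx; simp [δ]
      | succ k ih =>
        intro x hx hxk
        have h2 : δ x ^ 2 = 1 := by
          rw [hDpow x hx, ih (x ^ 2) (pow_mem hx 2) (by rw [← pow_mul, ← pow_succ']; exact hxk)]
        exact h0 x hx (hinv _ (hδC x (hDC hx)) (hδD x hx) h2) h2
    refine hdesc (fun e => δ (δ e) = 1) (by simp [δ]) fun e he ih => ?_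
    have hcC := hδC e he
    have hdC := hδC _ hcC
    set c := δ e with hc
    set d := δ c with hd
    have hαe : α e = e * c := hαδ e
    have hαc : α c = c * d := hαδ c
    have hαd : α d = d := (hfix d).mp ih
    have hfixD : ∀ x ∈ D, α x = x := fun x hx => (hfix x).mp (hDfix x hx)
    have hsq' : ∀ x ∈ C, ∀ y ∈ C, α x = x * y → ⁅y, x⁆ * y ^ 2 = 1 := by
      intro x hx y hy hxy
      have h1 : α (x * x) = x * x := hfixD _ (by rw [← pow_two]; exact hsq x hx)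
      rw [hαm, hxy] at h1
      have h2 : (x * x) * (⁅y, x⁆ * y ^ 2) = x * x := by
        calc (x * x) * (⁅y, x⁆ * y ^ 2) = x * (x * ⁅y, x⁆) * y ^ 2 := by group
          _ = x * (⁅y, x⁆ * x) * y ^ 2 := by rw [hDcen _ (hcommD y hy x hx) x hx]
          _ = (x * y) * (x * y) := by rw [commutatorElement_def, pow_two]; group
          _ = x * x := h1
      exact mul_eq_left.mp h2
    have hαb : ∀ x y, α ⁅x, y⁆ = ⁅α x, α y⁆ := fun x y => by
      simp only [α, commutatorElement_def]; group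
    have hbl : ∀ x ∈ C, ∀ y ∈ C, ∀ z ∈ C, ⁅x * y, z⁆ = ⁅x, z⁆ * ⁅y, z⁆ := by
      intro x hx y hy z hz
      calc ⁅x * y, z⁆ = (x * ⁅y, z⁆) * x⁻¹ * ⁅x, z⁆ := by simp only [commutatorElement_def]; group
        _ = (⁅y, z⁆ * x) * x⁻¹ * ⁅x, z⁆ := by rw [hDcen _ (hcommD y hy z hz) x hx]
        _ = ⁅y, z⁆ * ⁅x, z⁆ := by rw [mul_inv_cancel_right]
        _ = ⁅x, z⁆ * ⁅y, z⁆ := hDcen _ (hcommD y hy z hz) _ (hDC (hcommD x hx z hz))
    have hbr : ∀ x ∈ C, ∀ y ∈ C, ∀ z ∈ C, ⁅x, y * z⁆ = ⁅x, y⁆ * ⁅x, z⁆ := by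
      intro x hx y hy z hz
      calc ⁅x, y * z⁆ = ⁅x, y⁆ * ((y * ⁅x, z⁆) * y⁻¹) := by simp only [commutatorElement_def]; group
        _ = ⁅x, y⁆ * ((⁅x, z⁆ * y) * y⁻¹) := by rw [hDcen _ (hcommD x hx z hz) y hy]
        _ = ⁅x, y⁆ * ⁅x, z⁆ := by rw [mul_inv_cancel_right]
    have h1 : ⁅d, e⁆ * ⁅d, c⁆ = 1 := by
      have h := hαb c e
      rw [hfixD _ (hcommD c hcC e he), hαc, hαe, hbl c hcC d hdC _ (mul_mem he hcC),
        hbr c hcC e he c hcC, hbr d hdC e he c hcC, commutatorElement_self, mul_one] at h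
      exact mul_eq_left.mp h.symm
    have h2 : ⁅d, c⁆ = 1 := by
      have h := hαb d e
      rw [hfixD _ (hcommD d hdC e he), hαd, hαe, hbr d hdC e he c hcC] at h
      exact mul_eq_left.mp h.symm
    have h3 : ⁅d, e⁆ = 1 := by simpa [h2] using h1
    have h4 : d ^ 2 = 1 := by simpa [h2] using hsq' c hcC d hdC hαc
    have h5 : d ∈ A := hNsq c (by rw [hαsq c ih, ← hd, h4, mul_one])
    by_contra hd1
    have h6 : e * d = d * e := (commutatorElement_eq_one_iff_mul_comm.mp h3).symm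
    exact hd1 (hA1 c (hN e (hTI d h5 hd1 e h6)))
  -- the stability group of C ≥ D ≥ ...
  let P1 : X → Prop := fun g => (∀ x ∈ C, ⁅g, x⁆ ∈ D) ∧
    ∀ i : ℕ, ∀ x ∈ D, x ^ 2 ^ (i + 1) = 1 → ⁅g, x⁆ ^ 2 ^ i = 1
  have hbd : ∀ g, P1 g → ∀ x ∈ D, ⁅g, x⁆ ∈ D := fun g hg x hx => hg.1 x (hDC hx)
  let N0 : Subgroup X :=
    { carrier := {g | P1 g}
      one_mem' := ⟨fun x _ => by simp, fun i x _ _ => by simp⟩
      mul_mem' := by
        intro g g' hg hg'
        have hf : ∀ x, ⁅g * g', x⁆ = g * ⁅g', x⁆ * g⁻¹ * ⁅g, x⁆ := fun x => by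
          simp only [commutatorElement_def]; group
        refine ⟨fun x hx => ?_, fun i x hx hxi => ?_⟩
        · rw [hf]; exact mul_mem (hDn.conj_mem _ (hg'.1 x hx) g) (hg.1 x hx)
        · rw [hf, Commute.mul_pow (hDcen _ (hDn.conj_mem _ (hbd g' hg' x hx) g) _ (hDC (hbd g hg x hx))),
            conj_pow, hg'.2 i x hx hxi, hg.2 i x hx hxi]
          simp
      inv_mem' := by
        intro g hg
        have hf : ∀ x, ⁅g⁻¹, x⁆ = g⁻¹ * (⁅g, x⁆)⁻¹ * g⁻¹⁻¹ := fun x => by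
          simp only [commutatorElement_def]; group
        refine ⟨fun x hx => ?_, fun i x hx hxi => ?_⟩
        · rw [hf]; exact hDn.conj_mem _ (inv_mem (hg.1 x hx)) g⁻¹
        · rw [hf, conj_pow, inv_pow, hg.2 i x hx hxi]; simp }
  have hN0n : N0.Normal := by
    refine ⟨fun g (hg : P1 g) t => ?_⟩
    show P1 _
    have hf : ∀ x, ⁅t * g * t⁻¹, x⁆ = t * ⁅g, t⁻¹ * x * t⁻¹⁻¹⁆ * t⁻¹ := fun x => by
      simp only [commutatorElement_def]; group
    refine ⟨fun x hx => ?_, fun i x hx hxi => ?_⟩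
    · rw [hf]; exact hDn.conj_mem _ (hg.1 _ (hCn.conj_mem x hx t⁻¹)) t
    · rw [hf, conj_pow, hg.2 i _ (hDn.conj_mem x hx t⁻¹) (by rw [conj_pow, hxi]; simp)]
      simp
  have haN : a ^ 2 ∈ N0 := by
    have hf : ∀ x, ⁅a ^ 2, x⁆ = α (α x) * x⁻¹ := fun x => by
      simp only [α, commutatorElement_def, pow_two]; group
    refine ⟨fun x hx => ?_, fun i x hx hxi => ?_⟩
    · have h := hsq _ (hδC x hx)
      rw [hf, hαsq x (hdd x hx), ← hDcen _ h x hx, mul_inv_cancel_right]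
      exact h
    · have h := hsq _ (hδC x (hDC hx))
      rw [hf, hαsq x (hdd x (hDC hx)), ← hDcen _ h x (hDC hx), mul_inv_cancel_right, ← pow_mul,
        ← pow_succ', hDpow x hx, hxi]
      simp [δ]
  refine CfsgLib.Core.le_pCore hN0n ?_ haN
  refine CfsgLib.LocalBasic.isPGroup_of_coprime_elements fun u hu => ?_
  rw [← Subgroup.orderOf_coe] at hu
  obtain ⟨u, huN⟩ := u
  refine Subtype.ext ?_
  simp only at hu ⊢
  -- all of D has exponent dividing 2^m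
  obtain ⟨m, hm⟩ := (IsPGroup.iff_card.mp hQp)
  have hexp : ∀ x ∈ D, x ^ 2 ^ m = 1 := by
    intro x hx
    have h := pow_card_eq_one' (x := (⟨x, hCQ (hDC hx)⟩ : ↥Q))
    rw [hm] at h
    simpa using congrArg Subtype.val h
  let Dk : ℕ → Subgroup X := fun k =>
    { carrier := {x | x ∈ D ∧ x ^ 2 ^ k = 1}
      one_mem' := ⟨one_mem _, one_pow _⟩
      mul_mem' := fun {x y} hx hy => ⟨mul_mem hx.1 hy.1, by
        rw [Commute.mul_pow (hDcen x hx.1 y (hDC hy.1)), hx.2, hy.2, one_mul]⟩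
      inv_mem' := fun {x} hx => ⟨inv_mem hx.1, by rw [inv_pow, hx.2, inv_one]⟩ }
  let f : ℕ → Subgroup X := fun j => if j = 0 then C else Dk (m + 1 - j)
  have hfle : ∀ j, f (j + 1) ≤ Q := fun j x hx => by
    simp only [f, Nat.add_one_ne_zero, if_false] at hx
    exact hCQ (hDC hx.1)
  have huC : ∀ x ∈ C, u * x = x * u := by
    have h := CfsgLib.LocalBasic.centralizes_of_series f (m + 1) ?_ (fun i _ => hQp.to_le (hfle i)) hu ?_
    · simpa [f] using h
    · simp only [f, Nat.add_one_ne_zero, if_false, Nat.sub_self]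
      rw [eq_bot_iff]
      intro x hx
      simpa using hx.2
    · intro i hi x hx
      simp only [f, Nat.add_one_ne_zero, if_false]
      rcases Nat.eq_zero_or_pos i with rfl | hi0
      · simp only [f, if_true] at hx
        exact ⟨huN.1 x hx, by simpa using hexp _ (huN.1 x hx)⟩
      · simp only [f, Nat.pos_iff_ne_zero.mp hi0, if_false] at hx
        refine ⟨huN.1 x (hDC hx.1), ?_⟩
        have e : m + 1 - i = m + 1 - (i + 1) + 1 := by omega
        exact huN.2 _ x hx.1 (e ▸ hx.2)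
  have huQ : u ∈ Subgroup.centralizer (Q : Set X) := by
    refine Subgroup.mem_centralizer_iff.mpr fun q hq => ?_
    have hcQ : ⁅u, q⁆ ∈ Q := by
      rw [commutatorElement_def]; exact mul_mem (hQn.conj_mem q hq u) (inv_mem hq)
    have hcC : ⁅u, q⁆ ∈ C := by
      refine hcent _ hcQ fun x hx => ?_
      have h1 : u * (q⁻¹ * x * q⁻¹⁻¹) = (q⁻¹ * x * q⁻¹⁻¹) * u := huC _ (hCn.conj_mem x hx q⁻¹)
      have h2 : u * x = x * u := huC x hx
      calc ⁅u, q⁆ * x = u * q * u⁻¹ * (q⁻¹ * x * q⁻¹⁻¹ * u) * (u⁻¹ * q⁻¹) := by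
            simp only [commutatorElement_def]; group
        _ = u * q * u⁻¹ * (u * (q⁻¹ * x * q⁻¹⁻¹)) * (u⁻¹ * q⁻¹) := by rw [h1]
        _ = (u * x) * (q * u⁻¹ * q⁻¹) := by group
        _ = (x * u) * (q * u⁻¹ * q⁻¹) := by rw [h2]
        _ = x * ⁅u, q⁆ := by simp only [commutatorElement_def]; group
    obtain ⟨j, hj⟩ := hQp ⟨_, hcQ⟩
    exact (CfsgLib.LocalBasic.commute_of_commutator_fixed (huC _ hcC)
      (j := j) (by simpa using congrArg Subtype.val hj) hu).symm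
  rw [← hX] at huQ
  have huQ' := CfsgLib.GenFitting.centralizer_genFitting_le huQ
  rw [hX] at huQ'
  obtain ⟨j, hj⟩ := hQp ⟨u, huQ'⟩
  have h := pow_gcd_eq_one.mpr ⟨(pow_orderOf_eq_one u), (by simpa using congrArg Subtype.val hj : u ^ 2 ^ j = 1)⟩
  rwa [hu.pow_right j, pow_one] at h

theorem conj_commute {X : Type*} [Group X] [Finite X] (Q B : Subgroup X) [Q.Normal] (hQ : IsPGroup 2 ↥Q)
    (hBQ : B ≤ Q) (hBc : ∀ x ∈ B, ∀ y ∈ B, x * y = y * x)
    (hTI : ∀ z ∈ B, z ≠ 1 → ∀ g : X, g⁻¹ * z * g ∈ B → ∀ y ∈ B, g⁻¹ * y * g ∈ B)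
    {b₀ : X} (hb₀ : b₀ ∈ B) (hb₀2 : b₀ ^ 2 ≠ 1) :
    ∀ g₁ g₂ x y : X, g₁⁻¹ * x * g₁ ∈ B → g₂⁻¹ * y * g₂ ∈ B → x * y = y * x := by
  classical
  haveI : Fact (Nat.Prime 2) := ⟨Nat.prime_two⟩
  let F : X → Subgroup X := fun g => B.comap (MulAut.conj g⁻¹).toMonoidHom
  have hF : ∀ g x, x ∈ F g ↔ g⁻¹ * x * g ∈ B := fun g x => by simp [F, Subgroup.mem_comap]
  suffices h : ∀ n, ∀ g₁ g₂, Nat.card ↥(F g₁ ⊔ F g₂) = n → ∀ x ∈ F g₁, ∀ y ∈ F g₂, x * y = y * x from
    fun g₁ g₂ x y hx hy => h _ g₁ g₂ rfl x ((hF _ _).mpr hx) y ((hF _ _).mpr hy)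
  have hFQ : ∀ g, F g ≤ Q := by
    intro g x hx
    have := Subgroup.Normal.conj_mem ‹Q.Normal› _ (hBQ ((hF g x).mp hx)) g
    simpa [mul_assoc] using this
  have hFc : ∀ g, ∀ x ∈ F g, ∀ y ∈ F g, x * y = y * x := by
    intro g x hx y hy
    have h := hBc _ ((hF g x).mp hx) _ ((hF g y).mp hy)
    calc x * y = g * ((g⁻¹ * x * g) * (g⁻¹ * y * g)) * g⁻¹ := by group
      _ = g * ((g⁻¹ * y * g) * (g⁻¹ * x * g)) * g⁻¹ := by rw [h]
      _ = y * x := by group
  -- an element centralising a nontrivial element of `F g` normalises `F g`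
  have hFN : ∀ g z, z ∈ F g → z ≠ 1 → ∀ t, t * z = z * t → ∀ y ∈ F g, t⁻¹ * y * t ∈ F g := by
    intro g z hz hz1 t ht y hy
    rw [hF] at hz hy ⊢
    have hz1' : g⁻¹ * z * g ≠ 1 := fun h => hz1 (by
      calc z = g * (g⁻¹ * z * g) * g⁻¹ := by group
        _ = 1 := by rw [h]; group)
    have h := hTI _ hz hz1' (g⁻¹ * t * g) (by
      have : (g⁻¹ * t * g)⁻¹ * (g⁻¹ * z * g) * (g⁻¹ * t * g) = g⁻¹ * (t⁻¹ * (z * t)) * g := by group
      rw [this, ← ht, inv_mul_cancel_left]; exact hz) _ hy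
    have e : g⁻¹ * (t⁻¹ * y * t) * g = (g⁻¹ * t * g)⁻¹ * (g⁻¹ * y * g) * (g⁻¹ * t * g) := by group
    rw [e]; exact h
  have hFdisj : ∀ g g' z, z ∈ F g → z ∈ F g' → z ≠ 1 → F g ≤ F g' := by
    intro g g' z hz hz' hz1 y hy
    rw [hF] at hz hz' hy ⊢
    have hz1' : g⁻¹ * z * g ≠ 1 := fun h => hz1 (by
      calc z = g * (g⁻¹ * z * g) * g⁻¹ := by group
        _ = 1 := by rw [h]; group)
    have h := hTI _ hz hz1' (g⁻¹ * g') (by
      have : (g⁻¹ * g')⁻¹ * (g⁻¹ * z * g) * (g⁻¹ * g') = g'⁻¹ * z * g' := by group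
      rw [this]; exact hz') _ hy
    have e : g'⁻¹ * y * g' = (g⁻¹ * g')⁻¹ * (g⁻¹ * y * g) * (g⁻¹ * g') := by group
    rw [e]; exact h
  intro n
  induction n using Nat.strong_induction_on with
  | _ n ih =>
    intro g₁ g₂ hn
    by_cases hsame : ∃ z, z ∈ F g₁ ∧ z ∈ F g₂ ∧ z ≠ 1
    · obtain ⟨z, hz1, hz2, hz⟩ := hsame
      exact fun x hx y hy => hFc g₂ x (hFdisj g₁ g₂ z hz1 hz2 hz hx) y hy
    push Not at hsame
    obtain ⟨H, hH⟩ : ∃ H, H = F g₁ ⊔ F g₂ := ⟨_, rfl⟩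
    rw [← hH] at hn
    have hHp : IsPGroup 2 ↥H := hQ.to_le (hH ▸ sup_le (hFQ g₁) (hFQ g₂))
    -- conjugates of one factor under `H` commute pairwise
    have hpair : ∀ g g', F g ≤ H → (∀ x ∈ F g', x ∈ H) → ¬ (F g' ≤ F g) → (H = F g ⊔ F g') →
        ∀ x ∈ F g, ∀ h ∈ H, ∀ y ∈ F g, x * (h * y * h⁻¹) = (h * y * h⁻¹) * x := by
      intro g g' hg hg' hne hsup x hx h hh y hy
      haveI : Group.IsNilpotent ↥H := hHp.isNilpotent
      rcases eq_top_or_exists_le_coatom ((F g).subgroupOf H) with htop | ⟨M, hM, hgM⟩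
      · exact absurd (fun z hz => Subgroup.mem_subgroupOf.mp
          ((Subgroup.eq_top_iff' _).mp htop ⟨z, hg' z hz⟩)) hne
      haveI hMn : M.Normal := Subgroup.NormalizerCondition.normal_of_coatom M Group.normalizerCondition_of_isNilpotent hM
      have h1 : F g ≤ M.map H.subtype := fun z hz =>
        ⟨⟨z, hg hz⟩, hgM (Subgroup.mem_subgroupOf.mpr hz), rfl⟩
      have h2 : F (h * g) ≤ M.map H.subtype := by
        intro z hz
        rw [hF] at hz
        obtain ⟨w, hw, hwz⟩ := h1 ((hF g (h⁻¹ * z * h)).mpr (by simpa [mul_assoc] using hz))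
        refine ⟨⟨h, hh⟩ * w * ⟨h, hh⟩⁻¹, hMn.conj_mem w hw _, ?_⟩
        simp only [Subgroup.coe_subtype] at hwz ⊢
        push_cast
        rw [hwz]; group
      have hlt : Nat.card ↥(F g ⊔ F (h * g)) < n := by
        refine hn ▸ lt_of_le_of_lt (Subgroup.card_le_of_le (sup_le h1 h2)) ?_
        refine lt_of_le_of_ne (Subgroup.card_le_of_le (Subgroup.map_subtype_le M)) fun he => hM.1 ?_
        have he' := Subgroup.eq_of_le_of_card_ge (Subgroup.map_subtype_le M) he.ge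
        rw [eq_top_iff]
        rintro ⟨z, hz'⟩ -
        obtain ⟨w, hw, hwz⟩ : z ∈ M.map H.subtype := he'.symm ▸ hz'
        exact (Subtype.ext hwz : w = (⟨z, hz'⟩ : ↥H)) ▸ hw
      exact ih _ hlt g (h * g) rfl x hx _ ((hF _ _).mpr (by
        have : (h * g)⁻¹ * (h * y * h⁻¹) * (h * g) = g⁻¹ * y * g := by group
        rw [this]; exact (hF g y).mp hy))
    by_cases hle : F g₂ ≤ F g₁
    · exact fun x hx y hy => hFc g₁ x hx y (hle hy)
    by_cases hle' : F g₁ ≤ F g₂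
    · exact fun x hx y hy => hFc g₂ x (hle' hx) y hy
    have hg1H : F g₁ ≤ H := hH ▸ le_sup_left
    have hg2H : F g₂ ≤ H := hH ▸ le_sup_right
    have hp1 := hpair g₁ g₂ hg1H hg2H hle hH
    have hp2 := hpair g₂ g₁ hg2H hg1H hle' (hH.trans (sup_comm _ _))
    -- commutators of the two factors
    have hκ1 : ∀ a ∈ F g₁, ∀ b ∈ F g₂, Commute a ⁅a, b⁆ := by
      intro a ha b hb
      have : ⁅a, b⁆ = a * (b * a⁻¹ * b⁻¹) := by simp only [commutatorElement_def]; group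
      rw [this]
      exact (Commute.refl a).mul_right (hp1 a ha b (hg2H hb) _ (inv_mem ha))
    have hκ2 : ∀ a ∈ F g₁, ∀ b ∈ F g₂, Commute b ⁅a, b⁆ := by
      intro a ha b hb
      have : ⁅a, b⁆ = (a * b * a⁻¹) * b⁻¹ := by simp only [commutatorElement_def]
      rw [this]
      exact Commute.mul_right (hp2 b hb a (hg1H ha) b hb) (Commute.inv_right (Commute.refl b))
    have hpowl : ∀ a b : X, Commute a ⁅a, b⁆ → ∀ k : ℕ, ⁅a ^ k, b⁆ = ⁅a, b⁆ ^ k := by
      intro a b hab k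
      induction k with
      | zero => simp
      | succ k hk =>
        calc ⁅a ^ (k + 1), b⁆ = a * ⁅a ^ k, b⁆ * a⁻¹ * ⁅a, b⁆ := by
              simp only [commutatorElement_def, pow_succ']; group
          _ = ⁅a, b⁆ ^ (k + 1) := by
              rw [hk, (hab.pow_right k).eq, mul_inv_cancel_right, pow_succ]
    have hpowr : ∀ a b : X, Commute b ⁅a, b⁆ → ∀ k : ℕ, ⁅a, b ^ k⁆ = ⁅a, b⁆ ^ k := by
      intro a b hab k
      have h' : Commute b ⁅b, a⁆ := by rw [← commutatorElement_inv]; exact hab.inv_right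
      rw [← commutatorElement_inv, hpowl b a h' k, ← inv_pow, commutatorElement_inv]
    have hmain : ∀ a ∈ F g₁, ∀ b ∈ F g₂, a ^ 2 ≠ 1 → b ^ 2 ≠ 1 → a * b = b * a := by
      intro a ha b hb ha2 hb2
      obtain ⟨κ, hκ⟩ : ∃ κ, κ = ⁅a, b⁆ := ⟨_, rfl⟩
      -- the last nontrivial 2-power of an element with nontrivial square
      have hlast : ∀ g c, c ∈ F g → c ^ 2 ≠ 1 → ∃ j, 1 ≤ j ∧ c ^ 2 ^ j ≠ 1 ∧ c ^ 2 ^ (j + 1) = 1 := by
        intro g c hc hc2
        obtain ⟨k, hk⟩ : ∃ k, c ^ 2 ^ k = 1 := by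
          obtain ⟨k, hk⟩ := hQ ⟨c, hFQ g hc⟩
          exact ⟨k, by simpa using congrArg Subtype.val hk⟩
        induction k with
        | zero => exact absurd (by rw [pow_zero, pow_one] at hk; rw [hk, one_pow]) hc2
        | succ k ihk =>
          by_cases h : c ^ 2 ^ k = 1
          · exact ihk h
          · refine ⟨k, ?_, h, hk⟩
            rcases Nat.eq_zero_or_pos k with rfl | h'
            · simp at hk; exact absurd hk hc2
            · exact h'
      obtain ⟨i, hi, hai, hai'⟩ := hlast g₁ a ha ha2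
      obtain ⟨j, hj, hbj, hbj'⟩ := hlast g₂ b hb hb2
      have hi1 : κ ^ 2 ^ (i + 1) = 1 := by
        rw [hκ, ← hpowl a b (hκ1 a ha b hb), hai', commutatorElement_one_left]
      have hj1 : κ ^ 2 ^ (j + 1) = 1 := by
        rw [hκ, ← hpowr a b (hκ2 a ha b hb), hbj', commutatorElement_one_right]
      -- if a power of b centralises the last nontrivial power of a, the commutator lies in the first factor
      have hinA : ∀ e : ℕ, κ ^ (2 ^ i * e) = 1 → κ ^ e ∈ F g₁ := by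
        intro e he
        have hcomm : b ^ e * a ^ 2 ^ i = a ^ 2 ^ i * b ^ e := by
          refine (commutatorElement_eq_one_iff_mul_comm.mp ?_).symm
          rw [hpowr _ b ?_, hpowl a b (hκ1 a ha b hb), ← hκ, ← pow_mul, he]
          rw [hpowl a b (hκ1 a ha b hb)]
          exact (hκ2 a ha b hb).pow_right _
        have hinv : (b ^ e)⁻¹ * a ^ 2 ^ i = a ^ 2 ^ i * (b ^ e)⁻¹ :=
          ((show Commute (b ^ e) (a ^ 2 ^ i) from hcomm).inv_left).eq
        have h := mul_mem ha (hFN g₁ _ (pow_mem ha _) hai _ hinv _ (inv_mem ha))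
        rw [hκ, ← hpowr a b (hκ2 a ha b hb), commutatorElement_def]
        simpa [mul_assoc] using h
      have hinB : ∀ e : ℕ, κ ^ (2 ^ j * e) = 1 → κ ^ e ∈ F g₂ := by
        intro e he
        have hcomm : a ^ e * b ^ 2 ^ j = b ^ 2 ^ j * a ^ e := by
          refine commutatorElement_eq_one_iff_mul_comm.mp ?_
          rw [hpowl a _ ?_, hpowr a b (hκ2 a ha b hb), ← hκ, ← pow_mul, he]
          rw [hpowr a b (hκ2 a ha b hb)]
          exact (hκ1 a ha b hb).pow_right _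
        have hinv : (a ^ e)⁻¹ * b ^ 2 ^ j = b ^ 2 ^ j * (a ^ e)⁻¹ :=
          ((show Commute (a ^ e) (b ^ 2 ^ j) from hcomm).inv_left).eq
        have h := mul_mem (hFN g₂ _ (pow_mem hb _) hbj _ hinv _ hb) (inv_mem hb)
        rw [hκ, ← hpowl a b (hκ1 a ha b hb), commutatorElement_def]
        simpa [mul_assoc] using h
      have hk2 : κ ^ 2 = 1 := hsame _ (hinA 2 (by rw [← pow_succ]; exact hi1)) (hinB 2 (by rw [← pow_succ]; exact hj1))
      have hk1 : κ ^ 1 = 1 := by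
        refine hsame _ (hinA 1 ?_) (hinB 1 ?_)
        · obtain ⟨i', rfl⟩ : ∃ i', i = i' + 1 := ⟨i - 1, by omega⟩
          rw [mul_one, pow_succ', pow_mul, hk2, one_pow]
        · obtain ⟨j', rfl⟩ : ∃ j', j = j' + 1 := ⟨j - 1, by omega⟩
          rw [mul_one, pow_succ', pow_mul, hk2, one_pow]
      rw [pow_one, hκ] at hk1
      exact commutatorElement_eq_one_iff_mul_comm.mp hk1
    -- an element with nontrivial square in each factor
    have hbig : ∀ g, ∃ c ∈ F g, c ^ 2 ≠ 1 := by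
      intro g
      refine ⟨g * b₀ * g⁻¹, (hF _ _).mpr (by simpa [mul_assoc] using hb₀), fun h => hb₀2 ?_⟩
      rw [conj_pow, conj_eq_one_iff] at h
      exact h
    have hsq : ∀ g c d, c ∈ F g → d ∈ F g → c ^ 2 = 1 → d ^ 2 ≠ 1 → (c * d) ^ 2 ≠ 1 := by
      intro g c d hc hd hc2 hd2
      rw [Commute.mul_pow (hFc g c hc d hd), hc2, one_mul]; exact hd2
    intro a ha b hb
    obtain ⟨a₀, ha₀, ha₀2⟩ := hbig g₁
    obtain ⟨b₁, hb₁, hb₁2⟩ := hbig g₂
    have hstep : ∀ a ∈ F g₁, a ^ 2 ≠ 1 → a * b = b * a := by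
      intro a ha ha2
      by_cases hb2 : b ^ 2 = 1
      · have h := Commute.mul_right (hmain a ha _ (mul_mem hb hb₁) ha2 (hsq g₂ b b₁ hb hb₁ hb2 hb₁2))
          (Commute.inv_right (hmain a ha b₁ hb₁ ha2 hb₁2))
        rw [mul_inv_cancel_right] at h
        exact h
      · exact hmain a ha b hb ha2 hb2
    by_cases ha2 : a ^ 2 = 1
    · have h := Commute.mul_left (hstep _ (mul_mem ha ha₀) (hsq g₁ a a₀ ha ha₀ ha2 ha₀2))
        (Commute.inv_left (hstep a₀ ha₀ ha₀2))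
      rw [mul_inv_cancel_right] at h
      exact h
    · exact hstep a ha ha2


/-- Let X be a finite group whose generalized Fitting subgroup equals its largest normal 2-subgroup Q, and let A be an abelian 2-subgroup of X such that every conjugate of A equals A or meets A trivially. Let B be the subgroup generated by the squares of the elements of A. Then B lies in Q, and if B is not an elementary abelian 2-group then the normal closure of B in X is commutative. -/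
theorem result {X : Type*} [Group X] [Finite X]
    (hX : Cfsg.generalizedFittingSubgroup X = Cfsg.pCore 2 X) (A : Subgroup X) (hA2 : IsPGroup 2 ↥A) (hAa : IsMulCommutative ↥A)
    (hti : ∀ h : X, A.map (MulAut.conj h).toMonoidHom = A ∨ A.map (MulAut.conj h).toMonoidHom ⊓ A = ⊥) :
    Subgroup.closure ((fun a : X => a ^ 2) '' (A : Set X)) ≤ Cfsg.pCore 2 X ∧
      (¬ Cfsg.IsElementaryAbelian 2 (Subgroup.closure ((fun a : X => a ^ 2) '' (A : Set X))) →
        IsMulCommutative ↥(Subgroup.normalClosure ((fun a : X => a ^ 2) '' (A : Set X)))) := by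
  classical
  have hAc : ∀ x ∈ A, ∀ y ∈ A, x * y = y * x := fun x hx y hy =>
    congrArg Subtype.val (hAa.is_comm.comm ⟨x, hx⟩ ⟨y, hy⟩)
  -- the TI condition pointwise
  have hTI : ∀ z ∈ A, z ≠ 1 → ∀ g : X, g⁻¹ * z * g ∈ A → ∀ y ∈ A, g⁻¹ * y * g ∈ A := by
    intro z hz hz1 g hg y hy
    rcases hti g⁻¹ with h | h
    · have h2 : (MulAut.conj g⁻¹).toMonoidHom y ∈ A.map (MulAut.conj g⁻¹).toMonoidHom :=
        Subgroup.mem_map_of_mem _ hy
      rw [h] at h2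
      simpa using h2
    · exfalso
      have h2 : g⁻¹ * z * g ∈ A.map (MulAut.conj g⁻¹).toMonoidHom ⊓ A :=
        Subgroup.mem_inf.mpr ⟨⟨z, hz, by simp⟩, hg⟩
      rw [h, Subgroup.mem_bot] at h2
      exact hz1 (by
        calc z = g * (g⁻¹ * z * g) * g⁻¹ := by group
          _ = 1 := by rw [h2]; group)
  have hsqQ : ∀ a ∈ A, a ^ 2 ∈ Cfsg.pCore 2 X := fun a ha =>
    squares_le_pCore hX A hA2 hAc (fun z hz hz1 g hgz => hTI z hz hz1 g (by
      rw [mul_assoc, ← hgz, inv_mul_cancel_left]; exact hz)) ha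
  obtain ⟨B, hB⟩ : ∃ B, B = Subgroup.closure ((fun a : X => a ^ 2) '' (A : Set X)) := ⟨_, rfl⟩
  have hBQ : B ≤ Cfsg.pCore 2 X := by
    rw [hB, Subgroup.closure_le]
    rintro _ ⟨a, ha, rfl⟩
    exact hsqQ a ha
  rw [← hB]
  refine ⟨hBQ, fun hne => ?_⟩
  haveI : (Cfsg.pCore 2 X).Characteristic := CfsgLib.Core.pCore_characteristic 2
  have hBsq : ∀ x ∈ B, ∃ a ∈ A, a ^ 2 = x := by
    intro x hx
    rw [hB] at hx
    induction hx using Subgroup.closure_induction with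
    | mem x hx => obtain ⟨a, ha, rfl⟩ := hx; exact ⟨a, ha, rfl⟩
    | one => exact ⟨1, one_mem _, one_pow _⟩
    | mul x y _ _ hx hy =>
      obtain ⟨a, ha, rfl⟩ := hx
      obtain ⟨b, hb, rfl⟩ := hy
      exact ⟨a * b, mul_mem ha hb, Commute.mul_pow (hAc a ha b hb) 2⟩
    | inv x _ hx => obtain ⟨a, ha, rfl⟩ := hx; exact ⟨a⁻¹, inv_mem ha, inv_pow a 2⟩
  have hBA : B ≤ A := fun x hx => by
    obtain ⟨a, ha, rfl⟩ := hBsq x hx; exact pow_mem ha 2
  have hmemB : ∀ a ∈ A, a ^ 2 ∈ B := fun a ha => hB ▸ Subgroup.subset_closure ⟨a, ha, rfl⟩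
  have hBc : ∀ x ∈ B, ∀ y ∈ B, x * y = y * x := fun x hx y hy => hAc x (hBA hx) y (hBA hy)
  have hb₀ : ∃ b ∈ B, b ^ 2 ≠ 1 := by
    by_contra hcon
    push Not at hcon
    exact hne ⟨isMulCommutative_iff.mpr fun x y => Subtype.ext (hBc x x.2 y y.2), hcon⟩
  obtain ⟨b₀, hb₀, hb₀2⟩ := hb₀
  have hTIB : ∀ z ∈ B, z ≠ 1 → ∀ g : X, g⁻¹ * z * g ∈ B → ∀ y ∈ B, g⁻¹ * y * g ∈ B := by
    intro z hz hz1 g hg y hy
    obtain ⟨a, ha, rfl⟩ := hBsq y hy
    have h := hmemB _ (hTI z (hBA hz) hz1 g (hBA hg) a ha)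
    have e : g⁻¹ * a ^ 2 * g = (g⁻¹ * a * g) ^ 2 := by simp only [pow_two]; group
    rw [e]; exact h
  refine Subgroup.isMulCommutative_closure ?_
  intro x hx y hy
  obtain ⟨x', ⟨a, ha, rfl⟩, hxc⟩ := Group.mem_conjugatesOfSet_iff.mp hx
  obtain ⟨y', ⟨b, hb, rfl⟩, hyc⟩ := Group.mem_conjugatesOfSet_iff.mp hy
  obtain ⟨g₁, rfl⟩ := isConj_iff.mp hxc
  obtain ⟨g₂, rfl⟩ := isConj_iff.mp hyc
  exact conj_commute _ B (CfsgLib.Core.isPGroup_pCore 2) hBQ hBc hTIB hb₀ hb₀2 g₁ g₂ _ _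
    (by simpa [mul_assoc] using hmemB a ha) (by simpa [mul_assoc] using hmemB b hb)

end Cfsg.Agent.S1783
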