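import Cfsg.Statements.S1784
import Cfsg.Agent.S1774
import Cfsg.Agent.Lib.Extra2.Basic

set_option autoImplicit false
open Cfsg

namespace Cfsg.Agent.S1784

open scoped commutatorElement
open CfsgLib.Extra2

theorem isExt_map {G : Type*} [Group G] [Finite G] (z : G) (hz : orderOf z = 2)
    (hE : Cfsg.IsExtraspecial 2 ↥(Cfsg.generalizedFittingSubgroup ↥(Subgroup.centralizer ({z} : Set G))))
    (hzQ : z ∈ (Cfsg.generalizedFittingSubgroup ↥(Subgroup.centralizer ({z} : Set G))).map (Subgroup.centralizer ({z} : Set G)).subtype) :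
    IsExt z ((Cfsg.generalizedFittingSubgroup ↥(Subgroup.centralizer ({z} : Set G))).map (Subgroup.centralizer ({z} : Set G)).subtype) := by
  set C := Subgroup.centralizer ({z} : Set G)
  set F := Cfsg.generalizedFittingSubgroup ↥C
  obtain ⟨z₀, h⟩ := isExt_of_extraspecial hE
  obtain ⟨z₁, hz₁, hz₁'⟩ := hzQ
  have hzc : ∀ a ∈ F, Commute a z₁ := fun a _ => Subtype.ext (by
    have := Subgroup.mem_centralizer_singleton_iff.mp a.2
    show (a : G) * C.subtype z₁ = C.subtype z₁ * a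
    rw [hz₁']; exact this)
  have he : z₁ = z₀ := (h.center z₁ hz₁ hzc).resolve_left fun e => by
    rw [e, map_one] at hz₁'
    rw [← hz₁', orderOf_one] at hz; omega
  subst he
  rw [← hz₁']
  refine ⟨⟨z₁, hz₁, rfl⟩, by rw [← map_mul, h.sq, map_one], fun e => h.ne_one (C.subtype_injective (e.trans (map_one _).symm)), ?_, ?_, ?_⟩
  · rintro _ ⟨a, ha, rfl⟩
    exact (h.central a ha).map C.subtype
  · rintro _ ⟨a, ha, rfl⟩ _ ⟨b, hb, rfl⟩
    exact (h.cases a ha b hb).imp (fun e => by rw [← map_mul, e, map_mul]) (fun e => by rw [← map_mul, e, map_mul, map_mul])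
  · rintro _ ⟨v, hv, rfl⟩ hc
    exact (h.center v hv fun a ha => C.subtype_injective (by
      rw [map_mul, map_mul]; exact hc _ ⟨a, ha, rfl⟩)).imp (fun e => by rw [e, map_one]) (fun e => by rw [e])

theorem main {G : Type*} [Group G] [Finite G] {z α : G} {E Q₀ : Subgroup G} (hA : Cfsg.Agent.S1774.Pr z E)
    (hE : IsExt z E) (hα2 : α * α = 1) (hαz : α * z = z * α) (hαE : α ∉ E)
    (hQ₀ : ∀ q : G, q ∈ Q₀ ↔ (q ∈ E ∧ α * q * α⁻¹ * q⁻¹ ∈ Subgroup.zpowers z)) :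
    Subgroup.closure ((fun q : G => α * q * α⁻¹ * q⁻¹) '' (E : Set G)) = (Subgroup.center ↥Q₀).map Q₀.subtype ∧
      (¬ Q₀ ≤ (E ⊓ Subgroup.centralizer ({α} : Set G)) ⊔ Subgroup.zpowers z →
        ∃ q ∈ E, q * α * q⁻¹ = α * z) := by
  classical
  have hz12 : ∀ u, u ∈ Subgroup.zpowers z ↔ (u = 1 ∨ u = z) := by
    refine fun u => ⟨fun h => ?_, ?_⟩
    · obtain ⟨k, rfl⟩ := Subgroup.mem_zpowers_iff.mp h
      obtain ⟨j, rfl⟩ | ⟨j, rfl⟩ := Int.even_or_odd k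
      · exact Or.inl (by rw [← two_mul, zpow_mul, zpow_two, hE.sq, one_zpow])
      · exact Or.inr (by rw [zpow_add_one, zpow_mul, zpow_two, hE.sq, one_zpow, one_mul])
    · rintro (rfl | rfl)
      · exact one_mem _
      · exact Subgroup.mem_zpowers _
  have hQ₀' : ∀ q, q ∈ Q₀ ↔ q ∈ E ∧ (⁅α, q⁆ = 1 ∨ ⁅α, q⁆ = z) := fun q => by
    rw [hQ₀, hz12, commutatorElement_def]
  have hαi : α⁻¹ = α := inv_eq_of_mul_eq_one_right hα2
  have hzi : z⁻¹ = z := inv_eq_of_mul_eq_one_right hE.sq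
  have hw : ∀ h ∈ E, ⁅α, h⁆ ∈ E := fun h hh => by
    rw [commutatorElement_def]; exact mul_mem (hA.norm α hαz h hh) (inv_mem hh)
  have hαw : ∀ h, α * ⁅α, h⁆ * α⁻¹ = ⁅α, h⁆⁻¹ := fun h => by
    calc α * ⁅α, h⁆ * α⁻¹ = (α * α) * h * α⁻¹ * h⁻¹ * α⁻¹ := by simp only [commutatorElement_def]; group
      _ = h * α * h⁻¹ * α⁻¹ := by rw [hα2, one_mul, hαi]
      _ = ⁅α, h⁆⁻¹ := by simp only [commutatorElement_def]; group
  obtain ⟨W, hW⟩ : ∃ W, W = Subgroup.closure ((fun q : G => α * q * α⁻¹ * q⁻¹) '' (E : Set G)) := ⟨_, rfl⟩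
  rw [← hW]
  have hWmem : ∀ h ∈ E, ⁅α, h⁆ ∈ W := fun h hh => hW ▸ Subgroup.subset_closure ⟨h, hh, by rw [commutatorElement_def]⟩
  have hWQ : W ≤ Q₀ := by
    rw [hW, Subgroup.closure_le]
    rintro _ ⟨h, hh, rfl⟩
    show α * h * α⁻¹ * h⁻¹ ∈ Q₀
    rw [← commutatorElement_def, hQ₀']
    refine ⟨hw h hh, ?_⟩
    have e : ⁅α, ⁅α, h⁆⁆ = (⁅α, h⁆ * ⁅α, h⁆)⁻¹ := by
      rw [commutatorElement_def (g₁ := α) (g₂ := ⁅α, h⁆), hαw h, mul_inv_rev]
    rcases hE.sq_mem (hw h hh) with s | s <;> rw [e, s]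
    · simp
    · exact Or.inr hzi
  have hQE : Q₀ ≤ E := fun q hq => ((hQ₀' q).mp hq).1
  have hzW : z ∈ W := by
    obtain ⟨h, hh, h1, h2⟩ : ∃ h ∈ E, ⁅α, h⁆ ≠ 1 ∧ ⁅α, h⁆ ≠ z := by
      by_contra hcon
      push Not at hcon
      exact hαE (hA.stab α hαz fun q hq => or_iff_not_imp_left.mpr (hcon q hq))
    obtain ⟨q, hq, hqw⟩ : ∃ q ∈ E, ¬ Commute q ⁅α, h⁆ := by
      by_contra hcon
      push Not at hcon
      exact (hE.center _ (hw h hh) hcon).elim h1 h2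
    have e : ⁅α, q * h⁆ = ⁅α, q⁆ * (q * ⁅α, h⁆ * q⁻¹) := by simp only [commutatorElement_def]; group
    rw [hE.conj_eq_of_not_commute hq (hw h hh) hqw] at e
    have : z = ⁅α, h⁆⁻¹ * (⁅α, q⁆⁻¹ * ⁅α, q * h⁆) := by rw [e, inv_mul_cancel_left, inv_mul_cancel_left]
    rw [this]
    exact mul_mem (inv_mem (hWmem h hh)) (mul_mem (inv_mem (hWmem q hq)) (hWmem _ (mul_mem hq hh)))
  have hαk : ∀ k, (k = 1 ∨ k = z) → α * k * α⁻¹ = k := by
    rintro k (rfl | rfl)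
    · simp
    · rw [hαz, mul_inv_cancel_right]
  have hkc : ∀ k, (k = 1 ∨ k = z) → ∀ a ∈ E, a * k = k * a := by
    rintro k (rfl | rfl) a ha
    · simp
    · exact (hE.central a ha).eq
  have hfwd : ∀ c ∈ E, (∀ h ∈ E, c * ⁅α, h⁆ = ⁅α, h⁆ * c) → c ∈ Q₀ := by
    intro c hc hcw
    refine (hQ₀' c).mpr ⟨hc, hE.center _ (hw c hc) fun h hh => ?_⟩
    have hkey : ∀ h ∈ E, (α * c * α⁻¹) * h * (α * c * α⁻¹)⁻¹ = c * h * c⁻¹ := by
      intro h hh
      obtain ⟨k, hk⟩ : ∃ k, k = ⁅c, h⁆ := ⟨_, rfl⟩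
      have hk' : k = 1 ∨ k = z := hk ▸ hE.comm_cases hc hh
      have h1 : (α * c * α⁻¹) * ⁅α, h⁆ = ⁅α, h⁆ * (α * c * α⁻¹) := by
        have h0 : c * ⁅α, h⁆⁻¹ = ⁅α, h⁆⁻¹ * c := (show Commute c ⁅α, h⁆ from hcw h hh).inv_right.eq
        have h00 : ⁅α, h⁆ = α * ⁅α, h⁆⁻¹ * α⁻¹ := by rw [← conj_inv, hαw h, inv_inv]
        calc (α * c * α⁻¹) * ⁅α, h⁆ = (α * c * α⁻¹) * (α * ⁅α, h⁆⁻¹ * α⁻¹) := by rw [← h00]
          _ = α * (c * ⁅α, h⁆⁻¹) * α⁻¹ := by group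
          _ = α * (⁅α, h⁆⁻¹ * c) * α⁻¹ := by rw [h0]
          _ = (α * ⁅α, h⁆⁻¹ * α⁻¹) * (α * c * α⁻¹) := by group
          _ = ⁅α, h⁆ * (α * c * α⁻¹) := by rw [← h00]
      apply mul_left_cancel (a := ⁅α, h⁆)
      calc ⁅α, h⁆ * ((α * c * α⁻¹) * h * (α * c * α⁻¹)⁻¹)
          = (⁅α, h⁆ * (α * c * α⁻¹)) * h * (α * c * α⁻¹)⁻¹ := by group
        _ = ((α * c * α⁻¹) * ⁅α, h⁆) * h * (α * c * α⁻¹)⁻¹ := by rw [h1]
        _ = α * (⁅c, h⁆ * h) * α⁻¹ := by simp only [commutatorElement_def]; group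
        _ = (α * ⁅c, h⁆ * α⁻¹) * (α * h * α⁻¹) := by group
        _ = k * (⁅α, h⁆ * h) := by rw [← hk, hαk k hk', commutatorElement_def, inv_mul_cancel_right]
        _ = ⁅α, h⁆ * k * h := by rw [hkc k hk' _ (hw h hh)]; group
        _ = ⁅α, h⁆ * (c * h * c⁻¹) := by rw [hk, commutatorElement_def (g₁ := c)]; group
    obtain ⟨u, hu⟩ : ∃ u, u = α * c * α⁻¹ := ⟨_, rfl⟩
    have huE : u ∈ E := hu ▸ hA.norm α hαz c hc
    have h3 := hkey (c⁻¹ * h * c) (mul_mem (mul_mem (inv_mem hc) hh) hc)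
    rw [← hu] at h3
    show h * ⁅α, c⁆ = ⁅α, c⁆ * h
    rw [commutatorElement_def, ← hu]
    calc h * (u * c⁻¹) = (c * (c⁻¹ * h * c) * c⁻¹) * (u * c⁻¹) := by group
      _ = (u * (c⁻¹ * h * c) * u⁻¹) * (u * c⁻¹) := by rw [h3]
      _ = u * c⁻¹ * h := by group
  have hbwd : ∀ c ∈ Q₀, ∀ h ∈ E, c * ⁅α, h⁆ = ⁅α, h⁆ * c := by
    intro c hc h hh
    obtain ⟨hcE, hck⟩ := (hQ₀' c).mp hc
    obtain ⟨k, hk⟩ : ∃ k, k = ⁅c, h⁆ := ⟨_, rfl⟩
    have hk' : k = 1 ∨ k = z := hk ▸ hE.comm_cases hcE hh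
    have h1 : α * c * α⁻¹ = ⁅α, c⁆ * c := by rw [commutatorElement_def, inv_mul_cancel_right]
    have h2 : ⁅⁅α, c⁆ * c, ⁅α, h⁆ * h⁆ = k := by
      rw [← h1, commutatorElement_def α h, inv_mul_cancel_right]
      calc ⁅α * c * α⁻¹, α * h * α⁻¹⁆ = α * ⁅c, h⁆ * α⁻¹ := by simp only [commutatorElement_def]; group
        _ = k := by rw [← hk, hαk k hk']
    have hwh : ⁅α, h⁆ * h ∈ E := mul_mem (hw h hh) hh
    have h3 : ⁅⁅α, c⁆ * c, ⁅α, h⁆ * h⁆ = ⁅c, ⁅α, h⁆ * h⁆ := by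
      have aux : ∀ a b d : G, ⁅a * b, d⁆ = a * ⁅b, d⁆ * a⁻¹ * ⁅a, d⁆ := fun a b d => by
        simp only [commutatorElement_def]; group
      rw [aux, commutatorElement_eq_one_iff_mul_comm.mpr (hkc _ hck _ hwh).symm, mul_one,
        hkc _ (hE.comm_cases hcE hwh) _ (hw c hcE), mul_inv_cancel_right]
    have h4 : ⁅c, ⁅α, h⁆ * h⁆ = ⁅c, ⁅α, h⁆⁆ * k := by
      have aux : ∀ a b d : G, ⁅a, b * d⁆ = ⁅a, b⁆ * (b * ⁅a, d⁆ * b⁻¹) := fun a b d => by
        simp only [commutatorElement_def]; group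
      rw [aux, ← hk, hkc k hk' _ (hw h hh), mul_inv_cancel_right]
    exact commutatorElement_eq_one_iff_mul_comm.mp (mul_eq_right.mp (h4.symm.trans (h3.symm.trans h2)))
  refine ⟨le_antisymm ?_ ?_, fun hne => ?_⟩
  · intro w hwW
    refine ⟨⟨w, hWQ hwW⟩, Subgroup.mem_center_iff.mpr fun c => Subtype.ext ?_, rfl⟩
    have hle : W ≤ Subgroup.centralizer ({(c : G)} : Set G) := by
      rw [hW, Subgroup.closure_le]
      rintro _ ⟨h, hh, rfl⟩
      refine Subgroup.mem_centralizer_singleton_iff.mpr ?_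
      have := hbwd c c.2 h hh
      rw [commutatorElement_def] at this
      exact this.symm
    exact (Subgroup.mem_centralizer_singleton_iff.mp (hle hwW)).symm
  · rintro _ ⟨v, hv, rfl⟩
    by_contra hvW
    obtain ⟨g, hg, hgW, hgv⟩ := hE.exists_separating (hWQ.trans hQE) hzW (hQE v.2) hvW
    have hgQ : g ∈ Q₀ := hfwd g hg fun h hh => (hgW _ (hWmem h hh)).eq
    have hcomm : g * (v : G) = (v : G) * g := congrArg Subtype.val (Subgroup.mem_center_iff.mp hv ⟨g, hgQ⟩)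
    rw [hcomm, mul_inv_cancel_right] at hgv
    exact hE.ne_one (left_eq_mul.mp hgv)
  · obtain ⟨q, hq, hq'⟩ := SetLike.not_le_iff_exists.mp hne
    obtain ⟨hqE, hqk⟩ := (hQ₀' q).mp hq
    rcases hqk with h | h
    · exact absurd (Subgroup.mem_sup_left (Subgroup.mem_inf.mpr ⟨hqE, Subgroup.mem_centralizer_singleton_iff.mpr
        (commutatorElement_eq_one_iff_mul_comm.mp h).symm⟩)) hq'
    · refine ⟨q, hqE, ?_⟩
      calc q * α * q⁻¹ = ⁅α, q⁆⁻¹ * α := by simp only [commutatorElement_def]; group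
        _ = α * z := by rw [h, hzi, hαz]


/-- Let G be a finite group and let z be an involution of G such that Q, the generalized Fitting subgroup of the centralizer C of z, is a 2-group of symplectic type (every characteristic abelian subgroup of Q is cyclic); suppose Q is extraspecial, and view Q inside G. Let α be an involution of C that is not in Q, and let Q₀ be the subgroup of those q ∈ Q whose commutator with α lies in the subgroup generated by z. Then (a) the subgroup generated by the commutators α q α⁻¹ q⁻¹, q ∈ Q, equals the centre of Q₀; and (b) if Q₀ is not contained in the product of the centralizer of α in Q with the subgroup generated by z, then some element of Q conjugates α to α z. -/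
theorem result {G : Type*} [Group G] [Finite G] (z : G) (hz : orderOf z = 2) (hQ : Cfsg.IsOfSymplecticType ↥(Cfsg.generalizedFittingSubgroup ↥(Subgroup.centralizer ({z} : Set G)))) (hE : Cfsg.IsExtraspecial 2 ↥(Cfsg.generalizedFittingSubgroup ↥(Subgroup.centralizer ({z} : Set G))))
    (α : G) (hα : orderOf α = 2) (hαC : α ∈ Subgroup.centralizer ({z} : Set G)) (hαQ : α ∉ (Cfsg.generalizedFittingSubgroup ↥(Subgroup.centralizer ({z} : Set G))).map (Subgroup.centralizer ({z} : Set G)).subtype)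
    (Q₀ : Subgroup G) (hQ₀ : ∀ q : G, q ∈ Q₀ ↔ (q ∈ (Cfsg.generalizedFittingSubgroup ↥(Subgroup.centralizer ({z} : Set G))).map (Subgroup.centralizer ({z} : Set G)).subtype ∧ α * q * α⁻¹ * q⁻¹ ∈ Subgroup.zpowers z)) :
    Subgroup.closure ((fun q : G => α * q * α⁻¹ * q⁻¹) '' ((Cfsg.generalizedFittingSubgroup ↥(Subgroup.centralizer ({z} : Set G))).map (Subgroup.centralizer ({z} : Set G)).subtype : Set G)) = (Subgroup.center ↥Q₀).map Q₀.subtype ∧
      (¬ Q₀ ≤ ((Cfsg.generalizedFittingSubgroup ↥(Subgroup.centralizer ({z} : Set G))).map (Subgroup.centralizer ({z} : Set G)).subtype ⊓ Subgroup.centralizer ({α} : Set G)) ⊔ Subgroup.zpowers z →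
        ∃ q ∈ (Cfsg.generalizedFittingSubgroup ↥(Subgroup.centralizer ({z} : Set G))).map (Subgroup.centralizer ({z} : Set G)).subtype, q * α * q⁻¹ = α * z) := by
  obtain ⟨z₀, h₀⟩ := CfsgLib.Extra2.isExt_of_extraspecial hE
  have h4 : ∀ q ∈ (Cfsg.generalizedFittingSubgroup ↥(Subgroup.centralizer ({z} : Set G))).map (Subgroup.centralizer ({z} : Set G)).subtype, q ^ 4 = 1 := by
    rintro _ ⟨q, hq, rfl⟩
    have hq2 : q ^ 4 = 1 := by
      rw [show (4 : ℕ) = 2 * 2 from rfl, pow_mul, pow_two, pow_two]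
      rcases h₀.sq_mem hq with e | e <;> simp [e, h₀.sq]
    rw [← map_pow, hq2, map_one]
  have hA := Cfsg.Agent.S1774.pr_of_symplectic z hz hQ h4
  exact main hA (isExt_map z hz hE hA.mem) (by rw [← pow_two, ← hα]; exact pow_orderOf_eq_one α)
    (Subgroup.mem_centralizer_singleton_iff.mp hαC) hαQ hQ₀

end Cfsg.Agent.S1784
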