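import Cfsg.Statements.S1785
import Mathlib

set_option autoImplicit false
open Cfsg

namespace Cfsg.Agent.S1785
open Subgroup
open scoped Pointwise

variable {X : Type*} [Group X] [Finite X]

theorem two_dvd (hX : IsPGroup 2 X) {H : Subgroup X} {n k : ℕ} (h : 2 ^ n < Nat.card ↥H) (hk : k = n + 1) : 2 ^ k ≤ Nat.card ↥H := by
  haveI : Fact (Nat.Prime 2) := ⟨Nat.prime_two⟩
  obtain ⟨m, hm⟩ := IsPGroup.iff_card.mp (hX.to_subgroup H)
  rw [hm] at h ⊢
  exact Nat.pow_le_pow_right (by norm_num) (hk ▸ (Nat.pow_lt_pow_iff_right (by norm_num)).mp h)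

theorem elem_sup {A B : Subgroup X} (hA : Cfsg.IsElementaryAbelian 2 A) (hB : Cfsg.IsElementaryAbelian 2 B)
    (h : B ≤ centralizer (A : Set X)) : Cfsg.IsElementaryAbelian 2 (A ⊔ B) := by
  have hc : A ⊔ B ≤ centralizer ((A ⊔ B : Subgroup X) : Set X) := by
    refine sup_le (le_centralizer_iff.mp (sup_le ?_ h)) (le_centralizer_iff.mp (sup_le (le_centralizer_iff.mp h) ?_))
    · haveI := hA.1; exact fun a ha => mem_centralizer_iff.mpr fun b hb => Subgroup.mul_comm_of_mem_isMulCommutative A hb ha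
    · haveI := hB.1; exact fun a ha => mem_centralizer_iff.mpr fun b hb => Subgroup.mul_comm_of_mem_isMulCommutative B hb ha
  refine ⟨⟨⟨fun a b => Subtype.ext (mem_centralizer_iff.mp (hc b.2) a a.2)⟩⟩, fun x hx => ?_⟩
  let K : Subgroup X :=
    { carrier := {x | x ∈ A ⊔ B ∧ x ^ 2 = 1}
      one_mem' := ⟨one_mem _, one_pow 2⟩
      mul_mem' := fun {a b} ha hb => ⟨mul_mem ha.1 hb.1, by
        rw [(show Commute a b from mem_centralizer_iff.mp (hc hb.1) a ha.1).mul_pow, ha.2, hb.2, one_mul]⟩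
      inv_mem' := fun {a} ha => ⟨inv_mem ha.1, by rw [inv_pow, ha.2, inv_one]⟩ }
  have hle : A ⊔ B ≤ K := sup_le (fun a ha => ⟨mem_sup_left ha, hA.2 a ha⟩) (fun b hb => ⟨mem_sup_right hb, hB.2 b hb⟩)
  exact (hle hx).2

theorem elem_le {A B : Subgroup X} (hA : Cfsg.IsElementaryAbelian 2 A) (h : B ≤ A) : Cfsg.IsElementaryAbelian 2 B := by
  haveI := hA.1
  exact ⟨⟨⟨fun a b => Subtype.ext (Subgroup.mul_comm_of_mem_isMulCommutative A (h a.2) (h b.2))⟩⟩, fun x hx => hA.2 x (h hx)⟩

theorem card_centralizer_sq {W : Subgroup X} (hW : Cfsg.IsElementaryAbelian 2 W) {t : X}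
    (ht2 : t ^ 2 = 1) (ht : ∀ w ∈ W, t * w * t ∈ W) :
    Nat.card ↥W ≤ Nat.card ↥(W ⊓ centralizer ({t} : Set X)) ^ 2 := by
  haveI := hW.1
  have htt : t * t = 1 := by rw [← pow_two]; exact ht2
  have hwc : ∀ a ∈ W, ∀ b ∈ W, a * b = b * a := fun a ha b hb => Subgroup.mul_comm_of_mem_isMulCommutative W ha hb
  let f : ↥W →* ↥W := MonoidHom.mk' (fun w => ⟨(w : X) * (t * w * t), mul_mem w.2 (ht w w.2)⟩) fun a b => by
    apply Subtype.ext
    show (a : X) * b * (t * ((a : X) * b) * t) = (a : X) * (t * a * t) * ((b : X) * (t * b * t))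
    calc (a : X) * b * (t * ((a : X) * b) * t) = (a : X) * b * (t * a * (t * t) * b * t) := by rw [htt]; group
      _ = (a : X) * ((b : X) * (t * a * t)) * (t * b * t) := by group
      _ = (a : X) * ((t * a * t) * b) * (t * b * t) := by rw [hwc _ b.2 _ (ht a a.2)]
      _ = _ := by group
  set C := W ⊓ centralizer ({t} : Set X) with hC
  have h1 : Nat.card ↥f.ker ≤ Nat.card ↥C := by
    rw [← Subgroup.card_map_of_injective W.subtype_injective (K := f.ker)]
    refine Subgroup.card_le_of_le ?_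
    rintro _ ⟨w, hw, rfl⟩
    refine ⟨w.2, mem_centralizer_singleton_iff.mpr ?_⟩
    have h : (w : X) * (t * w * t) = 1 := congrArg Subtype.val (MonoidHom.mem_ker.mp hw)
    have hi : (w : X)⁻¹ = w := inv_eq_of_mul_eq_one_right (by rw [← pow_two]; exact hW.2 w w.2)
    have h3 : t * (w : X) * t = w := (inv_eq_of_mul_eq_one_right h).symm.trans hi
    calc (w : X) * t = t * w * (t * t) := by rw [← mul_assoc, h3]
      _ = t * w := by rw [htt, mul_one]
  have h2 : Nat.card ↥f.range ≤ Nat.card ↥C := by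
    rw [← Subgroup.card_map_of_injective W.subtype_injective (K := f.range)]
    refine Subgroup.card_le_of_le ?_
    rintro _ ⟨_, ⟨w, rfl⟩, rfl⟩
    refine ⟨(f w).2, mem_centralizer_singleton_iff.mpr ?_⟩
    show (w : X) * (t * w * t) * t = t * ((w : X) * (t * w * t))
    calc (w : X) * (t * w * t) * t = (w : X) * (t * w) * (t * t) := by group
      _ = (t * w * t) * w * t := by
        rw [hwc (t * (w : X) * t) (ht w w.2) w w.2, htt]
        calc (w : X) * (t * w) * 1 = (w : X) * (t * w) * (t * t) := by rw [htt]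
          _ = _ := by group
      _ = _ := by group
  have := f.ker.card_mul_index
  rw [Subgroup.index_ker] at this
  rw [← this, pow_two]
  exact Nat.mul_le_mul h1 h2

/-- Let X be a finite 2-group having a normal elementary abelian subgroup of order at least 32. Then (a) for any two elementary abelian subgroups A, B of X of order 8 there is a chain A = A₁, A₂, …, Aₙ = B of elementary abelian subgroups of order 8 in which consecutive members commute elementwise; and (b) every elementary abelian subgroup of X of order 4 is contained in an elementary abelian subgroup of order 8. -/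
theorem result {X : Type*} [Group X] [Finite X]
    (hX : IsPGroup 2 X) (E : Subgroup X) [E.Normal] (hE : Cfsg.IsElementaryAbelian 2 E) (hE32 : 32 ≤ Nat.card ↥E) :
    (∀ A B : Subgroup X, Cfsg.IsElementaryAbelian 2 A → Nat.card ↥A = 8 → Cfsg.IsElementaryAbelian 2 B → Nat.card ↥B = 8 →
        Relation.ReflTransGen
          (fun C D : Subgroup X => Cfsg.IsElementaryAbelian 2 C ∧ Nat.card ↥C = 8 ∧ Cfsg.IsElementaryAbelian 2 D ∧ Nat.card ↥D = 8 ∧ ⁅C, D⁆ = ⊥)
          A B) ∧
      (∀ V : Subgroup X, Cfsg.IsElementaryAbelian 2 V → Nat.card ↥V = 4 →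
        ∃ A : Subgroup X, V ≤ A ∧ Cfsg.IsElementaryAbelian 2 A ∧ Nat.card ↥A = 8) := by
  classical
  haveI : Fact (Nat.Prime 2) := ⟨Nat.prime_two⟩
  have hcent : ∀ (W : Subgroup X), W ≤ E → ∀ t : X, t ^ 2 = 1 → (∀ w ∈ W, t * w * t ∈ W) →
      Nat.card ↥W ≤ Nat.card ↥(W ⊓ centralizer ({t} : Set X)) ^ 2 := fun W hW t ht hWt =>
    card_centralizer_sq (elem_le hE hW) ht hWt
  have hEt : ∀ t : X, t ^ 2 = 1 → ∀ w ∈ E, t * w * t ∈ E := fun t ht w hw => by
    have h := (inferInstance : E.Normal).conj_mem w hw t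
    rwa [show t⁻¹ = t from inv_eq_of_mul_eq_one_right (by rw [← pow_two]; exact ht)] at h
  have hinv : ∀ (a t : X), t ^ 2 = 1 → t * a = a * t → ∀ (W : Subgroup X), (∀ w ∈ W, t * w * t ∈ W) →
      ∀ w ∈ W ⊓ centralizer ({a} : Set X), t * w * t ∈ W ⊓ centralizer ({a} : Set X) := by
    intro a t ht hta W hW w hw
    refine ⟨hW w hw.1, mem_centralizer_singleton_iff.mpr ?_⟩
    have hwa : w * a = a * w := mem_centralizer_singleton_iff.mp hw.2
    calc t * w * t * a = t * (w * (t * a)) := by group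
      _ = t * (w * a) * t := by rw [hta]; group
      _ = t * a * (w * t) := by rw [hwa]; group
      _ = a * (t * w * t) := by rw [hta]; group
  have c1 : ∀ a : X, a ^ 2 = 1 → 8 ≤ Nat.card ↥(E ⊓ centralizer ({a} : Set X)) := by
    intro a ha
    have h := hcent E le_rfl a ha (hEt a ha)
    refine two_dvd hX (n := 2) ?_ rfl
    by_contra hc
    have := Nat.pow_le_pow_left (not_lt.mp hc) 2
    omega
  have c2 : ∀ a b : X, a ^ 2 = 1 → b ^ 2 = 1 → b * a = a * b →
      4 ≤ Nat.card ↥(E ⊓ centralizer ({a} : Set X) ⊓ centralizer ({b} : Set X)) := by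
    intro a b ha hb hba
    have h := hcent _ inf_le_left b hb (hinv a b hb hba E (hEt b hb))
    have h8 := c1 a ha
    refine two_dvd hX (n := 1) ?_ rfl
    by_contra hc
    have := Nat.pow_le_pow_left (not_lt.mp hc) 2
    omega
  have c3 : ∀ a b c : X, a ^ 2 = 1 → b ^ 2 = 1 → c ^ 2 = 1 → b * a = a * b → c * a = a * c → c * b = b * c →
      2 ≤ Nat.card ↥(E ⊓ centralizer ({a} : Set X) ⊓ centralizer ({b} : Set X) ⊓ centralizer ({c} : Set X)) := by
    intro a b c ha hb hc hba hca hcb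
    have h := hcent _ (inf_le_left.trans inf_le_left) c hc (hinv b c hc hcb _ (hinv a c hc hca E (hEt c hc)))
    have h4 := c2 a b ha hb hba
    refine two_dvd hX (n := 0) ?_ rfl
    by_contra hh
    have := Nat.pow_le_pow_left (not_lt.mp hh) 2
    omega
  have hext : ∀ (F H : Subgroup X) (k : ℕ), F ≤ H → Nat.card ↥F ≤ 2 ^ k → 2 ^ k ≤ Nat.card ↥H →
      ∃ K : Subgroup X, F ≤ K ∧ K ≤ H ∧ Nat.card ↥K = 2 ^ k := by
    intro F H k hFH hF hH
    obtain ⟨i, hi⟩ := IsPGroup.iff_card.mp (hX.to_subgroup F)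
    obtain ⟨j, hj⟩ := IsPGroup.iff_card.mp (hX.to_subgroup H)
    have hik : i ≤ k := (Nat.pow_le_pow_iff_right (by norm_num)).mp (hi ▸ hF)
    have hkj : k ≤ j := (Nat.pow_le_pow_iff_right (by norm_num)).mp (hj ▸ hH)
    obtain ⟨K, hK, hFK⟩ := Sylow.exists_subgroup_card_pow_prime_le (G := ↥H) 2 (n := i) (m := k)
      (by rw [hj]; exact pow_dvd_pow 2 hkj) (F.subgroupOf H)
      (by rw [Nat.card_congr (Subgroup.subgroupOfEquivOfLe hFH).toEquiv]; exact hi) hik
    refine ⟨K.map H.subtype, fun x hx => ⟨⟨x, hFH hx⟩, hFK (Subgroup.mem_subgroupOf.mpr hx), rfl⟩,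
      Subgroup.map_subtype_le _, by rw [Subgroup.card_map_of_injective H.subtype_injective, hK]⟩
  -- generation: grow a subgroup inside A
  have hgrow : ∀ (A F : Subgroup X), F ≤ A → Nat.card ↥F < Nat.card ↥A → ∃ a ∈ A, a ∉ F ∧
      2 * Nat.card ↥F ≤ Nat.card ↥(F ⊔ zpowers a) := by
    intro A F hFA hlt
    obtain ⟨a, ha, haF⟩ := SetLike.exists_of_lt (lt_of_le_of_ne hFA (fun h => hlt.ne (by rw [h])))
    refine ⟨a, ha, haF, ?_⟩
    have hl : F < F ⊔ zpowers a := lt_of_le_of_ne le_sup_left fun h => haF (h ▸ mem_sup_right (mem_zpowers a))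
    have h1 := Subgroup.relIndex_mul_relIndex ⊥ F (F ⊔ zpowers a) bot_le hl.le
    rw [Subgroup.relIndex_bot_left, Subgroup.relIndex_bot_left] at h1
    have hne : F.relIndex (F ⊔ zpowers a) ≠ 1 := fun h => hl.not_ge (Subgroup.relIndex_eq_one.mp h)
    have hpos : 0 < F.relIndex (F ⊔ zpowers a) := Nat.pos_of_ne_zero (fun h => by
      rw [h, mul_zero] at h1; exact absurd h1 (by have := Nat.card_pos (α := ↥(F ⊔ zpowers a)); omega))
    rw [← h1, mul_comm 2]
    exact Nat.mul_le_mul_left _ (by omega)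
  -- the centralizer bounds for A
  have hcomm : ∀ {A : Subgroup X}, Cfsg.IsElementaryAbelian 2 A → ∀ a ∈ A, ∀ b ∈ A, b * a = a * b := fun {A} hA a ha b hb => by
    haveI := hA.1; exact Subgroup.mul_comm_of_mem_isMulCommutative A hb ha
  have hEc : ∀ e ∈ E, E ≤ centralizer ({e} : Set X) := fun e he w hw => mem_centralizer_singleton_iff.mpr (hcomm hE e he w hw)
  have hsingle : ∀ {H : Subgroup X} {a : X}, H ≤ centralizer ({a} : Set X) → a ∈ centralizer (H : Set X) := fun {H a} h =>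
    mem_centralizer_iff.mpr fun w hw => mem_centralizer_singleton_iff.mp (h hw)
  have bound : ∀ A : Subgroup X, Cfsg.IsElementaryAbelian 2 A → Nat.card ↥A = 8 →
      2 ≤ Nat.card ↥(E ⊓ centralizer (A : Set X)) ∧ (2 ≤ Nat.card ↥(A ⊓ E : Subgroup X) → 4 ≤ Nat.card ↥(E ⊓ centralizer (A : Set X))) ∧
      (4 ≤ Nat.card ↥(A ⊓ E : Subgroup X) → 8 ≤ Nat.card ↥(E ⊓ centralizer (A : Set X))) := by
    intro A hA h8
    have h2 := fun a ha => hA.2 a ha
    refine ⟨?_, fun hF => ?_, fun hF => ?_⟩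
    · obtain ⟨a, ha, -, hca⟩ := hgrow A ⊥ bot_le (by rw [Subgroup.card_bot]; omega)
      rw [Subgroup.card_bot, bot_sup_eq] at hca
      by_cases hc4 : 4 < Nat.card ↥(zpowers a)
      · exfalso; rw [Nat.card_zpowers] at hc4
        have := orderOf_le_of_pow_eq_one (by norm_num) (h2 a ha)
        omega
      obtain ⟨b, hb, -, hcb⟩ := hgrow A (zpowers a) (zpowers_le.mpr ha) (by omega)
      have hlt : Nat.card ↥(zpowers a ⊔ zpowers b) < Nat.card ↥A := by
        have hle : Nat.card ↥(zpowers a ⊔ zpowers b) ≤ 4 := by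
          have hoa := orderOf_le_of_pow_eq_one (by norm_num) (h2 a ha)
          have hob := orderOf_le_of_pow_eq_one (by norm_num) (h2 b hb)
          have hn : zpowers b ≤ normalizer ((zpowers a : Subgroup X) : Set X) := (zpowers_le.mpr
            (hsingle (a := b) (zpowers_le.mpr (mem_centralizer_singleton_iff.mpr (hcomm hA b hb a ha))))).trans
            (centralizer_le_normalizer _)
          rw [show Nat.card ↥(zpowers a ⊔ zpowers b) = Nat.card ↥((zpowers a : Set X) * (zpowers b : Set X)) by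
            rw [← Subgroup.coe_mul_of_right_le_normalizer_left (zpowers a) (zpowers b) hn]; rfl]
          refine le_trans (Set.natCard_mul_le) ?_
          rw [show Nat.card ↥((zpowers a : Subgroup X) : Set X) = orderOf a from Nat.card_zpowers a,
            show Nat.card ↥((zpowers b : Subgroup X) : Set X) = orderOf b from Nat.card_zpowers b]
          nlinarith
        omega
      obtain ⟨c, hc, -, hcc⟩ := hgrow A (zpowers a ⊔ zpowers b) (sup_le (zpowers_le.mpr ha) (zpowers_le.mpr hb)) hlt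
      have hAeq : A = zpowers a ⊔ zpowers b ⊔ zpowers c := (Subgroup.eq_of_le_of_card_ge
        (sup_le (sup_le (zpowers_le.mpr ha) (zpowers_le.mpr hb)) (zpowers_le.mpr hc)) (by omega)).symm
      refine (c3 a b c (h2 a ha) (h2 b hb) (h2 c hc) (hcomm hA a ha b hb) (hcomm hA a ha c hc) (hcomm hA b hb c hc)).trans
        (Subgroup.card_le_of_le fun w hw => ⟨hw.1.1.1, ?_⟩)
      have : A ≤ centralizer ({w} : Set X) := by
        rw [hAeq]
        refine sup_le (sup_le ?_ ?_) ?_ <;> refine zpowers_le.mpr (mem_centralizer_singleton_iff.mpr ?_)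
        · exact (mem_centralizer_singleton_iff.mp hw.1.1.2).symm
        · exact (mem_centralizer_singleton_iff.mp hw.1.2).symm
        · exact (mem_centralizer_singleton_iff.mp hw.2).symm
      exact hsingle this
    · obtain ⟨F, -, hFle, hF2⟩ := hext ⊥ (A ⊓ E) 1 bot_le (by simp) hF
      obtain ⟨a, ha, -, hca⟩ := hgrow A F (hFle.trans inf_le_left) (by omega)
      have hlt : Nat.card ↥(F ⊔ zpowers a) < Nat.card ↥A := by
        have hoa := orderOf_le_of_pow_eq_one (by norm_num) (h2 a ha)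
        have hn : zpowers a ≤ normalizer ((F : Subgroup X) : Set X) := (zpowers_le.mpr
          (mem_centralizer_iff.mpr fun w hw => (hcomm hA w ((hFle.trans inf_le_left) hw) a ha).symm)).trans
          (centralizer_le_normalizer _)
        rw [show Nat.card ↥(F ⊔ zpowers a) = Nat.card ↥((F : Set X) * (zpowers a : Set X)) by
          rw [← Subgroup.coe_mul_of_right_le_normalizer_left F (zpowers a) hn]; rfl]
        refine lt_of_le_of_lt Set.natCard_mul_le ?_
        rw [show Nat.card ↥((F : Subgroup X) : Set X) = 2 from hF2,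
          show Nat.card ↥((zpowers a : Subgroup X) : Set X) = orderOf a from Nat.card_zpowers a]
        omega
      obtain ⟨b, hb, -, hcb⟩ := hgrow A (F ⊔ zpowers a) (sup_le (hFle.trans inf_le_left) (zpowers_le.mpr ha)) hlt
      have hAeq : A = F ⊔ zpowers a ⊔ zpowers b := (Subgroup.eq_of_le_of_card_ge
        (sup_le (sup_le (hFle.trans inf_le_left) (zpowers_le.mpr ha)) (zpowers_le.mpr hb)) (by omega)).symm
      refine (c2 a b (h2 a ha) (h2 b hb) (hcomm hA a ha b hb)).trans (Subgroup.card_le_of_le fun w hw => ⟨hw.1.1, ?_⟩)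
      have : A ≤ centralizer ({w} : Set X) := by
        rw [hAeq]
        refine sup_le (sup_le ((hFle.trans inf_le_right).trans (hEc w hw.1.1)) ?_) ?_ <;> refine zpowers_le.mpr (mem_centralizer_singleton_iff.mpr ?_)
        · exact (mem_centralizer_singleton_iff.mp hw.1.2).symm
        · exact (mem_centralizer_singleton_iff.mp hw.2).symm
      exact hsingle this
    · obtain ⟨F, -, hFle, hF4⟩ := hext ⊥ (A ⊓ E) 2 bot_le (by simp) hF
      obtain ⟨a, ha, -, hca⟩ := hgrow A F (hFle.trans inf_le_left) (by omega)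
      have hAeq : A = F ⊔ zpowers a := (Subgroup.eq_of_le_of_card_ge
        (sup_le (hFle.trans inf_le_left) (zpowers_le.mpr ha)) (by omega)).symm
      refine (c1 a (h2 a ha)).trans (Subgroup.card_le_of_le fun w hw => ⟨hw.1, ?_⟩)
      have : A ≤ centralizer ({w} : Set X) := by
        rw [hAeq]
        exact sup_le ((hFle.trans inf_le_right).trans (hEc w hw.1)) (zpowers_le.mpr (mem_centralizer_singleton_iff.mpr
          (mem_centralizer_singleton_iff.mp hw.2).symm))
      exact hsingle this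
  set R := fun C D : Subgroup X => Cfsg.IsElementaryAbelian 2 C ∧ Nat.card ↥C = 8 ∧ Cfsg.IsElementaryAbelian 2 D ∧
    Nat.card ↥D = 8 ∧ ⁅C, D⁆ = ⊥ with hR
  have hstep : ∀ (A : Subgroup X) (k : ℕ), Cfsg.IsElementaryAbelian 2 A → Nat.card ↥A = 8 → k ≤ 3 →
      2 ^ k ≤ Nat.card ↥(E ⊓ centralizer (A : Set X)) →
      ∃ A' : Subgroup X, R A A' ∧ R A' A ∧ 2 ^ k ≤ Nat.card ↥(A' ⊓ E : Subgroup X) := by
    intro A k hA h8 hk hbig
    obtain ⟨F, -, hFle, hFc⟩ := hext ⊥ (E ⊓ centralizer (A : Set X)) k bot_le (by simpa using Nat.one_le_two_pow) hbig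
    have hH := elem_sup hA (elem_le hE (hFle.trans inf_le_left)) (hFle.trans inf_le_right)
    obtain ⟨A', hFA', hA'H, hA'8⟩ := hext F (A ⊔ F) 3 le_sup_right
      (hFc.le.trans (Nat.pow_le_pow_right (by norm_num) hk)) (h8.ge.trans (Subgroup.card_le_of_le le_sup_left))
    have hA' := elem_le hH hA'H
    have hc : ⁅A, A'⁆ = ⊥ := by
      rw [Subgroup.commutator_eq_bot_iff_le_centralizer]
      haveI := hH.1
      exact fun a ha => mem_centralizer_iff.mpr fun b hb =>
        Subgroup.mul_comm_of_mem_isMulCommutative (A ⊔ F) (hA'H hb) (mem_sup_left ha)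
    exact ⟨A', ⟨hA, h8, hA', hA'8, hc⟩, ⟨hA', hA'8, hA, h8, by rw [Subgroup.commutator_comm]; exact hc⟩,
      hFc.ge.trans (Subgroup.card_le_of_le (le_inf hFA' (hFle.trans inf_le_left)))⟩
  have hreach : ∀ A : Subgroup X, Cfsg.IsElementaryAbelian 2 A → Nat.card ↥A = 8 →
      ∃ A' : Subgroup X, Relation.ReflTransGen R A A' ∧ Relation.ReflTransGen R A' A ∧
        Cfsg.IsElementaryAbelian 2 A' ∧ Nat.card ↥A' = 8 ∧ A' ≤ E := by
    intro A hA h8
    obtain ⟨A1, r1, s1, h1⟩ := hstep A 1 hA h8 (by norm_num) (bound A hA h8).1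
    obtain ⟨A2, r2, s2, h2⟩ := hstep A1 2 r1.2.2.1 r1.2.2.2.1 (by norm_num) ((bound A1 r1.2.2.1 r1.2.2.2.1).2.1 h1)
    obtain ⟨A3, r3, s3, h3⟩ := hstep A2 3 r2.2.2.1 r2.2.2.2.1 le_rfl ((bound A2 r2.2.2.1 r2.2.2.2.1).2.2 h2)
    refine ⟨A3, ((Relation.ReflTransGen.single r1).tail r2).tail r3,
      ((Relation.ReflTransGen.single s3).tail s2).tail s1, r3.2.2.1, r3.2.2.2.1, ?_⟩
    have := Subgroup.eq_of_le_of_card_ge (inf_le_left : A3 ⊓ E ≤ A3) (r3.2.2.2.1.le.trans (by simpa using h3))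
    exact this ▸ inf_le_right
  refine ⟨fun A B hA hA8 hB hB8 => ?_, fun V hV hV4 => ?_⟩
  · obtain ⟨A', ra, -, hA', hA'8, hA'E⟩ := hreach A hA hA8
    obtain ⟨B', -, rb, hB', hB'8, hB'E⟩ := hreach B hB hB8
    refine (ra.tail ⟨hA', hA'8, hB', hB'8, ?_⟩).trans rb
    rw [Subgroup.commutator_eq_bot_iff_le_centralizer]
    exact fun a ha => mem_centralizer_iff.mpr fun b hb => hcomm hE a (hA'E ha) b (hB'E hb)
  · obtain ⟨a, ha, -, hca⟩ := hgrow V ⊥ bot_le (by rw [Subgroup.card_bot]; omega)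
    rw [Subgroup.card_bot, bot_sup_eq, Nat.card_zpowers] at hca
    have hoa := orderOf_le_of_pow_eq_one (by norm_num) (hV.2 a ha)
    obtain ⟨b, hb, -, hcb⟩ := hgrow V (zpowers a) (zpowers_le.mpr ha) (by rw [Nat.card_zpowers]; omega)
    rw [Nat.card_zpowers] at hcb
    have hVeq : V = zpowers a ⊔ zpowers b := (Subgroup.eq_of_le_of_card_ge
      (sup_le (zpowers_le.mpr ha) (zpowers_le.mpr hb)) (by omega)).symm
    set W := E ⊓ centralizer ({a} : Set X) ⊓ centralizer ({b} : Set X) with hW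
    have hW4 := c2 a b (hV.2 a ha) (hV.2 b hb) (hcomm hV a ha b hb)
    have hWV : W ≤ centralizer (V : Set X) := by
      rw [hVeq]
      refine fun w hw => hsingle (sup_le ?_ ?_) <;> refine zpowers_le.mpr (mem_centralizer_singleton_iff.mpr ?_)
      · exact (mem_centralizer_singleton_iff.mp hw.1.2).symm
      · exact (mem_centralizer_singleton_iff.mp hw.2).symm
    by_cases hWle : W ≤ V
    · have hVE : V ≤ E := (Subgroup.eq_of_le_of_card_ge hWle (hV4.le.trans hW4)).ge.trans (inf_le_left.trans inf_le_left)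
      obtain ⟨K, hVK, hKE, hK⟩ := hext V E 3 hVE (by rw [hV4]; norm_num) (by norm_num; omega)
      exact ⟨K, hVK, elem_le hE hKE, hK⟩
    · have hH := elem_sup hV (elem_le hE (inf_le_left.trans inf_le_left)) hWV
      have hlt : V < V ⊔ W := lt_of_le_of_ne le_sup_left fun h => hWle (h ▸ le_sup_right)
      obtain ⟨K, hVK, hKH, hK⟩ := hext V (V ⊔ W) 3 hlt.le (by rw [hV4]; norm_num) (by
        refine two_dvd hX (n := 2) ?_ rfl
        by_contra hc
        exact hlt.ne (Subgroup.eq_of_le_of_card_ge hlt.le (by rw [hV4]; exact not_lt.mp hc)))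
      exact ⟨K, hVK, elem_le hH hKH, hK⟩

end Cfsg.Agent.S1785
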