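import Cfsg.Statements.S1850
import Cfsg.Agent.Lib.CharPLocal

set_option autoImplicit false
open Cfsg

namespace Cfsg.Agent.S1850
open CfsgLib.CharPLocal CfsgLib.GenFitting

theorem climb {G : Type*} [Group G] [Finite G] {p : ℕ} [Fact p.Prime] {U : Subgroup G} (hU : IsPGroup p ↥U) :
    ∀ (m : ℕ) (C : Subgroup G), Nat.card ↥U ≤ Nat.card ↥C + m → C ≤ U →
      CfsgLib.CharP.HasCharP p ↥(Subgroup.normalizer (C : Set G)) →
      CfsgLib.CharP.HasCharP p ↥(Subgroup.normalizer (U : Set G)) := by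
  intro m
  induction m with
  | zero =>
    intro C hm hC h
    rwa [← Subgroup.eq_of_le_of_card_ge hC (by omega)]
  | succ m ih =>
    intro C hm hC h
    rcases eq_or_ne C U with rfl | hne
    · exact h
    have hlt : C < U ⊓ Subgroup.normalizer (C : Set G) := lt_of_le_of_ne (le_inf hC Subgroup.le_normalizer) fun e =>
      hne (CfsgLib.LocalBasic.eq_of_normalizer_inf_le hU hC e.ge)
    have hc : Nat.card ↥C < Nat.card ↥(U ⊓ Subgroup.normalizer (C : Set G) : Subgroup G) := by
      by_contra hle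
      exact hlt.ne (Subgroup.eq_of_le_of_card_ge hlt.le (by omega))
    refine ih (U ⊓ Subgroup.normalizer (C : Set G)) (by omega) inf_le_left (charP_normalizer_of_centralizer (hU.to_le inf_le_left) ?_)
    exact charP_centralizer_of_le h (hU.to_le inf_le_left) inf_le_right
      ((Subgroup.centralizer_le (SetLike.coe_subset_coe.mpr hlt.le)).trans (Subgroup.centralizer_le_normalizer _))

/-- Let G be a non-abelian finite simple QTKE-group and T a Sylow 2-subgroup of G. If U is a nontrivial 2-subgroup of G with U ∩ Z(T) ≠ 1, then F*(N_G(U)) = O₂(N_G(U)). -/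
theorem result {G : Type*} [Group G] [Finite G] [IsSimpleGroup G]
    (hG : ¬ IsMulCommutative G) (hQ : Cfsg.IsQTKE G) (T : Sylow 2 G) (U : Subgroup G)
    (hU : IsPGroup 2 ↥U) (hZ : U ⊓ ((T : Subgroup G) ⊓ Subgroup.centralizer ((T : Subgroup G) : Set G)) ≠ ⊥) :
    Subgroup.normalizer (U : Set G) ∈ Cfsg.calHe G := by
  classical
  haveI := Fact.mk Nat.prime_two
  obtain ⟨z, hz, hz1⟩ := (Subgroup.bot_or_exists_ne_one _).resolve_left hZ
  obtain ⟨hzU, hzS, hzc⟩ : z ∈ U ∧ z ∈ (T : Subgroup G) ∧ z ∈ Subgroup.centralizer ((T : Subgroup G) : Set G) :=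
    ⟨hz.1, hz.2.1, hz.2.2⟩
  set C := Subgroup.zpowers z
  have hC2 : IsPGroup 2 ↥C := hU.to_le (Subgroup.zpowers_le.mpr hzU)
  have hCne : C ≠ ⊥ := fun h => hz1 (Subgroup.zpowers_eq_bot.mp h)
  have hTN : (T : Subgroup G) ≤ Subgroup.normalizer (C : Set G) := by
    refine le_trans ?_ (Subgroup.centralizer_le_normalizer _)
    rw [show C = Subgroup.closure {z} from Subgroup.zpowers_eq_closure z, Subgroup.centralizer_closure]
    intro t ht
    exact Subgroup.mem_centralizer_singleton_iff.mpr (Subgroup.mem_centralizer_iff.mp hzc t ht)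
  have h0 : CfsgLib.CharP.HasCharP 2 ↥(Subgroup.normalizer (C : Set G)) :=
    (hQ.2.2 _ ⟨C, hC2, hCne, rfl⟩ ⟨T, hTN⟩ :)
  exact genFitting_eq_of_charP (climb hU (Nat.card ↥U) C (by omega) (Subgroup.zpowers_le.mpr hzU) h0)

end Cfsg.Agent.S1850
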