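import Cfsg.Statements.S1851
import Cfsg.Agent.Lib.GenFitting
import Cfsg.Agent.Lib.CharPLocal
import Cfsg.Agent.Lib.GroupB.Coprime

set_option autoImplicit false
open Cfsg

namespace Cfsg.Agent.S1851

open CfsgLib.Components
open scoped commutatorElement

universe v

variable {G : Type v} [Group G] [Finite G]

theorem perfect_le {X : Type v} [Group X] {L R : Subgroup X} [R.Normal] (hs : Group.IsSolvable ↥R) (hL : L.IsSubnormal)
    (htop : L ⊔ R = ⊤) {D : Subgroup X} (hD : ⁅D, D⁆ = D) : D ≤ L := by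
  induction hL with
  | top => exact le_top
  | step A B hle _ hN ih =>
    have hDB : D ≤ B := ih (top_le_iff.mp (htop ▸ sup_le_sup_right hle _))
    haveI := hN
    obtain ⟨π, hπ⟩ : ∃ π, π = QuotientGroup.mk' (A.subgroupOf B) := ⟨_, rfl⟩
    have hsurj : Function.Surjective (π.comp (Subgroup.inclusion (inf_le_right : R ⊓ B ≤ B))) := by
      intro q
      obtain ⟨b, rfl⟩ : ∃ b, π b = q := hπ ▸ QuotientGroup.mk'_surjective _ q
      have hdec : (b : X) ∈ ((A ⊔ R : Subgroup X) : Set X) := htop ▸ Subgroup.mem_top _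
      rw [Subgroup.mul_normal, Set.mem_mul] at hdec
      obtain ⟨a, ha, r, hr, he⟩ := hdec
      have hrB : r ∈ B := by
        have := B.mul_mem (B.inv_mem (hle ha)) b.2
        rwa [← he, inv_mul_cancel_left] at this
      refine ⟨⟨r, hr, hrB⟩, ?_⟩
      rw [show b = ⟨a, hle ha⟩ * ⟨r, hrB⟩ from Subtype.ext he.symm, map_mul,
        show π ⟨a, hle ha⟩ = 1 from hπ ▸ (QuotientGroup.eq_one_iff _).mpr (Subgroup.mem_subgroupOf.mpr ha), one_mul]
      rfl
    haveI : Group.IsSolvable ↥(R ⊓ B) := Group.isSolvable_of_isSolvable_injective (Subgroup.inclusion_injective inf_le_left)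
    haveI hQ : Group.IsSolvable (↥B ⧸ A.subgroupOf B) := Group.isSolvable_of_surjective hsurj
    have hp : ⁅(D.subgroupOf B).map π, (D.subgroupOf B).map π⁆ = (D.subgroupOf B).map π := by
      rw [← Subgroup.map_commutator]
      congr 1
      apply Subgroup.map_injective B.subtype_injective
      rw [Subgroup.map_commutator, Subgroup.map_subgroupOf_eq_of_le hDB, hD]
    have h0 := eq_bot_of_perfect_solvable hp (Group.isSolvable_of_isSolvable_injective (Subgroup.subtype_injective _))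
    intro d hd
    have h1 : π ⟨d, hDB hd⟩ ∈ (D.subgroupOf B).map π := ⟨_, Subgroup.mem_subgroupOf.mpr hd, rfl⟩
    rw [h0, Subgroup.mem_bot, hπ] at h1
    exact Subgroup.mem_subgroupOf.mp ((QuotientGroup.eq_one_iff _).mp h1)

theorem le_normalizer_of_perfect {H L R : Subgroup G} (hLH : L ≤ H) (hL : (L.subgroupOf H).IsSubnormal)
    (hp : ⁅L, L⁆ = L) (hR : IsPGroup 2 ↥R) (hRH : R ≤ H) (hRn : H ≤ Subgroup.normalizer (R : Set G)) :
    R ≤ Subgroup.normalizer (L : Set G) := by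
  have hM : L ⊔ R ≤ H := sup_le hLH hRH
  haveI : (R.subgroupOf (L ⊔ R)).Normal := (Subgroup.normal_subgroupOf_iff_le_normalizer le_sup_right).mpr (hM.trans hRn)
  have hs : Group.IsSolvable ↥(R.subgroupOf (L ⊔ R)) := by
    haveI : Group.IsNilpotent ↥(R.subgroupOf (L ⊔ R)) := IsPGroup.isNilpotent (p := 2) hR.comap_subtype
    infer_instance
  have htop : L.subgroupOf (L ⊔ R) ⊔ R.subgroupOf (L ⊔ R) = ⊤ := by
    rw [← Subgroup.subgroupOf_sup le_sup_left le_sup_right, Subgroup.subgroupOf_self]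
  have hsn : (L.subgroupOf (L ⊔ R)).IsSubnormal := by
    have := hL.comap (Subgroup.inclusion hM)
    exact this
  intro r hr
  have hc : ∀ g ∈ L ⊔ R, ∀ x ∈ L, g * x * g⁻¹ ∈ L := by
    intro g hg x hx
    have hD : ⁅(L.subgroupOf (L ⊔ R)).map (MulAut.conj (⟨g, hg⟩ : ↥(L ⊔ R))).toMonoidHom,
        (L.subgroupOf (L ⊔ R)).map (MulAut.conj (⟨g, hg⟩ : ↥(L ⊔ R))).toMonoidHom⁆ =
        (L.subgroupOf (L ⊔ R)).map (MulAut.conj (⟨g, hg⟩ : ↥(L ⊔ R))).toMonoidHom := by
      rw [← Subgroup.map_commutator]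
      congr 1
      apply Subgroup.map_injective (Subgroup.subtype_injective _)
      rw [Subgroup.map_commutator, Subgroup.map_subgroupOf_eq_of_le le_sup_left, hp]
    have := perfect_le hs hsn htop hD ⟨⟨x, Subgroup.mem_sup_left hx⟩, Subgroup.mem_subgroupOf.mpr hx, rfl⟩
    exact Subgroup.mem_subgroupOf.mp this
  have hr' := Subgroup.mem_sup_right (S := L) hr
  refine Subgroup.mem_normalizer_iff.mpr fun x => ⟨hc r hr' x, fun h => ?_⟩
  simpa [mul_assoc] using hc r⁻¹ (inv_mem hr') _ h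

theorem pCoreTwoOf_le (H : Subgroup G) : Cfsg.pCoreTwoOf H ≤ H := Subgroup.map_subtype_le _

theorem isPGroup_pCoreTwoOf (H : Subgroup G) : IsPGroup 2 ↥(Cfsg.pCoreTwoOf H) :=
  haveI : Fact (Nat.Prime 2) := ⟨Nat.prime_two⟩
  (CfsgLib.Core.isPGroup_pCore 2).map _

theorem le_normalizer_pCoreTwoOf (H : Subgroup G) : H ≤ Subgroup.normalizer (Cfsg.pCoreTwoOf H : Set G) := by
  haveI := CfsgLib.Core.pCore_characteristic (G := ↥H) 2
  refine (Subgroup.normal_subgroupOf_iff_le_normalizer (pCoreTwoOf_le H)).mp ?_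
  rw [Cfsg.pCoreTwoOf, Subgroup.subgroupOf, Subgroup.comap_map_eq_self_of_injective H.subtype_injective]
  infer_instance

theorem le_pCoreTwoOf {H X M : Subgroup G} (hXM : X ≤ M) (hMH : M ≤ H) (hX : IsPGroup 2 ↥X)
    (hM : (M.subgroupOf H).IsSubnormal) (hn : M ≤ Subgroup.normalizer (X : Set G)) : X ≤ Cfsg.pCoreTwoOf H := by
  haveI : Fact (Nat.Prime 2) := ⟨Nat.prime_two⟩
  intro x hx
  refine ⟨⟨x, hMH (hXM hx)⟩, CfsgLib.Core.isPGroup_subnormal_le_pCore ?_ hX.comap_subtype (Subgroup.mem_subgroupOf.mpr hx : _ ∈ X.subgroupOf H), rfl⟩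
  refine subnormal_of_normalized (Subgroup.comap_mono hXM) hM fun m hm => ?_
  exact Subgroup.mem_normalizer_iff.mpr fun z => Subgroup.mem_normalizer_iff.mp (hn (Subgroup.mem_subgroupOf.mp hm)) (z : G)

theorem perfect_of_calL {T K : Subgroup G} (hK : K ∈ Cfsg.calL T) : K ≠ ⊥ ∧ ⁅K, K⁆ = K := by
  obtain ⟨⟨hne, hp, -, -⟩, -, -⟩ := hK
  refine ⟨fun h => hne (by rw [h, Subgroup.bot_subgroupOf]), ?_⟩
  have h := congrArg (Subgroup.map (K ⊔ T).subtype) hp
  rwa [Subgroup.map_commutator, Subgroup.map_subgroupOf_eq_of_le le_sup_left] at h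

/-- Let G be a non-abelian finite simple QTKE-group and T a Sylow 2-subgroup of G, and let L be a member of ℒ_f(G, T) (a member of ℒ(G, T) that lies in 𝒳 — L ≠ 1, L = O²(L), F*(L) = O₂(L) — and acts nontrivially on Ω₁(Z(O₂(L)))). Then (1) every member K of ℒ(G, T) containing L is again in ℒ_f(G, T) (a sharper form of (1) also compares the modules [Ω₁(Z(R)), L] and [Ω₁(Z(R')), K] for suitable 2-subgroups R, R'; that comparison is not included); and (2) if L is maximal under inclusion among the members of ℒ_f(G, T), then L is a maximal member of ℒ(G, T), hence a member of ℒ_f*(G, T). -/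
theorem result {G : Type*} [Group G] [Finite G] [IsSimpleGroup G]
    (hG : ¬ IsMulCommutative G) (hQ : Cfsg.IsQTKE G) (T : Sylow 2 G) (L : Subgroup G)
    (hL : L ∈ Cfsg.calLf (T : Subgroup G)) :
    (∀ K ∈ Cfsg.calL (T : Subgroup G), L ≤ K → K ∈ Cfsg.calLf (T : Subgroup G)) ∧
    ((∀ K ∈ Cfsg.calLf (T : Subgroup G), L ≤ K → K = L) → L ∈ Cfsg.calLfMax (T : Subgroup G)) := by
  classical
  haveI : Fact (Nat.Prime 2) := ⟨Nat.prime_two⟩
  have main : ∀ K ∈ Cfsg.calL (T : Subgroup G), L ≤ K → K ∈ Cfsg.calLf (T : Subgroup G) := by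
    intro K hK hLK
    obtain ⟨hKne, hKp⟩ := perfect_of_calL hK
    obtain ⟨hLL, ⟨-, hLodd, -⟩, hV⟩ := hL
    obtain ⟨hLne, hLp⟩ := perfect_of_calL hLL
    obtain ⟨H, hH⟩ : ∃ H, H = K ⊔ (T : Subgroup G) := ⟨_, rfl⟩
    obtain ⟨H₀, hH₀⟩ : ∃ H₀, H₀ = L ⊔ (T : Subgroup G) := ⟨_, rfl⟩
    have hKH : K ≤ H := hH ▸ le_sup_left
    have hTH : (T : Subgroup G) ≤ H := hH ▸ le_sup_right
    have hLH₀ : L ≤ H₀ := hH₀ ▸ le_sup_left
    have hTH₀ : (T : Subgroup G) ≤ H₀ := hH₀ ▸ le_sup_right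
    have hH₀H : H₀ ≤ H := by rw [hH, hH₀]; exact sup_le_sup_right hLK _
    have hKs : (K.subgroupOf H).IsSubnormal := by rw [hH]; exact hK.1.2.2.1
    have hLs : (L.subgroupOf H₀).IsSubnormal := by rw [hH₀]; exact hLL.1.2.2.1
    have hRH : Cfsg.pCoreTwoOf H ≤ (T : Subgroup G) := by
      rintro _ ⟨x, hx, rfl⟩
      exact Subgroup.mem_subgroupOf.mp (CfsgLib.Core.pCore_le_sylow (T.subtype hTH) hx)
    have hR₀T : Cfsg.pCoreTwoOf H₀ ≤ (T : Subgroup G) := by
      rintro _ ⟨x, hx, rfl⟩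
      exact Subgroup.mem_subgroupOf.mp (CfsgLib.Core.pCore_le_sylow (T.subtype hTH₀) hx)
    have hRne : Cfsg.pCoreTwoOf H ≠ ⊥ := by
      rw [Cfsg.pCoreTwoOf, Ne, Subgroup.map_eq_bot_iff_of_injective _ H.subtype_injective, hH]
      exact hK.2.2
    obtain ⟨M, hM⟩ : ∃ M, M = Subgroup.normalizer (Cfsg.pCoreTwoOf H : Set G) := ⟨_, rfl⟩
    have hHM : H ≤ M := hM ▸ le_normalizer_pCoreTwoOf H
    have hcM : CfsgLib.CharP.HasCharP 2 ↥M := hQ.2.2 M ⟨_, isPGroup_pCoreTwoOf H, hRne, hM⟩ ⟨T, hTH.trans hHM⟩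
    have hcH : CfsgLib.CharP.HasCharP 2 ↥H := by
      refine CfsgLib.CharP.charP_congr (Subgroup.subgroupOfEquivOfLe hHM)
        (CfsgLib.CharP.charP_of_pCore_le_normalizer hcM (H.subgroupOf M) ?_)
      exact ((CfsgLib.Core.pCore_le_sylow (T.subtype (hTH.trans hHM))).trans (Subgroup.comap_mono hTH)).trans Subgroup.le_normalizer
    have hcK : CfsgLib.CharP.HasCharP 2 ↥K :=
      CfsgLib.CharP.charP_congr (Subgroup.subgroupOfEquivOfLe hKH) (CfsgLib.CharP.charP_of_subnormal hcH hKs)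
    refine ⟨hK, ⟨hKne, ?_, CfsgLib.GenFitting.genFitting_eq_of_charP hcK⟩, ?_⟩
    · obtain ⟨N, hN⟩ : ∃ N, N = Cfsg.oddGenerated K := ⟨_, rfl⟩
      rw [← hN]
      have hNK : N ≤ K := hN ▸ (Subgroup.closure_le K).mpr fun x hx => hx.1
      refine le_antisymm hNK ?_
      haveI : (N.subgroupOf K).Normal := ⟨fun n hn g => by
        rw [Subgroup.mem_subgroupOf] at hn ⊢
        have : (n : G) ∈ N.comap (MulAut.conj (g : G)).toMonoidHom := by
          rw [hN] at hn ⊢
          refine (Subgroup.closure_le _).mpr (fun x hx => ?_) hn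
          refine Subgroup.subset_closure ⟨K.mul_mem (K.mul_mem g.2 hx.1) (K.inv_mem g.2), ?_⟩
          rw [orderOf_injective _ (MulAut.conj (g : G)).injective]
          exact hx.2
        simpa using this⟩
      have hq : IsPGroup 2 (↥K ⧸ N.subgroupOf K) := fun q => by
        induction q using QuotientGroup.induction_on with
        | H k =>
          obtain ⟨a, m, hm, he⟩ := Nat.exists_eq_two_pow_mul_odd (orderOf_pos (k : G)).ne'
          refine ⟨a, (QuotientGroup.mk_pow _ _ _).symm.trans ((QuotientGroup.eq_one_iff _).mpr (Subgroup.mem_subgroupOf.mpr ?_))⟩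
          rw [hN]
          refine Subgroup.subset_closure ⟨(k ^ 2 ^ a).2, ?_⟩
          rw [SubgroupClass.coe_pow, orderOf_pow' _ (pow_ne_zero _ two_ne_zero), he,
            Nat.gcd_eq_right (dvd_mul_right _ _), Nat.mul_div_cancel_left _ (Nat.two_pow_pos a)]
          exact hm
      haveI := hq.isNilpotent
      have htop : ⁅(⊤ : Subgroup (↥K ⧸ N.subgroupOf K)), (⊤ : Subgroup (↥K ⧸ N.subgroupOf K))⁆ = ⊤ := by
        have h2 : ⁅(⊤ : Subgroup ↥K), (⊤ : Subgroup ↥K)⁆ = ⊤ := by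
          apply Subgroup.map_injective K.subtype_injective
          rw [Subgroup.map_commutator, ← MonoidHom.range_eq_map, Subgroup.range_subtype, hKp]
        conv_lhs => rw [← Subgroup.map_top_of_surjective _ (QuotientGroup.mk'_surjective (N.subgroupOf K))]
        rw [← Subgroup.map_commutator, h2, Subgroup.map_top_of_surjective _ (QuotientGroup.mk'_surjective _)]
      have h0 := eq_bot_of_perfect_solvable htop inferInstance
      intro k hk
      have h1 : QuotientGroup.mk' (N.subgroupOf K) ⟨k, hk⟩ ∈ (⊥ : Subgroup _) := h0 ▸ Subgroup.mem_top _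
      exact Subgroup.mem_subgroupOf.mp ((QuotientGroup.eq_one_iff _).mp (Subgroup.mem_bot.mp h1))
    · intro hbot
      obtain ⟨Z, hZ⟩ : ∃ Z, Z = Cfsg.omegaOne 2 (Cfsg.pCoreTwoOf H ⊓ Subgroup.centralizer (Cfsg.pCoreTwoOf H : Set G)) := ⟨_, rfl⟩
      have hZR : Z ≤ Cfsg.pCoreTwoOf H ⊓ Subgroup.centralizer (Cfsg.pCoreTwoOf H : Set G) :=
        hZ ▸ (Subgroup.closure_le _).mpr fun x hx => hx.1
      have hRK : Cfsg.pCoreTwoOf K ≤ Cfsg.pCoreTwoOf H :=
        le_pCoreTwoOf (pCoreTwoOf_le K) hKH (isPGroup_pCoreTwoOf K) hKs (le_normalizer_pCoreTwoOf K)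
      have hRnK : Cfsg.pCoreTwoOf H ≤ Subgroup.normalizer (K : Set G) :=
        le_normalizer_of_perfect hKH hKs hKp (isPGroup_pCoreTwoOf H) (pCoreTwoOf_le H) (le_normalizer_pCoreTwoOf H)
      have hHZ : H ≤ Subgroup.normalizer (Z : Set G) := by
        have h1 := CfsgLib.LocalBasic.normalizer_inf_ge (le_normalizer_pCoreTwoOf H)
          (CfsgLib.LocalBasic.normalizer_centralizer_ge (le_normalizer_pCoreTwoOf H))
        intro h hh
        refine CfsgLib.LocalBasic.mem_normalizer_of_conj_map_eq ?_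
        rw [hZ, Cfsg.omegaOne, MonoidHom.map_closure]
        congr 1
        ext w
        constructor
        · rintro ⟨v, ⟨hv, hv2⟩, rfl⟩
          exact ⟨(Subgroup.mem_normalizer_iff.mp (h1 hh) v).mp hv, by rw [← map_pow, hv2, map_one]⟩
        · rintro ⟨hw, hw2⟩
          exact ⟨h⁻¹ * w * h, ⟨(Subgroup.mem_normalizer_iff''.mp (h1 hh) w).mp hw, by
            rw [show h⁻¹ * w * h = (MulAut.conj h⁻¹) w by simp, ← map_pow, hw2, map_one]⟩, by simp [mul_assoc]⟩
      have hZKsq : ∀ z ∈ Z, z ^ 2 = 1 := by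
        intro z hz
        rw [hZ] at hz
        refine (Subgroup.closure_induction (p := fun z _ => z ^ 2 = 1 ∧ z ∈ Cfsg.pCoreTwoOf H ⊓ Subgroup.centralizer (Cfsg.pCoreTwoOf H : Set G))
          (fun x hx => ⟨hx.2, hx.1⟩) ⟨one_pow _, Subgroup.one_mem _⟩ (fun a b _ _ ha hb => ⟨?_, mul_mem ha.2 hb.2⟩)
          (fun a _ ha => ⟨by rw [inv_pow, ha.1, inv_one], inv_mem ha.2⟩) hz).1
        rw [(show Commute a b from Subgroup.mem_centralizer_iff.mp hb.2.2 a ha.2.1).mul_pow, ha.1, hb.1, one_mul]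
      have hZK : Z ⊓ K ≤ Cfsg.omegaOne 2 (Cfsg.pCoreTwoOf K ⊓ Subgroup.centralizer (Cfsg.pCoreTwoOf K : Set G)) := by
        intro z hz
        refine Subgroup.subset_closure ⟨⟨?_, ?_⟩, hZKsq z hz.1⟩
        · refine le_pCoreTwoOf (M := K) inf_le_right le_rfl ((isPGroup_pCoreTwoOf H).to_le (inf_le_left.trans (hZR.trans inf_le_left))) ?_
            (CfsgLib.LocalBasic.normalizer_inf_ge (hKH.trans hHZ) Subgroup.le_normalizer) hz
          rw [Subgroup.subgroupOf_self]
          exact Subgroup.IsSubnormal.top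
        · exact Subgroup.centralizer_le (SetLike.coe_subset_coe.mpr hRK) (hZR hz.1).2
      have hb1 : ⁅⁅Z, K⁆, K⁆ = ⊥ := by
        refine le_bot_iff.mp ((Subgroup.commutator_mono ?_ le_rfl).trans hbot.le)
        refine le_trans (le_inf ?_ ?_) hZK
        · exact Subgroup.le_normalizer_iff_commutator_le_left.mp (hKH.trans hHZ)
        · exact Subgroup.le_normalizer_iff_commutator_le_right.mp ((hZR.trans inf_le_left).trans hRnK)
      have hb2 : ⁅⁅K, Z⁆, K⁆ = ⊥ := by rwa [Subgroup.commutator_comm K Z]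
      have hKZ : ⁅K, Z⁆ = ⊥ := by
        have h5 := Subgroup.commutator_commutator_eq_bot_of_rotate (H₁ := K) (H₂ := K) (H₃ := Z) hb2 hb1
        rwa [hKp] at h5
      have hR₀R : Cfsg.pCoreTwoOf H ≤ Cfsg.pCoreTwoOf H₀ :=
        le_pCoreTwoOf (M := H₀) (hRH.trans hTH₀) le_rfl (isPGroup_pCoreTwoOf H)
          (by rw [Subgroup.subgroupOf_self]; exact Subgroup.IsSubnormal.top) (hH₀H.trans (le_normalizer_pCoreTwoOf H))
      have hRL : Cfsg.pCoreTwoOf L ≤ Cfsg.pCoreTwoOf H₀ :=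
        le_pCoreTwoOf (pCoreTwoOf_le L) hLH₀ (isPGroup_pCoreTwoOf L) hLs (le_normalizer_pCoreTwoOf L)
      have hR₀nL : Cfsg.pCoreTwoOf H₀ ≤ Subgroup.normalizer (L : Set G) :=
        le_normalizer_of_perfect hLH₀ hLs hLp (isPGroup_pCoreTwoOf H₀) (pCoreTwoOf_le H₀) (le_normalizer_pCoreTwoOf H₀)
      obtain ⟨ZL, hZL⟩ : ∃ ZL, ZL = Cfsg.omegaOne 2 (Cfsg.pCoreTwoOf L ⊓ Subgroup.centralizer (Cfsg.pCoreTwoOf L : Set G)) := ⟨_, rfl⟩
      have hfix : ∀ a ∈ L, ∀ z ∈ Z, a * z = z * a := fun a ha z hz =>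
        (Subgroup.mem_centralizer_iff.mp ((Subgroup.commutator_eq_bot_iff_le_centralizer.mp hKZ) (hLK ha)) z hz).symm
      -- fixed points of the core of `H₀` in a subgroup of `Z(O₂(L))`
      have hgen : ∀ x ∈ Cfsg.pCoreTwoOf L ⊓ Subgroup.centralizer (Cfsg.pCoreTwoOf L : Set G),
          x ∈ Subgroup.centralizer (Cfsg.pCoreTwoOf H₀ : Set G) → x ^ 2 = 1 → x ∈ Z := by
        intro x hx hxc hx2
        have hxR₀ := hRL hx.1
        have hxcR : x ∈ Subgroup.centralizer (Cfsg.pCoreTwoOf H : Set G) :=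
          Subgroup.centralizer_le (SetLike.coe_subset_coe.mpr hR₀R) hxc
        have hxH : x ∈ H := hH₀H (pCoreTwoOf_le H₀ hxR₀)
        refine hZ ▸ Subgroup.subset_closure ⟨⟨?_, hxcR⟩, hx2⟩
        exact ⟨⟨x, hxH⟩, hcH fun y hy => Subtype.ext (hxcR (y : G) ⟨y, hy, rfl⟩), rfl⟩
      have hL2 : ∀ a ∈ L, Odd (orderOf a) → ∀ x ∈ ZL, a * x = x * a := by
        intro a ha hodd
        have hZLR : ZL ≤ Cfsg.pCoreTwoOf L ⊓ Subgroup.centralizer (Cfsg.pCoreTwoOf L : Set G) :=
          hZL ▸ (Subgroup.closure_le _).mpr fun x hx => hx.1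
        intro x hx
        have hZLsq : ∀ z ∈ ZL, z ^ 2 = 1 := by
          intro z hz
          rw [hZL] at hz
          refine (Subgroup.closure_induction (p := fun z _ => z ^ 2 = 1 ∧ z ∈ Cfsg.pCoreTwoOf L ⊓ Subgroup.centralizer (Cfsg.pCoreTwoOf L : Set G))
            (fun x hx => ⟨hx.2, hx.1⟩) ⟨one_pow _, Subgroup.one_mem _⟩ (fun a b _ _ ha hb => ⟨?_, mul_mem ha.2 hb.2⟩)
            (fun a _ ha => ⟨by rw [inv_pow, ha.1, inv_one], inv_mem ha.2⟩) hz).1
          rw [(show Commute a b from Subgroup.mem_centralizer_iff.mp hb.2.2 a ha.2.1).mul_pow, ha.1, hb.1, one_mul]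
        have hco : (orderOf a).Coprime 2 := hodd.coprime_two_right
        have hnL : Subgroup.normalizer (L : Set G) ⊓ Subgroup.normalizer (Cfsg.pCoreTwoOf H₀ : Set G) ≤
            Subgroup.normalizer (ZL : Set G) := by
          intro h hh
          have hq : (Cfsg.pCoreTwoOf L).map (MulAut.conj h).toMonoidHom = Cfsg.pCoreTwoOf L := by
            have hLc : L.map (MulAut.conj h).toMonoidHom = L := CfsgLib.LocalBasic.conj_map_eq_of_mem_normalizer hh.1
            let e : ↥L ≃* ↥L := (L.equivMapOfInjective _ (MulAut.conj h).injective).trans (MulEquiv.subgroupCongr hLc)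
            conv_rhs => rw [Cfsg.pCoreTwoOf, ← CfsgLib.Core.pCore_map_equiv e 2, Subgroup.map_map]
            rw [Cfsg.pCoreTwoOf, Subgroup.map_map]
            rfl
          have h1 := CfsgLib.LocalBasic.normalizer_inf_ge (B := Subgroup.normalizer (Cfsg.pCoreTwoOf L : Set G)) le_rfl
            (CfsgLib.LocalBasic.normalizer_centralizer_ge le_rfl) (CfsgLib.LocalBasic.mem_normalizer_of_conj_map_eq hq)
          refine CfsgLib.LocalBasic.mem_normalizer_of_conj_map_eq ?_
          rw [hZL, Cfsg.omegaOne, MonoidHom.map_closure]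
          congr 1
          ext w
          constructor
          · rintro ⟨v, ⟨hv, hv2⟩, rfl⟩
            exact ⟨(Subgroup.mem_normalizer_iff.mp h1 v).mp hv, by rw [← map_pow, hv2, map_one]⟩
          · rintro ⟨hw, hw2⟩
            exact ⟨h⁻¹ * w * h, ⟨(Subgroup.mem_normalizer_iff''.mp h1 w).mp hw, by
              rw [show h⁻¹ * w * h = (MulAut.conj h⁻¹) w by simp, ← map_pow, hw2, map_one]⟩, by simp [mul_assoc]⟩
        obtain ⟨A, hA⟩ : ∃ A, A = Subgroup.zpowers a := ⟨_, rfl⟩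
        obtain ⟨P, hP⟩ : ∃ P, P = Cfsg.pCoreTwoOf H₀ ⊓ Subgroup.centralizer (A : Set G) := ⟨_, rfl⟩
        have haH : a ∈ H₀ := hLH₀ ha
        have hAn : A ≤ Subgroup.normalizer (Cfsg.pCoreTwoOf H₀ : Set G) := by
          rw [hA, Subgroup.zpowers_le]; exact le_normalizer_pCoreTwoOf H₀ haH
        have hAL : A ≤ L := by rw [hA, Subgroup.zpowers_le]; exact ha
        refine CfsgLib.GenFitting.thompson_pq (P := P) (Q := ZL) ((isPGroup_pCoreTwoOf H₀).to_le (hP ▸ inf_le_left))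
          ((isPGroup_pCoreTwoOf L).to_le (hZLR.trans inf_le_left)) ?_ hco ?_ (hnL ⟨Subgroup.le_normalizer ha, hAn (hA ▸ Subgroup.mem_zpowers a)⟩) ?_ x hx
        · rw [hP]
          exact inf_le_left.trans ((le_inf hR₀nL Subgroup.le_normalizer).trans hnL)
        · intro r hr
          exact Subgroup.mem_centralizer_iff.mp (hP.le hr).2 a (hA ▸ Subgroup.mem_zpowers a)
        · rintro w ⟨hw, hwP⟩
          refine hfix a ha w (hgen w (hZLR hw) ?_ (hZLsq w hw))
          refine Subgroup.mem_centralizer_iff.mpr fun r hr => ?_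
          obtain ⟨N, hN⟩ : ∃ N, N = Cfsg.pCoreTwoOf H₀ ⊓ L := ⟨_, rfl⟩
          have hNp : IsPGroup 2 ↥N := (isPGroup_pCoreTwoOf H₀).to_le (hN ▸ inf_le_left)
          have hcopA : ∀ X : Subgroup G, IsPGroup 2 ↥X → (Nat.card ↥A).Coprime (Nat.card ↥X) := fun X hX => by
            obtain ⟨j, hj⟩ := IsPGroup.iff_card.mp hX
            rw [hj, hA, Nat.card_zpowers]
            exact hco.pow_right j
          have hNnil : Group.IsNilpotent ↥N := hNp.isNilpotent
          obtain ⟨c, hc, hcN⟩ := CfsgLib.GroupB.Coprime.exists_fixed_of_coset (N := N) (A := A) (G := Cfsg.pCoreTwoOf H₀)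
            (hN ▸ CfsgLib.LocalBasic.normalizer_inf_ge hAn (hAL.trans Subgroup.le_normalizer)) (hcopA N hNp)
            (Or.inl inferInstance) hAn (hcopA _ (isPGroup_pCoreTwoOf H₀)) (hN ▸ inf_le_left) hr (fun b hb => by
              rw [hN]
              refine ⟨?_, ?_⟩
              · have := (Subgroup.mem_normalizer_iff.mp (hAn hb) r).mp hr
                simpa [mul_assoc] using mul_mem (inv_mem hr) this
              · exact L.mul_mem ((Subgroup.mem_normalizer_iff''.mp (hR₀nL hr) b).mp (hAL hb)) (L.inv_mem (hAL hb)))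
          have hNQ : N ≤ Cfsg.pCoreTwoOf L := by
            refine le_pCoreTwoOf (M := L) (hN ▸ inf_le_right) le_rfl hNp (by rw [Subgroup.subgroupOf_self]; exact Subgroup.IsSubnormal.top) ?_
            rw [hN]
            exact CfsgLib.LocalBasic.normalizer_inf_ge (hLH₀.trans (le_normalizer_pCoreTwoOf H₀)) Subgroup.le_normalizer
          have h1 : Commute w c := (Subgroup.mem_centralizer_iff.mp hwP c (hP ▸ hc)).symm
          have h2 : Commute w (r⁻¹ * c) := (Subgroup.mem_centralizer_iff.mp (hZLR hw).2 _ (hNQ hcN)).symm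
          have h3 : Commute w r := by
            have := h1.mul_right h2.inv_right
            rwa [mul_inv_rev, inv_inv, mul_inv_cancel_left] at this
          exact h3.eq.symm
      refine hV (le_bot_iff.mp ?_)
      rw [Cfsg.moduleV, ← hZL]
      refine (Subgroup.commutator_eq_bot_iff_le_centralizer.mpr ?_).le
      intro x hx
      refine Subgroup.mem_centralizer_iff.mpr fun a ha => ?_
      have h1 : L ≤ Subgroup.centralizer ({x} : Set G) := by
        conv_lhs => rw [← hLodd]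
        refine (Subgroup.closure_le _).mpr fun b hb => ?_
        exact Subgroup.mem_centralizer_singleton_iff.mpr (hL2 b hb.1 hb.2 x hx)
      exact Subgroup.mem_centralizer_singleton_iff.mp (h1 ha)
  refine ⟨main, fun hmax => ⟨⟨hL.1, fun K hK hLK => hmax K (main K hK hLK) hLK⟩, hL.2⟩⟩

end Cfsg.Agent.S1851
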