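import Cfsg.Statements.S1957
import Cfsg.Agent.Lib.LocalBasic
import Cfsg.Agent.Lib.Core
import Cfsg.Agent.Lib.GroupB.CoprimeAbelian
import Cfsg.Agent.Lib.CharPLocal

set_option autoImplicit false
open Cfsg

namespace Cfsg.Agent.S1957

universe v

variable {G : Type v} [Group G] [Finite G]

theorem mem_pCore {C : Type v} [Group C] [Finite C] (hC : Cfsg.IsOfCharacteristicTwo C) {u a : C}
    (hu : ∀ c, c * u = u * c) (hu2 : u * u = 1)
    (ha : ∀ q ∈ Cfsg.pCore 2 C, a * q * a⁻¹ = q ∨ a * q * a⁻¹ = u * q) : a ∈ Cfsg.pCore 2 C := by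
  haveI : Fact (Nat.Prime 2) := ⟨Nat.prime_two⟩
  haveI := CfsgLib.Core.pCore_characteristic (G := C) 2
  let N : Subgroup C :=
    { carrier := {c | ∀ q ∈ Cfsg.pCore 2 C, c * q * c⁻¹ = q ∨ c * q * c⁻¹ = u * q}
      one_mem' := fun q _ => Or.inl (by simp)
      mul_mem' := by
        intro c d hc hd q hq
        have e : c * d * q * (c * d)⁻¹ = c * (d * q * d⁻¹) * c⁻¹ := by group
        rcases hd q hq with h | h
        · rw [e, h]; exact hc q hq
        · rw [e, h, show c * (u * q) * c⁻¹ = u * (c * q * c⁻¹) by rw [← mul_assoc c u q, hu c]; group]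
          rcases hc q hq with h' | h'
          · exact Or.inr (by rw [h'])
          · exact Or.inl (by rw [h', ← mul_assoc, hu2, one_mul])
      inv_mem' := by
        intro c hc q hq
        have hq' : c⁻¹ * q * c ∈ Cfsg.pCore 2 C := by simpa using (inferInstance : (Cfsg.pCore 2 C).Normal).conj_mem q hq c⁻¹
        rcases hc _ hq' with h | h
        · left; simpa [mul_assoc] using h.symm
        · right
          have h2 : q = u * (c⁻¹ * q * c) := by simpa [mul_assoc] using h
          have h3 : c⁻¹ * q * c = u * q := by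
            calc c⁻¹ * q * c = u * (u * (c⁻¹ * q * c)) := by rw [← mul_assoc u u, hu2, one_mul]
              _ = u * q := by rw [← h2]
          simpa using h3 }
  haveI : N.Normal := ⟨fun c hc g q hq => by
    have hq' : g⁻¹ * q * g ∈ Cfsg.pCore 2 C := by simpa using (inferInstance : (Cfsg.pCore 2 C).Normal).conj_mem q hq g⁻¹
    have e : g * c * g⁻¹ * q * (g * c * g⁻¹)⁻¹ = g * (c * (g⁻¹ * q * g) * c⁻¹) * g⁻¹ := by group
    rcases hc _ hq' with h | h
    · left; rw [e, h]; group
    · right; rw [e, h, ← mul_assoc g u, hu g]; group⟩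
  refine CfsgLib.Core.le_pCore (N := N) inferInstance ?_ ha
  refine CfsgLib.LocalBasic.isPGroup_of_coprime_elements fun x hx => Subtype.ext ?_
  rw [← Subgroup.orderOf_coe] at hx
  refine CfsgLib.CharP.eq_one_of_centralizes (G := C) (p := 2) hC hx fun q hq => ?_
  have h2 : (x : C) ^ 2 * q = q * (x : C) ^ 2 := by
    rw [pow_two]
    refine mul_inv_eq_iff_eq_mul.mp ?_
    have e : (x : C) * x * q * ((x : C) * x)⁻¹ = (x : C) * ((x : C) * q * (x : C)⁻¹) * (x : C)⁻¹ := by group
    rw [e]
    rcases x.2 q hq with h | h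
    · rw [h, h]
    · rw [h, ← mul_assoc (x : C) u q, hu (x : C), show u * (x : C) * q * (x : C)⁻¹ = u * ((x : C) * q * (x : C)⁻¹) by group,
        h, ← mul_assoc, hu2, one_mul]
  obtain ⟨m, hm⟩ := exists_pow_eq_self_of_coprime hx.symm
  have := (Commute.pow_left (h2 : Commute ((x : C) ^ 2) q) m).eq
  rwa [hm] at this

theorem unique_involution {Z : Subgroup G} (hZ : IsCyclic ↥Z) {a b : G} (ha : a ∈ Z) (hb : b ∈ Z) (ha2 : a * a = 1) (hb2 : b * b = 1)
    (ha1 : a ≠ 1) : b = 1 ∨ b = a := by
  classical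
  by_contra h
  push_neg at h
  haveI := Fintype.ofFinite ↥Z
  have hcard := IsCyclic.card_pow_eq_one_le (α := ↥Z) (n := 2) two_pos
  have hsub : ({1, ⟨a, ha⟩, ⟨b, hb⟩} : Finset ↥Z) ⊆ Finset.univ.filter (fun x : ↥Z => x ^ 2 = 1) := by
    intro x hx
    simp only [Finset.mem_insert, Finset.mem_singleton] at hx
    refine Finset.mem_filter.mpr ⟨Finset.mem_univ _, Subtype.ext ?_⟩
    rcases hx with rfl | rfl | rfl <;> simp [pow_two, ha2, hb2]
  have h3 : ({1, ⟨a, ha⟩, ⟨b, hb⟩} : Finset ↥Z).card = 3 := Finset.card_eq_three.mpr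
    ⟨1, _, _, fun e => ha1 (congrArg Subtype.val e).symm, fun e => h.1 (congrArg Subtype.val e).symm, fun e => h.2 (congrArg Subtype.val e).symm, rfl⟩
  have := (Finset.card_le_card hsub).trans hcard
  omega

/-- Let `G` be a finite non-abelian simple group in which every local subgroup is solvable and which is of characteristic 2 type. Let `P` be a Sylow 2-subgroup of `G` and `U` a normal subgroup of `P` that is a four-group, with `U` central in `P` if the centre of `P` is not cyclic. Then `U` centralizes every subgroup of odd order of `G` that it normalizes. -/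
theorem result {G : Type*} [Group G] [Finite G]
    [IsSimpleGroup G] (hna : ¬ IsMulCommutative G) (hN : Cfsg.IsNGroup G) (h2 : Cfsg.IsCharacteristicTwoType G)
    (P : Sylow 2 G) (U : Subgroup G) (hUP : U ≤ (P : Subgroup G)) (hUn : (P : Subgroup G) ≤ Subgroup.normalizer (U : Set G))
    (hU4 : IsKleinFour ↥U)
    (hUZ : ¬ IsCyclic ↥((P : Subgroup G) ⊓ Subgroup.centralizer ((P : Subgroup G) : Set G)) →
      U ≤ Subgroup.centralizer ((P : Subgroup G) : Set G))
    (K : Subgroup G) (hK : Odd (Nat.card K)) (hUK : U ≤ Subgroup.normalizer (K : Set G)) :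
    U ≤ Subgroup.centralizer (K : Set G) := by
  classical
  haveI : Fact (Nat.Prime 2) := ⟨Nat.prime_two⟩
  have hcomm : ∀ a ∈ U, ∀ b ∈ U, a * b = b * a := fun a ha b hb =>
    congrArg Subtype.val (hU4.isMulCommutative.is_comm.comm (⟨a, ha⟩ : ↥U) ⟨b, hb⟩)
  have hsq : ∀ a ∈ U, a * a = 1 := fun a ha => congrArg Subtype.val (IsKleinFour.mul_self (⟨a, ha⟩ : ↥U))
  have hall : ∀ a b : G, a ∈ U → b ∈ U → a ≠ 1 → b ≠ 1 → a ≠ b → ∀ c ∈ U, c = 1 ∨ c = a ∨ c = b ∨ c = a * b := by
    intro a b ha hb ha1 hb1 hab c hc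
    by_contra h
    push_neg at h
    by_cases hc' : c = a * b
    · exact h.2.2.2 hc'
    · have := IsKleinFour.eq_mul_of_ne_all (x := (⟨a, ha⟩ : ↥U)) (y := ⟨b, hb⟩) (z := ⟨c, hc⟩) (fun e => ha1 (congrArg Subtype.val e))
        (fun e => hb1 (congrArg Subtype.val e)) (fun e => hab (congrArg Subtype.val e))
        (fun e => h.1 (congrArg Subtype.val e)) (fun e => h.2.1 (congrArg Subtype.val e)) (fun e => h.2.2.1 (congrArg Subtype.val e))
      exact hc' (congrArg Subtype.val this)
  have hPp : IsPGroup 2 ↥(P : Subgroup G) := P.2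
  have hUne : U ≠ ⊥ := fun e => by
    have := hU4.card_four
    rw [e, Subgroup.card_bot] at this
    omega
  obtain ⟨z, hzU, hzo, hzc⟩ := CfsgLib.CharPLocal.exists_central_order hPp hUP hUn hUne
  have hz1 : z ≠ 1 := fun e => by rw [e, orderOf_one] at hzo; omega
  -- the Sylow subgroups of the centralizers
  have key : ∀ u ∈ U, u ≠ 1 → ∀ a ∈ U, ∃ T : Subgroup G, T ≤ Subgroup.centralizer ({u} : Set G) ∧
      ¬ 2 ∣ T.relIndex (Subgroup.centralizer ({u} : Set G)) ∧ IsPGroup 2 ↥T ∧
      ∀ t ∈ T, a * t * a⁻¹ = t ∨ a * t * a⁻¹ = u * t := by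
    intro u hu hu1 a ha
    by_cases hcen : ∀ t ∈ (P : Subgroup G), t * u = u * t
    · refine ⟨P, fun t ht => Subgroup.mem_centralizer_singleton_iff.mpr (hcen t ht), ?_, hPp, fun t ht => ?_⟩
      · intro h
        exact P.not_dvd_index (h.trans (Subgroup.relIndex_dvd_index_of_le fun t ht => Subgroup.mem_centralizer_singleton_iff.mpr (hcen t ht)))
      · have hmem : t * a * t⁻¹ ∈ U := (Subgroup.mem_normalizer_iff.mp (hUn ht) a).mp ha
        rcases eq_or_ne a 1 with rfl | ha1
        · left; simp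
        rcases eq_or_ne a u with rfl | hau
        · left; rw [← hcen t ht, mul_inv_cancel_right]
        have hta : t * a * t⁻¹ = a ∨ t * a * t⁻¹ = u * a := by
          rcases hall u a hu ha hu1 ha1 hau.symm _ hmem with h | h | h | h
          · exact absurd (conj_eq_one_iff.mp h) ha1
          · exact absurd (mul_left_cancel (mul_right_cancel (h.trans (by rw [hcen t ht, mul_inv_cancel_right] : u = t * u * t⁻¹)))) hau
          · exact Or.inl h
          · exact Or.inr h
        rcases hta with h | h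
        · left
          rw [mul_inv_eq_iff_eq_mul] at h
          rw [← h, mul_inv_cancel_right]
        · right
          have h' : t * a = u * a * t := mul_inv_eq_iff_eq_mul.mp h
          have huu : a * t = u * (t * a) := by rw [h', ← mul_assoc, ← mul_assoc, hsq u hu, one_mul]
          rw [huu, mul_assoc, mul_inv_cancel_right]
    · have hZcyc : IsCyclic ↥((P : Subgroup G) ⊓ Subgroup.centralizer ((P : Subgroup G) : Set G)) := by
        by_contra h
        exact hcen fun t ht => Subgroup.mem_centralizer_iff.mp (hUZ h hu) t ht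
      have huz : u ≠ z := fun e => hcen fun t ht => e ▸ hzc t ht
      obtain ⟨R, hR⟩ : ∃ R, R = (P : Subgroup G) ⊓ Subgroup.centralizer ({u} : Set G) := ⟨_, rfl⟩
      have hRp : IsPGroup 2 ↥R := hPp.to_le (hR ▸ inf_le_left)
      obtain ⟨T', hT'⟩ := (hRp.comap_subtype (H := R) (K := Subgroup.centralizer ({u} : Set G))).exists_le_sylow
      obtain ⟨T, hT⟩ : ∃ T, T = (T' : Subgroup ↥(Subgroup.centralizer ({u} : Set G))).map (Subgroup.centralizer ({u} : Set G)).subtype := ⟨_, rfl⟩
      have hTC : T ≤ Subgroup.centralizer ({u} : Set G) := hT ▸ Subgroup.map_subtype_le _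
      have hTp : IsPGroup 2 ↥T := hT ▸ T'.2.map _
      have hRT : R ≤ T := fun r hr => hT ▸ ⟨⟨r, (hR.le hr).2⟩, hT' hr, rfl⟩
      refine ⟨T, hTC, ?_, hTp, fun t ht => ?_⟩
      · rw [hT, Subgroup.relIndex, Subgroup.subgroupOf, Subgroup.comap_map_eq_self_of_injective (Subgroup.subtype_injective _)]
        exact T'.not_dvd_index
      -- `R` has index two in `P`
      have hP2 : ∀ s₁ ∈ (P : Subgroup G), ∀ s₂ ∈ (P : Subgroup G), s₁ ∉ R → s₂ ∉ R → s₁⁻¹ * s₂ ∈ R := by
        have him : ∀ s ∈ (P : Subgroup G), s ∉ R → s * u * s⁻¹ = z * u := by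
          intro s hs hsR
          rcases hall z u hzU hu hz1 hu1 huz.symm _ ((Subgroup.mem_normalizer_iff.mp (hUn hs) u).mp hu) with h | h | h | h
          · exact absurd (conj_eq_one_iff.mp h) hu1
          · exact absurd (mul_left_cancel (mul_right_cancel (h.trans (by rw [hzc s hs, mul_inv_cancel_right] : z = s * z * s⁻¹)))) huz
          · exact absurd (hR ▸ ⟨hs, Subgroup.mem_centralizer_singleton_iff.mpr (mul_inv_eq_iff_eq_mul.mp h)⟩) hsR
          · exact h
        intro s₁ h1 s₂ h2 n1 n2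
        rw [hR]
        refine ⟨(P : Subgroup G).mul_mem ((P : Subgroup G).inv_mem h1) h2, Subgroup.mem_centralizer_singleton_iff.mpr (mul_inv_eq_iff_eq_mul.mp ?_)⟩
        have e : s₁⁻¹ * s₂ * u * (s₁⁻¹ * s₂)⁻¹ = s₁⁻¹ * (s₂ * u * s₂⁻¹) * s₁ := by group
        rw [e, him s₂ h2 n2, ← him s₁ h1 n1]; group
      have hRi : R.relIndex (P : Subgroup G) ≤ 2 := by
        by_cases hall' : (P : Subgroup G) ≤ R
        · rw [Subgroup.relIndex_eq_one.mpr hall']; omega
        · obtain ⟨s, hs, hsR⟩ := SetLike.not_le_iff_exists.mp hall'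
          rw [Subgroup.relIndex, Subgroup.index]
          let f : Bool → ↥(P : Subgroup G) ⧸ R.subgroupOf P := fun b => QuotientGroup.mk (if b then 1 else ⟨s, hs⟩)
          refine (Nat.card_le_card_of_surjective f fun q => ?_).trans (by simp)
          induction q using QuotientGroup.induction_on with
          | H x =>
            by_cases hx : (x : G) ∈ R
            · exact ⟨true, QuotientGroup.eq.mpr (by simpa [Subgroup.mem_subgroupOf] using hx)⟩
            · exact ⟨false, QuotientGroup.eq.mpr (Subgroup.mem_subgroupOf.mpr (by simpa using hP2 s hs x x.2 hsR hx))⟩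
      obtain ⟨P₁, hP₁⟩ := hTp.exists_le_sylow
      have hRP : R ≤ (P : Subgroup G) := hR ▸ inf_le_left
      have hcardT : Nat.card ↥T ≤ 2 * Nat.card ↥R := by
        have h1 : Nat.card ↥T ≤ Nat.card ↥(P : Subgroup G) :=
          (Subgroup.card_le_of_le hP₁).trans (Sylow.card_eq_multiplicity P₁ ▸ (Sylow.card_eq_multiplicity P).ge)
        rw [← Subgroup.relIndex_bot_left (H := (P : Subgroup G)), ← Subgroup.relIndex_mul_relIndex ⊥ R _ bot_le hRP,
          Subgroup.relIndex_bot_left] at h1
        calc Nat.card ↥T ≤ Nat.card ↥R * R.relIndex (P : Subgroup G) := h1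
          _ ≤ Nat.card ↥R * 2 := by gcongr
          _ = _ := mul_comm _ _
      have hi2 : R.relIndex T ≤ 2 := by
        rw [← Subgroup.relIndex_bot_left (H := T), ← Subgroup.relIndex_mul_relIndex ⊥ R T bot_le hRT, Subgroup.relIndex_bot_left] at hcardT
        nlinarith [Nat.card_pos (α := ↥R)]
      have hzR : z ∈ R := hR ▸ ⟨hUP hzU, Subgroup.mem_centralizer_singleton_iff.mpr (hcomm z hzU u hu)⟩
      have hRz : ∀ r ∈ R, r * z = z * r := fun r hr => hzc r (hRP hr)
      -- the element `w`
      have hw : t * z * t⁻¹ = z ∨ t * z * t⁻¹ = u * z := by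
        rcases Nat.lt_or_ge (R.relIndex T) 2 with h | h
        · left
          have h1 : R.relIndex T = 1 := by
            have := Subgroup.index_ne_zero_of_finite (H := R.subgroupOf T)
            rw [Subgroup.relIndex] at h ⊢
            omega
          exact mul_inv_eq_iff_eq_mul.mpr (hRz t (Subgroup.relIndex_eq_one.mp h1 ht))
        have hidx : (R.subgroupOf T).index = 2 := le_antisymm hi2 h
        haveI := Subgroup.normal_of_index_eq_two hidx
        have hconjR : ∀ s ∈ T, ∀ r ∈ R, s * r * s⁻¹ ∈ R := fun s hs r hr =>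
          Subgroup.mem_subgroupOf.mp ((inferInstance : (R.subgroupOf T).Normal).conj_mem ⟨r, hRT hr⟩ (Subgroup.mem_subgroupOf.mpr hr) ⟨s, hs⟩)
        by_cases htR : t ∈ R
        · exact Or.inl (mul_inv_eq_iff_eq_mul.mpr (hRz t htR))
        have htt : t * t ∈ R := Subgroup.mem_subgroupOf.mp (Subgroup.mul_self_mem_of_index_two hidx ⟨t, ht⟩)
        obtain ⟨z', hz'⟩ : ∃ z', z' = t * z * t⁻¹ := ⟨_, rfl⟩
        rw [← hz']
        have hz'R : z' ∈ R := hz' ▸ hconjR t ht z hzR
        have hz'c : ∀ r ∈ R, r * z' = z' * r := by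
          intro r hr
          have h3 := hRz _ (show t⁻¹ * r * t ∈ R by simpa using hconjR t⁻¹ (inv_mem ht) r hr)
          rw [hz']
          calc r * (t * z * t⁻¹) = t * (t⁻¹ * r * t * z) * t⁻¹ := by group
            _ = t * (z * (t⁻¹ * r * t)) * t⁻¹ := by rw [h3]
            _ = _ := by group
        have hwc : ∀ s ∈ T, s * (z * z') = (z * z') * s := by
          intro s hs
          have hr : ∀ r ∈ R, r * (z * z') = (z * z') * r := fun r hr => by
            rw [← mul_assoc, hRz r hr, mul_assoc, hz'c r hr, ← mul_assoc]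
          have ht' : t * (z * z') = (z * z') * t := by
            refine mul_inv_eq_iff_eq_mul.mp ?_
            have e : t * (z * z') * t⁻¹ = (t * z * t⁻¹) * (t * z' * t⁻¹) := by group
            have e2 : t * z' * t⁻¹ = z := by
              rw [hz', show t * (t * z * t⁻¹) * t⁻¹ = (t * t) * z * (t * t)⁻¹ by group, hRz _ htt, mul_inv_cancel_right]
            rw [e, e2, ← hz', (hz'c z hzR)]
          by_cases hsR : s ∈ R
          · exact hr s hsR
          · have hm : t⁻¹ * s ∈ R := by
              have := (Subgroup.mul_mem_iff_of_index_two hidx (a := (⟨t, ht⟩ : ↥T)⁻¹) (b := ⟨s, hs⟩)).mpr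
                (by simp [Subgroup.mem_subgroupOf, htR, hsR])
              exact Subgroup.mem_subgroupOf.mp this
            have : Commute (t * (t⁻¹ * s)) (z * z') := Commute.mul_left ht' (hr _ hm)
            rwa [mul_inv_cancel_left] at this
        have hzz' : z' * z' = 1 := by
          rw [hz', show t * z * t⁻¹ * (t * z * t⁻¹) = t * (z * z) * t⁻¹ by group, hsq z hzU, mul_one, mul_inv_cancel]
        have hw2 : z * z' * (z * z') = 1 := by
          rw [show z * z' * (z * z') = z * (z' * z) * z' by group, ← hz'c z hzR, show z * (z * z') * z' = (z * z) * (z' * z') by group,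
            hsq z hzU, hzz', one_mul]
        have hTcard : (P₁ : Subgroup G) = T := by
          refine (Subgroup.eq_of_le_of_card_ge hP₁ ?_).symm
          rw [P₁.card_eq_multiplicity, ← P.card_eq_multiplicity, ← Subgroup.relIndex_bot_left (H := (P : Subgroup G)),
            ← Subgroup.relIndex_mul_relIndex ⊥ R _ bot_le hRP, ← Subgroup.relIndex_bot_left (H := T),
            ← Subgroup.relIndex_mul_relIndex ⊥ R T bot_le hRT]
          exact Nat.mul_le_mul_left _ (hRi.trans h)
        obtain ⟨g, hg⟩ := MulAction.exists_smul_eq G P₁ P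
        have hcyc : IsCyclic ↥(T ⊓ Subgroup.centralizer (T : Set G)) := by
          have hmap : T.map (MulAut.conj g).toMonoidHom = (P : Subgroup G) := by rw [← hg, ← hTcard]; rfl
          let φ : ↥(T ⊓ Subgroup.centralizer (T : Set G)) →* ↥((P : Subgroup G) ⊓ Subgroup.centralizer ((P : Subgroup G) : Set G)) :=
            ((MulAut.conj g).toMonoidHom.comp (Subgroup.subtype _)).codRestrict _ fun x => ⟨hmap ▸ ⟨_, x.2.1, rfl⟩, by
              rw [← hmap]
              rintro _ ⟨y, hy, rfl⟩
              show (MulAut.conj g) y * (MulAut.conj g) (x : G) = (MulAut.conj g) (x : G) * (MulAut.conj g) y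
              rw [← map_mul, ← map_mul, Subgroup.mem_centralizer_iff.mp x.2.2 y hy]⟩
          exact isCyclic_of_injective φ fun x y hxy => Subtype.ext ((MulAut.conj g).injective (congrArg Subtype.val hxy))
        have huT : u ∈ T ⊓ Subgroup.centralizer (T : Set G) :=
          ⟨hRT (hR ▸ ⟨hUP hu, Subgroup.mem_centralizer_singleton_iff.mpr rfl⟩),
            fun s hs => Subgroup.mem_centralizer_singleton_iff.mp (hTC hs)⟩
        have hwT : z * z' ∈ T ⊓ Subgroup.centralizer (T : Set G) :=
          ⟨mul_mem (hRT hzR) (hRT hz'R), fun s hs => hwc s hs⟩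
        rcases unique_involution hcyc huT hwT (hsq u hu) hw2 hu1 with h5 | h5
        · left
          rw [eq_inv_of_mul_eq_one_right h5]
          exact inv_eq_of_mul_eq_one_left (hsq z hzU)
        · right
          calc z' = z * (z * z') := by rw [← mul_assoc, hsq z hzU, one_mul]
            _ = z * u := by rw [h5]
            _ = u * z := hcomm z hzU u hu
      have htu : t * u = u * t := Subgroup.mem_centralizer_singleton_iff.mp (hTC ht)
      have hz_t : z * t * z⁻¹ = t ∨ z * t * z⁻¹ = u * t := by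
        rcases hw with h | h
        · left; rw [mul_inv_eq_iff_eq_mul] at h; rw [← h, mul_inv_cancel_right]
        · right
          have h' : t * z = u * z * t := mul_inv_eq_iff_eq_mul.mp h
          have huu : z * t = u * (t * z) := by rw [h', ← mul_assoc, ← mul_assoc, hsq u hu, one_mul]
          rw [huu, mul_assoc, mul_inv_cancel_right]
      have hu_t : u * t * u⁻¹ = t := by rw [← htu, mul_inv_cancel_right]
      rcases hall z u hzU hu hz1 hu1 huz.symm a ha with rfl | rfl | rfl | rfl
      · left; simp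
      · exact hz_t
      · exact Or.inl hu_t
      · have e : z * u * t * (z * u)⁻¹ = z * (u * t * u⁻¹) * z⁻¹ := by group
        rw [e, hu_t]; exact hz_t
  -- centralizing on each `C_K(u)`
  have hCu : ∀ u ∈ U, u ≠ 1 → ∀ a ∈ U, ∀ x ∈ K, x * u = u * x → a * x = x * a := by
    intro u hu hu1 a ha x hx hxu
    obtain ⟨C, hC⟩ : ∃ C, C = Subgroup.centralizer ({u} : Set G) := ⟨_, rfl⟩
    have hu2 : orderOf u = 2 := orderOf_eq_prime (by rw [pow_two]; exact hsq u hu) hu1
    have hN' : Subgroup.normalizer (Subgroup.zpowers u : Set G) = C := by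
      rw [hC]
      ext g
      constructor
      · intro hg
        have h := (Subgroup.mem_normalizer_iff.mp hg u).mp (Subgroup.mem_zpowers u)
        obtain ⟨i, hi⟩ := Subgroup.mem_zpowers_iff.mp h
        have huu : u ^ (2 : ℤ) = 1 := by rw [zpow_two]; exact hsq u hu
        rcases Int.even_or_odd' i with ⟨j, hj | hj⟩
        · rw [hj, zpow_mul, huu, one_zpow] at hi
          exact absurd (conj_eq_one_iff.mp hi.symm) hu1
        · rw [hj, zpow_add, zpow_mul, huu, one_zpow, one_mul, zpow_one] at hi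
          exact Subgroup.mem_centralizer_singleton_iff.mpr (mul_inv_eq_iff_eq_mul.mp hi.symm)
      · intro hg
        refine Subgroup.centralizer_le_normalizer _ ?_
        rintro _ ⟨i, rfl⟩
        exact ((show Commute u g from (Subgroup.mem_centralizer_singleton_iff.mp hg).symm).zpow_left i).eq
    have hchar : Cfsg.IsOfCharacteristicTwo ↥C := by
      rw [← hN']
      exact h2.2 _ (IsPGroup.of_card (n := 1) (by rw [Nat.card_zpowers, hu2, pow_one])) (Subgroup.zpowers_ne_bot.mpr hu1)
    have haC : a ∈ C := hC ▸ Subgroup.mem_centralizer_singleton_iff.mpr (hcomm a ha u hu)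
    have hxC : x ∈ C := hC ▸ Subgroup.mem_centralizer_singleton_iff.mpr hxu
    have huC : u ∈ C := hC ▸ Subgroup.mem_centralizer_singleton_iff.mpr rfl
    obtain ⟨T, hTC, hTodd, hTp, hTa⟩ := key u hu hu1 a ha
    rw [← hC] at hTC hTodd
    have hQ : (⟨a, haC⟩ : ↥C) ∈ Cfsg.pCore 2 ↥C := by
      refine mem_pCore hchar (u := ⟨u, huC⟩) (fun c => Subtype.ext (Subgroup.mem_centralizer_singleton_iff.mp (hC.le c.2))) (Subtype.ext (hsq u hu)) fun q hq => ?_
      have hqT : (q : G) ∈ T := by
        let T' : Sylow 2 ↥C := (hTp.comap_subtype : IsPGroup 2 ↥(T.subgroupOf C)).toSylow hTodd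
        exact Subgroup.mem_subgroupOf.mp (CfsgLib.Core.pCore_le_sylow T' hq)
      rcases hTa q hqT with h | h
      · exact Or.inl (Subtype.ext h)
      · exact Or.inr (Subtype.ext h)
    haveI := CfsgLib.Core.pCore_characteristic (G := ↥C) 2
    have hmem : (⟨a, haC⟩ : ↥C) * ⟨x, hxC⟩ * (⟨a, haC⟩ : ↥C)⁻¹ * (⟨x, hxC⟩ : ↥C)⁻¹ ∈ Cfsg.pCore 2 ↥C := by
      rw [mul_assoc, mul_assoc]
      refine mul_mem hQ ?_
      rw [← mul_assoc]
      exact (inferInstance : (Cfsg.pCore 2 ↥C).Normal).conj_mem _ (inv_mem hQ) _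
    have hK' : a * x * a⁻¹ * x⁻¹ ∈ K := K.mul_mem ((Subgroup.mem_normalizer_iff.mp (hUK ha) x).mp hx) (K.inv_mem hx)
    obtain ⟨k, hk⟩ := CfsgLib.Core.isPGroup_pCore 2 ⟨_, hmem⟩
    have hk' : (a * x * a⁻¹ * x⁻¹) ^ 2 ^ k = 1 := congrArg (fun v : ↥(Cfsg.pCore 2 ↥C) => ((v : ↥C) : G)) hk
    have h1 : a * x * a⁻¹ * x⁻¹ = 1 := orderOf_eq_one_iff.mp (Nat.eq_one_of_dvd_coprimes
      ((Nat.coprime_two_right.mpr hK).pow_right k) (Subgroup.orderOf_dvd_natCard K hK') (orderOf_dvd_of_pow_eq_one hk'))
    exact mul_inv_eq_iff_eq_mul.mp (mul_inv_eq_one.mp h1)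
  have hcop : (Nat.card ↥U).Coprime (Nat.card ↥K) := by
    rw [hU4.card_four, show 4 = 2 ^ 2 by norm_num]
    exact (Nat.coprime_two_left.mpr hK).pow_left 2
  have hgen := CfsgLib.GroupB.CoprimeAbelian.iSup_centralizer_eq hU4.isMulCommutative hUK hcop
  refine Subgroup.le_centralizer_iff.mp ?_
  rw [← hgen]
  refine iSup₂_le fun B hB => ?_
  rintro x ⟨hx, hxB⟩
  have hBne : B ≠ ⊥ := by
    obtain ⟨-, a, -, hBa⟩ := hB
    rintro rfl
    rw [bot_sup_eq] at hBa
    have := hU4.not_isCyclic
    exact this (hBa ▸ inferInstance)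
  obtain ⟨u, huB, hu1⟩ := (Subgroup.bot_or_exists_ne_one B).resolve_left hBne
  exact Subgroup.mem_centralizer_iff.mpr fun a ha =>
    hCu u (hB.1 huB) hu1 a ha x hx (Subgroup.mem_centralizer_iff.mp hxB u huB).symm

end Cfsg.Agent.S1957
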