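import Cfsg.Statements.S1958
import Cfsg.Agent.Lib.CoreCentralizer

set_option autoImplicit false
open Cfsg

namespace Cfsg.Agent.S1958
open CfsgLib.CoreCentralizer CfsgLib.PComponents

theorem core_inf_le {G : Type*} [Group G] [Finite G] {p : ℕ} [Fact p.Prime] {a b : G} (ha : orderOf a = p)
    (hab : a * b = b * a) (hs : Group.IsSolvable ↥(Subgroup.centralizer ({b} : Set G))) :
    Cfsg.centralizerPPrimeCore p a ⊓ Subgroup.centralizer {b} ≤ Cfsg.centralizerPPrimeCore p b := by
  set Y := Subgroup.centralizer ({b} : Set G)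
  set Ca := Subgroup.centralizer ({a} : Set G)
  have haY : a ∈ Y := Subgroup.mem_centralizer_singleton_iff.mpr hab
  set D := (coreOf p Ca).subgroupOf Y with hD
  have h1 : D ≤ Subgroup.centralizer ({(⟨a, haY⟩ : ↥Y)} : Set ↥Y) := fun d hd =>
    Subgroup.mem_centralizer_singleton_iff.mpr (Subtype.ext
      (Subgroup.mem_centralizer_singleton_iff.mp (Subgroup.map_subtype_le _ (Subgroup.mem_subgroupOf.mp hd))))
  have h2 : Subgroup.centralizer ({(⟨a, haY⟩ : ↥Y)} : Set ↥Y) ≤ Subgroup.normalizer (D : Set ↥Y) := fun y hy =>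
    Subgroup.mem_normalizer_iff.mpr fun d => Subgroup.mem_normalizer_iff.mp (normalizer_le_coreOf Ca (Subgroup.le_normalizer
      (Subgroup.mem_centralizer_singleton_iff.mpr (congrArg Subtype.val (Subgroup.mem_centralizer_singleton_iff.mp hy))))) d
  have h3 : (Nat.card ↥D).Coprime p :=
    (coreOf_coprime Ca).coprime_dvd_left (Subgroup.card_comap_dvd_of_injective _ _ Y.subtype_injective)
  have haP : CfsgLib.PIrr.IsPElt p a := isPElt_iff_orderOf.mpr ⟨1, by rw [ha, pow_one]⟩
  have h := le_pPrimeCore_of_constrained (constrained_of_solvable hs)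
    (CfsgLib.PIrr.coe_isPElt.mp haP : CfsgLib.PIrr.IsPElt p (⟨a, haY⟩ : ↥Y)) h1 h2 h3
  rintro x ⟨hx, hxY⟩
  exact ⟨⟨x, hxY⟩, h (Subgroup.mem_subgroupOf.mpr hx), rfl⟩


/-- Let `G` be a finite group, `p` a prime, and `x, y` commuting elements of order `p` whose centralizers `C_G(x)` and `C_G(y)` are both solvable. Then `O_{p'}(C_G(x)) ∩ C_G(y) = O_{p'}(C_G(y)) ∩ C_G(x)` (balance). -/
theorem result {G : Type*} [Group G] [Finite G]
    (p : ℕ) [Fact p.Prime] (x y : G) (hx : orderOf x = p) (hy : orderOf y = p) (hxy : x * y = y * x)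
    (hCx : Group.IsSolvable ↥(Subgroup.centralizer ({x} : Set G))) (hCy : Group.IsSolvable ↥(Subgroup.centralizer ({y} : Set G))) :
    Cfsg.centralizerPPrimeCore p x ⊓ Subgroup.centralizer {y} = Cfsg.centralizerPPrimeCore p y ⊓ Subgroup.centralizer {x} := by
  exact le_antisymm (le_inf (core_inf_le hx hxy hCy) (inf_le_left.trans (Subgroup.map_subtype_le _)))
    (le_inf (core_inf_le hy hxy.symm hCx) (inf_le_left.trans (Subgroup.map_subtype_le _)))

end Cfsg.Agent.S1958
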