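import Cfsg.Statements.S1963
import Cfsg.Agent.Lib.LocalBasic

set_option autoImplicit false
open Cfsg

namespace Cfsg.Agent.S1963
open CfsgLib.LocalBasic

/-- The Sylow normalizer moves with the conjugation. -/
theorem moved {G : Type*} [Group G] [Finite G] {p : ℕ} [Fact p.Prime] {S U : Subgroup G} (hS : IsPGroup p ↥S)
    (hg : ¬ p ∣ (S ⊓ Subgroup.normalizer (U : Set G)).relIndex (Subgroup.normalizer (U : Set G))) (m : G)
    (hle : (S ⊓ Subgroup.normalizer (U : Set G)).map (MulAut.conj m).toMonoidHom ≤ S) :
    S ⊓ Subgroup.normalizer ((U.map (MulAut.conj m).toMonoidHom : Subgroup G) : Set G) =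
      (S ⊓ Subgroup.normalizer (U : Set G)).map (MulAut.conj m).toMonoidHom := by
  set Z := Subgroup.normalizer (U : Set G)
  have hZ : Subgroup.normalizer ((U.map (MulAut.conj m).toMonoidHom : Subgroup G) : Set G) = Z.map (MulAut.conj m).toMonoidHom :=
    (Subgroup.map_equiv_normalizer_eq U (MulAut.conj m)).symm
  rw [hZ]
  refine (Subgroup.eq_of_le_of_card_ge (le_inf hle (Subgroup.map_mono inf_le_right)) ?_).symm
  obtain ⟨a, ha⟩ := (hS.to_le (inf_le_left : S ⊓ Z.map (MulAut.conj m).toMonoidHom ≤ S)).exists_card_eq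
  have h1 := Subgroup.relIndex_mul_relIndex ⊥ (S ⊓ Z) Z bot_le inf_le_right
  rw [Subgroup.relIndex_bot_left, Subgroup.relIndex_bot_left] at h1
  have hd : p ^ a ∣ (S ⊓ Z).relIndex Z * Nat.card ↥(S ⊓ Z : Subgroup G) := by
    rw [mul_comm, h1, ← ha, ← Subgroup.card_map_of_injective (K := Z) (f := (MulAut.conj m).toMonoidHom) (MulEquiv.injective (MulAut.conj m))]
    exact Subgroup.card_dvd_of_le inf_le_right
  rw [Subgroup.card_map_of_injective (f := (MulAut.conj m).toMonoidHom) (MulEquiv.injective (MulAut.conj m)), ha]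
  exact Nat.le_of_dvd Nat.card_pos ((((Fact.out : p.Prime).coprime_iff_not_dvd.mpr hg).pow_left a).dvd_of_dvd_mul_left hd)


set_option maxHeartbeats 1000000 in
/-- Let p be a prime, G a finite group with Sylow p-subgroup S, W a conjugacy functor for p on G and T a subgroup of S. Then some G-conjugate of T is well placed in S with respect to W. -/
theorem result {G : Type*} [Group G] [Finite G] {p : ℕ} [Fact p.Prime] (S : Sylow p G) (W : Subgroup G → Subgroup G) (hW : Cfsg.IsConjugacyFunctor p W) (T : Subgroup G) (hT : T ≤ (S : Subgroup G)) : ∃ g : G, Cfsg.IsWellPlaced p W (S : Subgroup G) (T.map (MulAut.conj g).toMonoidHom) := by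
  set Sg := (S : Subgroup G)
  let U : Subgroup G → ℕ → Subgroup G := fun R i => Cfsg.functorTower W Sg R i
  let N : Subgroup G → ℕ → Subgroup G := fun R i => Sg ⊓ Subgroup.normalizer ((U R i : Subgroup G) : Set G)
  let Good : Subgroup G → ℕ → Prop := fun R i =>
    ¬ p ∣ (N R i).relIndex (Subgroup.normalizer ((U R i : Subgroup G) : Set G))
  have hNp : ∀ R i, IsPGroup p ↥(N R i) := fun R i => S.2.to_le inf_le_left
  have hmono : ∀ R i, N R i ≤ N R (i + 1) := fun R i => le_inf inf_le_left fun v hv => by
    refine mem_normalizer_of_conj_map_eq ?_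
    have h := (hW _ (hNp R i)).2.2 v
    rw [conj_map_eq_of_mem_normalizer (Subgroup.le_normalizer hv)] at h
    exact h.symm
  have hmono' : ∀ R, Monotone (N R) := fun R => monotone_nat_of_le_succ (hmono R)
  -- build conjugates that are good at the first `n` levels
  have hbuild : ∀ n, ∃ g : G, T.map (MulAut.conj g).toMonoidHom ≤ Sg ∧ ∀ i < n, Good (T.map (MulAut.conj g).toMonoidHom) i := by
    intro n
    induction n with
    | zero => exact ⟨1, by rw [map_one]; exact (Subgroup.map_id T).le.trans hT, fun i hi => by omega⟩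
    | succ n ih =>
      obtain ⟨g, hgS, hgood⟩ := ih
      set R := T.map (MulAut.conj g).toMonoidHom
      set Z := Subgroup.normalizer ((U R n : Subgroup G) : Set G)
      obtain ⟨P, hP⟩ := ((hNp R n).comap_subtype (H := N R n) (K := Z)).exists_le_sylow
      obtain ⟨P', hP'⟩ := (P.2.map Z.subtype).exists_le_sylow
      obtain ⟨m, hm⟩ := MulAction.exists_smul_eq G P' S
      have hm' : (P' : Subgroup G).map (MulAut.conj m).toMonoidHom = Sg := congrArg (fun Q : Sylow p G => (Q : Subgroup G)) hm
      have hPS : ((P : Subgroup ↥Z).map Z.subtype).map (MulAut.conj m).toMonoidHom ≤ Sg :=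
        (Subgroup.map_mono hP').trans hm'.le
      have hNmS : (N R n).map (MulAut.conj m).toMonoidHom ≤ Sg := by
        refine le_trans (Subgroup.map_mono ?_) hPS
        intro v hv
        exact ⟨⟨v, hv.2⟩, hP (Subgroup.mem_subgroupOf.mpr hv), rfl⟩
      have hmR : R.map (MulAut.conj m).toMonoidHom = T.map (MulAut.conj (m * g)).toMonoidHom := by
        rw [Subgroup.map_map, map_mul]; rfl
      set R' := R.map (MulAut.conj m).toMonoidHom
      have hR'S : R' ≤ Sg := by
        refine (Subgroup.map_mono ?_).trans hNmS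
        have hR0 : R ≤ N R 0 := le_inf hgS Subgroup.le_normalizer
        exact hR0.trans (hmono' R (Nat.zero_le n))
      have hU : ∀ i, i ≤ n → U R' i = (U R i).map (MulAut.conj m).toMonoidHom ∧
          (i < n → N R' i = (N R i).map (MulAut.conj m).toMonoidHom) := by
        intro i
        induction i with
        | zero =>
          intro _
          refine ⟨rfl, fun hi => ?_⟩
          exact moved S.2 (hgood 0 hi) m ((Subgroup.map_mono (hmono' R (Nat.zero_le n))).trans hNmS)
        | succ i ihi =>
          intro hi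
          obtain ⟨-, hNi⟩ := ihi (by omega)
          have hUe : U R' (i + 1) = (U R (i + 1)).map (MulAut.conj m).toMonoidHom := by
            show W (N R' i) = (W (N R i)).map _
            rw [hNi (by omega)]; exact (hW _ (hNp R i)).2.2 m
          refine ⟨hUe, fun hi' => ?_⟩
          show Sg ⊓ Subgroup.normalizer ((U R' (i + 1) : Subgroup G) : Set G) = _
          rw [hUe]
          exact moved S.2 (hgood (i + 1) hi') m ((Subgroup.map_mono (hmono' R hi)).trans hNmS)
      refine ⟨m * g, hmR ▸ hR'S, fun i hi => ?_⟩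
      rw [← hmR]
      rcases Nat.lt_succ_iff_lt_or_eq.mp hi with hi | hin
      · obtain ⟨hUi, hNi⟩ := hU i hi.le
        show ¬ p ∣ (N R' i).relIndex (Subgroup.normalizer ((U R' i : Subgroup G) : Set G))
        rw [hNi hi, hUi, ← Subgroup.map_equiv_normalizer_eq _ (MulAut.conj m)]
        rw [Subgroup.relIndex_map_map_of_injective _ _ (MulEquiv.injective (MulAut.conj m))]
        exact hgood i hi
      · rw [hin]; intro hd
        have hUn := (hU n le_rfl).1
        have hle : ((P : Subgroup ↥Z).map Z.subtype).map (MulAut.conj m).toMonoidHom ≤ N R' n := by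
          refine le_inf hPS ?_
          rw [hUn]
          exact (Subgroup.map_mono (Subgroup.map_subtype_le _)).trans (Subgroup.le_normalizer_map _)
        have hZ : Subgroup.normalizer ((U R' n : Subgroup G) : Set G) = Z.map (MulAut.conj m).toMonoidHom := by
          rw [hUn]; exact (Subgroup.map_equiv_normalizer_eq _ (MulAut.conj m)).symm
        refine P.not_dvd_index ?_
        have h1 : (((P : Subgroup ↥Z).map Z.subtype).map (MulAut.conj m).toMonoidHom).relIndex (Z.map (MulAut.conj m).toMonoidHom) =
            (P : Subgroup ↥Z).index := by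
          rw [Subgroup.relIndex_map_map_of_injective _ _ (MulEquiv.injective (MulAut.conj m)), Subgroup.relIndex,
            show ((P : Subgroup ↥Z).map Z.subtype).subgroupOf Z = P from Subgroup.comap_map_eq_self_of_injective Z.subtype_injective _]
        rw [← h1, ← hZ]
        exact hd.trans (Subgroup.relIndex_dvd_of_le_left _ hle)
  obtain ⟨g, hgS, hgood⟩ := hbuild (Nat.card G + 2)
  set R := T.map (MulAut.conj g).toMonoidHom
  refine ⟨g, hgS, fun i => ?_⟩
  obtain ⟨j, hj, hst⟩ : ∃ j ≤ Nat.card G, N R j = N R (j + 1) := by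
    by_contra hcon
    simp only [not_exists, not_and] at hcon
    have hcard : ∀ j ≤ Nat.card G + 1, j < Nat.card ↥(N R j) + 0 ∨ j ≤ Nat.card ↥(N R j) := by
      intro j
      induction j with
      | zero => intro _; exact Or.inr (Nat.zero_le _)
      | succ j ihj =>
        intro hj
        have hlt : Nat.card ↥(N R j) < Nat.card ↥(N R (j + 1)) := lt_of_le_of_ne (Subgroup.card_le_of_le (hmono R j))
          fun he => hcon j (by omega) (Subgroup.eq_of_le_of_card_ge (hmono R j) he.ge)
        rcases ihj (by omega) with h | h <;> exact Or.inr (by omega)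
    have h1 := hcard (Nat.card G + 1) le_rfl
    have h2 := Subgroup.card_le_card_group (N R (Nat.card G + 1))
    omega
  have hconst : ∀ l, N R (j + l) = N R j ∧ U R (j + 1 + l) = U R (j + 1) := by
    intro l
    induction l with
    | zero => exact ⟨rfl, rfl⟩
    | succ l ihl =>
      have hNl : N R (j + (l + 1)) = N R j := by
        show Sg ⊓ Subgroup.normalizer ((U R (j + (l + 1)) : Subgroup G) : Set G) = _
        rw [show j + (l + 1) = j + 1 + l by omega, ihl.2]; exact hst.symm
      refine ⟨hNl, ?_⟩
      show W (N R (j + 1 + l)) = W (N R j)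
      rw [show j + 1 + l = j + (l + 1) by omega, hNl]
  by_cases hi : i < Nat.card G + 2
  · exact hgood i hi
  · obtain ⟨l, rfl⟩ : ∃ l, i = j + 1 + l := ⟨i - (j + 1), by omega⟩
    have := hgood (j + 1) (by omega)
    show ¬ p ∣ (Sg ⊓ Subgroup.normalizer ((U R (j + 1 + l) : Subgroup G) : Set G)).relIndex _
    rw [show Cfsg.functorTower W Sg R (j + 1 + l) = U R (j + 1) from (hconst l).2, (hconst l).2]
    exact this

end Cfsg.Agent.S1963
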