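import Cfsg.Statements.S1961
import Cfsg.Agent.Lib.ConjFamily
import Cfsg.Agent.S1963

set_option autoImplicit false
open Cfsg

namespace Cfsg.Agent.S1961
open CfsgLib.ConjFamily CfsgLib.Fusion

/-- Local-to-global control of strong fusion through well-placed subgroups. Let p be a prime, G a finite group with Sylow p-subgroup S, and W a conjugacy functor for p on G. If W controls strong fusion in N_G(T) for every nonidentity subgroup T of S that is well placed in S with respect to W, then W controls strong fusion in G. -/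
theorem result {G : Type*} [Group G] [Finite G] {p : ℕ} [Fact p.Prime] (S : Sylow p G) (W : Subgroup G → Subgroup G) (hW : Cfsg.IsConjugacyFunctor p W) (hloc : ∀ T : Subgroup G, T ≠ ⊥ → Cfsg.IsWellPlaced p W (S : Subgroup G) T → Cfsg.ControlsStrongFusionIn p W (Subgroup.normalizer ((T : Subgroup G) : Set G))) : Cfsg.ControlsStrongFusionIn p W ⊤ := by
  have h𝓦 : ∀ V ∈ ({W} : Set (Subgroup G → Subgroup G)), Cfsg.IsConjugacyFunctor p V := by
    rintro V rfl; exact hW
  have key := real_of_local S {W} h𝓦 (fun U => Cfsg.IsWellPlaced p W (S : Subgroup G) U)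
    (fun U hU => ⟨hU.1, hU.2 0⟩) (fun D hD => Cfsg.Agent.S1963.result S W hW D hD)
    (fun U hU hne => localFusion_of_family S {W} h𝓦 ⟨hU.1, hU.2 0⟩ (family_of_single (hloc U hne hU)) hne)
  refine ⟨S, le_top, S.2, by rw [Subgroup.relIndex_top_right]; exact S.not_dvd_index, fun A g _ hA hgA => ?_⟩
  have h := key (Subgroup.closure A) g ((Subgroup.closure_le _).mpr hA) (closure_conj_le hgA)
  rw [norms_singleton] at h
  obtain ⟨x, hx, hxa⟩ := h.mem_of_singleton
  exact ⟨x, hx, fun a ha => hxa a (Subgroup.subset_closure ha)⟩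

end Cfsg.Agent.S1961
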