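import Cfsg.Statements.S1967
import Cfsg.Agent.Lib.LocalBasic

set_option autoImplicit false
open Cfsg

namespace Cfsg.Agent.S1967

/-- Let p be a prime, G a finite group with Sylow p-subgroup S and W a conjugacy functor for p on G. Then W controls strong fusion in G if and only if, whenever T ≤ S and g ∈ G satisfy gTg⁻¹ ≤ S, one can write g = n c with n ∈ N_G(W(S)) and c ∈ C_G(T). -/
theorem result {G : Type*} [Group G] [Finite G] {p : ℕ} [Fact p.Prime] (S : Sylow p G) (W : Subgroup G → Subgroup G) (hW : Cfsg.IsConjugacyFunctor p W) : Cfsg.ControlsStrongFusionIn p W ⊤ ↔ ∀ (T : Subgroup G) (g : G), T ≤ (S : Subgroup G) → T.map (MulAut.conj g).toMonoidHom ≤ (S : Subgroup G) → ∃ n ∈ Subgroup.normalizer ((W (S : Subgroup G) : Subgroup G) : Set G), ∃ c ∈ Subgroup.centralizer (T : Set G), g = n * c := by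
  constructor
  · rintro ⟨T₀, -, hT₀p, hT₀i, hctl⟩ T g hT hTg
    rw [Subgroup.relIndex_top_right] at hT₀i
    obtain ⟨k, hk⟩ := MulAction.exists_smul_eq G S (hT₀p.toSylow hT₀i)
    have hk' : (S : Subgroup G).map (MulAut.conj k).toMonoidHom = T₀ := congrArg (fun Q : Sylow p G => (Q : Subgroup G)) hk
    set W₀ := W T₀
    have hW₀ : W₀ = (W (S : Subgroup G)).map (MulAut.conj k).toMonoidHom := by
      show W T₀ = _
      rw [← hk']; exact (hW S S.2).2.2 k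
    have e1 : (fun a => k * a * k⁻¹) '' (T : Set G) ⊆ (T₀ : Set G) := by
      rintro _ ⟨a, ha, rfl⟩; exact hk'.le ⟨a, hT ha, rfl⟩
    have e2 : (fun a => k * g * k⁻¹ * a * (k * g * k⁻¹)⁻¹) '' ((fun a => k * a * k⁻¹) '' (T : Set G)) ⊆ (T₀ : Set G) := by
      rintro _ ⟨_, ⟨a, ha, rfl⟩, rfl⟩
      show k * g * k⁻¹ * (k * a * k⁻¹) * (k * g * k⁻¹)⁻¹ ∈ T₀
      rw [show k * g * k⁻¹ * (k * a * k⁻¹) * (k * g * k⁻¹)⁻¹ = k * (g * a * g⁻¹) * k⁻¹ by group]
      exact hk'.le ⟨g * a * g⁻¹, hTg ⟨a, ha, rfl⟩, rfl⟩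
    obtain ⟨x, hx, hxa⟩ := hctl _ (k * g * k⁻¹) trivial e1 e2
    refine ⟨k⁻¹ * x * k, ?_, (k⁻¹ * x * k)⁻¹ * g, fun a ha => ?_, by group⟩
    · refine CfsgLib.LocalBasic.mem_normalizer_of_conj_map_eq ?_
      have h := congrArg (Subgroup.map (MulAut.conj k⁻¹).toMonoidHom) (CfsgLib.LocalBasic.conj_map_eq_of_mem_normalizer hx.2)
      change Subgroup.map _ (Subgroup.map _ W₀) = Subgroup.map _ W₀ at h
      rw [hW₀, Subgroup.map_map, Subgroup.map_map, Subgroup.map_map] at h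
      refine Eq.trans ?_ (h.trans ?_)
      · congr 1; ext y
        show k⁻¹ * x * k * y * (k⁻¹ * x * k)⁻¹ = k⁻¹ * (x * (k * y * k⁻¹) * x⁻¹) * k⁻¹⁻¹
        group
      · conv_rhs => rw [← Subgroup.map_id (W (S : Subgroup G))]
        congr 1; ext y
        show k⁻¹ * (k * y * k⁻¹) * k⁻¹⁻¹ = y
        group
    · have h := hxa _ ⟨a, ha, rfl⟩
      show a * ((k⁻¹ * x * k)⁻¹ * g) = (k⁻¹ * x * k)⁻¹ * g * a
      calc a * ((k⁻¹ * x * k)⁻¹ * g) = k⁻¹ * x⁻¹ * (x * (k * a * k⁻¹) * x⁻¹) * k * g := by group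
        _ = k⁻¹ * x⁻¹ * (k * g * k⁻¹ * (k * a * k⁻¹) * (k * g * k⁻¹)⁻¹) * k * g := by rw [h]
        _ = _ := by group
  · intro h
    refine ⟨S, le_top, S.2, by rw [Subgroup.relIndex_top_right]; exact S.not_dvd_index, fun A g _ hA hgA => ?_⟩
    obtain ⟨n, hn, c, hc, rfl⟩ := h (Subgroup.closure A) g ((Subgroup.closure_le _).mpr hA) (by
      rw [MonoidHom.map_closure]; exact (Subgroup.closure_le _).mpr hgA)
    refine ⟨n, ⟨trivial, hn⟩, fun a ha => ?_⟩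
    calc n * a * n⁻¹ = n * (a * c) * c⁻¹ * n⁻¹ := by group
      _ = n * (c * a) * c⁻¹ * n⁻¹ := by rw [hc a (Subgroup.subset_closure ha)]
      _ = _ := by group

end Cfsg.Agent.S1967
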