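import Cfsg.Statements.S1968
import Cfsg.Agent.Lib.ConjFamily
import Cfsg.Agent.S1963

set_option autoImplicit false
open Cfsg

namespace Cfsg.Agent.S1968
open CfsgLib.ConjFamily CfsgLib.Fusion

theorem chain_moved {G : Type*} [Group G] {𝓕 : Set (Subgroup G)} {S B : Subgroup G} {g : G}
    (h : Chain 𝓕 S B g) : cj g⁻¹ B ≠ B → ∃ T ∈ 𝓕, B ≤ T ∧ ∃ x ∈ Subgroup.normalizer (T : Set G), cj x B ≠ B := by
  induction h with
  | nil hB => intro h; exact absurd (by rw [inv_one, cj_one]) h
  | @step B T x g hT hB hx _ ih =>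
    intro h
    rw [mul_inv_rev, cj_mul] at h
    by_cases he : cj x⁻¹ B = B
    · rw [he] at h
      rw [he] at ih
      exact ih h
    · exact ⟨T, hT, hB, x⁻¹, inv_mem hx, he⟩

theorem tower_tail {G : Type*} [Group G] (W : Subgroup G → Subgroup G) (S T : Subgroup G) (i : ℕ) :
    Cfsg.functorTower W S (W (S ⊓ Subgroup.normalizer (T : Set G))) i = Cfsg.functorTower W S T (i + 1) := by
  induction i with
  | zero => rfl
  | succ i ih =>
    show W (S ⊓ Subgroup.normalizer ((Cfsg.functorTower W S (W (S ⊓ Subgroup.normalizer (T : Set G))) i : Subgroup G) : Set G)) = _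
    rw [ih]; rfl

/-- Let p be a prime, G a finite group with Sylow p-subgroup S and W a conjugacy functor for p on G with Z(P) ≤ W(P) for every p-subgroup P. Let A be a subgroup of Z(S) normalized by N_G(W(S)) that is not weakly closed in S with respect to G. Then there is a subgroup T of S, well placed in S with respect to W, such that: A ≤ T; N_G(W(N_S(T))) normalizes A; N_S(T) is a Sylow p-subgroup of N_G(T); A ≤ Z(N_S(T)); and A is not weakly closed in N_S(T) with respect to N_G(T), that is, some N_G(T)-conjugate of A other than A lies in N_S(T). -/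
theorem result {G : Type*} [Group G] [Finite G] {p : ℕ} [Fact p.Prime] (S : Sylow p G) (W : Subgroup G → Subgroup G) (hW : Cfsg.IsConjugacyFunctor p W) (hWZ : ∀ P : Subgroup G, IsPGroup p ↥P → P ⊓ Subgroup.centralizer (P : Set G) ≤ W P) (A : Subgroup G) (hAZ : A ≤ (S : Subgroup G) ⊓ Subgroup.centralizer ((S : Subgroup G) : Set G)) (hAN : Subgroup.normalizer ((W (S : Subgroup G) : Subgroup G) : Set G) ≤ Subgroup.normalizer ((A : Subgroup G) : Set G)) (hnwc : ¬ Cfsg.IsWeaklyClosed A (S : Subgroup G)) : ∃ T : Subgroup G, Cfsg.IsWellPlaced p W (S : Subgroup G) T ∧ A ≤ T ∧ Subgroup.normalizer ((W ((S : Subgroup G) ⊓ Subgroup.normalizer ((T : Subgroup G) : Set G)) : Subgroup G) : Set G) ≤ Subgroup.normalizer ((A : Subgroup G) : Set G) ∧ ¬ p ∣ ((S : Subgroup G) ⊓ Subgroup.normalizer ((T : Subgroup G) : Set G)).relIndex (Subgroup.normalizer ((T : Subgroup G) : Set G)) ∧ A ≤ Subgroup.centralizer (((S : Subgroup G) ⊓ Subgroup.normalizer ((T : Subgroup G) : Set G) : Subgroup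 G) : Set G) ∧ ∃ g ∈ Subgroup.normalizer ((T : Subgroup G) : Set G), A.map (MulAut.conj g).toMonoidHom ≤ (S : Subgroup G) ⊓ Subgroup.normalizer ((T : Subgroup G) : Set G) ∧ A.map (MulAut.conj g).toMonoidHom ≠ A := by
  classical
  set Sg := (S : Subgroup G)
  have hAS : A ≤ Sg := hAZ.trans inf_le_left
  obtain ⟨g₀, hg₀, hne⟩ : ∃ g : G, cj g A ≤ Sg ∧ cj g A ≠ A := by
    by_contra h
    push Not at h
    exact hnwc ⟨hAS, h⟩
  have hch := chain_of_rep S {T : Subgroup G | Cfsg.IsWellPlaced p W Sg T} (fun T hT => hT.1) (fun D hD => by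
    obtain ⟨g, hg⟩ := Cfsg.Agent.S1963.result S W hW D hD
    exact ⟨g, hg, hg.1, hg.2 0⟩) A g₀⁻¹ hAS (by rw [inv_inv]; exact hg₀)
  obtain ⟨T₀, hT₀, hAT₀, hx₀⟩ := chain_moved hch (by rw [inv_inv]; exact hne)
  obtain ⟨T, ⟨hT, hAT, x, hx, hxA⟩, hmax⟩ := (Set.toFinite {T : Subgroup G | Cfsg.IsWellPlaced p W Sg T ∧ A ≤ T ∧
      ∃ x ∈ Subgroup.normalizer (T : Set G), cj x A ≠ A}).exists_maximalFor
    (fun T : Subgroup G => Nat.card ↥(Sg ⊓ Subgroup.normalizer (T : Set G) : Subgroup G)) _ ⟨T₀, hT₀, hAT₀, hx₀⟩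
  set P := Sg ⊓ Subgroup.normalizer (T : Set G) with hP
  have hTP : T ≤ P := le_inf hT.1 Subgroup.le_normalizer
  have hAP : A ≤ Subgroup.centralizer (P : Set G) :=
    hAZ.trans (inf_le_right.trans (Subgroup.centralizer_le (SetLike.coe_subset_coe.mpr inf_le_left)))
  have hPp : IsPGroup p ↥P := S.2.to_le inf_le_left
  refine ⟨T, hT, hAT, ?_, hT.2 0, hAP, x, hx, ?_, hxA⟩
  · show Subgroup.normalizer ((W P : Subgroup G) : Set G) ≤ Subgroup.normalizer (A : Set G)
    rcases eq_or_ne P Sg with he | he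
    · rw [he]; exact hAN
    · by_contra hcon
      obtain ⟨n, hn, hnA⟩ : ∃ n ∈ Subgroup.normalizer ((W P : Subgroup G) : Set G), cj n A ≠ A := by
        by_contra h
        push Not at h
        exact hcon fun n hn => mem_normalizer_iff_cj.mpr (h n hn)
      have hwell : Cfsg.IsWellPlaced p W Sg (W P) :=
        ⟨(hW P hPp).1.trans inf_le_left, fun i => by rw [tower_tail]; exact hT.2 (i + 1)⟩
      have hle : Sg ⊓ Subgroup.normalizer (P : Set G) ≤ Sg ⊓ Subgroup.normalizer ((W P : Subgroup G) : Set G) := by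
        refine le_inf inf_le_left fun v hv => ?_
        have h := (hW P hPp).2.2 v
        rw [show P.map (MulAut.conj v).toMonoidHom = P from mem_normalizer_iff_cj.mp hv.2] at h
        exact mem_normalizer_iff_cj.mpr h.symm
      have h1 := card_lt_normalizerIn S (P := P) inf_le_left he
      have h2 := Subgroup.card_le_of_le hle
      have h3 := hmax (j := W P) ⟨hwell, (le_inf (hAT.trans hTP) hAP).trans (hWZ P hPp), n, hn, hnA⟩
      have h4 : Nat.card ↥P ≤ Nat.card ↥(Sg ⊓ Subgroup.normalizer ((W P : Subgroup G) : Set G) : Subgroup G) := h1.le.trans h2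
      have h5 : Nat.card ↥(Sg ⊓ Subgroup.normalizer ((W P : Subgroup G) : Set G) : Subgroup G) ≤ Nat.card ↥P := h3 h4
      have h6 : Nat.card ↥P < Nat.card ↥(Sg ⊓ Subgroup.normalizer ((W P : Subgroup G) : Set G) : Subgroup G) := h1.trans_le h2
      omega
  · exact (cj_mono x hAT).trans ((mem_normalizer_iff_cj.mp hx).le.trans hTP)

end Cfsg.Agent.S1968
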