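import Cfsg.Statements.S1969
import Cfsg.Agent.Lib.SectionControl

set_option autoImplicit false
universe u
open Cfsg

namespace Cfsg.Agent.S1969
open CfsgLib.SectionReduce

/-- Let p be a prime, G a finite group and W an isomorphism-invariant p-group functor (W assigns to every group Q a subgroup W(Q), nontrivial whenever Q is a nontrivial finite p-group, and every isomorphism from a finite p-group Q onto a group R carries W(Q) onto W(R)). Suppose that W(S*) is normal in G* whenever G* = K/R is a section of G with C_{G*}(O_p(G*)) ≤ O_p(G*) and S* is a Sylow p-subgroup of G*. Then W controls strong fusion in every section of G: for every section K/R and every Sylow p-subgroup T of K/R, the subgroup W(T) controls strong fusion in K/R. -/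
theorem result {G : Type u} [Group G] [Finite G] {p : ℕ} [Fact p.Prime] (W : ∀ (Q : Type u) [Group Q], Subgroup Q) (hW : Cfsg.IsCharPFunctor.{u} p W) (hloc : ∀ (K R : Subgroup G) [hR : (R.subgroupOf K).Normal], Subgroup.centralizer ((Cfsg.pCore p (↥K ⧸ R.subgroupOf K) : Subgroup (↥K ⧸ R.subgroupOf K)) : Set (↥K ⧸ R.subgroupOf K)) ≤ Cfsg.pCore p (↥K ⧸ R.subgroupOf K) → ∀ T : Sylow p (↥K ⧸ R.subgroupOf K), (Cfsg.inducedFunctor (G := (↥K ⧸ R.subgroupOf K)) W ((T : Subgroup (↥K ⧸ R.subgroupOf K)))).Normal) : ∀ (K R : Subgroup G) [hR : (R.subgroupOf K).Normal], ∀ T : Sylow p (↥K ⧸ R.subgroupOf K), Cfsg.ControlsStrongFusion p (Cfsg.inducedFunctor (G := (↥K ⧸ R.subgroupOf K)) W ((T : Subgroup (↥K ⧸ R.subgroupOf K)))) := by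
  have h𝓦 : ∀ V ∈ ({W} : Set (∀ (Q : Type u) [Group Q], Subgroup Q)), IsCharPFunctor.{u} p V := by
    rintro V rfl; exact hW
  intro K R hR T
  refine controlsStrongFusion_of_single hW
    (fusion_all h𝓦 (G := G) (fun Q _ _ hQ hc _ => ?_) _ (Sec.mk_pair K R)) T
  obtain ⟨K', R', hR', ⟨e⟩⟩ := hQ.exists_pair
  refine fusion_equiv h𝓦 e ?_
  obtain ⟨T'⟩ := (inferInstance : Nonempty (Sylow p (↥K' ⧸ R'.subgroupOf K')))
  have hn := hloc K' R' (CfsgLib.CharP.charP_congr e.symm hc) T'
  refine fusion_of_factor h𝓦 (Set.mem_singleton W) (Set.mem_singleton W) T' fun x => ⟨x, ?_, 1, one_mem _, (mul_one x).symm⟩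
  rw [Subgroup.normalizer_eq_top_iff.mpr hn]; trivial

end Cfsg.Agent.S1969
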