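import Cfsg.Statements.S1970
import Cfsg.Agent.Lib.SectionControl

set_option autoImplicit false
universe u
open Cfsg

namespace Cfsg.Agent.S1970
open CfsgLib.SectionReduce CfsgLib.ConjFamily

/-- Let p be a prime, G a finite group and W an isomorphism-invariant p-group functor (W assigns to every group Q a subgroup W(Q), nontrivial whenever Q is a nontrivial finite p-group, and every isomorphism from a finite p-group Q onto a group R carries W(Q) onto W(R)). Suppose that for every section G* = K/R of G with C_{G*}(O_p(G*)) ≤ O_p(G*) and every Sylow p-subgroup S* of G*, one has O_p(G*) ∩ (G*)' = O_p(G*) ∩ (N_{G*}(W(S*)))'. Then W controls transfer in every section G* of G: S* ∩ (G*)' = S* ∩ (N_{G*}(W(S*)))' for a Sylow p-subgroup S* of G*. -/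
theorem result {G : Type u} [Group G] [Finite G] {p : ℕ} [Fact p.Prime] (W : ∀ (Q : Type u) [Group Q], Subgroup Q) (hW : Cfsg.IsCharPFunctor.{u} p W) (hloc : ∀ (K R : Subgroup G) [hR : (R.subgroupOf K).Normal], Subgroup.centralizer ((Cfsg.pCore p (↥K ⧸ R.subgroupOf K) : Subgroup (↥K ⧸ R.subgroupOf K)) : Set (↥K ⧸ R.subgroupOf K)) ≤ Cfsg.pCore p (↥K ⧸ R.subgroupOf K) → ∀ T : Sylow p (↥K ⧸ R.subgroupOf K), Cfsg.pCore p (↥K ⧸ R.subgroupOf K) ⊓ commutator (↥K ⧸ R.subgroupOf K) = Cfsg.pCore p (↥K ⧸ R.subgroupOf K) ⊓ ⁅Subgroup.normalizer ((Cfsg.inducedFunctor (G := (↥K ⧸ R.subgroupOf K)) W ((T : Subgroup (↥K ⧸ R.subgroupOf K))) : Subgroup (↥K ⧸ R.subgroupOf K)) : Set (↥K ⧸ R.subgroupOf K)), Subgroup.normalizer ((Cfsg.inducedFunctor (G := (↥K ⧸ R.subgroupOf K)) W ((T : Subgroup (↥K ⧸ R.subgroupOf K))) : Subgroup (↥K ⧸ R.subgroupOf K)) : Set (↥K ⧸ R.subgroupOf K))⁆) : ∀ (K R : Subgroup G) [hR : (R.subgroupOf K).Normal],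 Cfsg.ControlsTransferIn p (Cfsg.inducedFunctor (G := (↥K ⧸ R.subgroupOf K)) W) ⊤ := by
  have h𝓦 : ∀ V ∈ ({W} : Set (∀ (Q : Type u) [Group Q], Subgroup Q)), IsCharPFunctor.{u} p V := by
    rintro V rfl; exact hW
  intro K R hR
  refine ctlT_single_iff.mp (transfer_all h𝓦 (G := G) (fun Q _ _ hQ hc hsmall => ?_) _ (Sec.mk_pair K R))
  obtain ⟨K', R', hR', ⟨e⟩⟩ := hQ.exists_pair
  refine transfer_equiv h𝓦 e ?_
  set H := ↥K' ⧸ R'.subgroupOf K' with hH
  have hcH := CfsgLib.CharP.charP_congr e.symm hc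
  obtain ⟨T⟩ := (inferInstance : Nonempty (Sylow p H))
  have hloc' := hloc K' R' hcH T
  have hsec : ∀ (Q' : Type u) [Group Q'] [Finite Q'], Sec H Q' → Nat.card Q' < Nat.card H → CtlT {W} p Q' :=
    fun Q' _ _ hs hlt => hsmall Q' ((Sec.trans ⟨⊤, e.symm.toMonoidHom.comp (⊤ : Subgroup Q).subtype,
      fun z => ⟨⟨e z, trivial⟩, by simp⟩⟩ hs)) (Nat.card_congr e.toEquiv ▸ hlt)
  haveI hn : (Cfsg.pCore p H).Normal := by
    have := CfsgLib.Core.pCore_characteristic (G := H) p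
    infer_instance
  rw [commutator_def] at hloc'
  have hRD : Cfsg.pCore p H ⊓ ⁅(⊤ : Subgroup H), ⊤⁆ ≤ transD T (fam {W} H) := by
    rw [hloc', transD_single]
    exact inf_le_inf_right _ (CfsgLib.Core.pCore_le_sylow T)
  refine transfer_top T _ ?_
  rcases eq_or_ne (T : Subgroup H) (Cfsg.pCore p H) with hT | hT
  · rw [hT]; exact hRD
  rcases eq_or_ne (Cfsg.pCore p H) ⊥ with h0 | h0
  · intro s hs
    have : s ∈ Subgroup.centralizer (Cfsg.pCore p H : Set H) := by rw [h0]; intro y hy; simp_all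
    have h1 : s ∈ Cfsg.pCore p H := hcH this
    exact hRD (Subgroup.mem_inf.mpr ⟨h1, (Subgroup.mem_inf.mp hs).2⟩)
  intro s hs
  obtain ⟨d, hd, hr⟩ := transfer_mod_core h𝓦 T (fun M hM => hsec _ (Sec.subgroup M) (card_subgroup_lt hM))
    (hsec _ (Sec.quotient _) (card_quotient_lt h0)) hT s hs
  have hdc : d ∈ ⁅(⊤ : Subgroup H), ⊤⁆ :=
    (iSup₂_le fun V _ => inf_le_right.trans (Subgroup.commutator_mono inf_le_left inf_le_left) :
      transD T (fam {W} H) ≤ ⁅(⊤ : Subgroup H), ⊤⁆) hd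
  have := mul_mem hd (hRD (Subgroup.mem_inf.mpr ⟨hr, mul_mem (inv_mem hdc) (Subgroup.mem_inf.mp hs).2⟩))
  simpa using this

end Cfsg.Agent.S1970
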