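import Cfsg.Statements.S1971
import Cfsg.Agent.Lib.SectionControl

set_option autoImplicit false
universe u
open Cfsg

namespace Cfsg.Agent.S1971
open CfsgLib.SectionReduce CfsgLib.ConjFamily CfsgLib.Fusion
open scoped commutatorElement

theorem index_of_not_mem {H : Type u} [Group H] [Finite H] {p : ℕ} [Fact p.Prime] {s : H} {k : ℕ} (hk : s ^ p ^ k = 1)
    (hs : s ∉ commutator H) : ∃ N : Subgroup H, N.Normal ∧ N.index = p := by
  classical
  set A := Abelianization H
  have hne : Abelianization.of s ≠ 1 := fun h => hs ((Abelianization.ker_of (G := H)).le (MonoidHom.mem_ker.mpr h))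
  set f : A →* A := powMonoidHom p
  have hf : f.range ≠ ⊤ := by
    intro h
    have hinj : Function.Injective f := Finite.injective_iff_surjective.mpr (MonoidHom.range_eq_top.mp h)
    have key : ∀ (j : ℕ) (z : A), z ^ p ^ j = 1 → z = 1 := by
      intro j
      induction j with
      | zero => intro z hz; simpa using hz
      | succ j ih =>
        intro z hz
        refine hinj ?_
        show z ^ p = (1 : A) ^ p
        rw [one_pow]
        exact ih _ (by rw [← pow_mul, ← pow_succ']; exact hz)
    exact hne (key k _ (by rw [← map_pow, hk, map_one]))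
  obtain ⟨M, hM, hle⟩ := (eq_top_or_exists_le_coatom f.range).resolve_left hf
  obtain ⟨x, hx⟩ : ∃ x, x ∉ M := by
    by_contra h
    push Not at h
    exact hM.1 (eq_top_iff.mpr fun z _ => h z)
  refine ⟨M.comap Abelianization.of, inferInstance, ?_⟩
  have hsurj : Function.Surjective (Abelianization.of (G := H)) := QuotientGroup.mk_surjective
  rw [Subgroup.index_comap_of_surjective _ hsurj, Subgroup.index_eq_card]
  set q := QuotientGroup.mk' M
  have htop : (⊤ : Subgroup (A ⧸ M)) = Subgroup.zpowers (q x) := by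
    rw [← MonoidHom.map_zpowers, eq_comm, eq_top_iff]
    have h1 : M ⊔ Subgroup.zpowers x = ⊤ :=
      hM.2 _ (lt_of_le_of_ne le_sup_left fun h => hx (h ▸ Subgroup.mem_sup_right (Subgroup.mem_zpowers x)))
    rw [← Subgroup.map_top_of_surjective q (QuotientGroup.mk'_surjective M), ← h1, Subgroup.map_sup]
    refine sup_le ?_ le_rfl
    rintro _ ⟨m, hm, rfl⟩
    rw [show q m = 1 from (QuotientGroup.eq_one_iff m).mpr hm]
    exact one_mem _
  rw [← Subgroup.card_top (G := A ⧸ M), htop, Nat.card_zpowers]
  refine orderOf_eq_prime ?_ (fun h => hx ((QuotientGroup.eq_one_iff x).mp h))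
  rw [← map_pow]
  exact (QuotientGroup.eq_one_iff _).mpr (hle ⟨x, rfl⟩)

theorem main {G : Type u} [Group G] [Finite G] {p : ℕ} [Fact p.Prime] (W : ∀ (Q : Type u) [Group Q], Subgroup Q)
    (hW : Cfsg.IsCharPFunctor.{u} p W) : ∀ (n : ℕ) (H : Type u) [Group H] [Finite H], Nat.card H = n → Sec G H →
    (∀ Q : Type u, ∀ [Group Q] [Finite Q], Sec G Q → CtlT {W} p Q) →
    ∀ S : Sylow p H, (S : Subgroup H) ≠ ⊥ →
      (∀ g ∈ Subgroup.normalizer ((S : Subgroup H) : Set H), (orderOf g).Coprime p → g ∈ Subgroup.centralizer ((S : Subgroup H) : Set H)) →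
      ∃ N : Subgroup H, N.Normal ∧ N.index = p := by
  intro n
  induction n using Nat.strong_induction_on with
  | _ n ih =>
    intro H _ _ hn hsec hctl S hS hN
    have h𝓦 : ∀ V ∈ ({W} : Set (∀ (Q : Type u) [Group Q], Subgroup Q)), Cfsg.IsCharPFunctor.{u} p V := by
      rintro V rfl; exact hW
    obtain ⟨hVS, hVne, -⟩ := iF_conjugacy (G := H) hW (S : Subgroup H) S.2
    set V := Cfsg.inducedFunctor (G := H) W (S : Subgroup H) with hVdef
    set M := Subgroup.normalizer (V : Set H) with hMdef
    have hSM : (S : Subgroup H) ≤ M := Subgroup.le_normalizer.trans (normalizer_le_functor (iF_conjugacy hW) S.2)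
    rcases ne_or_eq M ⊤ with hMT | hMT
    · -- the normalizer is proper
      set T : Sylow p ↥M := S.subtype hSM with hT
      obtain ⟨N0, hN0n, hN0i⟩ := ih _ (hn ▸ card_subgroup_lt hMT) ↥M rfl (hsec.trans (Sec.subgroup M)) hctl T (by
        intro h
        refine hS ?_
        have h2 := congrArg (Subgroup.map M.subtype) h
        rwa [Sylow.coe_subtype, Subgroup.subgroupOf_map_subtype, inf_of_le_left hSM, Subgroup.map_bot] at h2) (by
        intro g hg hgc
        have hgN : (g : H) ∈ Subgroup.normalizer ((S : Subgroup H) : Set H) := by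
          rw [Subgroup.mem_normalizer_iff]
          intro y
          have h1 := Subgroup.mem_normalizer_iff.mp hg
          refine ⟨fun hy => (h1 ⟨y, hSM hy⟩).mp hy, fun hy => ?_⟩
          have hyM : y ∈ M := by simpa [mul_assoc] using mul_mem (mul_mem (inv_mem g.2) (hSM hy)) g.2
          exact (h1 ⟨y, hyM⟩).mpr hy
        have := hN g hgN (by rwa [Subgroup.orderOf_coe])
        exact fun y hy => Subtype.ext (this (y : H) hy))
      haveI := hN0n
      obtain ⟨s, hsS, hsN⟩ : ∃ s ∈ (S : Subgroup H), s ∉ ⁅M, M⁆ := by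
        by_contra h
        push Not at h
        have hle : (T : Subgroup ↥M) ≤ N0 := by
          intro t ht
          have hqc : Nat.card (↥M ⧸ N0) = p := by rw [← Subgroup.index_eq_card, hN0i]
          haveI : IsCyclic (↥M ⧸ N0) := isCyclic_of_prime_card hqc
          have hcomm : commutator ↥M ≤ N0 := by
            rw [commutator_def, Subgroup.commutator_le]
            intro a _ b _
            letI : CommGroup (↥M ⧸ N0) := IsCyclic.commGroup
            rw [← QuotientGroup.eq_one_iff (N := N0)]
            show QuotientGroup.mk' N0 ⁅a, b⁆ = 1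
            rw [map_commutatorElement, commutatorElement_eq_one_iff_mul_comm]
            exact mul_comm _ _
          have h1 := h (t : H) ht
          rw [← Subgroup.map_subtype_commutator] at h1
          obtain ⟨w, hw, hwe⟩ := h1
          exact hcomm (show t ∈ commutator ↥M from Subtype.ext hwe ▸ hw)
        exact T.not_dvd_index ((dvd_of_eq hN0i.symm).trans (Subgroup.index_dvd_of_le hle))
      have hD := transfer_in_of_family _ (fam_conjugacy h𝓦) le_top S.2 (not_dvd_relIndex S le_top) (hctl H hsec)
      obtain ⟨j, hj⟩ := S.2 ⟨s, hsS⟩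
      refine index_of_not_mem (k := j) (by simpa using congrArg Subtype.val hj) fun hc => hsN ?_
      have h2 := hD (Subgroup.mem_inf.mpr ⟨hsS, by rw [← commutator_def]; exact hc⟩)
      simp only [Set.image_singleton, iSup_singleton, top_inf_eq] at h2
      exact (Subgroup.mem_inf.mp h2).2
    haveI hVn : V.Normal := Subgroup.normalizer_eq_top_iff.mp hMT
    rcases ne_or_eq V (S : Subgroup H) with hVlt | hVeq
    · -- pass to the quotient
      set π := QuotientGroup.mk' V
      have hπs : Function.Surjective π := QuotientGroup.mk'_surjective V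
      have hcomap : ((S : Subgroup H).map π).comap π = (S : Subgroup H) := by
        rw [Subgroup.comap_map_eq, QuotientGroup.ker_mk', sup_eq_left.mpr hVS]
      set T : Sylow p (H ⧸ V) := S.mapSurjective hπs
      obtain ⟨N0, hN0n, hN0i⟩ := ih _ (hn ▸ card_quotient_lt (hVne hS)) (H ⧸ V) rfl (hsec.trans (Sec.quotient V)) hctl T (by
        intro h
        refine hVlt (le_antisymm hVS ?_)
        rw [← hcomap, show (S : Subgroup H).map π = ⊥ from h, MonoidHom.comap_bot, QuotientGroup.ker_mk']) (by
        intro z hz hzc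
        obtain ⟨g, rfl⟩ := hπs z
        have hg : g ∈ Subgroup.normalizer ((S : Subgroup H) : Set H) := by
          rw [← hcomap, ← Subgroup.comap_normalizer_eq_of_surjective _ hπs]
          exact hz
        obtain ⟨a, b, ha, hb, hab, ⟨j, hj⟩, hbc⟩ := CfsgLib.ThompsonNPC.exists_mul_parts p g
        have hbC := hN b (Subgroup.zpowers_le.mpr hg hb) hbc
        have e : π g = π b := by
          obtain ⟨i, hi⟩ := Subgroup.mem_zpowers_iff.mp ha
          have h1 : orderOf (π a) ∣ p ^ j := orderOf_dvd_iff_pow_eq_one.mpr (by rw [← map_pow, hj, map_one])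
          have h2 : orderOf (π a) ∣ orderOf (π g) := by rw [← hi, map_zpow]; exact orderOf_dvd_of_mem_zpowers ⟨i, rfl⟩
          have h3 : π a = 1 := orderOf_eq_one_iff.mp (Nat.eq_one_of_dvd_coprimes (hzc.pow_right j) h2 h1)
          rw [← hab, map_mul, h3, one_mul]
        rw [e]
        rintro _ ⟨y, hy, rfl⟩
        rw [← map_mul, ← map_mul, hbC y hy])
      haveI := hN0n
      exact ⟨N0.comap π, inferInstance, by rw [Subgroup.index_comap_of_surjective _ hπs, hN0i]⟩
    -- the Sylow subgroup is normal
    have hSn : (S : Subgroup H).Normal := hVeq ▸ hVn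
    obtain ⟨s, hsS, hsc⟩ : ∃ s ∈ (S : Subgroup H), s ∉ ⁅(S : Subgroup H), (S : Subgroup H)⁆ := by
      by_contra h
      push Not at h
      haveI : Group.IsNilpotent ↥(S : Subgroup H) := S.2.isNilpotent
      haveI : Nontrivial ↥(S : Subgroup H) := (Subgroup.nontrivial_iff_ne_bot _).mpr hS
      have h1 : commutator ↥(S : Subgroup H) = ⊤ := by
        rw [eq_top_iff]
        intro x _
        have h2 := h x x.2
        rw [← Subgroup.map_subtype_commutator] at h2
        obtain ⟨w, hw, hwe⟩ := h2
        exact Subtype.ext hwe ▸ hw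
      exact (Group.IsSolvable.commutator_lt_top_of_nontrivial ↥(S : Subgroup H)).ne h1
    obtain ⟨j, hj⟩ := S.2 ⟨s, hsS⟩
    refine index_of_not_mem (k := j) (by simpa using congrArg Subtype.val hj) fun hc => hsc ?_
    refine inf_commutator_le (H := (⊤ : Subgroup H)) le_top S.2 (not_dvd_relIndex S le_top) (fun a ha x _ hxa => ?_)
      (Subgroup.mem_inf.mpr ⟨hsS, by rw [← commutator_def]; exact hc⟩)
    obtain ⟨u, b, hu, hb, hub, ⟨i, hi⟩, hbc⟩ := CfsgLib.ThompsonNPC.exists_mul_parts p x
    obtain ⟨g, -, hle⟩ := exists_conj_le S.2 (not_dvd_relIndex S le_top)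
      (CfsgLib.LocalBasic.isPGroup_zpowers_of_pow_eq_one hi) le_top
    have huS : u ∈ (S : Subgroup H) := by
      simpa [mul_assoc] using hSn.conj_mem _ (hle ⟨u, Subgroup.mem_zpowers u, rfl⟩) g⁻¹
    have hba := hN b (by rw [Subgroup.normalizer_eq_top]; trivial) hbc a ha
    rw [← hub, show a⁻¹ * (u * b * a * (u * b)⁻¹) = a⁻¹ * (u * (b * a * b⁻¹) * u⁻¹) by group, ← hba,
      mul_inv_cancel_right, show a⁻¹ * (u * a * u⁻¹) = ⁅a⁻¹, u⁆ by rw [commutatorElement_def]; group]
    exact Subgroup.commutator_mem_commutator (inv_mem ha) huS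

/-- Let p be a prime, G a finite group with nontrivial Sylow p-subgroup S, and W an isomorphism-invariant p-group functor (W assigns to every group Q a subgroup W(Q), nontrivial whenever Q is a nontrivial finite p-group, and every isomorphism from a finite p-group Q onto a group R carries W(Q) onto W(R)) that controls transfer in every section of G. If N_G(S)/C_G(S) is a p-group (every element of N_G(S) of order prime to p centralizes S), then G has a normal subgroup of index p. -/
theorem result {G : Type u} [Group G] [Finite G] {p : ℕ} [Fact p.Prime] (W : ∀ (Q : Type u) [Group Q], Subgroup Q) (hW : Cfsg.IsCharPFunctor.{u} p W) (hctl : ∀ (K R : Subgroup G) [hR : (R.subgroupOf K).Normal], Cfsg.ControlsTransferIn p (Cfsg.inducedFunctor (G := (↥K ⧸ R.subgroupOf K)) W) ⊤) (S : Sylow p G) (hS : (S : Subgroup G) ≠ ⊥) (hN : ∀ g ∈ Subgroup.normalizer (((S : Subgroup G) : Subgroup G) : Set G), (orderOf g).Coprime p → g ∈ Subgroup.centralizer ((S : Subgroup G) : Set G)) : ∃ N : Subgroup G, N.Normal ∧ N.index = p := by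
  refine main W hW (Nat.card G) G rfl Sec.refl (fun Q _ _ hQ => ?_) S hS hN
  obtain ⟨K, R, hR, ⟨e⟩⟩ := hQ.exists_pair
  have h𝓦 : ∀ V ∈ ({W} : Set (∀ (Q : Type u) [Group Q], Subgroup Q)), Cfsg.IsCharPFunctor.{u} p V := by
    rintro V rfl; exact hW
  exact transfer_equiv h𝓦 e (ctlT_single_iff.mpr (hctl K R))

end Cfsg.Agent.S1971
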