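import Cfsg.Statements.S1972
import Cfsg.Agent.Lib.TransferCritical

set_option autoImplicit false
universe u
open Cfsg

namespace Cfsg.Agent.S1972
open CfsgLib.SectionReduce CfsgLib.ConjFamily

/-- Let p be a prime, G a finite group and W an isomorphism-invariant p-group functor (W assigns to every group Q a subgroup W(Q), nontrivial whenever Q is a nontrivial finite p-group, and every isomorphism from a finite p-group Q onto a group R carries W(Q) onto W(R)). Suppose that whenever G* = K/R is a section of G with C_{G*}(O_p(G*)) ≤ O_p(G*) and S* is a Sylow p-subgroup of G* with W(S*) not normal in G*, there is an element g of S* outside O_p(G*) such that [X, g, …, g] ≤ Y with p − 1 entries g, for every chief factor X/Y of G* with X ≤ O_p(G*). Then W controls transfer in every section of G. -/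
theorem result {G : Type u} [Group G] [Finite G] {p : ℕ} [Fact p.Prime] (W : ∀ (Q : Type u) [Group Q], Subgroup Q) (hW : Cfsg.IsCharPFunctor.{u} p W) (hloc : ∀ (K R : Subgroup G) [hR : (R.subgroupOf K).Normal], Subgroup.centralizer ((Cfsg.pCore p (↥K ⧸ R.subgroupOf K) : Subgroup (↥K ⧸ R.subgroupOf K)) : Set (↥K ⧸ R.subgroupOf K)) ≤ Cfsg.pCore p (↥K ⧸ R.subgroupOf K) → ∀ T : Sylow p (↥K ⧸ R.subgroupOf K), ¬ (Cfsg.inducedFunctor (G := (↥K ⧸ R.subgroupOf K)) W ((T : Subgroup (↥K ⧸ R.subgroupOf K)))).Normal → ∃ g : (↥K ⧸ R.subgroupOf K), g ∈ (T : Subgroup (↥K ⧸ R.subgroupOf K)) ∧ g ∉ Cfsg.pCore p (↥K ⧸ R.subgroupOf K) ∧ ∀ U V : Subgroup (↥K ⧸ R.subgroupOf K), Cfsg.IsChiefFactor U V → U ≤ Cfsg.pCore p (↥K ⧸ R.subgroupOf K) → Cfsg.iterCommutator U (Subgroup.zpowers g) (p - 1) ≤ V) : ∀ (K R : Subgroup G) [hR : (R.subgroupOf K).Normal], Cfsg.ControlsTransferIn p (Cfsg.inducedFunctor (G := (↥K ⧸ R.subgroupOf K)) W) ⊤ := by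
  have h𝓦 : ∀ V ∈ ({W} : Set (∀ (Q : Type u) [Group Q], Subgroup Q)), IsCharPFunctor.{u} p V := by
    rintro V rfl; exact hW
  intro K R hR
  refine ctlT_single_iff.mp (transfer_all h𝓦 (G := G) (fun Q _ _ hQ hc hsmall => ?_) _ (Sec.mk_pair K R))
  obtain ⟨K', R', hR', ⟨e⟩⟩ := hQ.exists_pair
  refine transfer_equiv h𝓦 e ?_
  set H := ↥K' ⧸ R'.subgroupOf K' with hH
  have hcH := CfsgLib.CharP.charP_congr e.symm hc
  obtain ⟨T⟩ := (inferInstance : Nonempty (Sylow p H))
  have hsec : ∀ (Q' : Type u) [Group Q'] [Finite Q'], Sec H Q' → Nat.card Q' < Nat.card H → CtlT {W} p Q' :=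
    fun Q' _ _ hs hlt => hsmall Q' ((Sec.trans ⟨⊤, e.symm.toMonoidHom.comp (⊤ : Subgroup Q).subtype,
      fun z => ⟨⟨e z, trivial⟩, by simp⟩⟩ hs)) (Nat.card_congr e.toEquiv ▸ hlt)
  by_cases hn : (Cfsg.inducedFunctor (G := H) W (T : Subgroup H)).Normal
  · refine transfer_top T _ ?_
    rw [transD_single, Subgroup.normalizer_eq_top_iff.mpr hn]
  by_contra hcon
  obtain ⟨g, hgT, hgR, hg⟩ := hloc K' R' hcH T hn
  obtain ⟨-, -, -, h4⟩ := CfsgLib.TransferCritical.critical h𝓦 T (Set.singleton_nonempty W)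
    (fun M hM => hsec _ (Sec.subgroup M) (card_subgroup_lt hM))
    (fun N _ hN => hsec _ (Sec.quotient N) (card_quotient_lt hN)) hcon _ _ rfl rfl
  obtain ⟨U, V, hUV, hU, hbad⟩ := h4 g hgT hgR
  exact hbad (hg U V hUV hU)

end Cfsg.Agent.S1972
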