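import Cfsg.Statements.S1981
import Cfsg.Agent.Lib.KInf

set_option autoImplicit false
open Cfsg

namespace Cfsg.Agent.S1981

/-- Let P be a finite p-group generated by its abelian normal subgroups. Then both K-infinity subgroups of P equal P. -/
theorem result {P : Type*} [Group P] [Finite P] {p : ℕ} [Fact p.Prime] (hP : IsPGroup p P) (hgen : ⨆ A ∈ {A : Subgroup P | A.Normal ∧ IsMulCommutative ↥A}, A = ⊤) : Cfsg.kInfLower P = ⊤ ∧ Cfsg.kInfUpper P = ⊤ := by
  have heven : ∀ n, Cfsg.kSeqEven P n = ⊤ := fun n => top_le_iff.mp (hgen.ge.trans (iSup₂_le fun A hA =>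
    haveI := hA.1; le_sSup (CfsgLib.KInf.mem_lower_of_normal_abelian hA.2 _)))
  have hodd : ∀ n, Cfsg.kSeqOdd P n = ⊤ := by
    intro n
    cases n with
    | zero => rfl
    | succ n => exact top_le_iff.mp (hgen.ge.trans (iSup₂_le fun A hA =>
        haveI := hA.1; le_sSup (CfsgLib.KInf.mem_upper_of_normal_abelian hA.2 _)))
  constructor
  · exact top_le_iff.mp ((heven 0).ge.trans (le_iSup _ 0))
  · exact top_le_iff.mp (le_iInf fun n => (hodd n).ge)

end Cfsg.Agent.S1981
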