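import Cfsg.Statements.S1983
import Cfsg.Agent.Lib.KInfDegree

set_option autoImplicit false
universe u
open Cfsg

namespace Cfsg.Agent.S1983

/-- Let p be a prime, G a finite group with Sylow p-subgroup S and T = O_p(G). Suppose that the lower or the upper K-infinity subgroup of S is not normal in G. Then there is an element g of S outside T such that [X, g, g, g, g] ≤ Y for every chief factor X/Y of G with X ≤ T, and [Z(T), g, g] = 1; and if moreover C_G(T) ≤ T then some quotient group of G is not p-stable (in the normalizer form: some quadratically acting element of a normalizer fails to map into O_p of the automizer). -/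
theorem result {G : Type u} [Group G] [Finite G] {p : ℕ} [Fact p.Prime] (S : Sylow p G) (hK : ¬ (Cfsg.inducedFunctor Cfsg.kInfLower (S : Subgroup G)).Normal ∨ ¬ (Cfsg.inducedFunctor Cfsg.kInfUpper (S : Subgroup G)).Normal) : ∃ g : G, g ∈ (S : Subgroup G) ∧ g ∉ (Cfsg.pCore p G) ∧ (∀ U V : Subgroup G, Cfsg.IsChiefFactor U V → U ≤ (Cfsg.pCore p G) → Cfsg.iterCommutator U (Subgroup.zpowers g) 4 ≤ V) ∧ ⁅⁅((Cfsg.pCore p G) ⊓ Subgroup.centralizer (((Cfsg.pCore p G) : Subgroup G) : Set G)), (Subgroup.zpowers g)⁆, (Subgroup.zpowers g)⁆ = ⊥ ∧ (Subgroup.centralizer (((Cfsg.pCore p G) : Subgroup G) : Set G) ≤ (Cfsg.pCore p G) → ∃ (N : Subgroup G) (_ : N.Normal), ¬ Cfsg.IsNormalizerPStable p (G ⧸ N)) := by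
  obtain ⟨A, hAn, hAR, hA2, hA3, hA4⟩ := CfsgLib.KInfDegree.exists_critical (G := G) (p := p)
  haveI := hAn
  obtain ⟨g, hgS, hgR, h3, h2, halt⟩ := CfsgLib.KInfDegree.exists_element S A hAR hA2 hA3 hK
  obtain ⟨hdeg, hZ⟩ := CfsgLib.KInfDegree.low_degree_of hAR hA3 hA4 h3 h2
  refine ⟨g, hgS, hgR, hdeg, hZ, fun hc => ?_⟩
  obtain ⟨U, V, ⟨hVU, hUn, hVn, hmin⟩, hUA, hquad, hnt⟩ :=
    CfsgLib.ChiefKernel.exists_quadratic S hAR hA2 hA4 hc hgR h2 halt
  refine ⟨V, hVn, fun hst => hnt ?_⟩
  haveI := hUn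
  haveI := hVn
  set π := QuotientGroup.mk' V with hπ
  haveI : (U.map π).Normal := hUn.map π (QuotientGroup.mk'_surjective V)
  have hp : IsPGroup p ↥(U.map π) := ((CfsgLib.Core.isPGroup_pCore p).to_le (hUA.trans hAR)).map π
  have hker : π.ker = V := QuotientGroup.ker_mk' V
  have hmin' : ∀ N : Subgroup (G ⧸ V), N.Normal → N ≤ U.map π → N = ⊥ ∨ N = U.map π := fun N hN hle => by
    have hc1 : V ≤ N.comap π := hker.ge.trans (MonoidHom.ker_le_comap π N)
    have hc2 : N.comap π ≤ U := (Subgroup.comap_mono hle).trans (le_of_eq (by rw [Subgroup.comap_map_eq, hker, sup_eq_left.mpr hVU.le]))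
    rcases hmin _ (hN.comap π) hc1 hc2 with h | h
    · left
      rw [← Subgroup.map_comap_eq_self_of_surjective (QuotientGroup.mk'_surjective V) N, h, Subgroup.map_eq_bot_iff, hker]
    · right
      rw [← Subgroup.map_comap_eq_self_of_surjective (QuotientGroup.mk'_surjective V) N, h]
  have hq : ⁅⁅U.map π, Subgroup.zpowers (π g)⁆, Subgroup.zpowers (π g)⁆ = ⊥ := by
    rw [← MonoidHom.map_zpowers, ← Subgroup.map_commutator, ← Subgroup.map_commutator, Subgroup.map_eq_bot_iff, hker]
    exact hquad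
  have h := CfsgLib.KInfStable.centralizes_of_quad hst hp hmin' (b := π g) hq
  refine hker.le.trans' ?_
  rw [← Subgroup.map_eq_bot_iff, Subgroup.map_commutator, MonoidHom.map_zpowers, Subgroup.commutator_comm,
    Subgroup.commutator_eq_bot_iff_le_centralizer, Subgroup.zpowers_le]
  exact h

end Cfsg.Agent.S1983
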