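import Cfsg.Statements.S1988
import Cfsg.Agent.S1990
import Cfsg.Agent.Lib.KInfControl

set_option autoImplicit false
universe u
open Cfsg

namespace Cfsg.Agent.S1988

theorem npc_of_automizer {G : Type u} [Group G] [Finite G] {p : ℕ} [Fact p.Prime] (S : Sylow p G)
    (K : Subgroup G) (hKS : K ≤ (S : Subgroup G))
    (hSN : (S : Subgroup G) ≤ Subgroup.normalizer (K : Set G))
    (hC : (S : Subgroup G) ⊓ Subgroup.centralizer (K : Set G) ≤ K)
    (h : ∀ g ∈ Subgroup.normalizer (K : Set G), (orderOf g).Coprime p → g ∈ Subgroup.centralizer (K : Set G)) :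
    CfsgLib.ThompsonNPC.PCOn p (Subgroup.normalizer (K : Set G)) := by
  have hmem : ∀ x ∈ Subgroup.centralizer (K : Set G), (∃ k, x ^ p ^ k = 1) → x ∈ K := by
    rintro x hx ⟨k, hk⟩
    have hxN : x ∈ Subgroup.normalizer (K : Set G) := Subgroup.centralizer_le_normalizer _ hx
    obtain ⟨g, hg, hle⟩ := CfsgLib.Fusion.exists_conj_le S.2 (CfsgLib.SectionReduce.not_dvd_relIndex S hSN)
      (CfsgLib.LocalBasic.isPGroup_zpowers_of_pow_eq_one hk) (Subgroup.zpowers_le.mpr hxN)
    have hy : g * x * g⁻¹ ∈ (S : Subgroup G) := hle ⟨x, Subgroup.mem_zpowers x, rfl⟩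
    have hyC : g * x * g⁻¹ ∈ Subgroup.centralizer (K : Set G) := fun z hz => by
      have h1 := hx (g⁻¹ * z * g) (by
        have h2 := Subgroup.mem_normalizer_iff.mp (inv_mem hg) z
        rw [inv_inv] at h2
        exact h2.mp hz)
      calc z * (g * x * g⁻¹) = g * ((g⁻¹ * z * g) * x) * g⁻¹ := by group
        _ = g * (x * (g⁻¹ * z * g)) * g⁻¹ := by rw [h1]
        _ = g * x * g⁻¹ * z := by group
    exact (Subgroup.mem_normalizer_iff.mp hg x).mpr (hC (Subgroup.mem_inf.mpr ⟨hy, hyC⟩))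
  intro x hx y hy hxc hyc
  exact CfsgLib.CentralSylow.pcOn_of_pElements_le le_rfl hmem x (h x hx hxc) y (h y hy hyc) hxc hyc

/-- Let p be an odd prime, G a finite group with Sylow p-subgroup S and K the lower K-infinity subgroup of S. If N_G(K) has a normal p-complement, or if N_G(K)/C_G(K) is a p-group (every element of N_G(K) of order prime to p centralizes K), then G has a normal p-complement. -/
theorem result {G : Type u} [Group G] [Finite G] {p : ℕ} [Fact p.Prime] (hp : p ≠ 2) (S : Sylow p G) (h : Cfsg.HasNormalPComplement p ↥(Subgroup.normalizer ((Cfsg.inducedFunctor Cfsg.kInfLower (S : Subgroup G) : Subgroup G) : Set G)) ∨ ∀ g ∈ Subgroup.normalizer ((Cfsg.inducedFunctor Cfsg.kInfLower (S : Subgroup G) : Subgroup G) : Set G), (orderOf g).Coprime p → g ∈ Subgroup.centralizer ((Cfsg.inducedFunctor Cfsg.kInfLower (S : Subgroup G) : Subgroup G) : Set G)) : Cfsg.HasNormalPComplement p G := by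
  refine Cfsg.Agent.S1990.result hp Cfsg.kInfLower CfsgLib.KInfStable.charP_lower S ?_
    (fun K R _ hst T => CfsgLib.KInfStable.lower_controls (CfsgLib.KInfStable.stable_sec hst) _
      CfsgLib.SectionReduce.Sec.refl T)
  rcases h with h | h
  · exact h
  rw [CfsgLib.ThompsonNPC.hasNPC_subgroup_iff]
  have hW := CfsgLib.SectionReduce.iF_conjugacy (G := G) (CfsgLib.KInfStable.charP_lower (p := p))
  refine npc_of_automizer S _ (hW _ S.2).1
    (Subgroup.le_normalizer.trans (CfsgLib.SectionReduce.normalizer_le_functor hW S.2)) ?_ h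
  intro x hx
  obtain ⟨hxS, hxC⟩ := Subgroup.mem_inf.mp hx
  exact ⟨⟨x, hxS⟩, (Cfsg.Agent.S1978.result S.2).1 (fun z hz => Subtype.ext (hxC z ⟨z, hz, rfl⟩)), rfl⟩

end Cfsg.Agent.S1988
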