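import Cfsg.Statements.S1992
import Cfsg.Agent.S1991
import Cfsg.Agent.S1971
import Cfsg.Agent.S0144
import Mathlib

set_option autoImplicit false
open Cfsg

namespace Cfsg.Agent.S1992
open scoped commutatorElement

theorem of_index {G : Type*} [Group G] [Finite G]
    (h : ∀ q : ℕ, q.Prime → q ∣ Nat.card G → ∀ Q : Sylow q G, Subgroup.normalizer ((Q : Subgroup G) : Set G) = Q)
    {q : ℕ} (hq : q.Prime) {N : Subgroup G} [N.Normal] (hN : N.index = q) :
    ∃ q : ℕ, q.Prime ∧ IsPGroup q G := by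
  refine ⟨q, hq, IsPGroup.of_card (n := (Nat.card G).primeFactorsList.length)
    (Nat.eq_prime_pow_of_unique_prime_dvd Nat.card_pos.ne' fun {r} hr hd => ?_)⟩
  by_contra hne
  haveI : Fact r.Prime := ⟨hr⟩
  let R : Sylow r G := default
  have hRN : (R : Subgroup G) ≤ N := by
    intro x hx
    obtain ⟨k, hk⟩ := R.2 ⟨x, hx⟩
    have hk' : x ^ r ^ k = 1 := by simpa using congrArg Subtype.val hk
    have h1 : orderOf (QuotientGroup.mk' N x) ∣ r ^ k :=
      orderOf_dvd_of_pow_eq_one (by rw [← map_pow, hk', map_one])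
    have h2 : orderOf (QuotientGroup.mk' N x) ∣ q := by rw [← hN, Subgroup.index_eq_card]; exact orderOf_dvd_natCard _
    have hc : (r ^ k).Coprime q := Nat.Coprime.pow_left k ((Nat.coprime_primes hr hq).mpr hne)
    exact (QuotientGroup.eq_one_iff x).mp (orderOf_eq_one_iff.mp (Nat.eq_one_of_dvd_coprimes hc h1 h2))
  have h1 := Sylow.normalizer_sup_eq_top' R hRN
  rw [show Subgroup.normalizer (R : Set G) = (R : Subgroup G) from h r hr hd R, sup_of_le_right hRN] at h1
  exact hq.ne_one (by rw [← hN, h1, Subgroup.index_top])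

theorem exists_prime_pow_not_mem {G : Type*} [Group G] [Finite G] (hne : commutator G ≠ ⊤) :
    ∃ (q : ℕ) (_ : Fact q.Prime) (s : G) (k : ℕ), s ^ q ^ k = 1 ∧ s ∉ commutator G := by
  obtain ⟨y, -, hy⟩ := SetLike.exists_of_lt (lt_top_iff_ne_top.mpr hne)
  set f := Abelianization.of (G := G)
  have hy' : orderOf (f y) ≠ 1 := fun e => hy ((Abelianization.ker_of (G := G)).le (MonoidHom.mem_ker.mpr (orderOf_eq_one_iff.mp e)))
  obtain ⟨q, hq, hqd⟩ := Nat.exists_prime_and_dvd hy'
  haveI : Fact q.Prime := ⟨hq⟩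
  obtain ⟨a, b, ha, hb, hab, ⟨k, hk⟩, hbc⟩ := CfsgLib.ThompsonNPC.exists_mul_parts q y
  refine ⟨q, ⟨hq⟩, a, k, hk, fun hac => ?_⟩
  have e : f y = f b := by
    rw [← hab, map_mul, show f a = 1 from (Abelianization.ker_of (G := G)).ge hac, one_mul]
  have h1 : q ∣ orderOf b := hqd.trans (e ▸ orderOf_map_dvd f b)
  exact hq.ne_one (Nat.eq_one_of_dvd_coprimes hbc h1 dvd_rfl)

theorem two_three {n : ℕ} (hn : n ≠ 0) (h : ∀ p : ℕ, p.Prime → p ∣ n → p < 5) : ∃ a b : ℕ, n = 2 ^ a * 3 ^ b := by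
  refine ⟨n.factorization 2, n.factorization 3, ?_⟩
  have hsub : n.primeFactors ⊆ {2, 3} := by
    intro p hp
    obtain ⟨hp1, hp2, -⟩ := Nat.mem_primeFactors.mp hp
    have := h p hp1 hp2
    have := hp1.two_le
    interval_cases p <;> first | decide | exact absurd hp1 (by norm_num)
  have e := Nat.prod_factorization_pow_eq_self hn
  rw [Finsupp.prod_of_support_subset n.factorization (s := {2, 3}) (by rwa [Nat.support_factorization]) _ (fun i _ => pow_zero i), Finset.prod_pair (by norm_num)] at e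
  exact e.symm

/-- Let G be a finite group in which, for every prime q dividing the order of G, every Sylow q-subgroup is its own normalizer. Then the order of G is a power of a single prime (G is a q-group for some prime q; for G trivial any prime works). -/
theorem result {G : Type*} [Group G] [Finite G] (h : ∀ q : ℕ, q.Prime → q ∣ Nat.card G → ∀ Q : Sylow q G, Subgroup.normalizer ((Q : Subgroup G) : Set G) = Q) : ∃ q : ℕ, q.Prime ∧ IsPGroup q G := by
  rcases subsingleton_or_nontrivial G with hs | hnt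
  · exact ⟨2, Nat.prime_two, fun g => ⟨0, Subsingleton.elim _ _⟩⟩
  by_cases hbig : ∃ p : ℕ, p.Prime ∧ 5 ≤ p ∧ p ∣ Nat.card G
  · obtain ⟨p, hp, hp5, hpd⟩ := hbig
    haveI : Fact p.Prime := ⟨hp⟩
    let S : Sylow p G := default
    obtain ⟨N, hNn, hNi⟩ := Cfsg.Agent.S1991.result hp5 S (S.ne_bot_of_dvd_card hpd) (fun g hg hgc => by
      rw [h p hp hpd S] at hg
      obtain ⟨k, hk⟩ := S.2 ⟨g, hg⟩
      have hk' : g ^ p ^ k = 1 := by simpa using congrArg Subtype.val hk
      rw [orderOf_eq_one_iff.mp (Nat.eq_one_of_dvd_coprimes (hgc.pow_right k) dvd_rfl (orderOf_dvd_of_pow_eq_one hk'))]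
      exact one_mem _)
    exact of_index h hp hNi
  push Not at hbig
  obtain ⟨a, b, hab⟩ := two_three (Nat.card_pos (α := G)).ne' fun p hp hd => by
    by_contra h5
    exact hbig p hp (not_lt.mp h5) hd
  haveI := Cfsg.Agent.S0144.result (G := G) 2 3 a b Nat.prime_two Nat.prime_three hab
  obtain ⟨q, hq, s, k, hk, hs⟩ := exists_prime_pow_not_mem (Group.IsSolvable.commutator_lt_top_of_nontrivial G).ne
  obtain ⟨N, hNn, hNi⟩ := Cfsg.Agent.S1971.index_of_not_mem hk hs
  exact of_index h hq.out hNi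

end Cfsg.Agent.S1992
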