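import Cfsg.Statements.S2004
import Cfsg.Agent.Lib.Dickson.Section

set_option autoImplicit false
open Cfsg

namespace Cfsg.Agent.S2004

theorem slFree_local {G : Type*} [Group G] [Finite G] {p : ℕ} [Fact p.Prime]
    (h : ∀ P : Subgroup G, IsPGroup p ↥P → P ≠ ⊥ →
      ¬ Cfsg.Involves (Matrix.SpecialLinearGroup (Fin 2) (ZMod p)) ↥(Subgroup.normalizer ((P : Subgroup G) : Set G)))
    (K R : Subgroup G) [hR : (R.subgroupOf K).Normal] (P : Subgroup (↥K ⧸ R.subgroupOf K)) (hP : IsPGroup p P)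
    (hP1 : P ≠ ⊥) : CfsgLib.Dickson.SLFree p ↥(Subgroup.normalizer (P : Set (↥K ⧸ R.subgroupOf K))) := by
  set π := QuotientGroup.mk' (R.subgroupOf K) with hπ
  have hπs : Function.Surjective π := QuotientGroup.mk'_surjective _
  set N := Subgroup.normalizer (P : Set (↥K ⧸ R.subgroupOf K))
  -- Frattini: a Sylow subgroup of the preimage of `P` has a normalizer covering `N`
  set M := N.comap π
  let M₀ : Subgroup ↥M := (P.comap π).subgroupOf M
  haveI : M₀.Normal := by
    refine (Subgroup.normal_subgroupOf_iff_le_normalizer (Subgroup.comap_mono Subgroup.le_normalizer)).mpr ?_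
    intro x hx
    refine Subgroup.mem_normalizer_iff.mpr fun y => ?_
    rw [Subgroup.mem_comap, Subgroup.mem_comap, map_mul, map_mul, map_inv]
    exact Subgroup.mem_normalizer_iff.mp hx (π y)
  obtain ⟨T⟩ : Nonempty (Sylow p ↥M₀) := inferInstance
  have hfr := Sylow.normalizer_sup_eq_top T
  set T₁ : Subgroup G := (((T : Subgroup ↥M₀).map M₀.subtype).map M.subtype).map K.subtype with hT₁
  have hT₁p : IsPGroup p ↥T₁ := ((T.2.map _).map _).map _
  let f : ↥M →* ↥N := (π.comp M.subtype).codRestrict N fun m => m.2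
  have hfM₀ : M₀.map f = P.subgroupOf N := by
    ext ⟨y, hy⟩
    constructor
    · rintro ⟨m, hm, hmy⟩
      have h' : π (m : ↥K) = y := congrArg Subtype.val hmy
      exact Subgroup.mem_subgroupOf.mpr (h' ▸ hm)
    · intro hyP
      obtain ⟨m, hm⟩ := hπs y
      exact ⟨⟨m, by show π m ∈ N; rw [hm]; exact hy⟩, (show π m ∈ P by rw [hm]; exact hyP), Subtype.ext hm⟩
  have hTP : ((T : Subgroup ↥M₀).map M₀.subtype).map f = P.subgroupOf N := by
    refine le_antisymm (hfM₀ ▸ Subgroup.map_mono (Subgroup.map_subtype_le _)) ?_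
    have hs : Function.Surjective (f.subgroupMap M₀) := f.subgroupMap_surjective M₀
    have htop : (T : Subgroup ↥M₀).map (f.subgroupMap M₀) = ⊤ := by
      have hpg : IsPGroup p ↥(M₀.map f) := by
        rw [hfM₀]
        exact hP.of_injective ((Subgroup.subgroupOfEquivOfLe (Subgroup.le_normalizer : P ≤ N)).toMonoidHom)
          (Subgroup.subgroupOfEquivOfLe (Subgroup.le_normalizer : P ≤ N)).injective
      exact (((T.mapSurjective hs).is_maximal' (hpg.to_subgroup ⊤) le_top).symm).trans rfl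
    intro y hy
    rw [← hfM₀] at hy
    obtain ⟨t, ht, hty⟩ := htop.ge (Subgroup.mem_top (⟨y, hy⟩ : ↥(M₀.map f)))
    exact ⟨t, ⟨t, ht, rfl⟩, congrArg Subtype.val hty⟩
  have hT₁ne : T₁ ≠ ⊥ := by
    intro h0
    refine hP1 ((Subgroup.eq_bot_iff_forall _).mpr fun y hy => ?_)
    obtain ⟨m, hm, hmy⟩ := hTP.ge (show (⟨y, Subgroup.le_normalizer hy⟩ : ↥N) ∈ P.subgroupOf N from hy)
    have hm1 : ((m : ↥K) : G) ∈ T₁ := ⟨_, ⟨m, hm, rfl⟩, rfl⟩
    rw [h0, Subgroup.mem_bot] at hm1
    have hy' : π (m : ↥K) = y := congrArg Subtype.val hmy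
    rw [← hy', show (m : ↥K) = 1 from Subtype.ext hm1, map_one]
  -- the normalizer of `T₁` covers `N`
  let U : Subgroup ↥M := Subgroup.normalizer (((T : Subgroup ↥M₀).map M₀.subtype : Subgroup ↥M) : Set ↥M)
  have hcov : ∀ y : ↥N, ∃ u : ↥M, u ∈ U ∧ f u = y := by
    intro y
    obtain ⟨m, hm⟩ := hπs (y : ↥K ⧸ R.subgroupOf K)
    have hmM : m ∈ M := by show π m ∈ N; rw [hm]; exact y.2
    obtain ⟨u, hu, t, ht, htu⟩ := Subgroup.mem_sup_of_normal_right.mp (hfr.ge (Subgroup.mem_top (⟨m, hmM⟩ : ↥M)))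
    obtain ⟨s, hs, hst⟩ := hTP.ge (show f t ∈ P.subgroupOf N from hfM₀.le ⟨t, ht, rfl⟩)
    refine ⟨u * s, mul_mem hu (Subgroup.le_normalizer hs), ?_⟩
    rw [map_mul, hst, ← map_mul, htu]
    exact Subtype.ext hm
  intro A φ hφ
  have hUT : ∀ u : ↥U, (((u : ↥M) : ↥K) : G) ∈ Subgroup.normalizer (T₁ : Set G) := fun u =>
    Subgroup.le_normalizer_map K.subtype ⟨_, Subgroup.le_normalizer_map M.subtype ⟨u, u.2, rfl⟩, rfl⟩
  let ι : ↥U →* ↥(Subgroup.normalizer (T₁ : Set G)) :=
    { toFun := fun u => ⟨_, hUT u⟩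
      map_one' := rfl
      map_mul' := fun _ _ => rfl }
  have hι : Function.Injective ι := fun a b hab => by
    apply Subtype.ext
    apply Subtype.ext
    apply Subtype.ext
    have h' : ((a : ↥M) : ↥K).1 = ((b : ↥M) : ↥K).1 :=
      congrArg (fun z : ↥(Subgroup.normalizer (T₁ : Set G)) => (z : G)) hab
    first | exact h' | exact Subtype.ext h' | (simp only [Subtype.ext_iff]; exact h')
  set L := A.comap (f.comp U.subtype)
  let e := L.equivMapOfInjective ι hι
  let g' : ↥L →* ↥A := ((f.comp U.subtype).comp L.subtype).codRestrict A fun z => z.2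
  have hg' : Function.Surjective g' := fun y => by
    obtain ⟨u, hu, huy⟩ := hcov (y : ↥N)
    refine ⟨⟨⟨u, hu⟩, ?_⟩, Subtype.ext huy⟩
    show f u ∈ A
    rw [huy]; exact y.2
  obtain ⟨R', hR', e'⟩ := CfsgLib.Dickson.section_of_surjective (L.map ι) ((φ.comp g').comp e.symm.toMonoidHom)
    ((hφ.comp hg').comp e.symm.surjective)
  exact h T₁ hT₁p hT₁ne ⟨L.map ι, R', hR', e'⟩

/-- Let p be an odd prime and G a finite group such that SL₂(p) is not involved in N_G(P) for any nonidentity p-subgroup P of G. Then every section of G is p-stable in the normalizer form: in each section, whenever an element of the normalizer of a p-subgroup Q acts quadratically on Q, its image in N(Q)/C(Q) lies in O_p(N(Q)/C(Q)). -/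
theorem result {G : Type*} [Group G] [Finite G] {p : ℕ} [Fact p.Prime] (hp : p ≠ 2) (h : ∀ P : Subgroup G, IsPGroup p ↥P → P ≠ ⊥ → ¬ Cfsg.Involves (Matrix.SpecialLinearGroup (Fin 2) (ZMod p)) ↥(Subgroup.normalizer ((P : Subgroup G) : Set G))) : ∀ (K R : Subgroup G) [hR : (R.subgroupOf K).Normal], Cfsg.IsNormalizerPStable p (↥K ⧸ R.subgroupOf K) := by
  intro K R hR P hP g hg hq
  rcases eq_or_ne P ⊥ with rfl | hP1
  · have h1 : (QuotientGroup.mk (s := (Subgroup.centralizer ((⊥ : Subgroup (↥K ⧸ R.subgroupOf K)) : Set (↥K ⧸ R.subgroupOf K))).subgroupOf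
        (Subgroup.normalizer ((⊥ : Subgroup (↥K ⧸ R.subgroupOf K)) : Set (↥K ⧸ R.subgroupOf K)))) ⟨g, hg⟩) = 1 := by
      rw [QuotientGroup.eq_one_iff, Subgroup.mem_subgroupOf]
      refine Subgroup.mem_centralizer_iff.mpr fun v hv => ?_
      rw [Subgroup.mem_bot.mp hv, one_mul, mul_one]
    rw [h1]; exact one_mem _
  · exact CfsgLib.Dickson.normalizer_mem_pCore hP hg (CfsgLib.Dickson.stable_of_slFree hp (slFree_local h K R P hP hP1))
      (CfsgLib.Dickson.quad_elements hq)

end Cfsg.Agent.S2004
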