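import Cfsg.Statements.S2007
import Cfsg.Agent.Lib.LocalBasic
import Cfsg.Agent.Lib.Thompson.PClosed
import Mathlib.GroupTheory.Transfer

set_option autoImplicit false
open Cfsg

namespace Cfsg.Agent.S2007
open CfsgLib.LocalBasic CfsgLib.ThompsonNPC

/-- Let p be a prime, G a finite group with Sylow p-subgroup S, and T a normal subgroup of S containing C_S(T). If N_G(T)/C_G(T) is a p-group (every element of N_G(T) of order prime to p centralizes T), then N_G(T) has a normal p-complement. -/
theorem result {G : Type*} [Group G] [Finite G] {p : ℕ} [Fact p.Prime] (S : Sylow p G) (T : Subgroup G) (hTS : T ≤ (S : Subgroup G)) (hTn : (S : Subgroup G) ≤ Subgroup.normalizer ((T : Subgroup G) : Set G)) (hC : (S : Subgroup G) ⊓ Subgroup.centralizer ((T : Subgroup G) : Set G) ≤ T) (hN : ∀ g ∈ Subgroup.normalizer ((T : Subgroup G) : Set G), (orderOf g).Coprime p → g ∈ Subgroup.centralizer ((T : Subgroup G) : Set G)) : Cfsg.HasNormalPComplement p ↥(Subgroup.normalizer ((T : Subgroup G) : Set G)) :=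 by
  set N := Subgroup.normalizer ((T : Subgroup G) : Set G) with hNdef
  set C := Subgroup.centralizer ((T : Subgroup G) : Set G) with hCdef
  have hCN : C ≤ N := fun c hc => mem_normalizer_of_conj_map_eq (by
    ext y
    have hcy : ∀ y ∈ T, c * y * c⁻¹ = y := fun y hy => by rw [← hc y hy, mul_inv_cancel_right]
    exact ⟨fun ⟨z, hz, hzy⟩ => by rw [← hzy]; simpa [hcy z hz] using hz, fun hy => ⟨y, hy, hcy y hy⟩⟩)
  have hCn : N ≤ Subgroup.normalizer (C : Set G) := normalizer_centralizer_ge le_rfl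
  -- every p-subgroup of C lies in T
  have hpT : ∀ R : Subgroup G, R ≤ C → IsPGroup p ↥R → R ≤ T := by
    intro R hRC hR x hx
    obtain ⟨m, hm, hmR⟩ := exists_conj_le_sylow S hTn hR (hRC.trans hCN)
    have h1 : m * x * m⁻¹ ∈ T :=
      hC ⟨hmR x hx, (Subgroup.mem_normalizer_iff.mp (hCn hm) x).mp (hRC hx)⟩
    exact (Subgroup.mem_normalizer_iff.mp hm x).mpr h1
  have hPC : PCOn p C := by
    rw [← hasNPC_subgroup_iff]
    obtain ⟨R⟩ := (inferInstance : Nonempty (Sylow p ↥C))
    refine ⟨R, _, inferInstance, MonoidHom.ker_transferSylow_isComplement' R fun n _ => ?_⟩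
    intro u hu
    have h1 : (u : G) ∈ T := hpT _ (Subgroup.map_subtype_le _) (R.2.map C.subtype) ⟨u, hu, rfl⟩
    exact Subtype.ext (n.2 u h1)
  rw [hasNPC_subgroup_iff]
  intro x hx y hy h1 h2
  exact hPC x (hN x hx h1) y (hN y hy h2) h1 h2

end Cfsg.Agent.S2007
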