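import Cfsg.Statements.S2009

set_option autoImplicit false
open Cfsg

namespace Cfsg.Agent.S2009
theorem eq_bot {H : Type*} [Group H] [Finite H] (z : H)
    (hN : ∀ N : Subgroup H, N.Normal → N ≠ ⊤ → N ⊓ Subgroup.centralizer ({z} : Set H) = ⊥)
    (E : Subgroup H) (hE : IsKleinFour ↥E) (hzE : z ∈ E) (hz1 : z ≠ 1)
    (hc : ∀ e ∈ E, e ≠ 1 → IsConj z e) (N : Subgroup H) [hn : N.Normal] (hNt : N ≠ ⊤) : N = ⊥ := by
  have hfpf : ∀ e ∈ E, e ≠ 1 → ∀ n ∈ N, e * n = n * e → n = 1 := by
    intro e he he1 n hn' hcomm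
    obtain ⟨g, hg⟩ := isConj_iff.mp (hc e he he1)
    have hmem : g⁻¹ * n * g ∈ N ⊓ Subgroup.centralizer ({z} : Set H) := by
      refine ⟨by simpa using hn.conj_mem n hn' g⁻¹, Subgroup.mem_centralizer_singleton_iff.mpr ?_⟩
      have hz' : z = g⁻¹ * e * g := by rw [← hg]; group
      rw [hz']
      calc g⁻¹ * n * g * (g⁻¹ * e * g) = g⁻¹ * (n * e) * g := by group
        _ = g⁻¹ * (e * n) * g := by rw [hcomm]
        _ = g⁻¹ * e * g * (g⁻¹ * n * g) := by group
    rw [hN N hn hNt, Subgroup.mem_bot] at hmem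
    calc n = g * (g⁻¹ * n * g) * g⁻¹ := by group
      _ = 1 := by rw [hmem]; group
  have hinvert : ∀ e ∈ E, e ≠ 1 → ∀ n ∈ N, e * n * e⁻¹ = n⁻¹ := by
    intro e he he1 n hn'
    have he2 : e⁻¹ = e := by
      have : (⟨e, he⟩ : E) * ⟨e, he⟩ = 1 := IsKleinFour.mul_self _
      exact inv_eq_of_mul_eq_one_right (congrArg Subtype.val this)
    let φ : N → N := fun x => ⟨(x : H)⁻¹ * (e * (x : H) * e⁻¹), N.mul_mem (N.inv_mem x.2) (hn.conj_mem _ x.2 e)⟩
    have hinj : Function.Injective φ := by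
      intro x y hxy
      have h : (x : H)⁻¹ * (e * x * e⁻¹) = (y : H)⁻¹ * (e * y * e⁻¹) := congrArg Subtype.val hxy
      have hk : e * ((y : H) * (x : H)⁻¹) = ((y : H) * (x : H)⁻¹) * e := by
        calc e * ((y : H) * (x : H)⁻¹) = (y : H) * ((y : H)⁻¹ * (e * y * e⁻¹)) * (e * (x : H)⁻¹) := by group
          _ = (y : H) * ((x : H)⁻¹ * (e * x * e⁻¹)) * (e * (x : H)⁻¹) := by rw [h]
          _ = ((y : H) * (x : H)⁻¹) * e := by group
      have := hfpf e he he1 _ (N.mul_mem y.2 (N.inv_mem x.2)) hk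
      exact (Subtype.ext (mul_inv_eq_one.mp this)).symm
    obtain ⟨x, hx⟩ := (Finite.injective_iff_surjective.mp hinj) ⟨n, hn'⟩
    have hx' : (x : H)⁻¹ * (e * x * e⁻¹) = n := congrArg Subtype.val hx
    rw [← hx', he2]
    have hee : e * e = 1 := by
      calc e * e = e * e⁻¹ := by rw [he2]
        _ = 1 := mul_inv_cancel e
    calc e * ((x : H)⁻¹ * (e * x * e)) * e = e * (x : H)⁻¹ * e * x * (e * e) := by group
      _ = e * (x : H)⁻¹ * e * x := by rw [hee, mul_one]
      _ = ((x : H)⁻¹ * (e * x * e))⁻¹ := by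
        simp only [mul_inv_rev, inv_inv, he2]; group
  obtain ⟨e, he, he1, hez⟩ : ∃ e ∈ E, e ≠ 1 ∧ e ≠ z := by
    by_contra hcon
    simp only [not_exists, not_and, not_not] at hcon
    have : ∀ e : E, e = 1 ∨ e = ⟨z, hzE⟩ := by
      rintro ⟨e, he⟩
      by_cases h : e = 1
      · left; exact Subtype.ext h
      · right; exact Subtype.ext (hcon e he h)
    have hle : Nat.card E ≤ 2 := by
      have hs : Function.Surjective (fun b : Bool => if b then (1 : E) else ⟨z, hzE⟩) := by
        intro e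
        rcases this e with h | h
        · exact ⟨true, by simp [h]⟩
        · exact ⟨false, by simp [h]⟩
      have := Nat.card_le_card_of_surjective _ hs
      simpa using this
    rw [IsKleinFour.card_four] at hle
    omega
  rw [eq_bot_iff]
  intro n hn'
  have h1 := hinvert z hzE hz1 n hn'
  have h2 := hinvert e he he1 n hn'
  have hne : e * z ≠ 1 := by
    intro h
    apply hez
    have : (⟨z, hzE⟩ : E) * ⟨z, hzE⟩ = 1 := IsKleinFour.mul_self _
    have hzz : z * z = 1 := congrArg Subtype.val this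
    exact mul_right_cancel (h.trans hzz.symm)
  have h3 := hinvert (e * z) (E.mul_mem he hzE) hne n hn'
  have h4 : (e * z) * n * (e * z)⁻¹ = n := by
    calc (e * z) * n * (e * z)⁻¹ = e * (z * n * z⁻¹) * e⁻¹ := by group
      _ = (e * n * e⁻¹)⁻¹ := by rw [h1]; group
      _ = n := by rw [h2, inv_inv]
  rw [Subgroup.mem_bot]
  refine hfpf z hzE hz1 n hn' ?_
  have : n⁻¹ = n := h3.symm.trans h4
  rw [this] at h1
  calc z * n = z * n * z⁻¹ * z := by group
    _ = n * z := by rw [h1]


/-- Let H be a finite group and z an involution such that every proper normal subgroup of H meets the centralizer of z trivially, and suppose z lies in a Klein four-subgroup E of H all three of whose involutions are conjugate to z in H. Then H is simple. -/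
theorem result {H : Type*} [Group H] [Finite H] (z : H) (hz : orderOf z = 2) (hN : ∀ N : Subgroup H, N.Normal → N ≠ ⊤ → N ⊓ Subgroup.centralizer ({z} : Set H) = ⊥) (E : Subgroup H) (hE : IsKleinFour ↥E) (hzE : z ∈ E) (hc : ∀ e ∈ E, e ≠ 1 → IsConj z e) : IsSimpleGroup H := by
  have hz1 : z ≠ 1 := fun h => by simp [h] at hz
  have : Nontrivial H := ⟨⟨z, 1, hz1⟩⟩
  exact ⟨fun N hn => by
    by_cases h : N = ⊤
    · exact Or.inr h
    · exact Or.inl (eq_bot z hN E hE hzE hz1 hc N h)⟩

end Cfsg.Agent.S2009
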