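import Cfsg.Statements.S2008
import Cfsg.Agent.S2009

set_option autoImplicit false
open Cfsg

namespace Cfsg.Agent.S2008

/-- Let H be a finite group and z an involution such that every proper normal subgroup of H meets the centralizer of z trivially, and suppose z lies in a Klein four-subgroup E of H all three of whose involutions are conjugate to z in H. Then H has no non-trivial abelian normal subgroup. -/
theorem result {H : Type*} [Group H] [Finite H] (z : H) (hz : orderOf z = 2) (hN : ∀ N : Subgroup H, N.Normal → N ≠ ⊤ → N ⊓ Subgroup.centralizer ({z} : Set H) = ⊥) (E : Subgroup H) (hE : IsKleinFour ↥E) (hzE : z ∈ E) (hc : ∀ e ∈ E, e ≠ 1 → IsConj z e) (N : Subgroup H) [N.Normal] (hab : IsMulCommutative ↥N) : N = ⊥ := by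
  have hz1 : z ≠ 1 := fun h => by simp [h] at hz
  by_cases hNt : N = ⊤
  · exfalso
    have hEz : ∀ e ∈ E, e = 1 ∨ e = z := by
      intro e he
      by_cases h : e = 1
      · exact Or.inl h
      · obtain ⟨g, hg⟩ := isConj_iff.mp (hc e he h)
        right
        have hgN : g ∈ N := hNt ▸ Subgroup.mem_top g
        have hzN : z ∈ N := hNt ▸ Subgroup.mem_top z
        have hcomm : g * z = z * g := congrArg Subtype.val (mul_comm' (⟨g, hgN⟩ : N) ⟨z, hzN⟩)
        rw [← hg, hcomm, mul_inv_cancel_right]
    have hs : Function.Surjective (fun b : Bool => if b then (1 : E) else ⟨z, hzE⟩) := by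
      rintro ⟨e, he⟩
      rcases hEz e he with h | h
      · exact ⟨true, Subtype.ext (by simp [h])⟩
      · exact ⟨false, by simp [h]⟩
    have := Nat.card_le_card_of_surjective _ hs
    rw [IsKleinFour.card_four] at this
    simp at this
  · exact Cfsg.Agent.S2009.eq_bot z hN E hE hzE hz1 hc N hNt

end Cfsg.Agent.S2008
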