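import Cfsg.Statements.S2100
import Cfsg.Agent.Lib.Chev.Univ.Trivial
open CfsgLib.Chev CfsgLib.Chev.Checks

set_option autoImplicit false
open Cfsg

namespace Cfsg.Agent.S2100

/-- Schur multipliers of the Chevalley groups of type G₂: over a field with q ≥ 5 elements the Schur multiplier of G₂(q) is trivial (here the Schur multiplier is described through stem extensions, as in the definitions); the cases q = 3 and q = 4 are exceptional and q = 2 gives a non-simple group. -/
theorem result {F : Type*} [Field F] [Fintype F] (hF : 5 ≤ Fintype.card F) : Cfsg.HasCyclicSchurMultiplier ↥(Cfsg.Lie.chevG2.group F) 1 := by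
  have hd : Cfsg.Lie.chevG2 ∈ dataList := by simp [dataList]
  have hs : ∃ s : Finset F, 4 < s.card := ⟨Finset.univ, by rw [Finset.card_univ]; omega⟩
  obtain ⟨-, a, a0, a1, -⟩ := Univ.field_facts hs
  refine Univ.multiplier_trivial hd Abstract.torus_injective_G2 (Univ.cover_perfect ⟨a, a0, a1⟩ hd) ?_
    (fun Γ _ π h1 h2 => Univ.splits hd hs π h1 h2)
  intro i hi
  replace hi : i < 2 := hi
  interval_cases i <;>
    first
      | exact ⟨[-1, -2], by decide +kernel⟩
      | exact ⟨[-2, -1], by decide +kernel⟩
      | exact ⟨[1, 1], by decide +kernel⟩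
      | exact ⟨[0, 1], by decide +kernel⟩
      | exact ⟨[1, 0], by decide +kernel⟩

end Cfsg.Agent.S2100
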