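import Cfsg.Statements.S2103
import Cfsg.Agent.Lib.Chev.Univ.Trivial
open CfsgLib.Chev CfsgLib.Chev.Checks

set_option autoImplicit false
open Cfsg

namespace Cfsg.Agent.S2103

/-- Schur multipliers of the Chevalley groups of type F₄: over a finite field with more than 2 elements the Schur multiplier of F₄(q) is trivial (here the Schur multiplier is described through stem extensions, as in the definitions); q = 2 is exceptional. -/
theorem result {F : Type*} [Field F] [Fintype F] (hF : 3 ≤ Fintype.card F) : Cfsg.HasCyclicSchurMultiplier ↥(Cfsg.Lie.chevF4.group F) 1 := by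
  classical
  have hd : Cfsg.Lie.chevF4 ∈ dataList := by simp [dataList]
  let S := Abstract.sys hd (R := Cfsg.Lie.chevF4.steinbergRelsAB F) subset_rfl
    (Abstract.canon hd Abstract.relsAB_subset) fun _ hr t => Abstract.canon_X hd _ hr t
  refine Univ.multiplier_trivial hd Abstract.torus_injective_F4
    (S.perfect_big (Abstract.sys_gen _ _ _ _) (by simp)) ?_ ?_
  · intro i hi
    replace hi : i < 4 := hi
    interval_cases i <;>
      first
        | exact ⟨[1, 0, 0, 0], by decide +kernel⟩
        | exact ⟨[0, 1, 0, 0], by decide +kernel⟩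
        | exact ⟨[0, 0, 1, 0], by decide +kernel⟩
        | exact ⟨[0, 0, 0, 1], by decide +kernel⟩
  intro Γ _ π h1 h2
  by_cases h5 : 5 ≤ Fintype.card F
  · exact Univ.splits hd ⟨Finset.univ, by rw [Finset.card_univ]; omega⟩ π h1 h2
  have hpow : ∀ (e : ℤ) (n : ℕ), Fintype.card F = n + 1 → (n : ℤ) ∣ e → ∀ k : Fˣ, k ^ e = 1 := by
    rintro e n hn ⟨c, rfl⟩ k
    rw [zpow_mul, zpow_natCast, show n = Fintype.card Fˣ by rw [Fintype.card_units]; omega, pow_card_eq_one, one_zpow]
  have hgen : ∀ (e : ℤ) (n : ℕ), Fintype.card F = n + 1 → ¬(n : ℤ) ∣ e → ∃ k : Fˣ, k ^ e ≠ 1 := by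
    intro e n hn he
    obtain ⟨v, hv⟩ := IsCyclic.exists_ofOrder_eq_natCard (α := Fˣ)
    refine ⟨v, fun h => he ?_⟩
    have := orderOf_dvd_iff_zpow_eq_one.2 h
    rwa [hv, Nat.card_eq_fintype_card, Fintype.card_units, hn, Nat.add_sub_cancel] at this
  rcases (show Fintype.card F = 3 ∨ Fintype.card F = 4 by omega) with h | h
  · refine Univ.TorusLift.exists_lift hd π h1.ge h2 Univ.TorusLift.modeThree ?_ Univ.TorusLift.tcF4
      (fun r hr => List.all_eq_true.1 Univ.TorusLift.tcF4_three r (List.mem_range.2 hr)) Univ.TorusLift.tcF4_ws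
    refine ⟨fun e he => hpow e 2 h ?_, fun e he => hgen e 2 h ?_, fun h' => ?_, fun h' => ?_, fun _ h2' => ?_⟩
    · simp [Univ.TorusLift.modeThree] at he; omega
    · simp [Univ.TorusLift.modeThree] at he; omega
    · simp [Univ.TorusLift.modeThree] at h'
    · simp [Univ.TorusLift.modeThree] at h'
    · have := (CharP.cast_eq_zero_iff F (ringChar F) 2).1 (by exact_mod_cast h2')
      obtain ⟨n, hp, hn⟩ := FiniteField.card F (ringChar F)
      rw [(Nat.prime_dvd_prime_iff_eq hp Nat.prime_two).1 this, h] at hn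
      rcases hm : (n : ℕ) with _ | _ | m <;> rw [hm] at hn <;> simp [pow_succ] at hn <;> omega
  · refine Univ.TorusLift.exists_lift hd π h1.ge h2 Univ.TorusLift.modeFour ?_ Univ.TorusLift.tcF4
      (fun r hr => List.all_eq_true.1 Univ.TorusLift.tcF4_four r (List.mem_range.2 hr)) Univ.TorusLift.tcF4_ws
    refine ⟨fun e he => hpow e 3 h ?_, fun e he => hgen e 3 h ?_, fun h' => ?_, fun h' => ?_, fun h' => ?_⟩
    · simp [Univ.TorusLift.modeFour] at he; omega
    · simp [Univ.TorusLift.modeFour] at he; omega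
    all_goals simp [Univ.TorusLift.modeFour] at h'

end Cfsg.Agent.S2103
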