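import Cfsg.Statements.S2106
import Cfsg.Agent.Lib.Chev.Univ.Multiplier
open CfsgLib.Chev CfsgLib.Chev.Checks

set_option autoImplicit false
open Cfsg

namespace Cfsg.Agent.S2106

/-- Schur multipliers of the (adjoint, simple) Chevalley groups of type E₇: over a field with q elements the Schur multiplier is cyclic of order gcd(2, q − 1) (here the Schur multiplier is described through stem extensions, as in the definitions). -/
theorem result {F : Type*} [Field F] [Fintype F] {q : ℕ} (hF : Fintype.card F = q) : Cfsg.HasCyclicSchurMultiplier ↥(Cfsg.Lie.chevE7.group F) (Nat.gcd 2 (q - 1)) := by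
  subst hF
  have hd : Cfsg.Lie.chevE7 ∈ dataList := by simp [dataList]
  have h8 : Cfsg.Lie.chevE8 ∈ dataList := by simp [dataList]
  refine Univ.multiplier hd Univ.certE7 Univ.certE7_ok (by simp) (by decide +kernel)
    (fun φ hφ c _ hc => Univ.inj_of_sub hd h8 (Univ.cert_spec _ Univ.certE7_ok).2.1
      (Univ.cert_spec _ Univ.certE8_ok).2.1 Univ.subE7 Abstract.torus_injective_E8 φ hφ c hc)
    (by rw [Torus.ker_E7]; simp) ?_
  rcases (Nat.dvd_prime Nat.prime_two).1 (Nat.gcd_dvd_left _ (Fintype.card F - 1)) with h | h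
  · exact Or.inl h
  · exact Or.inr (h.symm ▸ Nat.prime_two)

end Cfsg.Agent.S2106
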