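import Cfsg.Statements.S2107
import Cfsg.Agent.Lib.Chev.Univ.Multiplier
open CfsgLib.Chev CfsgLib.Chev.Checks

set_option autoImplicit false
open Cfsg

namespace Cfsg.Agent.S2107

/-- Schur multipliers of the Chevalley groups of type E₈: over every finite field the Schur multiplier of E₈(q) is trivial (here the Schur multiplier is described through stem extensions, as in the definitions). -/
theorem result {F : Type*} [Field F] [Fintype F] : Cfsg.HasCyclicSchurMultiplier ↥(Cfsg.Lie.chevE8.group F) 1 := by
  exact Univ.multiplier (by simp [dataList]) Univ.certE8 Univ.certE8_ok (by simp) (by decide +kernel)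
    (fun φ _ c hc _ => Abstract.torus_injective_E8 (hc.trans (map_one _).symm))
    (by rw [Torus.ker_E8]; simp) (Or.inl rfl)

end Cfsg.Agent.S2107
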