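import Cfsg.Statements.S2121
import Cfsg.Agent.Lib.Chev.Aut.OutCard
import Cfsg.Agent.Lib.Chev.Aut.GraphExist
open CfsgLib.Chev.Aut

set_option autoImplicit false
open Cfsg

namespace Cfsg.Agent.S2121

/-- Outer automorphisms of the Chevalley groups of type G₂: over a field with q = p^f (p prime) ≥ 3 elements, the outer automorphism group of G₂(q) has order f when p ≠ 3 and 2f when p = 3 (field automorphisms, and in characteristic 3 also the exceptional graph automorphism). -/
theorem result {F : Type*} [Field F] [Fintype F] (p f : ℕ) [Fact p.Prime] [CharP F p] (hF : Fintype.card F = p ^ f) (hq : 3 ≤ p ^ f) : Nat.card (Cfsg.Out ↥(Cfsg.Lie.chevG2.group F)) = (if p = 3 then 2 * f else f) := by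
  classical
  have hD : Cfsg.Lie.chevG2 ∈ CfsgLib.Chev.Checks.dataList := by simp [CfsgLib.Chev.Checks.dataList]
  have hchar : ringChar F = p := ringChar.eq F p
  have hlen : (symList Cfsg.Lie.chevG2).length ≤ 2 := by decide +kernel
  rw [out_card hD, galois_card hF, CfsgLib.Chev.Torus.ker_G2]
  split_ifs with h3
  · subst h3
    have hne : (Equiv.swap (0 : Fin 2) (1 : Fin 2) : Equiv.Perm (Fin Cfsg.Lie.chevG2.rank)) ≠ 1 := by decide +kernel
    obtain ⟨φ, hφ⟩ := exists_std (F := F) hD GData.g2 3 3 (by exact_mod_cast CharP.cast_eq_zero F 3)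
      (fun _ => ⟨inferInstance, Nat.prime_three⟩) GData.g2_ok.1 GData.g2_ok.2 (Equiv.swap (0 : Fin 2) (1 : Fin 2))
      (by decide +kernel)
    rw [range_eq_two hD hlen ⟨φ, _, hφ, hne⟩]
    simp
  · have hr : ratio Cfsg.Lie.chevG2 = 3 := by decide +kernel
    have key : ∀ l ∈ symList Cfsg.Lie.chevG2, keepOK Cfsg.Lie.chevG2 l = true → l = idImgs Cfsg.Lie.chevG2 := by
      decide +kernel
    rw [range_eq_bot hD fun l hl hc => hc.elim (key l hl) fun h => ?_]
    · simp
    · rcases h with h | ⟨-, h⟩
      · exact absurd (hchar.symm.trans (h.trans hr)) h3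
      · rw [Nat.card_eq_fintype_card, hF] at h; omega

end Cfsg.Agent.S2121
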