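import Cfsg.Statements.S2122
import Cfsg.Agent.Lib.Chev.Aut.OutCard
import Cfsg.Agent.Lib.Chev.Aut.GraphExist
open CfsgLib.Chev.Aut

set_option autoImplicit false
open Cfsg

namespace Cfsg.Agent.S2122

/-- Outer automorphisms of the Chevalley groups of type F₄: over a field with q = p^f (p prime) elements, the outer automorphism group of F₄(q) has order gcd(2, p) · f (field automorphisms, and in characteristic 2 also the exceptional graph automorphism). -/
theorem result {F : Type*} [Field F] [Fintype F] (p f : ℕ) [Fact p.Prime] [CharP F p] (hF : Fintype.card F = p ^ f) : Nat.card (Cfsg.Out ↥(Cfsg.Lie.chevF4.group F)) = Nat.gcd 2 p * f := by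
  classical
  have hD : Cfsg.Lie.chevF4 ∈ CfsgLib.Chev.Checks.dataList := by simp [CfsgLib.Chev.Checks.dataList]
  have hchar : ringChar F = p := ringChar.eq F p
  have hlen : (symList Cfsg.Lie.chevF4).length ≤ 2 := by decide +kernel
  rw [out_card hD, galois_card hF, CfsgLib.Chev.Torus.ker_F4]
  by_cases h2 : p = 2
  · subst h2
    have hne : (Equiv.swap (0 : Fin 4) 3 * Equiv.swap 1 2 : Equiv.Perm (Fin Cfsg.Lie.chevF4.rank)) ≠ 1 := by
      decide +kernel
    obtain ⟨φ, hφ⟩ := exists_std (F := F) hD GData.f4 2 2 (by exact_mod_cast CharP.cast_eq_zero F 2)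
      (fun _ => ⟨inferInstance, Nat.prime_two⟩) GData.f4_ok.1 GData.f4_ok.2
      (Equiv.swap (0 : Fin 4) 3 * Equiv.swap 1 2) (by decide +kernel)
    rw [range_eq_two hD hlen ⟨φ, _, hφ, hne⟩]
    simp
  · have hr : ratio Cfsg.Lie.chevF4 = 2 := by decide +kernel
    have key : ∀ l ∈ symList Cfsg.Lie.chevF4, keepOK Cfsg.Lie.chevF4 l = true → l = idImgs Cfsg.Lie.chevF4 := by
      decide +kernel
    rw [range_eq_bot hD fun l hl hc => hc.elim (key l hl) fun h => ?_]
    · have : Nat.gcd 2 p = 1 :=
        (Nat.coprime_primes Nat.prime_two (Fact.out : p.Prime)).2 (Ne.symm h2)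
      rw [this]
      simp
    · rcases h with h | ⟨h, -⟩
      · exact absurd (hchar.symm.trans (h.trans hr)) h2
      · rw [hr] at h; omega

end Cfsg.Agent.S2122
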