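import Cfsg.Statements.S2123
import Cfsg.Agent.Lib.Chev.Aut.OutCard
import Cfsg.Agent.Lib.Chev.Aut.GraphExist
open CfsgLib.Chev.Aut

set_option autoImplicit false
open Cfsg

namespace Cfsg.Agent.S2123

/-- Outer automorphisms of the (adjoint, simple) Chevalley groups of type E₆: over a field with q = p^f (p prime) elements, the outer automorphism group of E₆(q) has order 2 · gcd(3, q − 1) · f (diagonal, field and graph automorphisms). -/
theorem result {F : Type*} [Field F] [Fintype F] (p f : ℕ) [Fact p.Prime] [CharP F p] (hF : Fintype.card F = p ^ f) : Nat.card (Cfsg.Out ↥(Cfsg.Lie.chevE6.group F)) = 2 * Nat.gcd 3 (p ^ f - 1) * f := by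
  classical
  have hD : Cfsg.Lie.chevE6 ∈ CfsgLib.Chev.Checks.dataList := by simp [CfsgLib.Chev.Checks.dataList]
  have hlen : (symList Cfsg.Lie.chevE6).length ≤ 2 := by decide +kernel
  have hne : (Equiv.swap (0 : Fin 6) 5 * Equiv.swap 2 4 : Equiv.Perm (Fin Cfsg.Lie.chevE6.rank)) ≠ 1 := by
    decide +kernel
  obtain ⟨φ, hφ⟩ := exists_std (F := F) hD GData.e6 1 0 (by simp) (fun h => absurd h (lt_irrefl 1))
    GData.e6_ok.1 GData.e6_ok.2 (Equiv.swap (0 : Fin 6) 5 * Equiv.swap 2 4) (by decide +kernel)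
  rw [out_card hD, galois_card hF, CfsgLib.Chev.Torus.ker_E6, range_eq_two hD hlen ⟨φ, _, hφ, hne⟩, hF]
  simp [mul_assoc]

end Cfsg.Agent.S2123
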