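import Cfsg.Statements.S2126
import Cfsg.Agent.Lib.Suzuki.OutAut

set_option autoImplicit false
set_option linter.all false
open Cfsg

namespace Cfsg.Agent.S2126

open CfsgLib.Suzuki

/-- For q = 2^(2m+1) ≥ 8, Out(Sz(q)) has order 2m+1. -/
theorem result {F : Type*} [Field F] [Fintype F] {m : ℕ} (hm : 1 ≤ m) (hF : Fintype.card F = 2 ^ (2 * m + 1)) : Nat.card (Cfsg.Out ↥(Cfsg.Lie.Sz F (2 ^ (m + 1)))) = 2 * m + 1 := by
  have h : Hyp F m := ⟨hm, hF⟩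
  obtain ⟨e⟩ := h.nonempty_equiv
  refine Eq.trans ?_ h.card_out
  refine Nat.card_congr (QuotientGroup.congr _ _ (MulAut.congr e) ?_).toEquiv
  refine le_antisymm ?_ ?_
  · rintro _ ⟨_, ⟨g, rfl⟩, rfl⟩
    exact ⟨e g, MulEquiv.ext fun x => by simp [MulAut.congr, MulAut.conj_apply]⟩
  · rintro _ ⟨g, rfl⟩
    exact ⟨MulAut.conj (e.symm g), ⟨e.symm g, rfl⟩, MulEquiv.ext fun x => by simp [MulAut.congr, MulAut.conj_apply]⟩

end Cfsg.Agent.S2126
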