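import Cfsg.Statements.S2298
import Cfsg.Agent.Lib.GL2Borel.Degrees

set_option autoImplicit false
open Cfsg

namespace Cfsg.Agent.S2298

/-- Over a finite field F with q elements, every irreducible complex character of GL₂ has degree 1, q − 1, q or q + 1; and when q ≥ 3 (so that these four numbers are distinct) there are exactly q − 1 irreducible characters of degree 1, exactly q − 1 of degree q, exactly (q − 1)(q − 2)/2 of degree q + 1 and exactly q(q − 1)/2 of degree q − 1. -/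
theorem result {F : Type*} [Field F] [Fintype F] :
    (∀ χ : Matrix.GeneralLinearGroup (Fin 2) F → ℂ, Cfsg.IsIrrCharacter (Matrix.GeneralLinearGroup (Fin 2) F) χ →
      χ 1 = 1 ∨ χ 1 = (Fintype.card F : ℂ) - 1 ∨ χ 1 = (Fintype.card F : ℂ) ∨ χ 1 = (Fintype.card F : ℂ) + 1) ∧
    (3 ≤ Fintype.card F →
      Nat.card {χ : Cfsg.IrrCharacter (Matrix.GeneralLinearGroup (Fin 2) F) // (χ : Matrix.GeneralLinearGroup (Fin 2) F → ℂ) 1 = 1} = Fintype.card F - 1 ∧
      Nat.card {χ : Cfsg.IrrCharacter (Matrix.GeneralLinearGroup (Fin 2) F) // (χ : Matrix.GeneralLinearGroup (Fin 2) F → ℂ) 1 = (Fintype.card F : ℂ)} = Fintype.card F - 1 ∧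
      Nat.card {χ : Cfsg.IrrCharacter (Matrix.GeneralLinearGroup (Fin 2) F) // (χ : Matrix.GeneralLinearGroup (Fin 2) F → ℂ) 1 = (Fintype.card F : ℂ) + 1} = (Fintype.card F - 1) * (Fintype.card F - 2) / 2 ∧
      Nat.card {χ : Cfsg.IrrCharacter (Matrix.GeneralLinearGroup (Fin 2) F) // (χ : Matrix.GeneralLinearGroup (Fin 2) F → ℂ) 1 = (Fintype.card F : ℂ) - 1} = Fintype.card F * (Fintype.card F - 1) / 2) := by
  classical
  obtain ⟨h1, h2⟩ := CfsgLib.GL2Borel.degrees (F := F)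
  have hq : 1 ≤ Fintype.card F := Fintype.card_pos
  have key : ∀ (χ : Cfsg.IrrCharacter (Matrix.GeneralLinearGroup (Fin 2) F)) (k : ℕ),
      ((χ : Matrix.GeneralLinearGroup (Fin 2) F → ℂ) 1 = (k : ℂ)) ↔
        Cfsg.charDegree (χ : Matrix.GeneralLinearGroup (Fin 2) F → ℂ) = k := fun χ k => by
    rw [CfsgLib.Chars.irr_apply_one, Nat.cast_inj]
  refine ⟨fun χ hχ => ?_, fun h3 => ?_⟩
  · have e := CfsgLib.Chars.irr_apply_one (⟨χ, hχ⟩ : Cfsg.IrrCharacter _)
    dsimp only at e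
    rw [e]
    rcases h1 ⟨χ, hχ⟩ with h | h | h | h <;> dsimp only at h <;> rw [h]
    · exact Or.inl Nat.cast_one
    · exact Or.inr (Or.inl (by rw [Nat.cast_sub hq, Nat.cast_one]))
    · exact Or.inr (Or.inr (Or.inl rfl))
    · exact Or.inr (Or.inr (Or.inr (by push_cast; rfl)))
  obtain ⟨a, b, c, d⟩ := h2 h3
  refine ⟨?_, ?_, ?_, ?_⟩
  · rw [← a]; exact Nat.card_congr (Equiv.subtypeEquivRight fun χ => by rw [← Nat.cast_one, key])
  · rw [← b]; exact Nat.card_congr (Equiv.subtypeEquivRight fun χ => key χ _)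
  · rw [← c]; exact Nat.card_congr (Equiv.subtypeEquivRight fun χ => by rw [← Nat.cast_one, ← Nat.cast_add, key])
  · rw [← d]; exact Nat.card_congr (Equiv.subtypeEquivRight fun χ => by rw [← Nat.cast_one, ← Nat.cast_sub hq, key])

end Cfsg.Agent.S2298
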