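import Cfsg.Statements.S2299
import Cfsg.Agent.Lib.SL2Borel.OddCounts

set_option autoImplicit false
open Cfsg

namespace Cfsg.Agent.S2299

/-- Over a finite field F with q elements, q odd, every irreducible complex character of SL₂ has degree 1, q, q + 1, q − 1, (q + 1)/2 or (q − 1)/2; and when q ≥ 5 (so that these six numbers are distinct) there are exactly one irreducible character of degree 1, one of degree q, (q − 3)/2 of degree q + 1, (q − 1)/2 of degree q − 1, two of degree (q + 1)/2 and two of degree (q − 1)/2. -/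
theorem result {F : Type*} [Field F] [Fintype F] (hodd : Odd (Fintype.card F)) :
    (∀ χ : Matrix.SpecialLinearGroup (Fin 2) F → ℂ, Cfsg.IsIrrCharacter (Matrix.SpecialLinearGroup (Fin 2) F) χ →
      χ 1 = 1 ∨ χ 1 = (Fintype.card F : ℂ) ∨ χ 1 = (Fintype.card F : ℂ) + 1 ∨ χ 1 = (Fintype.card F : ℂ) - 1 ∨
        χ 1 = (((Fintype.card F + 1) / 2 : ℕ) : ℂ) ∨ χ 1 = (((Fintype.card F - 1) / 2 : ℕ) : ℂ)) ∧
    (5 ≤ Fintype.card F →
      Nat.card {χ : Cfsg.IrrCharacter (Matrix.SpecialLinearGroup (Fin 2) F) // (χ : Matrix.SpecialLinearGroup (Fin 2) F → ℂ) 1 = 1} = 1 ∧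
      Nat.card {χ : Cfsg.IrrCharacter (Matrix.SpecialLinearGroup (Fin 2) F) // (χ : Matrix.SpecialLinearGroup (Fin 2) F → ℂ) 1 = (Fintype.card F : ℂ)} = 1 ∧
      Nat.card {χ : Cfsg.IrrCharacter (Matrix.SpecialLinearGroup (Fin 2) F) // (χ : Matrix.SpecialLinearGroup (Fin 2) F → ℂ) 1 = (Fintype.card F : ℂ) + 1} = (Fintype.card F - 3) / 2 ∧
      Nat.card {χ : Cfsg.IrrCharacter (Matrix.SpecialLinearGroup (Fin 2) F) // (χ : Matrix.SpecialLinearGroup (Fin 2) F → ℂ) 1 = (Fintype.card F : ℂ) - 1} = (Fintype.card F - 1) / 2 ∧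
      Nat.card {χ : Cfsg.IrrCharacter (Matrix.SpecialLinearGroup (Fin 2) F) // (χ : Matrix.SpecialLinearGroup (Fin 2) F → ℂ) 1 = (((Fintype.card F + 1) / 2 : ℕ) : ℂ)} = 2 ∧
      Nat.card {χ : Cfsg.IrrCharacter (Matrix.SpecialLinearGroup (Fin 2) F) // (χ : Matrix.SpecialLinearGroup (Fin 2) F → ℂ) 1 = (((Fintype.card F - 1) / 2 : ℕ) : ℂ)} = 2) := by
  classical
  have hq1 : 1 ≤ Fintype.card F := Fintype.card_pos
  have key : ∀ (χ : Cfsg.IrrCharacter (Matrix.SpecialLinearGroup (Fin 2) F)) (k : ℕ),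
      ((χ : Matrix.SpecialLinearGroup (Fin 2) F → ℂ) 1 = (k : ℂ)) ↔
        Cfsg.charDegree (χ : Matrix.SpecialLinearGroup (Fin 2) F → ℂ) = k := fun χ k => by
    rw [CfsgLib.Chars.irr_apply_one, Nat.cast_inj]
  refine ⟨fun χ hχ => ?_, fun hq => ?_⟩
  · obtain ⟨X, Y, hY12, hd, -, -, hcases, -⟩ := CfsgLib.SL2Borel.over_degree (⟨χ, hχ⟩ : Cfsg.IrrCharacter _)
    have e := CfsgLib.Chars.irr_apply_one (⟨χ, hχ⟩ : Cfsg.IrrCharacter _)
    dsimp only at e hd
    obtain ⟨m, hm⟩ := hodd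
    rw [hm] at hcases
    have h6 : Cfsg.charDegree χ = 1 ∨ Cfsg.charDegree χ = Fintype.card F ∨ Cfsg.charDegree χ = Fintype.card F + 1 ∨
        Cfsg.charDegree χ = Fintype.card F - 1 ∨ Cfsg.charDegree χ = (Fintype.card F + 1) / 2 ∨
        Cfsg.charDegree χ = (Fintype.card F - 1) / 2 := by
      rw [hm]
      rcases hY12 with c | c <;> rw [c] at hd <;> rcases hcases with f | f | f | f <;> omega
    rw [e]
    rcases h6 with h | h | h | h | h | h <;> rw [h]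
    · exact Or.inl Nat.cast_one
    · exact Or.inr (Or.inl rfl)
    · exact Or.inr (Or.inr (Or.inl (by push_cast; rfl)))
    · exact Or.inr (Or.inr (Or.inr (Or.inl (by rw [Nat.cast_sub hq1, Nat.cast_one]))))
    · exact Or.inr (Or.inr (Or.inr (Or.inr (Or.inl rfl))))
    · exact Or.inr (Or.inr (Or.inr (Or.inr (Or.inr rfl))))
  obtain ⟨hC, hb⟩ := CfsgLib.SL2Borel.odd_counts hodd hq
  refine ⟨?_, ?_, ?_, ?_, ?_, ?_⟩
  · rw [Nat.card_eq_one_iff_unique]
    exact ⟨⟨fun a b => Subtype.ext (Subtype.ext (by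
      rw [CfsgLib.SL2Borel.deg_one_unique (by omega) a.1 ((key a.1 1).1 (by rw [a.2, Nat.cast_one])),
        CfsgLib.SL2Borel.deg_one_unique (by omega) b.1 ((key b.1 1).1 (by rw [b.2, Nat.cast_one]))]))⟩,
      ⟨⟨⟨fun _ => 1, CfsgLib.Chars.isIrrCharacter_one _⟩, rfl⟩⟩⟩
  · obtain ⟨St, hSt, -⟩ := CfsgLib.SL2Borel.exists_deg_card (F := F)
    rw [Nat.card_eq_one_iff_unique]
    exact ⟨⟨fun a b => Subtype.ext (CfsgLib.SL2Borel.deg_card_unique a.1 b.1 ((key a.1 _).1 a.2) ((key b.1 _).1 b.2))⟩,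
      ⟨⟨St, (key St _).2 hSt⟩⟩⟩
  · rw [← CfsgLib.SL2Borel.card_succ hodd hq]
    exact Nat.card_congr (Equiv.subtypeEquivRight fun χ => by rw [← key, Nat.cast_add, Nat.cast_one])
  · rw [← hC]; exact Nat.card_congr (Equiv.subtypeEquivRight fun χ => by rw [← key, Nat.cast_sub hq1, Nat.cast_one])
  · refine Eq.trans ?_ (CfsgLib.SL2Borel.deg_half hodd hq); exact Nat.card_congr (Equiv.subtypeEquivRight fun χ => key χ _)
  · refine Eq.trans ?_ hb; exact Nat.card_congr (Equiv.subtypeEquivRight fun χ => key χ _)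

end Cfsg.Agent.S2299
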