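import Cfsg.Statements.S2300
import Cfsg.Agent.Lib.SL2Borel.Degrees

set_option autoImplicit false
open Cfsg

namespace Cfsg.Agent.S2300

/-- Over a finite field F with q elements, q even, every irreducible complex character of SL₂ has degree 1, q − 1, q or q + 1; and when q ≥ 4 (so that these four numbers are distinct) there are exactly one irreducible character of degree 1, one of degree q, (q − 2)/2 of degree q + 1 and q/2 of degree q − 1. -/
theorem result {F : Type*} [Field F] [Fintype F] [CharP F 2] :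
    (∀ χ : Matrix.SpecialLinearGroup (Fin 2) F → ℂ, Cfsg.IsIrrCharacter (Matrix.SpecialLinearGroup (Fin 2) F) χ →
      χ 1 = 1 ∨ χ 1 = (Fintype.card F : ℂ) - 1 ∨ χ 1 = (Fintype.card F : ℂ) ∨ χ 1 = (Fintype.card F : ℂ) + 1) ∧
    (4 ≤ Fintype.card F →
      Nat.card {χ : Cfsg.IrrCharacter (Matrix.SpecialLinearGroup (Fin 2) F) // (χ : Matrix.SpecialLinearGroup (Fin 2) F → ℂ) 1 = 1} = 1 ∧
      Nat.card {χ : Cfsg.IrrCharacter (Matrix.SpecialLinearGroup (Fin 2) F) // (χ : Matrix.SpecialLinearGroup (Fin 2) F → ℂ) 1 = (Fintype.card F : ℂ)} = 1 ∧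
      Nat.card {χ : Cfsg.IrrCharacter (Matrix.SpecialLinearGroup (Fin 2) F) // (χ : Matrix.SpecialLinearGroup (Fin 2) F → ℂ) 1 = (Fintype.card F : ℂ) + 1} = (Fintype.card F - 2) / 2 ∧
      Nat.card {χ : Cfsg.IrrCharacter (Matrix.SpecialLinearGroup (Fin 2) F) // (χ : Matrix.SpecialLinearGroup (Fin 2) F → ℂ) 1 = (Fintype.card F : ℂ) - 1} = Fintype.card F / 2) := by
  classical
  have heven : Even (Fintype.card F) := by
    rw [Nat.even_iff]; exact FiniteField.even_card_iff_char_two.1 (ringChar.eq F 2)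
  have hq1 : 1 ≤ Fintype.card F := Fintype.card_pos
  have key : ∀ (χ : Cfsg.IrrCharacter (Matrix.SpecialLinearGroup (Fin 2) F)) (k : ℕ),
      ((χ : Matrix.SpecialLinearGroup (Fin 2) F → ℂ) 1 = (k : ℂ)) ↔
        Cfsg.charDegree (χ : Matrix.SpecialLinearGroup (Fin 2) F → ℂ) = k := fun χ k => by
    rw [CfsgLib.Chars.irr_apply_one, Nat.cast_inj]
  refine ⟨fun χ hχ => ?_, fun hq => ?_⟩
  · obtain ⟨X, Y, -, hd, -, -, hcases, hev⟩ := CfsgLib.SL2Borel.over_degree (⟨χ, hχ⟩ : Cfsg.IrrCharacter _)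
    rw [hev heven, one_mul] at hd
    rw [hd] at hcases
    have e := CfsgLib.Chars.irr_apply_one (⟨χ, hχ⟩ : Cfsg.IrrCharacter _)
    dsimp only at e hcases
    rw [e]
    rcases hcases with h | h | h | h <;> rw [h]
    · exact Or.inl Nat.cast_one
    · exact Or.inr (Or.inl (by rw [Nat.cast_sub hq1, Nat.cast_one]))
    · exact Or.inr (Or.inr (Or.inl rfl))
    · exact Or.inr (Or.inr (Or.inr (by push_cast; rfl)))
  obtain ⟨hR, hC⟩ := CfsgLib.SL2Borel.even_counts heven hq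
  refine ⟨?_, ?_, ?_, ?_⟩
  · rw [Nat.card_eq_one_iff_unique]
    exact ⟨⟨fun a b => Subtype.ext (Subtype.ext (by
      rw [CfsgLib.SL2Borel.deg_one_unique hq a.1 ((key a.1 1).1 (by rw [a.2, Nat.cast_one])),
        CfsgLib.SL2Borel.deg_one_unique hq b.1 ((key b.1 1).1 (by rw [b.2, Nat.cast_one]))]))⟩,
      ⟨⟨⟨fun _ => 1, CfsgLib.Chars.isIrrCharacter_one _⟩, rfl⟩⟩⟩
  · obtain ⟨St, hSt, -⟩ := CfsgLib.SL2Borel.exists_deg_card (F := F)
    rw [Nat.card_eq_one_iff_unique]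
    exact ⟨⟨fun a b => Subtype.ext (CfsgLib.SL2Borel.deg_card_unique a.1 b.1 ((key a.1 _).1 a.2) ((key b.1 _).1 b.2))⟩,
      ⟨⟨St, (key St _).2 hSt⟩⟩⟩
  · rw [← hR]; exact Nat.card_congr (Equiv.subtypeEquivRight fun χ => by rw [← key, Nat.cast_add, Nat.cast_one])
  · rw [← hC]; exact Nat.card_congr (Equiv.subtypeEquivRight fun χ => by rw [← key, Nat.cast_sub hq1, Nat.cast_one])

end Cfsg.Agent.S2300
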