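import Cfsg.Statements.S2302
import Cfsg.Agent.Lib.SL2Classes.Unipotent
import Mathlib.Algebra.Group.Conj
import Mathlib.Algebra.CharP.Two
import Mathlib.FieldTheory.Finite.Basic

set_option autoImplicit false
open Cfsg

namespace Cfsg.Agent.S2302

/-- Over a finite field with q elements of characteristic 2, the involutions of SL₂ (the non-identity unipotent elements) form a single conjugacy class, of size q² − 1. -/
theorem result {F : Type*} [Field F] [Fintype F] [CharP F 2] (g h : Matrix.SpecialLinearGroup (Fin 2) F) (hg : orderOf g = 2) (hh : orderOf h = 2) :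
    IsConj g h ∧ Nat.card (ConjClasses.mk g).carrier = Fintype.card F ^ 2 - 1 := by
  classical
  haveI := Fact.mk Nat.prime_two
  have hsqrt : ∀ x : F, ∃ y, y ^ 2 = x := fun x => by
    obtain ⟨y, hy⟩ := FiniteField.isSquare_of_char_two (ringChar.eq F 2) x
    exact ⟨y, by rw [hy, sq]⟩
  choose s hs using hsqrt
  have hnf : ∀ x : Matrix.SpecialLinearGroup (Fin 2) F, orderOf x = 2 →
      ∃ P : Matrix.SpecialLinearGroup (Fin 2) F,
        (x : Matrix (Fin 2) (Fin 2) F) * (P : Matrix (Fin 2) (Fin 2) F) =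
          (P : Matrix (Fin 2) (Fin 2) F) * !![1, 1; 0, 1] := by
    intro x hx
    obtain ⟨d, hd, hP⟩ := CfsgLib.SL2Classes.exists_sl_normal_form 2 hx
    have hne : s d⁻¹ ≠ 0 := fun h0 => by
      have := hs d⁻¹
      rw [h0, zero_pow two_ne_zero] at this
      exact inv_ne_zero hd this.symm
    obtain ⟨P, hdet, hmul⟩ := hP (s d⁻¹) hne
    exact ⟨⟨P, by rw [hdet, hs, inv_mul_cancel₀ hd]⟩, hmul⟩
  have hconj : ∀ x y : Matrix.SpecialLinearGroup (Fin 2) F, orderOf x = 2 → orderOf y = 2 → IsConj x y := by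
    intro x y hx hy
    obtain ⟨P, hP⟩ := hnf x hx
    obtain ⟨Q, hQ⟩ := hnf y hy
    refine isConj_iff.mpr ⟨Q * P⁻¹, ?_⟩
    have hP' : P⁻¹ * (x * P) = Q⁻¹ * (y * Q) := by
      apply Subtype.ext
      simp only [Matrix.SpecialLinearGroup.coe_mul]
      rw [hP, hQ, ← mul_assoc, ← mul_assoc, ← Matrix.SpecialLinearGroup.coe_mul,
        ← Matrix.SpecialLinearGroup.coe_mul, inv_mul_cancel, inv_mul_cancel]
    calc Q * P⁻¹ * x * (Q * P⁻¹)⁻¹ = Q * (P⁻¹ * (x * P)) * Q⁻¹ := by group
      _ = Q * (Q⁻¹ * (y * Q)) * Q⁻¹ := by rw [hP']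
      _ = y := by group
  refine ⟨hconj g h hg hh, ?_⟩
  have hcar : (ConjClasses.mk g).carrier = {x | orderOf x = 2} := by
    ext x
    rw [ConjClasses.mem_carrier_iff_mk_eq, ConjClasses.mk_eq_mk_iff_isConj]
    refine ⟨fun hx => ?_, fun hx => hconj x g hx hg⟩
    obtain ⟨c, hc⟩ := isConj_iff.mp hx.symm
    show orderOf x = 2
    rw [← hc]
    exact (MulEquiv.orderOf_eq (MulAut.conj c) g).trans hg
  have hval : ∀ x : Matrix.SpecialLinearGroup (Fin 2) F, orderOf x = 2 →
      (x : Matrix (Fin 2) (Fin 2) F) 0 0 = (x : Matrix (Fin 2) (Fin 2) F) 1 1 := by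
    intro x hx
    have h1 : x⁻¹ = x := inv_eq_of_mul_eq_one_right
      ((pow_two x).symm.trans (orderOf_dvd_iff_pow_eq_one.mp (dvd_of_eq hx)))
    have h2 := congrFun (congrFun (congrArg Subtype.val h1) 0) 0
    rw [Matrix.SpecialLinearGroup.coe_inv, Matrix.adjugate_fin_two] at h2
    simpa using h2.symm
  have hroot : ∀ x : Matrix.SpecialLinearGroup (Fin 2) F, orderOf x = 2 →
      (x : Matrix (Fin 2) (Fin 2) F) 0 0 =
        1 + s ((x : Matrix (Fin 2) (Fin 2) F) 0 1 * (x : Matrix (Fin 2) (Fin 2) F) 1 0) := by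
    intro x hx
    have hdet := x.2
    rw [Matrix.det_fin_two, ← hval x hx, CharTwo.sub_eq_add] at hdet
    have hz : ((x : Matrix (Fin 2) (Fin 2) F) 0 0 +
        (1 + s ((x : Matrix (Fin 2) (Fin 2) F) 0 1 * (x : Matrix (Fin 2) (Fin 2) F) 1 0))) ^ 2 = 0 := by
      rw [CharTwo.add_sq, CharTwo.add_sq, one_pow, hs]
      linear_combination hdet + (CharTwo.two_eq_zero (R := F))
    exact CharTwo.add_eq_zero.mp (sq_eq_zero_iff.mp hz)
  let e : {x : Matrix.SpecialLinearGroup (Fin 2) F // orderOf x = 2} ≃ {z : F × F // z ≠ 0} :=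
    { toFun := fun x => ⟨((x.1 : Matrix (Fin 2) (Fin 2) F) 0 1, (x.1 : Matrix (Fin 2) (Fin 2) F) 1 0),
        fun h0 => by
          have hb := congrArg Prod.fst h0
          have hc := congrArg Prod.snd h0
          simp only [Prod.fst_zero, Prod.snd_zero] at hb hc
          have ha := hroot x.1 x.2
          have hd := hval x.1 x.2
          have hs0 : s 0 = 0 := sq_eq_zero_iff.mp (hs 0)
          rw [hb, hc, mul_zero, hs0, add_zero] at ha
          have h1 : x.1 = 1 := by
            apply Subtype.ext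
            ext i j
            fin_cases i <;> fin_cases j <;> simp [ha, hb, hc, ← hd]
          have := x.2
          rw [h1, orderOf_one] at this
          omega⟩
      invFun := fun z => ⟨⟨!![1 + s (z.1.1 * z.1.2), z.1.1; z.1.2, 1 + s (z.1.1 * z.1.2)], by
          rw [Matrix.det_fin_two_of]
          linear_combination hs (z.1.1 * z.1.2) + s (z.1.1 * z.1.2) * (CharTwo.two_eq_zero (R := F))⟩, by
          refine orderOf_eq_prime ((pow_two _).trans (Subtype.ext ?_)) fun h0 => z.2 ?_
          · refine (Matrix.SpecialLinearGroup.coe_mul _ _).trans ?_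
            show _ = (1 : Matrix (Fin 2) (Fin 2) F)
            ext i j
            fin_cases i <;> fin_cases j <;> simp [Matrix.mul_apply, Fin.sum_univ_two]
            · linear_combination hs (z.1.1 * z.1.2) + (s (z.1.1 * z.1.2) + z.1.1 * z.1.2) *
                (CharTwo.two_eq_zero (R := F))
            · linear_combination z.1.1 * (1 + s (z.1.1 * z.1.2)) * (CharTwo.two_eq_zero (R := F))
            · linear_combination z.1.2 * (1 + s (z.1.1 * z.1.2)) * (CharTwo.two_eq_zero (R := F))
            · linear_combination hs (z.1.1 * z.1.2) + (s (z.1.1 * z.1.2) + z.1.1 * z.1.2) *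
                (CharTwo.two_eq_zero (R := F))
          · have hb := congrFun (congrFun (congrArg Subtype.val h0) 0) 1
            have hc := congrFun (congrFun (congrArg Subtype.val h0) 1) 0
            simp at hb hc
            exact Prod.ext hb hc⟩
      left_inv := fun x => by
        apply Subtype.ext
        apply Subtype.ext
        ext i j
        fin_cases i <;> fin_cases j <;> simp [← hroot x.1 x.2, ← hval x.1 x.2]
      right_inv := fun z => by simp }
  rw [hcar]
  show Nat.card {x : Matrix.SpecialLinearGroup (Fin 2) F // orderOf x = 2} = _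
  rw [Nat.card_congr e, Nat.card_eq_fintype_card, Fintype.card_subtype_compl,
    Fintype.card_subtype_eq, Fintype.card_prod, pow_two]

end Cfsg.Agent.S2302
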