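import Cfsg.Statements.S2306
import Cfsg.Agent.Lib.SL2Borel.Inner

set_option autoImplicit false
open Cfsg

namespace Cfsg.Agent.S2306

/-- Over a finite field F, for a multiplicative character α of F, the function induced to SL₂ from the linear character b ↦ α(b₁₁) of the upper triangular subgroup is an irreducible character if and only if α² ≠ 1. -/
theorem result {F : Type*} [Field F] [Fintype F] [DecidableEq F] (α : MulChar F ℂ) :
    Cfsg.IsIrrCharacter (Matrix.SpecialLinearGroup (Fin 2) F) (Cfsg.indFun ((Cfsg.upperTriangularGL 2 F).comap Matrix.SpecialLinearGroup.toGL) (fun b => α (((b : Matrix.SpecialLinearGroup (Fin 2) F) : Matrix (Fin 2) (Fin 2) F) 0 0))) ↔ α ^ 2 ≠ 1 := by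
  classical
  haveI : Fintype (CfsgLib.SL2Borel.B F) := Fintype.ofFinite _
  have hn := CfsgLib.SL2Borel.inner_eq (F := F) α α
  rw [if_pos rfl] at hn
  have hiff : α = α⁻¹ ↔ α ^ 2 = 1 := by rw [pow_two, mul_eq_one_iff_eq_inv]
  constructor
  · intro hirr h2
    have h1 := CfsgLib.Chars.classInner_irr ⟨_, hirr⟩ ⟨_, hirr⟩
    rw [if_pos rfl] at h1
    rw [if_pos (hiff.2 h2)] at hn
    have h3 := h1.symm.trans hn
    norm_num at h3
  · intro h2
    refine CfsgLib.Chars.isIrrCharacter_of_norm_one (CfsgLib.SL2Borel.isCharacter_principal α) ?_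
    rw [if_neg (fun h => h2 (hiff.1 h)), add_zero] at hn
    exact hn

end Cfsg.Agent.S2306
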