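import Cfsg.Statements.S2308
import Cfsg.Agent.Lib.Centralizers.GL2

set_option autoImplicit false
open Cfsg

namespace Cfsg.Agent.S2308

/-- Values of the permutation character of GL₂ over a finite field F with q elements on the cosets of its upper triangular subgroup (equivalently, the number of lines of F² that an element maps to themselves): q + 1 at a scalar matrix, 2 at a diagonal matrix with two different diagonal entries, 0 at an element with no eigenvector in F², and 1 at an upper triangular matrix with equal diagonal entries and non-zero upper right entry. -/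
theorem result {F : Type*} [Field F] [Fintype F] (g : Matrix.GeneralLinearGroup (Fin 2) F) :
    ((∃ a : F, (g : Matrix (Fin 2) (Fin 2) F) = a • (1 : Matrix (Fin 2) (Fin 2) F)) → Cfsg.fixedPointCharacter (Cfsg.upperTriangularGL 2 F) g = Fintype.card F + 1) ∧
    ((g : Matrix (Fin 2) (Fin 2) F) 0 1 = 0 → (g : Matrix (Fin 2) (Fin 2) F) 1 0 = 0 → (g : Matrix (Fin 2) (Fin 2) F) 0 0 ≠ (g : Matrix (Fin 2) (Fin 2) F) 1 1 →
      Cfsg.fixedPointCharacter (Cfsg.upperTriangularGL 2 F) g = 2) ∧
    ((∀ (c : F) (v : Fin 2 → F), v ≠ 0 → (g : Matrix (Fin 2) (Fin 2) F).mulVec v ≠ c • v) → Cfsg.fixedPointCharacter (Cfsg.upperTriangularGL 2 F) g = 0) ∧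
    ((g : Matrix (Fin 2) (Fin 2) F) 1 0 = 0 → (g : Matrix (Fin 2) (Fin 2) F) 0 0 = (g : Matrix (Fin 2) (Fin 2) F) 1 1 → (g : Matrix (Fin 2) (Fin 2) F) 0 1 ≠ 0 →
      Cfsg.fixedPointCharacter (Cfsg.upperTriangularGL 2 F) g = 1) := by
  classical
  rw [CfsgLib.Centralizers.GL2.fixedPoint_eq g]
  refine ⟨?_, ?_, ?_, ?_⟩
  · rintro ⟨a, ha⟩
    have h : Nat.card {o : Option F // CfsgLib.Centralizers.GL2.Fixed g o} = Fintype.card F + 1 := by
      rw [Nat.card_eq_fintype_card, ← Fintype.card_option]
      refine Fintype.card_congr (Equiv.subtypeUnivEquiv fun o => ?_)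
      cases o <;> simp [CfsgLib.Centralizers.GL2.Fixed, ha]
    rw [h]; push_cast; ring
  · intro h01 h10 hne
    have h : Nat.card {o : Option F // CfsgLib.Centralizers.GL2.Fixed g o} = 2 := by
      rw [Nat.card_eq_fintype_card, Fintype.card_subtype]
      rw [show (Finset.univ.filter fun o => CfsgLib.Centralizers.GL2.Fixed g o) = {none, some 0} from ?_]
      · simp
      ext o
      cases o with
      | none => simp [CfsgLib.Centralizers.GL2.Fixed, h10]
      | some x => simp [CfsgLib.Centralizers.GL2.Fixed, h01, h10, sub_eq_zero, hne.symm]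
    rw [h]; norm_num
  · intro hno
    have h : IsEmpty {o : Option F // CfsgLib.Centralizers.GL2.Fixed g o} := by
      refine ⟨fun ⟨o, ho⟩ => ?_⟩
      cases o with
      | none =>
        simp only [CfsgLib.Centralizers.GL2.Fixed] at ho
        exact hno ((g : Matrix (Fin 2) (Fin 2) F) 0 0) ![1, 0] (by simp) (by
          funext i; fin_cases i <;> simp [Matrix.mulVec, dotProduct, Fin.sum_univ_two, ho])
      | some x =>
        simp only [CfsgLib.Centralizers.GL2.Fixed] at ho
        refine hno ((g : Matrix (Fin 2) (Fin 2) F) 1 0 * x + (g : Matrix (Fin 2) (Fin 2) F) 1 1) ![x, 1] (by simp) ?_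
        funext i
        fin_cases i <;> simp [Matrix.mulVec, dotProduct, Fin.sum_univ_two]
        linear_combination (-1 : F) * ho
    rw [Nat.card_of_isEmpty, Nat.cast_zero]
  · intro h10 heq h01
    have h : Nat.card {o : Option F // CfsgLib.Centralizers.GL2.Fixed g o} = 1 := by
      rw [Nat.card_eq_fintype_card, Fintype.card_subtype]
      rw [show (Finset.univ.filter fun o => CfsgLib.Centralizers.GL2.Fixed g o) = {none} from ?_]
      · simp
      ext o
      cases o with
      | none => simp [CfsgLib.Centralizers.GL2.Fixed, h10]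
      | some x => simp [CfsgLib.Centralizers.GL2.Fixed, h10, heq, h01]
    rw [h, Nat.cast_one]

end Cfsg.Agent.S2308
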