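import Cfsg.Statements.S2309
import Cfsg.Agent.Lib.GL2Borel.Classify

set_option autoImplicit false
open Cfsg

namespace Cfsg.Agent.S2309

/-- Over a finite field F with q elements: every irreducible complex character of GL₂ of degree q − 1 vanishes at every diagonal matrix with two distinct entries, and every irreducible complex character of degree q + 1 vanishes at every element with no eigenvector in F². -/
theorem result {F : Type*} [Field F] [Fintype F] (χ : Matrix.GeneralLinearGroup (Fin 2) F → ℂ) (hχ : Cfsg.IsIrrCharacter (Matrix.GeneralLinearGroup (Fin 2) F) χ) (g : Matrix.GeneralLinearGroup (Fin 2) F) :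
    (χ 1 = (Fintype.card F : ℂ) - 1 → (g : Matrix (Fin 2) (Fin 2) F) 0 1 = 0 → (g : Matrix (Fin 2) (Fin 2) F) 1 0 = 0 → (g : Matrix (Fin 2) (Fin 2) F) 0 0 ≠ (g : Matrix (Fin 2) (Fin 2) F) 1 1 → χ g = 0) ∧
    (χ 1 = (Fintype.card F : ℂ) + 1 → (∀ (c : F) (v : Fin 2 → F), v ≠ 0 → (g : Matrix (Fin 2) (Fin 2) F).mulVec v ≠ c • v) → χ g = 0) := by
  classical
  constructor
  · intro hd h01 h10 hne
    have hq : 3 ≤ Fintype.card F := by
      have hu := CfsgLib.GL2Borel.diag_ne g h10
      have h3 : ({0, (g : Matrix (Fin 2) (Fin 2) F) 0 0, (g : Matrix (Fin 2) (Fin 2) F) 1 1} : Finset F).card = 3 := by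
        rw [Finset.card_insert_of_notMem (by simp [Ne.symm (left_ne_zero_of_mul hu), Ne.symm (right_ne_zero_of_mul hu)]),
          Finset.card_pair hne]
      rw [← h3]; exact Finset.card_le_univ _
    exact CfsgLib.GL2Borel.cusp_split ⟨χ, hχ⟩ (CfsgLib.GL2Borel.of_degree_pred ⟨χ, hχ⟩ hq hd) g h01 h10 hne
  · intro hd hno
    obtain ⟨α, β, hab⟩ := CfsgLib.GL2Borel.of_degree_succ ⟨χ, hχ⟩ hd
    rw [show χ g = _ from hab g, CfsgLib.GL2Borel.principal_elliptic α β g hno]

end Cfsg.Agent.S2309
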