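import Cfsg.Statements.S2310
import Cfsg.Agent.Lib.GL2Borel.Classify

set_option autoImplicit false
open Cfsg

namespace Cfsg.Agent.S2310

/-- Over a finite field F with q ≥ 3 elements, let u be the upper unitriangular matrix of GL₂ with off-diagonal entry 1. An irreducible complex character χ of GL₂ takes at u the value 1 if χ has degree 1 or q + 1, the value −1 if χ has degree q − 1, and the value 0 if χ has degree q. -/
theorem result {F : Type*} [Field F] [Fintype F] (hq : 3 ≤ Fintype.card F) (χ : Matrix.GeneralLinearGroup (Fin 2) F → ℂ) (hχ : Cfsg.IsIrrCharacter (Matrix.GeneralLinearGroup (Fin 2) F) χ)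
    (u : Matrix.GeneralLinearGroup (Fin 2) F) (hu : (u : Matrix (Fin 2) (Fin 2) F) = !![1, 1; 0, 1]) :
    (χ 1 = 1 → χ u = 1) ∧ (χ 1 = (Fintype.card F : ℂ) + 1 → χ u = 1) ∧
    (χ 1 = (Fintype.card F : ℂ) - 1 → χ u = -1) ∧ (χ 1 = (Fintype.card F : ℂ) → χ u = 0) := by
  classical
  refine ⟨fun hd => ?_, fun hd => ?_, fun hd => ?_, fun hd => ?_⟩
  · rcases CfsgLib.GL2Borel.classify ⟨χ, hχ⟩ with hc | ⟨α, β, hab⟩ | ⟨α, he⟩ | ⟨α, hS⟩
    · exfalso
      have h1 := CfsgLib.GL2Borel.cusp_dvd ⟨χ, hχ⟩ hc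
      have h2 : Cfsg.charDegree χ = 1 := by
        have h3 := CfsgLib.Chars.irr_apply_one (⟨χ, hχ⟩ : Cfsg.IrrCharacter _)
        dsimp only at h3
        rw [hd] at h3
        exact_mod_cast h3.symm
      rw [h2] at h1
      have := Nat.le_of_dvd one_pos h1
      omega
    · have h1 := (hab 1).1
      dsimp only at h1
      rw [hd, CfsgLib.GL2Borel.principal_one] at h1
      exact absurd (show (Fintype.card F : ℂ) = 0 by linear_combination -h1) (Nat.cast_ne_zero.2 Fintype.card_ne_zero)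
    · have h1 : χ u = _ := congrFun (congrArg Subtype.val he) u
      rw [h1, CfsgLib.GL2Borel.lam_apply, hu]; simp
    · have h1 := hS 1
      dsimp only at h1
      rw [hd, CfsgLib.GL2Borel.principal_one, CfsgLib.GL2Borel.lam_degree] at h1
      have h2 : ((1 : ℕ) : ℂ) = (Fintype.card F : ℂ) := by push_cast; linear_combination h1
      have h3 : (1 : ℕ) = Fintype.card F := by exact_mod_cast h2
      omega
  · obtain ⟨α, β, hab⟩ := CfsgLib.GL2Borel.of_degree_succ ⟨χ, hχ⟩ hd
    rw [show χ u = _ from hab u, CfsgLib.GL2Borel.principal_unip α β u hu]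
  · have hc := CfsgLib.GL2Borel.of_degree_pred ⟨χ, hχ⟩ hq hd
    have h := CfsgLib.GL2Borel.cusp_unip ⟨χ, hχ⟩ hc u hu
    rw [← CfsgLib.Chars.irr_apply_one] at h
    dsimp only at h
    rw [hd] at h
    have hne : (Fintype.card F : ℂ) - 1 ≠ 0 := by
      rw [sub_ne_zero]; exact_mod_cast (show Fintype.card F ≠ 1 by omega)
    have h' : ((Fintype.card F : ℂ) - 1) * (χ u + 1) = 0 := by linear_combination h
    exact eq_neg_of_add_eq_zero_left ((mul_eq_zero.1 h').resolve_left hne)
  · obtain ⟨α, hS⟩ := CfsgLib.GL2Borel.of_degree_card ⟨χ, hχ⟩ hd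
    rw [show χ u = _ from hS u, CfsgLib.GL2Borel.principal_unip α α u hu, CfsgLib.GL2Borel.lam_apply, hu]
    simp

end Cfsg.Agent.S2310
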