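import Cfsg.Statements.S2315
import Mathlib
import Cfsg.Agent.Lib.Unipotent.NilpotentCount

set_option autoImplicit false
open Cfsg

namespace Cfsg.Agent.S2315

/-- Steinberg's count of unipotent elements for the general linear group: over a finite field with q elements of characteristic p, the number of elements of GL_n of p-power order (the unipotent matrices) is q^(n(n−1)). -/
theorem result {F : Type*} [Field F] [Fintype F] (p : ℕ) [Fact p.Prime] [CharP F p] (n : ℕ) :
    Nat.card {g : Matrix.GeneralLinearGroup (Fin n) F // ∃ k : ℕ, orderOf g = p ^ k} = Fintype.card F ^ (n * (n - 1)) := by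
  classical
  rw [← CfsgLib.Unipotent.NilpotentCount.card_nilpotent (F := F) n]
  rcases Nat.eq_zero_or_pos n with rfl | hn
  · refine Nat.card_congr (Equiv.ofBijective (fun _ => ⟨0, IsNilpotent.zero⟩) ⟨fun a b _ => Subtype.ext (Units.ext (Subsingleton.elim _ _)), fun b => ⟨⟨1, 0, by simp⟩, Subtype.ext (Subsingleton.elim _ _)⟩⟩)
  haveI : NeZero n := ⟨by omega⟩
  have key : ∀ g : GL (Fin n) F, (∃ k : ℕ, orderOf g = p ^ k) ↔ IsNilpotent ((g : Matrix (Fin n) (Fin n) F) - 1) := by
    intro g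
    constructor
    · rintro ⟨k, hk⟩
      exact ⟨p ^ k, (CfsgLib.Unipotent.coe_sub_one_pow p g k).2 (hk ▸ pow_orderOf_eq_one g)⟩
    · intro h
      obtain ⟨k, _, hk⟩ := (Nat.dvd_prime_pow Fact.out).1 (CfsgLib.Unipotent.orderOf_le p g h)
      exact ⟨k, hk⟩
  let f : {g : GL (Fin n) F // ∃ k : ℕ, orderOf g = p ^ k} → {N : Matrix (Fin n) (Fin n) F // IsNilpotent N} :=
    fun g => ⟨(g.1 : Matrix (Fin n) (Fin n) F) - 1, (key g.1).1 g.2⟩
  refine Nat.card_congr (Equiv.ofBijective f ⟨fun a b h => Subtype.ext (Units.ext (sub_left_injective (congrArg Subtype.val h))), fun N => ?_⟩)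
  have hu : IsUnit (N.1 + 1) := N.2.isUnit_add_one
  refine ⟨⟨hu.unit, (key _).2 ?_⟩, Subtype.ext ?_⟩
  · rw [IsUnit.unit_spec, add_sub_cancel_right]
    exact N.2
  · show (hu.unit : Matrix (Fin n) (Fin n) F) - 1 = N.1
    rw [IsUnit.unit_spec, add_sub_cancel_right]

end Cfsg.Agent.S2315
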