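import Cfsg.Statements.S2317
import Mathlib
import Cfsg.Agent.Lib.Unipotent.Basic
import Cfsg.Agent.Lib.Unipotent.NilpotentClasses

set_option autoImplicit false
open Cfsg

namespace Cfsg.Agent.S2317

/-- Over a finite field of characteristic p, the conjugacy classes of GL_n consisting of elements of p-power order (the unipotent classes) are as many as the partitions of n. -/
theorem result {F : Type*} [Field F] [Fintype F] (p : ℕ) [Fact p.Prime] [CharP F p] (n : ℕ) :
    Nat.card {C : ConjClasses (Matrix.GeneralLinearGroup (Fin n) F) //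
      ∃ g : Matrix.GeneralLinearGroup (Fin n) F, (∃ k : ℕ, orderOf g = p ^ k) ∧ ConjClasses.mk g = C} =
      Fintype.card (Nat.Partition n) := by
  classical
  rcases Nat.eq_zero_or_pos n with rfl | hn
  · rw [Nat.card_eq_one_iff_unique.2 ⟨⟨?_⟩, ⟨⟨ConjClasses.mk 1, 1, ⟨0, by simp⟩, rfl⟩⟩⟩]
    · exact (Fintype.card_unique (α := Nat.Partition 0)).symm
    · rintro ⟨a, ga, _, rfl⟩ ⟨b, gb, _, rfl⟩
      exact Subtype.ext (by rw [show ga = gb from Units.ext (Subsingleton.elim _ _)])
  haveI : NeZero n := ⟨by omega⟩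
  have key : ∀ g : GL (Fin n) F, (∃ k : ℕ, orderOf g = p ^ k) ↔ IsNilpotent ((g : Matrix (Fin n) (Fin n) F) - 1) := by
    intro g
    constructor
    · rintro ⟨k, hk⟩
      exact ⟨p ^ k, (CfsgLib.Unipotent.coe_sub_one_pow p g k).2 (hk ▸ pow_orderOf_eq_one g)⟩
    · intro h
      obtain ⟨k, _, hk⟩ := (Nat.dvd_prime_pow Fact.out).1 (CfsgLib.Unipotent.orderOf_le p g h)
      exact ⟨k, hk⟩
  obtain ⟨e⟩ := CfsgLib.Unipotent.NilpotentClasses.exists_class_equiv (K := F) (n := n)
    (fun g => IsNilpotent ((g : Matrix (Fin n) (Fin n) F) - 1)) (fun _ => True) (fun g h => h)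
    (fun μ g P hP => by
      refine iff_of_true ?_ trivial
      obtain ⟨k, hk⟩ := CfsgLib.Unipotent.NilpotentClasses.std_nilpotent (K := F) μ
      refine ⟨k, ?_⟩
      have hpow : ((g : Matrix (Fin n) (Fin n) F) - 1) ^ k * (P : Matrix (Fin n) (Fin n) F) = (P : Matrix (Fin n) (Fin n) F) * CfsgLib.Unipotent.NilpotentClasses.std F μ ^ k := by
        clear hk
        induction k with
        | zero => simp
        | succ j ih => rw [pow_succ, mul_assoc, hP, ← mul_assoc, ih, mul_assoc, ← pow_succ]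
      rw [hk, mul_zero] at hpow
      exact (Units.mul_left_eq_zero P).1 hpow)
  rw [← Nat.card_eq_fintype_card, ← Nat.card_congr (Equiv.subtypeUnivEquiv (p := fun _ : Nat.Partition n => True) fun _ => trivial),
    Nat.card_congr e]
  exact Nat.card_congr (Equiv.subtypeEquivRight fun C =>
    ⟨fun ⟨g, h, hg⟩ => ⟨g, hg, (key g).1 h⟩, fun ⟨g, hg, h⟩ => ⟨g, (key g).2 h, hg⟩⟩)

end Cfsg.Agent.S2317
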