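import Cfsg.Statements.S2320
import Cfsg.Agent.Lib.GL2Borel.Classify

set_option autoImplicit false
open Cfsg

namespace Cfsg.Agent.S2320

/-- Over a finite field F with q elements, every irreducible complex character of GL₂ of degree q takes a value of absolute value 1 at every diagonal matrix with two different diagonal entries and at every element with no eigenvector in F². -/
theorem result {F : Type*} [Field F] [Fintype F] (χ : Matrix.GeneralLinearGroup (Fin 2) F → ℂ) (hχ : Cfsg.IsIrrCharacter (Matrix.GeneralLinearGroup (Fin 2) F) χ) (hdeg : χ 1 = (Fintype.card F : ℂ)) (g : Matrix.GeneralLinearGroup (Fin 2) F) :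
    ((g : Matrix (Fin 2) (Fin 2) F) 0 1 = 0 → (g : Matrix (Fin 2) (Fin 2) F) 1 0 = 0 → (g : Matrix (Fin 2) (Fin 2) F) 0 0 ≠ (g : Matrix (Fin 2) (Fin 2) F) 1 1 → ‖χ g‖ = 1) ∧
    ((∀ (c : F) (v : Fin 2 → F), v ≠ 0 → (g : Matrix (Fin 2) (Fin 2) F).mulVec v ≠ c • v) → ‖χ g‖ = 1) := by
  classical
  obtain ⟨α, hS⟩ := CfsgLib.GL2Borel.of_degree_card ⟨χ, hχ⟩ hdeg
  have hnorm : ∀ x : Matrix.GeneralLinearGroup (Fin 2) F, ‖(CfsgLib.GL2Borel.lam α : _ → ℂ) x‖ = 1 := fun x => by
    have h := CfsgLib.GL2Borel.lam_mul_conj α x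
    rw [Complex.mul_conj, Complex.ofReal_eq_one, Complex.normSq_eq_norm_sq] at h
    exact (pow_eq_one_iff_of_nonneg (norm_nonneg _) two_ne_zero).1 h
  constructor
  · intro h01 h10 hne
    rw [show χ g = _ from hS g, CfsgLib.GL2Borel.principal_split α α g h01 h10 hne]
    have h1 : (CfsgLib.GL2Borel.lam α : _ → ℂ) g =
        α ((g : Matrix (Fin 2) (Fin 2) F) 0 0) * α ((g : Matrix (Fin 2) (Fin 2) F) 1 1) := by
      rw [CfsgLib.GL2Borel.lam_apply, h01, zero_mul, sub_zero, map_mul]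
    rw [mul_comm (α ((g : Matrix (Fin 2) (Fin 2) F) 1 1)), ← h1, add_sub_cancel_right, hnorm]
  · intro hno
    rw [show χ g = _ from hS g, CfsgLib.GL2Borel.principal_elliptic α α g hno, zero_sub, norm_neg, hnorm]

end Cfsg.Agent.S2320
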