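import Cfsg.Statements.S2321
import Cfsg.Agent.Lib.SL2Borel.Values

set_option autoImplicit false
open Cfsg

namespace Cfsg.Agent.S2321

/-- Over a finite field F with q elements, an irreducible complex character of SL₂ of degree q (the Steinberg character) takes the value 1 at every diagonal matrix whose diagonal entry a has a² ≠ 1, the value −1 at every element with no eigenvector in F², and the value 0 at every upper triangular matrix with equal diagonal entries and non-zero upper right entry. -/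
theorem result {F : Type*} [Field F] [Fintype F] (χ : Matrix.SpecialLinearGroup (Fin 2) F → ℂ) (hχ : Cfsg.IsIrrCharacter (Matrix.SpecialLinearGroup (Fin 2) F) χ) (hdeg : χ 1 = (Fintype.card F : ℂ)) (g : Matrix.SpecialLinearGroup (Fin 2) F) :
    ((g : Matrix (Fin 2) (Fin 2) F) 0 1 = 0 → (g : Matrix (Fin 2) (Fin 2) F) 1 0 = 0 → (g : Matrix (Fin 2) (Fin 2) F) 0 0 ^ 2 ≠ 1 → χ g = 1) ∧
    ((∀ (c : F) (v : Fin 2 → F), v ≠ 0 → (g : Matrix (Fin 2) (Fin 2) F).mulVec v ≠ c • v) → χ g = -1) ∧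
    ((g : Matrix (Fin 2) (Fin 2) F) 1 0 = 0 → (g : Matrix (Fin 2) (Fin 2) F) 0 0 = (g : Matrix (Fin 2) (Fin 2) F) 1 1 → (g : Matrix (Fin 2) (Fin 2) F) 0 1 ≠ 0 → χ g = 0) := by
  classical
  obtain ⟨X, Y, hY12, hd, hY, hval, hcases, -⟩ := CfsgLib.SL2Borel.over_degree (⟨χ, hχ⟩ : Cfsg.IrrCharacter _)
  have hq : 2 ≤ Fintype.card F := Fintype.one_lt_card
  have hψ : Cfsg.charDegree χ = Fintype.card F := by
    have e := CfsgLib.Chars.irr_apply_one (⟨χ, hχ⟩ : Cfsg.IrrCharacter _)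
    dsimp only at e
    rw [hdeg] at e
    exact_mod_cast e.symm
  dsimp only at hd
  rw [hψ] at hd
  have hY1 : Y.card = 1 := by
    rcases hY12 with h | h
    · exact h
    · rw [h] at hd; rcases hcases with c | c | c | c <;> omega
  rw [hY1, one_mul] at hd
  have hv : ∀ x, χ x = _ := hval hY1
  obtain ⟨α, hS⟩ := CfsgLib.GL2Borel.of_degree_card X (by rw [CfsgLib.Chars.irr_apply_one, hd])
  have hdet := CfsgLib.SL2Borel.det_eq g
  refine ⟨fun h01 h10 hne => ?_, fun hno => ?_, fun h10 heq h01 => ?_⟩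
  · rw [h01, zero_mul, sub_zero] at hdet
    have hne' : (g : Matrix (Fin 2) (Fin 2) F) 0 0 ≠ (g : Matrix (Fin 2) (Fin 2) F) 1 1 := fun h => by
      rw [← h] at hdet; exact hne (by rw [pow_two]; exact hdet)
    rw [hv g, hS, CfsgLib.GL2Borel.principal_split α α _ (by rw [CfsgLib.SL2Borel.toGL_coe]; exact h01)
      (by rw [CfsgLib.SL2Borel.toGL_coe]; exact h10) (by rw [CfsgLib.SL2Borel.toGL_coe]; exact hne'),
      CfsgLib.GL2Borel.lam_apply, CfsgLib.SL2Borel.toGL_coe, h01, zero_mul, sub_zero, ← map_mul, ← map_mul,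
      mul_comm ((g : Matrix (Fin 2) (Fin 2) F) 1 1), hdet, map_one]
    ring
  · rw [hv g, hS, CfsgLib.GL2Borel.principal_elliptic α α _ (by rw [CfsgLib.SL2Borel.toGL_coe]; exact hno),
      CfsgLib.GL2Borel.lam_apply, CfsgLib.SL2Borel.toGL_coe, hdet, map_one, zero_sub]
  · rw [hv g]; exact CfsgLib.SL2Borel.chi_upper X hd g h10 heq h01

end Cfsg.Agent.S2321
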