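import Cfsg.Statements.S2322
import Cfsg.Agent.Lib.SL2Borel.Degrees
import Cfsg.Agent.Lib.Chars.TIAbelian

set_option autoImplicit false
open Cfsg

namespace CfsgLib.SL2Three
open Matrix CfsgLib.Chars in
/-- The characters of degree two of `SL(2,3)` vanish at elliptic elements. -/
theorem corner {F : Type*} [Field F] [Fintype F] (hq : Fintype.card F = 3)
    (χ : Cfsg.IrrCharacter (Matrix.SpecialLinearGroup (Fin 2) F))
    (h2 : (χ : Matrix.SpecialLinearGroup (Fin 2) F → ℂ) 1 = 2) (g : Matrix.SpecialLinearGroup (Fin 2) F)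
    (hno : ∀ (c : F) (v : Fin 2 → F), v ≠ 0 → (g : Matrix (Fin 2) (Fin 2) F).mulVec v ≠ c • v) :
    (χ : Matrix.SpecialLinearGroup (Fin 2) F → ℂ) g = 0 := by
  classical
  haveI : Fintype (Matrix.SpecialLinearGroup (Fin 2) F) := Fintype.ofFinite _
  set f := fun x : Matrix.SpecialLinearGroup (Fin 2) F => Complex.normSq ((χ : _ → ℂ) x) with hf
  set T := fun x : Matrix.SpecialLinearGroup (Fin 2) F =>
    (x : Matrix (Fin 2) (Fin 2) F) 0 0 + (x : Matrix (Fin 2) (Fin 2) F) 1 1 with hT
  have h3 : (3 : F) = 0 := by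
    have := FiniteField.cast_card_eq_zero F
    rw [hq] at this
    exact_mod_cast this
  have htot : ∑ x, f x = 24 := by
    have h := CfsgLib.Chars.classInner_irr χ χ
    rw [if_pos rfl, Cfsg.classInner, CfsgLib.SL2Borel.card_SL2, hq] at h
    simp only [Complex.mul_conj] at h
    rw [← Complex.ofReal_sum] at h
    have h' : ((∑ x, f x : ℝ) : ℂ) = ((24 : ℝ) : ℂ) := by
      have hne : ((3 * (3 ^ 2 - 1) : ℕ) : ℂ) ≠ 0 := by norm_num
      rw [inv_mul_eq_iff_eq_mul₀ hne, mul_one] at h
      rw [h]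
      norm_num
    exact_mod_cast h'
  -- elements of trace two
  have hA : ∀ x, T x = 2 → 1 ≤ f x := by
    intro x hx
    have hd := CfsgLib.SL2Borel.det_eq x
    simp only [hT] at hx
    have hsq : (x : Matrix (Fin 2) (Fin 2) F) * (x : Matrix (Fin 2) (Fin 2) F) =
        (2 : F) • (x : Matrix (Fin 2) (Fin 2) F) - 1 := by
      ext i j
      fin_cases i <;> fin_cases j <;> simp [Matrix.mul_apply, Fin.sum_univ_two]
      · linear_combination (x : Matrix (Fin 2) (Fin 2) F) 0 0 * hx - hd
      · linear_combination (x : Matrix (Fin 2) (Fin 2) F) 0 1 * hx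
      · linear_combination (x : Matrix (Fin 2) (Fin 2) F) 1 0 * hx
      · linear_combination (x : Matrix (Fin 2) (Fin 2) F) 1 1 * hx - hd
    have hx3 : x ^ 3 = 1 := by
      refine Subtype.ext ?_
      show ((x ^ 3 : Matrix.SpecialLinearGroup (Fin 2) F) : Matrix (Fin 2) (Fin 2) F) = 1
      rw [pow_succ, pow_two, Matrix.SpecialLinearGroup.coe_mul, Matrix.SpecialLinearGroup.coe_mul, hsq,
        sub_mul, smul_mul_assoc, hsq, one_mul]
      ext i j
      simp [Matrix.smul_apply]
      linear_combination (x : Matrix (Fin 2) (Fin 2) F) i j * h3 - (1 : Matrix (Fin 2) (Fin 2) F) i j * h3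
    obtain ⟨l, hl, hk⟩ := CfsgLib.Chars.exists_list_eigen (CfsgLib.Chars.isCharacter_irr χ) x
    have hlen := CfsgLib.Chars.eigen_length hk
    rw [h2] at hlen
    have hlen2 : l.length = 2 := by exact_mod_cast hlen.symm
    obtain ⟨a, b, rfl⟩ := List.length_eq_two.1 hlen2
    have hcube : ∀ μ ∈ [a, b], μ ^ 3 = 1 := fun μ hμ => by
      obtain ⟨k, hk⟩ := orderOf_dvd_of_pow_eq_one hx3
      rw [hk, pow_mul, hl μ hμ, one_pow]
    have hv := hk 1
    rw [pow_one] at hv
    simp only [List.map_cons, List.map_nil, pow_one, List.sum_cons, List.sum_nil, add_zero] at hv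
    have ha := hcube a (by simp)
    have hb := hcube b (by simp)
    have hna : (starRingEnd ℂ) a = a ^ 2 := by
      rw [← Complex.inv_eq_conj (Complex.norm_eq_one_of_pow_eq_one ha three_ne_zero)]
      exact inv_eq_of_mul_eq_one_right (by rw [← ha]; ring)
    have hnb : (starRingEnd ℂ) b = b ^ 2 := by
      rw [← Complex.inv_eq_conj (Complex.norm_eq_one_of_pow_eq_one hb three_ne_zero)]
      exact inv_eq_of_mul_eq_one_right (by rw [← hb]; ring)
    have hns : (f x : ℂ) = 2 + (a * b ^ 2 + (a * b ^ 2) ^ 2) := by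
      simp only [hf]
      rw [Complex.normSq_eq_conj_mul_self, hv, map_add, hna, hnb]
      linear_combination ha + hb - a ^ 2 * b * hb
    have hz : (a * b ^ 2) ^ 3 = 1 := by rw [mul_pow, ← pow_mul, mul_comm 2 3, pow_mul, ha, hb, one_pow, one_mul]
    have hfac : (a * b ^ 2 - 1) * ((a * b ^ 2) ^ 2 + a * b ^ 2 + 1) = 0 := by linear_combination hz
    rcases mul_eq_zero.1 hfac with h | h
    · rw [sub_eq_zero.1 h] at hns
      have : f x = (2 + (1 + 1) : ℝ) := by
        have h' : (f x : ℂ) = ((2 + (1 + 1) : ℝ) : ℂ) := by rw [hns]; push_cast; ring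
        exact_mod_cast h'
      rw [this]; norm_num
    · have : f x = 1 := by
        have h' : (f x : ℂ) = ((1 : ℝ) : ℂ) := by rw [hns]; push_cast; linear_combination h
        exact_mod_cast h'
      rw [this]
  have hf1 : f 1 = 4 := by simp [hf, h2]; norm_num
  set A := Finset.univ.filter fun x => T x = 2 with hAdef
  set B := Finset.univ.filter fun x => T x = -2 with hBdef
  have hAsum : 12 ≤ ∑ x ∈ A, f x := by
    have h1 : (1 : Matrix.SpecialLinearGroup (Fin 2) F) ∈ A := by
      simp [A, hT]; norm_num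
    have hcard : A.card = 9 := by
      have h := CfsgLib.SL2Torus.card_trace_unip (F := F) (e := 1) (one_mul 1)
      rw [Nat.card_eq_fintype_card, Fintype.card_subtype, hq] at h
      refine Eq.trans (congrArg Finset.card ?_) h
      ext x
      simp [A, hT, CfsgLib.SL2Torus.tr, Matrix.trace_fin_two]
    have hge : (8 : ℝ) ≤ ∑ x ∈ A.erase 1, f x := by
      have h := Finset.sum_le_sum (f := fun _ => (1 : ℝ)) (g := f) (s := A.erase 1)
        (fun x hx => hA x (Finset.mem_filter.1 (Finset.mem_of_mem_erase hx)).2)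
      rw [Finset.sum_const, Finset.card_erase_of_mem h1, hcard] at h
      simpa using h
    rw [← Finset.add_sum_erase A f h1, hf1]
    linarith
  let z : Matrix.SpecialLinearGroup (Fin 2) F := ⟨-1, by simp [Matrix.det_neg]⟩
  have hz : z ∈ Subgroup.center (Matrix.SpecialLinearGroup (Fin 2) F) := by
    rw [Subgroup.mem_center_iff]
    intro y
    refine Subtype.ext ?_
    rw [Matrix.SpecialLinearGroup.coe_mul, Matrix.SpecialLinearGroup.coe_mul]
    show _ * (-1 : Matrix (Fin 2) (Fin 2) F) = (-1 : Matrix (Fin 2) (Fin 2) F) * _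
    rw [mul_neg, mul_one, neg_mul, one_mul]
  have hBsum : ∑ x ∈ A, f x ≤ ∑ x ∈ B, f x := by
    have himg : A.image (fun x => z * x) ⊆ B := by
      intro y hy
      obtain ⟨x, hx, rfl⟩ := Finset.mem_image.1 hy
      simp [A, hT] at hx
      have e : ((z * x : Matrix.SpecialLinearGroup (Fin 2) F) : Matrix (Fin 2) (Fin 2) F) = -(x : Matrix (Fin 2) (Fin 2) F) := by
        rw [Matrix.SpecialLinearGroup.coe_mul]
        show (-1 : Matrix (Fin 2) (Fin 2) F) * _ = _
        rw [neg_mul, one_mul]
      refine Finset.mem_filter.2 ⟨Finset.mem_univ _, ?_⟩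
      simp only [hT, e, Matrix.neg_apply]
      linear_combination -hx
    refine le_trans (le_of_eq ?_) (Finset.sum_le_sum_of_subset_of_nonneg himg fun i _ _ => Complex.normSq_nonneg _)
    rw [Finset.sum_image fun a _ b _ h => mul_left_cancel h]
    refine Finset.sum_congr rfl fun x _ => ?_
    simp only [hf]
    rw [CfsgLib.Chars.TIAbelian.central_value χ hz x, map_mul, map_div₀, CfsgLib.Chars.TIAbelian.normSq_central χ hz, h2]
    have hd : (Cfsg.charDegree (χ : Matrix.SpecialLinearGroup (Fin 2) F → ℂ) : ℝ) = 2 := by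
      have := h2
      rw [CfsgLib.Chars.irr_apply_one] at this
      exact_mod_cast this
    rw [hd]
    norm_num
  have hnot : ∀ e : F, e * e = 1 → T g ≠ 2 * e := by
    intro e he hc
    obtain ⟨v, hv, hv0⟩ := (Matrix.exists_mulVec_eq_zero_iff
      (M := (g : Matrix (Fin 2) (Fin 2) F) - e • (1 : Matrix (Fin 2) (Fin 2) F))).2 (by
      have hd := CfsgLib.SL2Borel.det_eq g
      simp only [hT] at hc
      rw [Matrix.det_fin_two]
      simp
      linear_combination hd - e * hc - he)
    refine hno e v hv ?_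
    rw [Matrix.sub_mulVec, Matrix.smul_mulVec, Matrix.one_mulVec, sub_eq_zero] at hv0
    exact hv0
  have hgA : g ∉ A := fun h => hnot 1 (one_mul 1) (by rw [(Finset.mem_filter.1 h).2, mul_one])
  have hgB : g ∉ B := fun h => hnot (-1) (by ring) (by rw [(Finset.mem_filter.1 h).2]; ring)
  have hAB : Disjoint A B := Finset.disjoint_left.2 fun x h h' => by
    have e := (Finset.mem_filter.1 h).2.symm.trans (Finset.mem_filter.1 h').2
    exact one_ne_zero (α := F) (by linear_combination e - h3)
  have hle := Finset.sum_le_univ_sum_of_nonneg (f := f) (s := insert g (A ∪ B)) fun i => Complex.normSq_nonneg _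
  rw [Finset.sum_insert (by simp [hgA, hgB]), Finset.sum_union hAB, htot] at hle
  exact Complex.normSq_eq_zero.1 (le_antisymm (by show f g ≤ 0; linarith) (Complex.normSq_nonneg _))
end CfsgLib.SL2Three

namespace Cfsg.Agent.S2322

/-- Over a finite field F with q elements, q odd: every irreducible complex character of SL₂ of degree q − 1 or (q − 1)/2 vanishes at every diagonal matrix whose diagonal entry a has a² ≠ 1, and every irreducible complex character of degree q + 1 or (q + 1)/2 vanishes at every element with no eigenvector in F². -/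
theorem result {F : Type*} [Field F] [Fintype F] (hodd : Odd (Fintype.card F)) (χ : Matrix.SpecialLinearGroup (Fin 2) F → ℂ) (hχ : Cfsg.IsIrrCharacter (Matrix.SpecialLinearGroup (Fin 2) F) χ) (g : Matrix.SpecialLinearGroup (Fin 2) F) :
    ((χ 1 = (Fintype.card F : ℂ) - 1 ∨ χ 1 = (((Fintype.card F - 1) / 2 : ℕ) : ℂ)) →
      (g : Matrix (Fin 2) (Fin 2) F) 0 1 = 0 → (g : Matrix (Fin 2) (Fin 2) F) 1 0 = 0 → (g : Matrix (Fin 2) (Fin 2) F) 0 0 ^ 2 ≠ 1 → χ g = 0) ∧
    ((χ 1 = (Fintype.card F : ℂ) + 1 ∨ χ 1 = (((Fintype.card F + 1) / 2 : ℕ) : ℂ)) →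
      (∀ (c : F) (v : Fin 2 → F), v ≠ 0 → (g : Matrix (Fin 2) (Fin 2) F).mulVec v ≠ c • v) → χ g = 0) := by
  classical
  obtain ⟨X, Y, hY12, hd, hY, -, hcases, -⟩ := CfsgLib.SL2Borel.over_degree (⟨χ, hχ⟩ : Cfsg.IrrCharacter _)
  dsimp only at hd hY
  have hval := CfsgLib.SL2Borel.val_of_commutant (⟨χ, hχ⟩ : Cfsg.IrrCharacter _) X Y hY g
  dsimp only at hval
  have h1 : χ 1 = (Cfsg.charDegree χ : ℂ) := CfsgLib.Chars.irr_apply_one (⟨χ, hχ⟩ : Cfsg.IrrCharacter _)
  have hYne : (Y.card : ℂ) ≠ 0 := Nat.cast_ne_zero.2 (by omega)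
  have hq3 : 3 ≤ Fintype.card F := by
    have h := Fintype.one_lt_card (α := F); obtain ⟨k, hk⟩ := hodd; omega
  obtain ⟨k, hk⟩ := hodd
  constructor
  · intro hdeg h01 h10 hne2
    have hdet := CfsgLib.SL2Borel.det_eq g
    rw [h01, h10, mul_zero, sub_zero] at hdet
    by_cases hq : Fintype.card F = 3
    · refine absurd ?_ hne2
      have := FiniteField.pow_card_sub_one_eq_one _ (left_ne_zero_of_mul_eq_one hdet)
      rwa [hq] at this
    have hdd : Cfsg.charDegree χ = Fintype.card F - 1 ∨ Cfsg.charDegree χ = (Fintype.card F - 1) / 2 := by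
      rw [h1] at hdeg
      rcases hdeg with h | h
      · left
        have : ((Cfsg.charDegree χ + 1 : ℕ) : ℂ) = (Fintype.card F : ℂ) := by push_cast; linear_combination h
        have : Cfsg.charDegree χ + 1 = Fintype.card F := by exact_mod_cast this
        omega
      · exact Or.inr (Nat.cast_injective h)
    have hX : Cfsg.charDegree (X : Matrix.GeneralLinearGroup (Fin 2) F → ℂ) = Fintype.card F - 1 := by
      rcases hY12 with c | c <;> rw [c] at hd <;> rcases hdd with d | d <;> rw [d] at hd <;>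
        rcases hcases with h | h | h | h <;> omega
    have hcusp := CfsgLib.GL2Borel.of_degree_pred X hq3 (by
      rw [CfsgLib.Chars.irr_apply_one, hX, Nat.cast_sub (by omega), Nat.cast_one])
    have h0 := CfsgLib.GL2Borel.cusp_split X hcusp (Matrix.SpecialLinearGroup.toGL g) h01 h10 (fun h => hne2 (by
      rw [CfsgLib.SL2Borel.toGL_coe] at h
      rw [← h] at hdet; rw [pow_two]; exact hdet))
    rw [hval (CfsgLib.SL2Borel.exists_commutant_diag g h01 h10)] at h0
    exact (mul_eq_zero.1 h0).resolve_left hYne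
  · intro hdeg hno
    have hdd : Cfsg.charDegree χ = Fintype.card F + 1 ∨ Cfsg.charDegree χ = (Fintype.card F + 1) / 2 := by
      rw [h1] at hdeg
      rcases hdeg with h | h
      · exact Or.inl (by exact_mod_cast h)
      · exact Or.inr (Nat.cast_injective h)
    by_cases hc : Fintype.card F = 3 ∧ Cfsg.charDegree χ = 2
    · exact CfsgLib.SL2Three.corner hc.1 (⟨χ, hχ⟩ : Cfsg.IrrCharacter _) (by
        show χ 1 = 2
        rw [h1, hc.2, Nat.cast_ofNat]) g hno
    have hX : Cfsg.charDegree (X : Matrix.GeneralLinearGroup (Fin 2) F → ℂ) = Fintype.card F + 1 := by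
      rcases hY12 with c | c <;> rw [c] at hd <;> rcases hdd with d | d <;> rw [d] at hd hc <;>
        rcases hcases with h | h | h | h <;> omega
    obtain ⟨α, β, hab⟩ := CfsgLib.GL2Borel.of_degree_succ X (by
      rw [CfsgLib.Chars.irr_apply_one, hX, Nat.cast_add, Nat.cast_one])
    have h0 : (X : Matrix.GeneralLinearGroup (Fin 2) F → ℂ) (Matrix.SpecialLinearGroup.toGL g) = 0 := by
      rw [hab]; exact CfsgLib.GL2Borel.principal_elliptic α β _ hno
    rw [hval (CfsgLib.SL2Borel.exists_commutant_elliptic g hno)] at h0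
    exact (mul_eq_zero.1 h0).resolve_left hYne

end Cfsg.Agent.S2322
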