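import Cfsg.Statements.S2323
import Cfsg.Agent.Lib.SL2Borel.Values

set_option autoImplicit false
open Cfsg

namespace Cfsg.Agent.S2323

/-- Over a finite field F with q ≥ 4 elements, let u be the upper unitriangular matrix of SL₂ with off-diagonal entry 1. An irreducible complex character of SL₂ takes at u the value 1 if its degree is q + 1 and the value −1 if its degree is q − 1. -/
theorem result {F : Type*} [Field F] [Fintype F] (hq : 4 ≤ Fintype.card F) (χ : Matrix.SpecialLinearGroup (Fin 2) F → ℂ) (hχ : Cfsg.IsIrrCharacter (Matrix.SpecialLinearGroup (Fin 2) F) χ)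
    (u : Matrix.SpecialLinearGroup (Fin 2) F) (hu : (u : Matrix (Fin 2) (Fin 2) F) = !![1, 1; 0, 1]) :
    (χ 1 = (Fintype.card F : ℂ) + 1 → χ u = 1) ∧ (χ 1 = (Fintype.card F : ℂ) - 1 → χ u = -1) := by
  classical
  obtain ⟨X, Y, hY12, hd, hY, hval, hcases, -⟩ := CfsgLib.SL2Borel.over_degree (⟨χ, hχ⟩ : Cfsg.IrrCharacter _)
  have e := CfsgLib.Chars.irr_apply_one (⟨χ, hχ⟩ : Cfsg.IrrCharacter _)
  dsimp only at e hd
  refine ⟨fun h1 => ?_, fun h1 => ?_⟩
  · have hψ : Cfsg.charDegree χ = Fintype.card F + 1 := by rw [h1] at e; exact_mod_cast e.symm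
    rw [hψ] at hd
    have hY1 : Y.card = 1 := by
      rcases hY12 with h | h
      · exact h
      · rw [h] at hd; rcases hcases with c | c | c | c <;> omega
    rw [hY1, one_mul] at hd
    obtain ⟨α, β, hP⟩ := CfsgLib.GL2Borel.of_degree_succ X (by rw [CfsgLib.Chars.irr_apply_one, hd]; push_cast; rfl)
    rw [show χ u = _ from hval hY1 u, hP,
      CfsgLib.GL2Borel.principal_unip α β _ (by rw [CfsgLib.SL2Borel.toGL_coe]; exact hu)]
  · have hq1 : 1 ≤ Fintype.card F := by omega
    have hψ : Cfsg.charDegree χ = Fintype.card F - 1 := by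
      rw [h1] at e
      have e' : ((Fintype.card F - 1 : ℕ) : ℂ) = (Cfsg.charDegree χ : ℂ) := by
        rw [Nat.cast_sub hq1, Nat.cast_one]; exact e
      exact_mod_cast e'.symm
    rw [hψ] at hd
    have hY1 : Y.card = 1 := by
      rcases hY12 with h | h
      · exact h
      · rw [h] at hd; rcases hcases with c | c | c | c <;> omega
    rw [hY1, one_mul] at hd
    have hc := CfsgLib.GL2Borel.of_degree_pred X (by omega)
      (by rw [CfsgLib.Chars.irr_apply_one, hd, Nat.cast_sub hq1, Nat.cast_one])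
    have h := CfsgLib.GL2Borel.cusp_unip X hc (Matrix.SpecialLinearGroup.toGL u) (by rw [CfsgLib.SL2Borel.toGL_coe]; exact hu)
    rw [hd, Nat.cast_sub hq1, Nat.cast_one] at h
    have hne : (Fintype.card F : ℂ) - 1 ≠ 0 := by
      rw [sub_ne_zero]; exact_mod_cast (show Fintype.card F ≠ 1 by omega)
    rw [show χ u = _ from hval hY1 u]
    exact eq_neg_of_add_eq_zero_left ((mul_eq_zero.1 (show ((Fintype.card F : ℂ) - 1) * ((X : _ → ℂ) (Matrix.SpecialLinearGroup.toGL u) + 1) = 0 by linear_combination h)).resolve_left hne)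

end Cfsg.Agent.S2323
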