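import Cfsg.Statements.S2325
import Mathlib
import Cfsg.Agent.Lib.SL2.ClassNumber

set_option autoImplicit false
open Cfsg

namespace Cfsg.Agent.S2325

/-- Over a finite field with q elements, q odd, the special linear group SL₂ has exactly q + 4 conjugacy classes. -/
theorem result {F : Type*} [Field F] [Fintype F] (hodd : Odd (Fintype.card F)) :
    Nat.card (ConjClasses (Matrix.SpecialLinearGroup (Fin 2) F)) = Fintype.card F + 4 := by
  classical
  rw [CfsgLib.SL2Torus.class_number, if_neg (CfsgLib.SL2Torus.two_ne_of_odd (Nat.odd_iff.1 hodd))]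

end Cfsg.Agent.S2325
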