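import Cfsg.Statements.S2328
import Cfsg.Agent.Lib.Chev.Group.Steinberg
import Cfsg.Agent.S0165
import Cfsg.Agent.S2326

set_option autoImplicit false
open Cfsg

namespace Cfsg.Agent.S2328

/-- In a Chevalley group of type G₂, B₂, D₄, F₄, E₆, E₇ or E₈ over a finite field of characteristic p, the Steinberg character vanishes at every element whose order is divisible by p (every element that is not semisimple). -/
theorem result {F : Type*} [Field F] [Fintype F] (p : ℕ) [Fact p.Prime] [CharP F p] (D : Cfsg.Lie.ChevalleyDatum) (hD : D ∈ [Cfsg.Lie.chevG2, Cfsg.Lie.chevB2, Cfsg.Lie.chevD4, Cfsg.Lie.chevF4, Cfsg.Lie.chevE6, Cfsg.Lie.chevE7, Cfsg.Lie.chevE8]) (g : ↥(D.group F)) (hg : p ∣ orderOf g) :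
    D.steinbergCharacter F g = 0 := by
  classical
  obtain ⟨n, ρ, hρ, hχ⟩ := CfsgLib.Chev.Steinberg.irreducible (F := F) hD
  have hd := CfsgLib.Chev.Steinberg.degree (F := F) hD
  rw [← hχ] at hd ⊢
  rw [Representation.char_one] at hd
  have hd' : Module.finrank ℂ (Fin n → ℂ) = Fintype.card F ^ (D.nroots / 2) := by exact_mod_cast hd
  obtain ⟨P, hP⟩ := Cfsg.Agent.S2326.result (F := F) p D hD
  have hcard := P.card_eq_multiplicity
  rw [hP, Nat.card_congr (Subgroup.subgroupOfEquivOfLe (le_sup_left.trans (CfsgLib.Chev.Basic.borel_le_group (F := F) hD))).toEquiv,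
    CfsgLib.Chev.U.card_posUnipotent hD] at hcard
  refine Cfsg.Agent.S0165.result ρ p _ Fact.out (Nat.ordProj_dvd _ p) ?_ (by rw [hd', hcard]) g hg
  exact Nat.pow_succ_factorization_not_dvd Nat.card_pos.ne' Fact.out

end Cfsg.Agent.S2328
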