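import Cfsg.Statements.S2329
import Cfsg.Agent.Lib.SL2Classes.Unipotent

set_option autoImplicit false
open Cfsg

namespace Cfsg.Agent.S2329

/-- Over a finite field of characteristic p, any two elements of order p of GL₂ are conjugate: there is a single conjugacy class of non-identity unipotent elements. -/
theorem result {F : Type*} [Field F] [Fintype F] (p : ℕ) [Fact p.Prime] [CharP F p] (g h : Matrix.GeneralLinearGroup (Fin 2) F)
    (hg : orderOf g = p) (hh : orderOf h = p) : IsConj g h := by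
  obtain ⟨P, hP⟩ := CfsgLib.SL2Classes.exists_gl_normal_form p hg
  obtain ⟨Q, hQ⟩ := CfsgLib.SL2Classes.exists_gl_normal_form p hh
  refine isConj_iff.mpr ⟨Q * P⁻¹, ?_⟩
  rw [mul_inv_eq_iff_eq_mul, ← mul_right_inj Q⁻¹]
  have hP' : P⁻¹ * g * P = Q⁻¹ * h * Q := by
    apply Units.ext
    rw [Units.val_mul, Units.val_mul, Units.val_mul, Units.val_mul, mul_assoc, hP, mul_assoc, hQ,
      ← mul_assoc, ← mul_assoc, Units.inv_mul, Units.inv_mul]
  calc Q⁻¹ * (Q * P⁻¹ * g) = (P⁻¹ * g * P) * P⁻¹ := by group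
    _ = (Q⁻¹ * h * Q) * P⁻¹ := by rw [hP']
    _ = Q⁻¹ * (h * (Q * P⁻¹)) := by group

end Cfsg.Agent.S2329
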