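import Cfsg.Statements.S2364
import Cfsg.Agent.Lib.Linear.Card

set_option autoImplicit false
open Cfsg

namespace CfsgLib.SLCommuting
open Matrix

variable {F : Type*} [Field F] [Fintype F]

/-- In dimension at most `m` an `r`-element is trivial. -/
theorem small {r m : ℕ} [Fact r.Prime] (hr : ∀ d, 1 ≤ d → d ≤ m → ¬ r ∣ Nat.card (GL (Fin d) F))
    {U : Type*} [AddCommGroup U] [Module F U] [Module.Finite F U] (hd : Module.finrank F U ≤ m)
    (g : U →ₗ[F] U) (hg : g ^ r = 1) (u : U) : g u = u := by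
  classical
  rcases Nat.eq_zero_or_pos (Module.finrank F U) with h0 | h0
  · haveI := Module.finrank_zero_iff (R := F) (M := U) |>.1 h0
    exact Subsingleton.elim _ _
  let b := Module.finBasis F U
  let e := LinearMap.toMatrixAlgEquiv b
  have hM : (e g) ^ r = 1 := by rw [← map_pow, hg, map_one]
  let y : GL (Fin (Module.finrank F U)) F := Units.ofPowEqOne _ r hM (Fact.out : r.Prime).ne_zero
  have hy : y ^ r = 1 := Units.ext hM
  have h1 : y = 1 := by
    rcases (Nat.dvd_prime (Fact.out : r.Prime)).1 (orderOf_dvd_of_pow_eq_one hy) with h | h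
    · exact orderOf_eq_one_iff.1 h
    · exact absurd (h ▸ orderOf_dvd_natCard y) (hr _ h0 hd)
  have : g = 1 := e.injective (by rw [map_one]; exact congrArg Units.val h1)
  rw [this]; rfl

theorem fix {r : ℕ} {V : Type*} [AddCommGroup V] [Module F V] (hr : (r : F) ≠ 0) (f : V →ₗ[F] V) (hf : f ^ r = 1)
    (U : Submodule F V) (hU : ∀ u ∈ U, f u = u) (v : V) (hv : f v - v ∈ U) : f v = v := by
  have hi : ∀ i : ℕ, (f ^ i) v = v + i • (f v - v) := by
    intro i
    induction i with
    | zero => simp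
    | succ i ih =>
      rw [pow_succ', Module.End.mul_apply, ih, map_add, map_nsmul, hU _ hv, add_smul, one_smul]
      abel
  have h := hi r
  rw [hf, Module.End.one_apply, left_eq_add, ← Nat.cast_smul_eq_nsmul F] at h
  exact sub_eq_zero.1 ((smul_eq_zero.1 h).resolve_left hr)

theorem main {r n : ℕ} [Fact r.Prime] (hn : 4 ≤ n) (hr : ∀ d, 1 ≤ d → d ≤ n - 2 → ¬ r ∣ Nat.card (GL (Fin d) F))
    (hrF : (r : F) ≠ 0) {V : Type*} [AddCommGroup V] [Module F V] [Module.Finite F V] (hV : Module.finrank F V = n)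
    (f N : V →ₗ[F] V) (hf : f ^ r = 1) (hfN : ∀ v, f (N v) = N (f v)) {k : ℕ} (hk : N ^ k = 0) (hN : N ≠ 0) : f = 1 := by
  have hsum := LinearMap.finrank_range_add_finrank_ker N
  rw [hV] at hsum
  have hpos : 1 ≤ Module.finrank F (LinearMap.range N) := by
    rw [Nat.one_le_iff_ne_zero, ne_eq, Submodule.finrank_eq_zero, LinearMap.range_eq_bot]; exact hN
  have res : ∀ U : Submodule F V, (∀ u ∈ U, f u ∈ U) → Module.finrank F U ≤ n - 2 → ∀ u ∈ U, f u = u := by
    intro U hU hd u hu
    exact congrArg Subtype.val (small hr hd (f.restrict hU) (by rw [Module.End.pow_restrict r hU]; ext x; simp [hf]) ⟨u, hu⟩)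
  have hkerinv : ∀ u ∈ LinearMap.ker N, f u ∈ LinearMap.ker N := fun u hu => by
    rw [LinearMap.mem_ker] at hu ⊢; rw [← hfN, hu, map_zero]
  have hraninv : ∀ u ∈ LinearMap.range N, f u ∈ LinearMap.range N := by
    rintro u ⟨w, rfl⟩; exact ⟨f w, (hfN w).symm⟩
  have hker_pos : LinearMap.ker N ≠ ⊥ := fun h => by
    have hi : Function.Injective N := LinearMap.ker_eq_bot.1 h
    have : Function.Injective (N ^ k : V →ₗ[F] V) := by rw [Module.End.coe_pow]; exact hi.iterate k
    rw [hk] at this
    refine hN (LinearMap.ext fun v => ?_)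
    rw [this (a₁ := v) (a₂ := 0) rfl, map_zero]; rfl
  refine LinearMap.ext fun v => ?_
  show f v = v
  by_cases hbig : Module.finrank F (LinearMap.range N) ≤ n - 2
  · have h1 := res _ hraninv hbig
    by_cases hsmall : Module.finrank F (LinearMap.ker N) ≤ n - 2
    · refine fix hrF f hf _ (res _ hkerinv hsmall) v ?_
      rw [LinearMap.mem_ker, map_sub, ← hfN, h1 _ ⟨v, rfl⟩, sub_self]
    · -- the range is a line inside the kernel
      have hr1 : Module.finrank F (LinearMap.range N) = 1 := by omega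
      have hle : LinearMap.range N ≤ LinearMap.ker N := by
        rintro - ⟨w, rfl⟩
        rw [LinearMap.mem_ker]
        by_contra hne
        obtain ⟨c, hc⟩ := exists_smul_eq_of_finrank_eq_one hr1
          (x := ⟨N w, w, rfl⟩) (fun h => hne (by rw [show N w = 0 from congrArg Subtype.val h, map_zero])) ⟨N (N w), _, rfl⟩
        have hc' : N (N w) = c • N w := (congrArg Subtype.val hc).symm
        have hpow : ∀ i : ℕ, (N ^ i) (N w) = c ^ i • N w := by
          intro i
          induction i with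
          | zero => simp
          | succ i ih => rw [pow_succ', Module.End.mul_apply, ih, map_smul, hc', smul_smul, ← pow_succ]
        have h0 := hpow k
        rw [hk, LinearMap.zero_apply, eq_comm, smul_eq_zero] at h0
        rcases h0 with h0 | h0
        · exact hne (by rw [hc', eq_zero_of_pow_eq_zero h0, zero_smul])
        · exact hne (by rw [h0, map_zero])
      refine fix hrF f hf (LinearMap.ker N) ?_ v (by rw [LinearMap.mem_ker, map_sub, ← hfN, h1 _ ⟨v, rfl⟩, sub_self])
      set W := LinearMap.ker N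
      set g := f.restrict hkerinv with hg
      set L : Submodule F W := (LinearMap.range N).comap W.subtype with hL
      have hgr : g ^ r = 1 := by rw [hg, Module.End.pow_restrict r hkerinv]; ext x; simp [hf]
      have hgL : L ≤ L.comap g := fun x hx => hraninv _ hx
      have hdL : Module.finrank F (W ⧸ L) ≤ n - 2 := by
        have h := Submodule.finrank_quotient_add_finrank L
        rw [(Submodule.comapSubtypeEquivOfLe hle).finrank_eq, hr1] at h
        omega
      have hqpow : ∀ i : ℕ, ∀ x : W, ((L.mapQ L g hgL) ^ i) (Submodule.Quotient.mk x) = Submodule.Quotient.mk ((g ^ i) x) := by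
        intro i x
        induction i with
        | zero => simp
        | succ i ih => rw [pow_succ', pow_succ', Module.End.mul_apply, Module.End.mul_apply, ih, Submodule.mapQ_apply]
      have hq : (L.mapQ L g hgL) ^ r = 1 := LinearMap.ext fun x => by
        obtain ⟨x, rfl⟩ := Submodule.Quotient.mk_surjective L x
        rw [hqpow, hgr]; rfl
      intro u hu
      have h3 := small hr hdL _ hq (Submodule.Quotient.mk ⟨u, hu⟩)
      rw [Submodule.mapQ_apply, Submodule.Quotient.eq] at h3
      exact fix hrF f hf _ h1 u h3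
  · -- regular nilpotent
    have hk1 : Module.finrank F (LinearMap.ker N) = 1 := by
      have : 1 ≤ Module.finrank F (LinearMap.ker N) := by
        rw [Nat.one_le_iff_ne_zero, ne_eq, Submodule.finrank_eq_zero]; exact hker_pos
      omega
    have h2 : Module.finrank F (LinearMap.ker (N ∘ₗ N)) ≤ 2 := by
      set K2 := LinearMap.ker (N ∘ₗ N)
      have h := LinearMap.finrank_range_add_finrank_ker (N.domRestrict K2)
      have ha : Module.finrank F (LinearMap.range (N.domRestrict K2)) ≤ 1 := by
        rw [← hk1]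
        refine Submodule.finrank_mono ?_
        rintro - ⟨⟨x, hx⟩, rfl⟩
        exact hx
      have hb : Module.finrank F (LinearMap.ker (N.domRestrict K2)) ≤ 1 := by
        rw [← hk1]
        refine LinearMap.finrank_le_finrank_of_injective (f := ((K2.subtype).comp (LinearMap.ker (N.domRestrict K2)).subtype).codRestrict (LinearMap.ker N) (fun x => x.2)) ?_
        intro x y h
        exact Subtype.ext (Subtype.ext (congrArg Subtype.val h :))
      omega
    have hinv2 : ∀ u ∈ LinearMap.range (N ∘ₗ N), f u ∈ LinearMap.range (N ∘ₗ N) := by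
      rintro - ⟨w, rfl⟩
      exact ⟨f w, by simp [hfN]⟩
    have hd2 : Module.finrank F (LinearMap.range (N ∘ₗ N)) ≤ n - 2 := by
      have h := LinearMap.finrank_range_add_finrank_ker (N ∘ₗ N)
      rw [hV] at h
      have : 2 ≤ Module.finrank F (LinearMap.ker (N ∘ₗ N)) := by
        by_contra hlt
        have he : LinearMap.ker N = LinearMap.ker (N ∘ₗ N) :=
          Submodule.eq_of_le_of_finrank_le (fun x hx => by simp [LinearMap.mem_ker.1 hx]) (by omega)
        obtain ⟨⟨x, hx⟩, hx0⟩ : ∃ x : LinearMap.ker N, x ≠ 0 := by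
          haveI := Submodule.nontrivial_iff_ne_bot.2 hker_pos
          exact exists_ne 0
        have hxr : x ∈ LinearMap.range N := by
          by_contra hne
          have hall : ∀ (i : ℕ) (z : V), (N ^ i) (N z) = 0 → N z = 0 := by
            intro i
            induction i with
            | zero => intro z h; exact h
            | succ i ih =>
              intro z h
              rw [pow_succ, Module.End.mul_apply] at h
              have h4 : N z ∈ LinearMap.ker N := ih (N z) h
              have : z ∈ LinearMap.ker (N ∘ₗ N) := h4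
              rwa [← he, LinearMap.mem_ker] at this
          exact hN (LinearMap.ext fun z => hall k z (by rw [hk]; rfl))
        obtain ⟨z, rfl⟩ := hxr
        have : z ∈ LinearMap.ker (N ∘ₗ N) := hx
        rw [← he] at this
        exact hx0 (Subtype.ext this)
      omega
    refine fix hrF f hf _ (res _ (fun u hu => ?_) (by omega : Module.finrank F (LinearMap.ker (N ∘ₗ N)) ≤ n - 2)) v ?_
    · rw [LinearMap.mem_ker, LinearMap.comp_apply] at hu ⊢
      rw [← hfN, ← hfN, hu, map_zero]
    · rw [LinearMap.mem_ker, LinearMap.comp_apply, map_sub, map_sub, ← hfN, ← hfN, sub_eq_zero]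
      exact res _ hinv2 hd2 _ ⟨v, rfl⟩

end CfsgLib.SLCommuting

namespace Cfsg.Agent.S2364

/-- Let F be a finite field of characteristic p, n ≥ 4, and let a, b be commuting elements of PSL(n, F) with a of order p. Then every prime divisor of the order of b divides the order of SL(n − 2, F). -/
theorem result {F : Type*} [Field F] [Fintype F] (p : ℕ) [Fact p.Prime] [CharP F p] (n : ℕ) (hn : 4 ≤ n)
    (a b : Matrix.ProjectiveSpecialLinearGroup (Fin n) F) (ha : orderOf a = p) (hab : Commute a b) :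
    (orderOf b).primeFactors ⊆ (Nat.card (Matrix.SpecialLinearGroup (Fin (n - 2)) F)).primeFactors := by
  classical
  intro r hr
  rw [Nat.mem_primeFactors] at hr ⊢
  obtain ⟨hrp, hrb, -⟩ := hr
  refine ⟨hrp, ?_, Nat.card_pos.ne'⟩
  by_contra hno
  haveI : Fact r.Prime := ⟨hrp⟩
  have hp : p.Prime := Fact.out
  set q := Fintype.card F with hq
  have hq1 : 1 < q := Fintype.one_lt_card
  have hGL : ∀ d, 1 ≤ d → d ≤ n - 2 → ¬ r ∣ Nat.card (GL (Fin d) F) ∧ ¬ r ∣ q - 1 ∧ r ≠ p := by
    intro d hd1 hd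
    obtain ⟨m, hm⟩ : ∃ m, n - 2 = m + 2 := ⟨n - 4, by omega⟩
    have hS := CfsgLib.Linear.Card.card_SL (F := F) (n - 2) (by omega)
    rw [← hq] at hS
    have hprod : ∀ i, i < n - 2 → (q ^ (n - 2) - q ^ i) ∣ (q - 1) * Nat.card (Matrix.SpecialLinearGroup (Fin (n - 2)) F) := by
      intro i hi
      rw [hS]
      exact Finset.dvd_prod_of_mem (fun j : Fin (n - 2) => q ^ (n - 2) - q ^ (j : ℕ)) (Finset.mem_univ ⟨i, hi⟩)
    have hq1r : ¬ r ∣ q - 1 := by
      intro hd'
      have h2 : (q ^ (n - 2) - q ^ (m + 1)) * (q ^ (n - 2) - q ^ m) ∣ (q - 1) * Nat.card (Matrix.SpecialLinearGroup (Fin (n - 2)) F) := by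
        rw [hS, ← Finset.prod_pair (f := fun j : Fin (n - 2) => q ^ (n - 2) - q ^ (j : ℕ))
          (a := (⟨m + 1, by omega⟩ : Fin (n - 2))) (b := ⟨m, by omega⟩) (by simp)]
        exact Finset.prod_dvd_prod_of_subset _ _ _ (Finset.subset_univ _)
      have e1 : q ^ (n - 2) - q ^ (m + 1) = (q - 1) * q ^ (m + 1) := by
        rw [hm, pow_succ' q (m + 1), Nat.sub_mul, one_mul]
      have e2 : q ^ (n - 2) - q ^ m = (q ^ 2 - 1) * q ^ m := by
        rw [hm, Nat.sub_mul, one_mul, ← pow_add, add_comm 2 m]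
      rw [e1, e2, mul_assoc] at h2
      have h3 := Nat.dvd_of_mul_dvd_mul_left (by omega) h2
      refine hno (dvd_trans ?_ h3)
      refine dvd_mul_of_dvd_right (dvd_mul_of_dvd_left (dvd_trans hd' ?_) _) _
      exact ⟨q + 1, by rw [mul_comm, ← Nat.sq_sub_sq, one_pow]⟩
    have hrP : r ≠ p := by
      rintro rfl
      obtain ⟨e, he⟩ := FiniteField.card F r
      have hqdvd : r ∣ q ^ (n - 2) - q ^ (m + 1) := by
        refine Nat.dvd_sub ?_ ?_ <;>
        · refine dvd_pow ?_ (by omega)
          rw [hq, he.2]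
          exact dvd_pow_self r e.pos.ne'
      rcases hrp.dvd_mul.1 (hqdvd.trans (hprod _ (by omega))) with h | h
      · exact hq1r h
      · exact hno h
    refine ⟨fun hdv => ?_, hq1r, hrP⟩
    haveI : Nonempty (Fin (n - 2)) := ⟨⟨0, by omega⟩⟩
    rw [Matrix.card_GL_field] at hdv
    obtain ⟨i, -, hi⟩ := (hrp.prime.dvd_finset_prod_iff _).1 hdv
    rw [← hq] at hi
    have hdiv : q ^ d - q ^ (i : ℕ) ∣ q ^ (n - 2) - q ^ ((i : ℕ) + (n - 2 - d)) := by
      have e : q ^ (n - 2) - q ^ ((i : ℕ) + (n - 2 - d)) = (q ^ d - q ^ (i : ℕ)) * q ^ (n - 2 - d) := by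
        rw [Nat.sub_mul, ← pow_add, ← pow_add, Nat.add_sub_cancel' hd]
      exact ⟨_, e⟩
    rcases hrp.dvd_mul.1 ((hi.trans hdiv).trans (hprod _ (by omega))) with h | h
    · exact hq1r h
    · exact hno h
  obtain ⟨-, hrq, hrne⟩ := hGL 1 le_rfl (by omega)
  haveI : Nonempty (Fin n) := ⟨⟨0, by omega⟩⟩
  set Z := Subgroup.center (Matrix.SpecialLinearGroup (Fin n) F) with hZdef
  have hZ : Nat.card Z ∣ q - 1 := by
    rw [hZdef, CfsgLib.Linear.Card.card_center_SL]
    exact Nat.gcd_dvd_right _ _
  have hpq : ¬ p ∣ q - 1 := by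
    obtain ⟨e, he⟩ := FiniteField.card F p
    intro h
    have h2 : p ∣ q := by rw [hq, he.2]; exact dvd_pow_self p e.pos.ne'
    have := Nat.dvd_sub h2 h
    rw [show q - (q - 1) = 1 by omega] at this
    exact hp.ne_one (Nat.dvd_one.1 this)
  let π := QuotientGroup.mk' Z
  have lift : ∀ (s : ℕ), s.Prime → ¬ s ∣ q - 1 → ∀ c : Matrix.ProjectiveSpecialLinearGroup (Fin n) F, orderOf c = s →
      ∃ y : Matrix.SpecialLinearGroup (Fin n) F, y ^ s = 1 ∧ π y = c ^ Nat.card Z ∧ c ^ Nat.card Z ≠ 1 := by
    intro s hs hsq c hc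
    obtain ⟨y, hy⟩ := QuotientGroup.mk'_surjective Z c
    refine ⟨y ^ Nat.card Z, ?_, ?_, ?_⟩
    · have hys : y ^ s ∈ Z := by
        rw [← QuotientGroup.eq_one_iff, QuotientGroup.mk_pow, ← QuotientGroup.mk'_apply, hy, ← hc, pow_orderOf_eq_one]
      rw [← pow_mul, mul_comm, pow_mul]
      exact congrArg Subtype.val (pow_card_eq_one' (x := (⟨y ^ s, hys⟩ : Z)))
    · rw [map_pow]; exact congrArg (· ^ Nat.card Z) hy
    · intro h
      have h2 := orderOf_dvd_of_pow_eq_one h
      rw [hc] at h2
      exact hsq (h2.trans hZ)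
  obtain ⟨i, hi⟩ := hrb
  have hb0 : orderOf b ≠ 0 := (orderOf_pos b).ne'
  have hbr : orderOf (b ^ i) = r := by
    rw [orderOf_pow, hi, Nat.gcd_mul_left_left, Nat.mul_div_cancel _ (by
      rcases Nat.eq_zero_or_pos i with h | h
      · rw [h, mul_zero] at hi; exact absurd hi hb0
      · exact h)]
  obtain ⟨α, hα, hπα, hα1⟩ := lift p hp hpq a ha
  obtain ⟨β, hβ, hπβ, hβ1⟩ := lift r hrp hrq (b ^ i) hbr
  have hcomm : α * β = β * α := by
    have hz : α * β * α⁻¹ * β⁻¹ ∈ Z := by
      rw [← QuotientGroup.eq_one_iff]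
      show π (α * β * α⁻¹ * β⁻¹) = 1
      rw [map_mul, map_mul, map_mul, map_inv, map_inv, hπα, hπβ]
      have hc : Commute (a ^ Nat.card Z) ((b ^ i) ^ Nat.card Z) := ((hab.pow_right i).pow_pow _ _)
      rw [hc.eq, mul_inv_cancel_right, mul_inv_cancel]
    set z := α * β * α⁻¹ * β⁻¹ with hzdef
    have hzβ : α * β * α⁻¹ = z * β := by rw [hzdef, inv_mul_cancel_right]
    have h1 : z ^ r = 1 := by
      have h := congrArg (· ^ r) hzβ
      simp only [conj_pow, hβ, mul_one, mul_inv_cancel] at h
      rw [Commute.mul_pow ((Subgroup.mem_center_iff.1 hz β).symm), hβ, mul_one] at h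
      exact h.symm
    have h2 : z = 1 := by
      have h3 : z ^ Nat.card Z = 1 := congrArg Subtype.val (pow_card_eq_one' (x := (⟨z, hz⟩ : Z)))
      rcases (Nat.dvd_prime hrp).1 (orderOf_dvd_of_pow_eq_one h1) with h | h
      · exact orderOf_eq_one_iff.1 h
      · exact absurd ((h ▸ orderOf_dvd_of_pow_eq_one h3).trans hZ) hrq
    rw [h2, one_mul, mul_inv_eq_iff_eq_mul] at hzβ
    exact hzβ
  have hrF : (r : F) ≠ 0 := fun h => hrne ((Nat.prime_dvd_prime_iff_eq hp hrp).1 ((CharP.cast_eq_zero_iff F p r).1 h)).symm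
  set A := (α : Matrix (Fin n) (Fin n) F) with hA
  set B := (β : Matrix (Fin n) (Fin n) F) with hB
  have hAp : (A - 1) ^ p = 0 := by
    rw [sub_pow_char_of_commute p (Commute.one_right A), one_pow, hA, ← Matrix.SpecialLinearGroup.coe_pow, hα,
      Matrix.SpecialLinearGroup.coe_one, sub_self]
  have hf := CfsgLib.SLCommuting.main (r := r) hn (fun d h1 h2 => (hGL d h1 h2).1) hrF (Module.finrank_fin_fun F)
    (Matrix.toLinAlgEquiv' B) (Matrix.toLinAlgEquiv' (A - 1))
    (by rw [← map_pow, hB, ← Matrix.SpecialLinearGroup.coe_pow, hβ, Matrix.SpecialLinearGroup.coe_one, map_one])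
    (fun v => by
      rw [← Module.End.mul_apply, ← Module.End.mul_apply, ← map_mul, ← map_mul, mul_sub, sub_mul, mul_one, one_mul, hA, hB,
        ← Matrix.SpecialLinearGroup.coe_mul, ← Matrix.SpecialLinearGroup.coe_mul, hcomm])
    (k := p) (by rw [← map_pow, hAp, map_zero])
    (fun h => hα1 (by
      have h' : A = 1 := sub_eq_zero.1 (Matrix.toLinAlgEquiv'.injective (h.trans (map_zero _).symm))
      rw [← hπα, show α = 1 from Subtype.ext h', map_one]))
  refine hβ1 ?_
  have h' : B = 1 := Matrix.toLinAlgEquiv'.injective (hf.trans (map_one _).symm)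
  rw [← hπβ, show β = 1 from Subtype.ext h', map_one]

end Cfsg.Agent.S2364
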