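import Cfsg.Statements.S2367
import Mathlib.Data.Nat.Choose.Factorization
import Mathlib.GroupTheory.SpecificGroups.Alternating
import Mathlib.Tactic.NormNum
import Mathlib.Tactic.Ring

set_option autoImplicit false
open Cfsg

namespace Cfsg.Agent.S2367

/-- Let G be an alternating group of degree at least 5 or a simple group with the order of one of the 26 sporadic groups, and let p be an odd prime such that p³ is the exact power of p dividing the order of G. Then p³ is less than the 2-part of the order of G. -/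
theorem result {G : Type*} [Group G] [Finite G] (hG : Cfsg.IsAlternating G ∨ Cfsg.IsSporadic G)
    (p : ℕ) (hp : p.Prime) (hodd : p ≠ 2) (h3 : (Nat.card G).factorization p = 3) :
    p ^ 3 < 2 ^ (Nat.card G).factorization 2 := by
  classical
  have hp2 : 2 ≤ p := hp.two_le
  haveI := Fact.mk hp
  have hN0 : Nat.card G ≠ 0 := Nat.card_pos.ne'
  rcases hG with ⟨n, hn, ⟨e⟩⟩ | hG
  · haveI : Nontrivial (Fin n) := ⟨⟨⟨0, by omega⟩, ⟨1, by omega⟩, by simp⟩⟩
    have hcard : 2 * Nat.card G = n.factorial := by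
      rw [Nat.card_congr e.toEquiv, two_mul_nat_card_alternatingGroup, Nat.card_perm, Nat.card_fin]
    have hlow : ∀ q : ℕ, q.Prime → n / q + n / q ^ 2 ≤ n.factorial.factorization q := by
      intro q hq
      rw [Nat.factorization_factorial hq (Nat.lt_succ_of_le (Nat.log_le_self q n))]
      calc n / q + n / q ^ 2 = ∑ i ∈ ({1, 2} : Finset ℕ), n / q ^ i := by simp
        _ ≤ ∑ i ∈ Finset.Ico 1 (n + 1), n / q ^ i := by
          refine Finset.sum_le_sum_of_subset fun i hi => ?_
          simp only [Finset.mem_insert, Finset.mem_singleton] at hi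
          rw [Finset.mem_Ico]
          omega
    have hfac : ∀ q : ℕ, n.factorial.factorization q =
        (2 : ℕ).factorization q + (Nat.card G).factorization q := by
      intro q
      rw [← hcard, Nat.factorization_mul two_ne_zero hN0, Finsupp.add_apply]
    have hp3 : n.factorial.factorization p = 3 := by
      rw [hfac, h3, Nat.Prime.factorization Nat.prime_two, Finsupp.single_eq_of_ne hodd, zero_add]
    have h3p : 3 * p ≤ n := by
      by_contra hlt
      have hsq : 3 * p ≤ p ^ 2 := by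
        rw [pow_two]
        exact Nat.mul_le_mul_right p (by omega)
      have hlog : Nat.log p n < 2 := Nat.log_lt_of_lt_pow (by omega) (by omega)
      rw [Nat.factorization_factorial hp hlog] at hp3
      simp at hp3
      have : n / p < 3 := (Nat.div_lt_iff_lt_mul hp.pos).mpr (by omega)
      omega
    have hp5 : 5 ≤ p := by
      by_contra hlt
      have : p = 3 := by
        have h4 : p ≠ 4 := fun h => by
          subst h
          norm_num at hp
        omega
      subst this
      have := hlow 3 hp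
      rw [hp3] at this
      omega
    have hv2 : 2 * p - 1 ≤ (Nat.card G).factorization 2 := by
      have h1 := hlow 2 Nat.prime_two
      rw [hfac, Nat.Prime.factorization Nat.prime_two, Finsupp.single_eq_same] at h1
      omega
    have hgrow : ∀ k, (k + 5) ^ 3 < 2 ^ (2 * (k + 5) - 1) := by
      intro k
      induction k with
      | zero => norm_num
      | succ k ih =>
        rw [show 2 * (k + 1 + 5) - 1 = (2 * (k + 5) - 1) + 2 by omega, pow_add]
        have h4 : (k + 1 + 5) ^ 3 ≤ (k + 5) ^ 3 * 4 := by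
          have e1 : (k + 1 + 5) ^ 3 = (k + 5) ^ 3 + 3 * (k + 5) ^ 2 + 3 * (k + 5) + 1 := by ring
          have e2 : (k + 5) ^ 2 ≤ (k + 5) ^ 3 := Nat.pow_le_pow_right (by omega) (by omega)
          have e3 : 5 * (k + 5) ≤ (k + 5) ^ 2 := by
            rw [pow_two]
            exact Nat.mul_le_mul_right _ (by omega)
          have e4 : 5 * (k + 5) ^ 2 ≤ (k + 5) ^ 3 := by
            rw [pow_succ' _ 2]
            exact Nat.mul_le_mul_right _ (by omega)
          omega
        omega
    obtain ⟨k, rfl⟩ : ∃ k, p = k + 5 := ⟨p - 5, by omega⟩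
    exact (hgrow k).trans_le (Nat.pow_le_pow_right two_pos hv2)
  · set L : List ℕ := [2, 3, 5, 7, 11, 13, 17, 19, 23, 29, 31, 37, 41, 43, 47, 59, 67, 71] with hL
    suffices key : (Nat.card G ∣ L.prod ^ 50) ∧ ∀ q ∈ L, q ≠ 2 → q ^ 3 ∣ Nat.card G →
        ¬ q ^ 4 ∣ Nat.card G → ∃ a ∈ List.range 50, 2 ^ a ∣ Nat.card G ∧ q ^ 3 < 2 ^ a by
      obtain ⟨hdvd, hcheck⟩ := key
      have hpN : p ∣ Nat.card G := Nat.dvd_of_factorization_pos (by omega)
      have hpL : p ∈ L := by
        have h1 : p ∣ L.prod := hp.dvd_of_dvd_pow (hpN.trans hdvd)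
        obtain ⟨q, hq, hpq⟩ := (Nat.Prime.prime hp).dvd_prod_iff.mp h1
        have hqp : q.Prime := by
          simp only [hL, List.mem_cons, List.not_mem_nil, or_false] at hq
          rcases hq with rfl | rfl | rfl | rfl | rfl | rfl | rfl | rfl | rfl | rfl | rfl | rfl |
            rfl | rfl | rfl | rfl | rfl | rfl <;> norm_num
        rwa [(Nat.prime_dvd_prime_iff_eq hp hqp).mp hpq]
      obtain ⟨a, -, ha, hlt⟩ := hcheck p hpL hodd
        ((hp.pow_dvd_iff_le_factorization hN0).mpr (by omega))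
        (fun h => by have := (hp.pow_dvd_iff_le_factorization hN0).mp h; omega)
      exact hlt.trans_le (Nat.pow_le_pow_right two_pos
        ((Nat.prime_two.pow_dvd_iff_le_factorization hN0).mp ha))
    simp only [IsSporadic, IsM11, IsM12, IsM22, IsM23, IsM24, IsJ1, IsJ2, IsJ3, IsJ4, IsCo1, IsCo2,
      IsCo3, IsFi22, IsFi23, IsFi24', IsHS, IsMcL, IsHe, IsRu, IsSuz, IsON, IsHN, IsLy, IsTh, IsB, IsM] at hG
    rcases hG with ⟨-, h⟩ | ⟨-, h⟩ | ⟨-, h⟩ | ⟨-, h⟩ | ⟨-, h⟩ | ⟨-, h⟩ | ⟨-, h⟩ | ⟨-, h⟩ | ⟨-, h⟩ |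
      ⟨-, h⟩ | ⟨-, h⟩ | ⟨-, h⟩ | ⟨-, h⟩ | ⟨-, h⟩ | ⟨-, h⟩ | ⟨-, h⟩ | ⟨-, h⟩ | ⟨-, h⟩ | ⟨-, h⟩ |
      ⟨-, h⟩ | ⟨-, h⟩ | ⟨-, h⟩ | ⟨-, h⟩ | ⟨-, h⟩ | ⟨-, h⟩ | ⟨-, h⟩ <;>
      (rw [h, hL]; decide)

end Cfsg.Agent.S2367
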