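import Cfsg.Statements.S2368
import Cfsg.Agent.Lib.Unipotent.Basic

set_option autoImplicit false
open Cfsg

namespace Cfsg.Agent.S2368

/-- Let F be a finite field of characteristic p and m ≥ 1. Every element of GL(m, F) of p-power order has order less than p·m, and GL(m, F) has an element of p-power order at least m; so the largest order of a p-element of GL(m, F) is the least power of p that is at least m. -/
theorem result {F : Type*} [Field F] [Fintype F] (p : ℕ) [Fact p.Prime] [CharP F p] (m : ℕ) (hm : 1 ≤ m) :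
    (∀ g : Matrix.GeneralLinearGroup (Fin m) F, (∃ j : ℕ, orderOf g = p ^ j) → orderOf g < p * m) ∧
      ∃ g : Matrix.GeneralLinearGroup (Fin m) F, (∃ j : ℕ, orderOf g = p ^ j) ∧ m ≤ orderOf g := by
  classical
  have hp : p.Prime := Fact.out
  haveI : Nonempty (Fin m) := ⟨⟨0, hm⟩⟩
  constructor
  · rintro g ⟨j, hj⟩
    have h0 : ((g : Matrix (Fin m) (Fin m) F) - 1) ^ (p ^ j) = 0 :=
      (CfsgLib.Unipotent.coe_sub_one_pow p g j).mpr (by rw [← hj, pow_orderOf_eq_one])
    have hle := Nat.le_of_dvd (pow_pos hp.pos _) (CfsgLib.Unipotent.orderOf_le p g ⟨_, h0⟩)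
    rw [Fintype.card_fin] at hle
    refine hle.trans_lt ?_
    rcases hm.lt_or_eq with h1 | h1
    · obtain ⟨c, hc⟩ : ∃ c, Nat.clog p m = c + 1 :=
        ⟨Nat.clog p m - 1, by have := Nat.clog_pos hp.one_lt h1; omega⟩
      have h2 : p ^ c < m := (Nat.lt_clog_iff_pow_lt hp.one_lt).mp (by omega)
      rw [hc, pow_succ']
      exact Nat.mul_lt_mul_of_pos_left h2 hp.pos
    · subst h1
      simpa using hp.one_lt
  · let N : Matrix (Fin m) (Fin m) F := Matrix.of fun i j => if i.val + 1 = j.val then 1 else 0
    have hpow : ∀ k : ℕ, N ^ k = Matrix.of fun i j : Fin m => if i.val + k = j.val then (1 : F) else 0 := by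
      intro k
      induction k with
      | zero => ext i j; simp [Matrix.one_apply, Fin.ext_iff]
      | succ k ih =>
        ext i j
        rw [pow_succ, ih, Matrix.mul_apply]
        simp only [Matrix.of_apply, N, ite_mul, one_mul, zero_mul]
        by_cases h : i.val + k < m
        · rw [Finset.sum_eq_single (⟨i.val + k, h⟩ : Fin m)]
          · simp [add_assoc]
          · intro l _ hl
            have : i.val + k ≠ l.val := fun he => hl (Fin.ext he.symm)
            simp [this]
          · simp
        · rw [Finset.sum_eq_zero, if_neg]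
          · have := j.isLt; omega
          · intro l _
            have : i.val + k ≠ l.val := by have := l.isLt; omega
            simp [this]
    have hm0 : N ^ m = 0 := by
      rw [hpow]
      ext i j
      have := j.isLt
      simp
      omega
    have hu : IsUnit (1 + N) := IsNilpotent.isUnit_one_add ⟨m, hm0⟩
    obtain ⟨g, hg⟩ := hu
    have hsub : (g : Matrix (Fin m) (Fin m) F) - 1 = N := by rw [hg, add_sub_cancel_left]
    have hdvd := CfsgLib.Unipotent.orderOf_le p g (by rw [hsub]; exact ⟨m, hm0⟩)
    obtain ⟨j, -, hj⟩ := (Nat.dvd_prime_pow hp).mp hdvd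
    refine ⟨g, ⟨j, hj⟩, ?_⟩
    by_contra hlt
    have h0 : N ^ (p ^ j) = 0 := by
      rw [← hsub, CfsgLib.Unipotent.coe_sub_one_pow p g j, ← hj, pow_orderOf_eq_one]
    rw [hj] at hlt
    have h1 := congrFun (congrFun h0 ⟨0, hm⟩) ⟨p ^ j, by omega⟩
    simp [hpow] at h1

end Cfsg.Agent.S2368
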