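import Cfsg.Statements.S2379
import Mathlib
import Cfsg.Agent.Lib.Linear.LargeSylow

set_option autoImplicit false
open Cfsg

namespace Cfsg.Agent.S2379

/-- Sylow subgroups of `SL_n(q)` for large primes. Let `F` be a field with `q` elements and `r` a prime with `r > n` and `r ∤ q` (so `r` does not divide the order `n!` of the Weyl group). Let `d` be the multiplicative order of `q` modulo `r`, `a` the number of integers `i` with `2 ≤ i ≤ n` divisible by `d` (the degrees of the Weyl group are `2, …, n`), and `m` the `r`-part of the value at `q` of the `d`-th cyclotomic polynomial. Then every Sylow `r`-subgroup of `SL_n(q)` is a direct product of `a` cyclic groups of order `m`. -/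
theorem result {F : Type*} [Field F] [Fintype F] {q : ℕ} (hq : Fintype.card F = q) (n : ℕ)
    (r : ℕ) [Fact r.Prime] (hrn : n < r) (hrq : ¬ r ∣ q) (P : Sylow r (Matrix.SpecialLinearGroup (Fin n) F)) :
    Nonempty (↥(P : Subgroup (Matrix.SpecialLinearGroup (Fin n) F)) ≃*
      (Fin ((Finset.Icc 2 n).filter (fun i => orderOf (q : ZMod r) ∣ i)).card →
        Multiplicative (ZMod (r ^ padicValNat r ((Polynomial.cyclotomic (orderOf (q : ZMod r)) ℤ).eval (q : ℤ)).natAbs)))) := by
  classical
  subst hq
  obtain ⟨p, hp⟩ := CharP.exists F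
  haveI := hp
  haveI : Fact p.Prime := ⟨CharP.char_is_prime F p⟩
  haveI : Finite (Matrix.SpecialLinearGroup (Fin n) F) := Finite.of_injective Subtype.val Subtype.val_injective
  set d := orderOf (Fintype.card F : ZMod r) with hd_def
  have hd := (CfsgLib.Linear.LargeSylow.order_pos hrq).1
  have hq2 : 2 ≤ Fintype.card F := Fintype.one_lt_card
  rw [CfsgLib.Linear.LargeSylow.padic_cyclotomic hq2 hrq]
  set e := padicValNat r (Fintype.card F ^ d - 1) with he_def
  have hr := (Fact.out : r.Prime)
  have hN : 0 < r ^ e := pow_pos hr.pos _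
  set a := ((Finset.Icc 2 n).filter (fun i => d ∣ i)).card with ha
  suffices h : ∃ f : (Fin a → Multiplicative (ZMod (r ^ e))) →* Matrix.SpecialLinearGroup (Fin n) F,
      Function.Injective f ∧ padicValNat r (Nat.card (Matrix.SpecialLinearGroup (Fin n) F)) = a * e by
    obtain ⟨f, hf, hv⟩ := h
    have hcard : Nat.card f.range = r ^ (Nat.card (Matrix.SpecialLinearGroup (Fin n) F)).factorization r := by
      rw [← Nat.card_congr (MonoidHom.ofInjective hf).toEquiv, Nat.card_fun, Nat.card_fin,
        Nat.card_congr Multiplicative.toAdd, Nat.card_zmod, Nat.factorization_def _ hr, hv, ← pow_mul, mul_comm]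
    exact ⟨((Sylow.equiv P (Sylow.ofCard f.range hcard)).trans (MonoidHom.ofInjective hf).symm)⟩
  rcases Nat.eq_zero_or_pos n with rfl | hn
  · refine ⟨1, ?_, ?_⟩
    · intro x y _
      funext i
      exact absurd i.2 (by simp [ha])
    · rw [show Nat.card (Matrix.SpecialLinearGroup (Fin 0) F) = 1 from Nat.card_eq_one_iff_unique.2
        ⟨⟨fun x y => Subtype.ext (Subsingleton.elim _ _)⟩, ⟨1⟩⟩, padicValNat.one]
      simp [ha]
  have hGL := CfsgLib.Linear.LargeSylow.padic_card_GL (F := F) hrn hrq
  have hSLpos : Nat.card (Matrix.SpecialLinearGroup (Fin n) F) ≠ 0 := Nat.card_pos.ne'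
  haveI : Nonempty (Fin n) := ⟨⟨0, hn⟩⟩
  rw [CfsgLib.Linear.Card.card_GL_eq, padicValNat.mul (by omega) hSLpos, ← hd_def, ← he_def] at hGL
  by_cases hd1 : d = 1
  · have he1 : padicValNat r (Fintype.card F - 1) = e := by rw [he_def, hd1, pow_one]
    have ha1 : a = n - 1 := by
      rw [ha, hd1, Finset.filter_true_of_mem (fun i _ => one_dvd i), Nat.card_Icc]
      omega
    have hv : padicValNat r (Nat.card (Matrix.SpecialLinearGroup (Fin n) F)) = a * e := by
      rw [he1, hd1, Nat.div_one] at hGL
      rw [ha1, Nat.sub_mul, one_mul]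
      omega
    clear_value a
    obtain ⟨m, rfl⟩ : ∃ m, n = m + 1 := ⟨n - 1, by omega⟩
    obtain rfl : a = m := by omega
    obtain ⟨g, hg⟩ := IsCyclic.exists_generator (α := Fˣ)
    have hgo : orderOf g = Fintype.card F - 1 := by
      rw [orderOf_eq_card_of_forall_mem_zpowers hg, Nat.card_units, Nat.card_eq_fintype_card]
    obtain ⟨c, hc⟩ : r ^ e ∣ Fintype.card F - 1 := he1 ▸ pow_padicValNat_dvd
    have hc0 : 0 < c := by
      rcases Nat.eq_zero_or_pos c with h | h
      · rw [h, mul_zero] at hc; omega
      · exact h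
    have hζ : orderOf (g ^ c) = r ^ e := by
      rw [orderOf_pow' g hc0.ne', hgo, hc, Nat.gcd_mul_left_left, Nat.mul_div_cancel _ hc0]
    have hNc : Nat.card (Subgroup.zpowers (g ^ c)) = r ^ e := by rw [Nat.card_zpowers, hζ]
    let C : Multiplicative (ZMod (r ^ e)) ≃* Subgroup.zpowers (g ^ c) :=
      (AddEquiv.toMultiplicative (ZMod.ringEquivCongr hNc.symm).toAddEquiv).trans
        (zmodCyclicMulEquiv (Subgroup.isCyclic_zpowers (g ^ c)))
    let u : (Fin a → Multiplicative (ZMod (r ^ e))) → Fin (a + 1) → F := fun x =>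
      Fin.cons (((∏ i, ((C (x i)) : Fˣ))⁻¹ : Fˣ) : F) (fun i => ((C (x i) : Fˣ) : F))
    have hu1 : u 1 = 1 := by
      funext i
      refine Fin.cases ?_ ?_ i
      · simp only [u, Fin.cons_zero, Pi.one_apply, map_one, OneMemClass.coe_one, Finset.prod_const_one, inv_one, Units.val_one]
      · intro j; simp only [u, Fin.cons_succ, Pi.one_apply, map_one, OneMemClass.coe_one, Units.val_one]
    have humul : ∀ x y, u (x * y) = u x * u y := by
      intro x y
      funext i
      refine Fin.cases ?_ ?_ i
      · simp only [u, Fin.cons_zero, Pi.mul_apply, map_mul, Subgroup.coe_mul, Finset.prod_mul_distrib, mul_inv, Units.val_mul]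
      · intro j; simp only [u, Fin.cons_succ, Pi.mul_apply, map_mul, Subgroup.coe_mul, Units.val_mul]
    have hudet : ∀ x, (Matrix.diagonal (u x)).det = 1 := by
      intro x
      rw [Matrix.det_diagonal, Fin.prod_univ_succ]
      simp only [u, Fin.cons_zero, Fin.cons_succ]
      rw [← Units.coe_prod, ← Units.val_mul, inv_mul_cancel, Units.val_one]
    let f : (Fin a → Multiplicative (ZMod (r ^ e))) →* Matrix.SpecialLinearGroup (Fin (a + 1)) F :=
      { toFun := fun x => ⟨Matrix.diagonal (u x), hudet x⟩
        map_one' := Subtype.ext (by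
          show Matrix.diagonal (u 1) = 1
          rw [hu1]; exact Matrix.diagonal_one)
        map_mul' := fun x y => Subtype.ext (by
          show Matrix.diagonal (u (x * y)) = Matrix.diagonal (u x) * Matrix.diagonal (u y)
          rw [Matrix.diagonal_mul_diagonal, humul]
          rfl) }
    refine ⟨f, fun x y h => funext fun i => ?_, hv⟩
    have h1 := congrFun (Matrix.diagonal_injective (congrArg Subtype.val h)) i.succ
    simp only [u, Fin.cons_succ] at h1
    exact C.injective (Subtype.ext (Units.ext h1))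
  · have hnd : ¬ r ∣ Fintype.card F - 1 := by
      intro h
      rw [← pow_one (Fintype.card F), CfsgLib.Linear.LargeSylow.dvd_pow_sub_one_iff (by omega)] at h
      exact hd1 (Nat.eq_one_of_dvd_one h)
    rw [padicValNat.eq_zero_of_not_dvd hnd, zero_add] at hGL
    have ha1 : a = n / d := by
      rw [ha, ← Nat.Ioc_filter_dvd_card_eq_div n d]
      refine congrArg Finset.card (Finset.ext fun i => ?_)
      simp only [Finset.mem_filter, Finset.mem_Icc, Finset.mem_Ioc]
      refine ⟨fun h => ⟨⟨by omega, h.1.2⟩, h.2⟩, fun h => ⟨⟨?_, h.1.2⟩, h.2⟩⟩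
      by_contra hlt
      have hi1 : i = 1 := by omega
      exact hd1 (Nat.eq_one_of_dvd_one (hi1 ▸ h.2))
    obtain ⟨g, hg⟩ := CfsgLib.Linear.LargeSylow.exists_torus_hom (F := F) (p := p) (n := n) (k := a) hd
      (ha1 ▸ Nat.div_mul_le_self n d) (pow_padicValNat_dvd : r ^ e ∣ Fintype.card F ^ d - 1) hN
    have hdet : ∀ x, (g x : Matrix (Fin n) (Fin n) F).det = 1 := by
      intro x
      have h1 : orderOf (Matrix.GeneralLinearGroup.det (g x)) ∣ r ^ e := by
        refine ((orderOf_map_dvd _ _).trans (orderOf_map_dvd g x)).trans (orderOf_dvd_of_pow_eq_one (funext fun i => ?_))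
        rw [Pi.pow_apply, Pi.one_apply]
        apply Multiplicative.toAdd.injective
        rw [toAdd_pow, toAdd_one, nsmul_eq_mul, ZMod.natCast_self, zero_mul]
      have h2 := orderOf_dvd_natCard (Matrix.GeneralLinearGroup.det (g x))
      rw [Nat.card_units, Nat.card_eq_fintype_card] at h2
      have h3 : Nat.Coprime (r ^ e) (Fintype.card F - 1) := ((hr.coprime_iff_not_dvd).2 hnd).pow_left _
      have h4 := orderOf_eq_one_iff.1 (Nat.eq_one_of_dvd_coprimes h3 h1 h2)
      exact congrArg Units.val h4
    let f : (Fin a → Multiplicative (ZMod (r ^ e))) →* Matrix.SpecialLinearGroup (Fin n) F :=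
      { toFun := fun x => ⟨(g x : Matrix (Fin n) (Fin n) F), hdet x⟩
        map_one' := Subtype.ext (congrArg Units.val (map_one g))
        map_mul' := fun x y => Subtype.ext (congrArg Units.val (map_mul g x y)) }
    exact ⟨f, fun x y h => hg (Units.ext (congrArg Subtype.val h)), hGL.trans (congrArg (· * e) ha1).symm⟩

end Cfsg.Agent.S2379
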