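import Cfsg.Statements.S2380
import Mathlib
import Cfsg.Agent.Lib.Linear.LargeSylow

set_option autoImplicit false
open scoped MatrixGroups
open Cfsg

namespace Cfsg.Agent.S2380

/-- Sylow subgroups of `GL_n(q)` for large primes. Let `F` be a field with `q` elements and `r` a prime with `r > n` and `r ∤ q`. Let `d` be the multiplicative order of `q` modulo `r` and `m` the `r`-part of the value at `q` of the `d`-th cyclotomic polynomial. Then every Sylow `r`-subgroup of `GL_n(q)` is a direct product of `⌊n/d⌋` cyclic groups of order `m` (the degrees of the Weyl group being `1, …, n`). -/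
theorem result {F : Type*} [Field F] [Fintype F] {q : ℕ} (hq : Fintype.card F = q) (n : ℕ)
    (r : ℕ) [Fact r.Prime] (hrn : n < r) (hrq : ¬ r ∣ q) (P : Sylow r (GL (Fin n) F)) :
    Nonempty (↥(P : Subgroup (GL (Fin n) F)) ≃*
      (Fin (n / orderOf (q : ZMod r)) →
        Multiplicative (ZMod (r ^ padicValNat r ((Polynomial.cyclotomic (orderOf (q : ZMod r)) ℤ).eval (q : ℤ)).natAbs)))) := by
  classical
  subst hq
  obtain ⟨p, hp⟩ := CharP.exists F
  haveI := hp
  haveI : Fact p.Prime := ⟨CharP.char_is_prime F p⟩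
  set d := orderOf (Fintype.card F : ZMod r)
  have hd := (CfsgLib.Linear.LargeSylow.order_pos hrq).1
  rw [CfsgLib.Linear.LargeSylow.padic_cyclotomic Fintype.one_lt_card hrq]
  set e := padicValNat r (Fintype.card F ^ d - 1)
  have hr := (Fact.out : r.Prime)
  obtain ⟨f, hf⟩ := CfsgLib.Linear.LargeSylow.exists_torus_hom (F := F) (p := p) (n := n) (k := n / d) hd
    (Nat.div_mul_le_self n d) (pow_padicValNat_dvd : r ^ e ∣ Fintype.card F ^ d - 1) (pow_pos hr.pos _)
  have hcard : Nat.card f.range = r ^ (Nat.card (GL (Fin n) F)).factorization r := by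
    rw [← Nat.card_congr (MonoidHom.ofInjective hf).toEquiv, Nat.card_fun, Nat.card_fin,
      Nat.card_congr Multiplicative.toAdd, Nat.card_zmod, Nat.factorization_def _ hr,
      CfsgLib.Linear.LargeSylow.padic_card_GL hrn hrq, ← pow_mul, mul_comm]
  exact ⟨((Sylow.equiv P (Sylow.ofCard f.range hcard)).trans (MonoidHom.ofInjective hf).symm)⟩

end Cfsg.Agent.S2380
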