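import Cfsg.Statements.S2388
import Mathlib
import Cfsg.Agent.Lib.Semisimple.CharpolyConj
import Cfsg.Agent.Lib.Semisimple.DetCentralizer

set_option autoImplicit false
open Cfsg

namespace Cfsg.Agent.S2388

/-- In `SL_n(q)`, `q` a power of the prime `p`, two elements of order prime to `p` with the same characteristic polynomial are conjugate in `SL_n(q)` (not merely in `GL_n`). -/
theorem result {F : Type*} [Field F] [Fintype F] (p : ℕ) [Fact p.Prime] [CharP F p] (n : ℕ)
    (g h : Matrix.SpecialLinearGroup (Fin n) F) (hg : (orderOf g).Coprime p) (hh : (orderOf h).Coprime p)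
    (hc : (g : Matrix (Fin n) (Fin n) F).charpoly = (h : Matrix (Fin n) (Fin n) F).charpoly) : IsConj g h := by
  classical
  rcases Nat.eq_zero_or_pos n with rfl | hn
  · rw [Subsingleton.elim g h]
  haveI : NeZero n := ⟨by omega⟩
  haveI : Finite (Matrix.SpecialLinearGroup (Fin n) F) := Finite.of_injective Subtype.val Subtype.val_injective
  have hm : ∀ x : Matrix.SpecialLinearGroup (Fin n) F, (orderOf x).Coprime p → (orderOf x : F) ≠ 0 := by
    intro x hx h0
    rw [CharP.cast_eq_zero_iff F p] at h0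
    exact (Fact.out : p.Prime).one_lt.ne' (Nat.eq_one_of_dvd_coprimes hx h0 dvd_rfl)
  have hpow : ∀ x : Matrix.SpecialLinearGroup (Fin n) F,
      (Matrix.toLin' (x : Matrix (Fin n) (Fin n) F)) ^ orderOf x = 1 := by
    intro x
    rw [← Matrix.toLin'_pow, ← Matrix.SpecialLinearGroup.coe_pow, pow_orderOf_eq_one, Matrix.SpecialLinearGroup.coe_one, Matrix.toLin'_one]
    rfl
  have hss : ∀ x : Matrix.SpecialLinearGroup (Fin n) F, (orderOf x).Coprime p →
      Module.End.IsSemisimple (Matrix.toLin' (x : Matrix (Fin n) (Fin n) F)) := fun x hx =>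
    Module.End.isSemisimple_of_squarefree_aeval_eq_zero
      ((Polynomial.separable_X_pow_sub_C (1 : F) (hm x hx) one_ne_zero).squarefree) (by simp [hpow x])
  obtain ⟨e, he⟩ := CfsgLib.Semisimple.CharpolyConj.exists_conj _ _ (hss g hg) (hss h hh)
    (by rw [Matrix.charpoly_toLin', Matrix.charpoly_toLin', hc])
  let M := LinearMap.toMatrix' (e : (Fin n → F) →ₗ[F] (Fin n → F))
  have hM : M * (g : Matrix (Fin n) (Fin n) F) = (h : Matrix (Fin n) (Fin n) F) * M := by
    apply Matrix.toLin'.injective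
    rw [Matrix.toLin'_mul, Matrix.toLin'_mul, Matrix.toLin'_toMatrix']
    exact LinearMap.ext he
  have hdet : M.det ≠ 0 := by
    rw [LinearMap.det_toMatrix']
    exact (LinearEquiv.isUnit_det' e).ne_zero
  obtain ⟨y, hy, hyd⟩ := CfsgLib.Semisimple.exists_det_commute (Matrix.toLin' (g : Matrix (Fin n) (Fin n) F))
    (hm g hg) (hpow g) (Units.mk0 M.det hdet)⁻¹
  let Y := LinearMap.toMatrix' y
  have hY : Y * (g : Matrix (Fin n) (Fin n) F) = (g : Matrix (Fin n) (Fin n) F) * Y := by
    apply Matrix.toLin'.injective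
    rw [Matrix.toLin'_mul, Matrix.toLin'_mul, Matrix.toLin'_toMatrix']
    exact hy
  have hX : (M * Y).det = 1 := by
    rw [Matrix.det_mul, LinearMap.det_toMatrix' (f := y), hyd, Units.val_inv_eq_inv_val, Units.val_mk0]
    exact mul_inv_cancel₀ hdet
  let c : Matrix.SpecialLinearGroup (Fin n) F := ⟨M * Y, hX⟩
  refine isConj_iff.2 ⟨c, ?_⟩
  rw [mul_inv_eq_iff_eq_mul]
  apply Subtype.ext
  show M * Y * (g : Matrix (Fin n) (Fin n) F) = (h : Matrix (Fin n) (Fin n) F) * (M * Y)
  rw [mul_assoc, hY, ← mul_assoc, hM, mul_assoc]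

end Cfsg.Agent.S2388
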