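import Cfsg.Statements.S2384
import Mathlib
import Cfsg.Agent.S2388
import Cfsg.Agent.Lib.Semisimple.Realize

set_option autoImplicit false
open Cfsg

namespace Cfsg.Agent.S2384

/-- In `SL_n(q)`, `q` a power of the prime `p`, the number of conjugacy classes of elements of order prime to `p` (the semisimple classes) is `q^(n-1)`. -/
theorem result {F : Type*} [Field F] [Fintype F] {q : ℕ} (hq : Fintype.card F = q) (p : ℕ) [Fact p.Prime] [CharP F p] (n : ℕ) (hn : 1 ≤ n) :
    Nat.card {c : ConjClasses (Matrix.SpecialLinearGroup (Fin n) F) //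
      ∃ g : Matrix.SpecialLinearGroup (Fin n) F, ConjClasses.mk g = c ∧ (orderOf g).Coprime p} = q ^ (n - 1) := by
  classical
  haveI : Finite (Matrix.SpecialLinearGroup (Fin n) F) := Finite.of_injective Subtype.val Subtype.val_injective
  let R := CfsgLib.Semisimple.Realize.expo F n
  have hR : (R : F) ≠ 0 := CfsgLib.Semisimple.Realize.expo_ne_zero n
  let S := {f : {f : Polynomial F // f.Monic ∧ f.natDegree = n} // f.1.coeff 0 = (-1) ^ n}
  let T := {c : ConjClasses (Matrix.SpecialLinearGroup (Fin n) F) //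
      ∃ g : Matrix.SpecialLinearGroup (Fin n) F, ConjClasses.mk g = c ∧ (orderOf g).Coprime p}
  have hr : ∀ f : S, ∃ g : Matrix.SpecialLinearGroup (Fin n) F, (orderOf g).Coprime p ∧ (g : Matrix (Fin n) (Fin n) F).charpoly = f.1.1 := by
    intro f
    obtain ⟨A, hA, hAc⟩ := CfsgLib.Semisimple.Realize.exists_semisimple f.1.1 f.1.2.1 f.1.2.2
      (by rw [f.2]; exact pow_ne_zero _ (neg_ne_zero.2 one_ne_zero))
    have hdet : A.det = 1 := by
      rw [Matrix.det_eq_sign_charpoly_coeff, hAc, f.2, Fintype.card_fin, ← mul_pow]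
      simp
    let a : Matrix.SpecialLinearGroup (Fin n) F := ⟨A, hdet⟩
    have ha : a ^ R = 1 := by
      apply Subtype.ext
      exact (Matrix.SpecialLinearGroup.coe_pow a R).trans hA
    refine ⟨a, ?_, hAc⟩
    refine Nat.Coprime.coprime_dvd_left (orderOf_dvd_of_pow_eq_one ha) ?_
    refine ((Nat.Prime.coprime_iff_not_dvd Fact.out).2 ?_).symm
    exact fun h => hR ((CharP.cast_eq_zero_iff F p R).2 h)
  choose G hG hGc using hr
  let φ : S → T := fun f => ⟨ConjClasses.mk (G f), G f, rfl, hG f⟩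
  have hφ : Function.Bijective φ := by
    constructor
    · intro f f' h
      obtain ⟨c, hc⟩ := isConj_iff.1 (ConjClasses.mk_eq_mk_iff_isConj.1 (congrArg Subtype.val h))
      refine Subtype.ext (Subtype.ext ?_)
      rw [← hGc, ← hGc, ← hc]
      let u : GL (Fin n) F := Matrix.SpecialLinearGroup.toGL c
      have : ((c * G f * c⁻¹ : Matrix.SpecialLinearGroup (Fin n) F) : Matrix (Fin n) (Fin n) F)
          = (u : Matrix (Fin n) (Fin n) F) * (G f : Matrix (Fin n) (Fin n) F) * (↑u⁻¹ : Matrix (Fin n) (Fin n) F) := by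
        rw [← map_inv]; rfl
      rw [this, Matrix.coe_units_inv, Matrix.charpoly_units_conj]
    · rintro ⟨C, g, rfl, hg⟩
      have hm := Matrix.charpoly_monic (g : Matrix (Fin n) (Fin n) F)
      have hd : (g : Matrix (Fin n) (Fin n) F).charpoly.natDegree = n := by
        rw [Matrix.charpoly_natDegree_eq_dim, Fintype.card_fin]
      have h0 : (g : Matrix (Fin n) (Fin n) F).charpoly.coeff 0 = (-1) ^ n := by
        have h := Matrix.det_eq_sign_charpoly_coeff (g : Matrix (Fin n) (Fin n) F)
        rw [g.2, Fintype.card_fin] at h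
        calc (g : Matrix (Fin n) (Fin n) F).charpoly.coeff 0
            = (-1) ^ n * ((-1) ^ n * (g : Matrix (Fin n) (Fin n) F).charpoly.coeff 0) := by
              rw [← mul_assoc, ← mul_pow]; simp
          _ = (-1) ^ n := by rw [← h, mul_one]
      let f : S := ⟨⟨_, hm, hd⟩, h0⟩
      exact ⟨f, Subtype.ext (ConjClasses.mk_eq_mk_iff_isConj.2 (Cfsg.Agent.S2388.result p n _ _ (hG f) hg (hGc f)))⟩
  show Nat.card T = _
  rw [← Nat.card_congr (Equiv.ofBijective φ hφ)]
  let e := Equiv.ofBijective _ (CfsgLib.Semisimple.Realize.monic_coeff_bijective (F := F) n)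
  haveI : NeZero n := ⟨by omega⟩
  obtain ⟨m, rfl⟩ : ∃ m, n = m + 1 := ⟨n - 1, by omega⟩
  let e' : S ≃ {c : Fin (m + 1) → F // c 0 = (-1) ^ (m + 1)} := Equiv.subtypeEquiv e (fun f => Iff.rfl)
  rw [Nat.card_congr e']
  let e'' : {c : Fin (m + 1) → F // c 0 = (-1) ^ (m + 1)} ≃ (Fin m → F) :=
    { toFun := fun c => Fin.tail c.1
      invFun := fun x => ⟨Fin.cons ((-1) ^ (m + 1)) x, by simp⟩
      left_inv := fun c => Subtype.ext (by
        conv_rhs => rw [← Fin.cons_self_tail c.1]
        rw [c.2])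
      right_inv := fun x => by simp }
  rw [Nat.card_congr e'', Nat.card_fun, Nat.card_fin, Nat.card_eq_fintype_card (α := F), hq, Nat.add_sub_cancel]

end Cfsg.Agent.S2384
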