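import Cfsg.Statements.S2387
import Mathlib
import Cfsg.Agent.Lib.Semisimple.CharpolyConj
import Cfsg.Agent.Lib.Semisimple.Realize

set_option autoImplicit false
open scoped MatrixGroups
open Cfsg

namespace Cfsg.Agent.S2387

/-- In `GL_n(q)` with `n ≥ 1`, `q` a power of the prime `p`, the number of conjugacy classes of elements of order prime to `p` (diagonalisable over the algebraic closure; determined by the characteristic polynomial) is `(q - 1) q^(n-1)`. -/
theorem result {F : Type*} [Field F] [Fintype F] {q : ℕ} (hq : Fintype.card F = q) (p : ℕ) [Fact p.Prime] [CharP F p] (n : ℕ) (hn : 1 ≤ n) :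
    Nat.card {c : ConjClasses (GL (Fin n) F) // ∃ g : GL (Fin n) F, ConjClasses.mk g = c ∧ (orderOf g).Coprime p} = (q - 1) * q ^ (n - 1) := by
  classical
  haveI hfin : Finite (GL (Fin n) F) := inferInstance
  let R := CfsgLib.Semisimple.Realize.expo F n
  have hR : (R : F) ≠ 0 := CfsgLib.Semisimple.Realize.expo_ne_zero n
  have hss : ∀ g : GL (Fin n) F, (orderOf g).Coprime p →
      Module.End.IsSemisimple (Matrix.toLin' (g : Matrix (Fin n) (Fin n) F)) := by
    intro g hg
    have hm : (orderOf g : F) ≠ 0 := by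
      intro h0
      rw [CharP.cast_eq_zero_iff F p] at h0
      exact (Fact.out : p.Prime).one_lt.ne' (Nat.eq_one_of_dvd_coprimes hg h0 dvd_rfl)
    refine Module.End.isSemisimple_of_squarefree_aeval_eq_zero
      ((Polynomial.separable_X_pow_sub_C (1 : F) hm one_ne_zero).squarefree) ?_
    have : (Matrix.toLin' (g : Matrix (Fin n) (Fin n) F)) ^ orderOf g = 1 := by
      rw [← Matrix.toLin'_pow, ← Units.val_pow_eq_pow_val, pow_orderOf_eq_one, Units.val_one, Matrix.toLin'_one]; rfl
    simp [this]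
  let S := {f : {f : Polynomial F // f.Monic ∧ f.natDegree = n} // f.1.coeff 0 ≠ 0}
  let T := {c : ConjClasses (GL (Fin n) F) // ∃ g : GL (Fin n) F, ConjClasses.mk g = c ∧ (orderOf g).Coprime p}
  have hr : ∀ f : S, ∃ g : GL (Fin n) F, (orderOf g).Coprime p ∧ (g : Matrix (Fin n) (Fin n) F).charpoly = f.1.1 := by
    intro f
    obtain ⟨A, hA, hAc⟩ := CfsgLib.Semisimple.Realize.exists_semisimple f.1.1 f.1.2.1 f.1.2.2 f.2
    have hR0 : R ≠ 0 := fun h => hR (by rw [h, Nat.cast_zero])
    refine ⟨Units.ofPowEqOne A R hA hR0, ?_, hAc⟩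
    refine Nat.Coprime.coprime_dvd_left (orderOf_dvd_of_pow_eq_one (Units.pow_ofPowEqOne hA hR0)) ?_
    refine ((Nat.Prime.coprime_iff_not_dvd Fact.out).2 ?_).symm
    exact fun h => hR ((CharP.cast_eq_zero_iff F p R).2 h)
  choose G hG hGc using hr
  let φ : S → T := fun f => ⟨ConjClasses.mk (G f), G f, rfl, hG f⟩
  have hφ : Function.Bijective φ := by
    constructor
    · intro f f' h
      obtain ⟨c, hc⟩ := isConj_iff.1 (ConjClasses.mk_eq_mk_iff_isConj.1 (congrArg Subtype.val h))
      refine Subtype.ext (Subtype.ext ?_)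
      rw [← hGc, ← hGc, ← hc, Units.val_mul, Units.val_mul, Matrix.coe_units_inv, Matrix.charpoly_units_conj]
    · rintro ⟨C, g, rfl, hg⟩
      have hm := Matrix.charpoly_monic (g : Matrix (Fin n) (Fin n) F)
      have hd : (g : Matrix (Fin n) (Fin n) F).charpoly.natDegree = n := by
        rw [Matrix.charpoly_natDegree_eq_dim, Fintype.card_fin]
      have h0 : (g : Matrix (Fin n) (Fin n) F).charpoly.coeff 0 ≠ 0 := by
        intro h
        apply ((Matrix.isUnit_iff_isUnit_det _).1 g.isUnit).ne_zero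
        rw [Matrix.det_eq_sign_charpoly_coeff, h, mul_zero]
      let f : S := ⟨⟨_, hm, hd⟩, h0⟩
      refine ⟨f, Subtype.ext (ConjClasses.mk_eq_mk_iff_isConj.2 ?_)⟩
      obtain ⟨e, he⟩ := CfsgLib.Semisimple.CharpolyConj.exists_conj _ _ (hss _ (hG f)) (hss g hg)
        (by rw [Matrix.charpoly_toLin', Matrix.charpoly_toLin', hGc])
      let E := Matrix.GeneralLinearGroup.toLin.symm (LinearMap.GeneralLinearGroup.ofLinearEquiv e)
      refine isConj_iff.2 ⟨E, ?_⟩
      rw [mul_inv_eq_iff_eq_mul]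
      apply Units.ext
      apply Matrix.toLin'.injective
      rw [Units.val_mul, Units.val_mul, Matrix.toLin'_mul, Matrix.toLin'_mul]
      have hE : Matrix.toLin' (E : Matrix (Fin n) (Fin n) F) = (e : (Fin n → F) →ₗ[F] (Fin n → F)) :=
        Matrix.toLin'_toMatrix' _
      rw [hE]
      exact LinearMap.ext he
  show Nat.card T = _
  rw [← Nat.card_congr (Equiv.ofBijective φ hφ)]
  let e := Equiv.ofBijective _ (CfsgLib.Semisimple.Realize.monic_coeff_bijective (F := F) n)
  haveI : NeZero n := ⟨by omega⟩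
  obtain ⟨m, rfl⟩ : ∃ m, n = m + 1 := ⟨n - 1, by omega⟩
  let e' : S ≃ {c : Fin (m + 1) → F // c 0 ≠ 0} := Equiv.subtypeEquiv e (fun f => Iff.rfl)
  rw [Nat.card_congr e']
  let e'' : {c : Fin (m + 1) → F // c 0 ≠ 0} ≃ {a : F // a ≠ 0} × (Fin m → F) :=
    { toFun := fun c => (⟨c.1 0, c.2⟩, Fin.tail c.1)
      invFun := fun x => ⟨Fin.cons x.1.1 x.2, by simpa using x.1.2⟩
      left_inv := fun c => Subtype.ext (Fin.cons_self_tail c.1)
      right_inv := fun x => by simp }
  rw [Nat.card_congr e'', Nat.card_prod, Nat.card_fun, Nat.card_fin, Nat.card_eq_fintype_card (α := F),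
    Nat.card_eq_fintype_card, Fintype.card_subtype_compl, Fintype.card_subtype_eq, hq, Nat.add_sub_cancel]

end Cfsg.Agent.S2387
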