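import Cfsg.Statements.S2391
import Mathlib.GroupTheory.PGroup
import Mathlib.LinearAlgebra.Matrix.ToLin
import Mathlib.LinearAlgebra.Quotient.Basic
import Mathlib.LinearAlgebra.Dimension.Constructions
import Mathlib.FieldTheory.Finite.Basic

set_option autoImplicit false
open Cfsg Matrix

namespace Cfsg.Agent.S2391

/-- The ascending fixed-point series of a matrix group. -/
def flag {F : Type*} [Field F] {n : ℕ} (U : Subgroup (Matrix.SpecialLinearGroup (Fin n) F)) :
    ℕ → Submodule F (Fin n → F)
  | 0 => ⊥
  | i + 1 => ⨅ u : U, (flag U i).comap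
      (Matrix.mulVecLin ((u : Matrix.SpecialLinearGroup (Fin n) F) : Matrix (Fin n) (Fin n) F) - LinearMap.id)

theorem exists_fixed {F : Type*} [Field F] [Fintype F] (p : ℕ) [Fact p.Prime] [CharP F p]
    {V : Type*} [AddCommGroup V] [Module F V] [Finite V] {U : Type*} [Group U] (hU : IsPGroup p U)
    (L : U →* Module.End F V) (W : Submodule F V) (hW : ∀ u, W ≤ W.comap (L u)) (hne : W ≠ ⊤) :
    ∃ v, v ∉ W ∧ ∀ u, L u v - v ∈ W := by
  haveI : Nontrivial (V ⧸ W) := Submodule.Quotient.nontrivial_iff.mpr hne
  letI : MulAction U (V ⧸ W) :=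
    { smul := fun u x => W.mapQ W (L u) (hW u) x
      one_smul := fun x => by
        induction x using Submodule.Quotient.induction_on with
        | H v =>
          show Submodule.Quotient.mk (L 1 v) = _
          rw [map_one]
          rfl
      mul_smul := fun a b x => by
        induction x using Submodule.Quotient.induction_on with
        | H v =>
          show Submodule.Quotient.mk (L (a * b) v) = Submodule.Quotient.mk (L a (L b v))
          rw [map_mul]
          rfl }
  haveI : Finite (V ⧸ W) := Finite.of_surjective _ (Submodule.Quotient.mk_surjective W)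
  haveI : Module.Finite F (V ⧸ W) := Module.Finite.of_finite
  have hdvd : p ∣ Nat.card (V ⧸ W) := by
    obtain ⟨e, hp, he⟩ := FiniteField.card F p
    rw [Module.natCard_eq_pow_finrank (K := F), Nat.card_eq_fintype_card, he, ← pow_mul]
    exact dvd_pow_self p (Nat.mul_pos e.pos Module.finrank_pos).ne'
  obtain ⟨b, hb, hb0⟩ := hU.exists_fixed_point_of_prime_dvd_card_of_fixed_point (V ⧸ W) hdvd
    (a := (0 : V ⧸ W)) (fun u => map_zero (W.mapQ W (L u) (hW u)))
  obtain ⟨v, rfl⟩ := Submodule.Quotient.mk_surjective _ b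
  exact ⟨v, fun hv => hb0 ((Submodule.Quotient.mk_eq_zero _).mpr hv).symm,
    fun u => (Submodule.Quotient.eq _).mp (hb u)⟩

/-- The Borel–Tits property of `SL_n(q)` in flag form: for a field `F` of characteristic `p` with finitely many elements and a non-trivial `p`-subgroup `U` of `SL_n(F)`, there is a flag `0 = V₀ < V₁ < ⋯ < V_{k+1} = F^n` with at least one proper non-zero member such that every element of the normaliser of `U` maps each `V_i` onto itself and every element of `U` acts trivially on each quotient `V_{i+1}/V_i` (so the normaliser lies in the parabolic subgroup of the flag and `U` in its unipotent radical). -/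
theorem result {F : Type*} [Field F] [Fintype F] (p : ℕ) [Fact p.Prime] [CharP F p] (n : ℕ)
    (U : Subgroup (Matrix.SpecialLinearGroup (Fin n) F)) (hU : IsPGroup p ↥U) (hne : U ≠ ⊥) :
    ∃ (k : ℕ) (V : Fin (k + 2) → Submodule F (Fin n → F)), 1 ≤ k ∧ StrictMono V ∧ V 0 = ⊥ ∧ V (Fin.last (k + 1)) = ⊤ ∧
      (∀ g ∈ Subgroup.normalizer (U : Set (Matrix.SpecialLinearGroup (Fin n) F)), ∀ i, (V i).map (Matrix.mulVecLin (g : Matrix (Fin n) (Fin n) F)) = V i) ∧
      (∀ u ∈ U, ∀ i : Fin (k + 1), ∀ v ∈ V i.succ, (u : Matrix (Fin n) (Fin n) F).mulVec v - v ∈ V (Fin.castSucc i)) := by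
  classical
  let L : Matrix.SpecialLinearGroup (Fin n) F → ((Fin n → F) →ₗ[F] (Fin n → F)) :=
    fun g => Matrix.mulVecLin (g : Matrix (Fin n) (Fin n) F)
  have hL1 : ∀ v, L 1 v = v := fun v => by simp [L]
  have hLmul : ∀ g h v, L (g * h) v = L g (L h v) := fun g h v => by
    simp [L, Matrix.mulVec_mulVec]
  let S : ℕ → Submodule F (Fin n → F) := flag U
  have hS : ∀ i v, v ∈ S (i + 1) ↔ ∀ u : U, L u v - v ∈ S i := by
    intro i v
    simp [S, L, flag, Submodule.mem_iInf]
  have hmono : ∀ i, S i ≤ S (i + 1) := by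
    intro i
    induction i with
    | zero => exact bot_le
    | succ i ih => exact fun v hv => (hS (i + 1) v).mpr fun u => ih ((hS i v).mp hv u)
  have hinv : ∀ i (u : U), ∀ v ∈ S i, L u v ∈ S i := fun i u v hv => by
    have h := (S i).add_mem ((hS i v).mp (hmono i hv) u) hv
    rwa [sub_add_cancel] at h
  have hstrict : ∀ i, S i ≠ ⊤ → S i < S (i + 1) := by
    intro i hi
    let Lh : U →* Module.End F (Fin n → F) :=
      { toFun := fun u => L u
        map_one' := LinearMap.ext fun v => by rw [Subgroup.coe_one, hL1]; rfl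
        map_mul' := fun a b => LinearMap.ext fun v => by rw [Subgroup.coe_mul, hLmul]; rfl }
    obtain ⟨v, hvW, hv⟩ := exists_fixed p hU Lh (S i) (fun u v hv => hinv i u v hv) hi
    refine lt_of_le_of_ne (hmono i) fun he => hvW ?_
    rw [he, hS]
    exact hv
  let dim : Submodule F (Fin n → F) → ℕ := fun W => Module.finrank F W
  have hrank : ∀ i : ℕ, i ≤ dim (S i) ∨ S i = ⊤ := by
    intro i
    induction i with
    | zero => exact Or.inl (Nat.zero_le _)
    | succ i ih =>
      simp only [dim] at ih ⊢
      rcases eq_or_ne (S i) ⊤ with htop | htop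
      · have h := hmono i
        rw [htop] at h
        exact Or.inr (top_le_iff.mp h)
      · refine Or.inl ?_
        have := Submodule.finrank_lt_finrank_of_lt (hstrict i htop)
        have := ih.resolve_right htop
        omega
  have hex : ∃ i, S i = ⊤ := ⟨n + 1, (hrank (n + 1)).resolve_left fun h => by
    simp only [dim] at h
    have := Submodule.finrank_le (S (n + 1))
    rw [Module.finrank_fin_fun] at this
    omega⟩
  have hbelow : ∀ i, i < Nat.find hex → S i ≠ ⊤ := fun i hi => Nat.find_min hex hi
  have htriv : ∀ v, (∀ u : U, L u v - v = 0) ↔ v ∈ S 1 := fun v => by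
    show _ ↔ v ∈ S (0 + 1)
    rw [hS]
    exact forall_congr' fun u => (Submodule.mem_bot F).symm
  have h2 : 2 ≤ Nat.find hex := by
    by_contra hlt
    have h1 : S 1 = ⊤ := top_le_iff.mp (by
      have hf := Nat.find_spec hex
      rcases Nat.lt_succ_iff.mp (Nat.lt_of_not_le hlt) |>.eq_or_lt with h | h
      · exact h ▸ hf.ge
      · have h0 : Nat.find hex = 0 := by omega
        rw [h0] at hf
        exact hf.ge.trans (hmono 0))
    refine hne ((Subgroup.eq_bot_iff_forall _).mpr fun u hu => Subtype.ext ?_)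
    refine Matrix.ext_of_mulVec_single fun i => ?_
    have h := sub_eq_zero.mp ((htriv (Pi.single i 1)).mpr (h1 ▸ Submodule.mem_top) ⟨u, hu⟩)
    simp [L] at h
    show _ *ᵥ _ = (1 : Matrix (Fin n) (Fin n) F) *ᵥ _
    rw [Matrix.one_mulVec]
    simpa using h
  obtain ⟨k, hk⟩ : ∃ k, Nat.find hex = k + 1 := ⟨Nat.find hex - 1, by omega⟩
  refine ⟨k, fun i => S i.val, by omega, ?_, rfl, ?_, ?_, ?_⟩
  · refine Fin.strictMono_iff_lt_succ.mpr fun i => ?_
    exact hstrict i.val (hbelow _ (by have := i.isLt; omega))
  · show S (k + 1) = ⊤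
    rw [← hk]
    exact Nat.find_spec hex
  · have hle : ∀ g ∈ Subgroup.normalizer (U : Set (Matrix.SpecialLinearGroup (Fin n) F)), ∀ i,
        ∀ v ∈ S i, L g v ∈ S i := by
      intro g hg i
      induction i with
      | zero =>
        intro v hv
        rw [(Submodule.mem_bot F).mp hv, map_zero]
        exact zero_mem _
      | succ i ih =>
        intro v hv
        rw [hS] at hv ⊢
        intro u
        have hu' : g⁻¹ * u * g ∈ U := (Subgroup.mem_normalizer_iff''.mp hg u).mp u.2
        have h := ih _ (hv ⟨_, hu'⟩)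
        rw [map_sub, ← hLmul] at h
        rwa [show g * (g⁻¹ * u * g) = u * g by group, hLmul] at h
    intro g hg i
    refine le_antisymm (Submodule.map_le_iff_le_comap.mpr (hle g hg _)) fun v hv =>
      ⟨L g⁻¹ v, hle g⁻¹ (inv_mem hg) _ v hv, ?_⟩
    show L g (L g⁻¹ v) = v
    rw [← hLmul, mul_inv_cancel, hL1]
  · intro u hu i v hv
    exact (hS i.val v).mp hv ⟨u, hu⟩

end Cfsg.Agent.S2391
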