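import Cfsg.Statements.S2392
import Cfsg.Agent.Lib.MinDim.CrossChar
import Mathlib.FieldTheory.IsAlgClosed.AlgebraicClosure
import Mathlib.LinearAlgebra.Matrix.SpecialLinearGroup
import Mathlib.LinearAlgebra.Matrix.SchurComplement

set_option autoImplicit false
open Cfsg

namespace Cfsg.Agent.S2392

open Matrix

universe u

variable {F : Type u} [Field F] {m : ℕ}

theorem exists_step {a b : Fin m → F} (hne : ∀ c : F, b ≠ c • a) (ha : a ≠ 0) :
    ∃ h : Matrix.SpecialLinearGroup (Fin m) F, a ᵥ* (h : Matrix (Fin m) (Fin m) F) = b := by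
  obtain ⟨i, hi⟩ := Function.ne_iff.mp ha
  rw [Pi.zero_apply] at hi
  set w : Fin m → F := b - a with hw
  obtain ⟨j, hj⟩ : ∃ j, a i * w j - a j * w i ≠ 0 := by
    by_contra hall
    simp only [not_exists, not_not] at hall
    refine hne (w i / a i + 1) (funext fun j => ?_)
    have := hall j
    simp only [hw, Pi.sub_apply] at this ⊢
    simp only [Pi.smul_apply, smul_eq_mul]
    field_simp
    linear_combination this
  have hij : i ≠ j := by
    rintro rfl
    exact hj (by ring)
  set D := a i * w j - a j * w i with hD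
  set v : Fin m → F := Pi.single i (w j / D) + Pi.single j (-(w i) / D) with hv
  have hav : a ⬝ᵥ v = 1 := by
    rw [hv, dotProduct_add, dotProduct_single, dotProduct_single]
    field_simp
    rw [hD]
    ring
  have hwv : w ⬝ᵥ v = 0 := by
    rw [hv, dotProduct_add, dotProduct_single, dotProduct_single]
    field_simp
    ring
  refine ⟨⟨1 + Matrix.vecMulVec v w, ?_⟩, ?_⟩
  · rw [Matrix.vecMulVec_eq Unit, Matrix.det_one_add_replicateCol_mul_replicateRow, hwv, add_zero]
  · show a ᵥ* (1 + Matrix.vecMulVec v w) = b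
    rw [Matrix.vecMul_add, Matrix.vecMul_one, Matrix.vecMul_vecMulVec, hav, one_smul, hw]
    abel

theorem exists_sl_vecMul (hm : 2 ≤ m) {a b : Fin m → F} (ha : a ≠ 0) (hb : b ≠ 0) :
    ∃ h : Matrix.SpecialLinearGroup (Fin m) F, a ᵥ* (h : Matrix (Fin m) (Fin m) F) = b := by
  by_cases hne : ∀ c : F, b ≠ c • a
  · exact exists_step hne ha
  simp only [not_forall, not_not] at hne
  obtain ⟨c, rfl⟩ := hne
  have hc : c ≠ 0 := left_ne_zero_of_smul hb
  obtain ⟨i, hi⟩ := Function.ne_iff.mp ha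
  rw [Pi.zero_apply] at hi
  obtain ⟨j, hji⟩ := Fintype.exists_ne_of_one_lt_card (by rw [Fintype.card_fin]; omega) i
  by_cases hdep : ∃ d : F, Pi.single j (1 : F) = d • a
  · obtain ⟨d, hd⟩ := hdep
    have h1 := congrFun hd i
    simp only [Pi.single_eq_of_ne hji.symm, Pi.smul_apply, smul_eq_mul] at h1
    have hd0 : d = 0 := (mul_eq_zero.mp h1.symm).resolve_right hi
    have h2 := congrFun hd j
    simp [hd0] at h2
  simp only [not_exists] at hdep
  obtain ⟨h₁, hh₁⟩ := exists_step hdep ha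
  have hsingle : (Pi.single j (1 : F) : Fin m → F) ≠ 0 := fun h => hdep 0 (by rw [h, zero_smul])
  obtain ⟨h₂, hh₂⟩ := exists_step (a := (Pi.single j (1 : F) : Fin m → F)) (b := c • a) (fun d hd => by
    have h3 := congrFun hd i
    simp [Pi.single_eq_of_ne hji.symm, hc, hi] at h3) hsingle
  exact ⟨h₁ * h₂, by rw [Matrix.SpecialLinearGroup.coe_mul, ← Matrix.vecMul_vecMul, hh₁, hh₂]⟩

/-- The unipotent radical element. -/
def uElt (x : Fin m → F) : Matrix.SpecialLinearGroup (Fin (m + 1)) F :=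
  ⟨Matrix.reindex finSumFinEquiv finSumFinEquiv
    (Matrix.fromBlocks 1 (Matrix.replicateCol (Fin 1) x) 0 1), by simp⟩

/-- The Levi element. -/
def lElt (h : Matrix.SpecialLinearGroup (Fin m) F) : Matrix.SpecialLinearGroup (Fin (m + 1)) F :=
  ⟨Matrix.reindex finSumFinEquiv finSumFinEquiv
    (Matrix.fromBlocks (h : Matrix (Fin m) (Fin m) F) 0 0 (1 : Matrix (Fin 1) (Fin 1) F)), by simp⟩

theorem uElt_zero : uElt (0 : Fin m → F) = 1 := by
  apply Subtype.ext
  simp [uElt]

theorem uElt_coe (x : Fin m → F) : (uElt x : Matrix (Fin (m + 1)) (Fin (m + 1)) F) =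
    Matrix.reindexAlgEquiv F F finSumFinEquiv
      (Matrix.fromBlocks 1 (Matrix.replicateCol (Fin 1) x) 0 1) := rfl

theorem lElt_coe (h : Matrix.SpecialLinearGroup (Fin m) F) :
    (lElt h : Matrix (Fin (m + 1)) (Fin (m + 1)) F) = Matrix.reindexAlgEquiv F F finSumFinEquiv
      (Matrix.fromBlocks (h : Matrix (Fin m) (Fin m) F) 0 0 (1 : Matrix (Fin 1) (Fin 1) F)) := rfl

theorem uElt_add (x y : Fin m → F) : uElt (x + y) = uElt x * uElt y := by
  apply Subtype.ext
  rw [Matrix.SpecialLinearGroup.coe_mul, uElt_coe, uElt_coe, uElt_coe, ← map_mul,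
    Matrix.fromBlocks_multiply]
  simp [add_comm]

theorem uElt_injective : Function.Injective (uElt : (Fin m → F) → _) := by
  intro x y h
  have h1 := (Matrix.reindex finSumFinEquiv finSumFinEquiv).injective (congrArg Subtype.val h)
  have h2 := (Matrix.fromBlocks_inj.mp h1).2.1
  exact funext fun i => congrFun (congrFun h2 i) 0

theorem uElt_conj (g : Matrix.SpecialLinearGroup (Fin m) F) (x : Fin m → F) :
    uElt ((g : Matrix (Fin m) (Fin m) F) *ᵥ x) * lElt g = lElt g * uElt x := by
  apply Subtype.ext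
  rw [Matrix.SpecialLinearGroup.coe_mul, Matrix.SpecialLinearGroup.coe_mul, uElt_coe, uElt_coe,
    lElt_coe, ← map_mul, ← map_mul, Matrix.fromBlocks_multiply,
    Matrix.fromBlocks_multiply, Matrix.replicateCol_mulVec]
  simp

/-- A lower bound for representations in cross characteristic: for `n ≥ 3` and a field `F` with `q` elements, every homomorphism from `SL_n(F)` to `GL_d(K)`, `K` a field of characteristic different from that of `F`, whose kernel is central has `d ≥ q^(n-1) - 1`. -/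
theorem result {F : Type*} [Field F] [Fintype F] {q : ℕ} (hq : Fintype.card F = q) (n : ℕ) (hn : 3 ≤ n)
    {K : Type*} [Field K] (hK : ringChar K ≠ ringChar F) {d : ℕ}
    (ρ : Matrix.SpecialLinearGroup (Fin n) F →* GL (Fin d) K) (hker : ρ.ker ≤ Subgroup.center (Matrix.SpecialLinearGroup (Fin n) F)) :
    q ^ (n - 1) - 1 ≤ d := by
  classical
  obtain ⟨m, rfl⟩ : ∃ m, n = m + 1 := ⟨n - 1, by omega⟩
  let σ : Matrix.SpecialLinearGroup (Fin (m + 1)) F →* Matrix (Fin d) (Fin d) (AlgebraicClosure K) :=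
    ((algebraMap K (AlgebraicClosure K)).mapMatrix : Matrix (Fin d) (Fin d) K →+* _).toMonoidHom.comp
      ((Units.coeHom _).comp ρ)
  obtain ⟨x₀, hx₀⟩ : ∃ x₀ : Fin m → F, x₀ ≠ 0 :=
    ⟨Pi.single ⟨0, by omega⟩ 1, fun h => one_ne_zero (α := F) (by
      simpa using congrFun h ⟨0, by omega⟩)⟩
  have hu : σ (uElt x₀) ≠ 1 := by
    intro h
    have hmem : uElt x₀ ∈ ρ.ker := MonoidHom.mem_ker.mpr
      (Units.ext (Matrix.map_injective (algebraMap K (AlgebraicClosure K)).injective
        (h.trans (Matrix.map_one _ (map_zero _) (map_one _)).symm)))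
    have hc := Subgroup.mem_center_iff.mp (hker hmem)
    obtain ⟨i, hi⟩ := Function.ne_iff.mp hx₀
    rw [Pi.zero_apply] at hi
    obtain ⟨j, hji⟩ := Fintype.exists_ne_of_one_lt_card (by rw [Fintype.card_fin]; omega) i
    let g : Matrix.SpecialLinearGroup (Fin m) F :=
      ⟨Matrix.transvection j i 1, Matrix.det_transvection_of_ne j i hji 1⟩
    have h1 := uElt_conj g x₀
    rw [hc (lElt g)] at h1
    have h2 := congrFun (uElt_injective (mul_right_cancel h1)) j
    change (Matrix.transvection j i (1 : F) *ᵥ x₀) j = x₀ j at h2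
    simp [Matrix.transvection, Matrix.add_mulVec, Matrix.single_mulVec] at h2
    exact hi h2
  obtain ⟨ψ, a, w, hψ, hax, hw, ha⟩ := CfsgLib.MinDim.exists_dot_char
    (CfsgLib.MinDim.cast_ringChar_ne_zero hK (algebraMap K (AlgebraicClosure K)))
    (fun x => σ (uElt x)) (by rw [uElt_zero, map_one]) (fun x y => by rw [uElt_add, map_mul]) x₀ hu
  have ha0 : a ≠ 0 := by
    rintro rfl
    simp at hax
  have hcard := CfsgLib.MinDim.card_le_of_orbit (fun x => σ (uElt x)) hψ a w hw ha
    ((Finset.univ : Finset (Fin m → F)).erase 0) (fun b hb => by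
      obtain ⟨h, hh⟩ := exists_sl_vecMul (m := m) (by omega) ha0 (Finset.ne_of_mem_erase hb)
      refine ⟨σ (lElt h⁻¹), (Group.isUnit _).map σ, fun x =>
        ⟨(h : Matrix (Fin m) (Fin m) F) *ᵥ x, ?_, by rw [Matrix.dotProduct_mulVec, hh]⟩⟩
      rw [← map_mul, ← map_mul, ← uElt_conj]
      congr 2
      rw [Matrix.mulVec_mulVec, ← Matrix.SpecialLinearGroup.coe_mul, inv_mul_cancel,
        Matrix.SpecialLinearGroup.coe_one, Matrix.one_mulVec])
  rw [Finset.card_erase_of_mem (Finset.mem_univ _), Finset.card_univ] at hcard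
  simpa [hq] using hcard

end Cfsg.Agent.S2392
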