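import Cfsg.Statements.S2393
import Cfsg.Agent.Lib.MinDim.CrossChar
import Cfsg.Agent.Lib.LawFree.Classical
import Mathlib.FieldTheory.IsAlgClosed.AlgebraicClosure

set_option autoImplicit false
open Cfsg

namespace Cfsg.Agent.S2393

open Matrix

universe u

variable {F : Type u} [Field F] {k : ℕ}

/-- A symmetric matrix supported on the first row and column. -/
def symMat (x : Fin (k + 1) → F) : Matrix (Fin (k + 1)) (Fin (k + 1)) F :=
  Matrix.of fun i j => if i = 0 then x j else if j = 0 then x i else 0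

theorem symMat_transpose (x : Fin (k + 1) → F) : (symMat x)ᵀ = symMat x := by
  ext i j
  simp only [symMat, Matrix.transpose_apply, Matrix.of_apply]
  split_ifs with h1 h2 <;> simp_all

theorem symMat_add (x y : Fin (k + 1) → F) : symMat (x + y) = symMat x + symMat y := by
  ext i j
  simp only [symMat, Matrix.of_apply, Matrix.add_apply, Pi.add_apply]
  split_ifs <;> simp

theorem symMat_zero : symMat (0 : Fin (k + 1) → F) = 0 := by
  ext i j
  simp [symMat]

/-- The identity with first row replaced by `r`. -/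
def rowMat (r : Fin (k + 1) → F) : Matrix (Fin (k + 1)) (Fin (k + 1)) F :=
  Matrix.updateRow 1 0 r

theorem det_rowMat (r : Fin (k + 1) → F) : (rowMat r).det = r 0 := by
  have hr : r = ∑ i, r i • (1 : Matrix (Fin (k + 1)) (Fin (k + 1)) F) i := by
    funext j
    simp [Matrix.one_apply, Finset.sum_apply]
  conv_lhs => rw [rowMat, hr, Matrix.det_updateRow_sum]
  simp

/-- The effect of conjugation on the parameters. -/
def moveVec (r x : Fin (k + 1) → F) : Fin (k + 1) → F :=
  fun j => if j = 0 then (symMat x *ᵥ r) ⬝ᵥ r else r 0 * x j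

theorem rowMat_conj (r x : Fin (k + 1) → F) :
    rowMat r * symMat x * (rowMat r)ᵀ = symMat (moveVec r x) := by
  have hrow : ∀ i, i ≠ 0 → rowMat r i = (1 : Matrix (Fin (k + 1)) (Fin (k + 1)) F) i :=
    fun i hi => Matrix.updateRow_ne hi
  have hrow0 : rowMat r 0 = r := Matrix.updateRow_self
  have key : ∀ i l, (rowMat r * symMat x * (rowMat r)ᵀ) i l =
      (symMat x *ᵥ rowMat r l) ⬝ᵥ rowMat r i := by
    intro i l
    rw [Matrix.mul_assoc, Matrix.mul_apply]
    simp only [dotProduct, Matrix.mulVec, Matrix.mul_apply, Matrix.transpose_apply]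
    exact Finset.sum_congr rfl fun a _ => mul_comm _ _
  have hcol : ∀ l, l ≠ 0 → symMat x *ᵥ (1 : Matrix (Fin (k + 1)) (Fin (k + 1)) F) l =
      fun i => if i = 0 then x l else 0 := by
    intro l hl
    funext i
    simp only [Matrix.mulVec, dotProduct, symMat, Matrix.of_apply, Matrix.one_apply, hl, mul_ite,
      mul_one, mul_zero, Finset.sum_ite_eq, Finset.mem_univ, if_true, if_false]
  ext i l
  rw [key]
  by_cases hl : l = 0
  · subst hl
    by_cases hi : i = 0
    · subst hi
      simp [symMat, moveVec, hrow0]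
    · rw [hrow i hi, hrow0, dotProduct_comm, Matrix.dotProduct_mulVec]
      have h1 : (1 : Matrix (Fin (k + 1)) (Fin (k + 1)) F) i ᵥ* symMat x =
          symMat x *ᵥ (1 : Matrix (Fin (k + 1)) (Fin (k + 1)) F) i := by
        rw [← Matrix.mulVec_transpose, symMat_transpose]
      rw [h1, hcol i hi]
      simp [dotProduct, symMat, moveVec, hi, mul_comm]
  · rw [hrow l hl, hcol l hl]
    by_cases hi : i = 0
    · subst hi
      simp [dotProduct, symMat, moveVec, hrow0, hl, mul_comm]
    · rw [hrow i hi]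
      simp [dotProduct, symMat, moveVec, hi, hl, Matrix.one_apply]

theorem dot_moveVec (r x a : Fin (k + 1) → F) :
    a ⬝ᵥ moveVec r x = (a 0 * r 0 ^ 2) * x 0 +
      ∑ i : Fin k, (2 * a 0 * r 0 * r i.succ + r 0 * a i.succ) * x i.succ := by
  have h0 : (symMat x *ᵥ r) ⬝ᵥ r =
      r 0 ^ 2 * x 0 + 2 * r 0 * ∑ i : Fin k, r i.succ * x i.succ := by
    simp [dotProduct, Matrix.mulVec, symMat, Fin.sum_univ_succ, add_mul, Finset.mul_sum,
      Finset.sum_add_distrib]
    rw [Finset.sum_mul, add_assoc, ← Finset.sum_add_distrib]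
    congr 1
    · ring
    · exact Finset.sum_congr rfl fun i _ => by ring
  rw [dotProduct, Fin.sum_univ_succ]
  simp only [moveVec, if_true, Fin.succ_ne_zero, if_false]
  rw [h0, Finset.mul_sum, mul_add, Finset.mul_sum, add_assoc, ← Finset.sum_add_distrib]
  congr 1
  · ring
  · exact Finset.sum_congr rfl fun i _ => by ring

/-- The unipotent element with symmetric part `S`. -/
def uElt (x : Fin (k + 1) → F) : ↥(Matrix.symplecticGroup (Fin (k + 1)) F) :=
  ⟨Matrix.fromBlocks 1 (symMat x) 0 1, by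
    rw [SymplecticGroup.mem_iff]
    simp [Matrix.J, Matrix.fromBlocks_transpose, Matrix.fromBlocks_multiply, symMat_transpose]⟩

/-- A Levi element. -/
def lElt (g : GL (Fin (k + 1)) F) : ↥(Matrix.symplecticGroup (Fin (k + 1)) F) :=
  ⟨_, CfsgLib.LawFree.leviHom_mem_symplectic g⟩

theorem uElt_coe (x : Fin (k + 1) → F) :
    (uElt x : Matrix (Fin (k + 1) ⊕ Fin (k + 1)) (Fin (k + 1) ⊕ Fin (k + 1)) F) =
      Matrix.fromBlocks 1 (symMat x) 0 1 := rfl

theorem lElt_coe (g : GL (Fin (k + 1)) F) :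
    (lElt g : Matrix (Fin (k + 1) ⊕ Fin (k + 1)) (Fin (k + 1) ⊕ Fin (k + 1)) F) =
      Matrix.fromBlocks (g : Matrix (Fin (k + 1)) (Fin (k + 1)) F) 0 0
        ((g⁻¹ : GL (Fin (k + 1)) F) : Matrix (Fin (k + 1)) (Fin (k + 1)) F)ᵀ := rfl

theorem uElt_zero : uElt (0 : Fin (k + 1) → F) = 1 := by
  apply Subtype.ext
  rw [uElt_coe, symMat_zero, Matrix.fromBlocks_one]
  rfl

theorem uElt_add (x y : Fin (k + 1) → F) : uElt (x + y) = uElt x * uElt y := by
  apply Subtype.ext
  show _ = _ * _
  rw [uElt_coe, uElt_coe, uElt_coe, Matrix.fromBlocks_multiply, symMat_add]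
  simp [add_comm]

theorem uElt_conj (g : GL (Fin (k + 1)) F) (x y : Fin (k + 1) → F)
    (hy : (g : Matrix (Fin (k + 1)) (Fin (k + 1)) F) * symMat x *
      (g : Matrix (Fin (k + 1)) (Fin (k + 1)) F)ᵀ = symMat y) :
    uElt y * lElt g = lElt g * uElt x := by
  apply Subtype.ext
  show _ * _ = _ * _
  rw [uElt_coe, uElt_coe, lElt_coe, Matrix.fromBlocks_multiply, Matrix.fromBlocks_multiply]
  simp [← hy, Matrix.mul_assoc, ← Matrix.transpose_mul]

/-- A lower bound for representations in cross characteristic: for `n ≥ 2` and a field `F` with `q` elements, `q` odd, every homomorphism from the symplectic group `Sp_{2n}(F)` to `GL_d(K)`, `K` a field of characteristic different from that of `F`, whose kernel is central has `d ≥ q^(n-1)(q-1)/2`. -/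
theorem result {F : Type*} [Field F] [Fintype F] {q : ℕ} (hq : Fintype.card F = q) (hodd : Odd q) (n : ℕ) (hn : 2 ≤ n)
    {K : Type*} [Field K] (hK : ringChar K ≠ ringChar F) {d : ℕ}
    (ρ : ↥(Matrix.symplecticGroup (Fin n) F) →* GL (Fin d) K) (hker : ρ.ker ≤ Subgroup.center ↥(Matrix.symplecticGroup (Fin n) F)) :
    q ^ (n - 1) * (q - 1) / 2 ≤ d := by
  classical
  obtain ⟨k, rfl⟩ : ∃ k, n = k + 1 := ⟨n - 1, by omega⟩
  have h2 : (2 : F) ≠ 0 := Ring.two_ne_zero (fun h => by
    have h1 := FiniteField.even_card_of_char_two h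
    rw [hq, Nat.odd_iff.mp hodd] at h1
    exact one_ne_zero h1)
  let σ : ↥(Matrix.symplecticGroup (Fin (k + 1)) F) →* Matrix (Fin d) (Fin d) (AlgebraicClosure K) :=
    ((algebraMap K (AlgebraicClosure K)).mapMatrix : Matrix (Fin d) (Fin d) K →+* _).toMonoidHom.comp
      ((Units.coeHom _).comp ρ)
  set x₀ : Fin (k + 1) → F := Pi.single 0 1 with hx₀
  have hS : symMat x₀ 0 0 = 1 := by simp [symMat, hx₀]
  have hu : σ (uElt x₀) ≠ 1 := by
    intro h
    have hmem : uElt x₀ ∈ ρ.ker := MonoidHom.mem_ker.mpr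
      (Units.ext (Matrix.map_injective (algebraMap K (AlgebraicClosure K)).injective
        (h.trans (Matrix.map_one _ (map_zero _) (map_one _)).symm)))
    have hc := Subgroup.mem_center_iff.mp (hker hmem)
    let low : ↥(Matrix.symplecticGroup (Fin (k + 1)) F) := ⟨Matrix.fromBlocks 1 0 (symMat x₀) 1, by
      rw [SymplecticGroup.mem_iff]
      simp [Matrix.J, Matrix.fromBlocks_transpose, Matrix.fromBlocks_multiply, symMat_transpose]⟩
    have h3 : Matrix.fromBlocks 1 0 (symMat x₀) 1 * Matrix.fromBlocks 1 (symMat x₀) 0 1 =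
        Matrix.fromBlocks 1 (symMat x₀) 0 1 * Matrix.fromBlocks 1 0 (symMat x₀) 1 :=
      congrArg Subtype.val (hc low)
    simp [Matrix.fromBlocks_multiply, Matrix.fromBlocks_inj] at h3
    have h4 := congrFun (congrFun h3 0) 0
    simp [Matrix.mul_apply, Fin.sum_univ_succ, symMat, hx₀, Fin.succ_ne_zero] at h4
  obtain ⟨ψ, a, w, hψ, hax, hw, ha⟩ := CfsgLib.MinDim.exists_dot_char
    (CfsgLib.MinDim.cast_ringChar_ne_zero hK (algebraMap K (AlgebraicClosure K)))
    (fun x => σ (uElt x)) (by rw [uElt_zero, map_one]) (fun x y => by rw [uElt_add, map_mul]) x₀ hu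
  have ha0 : a 0 ≠ 0 := by
    intro h
    simp [hx₀, dotProduct_single, h] at hax
  set sq : Finset F := (Finset.univ : Finset Fˣ).image (fun t : Fˣ => a 0 * (t : F) ^ 2) with hsq
  have hsqcard : q - 1 ≤ 2 * sq.card := by
    have h1 := Finset.card_le_mul_card_image (f := fun t : Fˣ => a 0 * (t : F) ^ 2)
      (Finset.univ : Finset Fˣ) 2 (fun c hc => by
        obtain ⟨t, -, rfl⟩ := Finset.mem_image.mp hc
        refine (Finset.card_le_card (t := {t, -t}) fun s hs => ?_).trans Finset.card_le_two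
        have hs' := mul_left_cancel₀ ha0 (Finset.mem_filter.mp hs).2
        rcases sq_eq_sq_iff_eq_or_eq_neg.mp hs' with h | h
        · simp [Units.ext h]
        · simp [show s = -t from Units.ext (by simpa using h)])
    rwa [Finset.card_univ, Fintype.card_units, hq] at h1
  set B : Finset (Fin (k + 1) → F) :=
    (sq ×ˢ (Finset.univ : Finset (Fin k → F))).image (fun p => Fin.cons p.1 p.2) with hB
  have hBcard : B.card = sq.card * q ^ k := by
    rw [hB, Finset.card_image_of_injective, Finset.card_product, Finset.card_univ, Fintype.card_fun,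
      Fintype.card_fin, hq]
    intro p p' h
    obtain ⟨h1, h2⟩ := Fin.cons_inj.mp h
    exact Prod.ext h1 h2
  have hcard := CfsgLib.MinDim.card_le_of_orbit (fun x => σ (uElt x)) hψ a w hw ha B (fun b hb => by
    obtain ⟨⟨c, v⟩, hp, rfl⟩ := Finset.mem_image.mp hb
    obtain ⟨t, -, rfl⟩ := Finset.mem_image.mp (Finset.mem_product.mp hp).1
    have ht : (t : F) ≠ 0 := t.ne_zero
    set r : Fin (k + 1) → F :=
      Fin.cons (t : F) (fun i => (v i - (t : F) * a i.succ) / (2 * a 0 * (t : F))) with hr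
    have hdet : (rowMat r).det ≠ 0 := by
      rw [det_rowMat, hr, Fin.cons_zero]
      exact ht
    set g : GL (Fin (k + 1)) F := Matrix.GeneralLinearGroup.mkOfDetNeZero _ hdet with hg
    refine ⟨σ (lElt g⁻¹), (Group.isUnit _).map σ, fun x => ⟨moveVec r x, ?_, ?_⟩⟩
    · rw [← map_mul, ← map_mul]
      refine congrArg σ (uElt_conj g⁻¹ _ _ ?_)
      have hgc : (g : Matrix (Fin (k + 1)) (Fin (k + 1)) F) = rowMat r := rfl
      have hgi : ((g⁻¹ : GL (Fin (k + 1)) F) : Matrix (Fin (k + 1)) (Fin (k + 1)) F) * rowMat r = 1 := by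
        rw [← hgc]
        exact g.inv_mul
      rw [← rowMat_conj]
      simp only [← Matrix.mul_assoc, hgi, Matrix.one_mul]
      rw [Matrix.mul_assoc, ← Matrix.transpose_mul, hgi, Matrix.transpose_one, Matrix.mul_one]
    · rw [dot_moveVec, dotProduct, Fin.sum_univ_succ, hr]
      simp only [Fin.cons_zero, Fin.cons_succ]
      congr 1
      refine Finset.sum_congr rfl fun i _ => ?_
      field_simp
      ring)
  rw [hBcard, Fintype.card_fin] at hcard
  have h3 : (q - 1) * q ^ k ≤ 2 * sq.card * q ^ k := Nat.mul_le_mul_right _ hsqcard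
  rw [mul_assoc] at h3
  rw [Nat.add_sub_cancel, mul_comm]
  omega

end Cfsg.Agent.S2393
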