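import Cfsg.Statements.S2394
import Cfsg.Agent.Lib.MinDim.Inverted
import Mathlib.FieldTheory.IsAlgClosed.AlgebraicClosure
import Mathlib.FieldTheory.Finite.Basic
import Mathlib.LinearAlgebra.Matrix.GeneralLinearGroup.Defs

set_option autoImplicit false
open Cfsg

namespace Cfsg.Agent.S2394

open Matrix MatrixGroups

universe u

variable {F : Type u} [Field F]

/-- `SL₂(F)^n` inside `Sp_{2n}(F)`. -/
def embed (n : ℕ) : (Fin n → SL(2, F)) →* ↥(Matrix.symplecticGroup (Fin n) F) where
  toFun g := ⟨Matrix.fromBlocks (diagonal fun i => g i 0 0) (diagonal fun i => g i 0 1)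
    (diagonal fun i => g i 1 0) (diagonal fun i => g i 1 1), by
      rw [SymplecticGroup.mem_iff]
      have hd : ∀ i, g i 0 0 * g i 1 1 - g i 0 1 * g i 1 0 = 1 := fun i => by
        rw [← Matrix.det_fin_two]; exact (g i).2
      simp only [Matrix.J, Matrix.fromBlocks_transpose, Matrix.fromBlocks_multiply,
        Matrix.diagonal_transpose, ← Matrix.diagonal_one, Matrix.diagonal_neg, Matrix.mul_zero,
        Matrix.zero_mul, Matrix.diagonal_mul_diagonal, zero_add, add_zero, Matrix.diagonal_add]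
      rw [Matrix.fromBlocks_inj]
      refine ⟨?_, ?_, ?_, ?_⟩ <;> ext i j <;> by_cases h : i = j <;>
        simp only [Matrix.diagonal_apply, h, if_true, if_false, Matrix.zero_apply]
      · ring
      · linear_combination -hd j
      · linear_combination hd j
      · ring⟩
  map_one' := by
    apply Subtype.ext
    simp
  map_mul' g h := by
    apply Subtype.ext
    show _ = _ * _
    simp [Matrix.fromBlocks_multiply, Matrix.diagonal_mul_diagonal, Matrix.diagonal_add,
      Matrix.mul_apply, Fin.sum_univ_two]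

theorem embed_injective (n : ℕ) : Function.Injective (embed n : (Fin n → SL(2, F)) →* _) := by
  intro g h hgh
  have h1 : Matrix.fromBlocks (diagonal fun i => g i 0 0) (diagonal fun i => g i 0 1)
      (diagonal fun i => g i 1 0) (diagonal fun i => g i 1 1) =
    Matrix.fromBlocks (diagonal fun i => h i 0 0) (diagonal fun i => h i 0 1)
      (diagonal fun i => h i 1 0) (diagonal fun i => h i 1 1) := congrArg Subtype.val hgh
  simp only [Matrix.fromBlocks_inj, Matrix.diagonal_eq_diagonal_iff] at h1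
  funext i
  apply Subtype.ext
  ext a b
  fin_cases a <;> fin_cases b
  · exact h1.1 i
  · exact h1.2.1 i
  · exact h1.2.2.1 i
  · exact h1.2.2.2 i

theorem exists_inverted [Fintype F] :
    ∃ X Y : SL(2, F), X * Y * X = Y ∧ X ^ 2 ≠ 1 ∧
      (((2 : F) ≠ 0 ∧ X ^ 4 = 1) ∨ ((3 : F) ≠ 0 ∧ X ^ 3 = 1)) := by
  by_cases h2 : (2 : F) = 0
  · have hneg : ∀ a : F, -a = a := fun a => by linear_combination (-a) * h2
    let X : SL(2, F) := ⟨!![0, 1; 1, 1], by rw [Matrix.det_fin_two_of]; linear_combination (-1 : F) * h2⟩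
    let Y : SL(2, F) := ⟨!![0, 1; 1, 0], by rw [Matrix.det_fin_two_of]; linear_combination (-1 : F) * h2⟩
    have hX : (X : Matrix (Fin 2) (Fin 2) F) = !![0, 1; 1, 1] := rfl
    have hY : (Y : Matrix (Fin 2) (Fin 2) F) = !![0, 1; 1, 0] := rfl
    refine ⟨X, Y, ?_, ?_, Or.inr ⟨fun h3 => one_ne_zero (α := F) (by linear_combination h3 - h2), ?_⟩⟩
    · apply Subtype.ext
      rw [Matrix.SpecialLinearGroup.coe_mul, Matrix.SpecialLinearGroup.coe_mul, hX, hY]
      ext i j
      fin_cases i <;> fin_cases j <;> simp [Matrix.mul_apply, Fin.sum_univ_two] <;>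
        linear_combination h2
    · intro h
      have h' := congrFun (congrFun (congrArg Subtype.val h) 0) 1
      rw [Matrix.SpecialLinearGroup.coe_pow, Matrix.SpecialLinearGroup.coe_one, hX] at h'
      simp [pow_two, Matrix.mul_apply, Fin.sum_univ_two] at h'
    · apply Subtype.ext
      rw [Matrix.SpecialLinearGroup.coe_pow, Matrix.SpecialLinearGroup.coe_one, hX]
      ext i j
      fin_cases i <;> fin_cases j <;> simp [pow_succ, Matrix.mul_apply, Fin.sum_univ_two] <;>
        linear_combination h2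
  · haveI : Fact (Nat.Prime (ringChar F)) := ⟨CharP.char_is_prime F (ringChar F)⟩
    have hp2 : ringChar F ≠ 2 := fun h => h2 (by
      have := CharP.cast_eq_zero F (ringChar F)
      rw [h] at this
      exact_mod_cast this)
    obtain ⟨a, b, hab⟩ := FiniteField.exists_root_sum_quadratic
      (f := (Polynomial.X ^ 2 : Polynomial F)) (g := Polynomial.X ^ 2 + 1)
      (Polynomial.degree_X_pow 2) (by compute_degree!) (FiniteField.odd_card_of_char_ne_two hp2)
    simp at hab
    let X : SL(2, F) := ⟨!![0, 1; -1, 0], by rw [Matrix.det_fin_two_of]; ring⟩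
    let Y : SL(2, F) := ⟨!![a, b; b, -a], by rw [Matrix.det_fin_two_of]; linear_combination -hab⟩
    have hX : (X : Matrix (Fin 2) (Fin 2) F) = !![0, 1; -1, 0] := rfl
    have hY : (Y : Matrix (Fin 2) (Fin 2) F) = !![a, b; b, -a] := rfl
    refine ⟨X, Y, ?_, ?_, Or.inl ⟨h2, ?_⟩⟩
    · apply Subtype.ext
      rw [Matrix.SpecialLinearGroup.coe_mul, Matrix.SpecialLinearGroup.coe_mul, hX, hY]
      ext i j
      fin_cases i <;> fin_cases j <;> simp [Matrix.mul_apply, Fin.sum_univ_two]
    · intro h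
      have h' := congrFun (congrFun (congrArg Subtype.val h) 0) 0
      rw [Matrix.SpecialLinearGroup.coe_pow, Matrix.SpecialLinearGroup.coe_one, hX] at h'
      simp [pow_two, Matrix.mul_apply, Fin.sum_univ_two] at h'
      exact h2 (by linear_combination -h')
    · apply Subtype.ext
      rw [Matrix.SpecialLinearGroup.coe_pow, Matrix.SpecialLinearGroup.coe_one, hX]
      ext i j
      fin_cases i <;> fin_cases j <;> simp [pow_succ, Matrix.mul_apply, Fin.sum_univ_two]

theorem exists_eigen {K : Type u} [Field K] [IsAlgClosed K] {m : Type} [Fintype m] [DecidableEq m]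
    (M : Matrix m m K) (h2 : M ^ 2 ≠ 1)
    (h : ((2 : K) ≠ 0 ∧ M ^ 4 = 1) ∨ ((3 : K) ≠ 0 ∧ M ^ 3 = 1)) :
    ∃ (μ : K) (v : m → K), μ ≠ μ⁻¹ ∧ v ≠ 0 ∧ M *ᵥ v = μ • v := by
  obtain ⟨v₀, hv₀⟩ : ∃ v, M *ᵥ (M *ᵥ v) ≠ v := by
    by_contra hall
    simp only [not_exists, not_not] at hall
    exact h2 (Matrix.ext_of_mulVec_single fun i => by
      rw [pow_two, ← Matrix.mulVec_mulVec, hall, Matrix.one_mulVec])
  have key : ∀ (μ c : K), μ ^ 2 + c * μ + 1 = 0 → μ ^ 2 ≠ 1 → ∀ u : m → K, u ≠ 0 →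
      M *ᵥ (M *ᵥ u) + c • (M *ᵥ u) + u = 0 →
      ∃ (μ : K) (v : m → K), μ ≠ μ⁻¹ ∧ v ≠ 0 ∧ M *ᵥ v = μ • v := by
    intro μ c hμ hμ1 u hu h0
    have h0' : μ ≠ 0 := by rintro rfl; simp at hμ
    have hne : μ ≠ μ⁻¹ := fun h => hμ1 (by rw [sq]; nth_rw 2 [h]; rw [mul_inv_cancel₀ h0'])
    have hν : μ⁻¹ = -c - μ := inv_eq_of_mul_eq_one_right (by linear_combination -hμ)
    by_cases h1 : M *ᵥ u - μ⁻¹ • u = 0
    · exact ⟨μ⁻¹, u, by rw [inv_inv]; exact Ne.symm hne, hu, sub_eq_zero.mp h1⟩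
    · refine ⟨μ, M *ᵥ u - μ⁻¹ • u, hne, h1, ?_⟩
      rw [Matrix.mulVec_sub, Matrix.mulVec_smul, hν]
      ext j
      have hj := congrFun h0 j
      simp only [Pi.add_apply, Pi.smul_apply, Pi.sub_apply, smul_eq_mul, Pi.zero_apply] at hj ⊢
      linear_combination hj - u j * hμ
  have hmv : ∀ k : ℕ, ∀ w : m → K, M ^ (k + 1) *ᵥ w = M *ᵥ (M ^ k *ᵥ w) := fun k w => by
    rw [pow_succ', Matrix.mulVec_mulVec]
  rcases h with ⟨hc, hM⟩ | ⟨hc, hM⟩
  · obtain ⟨μ, hμ⟩ := IsAlgClosed.exists_pow_nat_eq (-1 : K) (n := 2) (by norm_num)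
    refine key μ 0 (by rw [hμ]; ring) (fun h => hc (by linear_combination hμ - h)) _
      (sub_ne_zero.mpr hv₀) ?_
    have h4 : M *ᵥ (M *ᵥ (M *ᵥ (M *ᵥ v₀))) = v₀ := by
      have := congrArg (fun N => N *ᵥ v₀) hM
      simpa [hmv, Matrix.mulVec_mulVec] using this
    simp only [Matrix.mulVec_sub, h4, zero_smul, add_zero]
    abel
  · obtain ⟨μ, hμ⟩ := IsAlgClosed.exists_root
      (Polynomial.X ^ 2 + Polynomial.X + 1 : Polynomial K)
      (by rw [show (Polynomial.X ^ 2 + Polynomial.X + 1 : Polynomial K).degree = 2 by compute_degree!]; norm_num)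
    simp at hμ
    have h3 : M *ᵥ (M *ᵥ (M *ᵥ v₀)) = v₀ := by
      have := congrArg (fun N => N *ᵥ v₀) hM
      simpa [hmv, Matrix.mulVec_mulVec] using this
    refine key μ 1 (by linear_combination hμ) (fun h => hc ?_) (M *ᵥ v₀ - v₀)
      (sub_ne_zero.mpr fun h1 => hv₀ (by rw [h1, h1])) ?_
    · linear_combination h - (μ - 2) * (hμ - h)
    · simp only [Matrix.mulVec_sub, h3, one_smul]
      abel

/-- The smallest degree of a faithful representation of the symplectic group `Sp_{2n}(q)` over its own field `F_q` is `2n`: every injective homomorphism from `Sp_{2n}(F)` to `GL_d(F)`, `F` the field with `q` elements, has `d ≥ 2n`. -/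
theorem result {F : Type*} [Field F] [Fintype F] (n : ℕ) {d : ℕ}
    (ρ : ↥(Matrix.symplecticGroup (Fin n) F) →* GL (Fin d) F) (hρ : Function.Injective ρ) : 2 * n ≤ d := by
  obtain ⟨X, Y, hXY, hX2, hcase⟩ := exists_inverted (F := F)
  set K := AlgebraicClosure F
  set f : F →+* K := algebraMap F K
  let σ : (Fin n → SL(2, F)) →* Matrix (Fin d) (Fin d) K :=
    (f.mapMatrix : Matrix (Fin d) (Fin d) F →+* _).toMonoidHom.comp
      ((Units.coeHom _).comp (ρ.comp (embed n)))
  have hσ : Function.Injective σ := fun a b h =>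
    embed_injective n (hρ (Units.ext (Matrix.map_injective f.injective h)))
  have hcomm : ∀ (i j : Fin n) (A B : SL(2, F)), i ≠ j →
      (Pi.mulSingle i A : Fin n → SL(2, F)) * Pi.mulSingle j B = Pi.mulSingle j B * Pi.mulSingle i A :=
    fun i j A B h => (Pi.mulSingle_commute (f := fun _ : Fin n => SL(2, F)) h A B).eq
  have h := CfsgLib.MinDim.two_mul_card_le (fun i => σ (Pi.mulSingle i X))
    (fun i => σ (Pi.mulSingle i Y)) ?_ ?_ ?_ ?_ ?_
  · simpa using h
  · intro i j
    by_cases hij : i = j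
    · rw [hij]
    · rw [← map_mul, ← map_mul, hcomm i j X X hij]
  · exact fun i => (Group.isUnit _).map σ
  · intro i
    rw [← map_mul, ← map_mul, ← Pi.mulSingle_mul, ← Pi.mulSingle_mul, hXY]
  · intro i j hij
    rw [← map_mul, ← map_mul, hcomm j i X Y (Ne.symm hij)]
  · intro i
    refine exists_eigen _ (fun h => ?_) ?_
    · rw [← map_pow, ← map_one σ, ← Pi.mulSingle_pow] at h
      exact hX2 (by simpa using congrFun (hσ h) i)
    · rcases hcase with ⟨hc, h⟩ | ⟨hc, h⟩
      · refine Or.inl ⟨fun h0 => hc (f.injective (by rw [map_ofNat, map_zero, h0])), ?_⟩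
        rw [← map_pow, ← Pi.mulSingle_pow, h, Pi.mulSingle_one, map_one]
      · refine Or.inr ⟨fun h0 => hc (f.injective (by rw [map_ofNat, map_zero, h0])), ?_⟩
        rw [← map_pow, ← Pi.mulSingle_pow, h, Pi.mulSingle_one, map_one]

end Cfsg.Agent.S2394
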