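import Cfsg.Statements.S2395
import Mathlib
import Cfsg.Agent.Lib.Chev.Abstract.Perfect

set_option autoImplicit false
open Cfsg

namespace Cfsg.Agent.S2395

/-- The group presented by Steinberg's generators x̄_r(t) subject only to (R1) (additivity) and (R2) (the commutator formula) is perfect, for each of the types G₂, B₂, D₄, F₄, E₆, E₇, E₈ over any field (for types B₂ and G₂ the field must have more than two elements — the cases where the Chevalley group is not simple are set aside). -/
theorem result {K : Type*} [Field K] (D : Cfsg.Lie.ChevalleyDatum) (hD : D ∈ [Cfsg.Lie.chevG2, Cfsg.Lie.chevB2, Cfsg.Lie.chevD4, Cfsg.Lie.chevF4, Cfsg.Lie.chevE6, Cfsg.Lie.chevE7, Cfsg.Lie.chevE8]) (hK : D ∈ [Cfsg.Lie.chevB2, Cfsg.Lie.chevG2] → ∃ x : K, x ≠ 0 ∧ x ≠ 1) :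
    commutator (D.SteinbergCover K) = ⊤ := by
  open CfsgLib.Chev in
  have hR : D.steinbergRelsAB K ⊆ D.steinbergRels K := CfsgLib.Chev.Abstract.relsAB_subset
  let S := CfsgLib.Chev.Abstract.sys hD (le_refl (D.steinbergRelsAB K)) (CfsgLib.Chev.Abstract.canon hD hR)
    fun r hr t => CfsgLib.Chev.Abstract.canon_X hD hR hr t
  have hgen : S.Gen := CfsgLib.Chev.Abstract.sys_gen _ _ _ _
  by_cases hs : D = Cfsg.Lie.chevG2 ∨ D = Cfsg.Lie.chevB2
  · exact S.perfect_small hgen hs (hK (by rcases hs with rfl | rfl <;> simp))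
  · refine S.perfect_big hgen ?_
    simp only [List.mem_cons, List.not_mem_nil, or_false] at hD ⊢
    tauto

end Cfsg.Agent.S2395
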