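import Cfsg.Statements.S2403
import Cfsg.Agent.Lib.Linear.Generation
open Matrix.SpecialLinearGroup
open scoped commutatorElement MatrixGroups

set_option autoImplicit false
open Cfsg

namespace Cfsg.Agent.S2403

/-- Explicit two-element generation of `PSL_{n+1}(K)` over the fields with two or three elements: with `x = 1 + E₁₂` and `w` the monomial matrix with entries `1` in positions `(i, i+1)` and `(−1)^n` in position `(n+1, 1)`, the elements `x` and `w` generate `SL_{n+1}(K)` modulo its centre. -/
theorem result {K : Type*} [Field K] [Fintype K] (hK : Fintype.card K ≤ 3) (n : ℕ) (hn : 1 ≤ n)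
    (x w : Matrix.SpecialLinearGroup (Fin (n + 1)) K)
    (hx : (x : Matrix (Fin (n + 1)) (Fin (n + 1)) K) = Matrix.transvection (0 : Fin (n + 1)) (1 : Fin (n + 1)) 1)
    (hw : (w : Matrix (Fin (n + 1)) (Fin (n + 1)) K) =
      Matrix.of (fun i j => if j.val = i.val + 1 then 1 else if i.val = n ∧ j.val = 0 then (-1) ^ n else 0)) :
    Subgroup.closure ({x, w} : Set (Matrix.SpecialLinearGroup (Fin (n + 1)) K)) ⊔
      Subgroup.center (Matrix.SpecialLinearGroup (Fin (n + 1)) K) = ⊤ := by
  classical
  set M := Subgroup.closure ({x, w} : Set (Matrix.SpecialLinearGroup (Fin (n + 1)) K))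
  suffices hM : M = ⊤ by rw [hM, top_sup_eq]
  haveI : Nontrivial (Fin (n + 1)) := Fintype.one_lt_card_iff_nontrivial.1 (by rw [Fintype.card_fin]; omega)
  have hxM : x ∈ M := Subgroup.subset_closure (by simp)
  have hwM : w ∈ M := Subgroup.subset_closure (by simp)
  -- elements of the field
  have hc3 : ∀ c : K, c = 0 ∨ c = 1 ∨ c = -1 := by
    intro c
    by_cases h0 : c = 0
    · exact Or.inl h0
    by_cases h11 : (-1 : K) = 1
    · right; left
      by_contra h1
      haveI : CharP K 2 := by
        obtain ⟨p, hp⟩ := CharP.exists K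
        haveI : Fact p.Prime := ⟨CharP.char_is_prime K p⟩
        have h2 : ((2 : ℕ) : K) = 0 := by push_cast; linear_combination -h11
        rw [CharP.cast_eq_zero_iff K p] at h2
        exact (Nat.prime_dvd_prime_iff_eq (Fact.out : p.Prime) Nat.prime_two).1 h2 ▸ hp
      obtain ⟨k, -, hk⟩ := FiniteField.card K 2
      have h2 : Fintype.card K = 2 := by
        obtain ⟨kk, hkk⟩ : ∃ kk : ℕ, Fintype.card K = 2 ^ kk := ⟨k, hk⟩
        have : 2 ≤ Fintype.card K := Fintype.one_lt_card
        rcases kk with - | - | kk
        · simp at hkk; omega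
        · simpa using hkk
        · have : 4 ≤ 2 ^ (kk + 2) := by
            calc 4 = 2 ^ 2 := rfl
              _ ≤ _ := Nat.pow_le_pow_right (by norm_num) (by omega)
          omega
      have hle := (Finset.card_le_univ ({0, 1, c} : Finset K))
      rw [Finset.card_eq_three.2 ⟨0, 1, c, zero_ne_one, Ne.symm h0, Ne.symm h1, rfl⟩] at hle
      omega
    · by_contra hall
      push Not at hall
      have hle := (Finset.card_le_univ ({0, 1, -1, c} : Finset K))
      rw [Finset.card_insert_of_notMem (by simp [eq_comm, h0]),
        Finset.card_eq_three.2 ⟨1, -1, c, Ne.symm h11, Ne.symm hall.2.1, Ne.symm hall.2.2, rfl⟩] at hle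
      omega
  have scal : ∀ (i j : Fin (n + 1)) (h : i ≠ j), transvection h (1 : K) ∈ M → ∀ c : K, transvection h c ∈ M := by
    intro i j h h1 c
    rcases hc3 c with rfl | rfl | rfl
    · have := mul_mem h1 (inv_mem h1)
      rw [transvection_inv, ← transvection_add, add_neg_cancel] at this
      exact this
    · exact h1
    · rw [← transvection_inv]; exact inv_mem h1
  -- conjugation by w
  have shift : ∀ i : ℕ, ∀ hi : i < n, transvection (show (⟨i, by omega⟩ : Fin (n + 1)) ≠ ⟨i + 1, by omega⟩ by simp [Fin.ext_iff]) (1 : K) ∈ M := by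
    intro i
    induction i with
    | zero =>
      intro hi
      convert hxM using 1
      refine Subtype.ext ?_
      rw [hx, transvection_coe, Matrix.transvection]
      congr 2
      exact Fin.ext (by simp [Fin.val_one', Nat.mod_eq_of_lt (show 1 < n + 1 by omega)])
    | succ i ih =>
      intro hi
      have h1 := ih (by omega)
      set T := transvection (show (⟨i + 1, by omega⟩ : Fin (n + 1)) ≠ ⟨i + 1 + 1, by omega⟩ by simp [Fin.ext_iff]) (1 : K)
      have e : w * T = transvection (show (⟨i, by omega⟩ : Fin (n + 1)) ≠ ⟨i + 1, by omega⟩ by simp [Fin.ext_iff]) (1 : K) * w := by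
        refine Subtype.ext (Matrix.ext fun a b => ?_)
        simp only [T, Matrix.SpecialLinearGroup.coe_mul, transvection_coe, mul_add, add_mul, mul_one, one_mul,
          Matrix.add_apply]
        congr 1
        rw [Matrix.mul_apply, Matrix.mul_apply, Finset.sum_eq_single (⟨i + 1, by omega⟩ : Fin (n + 1)),
          Finset.sum_eq_single (⟨i + 1, by omega⟩ : Fin (n + 1))]
        · simp only [hw, Matrix.of_apply, Matrix.single_apply, Fin.ext_iff]
          split_ifs <;> simp_all <;> omega
        · intro l _ hl; simp [Matrix.single_apply, Fin.ext_iff] at hl ⊢; omega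
        · simp
        · intro l _ hl; simp [Matrix.single_apply, Fin.ext_iff] at hl ⊢; omega
        · simp
      have : T = w⁻¹ * (transvection (show (⟨i, by omega⟩ : Fin (n + 1)) ≠ ⟨i + 1, by omega⟩ by simp [Fin.ext_iff]) (1 : K) * w) := by
        rw [← e, inv_mul_cancel_left]
      rw [this]
      exact mul_mem (inv_mem hwM) (mul_mem h1 hwM)
  have hlast : ∀ c : K, transvection (show (⟨n, by omega⟩ : Fin (n + 1)) ≠ ⟨0, by omega⟩ by simp [Fin.ext_iff]; omega) c ∈ M := by
    intro c
    have h01 := scal _ _ _ (shift 0 (by omega)) ((-1 : K) ^ n * c)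
    have e : transvection (show (⟨n, by omega⟩ : Fin (n + 1)) ≠ ⟨0, by omega⟩ by simp [Fin.ext_iff]; omega) c * w =
        w * transvection (show (⟨0, by omega⟩ : Fin (n + 1)) ≠ ⟨0 + 1, by omega⟩ by simp [Fin.ext_iff]) ((-1 : K) ^ n * c) := by
      refine Subtype.ext (Matrix.ext fun a b => ?_)
      simp only [Matrix.SpecialLinearGroup.coe_mul, transvection_coe, mul_add, add_mul, mul_one, one_mul,
        Matrix.add_apply]
      congr 1
      rw [Matrix.mul_apply, Matrix.mul_apply, Finset.sum_eq_single (⟨0, by omega⟩ : Fin (n + 1)),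
        Finset.sum_eq_single (⟨0, by omega⟩ : Fin (n + 1))]
      · simp only [hw, Matrix.of_apply, Matrix.single_apply, Fin.ext_iff]
        split_ifs <;> simp only [true_and, and_true, mul_one, one_mul, mul_zero, zero_mul] at * <;> first
          | omega
          | contradiction
          | rfl
          | (rw [← mul_assoc, ← mul_pow]; simp)
      · intro l _ hl; simp only [Matrix.single_apply, Fin.ext_iff, ne_eq] at hl ⊢; rw [if_neg (by omega)]; simp
      · simp
      · intro l _ hl; simp only [Matrix.single_apply, Fin.ext_iff, ne_eq] at hl ⊢; rw [if_neg (by omega)]; simp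
      · simp
    have := mul_mem (mul_mem hwM h01) (inv_mem hwM)
    rwa [← e, mul_inv_cancel_right] at this
  -- all upper transvections
  have comm : ∀ (i j k : Fin (n + 1)) (hij : i ≠ j) (hjk : j ≠ k) (hik : i ≠ k) (c : K),
      transvection hij c ∈ M → transvection hjk (1 : K) ∈ M → transvection hik c ∈ M := by
    intro i j k hij hjk hik c h1 h2
    rw [← mul_one c, ← CfsgLib.Linear.Generation.commutator_transvection hij hjk hik, commutatorElement_def]
    exact mul_mem (mul_mem (mul_mem h1 h2) (inv_mem h1)) (inv_mem h2)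
  have upper : ∀ d : ℕ, ∀ (i j : Fin (n + 1)) (h : i ≠ j), (j : ℕ) = i + d + 1 → ∀ c : K, transvection h c ∈ M := by
    intro d
    induction d with
    | zero =>
      intro i j h hd c
      obtain ⟨i, hi⟩ := i
      obtain ⟨j, hj⟩ := j
      simp only at hd
      subst hd
      exact scal _ _ _ (shift i (by omega)) c
    | succ d ih =>
      intro i j h hd c
      exact comm i ⟨i + d + 1, by omega⟩ j (fun e => by have h' := Fin.val_eq_of_eq e; simp only at h'; omega) (fun e => by have h' := Fin.val_eq_of_eq e; simp only at h'; omega) h c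
        (ih _ _ _ rfl c) (scal _ _ _ (by convert shift (i + d + 1) (by omega) using 2; exact Fin.ext (by simp; omega)) 1)
  refine CfsgLib.Linear.Generation.eq_top_of_transvection_mem M fun i j hij c => ?_
  have up : ∀ (i j : Fin (n + 1)) (h : i ≠ j), (i : ℕ) < j → ∀ c : K, transvection h c ∈ M := fun i j h hlt =>
    upper ((j : ℕ) - i - 1) i j h (by omega)
  have col0 : ∀ (i : Fin (n + 1)) (h : i ≠ ⟨0, by omega⟩) (c : K), transvection h c ∈ M := by
    intro i h c
    by_cases hin : (i : ℕ) = n
    · obtain ⟨i, hi⟩ := i
      simp only at hin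
      subst hin
      exact hlast c
    · exact comm i ⟨n, by omega⟩ _ (fun e => by have h' := Fin.val_eq_of_eq e; simp only at h'; omega) (fun e => by have h' := Fin.val_eq_of_eq e; simp only at h'; omega) h c
        (up _ _ _ (show (i : ℕ) < n by omega) c) (hlast 1)
  rcases Nat.lt_or_ge (i : ℕ) j with hlt | hge
  · exact up i j hij hlt c
  · have hne : (i : ℕ) ≠ j := fun e => hij (Fin.ext e)
    by_cases hj : (j : ℕ) = 0
    · obtain ⟨j, hj'⟩ := j
      simp only at hj
      subst hj
      exact col0 i hij c
    · exact comm i ⟨0, by omega⟩ j (fun e => by have h' := Fin.val_eq_of_eq e; simp only at h'; omega) (fun e => by have h' := Fin.val_eq_of_eq e; simp only at h'; omega) hij c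
        (col0 i _ c) (up _ _ _ (show 0 < (j : ℕ) by omega) 1)

end Cfsg.Agent.S2403
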