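import Cfsg.Statements.S2418
import Cfsg.Agent.Lib.Chev.Weyl.CoxeterWord
import Cfsg.Agent.Lib.Chev.Data.B2
import Cfsg.Agent.Lib.Chev.Data.G2
import Cfsg.Agent.Lib.Chev.Data.D4
import Cfsg.Agent.Lib.Chev.Data.F4
import Cfsg.Agent.Lib.Chev.Data.E6
import Cfsg.Agent.Lib.Chev.Data.E7
import Cfsg.Agent.Lib.Chev.Data.E8
open Cfsg.Lie CfsgLib.Chev CfsgLib.Chev.CoxeterWord

set_option autoImplicit false
open Cfsg

namespace Cfsg.Agent.S2418

/-- For the Coxeter groups of types B₂, G₂, D₄, F₄, E₇, E₈ the centre has order 2 (the element acting as −1 on the root system) and is generated by a power of the Coxeter element `s₁ s₂ ⋯ s_l`; the Coxeter group of type E₆ has trivial centre. -/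
theorem result (c : (Σ n : ℕ, CoxeterMatrix (Fin n)) × ℕ)
    (hc : c ∈ [(⟨2, CoxeterMatrix.B 2⟩, 2), (⟨2, CoxeterMatrix.G₂⟩, 2), (⟨4, Cfsg.Lie.coxeterD4⟩, 2), (⟨4, CoxeterMatrix.F₄⟩, 2),
      (⟨6, CoxeterMatrix.E₆⟩, 1), (⟨7, CoxeterMatrix.E₇⟩, 2), (⟨8, CoxeterMatrix.E₈⟩, 2)]) :
    Nat.card (Subgroup.center c.1.2.Group) = c.2 ∧
      Subgroup.center c.1.2.Group ≤ Subgroup.zpowers ((List.finRange c.1.1).map c.1.2.simple).prod := by
  classical
  have key : ∀ (D : Cfsg.Lie.ChevalleyDatum) (hD : D ∈ Checks.dataList) {T : Tables.Tab}, Tables.Valid D T →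
      ∀ (M : CoxeterMatrix (Fin D.rank)), WeylGroup.matrixOK D T (ext M) = true →
      ((List.range D.rank).all fun i => (List.range D.nroots).all fun r =>
        T.w i r != D.neg r || r == D.simple i || r == D.neg (D.simple i)) = true →
      ∀ ms : List ℕ, ((List.range D.rank).all fun j => j == 0 || (List.range D.rank).any fun i =>
        decide (ms.getD i 0 < ms.getD j 0) && (D.coroot.getD (T.w i (D.simple j)) #[]).getD i 0 != 0) = true →
      ∀ z ∈ Subgroup.center M.Group, ∃ l : List (Fin D.rank), z = (l.map M.simple).prod ∧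
        ((∀ i < D.rank, N.act D (l.map Fin.val) (D.simple i) = D.simple i) ∨
        (∀ i < D.rank, N.act D (l.map Fin.val) (D.simple i) = D.neg (D.simple i))) := by
    intro D hD T hT M hok htab ms hconn z hz
    simp only [List.all_eq_true, List.mem_range, Bool.or_eq_true, beq_iff_eq, bne_iff_ne] at htab
    simp only [List.all_eq_true, List.any_eq_true, List.mem_range, Bool.or_eq_true, beq_iff_eq, bne_iff_ne,
      Bool.and_eq_true, decide_eq_true_eq] at hconn
    obtain ⟨l, hl⟩ := M.toCoxeterSystem.wordProd_surjective z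
    have hzl : z = (l.map M.simple).prod := by rw [← hl]; simp [CoxeterSystem.wordProd]
    have hlt : ∀ k ∈ l.map Fin.val, k < D.rank := fun k hk => by
      obtain ⟨x, -, rfl⟩ := List.mem_map.1 hk; exact x.2
    have hcomm : ∀ i : Fin D.rank, ∀ r, r < D.nroots →
        N.act D (l.map Fin.val) (D.reflectRoot i r) = D.reflectRoot i (N.act D (l.map Fin.val) r) := by
      intro i r hr
      have e : ((l ++ [i]).map M.simple).prod = (([i] ++ l).map M.simple).prod := by
        simp [← hzl, Subgroup.mem_center_iff.1 hz (M.simple i)]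
      have e1 : (((l ++ [i]) ++ ([i] ++ l).reverse).map M.simple).prod = 1 := by
        rw [List.map_append, List.prod_append, prod_reverse, e, mul_inv_cancel]
      have h1 := (eq_one_iff hD hT M hok _).1 e1
      have hlt' : ∀ k ∈ (((l ++ [i]) ++ ([i] ++ l).reverse).map Fin.val), k < D.rank := fun k hk => by
        obtain ⟨x, -, rfl⟩ := List.mem_map.1 hk; exact x.2
      have hsame := Weyl.same_nil_of_pos hD hlt' fun r hr => Weyl.pos_of_simple_pos hD hlt' hr fun a ha _ => by
        have h2 := h1 a ha
        rw [Weyl.follow_eq hD hT (fun k hk => hlt' k (List.mem_reverse.1 hk)) (Rel.simple_lt hD ha),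
          List.reverse_reverse] at h2
        rw [h2]; exact N.simple_pos hD ha
      have hm : ∀ k ∈ ([i] ++ l).map Fin.val, k < D.rank := fun k hk => by
        obtain ⟨x, -, rfl⟩ := List.mem_map.1 hk; exact x.2
      have h3 := hsame _ (N.act_lt hD hm hr)
      rw [List.map_append, List.map_reverse, N.act_append, Weyl.act_reverse_act hD hm hr] at h3
      simpa [N.act_append, N.act] using h3
    have hw : ∀ i, i < D.rank → ∀ r, r < D.nroots → T.w i r = D.reflectRoot i r := fun i hi r hr =>
      (Tables.refl_of_valid hT hi).eq r hr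
    have hpm : ∀ i < D.rank, N.act D (l.map Fin.val) (D.simple i) = D.simple i ∨
        N.act D (l.map Fin.val) (D.simple i) = D.neg (D.simple i) := fun i hi => by
      have hs := Rel.simple_lt hD hi
      have hb := N.act_lt hD hlt hs
      have h := hcomm ⟨i, hi⟩ _ hs
      rw [show D.reflectRoot i (D.simple i) = D.neg (D.simple i) from Weyl.reflect_simple, N.act_neg hD hlt hs] at h
      rcases htab i hi _ hb with (h' | h') | h'
      · exact absurd ((hw i hi _ hb).trans h.symm) h'
      · exact Or.inl h'
      · exact Or.inr h'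
    have hmix : ∀ i j, i < D.rank → j < D.rank → (D.coroot.getD (D.reflectRoot i (D.simple j)) #[]).getD i 0 ≠ 0 →
        i ≠ j → (N.act D (l.map Fin.val) (D.simple i) = D.simple i ↔
          N.act D (l.map Fin.val) (D.simple j) = D.simple j) := by
      intro i j hi hj hne hij
      have hsj := Rel.simple_lt hD hj
      have hg := Rel.reflectRoot_lt hD hi hsj
      have hne' : Weight.coef hD i (D.reflectRoot i (D.simple j)) ≠ 0 := fun e =>
        hne ((Weight.coef_eq_zero_iff hD hi hg).1 e)
      have h := hcomm ⟨i, hi⟩ _ hsj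
      have hc := Weyl.coef_act hD hlt hi hg
      rw [Finset.sum_eq_single i (fun a ha hai => by
        have ha' := Finset.mem_range.1 ha
        rcases hpm a ha' with e | e <;> rw [e]
        · rw [Weight.coef_simple hD ha' hi, if_neg hai, mul_zero]
        · rw [Weight.coef_neg hD hi (Rel.simple_lt hD ha'), Weight.coef_simple hD ha' hi, if_neg hai, neg_zero,
            mul_zero]) (fun hh => absurd (Finset.mem_range.2 hi) hh)] at hc
      rw [show N.act D (l.map Fin.val) (D.reflectRoot i (D.simple j)) =
        D.reflectRoot i (N.act D (l.map Fin.val) (D.simple j)) from h] at hc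
      have hnn : D.neg (D.simple i) ≠ D.simple i := fun e => N.not_pos_neg hD (N.simple_pos hD hi) (by
        rw [e]; exact N.simple_pos hD hi)
      have hnj : D.neg (D.simple j) ≠ D.simple j := fun e => N.not_pos_neg hD (N.simple_pos hD hj) (by
        rw [e]; exact N.simple_pos hD hj)
      rcases hpm i hi with a | a <;> rcases hpm j hj with b | b
      · exact ⟨fun _ => b, fun _ => a⟩
      · exfalso
        rw [a, b, Rel.reflect_neg hD hi hsj, Weight.coef_neg hD hi hg, Weight.coef_simple hD hi hi, if_pos rfl] at hc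
        omega
      · exfalso
        rw [a, b, Weight.coef_neg hD hi (Rel.simple_lt hD hi), Weight.coef_simple hD hi hi, if_pos rfl] at hc
        omega
      · rw [a, b]; exact ⟨fun e => absurd e hnn, fun e => absurd e hnj⟩
    refine ⟨l, hzl, ?_⟩
    have hall : ∀ j, j < D.rank → (N.act D (l.map Fin.val) (D.simple 0) = D.simple 0 ↔
        N.act D (l.map Fin.val) (D.simple j) = D.simple j) := by
      intro j
      induction hm : ms.getD j 0 using Nat.strong_induction_on generalizing j with
      | _ n ih =>
        intro hj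
        rcases hconn j hj with rfl | ⟨i, hi, hij, hne⟩
        · exact Iff.rfl
        · rw [hw i hi _ (Rel.simple_lt hD hj)] at hne
          exact (ih _ (hm ▸ hij) i rfl hi).trans (hmix i j hi hj hne (fun e => (e ▸ hij).false))
    by_cases h0 : N.act D (l.map Fin.val) (D.simple 0) = D.simple 0
    · exact Or.inl fun i hi => (hall i hi).1 h0
    · exact Or.inr fun i hi => (hpm i hi).resolve_left fun e => h0 ((hall i hi).2 e)
  have triv : ∀ (D : Cfsg.Lie.ChevalleyDatum) (hD : D ∈ Checks.dataList) {T : Tables.Tab}, Tables.Valid D T →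
      ∀ (M : CoxeterMatrix (Fin D.rank)), WeylGroup.matrixOK D T (ext M) = true → ∀ l : List (Fin D.rank),
      (∀ i < D.rank, N.act D (l.map Fin.val) (D.simple i) = D.simple i) → (l.map M.simple).prod = 1 := by
    intro D hD T hT M hok l h
    rw [eq_one_iff hD hT M hok]
    intro a ha
    rw [Weyl.follow_eq hD hT (fun k hk => by
      obtain ⟨x, -, rfl⟩ := List.mem_map.1 (List.mem_reverse.1 hk); exact x.2) (Rel.simple_lt hD ha),
      List.reverse_reverse]
    exact h a ha
  have two : ∀ (D : Cfsg.Lie.ChevalleyDatum) (hD : D ∈ Checks.dataList) {T : Tables.Tab}, Tables.Valid D T →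
      ∀ (M : CoxeterMatrix (Fin D.rank)), WeylGroup.matrixOK D T (ext M) = true →
      (∀ z ∈ Subgroup.center M.Group, ∃ l : List (Fin D.rank), z = (l.map M.simple).prod ∧
        ((∀ i < D.rank, N.act D (l.map Fin.val) (D.simple i) = D.simple i) ∨
        (∀ i < D.rank, N.act D (l.map Fin.val) (D.simple i) = D.neg (D.simple i)))) →
      ∀ h : ℕ, (((List.range D.rank).all fun a => Orbit.follow T ((powWord (List.finRange D.rank) h).map Fin.val).reverse
          (D.simple a) == D.neg (D.simple a)) &&
        ((List.finRange D.rank).all fun i => same D T ((powWord (List.finRange D.rank) h ++ [i]).map Fin.val)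
          (([i] ++ powWord (List.finRange D.rank) h).map Fin.val)) && decide (0 < D.rank)) = true →
      Nat.card (Subgroup.center M.Group) = 2 ∧
        Subgroup.center M.Group ≤ Subgroup.zpowers ((List.finRange D.rank).map M.simple).prod := by
    intro D hD T hT M hok hcen h hh
    simp only [Bool.and_eq_true, List.all_eq_true, List.mem_range, List.mem_finRange, forall_const, beq_iff_eq,
      decide_eq_true_eq] at hh
    obtain ⟨⟨hneg, hc⟩, hr⟩ := hh
    set w := powWord (List.finRange D.rank) h with hw
    set c0 := (w.map M.simple).prod with hc0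
    have hpow : c0 = ((List.finRange D.rank).map M.simple).prod ^ h := prod_powWord _ _ _
    have hlt : ∀ k ∈ w.map Fin.val, k < D.rank := fun k hk => by
      obtain ⟨x, -, rfl⟩ := List.mem_map.1 hk; exact x.2
    have hact : ∀ a < D.rank, N.act D (w.map Fin.val) (D.simple a) = D.neg (D.simple a) := fun a ha => by
      rw [← hneg a ha, Weyl.follow_eq hD hT (fun k hk => hlt k (List.mem_reverse.1 hk)) (Rel.simple_lt hD ha),
        List.reverse_reverse]
    have hcen0 : c0 ∈ Subgroup.center M.Group := by
      have : (Subgroup.centralizer ({c0} : Set M.Group)) = ⊤ := by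
        rw [eq_top_iff, ← M.toCoxeterSystem.subgroup_closure_range_simple, Subgroup.closure_le]
        rintro _ ⟨i, rfl⟩
        rw [CoxeterMatrix.toCoxeterSystem_simple, SetLike.mem_coe, Subgroup.mem_centralizer_singleton_iff]
        have e := eq_of_same hD hT M hok _ _ (hc i)
        simpa [← hc0] using e.symm
      exact Subgroup.mem_center_iff.2 fun g => Subgroup.mem_centralizer_singleton_iff.1 (this ▸ Subgroup.mem_top g)
    have hne : c0 ≠ 1 := fun e => by
      have h1 := (eq_one_iff hD hT M hok w).1 e 0 hr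
      rw [hneg 0 hr] at h1
      exact N.not_pos_neg hD (N.simple_pos hD hr) (by rw [h1]; exact N.simple_pos hD hr)
    have hall : ∀ z ∈ Subgroup.center M.Group, z = 1 ∨ z = c0 := fun z hz => by
      obtain ⟨l, rfl, h1 | h1⟩ := hcen z hz
      · exact Or.inl (triv D hD hT M hok l h1)
      · refine Or.inr ?_
        have hl : ∀ k ∈ l.map Fin.val, k < D.rank := fun k hk => by
          obtain ⟨x, -, rfl⟩ := List.mem_map.1 hk; exact x.2
        have h2 := triv D hD hT M hok (l ++ w.reverse) fun i hi => by
          have hs := Rel.simple_lt hD hi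
          have e := Weyl.act_reverse_act hD hlt hs
          rw [hact i hi, N.act_neg hD (fun k hk => hlt k (List.mem_reverse.1 hk)) hs] at e
          have e' : N.act D (w.map Fin.val).reverse (D.simple i) = D.neg (D.simple i) := by
            conv_lhs => rw [← Checks.neg_neg_root hD (N.act_lt hD (fun k hk => hlt k (List.mem_reverse.1 hk)) hs)]
            exact congrArg D.neg e
          rw [List.map_append, List.map_reverse, N.act_append, e', N.act_neg hD hl hs, h1 i hi,
            Checks.neg_neg_root hD hs]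
        rwa [List.map_append, List.prod_append, prod_reverse, mul_inv_eq_one] at h2
    refine ⟨?_, fun z hz => ?_⟩
    · rw [Nat.card_eq_two_iff]
      refine ⟨⟨1, one_mem _⟩, ⟨c0, hcen0⟩, fun e => hne (congrArg Subtype.val e).symm, ?_⟩
      refine Set.eq_univ_of_forall fun ⟨z, hz⟩ => ?_
      rcases hall z hz with rfl | rfl <;> simp
    · rcases hall z hz with rfl | rfl
      · exact one_mem _
      · exact ⟨(h : ℤ), (zpow_natCast _ h).trans hpow.symm⟩
  have six : ∀ z ∈ Subgroup.center CoxeterMatrix.E₆.Group, z = 1 := by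
    intro z hz
    have hD : Cfsg.Lie.chevE6 ∈ Checks.dataList := by simp [Checks.dataList]
    obtain ⟨l, rfl, h1 | h1⟩ := key _ hD Data.E6.valid CoxeterMatrix.E₆ (by decide +kernel) (by decide +kernel)
      [0, 3, 1, 2, 3, 4] (by decide +kernel) z hz
    · exact triv _ hD Data.E6.valid _ (by decide +kernel) l h1
    exfalso
    let u : List ℕ := [0, 1, 2, 0, 3, 1, 2, 0, 3, 2, 4, 3, 1, 2, 0, 3, 2, 4, 3, 1, 5, 4, 3, 1, 2, 0, 3, 2, 4, 3, 1, 5, 4, 3, 2, 0]
    let img : List ℕ := [5, 1, 4, 3, 2, 0]
    have hu : ∀ k ∈ u.reverse, k < Cfsg.Lie.chevE6.rank := by decide +kernel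
    have hul : ∀ k ∈ u, k < Cfsg.Lie.chevE6.rank := fun k hk => hu k (List.mem_reverse.2 hk)
    have htab : ∀ a < Cfsg.Lie.chevE6.rank, img.getD a 0 < Cfsg.Lie.chevE6.rank ∧
        Orbit.follow Data.E6.tab u.reverse (Cfsg.Lie.chevE6.simple a) =
          Cfsg.Lie.chevE6.neg (Cfsg.Lie.chevE6.simple (img.getD a 0)) := by decide +kernel
    have hl : ∀ k ∈ l.map Fin.val, k < Cfsg.Lie.chevE6.rank := fun k hk => by
      obtain ⟨x, -, rfl⟩ := List.mem_map.1 hk; exact x.2
    have hw : ∀ k ∈ l.map Fin.val ++ u, k < Cfsg.Lie.chevE6.rank := Weyl.mem_append_lt hl hul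
    have hact : ∀ a < Cfsg.Lie.chevE6.rank, N.act Cfsg.Lie.chevE6 (l.map Fin.val ++ u) (Cfsg.Lie.chevE6.simple a) =
        Cfsg.Lie.chevE6.simple (img.getD a 0) := fun a ha => by
      obtain ⟨hb, hf⟩ := htab a ha
      rw [Weyl.follow_eq hD Data.E6.valid hu (Rel.simple_lt hD ha), List.reverse_reverse] at hf
      rw [N.act_append, hf, N.act_neg hD hl (Rel.simple_lt hD hb), h1 _ hb, Checks.neg_neg_root hD (Rel.simple_lt hD hb)]
    have hsame := Weyl.same_nil_of_pos hD hw fun r hr => Weyl.pos_of_simple_pos hD hw hr fun a ha _ => by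
      rw [hact a ha]; exact N.simple_pos hD (htab a ha).1
    have h0 := hact 0 (by decide)
    rw [hsame _ (Rel.simple_lt hD (by decide))] at h0
    have : Cfsg.Lie.chevE6.simple 0 ≠ Cfsg.Lie.chevE6.simple (img.getD 0 0) := by decide +kernel
    exact this h0
  simp only [List.mem_cons, List.not_mem_nil, or_false] at hc
  rcases hc with rfl | rfl | rfl | rfl | rfl | rfl | rfl
  · exact two Cfsg.Lie.chevB2 (by simp [Checks.dataList]) Data.B2.valid (CoxeterMatrix.B 2) (by decide +kernel) (key _ (by simp [Checks.dataList]) Data.B2.valid _ (by decide +kernel) (by decide +kernel) [0, 1] (by decide +kernel)) 2 (by decide +kernel)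
  · exact two Cfsg.Lie.chevG2 (by simp [Checks.dataList]) Data.G2.valid CoxeterMatrix.G₂ (by decide +kernel) (key _ (by simp [Checks.dataList]) Data.G2.valid _ (by decide +kernel) (by decide +kernel) [0, 1] (by decide +kernel)) 3 (by decide +kernel)
  · exact two Cfsg.Lie.chevD4 (by simp [Checks.dataList]) Data.D4.valid Cfsg.Lie.coxeterD4 (by decide +kernel) (key _ (by simp [Checks.dataList]) Data.D4.valid _ (by decide +kernel) (by decide +kernel) [0, 1, 2, 2] (by decide +kernel)) 3 (by decide +kernel)
  · exact two Cfsg.Lie.chevF4 (by simp [Checks.dataList]) Data.F4.valid CoxeterMatrix.F₄ (by decide +kernel) (key _ (by simp [Checks.dataList]) Data.F4.valid _ (by decide +kernel) (by decide +kernel) [0, 1, 2, 3] (by decide +kernel)) 6 (by decide +kernel)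
  · have hb : Subgroup.center CoxeterMatrix.E₆.Group = ⊥ := (Subgroup.eq_bot_iff_forall _).2 six
    exact ⟨by dsimp only; rw [hb, Subgroup.card_bot], by dsimp only; rw [hb]; exact bot_le⟩
  · exact two Cfsg.Lie.chevE7 (by simp [Checks.dataList]) Data.E7.valid CoxeterMatrix.E₇ (by decide +kernel) (key _ (by simp [Checks.dataList]) Data.E7.valid _ (by decide +kernel) (by decide +kernel) [0, 3, 1, 2, 3, 4, 5] (by decide +kernel)) 9 (by decide +kernel)
  · exact two Cfsg.Lie.chevE8 (by simp [Checks.dataList]) Data.E8.valid CoxeterMatrix.E₈ (by decide +kernel) (key _ (by simp [Checks.dataList]) Data.E8.valid _ (by decide +kernel) (by decide +kernel) [0, 3, 1, 2, 3, 4, 5, 6] (by decide +kernel)) 15 (by decide +kernel)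

end Cfsg.Agent.S2418
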