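import Cfsg.Statements.S2419
import Cfsg.Agent.Lib.Chev.Weyl.CoxeterWord
import Cfsg.Agent.Lib.Chev.Data.B2
import Cfsg.Agent.Lib.Chev.Data.G2
import Cfsg.Agent.Lib.Chev.Data.D4
import Cfsg.Agent.Lib.Chev.Data.F4
import Cfsg.Agent.Lib.Chev.Data.E6
import Cfsg.Agent.Lib.Chev.Data.E7
import Cfsg.Agent.Lib.Chev.Data.E8
open Cfsg.Lie CfsgLib.Chev CfsgLib.Chev.CoxeterWord

set_option autoImplicit false
open Cfsg

namespace Cfsg.Agent.S2419

/-- The Coxeter groups of types B₂, G₂, E₆, E₇, E₈ are generated by the Coxeter element `s₁ s₂ ⋯ s_l` together with one suitable reflection (a conjugate of a simple reflection); for types D₄ and F₄ the Coxeter element together with two suitable reflections suffices. -/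
theorem result (c : (Σ n : ℕ, CoxeterMatrix (Fin n)) × ℕ)
    (hc : c ∈ [(⟨2, CoxeterMatrix.B 2⟩, 1), (⟨2, CoxeterMatrix.G₂⟩, 1), (⟨4, Cfsg.Lie.coxeterD4⟩, 2), (⟨4, CoxeterMatrix.F₄⟩, 2),
      (⟨6, CoxeterMatrix.E₆⟩, 1), (⟨7, CoxeterMatrix.E₇⟩, 1), (⟨8, CoxeterMatrix.E₈⟩, 1)]) :
    ∃ T : Finset c.1.2.Group, T.card = c.2 ∧ (∀ t ∈ T, ∃ (g : c.1.2.Group) (i : Fin c.1.1), t = g * c.1.2.simple i * g⁻¹) ∧
      Subgroup.closure (({((List.finRange c.1.1).map c.1.2.simple).prod} : Set c.1.2.Group) ∪ ↑T) = ⊤ := by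
  classical
  have key : ∀ (D : Cfsg.Lie.ChevalleyDatum) (hD : D ∈ Checks.dataList) {T : Tables.Tab}, Tables.Valid D T →
      ∀ (M : CoxeterMatrix (Fin D.rank)), WeylGroup.matrixOK D T (ext M) = true →
      ∀ (Tl : List (Fin D.rank)) (E : List (List ℕ)) (n : ℕ), Tl.length = n →
      ((List.finRange D.rank).all fun i => same D T [i.val]
          (((E.getD i.val []).flatMap fun b => if b = 0 then List.finRange D.rank else if b = 1 then (List.finRange D.rank).reverse
            else (Tl[b - 2]?).toList).map Fin.val)) = true →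
      (Tl.all fun a => Tl.all fun b => a == b || !(same D T [a.val] [b.val])) = true → Tl.Nodup →
      ∃ S : Finset M.Group, S.card = n ∧ (∀ t ∈ S, ∃ (g : M.Group) (i : Fin D.rank), t = g * M.simple i * g⁻¹) ∧
        Subgroup.closure (({((List.finRange D.rank).map M.simple).prod} : Set M.Group) ∪ ↑S) = ⊤ := by
    intro D hD T hT M hok Tl E n hn hE hne hnd
    simp only [List.all_eq_true, List.mem_finRange, forall_const] at hE
    simp only [List.all_eq_true, Bool.or_eq_true, beq_iff_eq, Bool.not_eq_true'] at hne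
    refine ⟨(Tl.map M.simple).toFinset, ?_, fun t ht => ?_, ?_⟩
    · rw [List.toFinset_card_of_nodup, List.length_map, hn]
      refine (List.nodup_map_iff_inj_on hnd).2 fun a ha b hb e => ?_
      rcases hne a ha b hb with h | h
      · exact h
      · exfalso
        have he : (([a] ++ [b].reverse).map M.simple).prod = 1 := by
          rw [List.map_append, List.prod_append, prod_reverse]; simp [e]
        have he' := (eq_one_iff hD hT M hok _).1 he
        have hs : same D T [a.val] [b.val] = true := by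
          simp only [same, List.all_eq_true, List.mem_range, beq_iff_eq]
          intro x hx; simpa using he' x hx
        rw [hs] at h; exact Bool.noConfusion h
    · obtain ⟨a, -, rfl⟩ := List.mem_map.1 (List.mem_toFinset.1 ht)
      exact ⟨1, a, by simp⟩
    · rw [eq_top_iff, ← M.toCoxeterSystem.subgroup_closure_range_simple, Subgroup.closure_le]
      rintro _ ⟨i, rfl⟩
      have h := eq_of_same hD hT M hok [i] _ (hE i)
      simp only [List.map_singleton, List.prod_singleton] at h
      rw [CoxeterMatrix.toCoxeterSystem_simple, SetLike.mem_coe, h]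
      generalize E.getD i.val [] = L
      induction L with
      | nil => simp
      | cons bl L ih =>
        rw [List.flatMap_cons, List.map_append, List.prod_append]
        refine mul_mem ?_ ih
        by_cases h0 : bl = 0
        · rw [if_pos h0]; exact Subgroup.subset_closure (Or.inl rfl)
        by_cases h1 : bl = 1
        · rw [if_neg h0, if_pos h1, prod_reverse]; exact inv_mem (Subgroup.subset_closure (Or.inl rfl))
        rw [if_neg h0, if_neg h1]
        cases hq : Tl[bl - 2]? with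
        | none => simp
        | some a =>
          simp only [Option.toList_some, List.map_singleton, List.prod_singleton]
          exact Subgroup.subset_closure (Or.inr (Finset.mem_coe.2 (List.mem_toFinset.2
            (List.mem_map.2 ⟨a, List.mem_of_getElem? hq, rfl⟩))))
  simp only [List.mem_cons, List.not_mem_nil, or_false] at hc
  rcases hc with rfl | rfl | rfl | rfl | rfl | rfl | rfl
  · exact key Cfsg.Lie.chevB2 (by simp [Checks.dataList]) Data.B2.valid (CoxeterMatrix.B 2) (by decide +kernel) [⟨0, by decide⟩] [[2], [2, 0]] _ rfl (by decide +kernel) (by decide +kernel) (by decide)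
  · exact key Cfsg.Lie.chevG2 (by simp [Checks.dataList]) Data.G2.valid CoxeterMatrix.G₂ (by decide +kernel) [⟨0, by decide⟩] [[2], [2, 0]] _ rfl (by decide +kernel) (by decide +kernel) (by decide)
  · exact key Cfsg.Lie.chevD4 (by simp [Checks.dataList]) Data.D4.valid Cfsg.Lie.coxeterD4 (by decide +kernel) [⟨1, by decide⟩, ⟨2, by decide⟩] [[1, 2, 0], [2], [3], [2, 1, 3, 0, 2]] _ rfl (by decide +kernel) (by decide +kernel) (by decide)
  · exact key Cfsg.Lie.chevF4 (by simp [Checks.dataList]) Data.F4.valid CoxeterMatrix.F₄ (by decide +kernel) [⟨0, by decide⟩, ⟨2, by decide⟩] [[2], [0, 2, 1], [3], [0, 3, 1]] _ rfl (by decide +kernel) (by decide +kernel) (by decide)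
  · exact key Cfsg.Lie.chevE6 (by simp [Checks.dataList]) Data.E6.valid CoxeterMatrix.E₆ (by decide +kernel) [⟨3, by decide⟩] [[1, 1, 1, 1, 1, 2, 0, 0, 0, 0, 0], [2, 1, 1, 1, 2, 0, 0, 0, 2], [1, 1, 1, 1, 2, 0, 0, 0, 0], [2], [0, 2, 1], [0, 0, 2, 1, 1]] _ rfl (by decide +kernel) (by decide +kernel) (by decide)
  · exact key Cfsg.Lie.chevE7 (by simp [Checks.dataList]) Data.E7.valid CoxeterMatrix.E₇ (by decide +kernel) [⟨3, by decide⟩] [[1, 2, 0, 0, 0, 0, 0, 2, 1, 1, 1, 1, 1, 2, 0], [2, 0, 2, 1, 1, 1, 1, 2, 0, 0, 0, 0, 2, 1, 2], [2, 1, 1, 1, 1, 2, 0, 0, 0, 0, 2], [2], [0, 2, 1], [0, 0, 2, 1, 1], [0, 0, 0, 2, 1, 1, 1]] _ rfl (by decide +kernel) (by decide +kernel) (by decide)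
  · exact key Cfsg.Lie.chevE8 (by simp [Checks.dataList]) Data.E8.valid CoxeterMatrix.E₈ (by decide +kernel) [⟨4, by decide⟩] [[1, 1, 2, 0, 0, 0, 0, 0, 0, 2, 1, 1, 1, 1, 1, 1, 2, 0, 0], [1, 2, 0, 2, 0, 0, 0, 0, 0, 0, 2, 1, 1, 1, 1, 1, 1, 2, 1, 2, 0], [1, 2, 0, 0, 0, 0, 0, 0, 2, 1, 1, 1, 1, 1, 1, 2, 0], [1, 2, 0], [2], [0, 2, 1], [0, 0, 2, 1, 1], [0, 0, 0, 2, 1, 1, 1]] _ rfl (by decide +kernel) (by decide +kernel) (by decide)

end Cfsg.Agent.S2419
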