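import Cfsg.Statements.S2420


set_option autoImplicit false
open scoped MatrixGroups
open Cfsg

namespace Cfsg.Agent.S2420

open scoped Matrix
open Finset

theorem sum_range_two (m : ℕ) : 2 * (∑ i ∈ range m, i) + m = m ^ 2 := by
  induction m with
  | zero => simp
  | succ m ih => rw [sum_range_succ]; linarith

theorem gl_formula (x m : ℕ) :
    ∏ i : Fin m, ((x + 1) ^ m - (x + 1) ^ (i : ℕ)) =
      (x + 1) ^ (∑ i ∈ range m, i) * x ^ m * ∏ j ∈ range m, ∑ l ∈ range (j + 1), (x + 1) ^ l := by
  have h1 : ∀ j, (x + 1) ^ (j + 1) - 1 = x * ∑ l ∈ range (j + 1), (x + 1) ^ l := fun j => by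
    rw [← geom_sum_mul_add x (j + 1), Nat.add_sub_cancel, mul_comm]
  rw [Fin.prod_univ_eq_prod_range (fun i => (x + 1) ^ m - (x + 1) ^ i) m,
    prod_congr rfl (fun i hi => show (x + 1) ^ m - (x + 1) ^ i = (x + 1) ^ i * ((x + 1) ^ (m - 1 - i + 1) - 1) by
      rw [Nat.mul_sub_one, ← pow_add]; have := mem_range.1 hi; congr 2; omega),
    prod_mul_distrib, prod_pow_eq_pow_sum, prod_range_reflect (fun i => (x + 1) ^ (i + 1) - 1) m,
    prod_congr rfl (fun j _ => h1 j), prod_mul_distrib, prod_const, card_range]
  ring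

theorem card_block {F : Type*} [Field F] [Fintype F] {n : ℕ} (b : Fin n → Fin n) :
    Nat.card {g : GL (Fin n) F // (g : Matrix (Fin n) (Fin n) F).BlockTriangular b} =
      (∏ a : Fin n, Nat.card (GL {i // b i = a} F)) * Fintype.card F ^ Fintype.card {p : Fin n × Fin n // b p.1 < b p.2} := by
  classical
  rw [← Nat.card_eq_fintype_card (α := {p : Fin n × Fin n // b p.1 < b p.2}), ← Nat.card_eq_fintype_card (α := F),
    ← Nat.card_pi, ← Nat.card_fun, ← Nat.card_prod]
  have hdet : ∀ g : GL (Fin n) F, (g : Matrix (Fin n) (Fin n) F).BlockTriangular b → ∀ a,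
      ((g : Matrix (Fin n) (Fin n) F).toSquareBlock b a).det ≠ 0 := fun g hg a => by
    have h := (Matrix.isUnit_iff_isUnit_det _).1 g.isUnit
    rw [Matrix.BlockTriangular.det_fintype hg, IsUnit.prod_iff] at h
    exact (h a (mem_univ a)).ne_zero
  let mat : ((∀ a, GL {i // b i = a} F) × ({p : Fin n × Fin n // b p.1 < b p.2} → F)) → Matrix (Fin n) (Fin n) F :=
    fun x => Matrix.of fun i j => if h : b j = b i then ((x.1 (b i) : Matrix {k // b k = b i} {k // b k = b i} F)) ⟨i, rfl⟩ ⟨j, h⟩
      else if h2 : b i < b j then x.2 ⟨(i, j), h2⟩ else 0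
  have hbt : ∀ x, (mat x).BlockTriangular b := fun x i j hij => by
    simp [mat, ne_of_lt hij, not_lt.2 hij.le]
  have hsq : ∀ x a, (mat x).toSquareBlock b a = (x.1 a : Matrix _ _ F) := fun x a => by
    ext ⟨i, hi⟩ ⟨j, hj⟩
    subst hi
    simp [mat, Matrix.toSquareBlock_def, hj]
  have hu : ∀ x, (mat x).det ≠ 0 := fun x => by
    rw [Matrix.BlockTriangular.det_fintype (hbt x)]
    exact prod_ne_zero_iff.2 fun a _ => by
      rw [hsq]; exact ((Matrix.isUnit_iff_isUnit_det _).1 (x.1 a).isUnit).ne_zero
  exact Nat.card_congr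
    { toFun := fun g => (fun a => Matrix.GeneralLinearGroup.mkOfDetNeZero _ (hdet g.1 g.2 a), fun p => (g.1 : Matrix _ _ F) p.1.1 p.1.2)
      invFun := fun x => ⟨Matrix.GeneralLinearGroup.mkOfDetNeZero (mat x) (hu x), hbt x⟩
      left_inv := fun g => by
        refine Subtype.ext (Units.ext (Matrix.ext fun i j => ?_))
        show mat _ i j = _
        by_cases h : b j = b i
        · simp [mat, h, Matrix.GeneralLinearGroup.mkOfDetNeZero, Matrix.toSquareBlock_def]
        · by_cases h2 : b i < b j
          · simp [mat, h, h2]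
          · have h3 : b j < b i := lt_of_le_of_ne (not_lt.1 h2) h
            simp [mat, h, h2, g.2 h3]
      right_inv := fun x => by
        refine Prod.ext (funext fun a => Units.ext (hsq x a)) (funext fun p => ?_)
        show mat x p.1.1 p.1.2 = _
        simp [mat, ne_of_gt p.2, p.2] }

theorem card_gl_sub {F : Type*} [Field F] [Fintype F] {ι : Type} [Fintype ι] [DecidableEq ι] :
    ∀ m, Fintype.card ι = m → Nat.card (GL ι F) = ∏ i : Fin m, (Fintype.card F ^ m - Fintype.card F ^ (i : ℕ)) := by
  classical
  rintro m rfl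
  rw [← Matrix.card_GL_field]
  exact Nat.card_congr (Units.mapEquiv (Matrix.reindexRingEquiv F (Fintype.equivFin ι)).toMulEquiv).toEquiv

/-- The number of partial flags of a given type: for a composition `μ` of `n` (with `n` parts, zeros allowed) and a field with `q` elements, the index of the standard parabolic subgroup `P_μ` in `GL_n(q)` times `∏_i {μ_i}` equals `{n}`, where `{r}` denotes the product over `k = 1, …, r` of the q-integers `1 + q + ⋯ + q^(k−1)`. -/
theorem result {F : Type*} [Field F] [Fintype F] {q : ℕ} (hq : Fintype.card F = q) {n : ℕ} (μ : Fin n → ℕ) (hμ : ∑ i, μ i = n) :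
    Nat.card (GL (Fin n) F ⧸ Cfsg.parabolicGL n F μ) * ∏ i : Fin n, ∏ j ∈ Finset.range (μ i), ∑ l ∈ Finset.range (j + 1), q ^ l =
      ∏ j ∈ Finset.range n, ∑ l ∈ Finset.range (j + 1), q ^ l := by
  classical
  subst hq
  obtain ⟨x, hx⟩ : ∃ x, Fintype.card F = x + 1 := ⟨Fintype.card F - 1, by have := Fintype.card_pos (α := F); omega⟩
  have hx1 : 1 ≤ x := by have := Fintype.one_lt_card (α := F); omega
  let S : Fin n → ℕ := fun j => ∑ k ∈ univ.filter (fun k : Fin n => k ≤ j), μ k
  have hmono : Monotone S := fun a c hac => sum_le_sum_of_subset (fun k hk => by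
    simp only [mem_filter, mem_univ, true_and] at hk ⊢; exact le_trans hk hac)
  have hle : ∀ (i a : Fin n), compLabel μ i ≤ a ↔ (i : ℕ) < S a := fun i a => by
    constructor
    · intro h
      by_contra hc
      have : (Finset.Iic a).card ≤ compLabel μ i := card_le_card fun j hj => by
        simp only [mem_Iic] at hj
        simp only [mem_filter, mem_univ, true_and]
        exact le_trans (hmono hj) (not_lt.1 hc)
      rw [Fin.card_Iic] at this
      omega
    · intro h
      rw [← Fin.card_Iio a]
      refine card_le_card fun j hj => ?_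
      simp only [mem_filter, mem_univ, true_and] at hj
      rw [mem_Iio]
      by_contra hc
      exact absurd h (not_lt.2 (le_trans (hmono (not_lt.1 hc)) hj))
  have hlt : ∀ i, compLabel μ i < n := fun i => by
    have hi := i.2
    have h1 : S ⟨n - 1, by omega⟩ = n := by
      conv_rhs => rw [← hμ]
      refine sum_congr (filter_true_of_mem fun k _ => ?_) fun _ _ => rfl
      have := k.2; show (k : ℕ) ≤ n - 1; omega
    have h2 := (hle i ⟨n - 1, by omega⟩).2 (by rw [h1]; exact i.2)
    have := i.2
    simp at h2; omega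
  let b : Fin n → Fin n := fun i => ⟨compLabel μ i, hlt i⟩
  have hfib : ∀ a, Fintype.card {i // b i = a} = μ a := fun a => by
    rw [Fintype.card_subtype]
    have hSn : ∀ c, S c ≤ n := fun c =>
      le_trans (sum_le_sum_of_subset (filter_subset _ _)) hμ.le
    have key : ∀ c, (univ.filter fun i => b i ≤ c).card = S c := fun c => by
      rw [show (univ.filter fun i => b i ≤ c) = univ.filter (fun i : Fin n => (i : ℕ) < S c) from
        filter_congr fun i _ => hle i c, Fin.card_filter_val_lt, min_eq_right (hSn c)]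
    have hS : S a = (univ.filter fun i => b i < a).card + μ a := by
      have h1 : S a = (∑ k ∈ univ.filter (fun k : Fin n => k < a), μ k) + μ a := by
        rw [show (univ.filter fun k : Fin n => k ≤ a) = insert a (univ.filter fun k : Fin n => k < a) by
          ext k; simp [le_iff_lt_or_eq, or_comm] |> fun h => show S a = _ from by rw [show S a = ∑ k ∈ univ.filter (fun k : Fin n => k ≤ a), μ k from rfl, h],
          sum_insert (by simp), add_comm]
      rw [h1, add_left_inj]
      rcases Nat.eq_zero_or_pos (a : ℕ) with h0 | h0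
      · rw [show (univ.filter fun k : Fin n => k < a) = ∅ from filter_false_of_mem fun k _ => by rw [Fin.lt_def]; omega,
          show (univ.filter fun i => b i < a) = ∅ from filter_false_of_mem fun k _ => by rw [Fin.lt_def]; omega]
        simp
      · let c : Fin n := ⟨(a : ℕ) - 1, by omega⟩
        rw [show (univ.filter fun i => b i < a) = univ.filter (fun i => b i ≤ c) from filter_congr fun k _ => by
          rw [Fin.lt_def, Fin.le_def]; simp only [c]; omega, key]
        exact sum_congr (filter_congr fun k _ => by rw [Fin.lt_def, Fin.le_def]; simp only [c]; omega) fun _ _ => rfl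
    have := key a
    rw [show (univ.filter fun i => b i ≤ a) = (univ.filter fun i => b i < a) ∪ (univ.filter fun i => b i = a) by
      ext i; simp [le_iff_lt_or_eq], card_union_of_disjoint (disjoint_filter.2 fun i _ h1 h2 => (ne_of_lt h1) h2), hS] at this
    omega
  have hP : Nat.card ↥(Cfsg.parabolicGL n F μ) = Nat.card {g : GL (Fin n) F // (g : Matrix (Fin n) (Fin n) F).BlockTriangular b} :=
    Nat.card_congr (Equiv.subtypeEquivRight fun g => Iff.rfl)
  have hexp : (∑ a, ∑ i ∈ range (μ a), i) + Fintype.card {p : Fin n × Fin n // b p.1 < b p.2} = ∑ i ∈ range n, i := by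
    have h1 : Fintype.card {p : Fin n × Fin n // b p.1 = b p.2} = ∑ a, μ a ^ 2 := by
      rw [Fintype.card_congr
        ({ toFun := fun p => ⟨b p.1.1, ⟨p.1.1, rfl⟩, ⟨p.1.2, p.2.symm⟩⟩
           invFun := fun s => ⟨(s.2.1.1, s.2.2.1), s.2.1.2.trans s.2.2.2.symm⟩
           left_inv := fun p => rfl
           right_inv := fun ⟨a, ⟨i, hi⟩, ⟨j, hj⟩⟩ => by subst hi; rfl } :
          {p : Fin n × Fin n // b p.1 = b p.2} ≃ Σ a, {i // b i = a} × {i // b i = a}), Fintype.card_sigma]
      exact sum_congr rfl fun a _ => by rw [Fintype.card_prod, hfib, sq]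
    have h2 : Fintype.card {p : Fin n × Fin n // b p.2 < b p.1} = Fintype.card {p : Fin n × Fin n // b p.1 < b p.2} :=
      Fintype.card_congr ((Equiv.prodComm _ _).subtypeEquiv fun p => Iff.rfl)
    have h3 : Fintype.card {p : Fin n × Fin n // b p.1 < b p.2} + Fintype.card {p : Fin n × Fin n // b p.1 = b p.2}
        + Fintype.card {p : Fin n × Fin n // b p.2 < b p.1} = n ^ 2 := by
      simp only [Fintype.card_subtype]
      rw [← card_union_of_disjoint (disjoint_filter.2 fun p _ h1 h2 => (ne_of_lt h1) h2),
        ← card_union_of_disjoint (disjoint_left.2 fun p h1 h2 => by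
          simp only [mem_union, mem_filter, mem_univ, true_and] at h1 h2
          rcases h1 with h | h
          · exact lt_asymm h h2
          · exact h2.ne h.symm)]
      rw [show (_ ∪ _ : Finset (Fin n × Fin n)) = univ from eq_univ_of_forall fun p => by
        simp only [mem_union, mem_filter, mem_univ, true_and]
        rcases lt_trichotomy (b p.1) (b p.2) with h | h | h <;> simp [h], Finset.card_univ, Fintype.card_prod, Fintype.card_fin, sq]
    have h4 : 2 * (∑ a, ∑ i ∈ range (μ a), i) + n = ∑ a, μ a ^ 2 := by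
      have h := sum_congr (rfl : (univ : Finset (Fin n)) = univ) fun a _ => sum_range_two (μ a)
      rw [sum_add_distrib, ← mul_sum, hμ] at h
      exact h
    have := sum_range_two n
    omega
  have hcard := Subgroup.card_eq_card_quotient_mul_card_subgroup (Cfsg.parabolicGL n F μ)
  rw [hP, card_block, card_gl_sub n (Fintype.card_fin n),
    prod_congr rfl fun a _ => card_gl_sub (μ a) (hfib a)] at hcard
  simp only [hx, gl_formula, prod_mul_distrib, prod_pow_eq_pow_sum, hμ] at hcard
  simp only [hx]
  rw [← hexp, pow_add] at hcard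
  have hpos : 0 < (x + 1) ^ (∑ a, ∑ i ∈ range (μ a), i) * (x + 1) ^ Fintype.card {p : Fin n × Fin n // b p.1 < b p.2} * x ^ n := by positivity
  refine Nat.eq_of_mul_eq_mul_left hpos ?_
  rw [hcard]; ring

end Cfsg.Agent.S2420
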