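import Cfsg.Statements.S2426
import Cfsg.Agent.Lib.SL2.Presentation
open CfsgLib.SL2Presentation

set_option autoImplicit false
open Cfsg

namespace Cfsg.Agent.S2426

/-- The rank-one Steinberg presentation of `SL₂` over a finite field `K`: generators `x(t)`, `y(t)` (`t ∈ K`; the two opposite root subgroups) subject to additivity `x(t)x(u) = x(t+u)`, `y(t)y(u) = y(t+u)` and, with `w(t) = x(t) y(−t⁻¹) x(t)` and `w'(t) = y(t) x(−t⁻¹) y(t)` for `t ≠ 0`, the relations `w(t) x(u) w(t)⁻¹ = y(−t⁻² u)` and `w'(t) y(u) w'(t)⁻¹ = x(−t⁻² u)`, present `SL₂(K)`, with `x(t) ↦ (1 t; 0 1)` and `y(t) ↦ (1 0; t 1)`. -/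
theorem result {K : Type*} [Field K] [Finite K] :
    ∃ e : PresentedGroup
        ({g : FreeGroup (Bool × K) | ∃ (b : Bool) (t u : K), g = FreeGroup.of (b, t) * FreeGroup.of (b, u) * (FreeGroup.of (b, t + u))⁻¹} ∪
          {g | ∃ (b : Bool) (t u : K), t ≠ 0 ∧
            g = (FreeGroup.of (b, t) * FreeGroup.of (!b, -t⁻¹) * FreeGroup.of (b, t)) * FreeGroup.of (b, u) *
                  (FreeGroup.of (b, t) * FreeGroup.of (!b, -t⁻¹) * FreeGroup.of (b, t))⁻¹ * (FreeGroup.of (!b, -(t⁻¹ ^ 2 * u)))⁻¹})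
        ≃* Matrix.SpecialLinearGroup (Fin 2) K,
      (∀ t : K, ((e (PresentedGroup.of (true, t)) : Matrix (Fin 2) (Fin 2) K)) = !![1, t; 0, 1]) ∧
      (∀ t : K, ((e (PresentedGroup.of (false, t)) : Matrix (Fin 2) (Fin 2) K)) = !![1, 0; t, 1]) := by
  classical
  set R : Set (FreeGroup (Bool × K)) := {g : FreeGroup (Bool × K) | ∃ (b : Bool) (t u : K), g = FreeGroup.of (b, t) * FreeGroup.of (b, u) * (FreeGroup.of (b, t + u))⁻¹} ∪
          {g | ∃ (b : Bool) (t u : K), t ≠ 0 ∧
            g = (FreeGroup.of (b, t) * FreeGroup.of (!b, -t⁻¹) * FreeGroup.of (b, t)) * FreeGroup.of (b, u) *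
                  (FreeGroup.of (b, t) * FreeGroup.of (!b, -t⁻¹) * FreeGroup.of (b, t))⁻¹ * (FreeGroup.of (!b, -(t⁻¹ ^ 2 * u)))⁻¹} with hR
  let P := PresentedGroup R
  let x : K → P := fun t => PresentedGroup.of (true, t)
  let y : K → P := fun t => PresentedGroup.of (false, t)
  have add : ∀ (b : Bool) (t u : K),
      (PresentedGroup.of (b, t) : P) * PresentedGroup.of (b, u) = PresentedGroup.of (b, t + u) := fun b t u =>
    mul_inv_eq_one.1 (by
      have := PresentedGroup.one_of_mem (rels := R) (Or.inl ⟨b, t, u, rfl⟩)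
      simp only [map_mul, map_inv] at this
      exact this)
  have conj : ∀ (b : Bool) (t u : K), t ≠ 0 →
      ((PresentedGroup.of (b, t) : P) * PresentedGroup.of (!b, -t⁻¹) * PresentedGroup.of (b, t)) * PresentedGroup.of (b, u) *
        ((PresentedGroup.of (b, t) : P) * PresentedGroup.of (!b, -t⁻¹) * PresentedGroup.of (b, t))⁻¹ =
        PresentedGroup.of (!b, -(t⁻¹ ^ 2 * u)) := fun b t u ht =>
    mul_inv_eq_one.1 (by
      have := PresentedGroup.one_of_mem (rels := R) (Or.inr ⟨b, t, u, ht, rfl⟩)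
      simp only [map_mul, map_inv] at this
      exact this)
  let S : Pre K P :=
    { X := x
      Y := y
      addX := add true
      addY := add false
      nX := fun t ht u => conj true t u ht
      nY := fun t ht u => by
        have hb : x t * y (-t⁻¹) * x t = y (-t⁻¹) * x t * y (-t⁻¹) := by
          have e := conj true t t ht
          rw [show -(t⁻¹ ^ 2 * t) = -t⁻¹ by field_simp, mul_inv_eq_iff_eq_mul] at e
          refine mul_right_cancel (b := x t) (e.trans ?_)
          show y (-t⁻¹) * (x t * y (-t⁻¹) * x t) = _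
          simp only [mul_assoc]
        rw [hb]
        have e := conj false (-t⁻¹) u (neg_ne_zero.2 (inv_ne_zero ht))
        rw [inv_neg, inv_inv, neg_neg, neg_sq] at e
        exact e }
  let T := std K
  have hT : ∀ t : K, t ≠ 0 → ∀ u, lo t * up (-t⁻¹) * lo t * lo u * (lo t * up (-t⁻¹) * lo t)⁻¹ = up (-(t⁻¹ ^ 2 * u)) := by
    intro t ht u
    have e := T.n_self (neg_ne_zero.2 (inv_ne_zero ht))
    rw [inv_neg, inv_inv, neg_neg] at e
    have h := T.n_conj_Y (neg_ne_zero.2 (inv_ne_zero ht)) u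
    rw [e, neg_sq] at h
    exact h
  have hθ : ∀ r ∈ R, FreeGroup.lift (fun p : Bool × K => if p.1 then up p.2 else lo p.2) r = 1 := by
    rintro r (⟨b, t, u, rfl⟩ | ⟨b, t, u, ht, rfl⟩) <;> cases b <;>
      simp only [map_mul, map_inv, FreeGroup.lift_apply_of, ↓reduceIte, Bool.false_eq_true, Bool.not_true,
        Bool.not_false] <;> rw [mul_inv_eq_one]
    exacts [lo_add t u, up_add t u, hT t ht u, T.nX t ht u]
  let θ : P →* Matrix.SpecialLinearGroup (Fin 2) K := PresentedGroup.toGroup hθ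
  have θX : ∀ t, θ (S.X t) = up t := fun t => PresentedGroup.toGroup.of _
  have θY : ∀ t, θ (S.Y t) = lo t := fun t => PresentedGroup.toGroup.of _
  have hgen : S.Gen := by
    rw [Pre.Gen, eq_top_iff, ← PresentedGroup.closure_range_of, Subgroup.closure_le]
    rintro _ ⟨⟨b, t⟩, rfl⟩
    cases b
    · exact Subgroup.subset_closure (Or.inr ⟨t, rfl⟩)
    · exact Subgroup.subset_closure (Or.inl ⟨t, rfl⟩)
  have hbij : Function.Bijective θ := by
    refine ⟨injective S θ θX θY hgen fun t u ht hu => h_mul S θ θX θY hgen ht hu, fun g => ?_⟩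
    have : Subgroup.closure (Set.range up ∪ Set.range lo) ≤ θ.range := by
      rw [Subgroup.closure_le]
      rintro _ (⟨t, rfl⟩ | ⟨t, rfl⟩)
      exacts [⟨_, θX t⟩, ⟨_, θY t⟩]
    exact this (generated g)
  exact ⟨MulEquiv.ofBijective θ hbij, fun t => congrArg Subtype.val (θX t), fun t => congrArg Subtype.val (θY t)⟩

end Cfsg.Agent.S2426
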