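import Cfsg.Statements.S2428
import Mathlib
import Cfsg.Agent.Lib.SL2.TorusNormalizer

set_option autoImplicit false
open Cfsg

namespace Cfsg.Agent.S2428

/-- Let F be a finite field with q elements, q odd, and let d be a diagonal element of SL₂ over F whose diagonal entry a has a² ≠ 1 (such d exist exactly when q > 3). Then the centraliser of d is precisely the diagonal subgroup T; the normaliser of T has order 2(q − 1) and exactly (q + 5)/2 conjugacy classes; and every element of that normaliser outside T has square equal to −1. -/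
theorem result {F : Type*} [Field F] [Fintype F] (hodd : Odd (Fintype.card F))
    (d : Matrix.SpecialLinearGroup (Fin 2) F) (hd01 : (d : Matrix (Fin 2) (Fin 2) F) 0 1 = 0) (hd10 : (d : Matrix (Fin 2) (Fin 2) F) 1 0 = 0) (hda : (d : Matrix (Fin 2) (Fin 2) F) 0 0 ^ 2 ≠ 1) :
    (∀ g : Matrix.SpecialLinearGroup (Fin 2) F, g ∈ Subgroup.centralizer ({d} : Set (Matrix.SpecialLinearGroup (Fin 2) F)) ↔ ((g : Matrix (Fin 2) (Fin 2) F) 0 1 = 0 ∧ (g : Matrix (Fin 2) (Fin 2) F) 1 0 = 0)) ∧
    Nat.card (Subgroup.normalizer ((Subgroup.centralizer ({d} : Set (Matrix.SpecialLinearGroup (Fin 2) F))) : Set (Matrix.SpecialLinearGroup (Fin 2) F))) = 2 * (Fintype.card F - 1) ∧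
    Nat.card (ConjClasses (Subgroup.normalizer ((Subgroup.centralizer ({d} : Set (Matrix.SpecialLinearGroup (Fin 2) F))) : Set (Matrix.SpecialLinearGroup (Fin 2) F)))) = (Fintype.card F + 5) / 2 ∧
    ∀ g : Matrix.SpecialLinearGroup (Fin 2) F, g ∈ Subgroup.normalizer ((Subgroup.centralizer ({d} : Set (Matrix.SpecialLinearGroup (Fin 2) F))) : Set (Matrix.SpecialLinearGroup (Fin 2) F)) →
      g ∉ Subgroup.centralizer ({d} : Set (Matrix.SpecialLinearGroup (Fin 2) F)) → ((g * g) : Matrix (Fin 2) (Fin 2) F) = -1 := by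
  open CfsgLib.SL2Torus in
  have ho : Fintype.card F % 2 = 1 := Nat.odd_iff.1 hodd
  set a := (d : Matrix (Fin 2) (Fin 2) F) 0 0 with ha
  set b := (d : Matrix (Fin 2) (Fin 2) F) 1 1 with hb
  have hab : a * b = 1 := by
    have := d.2
    rw [Matrix.det_fin_two, hd01, hd10, mul_zero, sub_zero] at this
    exact this
  have htr : tr d = a + b := Matrix.trace_fin_two _
  have hne : a - b ≠ 0 := fun h => hda (by rw [sq]; linear_combination a * h + hab)
  have hg : tr d ^ 2 ≠ 4 := fun h => by
    apply hne
    have : (a - b) ^ 2 = 0 := by rw [htr] at h; linear_combination h - 4 * hab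
    exact (pow_eq_zero_iff two_ne_zero).1 this
  have hs : Split (tr d) := ⟨a, by rw [htr]; linear_combination -hab⟩
  have hchar : ∀ g : Matrix.SpecialLinearGroup (Fin 2) F, g ∈ cent d ↔
      ((g : Matrix (Fin 2) (Fin 2) F) 0 1 = 0 ∧ (g : Matrix (Fin 2) (Fin 2) F) 1 0 = 0) := by
    intro g
    rw [mem_cent]
    constructor
    · intro h
      have h' := congrArg (fun x : Matrix.SpecialLinearGroup (Fin 2) F => (x : Matrix (Fin 2) (Fin 2) F)) h
      simp only [Matrix.SpecialLinearGroup.coe_mul] at h'
      have e01 := congrFun (congrFun h' 0) 1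
      have e10 := congrFun (congrFun h' 1) 0
      simp [Matrix.mul_apply, Fin.sum_univ_two, hd01, hd10, ← ha, ← hb] at e01 e10
      exact ⟨(mul_eq_zero.1 (show (a - b) * (g : Matrix (Fin 2) (Fin 2) F) 0 1 = 0 by linear_combination e01)).resolve_left hne,
        (mul_eq_zero.1 (show (a - b) * (g : Matrix (Fin 2) (Fin 2) F) 1 0 = 0 by linear_combination -e10)).resolve_left hne⟩
    · rintro ⟨h1, h2⟩
      apply Subtype.ext
      simp only [Matrix.SpecialLinearGroup.coe_mul]
      ext i j
      fin_cases i <;> fin_cases j <;> simp [Matrix.mul_apply, Fin.sum_univ_two, hd01, hd10, h1, h2] <;> ring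
  refine ⟨hchar, ?_, ?_, fun g h1 h2 => ?_⟩
  · show Nat.card (Subgroup.normalizer (cent d : Set (Matrix.SpecialLinearGroup (Fin 2) F))) = _
    rw [card_normalizer hg, card_cent_split hg hs]
  · have h := card_conjClasses_normalizer ho hg
    rw [card_cent_split hg hs] at h
    show Nat.card (ConjClasses (Subgroup.normalizer (cent d : Set (Matrix.SpecialLinearGroup (Fin 2) F)))) = _
    have := Fintype.one_lt_card (α := F)
    omega
  · have h := congrArg (fun x : Matrix.SpecialLinearGroup (Fin 2) F => (x : Matrix (Fin 2) (Fin 2) F)) (outside_sq hg h1 h2)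
    simpa using h

end Cfsg.Agent.S2428
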