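import Cfsg.Statements.S2429
import Mathlib
import Cfsg.Agent.Lib.SL2.TorusNormalizer

set_option autoImplicit false
open Cfsg

namespace Cfsg.Agent.S2429

/-- Let F be a finite field with q elements, q odd. Then SL₂ over F contains a cyclic subgroup T′ of order q + 1 (a non-split torus) with the following properties: T′ is its own centraliser, and indeed the centraliser of each element of T′ other than 1 and −1 is exactly T′; every element of SL₂ having no eigenvector in F² is conjugate to an element of T′; the normaliser of T′ has order 2(q + 1) and exactly (q + 7)/2 conjugacy classes; and every element of that normaliser outside T′ has square −1. -/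
theorem result {F : Type*} [Field F] [Fintype F] (hodd : Odd (Fintype.card F)) :
    ∃ T' : Subgroup (Matrix.SpecialLinearGroup (Fin 2) F), IsCyclic T' ∧ Nat.card T' = Fintype.card F + 1 ∧
      Subgroup.centralizer ((T' : Set (Matrix.SpecialLinearGroup (Fin 2) F))) = T' ∧
      (∀ g : Matrix.SpecialLinearGroup (Fin 2) F, g ∈ T' → (g : Matrix (Fin 2) (Fin 2) F) ≠ 1 → (g : Matrix (Fin 2) (Fin 2) F) ≠ -1 → Subgroup.centralizer ({g} : Set (Matrix.SpecialLinearGroup (Fin 2) F)) = T') ∧
      (∀ g : Matrix.SpecialLinearGroup (Fin 2) F, (∀ (c : F) (v : Fin 2 → F), v ≠ 0 → (g : Matrix (Fin 2) (Fin 2) F).mulVec v ≠ c • v) → ∃ h : Matrix.SpecialLinearGroup (Fin 2) F, h * g * h⁻¹ ∈ T') ∧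
      Nat.card (Subgroup.normalizer (T' : Set (Matrix.SpecialLinearGroup (Fin 2) F))) = 2 * (Fintype.card F + 1) ∧
      Nat.card (ConjClasses (Subgroup.normalizer (T' : Set (Matrix.SpecialLinearGroup (Fin 2) F)))) = (Fintype.card F + 7) / 2 ∧
      ∀ g : Matrix.SpecialLinearGroup (Fin 2) F, g ∈ Subgroup.normalizer (T' : Set (Matrix.SpecialLinearGroup (Fin 2) F)) → g ∉ T' → ((g * g) : Matrix (Fin 2) (Fin 2) F) = -1 := by
  open CfsgLib.SL2Torus in
  have ho : Fintype.card F % 2 = 1 := Nat.odd_iff.1 hodd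
  obtain ⟨t, ht, hns⟩ := exists_elliptic (F := F)
  have hg : tr (comp t) ^ 2 ≠ 4 := by rw [tr_comp]; exact ht
  have hn := card_cent_elliptic hg (by rw [tr_comp]; exact hns)
  refine ⟨cent (comp t), cent_isCyclic hg, hn, centralizer_cent hg, ?_, ?_, ?_, ?_, ?_⟩
  · intro g hgm h1 h2
    refine cent_eq (ne_scalar hg) hgm fun h => ?_
    rcases CfsgLib.Dickson.scalar_cases h with e | e
    · exact h1 (by rw [e]; rfl)
    · exact h2 (by rw [e]; simp)
  · intro g hev
    have hnsplit : ∀ r : F, r * r - tr g * r + 1 ≠ 0 := by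
      intro r hr
      have hdet : ((g : Matrix (Fin 2) (Fin 2) F) - r • (1 : Matrix (Fin 2) (Fin 2) F)).det = 0 := by
        have hd : (g : Matrix (Fin 2) (Fin 2) F).det = 1 := g.2
        rw [Matrix.det_fin_two] at hd ⊢
        rw [tr, Matrix.trace_fin_two] at hr
        simp
        linear_combination hr + hd
      obtain ⟨v, hv0, hv⟩ := Matrix.exists_mulVec_eq_zero_iff.2 hdet
      rw [Matrix.sub_mulVec, Matrix.smul_mulVec, Matrix.one_mulVec, sub_eq_zero] at hv
      exact hev r v hv0 hv
    have hg' : tr g ^ 2 ≠ 4 := fun h => by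
      obtain ⟨e, he, hte⟩ := exists_unip_cases h
      exact hnsplit e (by rw [hte]; linear_combination -he)
    have hcg := card_cent_elliptic hg' (fun ⟨r, hr⟩ => hnsplit r hr)
    obtain ⟨h, hh⟩ := cent_conj hg' hg (hcg.trans hn.symm)
    exact ⟨h, hh ▸ ⟨g, self_mem_cent g, rfl⟩⟩
  · rw [card_normalizer hg, hn]
  · have h := card_conjClasses_normalizer ho hg
    rw [hn] at h
    omega
  · intro g h1 h2
    have h := congrArg (fun x : Matrix.SpecialLinearGroup (Fin 2) F => (x : Matrix (Fin 2) (Fin 2) F)) (outside_sq hg h1 h2)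
    simpa using h

end Cfsg.Agent.S2429
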