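import Cfsg.Statements.S2430
import Mathlib
import Cfsg.Agent.Lib.SL2.TorusNormalizer

set_option autoImplicit false
open Cfsg

namespace Cfsg.Agent.S2430

open CfsgLib.SL2Torus

theorem main {F : Type*} [Field F] [Fintype F] (hodd : Odd (Fintype.card F)) (ℓ : ℕ) [Fact ℓ.Prime] (hℓ : ℓ ≠ 2)
    (P : Sylow ℓ (Matrix.SpecialLinearGroup (Fin 2) F)) (n : ℕ) (hn : n = Fintype.card F - 1 ∨ n = Fintype.card F + 1)
    (hd : ℓ ∣ n) :
    Nat.card (Subgroup.centralizer ((P : Subgroup (Matrix.SpecialLinearGroup (Fin 2) F)) : Set (Matrix.SpecialLinearGroup (Fin 2) F))) = n ∧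
      IsCyclic (Subgroup.centralizer ((P : Subgroup (Matrix.SpecialLinearGroup (Fin 2) F)) : Set (Matrix.SpecialLinearGroup (Fin 2) F))) ∧
      Nat.card (Subgroup.normalizer ((P : Subgroup (Matrix.SpecialLinearGroup (Fin 2) F)) : Set (Matrix.SpecialLinearGroup (Fin 2) F))) = 2 * n := by
  have hp : ℓ.Prime := Fact.out
  have ho : Fintype.card F % 2 = 1 := Nat.odd_iff.1 hodd
  have hdG : ℓ ∣ Nat.card (Matrix.SpecialLinearGroup (Fin 2) F) := by
    rw [card_L_eq, show Fintype.card F ^ 2 - 1 = (Fintype.card F + 1) * (Fintype.card F - 1) by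
      simpa using Nat.sq_sub_sq (Fintype.card F) 1]
    rcases hn with rfl | rfl
    · exact (hd.trans (Dvd.intro_left _ rfl)).trans (Dvd.intro_left _ rfl)
    · exact (hd.trans (Dvd.intro _ rfl)).trans (Dvd.intro_left _ rfl)
  haveI : Nontrivial (P : Subgroup (Matrix.SpecialLinearGroup (Fin 2) F)) :=
    (Subgroup.nontrivial_iff_ne_bot _).2 (P.ne_bot_of_dvd_card hdG)
  haveI : Nontrivial (Subgroup.center (P : Subgroup (Matrix.SpecialLinearGroup (Fin 2) F))) := P.2.center_nontrivial
  obtain ⟨g, hg1⟩ := exists_ne (1 : Subgroup.center (P : Subgroup (Matrix.SpecialLinearGroup (Fin 2) F)))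
  set G : Matrix.SpecialLinearGroup (Fin 2) F := g.1.1 with hG
  have hG1 : G ≠ 1 := fun h => hg1 (Subtype.ext (Subtype.ext h))
  obtain ⟨k, hk⟩ := IsPGroup.iff_orderOf.1 P.2 g.1
  rw [← Subgroup.orderOf_coe] at hk
  change orderOf G = ℓ ^ k at hk
  have hk0 : k ≠ 0 := fun h => hG1 (orderOf_eq_one_iff.1 (by rw [hk, h, pow_zero]))
  have hns : ¬ ∃ c : F, (G : Matrix (Fin 2) (Fin 2) F) = c • (1 : Matrix (Fin 2) (Fin 2) F) := by
    intro h
    rcases CfsgLib.Dickson.scalar_cases h with e | e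
    · exact hG1 e
    · haveI : Fact (Nat.Prime 2) := ⟨Nat.prime_two⟩
      have h2 : orderOf G = 2 := orderOf_eq_prime (by rw [e, sq, neg_mul_neg, one_mul]) hG1
      rw [hk] at h2
      exact hℓ ((Nat.prime_dvd_prime_iff_eq hp Nat.prime_two).1 (h2 ▸ dvd_pow_self ℓ hk0))
  have hcop : ∀ m, (m = Fintype.card F - 1 ∨ m = Fintype.card F + 1) → ℓ ∣ m → m = n := by
    intro m hm hdm
    rcases hn with rfl | rfl <;> rcases hm with rfl | rfl <;> first | rfl | skip
    · have := Nat.dvd_sub hdm hd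
      rw [show Fintype.card F + 1 - (Fintype.card F - 1) = 2 by have := Fintype.one_lt_card (α := F); omega] at this
      exact absurd ((Nat.prime_dvd_prime_iff_eq hp Nat.prime_two).1 this) hℓ
    · have := Nat.dvd_sub hd hdm
      rw [show Fintype.card F + 1 - (Fintype.card F - 1) = 2 by have := Fintype.one_lt_card (α := F); omega] at this
      exact absurd ((Nat.prime_dvd_prime_iff_eq hp Nat.prime_two).1 this) hℓ
  have hq : ¬ ℓ ∣ Fintype.card F := fun h => by
    rcases hn with rfl | rfl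
    · exact hp.ne_one (Nat.dvd_one.1 (by
        have := Nat.dvd_sub h hd
        rwa [show Fintype.card F - (Fintype.card F - 1) = 1 by have := Fintype.one_lt_card (α := F); omega] at this))
    · exact hp.ne_one (Nat.dvd_one.1 (by
        have := Nat.dvd_sub hd h
        rwa [Nat.add_sub_cancel_left] at this))
  have ht : tr G ^ 2 ≠ 4 := by
    intro h
    have h1 := pow_card_cent_eq_one G
    rw [card_cent_unip hns h] at h1
    have h2 := orderOf_dvd_of_pow_eq_one h1
    rw [hk] at h2
    rcases hp.dvd_mul.1 ((dvd_pow_self ℓ hk0).trans h2) with h3 | h3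
    · exact hq h3
    · exact hℓ ((Nat.prime_dvd_prime_iff_eq hp Nat.prime_two).1 (h3.trans (Nat.gcd_dvd_left 2 _)))
  have hPle : (P : Subgroup (Matrix.SpecialLinearGroup (Fin 2) F)) ≤ cent G := fun x hx =>
    mem_cent.2 (congrArg Subtype.val (Subgroup.mem_center_iff.1 g.2 ⟨x, hx⟩)).symm
  have hGP : G ∈ (P : Subgroup (Matrix.SpecialLinearGroup (Fin 2) F)) := g.1.2
  have hcard : Nat.card (cent G) = n := hcop _ (card_cent ht)
    (((dvd_pow_self ℓ hk0).trans (hk ▸ dvd_refl _ : ℓ ^ k ∣ orderOf G)).trans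
      (orderOf_dvd_of_pow_eq_one (pow_card_cent_eq_one G)))
  have hC : Subgroup.centralizer ((P : Subgroup (Matrix.SpecialLinearGroup (Fin 2) F)) : Set (Matrix.SpecialLinearGroup (Fin 2) F)) = cent G := by
    refine le_antisymm (fun x hx => mem_cent.2 (Subgroup.mem_centralizer_iff.1 hx G hGP)) fun x hx => ?_
    exact Subgroup.mem_centralizer_iff.2 fun y hy => cent_comm hns (hPle hy) hx
  have hN : Subgroup.normalizer ((P : Subgroup (Matrix.SpecialLinearGroup (Fin 2) F)) : Set (Matrix.SpecialLinearGroup (Fin 2) F)) =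
      Subgroup.normalizer (cent G : Set (Matrix.SpecialLinearGroup (Fin 2) F)) := by
    apply le_antisymm
    · intro x hx
      have hm : x * G * x⁻¹ ∈ cent G := hPle ((Subgroup.mem_normalizer_iff.1 hx G).1 hGP)
      rcases eq_or_inv_of_tr ht hm (tr_conj G x) with h | h
      · exact Subgroup.le_normalizer (mem_cent.2 (mul_inv_eq_iff_eq_mul.1 h).symm)
      · exact inverter_mem_normalizer ht h
    · intro x hx
      have hmove : ∀ y ∈ (P : Subgroup (Matrix.SpecialLinearGroup (Fin 2) F)), x * y * x⁻¹ ∈ (P : Subgroup (Matrix.SpecialLinearGroup (Fin 2) F)) := by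
        intro y hy
        rcases normalizer_cases ht hx with h | h
        · rw [cent_comm hns h (hPle hy), mul_inv_cancel_right]; exact hy
        · rw [inverts ht h (hPle hy)]; exact inv_mem hy
      refine (Subgroup.mem_normalizer_iff_map_conj_eq).2 (Subgroup.eq_of_le_of_card_ge ?_ ?_)
      · rintro _ ⟨y, hy, rfl⟩; exact hmove y hy
      · rw [Subgroup.card_map_of_injective (MulAut.conj x).injective]
  rw [hC, hN, card_normalizer ht, hcard]
  exact ⟨rfl, cent_isCyclic ht, rfl⟩

/-- Let F be a finite field with q elements, q odd, ℓ an odd prime, and P a Sylow ℓ-subgroup of SL₂ over F. If ℓ divides q − 1, the centraliser of P is cyclic of order q − 1 (a split torus) and the normaliser of P has order 2(q − 1); if ℓ divides q + 1, the centraliser of P is cyclic of order q + 1 (a non-split torus) and the normaliser of P has order 2(q + 1). -/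
theorem result {F : Type*} [Field F] [Fintype F] (hodd : Odd (Fintype.card F)) (ℓ : ℕ) [Fact ℓ.Prime] (hℓ : ℓ ≠ 2)
    (P : Sylow ℓ (Matrix.SpecialLinearGroup (Fin 2) F)) :
    (ℓ ∣ Fintype.card F - 1 →
      Nat.card (Subgroup.centralizer ((P : Subgroup (Matrix.SpecialLinearGroup (Fin 2) F)) : Set (Matrix.SpecialLinearGroup (Fin 2) F))) = Fintype.card F - 1 ∧
      IsCyclic (Subgroup.centralizer ((P : Subgroup (Matrix.SpecialLinearGroup (Fin 2) F)) : Set (Matrix.SpecialLinearGroup (Fin 2) F))) ∧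
      Nat.card (Subgroup.normalizer ((P : Subgroup (Matrix.SpecialLinearGroup (Fin 2) F)) : Set (Matrix.SpecialLinearGroup (Fin 2) F))) = 2 * (Fintype.card F - 1)) ∧
    (ℓ ∣ Fintype.card F + 1 →
      Nat.card (Subgroup.centralizer ((P : Subgroup (Matrix.SpecialLinearGroup (Fin 2) F)) : Set (Matrix.SpecialLinearGroup (Fin 2) F))) = Fintype.card F + 1 ∧
      IsCyclic (Subgroup.centralizer ((P : Subgroup (Matrix.SpecialLinearGroup (Fin 2) F)) : Set (Matrix.SpecialLinearGroup (Fin 2) F))) ∧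
      Nat.card (Subgroup.normalizer ((P : Subgroup (Matrix.SpecialLinearGroup (Fin 2) F)) : Set (Matrix.SpecialLinearGroup (Fin 2) F))) = 2 * (Fintype.card F + 1)) := by
  exact ⟨main hodd ℓ hℓ P _ (Or.inl rfl), main hodd ℓ hℓ P _ (Or.inr rfl)⟩

end Cfsg.Agent.S2430
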