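import Cfsg.Statements.S2431
import Mathlib
import Cfsg.Agent.Lib.SL2.TorusNormalizer

set_option autoImplicit false
open Cfsg

namespace Cfsg.Agent.S2431

open CfsgLib.SL2Torus CfsgLib.PSL2Klein CfsgLib.PSL2Two

variable {F : Type*} [Field F] [Fintype F]

local notation "L" => Matrix.SpecialLinearGroup (Fin 2) F

theorem card_L_val (ho : Fintype.card F % 2 = 1) :
    ∃ m, Nat.card (rot F) = 4 * m ∧ ∃ r, r % 2 = 1 ∧ Nat.card L = 8 * m * r * Fintype.card F := by
  obtain ⟨h1, h3⟩ := card_rot' ho
  have hsq : Fintype.card F ^ 2 - 1 = (Fintype.card F + 1) * (Fintype.card F - 1) := by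
    simpa using Nat.sq_sub_sq (Fintype.card F) 1
  have := Fintype.one_lt_card (α := F)
  rcases (show Fintype.card F % 4 = 1 ∨ Fintype.card F % 4 = 3 by omega) with h | h
  · refine ⟨Fintype.card F / 4, by rw [h1 h]; omega, (Fintype.card F + 1) / 2, by omega, ?_⟩
    rw [card_L_eq, hsq, show Fintype.card F + 1 = 2 * ((Fintype.card F + 1) / 2) by omega,
      show Fintype.card F - 1 = 4 * (Fintype.card F / 4) by omega,
      show (2 * ((Fintype.card F + 1) / 2)) / 2 = (Fintype.card F + 1) / 2 by omega]
    ring
  · refine ⟨(Fintype.card F + 1) / 4, by rw [h3 h]; omega, (Fintype.card F - 1) / 2, by omega, ?_⟩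
    rw [card_L_eq, hsq, show Fintype.card F + 1 = 4 * ((Fintype.card F + 1) / 4) by omega,
      show Fintype.card F - 1 = 2 * ((Fintype.card F - 1) / 2) by omega,
      show (4 * ((Fintype.card F + 1) / 4)) / 4 = (Fintype.card F + 1) / 4 by omega,
      show (2 * ((Fintype.card F - 1) / 2)) / 2 = (Fintype.card F - 1) / 2 by omega]
    ring

theorem main (ho : Fintype.card F % 2 = 1) (S : Sylow 2 L) :
    Subgroup.centralizer ((S : Subgroup L) : Set L) = Subgroup.center L ∧
    (8 ∣ Nat.card (rot F) → Subgroup.normalizer ((S : Subgroup L) : Set L) = (S : Subgroup L)) ∧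
    (¬ 8 ∣ Nat.card (rot F) → Nat.card (Subgroup.normalizer ((S : Subgroup L) : Set L)) = 3 * Nat.card S) := by
  haveI : Fact (Nat.Prime 2) := ⟨Nat.prime_two⟩
  have hne : (-1 : L) ≠ 1 := neg_one_ne_one ho
  have htJ : tr (J : L) = 0 := by simp [tr, Matrix.trace_fin_two]
  have hg : tr (J : L) ^ 2 ≠ 4 := by
    rw [htJ]
    intro h
    exact two_ne ho (mul_self_eq_zero.1 (show (2 : F) * 2 = 0 by linear_combination -h))
  have hcJ : cent (J : L) = rot F := by
    ext x; rw [mem_cent, ← comm_iff x ho]; exact ⟨Eq.symm, Eq.symm⟩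
  set N := Subgroup.normalizer (cent (J : L) : Set L) with hN
  have hNcard : Nat.card N = 2 * Nat.card (rot F) := by rw [card_normalizer hg, hcJ]
  obtain ⟨m, hm, r, hr, hL⟩ := card_L_val ho
  -- some Sylow subgroup lies in the normaliser of the torus
  let T : Sylow 2 N := default
  have hT : Nat.card T = 2 ^ ((Nat.card L).factorization 2) := by
    rw [T.card_eq_multiplicity, hNcard, hm, hL]
    have hm0 : m ≠ 0 := by rintro rfl; exact absurd hm (Nat.card_pos (α := rot F)).ne'
    have hr0 : r ≠ 0 := by omega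
    have hq0 : Fintype.card F ≠ 0 := Fintype.card_ne_zero
    rw [show 2 * (4 * m) = 8 * m by ring, Nat.factorization_mul (by positivity) hq0,
      Nat.factorization_mul (by positivity) hr0, Finsupp.add_apply, Finsupp.add_apply,
      Nat.factorization_eq_zero_of_not_dvd (show ¬ 2 ∣ Fintype.card F by omega),
      Nat.factorization_eq_zero_of_not_dvd (show ¬ 2 ∣ r by omega)]
    simp
  let T' : Sylow 2 L := Sylow.ofCard ((T : Subgroup N).map N.subtype)
    (by rw [Subgroup.card_map_of_injective N.subtype_injective]; exact hT)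
  obtain ⟨c, hc⟩ := MulAction.exists_smul_eq L T' S
  -- transport by conjugation
  have hS : (S : Subgroup L) = ((T' : Sylow 2 L) : Subgroup L).map (MulAut.conj c).toMonoidHom := by
    rw [← hc]; rfl
  have htrC : Subgroup.centralizer ((T' : Subgroup L) : Set L) = Subgroup.center L → 
      Subgroup.centralizer ((S : Subgroup L) : Set L) = Subgroup.center L := by
    intro h
    rw [hS]
    ext x
    constructor
    · intro hx
      have : c⁻¹ * x * c ∈ Subgroup.centralizer ((T' : Subgroup L) : Set L) := by
        rw [Subgroup.mem_centralizer_iff] at hx ⊢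
        intro y hy
        have h' := hx (c * y * c⁻¹) ⟨y, hy, rfl⟩
        calc y * (c⁻¹ * x * c) = c⁻¹ * (c * y * c⁻¹ * x) * c := by group
          _ = c⁻¹ * (x * (c * y * c⁻¹)) * c := by rw [h']
          _ = c⁻¹ * x * c * y := by group
      rw [h] at this
      rw [show x = c * (c⁻¹ * x * c) * c⁻¹ by group]
      exact (inferInstance : (Subgroup.center L).Normal).conj_mem _ this c
    · exact fun hx => Subgroup.center_le_centralizer _ hx
  have hTle : (T' : Subgroup L) ≤ N := Subgroup.map_subtype_le _
  have hcardT' : Nat.card (T' : Subgroup L) = 2 ^ ((Nat.card L).factorization 2) := T'.card_eq_multiplicity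
  have hnegT : (-1 : L) ∈ (T' : Subgroup L) := by
    have hpg : IsPGroup 2 ↥((T' : Subgroup L) ⊔ Subgroup.zpowers (-1 : L)) := by
      refine T'.2.to_sup_of_normal_left' (IsPGroup.of_card (n := 1) ?_) (Subgroup.zpowers_le.mpr
        ((Subgroup.centralizer_le_normalizer _) (Subgroup.mem_centralizer_iff.mpr fun y _ => by simp)))
      rw [Nat.card_zpowers, pow_one, orderOf_eq_prime (by rw [sq, neg_mul_neg, one_mul]) hne]
    rw [← T'.is_maximal' hpg le_sup_left]
    exact Subgroup.mem_sup_right (Subgroup.mem_zpowers _)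
  have h8T : 8 ∣ Nat.card (T' : Subgroup L) := by
    rw [hcardT']
    exact (Nat.prime_two.pow_dvd_iff_le_factorization Nat.card_pos.ne').1 (show 2 ^ 3 ∣ Nat.card L from ⟨m * r * Fintype.card F, by rw [hL]; ring⟩) |>
      fun h => (pow_dvd_pow 2 h : 2 ^ 3 ∣ _)
  -- the trace of the torus in the Sylow subgroup
  set A := (T' : Subgroup L) ⊓ cent (J : L) with hA
  have hout : ∀ x ∈ (T' : Subgroup L), x ∉ cent (J : L) → x * x = -1 :=
    fun x hx hx' => outside_sq hg (hTle hx) hx'
  have hidx : Nat.card (T' : Subgroup L) ≤ 2 * Nat.card A := by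
    have h2 : ((cent (J : L)).subgroupOf N).index = 2 := by
      have h := ((cent (J : L)).subgroupOf N).index_mul_card
      rw [Nat.card_congr (Subgroup.subgroupOfEquivOfLe (Subgroup.le_normalizer (H := cent (J : L)))).toEquiv,
        card_normalizer hg] at h
      exact Nat.eq_of_mul_eq_mul_right Nat.card_pos h
    have h := Subgroup.relIndex_mul_relIndex ⊥ A (T' : Subgroup L) bot_le inf_le_left
    rw [Subgroup.relIndex_bot_left, Subgroup.relIndex_bot_left] at h
    rw [← h, mul_comm (Nat.card A)]
    refine Nat.mul_le_mul_right _ ?_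
    rw [hA, Subgroup.inf_relIndex_left]
    exact (Subgroup.relIndex_le_of_le_right hTle (by show ((cent (J : L)).subgroupOf N).index ≠ 0; rw [h2]; norm_num)).trans
      (le_of_eq h2)
  have h4 : 4 ≤ Nat.card A := by have := Nat.le_of_dvd Nat.card_pos h8T; omega
  obtain ⟨a, haA, ha1, ha2⟩ : ∃ a ∈ A, a ≠ 1 ∧ a ≠ -1 := by
    by_contra hcon
    push Not at hcon
    have hsub : (A : Set L) ⊆ {1, -1} := fun x hx => by
      by_cases h : x = 1
      · exact Or.inl h
      · exact Or.inr (hcon x hx h)
    have h := Set.ncard_le_ncard hsub (Set.toFinite _)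
    rw [Set.ncard_pair hne.symm, ← Nat.card_coe_set_eq] at h
    change Nat.card A ≤ 2 at h
    omega
  have haT := (Subgroup.mem_inf.1 haA).1
  have haC := (Subgroup.mem_inf.1 haA).2
  have hans := ne_scalar' ha1 ha2
  obtain ⟨x, hxT, hxC⟩ : ∃ x ∈ (T' : Subgroup L), x ∉ cent (J : L) := by
    by_contra hcon
    push Not at hcon
    have h1 := Subgroup.card_dvd_of_le (show (T' : Subgroup L) ≤ cent (J : L) from hcon)
    rw [hcJ, hm, hcardT'] at h1
    have hv : (Nat.card L).factorization 2 = 3 + m.factorization 2 := by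
      have hm0 : m ≠ 0 := by rintro rfl; exact absurd hm (Nat.card_pos (α := rot F)).ne'
      rw [hL, Nat.factorization_mul (mul_ne_zero (mul_ne_zero (show (8 : ℕ) ≠ 0 by norm_num) (show m ≠ 0 by omega)) (show r ≠ 0 by omega)) Fintype.card_ne_zero, Nat.factorization_mul (mul_ne_zero (show (8 : ℕ) ≠ 0 by norm_num) (show m ≠ 0 by omega)) (by omega),
        Nat.factorization_mul (by norm_num) hm0, Finsupp.add_apply, Finsupp.add_apply, Finsupp.add_apply,
        Nat.factorization_eq_zero_of_not_dvd (show ¬ 2 ∣ Fintype.card F by omega),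
        Nat.factorization_eq_zero_of_not_dvd (show ¬ 2 ∣ r by omega), show (8 : ℕ) = 2 ^ 3 from rfl,
        Nat.prime_two.factorization_pow]
      simp
    rw [hv, pow_add, show (2 : ℕ) ^ 3 = 4 * 2 from rfl, mul_assoc, ← pow_succ'] at h1
    have hm0 : m ≠ 0 := by rintro rfl; exact absurd hm (Nat.card_pos (α := rot F)).ne'
    exact Nat.pow_succ_factorization_not_dvd hm0 Nat.prime_two (Nat.dvd_of_mul_dvd_mul_left (by norm_num) h1)
  have hinv : ∀ b ∈ cent (J : L), x * b * x⁻¹ = b⁻¹ := fun b hb => outside_inverts hg (hTle hxT) hxC hb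
  refine ⟨htrC ?_, ?_, ?_⟩
  · refine le_antisymm (fun y hy => ?_) (Subgroup.center_le_centralizer _)
    rw [Subgroup.mem_centralizer_iff] at hy
    have hyJ : y ∈ cent (J : L) := by rw [← cent_eq (ne_scalar hg) haC hans]; exact mem_cent.2 (hy a haT)
    have h1 := hinv y hyJ
    rw [hy x hxT, mul_inv_cancel_right] at h1
    have h2 : y ^ 2 = 1 := by rw [sq]; exact mul_eq_one_iff_eq_inv.2 h1
    rw [mem_center']
    exact rot_sq_eq_one ho (hcJ ▸ hyJ) h2
  · intro h8
    have hT16 : 16 ≤ Nat.card (T' : Subgroup L) := by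
      refine Nat.le_of_dvd Nat.card_pos ?_
      rw [hcardT']
      obtain ⟨j, hj⟩ := h8
      have : 2 ^ 4 ∣ Nat.card L := ⟨j * r * Fintype.card F, by rw [hL, show m = 2 * j by omega]; ring⟩
      exact (pow_dvd_pow 2 ((Nat.prime_two.pow_dvd_iff_le_factorization Nat.card_pos.ne').1 this))
    have h8A : 8 ≤ Nat.card A := by omega
    -- an element of order at least eight
    obtain ⟨b, hbA, hb⟩ : ∃ b ∈ A, b * b ≠ -1 ∧ b * b ≠ 1 := by
      by_contra hcon
      push Not at hcon
      have hsub : (A : Set L) ⊆ {1, -1, J, -J} := fun z hz => by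
        have hzC := (Subgroup.mem_inf.1 hz).2
        rw [hcJ] at hzC
        simp only [Set.mem_insert_iff, Set.mem_singleton_iff]
        by_cases h1 : z * z = 1
        · rcases rot_sq_eq_one ho hzC (by rw [sq]; exact h1) with e | e <;> simp [e]
        · have h2 : z * z = -1 := by by_contra h2; exact h1 (hcon z hz h2)
          have ht := (sq_eq_neg_one_iff ho z).1 (by rw [sq]; exact h2)
          obtain ⟨z1, z2⟩ := hzC
          have hd := CfsgLib.PSL2Two.entries z
          have z0 : z.1 0 0 = 0 := mul_left_cancel₀ (two_ne ho) (by linear_combination ht + z1)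
          rw [← z1, z0, z2] at hd
          rcases mul_self_eq_one_iff.1 (show z.1 1 0 * z.1 1 0 = 1 by linear_combination hd) with e | e
          · exact Or.inr (Or.inr (Or.inl (ext2 (by simp [z0]) (by simp [z2, e]) (by simp [e]) (by simp [← z1, z0]))))
          · exact Or.inr (Or.inr (Or.inr (ext2 (by simp [z0]) (by simp [z2, e]) (by simp [e]) (by simp [← z1, z0]))))
      have h1 := Set.ncard_le_ncard hsub (Set.toFinite _)
      rw [← Nat.card_coe_set_eq] at h1
      change Nat.card A ≤ _ at h1
      have h3 : ({1, -1, J, -J} : Set L).ncard ≤ 4 := by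
        classical
        have := Finset.card_le_four (a := (1 : L)) (b := -1) (c := J) (d := -J)
        rw [← Set.ncard_coe_finset] at this
        simpa using this
      omega
    have hbC := (Subgroup.mem_inf.1 hbA).2
    have hbns : ¬ ∃ e : F, (b : Matrix (Fin 2) (Fin 2) F) = e • (1 : Matrix (Fin 2) (Fin 2) F) := by
      intro h
      rcases CfsgLib.Dickson.scalar_cases h with e | e <;> exact hb.2 (by rw [e]; simp)
    have hself : Subgroup.normalizer ((T' : Subgroup L) : Set L) = (T' : Subgroup L) := by
      refine le_antisymm (fun y hy => ?_) Subgroup.le_normalizer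
      have hyb : y * b * y⁻¹ ∈ (T' : Subgroup L) := (Subgroup.mem_normalizer_iff.1 hy b).1 (Subgroup.mem_inf.1 hbA).1
      have hybC : y * b * y⁻¹ ∈ cent (J : L) := by
        by_contra hcon
        have h1 := hout _ hyb hcon
        rw [show y * b * y⁻¹ * (y * b * y⁻¹) = y * (b * b) * y⁻¹ by group] at h1
        exact hb.1 (by
          rw [show b * b = y⁻¹ * (y * (b * b) * y⁻¹) * y by group, h1]
          simp)
      have hyN : y ∈ N := by
        have hgb : tr b ^ 2 ≠ 4 := fun h4 => by
          obtain ⟨e, he, hte⟩ := exists_unip_cases h4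
          have hrot := hcJ ▸ hbC
          have h0 : (b.1 0 0 - e) * (b.1 0 0 - e) + b.1 1 0 * b.1 1 0 = 0 := by
            have hd := CfsgLib.PSL2Two.entries b
            rw [← hrot.1, hrot.2] at hd
            rw [tr, Matrix.trace_fin_two, ← hrot.1] at hte
            have h00 : b.1 0 0 = e := mul_left_cancel₀ (two_ne ho) (by linear_combination hte)
            rw [h00] at hd ⊢
            linear_combination hd - he
          have h00 : b.1 0 0 = e := by
            rw [tr, Matrix.trace_fin_two, ← hrot.1] at hte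
            exact mul_left_cancel₀ (two_ne ho) (by linear_combination hte)
          rw [h00, sub_self, mul_zero, zero_add] at h0
          refine hbns ⟨e, ?_⟩
          ext i j
          fin_cases i <;> fin_cases j <;> simp [h00, hrot.2, mul_self_eq_zero.1 h0, ← hrot.1]
        rcases eq_or_inv_of_tr hgb (by rw [cent_eq (ne_scalar hg) hbC hbns]; exact hybC) (tr_conj b y) with h | h
        · refine Subgroup.le_normalizer ?_
          rw [← cent_eq (ne_scalar hg) hbC hbns]
          exact mem_cent.2 (mul_inv_eq_iff_eq_mul.1 h).symm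
        · rw [hN, ← cent_eq (ne_scalar hg) hbC hbns]
          exact inverter_mem_normalizer hgb h
      have hinC : ∀ z ∈ cent (J : L), z ∈ Subgroup.normalizer ((T' : Subgroup L) : Set L) → z ∈ (T' : Subgroup L) := by
        intro z hzC hzn
        have h1 : z * x * z⁻¹ ∈ (T' : Subgroup L) := (Subgroup.mem_normalizer_iff.1 hzn x).1 hxT
        have h2 : z * x * z⁻¹ * x⁻¹ ∈ (T' : Subgroup L) := mul_mem h1 (inv_mem hxT)
        have h3 := hinv z hzC
        have h4 : z * x * z⁻¹ * x⁻¹ = z * z := by
          rw [show z * x * z⁻¹ * x⁻¹ = z * (x * z * x⁻¹)⁻¹ by group, h3, inv_inv]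
        rw [h4] at h2
        have hpg : IsPGroup 2 ↥((T' : Subgroup L) ⊔ Subgroup.zpowers z) := by
          refine T'.2.to_sup_of_normal_left' ?_ (Subgroup.zpowers_le.mpr hzn)
          intro w
          obtain ⟨k, hk⟩ := T'.2 ⟨z * z, h2⟩
          have hk' : (z * z) ^ 2 ^ k = 1 := congrArg Subtype.val hk
          obtain ⟨i, hi⟩ := Subgroup.mem_zpowers_iff.1 w.2
          refine ⟨k + 1, Subtype.ext ?_⟩
          have hz2 : z ^ (2 ^ (k + 1)) = 1 := by rw [pow_succ', pow_mul, sq]; exact hk'
          rw [SubmonoidClass.coe_pow, ← hi, ← zpow_natCast, ← zpow_mul, mul_comm, zpow_mul, zpow_natCast, hz2,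
            _root_.one_zpow]
          rfl
        rw [← T'.is_maximal' hpg le_sup_left]
        exact Subgroup.mem_sup_right (Subgroup.mem_zpowers _)
      by_cases hyC : y ∈ cent (J : L)
      · exact hinC y hyC hy
      · have hyx : y * x ∈ (T' : Subgroup L) := by
          refine hinC _ ?_ (mul_mem hy (Subgroup.le_normalizer hxT))
          rw [mem_cent]
          have e1 := outside_inverts hg hyN hyC (inv_mem (self_mem_cent (J : L)))
          rw [inv_inv] at e1
          have e2 := hinv _ (self_mem_cent (J : L))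
          calc J * (y * x) = y * J⁻¹ * y⁻¹ * (y * x) := by rw [e1]
            _ = y * (x * J * x⁻¹) * x := by rw [e2]; group
            _ = y * x * J := by group
        simpa using mul_mem hyx (inv_mem hxT)
    rw [hS, ← Subgroup.map_equiv_normalizer_eq, hself]
  · intro h8
    -- the image in `PSL₂` is a four group
    have hm2 : m % 2 = 1 := by
      by_contra h
      exact h8 (by rw [hm]; omega)
    have hcard8 : Nat.card (T' : Subgroup L) = 8 := by
      rw [hcardT', hL, Nat.factorization_mul (mul_ne_zero (mul_ne_zero (show (8 : ℕ) ≠ 0 by norm_num) (show m ≠ 0 by omega)) (show r ≠ 0 by omega)) Fintype.card_ne_zero,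
        Nat.factorization_mul (mul_ne_zero (show (8 : ℕ) ≠ 0 by norm_num) (show m ≠ 0 by omega)) (by omega), Nat.factorization_mul (by norm_num) (by omega),
        Finsupp.add_apply, Finsupp.add_apply, Finsupp.add_apply,
        Nat.factorization_eq_zero_of_not_dvd (show ¬ 2 ∣ Fintype.card F by omega),
        Nat.factorization_eq_zero_of_not_dvd (show ¬ 2 ∣ r by omega),
        Nat.factorization_eq_zero_of_not_dvd (show ¬ 2 ∣ m by omega), show (8 : ℕ) = 2 ^ 3 from rfl,
        Nat.prime_two.factorization_pow]
      simp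
    obtain ⟨hV, hx0, hy0, -, -, -⟩ := four_isKlein ho (one_mem (rot F))
    set V := four ho (1 : L)
    set W := V.comap (π (F := F)) with hW
    have hWcard : Nat.card W = 8 := by
      have hmap : W.map π = V := Subgroup.map_comap_eq_self_of_surjective π_surj V
      have h := card_map_π (H := W) (by
        show π (-1 : L) ∈ V
        rw [(π_eq_one _).2 (Or.inr rfl)]; exact one_mem _)
      rw [hmap, gcd_eq_two_of_two_ne (CfsgLib.PSL2Two.two_ne ho), hV.card_four] at h
      omega
    let W' : Sylow 2 L := Sylow.ofCard W (by rw [hWcard, ← hcard8, hcardT'])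
    obtain ⟨d, hd⟩ := MulAction.exists_smul_eq L W' S
    have hSW : (S : Subgroup L) = W.map (MulAut.conj d).toMonoidHom := by rw [← hd]; rfl
    have hNV : Nat.card (Subgroup.normalizer (V : Set (Matrix.ProjectiveSpecialLinearGroup (Fin 2) F))) = 12 := by
      obtain ⟨-, h⟩ := normalizer_four ho (one_mem (rot F))
      rcases h with ⟨-, h⟩ | ⟨h, -⟩
      · exact h
      · exact absurd h h8
    have hNW : Subgroup.normalizer (W : Set L) = (Subgroup.normalizer (V : Set (Matrix.ProjectiveSpecialLinearGroup (Fin 2) F))).comap π :=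
      (Subgroup.comap_normalizer_eq_of_surjective V π_surj).symm
    have hcardN : Nat.card (Subgroup.normalizer (W : Set L)) = 24 := by
      have h := card_map_π (H := Subgroup.normalizer (W : Set L))
        ((Subgroup.centralizer_le_normalizer _) (Subgroup.mem_centralizer_iff.mpr fun y _ => by simp))
      rw [hNW, Subgroup.map_comap_eq_self_of_surjective π_surj, gcd_eq_two_of_two_ne (CfsgLib.PSL2Two.two_ne ho), hNV] at h
      rw [hNW]; omega
    show Nat.card (Subgroup.normalizer ((S : Subgroup L) : Set L)) = 3 * Nat.card (S : Subgroup L)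
    rw [hSW, ← Subgroup.map_equiv_normalizer_eq, Subgroup.card_map_of_injective (MulAut.conj d).injective,
      Subgroup.card_map_of_injective (MulAut.conj d).injective, hcardN, hWcard]

/-- Let F be a finite field with q elements, q odd, and S a Sylow 2-subgroup of SL₂ over F. The centraliser of S is the centre of SL₂ (of order 2); S is its own normaliser when q ≡ ±1 mod 8, and has index 3 in its normaliser when q ≡ ±3 mod 8. -/
theorem result {F : Type*} [Field F] [Fintype F] (hodd : Odd (Fintype.card F)) (S : Sylow 2 (Matrix.SpecialLinearGroup (Fin 2) F)) :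
    Subgroup.centralizer ((S : Subgroup (Matrix.SpecialLinearGroup (Fin 2) F)) : Set (Matrix.SpecialLinearGroup (Fin 2) F)) = Subgroup.center (Matrix.SpecialLinearGroup (Fin 2) F) ∧
    ((Fintype.card F % 8 = 1 ∨ Fintype.card F % 8 = 7) →
      Subgroup.normalizer ((S : Subgroup (Matrix.SpecialLinearGroup (Fin 2) F)) : Set (Matrix.SpecialLinearGroup (Fin 2) F)) = (S : Subgroup (Matrix.SpecialLinearGroup (Fin 2) F))) ∧
    ((Fintype.card F % 8 = 3 ∨ Fintype.card F % 8 = 5) →
      Nat.card (Subgroup.normalizer ((S : Subgroup (Matrix.SpecialLinearGroup (Fin 2) F)) : Set (Matrix.SpecialLinearGroup (Fin 2) F))) = 3 * Nat.card S) := by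
  have ho : Fintype.card F % 2 = 1 := Nat.odd_iff.1 hodd
  obtain ⟨h1, h2, h3⟩ := main ho S
  have h8 := CfsgLib.PSL2Klein.eight_dvd_rot_iff ho
  exact ⟨h1, fun h => h2 (h8.2 h), fun h => h3 (fun h' => by have := h8.1 h'; omega)⟩

end Cfsg.Agent.S2431
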