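import Cfsg.Statements.S2433
import Cfsg.Agent.Lib.SL2Borel.Induced

set_option autoImplicit false
open Cfsg

namespace Cfsg.Agent.S2433

/-- Let F be a finite field with q elements, q odd, α a multiplicative character of F, and R(α) the function on SL₂ induced from the linear character b ↦ α(b₁₁) of the upper triangular subgroup. Then R(α) takes the value α(a) + α(a⁻¹) at a diagonal element with entries a, a⁻¹, a² ≠ 1; the value 0 at every element with no eigenvector in F²; the value α(ε) at an upper triangular element with both diagonal entries ε and non-zero upper right entry; and the value (q + 1)α(ε) at the scalar element ε (ε = ±1). -/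
theorem result {F : Type*} [Field F] [Fintype F] [DecidableEq F] (hodd : Odd (Fintype.card F)) (α : MulChar F ℂ) (g : Matrix.SpecialLinearGroup (Fin 2) F) :
    ((g : Matrix (Fin 2) (Fin 2) F) 0 1 = 0 → (g : Matrix (Fin 2) (Fin 2) F) 1 0 = 0 → (g : Matrix (Fin 2) (Fin 2) F) 0 0 ^ 2 ≠ 1 →
      (Cfsg.indFun ((Cfsg.upperTriangularGL 2 F).comap Matrix.SpecialLinearGroup.toGL) (fun b => α (((b : Matrix.SpecialLinearGroup (Fin 2) F) : Matrix (Fin 2) (Fin 2) F) 0 0))) g = α ((g : Matrix (Fin 2) (Fin 2) F) 0 0) + α ((g : Matrix (Fin 2) (Fin 2) F) 1 1)) ∧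
    ((∀ (c : F) (v : Fin 2 → F), v ≠ 0 → (g : Matrix (Fin 2) (Fin 2) F).mulVec v ≠ c • v) → (Cfsg.indFun ((Cfsg.upperTriangularGL 2 F).comap Matrix.SpecialLinearGroup.toGL) (fun b => α (((b : Matrix.SpecialLinearGroup (Fin 2) F) : Matrix (Fin 2) (Fin 2) F) 0 0))) g = 0) ∧
    ((g : Matrix (Fin 2) (Fin 2) F) 1 0 = 0 → (g : Matrix (Fin 2) (Fin 2) F) 0 0 = (g : Matrix (Fin 2) (Fin 2) F) 1 1 → (g : Matrix (Fin 2) (Fin 2) F) 0 1 ≠ 0 →
      (Cfsg.indFun ((Cfsg.upperTriangularGL 2 F).comap Matrix.SpecialLinearGroup.toGL) (fun b => α (((b : Matrix.SpecialLinearGroup (Fin 2) F) : Matrix (Fin 2) (Fin 2) F) 0 0))) g = α ((g : Matrix (Fin 2) (Fin 2) F) 0 0)) ∧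
    ((g : Matrix (Fin 2) (Fin 2) F) 0 1 = 0 → (g : Matrix (Fin 2) (Fin 2) F) 1 0 = 0 → (g : Matrix (Fin 2) (Fin 2) F) 0 0 = (g : Matrix (Fin 2) (Fin 2) F) 1 1 →
      (Cfsg.indFun ((Cfsg.upperTriangularGL 2 F).comap Matrix.SpecialLinearGroup.toGL) (fun b => α (((b : Matrix.SpecialLinearGroup (Fin 2) F) : Matrix (Fin 2) (Fin 2) F) 0 0))) g = ((Fintype.card F : ℂ) + 1) * α ((g : Matrix (Fin 2) (Fin 2) F) 0 0)) := by
  rw [CfsgLib.SL2Borel.indFun_eq α g]
  have hd := CfsgLib.SL2Borel.det_eq g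
  refine ⟨?_, ?_, ?_, ?_⟩
  · intro h01 h10 hne
    have hab : (g : Matrix (Fin 2) (Fin 2) F) 1 1 - (g : Matrix (Fin 2) (Fin 2) F) 0 0 ≠ 0 := by
      intro h
      rw [h01, zero_mul, sub_zero, sub_eq_zero.mp h] at hd
      exact hne (by rw [sq]; exact hd)
    rw [if_pos h10, Finset.sum_eq_single (0 : F)]
    · simp [h01, h10]
    · intro x _ hx
      rw [if_neg]
      simp [h01, h10, hab, hx]
    · simp
  · intro hno
    rw [if_neg, Finset.sum_eq_zero, add_zero]
    · intro x _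
      rw [if_neg]
      intro hx
      refine hno ((g : Matrix (Fin 2) (Fin 2) F) 1 0 * x + (g : Matrix (Fin 2) (Fin 2) F) 1 1) ![x, 1] (by simp) ?_
      funext i
      fin_cases i <;> simp [Matrix.mulVec, dotProduct, Fin.sum_univ_two]
      linear_combination (-1 : F) * hx
    · intro h10
      refine hno ((g : Matrix (Fin 2) (Fin 2) F) 0 0) ![1, 0] (by simp) ?_
      funext i
      fin_cases i <;> simp [Matrix.mulVec, dotProduct, Fin.sum_univ_two, h10]
  · intro h10 heq h01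
    rw [if_pos h10, Finset.sum_eq_zero, add_zero]
    intro x _
    rw [if_neg]
    simp [h10, heq, h01]
  · intro h01 h10 heq
    rw [if_pos h10, Finset.sum_congr rfl (g := fun _ : F => α ((g : Matrix (Fin 2) (Fin 2) F) 0 0)) (fun x _ => by
      rw [if_pos (by simp [h01, h10, heq]), h10, zero_mul, zero_add, ← heq]), Finset.sum_const, Finset.card_univ, nsmul_eq_mul]
    ring

end Cfsg.Agent.S2433
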