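import Cfsg.Statements.S2434
import Cfsg.Agent.Lib.SL2Borel.Cusp
import Cfsg.Agent.S2322

set_option autoImplicit false
open Cfsg

namespace CfsgLib.SL2CuspParam
section
open Matrix CfsgLib.Chars CfsgLib.SL2Torus CfsgLib.SL2Borel

variable {F : Type*} [Field F] [Fintype F] [DecidableEq F]

/-- The data of a character of degree `q - 1` under a cuspidal character. -/
def Good (ψ : Cfsg.IrrCharacter (Matrix.SpecialLinearGroup (Fin 2) F)) : Prop :=
  ∃ (X : Cfsg.IrrCharacter (Matrix.GeneralLinearGroup (Fin 2) F)) (Y : Finset (Matrix.GeneralLinearGroup (Fin 2) F)),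
    Y.card = 1 ∧ Cfsg.charDegree (X : Matrix.GeneralLinearGroup (Fin 2) F → ℂ) = Fintype.card F - 1 ∧
    Cfsg.charDegree (ψ : Matrix.SpecialLinearGroup (Fin 2) F → ℂ) = Fintype.card F - 1 ∧
    Cfsg.classInner (fun g : Matrix.SpecialLinearGroup (Fin 2) F => (X : Matrix.GeneralLinearGroup (Fin 2) F → ℂ) (Matrix.SpecialLinearGroup.toGL g))
      (fun g : Matrix.SpecialLinearGroup (Fin 2) F => (X : Matrix.GeneralLinearGroup (Fin 2) F → ℂ) (Matrix.SpecialLinearGroup.toGL g)) = (Y.card : ℂ) ∧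
    ∀ g : Matrix.SpecialLinearGroup (Fin 2) F, (X : Matrix.GeneralLinearGroup (Fin 2) F → ℂ) (Matrix.SpecialLinearGroup.toGL g) =
      ∑ y ∈ Y, (ψ : Matrix.SpecialLinearGroup (Fin 2) F → ℂ) (cg y g)

theorem good_of_five (hq : 5 ≤ Fintype.card F) (ψ : Cfsg.IrrCharacter (Matrix.SpecialLinearGroup (Fin 2) F))
    (h : Cfsg.charDegree (ψ : Matrix.SpecialLinearGroup (Fin 2) F → ℂ) = Fintype.card F - 1) : Good ψ := by
  obtain ⟨X, Y, h12, -, hd, hn, hY⟩ := exists_over ψ
  have hcases := (CfsgLib.GL2Borel.degrees (F := F)).1 X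
  rw [h] at hd
  rcases h12 with c | c
  · exact ⟨X, Y, c, by rw [hd, c, one_mul], h, hn, hY⟩
  · rw [c] at hd; rcases hcases with e | e | e | e <;> omega

open Classical in
theorem exists_good_three (hq : Fintype.card F = 3) :
    ∃ ψ : Cfsg.IrrCharacter (Matrix.SpecialLinearGroup (Fin 2) F), Good ψ := by
  classical
  haveI : Finite (Cfsg.IrrCharacter (Matrix.SpecialLinearGroup (Fin 2) F)) := finite_irr _
  have h3 : (3 : F) = 0 := by
    have := FiniteField.cast_card_eq_zero F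
    rw [hq] at this
    exact_mod_cast this
  by_contra hcon
  push Not at hcon
  set d := fun χ : Cfsg.IrrCharacter (Matrix.SpecialLinearGroup (Fin 2) F) =>
    Cfsg.charDegree (χ : Matrix.SpecialLinearGroup (Fin 2) F → ℂ) with hdd
  set P := Finset.univ.filter fun χ : Cfsg.IrrCharacter (Matrix.SpecialLinearGroup (Fin 2) F) =>
    ¬ (χ : Matrix.SpecialLinearGroup (Fin 2) F → ℂ) negOne = (d χ : ℂ) with hP
  have h1 := sum_deg_sq (G := Matrix.SpecialLinearGroup (Fin 2) F)
  rw [card_SL2, hq] at h1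
  have hne : (negOne : Matrix.SpecialLinearGroup (Fin 2) F) ≠ 1 := fun h => by
    have h00 := congrFun (congrFun (congrArg Subtype.val h) 0) 0
    simp [negOne] at h00
    exact one_ne_zero (α := F) (by linear_combination h3 + h00)
  have h2 := sum_deg_mul (G := Matrix.SpecialLinearGroup (Fin 2) F) negOne
  rw [if_neg hne] at h2
  have h5 : ∑ χ ∈ P, d χ ^ 2 = 12 := by
    have h3' : ∑ χ : Cfsg.IrrCharacter (Matrix.SpecialLinearGroup (Fin 2) F),
        ((if ¬ (χ : Matrix.SpecialLinearGroup (Fin 2) F → ℂ) negOne = (d χ : ℂ) then 2 * d χ ^ 2 else 0 : ℕ) : ℂ) =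
        ∑ χ : Cfsg.IrrCharacter (Matrix.SpecialLinearGroup (Fin 2) F),
          ((d χ : ℂ) ^ 2 - (d χ : ℂ) * (χ : Matrix.SpecialLinearGroup (Fin 2) F → ℂ) negOne) := by
      refine Finset.sum_congr rfl fun χ _ => ?_
      split_ifs with hc
      · rw [hc]; push_cast; ring
      · rw [(at_negOne χ).resolve_left hc]; push_cast; ring
    have h2' : ∑ χ : Cfsg.IrrCharacter (Matrix.SpecialLinearGroup (Fin 2) F),
        (d χ : ℂ) * (χ : Matrix.SpecialLinearGroup (Fin 2) F → ℂ) negOne = 0 := by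
      refine Eq.trans (Finset.sum_congr rfl fun χ _ => ?_) h2
      rw [irr_apply_one]
    rw [Finset.sum_sub_distrib, h2', sub_zero, ← Nat.cast_sum, ← Finset.sum_filter, ← hP, ← Finset.mul_sum] at h3'
    have h4 : ((2 * ∑ χ ∈ P, d χ ^ 2 : ℕ) : ℂ) = ((3 * (3 ^ 2 - 1) : ℕ) : ℂ) := by
      rw [← h1, h3']; simp only [Nat.cast_sum, Nat.cast_pow, hdd]
    have h4' : 2 * ∑ χ ∈ P, d χ ^ 2 = 3 * (3 ^ 2 - 1) := by exact_mod_cast h4
    norm_num at h4'
    omega
  have hlin : ∀ χ : Cfsg.IrrCharacter (Matrix.SpecialLinearGroup (Fin 2) F), d χ = 1 →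
      (χ : Matrix.SpecialLinearGroup (Fin 2) F → ℂ) negOne = (d χ : ℂ) := by
    intro χ hχ
    obtain ⟨f, hf⟩ := exists_homIrr χ hχ
    let w : Matrix.SpecialLinearGroup (Fin 2) F := ⟨!![0, -1; 1, 0], by simp [Matrix.det_fin_two]⟩
    have hww : w * w = negOne := Subtype.ext (by
      rw [Matrix.SpecialLinearGroup.coe_mul]
      ext i j; fin_cases i <;> fin_cases j <;> simp [w, negOne, Matrix.mul_apply, Fin.sum_univ_two])
    have htr : tr w ^ 2 ≠ 4 := by
      have e : tr w = 0 := by simp [tr, w, Matrix.trace_fin_two]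
      rw [e, zero_pow two_ne_zero]
      intro h
      exact one_ne_zero (α := F) (by linear_combination -h - h3)
    obtain ⟨c, hc⟩ := isConj_iff.1 (isConj_of_tr htr (tr_inv w).symm)
    have hfw : f w = f w⁻¹ := by rw [← hc, map_mul, map_mul, map_inv, mul_comm (f c) (f w), mul_inv_cancel_right]
    have e : f negOne = 1 := by
      rw [← hww, map_mul]
      nth_rewrite 1 [hfw]
      rw [map_inv, inv_mul_cancel]
    rw [hχ, ← hf, Nat.cast_one]
    show (f negOne).val = 1
    rw [e, Units.val_one]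
  have hd2 : ∀ χ ∈ P, d χ = 2 := by
    intro χ hχ
    have hn := (Finset.mem_filter.1 hχ).2
    have hle : d χ ^ 2 ≤ 12 := by
      rw [← h5]; exact Finset.single_le_sum (f := fun χ => d χ ^ 2) (fun i _ => Nat.zero_le _) hχ
    have hpos : 0 < d χ := charDegree_pos χ
    have hle3 : d χ ≤ 3 := by
      by_contra hc
      have : 4 ^ 2 ≤ d χ ^ 2 := Nat.pow_le_pow_left (by omega) 2
      omega
    have hne1 : d χ ≠ 1 := fun e => hn (hlin χ e)
    have hne3 : d χ ≠ 3 := fun e => by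
      obtain ⟨St, hSt, hval⟩ := exists_deg_card (F := F)
      have hχS := deg_card_unique χ St (e.trans hq.symm) hSt
      subst hχS
      apply hn
      show _ = ((Cfsg.charDegree (χ : Matrix.SpecialLinearGroup (Fin 2) F → ℂ) : ℕ) : ℂ)
      rw [hval, CfsgLib.GL2Borel.indFun_eq, hSt, toGL_coe]
      have e' : ((negOne : Matrix.SpecialLinearGroup (Fin 2) F) : Matrix (Fin 2) (Fin 2) F) = -1 := rfl
      simp [e', MulChar.one_apply]
    omega
  have hcard : P.card = 3 := by
    rw [Finset.sum_congr rfl (g := fun _ => 2 ^ 2) (fun χ h => by rw [hd2 χ h]), Finset.sum_const, smul_eq_mul] at h5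
    omega
  -- all three lie under the principal series character
  obtain ⟨ψ₀, hψ₀⟩ : P.Nonempty := Finset.card_pos.1 (by omega)
  have hover : ∀ χ ∈ P, ∃ (X : Cfsg.IrrCharacter (Matrix.GeneralLinearGroup (Fin 2) F)) (Y : Finset (Matrix.GeneralLinearGroup (Fin 2) F)),
      Y.card = 2 ∧ Cfsg.charDegree (X : Matrix.GeneralLinearGroup (Fin 2) F → ℂ) = 4 ∧
      Cfsg.classInner (fun g : Matrix.SpecialLinearGroup (Fin 2) F => (X : Matrix.GeneralLinearGroup (Fin 2) F → ℂ) (Matrix.SpecialLinearGroup.toGL g))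
        (fun g : Matrix.SpecialLinearGroup (Fin 2) F => (X : Matrix.GeneralLinearGroup (Fin 2) F → ℂ) (Matrix.SpecialLinearGroup.toGL g)) = 2 ∧
      ∀ g : Matrix.SpecialLinearGroup (Fin 2) F, (X : Matrix.GeneralLinearGroup (Fin 2) F → ℂ) (Matrix.SpecialLinearGroup.toGL g) =
        ∑ y ∈ Y, (χ : Matrix.SpecialLinearGroup (Fin 2) F → ℂ) (cg y g) := by
    intro χ hχ
    obtain ⟨X, Y, h12, -, hd, hn, hY⟩ := exists_over χ
    have hdχ : Cfsg.charDegree (χ : Matrix.SpecialLinearGroup (Fin 2) F → ℂ) = 2 := hd2 χ hχ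
    rw [hdχ] at hd
    rcases h12 with c | c
    · exact absurd ⟨X, Y, c, by rw [hd, c, hq], by rw [hdχ, hq], hn, hY⟩ (hcon χ)
    · exact ⟨X, Y, c, by rw [hd, c], by rw [hn, c, Nat.cast_ofNat], hY⟩
  obtain ⟨X, Y, -, hX, hn, -⟩ := hover ψ₀ hψ₀
  set R := fun g : Matrix.SpecialLinearGroup (Fin 2) F =>
    (X : Matrix.GeneralLinearGroup (Fin 2) F → ℂ) (Matrix.SpecialLinearGroup.toGL g) with hR
  have huniq : ∀ X' : Cfsg.IrrCharacter (Matrix.GeneralLinearGroup (Fin 2) F),
      Cfsg.charDegree (X' : Matrix.GeneralLinearGroup (Fin 2) F → ℂ) = 4 → X' = X := by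
    intro X' hX'
    haveI : Finite (Cfsg.IrrCharacter (Matrix.GeneralLinearGroup (Fin 2) F)) := finite_irr _
    have h := ((CfsgLib.GL2Borel.degrees (F := F)).2 (by omega)).2.2.1
    rw [hq] at h
    obtain ⟨hs, -⟩ := Nat.card_eq_one_iff_unique.1 h
    exact congrArg Subtype.val (Subsingleton.elim (⟨X', hX'⟩ : {χ : Cfsg.IrrCharacter (Matrix.GeneralLinearGroup (Fin 2) F) //
      Cfsg.charDegree (χ : Matrix.GeneralLinearGroup (Fin 2) F → ℂ) = 3 + 1}) ⟨X, hX⟩)
  have hRchar : Cfsg.IsCharacter (Matrix.SpecialLinearGroup (Fin 2) F) R := by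
    obtain ⟨n, ρ, hρ⟩ := isCharacter_irr X
    exact ⟨n, ρ.comp Matrix.SpecialLinearGroup.toGL, by simp only [hR]; rw [← hρ]; rfl⟩
  choose m hm using exists_mult hRchar
  have hsq : ∑ χ : Cfsg.IrrCharacter (Matrix.SpecialLinearGroup (Fin 2) F), m χ * m χ = 2 := by
    have h1 : Cfsg.classInner R R = ∑ χ : Cfsg.IrrCharacter (Matrix.SpecialLinearGroup (Fin 2) F),
        (m χ : ℂ) * Cfsg.classInner (χ : Matrix.SpecialLinearGroup (Fin 2) F → ℂ) R := by
      have hexp : ∀ x, R x = ∑ χ : Cfsg.IrrCharacter (Matrix.SpecialLinearGroup (Fin 2) F),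
          (m χ : ℂ) * (χ : Matrix.SpecialLinearGroup (Fin 2) F → ℂ) x := fun x => by
        rw [classFunction_expand (IsCharacter.isClassFunction hRchar) x]; simp only [hm]
      conv_lhs => arg 1; rw [funext hexp]
      exact classInner_sum _ _ _ _
    have h2 : ∀ χ : Cfsg.IrrCharacter (Matrix.SpecialLinearGroup (Fin 2) F),
        Cfsg.classInner (χ : Matrix.SpecialLinearGroup (Fin 2) F → ℂ) R = (m χ : ℂ) := fun χ => by
      rw [classInner_symm, hm, map_natCast]
    simp only [h2] at h1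
    rw [hR] at h1
    rw [hn] at h1
    exact_mod_cast h1.symm
  have hpos : ∀ χ ∈ P, 1 ≤ m χ := by
    intro χ hχ
    obtain ⟨X', Y', hY2, hX', -, hY'⟩ := hover χ hχ
    obtain rfl := huniq X' hX'
    obtain ⟨y, y', hyy, hYeq⟩ := Finset.card_eq_two.1 hY2
    let χy : Cfsg.IrrCharacter (Matrix.SpecialLinearGroup (Fin 2) F) :=
      ⟨fun g => (χ : Matrix.SpecialLinearGroup (Fin 2) F → ℂ) (cg y g), IsIrrCharacter.comp χ.2 (cg y).toMonoidHom (cg y).surjective⟩
    let χy' : Cfsg.IrrCharacter (Matrix.SpecialLinearGroup (Fin 2) F) :=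
      ⟨fun g => (χ : Matrix.SpecialLinearGroup (Fin 2) F → ℂ) (cg y' g), IsIrrCharacter.comp χ.2 (cg y').toMonoidHom (cg y').surjective⟩
    have e1 : Cfsg.classInner R (χy : Matrix.SpecialLinearGroup (Fin 2) F → ℂ) = (1 : ℂ) + if χy' = χy then 1 else 0 := by
      have hs : R = fun g => (χy : Matrix.SpecialLinearGroup (Fin 2) F → ℂ) g + (χy' : Matrix.SpecialLinearGroup (Fin 2) F → ℂ) g :=
        funext fun g => by
          show (X' : Matrix.GeneralLinearGroup (Fin 2) F → ℂ) _ = _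
          rw [hY' g, hYeq, Finset.sum_pair hyy]
      rw [hs]
      have h1 := classInner_irr χy χy
      have h2 := classInner_irr χy' χy
      rw [if_pos rfl] at h1
      simp only [Cfsg.classInner, add_mul, Finset.sum_add_distrib, mul_add] at h1 h2 ⊢
      rw [h1, h2]
    have e2 : Cfsg.classInner R (χy : Matrix.SpecialLinearGroup (Fin 2) F → ℂ) =
        Cfsg.classInner R (χ : Matrix.SpecialLinearGroup (Fin 2) F → ℂ) := by
      simp only [Cfsg.classInner]
      congr 1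
      refine Fintype.sum_equiv (cg y).toEquiv _ _ fun g => ?_
      have hinv : R (cg y g) = R g := by
        simp only [hR]
        rw [toGL_cg]
        exact IsCharacter.isClassFunction (isCharacter_irr X') _ y
      show R g * _ = R (cg y g) * _
      rw [hinv]
      rfl
    rw [e2, hm] at e1
    by_contra hc
    rw [show m χ = 0 by omega, Nat.cast_zero] at e1
    split_ifs at e1 <;> norm_num at e1
  have := Finset.sum_le_sum (s := P) (f := fun _ => 1) (g := fun χ => m χ * m χ) (fun χ h => Nat.mul_pos (hpos χ h) (hpos χ h))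
  rw [Finset.sum_const, smul_eq_mul, mul_one, hcard] at this
  have h6 := Finset.sum_le_univ_sum_of_nonneg (s := P) (f := fun χ => m χ * m χ) (fun _ => Nat.zero_le _)
  omega

end
end CfsgLib.SL2CuspParam

namespace Cfsg.Agent.S2434

/-- Let F be a finite field with q elements, q odd, and C a cyclic subgroup of order q + 1 of SL₂ over F (a non-split torus; it contains the centre). For every homomorphism θ from C to the non-zero complex numbers with θ² ≠ 1 there is an irreducible complex character χ of degree q − 1 such that χ(c) = −θ(c) − θ(c)⁻¹ for every non-central c in C, χ(zg) = θ(z)χ(g) for central z in C, χ vanishes at diagonal elements with entry a, a² ≠ 1, and χ takes the value −1 at every upper unitriangular element other than 1. Conversely every irreducible character of degree q − 1 has, for some such θ, the values −θ(c) − θ(c)⁻¹ at the non-central elements c of C (for q ≥ 5 these are exactly the cuspidal characters of degree q − 1).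 -/
theorem result {F : Type*} [Field F] [Fintype F] (hodd : Odd (Fintype.card F))
    (C : Subgroup (Matrix.SpecialLinearGroup (Fin 2) F)) (hC : IsCyclic C) (hcard : Nat.card C = Fintype.card F + 1) :
    (∀ θ : C →* ℂˣ, (∃ c : C, θ c ^ 2 ≠ 1) →
      ∃ χ : Matrix.SpecialLinearGroup (Fin 2) F → ℂ, Cfsg.IsIrrCharacter (Matrix.SpecialLinearGroup (Fin 2) F) χ ∧ χ 1 = (Fintype.card F : ℂ) - 1 ∧
        (∀ c : C, (c : Matrix.SpecialLinearGroup (Fin 2) F) ∉ Subgroup.center (Matrix.SpecialLinearGroup (Fin 2) F) → χ c = -((θ c).val + (θ c)⁻¹.val)) ∧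
        (∀ c : C, (c : Matrix.SpecialLinearGroup (Fin 2) F) ∈ Subgroup.center (Matrix.SpecialLinearGroup (Fin 2) F) → ∀ g : Matrix.SpecialLinearGroup (Fin 2) F, χ ((c : Matrix.SpecialLinearGroup (Fin 2) F) * g) = (θ c).val * χ g) ∧
        (∀ g : Matrix.SpecialLinearGroup (Fin 2) F, (g : Matrix (Fin 2) (Fin 2) F) 0 1 = 0 → (g : Matrix (Fin 2) (Fin 2) F) 1 0 = 0 → (g : Matrix (Fin 2) (Fin 2) F) 0 0 ^ 2 ≠ 1 → χ g = 0) ∧
        (∀ g : Matrix.SpecialLinearGroup (Fin 2) F, (g : Matrix (Fin 2) (Fin 2) F) 1 0 = 0 → (g : Matrix (Fin 2) (Fin 2) F) 0 0 = 1 → (g : Matrix (Fin 2) (Fin 2) F) 1 1 = 1 → (g : Matrix (Fin 2) (Fin 2) F) 0 1 ≠ 0 → χ g = -1)) ∧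
    (∀ χ : Matrix.SpecialLinearGroup (Fin 2) F → ℂ, Cfsg.IsIrrCharacter (Matrix.SpecialLinearGroup (Fin 2) F) χ → χ 1 = (Fintype.card F : ℂ) - 1 →
      ∃ θ : C →* ℂˣ, (∃ c : C, θ c ^ 2 ≠ 1) ∧
        ∀ c : C, (c : Matrix.SpecialLinearGroup (Fin 2) F) ∉ Subgroup.center (Matrix.SpecialLinearGroup (Fin 2) F) → χ c = -((θ c).val + (θ c)⁻¹.val)) := by
  classical
  haveI : Fintype C := Fintype.ofFinite _
  haveI : Finite (Cfsg.IrrCharacter (Matrix.SpecialLinearGroup (Fin 2) F)) := CfsgLib.Chars.finite_irr _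
  obtain ⟨m, hm⟩ := hodd
  have hq3 : 3 ≤ Fintype.card F := by have := Fintype.one_lt_card (α := F); omega
  have h2 : (2 : F) ≠ 0 := Ring.two_ne_zero (fun h => by
    have := FiniteField.even_card_iff_char_two.1 h
    omega)
  have hT := CfsgLib.SL2Borel.nonSplitTorus ⟨m, hm⟩ C hC hcard
  have hcz : ∀ c : C, CfsgLib.SL2Torus.tr (c : Matrix.SpecialLinearGroup (Fin 2) F) ^ 2 = 4 →
      (c : Matrix.SpecialLinearGroup (Fin 2) F) ∈ Subgroup.center (Matrix.SpecialLinearGroup (Fin 2) F) := fun c h => by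
    rcases hT.special c c.2 h with e | e <;> rw [e]
    · exact one_mem _
    · rw [← CfsgLib.SL2Borel.negOne_eq]; exact CfsgLib.SL2Borel.negOne_mem
  have hcen : ∀ c : C, (c : Matrix.SpecialLinearGroup (Fin 2) F) ∈ Subgroup.center (Matrix.SpecialLinearGroup (Fin 2) F) →
      c = 1 ∨ (c : Matrix.SpecialLinearGroup (Fin 2) F) = -1 := fun c hc => by
    obtain ⟨r, hr, hrz⟩ := Matrix.SpecialLinearGroup.mem_center_iff.1 hc
    have h4 : CfsgLib.SL2Torus.tr (c : Matrix.SpecialLinearGroup (Fin 2) F) ^ 2 = 4 := by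
      have hr2 : r * r = 1 := by rw [← pow_two]; simpa using hr
      have e : CfsgLib.SL2Torus.tr (c : Matrix.SpecialLinearGroup (Fin 2) F) = 2 * r := by
        rw [CfsgLib.SL2Torus.tr, ← hrz, Matrix.trace_fin_two]
        simp
        ring
      rw [e]; linear_combination 4 * hr2
    exact (hT.special c c.2 h4).imp (fun e => Subtype.ext e) id
  -- each good character has its parameter
  have hparam : ∀ ψ : Cfsg.IrrCharacter (Matrix.SpecialLinearGroup (Fin 2) F), CfsgLib.SL2CuspParam.Good ψ →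
      ∃ θ : C →* ℂˣ, (∃ c : C, θ c ^ 2 ≠ 1) ∧
        (∀ c : C, (c : Matrix.SpecialLinearGroup (Fin 2) F) ∉ Subgroup.center (Matrix.SpecialLinearGroup (Fin 2) F) →
          (ψ : Matrix.SpecialLinearGroup (Fin 2) F → ℂ) c = -((θ c).val + (θ c)⁻¹.val)) ∧
        (∀ c : C, (c : Matrix.SpecialLinearGroup (Fin 2) F) ∈ Subgroup.center (Matrix.SpecialLinearGroup (Fin 2) F) →
          ∀ g : Matrix.SpecialLinearGroup (Fin 2) F, (ψ : Matrix.SpecialLinearGroup (Fin 2) F → ℂ) ((c : Matrix.SpecialLinearGroup (Fin 2) F) * g) =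
            (θ c).val * (ψ : Matrix.SpecialLinearGroup (Fin 2) F → ℂ) g) := by
    rintro ψ ⟨X, Y, hY1, hX, hψd, hn, hY⟩
    obtain ⟨θ, -, hval, hz, hcase⟩ := CfsgLib.SL2Borel.cusp_torus ⟨m, hm⟩ hq3 ψ X Y (Or.inl hY1) hX
      (by rw [hX, hY1, hψd, one_mul]) hn hY C hC hcard
    refine ⟨θ, ?_, fun c hc => ?_, fun c hc g => ?_⟩
    · rcases hcase with ⟨-, h⟩ | ⟨h, -⟩
      · exact h
      · omega
    · have h := hval c (fun h => hc (hcz c h))
      rwa [hY1, Nat.cast_one, one_mul] at h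
    · rcases hcen c hc with e | e
      · subst e
        simp
      · exact hz c e g
  -- values of a good character
  have hvalues : ∀ ψ : Cfsg.IrrCharacter (Matrix.SpecialLinearGroup (Fin 2) F), CfsgLib.SL2CuspParam.Good ψ →
      ∃ ω : ℤ, (ψ : Matrix.SpecialLinearGroup (Fin 2) F → ℂ) (-1) = (ω : ℂ) * ((Fintype.card F : ℂ) - 1) ∧
      (ψ : Matrix.SpecialLinearGroup (Fin 2) F → ℂ) 1 = (Fintype.card F : ℂ) - 1 ∧
      (∀ (x : Matrix.SpecialLinearGroup (Fin 2) F) (e : F), e * e = 1 → CfsgLib.SL2Torus.tr x = 2 * e → x ≠ 1 → x ≠ -1 →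
        (ψ : Matrix.SpecialLinearGroup (Fin 2) F → ℂ) x = if e = 1 then -1 else -(ω : ℂ)) ∧
      (∀ x, CfsgLib.SL2Torus.tr x ^ 2 ≠ 4 → CfsgLib.SL2Torus.Split (CfsgLib.SL2Torus.tr x) →
        (ψ : Matrix.SpecialLinearGroup (Fin 2) F → ℂ) x = 0) := by
    rintro ψ ⟨X, Y, hY1, hX, hψd, hn, hY⟩
    obtain ⟨ω, -, hωd, hω⟩ := CfsgLib.SL2Borel.exists_sign ψ
    obtain ⟨-, hU, hS, -⟩ := CfsgLib.SL2Borel.cusp_values ⟨m, hm⟩ hq3 ψ X Y hX hY ω hω
    have hval := CfsgLib.SL2Borel.val_of_card_one ψ X Y hY (by rw [hX, hψd]) hn hY1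
    have hd : (Cfsg.charDegree (ψ : Matrix.SpecialLinearGroup (Fin 2) F → ℂ) : ℂ) = (Fintype.card F : ℂ) - 1 := by
      rw [hψd, Nat.cast_sub (by omega), Nat.cast_one]
    refine ⟨ω, by rw [hωd, hd], by rw [CfsgLib.Chars.irr_apply_one, hd], fun x e he ht h1 h2 => ?_, fun x hx hs => ?_⟩
    · rw [hval]; exact hU x e he ht h1 h2
    · rw [hval]; exact hS x hx hs
  -- the parameter determines the character
  choose! th hth1 hth2 hth3 using hparam
  have hinj : ∀ ψ φ : Cfsg.IrrCharacter (Matrix.SpecialLinearGroup (Fin 2) F), CfsgLib.SL2CuspParam.Good ψ → CfsgLib.SL2CuspParam.Good φ →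
      (th φ = th ψ ∨ ∀ c, th φ c = (th ψ c)⁻¹) → ψ = φ := by
    intro ψ φ hψ hφ hrel
    have hsym : ∀ c, (th φ c).val + (th φ c)⁻¹.val = (th ψ c).val + (th ψ c)⁻¹.val := fun c => by
      rcases hrel with e | e
      · rw [e]
      · rw [e c, inv_inv, add_comm]
    obtain ⟨ω, hz, h1, hU, hS⟩ := hvalues ψ hψ
    obtain ⟨ω', hz', h1', hU', hS'⟩ := hvalues φ hφ
    have hωω : (ω : ℂ) = (ω' : ℂ) := by
      let z : C := ⟨-1, hT.negOne_mem⟩
      have hzc : (z : Matrix.SpecialLinearGroup (Fin 2) F) ∈ Subgroup.center (Matrix.SpecialLinearGroup (Fin 2) F) := by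
        show (-1 : Matrix.SpecialLinearGroup (Fin 2) F) ∈ _
        rw [← CfsgLib.SL2Borel.negOne_eq]; exact CfsgLib.SL2Borel.negOne_mem
      have a := hth3 ψ hψ z hzc 1
      have b := hth3 φ hφ z hzc 1
      rw [mul_one] at a b
      change (ψ : Matrix.SpecialLinearGroup (Fin 2) F → ℂ) (-1) = _ at a
      change (φ : Matrix.SpecialLinearGroup (Fin 2) F → ℂ) (-1) = _ at b
      rw [hz, h1] at a
      rw [hz', h1'] at b
      have hne : (Fintype.card F : ℂ) - 1 ≠ 0 := sub_ne_zero.2 (by exact_mod_cast (show Fintype.card F ≠ 1 by omega))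
      have e1 : (th ψ z).val = (th φ z).val := by
        have ez : z⁻¹ = z := inv_eq_of_mul_eq_one_right (Subtype.ext (by
          show (-1 : Matrix.SpecialLinearGroup (Fin 2) F) * -1 = 1
          simp))
        rcases hrel with e | e
        · rw [e]
        · rw [e z, ← map_inv, ez]
      rw [mul_right_cancel₀ hne a, mul_right_cancel₀ hne b, e1]
    refine Subtype.ext (funext fun x => ?_)
    by_cases hx : CfsgLib.SL2Torus.tr x ^ 2 = 4
    · by_cases e1 : x = 1
      · rw [e1, h1, h1']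
      by_cases e2 : x = -1
      · rw [e2, hz, hz', hωω]
      obtain ⟨e, he, hte⟩ := CfsgLib.SL2Torus.exists_unip_cases hx
      rw [hU x e he hte e1 e2, hU' x e he hte e1 e2, hωω]
    · by_cases hs : CfsgLib.SL2Torus.Split (CfsgLib.SL2Torus.tr x)
      · rw [hS x hx hs, hS' x hx hs]
      · obtain ⟨c, hc, hct⟩ := hT.surj x hx hs
        obtain ⟨P, hP⟩ := isConj_iff.1 (CfsgLib.SL2Torus.isConj_of_tr (g := x) hx hct.symm)
        have hcc : (⟨c, hc⟩ : C).1 ∉ Subgroup.center (Matrix.SpecialLinearGroup (Fin 2) F) := fun h => by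
          rcases hcen ⟨c, hc⟩ h with e | e
          · refine hx ?_
            rw [← hct, show c = 1 from congrArg Subtype.val e]
            simp [CfsgLib.SL2Torus.tr]; norm_num
          · refine hx ?_
            dsimp only at e
            rw [← hct, e, CfsgLib.SL2Torus.tr_neg]
            simp [CfsgLib.SL2Torus.tr]; norm_num
        have e1 := CfsgLib.Chars.IsCharacter.isClassFunction (CfsgLib.Chars.isCharacter_irr ψ) x P
        have e2 := CfsgLib.Chars.IsCharacter.isClassFunction (CfsgLib.Chars.isCharacter_irr φ) x P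
        rw [hP] at e1 e2
        rw [← e1, ← e2]
        exact (hth2 ψ hψ ⟨c, hc⟩ hcc).trans ((hth2 φ hφ ⟨c, hc⟩ hcc).trans (by rw [hsym])).symm
  -- counting
  obtain ⟨g₀, hg₀⟩ := hC.exists_generator
  have hgen : ∀ θ θ' : C →* ℂˣ, θ g₀ = θ' g₀ → θ = θ' := fun θ θ' h => MonoidHom.ext fun c => by
    obtain ⟨j, rfl⟩ := Subgroup.mem_zpowers_iff.1 (hg₀ c)
    rw [map_zpow, map_zpow, h]
  have hsq : ∀ θ : C →* ℂˣ, (∃ c : C, θ c ^ 2 ≠ 1) → (θ g₀).val ≠ 1 ∧ (θ g₀).val ≠ -1 := by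
    rintro θ ⟨c, hc⟩
    obtain ⟨j, rfl⟩ := Subgroup.mem_zpowers_iff.1 (hg₀ c)
    constructor <;> intro h <;> apply hc <;> rw [map_zpow, ← zpow_natCast, ← zpow_mul, mul_comm, zpow_mul, zpow_natCast]
    · rw [show θ g₀ = 1 from Units.ext h, one_pow, _root_.one_zpow]
    · rw [show θ g₀ ^ 2 = 1 from Units.ext (by rw [Units.val_pow_eq_pow_val, h]; norm_num), _root_.one_zpow]
  set R := Polynomial.nthRootsFinset (Fintype.card F + 1) (1 : ℂ) with hRdef
  have hmemR : ∀ θ : C →* ℂˣ, (θ g₀).val ∈ R := fun θ => by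
    rw [hRdef, Polynomial.mem_nthRootsFinset ((show 0 < Fintype.card F + 1 by omega)), ← Units.val_pow_eq_pow_val, ← map_pow, ← hcard,
      pow_card_eq_one', map_one, Units.val_one]
  set T := (R.erase 1).erase (-1) with hTdef
  have hTcard : T.card = Fintype.card F - 1 := by
    have h1 : (1 : ℂ) ∈ R := by rw [hRdef, Polynomial.mem_nthRootsFinset ((show 0 < Fintype.card F + 1 by omega)), one_pow]
    have hm1 : (-1 : ℂ) ∈ R.erase 1 := by
      rw [Finset.mem_erase, hRdef, Polynomial.mem_nthRootsFinset ((show 0 < Fintype.card F + 1 by omega))]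
      refine ⟨by norm_num, Even.neg_one_pow ⟨m + 1, by omega⟩⟩
    rw [hTdef, Finset.card_erase_of_mem hm1, Finset.card_erase_of_mem h1, hRdef,
      (Complex.isPrimitiveRoot_exp (Fintype.card F + 1) (Nat.succ_ne_zero _)).card_nthRootsFinset]
    omega
  set P := Finset.univ.filter fun ψ : Cfsg.IrrCharacter (Matrix.SpecialLinearGroup (Fin 2) F) => CfsgLib.SL2CuspParam.Good ψ with hPdef
  have hPcard : (Fintype.card F - 1) / 2 ≤ P.card := by
    rcases Nat.lt_or_ge (Fintype.card F) 5 with h | h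
    · obtain ⟨ψ, hψ⟩ := CfsgLib.SL2CuspParam.exists_good_three (F := F) (by omega)
      have := Finset.card_pos.2 ⟨ψ, Finset.mem_filter.2 ⟨Finset.mem_univ ψ, hψ⟩⟩
      rw [← hPdef] at this
      omega
    · have h' := (CfsgLib.SL2Borel.odd_counts ⟨m, hm⟩ h).1
      rw [Nat.card_eq_fintype_card, Fintype.card_subtype] at h'
      rw [← h']
      exact Finset.card_le_card fun ψ hψ => Finset.mem_filter.2 ⟨Finset.mem_univ _, CfsgLib.SL2CuspParam.good_of_five h ψ (Finset.mem_filter.1 hψ).2⟩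
  set A := P.image fun ψ => (th ψ g₀).val with hAdef
  set A' := P.image fun ψ => (th ψ g₀)⁻¹.val with hA'def
  have hA : A.card = P.card := Finset.card_image_of_injOn fun a ha b hb h =>
    hinj a b (Finset.mem_filter.1 ha).2 (Finset.mem_filter.1 hb).2 (Or.inl (hgen _ _ (Units.ext h)).symm)
  have hA' : A'.card = P.card := Finset.card_image_of_injOn fun a ha b hb h =>
    hinj a b (Finset.mem_filter.1 ha).2 (Finset.mem_filter.1 hb).2 (Or.inl (hgen _ _ (inv_injective (Units.ext h))).symm)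
  have hinvhom : ∀ θ θ' : C →* ℂˣ, θ' g₀ = (θ g₀)⁻¹ → ∀ c, θ' c = (θ c)⁻¹ := fun θ θ' h c => by
    obtain ⟨j, rfl⟩ := Subgroup.mem_zpowers_iff.1 (hg₀ c)
    rw [map_zpow, map_zpow, h, inv_zpow]
  have hdis : Disjoint A A' := Finset.disjoint_left.2 fun x h h' => by
    obtain ⟨a, ha, rfl⟩ := Finset.mem_image.1 h
    obtain ⟨b, hb, he⟩ := Finset.mem_image.1 h'
    have he' : th a g₀ = (th b g₀)⁻¹ := (Units.ext he).symm
    obtain rfl := hinj b a (Finset.mem_filter.1 hb).2 (Finset.mem_filter.1 ha).2 (Or.inr (hinvhom _ _ he'))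
    have h2 : th b g₀ * th b g₀ = 1 := by nth_rewrite 1 [he']; exact inv_mul_cancel _
    have h3 : (th b g₀).val * (th b g₀).val = 1 := by rw [← Units.val_mul, h2, Units.val_one]
    obtain ⟨e1, e2⟩ := hsq (th b) (hth1 b (Finset.mem_filter.1 hb).2)
    exact (mul_self_eq_one_iff.1 h3).elim e1 e2
  have hsub : A ∪ A' ⊆ T := by
    intro x hx
    rcases Finset.mem_union.1 hx with h | h <;> obtain ⟨a, ha, rfl⟩ := Finset.mem_image.1 h
    · obtain ⟨e1, e2⟩ := hsq (th a) (hth1 a (Finset.mem_filter.1 ha).2)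
      exact Finset.mem_erase.2 ⟨e2, Finset.mem_erase.2 ⟨e1, hmemR _⟩⟩
    · obtain ⟨e1, e2⟩ := hsq (th a) (hth1 a (Finset.mem_filter.1 ha).2)
      have hmem : (th a g₀)⁻¹.val ∈ R := hmemR (th a)⁻¹
      refine Finset.mem_erase.2 ⟨fun h => e2 ?_, Finset.mem_erase.2 ⟨fun h => e1 ?_, hmem⟩⟩
      · rw [Units.val_inv_eq_inv_val] at h
        rw [← inv_inv (th a g₀).val, h, inv_neg, inv_one]
      · rw [Units.val_inv_eq_inv_val] at h
        rw [← inv_inv (th a g₀).val, h, inv_one]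
  have hfull : A ∪ A' = T := Finset.eq_of_subset_of_card_le hsub (by
    rw [Finset.card_union_of_disjoint hdis, hA, hA', hTcard]; omega)
  constructor
  · intro θ hθ
    obtain ⟨e1, e2⟩ := hsq θ hθ
    have hx : (θ g₀).val ∈ A ∪ A' := hfull ▸ Finset.mem_erase.2 ⟨e2, Finset.mem_erase.2 ⟨e1, hmemR θ⟩⟩
    obtain ⟨ψ, hψ, hrel⟩ : ∃ ψ, CfsgLib.SL2CuspParam.Good ψ ∧ (th ψ = θ ∨ ∀ c, th ψ c = (θ c)⁻¹) := by
      rcases Finset.mem_union.1 hx with h | h <;> obtain ⟨a, ha, he⟩ := Finset.mem_image.1 h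
      · exact ⟨a, (Finset.mem_filter.1 ha).2, Or.inl (hgen _ _ (Units.ext he))⟩
      · exact ⟨a, (Finset.mem_filter.1 ha).2, Or.inr (hinvhom _ _ (by rw [← Units.ext he, inv_inv]))⟩
    obtain ⟨ω, hz, h1, hU, hS⟩ := hvalues ψ hψ
    refine ⟨_, ψ.2, h1, fun c hc => ?_, fun c hc g => ?_, fun g h01 h10 hne => ?_, fun g h10 h00 h11 h01 => ?_⟩
    · rw [hth2 ψ hψ c hc]
      rcases hrel with e | e
      · rw [e]
      · rw [e c, inv_inv, add_comm]
    · rw [hth3 ψ hψ c hc g]
      rcases hrel with e | e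
      · rw [e]
      · rw [e c, ← map_inv]
        congr 3
        rcases hcen c hc with e' | e'
        · rw [e', inv_one]
        · exact inv_eq_of_mul_eq_one_right (Subtype.ext (by
            show (c : Matrix.SpecialLinearGroup (Fin 2) F) * c = 1
            rw [e']
            simp))
    · have hdet := CfsgLib.SL2Borel.det_eq g
      rw [h01, h10, mul_zero, sub_zero] at hdet
      refine hS g (fun h => hne ?_) ⟨(g : Matrix (Fin 2) (Fin 2) F) 0 0, ?_⟩
      · rw [CfsgLib.SL2Torus.tr, Matrix.trace_fin_two] at h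
        have h' : ((g : Matrix (Fin 2) (Fin 2) F) 0 0 - (g : Matrix (Fin 2) (Fin 2) F) 1 1) *
            ((g : Matrix (Fin 2) (Fin 2) F) 0 0 - (g : Matrix (Fin 2) (Fin 2) F) 1 1) = 0 := by
          linear_combination h - 4 * hdet
        rw [← sub_eq_zero.1 (mul_self_eq_zero.1 h')] at hdet
        rw [pow_two]; exact hdet
      · rw [CfsgLib.SL2Torus.tr, Matrix.trace_fin_two]
        linear_combination -hdet
    · have h := hU g 1 (one_mul 1) (by rw [CfsgLib.SL2Torus.tr, Matrix.trace_fin_two, h00, h11]; ring)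
        (fun e => h01 (by rw [e]; simp)) (fun e => h01 (by rw [e]; simp))
      rwa [if_pos rfl] at h
  · intro χ hχ h1
    have hd : Cfsg.charDegree ((⟨χ, hχ⟩ : Cfsg.IrrCharacter (Matrix.SpecialLinearGroup (Fin 2) F)) :
        Matrix.SpecialLinearGroup (Fin 2) F → ℂ) = Fintype.card F - 1 := by
      have e := CfsgLib.Chars.irr_apply_one (⟨χ, hχ⟩ : Cfsg.IrrCharacter _)
      dsimp only at e ⊢
      rw [h1] at e
      have : ((Cfsg.charDegree χ + 1 : ℕ) : ℂ) = (Fintype.card F : ℂ) := by push_cast; linear_combination -e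
      have : Cfsg.charDegree χ + 1 = Fintype.card F := by exact_mod_cast this
      omega
    rcases Nat.lt_or_ge (Fintype.card F) 5 with h | h
    · obtain ⟨ψ, hψ⟩ := CfsgLib.SL2CuspParam.exists_good_three (F := F) (by omega)
      refine ⟨th ψ, hth1 ψ hψ, fun c hc => ?_⟩
      obtain ⟨ω, -, hψ1, -, -⟩ := hvalues ψ hψ
      have hns := (hT.elliptic c c.2 (fun h => hc (hcz c h))).1
      have hq : Fintype.card F = 3 := by omega
      have hno := CfsgLib.SL2Borel.no_eigen_of_not_split hns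
      have a := CfsgLib.SL2Three.corner hq (⟨χ, hχ⟩ : Cfsg.IrrCharacter _) (by
        show χ 1 = 2
        rw [h1, hq]; norm_num) c hno
      have b := CfsgLib.SL2Three.corner hq ψ (by rw [hψ1, hq]; norm_num) c hno
      rw [hth2 ψ hψ c hc] at b
      rw [b]; exact a
    · exact ⟨th _, hth1 _ (CfsgLib.SL2CuspParam.good_of_five h _ hd), fun c hc => hth2 _ (CfsgLib.SL2CuspParam.good_of_five h _ hd) c hc⟩

end Cfsg.Agent.S2434
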