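import Cfsg.Statements.S2435
import Cfsg.Agent.Lib.SL2Borel.Cusp

set_option autoImplicit false
open Cfsg

namespace Cfsg.Agent.S2435

/-- Let F be a finite field with q elements, q odd and q ≥ 5, and χ an irreducible complex character of SL₂ over F. If χ has degree (q + 1)/2, then at a diagonal element with entry a, a² ≠ 1, χ takes the value 1 when a is a square in F and −1 otherwise. If χ has degree (q − 1)/2, then at an element g with no eigenvector in F² (so g has order dividing q + 1), χ takes the value −1 when g raised to the power (q + 1)/2 is the identity and the value 1 otherwise. -/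
theorem result {F : Type*} [Field F] [Fintype F] (hodd : Odd (Fintype.card F)) (hq : 5 ≤ Fintype.card F)
    (χ : Matrix.SpecialLinearGroup (Fin 2) F → ℂ) (hχ : Cfsg.IsIrrCharacter (Matrix.SpecialLinearGroup (Fin 2) F) χ) (g : Matrix.SpecialLinearGroup (Fin 2) F) :
    (χ 1 = (((Fintype.card F + 1) / 2 : ℕ) : ℂ) → (g : Matrix (Fin 2) (Fin 2) F) 0 1 = 0 → (g : Matrix (Fin 2) (Fin 2) F) 1 0 = 0 → (g : Matrix (Fin 2) (Fin 2) F) 0 0 ^ 2 ≠ 1 →
      (IsSquare ((g : Matrix (Fin 2) (Fin 2) F) 0 0) → χ g = 1) ∧ (¬ IsSquare ((g : Matrix (Fin 2) (Fin 2) F) 0 0) → χ g = -1)) ∧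
    (χ 1 = (((Fintype.card F - 1) / 2 : ℕ) : ℂ) → (∀ (c : F) (v : Fin 2 → F), v ≠ 0 → (g : Matrix (Fin 2) (Fin 2) F).mulVec v ≠ c • v) →
      (((g ^ ((Fintype.card F + 1) / 2)) : Matrix (Fin 2) (Fin 2) F) = 1 → χ g = -1) ∧ (((g ^ ((Fintype.card F + 1) / 2)) : Matrix (Fin 2) (Fin 2) F) ≠ 1 → χ g = 1)) := by
  classical
  have hchar : ringChar F ≠ 2 := fun h => by
    have := FiniteField.even_card_iff_char_two.1 h
    obtain ⟨k, hk⟩ := hodd
    omega
  obtain ⟨X, Y, hY12, -, hd, hn, hY⟩ := CfsgLib.SL2Borel.exists_over (⟨χ, hχ⟩ : Cfsg.IrrCharacter _)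
  have hcases := (CfsgLib.GL2Borel.degrees (F := F)).1 X
  have hval := CfsgLib.SL2Borel.val_of_commutant (⟨χ, hχ⟩ : Cfsg.IrrCharacter _) X Y hY g
  dsimp only at hd hval
  have h1 : χ 1 = (Cfsg.charDegree χ : ℂ) := CfsgLib.Chars.irr_apply_one (⟨χ, hχ⟩ : Cfsg.IrrCharacter _)
  obtain ⟨m, hm⟩ := hodd
  refine ⟨fun hdeg h01 h10 hne2 => ?_, fun hdeg hno => ?_⟩
  · rw [h1] at hdeg
    have hdd := Nat.cast_injective hdeg
    rw [hdd] at hd
    have hY2 : Y.card = 2 := by
      rcases hY12 with c | c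
      · rw [c] at hd; rcases hcases with e | e | e | e <;> omega
      · exact c
    rw [hY2] at hd hn
    obtain ⟨α, β, hab⟩ := CfsgLib.GL2Borel.of_degree_succ X (by
      rw [CfsgLib.Chars.irr_apply_one, show Cfsg.charDegree (X : Matrix.GeneralLinearGroup (Fin 2) F → ℂ) = Fintype.card F + 1 by omega,
        Nat.cast_add, Nat.cast_one])
    have hαβ : α ≠ β := by
      intro e
      have h2 := CfsgLib.Chars.classInner_irr X X
      rw [if_pos rfl, funext hab, CfsgLib.GL2Borel.inner_eq, e] at h2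
      simp at h2
    have hres : ∀ x : Matrix.SpecialLinearGroup (Fin 2) F, (X : Matrix.GeneralLinearGroup (Fin 2) F → ℂ) (Matrix.SpecialLinearGroup.toGL x) =
        Cfsg.indFun (CfsgLib.SL2Borel.B F) (fun b => (α * β⁻¹) (((b : Matrix.SpecialLinearGroup (Fin 2) F) : Matrix (Fin 2) (Fin 2) F) 0 0)) x := fun x => by
      rw [hab, CfsgLib.SL2Borel.principal_res_gen]
    have hsq : (α * β⁻¹) ^ 2 = 1 := by
      by_contra hsq
      rw [funext hres, CfsgLib.SL2Borel.inner_eq, if_pos rfl,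
        if_neg (fun e => hsq (by rw [pow_two]; exact mul_eq_one_iff_eq_inv.2 e))] at hn
      norm_num at hn
    have hη1 : (quadraticChar F).ringHomComp (Int.castRingHom ℂ) ≠ 1 := by
      obtain ⟨ν, hν⟩ := FiniteField.exists_nonsquare hchar
      intro h
      have h0 : ν ≠ 0 := fun e => hν (e ▸ IsSquare.zero)
      have h' := congrArg (fun f : MulChar F ℂ => f ν) h
      simp only [MulChar.ringHomComp_apply, Int.coe_castRingHom, quadraticChar_neg_one_iff_not_isSquare.2 hν,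
        MulChar.one_apply (isUnit_iff_ne_zero.2 h0)] at h'
      norm_num at h'
    have hγ : α * β⁻¹ = (quadraticChar F).ringHomComp (Int.castRingHom ℂ) :=
      CfsgLib.SL2Borel.quad_unique hsq (fun e => hαβ (mul_inv_eq_one.1 e))
        (((quadraticChar_isQuadratic F).comp _).sq_eq_one) hη1
    have hdet := CfsgLib.SL2Borel.det_eq g
    rw [h01, h10, mul_zero, sub_zero] at hdet
    have ha : (g : Matrix (Fin 2) (Fin 2) F) 0 0 ≠ 0 := left_ne_zero_of_mul_eq_one hdet
    have hne : (g : Matrix (Fin 2) (Fin 2) F) 0 0 ≠ (g : Matrix (Fin 2) (Fin 2) F) 1 1 := fun h => hne2 (by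
      rw [← h] at hdet; rw [pow_two]; exact hdet)
    have hXg : (X : Matrix.GeneralLinearGroup (Fin 2) F → ℂ) (Matrix.SpecialLinearGroup.toGL g) =
        2 * (α * β⁻¹) ((g : Matrix (Fin 2) (Fin 2) F) 0 0) := by
      rw [hab, CfsgLib.GL2Borel.principal_split α β (Matrix.SpecialLinearGroup.toGL g) h01 h10 hne,
        CfsgLib.SL2Borel.toGL_coe]
      have e1 : ∀ x y : F, x * y = 1 → α x * β y = (α * β⁻¹) x := fun x y h => by
        rw [MulChar.mul_apply, MulChar.inv_apply', eq_inv_of_mul_eq_one_right h]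
      rw [e1 _ _ hdet, e1 _ _ ((mul_comm _ _).trans hdet)]
      have e2 : (α * β⁻¹) ((g : Matrix (Fin 2) (Fin 2) F) 1 1) = (α * β⁻¹) ((g : Matrix (Fin 2) (Fin 2) F) 0 0) := by
        have h3 : (α * β⁻¹) ((g : Matrix (Fin 2) (Fin 2) F) 0 0) * (α * β⁻¹) ((g : Matrix (Fin 2) (Fin 2) F) 1 1) = 1 := by
          rw [← map_mul, hdet, map_one]
        have h4 : (α * β⁻¹) ((g : Matrix (Fin 2) (Fin 2) F) 0 0) * (α * β⁻¹) ((g : Matrix (Fin 2) (Fin 2) F) 0 0) = 1 := by
          rw [← MulChar.mul_apply, ← pow_two, hsq, MulChar.one_apply (isUnit_iff_ne_zero.2 ha)]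
        exact mul_left_cancel₀ (left_ne_zero_of_mul_eq_one h4) (h3.trans h4.symm)
      rw [e2]
      ring
    rw [hval (CfsgLib.SL2Borel.exists_commutant_diag g h01 h10), hY2, hγ, MulChar.ringHomComp_apply, Int.coe_castRingHom,
      Nat.cast_ofNat] at hXg
    have hχg := mul_left_cancel₀ two_ne_zero hXg
    rw [hχg]
    dsimp only
    refine ⟨fun hs => ?_, fun hs => ?_⟩
    · rw [(quadraticChar_one_iff_isSquare ha).2 hs, Int.cast_one]
    · rw [quadraticChar_neg_one_iff_not_isSquare.2 hs]; norm_num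
  · rw [h1] at hdeg
    have hdd := Nat.cast_injective hdeg
    rw [hdd] at hd
    have hY2 : Y.card = 2 := by
      rcases hY12 with c | c
      · rw [c] at hd; rcases hcases with e | e | e | e <;> omega
      · exact c
    have hX : Cfsg.charDegree (X : Matrix.GeneralLinearGroup (Fin 2) F → ℂ) = Fintype.card F - 1 := by
      rw [hY2] at hd; omega
    have hns : ¬ CfsgLib.SL2Torus.Split (CfsgLib.SL2Torus.tr g) := by
      rintro ⟨l, hl⟩
      obtain ⟨v, hv, hv0⟩ := (Matrix.exists_mulVec_eq_zero_iff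
        (M := (g : Matrix (Fin 2) (Fin 2) F) - l • (1 : Matrix (Fin 2) (Fin 2) F))).2 (by
          have hd := CfsgLib.SL2Borel.det_eq g
          rw [CfsgLib.SL2Torus.tr, Matrix.trace_fin_two] at hl
          rw [Matrix.det_fin_two]
          simp
          linear_combination hd + hl)
      refine hno l v hv ?_
      rw [Matrix.sub_mulVec, Matrix.smul_mulVec, Matrix.one_mulVec, sub_eq_zero] at hv0
      exact hv0
    have ht : CfsgLib.SL2Torus.tr g ^ 2 ≠ 4 := fun h => by
      obtain ⟨e, he, hte⟩ := CfsgLib.SL2Torus.exists_unip_cases h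
      exact hns ⟨e, by rw [hte]; linear_combination -he⟩
    obtain ⟨θ, ⟨c₁, hc₁⟩, hψ, -, hcase⟩ := CfsgLib.SL2Borel.cusp_torus ⟨m, hm⟩ (by omega) (⟨χ, hχ⟩ : Cfsg.IrrCharacter _) X Y hY12
      hX (by dsimp only; rw [hdd]; exact hd) hn hY (CfsgLib.SL2Torus.cent g) (CfsgLib.SL2Torus.cent_isCyclic ht)
      (CfsgLib.SL2Torus.card_cent_elliptic ht hns)
    have hsq : ∀ c, θ c ^ 2 = 1 := by
      rcases hcase with ⟨h, -⟩ | ⟨-, h⟩
      · rw [hY2] at h; omega
      · exact h
    let gC : CfsgLib.SL2Torus.cent g := ⟨g, CfsgLib.SL2Torus.self_mem_cent g⟩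
    have hχg : χ g = -(θ gC).val := by
      have h := hψ gC ht
      have e : (θ gC)⁻¹ = θ gC := inv_eq_of_mul_eq_one_right (by rw [← pow_two]; exact hsq gC)
      rw [e, hY2, Nat.cast_ofNat] at h
      have h' : (2 : ℂ) * χ g = 2 * (-(θ gC).val) := by
        refine h.trans ?_
        ring
      exact mul_left_cancel₀ two_ne_zero h'
    obtain ⟨g₀, hg₀⟩ := (CfsgLib.SL2Torus.cent_isCyclic ht).exists_generator
    have hord : orderOf g₀ = Fintype.card F + 1 := by
      rw [orderOf_eq_card_of_forall_mem_zpowers hg₀, CfsgLib.SL2Torus.card_cent_elliptic ht hns]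
    have hθ0 : θ g₀ ≠ 1 := fun h => by
      obtain ⟨j, rfl⟩ := Subgroup.mem_zpowers_iff.1 (hg₀ c₁)
      exact hc₁ (by rw [map_zpow, h, _root_.one_zpow])
    have hθ0' : (θ g₀).val = -1 := by
      refine (mul_self_eq_one_iff.1 ?_).resolve_left fun h => hθ0 (Units.ext h)
      rw [← Units.val_mul, ← pow_two, hsq, Units.val_one]
    obtain ⟨j, hj⟩ := Subgroup.mem_zpowers_iff.1 (hg₀ gC)
    set n := (Fintype.card F + 1) / 2 with hn2
    have hn0 : g₀ ^ n ≠ 1 := fun h => by
      have := Nat.le_of_dvd (by omega) (orderOf_dvd_of_pow_eq_one h)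
      omega
    have hn1 : (g₀ ^ n) ^ (2 : ℕ) = 1 := by
      rw [← pow_mul, show n * 2 = orderOf g₀ by omega, pow_orderOf_eq_one]
    have hgn : gC ^ n = (g₀ ^ n) ^ j := by
      rw [← hj, ← zpow_natCast, ← zpow_natCast g₀ n, ← zpow_mul, ← zpow_mul, mul_comm]
    have hmat : (((g ^ n : Matrix.SpecialLinearGroup (Fin 2) F)) : Matrix (Fin 2) (Fin 2) F) = 1 ↔ gC ^ n = 1 := by
      rw [← Subtype.coe_inj (a := gC ^ n), SubmonoidClass.coe_pow, Subgroup.coe_one]
      exact ⟨fun h => Subtype.ext (h.trans Matrix.SpecialLinearGroup.coe_one.symm), fun h => by rw [h]; rfl⟩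
    have hθg : θ gC = θ g₀ ^ j := by rw [← hj, map_zpow]
    rw [← Matrix.SpecialLinearGroup.coe_pow, ne_eq, hmat, hχg, hθg]
    rcases Int.even_or_odd j with ⟨i, hi⟩ | ⟨i, hi⟩
    · have e1 : θ g₀ ^ j = 1 := by
        rw [hi, ← two_mul, zpow_mul, zpow_two, ← pow_two, hsq, _root_.one_zpow]
      have e2 : gC ^ n = 1 := by
        rw [hgn, hi, ← two_mul, zpow_mul, zpow_two, ← pow_two, hn1, _root_.one_zpow]
      exact ⟨fun _ => by rw [e1, Units.val_one], fun h => absurd e2 h⟩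
    · have e1 : θ g₀ ^ j = θ g₀ := by
        rw [hi, zpow_add, zpow_mul, zpow_two, ← pow_two, hsq, _root_.one_zpow, zpow_one, one_mul]
      have e2 : gC ^ n = g₀ ^ n := by
        rw [hgn, hi, zpow_add, zpow_mul, zpow_two, ← pow_two, hn1, _root_.one_zpow, zpow_one, one_mul]
      exact ⟨fun h => absurd (e2 ▸ h) hn0, fun _ => by rw [e1, hθ0', neg_neg]⟩

end Cfsg.Agent.S2435
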