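import Cfsg.Statements.S2438
import Cfsg.Agent.Lib.SL2Borel.Values

set_option autoImplicit false
open Cfsg

namespace Cfsg.Agent.S2438

/-- Let F be a finite field with q elements, q odd, q ≥ 5, U the upper unitriangular subgroup of SL₂ over F, and χ an irreducible complex character. The sum of the values of χ over U equals 2q, q, 0, q, 0 according as the degree of χ is q + 1, q, q − 1, (q + 1)/2, (q − 1)/2; so among these five degrees the sum vanishes exactly for the degrees q − 1 and (q − 1)/2, i.e. the irreducible characters of those two degrees are the ones whose restriction to U does not contain the trivial character (the cuspidal characters), while those of degree q + 1, q and (q + 1)/2 are not cuspidal. -/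
theorem result {F : Type*} [Field F] [Fintype F] [DecidableEq F] (hodd : Odd (Fintype.card F)) (hq : 5 ≤ Fintype.card F)
    (χ : Matrix.SpecialLinearGroup (Fin 2) F → ℂ) (hχ : Cfsg.IsIrrCharacter (Matrix.SpecialLinearGroup (Fin 2) F) χ) :
    (χ 1 = (Fintype.card F : ℂ) + 1 →
      (∑ g : Matrix.SpecialLinearGroup (Fin 2) F, if (g : Matrix (Fin 2) (Fin 2) F) 1 0 = 0 ∧ (g : Matrix (Fin 2) (Fin 2) F) 0 0 = 1 ∧ (g : Matrix (Fin 2) (Fin 2) F) 1 1 = 1 then χ g else 0) = 2 * (Fintype.card F : ℂ)) ∧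
    (χ 1 = (Fintype.card F : ℂ) →
      (∑ g : Matrix.SpecialLinearGroup (Fin 2) F, if (g : Matrix (Fin 2) (Fin 2) F) 1 0 = 0 ∧ (g : Matrix (Fin 2) (Fin 2) F) 0 0 = 1 ∧ (g : Matrix (Fin 2) (Fin 2) F) 1 1 = 1 then χ g else 0) = (Fintype.card F : ℂ)) ∧
    (χ 1 = (Fintype.card F : ℂ) - 1 →
      (∑ g : Matrix.SpecialLinearGroup (Fin 2) F, if (g : Matrix (Fin 2) (Fin 2) F) 1 0 = 0 ∧ (g : Matrix (Fin 2) (Fin 2) F) 0 0 = 1 ∧ (g : Matrix (Fin 2) (Fin 2) F) 1 1 = 1 then χ g else 0) = 0) ∧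
    (χ 1 = (((Fintype.card F + 1) / 2 : ℕ) : ℂ) →
      (∑ g : Matrix.SpecialLinearGroup (Fin 2) F, if (g : Matrix (Fin 2) (Fin 2) F) 1 0 = 0 ∧ (g : Matrix (Fin 2) (Fin 2) F) 0 0 = 1 ∧ (g : Matrix (Fin 2) (Fin 2) F) 1 1 = 1 then χ g else 0) = (Fintype.card F : ℂ)) ∧
    (χ 1 = (((Fintype.card F - 1) / 2 : ℕ) : ℂ) →
      (∑ g : Matrix.SpecialLinearGroup (Fin 2) F, if (g : Matrix (Fin 2) (Fin 2) F) 1 0 = 0 ∧ (g : Matrix (Fin 2) (Fin 2) F) 0 0 = 1 ∧ (g : Matrix (Fin 2) (Fin 2) F) 1 1 = 1 then χ g else 0) = 0) := by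
  classical
  obtain ⟨X, Y, hY12, hd, hY, hval, hcases, -⟩ := CfsgLib.SL2Borel.over_degree (⟨χ, hχ⟩ : Cfsg.IrrCharacter _)
  have hsum := CfsgLib.SL2Borel.sum_uu_over (⟨χ, hχ⟩ : Cfsg.IrrCharacter _) X Y hY
  obtain ⟨g1, g2, g3⟩ := CfsgLib.SL2Borel.sum_uu_gl X
  have e := CfsgLib.Chars.irr_apply_one (⟨χ, hχ⟩ : Cfsg.IrrCharacter _)
  dsimp only at e hd hsum
  have hreindex : (∑ g : Matrix.SpecialLinearGroup (Fin 2) F, if (g : Matrix (Fin 2) (Fin 2) F) 1 0 = 0 ∧ (g : Matrix (Fin 2) (Fin 2) F) 0 0 = 1 ∧ (g : Matrix (Fin 2) (Fin 2) F) 1 1 = 1 then χ g else 0) =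
      ∑ c : F, χ (CfsgLib.SL2Borel.uu c) := by
    rw [← Finset.sum_filter]
    refine (Finset.sum_bij (fun c _ => CfsgLib.SL2Borel.uu c) ?_ ?_ ?_ (fun _ _ => rfl)).symm
    · intro c _; simp [CfsgLib.SL2Borel.uu_coe]
    · intro a _ b _ h
      have := congrArg (fun z : Matrix.SpecialLinearGroup (Fin 2) F => (z : Matrix (Fin 2) (Fin 2) F) 0 1) h
      simpa [CfsgLib.SL2Borel.uu_coe] using this
    · intro g hg
      obtain ⟨-, a, b, c⟩ := Finset.mem_filter.1 hg
      refine ⟨(g : Matrix (Fin 2) (Fin 2) F) 0 1, Finset.mem_univ _, Subtype.ext ?_⟩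
      rw [CfsgLib.SL2Borel.uu_coe]
      ext i j
      fin_cases i <;> fin_cases j <;> simp [a, b, c]
  rw [hreindex]
  obtain ⟨j, hj⟩ := hodd
  have hqj : (Fintype.card F + 1) / 2 = j + 1 ∧ (Fintype.card F - 1) / 2 = j := by omega
  rw [hqj.1, hqj.2]
  refine ⟨fun h1 => ?_, fun h1 => ?_, fun h1 => ?_, fun h1 => ?_, fun h1 => ?_⟩
  · have hψ : Cfsg.charDegree χ = Fintype.card F + 1 := by rw [h1] at e; exact_mod_cast e.symm
    rw [hψ] at hd
    rcases hY12 with h | h <;> rw [h] at hd hsum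
    · rw [g1 (by omega)] at hsum; simpa using hsum.symm
    · rcases hcases with c | c | c | c <;> omega
  · have hψ : Cfsg.charDegree χ = Fintype.card F := by rw [h1] at e; exact_mod_cast e.symm
    rw [hψ] at hd
    rcases hY12 with h | h <;> rw [h] at hd hsum
    · rw [g2 (by omega)] at hsum; simpa using hsum.symm
    · rcases hcases with c | c | c | c <;> omega
  · have hψ : Cfsg.charDegree χ + 1 = Fintype.card F := by
      rw [h1] at e
      have e' : ((Cfsg.charDegree χ + 1 : ℕ) : ℂ) = (Fintype.card F : ℂ) := by push_cast; rw [← e]; ring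
      exact_mod_cast e'
    rcases hY12 with h | h <;> rw [h] at hd hsum
    · rw [g3 (by omega) (by omega)] at hsum; simpa using hsum.symm
    · rcases hcases with c | c | c | c <;> omega
  · have hψ : Cfsg.charDegree χ = j + 1 := by rw [h1] at e; exact_mod_cast e.symm
    rw [hψ] at hd
    rcases hY12 with h | h <;> rw [h] at hd hsum
    · rcases hcases with c | c | c | c <;> omega
    · rw [g1 (by omega)] at hsum
      push_cast at hsum
      linear_combination (-(1 : ℂ) / 2) * hsum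
  · have hψ : Cfsg.charDegree χ = j := by rw [h1] at e; exact_mod_cast e.symm
    rw [hψ] at hd
    rcases hY12 with h | h <;> rw [h] at hd hsum
    · rcases hcases with c | c | c | c <;> omega
    · rw [g3 (by omega) (by omega)] at hsum
      push_cast at hsum
      linear_combination (-(1 : ℂ) / 2) * hsum

end Cfsg.Agent.S2438
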