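import Cfsg.Statements.S2439
import Cfsg.Agent.Lib.SL2Borel.OddPlus
import Cfsg.Agent.Lib.SL2Borel.Cusp
import Cfsg.Agent.Lib.Blocks.Core
import Cfsg.Agent.Lib.Blocks.Local

set_option autoImplicit false
open Cfsg

namespace CfsgLib.SL2DefiningBlocks
open Matrix CfsgLib.Chars CfsgLib.Blocks CfsgLib.SL2Torus CfsgLib.SL2Borel Cfsg

variable {F : Type*} [Field F] [Fintype F] [DecidableEq F] {p : ℕ} [CharP F p] {M : Ideal AlgInt}

theorem tr_u_two (b : F) : tr (SL2Torus.u b : Matrix.SpecialLinearGroup (Fin 2) F) = 2 := by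
  simp [tr, SL2Torus.u, Matrix.trace_fin_two]; norm_num

theorem mlr_inv_nat (hM : IsPModular p M) {n : ℕ} (hn : ¬ p ∣ n) : MemLocalRing M ((n : ℂ)⁻¹) :=
  ⟨1, (n : AlgInt), fun h => hn ((natCast_mem_iff hM n).1 h), by simp⟩

theorem odd_card (hp : p ≠ 2) : Odd (Fintype.card F) := by
  rw [Nat.odd_iff]
  exact FiniteField.odd_card_of_char_ne_two (by rw [ringChar.eq F p]; exact hp)

theorem dvd_card (hM : IsPModular p M) : p ∣ Fintype.card F := by
  haveI : Fact p.Prime := ⟨hM.1⟩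
  obtain ⟨n, -, hn⟩ := FiniteField.card F p
  rw [hn]; exact dvd_pow_self p n.pos.ne'

/-- The common value of the central characters away from the Steinberg character. -/
noncomputable def target (ω : ℤ) (g : Matrix.SpecialLinearGroup (Fin 2) F) : ℂ :=
  if g = 1 then 1 else if g = -1 then (ω : ℂ) else if tr g = 2 then -(2 : ℂ)⁻¹ else if tr g = -2 then -(ω : ℂ) * (2 : ℂ)⁻¹ else 0

theorem not_dvd_degree (hM : IsPModular p M) (hp : p ≠ 2) (χ : IrrCharacter (Matrix.SpecialLinearGroup (Fin 2) F))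
    (hne : charDegree (χ : Matrix.SpecialLinearGroup (Fin 2) F → ℂ) ≠ Fintype.card F) :
    ¬ p ∣ charDegree (χ : Matrix.SpecialLinearGroup (Fin 2) F → ℂ) := by
  intro h
  have hq : p ∣ Fintype.card F := dvd_card hM
  obtain ⟨m, hm⟩ := odd_card (F := F) hp
  rcases degrees_subset ⟨m, hm⟩ (d := charDegree (χ : Matrix.SpecialLinearGroup (Fin 2) F → ℂ)) ⟨χ, rfl⟩ with
    e | e | e | e | e | e
  · rw [e] at h; exact hM.1.not_dvd_one h
  · exact hne e
  · rw [e] at h; exact hM.1.not_dvd_one ((Nat.dvd_add_right hq).1 h)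
  · rw [e] at h
    exact hM.1.not_dvd_one ((Nat.dvd_add_right h).1 (by rwa [Nat.sub_add_cancel Fintype.card_pos]))
  · rw [e] at h
    exact hM.1.not_dvd_one ((Nat.dvd_add_right hq).1 (h.trans ⟨2, by omega⟩))
  · rw [e] at h
    have h' : p ∣ Fintype.card F - 1 := h.trans ⟨2, by omega⟩
    exact hM.1.not_dvd_one ((Nat.dvd_add_right h').1 (by rwa [Nat.sub_add_cancel Fintype.card_pos]))

theorem card_cent_dvd (g : Matrix.SpecialLinearGroup (Fin 2) F) :
    (Subgroup.centralizer ({g} : Set (Matrix.SpecialLinearGroup (Fin 2) F))).index * Nat.card (cent g) =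
      Fintype.card F * (Fintype.card F ^ 2 - 1) :=
  (Subgroup.index_mul_card _).trans card_SL2

theorem semisimple_mli (hM : IsPModular p M) {g : Matrix.SpecialLinearGroup (Fin 2) F} (hg : tr g ^ 2 ≠ 4) :
    p ∣ (Subgroup.centralizer ({g} : Set (Matrix.SpecialLinearGroup (Fin 2) F))).index := by
  have hq : p ∣ Fintype.card F := dvd_card hM
  have h := card_cent_dvd g
  have hp1 := hM.1
  refine (Nat.Prime.dvd_mul hp1).1 (h ▸ dvd_mul_of_dvd_left hq _) |>.resolve_right fun h' => ?_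
  rcases card_cent hg with e | e <;> rw [e] at h'
  · exact hp1.not_dvd_one ((Nat.dvd_add_right h').1 (by rwa [Nat.sub_add_cancel Fintype.card_pos]))
  · exact hp1.not_dvd_one ((Nat.dvd_add_right hq).1 h')

theorem unip_congr (hM : IsPModular p M) (χ : IrrCharacter (Matrix.SpecialLinearGroup (Fin 2) F))
    (x : Matrix.SpecialLinearGroup (Fin 2) F) (hx : x ^ p = 1) :
    MemLocalIdeal M ((χ : Matrix.SpecialLinearGroup (Fin 2) F → ℂ) x - (charDegree (χ : Matrix.SpecialLinearGroup (Fin 2) F → ℂ) : ℂ)) := by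
  obtain ⟨l, hl, hk⟩ := exists_list_eigen (isCharacter_irr χ) x
  have hlen := eigen_length hk
  rw [irr_apply_one] at hlen
  have h1 := hk 1
  rw [pow_one] at h1
  rw [h1, hlen]
  have hμ : ∀ μ ∈ l, MemLocalIdeal M (μ - 1) := fun μ hμ => by
    refine mli_sub_one_of_pow_eq_one hM (k := 1) ?_
    obtain ⟨j, hj⟩ := orderOf_dvd_of_pow_eq_one hx
    rw [pow_one, hj, pow_mul, hl μ hμ, one_pow]
  clear hlen h1 hl hk
  induction l with
  | nil => simpa using mli_zero hM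
  | cons a t ih =>
    have e : (List.map (fun μ => μ ^ 1) (a :: t)).sum - ((a :: t).length : ℂ) =
        (a - 1) + ((List.map (fun μ => μ ^ 1) t).sum - (t.length : ℂ)) := by
      simp only [List.map_cons, List.sum_cons, List.length_cons, pow_one, Nat.cast_succ]
      ring
    rw [e]
    exact mli_add hM (hμ a (by simp)) (ih fun μ h => hμ μ (by simp [h]))

theorem cc_congr (hM : IsPModular p M) (hp : p ≠ 2) (χ : IrrCharacter (Matrix.SpecialLinearGroup (Fin 2) F))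
    (hne : charDegree (χ : Matrix.SpecialLinearGroup (Fin 2) F → ℂ) ≠ Fintype.card F) (ω : ℤ)
    (hω : ∀ g : Matrix.SpecialLinearGroup (Fin 2) F,
      (χ : Matrix.SpecialLinearGroup (Fin 2) F → ℂ) (-1 * g) = (ω : ℂ) * (χ : Matrix.SpecialLinearGroup (Fin 2) F → ℂ) g)
    (g : Matrix.SpecialLinearGroup (Fin 2) F) :
    MemLocalIdeal M (centralChar (χ : Matrix.SpecialLinearGroup (Fin 2) F → ℂ) g - target ω g) := by
  classical
  set d := charDegree (χ : Matrix.SpecialLinearGroup (Fin 2) F → ℂ) with hd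
  have hdne : (d : ℂ) ≠ 0 := Nat.cast_ne_zero.2 (charDegree_pos χ).ne'
  have hpd : ¬ p ∣ d := not_dvd_degree hM hp χ hne
  have hodd := odd_card (F := F) hp
  have h2 : (2 : F) ≠ 0 := Ring.two_ne_zero (by rw [ringChar.eq F p]; exact hp)
  have hint : IsIntegral ℤ ((χ : Matrix.SpecialLinearGroup (Fin 2) F → ℂ) g) := IsCharacter.isIntegral (isCharacter_irr χ) g
  rw [centralChar, irr_apply_one, ← hd]
  by_cases h4 : tr g ^ 2 = 4
  swap
  · have hne1 : g ≠ 1 := fun h => h4 (by rw [h]; simp [tr]; norm_num)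
    have hne2 : g ≠ -1 := fun h => h4 (by rw [h, tr_neg]; simp [tr]; norm_num)
    have ht2 : tr g ≠ 2 := fun h => h4 (by rw [h]; norm_num)
    have ht3 : tr g ≠ -2 := fun h => h4 (by rw [h]; norm_num)
    rw [target, if_neg hne1, if_neg hne2, if_neg ht2, if_neg ht3, sub_zero, div_eq_mul_inv, mul_assoc]
    exact mli_mul_right hM ((mli_natCast_iff hM _).2 (semisimple_mli hM h4))
      (mlr_mul hM (mlr_of_isIntegral hM hint) (mlr_inv_nat hM hpd))
  by_cases hc : g = 1 ∨ g = -1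
  · have htop : Subgroup.centralizer ({g} : Set (Matrix.SpecialLinearGroup (Fin 2) F)) = ⊤ :=
      eq_top_iff.2 fun y _ => mem_cent.2 (by rcases hc with rfl | rfl <;> simp)
    rw [htop, Subgroup.index_top, Nat.cast_one, one_mul]
    rcases hc with rfl | rfl
    · rw [target, if_pos rfl, irr_apply_one, ← hd, div_self hdne, sub_self]; exact mli_zero hM
    · have hm1 : (-1 : Matrix.SpecialLinearGroup (Fin 2) F) ≠ 1 := fun h => h2 (by
        have h00 := congrFun (congrFun (congrArg Subtype.val h) 0) 0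
        simp at h00
        linear_combination -h00)
      have e := hω 1
      rw [mul_one, irr_apply_one, ← hd] at e
      rw [target, if_neg hm1, if_pos rfl, e, mul_div_assoc, div_self hdne, mul_one, sub_self]
      exact mli_zero hM
  push Not at hc
  have hns := ne_scalar' hc.1 hc.2
  have hidx : 2 * (Subgroup.centralizer ({g} : Set (Matrix.SpecialLinearGroup (Fin 2) F))).index = Fintype.card F ^ 2 - 1 := by
    have h := card_cent_dvd g
    rw [card_cent_unip hns h4, Nat.gcd_eq_left (show 2 ∣ Fintype.card F - 1 by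
      obtain ⟨k, hk⟩ := hodd; exact ⟨k, by omega⟩)] at h
    refine Nat.eq_of_mul_eq_mul_left (Fintype.card_pos (α := F)) ?_
    rw [← h]; ring
  obtain ⟨e, he, hte⟩ := exists_unip_cases h4
  obtain ⟨P, b, hb, hP⟩ := exists_conj_u hns he hte
  obtain ⟨s, hs, hse⟩ := coe_eps he (SL2Torus.u b)
  have e1 : P⁻¹ * g * P = s * SL2Torus.u b := Subtype.ext (hP.trans hse)
  have hval : (χ : Matrix.SpecialLinearGroup (Fin 2) F → ℂ) g =
      (χ : Matrix.SpecialLinearGroup (Fin 2) F → ℂ) (s * SL2Torus.u b) := by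
    rw [← e1]
    have h := IsCharacter.isClassFunction (isCharacter_irr χ) g P⁻¹
    rw [inv_inv] at h
    exact h.symm
  have hup : (SL2Torus.u b : Matrix.SpecialLinearGroup (Fin 2) F) ^ p = 1 := by
    rw [u_pow, CharP.cast_eq_zero, zero_mul, u_zero]
  obtain ⟨we, hwe, htar, hσ⟩ : ∃ we : ℂ, MemLocalRing M we ∧ target ω g = -we * (2 : ℂ)⁻¹ ∧
      (χ : Matrix.SpecialLinearGroup (Fin 2) F → ℂ) g = we * (χ : Matrix.SpecialLinearGroup (Fin 2) F → ℂ) (SL2Torus.u b) := by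
    have htr : tr g = tr (s * SL2Torus.u b) := by
      rw [← e1]
      have := tr_conj g P⁻¹
      rw [inv_inv] at this
      exact this.symm
    rcases hs with rfl | rfl
    · rw [one_mul, tr_u_two] at htr
      refine ⟨1, mlr_one hM, ?_, by rw [hval, one_mul, one_mul]⟩
      rw [target, if_neg hc.1, if_neg hc.2, if_pos htr]
      ring
    · rw [neg_one_mul, tr_neg, tr_u_two] at htr
      refine ⟨(ω : ℂ), mlr_intCast hM ω, ?_, by rw [hval, hω]⟩
      have h22 : tr g ≠ 2 := fun h => h2 (mul_self_eq_zero.1 (by rw [h] at htr; linear_combination htr))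
      rw [target, if_neg hc.1, if_neg hc.2, if_neg h22, if_pos htr]
  rw [hσ, htar]
  have hcast : ((Subgroup.centralizer ({g} : Set (Matrix.SpecialLinearGroup (Fin 2) F))).index : ℂ) =
      ((Fintype.card F : ℂ) ^ 2 - 1) * (2 : ℂ)⁻¹ := by
    rw [eq_mul_inv_iff_mul_eq₀ two_ne_zero, mul_comm]
    have : ((2 * (Subgroup.centralizer ({g} : Set (Matrix.SpecialLinearGroup (Fin 2) F))).index : ℕ) : ℂ) =
        ((Fintype.card F ^ 2 - 1 : ℕ) : ℂ) := by rw [hidx]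
    rw [Nat.cast_mul, Nat.cast_ofNat, Nat.cast_sub (Nat.one_le_pow _ _ Fintype.card_pos), Nat.cast_pow, Nat.cast_one] at this
    exact this
  rw [hcast]
  have hkey : ((Fintype.card F : ℂ) ^ 2 - 1) * (2 : ℂ)⁻¹ * (we * (χ : Matrix.SpecialLinearGroup (Fin 2) F → ℂ) (SL2Torus.u b)) / (d : ℂ) -
      -we * (2 : ℂ)⁻¹ = we * ((2 : ℂ)⁻¹ * (d : ℂ)⁻¹) *
        ((Fintype.card F : ℂ) * ((Fintype.card F : ℂ) * (χ : Matrix.SpecialLinearGroup (Fin 2) F → ℂ) (SL2Torus.u b)) -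
          ((χ : Matrix.SpecialLinearGroup (Fin 2) F → ℂ) (SL2Torus.u b) - (d : ℂ))) := by
    field_simp
    ring
  rw [hkey]
  have h2p : ¬ p ∣ 2 := fun h => hp ((Nat.prime_dvd_prime_iff_eq hM.1 Nat.prime_two).1 h)
  have hinv2 : MemLocalRing M ((2 : ℂ)⁻¹) := by
    have := mlr_inv_nat hM h2p
    rwa [Nat.cast_ofNat] at this
  refine mli_mul_left hM (mlr_mul hM hwe (mlr_mul hM hinv2 (mlr_inv_nat hM hpd))) (mli_sub hM ?_ (unip_congr hM χ _ hup))
  exact mli_mul_right hM ((mli_natCast_iff hM _).2 (dvd_card hM))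
    (mlr_mul hM (mlr_natCast hM _) (mlr_of_isIntegral hM (IsCharacter.isIntegral (isCharacter_irr χ) _)))

theorem steinberg_cc (St : IrrCharacter (Matrix.SpecialLinearGroup (Fin 2) F))
    (hSt : charDegree (St : Matrix.SpecialLinearGroup (Fin 2) F → ℂ) = Fintype.card F) :
    centralChar (St : Matrix.SpecialLinearGroup (Fin 2) F → ℂ) (uu 1) = 0 := by
  obtain ⟨S, hS, hval⟩ := exists_deg_card (F := F)
  obtain rfl := deg_card_unique St S hSt hS
  rw [centralChar, hval, principal_res_gen, indFun_eq, uu_coe]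
  simp [MulChar.one_apply]

end CfsgLib.SL2DefiningBlocks

namespace Cfsg.Agent.S2439

/-- Let F be a finite field with q elements of odd characteristic p, and M a maximal ideal of the algebraic integers containing p. Then SL₂ over F has exactly three p-blocks relative to M: the irreducible character of degree q (the Steinberg character) alone; the other irreducible characters taking the same value at −1 as at 1 (the principal block); and the irreducible characters χ with χ(−1) = −χ(1). Every Sylow p-subgroup is a defect group of each of the last two blocks. -/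
theorem result {F : Type*} [Field F] [Fintype F] (p : ℕ) [Fact p.Prime] [CharP F p] (hp : p ≠ 2)
    (M : Ideal Cfsg.AlgInt) (hM : Cfsg.IsPModular p M) :
    (∀ B : Set (Cfsg.IrrCharacter (Matrix.SpecialLinearGroup (Fin 2) F)), Cfsg.IsPBlock M B ↔
      (B = {χ : Cfsg.IrrCharacter (Matrix.SpecialLinearGroup (Fin 2) F) | (χ : Matrix.SpecialLinearGroup (Fin 2) F → ℂ) 1 = (Fintype.card F : ℂ)} ∨
       B = {χ : Cfsg.IrrCharacter (Matrix.SpecialLinearGroup (Fin 2) F) | (χ : Matrix.SpecialLinearGroup (Fin 2) F → ℂ) (-1) = (χ : Matrix.SpecialLinearGroup (Fin 2) F → ℂ) 1 ∧ (χ : Matrix.SpecialLinearGroup (Fin 2) F → ℂ) 1 ≠ (Fintype.card F : ℂ)} ∨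
       B = {χ : Cfsg.IrrCharacter (Matrix.SpecialLinearGroup (Fin 2) F) | (χ : Matrix.SpecialLinearGroup (Fin 2) F → ℂ) (-1) = -(χ : Matrix.SpecialLinearGroup (Fin 2) F → ℂ) 1})) ∧
    Nat.card {B : Set (Cfsg.IrrCharacter (Matrix.SpecialLinearGroup (Fin 2) F)) // Cfsg.IsPBlock M B} = 3 ∧
    ∀ P : Sylow p (Matrix.SpecialLinearGroup (Fin 2) F),
      Cfsg.IsDefectGroup p M {χ : Cfsg.IrrCharacter (Matrix.SpecialLinearGroup (Fin 2) F) | (χ : Matrix.SpecialLinearGroup (Fin 2) F → ℂ) (-1) = (χ : Matrix.SpecialLinearGroup (Fin 2) F → ℂ) 1 ∧ (χ : Matrix.SpecialLinearGroup (Fin 2) F → ℂ) 1 ≠ (Fintype.card F : ℂ)} (P : Subgroup (Matrix.SpecialLinearGroup (Fin 2) F)) ∧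
      Cfsg.IsDefectGroup p M {χ : Cfsg.IrrCharacter (Matrix.SpecialLinearGroup (Fin 2) F) | (χ : Matrix.SpecialLinearGroup (Fin 2) F → ℂ) (-1) = -(χ : Matrix.SpecialLinearGroup (Fin 2) F → ℂ) 1} (P : Subgroup (Matrix.SpecialLinearGroup (Fin 2) F)) := by
  classical
  open CfsgLib.Chars CfsgLib.Blocks CfsgLib.SL2Borel CfsgLib.SL2DefiningBlocks in
  haveI : Finite (Cfsg.IrrCharacter (Matrix.SpecialLinearGroup (Fin 2) F)) := CfsgLib.Chars.finite_irr _
  have hodd : Odd (Fintype.card F) := CfsgLib.SL2DefiningBlocks.odd_card hp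
  obtain ⟨m, hm⟩ := hodd
  have hq3 : 3 ≤ Fintype.card F := by have := Fintype.one_lt_card (α := F); omega
  have h2 : (2 : F) ≠ 0 := Ring.two_ne_zero (by rw [ringChar.eq F p]; exact hp)
  have hpq : p ∣ Fintype.card F := CfsgLib.SL2DefiningBlocks.dvd_card hM
  set SL := Matrix.SpecialLinearGroup (Fin 2) F with hSL
  set S : Set (Cfsg.IrrCharacter SL) := {χ | (χ : SL → ℂ) 1 = (Fintype.card F : ℂ)} with hS
  set Pp : Set (Cfsg.IrrCharacter SL) := {χ | (χ : SL → ℂ) (-1) = (χ : SL → ℂ) 1 ∧ (χ : SL → ℂ) 1 ≠ (Fintype.card F : ℂ)} with hPp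
  set Pm : Set (Cfsg.IrrCharacter SL) := {χ | (χ : SL → ℂ) (-1) = -(χ : SL → ℂ) 1} with hPm
  have hdeg : ∀ χ : Cfsg.IrrCharacter SL, χ ∈ S ↔ Cfsg.charDegree (χ : SL → ℂ) = Fintype.card F := fun χ => by
    simp only [hS, Set.mem_ofPred_eq, CfsgLib.Chars.irr_apply_one, Nat.cast_inj]
  obtain ⟨St, hSt, hStval⟩ := CfsgLib.SL2Borel.exists_deg_card (F := F)
  have hStneg : (St : SL → ℂ) (-1) = (St : SL → ℂ) 1 := by
    rw [CfsgLib.Chars.irr_apply_one, hSt, hStval, CfsgLib.GL2Borel.indFun_eq, CfsgLib.SL2Borel.toGL_coe]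
    simp [MulChar.one_apply]
  have hmem : ∀ χ : Cfsg.IrrCharacter SL, χ ∉ S → ∀ ω : ℤ, (∀ g, (χ : SL → ℂ) (-1 * g) = (ω : ℂ) * (χ : SL → ℂ) g) →
      ∀ g, Cfsg.MemLocalIdeal M (Cfsg.centralChar (χ : SL → ℂ) g - CfsgLib.SL2DefiningBlocks.target ω g) :=
    fun χ hχ ω hω g => CfsgLib.SL2DefiningBlocks.cc_congr hM hp χ (fun e => hχ ((hdeg χ).2 e)) ω hω g
  have hcls : ∀ χ : Cfsg.IrrCharacter SL, χ ∉ S →
      (χ ∈ Pp ∧ ∀ g, (χ : SL → ℂ) (-1 * g) = ((1 : ℤ) : ℂ) * (χ : SL → ℂ) g) ∨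
      (χ ∈ Pm ∧ ∀ g, (χ : SL → ℂ) (-1 * g) = ((-1 : ℤ) : ℂ) * (χ : SL → ℂ) g) := by
    intro χ hχ
    obtain ⟨ω, hω1, hωd, hω⟩ := CfsgLib.SL2Borel.exists_sign χ
    rw [← CfsgLib.Chars.irr_apply_one] at hωd
    rcases hω1 with rfl | rfl
    · refine Or.inl ⟨⟨?_, hχ⟩, hω⟩
      rw [hωd]; simp
    · refine Or.inr ⟨?_, hω⟩
      show _ = _
      rw [hωd]; simp
  have hdisj : ∀ χ : Cfsg.IrrCharacter SL, χ ∈ Pm → χ ∉ S ∧ χ ∉ Pp := by
    intro χ hχ
    have hne : (χ : SL → ℂ) 1 ≠ 0 := CfsgLib.Chars.irr_one_ne_zero χ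
    have hχ' : (χ : SL → ℂ) (-1) = -(χ : SL → ℂ) 1 := hχ
    refine ⟨fun h => hne ?_, fun h => hne ?_⟩
    · have e : χ = St := CfsgLib.SL2Borel.deg_card_unique χ St ((hdeg χ).1 h) hSt
      rw [e] at hχ' ⊢
      rw [hStneg] at hχ'
      linear_combination hχ' / 2
    · have h' : (χ : SL → ℂ) (-1) = (χ : SL → ℂ) 1 := h.1
      rw [h'] at hχ'
      linear_combination hχ' / 2
  have hu : ∀ ω : ℤ, CfsgLib.SL2DefiningBlocks.target ω (CfsgLib.SL2Borel.uu (1 : F)) = -(2 : ℂ)⁻¹ := fun ω => by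
    have n1 : CfsgLib.SL2Borel.uu (1 : F) ≠ 1 := fun h => one_ne_zero (α := F) (by
      simpa [CfsgLib.SL2Borel.uu_coe] using congrFun (congrFun (congrArg Subtype.val h) 0) 1)
    have n2 : CfsgLib.SL2Borel.uu (1 : F) ≠ -1 := fun h => one_ne_zero (α := F) (by
      simpa [CfsgLib.SL2Borel.uu_coe] using congrFun (congrFun (congrArg Subtype.val h) 0) 1)
    rw [CfsgLib.SL2DefiningBlocks.target, if_neg n1, if_neg n2, if_pos]
    rw [CfsgLib.SL2Torus.tr, CfsgLib.SL2Borel.uu_coe, Matrix.trace_fin_two_of]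
    norm_num
  have h2p : ¬ p ∣ 2 := fun h => hp ((Nat.prime_dvd_prime_iff_eq hM.1 Nat.prime_two).1 h)
  have hhalf : ¬ Cfsg.MemLocalIdeal M ((2 : ℂ)⁻¹) := fun h => by
    have := CfsgLib.Blocks.mli_mul_left hM (CfsgLib.Blocks.mlr_natCast hM 2) h
    rw [Nat.cast_ofNat, mul_inv_cancel₀ two_ne_zero] at this
    exact CfsgLib.Blocks.not_mli_one hM this
  have hsep : ∀ χ ψ : Cfsg.IrrCharacter SL, χ ∈ S → ψ ∉ S → ¬ Cfsg.SameBlock M (χ : SL → ℂ) (ψ : SL → ℂ) := by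
    intro χ ψ hχ hψ hb
    obtain ⟨ω, -, -, hω⟩ := CfsgLib.SL2Borel.exists_sign ψ
    have h := CfsgLib.Blocks.mli_add hM (hb (CfsgLib.SL2Borel.uu 1)) (hmem ψ hψ ω hω (CfsgLib.SL2Borel.uu 1))
    rw [CfsgLib.SL2DefiningBlocks.steinberg_cc χ ((hdeg χ).1 hχ), hu] at h
    exact hhalf (by simpa using h)
  have hm1 : (-1 : SL) ≠ 1 := fun h => h2 (by
    have h00 := congrFun (congrFun (congrArg Subtype.val h) 0) 0
    simp [SL] at h00
    linear_combination -h00)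
  have hsep2 : ∀ χ ψ : Cfsg.IrrCharacter SL, χ ∈ Pp → ψ ∈ Pm → ¬ Cfsg.SameBlock M (χ : SL → ℂ) (ψ : SL → ℂ) := by
    intro χ ψ hχ hψ hb
    have hχS : χ ∉ S := hχ.2
    obtain ⟨h1, -⟩ | ⟨h1, -⟩ := hcls ψ (hdisj ψ hψ).1
    · exact (hdisj ψ hψ).2 h1
    have h := hb (-1)
    have htop : Subgroup.centralizer ({(-1 : SL)} : Set SL) = ⊤ :=
      eq_top_iff.2 fun y _ => CfsgLib.SL2Torus.mem_cent.2 (by simp)
    have eχ : (χ : SL → ℂ) (-1) = (χ : SL → ℂ) 1 := hχ.1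
    have eψ : (ψ : SL → ℂ) (-1) = -(ψ : SL → ℂ) 1 := hψ
    rw [Cfsg.centralChar, Cfsg.centralChar, htop, Subgroup.index_top, Nat.cast_one, one_mul, one_mul, eχ, eψ, neg_div,
      div_self (CfsgLib.Chars.irr_one_ne_zero χ), div_self (CfsgLib.Chars.irr_one_ne_zero ψ), sub_neg_eq_add,
      one_add_one_eq_two, ← Nat.cast_ofNat, CfsgLib.Blocks.mli_natCast_iff hM] at h
    exact h2p h
  have hsame : ∀ χ ψ : Cfsg.IrrCharacter SL, ((χ ∈ S ∧ ψ ∈ S) ∨ (χ ∈ Pp ∧ ψ ∈ Pp) ∨ (χ ∈ Pm ∧ ψ ∈ Pm)) →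
      Cfsg.SameBlock M (χ : SL → ℂ) (ψ : SL → ℂ) := by
    rintro χ ψ (⟨h1, h2⟩ | ⟨h1, h2⟩ | ⟨h1, h2⟩)
    · rw [CfsgLib.SL2Borel.deg_card_unique χ ψ ((hdeg χ).1 h1) ((hdeg ψ).1 h2)]
      exact CfsgLib.Blocks.sameBlock_refl hM _
    · have hw : ∀ φ ∈ Pp, ∀ g, (φ : SL → ℂ) (-1 * g) = ((1 : ℤ) : ℂ) * (φ : SL → ℂ) g := fun φ hφ => by
        rcases hcls φ hφ.2 with ⟨-, h⟩ | ⟨h, -⟩
        · exact h
        · exact absurd hφ (hdisj φ h).2
      intro g
      have := CfsgLib.Blocks.mli_sub hM (hmem χ h1.2 1 (hw χ h1) g) (hmem ψ h2.2 1 (hw ψ h2) g)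
      rwa [sub_sub_sub_cancel_right] at this
    · have hw : ∀ φ ∈ Pm, ∀ g, (φ : SL → ℂ) (-1 * g) = ((-1 : ℤ) : ℂ) * (φ : SL → ℂ) g := fun φ hφ => by
        rcases hcls φ (hdisj φ hφ).1 with ⟨h, -⟩ | ⟨-, h⟩
        · exact absurd h (hdisj φ hφ).2
        · exact h
      intro g
      have := CfsgLib.Blocks.mli_sub hM (hmem χ (hdisj χ h1).1 (-1) (hw χ h1) g) (hmem ψ (hdisj ψ h2).1 (-1) (hw ψ h2) g)
      rwa [sub_sub_sub_cancel_right] at this
  have htotal : ∀ χ : Cfsg.IrrCharacter SL, χ ∈ S ∨ χ ∈ Pp ∨ χ ∈ Pm := fun χ => by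
    by_cases h : χ ∈ S
    · exact Or.inl h
    · rcases hcls χ h with ⟨h', -⟩ | ⟨h', -⟩
      · exact Or.inr (Or.inl h')
      · exact Or.inr (Or.inr h')
  have hblock : ∀ χ : Cfsg.IrrCharacter SL, (χ ∈ S → Cfsg.blockOf M (χ : SL → ℂ) = S) ∧
      (χ ∈ Pp → Cfsg.blockOf M (χ : SL → ℂ) = Pp) ∧ (χ ∈ Pm → Cfsg.blockOf M (χ : SL → ℂ) = Pm) := by
    intro χ
    refine ⟨fun h => ?_, fun h => ?_, fun h => ?_⟩ <;> ext ψ <;> rw [CfsgLib.Blocks.mem_blockOf]
    · refine ⟨fun hb => ?_, fun h' => hsame χ ψ (Or.inl ⟨h, h'⟩)⟩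
      by_contra h'
      exact hsep χ ψ h h' hb
    · refine ⟨fun hb => ?_, fun h' => hsame χ ψ (Or.inr (Or.inl ⟨h, h'⟩))⟩
      rcases htotal ψ with h' | h' | h'
      · exact absurd (CfsgLib.Blocks.sameBlock_symm hb) (hsep ψ χ h' h.2)
      · exact h'
      · exact absurd hb (hsep2 χ ψ h h')
    · refine ⟨fun hb => ?_, fun h' => hsame χ ψ (Or.inr (Or.inr ⟨h, h'⟩))⟩
      rcases htotal ψ with h' | h' | h'
      · exact absurd (CfsgLib.Blocks.sameBlock_symm hb) (hsep ψ χ h' (hdisj χ h).1)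
      · exact absurd (CfsgLib.Blocks.sameBlock_symm hb) (hsep2 ψ χ h' h)
      · exact h'
  -- the three sets are inhabited
  let one : Cfsg.IrrCharacter SL := ⟨fun _ => 1, CfsgLib.Chars.isIrrCharacter_one SL⟩
  have hone : one ∈ Pp := ⟨rfl, fun h => by
    have h' : ((1 : ℕ) : ℂ) = (Fintype.card F : ℂ) := by rw [Nat.cast_one]; exact h
    have := (Nat.cast_injective h' : 1 = Fintype.card F)
    omega⟩
  have hStS : St ∈ S := (hdeg St).2 hSt
  have hsumz := CfsgLib.Chars.sum_deg_mul (G := SL) (-1)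
  rw [if_neg hm1] at hsumz
  have hsq := CfsgLib.Chars.sum_deg_sq (G := SL)
  rw [CfsgLib.SL2Borel.card_SL2] at hsq
  set Fm := Finset.univ.filter fun χ : Cfsg.IrrCharacter SL => χ ∈ Pm with hFm
  have hsumm : (∑ χ ∈ Fm, (χ : SL → ℂ) 1 * (χ : SL → ℂ) 1) * 2 = (Fintype.card F : ℂ) * ((Fintype.card F : ℂ) ^ 2 - 1) := by
    have h1 : ∑ χ : Cfsg.IrrCharacter SL, (χ : SL → ℂ) 1 * (χ : SL → ℂ) 1 = (Fintype.card F : ℂ) * ((Fintype.card F : ℂ) ^ 2 - 1) := by
      have h' : ((∑ χ : Cfsg.IrrCharacter SL, Cfsg.charDegree (χ : SL → ℂ) ^ 2 : ℕ) : ℂ) =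
          ((Fintype.card F * (Fintype.card F ^ 2 - 1) : ℕ) : ℂ) := by rw [hsq]
      rw [Nat.cast_mul, Nat.cast_sub (Nat.one_le_pow _ _ Fintype.card_pos), Nat.cast_pow, Nat.cast_one, Nat.cast_sum] at h'
      rw [← h']
      refine Finset.sum_congr rfl fun χ _ => ?_
      rw [CfsgLib.Chars.irr_apply_one, Nat.cast_pow, pow_two]
    have h3 : ∑ χ : Cfsg.IrrCharacter SL, ((χ : SL → ℂ) 1 * (χ : SL → ℂ) 1 - (χ : SL → ℂ) 1 * (χ : SL → ℂ) (-1)) =
        ∑ χ : Cfsg.IrrCharacter SL, if χ ∈ Pm then (χ : SL → ℂ) 1 * (χ : SL → ℂ) 1 * 2 else 0 := by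
      refine Finset.sum_congr rfl fun χ _ => ?_
      split_ifs with h
      · rw [show (χ : SL → ℂ) (-1) = -(χ : SL → ℂ) 1 from h]; ring
      · rcases htotal χ with h' | h' | h'
        · rw [CfsgLib.SL2Borel.deg_card_unique χ St ((hdeg χ).1 h') hSt, hStneg, sub_self]
        · rw [h'.1, sub_self]
        · exact absurd h' h
    rw [Finset.sum_sub_distrib, hsumz, sub_zero, h1, ← Finset.sum_filter, ← hFm, ← Finset.sum_mul] at h3
    exact h3.symm
  have hqne : (Fintype.card F : ℂ) * ((Fintype.card F : ℂ) ^ 2 - 1) ≠ 0 := by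
    refine mul_ne_zero (Nat.cast_ne_zero.2 (by omega)) (sub_ne_zero.2 ?_)
    have : Fintype.card F ^ 2 ≠ 1 := by
      have h9 : 3 ^ 2 ≤ Fintype.card F ^ 2 := Nat.pow_le_pow_left hq3 2
      omega
    exact_mod_cast this
  obtain ⟨mm, hmm⟩ : Fm.Nonempty := Finset.nonempty_of_ne_empty fun h => hqne (by rw [← hsumm, h]; simp)
  have hmmP : mm ∈ Pm := (Finset.mem_filter.1 hmm).2
  have hiff : ∀ B : Set (Cfsg.IrrCharacter SL), Cfsg.IsPBlock M B ↔ (B = S ∨ B = Pp ∨ B = Pm) := by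
    intro B
    constructor
    · rintro ⟨χ, rfl⟩
      rcases htotal χ with h | h | h
      · exact Or.inl ((hblock χ).1 h)
      · exact Or.inr (Or.inl ((hblock χ).2.1 h))
      · exact Or.inr (Or.inr ((hblock χ).2.2 h))
    · rintro (rfl | rfl | rfl)
      · exact ⟨St, ((hblock St).1 hStS).symm⟩
      · exact ⟨one, ((hblock one).2.1 hone).symm⟩
      · exact ⟨mm, ((hblock mm).2.2 hmmP).symm⟩
  have n1 : S ≠ Pp := fun h => (h ▸ hone : one ∈ S) |> hone.2
  have n2 : S ≠ Pm := fun h => (hdisj mm hmmP).1 (h.symm ▸ hmmP)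
  have n3 : Pp ≠ Pm := fun h => (hdisj mm hmmP).2 (h.symm ▸ hmmP)
  refine ⟨hiff, ?_, fun P => ?_⟩
  · have e : {B : Set (Cfsg.IrrCharacter SL) | Cfsg.IsPBlock M B} = {S, Pp, Pm} := by
      ext B
      simp only [Set.mem_ofPred_eq, hiff, Set.mem_insert_iff, Set.mem_singleton_iff]
    show Nat.card ({B : Set (Cfsg.IrrCharacter SL) | Cfsg.IsPBlock M B} : Set (Set (Cfsg.IrrCharacter SL))) = 3
    rw [e, Nat.card_coe_set_eq, Set.ncard_eq_three]
    exact ⟨S, Pp, Pm, n1, n2, n3, rfl⟩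
  -- defect groups
  have key : ∀ (B : Set (Cfsg.IrrCharacter SL)) (T : Finset (Cfsg.IrrCharacter SL)) (_ : ∀ χ, χ ∈ T ↔ χ ∈ B) (c : ℂ),
      (∑ χ ∈ T, (χ : SL → ℂ) 1 * (χ : SL → ℂ) 1) * 2 =
        (Fintype.card F : ℂ) * ((Fintype.card F : ℂ) ^ 2 - 1) - 2 * c * ((Fintype.card F : ℂ) * (Fintype.card F : ℂ)) →
      (c = 0 ∨ c = 1) → (∀ χ ∈ B, χ ∈ Pp ∨ χ ∈ Pm) → Cfsg.IsPBlock M B → Cfsg.IsDefectGroup p M B (P : Subgroup SL) := by
    intro B T hT c hsum hc hB hblk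
    have hcoeff : Cfsg.blockCoeff B (1 : SL) = (2 : ℂ)⁻¹ - c * (Fintype.card F : ℂ) * ((Fintype.card F : ℂ) ^ 2 - 1)⁻¹ := by
      rw [CfsgLib.Blocks.blockCoeff_eq_sum,
        Finset.sum_congr (s₂ := T) (g := fun χ : Cfsg.IrrCharacter SL => (χ : SL → ℂ) 1 * (χ : SL → ℂ) 1)
          (by ext χ; simp [hT]) (fun χ _ => by rw [CfsgLib.Chars.conj_irr_one]),
        show (Nat.card SL : ℂ) = (Fintype.card F : ℂ) * ((Fintype.card F : ℂ) ^ 2 - 1) by
          rw [CfsgLib.SL2Borel.card_SL2, Nat.cast_mul, Nat.cast_sub (Nat.one_le_pow _ _ Fintype.card_pos), Nat.cast_pow,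
            Nat.cast_one],
        inv_mul_eq_iff_eq_mul₀ hqne]
      have hne' : (Fintype.card F : ℂ) ^ 2 - 1 ≠ 0 := right_ne_zero_of_mul hqne
      generalize (∑ χ ∈ T, (χ : SL → ℂ) 1 * (χ : SL → ℂ) 1) = sT at hsum ⊢
      field_simp
      linear_combination hsum
    have hq21 : ¬ p ∣ Fintype.card F ^ 2 - 1 := fun h => hM.1.not_dvd_one
      ((Nat.dvd_add_right h).1 (by rw [Nat.sub_add_cancel (Nat.one_le_pow _ _ Fintype.card_pos)]; exact dvd_pow hpq two_ne_zero))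
    have hsmall : Cfsg.MemLocalIdeal M (c * (Fintype.card F : ℂ) * ((Fintype.card F : ℂ) ^ 2 - 1)⁻¹) := by
      have hcr : Cfsg.MemLocalRing M c := by
        rcases hc with rfl | rfl
        · exact CfsgLib.Blocks.mlr_zero hM
        · exact CfsgLib.Blocks.mlr_one hM
      have hi := CfsgLib.SL2DefiningBlocks.mlr_inv_nat hM hq21
      rw [Nat.cast_sub (Nat.one_le_pow _ _ Fintype.card_pos), Nat.cast_pow, Nat.cast_one] at hi
      exact CfsgLib.Blocks.mli_mul_right hM (CfsgLib.Blocks.mli_mul_left hM hcr ((CfsgLib.Blocks.mli_natCast_iff hM _).2 hpq)) hi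
    have htop : Subgroup.centralizer ({(1 : SL)} : Set SL) = ⊤ :=
      eq_top_iff.2 fun y _ => CfsgLib.SL2Torus.mem_cent.2 (by simp)
    refine ⟨1, ⟨CfsgLib.Blocks.mlr_blockCoeff hM hblk 1, fun h => ?_, fun χ hχ h => ?_⟩, ?_⟩
    · rw [hcoeff] at h
      have := CfsgLib.Blocks.mli_add hM h hsmall
      rw [sub_add_cancel] at this
      exact hhalf this
    · rw [Cfsg.centralChar, htop, Subgroup.index_top, Nat.cast_one, one_mul, div_self (CfsgLib.Chars.irr_one_ne_zero χ)] at h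
      exact CfsgLib.Blocks.not_mli_one hM h
    · have hle : (P : Subgroup SL) ≤ Subgroup.centralizer ({(1 : SL)} : Set SL) := htop ▸ le_top
      refine ⟨P.subtype hle, ?_⟩
      show _ = ((P : Subgroup SL).subgroupOf _).map _
      rw [Subgroup.subgroupOf_map_subtype, inf_eq_left.2 hle]
  have hfilt : Finset.univ.filter (fun χ : Cfsg.IrrCharacter SL => χ ∈ Pp) ∪ {St} = Finset.univ.filter (fun χ => ¬ χ ∈ Pm) := by
    ext χ
    simp only [Finset.mem_union, Finset.mem_filter, Finset.mem_univ, true_and, Finset.mem_singleton]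
    refine ⟨?_, fun h => ?_⟩
    · rintro (h | rfl)
      · exact fun h' => (hdisj χ h').2 h
      · exact fun h' => (hdisj χ h').1 hStS
    · rcases htotal χ with h' | h' | h'
      · exact Or.inr (CfsgLib.SL2Borel.deg_card_unique χ St ((hdeg χ).1 h') hSt)
      · exact Or.inl h'
      · exact absurd h' h
  refine ⟨key Pp (Finset.univ.filter fun χ => χ ∈ Pp) (fun χ => by simp) 1 ?_ (Or.inr rfl) (fun χ h => Or.inl h) ((hiff _).2 (Or.inr (Or.inl rfl))),
    key Pm Fm (fun χ => by simp [hFm]) 0 ?_ (Or.inl rfl) (fun χ h => Or.inr h) ((hiff _).2 (Or.inr (Or.inr rfl)))⟩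
  · have hd : Disjoint (Finset.univ.filter (fun χ : Cfsg.IrrCharacter SL => χ ∈ Pp)) {St} :=
      Finset.disjoint_singleton_right.2 fun h => (Finset.mem_filter.1 h).2.2 hStS
    have hall := Finset.sum_filter_add_sum_filter_not (Finset.univ : Finset (Cfsg.IrrCharacter SL)) (fun χ => χ ∈ Pm)
      (fun χ => (χ : SL → ℂ) 1 * (χ : SL → ℂ) 1)
    rw [← hfilt, Finset.sum_union hd, Finset.sum_singleton, CfsgLib.Chars.irr_apply_one St, hSt, ← hFm] at hall
    have htot : ∑ χ : Cfsg.IrrCharacter SL, (χ : SL → ℂ) 1 * (χ : SL → ℂ) 1 = (Fintype.card F : ℂ) * ((Fintype.card F : ℂ) ^ 2 - 1) := by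
      have h' : ((∑ χ : Cfsg.IrrCharacter SL, Cfsg.charDegree (χ : SL → ℂ) ^ 2 : ℕ) : ℂ) =
          ((Fintype.card F * (Fintype.card F ^ 2 - 1) : ℕ) : ℂ) := by rw [hsq]
      rw [Nat.cast_mul, Nat.cast_sub (Nat.one_le_pow _ _ Fintype.card_pos), Nat.cast_pow, Nat.cast_one, Nat.cast_sum] at h'
      rw [← h']
      refine Finset.sum_congr rfl fun χ _ => ?_
      rw [CfsgLib.Chars.irr_apply_one, Nat.cast_pow, pow_two]
    rw [htot] at hall
    linear_combination 2 * hall - hsumm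
  · linear_combination hsumm

end Cfsg.Agent.S2439
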