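import Cfsg.Statements.S2532
import Mathlib.GroupTheory.SpecificGroups.Alternating
import Mathlib.GroupTheory.Perm.ViaEmbedding
import Mathlib.GroupTheory.GroupAction.Quotient
import Mathlib.Data.Fintype.Powerset

set_option autoImplicit false
open Cfsg

namespace Cfsg.Agent.S2532

theorem alternating_hom_sign {r : ℕ} (χ : Equiv.Perm (Fin r) →* ℤˣ) {σ : Equiv.Perm (Fin r)}
    (hσ : σ ∈ alternatingGroup (Fin r)) : χ σ = 1 := by
  have hle : alternatingGroup (Fin r) ≤ χ.ker := by
    rw [← Equiv.Perm.closure_three_cycles_eq_alternating, Subgroup.closure_le]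
    intro τ hτ
    have h3 : τ ^ 3 = 1 := by rw [← hτ.orderOf]; exact pow_orderOf_eq_one τ
    have h := congrArg χ h3
    rw [map_pow, map_one] at h
    rcases Int.units_eq_one_or (χ τ) with h1 | h1
    · exact h1
    · rw [h1] at h
      exact absurd h (by decide)
  exact hle hσ

/-- There is a function `f` of two natural-number arguments such that, whenever `m ≥ f(n, r)`, every subgroup of order `n` of the alternating group of degree `m` centralizes some subgroup of that alternating group isomorphic to the alternating group of degree `r`. -/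
theorem result :
    ∃ f : ℕ → ℕ → ℕ, ∀ (m r : ℕ) (H : Subgroup ↥(alternatingGroup (Fin m))), f (Nat.card H) r ≤ m →
      ∃ K : Subgroup ↥(alternatingGroup (Fin m)), Nonempty (↥K ≃* ↥(alternatingGroup (Fin r))) ∧
        K ≤ Subgroup.centralizer (H : Set ↥(alternatingGroup (Fin m))) := by
  classical
  refine ⟨fun n r => 2 ^ n * (r * n) + 1, fun m r H hm => ?_⟩
  let stab : Fin m → Finset H := fun x => Finset.univ.filter (fun h => h • x = x)
  obtain ⟨S, -, hS⟩ := Finset.exists_lt_card_fiber_of_mul_lt_card_of_maps_to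
    (s := (Finset.univ : Finset (Fin m))) (t := (Finset.univ : Finset (Finset H))) (f := stab)
    (n := r * Nat.card H) (fun _ _ => Finset.mem_univ _) (by
      rw [Finset.card_univ, Finset.card_univ, Fintype.card_finset, Fintype.card_fin,
        ← Nat.card_eq_fintype_card (α := H)]
      simp only at hm
      omega)
  set T := Finset.univ.filter (fun x => stab x = S) with hT
  let orb : Fin m → Set (Fin m) := fun x => MulAction.orbit H x
  have himg : r ≤ (T.image orb).card := by
    have h1 : T.card ≤ Nat.card H * (T.image orb).card := by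
      refine Finset.card_le_mul_card_image T _ fun o ho => ?_
      obtain ⟨x, -, rfl⟩ := Finset.mem_image.mp ho
      refine (Finset.card_le_card (t := (Finset.univ : Finset H).image (fun h => h • x)) ?_).trans
        (Finset.card_image_le.trans (le_of_eq (by rw [Finset.card_univ, Nat.card_eq_fintype_card])))
      intro y hy
      obtain ⟨-, hy⟩ := Finset.mem_filter.mp hy
      obtain ⟨h, rfl⟩ : y ∈ MulAction.orbit H x := by
        show y ∈ orb x
        rw [← hy]
        exact MulAction.mem_orbit_self y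
      exact Finset.mem_image.mpr ⟨h, Finset.mem_univ _, rfl⟩
    by_contra hlt
    have h2 : Nat.card H * (T.image orb).card ≤ Nat.card H * r := Nat.mul_le_mul_left _ (by omega)
    rw [mul_comm _ r] at h2
    omega
  obtain ⟨R, hRsub, hRcard⟩ := Finset.exists_subset_card_eq himg
  have hmem : ∀ i : Fin r, ∃ x ∈ T, orb x = ((Finset.equivFinOfCardEq hRcard).symm i : Set (Fin m)) :=
    fun i => Finset.mem_image.mp (hRsub ((Finset.equivFinOfCardEq hRcard).symm i).2)
  choose x hxT hxo using hmem
  have hxinj : ∀ i j, orb (x i) = orb (x j) → i = j := fun i j h => by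
    rw [hxo, hxo] at h
    exact (Finset.equivFinOfCardEq hRcard).symm.injective (Subtype.ext h)
  rcases Nat.eq_zero_or_pos r with rfl | hr
  · refine ⟨⊥, ⟨?_⟩, bot_le⟩
    exact MulEquiv.ofUnique
  set S₀ := MulAction.stabilizer H (x ⟨0, hr⟩) with hS₀
  have hstab : ∀ (i : Fin r) (h : H), h • x i = x i ↔ h ∈ S₀ := by
    intro i h
    have h1 : stab (x i) = stab (x ⟨0, hr⟩) := by
      rw [(Finset.mem_filter.mp (hxT i)).2, (Finset.mem_filter.mp (hxT ⟨0, hr⟩)).2]
    have h2 := Finset.ext_iff.mp h1 h
    simpa [stab, MulAction.mem_stabilizer_iff, hS₀] using h2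
  have hout : ∀ (i : Fin r) (h : H), (QuotientGroup.mk h : H ⧸ S₀).out • x i = h • x i := by
    intro i h
    obtain ⟨s, hs⟩ := QuotientGroup.mk_out_eq_mul S₀ h
    rw [hs, mul_smul, (hstab i (s : H)).mpr s.2]
  let ψ : Fin r × (H ⧸ S₀) ↪ Fin m :=
    ⟨fun p => p.2.out • x p.1, by
      rintro ⟨i, q⟩ ⟨j, q'⟩ h
      have hij : i = j := hxinj i j (by
        have h' := congrArg orb h
        simpa [orb, MulAction.orbit_smul] using h')
      subst hij
      have hmem : (q.out⁻¹ * q'.out) • x i = x i := by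
        have h' : q.out • x i = q'.out • x i := h
        rw [mul_smul, ← h', inv_smul_smul]
      rw [Prod.mk.injEq]
      refine ⟨rfl, ?_⟩
      rw [← QuotientGroup.out_eq' q, ← QuotientGroup.out_eq' q', QuotientGroup.eq]
      exact (hstab i _).mp hmem⟩
  have hequiv : ∀ (h : H) (i : Fin r) (q : H ⧸ S₀), h • ψ (i, q) = ψ (i, h • q) := by
    intro h i q
    obtain ⟨k, rfl⟩ := QuotientGroup.mk_surjective q
    show h • (QuotientGroup.mk k : H ⧸ S₀).out • x i = (QuotientGroup.mk (h * k) : H ⧸ S₀).out • x i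
    rw [hout, hout, mul_smul]
  let lift : Equiv.Perm (Fin r) →* Equiv.Perm (Fin r × (H ⧸ S₀)) :=
    { toFun := fun σ => Equiv.prodCongr σ (Equiv.refl _)
      map_one' := by ext p <;> simp
      map_mul' := fun a b => by ext p <;> simp }
  let big : Equiv.Perm (Fin r) →* Equiv.Perm (Fin m) := (Equiv.Perm.viaEmbeddingHom ψ).comp lift
  have hbig : Function.Injective big := by
    intro a b hab
    have h1 := Equiv.Perm.viaEmbeddingHom_injective ψ hab
    ext i
    exact congrArg (fun p : Fin r × (H ⧸ S₀) => (p.1 : ℕ))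
      (Equiv.congr_fun h1 (i, QuotientGroup.mk 1))
  let small : alternatingGroup (Fin r) →* alternatingGroup (Fin m) :=
    (big.comp (alternatingGroup (Fin r)).subtype).codRestrict _ (fun σ =>
      Equiv.Perm.mem_alternatingGroup.mpr (by
        simpa using alternating_hom_sign (Equiv.Perm.sign.comp big) σ.2))
  have hsmall : Function.Injective small := fun a b h =>
    Subtype.ext (hbig (congrArg Subtype.val h))
  refine ⟨small.range, ⟨(MonoidHom.ofInjective hsmall).symm⟩, ?_⟩
  rintro _ ⟨σ, rfl⟩
  rw [Subgroup.mem_centralizer_iff]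
  intro h hh
  refine Subtype.ext (Equiv.ext fun y => ?_)
  show (h : Equiv.Perm (Fin m)) (big σ y) = big σ ((h : Equiv.Perm (Fin m)) y)
  have hact : ∀ z, (h : Equiv.Perm (Fin m)) z = (⟨h, hh⟩ : H) • z := fun z => rfl
  by_cases hy : y ∈ Set.range ψ
  · obtain ⟨⟨i, q⟩, rfl⟩ := hy
    rw [hact, hact, hequiv]
    show _ • Equiv.Perm.viaEmbedding (lift σ) ψ (ψ (i, q)) =
      Equiv.Perm.viaEmbedding (lift σ) ψ (ψ (i, _))
    rw [Equiv.Perm.viaEmbedding_apply, Equiv.Perm.viaEmbedding_apply]
    exact hequiv _ _ _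
  · have hy' : (⟨h, hh⟩ : H) • y ∉ Set.range ψ := by
      rintro ⟨⟨i, q⟩, hq⟩
      refine hy ⟨(i, (⟨h, hh⟩ : H)⁻¹ • q), ?_⟩
      rw [← hequiv, hq, inv_smul_smul]
    show (h : Equiv.Perm (Fin m)) (Equiv.Perm.viaEmbedding (lift σ) ψ y) =
      Equiv.Perm.viaEmbedding (lift σ) ψ ((h : Equiv.Perm (Fin m)) y)
    rw [Equiv.Perm.viaEmbedding_apply_of_notMem _ _ _ hy, hact,
      Equiv.Perm.viaEmbedding_apply_of_notMem _ _ _ hy']

end Cfsg.Agent.S2532
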