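import Cfsg.Statements.S2540
import Cfsg.Agent.Lib.Linear.Generation
import Mathlib

set_option autoImplicit false
open Cfsg

namespace Cfsg.Agent.S2540

theorem comm_center {H : Type*} [Group H] (k z l w : H) (hz : ∀ y, z * y = y * z) (hw : ∀ y, w * y = y * w) :
    k * z * (l * w) * (k * z)⁻¹ * (l * w)⁻¹ = k * l * k⁻¹ * l⁻¹ := by
  calc k * z * (l * w) * (k * z)⁻¹ * (l * w)⁻¹ = k * (z * (l * w)) * z⁻¹ * k⁻¹ * w⁻¹ * l⁻¹ := by group
    _ = k * l * (w * k⁻¹) * w⁻¹ * l⁻¹ := by rw [hz]; group
    _ = k * l * k⁻¹ * l⁻¹ := by rw [hw]; group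

/-- Let F be a finite field and n ≥ 1, excluding the case n = 2 with #F ≤ 3. A subgroup of GL_n(F) that is normalized by every element of SL_n(F) either consists of scalar matrices or contains SL_n(F). -/
theorem result {F : Type*} [Field F] [Fintype F] (n : ℕ) (hn : 1 ≤ n) (hex : ¬ (n = 2 ∧ Fintype.card F ≤ 3)) (G : Subgroup (Matrix.GeneralLinearGroup (Fin n) F)) (hG : ∀ s : Matrix.SpecialLinearGroup (Fin n) F, ∀ g ∈ G, (Matrix.SpecialLinearGroup.toGL s) * g * (Matrix.SpecialLinearGroup.toGL s)⁻¹ ∈ G) : (∀ g ∈ G, ∃ c : F, (g : Matrix (Fin n) (Fin n) F) = c • (1 : Matrix (Fin n) (Fin n) F)) ∨ (Matrix.SpecialLinearGroup.toGL : Matrix.SpecialLinearGroup (Fin n) F →* _).range ≤ G := by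
  classical
  rcases Nat.lt_or_ge n 2 with h1 | h2
  · left
    obtain rfl : n = 1 := by omega
    exact fun g _ => ⟨(g : Matrix (Fin 1) (Fin 1) F) 0 0, by ext i j; simp [Subsingleton.elim i 0, Subsingleton.elim j 0]⟩
  haveI : Nontrivial (Fin n) := Fin.nontrivial_iff_two_le.2 h2
  have hh : 3 ≤ Fintype.card (Fin n) ∨ ∃ x : F, x ≠ 0 ∧ x ^ 2 ≠ 1 := by
    rw [Fintype.card_fin]
    rcases Nat.lt_or_ge n 3 with h3 | h3
    · right
      have hq : 3 < Fintype.card F := by
        by_contra hq
        exact hex ⟨by omega, by omega⟩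
      by_contra hx
      push Not at hx
      have hsub : (Finset.univ : Finset F) ⊆ {0, 1, -1} := fun x _ => by
        by_cases h0 : x = 0
        · simp [h0]
        · rcases sq_eq_one_iff.1 (hx x h0) with h | h <;> simp [h]
      have := Finset.card_le_card hsub
      have := Finset.card_le_three (a := (0 : F)) (b := 1) (c := -1)
      rw [Finset.card_univ] at *
      omega
    · exact Or.inl h3
  let SL := Matrix.SpecialLinearGroup (Fin n) F
  let ι' : SL →* GL (Fin n) F := Matrix.SpecialLinearGroup.toGL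
  have hinj : Function.Injective ι' := fun a b h => Subtype.ext (congrArg Units.val h)
  haveI hNn : (G.comap ι').Normal := ⟨fun x hx s => by
    show ι' (s * x * s⁻¹) ∈ G
    rw [map_mul, map_mul, map_inv]
    exact hG s _ hx⟩
  haveI := CfsgLib.Linear.Generation.isSimpleGroup_PSL (F := F) (ι := Fin n) hh
  have hperf := CfsgLib.Linear.Generation.commutator_SL_eq_top (F := F) (ι := Fin n) hh
  let π := QuotientGroup.mk' (Subgroup.center SL)
  haveI : ((G.comap ι').map π).Normal := Subgroup.Normal.map hNn π (QuotientGroup.mk'_surjective _)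
  rcases this.eq_bot_or_eq_top with h | h
  · left
    have hcen : ∀ x : SL, ι' x ∈ G → x ∈ Subgroup.center SL := fun x hx => by
      have h1 : π x ∈ (G.comap ι').map π := ⟨x, hx, rfl⟩
      rw [h, Subgroup.mem_bot] at h1
      exact (QuotientGroup.eq_one_iff x).1 h1
    intro g hg
    have hdet : ∀ s : SL, ∃ c : SL, ι' c = g * ι' s * g⁻¹ * (ι' s)⁻¹ := by
      intro s
      have hd : Matrix.det (((g * ι' s * g⁻¹ * (ι' s)⁻¹ : GL (Fin n) F) : Matrix (Fin n) (Fin n) F)) = 1 := by
        have h1 : Matrix.GeneralLinearGroup.det (g * ι' s * g⁻¹ * (ι' s)⁻¹) = 1 := by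
          rw [map_mul, map_mul, map_mul, map_inv, map_inv, mul_comm (Matrix.GeneralLinearGroup.det g)]
          group
        exact congrArg Units.val h1
      exact ⟨⟨_, hd⟩, Units.ext rfl⟩
    choose c hc using hdet
    have hcc : ∀ s, c s ∈ Subgroup.center SL := fun s => by
      refine hcen _ ?_
      rw [hc s, show g * ι' s * g⁻¹ * (ι' s)⁻¹ = g * (ι' s * g⁻¹ * (ι' s)⁻¹) by group]
      exact mul_mem hg (hG s _ (inv_mem hg))
    have hmul : ∀ s t, c (s * t) = c s * c t := by
      intro s t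
      apply hinj
      have hz : ι' s * ι' (c t) = ι' (c t) * ι' s := by
        rw [← map_mul, ← map_mul, Subgroup.mem_center_iff.1 (hcc t) s]
      rw [map_mul, hc (s * t), map_mul]
      calc g * (ι' s * ι' t) * g⁻¹ * (ι' s * ι' t)⁻¹
          = (g * ι' s * g⁻¹ * (ι' s)⁻¹) * (ι' s * (g * ι' t * g⁻¹ * (ι' t)⁻¹) * (ι' s)⁻¹) := by group
        _ = ι' (c s) * ι' (c t) := by rw [← hc s, ← hc t, hz, mul_inv_cancel_right]
    let f : SL →* Subgroup.center SL := MonoidHom.mk' (fun s => ⟨c s, hcc s⟩) fun s t => Subtype.ext (hmul s t)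
    have hf : ∀ s, c s = 1 := by
      intro s
      have hker : commutator SL ≤ f.ker := by
        rw [commutator_def, Subgroup.commutator_le]
        intro a _ b _
        rw [MonoidHom.mem_ker, map_commutatorElement, commutatorElement_eq_one_iff_commute]
        exact Subtype.ext (Subgroup.mem_center_iff.1 (f b).2 _)
      rw [hperf] at hker
      exact congrArg Subtype.val (MonoidHom.mem_ker.1 (hker (Subgroup.mem_top s)))
    obtain ⟨r, hr⟩ := Matrix.mem_range_scalar_of_commute_transvectionStruct (M := (g : Matrix (Fin n) (Fin n) F)) fun t => by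
      have hf' : ι' (c ⟨t.toMatrix, t.det⟩) = 1 := (congrArg ι' (hf _)).trans (map_one ι')
      have h1 := (hc ⟨t.toMatrix, t.det⟩).symm.trans hf'
      rw [mul_inv_eq_one, mul_inv_eq_iff_eq_mul] at h1
      exact (congrArg Units.val h1).symm
    refine ⟨r, ?_⟩
    rw [← hr, Matrix.scalar_apply, Matrix.smul_one_eq_diagonal]
  · right
    have hM : ∀ x : SL, ∃ k ∈ G.comap ι', ∃ z ∈ Subgroup.center SL, x = k * z := fun x => by
      obtain ⟨k, hk, hkx⟩ := (h ▸ Subgroup.mem_top (π x) : π x ∈ (G.comap ι').map π)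
      exact ⟨k, hk, k⁻¹ * x, (QuotientGroup.eq).1 hkx, (mul_inv_cancel_left k x).symm⟩
    have htop : G.comap ι' = ⊤ := by
      rw [eq_top_iff, ← hperf, commutator_def, Subgroup.commutator_le]
      intro a _ b _
      obtain ⟨k, hk, z, hz, rfl⟩ := hM a
      obtain ⟨l, hl, w, hw, rfl⟩ := hM b
      open scoped commutatorElement in
      have e : ⁅k * z, l * w⁆ = ⁅k, l⁆ := by
        have hz' : ∀ y : SL, z * y = y * z := fun y => (Subgroup.mem_center_iff.1 hz y).symm
        have hw' : ∀ y : SL, w * y = y * w := fun y => (Subgroup.mem_center_iff.1 hw y).symm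
        rw [commutatorElement_def, commutatorElement_def]
        exact comm_center k z l w hz' hw'
      rw [e, commutatorElement_def]
      exact mul_mem (mul_mem (mul_mem hk hl) (inv_mem hk)) (inv_mem hl)
    rintro _ ⟨x, rfl⟩
    exact (htop ▸ Subgroup.mem_top x : x ∈ G.comap ι')

end Cfsg.Agent.S2540
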