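import Cfsg.Statements.S2541
import Mathlib.LinearAlgebra.Matrix.GeneralLinearGroup.Projective
import Mathlib.GroupTheory.Perm.Cycle.Type
import Mathlib.FieldTheory.Finite.Basic

set_option autoImplicit false
open Cfsg

namespace Cfsg.Agent.S2541

/-- Let F be a field with 9 elements. The symmetric group S_6 is not isomorphic to PGL_2(F) (although both have index-2 subgroups isomorphic to A_6). -/
theorem result {F : Type*} [Field F] [Fintype F] (hF : Fintype.card F = 9) : ¬ Nonempty (Equiv.Perm (Fin 6) ≃* Matrix.ProjGenLinGroup (Fin 2) F) := by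
  classical
  rintro ⟨e⟩
  obtain ⟨g, hg⟩ := IsCyclic.exists_generator (α := Fˣ)
  have hg8 : orderOf g = 8 := by
    rw [orderOf_eq_card_of_forall_mem_zpowers hg, Nat.card_units, Nat.card_eq_fintype_card, hF]
  let D : Fˣ →* GL (Fin 2) F :=
    { toFun := fun t => Matrix.GeneralLinearGroup.mkOfDetNeZero
        (Matrix.diagonal ![(t : F), 1]) (by simp [Matrix.det_diagonal, Fin.prod_univ_two])
      map_one' := by
        apply Units.ext
        show Matrix.diagonal ![((1 : Fˣ) : F), 1] = 1
        rw [← Matrix.diagonal_one]
        congr 1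
        funext i
        fin_cases i <;> simp
      map_mul' := fun a b => by
        apply Units.ext
        show Matrix.diagonal _ = Matrix.diagonal _ * Matrix.diagonal _
        rw [Matrix.diagonal_mul_diagonal]
        congr 1
        funext i
        fin_cases i <;> simp }
  let π : GL (Fin 2) F →* Matrix.ProjGenLinGroup (Fin 2) F :=
    QuotientGroup.mk' (Subgroup.center (GL (Fin 2) F))
  have hinj : Function.Injective (π.comp D) := by
    rw [injective_iff_map_eq_one]
    intro t ht
    have hc : D t ∈ Subgroup.center (GL (Fin 2) F) := (QuotientGroup.eq_one_iff _).mp ht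
    rw [Matrix.GeneralLinearGroup.center_eq_range_scalar] at hc
    obtain ⟨r, hr⟩ := hc
    have h0 : ((Matrix.GeneralLinearGroup.scalar (Fin 2) r : GL (Fin 2) F) : Matrix (Fin 2) (Fin 2) F) =
        Matrix.diagonal ![(t : F), 1] := by rw [hr]; rfl
    have a := congrFun (congrFun h0 0) 0
    have b := congrFun (congrFun h0 1) 1
    simp at a b
    exact Units.ext (by rw [← a, b]; try rfl)
  set x := e.symm (π (D g)) with hx
  have hord : orderOf x = 8 := by
    rw [hx, MulEquiv.orderOf_eq]
    exact (orderOf_injective _ hinj g).trans hg8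
  have h8 : 8 ∣ x.cycleType.lcm := by rw [Equiv.Perm.lcm_cycleType, hord]
  have hsum : x.cycleType.sum ≤ 6 := by
    rw [Equiv.Perm.sum_cycleType]
    exact (Finset.card_le_univ _).trans (le_of_eq (Fintype.card_fin 6))
  have h : ∀ a ∈ x.cycleType, a ∣ 60 := by
    intro a ha
    have h1 : a ≤ 6 := (Multiset.le_sum_of_mem ha).trans hsum
    have h2 := Equiv.Perm.two_le_of_mem_cycleType ha
    interval_cases a <;> norm_num
  exact absurd (h8.trans (Multiset.lcm_dvd.mpr h)) (by norm_num)

end Cfsg.Agent.S2541
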