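import Cfsg.Statements.S2542
import Cfsg.Agent.Lib.SL2.Icosahedral
import Cfsg.Agent.Lib.SL2.Proj
import Cfsg.Agent.S0675

set_option autoImplicit false
open Cfsg

namespace Cfsg.Agent.S2542

/-- Let F be a field with 11 elements. PSL_2(F) has a subgroup H of index 11 isomorphic to the alternating group A_5, and the action of PSL_2(F) on the cosets of H is 2-transitive (of degree 11). -/
theorem result {F : Type*} [Field F] [Fintype F] (hF : Fintype.card F = 11) : ∃ H : Subgroup (Matrix.ProjectiveSpecialLinearGroup (Fin 2) F), H.index = 11 ∧ Nonempty (H ≃* alternatingGroup (Fin 5)) ∧ MulAction.IsMultiplyPretransitive (Matrix.ProjectiveSpecialLinearGroup (Fin 2) F) ((Matrix.ProjectiveSpecialLinearGroup (Fin 2) F) ⧸ H) 2 := by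
  classical
  haveI := CfsgLib.SL2Dickson.psl_simple (F := F) (by omega)
  haveI : CharP F 11 := by
    obtain ⟨p, hp⟩ := CharP.exists F
    haveI : Fact p.Prime := ⟨CharP.char_is_prime F p⟩
    obtain ⟨n, hn1, hn2⟩ := FiniteField.card F p
    have h11 : p = 11 := by
      have hd : p ∣ 11 := by rw [← hF, hn2]; exact dvd_pow_self p n.pos.ne'
      exact ((Nat.dvd_prime (by norm_num)).1 hd).resolve_left (Fact.out : p.Prime).ne_one
    exact h11 ▸ hp
  have hτ : (4 : F) * 4 = 4 + 1 := by
    have h : ((11 : ℕ) : F) = 0 := CharP.cast_eq_zero F 11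
    push_cast at h
    linear_combination h
  obtain ⟨H, ⟨e⟩⟩ := CfsgLib.SL2Dickson.exists_a5 (F := F) (by omega) (by rw [hF]; norm_num) hτ
  have hH : Nat.card H = 60 := by
    rw [Nat.card_congr e.toEquiv, nat_card_alternatingGroup, Nat.card_eq_fintype_card, Fintype.card_fin]; rfl
  have hG : Nat.card (Matrix.ProjectiveSpecialLinearGroup (Fin 2) F) = 660 := by
    have h := CfsgLib.SL2Torus.card_PL_mul (F := F)
    rw [CfsgLib.SL2Torus.card_L_eq, hF] at h
    rw [show Nat.gcd 2 (11 - 1) = 2 by rfl, show (11 : ℕ) * (11 ^ 2 - 1) = 1320 by rfl] at h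
    omega
  have hidx : H.index = 11 := by
    have h := H.card_mul_index
    rw [hH, hG] at h
    omega
  refine ⟨H, hidx, ⟨e⟩, ?_⟩
  let X := Matrix.ProjectiveSpecialLinearGroup (Fin 2) F ⧸ H
  haveI : Fintype X := Fintype.ofFinite X
  let f := MulAction.toPermHom (Matrix.ProjectiveSpecialLinearGroup (Fin 2) F) X
  haveI : MulAction.IsPretransitive f.range X := ⟨fun a b => by
    obtain ⟨g, hg⟩ := MulAction.exists_smul_eq (Matrix.ProjectiveSpecialLinearGroup (Fin 2) F) a b
    exact ⟨⟨f g, g, rfl⟩, hg⟩⟩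
  rcases Cfsg.Agent.S0675.result (α := X) (by
      rw [← Nat.card_eq_fintype_card, show Nat.card X = H.index from rfl, hidx]; norm_num) f.range with hs | h2
  · exfalso
    have hinj : Function.Injective f := by
      rw [← MonoidHom.ker_eq_bot_iff]
      refine (Subgroup.Normal.eq_bot_or_eq_top (inferInstance : f.ker.Normal)).resolve_right fun ht => ?_
      have hle : (⊤ : Subgroup _) ≤ H := fun g _ => by
        have hg : f g = 1 := by
          rw [← MonoidHom.mem_ker, ht]; trivial
        have := congrArg (fun σ : Equiv.Perm X => σ ((1 : Matrix.ProjectiveSpecialLinearGroup (Fin 2) F) : X)) hg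
        change ((g * 1 : Matrix.ProjectiveSpecialLinearGroup (Fin 2) F) : X) = ((1 : Matrix.ProjectiveSpecialLinearGroup (Fin 2) F) : X) at this
        rw [QuotientGroup.eq] at this
        simpa using this
      rw [top_le_iff.1 hle, Subgroup.card_top, hG] at hH
      omega
    haveI := hs
    haveI : Group.IsSolvable (Matrix.ProjectiveSpecialLinearGroup (Fin 2) F) :=
      Group.isSolvable_of_isSolvable_injective (f := f.rangeRestrict) (fun a b h => hinj (congrArg Subtype.val h))
    haveI : IsMulCommutative (Matrix.ProjectiveSpecialLinearGroup (Fin 2) F) := ⟨⟨IsSimpleGroup.comm_iff_isSolvable.2 inferInstance⟩⟩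
    have hpr := Group.is_simple_iff_prime_card.1 (inferInstance : IsSimpleGroup (Matrix.ProjectiveSpecialLinearGroup (Fin 2) F))
    rw [hG] at hpr
    norm_num at hpr
  · rw [MulAction.is_two_pretransitive_iff] at h2 ⊢
    intro a b c d hab hcd
    obtain ⟨⟨-, g, rfl⟩, h1, h3⟩ := h2 hab hcd
    exact ⟨g, h1, h3⟩

end Cfsg.Agent.S2542
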