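import Cfsg.Statements.S2550
import Cfsg.Agent.Lib.Linear.Card
import Mathlib.LinearAlgebra.Matrix.ToLin
import Mathlib.Algebra.CharP.Two

set_option autoImplicit false
open Cfsg

namespace Cfsg.Agent.S2550

open Matrix

universe u

theorem charTwo {F : Type u} [Field F] [Fintype F] {n : ℕ} (hF : Fintype.card F = 2 ^ n) : CharP F 2 := by
  have := Fact.mk Nat.prime_two
  exact charP_of_card_eq_prime_pow hF

theorem exists_order_six {F : Type u} [Field F] [Fintype F] (hF : Fintype.card F = 2) :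
    ∃ x : Matrix.ProjectiveSpecialLinearGroup (Fin 4) F, orderOf x = 6 := by
  haveI := charTwo (F := F) (n := 1) (by rw [hF]; rfl)
  have h2 := CharTwo.two_eq_zero (R := F)
  let M : Matrix.SpecialLinearGroup (Fin 4) F :=
    ⟨!![1, 1, 0, 0; 0, 1, 0, 0; 0, 0, 0, 1; 0, 0, 1, 1], by
      simp [Matrix.det_succ_row_zero, Fin.sum_univ_succ, Fin.succAbove, CharTwo.neg_eq]⟩
  have hM : (M : Matrix (Fin 4) (Fin 4) F) = !![1, 1, 0, 0; 0, 1, 0, 0; 0, 0, 0, 1; 0, 0, 1, 1] := rfl
  have e2 : (M : Matrix (Fin 4) (Fin 4) F) * (M : Matrix (Fin 4) (Fin 4) F) = !![1, 0, 0, 0; 0, 1, 0, 0; 0, 0, 1, 1; 0, 0, 1, 0] := by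
    rw [hM]
    ext i j
    fin_cases i <;> fin_cases j <;>
      simp [Matrix.mul_apply, Fin.sum_univ_four, CharTwo.add_self_eq_zero]
  have e3 : ((M : Matrix (Fin 4) (Fin 4) F) * (M : Matrix (Fin 4) (Fin 4) F)) * (M : Matrix (Fin 4) (Fin 4) F) = !![1, 1, 0, 0; 0, 1, 0, 0; 0, 0, 1, 0; 0, 0, 0, 1] := by
    rw [e2, hM]
    ext i j
    fin_cases i <;> fin_cases j <;>
      simp [Matrix.mul_apply, Fin.sum_univ_four, CharTwo.add_self_eq_zero]
  have p2 : M ^ 2 ≠ 1 := fun h => by
    have h' := congrFun (congrFun (congrArg Subtype.val h) 3) 2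
    rw [Matrix.SpecialLinearGroup.coe_pow, pow_two, e2, Matrix.SpecialLinearGroup.coe_one] at h'
    simp at h'
  have p3 : M ^ 3 ≠ 1 := fun h => by
    have h' := congrFun (congrFun (congrArg Subtype.val h) 0) 1
    rw [Matrix.SpecialLinearGroup.coe_pow, pow_succ, pow_two, e3, Matrix.SpecialLinearGroup.coe_one] at h'
    simp at h'
  have p6 : M ^ 6 = 1 := by
    apply Subtype.ext
    rw [Matrix.SpecialLinearGroup.coe_pow, show 6 = 3 + 3 from rfl, pow_add, pow_succ, pow_two, e3,
      Matrix.SpecialLinearGroup.coe_one]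
    ext i j
    fin_cases i <;> fin_cases j <;>
      simp [Matrix.mul_apply, Fin.sum_univ_four, CharTwo.add_self_eq_zero]
  have hord : orderOf M = 6 := by
    have hd := orderOf_dvd_iff_pow_eq_one.mpr p6
    have hle := Nat.le_of_dvd (by norm_num) hd
    have := orderOf_pos M
    have k := pow_orderOf_eq_one M
    interval_cases h : orderOf M
    all_goals first
      | rfl
      | (exfalso; revert hd; norm_num; done)
      | (exfalso; exact p2 (by rw [show M = 1 by simpa using k, one_pow]))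
      | (exfalso; exact p2 k)
      | (exfalso; exact p3 k)
  have hbot : Subgroup.center (Matrix.SpecialLinearGroup (Fin 4) F) = ⊥ := by
    rw [← Subgroup.card_eq_one, CfsgLib.Linear.Card.card_center_SL, hF]
    simp
  refine ⟨QuotientGroup.mk' (Subgroup.center (Matrix.SpecialLinearGroup (Fin 4) F)) M, ?_⟩
  have hinj : Function.Injective
      (QuotientGroup.mk' (Subgroup.center (Matrix.SpecialLinearGroup (Fin 4) F))) := by
    rw [← MonoidHom.ker_eq_bot_iff, QuotientGroup.ker_mk', hbot]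
  exact (orderOf_injective _ hinj M).trans hord

theorem exists_transvection_basis {K : Type u} [Field K] {N : Matrix (Fin 3) (Fin 3) K}
    (h : N * N = 0) (hN : N ≠ 0) :
    ∃ P : Matrix (Fin 3) (Fin 3) K, P.det ≠ 0 ∧ N * P = P * !![0, 0, 1; 0, 0, 0; 0, 0, 0] := by
  obtain ⟨v, hv⟩ : ∃ v, N *ᵥ v ≠ 0 := by
    by_contra hall
    simp only [not_exists, not_not] at hall
    exact hN (Matrix.ext_of_mulVec_single fun i => by rw [hall, Matrix.zero_mulVec])
  set u := N *ᵥ v with hu
  have hu0 : N *ᵥ u = 0 := by rw [hu, Matrix.mulVec_mulVec, h, Matrix.zero_mulVec]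
  obtain ⟨w, hw, hwu⟩ : ∃ w, N *ᵥ w = 0 ∧ ∀ c : K, w ≠ c • u := by
    by_contra hcon
    simp only [not_exists, not_and, not_forall, not_not] at hcon
    have hle : LinearMap.ker N.mulVecLin ≤ Submodule.span K {u} := fun w hw => by
      obtain ⟨c, hc⟩ := hcon w (by simpa using hw)
      exact Submodule.mem_span_singleton.mpr ⟨c, hc.symm⟩
    have hrange : LinearMap.range N.mulVecLin ≤ LinearMap.ker N.mulVecLin := by
      rintro _ ⟨x, rfl⟩
      simp [Matrix.mulVec_mulVec, h]
    have e1 := Submodule.finrank_mono hle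
    have e2 := Submodule.finrank_mono hrange
    have e3 := LinearMap.finrank_range_add_finrank_ker N.mulVecLin
    rw [finrank_span_singleton hv] at e1
    rw [Module.finrank_fin_fun] at e3
    omega
  refine ⟨(Matrix.of ![u, w, v])ᵀ, fun hdet => ?_, ?_⟩
  · obtain ⟨c, hc0, hc⟩ := Matrix.exists_mulVec_eq_zero_iff.mpr hdet
    have hlin : c 0 • u + c 1 • w + c 2 • v = 0 := by
      funext i
      have h' := congrFun hc i
      simp [Matrix.mulVec, dotProduct, Fin.sum_univ_three] at h'
      simp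
      linear_combination h'
    have h2 : c 2 = 0 := by
      have h' := congrArg (N *ᵥ ·) hlin
      simp [Matrix.mulVec_add, Matrix.mulVec_smul, hu0, hw, ← hu] at h'
      exact h'.resolve_right hv
    have h1 : c 1 = 0 := by
      by_contra h1
      refine hwu (-(c 0) / c 1) (funext fun i => ?_)
      have h' := congrFun hlin i
      simp [h2] at h'
      simp only [Pi.smul_apply, smul_eq_mul]
      field_simp
      linear_combination h'
    have h0 : c 0 = 0 := by
      rw [h1, h2, zero_smul, zero_smul, add_zero, add_zero] at hlin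
      exact (smul_eq_zero.mp hlin).resolve_right hv
    exact hc0 (funext fun i => by fin_cases i <;> simp [h0, h1, h2])
  · ext i j
    fin_cases j
    · have := congrFun hu0 i
      simpa [Matrix.mul_apply, Matrix.mulVec, dotProduct, Fin.sum_univ_three] using this
    · have := congrFun hw i
      simpa [Matrix.mul_apply, Matrix.mulVec, dotProduct, Fin.sum_univ_three] using this
    · have := congrFun hu i
      simpa [Matrix.mul_apply, Matrix.mulVec, dotProduct, Fin.sum_univ_three] using this.symm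

theorem no_order_six {K : Type u} [Field K] [Fintype K] (hK : Fintype.card K = 4)
    (x : Matrix.ProjectiveSpecialLinearGroup (Fin 3) K) : orderOf x ≠ 6 := by
  classical
  haveI := charTwo (F := K) (n := 2) (by rw [hK]; rfl)
  intro hx
  set π := QuotientGroup.mk' (Subgroup.center (Matrix.SpecialLinearGroup (Fin 3) K)) with hπ
  have hcard : Nat.card (Subgroup.center (Matrix.SpecialLinearGroup (Fin 3) K)) = 3 := by
    rw [CfsgLib.Linear.Card.card_center_SL, hK, Fintype.card_fin]
    rfl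
  have hc3 : ∀ c ∈ Subgroup.center (Matrix.SpecialLinearGroup (Fin 3) K), c ^ 3 = 1 := fun c hc => by
    have h1 : (⟨c, hc⟩ : Subgroup.center (Matrix.SpecialLinearGroup (Fin 3) K)) ^ 3 = 1 := by
      exact (congrArg ((⟨c, hc⟩ : Subgroup.center (Matrix.SpecialLinearGroup (Fin 3) K)) ^ ·) hcard).symm.trans
        pow_card_eq_one'
    exact congrArg Subtype.val h1
  have hker : ∀ A, π A = 1 → A ∈ Subgroup.center (Matrix.SpecialLinearGroup (Fin 3) K) := fun A hA =>
    (QuotientGroup.eq_one_iff A).mp hA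
  obtain ⟨X, rfl⟩ := QuotientGroup.mk'_surjective _ x
  have hx6 : (π X) ^ 6 = 1 := by
    rw [← hx]
    exact pow_orderOf_eq_one _
  have hne : ∀ k, 0 < k → k < 6 → (π X) ^ k ≠ 1 := fun k hk hk' h => by
    have := Nat.le_of_dvd hk (orderOf_dvd_iff_pow_eq_one.mpr h)
    rw [hx] at this
    omega
  set c := (X ^ 3) ^ 2 with hc
  have hcmem : c ∈ Subgroup.center (Matrix.SpecialLinearGroup (Fin 3) K) :=
    hker _ (by rw [hc, ← pow_mul, map_pow, hx6])
  set Y := X ^ 3 * c with hY
  have hYπ : π Y = (π X) ^ 3 := by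
    rw [hY, map_mul, map_pow, show π c = 1 from (QuotientGroup.eq_one_iff c).mpr hcmem, mul_one]
  have hY2 : Y ^ 2 = 1 := by
    rw [hY, (show Commute (X ^ 3) c from Subgroup.mem_center_iff.mp hcmem _).mul_pow, ← hc, ← pow_succ']
    exact hc3 c hcmem
  have hY1 : Y ≠ 1 := fun h => hne 3 (by norm_num) (by norm_num) (by rw [← hYπ, h, map_one])
  set Z := X ^ 2 with hZ
  have hcomm : Z * Y = Y * Z := by
    have hc' : Commute X c := Subgroup.mem_center_iff.mp hcmem X
    exact ((Commute.pow_pow_self X 2 3).mul_right (hc'.pow_left 2)).eq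
  have hY2' : (Y : Matrix (Fin 3) (Fin 3) K) * (Y : Matrix (Fin 3) (Fin 3) K) = 1 := by
    rw [← Matrix.SpecialLinearGroup.coe_mul, ← pow_two, hY2, Matrix.SpecialLinearGroup.coe_one]
  set N : Matrix (Fin 3) (Fin 3) K := (Y : Matrix (Fin 3) (Fin 3) K) + 1 with hN
  have hNN : N * N = 0 := by
    rw [hN, add_mul, mul_add, mul_add, hY2', one_mul, mul_one, one_mul]
    ext i j
    simp only [Matrix.add_apply, Matrix.zero_apply]
    linear_combination (((Y : Matrix (Fin 3) (Fin 3) K) i j) + (1 : Matrix (Fin 3) (Fin 3) K) i j) *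
      (CharTwo.two_eq_zero (R := K))
  have hN0 : N ≠ 0 := by
    intro h0
    refine hY1 (Subtype.ext ?_)
    rw [Matrix.SpecialLinearGroup.coe_one]
    ext i j
    have := congrFun (congrFun h0 i) j
    simp only [hN, Matrix.add_apply, Matrix.zero_apply, CharTwo.add_eq_zero] at this
    exact this
  obtain ⟨P, hdet, hP⟩ := exists_transvection_basis hNN hN0
  have hPu : IsUnit P.det := isUnit_iff_ne_zero.mpr hdet
  have hcan : ∀ M : Matrix (Fin 3) (Fin 3) K, P⁻¹ * (P * M) = M := fun M => by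
    rw [← mul_assoc, Matrix.nonsing_inv_mul P hPu, one_mul]
  have hcan' : ∀ M : Matrix (Fin 3) (Fin 3) K, P * (P⁻¹ * M) = M := fun M => by
    rw [← mul_assoc, Matrix.mul_nonsing_inv P hPu, one_mul]
  set W : Matrix (Fin 3) (Fin 3) K := P⁻¹ * (Z : Matrix (Fin 3) (Fin 3) K) * P with hW
  have hNZ : (Z : Matrix (Fin 3) (Fin 3) K) * N = N * (Z : Matrix (Fin 3) (Fin 3) K) := by
    rw [hN, mul_add, add_mul, mul_one, one_mul, ← Matrix.SpecialLinearGroup.coe_mul, hcomm,
      Matrix.SpecialLinearGroup.coe_mul]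
  set E : Matrix (Fin 3) (Fin 3) K := !![0, 0, 1; 0, 0, 0; 0, 0, 0] with hE
  have hE' : E = P⁻¹ * N * P := by rw [mul_assoc, hP, hcan]
  have hWE : W * E = E * W := by
    rw [hE', hW]
    simp only [mul_assoc, hcan']
    rw [← mul_assoc (Z : Matrix (Fin 3) (Fin 3) K), hNZ, mul_assoc]
  have f20 := congrFun (congrFun hWE 0) 0
  have f21 := congrFun (congrFun hWE 0) 1
  have f22 := congrFun (congrFun hWE 0) 2
  have f10 := congrFun (congrFun hWE 1) 2
  simp [hE, Matrix.mul_apply, Fin.sum_univ_three] at f20 f21 f22 f10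
  have hdetW : W.det = 1 := by
    rw [hW, Matrix.det_mul, Matrix.det_mul, Z.2, mul_one, ← Matrix.det_mul,
      Matrix.nonsing_inv_mul P hPu, Matrix.det_one]
  rw [Matrix.det_fin_three] at hdetW
  simp [← f20, ← f21, f10, ← f22] at hdetW
  set a := W 0 0 with ha
  have ha0 : a ≠ 0 := by
    intro h0
    simp [h0] at hdetW
  have ha3 : a ^ 3 = 1 := by
    have h := FiniteField.pow_card_sub_one_eq_one a ha0
    rwa [hK] at h
  have hb : W 1 1 = a := by
    linear_combination a * hdetW - W 1 1 * ha3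
  have hWm : W = !![a, W 0 1, W 0 2; 0, a, W 1 2; 0, 0, a] := by
    ext i j
    fin_cases i <;> fin_cases j <;> simp [← f20, ← f21, ← f22, f10, hb, ha]
  have hW4 : (W * W) * (W * W) = (a ^ 4) • (1 : Matrix (Fin 3) (Fin 3) K) := by
    rw [hWm]
    ext i j
    fin_cases i <;> fin_cases j <;>
      simp [Matrix.mul_apply, Fin.sum_univ_three] <;> grind
  have hZ4 : ((Z ^ 4 : Matrix.SpecialLinearGroup (Fin 3) K) : Matrix (Fin 3) (Fin 3) K) =
      (a ^ 4) • (1 : Matrix (Fin 3) (Fin 3) K) := by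
    have h4 : P⁻¹ * ((Z ^ 4 : Matrix.SpecialLinearGroup (Fin 3) K) : Matrix (Fin 3) (Fin 3) K) * P =
        (a ^ 4) • (1 : Matrix (Fin 3) (Fin 3) K) := by
      rw [← hW4, hW, Matrix.SpecialLinearGroup.coe_pow]
      simp only [pow_succ, pow_zero, one_mul, mul_assoc, hcan']
    have h5 := congrArg (fun M => P * M * P⁻¹) h4
    simp only [mul_assoc, hcan', Matrix.mul_nonsing_inv P hPu, mul_one] at h5
    rw [h5, Matrix.smul_mul, one_mul, Matrix.mul_smul, Matrix.mul_nonsing_inv P hPu]
  have hmem : Z ^ 4 ∈ Subgroup.center (Matrix.SpecialLinearGroup (Fin 3) K) := by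
    refine Subgroup.mem_center_iff.mpr fun A => Subtype.ext ?_
    rw [Matrix.SpecialLinearGroup.coe_mul, Matrix.SpecialLinearGroup.coe_mul, hZ4,
      Matrix.mul_smul, Matrix.smul_mul, mul_one, one_mul]
  refine hne 2 (by norm_num) (by norm_num) ?_
  have h8 : (π X) ^ 8 = 1 := by
    have h := (QuotientGroup.eq_one_iff _).mpr hmem
    rw [← map_pow, show X ^ 8 = Z ^ 4 by rw [hZ, ← pow_mul]]
    exact h
  rwa [show (8 : ℕ) = 6 + 2 from rfl, pow_add, hx6, one_mul] at h8

/-- Let F be a field with 2 elements and K a field with 4 elements. PSL_4(F) and PSL_3(K) have the same order (20160) but are not isomorphic. -/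
theorem result {F K : Type*} [Field F] [Fintype F] [Field K] [Fintype K] (hF : Fintype.card F = 2) (hK : Fintype.card K = 4) : Nat.card (Matrix.ProjectiveSpecialLinearGroup (Fin 4) F) = Nat.card (Matrix.ProjectiveSpecialLinearGroup (Fin 3) K) ∧ ¬ Nonempty (Matrix.ProjectiveSpecialLinearGroup (Fin 4) F ≃* Matrix.ProjectiveSpecialLinearGroup (Fin 3) K) := by
  constructor
  · have a := CfsgLib.Linear.Card.card_SL (F := F) 4 (by norm_num)
    have b := CfsgLib.Linear.Card.card_SL (F := K) 3 (by norm_num)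
    have c := CfsgLib.Linear.Card.card_PSL_mul (F := F) (ι := Fin 4)
    have d := CfsgLib.Linear.Card.card_PSL_mul (F := K) (ι := Fin 3)
    rw [hF] at a c
    rw [hK] at b d
    simp [Fin.prod_univ_succ] at a b c d
    omega
  · rintro ⟨e⟩
    obtain ⟨x, hx⟩ := exists_order_six hF
    exact no_order_six hK (e x) ((MulEquiv.orderOf_eq e x).trans hx)

end Cfsg.Agent.S2550
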