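import Cfsg.Statements.S2552
import Mathlib.LinearAlgebra.Matrix.SpecialLinearGroup
import Mathlib.LinearAlgebra.Basis.VectorSpace
import Mathlib.LinearAlgebra.Determinant
import Mathlib.LinearAlgebra.Dimension.Constructions

set_option autoImplicit false
open Cfsg

namespace Cfsg.Agent.S2552

/-- Let F be a finite field and n ≥ 1. For every k, the special linear group SL_n(F) acts transitively on the set of k-dimensional subspaces of F^n: any two subspaces of the same dimension are carried onto each other by some matrix of determinant 1. -/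
theorem result {F : Type*} [Field F] [Fintype F] (n : ℕ) (hn : 1 ≤ n) (U₁ U₂ : Submodule F (Fin n → F)) (h : Module.finrank F U₁ = Module.finrank F U₂) : ∃ g : Matrix.SpecialLinearGroup (Fin n) F, U₁.map ((Matrix.SpecialLinearGroup.toLin' g : (Fin n → F) ≃ₗ[F] (Fin n → F)) : (Fin n → F) →ₗ[F] (Fin n → F)) = U₂ := by
  classical
  obtain ⟨C₁, hC₁⟩ := U₁.exists_isCompl
  obtain ⟨C₂, hC₂⟩ := U₂.exists_isCompl
  have hC : Module.finrank F C₁ = Module.finrank F C₂ := by
    have e1 := Submodule.finrank_add_eq_of_isCompl hC₁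
    have e2 := Submodule.finrank_add_eq_of_isCompl hC₂
    omega
  let b₁ := ((Module.finBasis F U₁).prod (Module.finBasis F C₁)).map
    (Submodule.prodEquivOfIsCompl U₁ C₁ hC₁)
  let b₂ := ((Module.finBasis F U₂).prod (Module.finBasis F C₂)).map
    (Submodule.prodEquivOfIsCompl U₂ C₂ hC₂)
  let σ : Fin (Module.finrank F U₁) ⊕ Fin (Module.finrank F C₁) ≃
      Fin (Module.finrank F U₂) ⊕ Fin (Module.finrank F C₂) := (finCongr h).sumCongr (finCongr hC)
  let e := b₁.equiv b₂ σ
  obtain ⟨i₀⟩ : Nonempty (Fin (Module.finrank F U₁) ⊕ Fin (Module.finrank F C₁)) :=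
    ⟨b₁.indexEquiv (Pi.basisFun F (Fin n)) |>.symm ⟨0, hn⟩⟩
  let δ : F := LinearMap.det (e : (Fin n → F) →ₗ[F] (Fin n → F))
  have hδ : δ ≠ 0 := (LinearEquiv.isUnit_det' e).ne_zero
  let dd : Fin (Module.finrank F U₁) ⊕ Fin (Module.finrank F C₁) → F :=
    Function.update (fun _ => (1 : F)) i₀ δ⁻¹
  let D : (Fin n → F) →ₗ[F] (Fin n → F) := Matrix.toLin b₁ b₁ (Matrix.diagonal dd)
  have hD : LinearMap.det D = δ⁻¹ := by
    rw [← LinearMap.det_toMatrix b₁, LinearMap.toMatrix_toLin, Matrix.det_diagonal]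
    simp only [dd]
    rw [Finset.prod_update_of_mem (Finset.mem_univ _)]
    simp
  let f : (Fin n → F) →ₗ[F] (Fin n → F) := (e : (Fin n → F) →ₗ[F] (Fin n → F)) ∘ₗ D
  have hf : LinearMap.det f = 1 := by
    rw [LinearMap.det_comp, hD]
    exact mul_inv_cancel₀ hδ
  let g : Matrix.SpecialLinearGroup (Fin n) F :=
    ⟨LinearMap.toMatrix' f, by rw [LinearMap.det_toMatrix', hf]⟩
  refine ⟨g, ?_⟩
  have hg : ∀ v, Matrix.SpecialLinearGroup.toLin' g v = f v := fun v => by
    show Matrix.toLin' (LinearMap.toMatrix' f) v = f v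
    rw [Matrix.toLin'_toMatrix']
  have himg : ∀ i, f (b₁ i) = (dd i) • b₂ (σ i) := by
    intro i
    show e (D (b₁ i)) = _
    have hDi : D (b₁ i) = (dd i) • b₁ i := by
      simp [D, Matrix.toLin_self, Matrix.diagonal_apply, ite_smul]
    rw [hDi, map_smul, Module.Basis.equiv_apply]
  have hmap : Submodule.map f U₁ ≤ U₂ := by
    rintro _ ⟨v, hv, rfl⟩
    have hrw : v = ∑ i, (Module.finBasis F U₁).repr ⟨v, hv⟩ i • (Module.finBasis F U₁ i : Fin n → F) := by
      have h0 := congrArg Subtype.val ((Module.finBasis F U₁).sum_repr ⟨v, hv⟩)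
      simp only [Submodule.coe_sum, Submodule.coe_smul] at h0
      exact h0.symm
    rw [hrw, map_sum]
    refine Submodule.sum_mem _ fun i _ => ?_
    rw [map_smul]
    refine Submodule.smul_mem _ _ ?_
    have hb : b₁ (Sum.inl i) = (Module.finBasis F U₁ i : Fin n → F) := by simp [b₁]
    rw [← hb, himg]
    refine Submodule.smul_mem _ _ ?_
    simp [b₂, σ]
  have hinj : Function.Injective f :=
    LinearMap.ker_eq_bot.mp (LinearMap.equivOfDetNeZero f (by rw [hf]; exact one_ne_zero)).ker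
  rw [show ((Matrix.SpecialLinearGroup.toLin' g : (Fin n → F) ≃ₗ[F] (Fin n → F)) :
      (Fin n → F) →ₗ[F] (Fin n → F)) = f from LinearMap.ext hg]
  exact Submodule.eq_of_le_of_finrank_eq hmap
    ((Submodule.equivMapOfInjective f hinj U₁).finrank_eq.symm.trans h)

end Cfsg.Agent.S2552
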