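import Cfsg.Statements.S2561
import Cfsg.Agent.Lib.QuadClass.Two
open CfsgLib.QuadClass CfsgLib.Orth.Models CfsgLib.Orth.Hyperbolic CfsgLib.Orth.Binary

set_option autoImplicit false
open Cfsg

namespace Cfsg.Agent.S2561

/-- Fix the non-singular alternating form on the 2m-dimensional space over the field of two elements obtained by polarizing the plus-type form Σ xᵢyᵢ (m ≥ 1). The functions q on the space with q(u + v) = q(u) + q(v) + f(u, v) (the quadratic forms polarizing to f) number 2^(2m); each is equivalent under an invertible linear map either to the plus-type form or to the minus-type form Σ xᵢyᵢ + (z₁² + z₁z₂ + z₂²); and those of plus type number 2^(2m−1) + 2^(m−1), those of minus type 2^(2m−1) − 2^(m−1). -/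
theorem result (m : ℕ) (hm : 1 ≤ m) :
    Nat.card {q : (Fin m ⊕ Fin m → ZMod 2) → ZMod 2 // (∀ u v : (Fin m ⊕ Fin m → ZMod 2), q (u + v) = q u + q v + (Cfsg.quadFormPlus m (ZMod 2) (u + v) - Cfsg.quadFormPlus m (ZMod 2) u - Cfsg.quadFormPlus m (ZMod 2) v))} = 2 ^ (2 * m) ∧
    (∀ q : (Fin m ⊕ Fin m → ZMod 2) → ZMod 2, (∀ u v : (Fin m ⊕ Fin m → ZMod 2), q (u + v) = q u + q v + (Cfsg.quadFormPlus m (ZMod 2) (u + v) - Cfsg.quadFormPlus m (ZMod 2) u - Cfsg.quadFormPlus m (ZMod 2) v)) →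
      (∃ g : (Fin m ⊕ Fin m → ZMod 2) ≃ₗ[ZMod 2] (Fin m ⊕ Fin m → ZMod 2), ∀ v, q v = Cfsg.quadFormPlus m (ZMod 2) (g v)) ∨
      (∃ g : (Fin m ⊕ Fin m → ZMod 2) ≃ₗ[ZMod 2] ((Fin (m - 1) ⊕ Fin (m - 1)) ⊕ Fin 2 → ZMod 2), ∀ v, q v = Cfsg.quadFormMinus (m - 1) (ZMod 2) 1 1 (g v))) ∧
    Nat.card {q : (Fin m ⊕ Fin m → ZMod 2) → ZMod 2 // (∀ u v : (Fin m ⊕ Fin m → ZMod 2), q (u + v) = q u + q v + (Cfsg.quadFormPlus m (ZMod 2) (u + v) - Cfsg.quadFormPlus m (ZMod 2) u - Cfsg.quadFormPlus m (ZMod 2) v)) ∧ ∃ g : (Fin m ⊕ Fin m → ZMod 2) ≃ₗ[ZMod 2] (Fin m ⊕ Fin m → ZMod 2), ∀ v, q v = Cfsg.quadFormPlus m (ZMod 2) (g v)} = 2 ^ (2 * m - 1) + 2 ^ (m - 1) ∧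
    Nat.card {q : (Fin m ⊕ Fin m → ZMod 2) → ZMod 2 // (∀ u v : (Fin m ⊕ Fin m → ZMod 2), q (u + v) = q u + q v + (Cfsg.quadFormPlus m (ZMod 2) (u + v) - Cfsg.quadFormPlus m (ZMod 2) u - Cfsg.quadFormPlus m (ZMod 2) v)) ∧ ∃ g : (Fin m ⊕ Fin m → ZMod 2) ≃ₗ[ZMod 2] ((Fin (m - 1) ⊕ Fin (m - 1)) ⊕ Fin 2 → ZMod 2), ∀ v, q v = Cfsg.quadFormMinus (m - 1) (ZMod 2) 1 1 (g v)} = 2 ^ (2 * m - 1) - 2 ^ (m - 1) := by
  classical
  obtain ⟨k, rfl⟩ : ∃ k, m = k + 1 := ⟨m - 1, by omega⟩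
  let q0 : (Fin (k + 1) ⊕ Fin (k + 1) → ZMod 2) → ZMod 2 := Cfsg.quadFormPlus (k + 1) (ZMod 2)
  have hq0 : Polarizes (k + 1) q0 := fun u v => by
    show Cfsg.quadFormPlus (k + 1) (ZMod 2) (u + v) = _
    ring
  let B := QuadraticMap.polarBilin (plusQ (ZMod 2) (k + 1))
  have hBinj : Function.Injective B.flip := by
    rw [← LinearMap.ker_eq_bot, LinearMap.ker_eq_bot']
    intro w hw
    by_contra hne
    obtain ⟨y, hy⟩ := nondeg_plus (F := ZMod 2) (k + 1) w hne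
    apply hy
    rw [QuadraticMap.polar_comm]
    exact LinearMap.congr_fun hw y
  have hBsurj : Function.Surjective B.flip :=
    (LinearMap.injective_iff_surjective_of_finrank_eq_finrank Subspace.dual_finrank_eq.symm).1 hBinj
  let Φ : (Fin (k + 1) ⊕ Fin (k + 1) → ZMod 2) → {q // Polarizes (k + 1) q} :=
    fun w => ⟨fun v => q0 v + f2 (k + 1) v w, polarizes_translate hq0 w⟩
  have hΦ : Function.Bijective Φ := by
    constructor
    · intro w w' h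
      refine hBinj (LinearMap.ext fun v => ?_)
      have := congrFun (congrArg Subtype.val h) v
      show QuadraticMap.polar (plusQ (ZMod 2) (k + 1)) v w = QuadraticMap.polar (plusQ (ZMod 2) (k + 1)) v w'
      rw [← f2_eq, ← f2_eq]
      exact add_left_cancel this
    · rintro ⟨q, hq⟩
      obtain ⟨w, hw⟩ := hBsurj (AddMonoidHom.toZModLinearMap 2 (AddMonoidHom.mk' (fun v => q v - q0 v) (fun u v => by
        rw [hq u v, hq0 u v]; ring)))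
      refine ⟨w, Subtype.ext (funext fun v => ?_)⟩
      show q0 v + f2 (k + 1) v w = q v
      have : f2 (k + 1) v w = q v - q0 v := by rw [f2_eq]; exact LinearMap.congr_fun hw v
      rw [this]; ring
  have hplus : ∀ w, (∃ g : (Fin (k + 1) ⊕ Fin (k + 1) → ZMod 2) ≃ₗ[ZMod 2] (Fin (k + 1) ⊕ Fin (k + 1) → ZMod 2),
      ∀ v, (Φ w).1 v = q0 (g v)) ↔ q0 w = 0 := fun w => translate_equiv_iff hm hq0 w
  have hmin : ∀ w, (∃ g : (Fin (k + 1) ⊕ Fin (k + 1) → ZMod 2) ≃ₗ[ZMod 2] ((Fin (k + 1 - 1) ⊕ Fin (k + 1 - 1)) ⊕ Fin 2 → ZMod 2),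
      ∀ v, (Φ w).1 v = Cfsg.quadFormMinus (k + 1 - 1) (ZMod 2) 1 1 (g v)) ↔ q0 w ≠ 0 := by
    intro w
    constructor
    · rintro ⟨g, hg⟩ h0
      obtain ⟨g', hg'⟩ := (hplus w).2 h0
      refine not_equiv_plus_minus k (aniso_of_noRoot (by decide : ∀ t : ZMod 2, t ^ 2 + t + 1 ≠ 0)) ⟨g'.symm.trans g, fun v => ?_⟩
      rw [minusQ_apply, plusQ_apply]
      show Cfsg.quadFormMinus k (ZMod 2) 1 1 (g (g'.symm v)) = q0 v
      exact (hg _).symm.trans ((hg' _).trans (congrArg q0 (g'.apply_symm_apply v)))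
    · intro hne
      obtain ⟨Q, hQe, hQ⟩ := exists_form (Φ w).2
      rcases classify_even k Q hQ (by simp; ring) with ⟨e, he⟩ | ⟨ζ, hζ, e, he⟩
      · exact absurd ((hplus w).1 ⟨e, fun v => by rw [← hQe]; exact (he v).symm.trans (plusQ_apply _ _)⟩) hne
      · have hz : ζ = 1 := by
          by_contra h1
          have : ∀ a : ZMod 2, a ≠ 1 → a = 0 := by decide
          exact hζ 0 (by rw [this ζ h1]; ring)
        subst hz
        exact ⟨e, fun v => by rw [← hQe]; exact (he v).symm.trans (minusQ_apply _ _ _ _)⟩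
  have hn : (2 : ℤ) * Nat.card {v // q0 v = 0} = 2 ^ (2 * (k + 1)) + 2 ^ (k + 1) := by
    have hc := card_zero_plus (F := ZMod 2) (k + 1)
    rw [ZMod.card] at hc
    simp only [plusQ_apply] at hc
    push_cast at hc
    rw [hc]; ring
  have htot : Nat.card {v // q0 v = 0} + Nat.card {v // q0 v ≠ 0} = 2 ^ (2 * (k + 1)) := by
    rw [← Nat.card_sum, Nat.card_congr (Equiv.sumCompl (fun v => q0 v = 0)), Nat.card_fun, Nat.card_sum, Nat.card_fin,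
      Nat.card_zmod, two_mul]
  have hN : Nat.card {v // q0 v = 0} = 2 ^ (2 * k + 1) + 2 ^ k := by
    have : (Nat.card {v // q0 v = 0} : ℤ) = 2 ^ (2 * k + 1) + 2 ^ k := by
      refine mul_left_cancel₀ (two_ne_zero (α := ℤ)) ?_
      rw [hn]; ring
    exact_mod_cast this
  refine ⟨?_, ?_, ?_, ?_⟩
  · refine (Nat.card_congr (Equiv.ofBijective Φ hΦ)).symm.trans ?_
    rw [Nat.card_fun, Nat.card_sum, Nat.card_fin, Nat.card_zmod, two_mul]
  · intro q hq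
    obtain ⟨w, hw⟩ := hΦ.2 ⟨q, hq⟩
    have hv : (Φ w).1 = q := congrArg Subtype.val hw
    rw [← hv]
    by_cases h0 : q0 w = 0
    · exact Or.inl ((hplus w).2 h0)
    · exact Or.inr ((hmin w).2 h0)
  · let e := (Equiv.ofBijective Φ hΦ).subtypeEquiv (p := fun w => q0 w = 0)
      (q := fun q => ∃ g : (Fin (k + 1) ⊕ Fin (k + 1) → ZMod 2) ≃ₗ[ZMod 2] (Fin (k + 1) ⊕ Fin (k + 1) → ZMod 2), ∀ v, q.1 v = q0 (g v))
      (fun w => (hplus w).symm)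
    refine (Nat.card_congr (e.trans (Equiv.subtypeSubtypeEquivSubtypeInter (Polarizes (k + 1)) (fun q => ∃ g : (Fin (k + 1) ⊕ Fin (k + 1) → ZMod 2) ≃ₗ[ZMod 2] (Fin (k + 1) ⊕ Fin (k + 1) → ZMod 2), ∀ v, q v = q0 (g v))))).symm.trans ?_
    rw [hN,
      show 2 * (k + 1) - 1 = 2 * k + 1 by omega, Nat.add_sub_cancel]
  · let e := (Equiv.ofBijective Φ hΦ).subtypeEquiv (p := fun w => q0 w ≠ 0)
      (q := fun q => ∃ g : (Fin (k + 1) ⊕ Fin (k + 1) → ZMod 2) ≃ₗ[ZMod 2] ((Fin (k + 1 - 1) ⊕ Fin (k + 1 - 1)) ⊕ Fin 2 → ZMod 2), ∀ v, q.1 v = Cfsg.quadFormMinus (k + 1 - 1) (ZMod 2) 1 1 (g v))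
      (fun w => (hmin w).symm)
    refine (Nat.card_congr (e.trans (Equiv.subtypeSubtypeEquivSubtypeInter (Polarizes (k + 1)) (fun q => ∃ g : (Fin (k + 1) ⊕ Fin (k + 1) → ZMod 2) ≃ₗ[ZMod 2] ((Fin (k + 1 - 1) ⊕ Fin (k + 1 - 1)) ⊕ Fin 2 → ZMod 2), ∀ v, q v = Cfsg.quadFormMinus (k + 1 - 1) (ZMod 2) 1 1 (g v))))).symm.trans ?_
    rw [
      show 2 * (k + 1) - 1 = 2 * k + 1 by omega, Nat.add_sub_cancel]
    have e1 : 2 ^ (2 * (k + 1)) = 2 ^ (2 * k + 1) + 2 ^ (2 * k + 1) := by ring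
    omega

end Cfsg.Agent.S2561
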