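import Cfsg.Statements.S2562
import Cfsg.Agent.Lib.QuadClass.Basis
open CfsgLib.QuadClass CfsgLib.Orth.Models CfsgLib.Orth.Hyperbolic CfsgLib.Orth.Binary

set_option autoImplicit false
open Cfsg

namespace Cfsg.Agent.S2562

/-- Witt indices over the field of two elements, m ≥ 1: for the plus-type form Σ xᵢyᵢ in dimension 2m some m-dimensional subspace is totally singular and no totally singular subspace has larger dimension; for the minus-type form Σ xᵢyᵢ + (z₁² + z₁z₂ + z₂²) in dimension 2m the maximal dimension of a totally singular subspace is m − 1. -/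
theorem result (m : ℕ) (hm : 1 ≤ m) :
    (∃ U : Submodule (ZMod 2) (Fin m ⊕ Fin m → ZMod 2), (∀ u ∈ U, Cfsg.quadFormPlus m (ZMod 2) u = 0) ∧ Module.finrank (ZMod 2) ↥U = m) ∧
    (∀ U : Submodule (ZMod 2) (Fin m ⊕ Fin m → ZMod 2), (∀ u ∈ U, Cfsg.quadFormPlus m (ZMod 2) u = 0) → Module.finrank (ZMod 2) ↥U ≤ m) ∧
    (∃ U : Submodule (ZMod 2) ((Fin (m - 1) ⊕ Fin (m - 1)) ⊕ Fin 2 → ZMod 2), (∀ u ∈ U, Cfsg.quadFormMinus (m - 1) (ZMod 2) 1 1 u = 0) ∧ Module.finrank (ZMod 2) ↥U = m - 1) ∧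
    (∀ U : Submodule (ZMod 2) ((Fin (m - 1) ⊕ Fin (m - 1)) ⊕ Fin 2 → ZMod 2), (∀ u ∈ U, Cfsg.quadFormMinus (m - 1) (ZMod 2) 1 1 u = 0) → Module.finrank (ZMod 2) ↥U ≤ m - 1) := by
  obtain ⟨k, rfl⟩ : ∃ k, m = k + 1 := ⟨m - 1, by omega⟩
  have hab : Aniso (1 : ZMod 2) 1 := aniso_of_noRoot (by decide)
  refine ⟨?_, fun U hU => plus_singular_le _ U (fun u hu => (plusQ_apply _ u).trans (hU u hu)), ?_,
    fun U hU => minus_singular_le hab U (fun u hu => (minusQ_apply _ _ _ u).trans (hU u hu))⟩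
  · obtain ⟨U, hU, hd⟩ := plus_exists_singular (F := ZMod 2) (k + 1)
    exact ⟨U, fun u hu => (plusQ_apply _ u).symm.trans (hU u hu), hd⟩
  · obtain ⟨U, hU, hd⟩ := plus_exists_singular (F := ZMod 2) k
    let ι : (Fin k ⊕ Fin k → ZMod 2) →ₗ[ZMod 2] ((Fin k ⊕ Fin k) ⊕ Fin 2 → ZMod 2) :=
      { toFun := fun x => Sum.elim x 0
        map_add' := fun x y => by funext j; rcases j with j | j <;> simp
        map_smul' := fun c x => by funext j; rcases j with j | j <;> simp }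
    refine ⟨U.map ι, ?_, ?_⟩
    · rintro _ ⟨u, hu, rfl⟩
      have := (plusQ_apply _ u).symm.trans (hU u hu)
      show Cfsg.quadFormMinus k (ZMod 2) 1 1 (Sum.elim u 0) = 0
      simpa [Cfsg.quadFormMinus, Cfsg.quadFormPlus] using this
    · refine (LinearEquiv.finrank_eq (Submodule.equivMapOfInjective ι (fun x y h => funext fun j => congrFun h (Sum.inl j)) U)).symm.trans ?_
      simpa using hd

end Cfsg.Agent.S2562
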