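import Cfsg.Statements.S2566
import Cfsg.Agent.S0287

set_option autoImplicit false
open Cfsg

namespace Cfsg.Agent.S2566

open scoped Matrix

abbrev I := Fin 2 ⊕ Fin 2
abbrev K := ZMod 2

def pos : Fin 2 → Fin 3 := ![0, 2]
def rho (σ : Equiv.Perm (Fin 3)) (i j : Fin 2) : K :=
  if σ.symm (pos i) = j.castSucc ∨ σ.symm (pos i) = j.succ then 1 else 0
def row : I → Fin 2 := Sum.elim (fun _ => 0) (fun _ => 1)
def col : I → Fin 2 := Sum.elim id (fun j => 1 - j)
def lm (σ : Equiv.Perm (Fin 3)) : Matrix I I K := fun a b => if col a = col b then rho σ (row a) (row b) else 0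
def rm (σ : Equiv.Perm (Fin 3)) : Matrix I I K := fun a b => if row a = row b then rho σ (col a) (col b) else 0
def sw : I → I := Sum.elim ![Sum.inl 0, Sum.inr 1] ![Sum.inr 0, Sum.inl 1]
def tm : Matrix I I K := fun a b => if b = sw a then 1 else 0

theorem rules : (∀ σ τ, lm (σ * τ) = lm σ * lm τ) ∧ (∀ σ τ, rm (σ * τ) = rm σ * rm τ) ∧ lm 1 = 1 ∧ rm 1 = 1 := by
  decide +kernel

theorem rules2 : (∀ σ τ, lm σ * rm τ = rm τ * lm σ) ∧ (∀ σ τ, lm σ = rm τ → σ = 1) ∧ tm * tm = 1 ∧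
    (∀ σ, tm * lm σ * tm = rm σ) ∧ (∀ σ, lm σ = 1 → σ = 1) ∧ (∀ σ, rm σ = 1 → σ = 1) := by decide +kernel

theorem pres : (∀ σ v, Cfsg.quadFormPlus 2 K (lm σ *ᵥ v) = Cfsg.quadFormPlus 2 K v) ∧
    (∀ σ v, Cfsg.quadFormPlus 2 K (rm σ *ᵥ v) = Cfsg.quadFormPlus 2 K v) ∧
    (∀ v, Cfsg.quadFormPlus 2 K (tm *ᵥ v) = Cfsg.quadFormPlus 2 K v) := by decide +kernel

/-- The full orthogonal group of the plus-type form x₁y₁ + x₂y₂ in dimension 4 over the field of two elements has order 72 and is isomorphic to the wreath product of the symmetric group of degree 3 by a group of order 2: it has a normal subgroup isomorphic to the direct product of two symmetric groups of degree 3, of index 2, whose two direct factors are interchanged by conjugation by some element. -/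
theorem result :
    Nat.card ↥(Cfsg.isometryGroup (ZMod 2) (Cfsg.quadFormPlus 2 (ZMod 2))) = 72 ∧
    ∃ (A B : Subgroup ↥(Cfsg.isometryGroup (ZMod 2) (Cfsg.quadFormPlus 2 (ZMod 2)))),
      Nonempty (↥A ≃* Equiv.Perm (Fin 3)) ∧ Nonempty (↥B ≃* Equiv.Perm (Fin 3)) ∧ A ⊓ B = ⊥ ∧ (∀ a ∈ A, ∀ b ∈ B, a * b = b * a) ∧
      (A ⊔ B).index = 2 ∧ ∃ g : ↥(Cfsg.isometryGroup (ZMod 2) (Cfsg.quadFormPlus 2 (ZMod 2))), A.map (MulAut.conj g).toMonoidHom = B := by
  classical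
  haveI : Fact (Nat.Prime 2) := ⟨Nat.prime_two⟩
  have hcard : Nat.card ↥(Cfsg.isometryGroup (ZMod 2) (Cfsg.quadFormPlus 2 (ZMod 2))) = 72 := by
    rw [Cfsg.Agent.S0287.result (F := ZMod 2) (ZMod.card 2) 2 (by norm_num)]
    decide +kernel
  refine ⟨hcard, ?_⟩
  obtain ⟨⟨l2, r2, l1, r1⟩, hcomm, hdis, t2, tlr, linj, rinj⟩ := And.intro rules rules2
  let mk : ∀ (f : Equiv.Perm (Fin 3) → Matrix I I K), (∀ σ τ, f (σ * τ) = f σ * f τ) → f 1 = 1 →
      (∀ σ v, Cfsg.quadFormPlus 2 K (f σ *ᵥ v) = Cfsg.quadFormPlus 2 K v) →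
      (Equiv.Perm (Fin 3) →* ↥(Cfsg.isometryGroup K (Cfsg.quadFormPlus 2 K))) := fun f h2 h1 hp =>
    MonoidHom.codRestrict ({ toFun := f, map_one' := h1, map_mul' := h2 } : Equiv.Perm (Fin 3) →* Matrix I I K).toHomUnits
      _ fun σ v _ => hp σ v
  let L := mk lm l2 l1 pres.1
  let R := mk rm r2 r1 pres.2.1
  have hL : Function.Injective L := (injective_iff_map_eq_one L).2 fun σ h => linj σ (congrArg (fun g => g.1.1) h)
  have hR : Function.Injective R := (injective_iff_map_eq_one R).2 fun σ h => rinj σ (congrArg (fun g => g.1.1) h)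
  let t : ↥(Cfsg.isometryGroup K (Cfsg.quadFormPlus 2 K)) := ⟨⟨tm, tm, t2, t2⟩, fun v _ => pres.2.2 v⟩
  refine ⟨L.range, R.range, ⟨(MonoidHom.ofInjective hL).symm⟩, ⟨(MonoidHom.ofInjective hR).symm⟩, ?_, ?_, ?_, t, ?_⟩
  · rw [eq_bot_iff]
    rintro x ⟨⟨σ, rfl⟩, ⟨τ, hτ⟩⟩
    rw [Subgroup.mem_bot, hdis σ τ (congrArg (fun g => g.1.1) hτ).symm, map_one]
  · rintro _ ⟨σ, rfl⟩ _ ⟨τ, rfl⟩
    exact Subtype.ext (Units.ext (hcomm σ τ))
  · let Φ : Equiv.Perm (Fin 3) × Equiv.Perm (Fin 3) →* ↥(Cfsg.isometryGroup K (Cfsg.quadFormPlus 2 K)) :=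
      L.noncommCoprod R fun σ τ => Subtype.ext (Units.ext (hcomm σ τ))
    have hΦ : Φ.range = L.range ⊔ R.range := MonoidHom.noncommCoprod_range L R _
    have hinj : Function.Injective Φ := by
      refine (injective_iff_map_eq_one Φ).2 fun p h => ?_
      obtain ⟨σ, τ⟩ := p
      have h' : L σ * R τ = 1 := h
      have h'' : L σ = R τ⁻¹ := by rw [map_inv]; exact eq_inv_of_mul_eq_one_left h'
      have hs := hdis σ τ⁻¹ (congrArg (fun g => g.1.1) h'')
      subst hs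
      rw [map_one, one_mul] at h'
      exact Prod.ext rfl (hR (h'.trans (map_one R).symm))
    have h := (L.range ⊔ R.range).index_mul_card
    rw [← hΦ, ← Nat.card_congr (MonoidHom.ofInjective hinj).toEquiv, hcard, Nat.card_prod, Nat.card_perm, Nat.card_fin] at h
    rw [← hΦ]
    simp only [Nat.factorial] at h
    omega
  · rw [MonoidHom.map_range]
    refine congrArg _ (MonoidHom.ext fun σ => Subtype.ext (Units.ext ?_))
    exact tlr σ

end Cfsg.Agent.S2566
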