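import Cfsg.Statements.S2567
import Mathlib.LinearAlgebra.Matrix.GeneralLinearGroup.Basic
import Mathlib.GroupTheory.OrderOfElement
import Mathlib.GroupTheory.QuotientGroup.Basic
import Mathlib.FieldTheory.Finite.Basic

set_option autoImplicit false
open Cfsg

namespace Cfsg.Agent.S2567

/-- Lifting elements of prime order from PGL to GL: let F be a finite field with q elements, r a prime not dividing q − 1, and x an element of order r in GL_n(F) modulo its centre (the scalar matrices). Then x has exactly one preimage in GL_n(F) of order r. -/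
theorem result {F : Type*} [Field F] [Fintype F] {q n r : ℕ} (hF : Fintype.card F = q) (hr : r.Prime) (hdiv : ¬ r ∣ q - 1) (x : GL (Fin n) F ⧸ Subgroup.center (GL (Fin n) F)) (hx : orderOf x = r) : ∃! g : GL (Fin n) F, (QuotientGroup.mk g : GL (Fin n) F ⧸ Subgroup.center (GL (Fin n) F)) = x ∧ orderOf g = r := by
  classical
  obtain ⟨g₀, rfl⟩ := QuotientGroup.mk_surjective x
  have hZdvd : Nat.card (Subgroup.center (GL (Fin n) F)) ∣ q - 1 := by
    rw [Matrix.GeneralLinearGroup.center_eq_range_scalar, ← hF, ← Fintype.card_units,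
      ← Nat.card_eq_fintype_card]
    exact Subgroup.card_range_dvd _
  have hcop : (Nat.card (Subgroup.center (GL (Fin n) F))).Coprime r :=
    ((hr.coprime_iff_not_dvd.mpr fun h => hdiv (h.trans hZdvd)).symm)
  haveI : Finite (GL (Fin n) F) := inferInstance
  have hz : g₀ ^ r ∈ Subgroup.center (GL (Fin n) F) := by
    rw [← QuotientGroup.eq_one_iff, QuotientGroup.mk_pow, ← hx, pow_orderOf_eq_one]
  obtain ⟨w, hw⟩ := (powCoprime hcop).surjective ⟨g₀ ^ r, hz⟩
  have hw' : (w : GL (Fin n) F) ^ r = g₀ ^ r := congrArg Subtype.val hw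
  have hcomm : Commute g₀ ((w : GL (Fin n) F)⁻¹) :=
    (Commute.inv_right (Subgroup.mem_center_iff.mp w.2 g₀))
  refine ⟨g₀ * (w : GL (Fin n) F)⁻¹, ⟨?_, ?_⟩, ?_⟩
  · rw [QuotientGroup.mk_mul, (QuotientGroup.eq_one_iff _).mpr (inv_mem w.2), mul_one]
  · haveI := Fact.mk hr
    refine orderOf_eq_prime ?_ ?_
    · rw [hcomm.mul_pow, inv_pow, hw', mul_inv_cancel]
    · intro h
      apply hr.ne_one
      rw [← hx, orderOf_eq_one_iff, QuotientGroup.eq_one_iff, mul_inv_eq_one.mp h]
      exact w.2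
  · rintro g ⟨hg, hgr⟩
    have hgr' : g ^ r = 1 := by rw [← hgr, pow_orderOf_eq_one]
    have hv : g₀⁻¹ * g ∈ Subgroup.center (GL (Fin n) F) :=
      (QuotientGroup.eq).mp hg.symm
    have h2 : (⟨g₀⁻¹ * g, hv⟩ : Subgroup.center (GL (Fin n) F)) = w⁻¹ := by
      apply (powCoprime hcop).injective
      apply Subtype.ext
      have hc : Commute g₀ (g₀⁻¹ * g) := (Subgroup.mem_center_iff.mp hv g₀)
      show (g₀⁻¹ * g) ^ r = ((w : GL (Fin n) F)⁻¹) ^ r
      have h3 := hc.mul_pow r
      rw [mul_inv_cancel_left, hgr'] at h3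
      rw [inv_pow, hw', eq_inv_iff_mul_eq_one]
      have h4 := (hc.pow_pow r r).eq
      rw [← h4, ← h3]
    have h2' : g₀⁻¹ * g = (w : GL (Fin n) F)⁻¹ := congrArg Subtype.val h2
    rw [← h2', mul_inv_cancel_left]

end Cfsg.Agent.S2567
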