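import Cfsg.Statements.S2568
import Mathlib
import Cfsg.Agent.Lib.Semisimple.CharpolyConj

set_option autoImplicit false
open Cfsg

namespace Cfsg.Agent.S2568


open Polynomial UniqueFactorizationMonoid in
theorem realize {F : Type*} [Field F] (r : ℕ) (s : Multiset F[X])
    (hs : ∀ φ ∈ s, φ.Monic ∧ Irreducible φ ∧ φ ∣ X ^ r - 1) :
    ∀ m : ℕ, (s.map natDegree).sum = m → ∃ A : Matrix (Fin m) (Fin m) F, A ^ r = 1 ∧ A.charpoly = s.prod := by
  classical
  induction s using Multiset.induction with
  | empty =>
    intro m hm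
    simp only [Multiset.map_zero, Multiset.sum_zero] at hm
    subst hm
    exact ⟨0, Subsingleton.elim _ _, by rw [Multiset.prod_zero, Matrix.charpoly, Matrix.det_isEmpty]⟩
  | cons φ s ih =>
    intro m hm
    obtain ⟨hmon, hirr, hdvd⟩ := hs φ (Multiset.mem_cons_self _ _)
    obtain ⟨B, hB, hBc⟩ := ih (fun ψ h => hs ψ (Multiset.mem_cons_of_mem h)) _ rfl
    rw [Multiset.map_cons, Multiset.sum_cons] at hm
    let pb := AdjoinRoot.powerBasis hmon.ne_zero
    let A := Algebra.leftMulMatrix pb.basis pb.gen
    have hA : A ^ r = 1 := by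
      rw [← map_pow]
      have h1 : (AdjoinRoot.root φ) ^ r - 1 = 0 := by
        have h2 := AdjoinRoot.mk_eq_zero.2 hdvd
        simpa using h2
      rw [show pb.gen = AdjoinRoot.root φ from AdjoinRoot.powerBasis_gen _, sub_eq_zero.1 h1, map_one]
    have hAc : A.charpoly = φ := by
      rw [charpoly_leftMulMatrix]
      exact AdjoinRoot.minpoly_powerBasis_gen_of_monic hmon
    have hdim : pb.dim = φ.natDegree := AdjoinRoot.powerBasis_dim _
    let e : Fin pb.dim ⊕ Fin (s.map natDegree).sum ≃ Fin m := finSumFinEquiv.trans (finCongr (by omega))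
    refine ⟨Matrix.reindexAlgEquiv F F e (Matrix.fromBlocks A 0 0 B), ?_, ?_⟩
    · rw [← map_pow, Matrix.fromBlocks_diagonal_pow, hA, hB, Matrix.fromBlocks_one, map_one]
    · rw [Matrix.reindexAlgEquiv_apply, Matrix.charpoly_reindex, Matrix.charpoly_fromBlocks_zero₁₂, hAc, hBc, Multiset.prod_cons]

open Polynomial UniqueFactorizationMonoid in
theorem factor_degree {F : Type*} [Field F] [Fintype F] {p : ℕ} [Fact p.Prime] [CharP F p] {r : ℕ}
    (hr : r.Prime) (hrp : r ≠ p) {φ : F[X]} (hmon : φ.Monic) (hirr : Irreducible φ) (hdvd : φ ∣ X ^ r - 1)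
    (hne : φ ≠ X - 1) : φ.natDegree = orderOf (Fintype.card F : ZMod r) := by
  classical
  haveI := Fact.mk hirr
  haveI := Fact.mk hr
  set q := Fintype.card F with hq
  obtain ⟨⟨a, ha0⟩, hpr, ha⟩ := FiniteField.card F p
  let pb := AdjoinRoot.powerBasis hmon.ne_zero
  haveI : Module.Finite F (AdjoinRoot φ) := pb.finite
  haveI : Finite (AdjoinRoot φ) := Module.finite_of_finite F
  haveI : Fintype (AdjoinRoot φ) := Fintype.ofFinite _
  haveI : CharP (AdjoinRoot φ) p := charP_of_injective_algebraMap (algebraMap F (AdjoinRoot φ)).injective p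
  let z := AdjoinRoot.root φ
  have hz : z ^ r = 1 := by
    have h2 := AdjoinRoot.mk_eq_zero.2 hdvd
    exact sub_eq_zero.1 (by simpa using h2)
  have hz1 : z ≠ 1 := by
    intro h
    apply hne
    have h3 : φ ∣ X - 1 := AdjoinRoot.mk_eq_zero.1 (by simpa [z] using sub_eq_zero.2 h)
    have h4 : Irreducible (X - 1 : F[X]) := by simpa using irreducible_X_sub_C (1 : F)
    exact eq_of_monic_of_associated hmon (by simpa using monic_X_sub_C (1 : F)) (hirr.associated_of_dvd h4 h3)
  have hord : orderOf z = r := orderOf_eq_prime hz hz1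
  have hcard : Fintype.card (AdjoinRoot φ) = q ^ φ.natDegree := by
    rw [Module.card_eq_pow_finrank (K := F), pb.finrank, AdjoinRoot.powerBasis_dim]
  have hrq : (q : ZMod r) ≠ 0 := by
    intro h
    rw [ZMod.natCast_eq_zero_iff, hq, ha] at h
    exact hrp ((Nat.prime_dvd_prime_iff_eq hr hpr).1 (hr.dvd_of_dvd_pow h))
  set i := orderOf (q : ZMod r) with hi
  have hdvd1 : i ∣ φ.natDegree := by
    apply orderOf_dvd_of_pow_eq_one
    have h1 : r ∣ q ^ φ.natDegree - 1 := by
      rw [← hord, ← hcard]
      exact orderOf_dvd_of_pow_eq_one (FiniteField.pow_card_sub_one_eq_one z (fun h => by rw [h] at hz; simp [hr.ne_zero] at hz))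
    have h2 : (1 : ℕ) ≡ q ^ φ.natDegree [MOD r] := (Nat.modEq_iff_dvd' (Nat.one_le_pow _ _ Fintype.card_pos)).2 h1
    have h3 := (ZMod.natCast_eq_natCast_iff _ _ _).2 h2
    push_cast at h3
    exact h3.symm
  have hipos : 0 < i := orderOf_pos_iff.2 (isOfFinOrder_iff_pow_eq_one.2 ⟨r - 1, by have := hr.two_le; omega, ZMod.pow_card_sub_one_eq_one hrq⟩)
  set Q := q ^ i with hQ
  have hQp : Q = p ^ (a * i) := by rw [hQ, hq, ha, ← pow_mul]; rfl
  have hzQ : z ^ Q = z := by
    have h2 : r ∣ Q - 1 := by
      have h3 : ((1 : ℕ) : ZMod r) = (Q : ℕ) := by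
        rw [Nat.cast_one, hQ, Nat.cast_pow]; exact (pow_orderOf_eq_one _).symm
      exact (Nat.modEq_iff_dvd' (Nat.one_le_pow _ _ Fintype.card_pos)).1 ((ZMod.natCast_eq_natCast_iff _ _ _).1 h3)
    obtain ⟨c, hc⟩ := h2
    rw [show Q = r * c + 1 by have : 1 ≤ Q := Nat.one_le_pow _ _ Fintype.card_pos; omega, pow_succ, pow_mul, hz, one_pow, one_mul]
  have hall : ∀ x : AdjoinRoot φ, x ^ Q = x := by
    intro x
    induction x using AdjoinRoot.induction_on with
    | _ g =>
      induction g using Polynomial.induction_on' with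
      | add u v hu hv => rw [map_add, hQp, add_pow_char_pow, ← hQp, hu, hv]
      | monomial k c =>
        rw [← C_mul_X_pow_eq_monomial, map_mul, map_pow, AdjoinRoot.mk_X, AdjoinRoot.mk_C, mul_pow, ← pow_mul,
          mul_comm k Q, pow_mul, hzQ, ← map_pow, hQ, hq, FiniteField.pow_card_pow]
  have hle : Fintype.card (AdjoinRoot φ) ≤ Q := by
    have hQ1 : 1 < Q := Nat.one_lt_pow hipos.ne' Fintype.one_lt_card
    have h1 : (Finset.univ : Finset (AdjoinRoot φ)).val ⊆ (X ^ Q - X : (AdjoinRoot φ)[X]).roots := by
      intro x _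
      rw [mem_roots (FiniteField.X_pow_card_sub_X_ne_zero _ hQ1)]
      simp [IsRoot, hall x]
    have h2 := card_le_degree_of_subset_roots h1
    rw [Finset.card_univ, FiniteField.X_pow_card_sub_X_natDegree_eq _ hQ1] at h2
    exact h2
  rw [hcard, hQ] at hle
  have h1 := (Nat.pow_le_pow_iff_right Fintype.one_lt_card).1 hle
  have h2 := Nat.le_of_dvd hirr.natDegree_pos hdvd1
  omega


/-- Number of conjugacy classes of elements of a given prime order r, coprime to the characteristic, in GL_n(q): if i is the multiplicative order of q modulo r and t = (r − 1)/i, the classes correspond to the non-zero t-tuples of natural numbers (a_1, …, a_t) with i(a_1 + ⋯ + a_t) ≤ n (a_j is the multiplicity of the j-th Frobenius orbit of nontrivial r-th roots of unity among the eigenvalues), so there are exactly C(⌊n/i⌋ + t, t) − 1 of them. -/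
theorem result {F : Type*} [Field F] [Fintype F] {p q : ℕ} [Fact p.Prime] [CharP F p] (hF : Fintype.card F = q) (n r i t : ℕ) (hr : r.Prime) (hrp : r ≠ p) (hi : i = orderOf (q : ZMod r)) (ht : t * i = r - 1) : Nat.card {C : ConjClasses (GL (Fin n) F) // ∃ g : GL (Fin n) F, ConjClasses.mk g = C ∧ orderOf g = r} = Nat.choose (n / i + t) t - 1 := by
  classical
  haveI := Fact.mk hr
  haveI hfinG : Finite (GL (Fin n) F) := inferInstance
  have hrF : (r : F) ≠ 0 := by
    rw [Ne, CharP.cast_eq_zero_iff F p]
    exact fun h => hrp ((Nat.prime_dvd_prime_iff_eq Fact.out hr).1 h).symm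
  let P₀ : Polynomial F := Polynomial.X ^ r - 1
  have hP0m : P₀.Monic := by simpa [P₀] using Polynomial.monic_X_pow_sub_C (1 : F) hr.ne_zero
  let one' : Polynomial F := Polynomial.X - 1
  let Ψ := (UniqueFactorizationMonoid.normalizedFactors P₀).toFinset
  have hΨ : ∀ φ, φ ∈ Ψ ↔ φ.Monic ∧ Irreducible φ ∧ φ ∣ P₀ := by
    intro φ
    rw [Multiset.mem_toFinset, Polynomial.mem_normalizedFactors_iff hP0m.ne_zero]
    tauto
  have honem : one'.Monic := by simpa [one'] using Polynomial.monic_X_sub_C (1 : F)
  have hone : one' ∈ Ψ := (hΨ _).2 ⟨honem, by simpa [one'] using Polynomial.irreducible_X_sub_C (1 : F), by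
    simpa [one', P₀] using sub_dvd_pow_sub_pow (Polynomial.X : Polynomial F) 1 r⟩
  have honedeg : one'.natDegree = 1 := by simpa [one'] using Polynomial.natDegree_X_sub_C (1 : F)
  let Φ := Ψ.erase one'
  have hΦdeg : ∀ φ ∈ Φ, φ.natDegree = i := by
    intro φ hφ
    obtain ⟨hne, hφ'⟩ := Finset.mem_erase.1 hφ
    obtain ⟨h1, h2, h3⟩ := (hΨ φ).1 hφ'
    rw [hi, ← hF]
    exact factor_degree hr hrp h1 h2 h3 hne
  have hipos : 0 < i := by
    by_contra h
    rw [Nat.eq_zero_of_not_pos h, mul_zero] at ht
    have := hr.two_le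
    omega
  have hsum : ∑ φ ∈ Ψ, φ.natDegree = r := by
    have hsq : Squarefree P₀ := (Polynomial.separable_X_pow_sub_C (1 : F) hrF one_ne_zero).squarefree |> (by simpa [P₀] using ·)
    have hnd := (UniqueFactorizationMonoid.squarefree_iff_nodup_normalizedFactors hP0m.ne_zero).1 hsq
    have hprod := UniqueFactorizationMonoid.prod_normalizedFactors_eq hP0m.ne_zero
    rw [hP0m.normalize_eq_self] at hprod
    have h := congrArg Polynomial.natDegree hprod
    rw [Polynomial.natDegree_multiset_prod_of_monic _ (fun f hf => ((hΨ f).1 (Multiset.mem_toFinset.2 hf)).1)] at h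
    have h' : P₀.natDegree = r := by simpa [P₀] using Polynomial.natDegree_X_pow_sub_C (n := r) (r := (1 : F))
    rw [h'] at h
    rw [Finset.sum]
    rw [show Ψ.val = UniqueFactorizationMonoid.normalizedFactors P₀ from Multiset.toFinset_val _ |>.trans (Multiset.dedup_eq_self.2 hnd)]
    exact h
  have hΦcard : Φ.card = t := by
    rw [← Finset.add_sum_erase _ _ hone, Finset.sum_congr rfl hΦdeg, Finset.sum_const, smul_eq_mul, honedeg] at hsum
    exact Nat.eq_of_mul_eq_mul_right hipos (by rw [ht]; change Φ.card * i = r - 1; change 1 + Φ.card * i = r at hsum; omega)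
  -- realisable factor multisets
  let T := {s : Multiset (Polynomial F) // (∀ φ ∈ s, φ ∈ Ψ) ∧ (s.map Polynomial.natDegree).sum = n}
  let A := {C : ConjClasses (GL (Fin n) F) // ∃ g : GL (Fin n) F, ConjClasses.mk g = C ∧ g ^ r = 1}
  have hrealize : ∀ s : T, ∃ g : GL (Fin n) F, g ^ r = 1 ∧ (g : Matrix (Fin n) (Fin n) F).charpoly = s.1.prod := by
    intro s
    obtain ⟨M, hM, hMc⟩ := realize r s.1 (fun φ hφ => (hΨ φ).1 (s.2.1 φ hφ)) n s.2.2
    exact ⟨Units.ofPowEqOne M r hM hr.ne_zero, Units.ext (by simpa using hM), hMc⟩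
  choose G hG hGc using hrealize
  let f : T → A := fun s => ⟨ConjClasses.mk (G s), G s, rfl, hG s⟩
  have hnf : ∀ s : T, UniqueFactorizationMonoid.normalizedFactors s.1.prod = s.1 := by
    intro s
    rw [UniqueFactorizationMonoid.normalizedFactors_prod_eq _ (fun a ha => ((hΨ a).1 (s.2.1 a ha)).2.1)]
    conv_rhs => rw [← Multiset.map_id s.1]
    exact Multiset.map_congr rfl fun a ha => ((hΨ a).1 (s.2.1 a ha)).1.normalize_eq_self
  have hf : Function.Bijective f := by
    constructor
    · intro s s' h
      obtain ⟨c, hc⟩ := isConj_iff.1 (ConjClasses.mk_eq_mk_iff_isConj.1 (congrArg Subtype.val h))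
      have h1 : s.1.prod = s'.1.prod := by
        rw [← hGc, ← hGc, ← hc, Units.val_mul, Units.val_mul, Matrix.coe_units_inv, Matrix.charpoly_units_conj]
      exact Subtype.ext (by rw [← hnf s, h1, hnf s'])
    · rintro ⟨C, g, rfl, hg⟩
      set χ := (g : Matrix (Fin n) (Fin n) F).charpoly with hχ
      have hχm : χ.Monic := Matrix.charpoly_monic _
      have hfac : ∀ φ ∈ UniqueFactorizationMonoid.normalizedFactors χ, φ ∈ Ψ := by
        intro φ hφ
        obtain ⟨hirr, hmon, hdvd⟩ := (Polynomial.mem_normalizedFactors_iff hχm.ne_zero).1 hφ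
        refine (hΨ φ).2 ⟨hmon, hirr, ?_⟩
        haveI := Fact.mk hirr
        apply AdjoinRoot.mk_eq_zero.1
        let ι := algebraMap F (AdjoinRoot φ)
        let z := AdjoinRoot.root φ
        let gL := ι.mapMatrix (g : Matrix (Fin n) (Fin n) F)
        have hroot : (Matrix.scalar (Fin n) z - gL).det = 0 := by
          rw [← Matrix.eval_charpoly]
          show ((g : Matrix (Fin n) (Fin n) F).map ι).charpoly.eval z = 0
          rw [Matrix.charpoly_map, ← hχ]
          obtain ⟨c, hc⟩ := hdvd
          rw [hc, Polynomial.map_mul, Polynomial.eval_mul, Polynomial.eval_map]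
          show φ.eval₂ (AdjoinRoot.of φ) (AdjoinRoot.root φ) * _ = 0
          rw [AdjoinRoot.eval₂_root, zero_mul]
        have hgL : gL ^ r = 1 := by rw [← map_pow, ← Units.val_pow_eq_pow_val, hg, Units.val_one, map_one]
        obtain ⟨M, hM⟩ := (Matrix.scalar_commute z (fun _ => Commute.all _ _) gL).sub_dvd_pow_sub_pow r
        have hdet : (Matrix.scalar (Fin n) (z ^ r - 1)).det = 0 := by
          rw [map_sub, map_pow, map_one, ← hgL, hM, Matrix.det_mul, hroot, zero_mul]
        rw [Matrix.scalar_apply, Matrix.det_diagonal, Finset.prod_const] at hdet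
        simpa [P₀] using eq_zero_of_pow_eq_zero hdet
      have hprod : (UniqueFactorizationMonoid.normalizedFactors χ).prod = χ := by
        rw [UniqueFactorizationMonoid.prod_normalizedFactors_eq hχm.ne_zero, hχm.normalize_eq_self]
      have hdeg : ((UniqueFactorizationMonoid.normalizedFactors χ).map Polynomial.natDegree).sum = n := by
        rw [← Polynomial.natDegree_multiset_prod_of_monic _ (fun f hf => ((hΨ f).1 (hfac f hf)).1), hprod, hχ,
          Matrix.charpoly_natDegree_eq_dim, Fintype.card_fin]
      let s : T := ⟨UniqueFactorizationMonoid.normalizedFactors χ, hfac, hdeg⟩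
      refine ⟨s, Subtype.ext (ConjClasses.mk_eq_mk_iff_isConj.2 ?_)⟩
      have hss : ∀ x : GL (Fin n) F, x ^ r = 1 →
          Module.End.IsSemisimple (Matrix.toLin' (x : Matrix (Fin n) (Fin n) F)) := fun x hx =>
        Module.End.isSemisimple_of_squarefree_aeval_eq_zero
          ((Polynomial.separable_X_pow_sub_C (1 : F) hrF one_ne_zero).squarefree)
          (by
            have : (Matrix.toLin' (x : Matrix (Fin n) (Fin n) F)) ^ r = 1 := by
              rw [← Matrix.toLin'_pow, ← Units.val_pow_eq_pow_val, hx, Units.val_one, Matrix.toLin'_one]; rfl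
            simp [this])
      obtain ⟨e, he⟩ := CfsgLib.Semisimple.CharpolyConj.exists_conj _ _ (hss _ (hG s)) (hss g hg)
        (by rw [Matrix.charpoly_toLin', Matrix.charpoly_toLin', hGc, ← hχ]; exact hprod)
      let E := Matrix.GeneralLinearGroup.toLin.symm (LinearMap.GeneralLinearGroup.ofLinearEquiv e)
      refine isConj_iff.2 ⟨E, ?_⟩
      rw [mul_inv_eq_iff_eq_mul]
      apply Units.ext
      apply Matrix.toLin'.injective
      rw [Units.val_mul, Units.val_mul, Matrix.toLin'_mul, Matrix.toLin'_mul]
      have hE : Matrix.toLin' (E : Matrix (Fin n) (Fin n) F) = (e : (Fin n → F) →ₗ[F] (Fin n → F)) :=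
        Matrix.toLin'_toMatrix' _
      rw [hE]
      exact LinearMap.ext he
  -- count the multisets
  set N := n / i with hN
  have hN1 : N * i ≤ n := Nat.div_mul_le_self n i
  have hN2 : ∀ k, i * k ≤ n → k ≤ N := fun k hk => (Nat.le_div_iff_mul_le hipos).2 (by rw [mul_comm]; exact hk)
  have hred : ∀ (m : Multiset (Option Φ)), (m.filterMap id).card ≤ m.card := by
    intro m
    induction m using Multiset.induction with
    | empty => simp
    | cons a m ih =>
      cases a with
      | none => rw [Multiset.filterMap_cons_none _ _ rfl, Multiset.card_cons]; omega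
      | some b => rw [Multiset.filterMap_cons_some id _ _ rfl, Multiset.card_cons, Multiset.card_cons]; omega
  let Γ : Sym (Option Φ) N → T := fun w =>
    ⟨((w.1.filterMap id).map Subtype.val) + Multiset.replicate (n - i * (w.1.filterMap id).card) one', by
      refine ⟨fun φ hφ => ?_, ?_⟩
      · rcases Multiset.mem_add.1 hφ with h | h
        · obtain ⟨ψ, _, rfl⟩ := Multiset.mem_map.1 h
          exact Finset.mem_of_mem_erase ψ.2
        · rw [Multiset.eq_of_mem_replicate h]; exact hone
      · rw [Multiset.map_add, Multiset.sum_add, Multiset.map_replicate, Multiset.sum_replicate, honedeg,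
          Multiset.map_map, show (Polynomial.natDegree ∘ Subtype.val : Φ → ℕ) = fun _ => i from funext fun ψ => hΦdeg ψ.1 ψ.2, Multiset.map_const', Multiset.sum_replicate,
          smul_eq_mul, smul_eq_mul]
        have h1 : (w.1.filterMap id).card ≤ N := (hred _).trans w.2.le
        have h2 : i * (w.1.filterMap id).card ≤ N * i := by rw [mul_comm N]; exact Nat.mul_le_mul_left _ h1
        rw [mul_comm ((w.1.filterMap id).card)]
        omega⟩
  have hsplitM : ∀ m : Multiset (Option Φ), m = (m.filterMap id).map some + Multiset.replicate (m.card - (m.filterMap id).card) none := by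
    intro m
    induction m using Multiset.induction with
    | empty => simp
    | cons a m ih =>
      cases a with
      | none =>
        rw [Multiset.filterMap_cons_none _ _ rfl, Multiset.card_cons, Nat.sub_add_comm (hred m), Multiset.replicate_succ]
        conv_lhs => rw [ih]
        rw [Multiset.add_cons]
      | some b =>
        rw [Multiset.filterMap_cons_some id _ _ rfl, Multiset.map_cons, Multiset.card_cons, Multiset.card_cons, Nat.add_sub_add_right]
        conv_lhs => rw [ih]
        rw [Multiset.cons_add]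
  have hΓ : Function.Bijective Γ := by
    constructor
    · intro w w' h
      have h' := congrArg (fun s : T => s.1.filter (fun φ => φ ≠ one')) h
      have hflt : ∀ (m : Multiset Φ) (k : ℕ),
          (m.map Subtype.val + Multiset.replicate k one').filter (fun φ => φ ≠ one') = m.map Subtype.val := by
        intro m k
        rw [Multiset.filter_add, Multiset.filter_eq_self.2, Multiset.filter_eq_nil.2, add_zero]
        · intro a ha; simp [Multiset.eq_of_mem_replicate ha]
        · intro a ha
          obtain ⟨ψ, _, rfl⟩ := Multiset.mem_map.1 ha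
          exact (Finset.mem_erase.1 ψ.2).1
      simp only [Γ, hflt] at h'
      have h'' := Multiset.map_injective Subtype.val_injective h'
      apply Subtype.ext
      rw [hsplitM w.1, hsplitM w'.1, h'', w.2, w'.2]
    · intro s
      let m₁ := (s.1.filter (fun φ => φ ≠ one'))
      have hm₁ : ∀ φ ∈ m₁, φ ∈ Φ := fun φ hφ =>
        Finset.mem_erase.2 ⟨(Multiset.mem_filter.1 hφ).2, s.2.1 φ (Multiset.mem_filter.1 hφ).1⟩
      let m : Multiset Φ := m₁.attach.map (fun x => ⟨x.1, hm₁ x.1 x.2⟩)
      have hm : m.map Subtype.val = m₁ := by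
        rw [Multiset.map_map]; exact Multiset.attach_map_val m₁
      have hdec : s.1 = m₁ + Multiset.replicate (Multiset.count one' s.1) one' := by
        conv_lhs => rw [← Multiset.filter_add_not (fun φ => φ ≠ one') s.1]
        rw [← Multiset.filter_eq']
        congr 1
        exact Multiset.filter_congr fun x _ => not_not
      have hdegs := s.2.2
      rw [hdec, Multiset.map_add, Multiset.sum_add, Multiset.map_replicate, Multiset.sum_replicate, honedeg,
        Multiset.map_congr rfl (fun φ hφ => hΦdeg φ (hm₁ φ hφ)), Multiset.map_const', Multiset.sum_replicate,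
        smul_eq_mul, smul_eq_mul, mul_one] at hdegs
      have hcm : m.card = m₁.card := by simp [m]
      have hle : m.card ≤ N := hN2 _ (by rw [hcm, mul_comm]; omega)
      let w : Sym (Option Φ) N := ⟨m.map some + Multiset.replicate (N - m.card) none, by
        rw [Multiset.card_add, Multiset.card_map, Multiset.card_replicate]; omega⟩
      have hw : w.1.filterMap id = m := by
        show (m.map some + Multiset.replicate (N - m.card) (none : Option Φ)).filterMap id = m
        rw [Multiset.filterMap_add, Multiset.filterMap_map]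
        rw [show (Multiset.replicate (N - m.card) (none : Option Φ)).filterMap id = 0 from ?_, add_zero]
        · exact Multiset.filterMap_some m
        · apply Multiset.eq_zero_of_forall_notMem
          intro a ha
          obtain ⟨b, hb, hb'⟩ := (Multiset.mem_filterMap id _).1 ha
          rw [Multiset.eq_of_mem_replicate hb] at hb'
          cases hb'
      refine ⟨w, Subtype.ext ?_⟩
      show (w.1.filterMap id).map Subtype.val + Multiset.replicate (n - i * (w.1.filterMap id).card) one' = s.1
      rw [hw, hm, hcm]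
      conv_rhs => rw [hdec]
      rw [show Multiset.count one' s.1 = n - i * m₁.card by rw [mul_comm i]; omega]
  have hcardA : Nat.card A = (n / i + t).choose t := by
    rw [← Nat.card_congr ((Equiv.ofBijective Γ hΓ).trans (Equiv.ofBijective f hf)), Nat.card_eq_fintype_card,
      Sym.card_sym_eq_choose, Fintype.card_option, Fintype.card_coe, hΦcard]
    rw [show t + 1 + N - 1 = N + t by rw [Nat.add_right_comm, Nat.add_sub_cancel, Nat.add_comm]]
    exact Nat.choose_symm_add
  rw [← hcardA]
  haveI : Finite A := Finite.of_injective Subtype.val Subtype.val_injective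
  let one : A := ⟨ConjClasses.mk 1, 1, rfl, one_pow r⟩
  have h1 : Nat.card {a : A // a ≠ one} = Nat.card A - 1 := by
    haveI : Fintype A := Fintype.ofFinite A
    rw [Nat.card_eq_fintype_card, Fintype.card_subtype_compl, Fintype.card_subtype_eq, Nat.card_eq_fintype_card]
  rw [← h1]
  refine Nat.card_congr
    { toFun := fun C => ⟨⟨C.1, by obtain ⟨g, hg, ho⟩ := C.2; exact ⟨g, hg, ho ▸ pow_orderOf_eq_one g⟩⟩, fun h => by
        obtain ⟨g, hg, ho⟩ := C.2
        have h' : ConjClasses.mk g = ConjClasses.mk 1 := hg.trans (congrArg Subtype.val h)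
        have := isConj_one_left.1 (ConjClasses.mk_eq_mk_iff_isConj.1 h')
        rw [this, orderOf_one] at ho
        exact hr.ne_one ho.symm⟩
      invFun := fun a => ⟨a.1.1, by
        obtain ⟨g, hg, hp⟩ := a.1.2
        refine ⟨g, hg, orderOf_eq_prime hp ?_⟩
        intro h1
        exact a.2 (Subtype.ext (by rw [← hg, h1]))⟩
      left_inv := fun C => rfl
      right_inv := fun a => rfl }

end Cfsg.Agent.S2568
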