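import Cfsg.Statements.S2569
import Cfsg.Agent.Lib.Semisimple.DetCentralizer

set_option autoImplicit false
open Cfsg

namespace Cfsg.Agent.S2569

/-- In GL_n over a finite field of characteristic p, the conjugacy class of a semisimple element (an element of order prime to p) under the special linear group is its whole GL-conjugacy class: for every such x and every invertible g there is h of determinant one with h x h⁻¹ = g x g⁻¹. -/
theorem result {F : Type*} [Field F] [Fintype F] {p : ℕ} [Fact p.Prime] [CharP F p] {n : ℕ} (x g : GL (Fin n) F) (hx : (orderOf x).Coprime p) : ∃ h : GL (Fin n) F, (h : Matrix (Fin n) (Fin n) F).det = 1 ∧ h * x * h⁻¹ = g * x * g⁻¹ := by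
  classical
  rcases Nat.eq_zero_or_pos n with rfl | hn
  · exact ⟨g, Matrix.det_fin_zero, rfl⟩
  haveI : Nonempty (Fin n) := ⟨⟨0, hn⟩⟩
  haveI : Nontrivial (Fin n → F) := inferInstance
  have hm : ((orderOf x : ℕ) : F) ≠ 0 := by
    rw [ne_eq, CharP.cast_eq_zero_iff F p]
    intro h
    exact (Fact.out : p.Prime).ne_one (Nat.eq_one_of_dvd_coprimes hx h dvd_rfl)
  have hpow : (Matrix.toLinAlgEquiv' (x : Matrix (Fin n) (Fin n) F)) ^ orderOf x = 1 := by
    rw [← map_pow, ← Units.val_pow_eq_pow_val, pow_orderOf_eq_one, Units.val_one, map_one]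
  obtain ⟨y, hy, hdet⟩ := CfsgLib.Semisimple.exists_det_commute _ hm hpow (Matrix.GeneralLinearGroup.det g)⁻¹
  have hd : ((Matrix.toLinAlgEquiv').symm y).det = (((Matrix.GeneralLinearGroup.det g)⁻¹ : Fˣ) : F) := by
    rw [← hdet]; exact LinearMap.det_toMatrix' y
  have hc : (Matrix.toLinAlgEquiv').symm y * (x : Matrix (Fin n) (Fin n) F) = (x : Matrix (Fin n) (Fin n) F) * (Matrix.toLinAlgEquiv').symm y := by
    apply (Matrix.toLinAlgEquiv' (R := F) (n := Fin n)).injective
    simp only [map_mul, AlgEquiv.apply_symm_apply]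
    exact hy
  let Y : GL (Fin n) F := Matrix.GeneralLinearGroup.mkOfDetNeZero _ (by rw [hd]; exact Units.ne_zero _)
  have hYx : Commute Y x := Units.ext hc
  refine ⟨g * Y, ?_, ?_⟩
  · show ((g : Matrix (Fin n) (Fin n) F) * (Matrix.toLinAlgEquiv').symm y).det = 1
    rw [Matrix.det_mul, hd]
    exact congrArg Units.val (mul_inv_cancel (Matrix.GeneralLinearGroup.det g))
  · rw [mul_inv_rev, mul_assoc g Y x, hYx.eq]; group

end Cfsg.Agent.S2569
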