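import Cfsg.Statements.S2570
import Mathlib
import Cfsg.Agent.Lib.Unipotent.Basic
import Cfsg.Agent.Lib.Unipotent.NilpotentClasses

set_option autoImplicit false
open Cfsg

namespace Cfsg.Agent.S2570

/-- Number of conjugacy classes of elements of order p in GL_n over a finite field of characteristic p: they correspond to the Jordan types, that is, to the partitions of n with all parts at most p other than the partition into ones, so there are (number of partitions of n with parts ≤ p) − 1 of them. -/
theorem result {F : Type*} [Field F] [Fintype F] {p : ℕ} [Fact p.Prime] [CharP F p] (n : ℕ) : Nat.card {C : ConjClasses (GL (Fin n) F) // ∃ g : GL (Fin n) F, ConjClasses.mk g = C ∧ orderOf g = p} = (Finset.univ.filter (fun μ : Nat.Partition n => ∀ a ∈ μ.parts, a ≤ p)).card - 1 := by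
  classical
  haveI hp := (Fact.out : p.Prime)
  rcases Nat.eq_zero_or_pos n with rfl | hn
  · haveI : IsEmpty {C : ConjClasses (GL (Fin 0) F) // ∃ g : GL (Fin 0) F, ConjClasses.mk g = C ∧ orderOf g = p} :=
      ⟨fun ⟨C, g, _, h⟩ => by
        rw [show g = 1 from Units.ext (Subsingleton.elim _ _), orderOf_one] at h
        exact hp.ne_one h.symm⟩
    rw [Nat.card_of_isEmpty]
    have := Finset.card_le_univ (Finset.univ.filter (fun μ : Nat.Partition 0 => ∀ a ∈ μ.parts, a ≤ p))
    rw [Fintype.card_unique] at this
    omega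
  haveI : NeZero n := ⟨by omega⟩
  have key : ∀ g : GL (Fin n) F, g ^ p = 1 ↔ ((g : Matrix (Fin n) (Fin n) F) - 1) ^ p = 0 := fun g => by
    have := CfsgLib.Unipotent.coe_sub_one_pow p g 1
    rw [pow_one] at this
    exact this.symm
  obtain ⟨e⟩ := CfsgLib.Unipotent.NilpotentClasses.exists_class_equiv (K := F) (n := n)
    (fun g => g ^ p = 1) (fun μ => ∀ a ∈ μ.parts, a ≤ p) (fun g h => ⟨p, (key g).1 h⟩)
    (fun μ g P hP => by
      rw [key, ← CfsgLib.Unipotent.NilpotentClasses.std_pow_eq_zero_iff (K := F)]
      have hpow : ∀ k, ((g : Matrix (Fin n) (Fin n) F) - 1) ^ k * (P : Matrix (Fin n) (Fin n) F) = (P : Matrix (Fin n) (Fin n) F) * CfsgLib.Unipotent.NilpotentClasses.std F μ ^ k := by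
        intro k
        induction k with
        | zero => simp
        | succ j ih => rw [pow_succ, mul_assoc, hP, ← mul_assoc, ih, mul_assoc, ← pow_succ]
      constructor
      · intro h
        have := hpow p
        rw [h, zero_mul] at this
        exact (Units.mul_right_eq_zero P).1 this.symm
      · intro h
        have := hpow p
        rw [h, mul_zero] at this
        exact (Units.mul_left_eq_zero P).1 this)
  let A := {C : ConjClasses (GL (Fin n) F) // ∃ g : GL (Fin n) F, ConjClasses.mk g = C ∧ g ^ p = 1}
  have hA : Nat.card A = (Finset.univ.filter (fun μ : Nat.Partition n => ∀ a ∈ μ.parts, a ≤ p)).card := by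
    rw [← Nat.card_congr e, Nat.card_eq_fintype_card, Fintype.card_subtype]
  haveI : Finite A := Finite.of_equiv _ e
  let one : A := ⟨ConjClasses.mk 1, 1, rfl, one_pow p⟩
  have h1 : Nat.card {a : A // a ≠ one} = Nat.card A - 1 := by
    haveI : Fintype A := Fintype.ofFinite A
    rw [Nat.card_eq_fintype_card, Fintype.card_subtype_compl, Fintype.card_subtype_eq, Nat.card_eq_fintype_card]
  rw [← hA, ← h1]
  refine Nat.card_congr
    { toFun := fun C => ⟨⟨C.1, by obtain ⟨g, hg, ho⟩ := C.2; exact ⟨g, hg, ho ▸ pow_orderOf_eq_one g⟩⟩, fun h => by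
        obtain ⟨g, hg, ho⟩ := C.2
        have h' : ConjClasses.mk g = ConjClasses.mk 1 := hg.trans (congrArg Subtype.val h)
        have := isConj_one_left.1 (ConjClasses.mk_eq_mk_iff_isConj.1 h')
        rw [this, orderOf_one] at ho
        exact hp.ne_one ho.symm⟩
      invFun := fun a => ⟨a.1.1, by
        obtain ⟨g, hg, hpg⟩ := a.1.2
        refine ⟨g, hg, orderOf_eq_prime hpg ?_⟩
        intro h1
        exact a.2 (Subtype.ext (by rw [← hg, h1]))⟩
      left_inv := fun C => rfl
      right_inv := fun a => rfl }

end Cfsg.Agent.S2570
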