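import Cfsg.Statements.S2573
import Mathlib

set_option autoImplicit false
open Cfsg

namespace Cfsg.Agent.S2573

/-- The invariant subspaces of a regular unipotent matrix form a chain: over a finite field, if u is an n × n matrix with (u − 1)^n = 0 and rank(u − 1) = n − 1, then every subspace W of F^n with u W ⊆ W is the kernel of (u − 1)^(dim W); so u has at most one invariant subspace of each dimension. -/
theorem result {F : Type*} [Field F] [Finite F] {n : ℕ} (u : Matrix (Fin n) (Fin n) F) (hnil : (u - 1) ^ n = 0) (hreg : (u - 1).rank = n - 1) (W : Submodule F (Fin n → F)) (hW : ∀ v ∈ W, u.mulVec v ∈ W) : W = LinearMap.ker (Matrix.mulVecLin ((u - 1) ^ Module.finrank F W)) := by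
  classical
  set N : (Fin n → F) →ₗ[F] (Fin n → F) := Matrix.mulVecLin (u - 1) with hN
  have hpow : ∀ k : ℕ, Matrix.mulVecLin ((u - 1) ^ k) = N ^ k := by
    intro k
    induction k with
    | zero => simp [Module.End.one_eq_id, Matrix.mulVecLin_one]
    | succ k ih => rw [pow_succ, pow_succ, Matrix.mulVecLin_mul, ih, hN, Module.End.mul_eq_comp]
  have hker : Module.finrank F (LinearMap.ker N) ≤ 1 := by
    have h := LinearMap.finrank_range_add_finrank_ker N
    rw [Module.finrank_fin_fun] at h
    have : Module.finrank F (LinearMap.range N) = n - 1 := hreg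
    omega
  have hle : ∀ k : ℕ, Module.finrank F (LinearMap.ker (N ^ k)) ≤ k := by
    intro k
    induction k with
    | zero => simp [Module.End.one_eq_id]
    | succ k ih =>
      have hm : ∀ v ∈ LinearMap.ker (N ^ (k + 1)), N v ∈ LinearMap.ker (N ^ k) := by
        intro v hv
        rw [LinearMap.mem_ker, pow_succ, Module.End.mul_apply] at hv
        exact hv
      let g : LinearMap.ker (N ^ (k + 1)) →ₗ[F] LinearMap.ker (N ^ k) := N.restrict hm
      have h := LinearMap.finrank_range_add_finrank_ker g
      have h1 : Module.finrank F (LinearMap.range g) ≤ k := (Submodule.finrank_le _).trans ih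
      have h2 : Module.finrank F (LinearMap.ker g) ≤ 1 := by
        refine le_trans ?_ hker
        let i : LinearMap.ker g →ₗ[F] LinearMap.ker N :=
          LinearMap.codRestrict _ ((LinearMap.ker (N ^ (k + 1))).subtype.comp (LinearMap.ker g).subtype)
            (fun x => LinearMap.mem_ker.mpr (congrArg Subtype.val (LinearMap.mem_ker.mp x.2)))
        exact LinearMap.finrank_le_finrank_of_injective (f := i) (fun x y hxy =>
          Subtype.ext (Subtype.ext (congrArg (fun z : LinearMap.ker N => (z : Fin n → F)) hxy :)))
      omega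
  have hWN : ∀ v ∈ W, N v ∈ W := by
    intro v hv
    rw [hN, Matrix.mulVecLin_apply, Matrix.sub_mulVec, Matrix.one_mulVec]
    exact W.sub_mem (hW v hv) hv
  set d := Module.finrank F W with hd
  have hNn : N ^ n = 0 := by rw [← hpow, hnil]; ext; simp
  have hsub : W ≤ LinearMap.ker (N ^ d) := by
    intro w hw
    let M : W →ₗ[F] W := N.restrict hWN
    have key : ∀ (k : ℕ) (x : W), ((M ^ k) x : Fin n → F) = (N ^ k) (x : Fin n → F) := by
      intro k
      induction k with
      | zero => intro x; rfl
      | succ k ih => intro x; rw [pow_succ, pow_succ, Module.End.mul_apply, Module.End.mul_apply, ih]; rfl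
    have hM : M ^ (max n d) = 0 := by
      apply LinearMap.ext; intro x; apply Subtype.ext
      rw [key, ← Nat.sub_add_cancel (le_max_left n d), pow_add, hNn, mul_zero]; rfl
    have hk := Module.End.ker_pow_eq_ker_pow_finrank_of_le (f := M) (m := max n d) (le_max_right n d)
    rw [hM, LinearMap.ker_zero] at hk
    have : (⟨w, hw⟩ : W) ∈ LinearMap.ker (M ^ d) := hk ▸ Submodule.mem_top
    rw [LinearMap.mem_ker] at this ⊢
    rw [← key d ⟨w, hw⟩, this]; rfl
  rw [hpow]
  exact Submodule.eq_of_le_of_finrank_le hsub (hle d)

end Cfsg.Agent.S2573
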