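import Cfsg.Statements.S2574
import Cfsg.Agent.Lib.Symplectic.Basic

set_option autoImplicit false
open Cfsg

namespace Cfsg.Agent.S2574

open scoped Matrix

/-- A regular unipotent element of the symplectic group has totally isotropic small invariant subspaces: over a finite field, if u ∈ Sp_2m(F) satisfies (u − 1)^(2m) = 0 and rank(u − 1) = 2m − 1, and W is a u-invariant subspace with 2 dim W ≤ 2m, then the alternating form vanishes identically on W. -/
theorem result {F : Type*} [Field F] [Finite F] {m : ℕ} (u : Matrix.symplecticGroup (Fin m) F) (hnil : ((u : Matrix (Fin m ⊕ Fin m) (Fin m ⊕ Fin m) F) - 1) ^ (2 * m) = 0) (hreg : ((u : Matrix (Fin m ⊕ Fin m) (Fin m ⊕ Fin m) F) - 1).rank = 2 * m - 1) (W : Submodule F (Fin m ⊕ Fin m → F)) (hW : ∀ v ∈ W, (u : Matrix (Fin m ⊕ Fin m) (Fin m ⊕ Fin m) F).mulVec v ∈ W) (hdim : 2 * Module.finrank F W ≤ 2 * m) : ∀ v ∈ W, ∀ w ∈ W, Cfsg.sympForm m F v w = 0 := by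
  classical
  obtain ⟨U, hU⟩ : ∃ U : Matrix (Fin m ⊕ Fin m) (Fin m ⊕ Fin m) F, U = (u⁻¹).1 - 1 := ⟨_, rfl⟩
  obtain ⟨N, hN⟩ : ∃ N : Matrix (Fin m ⊕ Fin m) (Fin m ⊕ Fin m) F, N = u.1 - 1 := ⟨_, rfl⟩
  rw [← hN] at hnil hreg
  set f := N.mulVecLin with hf
  have hfp : ∀ k : ℕ, f ^ k = (N ^ k).mulVecLin := by
    intro k
    induction k with
    | zero => rw [pow_zero, pow_zero, Matrix.mulVecLin_one]; rfl
    | succ k ih => rw [pow_succ, pow_succ, ih, hf, Matrix.mulVecLin_mul]; rfl
  -- kernels
  have hk1 : Module.finrank F (LinearMap.ker f) ≤ 1 := by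
    have h := f.finrank_range_add_finrank_ker
    rw [Module.finrank_fintype_fun_eq_card, Fintype.card_sum, Fintype.card_fin] at h
    have : Module.finrank F (LinearMap.range f) = 2 * m - 1 := hreg
    omega
  have hkle : ∀ k, Module.finrank F (LinearMap.ker (f ^ k)) ≤ k := by
    intro k
    induction k with
    | zero => rw [pow_zero, show LinearMap.ker (1 : Module.End F (Fin m ⊕ Fin m → F)) = ⊥ from LinearMap.ker_id]; simp
    | succ k ih =>
      let g : LinearMap.ker (f ^ (k + 1)) →ₗ[F] LinearMap.ker (f ^ k) :=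
        f.restrict (fun x hx => by
          rw [LinearMap.mem_ker] at hx ⊢
          rw [pow_succ] at hx
          exact hx)
      have h1 := g.finrank_range_add_finrank_ker
      have h2 : Module.finrank F (LinearMap.range g) ≤ k := (Submodule.finrank_le _).trans ih
      have h3 : Module.finrank F (LinearMap.ker g) ≤ 1 := by
        refine le_trans ?_ hk1
        exact LinearMap.finrank_le_finrank_of_injective (f := LinearMap.codRestrict _ ((LinearMap.ker (f ^ (k + 1))).subtype.comp (LinearMap.ker g).subtype)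
          (fun x => LinearMap.mem_ker.2 (congrArg Subtype.val (LinearMap.mem_ker.1 x.2))))
          (fun x y h => by have := congrArg Subtype.val h; exact Subtype.ext (Subtype.ext this))
      omega
  set d := Module.finrank F W with hd
  have hfW : ∀ v ∈ W, f v ∈ W := fun v hv => by
    rw [hf, Matrix.mulVecLin_apply, hN, Matrix.sub_mulVec, Matrix.one_mulVec]
    exact W.sub_mem (hW v hv) hv
  let g : W →ₗ[F] W := f.restrict hfW
  have hgnil : IsNilpotent g := ⟨2 * m, by
    rw [Module.End.pow_restrict (2 * m) hfW]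
    refine LinearMap.ext fun x => Subtype.ext ?_
    show (f ^ (2 * m)) x.1 = 0
    rw [hfp, hnil]; simp⟩
  have hgd : g ^ d = 0 := by
    have h1 := g.aeval_self_charpoly
    rwa [hgnil.charpoly_eq_X_pow_finrank, map_pow, Polynomial.aeval_X] at h1
  have hWk : W = LinearMap.ker (f ^ d) := by
    refine Submodule.eq_of_le_of_finrank_le (fun v hv => ?_) (hkle d)
    have h1 := LinearMap.congr_fun hgd ⟨v, hv⟩
    rw [Module.End.pow_restrict d hfW] at h1
    exact LinearMap.mem_ker.2 (congrArg Subtype.val h1)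
  have hWr : W = LinearMap.range (f ^ (2 * m - d)) := by
    have hd2 : d ≤ 2 * m := by omega
    have hle : LinearMap.range (f ^ (2 * m - d)) ≤ W := by
      rw [hWk]
      rintro _ ⟨x, rfl⟩
      rw [LinearMap.mem_ker]
      show ((f ^ d) * (f ^ (2 * m - d))) x = 0
      rw [← pow_add, show d + (2 * m - d) = 2 * m by omega, hfp, hnil]; simp
    refine (Submodule.eq_of_le_of_finrank_le hle ?_).symm
    have h := (f ^ (2 * m - d)).finrank_range_add_finrank_ker
    rw [Module.finrank_fintype_fun_eq_card, Fintype.card_sum, Fintype.card_fin] at h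
    have := hkle (2 * m - d)
    omega
  -- the adjoint of N
  have hadj : ∀ x y, CfsgLib.Symplectic.Basic.B (N *ᵥ x) y = CfsgLib.Symplectic.Basic.B x (U *ᵥ y) := by
    intro x y
    rw [hN, hU, Matrix.sub_mulVec, Matrix.sub_mulVec, Matrix.one_mulVec, Matrix.one_mulVec, map_sub, map_sub,
      LinearMap.sub_apply]
    congr 1
    rw [← CfsgLib.Symplectic.Basic.B_map u x, CfsgLib.Symplectic.Basic.mulVec_cancel_inv]
  have hadjp : ∀ k x y, CfsgLib.Symplectic.Basic.B ((N ^ k) *ᵥ x) y = CfsgLib.Symplectic.Basic.B x ((U ^ k) *ᵥ y) := by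
    intro k
    induction k with
    | zero => intro x y; simp
    | succ k ih => intro x y; rw [pow_succ, pow_succ', ← Matrix.mulVec_mulVec, ih, hadj, Matrix.mulVec_mulVec]
  have h1 : (u⁻¹).1 * u.1 = 1 := congrArg Subtype.val (inv_mul_cancel u)
  have h2 : u.1 * (u⁻¹).1 = 1 := congrArg Subtype.val (mul_inv_cancel u)
  have hUN : U = -(u⁻¹).1 * N := by rw [hU, hN, mul_sub, mul_one, neg_mul, h1]; abel
  have hcom : Commute (-(u⁻¹).1) N := by
    rw [hN]
    refine Commute.sub_right (Commute.neg_left ?_) (Commute.one_right _)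
    exact h1.trans h2.symm
  intro v hv w hw
  rw [← CfsgLib.Symplectic.Basic.B_eq]
  rw [hWr] at hv
  obtain ⟨z, rfl⟩ := hv
  rw [hfp, Matrix.mulVecLin_apply, hadjp, hUN, hcom.mul_pow, ← Matrix.mulVec_mulVec]
  have : (N ^ (2 * m - d)) *ᵥ w = 0 := by
    rw [hWk, LinearMap.mem_ker, hfp, Matrix.mulVecLin_apply] at hw
    rw [show 2 * m - d = (2 * m - d - d) + d by omega, pow_add, ← Matrix.mulVec_mulVec, hw, Matrix.mulVec_zero]
  rw [this, Matrix.mulVec_zero, map_zero]

end Cfsg.Agent.S2574
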