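import Cfsg.Statements.S2575
import Cfsg.Agent.Lib.TwoPart.Basic
open CfsgLib.TwoPart

set_option autoImplicit false
open Cfsg

namespace Cfsg.Agent.S2575

/-- Which diagonal involutions of PGL_n(q) lie in PSL_n(q), q odd: for the diagonal matrix t with i entries −1 and n − i entries 1, some non-zero scalar multiple of t has determinant one if and only if i is even or the 2-part of q − 1 exceeds the 2-part of n (that is, −1 is an n-th power in the field exactly in the latter case). -/
theorem result {F : Type*} [Field F] [Fintype F] {q : ℕ} (hF : Fintype.card F = q) (hq : Odd q) {n : ℕ} (hn : 1 ≤ n) (i : ℕ) (hi : i ≤ n) : (∃ c : F, c ≠ 0 ∧ (c • Matrix.diagonal (fun j : Fin n => if (j : ℕ) < i then (-1 : F) else 1)).det = 1) ↔ (Even i ∨ padicValNat 2 n < padicValNat 2 (q - 1)) := by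
  classical
  haveI : Fact (Nat.Prime 2) := ⟨Nat.prime_two⟩
  have hdet : ∀ c : F, (c • Matrix.diagonal (fun j : Fin n => if (j : ℕ) < i then (-1 : F) else 1)).det = c ^ n * (-1) ^ i := by
    intro c
    rw [Matrix.det_smul, Fintype.card_fin, Matrix.det_diagonal, Finset.prod_ite, Finset.prod_const, Finset.prod_const, one_pow, mul_one]
    congr 2
    rcases Nat.lt_or_ge i n with h | h
    · exact (congrArg Finset.card (show Finset.univ.filter (fun j : Fin n => (j : ℕ) < i) = Finset.Iio (⟨i, h⟩ : Fin n) by ext j; simp [Fin.lt_def])).trans (Fin.card_Iio _)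
    · rw [Finset.filter_true_of_mem (fun j _ => lt_of_lt_of_le j.2 h), Finset.card_univ, Fintype.card_fin]; omega
  simp only [hdet]
  have hq1 : q - 1 ≠ 0 := by have := Fintype.one_lt_card (α := F); omega
  rcases Nat.even_or_odd i with he | ho
  · exact iff_of_true ⟨1, one_ne_zero, by rw [he.neg_one_pow, one_pow, one_mul]⟩ (Or.inl he)
  rw [ho.neg_one_pow]
  simp only [Nat.not_even_iff_odd.2 ho, false_or, mul_neg, mul_one]
  have hm1 : (-1 : F) ≠ 1 := by
    intro h
    have h2 : (2 : F) = 0 := by linear_combination -h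
    haveI : CharP F 2 := CharTwo.of_one_ne_zero_of_two_eq_zero one_ne_zero h2
    have := FiniteField.even_card_iff_char_two.1 (ringChar.eq F 2)
    obtain ⟨r, rfl⟩ := hq
    omega
  constructor
  · rintro ⟨c, hc, h⟩
    have h1 : c ^ n = -1 := by linear_combination -h
    have h2 : orderOf c ∣ 2 * n := orderOf_dvd_of_pow_eq_one (by rw [mul_comm, pow_mul, h1, neg_one_sq])
    have h3 : ¬ orderOf c ∣ n := fun hd => hm1 (h1.symm.trans (orderOf_dvd_iff_pow_eq_one.1 hd))
    have h4 := val_le_of_dvd hq1 (orderOf_dvd_of_pow_eq_one (hF ▸ FiniteField.pow_card_sub_one_eq_one c hc))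
    rw [val_eq_of_dvd_two_mul (by omega) h2 h3] at h4
    omega
  · intro hlt
    obtain ⟨g, hg⟩ := IsCyclic.exists_ofOrder_eq_natCard (α := Fˣ)
    rw [Nat.card_eq_fintype_card, Fintype.card_units, hF] at hg
    obtain ⟨r, hr⟩ := pow_padicValNat_dvd (p := 2) (n := n)
    obtain ⟨e, he⟩ := (padicValNat_dvd_iff_le (p := 2) hq1).2 hlt
    have hrodd : Odd r := by
      rw [← Nat.not_even_iff_odd, even_iff_two_dvd]
      intro hd
      obtain ⟨j, rfl⟩ := hd
      exact pow_succ_padicValNat_not_dvd (p := 2) (n := n) (by omega) ⟨j, by rw [pow_succ, mul_assoc]; exact hr⟩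
    set a := (g : F) ^ e with ha
    have he0 : e ≠ 0 := by rintro rfl; rw [mul_zero] at he; omega
    have hord : orderOf a = 2 ^ (padicValNat 2 n + 1) := by
      rw [ha, ← Units.val_pow_eq_pow_val, orderOf_units, orderOf_pow' g he0, hg, he,
        Nat.gcd_eq_right (dvd_mul_left _ _), Nat.mul_div_cancel _ (Nat.pos_of_ne_zero he0)]
    refine ⟨a, pow_ne_zero _ g.ne_zero, ?_⟩
    have hx : a ^ (2 ^ padicValNat 2 n) = -1 := by
      have h1 : (a ^ (2 ^ padicValNat 2 n)) * (a ^ (2 ^ padicValNat 2 n)) = 1 := by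
        rw [← pow_two, ← pow_mul, ← pow_succ, ← hord, pow_orderOf_eq_one]
      refine (mul_self_eq_one_iff.1 h1).resolve_left fun h => ?_
      have hd := orderOf_dvd_of_pow_eq_one h
      rw [hord, Nat.pow_dvd_pow_iff_le_right (by norm_num)] at hd
      omega
    rw [show a ^ n = -1 by conv_lhs => rw [hr, pow_mul, hx, hrodd.neg_one_pow]]
    ring

end Cfsg.Agent.S2575
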