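import Cfsg.Statements.S2576
import Cfsg.Agent.Lib.TwoPart.Basic
open CfsgLib.TwoPart

set_option autoImplicit false
open Cfsg

namespace Cfsg.Agent.S2576

/-- Which involutions of PGL_2m(q) coming from a scalar of the quadratic extension field lie in PSL_2m(q), q odd: let μ generate the Sylow 2-subgroup of the multiplicative group of the field with q elements (μ has order the 2-part of q − 1) and let t be the block-diagonal matrix with m diagonal blocks [[0, 1], [μ, 0]] (so t² is the scalar μ and t is an involution modulo scalars). Then some non-zero scalar multiple of t has determinant one if and only if q ≡ 3 (mod 4) or the 2-part of q − 1 is less than the 2-part of 2m. -/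
theorem result {F : Type*} [Field F] [Fintype F] {q : ℕ} (hF : Fintype.card F = q) (hq : Odd q) {m : ℕ} (hm : 1 ≤ m) (μ : F) (hμ : orderOf μ = 2 ^ padicValNat 2 (q - 1)) : (∃ c : F, c ≠ 0 ∧ (c • Matrix.blockDiagonal (fun _ : Fin m => !![(0 : F), 1; μ, 0])).det = 1) ↔ (q % 4 = 3 ∨ padicValNat 2 (q - 1) < padicValNat 2 (2 * m)) := by
  classical
  haveI : Fact (Nat.Prime 2) := ⟨Nat.prime_two⟩
  have hdet : ∀ c : F, (c • Matrix.blockDiagonal (fun _ : Fin m => !![(0 : F), 1; μ, 0])).det = (c ^ 2 * -μ) ^ m := by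
    intro c
    rw [Matrix.det_smul, Matrix.det_blockDiagonal, Finset.prod_const, Finset.card_univ, Fintype.card_fin, Matrix.det_fin_two_of, mul_pow, ← pow_mul, Fintype.card_prod, Fintype.card_fin, Fintype.card_fin]
    ring
  simp only [hdet]
  set N := (q - 1) / 2 with hNdef
  have hq3 : 2 ≤ q := hF ▸ Fintype.one_lt_card
  have hN : q - 1 = 2 * N := by obtain ⟨r, rfl⟩ := hq; omega
  have hN0 : N ≠ 0 := by omega
  have hs : padicValNat 2 (q - 1) = padicValNat 2 N + 1 := by
    rw [hN, padicValNat.mul two_ne_zero hN0]; simp; omega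
  have h2m : padicValNat 2 (2 * m) = padicValNat 2 m + 1 := by
    rw [padicValNat.mul two_ne_zero (by omega)]; simp; omega
  have hμ1 : μ ^ (2 ^ padicValNat 2 (q - 1)) = 1 := by rw [← hμ, pow_orderOf_eq_one]
  rw [h2m]
  rcases Nat.even_or_odd N with hNe | hNo
  · have hne : q % 4 ≠ 3 := by obtain ⟨j, hj⟩ := hNe; omega
    simp only [hne, false_or]
    constructor
    · rintro ⟨c, hc, h⟩
      by_contra hlt
      set z := c ^ 2 * -μ with hz
      have hzN : z ^ N = -1 := by
        have hc1 : c ^ (2 * N) = 1 := by rw [← hN, ← hF]; exact FiniteField.pow_card_sub_one_eq_one c hc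
        have hμN : μ ^ N ≠ 1 := fun hh => by
          have hd := orderOf_dvd_of_pow_eq_one hh
          rw [hμ, padicValNat_dvd_iff_le hN0] at hd
          omega
        have hμ2 : μ ^ N * μ ^ N = 1 := by
          rw [← pow_add, ← two_mul, ← hN]
          obtain ⟨k, hk⟩ := pow_padicValNat_dvd (p := 2) (n := q - 1)
          rw [hk, pow_mul, hμ1, one_pow]
        rw [hz, mul_pow, ← pow_mul, hc1, neg_pow, hNe.neg_one_pow, (mul_self_eq_one_iff.1 hμ2).resolve_left hμN]
        ring
      have hz2 : z ^ (2 * N) = 1 := by rw [mul_comm, pow_mul, hzN, neg_one_sq]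
      have hd2 : orderOf z ∣ 2 * N := orderOf_dvd_of_pow_eq_one hz2
      have hd : ¬ orderOf z ∣ N := fun hd => by
        have h1 : z ^ N = 1 := orderOf_dvd_iff_pow_eq_one.1 hd
        rw [hzN] at h1
        have h2 : (2 : F) = 0 := by linear_combination -h1
        haveI : CharP F 2 := CharTwo.of_one_ne_zero_of_two_eq_zero one_ne_zero h2
        have := FiniteField.even_card_iff_char_two.1 (ringChar.eq F 2)
        omega
      have := val_le_of_dvd (by omega : m ≠ 0) (orderOf_dvd_of_pow_eq_one h)
      rw [val_eq_of_dvd_two_mul hN0 hd2 hd] at this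
      omega
    · intro hlt
      refine ⟨1, one_ne_zero, ?_⟩
      obtain ⟨k, hk⟩ := (padicValNat_dvd_iff_le (p := 2) (by omega : m ≠ 0)).2 (by omega : padicValNat 2 (q - 1) ≤ padicValNat 2 m)
      rw [one_pow, one_mul, hk, pow_mul, (Nat.even_pow.2 ⟨even_two, by omega⟩).neg_pow, hμ1, one_pow]
  · have h3 : q % 4 = 3 := by obtain ⟨j, hj⟩ := hNo; omega
    simp only [h3, true_or, iff_true]
    refine ⟨1, one_ne_zero, ?_⟩
    rw [hs, padicValNat.eq_zero_of_not_dvd (fun hd => by obtain ⟨j, hj⟩ := hNo; obtain ⟨i, hi⟩ := hd; omega), zero_add, pow_one] at hμ1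
    rw [hs, padicValNat.eq_zero_of_not_dvd (fun hd => by obtain ⟨j, hj⟩ := hNo; obtain ⟨i, hi⟩ := hd; omega), zero_add, pow_one] at hμ
    have hμm : μ = -1 := (mul_self_eq_one_iff.1 (by rw [← pow_two]; exact hμ1)).resolve_left (fun hh => by rw [hh, orderOf_one] at hμ; omega)
    rw [hμm]; ring

end Cfsg.Agent.S2576
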