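import Cfsg.Statements.S2578
import Mathlib
import Cfsg.Agent.Lib.Unipotent.RegularNormalForm

set_option autoImplicit false
open Cfsg

namespace Cfsg.Agent.S2578

/-- Regular unipotent classes of SL_n(q): for n ≥ 2 over the field with q elements, the matrices u of determinant one with (u − 1)^n = 0 and rank(u − 1) = n − 1 form a single GL_n(q)-class which splits into exactly gcd(n, q − 1) conjugacy classes of SL_n(q). -/
theorem result {F : Type*} [Field F] [Fintype F] {q : ℕ} (hF : Fintype.card F = q) {n : ℕ} (hn : 2 ≤ n) : Nat.card {C : ConjClasses (Matrix.SpecialLinearGroup (Fin n) F) // ∃ u : Matrix.SpecialLinearGroup (Fin n) F, ConjClasses.mk u = C ∧ ((u : Matrix (Fin n) (Fin n) F) - 1) ^ n = 0 ∧ ((u : Matrix (Fin n) (Fin n) F) - 1).rank = n - 1} = Nat.gcd n (q - 1) := by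
  classical
  haveI : NeZero n := ⟨by omega⟩
  haveI : Finite (Matrix.SpecialLinearGroup (Fin n) F) := Finite.of_injective Subtype.val Subtype.val_injective
  let J := CfsgLib.Unipotent.NilpotentCount.shift F n
  have hJn : J ^ n = 0 := by
    simpa using CfsgLib.Unipotent.pow_card_eq_zero (CfsgLib.Unipotent.NilpotentCount.shift_nilpotent (F := F) n)
  have hJr : J.rank = n - 1 := by
    have hle : J.rank ≤ n - 1 := by
      have hl := Matrix.rank_le_card_width J
      rw [Fintype.card_fin] at hl
      by_contra hlt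
      have : J.rank = n := by omega
      have hu : IsUnit J := by
        rw [← Matrix.mulVec_surjective_iff_isUnit]
        have htop : LinearMap.range J.mulVecLin = ⊤ := Submodule.eq_top_of_finrank_eq (by
          rw [Module.finrank_fin_fun]; exact this)
        exact LinearMap.range_eq_top.1 htop
      have h0 := hu.pow n
      rw [hJn] at h0
      exact not_isUnit_zero h0
    refine le_antisymm hle ?_
    let ι : Fin (n - 1) → (LinearMap.range J.mulVecLin) := fun k =>
      ⟨Pi.single ⟨(k : ℕ) + 1, by omega⟩ 1, Pi.single ⟨(k : ℕ), by omega⟩ 1, by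
        funext r
        rw [Matrix.mulVecLin_apply, Matrix.mulVec_single_one]
        simp only [J, CfsgLib.Unipotent.NilpotentCount.shift, Matrix.col_apply, Matrix.of_apply, Pi.single_apply, Fin.ext_iff]⟩
    have hli : LinearIndependent F ι := by
      apply LinearIndependent.of_comp (LinearMap.range J.mulVecLin).subtype
      have hc := (Pi.basisFun F (Fin n)).linearIndependent.comp
        (fun k : Fin (n - 1) => (⟨(k : ℕ) + 1, by omega⟩ : Fin n)) (fun a b h => Fin.ext (by simpa [Fin.ext_iff] using h))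
      have he : (LinearMap.range J.mulVecLin).subtype ∘ ι = ⇑(Pi.basisFun F (Fin n)) ∘ (fun k : Fin (n - 1) => (⟨(k : ℕ) + 1, by omega⟩ : Fin n)) := by
        funext k
        simp [ι, Pi.basisFun_apply]
      rw [he]
      exact hc
    have := hli.fintype_card_le_finrank
    simpa [Matrix.rank] using this
  -- conjugates of the standard block
  let D : Fˣ → GL (Fin n) F := fun a => Matrix.GeneralLinearGroup.mkOfDetNeZero
    (Matrix.diagonal (Function.update (1 : Fin n → F) 0 (a : F)))
    (by rw [Matrix.det_diagonal, Finset.prod_update_of_mem (Finset.mem_univ _)]; simp)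
  have hD : ∀ a, ((D a : GL (Fin n) F) : Matrix (Fin n) (Fin n) F).det = a := by
    intro a
    show (Matrix.diagonal (Function.update (1 : Fin n → F) 0 (a : F))).det = a
    rw [Matrix.det_diagonal, Finset.prod_update_of_mem (Finset.mem_univ _)]
    simp
  let U : Matrix (Fin n) (Fin n) F := 1 + J
  have hU : U.det = 1 := by
    have hl : ∀ r c : Fin n, r < c → U r c = 0 := by
      intro r c hrc
      simp only [U, J, CfsgLib.Unipotent.NilpotentCount.shift, Matrix.add_apply, Matrix.of_apply,
        Matrix.one_apply_ne hrc.ne, zero_add]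
      rw [if_neg (by rw [Fin.lt_def] at hrc; omega)]
    rw [Matrix.det_of_isLowerTriangular U (fun r c hrc => hl r c hrc)]
    refine Finset.prod_eq_one fun i _ => ?_
    simp [U, J, CfsgLib.Unipotent.NilpotentCount.shift]
  let conjM : GL (Fin n) F → Matrix (Fin n) (Fin n) F → Matrix (Fin n) (Fin n) F := fun P A =>
    (P : Matrix (Fin n) (Fin n) F) * A * (↑P⁻¹ : Matrix (Fin n) (Fin n) F)
  have hcdet : ∀ P A, (conjM P A).det = A.det := fun P A => Matrix.det_units_conj P A
  have hcmul : ∀ P Q A, conjM (P * Q) A = conjM P (conjM Q A) := by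
    intro P Q A; simp only [conjM, mul_inv_rev, Units.val_mul, mul_assoc]
  have hcrank : ∀ P A, (conjM P A).rank = A.rank := by
    intro P A
    show (_ * A * _).rank = _
    rw [Matrix.rank_mul_eq_left_of_isUnit_det _ _ ((Matrix.isUnit_iff_isUnit_det _).1 (P⁻¹).isUnit),
      Matrix.rank_mul_eq_right_of_isUnit_det _ _ ((Matrix.isUnit_iff_isUnit_det _).1 P.isUnit)]
  have hcpow : ∀ P A, (conjM P A) ^ n = conjM P (A ^ n) := fun P A => (Units.conj_pow P A n)
  have hcsub : ∀ P, conjM P U - 1 = conjM P J := by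
    intro P; simp [conjM, U, mul_add, add_mul]
  let S : Fˣ → Matrix.SpecialLinearGroup (Fin n) F := fun a => ⟨conjM (D a) U, by rw [hcdet, hU]⟩
  let T := {C : ConjClasses (Matrix.SpecialLinearGroup (Fin n) F) // ∃ u : Matrix.SpecialLinearGroup (Fin n) F,
    ConjClasses.mk u = C ∧ ((u : Matrix (Fin n) (Fin n) F) - 1) ^ n = 0 ∧ ((u : Matrix (Fin n) (Fin n) F) - 1).rank = n - 1}
  let Φ : Fˣ → T := fun a => ⟨ConjClasses.mk (S a), S a, rfl, by
    show (conjM (D a) U - 1) ^ n = 0
    rw [hcsub, hcpow, hJn]; simp [conjM], by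
    show (conjM (D a) U - 1).rank = n - 1
    rw [hcsub, hcrank, hJr]⟩
  let toG : Matrix.SpecialLinearGroup (Fin n) F →* GL (Fin n) F := Matrix.SpecialLinearGroup.toGL
  have hcoe : ∀ c u : Matrix.SpecialLinearGroup (Fin n) F, ((c * u * c⁻¹ : Matrix.SpecialLinearGroup (Fin n) F) : Matrix (Fin n) (Fin n) F)
      = conjM (toG c) (u : Matrix (Fin n) (Fin n) F) := by
    intro c u
    show _ = (c : Matrix (Fin n) (Fin n) F) * (u : Matrix (Fin n) (Fin n) F) * (↑(toG c)⁻¹ : Matrix (Fin n) (Fin n) F)
    rw [← map_inv]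
    rfl
  let R := (powMonoidHom n : Fˣ →* Fˣ).range
  have hfib : ∀ a b : Fˣ, Φ a = Φ b ↔ a⁻¹ * b ∈ R := by
    intro a b
    constructor
    · intro h
      obtain ⟨c, hc⟩ := isConj_iff.1 (ConjClasses.mk_eq_mk_iff_isConj.1 (congrArg Subtype.val h))
      have h1 : conjM (toG c * D a) U = conjM (D b) U := by
        rw [hcmul]
        exact (hcoe c (S a)).symm.trans (congrArg Subtype.val hc)
      have h2 : conjM ((D b)⁻¹ * (toG c * D a)) U = U := by
        rw [hcmul, h1, ← hcmul, inv_mul_cancel]; simp [conjM]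
      set Z := (D b)⁻¹ * (toG c * D a)
      have h3 : (Z : Matrix (Fin n) (Fin n) F) * J = J * (Z : Matrix (Fin n) (Fin n) F) := by
        have h4 : conjM Z J = J := by rw [← hcsub, h2]; simp [U]
        calc (Z : Matrix (Fin n) (Fin n) F) * J = conjM Z J * (Z : Matrix (Fin n) (Fin n) F) := by simp [conjM, mul_assoc]
          _ = J * (Z : Matrix (Fin n) (Fin n) F) := by rw [h4]
      have hz := CfsgLib.Unipotent.RegularNormalForm.det_of_commute_shift _ h3
      have hc1 : ((toG c : GL (Fin n) F) : Matrix (Fin n) (Fin n) F).det = 1 := c.2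
      have hzdet : (Z : Matrix (Fin n) (Fin n) F).det = (b : F)⁻¹ * a := by
        simp only [Z, Units.val_mul, Matrix.det_mul, hD, hc1, one_mul]
        rw [Matrix.coe_units_inv, Matrix.det_nonsing_inv, hD, Ring.inverse_eq_inv]
      rw [hzdet] at hz
      have hz0 : (Z : Matrix (Fin n) (Fin n) F) 0 0 ≠ 0 := by
        intro h0
        rw [h0, zero_pow (by omega)] at hz
        simp at hz
      refine ⟨(Units.mk0 _ hz0)⁻¹, Units.ext ?_⟩
      simp only [powMonoidHom_apply, Units.val_pow_eq_pow_val, Units.val_inv_eq_inv_val, Units.val_mk0, inv_pow, ← hz,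
        Units.val_mul]
      rw [mul_inv, inv_inv, mul_comm]
    · rintro ⟨z, hz⟩
      simp only [powMonoidHom_apply] at hz
      let Zc : GL (Fin n) F := Units.map (Matrix.scalar (Fin n)).toMonoidHom z⁻¹
      let g := D b * Zc * (D a)⁻¹
      have hg : (g : Matrix (Fin n) (Fin n) F).det = 1 := by
        simp only [g, Units.val_mul, Matrix.det_mul, hD]
        rw [Matrix.coe_units_inv, Matrix.det_nonsing_inv, hD, Ring.inverse_eq_inv]
        show (b : F) * (Matrix.scalar (Fin n) ((z⁻¹ : Fˣ) : F)).det * (a : F)⁻¹ = 1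
        rw [Matrix.scalar_apply, Matrix.det_diagonal, Finset.prod_const, Finset.card_univ, Fintype.card_fin]
        have : (b : F) = a * (z : F) ^ n := by
          rw [← Units.val_pow_eq_pow_val, hz, Units.val_mul]
          simp
        rw [this, Units.val_inv_eq_inv_val, inv_pow]
        field_simp
      apply Subtype.ext
      apply ConjClasses.mk_eq_mk_iff_isConj.2
      refine isConj_iff.2 ⟨(⟨(g : Matrix (Fin n) (Fin n) F), hg⟩ : Matrix.SpecialLinearGroup (Fin n) F), Subtype.ext ?_⟩
      refine (hcoe _ _).trans ?_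
      refine Eq.trans (b := conjM g (conjM (D a) U)) ?_ ?_
      · exact congrArg (fun P : GL (Fin n) F => conjM P (conjM (D a) U)) (Units.ext rfl)
      rw [← hcmul,
        show g * D a = D b * Zc from inv_mul_cancel_right _ _, hcmul]
      congr 1
      show Matrix.scalar (Fin n) ((z⁻¹ : Fˣ) : F) * U * _ = U
      rw [(Matrix.scalar_commute _ (fun _ => Commute.all _ _) U).eq, mul_assoc]
      show U * ((Zc : Matrix (Fin n) (Fin n) F) * _) = U
      simp
  have hsurj : Function.Surjective Φ := by
    rintro ⟨C, u, rfl, hu1, hu2⟩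
    obtain ⟨P, hP⟩ := CfsgLib.Unipotent.RegularNormalForm.exists_conj _ hu1 hu2
    have hu : (u : Matrix (Fin n) (Fin n) F) = conjM P U := by
      have h1 : (u : Matrix (Fin n) (Fin n) F) - 1 = conjM P J := by
        show _ = (P : Matrix (Fin n) (Fin n) F) * J * _
        rw [← hP]; simp
      rw [← hcsub] at h1
      exact sub_left_injective h1
    let a : Fˣ := Units.mk0 (P : Matrix (Fin n) (Fin n) F).det
      ((Matrix.isUnit_iff_isUnit_det _).1 P.isUnit).ne_zero
    have hg : ((P * (D a)⁻¹ : GL (Fin n) F) : Matrix (Fin n) (Fin n) F).det = 1 := by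
      rw [Units.val_mul, Matrix.det_mul, Matrix.coe_units_inv, Matrix.det_nonsing_inv, hD, Ring.inverse_eq_inv]
      exact mul_inv_cancel₀ a.ne_zero
    refine ⟨a, Subtype.ext (ConjClasses.mk_eq_mk_iff_isConj.2 (isConj_iff.2
      ⟨(⟨((P * (D a)⁻¹ : GL (Fin n) F) : Matrix (Fin n) (Fin n) F), hg⟩ : Matrix.SpecialLinearGroup (Fin n) F), Subtype.ext ?_⟩))⟩
    refine (hcoe _ _).trans ?_
    refine Eq.trans (b := conjM (P * (D a)⁻¹) (conjM (D a) U)) ?_ ?_
    · exact congrArg (fun Q : GL (Fin n) F => conjM Q (conjM (D a) U)) (Units.ext rfl)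
    rw [hu, ← hcmul, inv_mul_cancel_right]
  let Ψ : Fˣ ⧸ R → T := Quotient.lift Φ (fun a b h => (hfib a b).2 (QuotientGroup.leftRel_apply.1 h))
  have hbij : Function.Bijective Ψ := by
    constructor
    · intro x y hxy
      induction x using QuotientGroup.induction_on with
      | _ a =>
        induction y using QuotientGroup.induction_on with
        | _ b => exact QuotientGroup.eq.2 ((hfib a b).1 hxy)
    · intro t
      obtain ⟨a, ha⟩ := hsurj t
      exact ⟨a, ha⟩
  show Nat.card T = _
  rw [← Nat.card_congr (Equiv.ofBijective Ψ hbij), ← Subgroup.index_eq_card, IsCyclic.index_powMonoidHom_range,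
    Nat.card_units, Nat.card_eq_fintype_card, hF, Nat.gcd_comm]

end Cfsg.Agent.S2578
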