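import Cfsg.Statements.S2579
import Cfsg.Agent.Lib.Semisimple.Transvection

set_option autoImplicit false
open Cfsg

namespace Cfsg.Agent.S2579

/-- In SL_n(F) with n ≥ 3, over a finite field F, any two transvections (matrices t with t − 1 of rank one and square zero) are conjugate by an element of SL_n(F). -/
theorem result {F : Type*} [Field F] [Finite F] {n : ℕ} (hn : 3 ≤ n) (s t : Matrix.SpecialLinearGroup (Fin n) F) (hs : Cfsg.IsTransvection (s : Matrix (Fin n) (Fin n) F)) (ht : Cfsg.IsTransvection (t : Matrix (Fin n) (Fin n) F)) : IsConj s t := by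
  obtain ⟨k, rfl⟩ : ∃ k, n = k + 3 := ⟨n - 3, by omega⟩
  obtain ⟨g, hg, hgc⟩ := CfsgLib.Semisimple.exists_conj_transvection _ hs.1 hs.2
  obtain ⟨h, hh, hhc⟩ := CfsgLib.Semisimple.exists_conj_transvection _ ht.1 ht.2
  have key : ∀ (x : Matrix.SpecialLinearGroup (Fin (k + 3)) F) (y : Matrix (Fin (k + 3)) (Fin (k + 3)) F) (hy : y.det = 1),
      (x : Matrix (Fin (k + 3)) (Fin (k + 3)) F) * y = y * Matrix.transvection 0 1 1 →
      IsConj (Matrix.SpecialLinearGroup.transvection (show (0 : Fin (k + 3)) ≠ 1 by simp) (1 : F)) x := fun x y hy he =>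
    by
    obtain ⟨Y, hY⟩ : ∃ Y : Matrix.SpecialLinearGroup (Fin (k + 3)) F, (Y : Matrix (Fin (k + 3)) (Fin (k + 3)) F) = y := ⟨⟨y, hy⟩, rfl⟩
    refine isConj_iff.2 ⟨Y, mul_inv_eq_iff_eq_mul.2 (Subtype.ext ?_)⟩
    rw [Matrix.SpecialLinearGroup.coe_mul, Matrix.SpecialLinearGroup.coe_mul, hY]
    exact he.symm
  exact (key s g hg hgc).symm.trans (key t h hh hhc)

end Cfsg.Agent.S2579
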