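import Cfsg.Statements.S2581
import Mathlib

set_option autoImplicit false
open Cfsg

namespace Cfsg.Agent.S2581


variable {F : Type*} [Field F] {t : ℕ}

/-- Parameters of a matrix commuting with the Jordan type matrix. -/
abbrev Param (d : Fin t → ℕ) : Type := (p : Fin t × Fin t) × Fin (min (d p.1) (d p.2))

/-- The matrix with given parameters. -/
def build (d : Fin t → ℕ) (w : Param d → F) : Matrix ((k : Fin t) × Fin (d k)) ((k : Fin t) × Fin (d k)) F :=
  Matrix.of fun x y =>
    if h : (y.2 : ℕ) ≤ x.2 ∧ d x.1 ≤ (x.2 - y.2 : ℕ) + d y.1 then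
      w ⟨(y.1, x.1), ⟨(x.2 - y.2 : ℕ) - (d x.1 - d y.1), by have := x.2.2; have := y.2.2; simp only; omega⟩⟩
    else 0

theorem jordanType_apply (d : Fin t → ℕ) (x y : (k : Fin t) × Fin (d k)) :
    Cfsg.jordanTypeMatrix d F x y = (if x = y then 1 else 0) + (if x.1 = y.1 ∧ (x.2 : ℕ) = y.2 + 1 then 1 else 0) := by
  classical
  obtain ⟨k, r⟩ := x
  obtain ⟨l, c⟩ := y
  by_cases h : k = l
  · subst h
    rw [Cfsg.jordanTypeMatrix, Matrix.blockDiagonal'_apply_eq]
    simp only [Cfsg.jordanBlock, Matrix.of_apply, true_and]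
    by_cases h1 : (r : ℕ) = c
    · rw [if_pos h1, if_pos (by rw [Fin.ext h1]), if_neg (by omega), add_zero]
    · rw [if_neg h1, if_neg (fun e : (⟨k, r⟩ : (k : Fin t) × Fin (d k)) = ⟨k, c⟩ => h1 (congrArg (fun z : (k : Fin t) × Fin (d k) => (z.2 : ℕ)) e)), zero_add]
  · rw [Cfsg.jordanTypeMatrix, Matrix.blockDiagonal'_apply_ne _ _ _ h, if_neg (fun e => h (congrArg Sigma.fst e)),
      if_neg (fun e => h e.1), add_zero]

/-- The commutation relation entrywise. -/
def Rel (d : Fin t → ℕ) (g : Matrix ((k : Fin t) × Fin (d k)) ((k : Fin t) × Fin (d k)) F) : Prop :=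
  ∀ (l k : Fin t) (r : Fin (d l)) (c : Fin (d k)),
    (if h : (c : ℕ) + 1 < d k then g ⟨l, r⟩ ⟨k, ⟨c + 1, h⟩⟩ else 0) =
      if h : 0 < (r : ℕ) then g ⟨l, ⟨(r : ℕ) - 1, by omega⟩⟩ ⟨k, c⟩ else 0

theorem commute_iff (d : Fin t → ℕ) (g : Matrix ((k : Fin t) × Fin (d k)) ((k : Fin t) × Fin (d k)) F) :
    g * Cfsg.jordanTypeMatrix d F = Cfsg.jordanTypeMatrix d F * g ↔ Rel d g := by
  classical
  have hL : ∀ (x : (k : Fin t) × Fin (d k)) (k : Fin t) (c : Fin (d k)), (g * Cfsg.jordanTypeMatrix d F) x ⟨k, c⟩ =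
      g x ⟨k, c⟩ + if h : (c : ℕ) + 1 < d k then g x ⟨k, ⟨c + 1, h⟩⟩ else 0 := by
    intro x k c
    rw [Matrix.mul_apply]
    simp only [jordanType_apply, mul_add, mul_ite, mul_one, mul_zero, Finset.sum_add_distrib, Finset.sum_ite_eq',
      Finset.mem_univ, if_true]
    congr 1
    by_cases h : (c : ℕ) + 1 < d k
    · rw [dif_pos h, Finset.sum_eq_single (⟨k, ⟨c + 1, h⟩⟩ : (k : Fin t) × Fin (d k))]
      · rw [if_pos ⟨rfl, rfl⟩]
      · intro z _ hz
        rw [if_neg]
        rintro ⟨h1, h2⟩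
        apply hz
        obtain ⟨z1, z2⟩ := z
        simp only at h1 h2
        subst h1
        rw [show z2 = ⟨c + 1, h⟩ from Fin.ext h2]
      · simp
    · rw [dif_neg h]
      refine Finset.sum_eq_zero fun z _ => if_neg ?_
      rintro ⟨h1, h2⟩
      obtain ⟨z1, z2⟩ := z
      simp only at h1 h2
      subst h1
      omega
  have hR : ∀ (l : Fin t) (r : Fin (d l)) (y : (k : Fin t) × Fin (d k)), (Cfsg.jordanTypeMatrix d F * g) ⟨l, r⟩ y =
      g ⟨l, r⟩ y + if h : 0 < (r : ℕ) then g ⟨l, ⟨(r : ℕ) - 1, by omega⟩⟩ y else 0 := by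
    intro l r y
    rw [Matrix.mul_apply]
    simp only [jordanType_apply, add_mul, ite_mul, one_mul, zero_mul, Finset.sum_add_distrib, Finset.sum_ite_eq,
      Finset.mem_univ, if_true]
    congr 1
    by_cases h : 0 < (r : ℕ)
    · rw [dif_pos h, Finset.sum_eq_single (⟨l, ⟨(r : ℕ) - 1, by omega⟩⟩ : (k : Fin t) × Fin (d k))]
      · rw [if_pos ⟨rfl, by simp only; omega⟩]
      · intro z _ hz
        rw [if_neg]
        rintro ⟨h1, h2⟩
        apply hz
        obtain ⟨z1, z2⟩ := z
        simp only at h1 h2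
        subst h1
        rw [show z2 = ⟨(r : ℕ) - 1, by omega⟩ from Fin.ext (by simp only; omega)]
      · simp
    · rw [dif_neg h]
      exact Finset.sum_eq_zero fun z _ => if_neg (by rintro ⟨_, h2⟩; omega)
  constructor
  · intro h l k r c
    have := congrFun (congrFun h ⟨l, r⟩) ⟨k, c⟩
    rw [hL, hR] at this
    exact add_left_cancel this
  · intro h
    ext ⟨l, r⟩ ⟨k, c⟩
    rw [hL, hR, h l k r c]

theorem build_rel (d : Fin t → ℕ) (w : Param d → F) : Rel d (build d w) := by
  intro l k r c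
  have hr := r.2
  have hc := c.2
  simp only [build, Matrix.of_apply]
  split_ifs with h1 h2 h3 h4 h5 <;>
    first
    | rfl
    | (exfalso; omega)
    | (congr 1; refine Sigma.ext rfl (heq_of_eq (Fin.ext ?_)); simp only; omega)

theorem eq_build (d : Fin t → ℕ) (g : Matrix ((k : Fin t) × Fin (d k)) ((k : Fin t) × Fin (d k)) F) (h : Rel d g) :
    g = build d (fun p => g ⟨p.1.2, ⟨(p.2 : ℕ) + (d p.1.2 - d p.1.1), by have := p.2.2; omega⟩⟩ ⟨p.1.1, ⟨0, by have := p.2.2; omega⟩⟩) := by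
  -- move a pair of indices along its diagonal
  have hstep : ∀ (c : ℕ) (l k : Fin t) (r : ℕ) (hr : r < d l) (hc : c < d k),
      g ⟨l, ⟨r, hr⟩⟩ ⟨k, ⟨c, hc⟩⟩ =
        if h : c ≤ r then g ⟨l, ⟨r - c, by omega⟩⟩ ⟨k, ⟨0, by omega⟩⟩ else 0 := by
    intro c
    induction c with
    | zero => intro l k r hr hc; rw [dif_pos (Nat.zero_le r)]; simp
    | succ c ih =>
      intro l k r hr hc
      have := h l k ⟨r, hr⟩ ⟨c, by omega⟩
      rw [dif_pos hc] at this
      rw [this]
      by_cases h0 : 0 < r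
      · rw [dif_pos h0, ih l k (r - 1) (by omega) (by omega)]
        by_cases hcr : c + 1 ≤ r
        · rw [dif_pos (by omega), dif_pos hcr]
          congr 2
          exact Fin.ext (by simp only; omega)
        · rw [dif_neg (by omega), dif_neg hcr]
      · rw [dif_neg h0, dif_neg (by omega)]
  -- the first column vanishes below the kernel bound
  have hlow : ∀ (l k : Fin t) (e : ℕ) (he : e < d l) (hk : 0 < d k), e + d k < d l → g ⟨l, ⟨e, he⟩⟩ ⟨k, ⟨0, hk⟩⟩ = 0 := by
    intro l k e he hk hlt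
    have h1 := h l k ⟨e + d k, hlt⟩ ⟨d k - 1, by omega⟩
    rw [dif_neg (by simp only; omega), dif_pos (show 0 < e + d k by omega), hstep, dif_pos (by simp only; omega)] at h1
    rw [h1]
    congr 2
    exact Fin.ext (by simp only; omega)
  ext ⟨l, r⟩ ⟨k, c⟩
  rw [show g ⟨l, r⟩ ⟨k, c⟩ = _ from hstep c l k r r.2 c.2]
  simp only [build, Matrix.of_apply]
  by_cases h1 : (c : ℕ) ≤ r
  · rw [dif_pos h1]
    by_cases h2 : d l ≤ ((r : ℕ) - c) + d k
    · rw [dif_pos ⟨h1, h2⟩]
      congr 2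
      exact Fin.ext (by simp only; omega)
    · rw [dif_neg (fun h => h2 h.2)]
      exact hlow _ _ _ _ _ (by omega)
  · rw [dif_neg h1, dif_neg (fun h => h1 h.1)]

/-- The diagonal blocks of the reduction to the socle. -/
def block (d : Fin t → ℕ) (hd : ∀ k, 1 ≤ d k) (g : Matrix ((k : Fin t) × Fin (d k)) ((k : Fin t) × Fin (d k)) F) (a : ℕ) :
    Matrix {k : Fin t // d k = a} {k : Fin t // d k = a} F :=
  Matrix.of fun l k => g ⟨l.1, ⟨0, hd _⟩⟩ ⟨k.1, ⟨0, hd _⟩⟩

theorem det_ne_zero_iff (d : Fin t → ℕ) (hd : ∀ k, 1 ≤ d k) (w : Param d → F) :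
    (build d w).det ≠ 0 ↔ ∀ a, (block d hd (build d w) a).det ≠ 0 := by
  classical
  set D := Finset.univ.sup d with hD
  have hle : ∀ k, d k ≤ D := fun k => Finset.le_sup (Finset.mem_univ k)
  let lab : ((k : Fin t) × Fin (d k)) → ℕ := fun x => (x.2 : ℕ) * (D + 1) + (D - (d x.1 - x.2))
  have hlab : ∀ x y, lab x = lab y ↔ (x.2 : ℕ) = y.2 ∧ d x.1 = d y.1 := by
    intro x y
    constructor
    · intro h
      have h' : (x.2 : ℕ) * (D + 1) + (D - (d x.1 - x.2)) = (y.2 : ℕ) * (D + 1) + (D - (d y.1 - y.2)) := h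
      have h1 : (x.2 : ℕ) = y.2 := by
        rcases lt_trichotomy (x.2 : ℕ) y.2 with hlt | he | hgt
        · exfalso
          have := Nat.mul_le_mul_right (D + 1) (Nat.succ_le_of_lt hlt)
          rw [Nat.succ_mul] at this
          omega
        · exact he
        · exfalso
          have := Nat.mul_le_mul_right (D + 1) (Nat.succ_le_of_lt hgt)
          rw [Nat.succ_mul] at this
          omega
      rw [h1] at h'
      have := hle x.1; have := hle y.1; have := x.2.2; have := y.2.2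
      exact ⟨h1, by omega⟩
    · rintro ⟨h1, h2⟩
      simp only [lab, h1, h2]
  have htri : ((build d w).transpose).BlockTriangular lab := by
    intro i j hij
    rw [Matrix.transpose_apply]
    simp only [build, Matrix.of_apply]
    rw [dif_neg]
    rintro ⟨h1, h2⟩
    have h3 := Nat.mul_le_mul_right (D + 1) h1
    simp only [lab] at hij
    have := hle i.1; have := hle j.1; have := i.2.2; have := j.2.2
    omega
  have hblk : ∀ x₀ : (k : Fin t) × Fin (d k),
      ((build d w).transpose.toSquareBlock lab (lab x₀)).det = (block d hd (build d w) (d x₀.1)).det := by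
    intro x₀
    let e : {x // lab x = lab x₀} ≃ {k : Fin t // d k = d x₀.1} :=
      { toFun := fun x => ⟨x.1.1, ((hlab _ _).1 x.2).2⟩
        invFun := fun k => ⟨⟨k.1, ⟨x₀.2, k.2.symm ▸ x₀.2.2⟩⟩, (hlab _ _).2 ⟨rfl, k.2⟩⟩
        left_inv := fun x => Subtype.ext (Sigma.ext rfl (heq_of_eq (Fin.ext ((hlab _ _).1 x.2).1.symm)))
        right_inv := fun k => rfl }
    rw [← Matrix.det_transpose (block d hd (build d w) (d x₀.1)), ← Matrix.det_submatrix_equiv_self e]
    congr 1
    ext ⟨⟨i, ri⟩, hi⟩ ⟨⟨j, rj⟩, hj⟩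
    obtain ⟨hi1, hi2⟩ := (hlab _ _).1 hi
    obtain ⟨hj1, hj2⟩ := (hlab _ _).1 hj
    show build d w ⟨j, rj⟩ ⟨i, ri⟩ = build d w ⟨j, ⟨0, hd _⟩⟩ ⟨i, ⟨0, hd _⟩⟩
    simp only at hi1 hi2 hj1 hj2
    simp only [build, Matrix.of_apply]
    rw [dif_pos (by omega), dif_pos (by omega)]
    congr 1
    exact Sigma.ext rfl (heq_of_eq (Fin.ext (by simp only; omega)))
  rw [← Matrix.det_transpose, htri.det, Finset.prod_ne_zero_iff]
  constructor
  · intro h a
    by_cases ha : ∃ k, d k = a
    · obtain ⟨k, rfl⟩ := ha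
      rw [← hblk ⟨k, ⟨0, hd k⟩⟩]
      exact h _ (Finset.mem_image_of_mem _ (Finset.mem_univ _))
    · haveI : IsEmpty {k : Fin t // d k = a} := ⟨fun k => ha ⟨k.1, k.2⟩⟩
      rw [Matrix.det_isEmpty]; exact one_ne_zero
  · intro h L hL
    obtain ⟨x₀, -, rfl⟩ := Finset.mem_image.1 hL
    rw [hblk]
    exact h _

theorem card_GL_fiber [Fintype F] (d : Fin t → ℕ) (a : ℕ) :
    Nat.card (GL {k : Fin t // d k = a} F) =
      ∏ j : Fin ((Finset.univ.filter (fun k : Fin t => d k = a)).card),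
        (Fintype.card F ^ (Finset.univ.filter (fun k : Fin t => d k = a)).card - Fintype.card F ^ (j : ℕ)) := by
  classical
  have hm : Fintype.card {k : Fin t // d k = a} = (Finset.univ.filter (fun k : Fin t => d k = a)).card := Fintype.card_subtype _
  rw [Nat.card_congr (Units.mapEquiv (Matrix.reindexAlgEquiv F F (Fintype.equivFinOfCardEq hm)).toMulEquiv).toEquiv,
    Matrix.card_GL_field]


/-- Order of the centraliser in GL of a unipotent matrix of given Jordan type over the field with q elements: if the type has a_i blocks of size i (all block sizes at least 1), the invertible matrices commuting with it number q^γ · Π_i |GL_(a_i)(q)| with γ = 2 Σ_(i<j) i a_i a_j + Σ_i (i − 1) a_i² (a group of order q^γ extended by Π GL_(a_i)(q)). -/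
theorem result {F : Type*} [Field F] [Fintype F] {q : ℕ} (hF : Fintype.card F = q) {t : ℕ} (d : Fin t → ℕ) (hd : ∀ k, 1 ≤ d k) : Nat.card {g : GL ((k : Fin t) × Fin (d k)) F // (g : Matrix ((k : Fin t) × Fin (d k)) ((k : Fin t) × Fin (d k)) F) * Cfsg.jordanTypeMatrix d F = Cfsg.jordanTypeMatrix d F * (g : Matrix ((k : Fin t) × Fin (d k)) ((k : Fin t) × Fin (d k)) F)} = q ^ (2 * (∑ i ∈ Finset.range (Finset.univ.sup d + 1), ∑ j ∈ Finset.range (Finset.univ.sup d + 1), if i < j then i * (Finset.univ.filter (fun k : Fin t => d k = i)).card * (Finset.univ.filter (fun k : Fin t => d k = j)).card else 0) + ∑ i ∈ Finset.range (Finset.univ.sup d + 1), (i - 1) * (Finset.univ.filter (fun k : Fin t => d k = i)).card ^ 2) * ∏ i ∈ Finset.range (Finset.univ.sup d + 1), ∏ j : Fin ((Finset.univ.filter (fun k : Fin t => d k = i)).card), (q ^ (Finset.univ.filter (fun k : Fin t => d k = i)).card - q ^ (j : ℕ)) := by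
  classical
  set D := Finset.univ.sup d with hD
  have hle : ∀ k, d k ≤ D := fun k => Finset.le_sup (Finset.mem_univ k)
  let E : Param d → Prop := fun p => d p.1.1 = d p.1.2 ∧ (p.2 : ℕ) = 0
  let T := {g : GL ((k : Fin t) × Fin (d k)) F // (g : Matrix ((k : Fin t) × Fin (d k)) ((k : Fin t) × Fin (d k)) F) * Cfsg.jordanTypeMatrix d F = Cfsg.jordanTypeMatrix d F * (g : Matrix ((k : Fin t) × Fin (d k)) ((k : Fin t) × Fin (d k)) F)}
  let toW : T → Param d → F := fun g p => g.1.1 ⟨p.1.2, ⟨(p.2 : ℕ) + (d p.1.2 - d p.1.1), by have := p.2.2; omega⟩⟩ ⟨p.1.1, ⟨0, by have := p.2.2; omega⟩⟩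
  have hgW : ∀ g : T, g.1.1 = build d (toW g) := fun g => eq_build d _ ((commute_iff d _).1 g.2)
  have hu : ∀ (g : T) (a : ℕ), (block d hd g.1.1 a).det ≠ 0 := by
    intro g a
    have h1 := ((Matrix.isUnit_iff_isUnit_det _).1 g.1.isUnit).ne_zero
    rw [hgW] at h1 ⊢
    exact (det_ne_zero_iff d hd _).1 h1 a
  let Φ : T → ((a : Fin (D + 1)) → GL {k : Fin t // d k = (a : ℕ)} F) × ({p : Param d // ¬ E p} → F) := fun g =>
    (fun a => Matrix.GeneralLinearGroup.mkOfDetNeZero _ (hu g a), fun p => toW g p.1)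
  let mkW : ((a : Fin (D + 1)) → GL {k : Fin t // d k = (a : ℕ)} F) × ({p : Param d // ¬ E p} → F) → Param d → F := fun x p =>
    if h : E p then (x.1 ⟨d p.1.1, Nat.lt_succ_of_le (hle _)⟩).1 ⟨p.1.2, h.1.symm⟩ ⟨p.1.1, rfl⟩ else x.2 ⟨p, h⟩
  have hblock : ∀ x (a : ℕ) (ha : a < D + 1), block d hd (build d (mkW x)) a = ((x.1 ⟨a, ha⟩ : GL {k : Fin t // d k = a} F) : Matrix _ _ F) := by
    intro x a ha
    ext ⟨l, hl⟩ ⟨k, hk⟩
    show build d (mkW x) ⟨l, _⟩ ⟨k, _⟩ = _
    simp only [build, Matrix.of_apply]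
    rw [dif_pos (by omega)]
    simp only [mkW, E]
    rw [dif_pos ⟨by omega, by omega⟩]
    subst hk
    rfl
  have hΦ : Function.Bijective Φ := by
    constructor
    · intro g g' h
      apply Subtype.ext; apply Units.ext
      rw [hgW g, hgW g']
      congr 1
      funext p
      by_cases hp : E p
      · have h1 := congrFun (congrArg Prod.fst h) ⟨d p.1.1, Nat.lt_succ_of_le (hle _)⟩
        have h2 := congrArg (fun u : GL {k : Fin t // d k = d p.1.1} F => (u : Matrix {k : Fin t // d k = d p.1.1} {k : Fin t // d k = d p.1.1} F) ⟨p.1.2, hp.1.symm⟩ ⟨p.1.1, rfl⟩) h1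
        have hz : (⟨(p.2 : ℕ) + (d p.1.2 - d p.1.1), by have := p.2.2; omega⟩ : Fin (d p.1.2)) = ⟨0, hd _⟩ :=
          Fin.ext (by have := hp.1; have := hp.2; simp only; omega)
        simp only [toW, hz]
        exact h2
      · exact congrFun (congrArg Prod.snd h) ⟨p, hp⟩
    · intro x
      have hdet : (build d (mkW x)).det ≠ 0 := by
        rw [det_ne_zero_iff d hd]
        intro a
        by_cases ha : a < D + 1
        · rw [hblock x a ha]
          exact ((Matrix.isUnit_iff_isUnit_det _).1 (x.1 _).isUnit).ne_zero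
        · haveI : IsEmpty {k : Fin t // d k = a} := ⟨fun k => ha (by have := hle k.1; omega)⟩
          rw [Matrix.det_isEmpty]; exact one_ne_zero
      let g : T := ⟨Matrix.GeneralLinearGroup.mkOfDetNeZero (build d (mkW x)) hdet, (commute_iff d _).2 (build_rel d _)⟩
      refine ⟨g, Prod.ext ?_ ?_⟩
      · funext a
        exact Units.ext (hblock x a a.2)
      · funext p
        show build d (mkW x) _ _ = _
        simp only [build, Matrix.of_apply]
        have := p.1.2.2
        rw [dif_pos (by omega)]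
        have hp : (⟨(p.1.1.1, p.1.1.2), ⟨((p.1.2 : ℕ) + (d p.1.1.2 - d p.1.1.1) - 0) - (d p.1.1.2 - d p.1.1.1), by simp only; omega⟩⟩ : Param d) = p.1 :=
          Sigma.ext rfl (heq_of_eq (Fin.ext (by simp)))
        exact (congrArg (mkW x) hp).trans (dif_neg p.2)
  show Nat.card T = _
  rw [Nat.card_congr (Equiv.ofBijective Φ hΦ), Nat.card_prod, Nat.card_pi, Nat.card_fun,
    Finset.prod_congr rfl (fun (a : Fin (D + 1)) _ => card_GL_fiber (F := F) d a), hF, Nat.card_eq_fintype_card (α := F), hF,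
    Fin.prod_univ_eq_prod_range (fun a => ∏ j : Fin ((Finset.univ.filter (fun k : Fin t => d k = a)).card),
      (q ^ (Finset.univ.filter (fun k : Fin t => d k = a)).card - q ^ (j : ℕ))) (D + 1), mul_comm]
  congr 2
  -- the exponent
  set A : ℕ → ℕ := fun i => (Finset.univ.filter (fun k : Fin t => d k = i)).card with hA
  have hfib : ∀ f : ℕ → ℕ, ∑ k, f (d k) = ∑ i ∈ Finset.range (D + 1), A i * f i := by
    intro f
    rw [← Finset.sum_fiberwise_of_maps_to (g := d) (t := Finset.range (D + 1))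
      (fun k _ => Finset.mem_range.2 (Nat.lt_succ_of_le (hle k)))]
    refine Finset.sum_congr rfl fun i _ => ?_
    rw [Finset.sum_congr rfl (fun k hk => by rw [(Finset.mem_filter.1 hk).2]), Finset.sum_const, smul_eq_mul]
  have hE : Nat.card {p : Param d // E p} = ∑ i ∈ Finset.range (D + 1), A i * A i := by
    let e : {p : Param d // E p} ≃ Σ k : Fin t, {l : Fin t // d l = d k} :=
      { toFun := fun p => ⟨p.1.1.1, p.1.1.2, p.2.1.symm⟩
        invFun := fun x => ⟨⟨(x.1, x.2.1), ⟨0, by have := hd x.1; have := hd x.2.1; simp only; omega⟩⟩, x.2.2.symm, rfl⟩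
        left_inv := fun p => Subtype.ext (Sigma.ext rfl (heq_of_eq (Fin.ext p.2.2.symm)))
        right_inv := fun x => rfl }
    rw [Nat.card_congr e, Nat.card_sigma, ← hfib]
    exact Finset.sum_congr rfl fun k _ => by rw [Nat.card_eq_fintype_card, Fintype.card_subtype]
  have htot : Nat.card (Param d) = ∑ i ∈ Finset.range (D + 1), ∑ j ∈ Finset.range (D + 1), A i * (A j * min i j) := by
    rw [Nat.card_eq_fintype_card, Fintype.card_sigma]
    simp only [Fintype.card_fin]
    rw [Fintype.sum_prod_type, hfib (fun i => ∑ l, min i (d l))]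
    refine Finset.sum_congr rfl fun i _ => ?_
    rw [hfib (fun j => min i j), Finset.mul_sum]
  have hsplit : Nat.card (Param d) = Nat.card {p : Param d // E p} + Nat.card {p : Param d // ¬ E p} := by
    rw [← Nat.card_sum]
    exact Nat.card_congr (Equiv.sumCompl E).symm
  set I := Finset.range (D + 1) with hI
  have hA0 : A 0 = 0 := by
    rw [hA]
    exact Finset.card_eq_zero.2 (Finset.filter_eq_empty_iff.2 fun k _ => by have := hd k; omega)
  have hpt : ∀ i j, A i * (A j * min i j) = (if i < j then i * A i * A j else 0) + (if j < i then j * A j * A i else 0)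
      + (if i = j then i * A i ^ 2 else 0) := by
    intro i j
    rcases lt_trichotomy i j with h | h | h
    · rw [if_pos h, if_neg (by omega), if_neg (by omega), min_eq_left h.le]; ring
    · subst h; rw [if_neg (by omega), if_pos rfl, min_self]; ring
    · rw [if_neg (by omega), if_pos h, if_neg (by omega), min_eq_right h.le]; ring
  have hmin : ∑ i ∈ I, ∑ j ∈ I, A i * (A j * min i j) =
      2 * (∑ i ∈ I, ∑ j ∈ I, if i < j then i * A i * A j else 0) + ∑ i ∈ I, i * A i ^ 2 := by
    simp only [hpt, Finset.sum_add_distrib]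
    rw [Finset.sum_comm (f := fun i j => if j < i then j * A j * A i else 0), two_mul]
    congr 1
    exact Finset.sum_congr rfl fun i hi => by rw [Finset.sum_ite_eq, if_pos hi]
  have hsq : ∑ i ∈ I, i * A i ^ 2 = ∑ i ∈ I, (i - 1) * A i ^ 2 + ∑ i ∈ I, A i * A i := by
    rw [← Finset.sum_add_distrib]
    refine Finset.sum_congr rfl fun i _ => ?_
    cases i with
    | zero => simp [hA0]
    | succ i => rw [Nat.add_sub_cancel]; ring
  have hgoal : Nat.card {p : Param d // ¬ E p} =
      2 * (∑ i ∈ I, ∑ j ∈ I, if i < j then i * A i * A j else 0) + ∑ i ∈ I, (i - 1) * A i ^ 2 := by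
    omega
  exact hgoal

end Cfsg.Agent.S2581
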