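import Cfsg.Statements.S2585
import Mathlib.LinearAlgebra.QuadraticForm.Basic
import Mathlib.LinearAlgebra.Dual.Lemmas
import Mathlib.FieldTheory.Finite.Basic
import Mathlib.Algebra.CharP.Two

set_option autoImplicit false
open Cfsg

namespace Cfsg.Agent.S2585

open Matrix

/-- Over a finite field of characteristic two every element of the symplectic group is orthogonal for a suitable quadratic form: for each A in Sp_2m(F) there is a quadratic form Q on F^(2m) whose polar form is the alternating form defining Sp_2m(F) (so Q is non-degenerate) and which A preserves. Equivalently, for m ≥ 1, Sp_2m(F) is the union of the conjugates of its two orthogonal subgroups O⁺_2m(F) and O⁻_2m(F). -/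
theorem result {F : Type*} [Field F] [Fintype F] [CharP F 2] {m : ℕ} (A : Matrix.symplecticGroup (Fin m) F) : ∃ Q : QuadraticForm F (Fin m ⊕ Fin m → F), (∀ u v : Fin m ⊕ Fin m → F, QuadraticMap.polar ⇑Q u v = Cfsg.sympForm m F u v) ∧ ∀ v : Fin m ⊕ Fin m → F, Q ((A : Matrix (Fin m ⊕ Fin m) (Fin m ⊕ Fin m) F).mulVec v) = Q v := by
  classical
  set M : Matrix (Fin m ⊕ Fin m) (Fin m ⊕ Fin m) F := (A : Matrix (Fin m ⊕ Fin m) (Fin m ⊕ Fin m) F)
  have hM : ∀ u v, Cfsg.sympForm m F (M *ᵥ u) (M *ᵥ v) = Cfsg.sympForm m F u v := by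
    intro u v
    have h := SymplecticGroup.mem_iff'.mp A.2
    simp only [Cfsg.sympForm, Matrix.mulVec_mulVec]
    rw [← Matrix.vecMul_transpose M u, ← Matrix.dotProduct_mulVec, Matrix.mulVec_mulVec,
      ← Matrix.mul_assoc, h]
  set Q0 : QuadraticForm F (Fin m ⊕ Fin m → F) :=
    ∑ i : Fin m, QuadraticMap.linMulLin (LinearMap.proj (Sum.inl i)) (LinearMap.proj (Sum.inr i))
  have hQ0 : ∀ v, Q0 v = ∑ i : Fin m, v (Sum.inl i) * v (Sum.inr i) := fun v => by
    simp [Q0]
  have hpolar : ∀ u v, Q0 (u + v) = Q0 u + Q0 v + Cfsg.sympForm m F u v := by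
    intro u v
    simp [hQ0, Cfsg.sympForm, Matrix.J, dotProduct, Matrix.mulVec, Fintype.sum_sum_type,
      add_mul, mul_add, Finset.sum_add_distrib, Matrix.one_apply, CharTwo.neg_eq,
      mul_comm (v (Sum.inl _))]
    abel
  have hsq : ∀ x : F, ∃ y, y ^ 2 = x := fun x => by
    obtain ⟨y, hy⟩ := FiniteField.isSquare_of_char_two (ringChar.eq F 2) x
    exact ⟨y, by rw [hy, sq]⟩
  choose s hs using hsq
  have hinj : ∀ x y : F, x ^ 2 = y ^ 2 → x = y := fun x y h => by
    rwa [← CharTwo.add_eq_zero, ← CharTwo.add_sq, sq_eq_zero_iff, CharTwo.add_eq_zero] at h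
  let g : (Fin m ⊕ Fin m → F) → F := fun v => Q0 (M *ᵥ v) + Q0 v
  have hgadd : ∀ u v, g (u + v) = g u + g v := fun u v => by
    simp only [g, Matrix.mulVec_add, hpolar, hM]
    linear_combination (Cfsg.sympForm m F u v) * (CharTwo.two_eq_zero (R := F))
  let d : Module.Dual F (Fin m ⊕ Fin m → F) :=
    { toFun := fun v => s (g v)
      map_add' := fun u v => hinj _ _ (by rw [CharTwo.add_sq, hs, hs, hs, hgadd])
      map_smul' := fun c v => hinj _ _ (by
        rw [RingHom.id_apply, smul_eq_mul, mul_pow, hs, hs]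
        simp only [g, Matrix.mulVec_smul, QuadraticMap.map_smul, smul_eq_mul]
        ring) }
  have hd : d ∈ (LinearMap.ker (M.mulVecLin + LinearMap.id)).dualAnnihilator := by
    rw [Submodule.mem_dualAnnihilator]
    intro v hv
    simp only [LinearMap.mem_ker, LinearMap.add_apply, Matrix.mulVecLin_apply, LinearMap.id_apply] at hv
    have hv' : M *ᵥ v = v := funext fun i => by
      have := congrFun hv i
      simpa [CharTwo.add_eq_zero] using this
    refine hinj (s (g v)) 0 ?_
    rw [hs]
    simp [g, hv', CharTwo.add_self_eq_zero]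
  rw [← LinearMap.range_dualMap_eq_dualAnnihilator_ker] at hd
  obtain ⟨l, hl⟩ := hd
  refine ⟨Q0 + QuadraticMap.linMulLin l l, fun u v => ?_, fun v => ?_⟩
  · simp only [QuadraticMap.polar, QuadraticMap.add_apply, QuadraticMap.linMulLin_apply, map_add,
      hpolar]
    linear_combination (l u * l v) * (CharTwo.two_eq_zero (R := F))
  · have h1 : l (M *ᵥ v) + l v = s (g v) := by
      have := LinearMap.congr_fun hl v
      simpa [d] using this
    have h2 := hs (g v)
    simp only [g] at h2
    simp only [QuadraticMap.add_apply, QuadraticMap.linMulLin_apply]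
    rw [← h1] at h2
    linear_combination h2 + (Q0 (M *ᵥ v) - (l (M *ᵥ v)) * l v - l v * l v) *
      (CharTwo.two_eq_zero (R := F))

end Cfsg.Agent.S2585
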