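import Cfsg.Statements.S2586
import Cfsg.Agent.Lib.Similar.Transpose

set_option autoImplicit false
open Cfsg

namespace Cfsg.Agent.S2586

/-- Over a finite field, every element of the symplectic group Sp_2m(F) is conjugate by an invertible matrix to its inverse. -/
theorem result {F : Type*} [Field F] [Finite F] {m : ℕ} (A : Matrix.symplecticGroup (Fin m) F) : IsConj (A : Matrix (Fin m ⊕ Fin m) (Fin m ⊕ Fin m) F) ((A⁻¹ : Matrix.symplecticGroup (Fin m) F) : Matrix (Fin m ⊕ Fin m) (Fin m ⊕ Fin m) F) := by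
  classical
  obtain ⟨P, hP, h⟩ := CfsgLib.Similar.exists_transpose (A : Matrix (Fin m ⊕ Fin m) (Fin m ⊕ Fin m) F)
  have hJ : IsUnit (Matrix.J (Fin m) F) := by
    rw [Matrix.isUnit_iff_isUnit_det]; exact Matrix.isUnit_det_J _ _
  have hA : (A : Matrix (Fin m ⊕ Fin m) (Fin m ⊕ Fin m) F) * Matrix.J (Fin m) F * (A : Matrix (Fin m ⊕ Fin m) (Fin m ⊕ Fin m) F).transpose = Matrix.J (Fin m) F := SymplecticGroup.mem_iff.1 A.2
  have hinv : ((A⁻¹ : Matrix.symplecticGroup (Fin m) F) : Matrix (Fin m ⊕ Fin m) (Fin m ⊕ Fin m) F) * (A : Matrix (Fin m ⊕ Fin m) (Fin m ⊕ Fin m) F) = 1 :=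
    congrArg Subtype.val (inv_mul_cancel A)
  refine ⟨(hJ.mul hP).unit, ?_⟩
  show Matrix.J (Fin m) F * P * _ = _ * (Matrix.J (Fin m) F * P)
  rw [mul_assoc, h, ← mul_assoc, ← mul_assoc]
  congr 1
  conv_rhs => rw [← hA]
  rw [← mul_assoc, ← mul_assoc, hinv, one_mul]

end Cfsg.Agent.S2586
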