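import Cfsg.Statements.S2587
import Mathlib
import Cfsg.Agent.Lib.Unitary.FieldNorm

set_option autoImplicit false
open Cfsg

namespace Cfsg.Agent.S2587


theorem norm_surj {R : Type*} [CommRing R] [Finite R] (σ : R →+* R) (hinv : ∀ x, σ (σ x) = x)
    (lam : R) (hlam : IsUnit (σ lam - lam)) (u : Rˣ) (hu : σ (u : R) = u) : ∃ c : Rˣ, σ (c : R) * c = u := by
  classical
  let S : Rˣ →* Rˣ := Units.map σ.toMonoidHom
  let τ : Rˣ →* Rˣ := MonoidHom.mk' (fun y => y * (S y)⁻¹) (fun a b => by
    rw [map_mul, mul_inv]; exact mul_mul_mul_comm a b _ _)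
  let ν : Rˣ →* Rˣ := MonoidHom.mk' (fun y => S y * y) (fun a b => by
    rw [map_mul]; exact mul_mul_mul_comm _ _ a b)
  have hSS : ∀ y, S (S y) = y := fun y => Units.ext (hinv y)
  have hker : τ.ker ≤ τ.ker := le_rfl
  have hνle : ν.range ≤ τ.ker := by
    rintro _ ⟨y, rfl⟩
    rw [MonoidHom.mem_ker]
    show S y * y * (S (S y * y))⁻¹ = 1
    rw [map_mul, hSS, mul_comm y (S y), mul_inv_cancel]
  have h90 : ν.ker ≤ τ.range := by
    intro x hx
    have hx' : S x * x = 1 := hx
    let MS := {M : Ideal R // M.IsMaximal}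
    haveI : Finite (Ideal R) := Finite.of_injective (fun I : Ideal R => (I : Set R)) SetLike.coe_injective
    let N : MS → MS := fun M => ⟨M.1.comap σ, Ideal.comap_isMaximal_of_surjective σ (fun y => ⟨σ y, hinv y⟩) (H := M.2)⟩
    have hNN : ∀ M, N (N M) = M := fun M => Subtype.ext (by
      show (M.1.comap σ).comap σ = M.1
      ext y
      simp [Ideal.mem_comap, hinv])
    obtain ⟨k, ⟨e⟩⟩ := Finite.exists_equiv_fin MS
    let f : MS → R := fun M =>
      if N M = M then (if 1 + (x : R) ∈ M.1 then lam else 1) else (if e M < e (N M) then 1 else 0)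
    have hc : Pairwise fun i j : MS => IsCoprime i.1 j.1 := fun i j hij =>
      Ideal.isCoprime_iff_sup_eq.2 (i.2.coprime_of_ne j.2 (fun h => hij (Subtype.ext h)))
    obtain ⟨a', ha'⟩ := Ideal.quotientInfToPiQuotient_surj hc (fun M => Ideal.Quotient.mk _ (f M))
    obtain ⟨a, rfl⟩ := Ideal.Quotient.mk_surjective a'
    have ha : ∀ M : MS, a - f M ∈ M.1 := fun M => Ideal.Quotient.eq.1 (congrFun ha' M)
    have hy : IsUnit (a + (x : R) * σ a) := by
      by_contra hnu
      obtain ⟨M, hM, hyM⟩ := exists_max_ideal_of_mem_nonunits hnu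
      let m : MS := ⟨M, hM⟩
      have h1 : a - f m ∈ M := ha m
      have h2 : σ (a - f (N m)) ∈ M := ha (N m)
      have h3 : f m + (x : R) * σ (f (N m)) ∈ M := by
        have h4 : f m + (x : R) * σ (f (N m)) = (a + x * σ a) - (a - f m) - x * σ (a - f (N m)) := by rw [map_sub]; ring
        rw [h4]
        exact M.sub_mem (M.sub_mem hyM h1) (M.mul_mem_left _ h2)
      have hxM : (x : R) ∉ M := fun h => hM.ne_top (M.eq_top_of_isUnit_mem h x.isUnit)
      have h1M : (1 : R) ∉ M := fun h => hM.ne_top ((Ideal.eq_top_iff_one M).2 h)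
      by_cases hN : N m = m
      · rw [hN] at h3
        simp only [f, if_pos hN] at h3
        by_cases h1x : 1 + (x : R) ∈ M
        · rw [if_pos h1x] at h3
          apply hM.ne_top (M.eq_top_of_isUnit_mem ?_ hlam)
          have h5 : (x : R) * (σ lam - lam) = (lam + x * σ lam) - lam * (1 + x) := by ring
          have h6 : (x : R) * (σ lam - lam) ∈ M := h5 ▸ M.sub_mem h3 (M.mul_mem_left _ h1x)
          exact (hM.isPrime.mem_or_mem h6).resolve_left hxM
        · rw [if_neg h1x, map_one, mul_one] at h3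
          exact h1x h3
      · simp only [f, hNN, if_neg hN, if_neg (Ne.symm hN)] at h3
        by_cases hlt : e m < e (N m)
        · rw [if_pos hlt, if_neg (not_lt.2 hlt.le), map_zero, mul_zero, add_zero] at h3
          exact h1M h3
        · have hgt : e (N m) < e m := lt_of_le_of_ne (not_lt.1 hlt) (fun h => hN (e.injective h))
          rw [if_neg hlt, if_pos hgt, map_one, zero_add, mul_one] at h3
          exact hxM h3
    refine ⟨hy.unit, ?_⟩
    show hy.unit * (S hy.unit)⁻¹ = x
    rw [mul_inv_eq_iff_eq_mul]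
    apply Units.ext
    rw [Units.val_mul, IsUnit.unit_spec]
    show a + (x : R) * σ a = (x : R) * σ (hy.unit : R)
    have hx1 : σ (x : R) * x = 1 := congrArg Units.val hx'
    rw [IsUnit.unit_spec, map_add, map_mul, hinv]
    linear_combination (-a) * hx1
  have hτν : τ.range ≤ ν.ker := by
    rintro _ ⟨y, rfl⟩
    rw [MonoidHom.mem_ker]
    show S (y * (S y)⁻¹) * (y * (S y)⁻¹) = 1
    rw [map_mul, map_inv, hSS, mul_assoc, inv_mul_cancel_left, mul_inv_cancel]
  have hcard : Nat.card τ.ker ≤ Nat.card ν.range := by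
    have h1 := Subgroup.card_mul_index ν.ker
    have h2 := Subgroup.card_mul_index τ.ker
    rw [Subgroup.index_ker] at h1 h2
    rw [le_antisymm h90 hτν] at h1
    have hpos : 0 < Nat.card τ.range := Nat.card_pos
    exact Nat.le_of_mul_le_mul_left (show Nat.card τ.range * Nat.card τ.ker ≤ Nat.card τ.range * Nat.card ν.range by rw [h1, mul_comm, h2]) hpos
  have hmem : u ∈ τ.ker := by
    rw [MonoidHom.mem_ker]
    show u * (S u)⁻¹ = 1
    rw [mul_inv_eq_one]
    exact Units.ext hu.symm
  rw [← Subgroup.eq_of_le_of_card_ge hνle hcard] at hmem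
  obtain ⟨c, hc⟩ := hmem
  exact ⟨c, congrArg Units.val hc⟩


/-- Conjugacy in the finite general unitary group is controlled by the general linear group: two elements of GU_n(q) (the invertible matrices over the field with q² elements preserving the Hermitian form Σ u_i v_i^q) are conjugate in GU_n(q) if and only if they are conjugate in GL_n(q²). -/
theorem result {K : Type*} [Field K] [Fintype K] {q n : ℕ} (hK : Fintype.card K = q ^ 2) (A B : ↥(Cfsg.GU n K q)) : IsConj A B ↔ IsConj (A : GL (Fin n) K) (B : GL (Fin n) K) := by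
  classical
  constructor
  · intro h
    exact (GU n K q).subtype.map_isConj h
  intro hAB
  obtain ⟨P, hP⟩ := isConj_iff.1 hAB
  obtain ⟨κ, hκ, hκκ⟩ := CfsgLib.Unitary.FieldNorm.exists_conj hK
  let adj : (Matrix (Fin n) (Fin n) K) → (Matrix (Fin n) (Fin n) K) := fun X => (X.map κ).transpose
  have hmul : ∀ X Y : (Matrix (Fin n) (Fin n) K), adj (X * Y) = adj Y * adj X := fun X Y => by
    simp only [adj, Matrix.map_mul, Matrix.transpose_mul]
  have hadd : ∀ X Y : (Matrix (Fin n) (Fin n) K), adj (X + Y) = adj X + adj Y := fun X Y => by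
    ext i j; simp [adj]
  have hadj : ∀ X : (Matrix (Fin n) (Fin n) K), adj (adj X) = X := fun X => by
    ext i j; simp [adj, hκκ]
  have halg : ∀ c : K, adj (algebraMap K (Matrix (Fin n) (Fin n) K) c) = algebraMap K (Matrix (Fin n) (Fin n) K) (κ c) := fun c => by
    simp only [adj, Matrix.algebraMap_eq_diagonal, Matrix.diagonal_map (map_zero κ), Matrix.diagonal_transpose]
    rfl
  have hone : adj (1 : (Matrix (Fin n) (Fin n) K)) = 1 := by
    have := halg 1
    rwa [map_one, map_one, map_one] at this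
  have hGU : ∀ g : GL (Fin n) K, g ∈ GU n K q ↔ adj (g : (Matrix (Fin n) (Fin n) K)) * (g : (Matrix (Fin n) (Fin n) K)) = 1 := by
    intro g
    have hH : ∀ u v : Fin n → K, Cfsg.hermForm n K q ((g : (Matrix (Fin n) (Fin n) K)).mulVec u) ((g : (Matrix (Fin n) (Fin n) K)).mulVec v) =
        ∑ a, ∑ b, u a * ((adj (g : (Matrix (Fin n) (Fin n) K)) * (g : (Matrix (Fin n) (Fin n) K))) b a) * κ (v b) := by
      intro u v
      simp only [Cfsg.hermForm, ← hκ, Matrix.mulVec, dotProduct, map_sum, map_mul, adj, Matrix.mul_apply,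
        Matrix.transpose_apply, Matrix.map_apply, Finset.mul_sum, Finset.sum_mul]
      rw [Finset.sum_comm]
      conv_rhs => rw [Finset.sum_comm]
      refine Finset.sum_congr rfl fun b _ => ?_
      rw [Finset.sum_comm]
      exact Finset.sum_congr rfl fun a _ => Finset.sum_congr rfl fun i _ => by ring
    constructor
    · intro h
      ext b a
      have := h (Pi.single a 1) (Pi.single b 1)
      rw [show (Units.coeHom (Matrix (Fin n) (Fin n) K) g) = (g : (Matrix (Fin n) (Fin n) K)) from rfl, hH] at this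
      rw [Finset.sum_eq_single a (fun x _ hx => Finset.sum_eq_zero fun y _ => by simp [hx]) (by simp),
        Finset.sum_eq_single b (fun y _ hy => by simp [hy]) (by simp), Pi.single_eq_same, Pi.single_eq_same,
        map_one, one_mul, mul_one] at this
      have hq0 : q ≠ 0 := by have := CfsgLib.Unitary.FieldNorm.two_le_q hK; omega
      rw [this, Matrix.one_apply, Cfsg.hermForm]
      rcases eq_or_ne b a with rfl | hne
      · simp [Pi.single_apply, hq0]
      · simp [Pi.single_apply, hne, hne.symm, hq0]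
    · intro h u v
      show Cfsg.hermForm n K q ((g : (Matrix (Fin n) (Fin n) K)).mulVec u) ((g : (Matrix (Fin n) (Fin n) K)).mulVec v) = _
      rw [hH, h]
      simp [Cfsg.hermForm, Matrix.one_apply, hκ]
  set a : GL (Fin n) K := (A : GL (Fin n) K)
  set b : GL (Fin n) K := (B : GL (Fin n) K)
  have ha : adj (a : (Matrix (Fin n) (Fin n) K)) * (a : (Matrix (Fin n) (Fin n) K)) = 1 := (hGU a).1 A.2
  have hb : adj (b : (Matrix (Fin n) (Fin n) K)) * (b : (Matrix (Fin n) (Fin n) K)) = 1 := (hGU b).1 B.2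
  set h : (Matrix (Fin n) (Fin n) K) := adj (P : (Matrix (Fin n) (Fin n) K)) * (P : (Matrix (Fin n) (Fin n) K)) with hh
  have hPa : (P : (Matrix (Fin n) (Fin n) K)) * (a : (Matrix (Fin n) (Fin n) K)) = (b : (Matrix (Fin n) (Fin n) K)) * (P : (Matrix (Fin n) (Fin n) K)) := by
    rw [← Units.val_mul, ← Units.val_mul, ← hP]; simp
  have hha : h * (a : (Matrix (Fin n) (Fin n) K)) = (a : (Matrix (Fin n) (Fin n) K)) * h := by
    have h1 : adj (a : (Matrix (Fin n) (Fin n) K)) * h * (a : (Matrix (Fin n) (Fin n) K)) = h := by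
      calc adj (a : (Matrix (Fin n) (Fin n) K)) * h * (a : (Matrix (Fin n) (Fin n) K)) = adj ((P : (Matrix (Fin n) (Fin n) K)) * (a : (Matrix (Fin n) (Fin n) K))) * ((P : (Matrix (Fin n) (Fin n) K)) * (a : (Matrix (Fin n) (Fin n) K))) := by rw [hmul, hh]; simp only [mul_assoc]
        _ = adj (P : (Matrix (Fin n) (Fin n) K)) * (adj (b : (Matrix (Fin n) (Fin n) K)) * (b : (Matrix (Fin n) (Fin n) K))) * (P : (Matrix (Fin n) (Fin n) K)) := by rw [hPa, hmul]; simp only [mul_assoc]
        _ = h := by rw [hb, mul_one]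
    have ha' : (a : (Matrix (Fin n) (Fin n) K)) * adj (a : (Matrix (Fin n) (Fin n) K)) = 1 := mul_eq_one_comm.1 ha
    calc h * (a : (Matrix (Fin n) (Fin n) K)) = ((a : (Matrix (Fin n) (Fin n) K)) * adj (a : (Matrix (Fin n) (Fin n) K))) * (h * (a : (Matrix (Fin n) (Fin n) K))) := by rw [ha', one_mul]
      _ = (a : (Matrix (Fin n) (Fin n) K)) * (adj (a : (Matrix (Fin n) (Fin n) K)) * h * (a : (Matrix (Fin n) (Fin n) K))) := by simp only [mul_assoc]
      _ = (a : (Matrix (Fin n) (Fin n) K)) * h := by rw [h1]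
  have hadjh : adj h = h := by rw [hh, hmul, hadj]
  let S := Algebra.adjoin K ({h} : Set (Matrix (Fin n) (Fin n) K))
  have hcomm : ∀ x ∈ S, ∀ y : (Matrix (Fin n) (Fin n) K), h * y = y * h → x * y = y * x := by
    intro x hx y hy
    induction hx using Algebra.adjoin_induction with
    | mem z hz => rw [Set.mem_singleton_iff.1 hz]; exact hy
    | algebraMap c => exact Algebra.commutes c y
    | add z w _ _ hz hw => rw [add_mul, mul_add, hz, hw]
    | mul z w _ _ hz hw => rw [mul_assoc, hw, ← mul_assoc, hz, mul_assoc]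
  have hSmem : ∀ x ∈ S, adj x ∈ S := by
    intro x hx
    induction hx using Algebra.adjoin_induction with
    | mem z hz => rw [Set.mem_singleton_iff.1 hz, hadjh]; exact Algebra.subset_adjoin rfl
    | algebraMap c => rw [halg]; exact S.algebraMap_mem _
    | add z w _ _ hz hw => rw [hadd]; exact S.add_mem hz hw
    | mul z w _ _ hz hw => rw [hmul]; exact S.mul_mem hw hz
  have hSc : ∀ x y : S, x * y = y * x := fun x y =>
    Subtype.ext (hcomm x.1 x.2 y.1 ((hcomm y.1 y.2 h rfl).symm))
  letI : CommRing S := { (inferInstance : Ring S) with mul_comm := hSc }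
  haveI : Finite S := Finite.of_injective Subtype.val Subtype.val_injective
  let σ : S →+* S :=
    { toFun := fun x => ⟨adj x.1, hSmem _ x.2⟩
      map_one' := Subtype.ext hone
      map_mul' := fun x y => Subtype.ext (by
        show adj (x.1 * y.1) = adj x.1 * adj y.1
        rw [hmul]
        exact congrArg Subtype.val (hSc ⟨adj y.1, hSmem _ y.2⟩ ⟨adj x.1, hSmem _ x.2⟩))
      map_zero' := Subtype.ext (by ext i j; simp [adj])
      map_add' := fun x y => Subtype.ext (hadd x.1 y.1) }
  obtain ⟨l, hl⟩ : ∃ l : K, κ l ≠ l := by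
    by_contra hall
    push Not at hall
    have h2 := CfsgLib.Unitary.FieldNorm.two_le_q hK
    have hcard := Polynomial.card_le_degree_of_subset_roots (p := (Polynomial.X ^ q - Polynomial.X : Polynomial K)) (Z := Finset.univ) (by
      intro x _
      rw [Polynomial.mem_roots (FiniteField.X_pow_card_sub_X_ne_zero K (show 1 < q by omega))]
      simp [Polynomial.IsRoot, ← hκ, hall x])
    rw [Finset.card_univ, FiniteField.X_pow_card_sub_X_natDegree_eq _ (show 1 < q by omega), hK] at hcard
    nlinarith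
  let hS : S := ⟨h, Algebra.subset_adjoin rfl⟩
  have hu : IsUnit h := by
    rw [hh]
    refine (IsUnit.mul ?_ P.isUnit)
    rw [Matrix.isUnit_iff_isUnit_det]
    show IsUnit ((κ.mapMatrix (P : (Matrix (Fin n) (Fin n) K))).transpose).det
    rw [Matrix.det_transpose, ← RingHom.map_det]
    exact ((Matrix.isUnit_iff_isUnit_det _).1 P.isUnit).map κ
  have huS : IsUnit hS := by
    obtain ⟨u, hu⟩ := hu
    refine IsUnit.of_pow_eq_one (n := orderOf u) (Subtype.ext ?_) (orderOf_pos u).ne'
    rw [SubmonoidClass.coe_pow]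
    show h ^ _ = (1 : (Matrix (Fin n) (Fin n) K))
    rw [← hu, ← Units.val_pow_eq_pow_val, pow_orderOf_eq_one, Units.val_one]
  have hlam : IsUnit (σ (algebraMap K S l) - algebraMap K S l) := by
    have e : σ (algebraMap K S l) - algebraMap K S l = algebraMap K S (κ l - l) := by
      refine Subtype.ext ?_
      show adj (algebraMap K (Matrix (Fin n) (Fin n) K) l) - algebraMap K (Matrix (Fin n) (Fin n) K) l = algebraMap K (Matrix (Fin n) (Fin n) K) (κ l - l)
      rw [halg, map_sub]
    rw [e]
    exact (isUnit_iff_ne_zero.2 (sub_ne_zero.2 hl)).map _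
  have hfix : σ ((huS.unit⁻¹ : Sˣ) : S) = ((huS.unit⁻¹ : Sˣ) : S) := by
    have h1 : Units.map σ.toMonoidHom huS.unit = huS.unit := Units.ext (Subtype.ext hadjh)
    have h2 := congrArg Units.val (show Units.map σ.toMonoidHom huS.unit⁻¹ = huS.unit⁻¹ by rw [map_inv, h1])
    exact h2
  obtain ⟨c, hc⟩ := norm_surj σ (fun x => Subtype.ext (hadj x.1)) _ hlam huS.unit⁻¹ hfix
  let cG : GL (Fin n) K := Units.map S.val.toRingHom.toMonoidHom c
  have hnorm : adj (cG : (Matrix (Fin n) (Fin n) K)) * h * (cG : (Matrix (Fin n) (Fin n) K)) = 1 := by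
    have h1 : σ (c : S) * (c : S) * hS = 1 := by
      rw [hc]
      exact huS.val_inv_mul
    have h2 : σ (c : S) * hS * (c : S) = 1 := by rw [mul_assoc, hSc hS, ← mul_assoc, h1]
    exact congrArg Subtype.val h2
  have hg : (P * cG : GL (Fin n) K) ∈ GU n K q := by
    rw [hGU, Units.val_mul, hmul]
    calc adj (cG : (Matrix (Fin n) (Fin n) K)) * adj (P : (Matrix (Fin n) (Fin n) K)) * ((P : (Matrix (Fin n) (Fin n) K)) * (cG : (Matrix (Fin n) (Fin n) K))) = adj (cG : (Matrix (Fin n) (Fin n) K)) * h * (cG : (Matrix (Fin n) (Fin n) K)) := by rw [hh]; simp only [mul_assoc]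
      _ = 1 := hnorm
  refine isConj_iff.2 ⟨⟨P * cG, hg⟩, Subtype.ext ?_⟩
  show P * cG * a * (P * cG)⁻¹ = b
  have hca : cG * a = a * cG := Units.ext (hcomm _ (c : S).2 (a : (Matrix (Fin n) (Fin n) K)) hha)
  rw [mul_inv_eq_iff_eq_mul, mul_assoc, hca, ← mul_assoc, ← mul_assoc]
  congr 1
  exact Units.ext hPa

end Cfsg.Agent.S2587
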