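import Cfsg.Statements.S2588
import Mathlib
import Cfsg.Agent.Lib.Unitary.Conj
import Cfsg.Agent.Lib.Unitary.FieldNorm

set_option autoImplicit false
open Cfsg

namespace Cfsg.Agent.S2588

/-- An invertible matrix A over the field with q² elements is conjugate in GL_n(q²) to an element of the general unitary group GU_n(q) (isometries of the Hermitian form Σ u_i v_i^q) if and only if A is similar to the inverse transpose of its entrywise q-th power (A ~ A^(−qT), the image of A under the map sending a matrix to the inverse transpose of its entrywise q-th power — inverse transpose composed with the field automorphism — whose fixed points form GU_n(q)). -/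
theorem result {K : Type*} [Field K] [Fintype K] {q n : ℕ} (hK : Fintype.card K = q ^ 2) (A : GL (Fin n) K) : (∃ B : ↥(Cfsg.GU n K q), IsConj A (B : GL (Fin n) K)) ↔ IsConj (A : Matrix (Fin n) (Fin n) K) (((A : Matrix (Fin n) (Fin n) K).map (fun x : K => x ^ q)).transpose)⁻¹ := by
  classical
  obtain ⟨κ, hκ, hκκ⟩ := CfsgLib.Unitary.FieldNorm.exists_conj hK
  have hmap : ((A : Matrix (Fin n) (Fin n) K).map (fun x : K => x ^ q)).transpose = CfsgLib.Unitary.Conj.adj κ (A : Matrix (Fin n) (Fin n) K) := by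
    ext i j; exact (hκ _).symm
  rw [hmap]
  let Aa : GL (Fin n) K := (CfsgLib.Unitary.Conj.isUnit_adj κ A.isUnit).unit
  have hAa : (Aa : Matrix (Fin n) (Fin n) K) = CfsgLib.Unitary.Conj.adj κ (A : Matrix (Fin n) (Fin n) K) := IsUnit.unit_spec _
  rw [← hAa, ← Matrix.coe_units_inv]
  constructor
  · rintro ⟨B, hB⟩
    obtain ⟨P, hP⟩ := isConj_iff.1 hB
    let Pa : GL (Fin n) K := (CfsgLib.Unitary.Conj.isUnit_adj κ P.isUnit).unit
    have hPa : (Pa : Matrix (Fin n) (Fin n) K) = CfsgLib.Unitary.Conj.adj κ (P : Matrix (Fin n) (Fin n) K) := IsUnit.unit_spec _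
    have hBm := (CfsgLib.Unitary.Conj.mem_GU hK hκ _).1 B.2
    have hX : Aa * (Pa * P) * A = Pa * P := by
      have hPA : P * A = (B : GL (Fin n) K) * P := by rw [← hP, inv_mul_cancel_right]
      refine Units.ext ?_
      simp only [Units.val_mul, hAa, hPa]
      calc CfsgLib.Unitary.Conj.adj κ (A : Matrix (Fin n) (Fin n) K) * (CfsgLib.Unitary.Conj.adj κ (P : Matrix (Fin n) (Fin n) K) * (P : Matrix (Fin n) (Fin n) K)) * (A : Matrix (Fin n) (Fin n) K)
          = CfsgLib.Unitary.Conj.adj κ ((P * A : GL (Fin n) K) : Matrix (Fin n) (Fin n) K) * ((P * A : GL (Fin n) K) : Matrix (Fin n) (Fin n) K) := by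
            simp only [Units.val_mul, CfsgLib.Unitary.Conj.adj_mul, mul_assoc]
        _ = _ := by
            rw [hPA, Units.val_mul, CfsgLib.Unitary.Conj.adj_mul, mul_assoc, ← mul_assoc _ _ (P : Matrix (Fin n) (Fin n) K), hBm, one_mul]
    refine (Units.coeHom _).map_isConj (isConj_iff.2 ⟨Pa * P, ?_⟩ : IsConj A Aa⁻¹)
    rw [mul_inv_eq_iff_eq_mul, eq_inv_mul_iff_mul_eq, ← mul_assoc, hX]
  · rintro ⟨C, hC⟩
    have hX : Aa * C * A = C := by
      refine Units.ext ?_
      rw [Units.val_mul, Units.val_mul, mul_assoc, hC, ← mul_assoc, Units.mul_inv, one_mul]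
    have hX' := congrArg Units.val hX
    rw [Units.val_mul, Units.val_mul, hAa] at hX'
    obtain ⟨c, hc⟩ := CfsgLib.Unitary.Conj.exists_conj_mem hK hκ hκκ A C hX'
    exact ⟨⟨_, hc⟩, isConj_iff.2 ⟨c, rfl⟩⟩

end Cfsg.Agent.S2588
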