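import Cfsg.Statements.S2593
import Cfsg.Agent.Lib.Symplectic.InvolutionClasses
import Cfsg.Agent.Lib.Geometry.InvolutionModels

set_option autoImplicit false
open Cfsg

namespace Cfsg.Agent.S2593

open scoped Matrix

/-- Number of conjugacy classes of involutions in the symplectic group Sp_2m(F) over a finite field of characteristic two (m ≥ 1): for each s with 1 ≤ s ≤ m there is one class with rank(t − 1) = s if s is odd and two if s is even (according as v ↦ f(v, tv), f the symplectic form, vanishes identically or not), so m + ⌊m/2⌋ classes in all. -/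
theorem result {F : Type*} [Field F] [Fintype F] [CharP F 2] {m : ℕ} (hm : 1 ≤ m) : Nat.card {C : ConjClasses ↥(Matrix.symplecticGroup (Fin m) F) // ∃ g : Matrix.symplecticGroup (Fin m) F, ConjClasses.mk g = C ∧ orderOf g = 2} = m + m / 2 := by
  classical
  have hsq : ∀ x : ↥(Matrix.symplecticGroup (Fin m) F), orderOf x = 2 → x * x = 1 := fun x hx => by
    rw [← sq, ← hx, pow_orderOf_eq_one]
  let emb : ↥(Cfsg.isometryGroup F ⇑(CfsgLib.Orth.Models.plusQ F m)) → ↥(Matrix.symplecticGroup (Fin m) F) := fun g =>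
    ⟨g.1.1, (CfsgLib.Symplectic.Basic.mem_iff _).2 fun u v => by
      rw [← CfsgLib.Symplectic.InvolutionClasses.polar_plus_eq, ← CfsgLib.Symplectic.InvolutionClasses.polar_plus_eq]
      exact CfsgLib.Geometry.Reflections.iso_polar g u v⟩
  let Alt : ↥(Matrix.symplecticGroup (Fin m) F) → Prop := fun a =>
    ∀ x, CfsgLib.Symplectic.Basic.B x (CfsgLib.Symplectic.InvolutionClasses.N a x) = 0
  have hwit : ∀ t : ↥(Cfsg.isometryGroup F ⇑(CfsgLib.Orth.Models.plusQ F m)), t * t = 1 →
      CfsgLib.Geometry.DicksonGen.rk t ≠ 0 → orderOf (emb t) = 2 ∧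
      ((emb t).1 - 1).rank = CfsgLib.Geometry.DicksonGen.rk t ∧ (Alt (emb t) ↔ CfsgLib.Geometry.InvolutionTwo.Alt t) := by
    intro t ht hr
    have e : ((emb t).1 - 1).rank = CfsgLib.Geometry.DicksonGen.rk t := (CfsgLib.Geometry.RankParity.rk_eq_rank t).symm
    refine ⟨orderOf_eq_prime (Subtype.ext (show (t.1.1) ^ 2 = 1 by
      rw [sq, ← Units.val_mul, ← Subgroup.coe_mul, ht]; rfl)) fun h => ?_, e, forall_congr' fun x => ?_⟩
    · rw [h, show ((1 : ↥(Matrix.symplecticGroup (Fin m) F)).1 - 1) = 0 from sub_self _, Matrix.rank_zero] at e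
      exact hr e.symm
    · rw [CfsgLib.Symplectic.InvolutionClasses.polar_plus_eq, CfsgLib.Symplectic.InvolutionClasses.N_apply,
        CfsgLib.Geometry.DicksonGen.N_apply]
  have hinv : ∀ a b : ↥(Matrix.symplecticGroup (Fin m) F), IsConj a b →
      (a.1 - 1).rank = (b.1 - 1).rank ∧ (Alt a ↔ Alt b) := by
    intro a b h
    obtain ⟨g, rfl⟩ := isConj_iff.1 h
    have hd : ∀ x : ↥(Matrix.symplecticGroup (Fin m) F), IsUnit x.1.det := fun x => SymplecticGroup.symplectic_det x.2
    have e1 : g.1 * (g⁻¹).1 = 1 := congrArg Subtype.val (mul_inv_cancel g)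
    refine ⟨?_, ?_⟩
    · rw [Submonoid.coe_mul, Submonoid.coe_mul]
      have e : g.1 * a.1 * (g⁻¹).1 - 1 = g.1 * (a.1 - 1) * (g⁻¹).1 := by rw [mul_sub, sub_mul, mul_one, e1]
      rw [e, Matrix.rank_mul_eq_left_of_isUnit_det _ _ (hd _), Matrix.rank_mul_eq_right_of_isUnit_det _ _ (hd _)]
    · have hN : ∀ v, CfsgLib.Symplectic.InvolutionClasses.N (g * a * g⁻¹) (g.1 *ᵥ v)
          = g.1 *ᵥ CfsgLib.Symplectic.InvolutionClasses.N a v := fun v => by
        simp only [CfsgLib.Symplectic.InvolutionClasses.N_apply, CfsgLib.Symplectic.Basic.mulVec_mul,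
          CfsgLib.Symplectic.Basic.mulVec_inv_cancel, Matrix.mulVec_sub]
      refine ⟨fun h x => ?_, fun h x => ?_⟩
      · rw [← CfsgLib.Symplectic.Basic.mulVec_cancel_inv g x, hN, CfsgLib.Symplectic.Basic.B_map]; exact h _
      · have := h (g.1 *ᵥ x)
        rwa [hN, CfsgLib.Symplectic.Basic.B_map] at this
  choose tc hc1 hc2 hc3 using fun (i : Fin m) =>
    CfsgLib.Geometry.InvolutionModels.plus_c (F := F) (i.1 + 1) (by omega) i.2
  choose ta ha1 ha2 ha3 using fun (i : Fin (m / 2)) =>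
    CfsgLib.Geometry.InvolutionModels.plus_a (F := F) (m := m) (i.1 + 1) (by omega)
  let f : Fin m ⊕ Fin (m / 2) → ↥(Matrix.symplecticGroup (Fin m) F) := Sum.elim (fun i => emb (tc i)) (fun i => emb (ta i))
  have wc := fun i => hwit (tc i) (hc1 i) (by rw [hc2]; omega)
  have wa := fun i => hwit (ta i) (ha1 i) (by rw [ha2]; omega)
  rw [CfsgLib.Geometry.InvolutionCount.card_classes f ?_ ?_ ?_]
  · simp
  · rintro (i | i)
    exacts [(wc i).1, (wa i).1]
  · rintro (i | i) (j | j) h <;> obtain ⟨h1, h2⟩ := hinv _ _ h <;>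
      simp only [f, Sum.elim_inl, Sum.elim_inr] at h1 h2 <;>
      simp only [(wc _).2.1, (wa _).2.1, (wc _).2.2, (wa _).2.2, hc2, ha2] at h1 h2
    · exact congrArg _ (Fin.ext (by omega))
    · exact absurd (h2.2 (ha3 _)) (hc3 _)
    · exact absurd (h2.1 (ha3 _)) (hc3 _)
    · exact congrArg _ (Fin.ext (by omega))
  · intro g hg
    have hgg := hsq g hg
    obtain ⟨Q, hQ, hI⟩ := CfsgLib.Symplectic.InvolutionClasses.exists_inv g hgg
    have hle : 2 * (g.1 - 1).rank ≤ 2 * m := by
      have h1 := (CfsgLib.Symplectic.InvolutionClasses.N g).finrank_range_add_finrank_ker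
      have h2 := Submodule.finrank_mono (show LinearMap.range (CfsgLib.Symplectic.InvolutionClasses.N g) ≤
        LinearMap.ker (CfsgLib.Symplectic.InvolutionClasses.N g) from fun a ha => LinearMap.mem_ker.2 (hI.kill ha))
      rw [Module.finrank_fintype_fun_eq_card, Fintype.card_sum, Fintype.card_fin] at h1
      rw [CfsgLib.Symplectic.InvolutionClasses.rank_eq]
      omega
    have hpos : (g.1 - 1).rank ≠ 0 := by
      intro h0
      rw [CfsgLib.Symplectic.InvolutionClasses.rank_eq, Submodule.finrank_eq_zero, LinearMap.range_eq_bot] at h0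
      have : g = 1 := CfsgLib.Symplectic.Basic.ext_mulVec fun v => by
        have := LinearMap.congr_fun h0 v
        rw [CfsgLib.Symplectic.InvolutionClasses.N_apply, LinearMap.zero_apply, sub_eq_zero] at this
        simpa using this
      rw [this, orderOf_one] at hg
      omega
    by_cases hA : Alt g
    · obtain ⟨k, hk⟩ := CfsgLib.Symplectic.InvolutionClasses.even_of_alt hgg hA
      have hlt : k - 1 < m / 2 := by omega
      refine ⟨Sum.inr ⟨k - 1, hlt⟩, CfsgLib.Symplectic.InvolutionClasses.isConj_of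
        (hsq _ (wa _).1) hgg ?_ (iff_of_true ((wa _).2.2.2 (ha3 _)) hA)⟩
      simp only [f, Sum.elim_inr, (wa _).2.1, ha2]; omega
    · have hlt : (g.1 - 1).rank - 1 < m := by omega
      refine ⟨Sum.inl ⟨(g.1 - 1).rank - 1, hlt⟩, CfsgLib.Symplectic.InvolutionClasses.isConj_of
        (hsq _ (wc _).1) hgg ?_ (iff_of_false (fun h => hc3 _ ((wc _).2.2.1 h)) hA)⟩
      simp only [f, Sum.elim_inl, (wc _).2.1, hc2]; omega

end Cfsg.Agent.S2593
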