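import Cfsg.Statements.S2597
import Cfsg.Agent.Lib.Geometry.InvolutionModels

set_option autoImplicit false
open Cfsg

namespace Cfsg.Agent.S2597

/-- Number of conjugacy classes of involutions in Ω⁺_2m(F) (the commutator subgroup of the orthogonal group of Σ x_i y_i) over a finite field F of characteristic two, m ≥ 1, excluding the case m = 2 over the field of two elements: the involutions of Ω are those with s = rank(t − 1) even, giving two O-classes for each even s with 2 ≤ s ≤ m, each of which is a single Ω-class except that for m even the class with s = m and v ↦ f(v, tv) identically zero splits in two; in all 2⌊m/2⌋ + 1 classes if m is even and 2⌊m/2⌋ if m is odd. -/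
theorem result {F : Type*} [Field F] [Fintype F] [CharP F 2] {m : ℕ} (hm : 1 ≤ m) (h : Fintype.card F ≠ 2 ∨ m ≠ 2) : Nat.card {C : ConjClasses ↥(Cfsg.Omega F (Cfsg.quadFormPlus m F)) // ∃ g : ↥(Cfsg.Omega F (Cfsg.quadFormPlus m F)), ConjClasses.mk g = C ∧ orderOf g = 2} = 2 * (m / 2) + (if Even m then 1 else 0) := by
  classical
  rw [show Cfsg.quadFormPlus m F = ⇑(CfsgLib.Orth.Models.plusQ F m) from
    funext fun v => (CfsgLib.Orth.Models.plusQ_apply m v).symm]
  have hQ := CfsgLib.Geometry.InvolutionModels.nondeg_plus' (F := F) m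
  haveI : Nonempty (Fin m ⊕ Fin m) := ⟨Sum.inl ⟨0, hm⟩⟩
  have hex : (∃ c : F, c ≠ 0 ∧ c ≠ 1) ∨ Fintype.card (Fin m ⊕ Fin m) ≠ 4 := by
    rcases h with h | h
    · left
      by_contra hc
      simp only [not_exists, not_and, not_not] at hc
      apply h
      have : (Finset.univ : Finset F) = {0, 1} := by
        ext x; simp only [Finset.mem_univ, Finset.mem_insert, Finset.mem_singleton, true_iff]
        by_cases hx : x = 0
        · exact Or.inl hx
        · exact Or.inr (hc x hx)
      rw [← Finset.card_univ, this, Finset.card_pair zero_ne_one]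
    · right; simp; omega
  obtain ⟨D, hD, hker, hrk⟩ := CfsgLib.Geometry.InvolutionModels.omega_parity hQ
    (CfsgLib.Geometry.DicksonGen.closure_eq_top hQ hex)
  rw [CfsgLib.Geometry.InvolutionCount.card_omega hQ (m := m) (K := m / 2) (by simp; omega) D hD hker hrk
    CfsgLib.Geometry.InvolutionModels.plus_c
    (fun k _ hk => CfsgLib.Geometry.InvolutionModels.plus_a k (by omega))
    (fun t ht _ => (CfsgLib.Geometry.InvolutionModels.plus_bound t ht).trans (by omega))
    (Even m) (fun hev => ⟨Nat.two_mul_div_two_of_even hev, hm, hex⟩)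
    (fun hodd t ht hA _ h => hodd (by
      have := CfsgLib.Geometry.InvolutionTwo.even_of_alt hQ ht hA
      have h1 := h.1
      simp only [Fintype.card_sum, Fintype.card_fin] at h1
      rwa [show CfsgLib.Geometry.DicksonGen.rk t = m by omega] at this))]
  omega

end Cfsg.Agent.S2597
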