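import Cfsg.Statements.S2598
import Cfsg.Agent.Lib.Geometry.InvolutionModels

set_option autoImplicit false
open Cfsg

namespace Cfsg.Agent.S2598

/-- Number of conjugacy classes of involutions in Ω⁻_2m(F) (the commutator subgroup of the orthogonal group of an elliptic quadratic form, Σ_(i<m−1) x_i y_i plus an anisotropic binary form) over a finite field F of characteristic two, m ≥ 1: the involutions of Ω are those with s = rank(t − 1) even, one O-class for each even s with 2 ≤ s ≤ m on which v ↦ f(v, tv) is not identically zero and one for each even s with 2 ≤ s < m on which it is zero (f the polar form; in characteristic 2, f(v, tv) = Q(v + tv)), none of which splits in Ω; in all ⌊m/2⌋ + ⌊(m − 1)/2⌋. -/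
theorem result {F : Type*} [Field F] [Fintype F] [CharP F 2] {m : ℕ} (hm : 1 ≤ m) (a b : F) (hab : ∀ z₁ z₂ : F, z₁ ^ 2 + a * z₁ * z₂ + b * z₂ ^ 2 = 0 → z₁ = 0 ∧ z₂ = 0) : Nat.card {C : ConjClasses ↥(Cfsg.Omega F (Cfsg.quadFormMinus (m - 1) F a b)) // ∃ g : ↥(Cfsg.Omega F (Cfsg.quadFormMinus (m - 1) F a b)), ConjClasses.mk g = C ∧ orderOf g = 2} = m / 2 + (m - 1) / 2 := by
  classical
  rw [show Cfsg.quadFormMinus (m - 1) F a b = ⇑(CfsgLib.Orth.Models.minusQ (m - 1) a b) from
    funext fun v => (CfsgLib.Orth.Models.minusQ_apply (m - 1) a b v).symm]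
  have hQ := CfsgLib.Geometry.InvolutionModels.nondeg_minus' (F := F) (m - 1) hab
  haveI : Nonempty ((Fin (m - 1) ⊕ Fin (m - 1)) ⊕ Fin 2) := ⟨Sum.inr 0⟩
  obtain ⟨D, hD, hker, hrk⟩ := CfsgLib.Geometry.InvolutionModels.omega_parity hQ
    (CfsgLib.Geometry.DicksonGen.closure_eq_top' hQ (Or.inr (Or.inr fun U hU => by
      have := CfsgLib.QuadClass.minus_singular_le hab U hU
      simp only [Fintype.card_sum, Fintype.card_fin]; omega)))
  rw [CfsgLib.Geometry.InvolutionCount.card_omega hQ (m := m) (K := (m - 1) / 2) (by simp; omega) D hD hker hrk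
    (fun s h1 h2 => CfsgLib.Geometry.InvolutionModels.minus_c hab s h1 (by omega))
    (fun k _ hk => CfsgLib.Geometry.InvolutionModels.minus_a hab k (by omega))
    (fun t ht hA => (CfsgLib.Geometry.InvolutionModels.minus_bound hab t ht hA).trans (by omega))
    False (fun h => h.elim) (fun _ t _ _ _ => CfsgLib.Geometry.InvolutionModels.minus_ker hab t)]
  simp

end Cfsg.Agent.S2598
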