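import Cfsg.Statements.S2599
import Cfsg.Agent.Lib.QuadClass.Basis
open CfsgLib.QuadClass

set_option autoImplicit false
open Cfsg

namespace Cfsg.Agent.S2599

/-- An irreducible invariant subspace of a semisimple isometry is non-degenerate or totally singular: let Q be a quadratic form on F^n (F finite of characteristic p) with non-degenerate polar form f, x an isometry of Q of order prime to p, and U a non-zero x-invariant subspace containing no x-invariant subspace other than 0 and U. Then U meets its f-orthogonal trivially, or Q vanishes on U, or p = 2, U is a line spanned by a non-singular vector and x fixes U pointwise. -/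
theorem result {F : Type*} [Field F] [Fintype F] {p : ℕ} [Fact p.Prime] [CharP F p] {n : ℕ} (Q : QuadraticForm F (Fin n → F)) (hQ : (QuadraticMap.polarBilin Q).Nondegenerate) (x : ↥(Cfsg.isometryGroup F ⇑Q)) (hx : (orderOf x).Coprime p) (U : Submodule F (Fin n → F)) (hU0 : U ≠ ⊥) (hUx : ∀ u ∈ U, ((x : Matrix.GeneralLinearGroup (Fin n) F) : Matrix (Fin n) (Fin n) F).mulVec u ∈ U) (hirr : ∀ W : Submodule F (Fin n → F), W ≤ U → (∀ w ∈ W, ((x : Matrix.GeneralLinearGroup (Fin n) F) : Matrix (Fin n) (Fin n) F).mulVec w ∈ W) → W = ⊥ ∨ W = U) : U ⊓ LinearMap.BilinForm.orthogonal (QuadraticMap.polarBilin Q) U = ⊥ ∨ (∀ u ∈ U, Q u = 0) ∨ (p = 2 ∧ Module.finrank F U = 1 ∧ (∃ u ∈ U, Q u ≠ 0) ∧ ∀ u ∈ U, ((x : Matrix.GeneralLinearGroup (Fin n) F) : Matrix (Fin n) (Fin n) F).mulVec u = u) := by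
  classical
  set M := ((x : Matrix.GeneralLinearGroup (Fin n) F) : Matrix (Fin n) (Fin n) F) with hM
  have hiso : ∀ v, Q (M.mulVec v) = Q v := fun v => x.2 v 0
  have hinv : ∀ u v, QuadraticMap.polar Q (M.mulVec u) (M.mulVec v) = QuadraticMap.polar Q u v := fun u v => by
    simp only [QuadraticMap.polar, ← Matrix.mulVec_add, hiso]
  have hsurj : ∀ u ∈ U, ∃ w ∈ U, M.mulVec w = u := by
    have hinj : Function.Injective fun v => M.mulVec v := Matrix.mulVec_injective_iff_isUnit.2 (Units.isUnit _)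
    let L : U →ₗ[F] U := (Matrix.mulVecLin M).restrict hUx
    have hL : Function.Surjective L := LinearMap.injective_iff_surjective.1 (fun a b h => Subtype.ext (hinj (congrArg Subtype.val h)))
    intro u hu
    obtain ⟨w, hw⟩ := hL ⟨u, hu⟩
    exact ⟨w, w.2, congrArg Subtype.val hw⟩
  rcases hirr (U ⊓ LinearMap.BilinForm.orthogonal (QuadraticMap.polarBilin Q) U) inf_le_left (fun w hw => by
      refine ⟨hUx w hw.1, fun u hu => ?_⟩
      obtain ⟨u', hu', rfl⟩ := hsurj u hu
      exact (hinv u' w).trans (hw.2 u' hu')) with h | h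
  · exact Or.inl h
  have hpol : ∀ u ∈ U, ∀ v ∈ U, QuadraticMap.polar Q u v = 0 := fun u hu v hv => by
    rw [← h] at hv
    exact hv.2 u hu
  right
  by_cases h2 : (2 : F) = 0
  swap
  · refine Or.inl fun u hu => ?_
    have := hpol u hu u hu
    rw [QuadraticMap.polar_self, two_nsmul, ← two_mul] at this
    exact (mul_eq_zero.1 this).resolve_left h2
  have hp2 : p = 2 := by
    haveI : CharP F 2 := CharTwo.of_one_ne_zero_of_two_eq_zero one_ne_zero h2
    exact CharP.eq F ‹CharP F p› ‹CharP F 2›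
  let K : Submodule F (Fin n → F) :=
    { carrier := {u | u ∈ U ∧ Q u = 0}
      add_mem' := fun {a b} ha hb => ⟨U.add_mem ha.1 hb.1, by rw [QuadraticMap.map_add (⇑Q), ha.2, hb.2, hpol a ha.1 b hb.1, add_zero, add_zero]⟩
      zero_mem' := ⟨U.zero_mem, QuadraticMap.map_zero Q⟩
      smul_mem' := fun c a ha => ⟨U.smul_mem c ha.1, by rw [QuadraticMap.map_smul, ha.2, smul_zero]⟩ }
  rcases hirr K (fun u hu => hu.1) (fun u hu => ⟨hUx u hu.1, (hiso u).trans hu.2⟩) with hK | hK
  swap
  · exact Or.inl fun u hu => (show u ∈ K from hK ▸ hu).2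
  have hz : ∀ w ∈ U, Q w = 0 → w = 0 := fun w hw hQw => by
    have : w ∈ K := ⟨hw, hQw⟩
    rwa [hK, Submodule.mem_bot] at this
  obtain ⟨v, hv, hv0⟩ := U.exists_mem_ne_zero_of_ne_bot hU0
  have hQv : Q v ≠ 0 := fun h => hv0 (hz v hv h)
  haveI : Finite F := Finite.of_fintype F
  have hneg : ∀ w : Fin n → F, -w = w := fun w => funext fun i => by
    show -w i = w i
    linear_combination (-(w i)) * h2
  refine Or.inr ⟨hp2, ?_, ⟨v, hv, hQv⟩, fun u hu => ?_⟩
  · rw [finrank_eq_one_iff']
    refine ⟨⟨v, hv⟩, fun h => hv0 (congrArg Subtype.val h), ?_⟩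
    rintro ⟨u, hu⟩
    obtain ⟨s, hs⟩ := isSquare_of_two_eq_zero h2 (Q u / Q v)
    refine ⟨s, Subtype.ext ?_⟩
    have h0 := hz (u + s • v) (U.add_mem hu (U.smul_mem s hv)) (by
      rw [QuadraticMap.map_add (⇑Q), QuadraticMap.map_smul, ← hs, hpol u hu _ (U.smul_mem s hv), add_zero, smul_eq_mul,
        div_mul_cancel₀ _ hQv]
      linear_combination Q u * h2)
    show s • v = u
    rw [← hneg u]
    exact (neg_eq_of_add_eq_zero_right h0).symm
  · have h0 := hz (M.mulVec u + u) (U.add_mem (hUx u hu) hu) (by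
      rw [QuadraticMap.map_add (⇑Q), hiso, hpol _ (hUx u hu) u hu, add_zero]
      linear_combination Q u * h2)
    rw [← neg_eq_of_add_eq_zero_left h0, hneg]

end Cfsg.Agent.S2599
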