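import Cfsg.Statements.S2601
import Cfsg.Agent.Lib.AutPSL.Out
open CfsgLib.AutPSL

set_option autoImplicit false
open Cfsg

namespace Cfsg.Agent.S2601

/-- Structure of the outer automorphism group of PSL_n(q), n ≥ 3, q = p^f: it has a normal cyclic subgroup of order gcd(n, q − 1) (the diagonal automorphisms) whose quotient is the direct product of a cyclic group of order f (field automorphisms) and a group of order 2 (the inverse-transpose graph automorphism). -/
theorem result {F : Type*} [Field F] [Fintype F] {p f n : ℕ} [Fact p.Prime] (hf : 1 ≤ f) (hF : Fintype.card F = p ^ f) (hn : 3 ≤ n) : ∃ φ : Cfsg.Out (Matrix.ProjectiveSpecialLinearGroup (Fin n) F) →* Multiplicative (ZMod f × ZMod 2), Function.Surjective φ ∧ IsCyclic φ.ker ∧ Nat.card φ.ker = Nat.gcd n (p ^ f - 1) := by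
  have hn2 : 2 ≤ n := by omega
  obtain ⟨G⟩ := exists_galEquiv hF
  have hN := inndiag_normal (F := F) (n := n) hn2
  let e : Multiplicative (ZMod f × ZMod 2) ≃* Multiplicative (ZMod f) × Multiplicative (ZMod 2) :=
    MulEquiv.prodMultiplicative (ZMod f) (ZMod 2)
  let a : Multiplicative (ZMod f) →* MulAut (Matrix.ProjectiveSpecialLinearGroup (Fin n) F) :=
    phi.comp G.symm.toMonoidHom
  have hc : ∀ x y, Commute (a x) (graphHom y) := by
    intro x y
    by_cases hy : y = 1
    · subst hy; rw [map_one]; exact Commute.one_right _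
    · show phi (G.symm x) * (if y = 1 then 1 else gamma) = (if y = 1 then 1 else gamma) * phi (G.symm x)
      rw [if_neg hy, gamma_phi]
  let Θ : Multiplicative (ZMod f × ZMod 2) →* MulAut (Matrix.ProjectiveSpecialLinearGroup (Fin n) F) ⧸ Cfsg.inndiagPSL n F :=
    (QuotientGroup.mk' _).comp ((MonoidHom.noncommCoprod a graphHom hc).comp e.toMonoidHom)
  have hΘ : Function.Bijective Θ := by
    constructor
    · rw [injective_iff_map_eq_one]
      intro t ht
      change QuotientGroup.mk' (Cfsg.inndiagPSL n F) (a (e t).1 * graphHom (e t).2) = 1 at ht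
      rw [QuotientGroup.mk'_apply, QuotientGroup.eq_one_iff, inndiag_eq_range] at ht
      obtain ⟨g, hg⟩ := ht
      apply e.injective
      rw [map_one]
      by_cases hy : (e t).2 = 1
      · rw [hy, map_one, mul_one] at hg
        have h1 : delta g⁻¹ * phi (G.symm (e t).1) = 1 := by
          rw [map_inv, hg]; exact inv_mul_cancel _
        have h2 := (eq_of_delta_phi_eq_one hn2 h1).1
        refine Prod.ext ?_ hy
        exact G.symm.injective (by rw [h2, Prod.fst_one, map_one])
      · exfalso
        have hg' : delta g = phi (G.symm (e t).1) * gamma := by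
          rw [hg]
          show _ * (if (e t).2 = 1 then 1 else gamma) = _
          rw [if_neg hy]; rfl
        apply gamma_ne hn (glField (G.symm (e t).1)⁻¹ g) (G.symm (e t).1)⁻¹
        rw [← phi_delta, hg', ← mul_assoc, ← map_mul, inv_mul_cancel, map_one, one_mul]
    · intro y
      obtain ⟨α, rfl⟩ := QuotientGroup.mk_surjective y
      obtain ⟨g, σ, ε, hε, rfl⟩ := decompose hn2 α
      obtain ⟨y, rfl⟩ : ∃ y, ε = graphHom y := by
        rcases hε with rfl | ⟨rfl, -⟩
        · exact ⟨1, (map_one _).symm⟩
        · exact ⟨Multiplicative.ofAdd 1, show gamma = (if Multiplicative.ofAdd (1 : ZMod 2) = 1 then 1 else gamma) from (if_neg (by decide)).symm⟩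
      refine ⟨e.symm (G σ, y), ?_⟩
      show QuotientGroup.mk' (Cfsg.inndiagPSL n F)
        (a (e (e.symm (G σ, y))).1 * graphHom (e (e.symm (G σ, y))).2) = QuotientGroup.mk' _ _
      rw [MulEquiv.apply_symm_apply]
      show QuotientGroup.mk' (Cfsg.inndiagPSL n F) (phi (G.symm (G σ)) * graphHom y) = _
      rw [MulEquiv.symm_apply_apply, map_mul, map_mul, map_mul,
        show QuotientGroup.mk' (Cfsg.inndiagPSL n F) (delta g) = 1 from by
          rw [QuotientGroup.mk'_apply, QuotientGroup.eq_one_iff, inndiag_eq_range]; exact ⟨g, rfl⟩,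
        one_mul]
  rw [← hF]
  exact exists_outHom hn2 Θ hΘ

end Cfsg.Agent.S2601
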