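import Cfsg.Statements.S2602
import Cfsg.Agent.Lib.AutPSL.Out
open CfsgLib.AutPSL

set_option autoImplicit false
open Cfsg

namespace Cfsg.Agent.S2602

/-- Structure of the outer automorphism group of PSL_2(q), q = p^f ≥ 4: it has a normal cyclic subgroup of order gcd(2, q − 1) (diagonal automorphisms) with cyclic quotient of order f (field automorphisms); there is no graph automorphism in dimension 2. -/
theorem result {F : Type*} [Field F] [Fintype F] {p f : ℕ} [Fact p.Prime] (hf : 1 ≤ f) (hF : Fintype.card F = p ^ f) (h4 : 4 ≤ p ^ f) : ∃ φ : Cfsg.Out (Matrix.ProjectiveSpecialLinearGroup (Fin 2) F) →* Multiplicative (ZMod f), Function.Surjective φ ∧ IsCyclic φ.ker ∧ Nat.card φ.ker = Nat.gcd 2 (p ^ f - 1) := by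
  have hn2 : 2 ≤ 2 := le_rfl
  obtain ⟨G⟩ := exists_galEquiv hF
  have hN := inndiag_normal (F := F) (n := 2) hn2
  let Θ : Multiplicative (ZMod f) →* MulAut (Matrix.ProjectiveSpecialLinearGroup (Fin 2) F) ⧸ Cfsg.inndiagPSL 2 F :=
    (QuotientGroup.mk' _).comp (phi.comp G.symm.toMonoidHom)
  have hΘ : Function.Bijective Θ := by
    constructor
    · rw [injective_iff_map_eq_one]
      intro t ht
      change QuotientGroup.mk' (Cfsg.inndiagPSL 2 F) (phi (G.symm t)) = 1 at ht
      rw [QuotientGroup.mk'_apply, QuotientGroup.eq_one_iff, inndiag_eq_range] at ht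
      obtain ⟨g, hg⟩ := ht
      have h1 : delta g⁻¹ * phi (G.symm t) = 1 := by
        rw [map_inv, hg, inv_mul_cancel]
      exact G.symm.injective (by rw [(eq_of_delta_phi_eq_one hn2 h1).1, map_one])
    · intro y
      obtain ⟨α, rfl⟩ := QuotientGroup.mk_surjective y
      obtain ⟨g, σ, ε, hε, rfl⟩ := decompose hn2 α
      rcases hε with rfl | ⟨-, h3⟩
      swap
      · omega
      refine ⟨G σ, ?_⟩
      show QuotientGroup.mk' (Cfsg.inndiagPSL 2 F) (phi (G.symm (G σ))) = QuotientGroup.mk' _ _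
      rw [MulEquiv.symm_apply_apply, mul_one, map_mul,
        show QuotientGroup.mk' (Cfsg.inndiagPSL 2 F) (delta g) = 1 from by
          rw [QuotientGroup.mk'_apply, QuotientGroup.eq_one_iff, inndiag_eq_range]; exact ⟨g, rfl⟩,
        one_mul]
  rw [← hF]
  exact exists_outHom hn2 Θ hΘ

end Cfsg.Agent.S2602
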