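import Cfsg.Statements.S2610
import Cfsg.Agent.Lib.Geometry.SpinorNegOne
import Cfsg.Agent.Lib.QuadClass.Disc

set_option autoImplicit false
open Cfsg

namespace Cfsg.Agent.S2610

/-- For a quadratic form Q on F^n with non-degenerate polar form, F finite of odd order and n ≥ 2 even, the isometry −1 lies in Ω (the commutator subgroup of the orthogonal group) if and only if the discriminant of Q (the determinant of the Gram matrix of its polar form) is a square. -/
theorem result {F : Type*} [Field F] [Fintype F] (h2 : (2 : F) ≠ 0) {n : ℕ} (hn : 2 ≤ n) (he : Even n) (Q : QuadraticForm F (Fin n → F)) (hQ : (QuadraticMap.polarBilin Q).Nondegenerate) : (∃ g : ↥(Cfsg.isometryGroup F ⇑Q), g ∈ Cfsg.Omega F ⇑Q ∧ ((g : Matrix.GeneralLinearGroup (Fin n) F) : Matrix (Fin n) (Fin n) F) = -1) ↔ IsSquare (Matrix.of (fun i j : Fin n => QuadraticMap.polar ⇑Q (Pi.single i 1) (Pi.single j 1))).det := by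
  classical
  haveI : Nontrivial (Fin n) := Fin.nontrivial_iff_two_le.2 hn
  haveI : Invertible (2 : F) := invertibleOfNonzero h2
  have hsymm : LinearMap.IsSymm (QuadraticMap.polarBilin Q) :=
    ⟨fun x y => by simp [QuadraticMap.polar_comm]⟩
  obtain ⟨b, hb⟩ := LinearMap.BilinForm.exists_orthogonal_basis (B := QuadraticMap.polarBilin Q) hsymm
  have hne : ∀ i, Q (b i) ≠ 0 := fun i h => by
    refine hb.not_isOrtho_basis_self_of_separatingLeft hQ.1 i ?_
    change QuadraticMap.polar (⇑Q) (b i) (b i) = 0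
    rw [QuadraticMap.polar_self, h, smul_zero]
  have hnc : Fintype.card (Fin n) = Module.finrank F (Fin n → F) := (Module.finrank_fintype_fun_eq_card F).symm
  set b' := b.reindex (finCongr (by simp) : Fin (Module.finrank F (Fin n → F)) ≃ Fin n) with hb'
  have hne' : ∀ i, Q (b' i) ≠ 0 := fun i => by rw [hb', Module.Basis.reindex_apply]; exact hne _
  have hort : ∀ i j, i ≠ j → QuadraticMap.polar (⇑Q) (b' i) (b' j) = 0 := fun i j h => by
    rw [hb', Module.Basis.reindex_apply, Module.Basis.reindex_apply]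
    exact hb (fun e => h (Equiv.injective _ e))
  rw [CfsgLib.Geometry.Spinor.neg_one_mem_omega_iff h2 (by simpa using he) b' hne' hort,
    quadraticChar_one_iff_isSquare (Finset.prod_ne_zero_iff.2 fun i _ => hne' i)]
  obtain ⟨d, hd0, hd⟩ := CfsgLib.QuadClass.gram_det_congr (Q := Q) (R := Q) ⟨LinearEquiv.refl F _, fun v => rfl⟩
    b' (Pi.basisFun F (Fin n))
  rw [CfsgLib.QuadClass.gram_std_of_apply] at hd
  have hdiag : CfsgLib.QuadClass.gram Q b' = Matrix.diagonal (fun i => 2 * Q (b' i)) := by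
    ext i j
    by_cases hij : i = j
    · subst hij; simp [CfsgLib.QuadClass.gram, QuadraticMap.polar_self, two_mul]
    · simp [CfsgLib.QuadClass.gram, hij, hort i j hij]
  rw [hdiag, Matrix.det_diagonal, Finset.prod_mul_distrib, Finset.prod_const, Finset.card_univ, Fintype.card_fin] at hd
  obtain ⟨t, ht⟩ := he
  rw [(congrArg (fun k => (2 : F) ^ k) ht : (2 : F) ^ n = 2 ^ (t + t)), pow_add] at hd
  generalize (Matrix.of fun i j : Fin n => QuadraticMap.polar ⇑Q (Pi.single i 1) (Pi.single j 1)).det = D at hd ⊢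
  have h2t : (2 : F) ^ t ≠ 0 := pow_ne_zero t h2
  constructor
  · rintro ⟨s, hs⟩
    refine ⟨2 ^ t * s / d, ?_⟩
    rw [hs] at hd; field_simp; linear_combination -hd
  · rintro ⟨s, hs⟩
    refine ⟨d * s / 2 ^ t, ?_⟩
    rw [hs] at hd; field_simp; linear_combination hd

end Cfsg.Agent.S2610
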