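import Cfsg.Statements.S2611
import Cfsg.Agent.Lib.Orth.Levi

set_option autoImplicit false
open Cfsg

namespace Cfsg.Agent.S2611

/-- For the hyperbolic quadratic form Σ x_i y_i on F^(2m) (F finite, m ≥ 1, excluding m = 2 over the field of two elements) and an invertible m × m matrix A, the block-diagonal isometry diag(A, (A⁻¹)ᵀ), which stabilises the two maximal totally singular subspaces x = 0 and y = 0, lies in Ω⁺_2m(F) (the commutator subgroup of the orthogonal group) if and only if det A is a square in F. -/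
theorem result {F : Type*} [Field F] [Fintype F] {m : ℕ} (hm : 1 ≤ m) (h : Fintype.card F ≠ 2 ∨ m ≠ 2) (A : GL (Fin m) F) : (∃ g : ↥(Cfsg.isometryGroup F (Cfsg.quadFormPlus m F)), g ∈ Cfsg.Omega F (Cfsg.quadFormPlus m F) ∧ ((g : Matrix.GeneralLinearGroup (Fin m ⊕ Fin m) F) : Matrix (Fin m ⊕ Fin m) (Fin m ⊕ Fin m) F) = Matrix.fromBlocks (A : Matrix (Fin m) (Fin m) F) 0 0 ((A : Matrix (Fin m) (Fin m) F)⁻¹).transpose) ↔ IsSquare (A : Matrix (Fin m) (Fin m) F).det := by
  classical
  have hex : (∃ c : F, c ≠ 0 ∧ c ≠ 1) ∨ Fintype.card (Fin m ⊕ Fin m) ≠ 4 := by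
    rcases h with h | h
    · left
      by_contra hc
      simp only [not_exists, not_and, not_not] at hc
      apply h
      have : (Finset.univ : Finset F) = {0, 1} := by
        ext x; simp only [Finset.mem_univ, Finset.mem_insert, Finset.mem_singleton, true_iff]
        by_cases hx : x = 0
        · exact Or.inl hx
        · exact Or.inr (hc x hx)
      rw [← Finset.card_univ, this, Finset.card_pair zero_ne_one]
    · right; simp; omega
  rw [show Cfsg.quadFormPlus m F = ⇑(CfsgLib.Orth.Models.plusQ F m) from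
    funext fun v => (CfsgLib.Orth.Models.plusQ_apply m v).symm, ← CfsgLib.Orth.Levi.Φ_mem_omega_iff hm hex A,
    ← Matrix.coe_units_inv]
  constructor
  · rintro ⟨g, hg, hgm⟩
    rwa [show CfsgLib.Orth.Levi.Φ A = g from Subtype.ext (Units.ext hgm.symm)]
  · exact fun hg => ⟨_, hg, rfl⟩

end Cfsg.Agent.S2611
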