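import Cfsg.Statements.S2612
import Cfsg.Agent.Lib.Orth.Levi

set_option autoImplicit false
open Cfsg

namespace Cfsg.Agent.S2612

open scoped Matrix

/-- For the hyperbolic quadratic form Σ x_i y_i on F^(2m) (F finite, m ≥ 1, excluding m = 2 over the field of two elements), Ω⁺_2m(F) (the commutator subgroup of the orthogonal group) contains an element interchanging the two complementary maximal totally singular subspaces {y = 0} and {x = 0} if and only if m is even (dimension divisible by 4). -/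
theorem result {F : Type*} [Field F] [Fintype F] {m : ℕ} (hm : 1 ≤ m) (h : Fintype.card F ≠ 2 ∨ m ≠ 2) : (∃ g : ↥(Cfsg.isometryGroup F (Cfsg.quadFormPlus m F)), g ∈ Cfsg.Omega F (Cfsg.quadFormPlus m F) ∧ (∀ v : Fin m ⊕ Fin m → F, (∀ i, v (Sum.inr i) = 0) → ∀ i, (((g : Matrix.GeneralLinearGroup (Fin m ⊕ Fin m) F) : Matrix (Fin m ⊕ Fin m) (Fin m ⊕ Fin m) F).mulVec v) (Sum.inl i) = 0) ∧ (∀ v : Fin m ⊕ Fin m → F, (∀ i, v (Sum.inl i) = 0) → ∀ i, (((g : Matrix.GeneralLinearGroup (Fin m ⊕ Fin m) F) : Matrix (Fin m ⊕ Fin m) (Fin m ⊕ Fin m) F).mulVec v) (Sum.inr i) = 0)) ↔ Even m := by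
  classical
  have hex : (∃ c : F, c ≠ 0 ∧ c ≠ 1) ∨ Fintype.card (Fin m ⊕ Fin m) ≠ 4 := by
    rcases h with h | h
    · left
      by_contra hc
      simp only [not_exists, not_and, not_not] at hc
      apply h
      have : (Finset.univ : Finset F) = {0, 1} := by
        ext x; simp only [Finset.mem_univ, Finset.mem_insert, Finset.mem_singleton, true_iff]
        by_cases hx : x = 0
        · exact Or.inl hx
        · exact Or.inr (hc x hx)
      rw [← Finset.card_univ, this, Finset.card_pair zero_ne_one]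
    · right; simp; omega
  haveI : Nontrivial (Fin m ⊕ Fin m) := ⟨⟨Sum.inl ⟨0, hm⟩, Sum.inr ⟨0, hm⟩, by simp⟩⟩
  rw [show Cfsg.quadFormPlus m F = ⇑(CfsgLib.Orth.Models.plusQ F m) from
    funext fun v => (CfsgLib.Orth.Models.plusQ_apply m v).symm]
  open CfsgLib.Geometry in
  have hQ := CfsgLib.Orth.Levi.hQ (F := F) (m := m)
  have hU2 : 2 * Module.finrank F (CfsgLib.Orth.Levi.U0 F m) = Fintype.card (Fin m ⊕ Fin m) := by
    rw [CfsgLib.Orth.Levi.finrank_U0, Fintype.card_sum, Fintype.card_fin]; omega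
  -- the sign of a swapping isometry
  have hsign : ∀ (D : ↥(Cfsg.isometryGroup F ⇑(CfsgLib.Orth.Models.plusQ F m)) →* ℤˣ),
      (∀ v (hv : CfsgLib.Orth.Models.plusQ F m v ≠ 0), D (Reflections.R _ v hv) = -1) →
      ∀ g : ↥(Cfsg.isometryGroup F ⇑(CfsgLib.Orth.Models.plusQ F m)),
        (∀ v : Fin m ⊕ Fin m → F, (∀ i, v (Sum.inr i) = 0) → ∀ i, (g.1.1 *ᵥ v) (Sum.inl i) = 0) →
        D g = (-1) ^ m := by
    intro D hD g hswap
    have hbot : CfsgLib.Orth.Levi.U0 F m ⊓ SingularClass.im g (CfsgLib.Orth.Levi.U0 F m) = ⊥ := by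
      refine (Submodule.eq_bot_iff _).2 ?_
      rintro _ ⟨hy, x, hx, rfl⟩
      funext s
      rcases s with i | i
      · exact hswap x ((CfsgLib.Orth.Levi.mem_U0 x).1 hx) i
      · exact (CfsgLib.Orth.Levi.mem_U0 _).1 hy i
    rw [SingularClass.sign_eq hQ hex D hD g _ hU2 CfsgLib.Orth.Levi.singular_U0, hbot, finrank_bot, Nat.sub_zero,
      CfsgLib.Orth.Levi.finrank_U0]
  set w : Matrix (Fin m ⊕ Fin m) (Fin m ⊕ Fin m) F := Matrix.fromBlocks 0 1 1 0 with hw
  have hww : w * w = 1 := by simp [hw, Matrix.fromBlocks_multiply, Matrix.fromBlocks_one]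
  have hwv : ∀ v : Fin m ⊕ Fin m → F, w *ᵥ v = Sum.elim (v ∘ Sum.inr) (v ∘ Sum.inl) := fun v => by
    simp [hw, Matrix.fromBlocks_mulVec]
  let W : ↥(Cfsg.isometryGroup F ⇑(CfsgLib.Orth.Models.plusQ F m)) := ⟨⟨w, w, hww, hww⟩,
    (QuadBasic.mem_isometryGroup_iff _ _).2 fun v => by
      show CfsgLib.Orth.Models.plusQ F m (w *ᵥ v) = CfsgLib.Orth.Models.plusQ F m v
      rw [hwv, CfsgLib.Orth.Models.plusQ_apply, CfsgLib.Orth.Models.plusQ_apply, Cfsg.quadFormPlus, Cfsg.quadFormPlus]
      exact Finset.sum_congr rfl fun i _ => mul_comm _ _⟩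
  have hW1 : ∀ v : Fin m ⊕ Fin m → F, (∀ i, v (Sum.inr i) = 0) → ∀ i, (W.1.1 *ᵥ v) (Sum.inl i) = 0 := fun v hv i => by
    show (w *ᵥ v) (Sum.inl i) = 0
    rw [hwv]; exact hv i
  have hW2 : ∀ v : Fin m ⊕ Fin m → F, (∀ i, v (Sum.inl i) = 0) → ∀ i, (W.1.1 *ᵥ v) (Sum.inr i) = 0 := fun v hv i => by
    show (w *ᵥ v) (Sum.inr i) = 0
    rw [hwv]; exact hv i
  by_cases h2 : (2 : F) = 0
  · haveI : CharP F 2 := CharTwo.of_one_ne_zero_of_two_eq_zero one_ne_zero h2
    obtain ⟨D, hD⟩ := DicksonGen.exists_dickson hQ hex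
    constructor
    · rintro ⟨g, hg, h1, -⟩
      have := hsign D hD g h1
      rw [show D g = 1 from Abelianization.commutator_subset_ker D hg] at this
      exact (SingularClass.neg_one_pow_units m).1 this.symm
    · intro he
      refine ⟨W, ?_, hW1, hW2⟩
      obtain ⟨a, ha⟩ := OmegaIndex.exists_aniso hQ
      rcases OmegaTools.adjust_two hQ hex W ha with h' | h'
      · exact h'
      · have h3 : D (Reflections.R _ a ha * W) = 1 := Abelianization.commutator_subset_ker D h'
        rw [map_mul, hD, hsign D hD W hW1, he.neg_one_pow] at h3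
        exact absurd h3 (by decide)
  · constructor
    · rintro ⟨g, hg, h1, -⟩
      have := hsign _ (fun v hv => Spinor.detSign_R h2 hQ hv) g h1
      rw [(Spinor.detSign_eq_one h2 hQ).2 ((Spinor.mem_omega_iff h2 hQ).1 hg).1] at this
      exact (SingularClass.neg_one_pow_units m).1 this.symm
    · intro he
      refine ⟨W, ?_, hW1, hW2⟩
      let b : Fin m → Fin m ⊕ Fin m → F := fun i => Pi.single (Sum.inl i) 1 - Pi.single (Sum.inr i) 1
      have hpol : ∀ i x, QuadraticMap.polar (⇑(CfsgLib.Orth.Models.plusQ F m)) (b i) x = x (Sum.inr i) - x (Sum.inl i) := by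
        intro i x
        simp only [QuadraticMap.polar, CfsgLib.Orth.Models.plusQ_apply, Cfsg.quadFormPlus, ← Finset.sum_sub_distrib]
        rw [Finset.sum_eq_single i]
        · simp [b]; ring
        · intro j _ hj; simp [b, Pi.single_apply, hj]
        · simp
      have hQb : ∀ i, CfsgLib.Orth.Models.plusQ F m (b i) = -1 := by
        intro i
        rw [CfsgLib.Orth.Models.plusQ_apply, Cfsg.quadFormPlus, Finset.sum_eq_single i]
        · simp [b]
        · intro j _ hj; simp [b, Pi.single_apply, hj]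
        · simp
      have hp := OmegaTools.isProd_partial_neg b Finset.univ h2 (fun i _ => by rw [hQb]; simp)
        (fun i _ j _ hij => by rw [hpol]; simp [b, Pi.single_apply, hij, hij.symm]) W
        (fun i _ => by
          show w *ᵥ b i = -b i
          rw [hwv]; funext s
          rcases s with j | j <;> by_cases hj : j = i <;> simp [b, Pi.single_apply, hj])
        (fun x hx => by
          show w *ᵥ x = x
          rw [hwv]; funext s
          rcases s with j | j <;> · have := hx j (Finset.mem_univ _); rw [hpol, sub_eq_zero] at this; simp [this])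
      rw [OmegaTools.mem_omega_of_isProd h2 hQ hp, List.length_map, Finset.length_toList, Finset.card_univ,
        Fintype.card_fin, List.map_map, Finset.prod_map_toList]
      refine ⟨he, ?_⟩
      simp only [Function.comp_apply, hQb, Finset.prod_const, Finset.card_univ, Fintype.card_fin, he.neg_one_pow]
      exact IsSquare.one

end Cfsg.Agent.S2612
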