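import Cfsg.Statements.S2614
import Cfsg.Agent.Lib.Geometry.OmegaTools
import Cfsg.Agent.Lib.Orth.Models

set_option autoImplicit false
open Cfsg

namespace Cfsg.Agent.S2614

open scoped Matrix

/-- For the form x_0² + Σ x_j y_j on F^(2m+1), F finite with q elements, q odd, and 1 ≤ i ≤ m: the involution of determinant one negating the first i hyperbolic pairs (and fixing x_0 and the other pairs) lies in Ω_(2m+1)(q) (commutator subgroup of the orthogonal group) if and only if q^i ≡ 1 (mod 4); its (−1)-eigenspace is a hyperbolic 2i-space. -/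
theorem result {F : Type*} [Field F] [Fintype F] {q : ℕ} (hF : Fintype.card F = q) (hq : Odd q) {m : ℕ} (i : ℕ) (hi : 1 ≤ i) (him : i ≤ m) : (∃ g : ↥(Cfsg.isometryGroup F (Cfsg.quadFormOdd m F)), g ∈ Cfsg.Omega F (Cfsg.quadFormOdd m F) ∧ ((g : Matrix.GeneralLinearGroup (Unit ⊕ (Fin m ⊕ Fin m)) F) : Matrix (Unit ⊕ (Fin m ⊕ Fin m)) (Unit ⊕ (Fin m ⊕ Fin m)) F) = Matrix.diagonal (fun k : Unit ⊕ (Fin m ⊕ Fin m) => if (Sum.elim (fun _ : Unit => i) (Sum.elim (fun j : Fin m => (j : ℕ)) (fun j : Fin m => (j : ℕ))) k) < i then (-1 : F) else 1)) ↔ q ^ i % 4 = 1 := by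
  classical
  subst hF
  have h2 : (2 : F) ≠ 0 := fun h => by
    haveI : CharP F 2 := CharTwo.of_one_ne_zero_of_two_eq_zero one_ne_zero h
    exact Nat.not_even_iff_odd.2 hq (Nat.even_iff.2 (FiniteField.even_card_of_char_two (ringChar.eq F 2)))
  haveI : Nontrivial (Unit ⊕ (Fin m ⊕ Fin m)) := ⟨⟨Sum.inl (), Sum.inr (Sum.inr ⟨0, by omega⟩), by simp⟩⟩
  rw [show Cfsg.quadFormOdd m F = ⇑(CfsgLib.Orth.Models.oddQ F m) from funext fun v => (CfsgLib.Orth.Models.oddQ_apply m v).symm]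
  have hpol : ∀ x y, QuadraticMap.polar (⇑(CfsgLib.Orth.Models.oddQ F m)) x y = QuadraticMap.polar (Cfsg.quadFormOdd m F) x y := fun x y => by
    simp only [QuadraticMap.polar, CfsgLib.Orth.Models.oddQ_apply m]
  refine CfsgLib.Geometry.OmegaTools.neg_pairs_iff hq (CfsgLib.Geometry.Spinor.nondeg_polarBilin (CfsgLib.Orth.Models.nondeg_odd (F := F) h2 m)) i
    (fun j => Pi.single (Sum.inr (Sum.inl ⟨(j : ℕ), by omega⟩)) 1) (fun j => Pi.single (Sum.inr (Sum.inr ⟨(j : ℕ), by omega⟩)) 1)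
    ?_ ?_ ?_ ?_ ?_ _ ?_ ?_ ?_ ?_ ?_
  · intro j; simp [CfsgLib.Orth.Models.oddQ_apply m, Cfsg.quadFormOdd, Pi.single_apply]
  · intro j; simp [CfsgLib.Orth.Models.oddQ_apply m, Cfsg.quadFormOdd, Pi.single_apply]
  · intro j l
    by_cases hjl : j = l
    · subst hjl
      rw [if_pos rfl, hpol]
      simp [QuadraticMap.polar, Cfsg.quadFormOdd, Pi.single_apply, add_mul, Finset.sum_add_distrib]
    · rw [if_neg hjl, hpol]
      have hne : ((j : ℕ) = (l : ℕ)) = False := eq_false fun e => hjl (Fin.ext e)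
      simp [QuadraticMap.polar, Cfsg.quadFormOdd, Pi.single_apply, add_mul, mul_add, Finset.sum_add_distrib, Fin.ext_iff, hne]
      exact Finset.sum_eq_zero fun t _ => by split_ifs <;> first | rfl | omega
  · intro j l hjl
    rw [hpol]
    simp [QuadraticMap.polar, Cfsg.quadFormOdd, Pi.single_apply, add_mul, mul_add, Finset.sum_add_distrib]
  · intro j l hjl
    rw [hpol]
    simp [QuadraticMap.polar, Cfsg.quadFormOdd, Pi.single_apply, add_mul, mul_add, Finset.sum_add_distrib]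
  · rw [Matrix.diagonal_mul_diagonal, ← Matrix.diagonal_one]
    congr 1; funext s; split_ifs <;> ring
  · intro x
    simp only [CfsgLib.Orth.Models.oddQ_apply m, Cfsg.quadFormOdd, Matrix.mulVec_diagonal, Sum.elim_inl, Sum.elim_inr, lt_irrefl, if_false, one_mul]
    congr 1
    exact Finset.sum_congr rfl fun t _ => by by_cases ht : (t : ℕ) < i <;> simp [ht]
  · intro j
    funext s
    by_cases hs : s = Sum.inr (Sum.inl ⟨(j : ℕ), by omega⟩)
    · subst hs; simp [Matrix.mulVec_diagonal]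
    · simp [Matrix.mulVec_diagonal, Pi.single_apply, hs]
  · intro j
    funext s
    by_cases hs : s = Sum.inr (Sum.inr ⟨(j : ℕ), by omega⟩)
    · subst hs; simp [Matrix.mulVec_diagonal]
    · simp [Matrix.mulVec_diagonal, Pi.single_apply, hs]
  · intro x hx
    have hE : ∀ t : Fin i, x (Sum.inr (Sum.inr ⟨(t : ℕ), by omega⟩)) = 0 := fun t => by
      have := (hx t).1; rw [hpol] at this
      simpa [QuadraticMap.polar, Cfsg.quadFormOdd, Pi.single_apply, add_mul, mul_add, Finset.sum_add_distrib] using this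
    have hFF : ∀ t : Fin i, x (Sum.inr (Sum.inl ⟨(t : ℕ), by omega⟩)) = 0 := fun t => by
      have := (hx t).2; rw [hpol] at this
      simpa [QuadraticMap.polar, Cfsg.quadFormOdd, Pi.single_apply, add_mul, mul_add, Finset.sum_add_distrib] using this
    funext s
    rw [Matrix.mulVec_diagonal]
    split_ifs with hlt
    · obtain ⟨t, ht, hs⟩ : ∃ (t : Fin i) (ht : (t : ℕ) < m), s = Sum.inr (Sum.inl ⟨(t : ℕ), ht⟩) ∨ s = Sum.inr (Sum.inr ⟨(t : ℕ), ht⟩) := by
        rcases s with u | t | t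
        · exact absurd hlt (by simp)
        · exact ⟨⟨t, hlt⟩, t.isLt, Or.inl rfl⟩
        · exact ⟨⟨t, hlt⟩, t.isLt, Or.inr rfl⟩
      rcases hs with rfl | rfl
      · rw [hFF]; ring
      · rw [hE]; ring
    · rw [one_mul]

end Cfsg.Agent.S2614
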