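import Cfsg.Statements.S2619
import Cfsg.Agent.Lib.QuadClass.Basis
open CfsgLib.QuadClass

set_option autoImplicit false
open Cfsg

namespace Cfsg.Agent.S2619

/-- Over a finite field of characteristic two, given an alternating bilinear form B on a finite-dimensional space, a basis (v_i) and scalars (λ_i), there is exactly one quadratic form whose polar form is B and whose value at each v_i is λ_i. -/
theorem result {F V ι : Type*} [Field F] [Finite F] [CharP F 2] [AddCommGroup V] [Module F V] [Fintype ι] (b : Module.Basis ι F V) (B : LinearMap.BilinForm F V) (hB : B.IsAlt) (c : ι → F) : ∃! Q : QuadraticForm F V, QuadraticMap.polarBilin Q = B ∧ ∀ i, Q (b i) = c i := by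
  classical
  let e := Fintype.equivFin ι
  let C : LinearMap.BilinForm F V := b.constr F fun i => b.constr F fun j => if i = j then c i else if e i < e j then B (b i) (b j) else 0
  have hT : QuadraticMap.polarBilin (LinearMap.BilinMap.toQuadraticMap C) = B := by
    refine b.ext fun i => b.ext fun j => ?_
    show QuadraticMap.polar (LinearMap.BilinMap.toQuadraticMap C) (b i) (b j) = B (b i) (b j)
    rw [LinearMap.BilinMap.polar_toQuadraticMap]
    simp only [C, Module.Basis.constr_basis]
    rcases eq_or_ne i j with rfl | hij
    · rw [if_pos rfl, hB.self_eq_zero, CharTwo.add_self_eq_zero]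
    · rcases lt_or_gt_of_ne (fun h => hij (e.injective h)) with h | h
      · rw [if_neg hij, if_pos h, if_neg hij.symm, if_neg (lt_asymm h), add_zero]
      · rw [if_neg hij, if_neg (lt_asymm h), if_neg hij.symm, if_pos h, zero_add, ← hB.neg_eq (b i) (b j), CharTwo.neg_eq]
  have hTc : ∀ i, LinearMap.BilinMap.toQuadraticMap C (b i) = c i := fun i => by
    rw [LinearMap.BilinMap.toQuadraticMap_apply]
    simp only [C, Module.Basis.constr_basis, if_pos]
  refine ⟨LinearMap.BilinMap.toQuadraticMap C, ⟨hT, hTc⟩, ?_⟩
  rintro Q ⟨hQ, hQc⟩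
  refine QuadraticMap.ext fun v => ?_
  rw [← sub_eq_zero, ← QuadraticMap.sub_apply]
  conv_lhs => rw [← b.sum_repr v, QuadraticMap.map_sum]
  have hp : ∀ x y, QuadraticMap.polar (⇑(Q - LinearMap.BilinMap.toQuadraticMap C)) x y = 0 := fun x y => by
    have h1 : QuadraticMap.polar Q x y = B x y := by rw [← hQ]; rfl
    have h2 : QuadraticMap.polar (LinearMap.BilinMap.toQuadraticMap C) x y = B x y := by rw [← hT]; rfl
    simp only [QuadraticMap.polar, QuadraticMap.sub_apply] at h1 h2 ⊢
    linear_combination h1 - h2
  rw [Finset.sum_eq_zero (fun i _ => by rw [QuadraticMap.map_smul, QuadraticMap.sub_apply, hQc, hTc, sub_self, smul_zero]),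
    Finset.sum_eq_zero (fun ij _ => by induction ij using Sym2.ind with | _ i j => exact hp _ _), add_zero]

end Cfsg.Agent.S2619
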