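import Cfsg.Statements.S2620
import Cfsg.Agent.Lib.QuadClass.Basis
open CfsgLib.QuadClass CfsgLib.Orth.Models CfsgLib.Orth.Hyperbolic CfsgLib.Orth.Binary

set_option autoImplicit false
open Cfsg

namespace Cfsg.Agent.S2620

/-- Discriminant of the hyperbolic quadratic form Σ_(i<m) x_i y_i over a field with q elements, q odd, m ≥ 1: the determinant of the Gram matrix of its polar form in any basis is a square if and only if m(q − 1)/2 is even (equivalently q^m ≡ 1 (mod 4)). -/
theorem result {F : Type*} [Field F] [Fintype F] {q : ℕ} (hF : Fintype.card F = q) (hq : Odd q) {m : ℕ} (hm : 1 ≤ m) {ι : Type*} [Fintype ι] [DecidableEq ι] (b : Module.Basis ι F (Fin m ⊕ Fin m → F)) : IsSquare (Matrix.of (fun i j : ι => QuadraticMap.polar (Cfsg.quadFormPlus m F) (b i) (b j))).det ↔ Even (m * (q - 1) / 2) := by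
  classical
  obtain ⟨r, rfl⟩ := hq
  have hf : Cfsg.quadFormPlus m F = ⇑(plusQ F m) := funext fun v => (plusQ_apply m v).symm
  obtain ⟨d, hd0, hd⟩ := gram_det_congr (Q := plusQ F m) (R := plusQ F m) ⟨LinearEquiv.refl _ _, fun _ => rfl⟩ b
    (Pi.basisFun F _)
  rw [hf]
  show IsSquare (gram (plusQ F m) b).det ↔ _
  rw [hd, det_plus, show m * (2 * r + 1 - 1) / 2 = m * r by
    rw [Nat.add_sub_cancel, show m * (2 * r) = m * r * 2 by ring, Nat.mul_div_cancel _ two_pos]]
  have h1 : IsSquare (d ^ 2 * (-1 : F) ^ m) ↔ IsSquare ((-1 : F) ^ m) := by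
    constructor
    · rintro ⟨s, hs⟩
      exact ⟨s / d, by field_simp; linear_combination hs⟩
    · rintro ⟨s, hs⟩
      exact ⟨d * s, by rw [hs]; ring⟩
  rw [h1, Nat.even_mul]
  rcases Nat.even_or_odd m with hm' | hm'
  · rw [hm'.neg_one_pow]
    exact iff_of_true IsSquare.one (Or.inl hm')
  · rw [hm'.neg_one_pow, FiniteField.isSquare_neg_one_iff, hF]
    simp only [Nat.not_even_iff_odd.2 hm', false_or, Nat.even_iff]
    omega

end Cfsg.Agent.S2620
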