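import Cfsg.Statements.S2621
import Cfsg.Agent.Lib.QuadClass.Basis
open CfsgLib.QuadClass CfsgLib.Orth.Models CfsgLib.Orth.Hyperbolic CfsgLib.Orth.Binary

set_option autoImplicit false
open Cfsg

namespace Cfsg.Agent.S2621

/-- Discriminant of an elliptic quadratic form Σ_(i<m−1) x_i y_i + z₁² + a z₁z₂ + c z₂² (binary part anisotropic) in dimension 2m over a field with q elements, q odd, m ≥ 1: the determinant of the Gram matrix of its polar form in any basis is a square if and only if m(q − 1)/2 is odd (equivalently q^m ≡ 3 (mod 4)). -/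
theorem result {F : Type*} [Field F] [Fintype F] {q : ℕ} (hF : Fintype.card F = q) (hq : Odd q) {m : ℕ} (hm : 1 ≤ m) (a c : F) (hac : ∀ z₁ z₂ : F, z₁ ^ 2 + a * z₁ * z₂ + c * z₂ ^ 2 = 0 → z₁ = 0 ∧ z₂ = 0) {ι : Type*} [Fintype ι] [DecidableEq ι] (b : Module.Basis ι F ((Fin (m - 1) ⊕ Fin (m - 1)) ⊕ Fin 2 → F)) : IsSquare (Matrix.of (fun i j : ι => QuadraticMap.polar (Cfsg.quadFormMinus (m - 1) F a c) (b i) (b j))).det ↔ ¬ Even (m * (q - 1) / 2) := by
  classical
  obtain ⟨k, rfl⟩ : ∃ k, m = k + 1 := ⟨m - 1, by omega⟩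
  obtain ⟨r, rfl⟩ := hq
  have h2 : (2 : F) ≠ 0 := by
    intro h
    haveI : CharP F 2 := CharTwo.of_one_ne_zero_of_two_eq_zero one_ne_zero h
    have := FiniteField.even_card_iff_char_two.1 (ringChar.eq F 2)
    rw [hF] at this
    omega
  have hf : Cfsg.quadFormMinus (k + 1 - 1) F a c = ⇑(minusQ k a c) := funext fun v => (minusQ_apply k a c v).symm
  obtain ⟨d, hd0, hd⟩ := gram_det_congr (Q := minusQ k a c) (R := minusQ k a c) ⟨LinearEquiv.refl _ _, fun _ => rfl⟩ b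
    (Pi.basisFun F _)
  rw [hf]
  show IsSquare (gram (minusQ k a c) b).det ↔ _
  have hN : ¬ IsSquare (a ^ 2 - 4 * c) := by
    rintro ⟨s, hs⟩
    refine one_ne_zero (hac ((-a + s) / 2) 1 ?_).2
    field_simp
    linear_combination -hs
  rw [hd, det_minus, show (k + 1) * (2 * r + 1 - 1) / 2 = (k + 1) * r by
    rw [Nat.add_sub_cancel, show (k + 1) * (2 * r) = (k + 1) * r * 2 by ring, Nat.mul_div_cancel _ two_pos]]
  have h1 : IsSquare (d ^ 2 * ((-1 : F) ^ k * (4 * c - a ^ 2))) ↔ IsSquare ((-1 : F) ^ (k + 1) * (a ^ 2 - 4 * c)) := by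
    constructor
    · rintro ⟨s, hs⟩
      exact ⟨s / d, by field_simp; linear_combination hs⟩
    · rintro ⟨s, hs⟩
      exact ⟨d * s, by linear_combination d ^ 2 * hs⟩
  have h3 : IsSquare ((-1 : F) ^ (k + 1) * (a ^ 2 - 4 * c)) ↔ ¬ IsSquare ((-1 : F) ^ (k + 1)) := by
    constructor
    · rintro ⟨s, hs⟩ ⟨t, ht⟩
      have ht0 : t ≠ 0 := fun h => pow_ne_zero (k + 1) (neg_ne_zero.2 (one_ne_zero (α := F))) (by rw [ht, h, mul_zero])
      exact hN ⟨s / t, by rw [div_mul_div_comm, eq_div_iff (mul_ne_zero ht0 ht0)]; linear_combination hs - (a ^ 2 - 4 * c) * ht⟩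
    · exact fun h => isSquare_mul_of_not h hN
  rw [h1, h3, not_iff_not, Nat.even_mul]
  rcases Nat.even_or_odd (k + 1) with hm' | hm'
  · rw [hm'.neg_one_pow]
    exact iff_of_true IsSquare.one (Or.inl hm')
  · rw [hm'.neg_one_pow, FiniteField.isSquare_neg_one_iff, hF]
    simp only [Nat.not_even_iff_odd.2 hm', false_or, Nat.even_iff]
    omega

end Cfsg.Agent.S2621
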