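import Cfsg.Statements.S2622
import Cfsg.Agent.Lib.QuadClass.Orthonormal

set_option autoImplicit false
open Cfsg

namespace Cfsg.Agent.S2622

/-- Over a finite field of characteristic two, a non-degenerate symmetric bilinear form that is not alternating (some vector v has B(v, v) ≠ 0) admits an orthonormal basis. -/
theorem result {F V : Type*} [Field F] [Finite F] [CharP F 2] [AddCommGroup V] [Module F V] [FiniteDimensional F V] {n : ℕ} (hV : Module.finrank F V = n) (B : LinearMap.BilinForm F V) (hS : B.IsSymm) (hB : B.Nondegenerate) (hna : ∃ v : V, B v v ≠ 0) : ∃ b : Module.Basis (Fin n) F V, ∀ i j, B (b i) (b j) = if i = j then 1 else 0 := by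
  have hs : ∀ x y, B x y = B y x := fun x y => hS.eq x y
  obtain ⟨b, hb⟩ := CfsgLib.QuadClass.Orthonormal.exists_orthonormal (CharTwo.two_eq_zero (R := F)) n B hs
    (fun x hx => by
      by_contra h
      push_neg at h
      exact hx (hB.1 x h)) hV (Or.inr hna)
  have hli : LinearIndependent F b := by
    rw [Fintype.linearIndependent_iff]
    intro c hc j
    have := congrArg (fun z => B z (b j)) hc
    simpa [LinearMap.sum_apply, hb] using this
  rcases n with - | n
  · exact ⟨Module.finBasisOfFinrankEq F V hV, fun i => i.elim0⟩
  · refine ⟨basisOfLinearIndependentOfCardEqFinrank hli (by simp [hV]), fun i j => ?_⟩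
    simpa using hb i j

end Cfsg.Agent.S2622
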