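import Cfsg.Statements.S2624
import Cfsg.Agent.Lib.QuadClass.Basis
open CfsgLib.QuadClass CfsgLib.Orth.Models CfsgLib.Orth.Hyperbolic CfsgLib.Orth.Binary

set_option autoImplicit false
open Cfsg

namespace Cfsg.Agent.S2624

/-- For a quadratic form Q on F^n with non-degenerate polar form, F finite and n ≥ 2 even, every non-zero scalar c is the multiplier of some similarity: there is an invertible linear map g with Q(g v) = c·Q(v) for all v. -/
theorem result {F : Type*} [Field F] [Fintype F] {n : ℕ} (hn : 2 ≤ n) (he : Even n) (Q : QuadraticForm F (Fin n → F)) (hQ : (QuadraticMap.polarBilin Q).Nondegenerate) (c : F) (hc : c ≠ 0) : ∃ g : (Fin n → F) ≃ₗ[F] (Fin n → F), ∀ v, Q (g v) = c * Q v := by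
  obtain ⟨k, hk⟩ := he
  obtain ⟨m, rfl⟩ : ∃ m, k = m + 1 := ⟨k - 1, by omega⟩
  have hd : Module.finrank F (Fin n → F) = 2 * (m + 1) := by simp; omega
  have hN := nondeg_of Q hQ
  have hs : ∀ v, (c • Q) v = c * Q v := fun v => rfl
  have hN' : Nondeg (c • Q) := by
    intro u hu
    obtain ⟨y, hy⟩ := hN u hu
    refine ⟨y, ?_⟩
    have : QuadraticMap.polar (⇑(c • Q)) u y = c * QuadraticMap.polar Q u y := by
      simp only [QuadraticMap.polar, hs]; ring
    rw [this]
    exact mul_ne_zero hc hy
  obtain ⟨g, hg⟩ := equiv_of_singular_iff m hN' hN hd hd (by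
    rw [has_max_singular_iff m hN' hd, has_max_singular_iff m hN hd]
    simp only [hs, mul_eq_zero, hc, false_or])
  exact ⟨g, fun v => (hg v).trans (hs v)⟩

end Cfsg.Agent.S2624
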