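import Cfsg.Statements.S2625
import Cfsg.Agent.Lib.QuadClass.Basis
open CfsgLib.QuadClass CfsgLib.Orth.Models CfsgLib.Orth.Hyperbolic CfsgLib.Orth.Binary

set_option autoImplicit false
open Cfsg

namespace Cfsg.Agent.S2625

/-- For a quadratic form Q on F^n with non-degenerate polar form, F finite and n odd (so |F| is odd), the multiplier of any similarity is a square: if g is an invertible linear map with Q(g v) = c·Q(v) for all v then c is a square. -/
theorem result {F : Type*} [Field F] [Fintype F] {n : ℕ} (hn : Odd n) (Q : QuadraticForm F (Fin n → F)) (hQ : (QuadraticMap.polarBilin Q).Nondegenerate) (g : (Fin n → F) ≃ₗ[F] (Fin n → F)) (c : F) (hg : ∀ v, Q (g v) = c * Q v) : IsSquare c := by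
  by_cases hc : c = 0
  · exact hc ▸ IsSquare.zero
  obtain ⟨d, hd0, hd⟩ := gram_det_congr (Q := c • Q) (R := Q) ⟨g, fun v => hg v⟩ (Pi.basisFun F (Fin n)) (Pi.basisFun F (Fin n))
  have hs : gram (c • Q) (Pi.basisFun F (Fin n)) = c • gram Q (Pi.basisFun F (Fin n)) := by
    ext i j
    simp only [gram, Matrix.of_apply, Matrix.smul_apply, QuadraticMap.polar, QuadraticMap.smul_apply, smul_eq_mul]
    ring
  rw [hs, Matrix.det_smul, Fintype.card_fin] at hd
  have hne := det_gram_ne_zero Q (nondeg_of Q hQ) (Pi.basisFun F (Fin n))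
  have hcn : c ^ n = d ^ 2 := mul_right_cancel₀ hne hd
  obtain ⟨k, rfl⟩ := hn
  refine ⟨d / c ^ k, ?_⟩
  rw [div_mul_div_comm, eq_div_iff (mul_ne_zero (pow_ne_zero _ hc) (pow_ne_zero _ hc))]
  linear_combination hcn

end Cfsg.Agent.S2625
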