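import Cfsg.Statements.S2626


set_option autoImplicit false
open Cfsg

namespace Cfsg.Agent.S2626

/-- Ω of an orthogonal direct sum contains the product of the Ω's: for quadratic forms Q₁ on F^k and Q₂ on F^l with non-degenerate polar forms (F finite) and Q = Q₁ ⊕ Q₂ on F^(k+l), if g₁ lies in Ω(Q₁) and g₂ in Ω(Q₂) (commutator subgroups of the orthogonal groups) then the block-diagonal isometry diag(g₁, g₂) lies in Ω(Q). -/
theorem result {F : Type*} [Field F] [Fintype F] {k l : ℕ} (Q₁ : QuadraticForm F (Fin k → F)) (Q₂ : QuadraticForm F (Fin l → F)) (h₁ : (QuadraticMap.polarBilin Q₁).Nondegenerate) (h₂ : (QuadraticMap.polarBilin Q₂).Nondegenerate) (g₁ : ↥(Cfsg.isometryGroup F ⇑Q₁)) (g₂ : ↥(Cfsg.isometryGroup F ⇑Q₂)) (hg₁ : g₁ ∈ Cfsg.Omega F ⇑Q₁) (hg₂ : g₂ ∈ Cfsg.Omega F ⇑Q₂) : ∃ g : ↥(Cfsg.isometryGroup F (fun v : Fin k ⊕ Fin l → F => Q₁ (v ∘ Sum.inl) + Q₂ (v ∘ Sum.inr))),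 g ∈ Cfsg.Omega F (fun v : Fin k ⊕ Fin l → F => Q₁ (v ∘ Sum.inl) + Q₂ (v ∘ Sum.inr)) ∧ ((g : Matrix.GeneralLinearGroup (Fin k ⊕ Fin l) F) : Matrix (Fin k ⊕ Fin l) (Fin k ⊕ Fin l) F) = Matrix.fromBlocks ((g₁ : Matrix.GeneralLinearGroup (Fin k) F) : Matrix (Fin k) (Fin k) F) 0 0 ((g₂ : Matrix.GeneralLinearGroup (Fin l) F) : Matrix (Fin l) (Fin l) F) := by
  classical
  let QQ := fun v : Fin k ⊕ Fin l → F => Q₁ (v ∘ Sum.inl) + Q₂ (v ∘ Sum.inr)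
  let blk : GL (Fin k) F × GL (Fin l) F →* GL (Fin k ⊕ Fin l) F :=
    { toFun := fun g => ⟨Matrix.fromBlocks g.1.1 0 0 g.2.1, Matrix.fromBlocks g.1⁻¹.1 0 0 g.2⁻¹.1,
        by simp [Matrix.fromBlocks_multiply], by simp [Matrix.fromBlocks_multiply]⟩
      map_one' := Units.ext (by simp)
      map_mul' := fun a b => Units.ext (by simp [Matrix.fromBlocks_multiply]) }
  let φ : ↥(Cfsg.isometryGroup F ⇑Q₁) × ↥(Cfsg.isometryGroup F ⇑Q₂) →* ↥(Cfsg.isometryGroup F QQ) :=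
    (blk.comp (MonoidHom.prodMap (Cfsg.isometryGroup F ⇑Q₁).subtype (Cfsg.isometryGroup F ⇑Q₂).subtype)).codRestrict _ (by
      rintro ⟨a, b⟩ v _
      show QQ ((Matrix.fromBlocks _ 0 0 _).mulVec v) = QQ v
      rw [Matrix.fromBlocks_mulVec]
      simp only [QQ, Sum.elim_comp_inl, Sum.elim_comp_inr, Matrix.zero_mulVec, add_zero, zero_add]
      exact congrArg₂ (· + ·) (a.2 _ 0) (b.2 _ 0))
  refine ⟨φ (g₁, g₂), ?_, rfl⟩
  have e : ((g₁, g₂) : ↥(Cfsg.isometryGroup F ⇑Q₁) × ↥(Cfsg.isometryGroup F ⇑Q₂)) = (g₁, 1) * (1, g₂) := by simp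
  rw [e, map_mul]
  refine mul_mem ?_ ?_
  · have := Subgroup.map_commutator ⊤ ⊤ (φ.comp (MonoidHom.inl _ _))
    exact (Subgroup.commutator_mono le_top le_top) (this ▸ Subgroup.mem_map_of_mem _ hg₁)
  · have := Subgroup.map_commutator ⊤ ⊤ (φ.comp (MonoidHom.inr _ _))
    exact (Subgroup.commutator_mono le_top le_top) (this ▸ Subgroup.mem_map_of_mem _ hg₂)

end Cfsg.Agent.S2626
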