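import Cfsg.Statements.S2627
import Cfsg.Agent.Lib.Geometry.OmegaSum

set_option autoImplicit false
open Cfsg

namespace Cfsg.Agent.S2627

/-- For an orthogonal direct sum Q = Q₁ ⊕ Q₂ of quadratic forms with non-degenerate polar forms over a finite field, an isometry g₁ of Q₁ extended by the identity on the second summand lies in Ω(Q) (the commutator subgroup of the orthogonal group of Q) if and only if g₁ lies in Ω(Q₁). (Excluded: the field of two elements when the first summand or the whole space has dimension 4, where the commutator subgroup of O⁺₄(2) is smaller than the group usually called Ω.) -/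
theorem result {F : Type*} [Field F] [Fintype F] {k l : ℕ} (h : Fintype.card F ≠ 2 ∨ (k ≠ 4 ∧ k + l ≠ 4)) (Q₁ : QuadraticForm F (Fin k → F)) (Q₂ : QuadraticForm F (Fin l → F)) (h₁ : (QuadraticMap.polarBilin Q₁).Nondegenerate) (h₂ : (QuadraticMap.polarBilin Q₂).Nondegenerate) (g₁ : ↥(Cfsg.isometryGroup F ⇑Q₁)) : (∃ g : ↥(Cfsg.isometryGroup F (fun v : Fin k ⊕ Fin l → F => Q₁ (v ∘ Sum.inl) + Q₂ (v ∘ Sum.inr))), g ∈ Cfsg.Omega F (fun v : Fin k ⊕ Fin l → F => Q₁ (v ∘ Sum.inl) + Q₂ (v ∘ Sum.inr)) ∧ ((g : Matrix.GeneralLinearGroup (Fin k ⊕ Fin l) F) : Matrix (Fin k ⊕ Fin l) (Fin k ⊕ Fin l) F) = Matrix.fromBlocks ((g₁ : Matrix.GeneralLinearGroup (Fin k) F) : Matrix (Fin k) (Fin k) F) 0 0 1) ↔ g₁ ∈ Cfsg.Omega F ⇑Q₁ := by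
  classical
  open CfsgLib.Geometry.OmegaSum in
  have hexF : Fintype.card F ≠ 2 → ∃ c : F, c ≠ 0 ∧ c ≠ 1 := fun h => by
    by_contra hc
    simp only [not_exists, not_and, not_not] at hc
    apply h
    have : (Finset.univ : Finset F) = {0, 1} := by
      ext x; simp only [Finset.mem_univ, Finset.mem_insert, Finset.mem_singleton, true_iff]
      by_cases hx : x = 0
      · exact Or.inl hx
      · exact Or.inr (hc x hx)
    rw [← Finset.card_univ, this, Finset.card_pair zero_ne_one]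
  rw [show (fun v : Fin k ⊕ Fin l → F => Q₁ (v ∘ Sum.inl) + Q₂ (v ∘ Sum.inr)) = ⇑(sumQ Q₁ Q₂) from
    funext fun v => (sumQ_apply Q₁ Q₂ v).symm]
  have key := inl_omega_iff h₁ h₂ (h.imp hexF fun h => by simpa using h.1) (h.imp hexF fun h => by simpa using h.2) g₁
  constructor
  · rintro ⟨g, hg, hgm⟩
    exact key.1 (by rwa [show g = diagHom (g₁, (1 : ↥(Cfsg.isometryGroup F ⇑Q₂))) from Subtype.ext (Units.ext (hgm.trans rfl))] at hg)
  · exact fun hg => ⟨_, key.2 hg, rfl⟩

end Cfsg.Agent.S2627
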