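import Cfsg.Statements.S2629
import Cfsg.Agent.Lib.Geometry.SingularClass
import Cfsg.Agent.Lib.Orth.Models

set_option autoImplicit false
open Cfsg

namespace Cfsg.Agent.S2629

/-- For the hyperbolic form Σ x_i y_i on F^(2m) over a finite field of odd order (m ≥ 1), an isometry g preserves the class of the maximal totally singular subspace U₀ = {y = 0} (that is, m − dim(U₀ ∩ gU₀) is even) if and only if det g = 1: the stabiliser of each of the two classes of maximal totally singular subspaces is SO. -/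
theorem result {F : Type*} [Field F] [Fintype F] (h2 : (2 : F) ≠ 0) {m : ℕ} (hm : 1 ≤ m) (g : ↥(Cfsg.isometryGroup F (Cfsg.quadFormPlus m F))) : Even (m - Module.finrank F ↥(LinearMap.ker (LinearMap.funLeft F F (Sum.inr : Fin m → Fin m ⊕ Fin m)) ⊓ (LinearMap.ker (LinearMap.funLeft F F (Sum.inr : Fin m → Fin m ⊕ Fin m))).map (Matrix.mulVecLin ((g : Matrix.GeneralLinearGroup (Fin m ⊕ Fin m) F) : Matrix (Fin m ⊕ Fin m) (Fin m ⊕ Fin m) F)))) ↔ ((g : Matrix.GeneralLinearGroup (Fin m ⊕ Fin m) F) : Matrix (Fin m ⊕ Fin m) (Fin m ⊕ Fin m) F).det = 1 := by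
  classical
  revert g
  rw [show Cfsg.quadFormPlus m F = ⇑(CfsgLib.Orth.Models.plusQ F m) from
    funext fun v => (CfsgLib.Orth.Models.plusQ_apply m v).symm]
  intro g
  have hQ := CfsgLib.Geometry.Spinor.nondeg_polarBilin (CfsgLib.Orth.Models.nondeg_plus (F := F) m)
  haveI : Nontrivial (Fin m ⊕ Fin m) := ⟨⟨Sum.inl ⟨0, hm⟩, Sum.inr ⟨0, hm⟩, by simp⟩⟩
  have hUd : Module.finrank F ↥(LinearMap.ker (LinearMap.funLeft F F (Sum.inr : Fin m → Fin m ⊕ Fin m))) = m := by
    have h1 := (LinearMap.funLeft F F (Sum.inr : Fin m → Fin m ⊕ Fin m)).finrank_range_add_finrank_ker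
    rw [LinearMap.range_eq_top.2 (LinearMap.funLeft_surjective_of_injective F F _ Sum.inr_injective), finrank_top,
      Module.finrank_fintype_fun_eq_card, Module.finrank_fintype_fun_eq_card, Fintype.card_sum, Fintype.card_fin] at h1
    omega
  have hU2 : 2 * Module.finrank F ↥(LinearMap.ker (LinearMap.funLeft F F (Sum.inr : Fin m → Fin m ⊕ Fin m))) = Fintype.card (Fin m ⊕ Fin m) := by
    rw [hUd, Fintype.card_sum, Fintype.card_fin]; omega
  have hU0 : ∀ x ∈ LinearMap.ker (LinearMap.funLeft F F (Sum.inr : Fin m → Fin m ⊕ Fin m)), CfsgLib.Orth.Models.plusQ F m x = 0 := by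
    intro x hx
    rw [CfsgLib.Orth.Models.plusQ_apply, Cfsg.quadFormPlus]
    refine Finset.sum_eq_zero fun i _ => ?_
    have := congrFun (LinearMap.mem_ker.1 hx) i
    simp only [LinearMap.funLeft_apply, Pi.zero_apply] at this
    rw [this, mul_zero]
  have key := CfsgLib.Geometry.SingularClass.sign_eq hQ (Or.inl ⟨-1, by simp, fun e => h2 (by linear_combination -e)⟩)
    (CfsgLib.Geometry.Spinor.detSign h2 hQ) (fun v hv => CfsgLib.Geometry.Spinor.detSign_R h2 hQ hv) g _ hU2 hU0
  rw [hUd] at key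
  rw [← CfsgLib.Geometry.Spinor.detSign_eq_one h2 hQ, key, CfsgLib.Geometry.SingularClass.neg_one_pow_units]
  rfl

end Cfsg.Agent.S2629
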