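import Cfsg.Statements.S2630
import Cfsg.Agent.Lib.Geometry.SingularClass
import Cfsg.Agent.Lib.Orth.Models

set_option autoImplicit false
open Cfsg

namespace Cfsg.Agent.S2630

/-- For the hyperbolic form Σ x_i y_i on F^(2m) over a finite field of characteristic two (m ≥ 1, excluding m = 2 over the field of two elements), an isometry g preserves the class of the maximal totally singular subspace U₀ = {y = 0} (m − dim(U₀ ∩ gU₀) even) if and only if g lies in Ω (the commutator subgroup of the orthogonal group): the stabiliser of each class is Ω. -/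
theorem result {F : Type*} [Field F] [Fintype F] [CharP F 2] {m : ℕ} (hm : 1 ≤ m) (h : Fintype.card F ≠ 2 ∨ m ≠ 2) (g : ↥(Cfsg.isometryGroup F (Cfsg.quadFormPlus m F))) : Even (m - Module.finrank F ↥(LinearMap.ker (LinearMap.funLeft F F (Sum.inr : Fin m → Fin m ⊕ Fin m)) ⊓ (LinearMap.ker (LinearMap.funLeft F F (Sum.inr : Fin m → Fin m ⊕ Fin m))).map (Matrix.mulVecLin ((g : Matrix.GeneralLinearGroup (Fin m ⊕ Fin m) F) : Matrix (Fin m ⊕ Fin m) (Fin m ⊕ Fin m) F)))) ↔ g ∈ Cfsg.Omega F (Cfsg.quadFormPlus m F) := by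
  classical
  revert g
  rw [show Cfsg.quadFormPlus m F = ⇑(CfsgLib.Orth.Models.plusQ F m) from
    funext fun v => (CfsgLib.Orth.Models.plusQ_apply m v).symm]
  intro g
  have hQ := CfsgLib.Geometry.Spinor.nondeg_polarBilin (CfsgLib.Orth.Models.nondeg_plus (F := F) m)
  haveI : Nonempty (Fin m ⊕ Fin m) := ⟨Sum.inl ⟨0, hm⟩⟩
  have hex : (∃ c : F, c ≠ 0 ∧ c ≠ 1) ∨ Fintype.card (Fin m ⊕ Fin m) ≠ 4 := by
    rcases h with h | h
    · left
      by_contra hc
      simp only [not_exists, not_and, not_not] at hc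
      apply h
      have : (Finset.univ : Finset F) = {0, 1} := by
        ext x; simp only [Finset.mem_univ, Finset.mem_insert, Finset.mem_singleton, true_iff]
        by_cases hx : x = 0
        · exact Or.inl hx
        · exact Or.inr (hc x hx)
      rw [← Finset.card_univ, this, Finset.card_pair zero_ne_one]
    · right; simp; omega
  have hUd : Module.finrank F ↥(LinearMap.ker (LinearMap.funLeft F F (Sum.inr : Fin m → Fin m ⊕ Fin m))) = m := by
    have h1 := (LinearMap.funLeft F F (Sum.inr : Fin m → Fin m ⊕ Fin m)).finrank_range_add_finrank_ker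
    rw [LinearMap.range_eq_top.2 (LinearMap.funLeft_surjective_of_injective F F _ Sum.inr_injective), finrank_top,
      Module.finrank_fintype_fun_eq_card, Module.finrank_fintype_fun_eq_card, Fintype.card_sum, Fintype.card_fin] at h1
    omega
  have hU2 : 2 * Module.finrank F ↥(LinearMap.ker (LinearMap.funLeft F F (Sum.inr : Fin m → Fin m ⊕ Fin m))) = Fintype.card (Fin m ⊕ Fin m) := by
    rw [hUd, Fintype.card_sum, Fintype.card_fin]; omega
  have hU0 : ∀ x ∈ LinearMap.ker (LinearMap.funLeft F F (Sum.inr : Fin m → Fin m ⊕ Fin m)), CfsgLib.Orth.Models.plusQ F m x = 0 := by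
    intro x hx
    rw [CfsgLib.Orth.Models.plusQ_apply, Cfsg.quadFormPlus]
    refine Finset.sum_eq_zero fun i _ => ?_
    have := congrFun (LinearMap.mem_ker.1 hx) i
    simp only [LinearMap.funLeft_apply, Pi.zero_apply] at this
    rw [this, mul_zero]
  obtain ⟨D, hD⟩ := CfsgLib.Geometry.DicksonGen.exists_dickson hQ hex
  have key := CfsgLib.Geometry.SingularClass.sign_eq hQ hex D hD g _ hU2 hU0
  rw [hUd] at key
  have hiff : g ∈ Cfsg.Omega F ⇑(CfsgLib.Orth.Models.plusQ F m) ↔ D g = 1 := by
    refine ⟨fun hg => (Abelianization.commutator_subset_ker D hg : g ∈ D.ker), fun hg => ?_⟩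
    obtain ⟨a, ha⟩ := CfsgLib.Geometry.OmegaIndex.exists_aniso hQ
    rcases CfsgLib.Geometry.OmegaTools.adjust_two hQ hex g ha with h1 | h1
    · exact h1
    · have h2 : D (CfsgLib.Geometry.Reflections.R _ a ha * g) = 1 := Abelianization.commutator_subset_ker D h1
      rw [map_mul, hD, hg] at h2
      exact absurd h2 (by decide)
  rw [hiff, key, CfsgLib.Geometry.SingularClass.neg_one_pow_units]
  rfl

end Cfsg.Agent.S2630
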