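import Cfsg.Statements.S2631
import Cfsg.Agent.Lib.Geometry.SingularClass
import Cfsg.Agent.Lib.Orth.Models
import Cfsg.Agent.Lib.Orth.Siegel

set_option autoImplicit false
open Cfsg

namespace Cfsg.Agent.S2631

open scoped Matrix

/-- For the hyperbolic form Σ x_i y_i on F^(2m) over a finite field (m ≥ 1, excluding m = 2 over the field of two elements), Ω (the commutator subgroup of the orthogonal group) acts transitively on each of the two classes of maximal totally singular subspaces: if U and W are m-dimensional totally singular subspaces with m − dim(U ∩ W) even, some element of Ω carries U to W. -/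
theorem result {F : Type*} [Field F] [Fintype F] {m : ℕ} (hm : 1 ≤ m) (h : Fintype.card F ≠ 2 ∨ m ≠ 2) (U W : Submodule F (Fin m ⊕ Fin m → F)) (hU : Module.finrank F U = m) (hW : Module.finrank F W = m) (hU0 : ∀ u ∈ U, Cfsg.quadFormPlus m F u = 0) (hW0 : ∀ w ∈ W, Cfsg.quadFormPlus m F w = 0) (he : Even (m - Module.finrank F ↥(U ⊓ W))) : ∃ g : ↥(Cfsg.isometryGroup F (Cfsg.quadFormPlus m F)), g ∈ Cfsg.Omega F (Cfsg.quadFormPlus m F) ∧ U.map (Matrix.mulVecLin ((g : Matrix.GeneralLinearGroup (Fin m ⊕ Fin m) F) : Matrix (Fin m ⊕ Fin m) (Fin m ⊕ Fin m) F)) = W := by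
  classical
  revert hU0 hW0
  rw [show Cfsg.quadFormPlus m F = ⇑(CfsgLib.Orth.Models.plusQ F m) from
    funext fun v => (CfsgLib.Orth.Models.plusQ_apply m v).symm]
  intro hU0 hW0
  set Q := CfsgLib.Orth.Models.plusQ F m
  have hQ := CfsgLib.Geometry.Spinor.nondeg_polarBilin (CfsgLib.Orth.Models.nondeg_plus (F := F) m)
  haveI : Nontrivial (Fin m ⊕ Fin m) := ⟨⟨Sum.inl ⟨0, hm⟩, Sum.inr ⟨0, hm⟩, by simp⟩⟩
  have hex : (∃ c : F, c ≠ 0 ∧ c ≠ 1) ∨ Fintype.card (Fin m ⊕ Fin m) ≠ 4 := by
    rcases h with h | h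
    · left
      by_contra hc
      simp only [not_exists, not_and, not_not] at hc
      apply h
      have : (Finset.univ : Finset F) = {0, 1} := by
        ext x; simp only [Finset.mem_univ, Finset.mem_insert, Finset.mem_singleton, true_iff]
        by_cases hx : x = 0
        · exact Or.inl hx
        · exact Or.inr (hc x hx)
      rw [← Finset.card_univ, this, Finset.card_pair zero_ne_one]
    · right; simp; omega
  open CfsgLib.Geometry in
  obtain ⟨g, hg⟩ := OmegaTools.exists_map_sub hQ U W (LinearEquiv.ofFinrankEq U W (hU.trans hW.symm))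
    (fun u => by rw [hU0 _ u.2, hW0 _ (Submodule.coe_mem _)])
  have hU2 : 2 * Module.finrank F U = Fintype.card (Fin m ⊕ Fin m) := by rw [hU, Fintype.card_sum, Fintype.card_fin]; omega
  by_cases h2 : (2 : F) = 0
  · haveI : CharP F 2 := CharTwo.of_one_ne_zero_of_two_eq_zero one_ne_zero h2
    obtain ⟨D, hD⟩ := DicksonGen.exists_dickson hQ hex
    have key := SingularClass.sign_eq hQ hex D hD g U hU2 hU0
    rw [show SingularClass.im g U = W from hg, hU, he.neg_one_pow] at key
    obtain ⟨a, ha⟩ := OmegaIndex.exists_aniso hQ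
    rcases OmegaTools.adjust_two hQ hex g ha with h1 | h1
    · exact ⟨g, h1, hg⟩
    · have h3 : D (Reflections.R Q a ha * g) = 1 := Abelianization.commutator_subset_ker D h1
      rw [map_mul, hD, key] at h3
      exact absurd h3 (by decide)
  · have key := SingularClass.sign_eq hQ hex (Spinor.detSign h2 hQ) (fun v hv => Spinor.detSign_R h2 hQ hv) g U hU2 hU0
    rw [show SingularClass.im g U = W from hg, hU, he.neg_one_pow, Spinor.detSign_eq_one h2 hQ] at key
    rcases Int.units_eq_one_or (Spinor.theta Q h2 hQ g) with e | e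
    · exact ⟨g, (Spinor.mem_omega_iff h2 hQ).2 ⟨key, e⟩, hg⟩
    · obtain ⟨ν, hν⟩ := quadraticChar_exists_neg_one (F := F) (fun h => h2 (by
        haveI : CharP F 2 := ringChar.of_eq h
        exact CharTwo.two_eq_zero))
      have hν0 : ν ≠ 0 := by rintro rfl; simp at hν
      have hWne : W ≠ ⊥ := fun e => by rw [e, finrank_bot] at hW; omega
      obtain ⟨u, hu, hu0⟩ := Submodule.exists_mem_ne_zero_of_ne_bot hWne
      obtain ⟨v, hv, huv⟩ := CfsgLib.Orth.Siegel.exists_partner hQ (hW0 u hu) hu0
      have huv' : QuadraticMap.polar (⇑Q) u v = 1 := huv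
      have hQuv : ∀ t : F, Q (u + t • v) = t := fun t => by
        rw [CfsgLib.Geometry.QuadBasic.map_add_smul, hW0 u hu, hv, QuadraticMap.polar_comm, huv']; ring
      have ha0 : Q (u + (1 : F) • v) ≠ 0 := by rw [hQuv]; exact one_ne_zero
      have hb0 : Q (u + ν • v) ≠ 0 := by rw [hQuv]; exact hν0
      obtain ⟨hd, ht⟩ := OmegaTools.pair_theta h2 hQ ha0 hb0 (by rw [hQuv, hQuv, one_mul, hν])
      have hkey : Reflections.R Q (u + (1 : F) • v) ha0 * Reflections.R Q (u + ν • v) hb0 ∈ OmegaTools.keep Q W := by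
        refine OmegaTools.mem_keep_of _ W fun x hx => ?_
        have hux : QuadraticMap.polar (⇑Q) u x = 0 := by
          rw [QuadraticMap.polar, hW0 _ (W.add_mem hu hx), hW0 u hu, hW0 x hx]; ring
        have huu : QuadraticMap.polar (⇑Q) u u = 0 := by rw [QuadraticMap.polar_self, hW0 u hu, smul_zero]
        have hvv : QuadraticMap.polar (⇑Q) v v = 0 := by rw [QuadraticMap.polar_self, hv, smul_zero]
        have hvu : QuadraticMap.polar (⇑Q) v u = 1 := by rw [QuadraticMap.polar_comm, huv']
        rw [Subgroup.coe_mul, Units.val_mul, ← Matrix.mulVec_mulVec, Reflections.R_apply, Reflections.R_apply]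
        simp only [hQuv, QuadraticMap.polar_add_left, QuadraticMap.polar_smul_left, QuadraticMap.polar_sub_right,
          QuadraticMap.polar_add_right, QuadraticMap.polar_smul_right, hux, huu, hvv, huv', hvu, smul_eq_mul, inv_one]
        convert W.add_mem hx (W.smul_mem ((ν - 1) * QuadraticMap.polar (⇑Q) v x) hu) using 1
        match_scalars <;> field_simp <;> ring
      refine ⟨_ * g, (Spinor.mem_omega_iff h2 hQ).2 ⟨?_, ?_⟩, OmegaTools.map_eq_of_keep hg hkey⟩
      · rw [Subgroup.coe_mul, Units.val_mul, Matrix.det_mul, hd, key, one_mul]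
      · rw [map_mul, ht, e]; rfl

end Cfsg.Agent.S2631
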