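import Cfsg.Statements.S2632
import Cfsg.Agent.Lib.Geometry.OmegaTools

set_option autoImplicit false
open Cfsg

namespace Cfsg.Agent.S2632

open scoped Matrix

/-- Ω is transitive on non-degenerate subspaces of each isometry type: for a quadratic form Q on F^n, n ≥ 3, with non-degenerate polar form (F finite; excluding dimension 4 over the field of two elements), if U and W are subspaces on which the polar form is non-degenerate and there is a Q-preserving linear isomorphism U → W, then some element of Ω (the commutator subgroup of the orthogonal group) carries U to W. (In dimension 2 this fails: Ω can be {±1}, which fixes every line.) -/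
theorem result {F : Type*} [Field F] [Fintype F] {n : ℕ} (hn : 3 ≤ n) (h : Fintype.card F ≠ 2 ∨ n ≠ 4) (Q : QuadraticForm F (Fin n → F)) (hQ : (QuadraticMap.polarBilin Q).Nondegenerate) (U W : Submodule F (Fin n → F)) (hU : U ⊓ LinearMap.BilinForm.orthogonal (QuadraticMap.polarBilin Q) U = ⊥) (hW : W ⊓ LinearMap.BilinForm.orthogonal (QuadraticMap.polarBilin Q) W = ⊥) (e : U ≃ₗ[F] W) (he : ∀ u : U, Q (e u : Fin n → F) = Q (u : Fin n → F)) : ∃ g : ↥(Cfsg.isometryGroup F ⇑Q), g ∈ Cfsg.Omega F ⇑Q ∧ U.map (Matrix.mulVecLin ((g : Matrix.GeneralLinearGroup (Fin n) F) : Matrix (Fin n) (Fin n) F)) = W := by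
  classical
  haveI : Nontrivial (Fin n) := Fin.nontrivial_iff_two_le.2 (by omega)
  have hex : (∃ c : F, c ≠ 0 ∧ c ≠ 1) ∨ Fintype.card (Fin n) ≠ 4 := by
    rcases h with h | h
    · left
      by_contra hc
      simp only [not_exists, not_and, not_not] at hc
      apply h
      have : (Finset.univ : Finset F) = {0, 1} := by
        ext x; simp only [Finset.mem_univ, Finset.mem_insert, Finset.mem_singleton, true_iff]
        by_cases hx : x = 0
        · exact Or.inl hx
        · exact Or.inr (hc x hx)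
      rw [← Finset.card_univ, this, Finset.card_pair zero_ne_one]
    · right; simpa using h
  open CfsgLib.Geometry in
  obtain ⟨g, hg⟩ := OmegaTools.exists_map_sub hQ U W e he
  by_cases h2 : (2 : F) = 0
  · haveI : CharP F 2 := CharTwo.of_one_ne_zero_of_two_eq_zero one_ne_zero h2
    obtain ⟨a, ha, haW⟩ : ∃ a, Q a ≠ 0 ∧ (a ∈ W ∨ ∀ x ∈ W, QuadraticMap.polar (⇑Q) a x = 0) := by
      by_cases hW0 : W = ⊥
      · obtain ⟨a, ha⟩ := OmegaIndex.exists_aniso hQ
        refine ⟨a, ha, Or.inr fun x hx => ?_⟩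
        rw [hW0, Submodule.mem_bot] at hx; rw [hx, QuadraticMap.polar_zero_right]
      · by_contra hc
        simp only [not_exists, not_and, not_or] at hc
        obtain ⟨x, hx, hx0⟩ := Submodule.exists_mem_ne_zero_of_ne_bot hW0
        have hzero : ∀ y ∈ W, Q y = 0 := fun y hy => by
          by_contra hy'; exact (hc y hy').1 hy
        refine hx0 ((Submodule.eq_bot_iff _).1 hW x ⟨hx, LinearMap.BilinForm.mem_orthogonal_iff.2 fun y hy => ?_⟩)
        show QuadraticMap.polar (⇑Q) y x = 0
        rw [QuadraticMap.polar, hzero _ (W.add_mem hy hx), hzero y hy, hzero x hx]; ring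
    rcases OmegaTools.adjust_two hQ hex g ha with h1 | h1
    · exact ⟨g, h1, hg⟩
    · exact ⟨_, h1, OmegaTools.map_eq_of_keep hg (OmegaTools.R_keep ha W haW)⟩
  · -- a subspace of dimension at least two whose reflections keep W
    obtain ⟨C, hC, hCd, hCW⟩ : ∃ C : Submodule F (Fin n → F),
        C ⊓ LinearMap.BilinForm.orthogonal (QuadraticMap.polarBilin Q) C = ⊥ ∧ 2 ≤ Module.finrank F C ∧
        ∀ a ∈ C, (a ∈ W ∨ ∀ x ∈ W, QuadraticMap.polar (⇑Q) a x = 0) := by
      by_cases hd : 2 ≤ Module.finrank F W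
      · exact ⟨W, hW, hd, fun a ha => Or.inl ha⟩
      · refine ⟨LinearMap.BilinForm.orthogonal (QuadraticMap.polarBilin Q) W, ?_, ?_, fun a ha => Or.inr fun x hx => ?_⟩
        · have hrefl : LinearMap.BilinForm.IsRefl (QuadraticMap.polarBilin Q) := fun x y h => by
            show QuadraticMap.polar (⇑Q) y x = 0
            rw [QuadraticMap.polar_comm]; exact h
          rw [LinearMap.BilinForm.orthogonal_orthogonal hQ hrefl, inf_comm]; exact hW
        · rw [LinearMap.BilinForm.finrank_orthogonal hQ, Module.finrank_fintype_fun_eq_card, Fintype.card_fin]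
          omega
        · rw [QuadraticMap.polar_comm]; exact LinearMap.BilinForm.mem_orthogonal_iff.1 ha x hx
    obtain ⟨ν, hν⟩ := quadraticChar_exists_neg_one (F := F) (fun h => h2 (by
      haveI : CharP F 2 := ringChar.of_eq h
      exact CharTwo.two_eq_zero))
    have hν0 : ν ≠ 0 := by rintro rfl; simp at hν
    obtain ⟨a, ha, hQa⟩ := OmegaTools.exists_norm_mem h2 C hC hCd (1 : F)
    obtain ⟨b, hb, hQb⟩ := OmegaTools.exists_norm_mem h2 C hC hCd ν
    have ha0 : Q a ≠ 0 := by rw [hQa]; exact one_ne_zero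
    have hb0 : Q b ≠ 0 := by rw [hQb]; exact hν0
    obtain ⟨hd, ht⟩ := OmegaTools.pair_theta h2 hQ ha0 hb0 (by rw [hQa, hQb, one_mul, hν])
    have hka := OmegaTools.R_keep ha0 W (hCW a ha)
    have hkb := OmegaTools.R_keep hb0 W (hCW b hb)
    obtain ⟨p, hp, hpg⟩ := OmegaTools.adjust_odd h2 hQ (OmegaTools.keep Q W) hka (mul_mem hka hkb)
      (Spinor.det_R ha0) hd ht g
    exact ⟨p * g, hpg, OmegaTools.map_eq_of_keep hg hp⟩

end Cfsg.Agent.S2632
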