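import Cfsg.Statements.S2633
import Cfsg.Agent.Lib.Geometry.OmegaTools
import Cfsg.Agent.Lib.Orth.Siegel

set_option autoImplicit false
open Cfsg

namespace Cfsg.Agent.S2633

open scoped Matrix

/-- Ω is transitive on totally singular subspaces of each dimension less than half the dimension: for a quadratic form Q on F^n with non-degenerate polar form (F finite; excluding dimension 4 over the field of two elements), if U and W are subspaces of the same dimension k with 2k < n on which Q vanishes, then some element of Ω (the commutator subgroup of the orthogonal group) carries U to W. -/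
theorem result {F : Type*} [Field F] [Fintype F] {n : ℕ} (h : Fintype.card F ≠ 2 ∨ n ≠ 4) (Q : QuadraticForm F (Fin n → F)) (hQ : (QuadraticMap.polarBilin Q).Nondegenerate) (U W : Submodule F (Fin n → F)) {k : ℕ} (hk : 2 * k < n) (hU : Module.finrank F U = k) (hW : Module.finrank F W = k) (hU0 : ∀ u ∈ U, Q u = 0) (hW0 : ∀ w ∈ W, Q w = 0) : ∃ g : ↥(Cfsg.isometryGroup F ⇑Q), g ∈ Cfsg.Omega F ⇑Q ∧ U.map (Matrix.mulVecLin ((g : Matrix.GeneralLinearGroup (Fin n) F) : Matrix (Fin n) (Fin n) F)) = W := by
  classical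
  by_cases hk0 : k = 0
  · refine ⟨1, one_mem _, ?_⟩
    subst hk0
    rw [Submodule.finrank_eq_zero.1 hU, Submodule.finrank_eq_zero.1 hW, Submodule.map_bot]
  haveI : Nontrivial (Fin n) := Fin.nontrivial_iff_two_le.2 (by omega)
  have hex : (∃ c : F, c ≠ 0 ∧ c ≠ 1) ∨ Fintype.card (Fin n) ≠ 4 := by
    rcases h with h | h
    · left
      by_contra hc
      simp only [not_exists, not_and, not_not] at hc
      apply h
      have : (Finset.univ : Finset F) = {0, 1} := by
        ext x; simp only [Finset.mem_univ, Finset.mem_insert, Finset.mem_singleton, true_iff]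
        by_cases hx : x = 0
        · exact Or.inl hx
        · exact Or.inr (hc x hx)
      rw [← Finset.card_univ, this, Finset.card_pair zero_ne_one]
    · right; simpa using h
  open CfsgLib.Geometry in
  obtain ⟨g, hg⟩ := OmegaTools.exists_map_sub hQ U W (LinearEquiv.ofFinrankEq U W (hU.trans hW.symm))
    (fun u => by rw [hU0 _ u.2, hW0 _ (Submodule.coe_mem _)])
  -- an anisotropic vector orthogonal to W
  obtain ⟨a, ha, haW⟩ : ∃ a, Q a ≠ 0 ∧ ∀ x ∈ W, QuadraticMap.polar (⇑Q) a x = 0 := by
    by_contra hc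
    simp only [not_exists, not_and] at hc
    set P := LinearMap.BilinForm.orthogonal (QuadraticMap.polarBilin Q) W
    have hzero : ∀ x ∈ P, Q x = 0 := fun x hx => by
      by_contra hx'
      exact hc x hx' fun y hy => by
        rw [QuadraticMap.polar_comm]; exact LinearMap.BilinForm.mem_orthogonal_iff.1 hx y hy
    have hle : P ≤ LinearMap.BilinForm.orthogonal (QuadraticMap.polarBilin Q) P := fun x hx => by
      rw [LinearMap.BilinForm.mem_orthogonal_iff]
      intro y hy
      show QuadraticMap.polar (⇑Q) y x = 0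
      rw [QuadraticMap.polar, hzero _ (P.add_mem hy hx), hzero y hy, hzero x hx]; ring
    have h1 := Submodule.finrank_mono hle
    rw [LinearMap.BilinForm.finrank_orthogonal hQ P] at h1
    have h2 : Module.finrank F P = n - k := by
      show Module.finrank F ↥(LinearMap.BilinForm.orthogonal (QuadraticMap.polarBilin Q) W) = n - k
      rw [LinearMap.BilinForm.finrank_orthogonal hQ, Module.finrank_fintype_fun_eq_card, Fintype.card_fin, hW]
    rw [Module.finrank_fintype_fun_eq_card, Fintype.card_fin] at h1
    omega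
  by_cases h2 : (2 : F) = 0
  · haveI : CharP F 2 := CharTwo.of_one_ne_zero_of_two_eq_zero one_ne_zero h2
    rcases OmegaTools.adjust_two hQ hex g ha with h1 | h1
    · exact ⟨g, h1, hg⟩
    · exact ⟨_, h1, OmegaTools.map_eq_of_keep hg (OmegaTools.R_keep ha W (Or.inr haW))⟩
  · obtain ⟨ν, hν⟩ := quadraticChar_exists_neg_one (F := F) (fun h => h2 (by
      haveI : CharP F 2 := ringChar.of_eq h
      exact CharTwo.two_eq_zero))
    have hν0 : ν ≠ 0 := by rintro rfl; simp at hν
    have hWne : W ≠ ⊥ := fun e => by rw [e, finrank_bot] at hW; exact hk0 hW.symm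
    obtain ⟨u, hu, hu0⟩ := Submodule.exists_mem_ne_zero_of_ne_bot hWne
    obtain ⟨v, hv, huv⟩ := CfsgLib.Orth.Siegel.exists_partner hQ (hW0 u hu) hu0
    have huv' : QuadraticMap.polar (⇑Q) u v = 1 := huv
    have hQuv : ∀ t : F, Q (u + t • v) = t := fun t => by
      rw [CfsgLib.Geometry.QuadBasic.map_add_smul, hW0 u hu, hv, QuadraticMap.polar_comm, huv']; ring
    have ha0 : Q (u + (1 : F) • v) ≠ 0 := by rw [hQuv]; exact one_ne_zero
    have hb0 : Q (u + ν • v) ≠ 0 := by rw [hQuv]; exact hν0
    obtain ⟨hd, ht⟩ := OmegaTools.pair_theta h2 hQ ha0 hb0 (by rw [hQuv, hQuv, one_mul, hν])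
    have hkey : Reflections.R Q (u + (1 : F) • v) ha0 * Reflections.R Q (u + ν • v) hb0 ∈ OmegaTools.keep Q W := by
      refine OmegaTools.mem_keep_of _ W fun x hx => ?_
      have hux : QuadraticMap.polar (⇑Q) u x = 0 := by
        rw [QuadraticMap.polar, hW0 _ (W.add_mem hu hx), hW0 u hu, hW0 x hx]; ring
      have huu : QuadraticMap.polar (⇑Q) u u = 0 := by rw [QuadraticMap.polar_self, hW0 u hu, smul_zero]
      have hvv : QuadraticMap.polar (⇑Q) v v = 0 := by rw [QuadraticMap.polar_self, hv, smul_zero]
      have hvu : QuadraticMap.polar (⇑Q) v u = 1 := by rw [QuadraticMap.polar_comm, huv']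
      rw [Subgroup.coe_mul, Units.val_mul, ← Matrix.mulVec_mulVec, Reflections.R_apply, Reflections.R_apply]
      simp only [hQuv, QuadraticMap.polar_add_left, QuadraticMap.polar_smul_left, QuadraticMap.polar_sub_right,
        QuadraticMap.polar_add_right, QuadraticMap.polar_smul_right, hux, huu, hvv, huv', hvu, smul_eq_mul, inv_one]
      convert W.add_mem hx (W.smul_mem ((ν - 1) * QuadraticMap.polar (⇑Q) v x) hu) using 1
      match_scalars <;> field_simp <;> ring
    obtain ⟨p, hp, hpg⟩ := OmegaTools.adjust_odd h2 hQ (OmegaTools.keep Q W) (OmegaTools.R_keep ha W (Or.inr haW))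
      hkey (Spinor.det_R ha) hd ht g
    exact ⟨p * g, hpg, OmegaTools.map_eq_of_keep hg hp⟩

end Cfsg.Agent.S2633
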