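import Cfsg.Statements.S2634
import Cfsg.Agent.Lib.Geometry.OmegaTools

set_option autoImplicit false
open Cfsg

namespace Cfsg.Agent.S2634

open scoped Matrix

/-- Over a finite field of characteristic two, Ω (the commutator subgroup of the orthogonal group of a quadratic form Q on F^n with non-degenerate polar form; excluding dimension 4 over the field of two elements) acts transitively on the non-singular 1-spaces: for u, v with Q(u) ≠ 0 and Q(v) ≠ 0 some element of Ω carries the line through u to the line through v. -/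
theorem result {F : Type*} [Field F] [Fintype F] [CharP F 2] {n : ℕ} (h : Fintype.card F ≠ 2 ∨ n ≠ 4) (Q : QuadraticForm F (Fin n → F)) (hQ : (QuadraticMap.polarBilin Q).Nondegenerate) (u v : Fin n → F) (hu : Q u ≠ 0) (hv : Q v ≠ 0) : ∃ g : ↥(Cfsg.isometryGroup F ⇑Q), g ∈ Cfsg.Omega F ⇑Q ∧ (F ∙ ((g : Matrix.GeneralLinearGroup (Fin n) F) : Matrix (Fin n) (Fin n) F).mulVec u) = F ∙ v := by
  classical
  have hu0 : u ≠ 0 := fun e => hu (by rw [e, QuadraticMap.map_zero])
  haveI : Nonempty (Fin n) := by
    obtain ⟨i, -⟩ : ∃ i, u i ≠ 0 := by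
      by_contra hc
      exact hu0 (funext fun i => by simpa using not_exists.1 hc i)
    exact ⟨i⟩
  have hex : (∃ c : F, c ≠ 0 ∧ c ≠ 1) ∨ Fintype.card (Fin n) ≠ 4 := by
    rcases h with h | h
    · left
      by_contra hc
      simp only [not_exists, not_and, not_not] at hc
      apply h
      have : (Finset.univ : Finset F) = {0, 1} := by
        ext x; simp only [Finset.mem_univ, Finset.mem_insert, Finset.mem_singleton, true_iff]
        by_cases hx : x = 0
        · exact Or.inl hx
        · exact Or.inr (hc x hx)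
      rw [← Finset.card_univ, this, Finset.card_pair zero_ne_one]
    · right; simpa using h
  have hbij : Function.Bijective (fun x : F => x * x) := by
    refine Finite.injective_iff_bijective.1 fun x y (h : x * x = y * y) => ?_
    rcases mul_self_eq_mul_self_iff.1 h with e | e
    · exact e
    · rwa [CharTwo.neg_eq] at e
  obtain ⟨c, hc⟩ := hbij.2 (Q v / Q u)
  have hc0 : c ≠ 0 := fun e => by
    rw [e] at hc
    have h0 : Q v / Q u = 0 := by rw [← hc]; ring
    exact hv ((div_eq_zero_iff.1 h0).resolve_right hu)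
  have hcu : Q (c • u) = Q v := by
    rw [QuadraticMap.map_smul, smul_eq_mul, show c * c = Q v / Q u from hc, div_mul_cancel₀ _ hu]
  obtain ⟨g, hg⟩ := CfsgLib.Geometry.DicksonGen.exists_map hQ (v := c • u) (w := v) (by rw [hcu]; exact hv) hcu.symm
  have hline : ∀ k : ↥(Cfsg.isometryGroup F ⇑Q), k.1.1 *ᵥ (c • u) = v →
      (F ∙ (k.1.1).mulVec u) = F ∙ v := by
    intro k hk
    rw [Matrix.mulVec_smul] at hk
    rw [← hk, Submodule.span_singleton_smul_eq hc0.isUnit]
  rcases CfsgLib.Geometry.OmegaTools.adjust_two hQ hex g hv with h1 | h1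
  · exact ⟨g, h1, hline g hg⟩
  · refine ⟨_, h1, hline _ ?_⟩
    rw [Subgroup.coe_mul, Units.val_mul, ← Matrix.mulVec_mulVec, hg, CfsgLib.Geometry.Reflections.R_apply,
      QuadraticMap.polar_self, two_nsmul, CharTwo.add_self_eq_zero, mul_zero, zero_smul, sub_zero]

end Cfsg.Agent.S2634
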