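import Cfsg.Statements.S2635
import Cfsg.Agent.Lib.Geometry.OmegaTools

set_option autoImplicit false
open Cfsg

namespace Cfsg.Agent.S2635

/-- Over a finite field of characteristic two, for a quadratic form Q on F^n with non-degenerate polar form, n ≥ 2, other than dimension 4 over the field of two elements, Ω (the commutator subgroup of the orthogonal group) is exactly the subgroup generated by the products of two reflections (orthogonal transvections) x ↦ x − Q(v)⁻¹ f(x, v) v, Q(v) ≠ 0: the products of an even number of reflections. -/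
theorem result {F : Type*} [Field F] [Fintype F] [CharP F 2] {n : ℕ} (hn : 2 ≤ n) (h : Fintype.card F ≠ 2 ∨ n ≠ 4) (Q : QuadraticForm F (Fin n → F)) (hQ : (QuadraticMap.polarBilin Q).Nondegenerate) : Cfsg.Omega F ⇑Q = Subgroup.closure {g : ↥(Cfsg.isometryGroup F ⇑Q) | ∃ u v : Fin n → F, Q u ≠ 0 ∧ Q v ≠ 0 ∧ ((g : Matrix.GeneralLinearGroup (Fin n) F) : Matrix (Fin n) (Fin n) F) = Cfsg.reflectionMatrix ⇑Q u * Cfsg.reflectionMatrix ⇑Q v} := by
  classical
  haveI : Nonempty (Fin n) := ⟨⟨0, by omega⟩⟩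
  have hex : (∃ c : F, c ≠ 0 ∧ c ≠ 1) ∨ Fintype.card (Fin n) ≠ 4 := by
    rcases h with h | h
    · left
      by_contra hc
      simp only [not_exists, not_and, not_not] at hc
      apply h
      have : (Finset.univ : Finset F) = {0, 1} := by
        ext x; simp only [Finset.mem_univ, Finset.mem_insert, Finset.mem_singleton, true_iff]
        by_cases hx : x = 0
        · exact Or.inl hx
        · exact Or.inr (hc x hx)
      rw [← Finset.card_univ, this, Finset.card_pair zero_ne_one]
    · right; simpa using h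
  obtain ⟨D, hD⟩ := CfsgLib.Geometry.DicksonGen.exists_dickson hQ hex
  have hidx := CfsgLib.Geometry.OmegaIndex.index_omega_two hQ hex
  have hnot : ∀ w (hw : Q w ≠ 0), CfsgLib.Geometry.Reflections.R Q w hw ∉ Cfsg.Omega F ⇑Q := fun w hw hm => by
    have h1 : CfsgLib.Geometry.Reflections.R Q w hw ∈ D.ker := Abelianization.commutator_subset_ker D hm
    rw [MonoidHom.mem_ker, hD] at h1
    exact absurd h1 (by decide)
  set P := Subgroup.closure {g : ↥(Cfsg.isometryGroup F ⇑Q) | ∃ u v : Fin n → F, Q u ≠ 0 ∧ Q v ≠ 0 ∧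
    ((g : Matrix.GeneralLinearGroup (Fin n) F) : Matrix (Fin n) (Fin n) F) = Cfsg.reflectionMatrix ⇑Q u * Cfsg.reflectionMatrix ⇑Q v}
  have hpair : ∀ u v (hu : Q u ≠ 0) (hv : Q v ≠ 0),
      CfsgLib.Geometry.Reflections.R Q u hu * CfsgLib.Geometry.Reflections.R Q v hv ∈ P := fun u v hu hv =>
    Subgroup.subset_closure ⟨u, v, hu, hv, rfl⟩
  have hPle : P ≤ Cfsg.Omega F ⇑Q := by
    refine (Subgroup.closure_le _).2 ?_
    rintro g ⟨u, v, hu, hv, hg⟩
    obtain rfl : g = CfsgLib.Geometry.Reflections.R Q u hu * CfsgLib.Geometry.Reflections.R Q v hv :=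
      Subtype.ext (Units.ext hg)
    exact (Subgroup.mul_mem_iff_of_index_two hidx).2 (iff_of_false (hnot u hu) (hnot v hv))
  refine le_antisymm (fun g hg => ?_) hPle
  have key : ∀ z, z ∈ Subgroup.closure (CfsgLib.Geometry.Reflections.reflections Q) →
      z ∈ P ∨ ∃ a, ∃ ha : Q a ≠ 0, CfsgLib.Geometry.Reflections.R Q a ha * z ∈ P := by
    intro z hz
    have step : ∀ r ∈ CfsgLib.Geometry.Reflections.reflections Q, ∀ z,
        (z ∈ P ∨ ∃ a, ∃ ha : Q a ≠ 0, CfsgLib.Geometry.Reflections.R Q a ha * z ∈ P) →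
        (r * z ∈ P ∨ ∃ a, ∃ ha : Q a ≠ 0, CfsgLib.Geometry.Reflections.R Q a ha * (r * z) ∈ P) := by
      rintro r ⟨v, hv, hr⟩ z hz
      obtain rfl : r = CfsgLib.Geometry.Reflections.R Q v hv := Subtype.ext (Units.ext hr)
      rcases hz with hz | ⟨a, ha, hz⟩
      · refine Or.inr ⟨v, hv, ?_⟩
        rw [← mul_assoc]; exact mul_mem (hpair v v hv hv) hz
      · refine Or.inl ?_
        have e := mul_mem (mul_mem (hpair v a hv ha) (inv_mem (hpair a a ha ha))) hz
        rwa [mul_inv_rev, show ∀ (x y w : ↥(Cfsg.isometryGroup F ⇑Q)), x * y * (y⁻¹ * y⁻¹) * (y * w) = x * w from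
          fun x y w => by group] at e
    induction hz using Subgroup.closure_induction_left with
    | one => exact Or.inl (one_mem _)
    | mul_left r hr z _ ih => exact step r hr z ih
    | inv_mul_cancel r hr z _ ih =>
      obtain ⟨v, hv, hr'⟩ := hr
      have hrr : r⁻¹ = r := by
        refine inv_eq_of_mul_eq_one_right (Subtype.ext (Units.ext (Matrix.toLin'.injective (LinearMap.ext fun x => ?_))))
        simp only [Subgroup.coe_mul, Units.val_mul, hr', Matrix.toLin'_apply, ← Matrix.mulVec_mulVec,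
          CfsgLib.Geometry.QuadBasic.reflection_mulVec, OneMemClass.coe_one, Units.val_one, Matrix.one_mulVec]
        exact CfsgLib.Geometry.Spinor.refl_refl Q hv x
      rw [hrr]; exact step r ⟨v, hv, hr'⟩ z ih
  rcases key g (by rw [CfsgLib.Geometry.DicksonGen.closure_eq_top hQ hex]; trivial) with h1 | ⟨a, ha, h1⟩
  · exact h1
  · exact absurd ((Subgroup.mul_mem_iff_of_index_two hidx).1 (hPle h1)) (fun e => hnot a ha (e.2 hg))

end Cfsg.Agent.S2635
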