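import Cfsg.Statements.S2636
import Mathlib

set_option autoImplicit false
open Cfsg

namespace Cfsg.Agent.S2636


theorem card_fixed {F : Type*} [Field F] [Fintype F] {q₀ r : ℕ} (hr : r.Prime)
    (hF : Fintype.card F = q₀ ^ r) (σ : F ≃+* F) (hσ : orderOf σ = r) :
    Nat.card (FixedPoints.subfield (Subgroup.zpowers σ) F) = q₀ := by
  classical
  let G : Subgroup (F ≃+* F) := Subgroup.zpowers σ
  haveI : Finite (F ≃+* F) := Finite.of_injective (fun e => (e : F → F)) DFunLike.coe_injective
  haveI : Fintype G := Fintype.ofFinite _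
  haveI : FaithfulSMul G F := ⟨fun {a b} h => Subtype.ext (RingEquiv.ext h)⟩
  have hd := FixedPoints.finrank_eq_card G F
  have hc : Fintype.card G = r := by rw [← Nat.card_eq_fintype_card, Nat.card_zpowers, hσ]
  have h := Module.natCard_eq_pow_finrank (K := FixedPoints.subfield G F) (V := F)
  rw [hd, hc, Nat.card_eq_fintype_card, hF] at h
  exact (Nat.pow_left_injective hr.ne_zero h).symm


/-- Centraliser of a field automorphism in PGL_n: let F be the field with q = q₀^r elements, σ a field automorphism of F of prime order r (so its fixed field has q₀ elements) and n ≥ 1. The invertible matrices g whose entrywise image under σ is a scalar multiple of g — those whose coset modulo scalars is fixed by σ — number (q − 1)/(q₀ − 1) · |GL_n(q₀)|; equivalently the centraliser in PGL_n(q) of the induced automorphism has the order of PGL_n(q₀). -/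
theorem result {F : Type*} [Field F] [Fintype F] {q₀ r n : ℕ} (hr : r.Prime) (hn : 1 ≤ n) (hF : Fintype.card F = q₀ ^ r) (σ : F ≃+* F) (hσ : orderOf σ = r) : Nat.card {g : GL (Fin n) F // ∃ c : F, c ≠ 0 ∧ (g : Matrix (Fin n) (Fin n) F).map σ = c • (g : Matrix (Fin n) (Fin n) F)} = (q₀ ^ r - 1) / (q₀ - 1) * ∏ i : Fin n, (q₀ ^ n - q₀ ^ (i : ℕ)) := by
  classical
  set F₀ := FixedPoints.subfield (Subgroup.zpowers σ) F with hF₀def
  have hq : Nat.card F₀ = q₀ := card_fixed hr hF σ hσ
  haveI : Fintype F₀ := Fintype.ofFinite _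
  have hmem : ∀ x : F, x ∈ F₀ ↔ σ x = x := by
    intro x
    constructor
    · intro h; exact h ⟨σ, Subgroup.mem_zpowers σ⟩
    · intro h g
      have hs : σ ∈ MulAction.stabilizer (F ≃+* F) x := h
      exact MulAction.mem_stabilizer_iff.1 ((Subgroup.zpowers_le.2 hs) g.2)
  let f₁ : Fˣ →* GL (Fin n) F := Units.map (Matrix.scalar (Fin n)).toMonoidHom
  let f₂ : GL (Fin n) F₀ →* GL (Fin n) F := Matrix.GeneralLinearGroup.map F₀.subtype
  have hval : ∀ (a : Fˣ) (h : GL (Fin n) F₀) i j,
      ((f₁ a * f₂ h : GL (Fin n) F) : Matrix (Fin n) (Fin n) F) i j = (a : F) * ((h i j : F₀) : F) := by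
    intro a h i j
    show (Matrix.scalar (Fin n) (a : F) * (h : Matrix (Fin n) (Fin n) F₀).map F₀.subtype) i j = _
    rw [Matrix.scalar_apply, Matrix.diagonal_mul]
    rfl
  have hcomm : ∀ (a : Fˣ) (h : GL (Fin n) F₀), Commute (f₁ a) (f₂ h) := by
    intro a h
    refine Units.ext ?_
    show Matrix.scalar (Fin n) (a : F) * _ = _
    exact (Matrix.scalar_commute (a : F) (fun _ => Commute.all _ _) _).eq
  let φ : Fˣ × GL (Fin n) F₀ →* GL (Fin n) F := MonoidHom.noncommCoprod f₁ f₂ hcomm
  have hφ : ∀ a h, φ (a, h) = f₁ a * f₂ h := fun a h => rfl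
  let S : Set (GL (Fin n) F) := {g | ∃ c : F, c ≠ 0 ∧ (g : Matrix (Fin n) (Fin n) F).map σ = c • (g : Matrix (Fin n) (Fin n) F)}
  have hrange : S = φ.range := by
    ext g
    constructor
    · rintro ⟨c, hc, hg⟩
      haveI : NeZero n := ⟨by omega⟩
      obtain ⟨k, l, hx⟩ : ∃ k l, g k l ≠ 0 := by
        by_contra h
        push Not at h
        have h1 := (Matrix.isUnit_iff_isUnit_det _).1 g.isUnit
        rw [show (g : Matrix (Fin n) (Fin n) F) = 0 from Matrix.ext fun i j => h i j, Matrix.det_zero] at h1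
        exact h1.ne_zero rfl
      set x : F := g k l
      have he : ∀ i j, σ (g i j) = c * g i j := fun i j => by
        have := congrFun (congrFun hg i) j
        simpa using this
      have hm : ∀ i j, g i j / x ∈ F₀ := fun i j => by
        rw [hmem, map_div₀, he, he k l, mul_div_mul_left _ _ hc]
      let M : Matrix (Fin n) (Fin n) F₀ := Matrix.of fun i j => ⟨g i j / x, hm i j⟩
      have hM : M.map F₀.subtype = x⁻¹ • (g : Matrix (Fin n) (Fin n) F) := by
        ext i j; simp [M, div_eq_mul_inv, mul_comm]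
      have hdet : M.det ≠ 0 := by
        intro h0
        have h1 := RingHom.map_det F₀.subtype M
        rw [h0, map_zero, RingHom.mapMatrix_apply, hM, Matrix.det_smul] at h1
        rcases mul_eq_zero.1 h1.symm with h2 | h2
        · exact hx (inv_eq_zero.1 (eq_zero_of_pow_eq_zero h2))
        · exact ((Matrix.isUnit_iff_isUnit_det _).1 g.isUnit).ne_zero h2
      refine ⟨(Units.mk0 x hx, Matrix.GeneralLinearGroup.mkOfDetNeZero M hdet), ?_⟩
      refine Units.ext (Matrix.ext fun i j => ?_)
      rw [hφ, hval]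
      show x * (g i j / x) = _
      field_simp
    · rintro ⟨⟨a, h⟩, rfl⟩
      refine ⟨σ a / a, div_ne_zero (by simp) a.ne_zero, Matrix.ext fun i j => ?_⟩
      rw [Matrix.map_apply, Matrix.smul_apply, smul_eq_mul, hφ, hval, map_mul, (hmem _).1 (h i j).2]
      field_simp
  have hker : Nat.card φ.ker = q₀ - 1 := by
    let ψ : F₀ˣ →* Fˣ × GL (Fin n) F₀ :=
      MonoidHom.prod (Units.map F₀.subtype.toMonoidHom)
        ((Units.map (Matrix.scalar (Fin n)).toMonoidHom).comp (invMonoidHom : F₀ˣ →* F₀ˣ))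
    have hψ : ψ.range = φ.ker := by
      ext ⟨a, h⟩
      constructor
      · rintro ⟨b, hb⟩
        rw [MonoidHom.mem_ker, ← hb]
        refine Units.ext (Matrix.ext fun i j => ?_)
        show (f₁ _ * f₂ _ : GL (Fin n) F) i j = _
        rw [hval]
        show ((b : F₀) : F) * ((Matrix.scalar (Fin n) ((b⁻¹ : F₀ˣ) : F₀) i j : F₀) : F) = _
        rcases eq_or_ne i j with rfl | hij
        · simp [Matrix.scalar_apply]
        · simp [Matrix.scalar_apply, hij]
      · intro hk
        have hk' : ∀ i j, (a : F) * ((h i j : F₀) : F) = if i = j then 1 else 0 := fun i j => by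
          rw [← hval, ← hφ, MonoidHom.mem_ker.1 hk]
          simp [Matrix.one_apply]
        haveI : NeZero n := ⟨by omega⟩
        have h0 := hk' 0 0
        rw [if_pos rfl] at h0
        have ha : (a : F) ∈ F₀ := by
          rw [eq_inv_of_mul_eq_one_left h0]
          exact F₀.inv_mem (h 0 0).2
        let b : F₀ˣ := Units.mk0 ⟨a, ha⟩ (fun he => a.ne_zero (congrArg Subtype.val he))
        refine ⟨b, Prod.ext (Units.ext rfl) (Units.ext (Matrix.ext fun i j => Subtype.ext ?_))⟩
        show ((Matrix.scalar (Fin n) ((b⁻¹ : F₀ˣ) : F₀) i j : F₀) : F) = (h i j : F)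
        apply mul_left_cancel₀ a.ne_zero
        rw [hk']
        rcases eq_or_ne i j with rfl | hij
        · simp [Matrix.scalar_apply, b]
        · simp [Matrix.scalar_apply, hij]
    have hinj : Function.Injective ψ := fun b b' he => by
      have := congrArg (fun z : Fˣ × GL (Fin n) F₀ => (z.1 : F)) he
      exact Units.ext (Subtype.ext this)
    rw [← hψ, ← Nat.card_congr (MonoidHom.ofInjective hinj).toEquiv, Nat.card_units, hq]
  have hgl : Nat.card (GL (Fin n) F₀) = ∏ i : Fin n, (q₀ ^ n - q₀ ^ (i : ℕ)) := by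
    rw [Matrix.card_GL_field, ← Nat.card_eq_fintype_card, hq]
  have h := Subgroup.card_mul_index φ.ker
  rw [Subgroup.index_ker, Nat.card_prod, Nat.card_units, Nat.card_eq_fintype_card (α := F), hF, hker, hgl] at h
  rw [show Nat.card {g : GL (Fin n) F // ∃ c : F, c ≠ 0 ∧ (g : Matrix (Fin n) (Fin n) F).map σ = c • (g : Matrix (Fin n) (Fin n) F)} = Nat.card φ.range from Nat.card_congr (Equiv.setCongr hrange)]
  have hq2 : 2 ≤ q₀ := by
    rw [← hq]
    exact Finite.one_lt_card
  have hdvd : q₀ - 1 ∣ q₀ ^ r - 1 := by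
    simpa using Nat.sub_dvd_pow_sub_pow q₀ 1 r
  apply Nat.eq_of_mul_eq_mul_left (show 0 < q₀ - 1 by omega)
  rw [h, ← mul_assoc, Nat.mul_div_cancel' hdvd]

end Cfsg.Agent.S2636
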