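import Cfsg.Statements.S2639
import Cfsg.Agent.Lib.Symplectic.Embed
import Cfsg.Agent.Lib.Geometry.FieldEmbed

set_option autoImplicit false
open Cfsg

namespace Cfsg.Agent.S2639

open scoped Matrix

/-- The unitary group embeds in the symplectic group of twice the dimension over the subfield: for a field K with q² elements and a field F with q elements (isomorphic to the subfield of K of order q), there is an injective homomorphism GU_m(q) → Sp_2m(F). -/
theorem result {K F : Type*} [Field K] [Fintype K] [Field F] [Fintype F] {q : ℕ} (hK : Fintype.card K = q ^ 2) (hF : Fintype.card F = q) (m : ℕ) : ∃ φ : ↥(Cfsg.GU m K q) →* ↥(Matrix.symplecticGroup (Fin m) F), Function.Injective φ := by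
  classical
  obtain ⟨_, hd⟩ := CfsgLib.Geometry.FieldEmbed.exists_algebra hK hF
  haveI : FiniteDimensional F K := FiniteDimensional.of_finrank_eq_succ hd
  have hq : ∀ c : F, (algebraMap F K c) ^ q = algebraMap F K c := fun c => by
    rw [← map_pow, ← hF, FiniteField.pow_card]
  have hqq : ∀ z : K, (z ^ q) ^ q = z := fun z => by
    rw [← pow_mul, ← sq, ← hK, FiniteField.pow_card]
  have hadd : ∀ x y : K, (x + y) ^ q = x ^ q + y ^ q := by
    intro x y
    obtain ⟨p, hp⟩ := CharP.exists F
    obtain ⟨nF, hpr, hn⟩ := FiniteField.card F p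
    haveI := Fact.mk hpr
    haveI : CharP K p := charP_of_injective_ringHom (algebraMap F K).injective p
    rw [← hF, hn, add_pow_char_pow]
  -- an F-valued functional, odd under the conjugation
  obtain ⟨ε, hε0, hε⟩ : ∃ ε : K, ε ≠ 0 ∧ ε ^ q = -ε := by
    by_cases h2 : ∀ z : K, z ^ q = z
    · exfalso
      let P : Polynomial K := Polynomial.X ^ q - Polynomial.X
      have hq1 : 1 < q := hF ▸ Fintype.one_lt_card
      have hdeg : P.natDegree = q := FiniteField.X_pow_card_sub_X_natDegree_eq K hq1
      have hne : P ≠ 0 := FiniteField.X_pow_card_sub_X_ne_zero K hq1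
      have hroots : (Finset.univ : Finset K) ⊆ P.roots.toFinset := fun z _ => by
        rw [Multiset.mem_toFinset, Polynomial.mem_roots hne]; simp [P, h2 z]
      have := (Finset.card_le_card hroots).trans ((Multiset.toFinset_card_le _).trans (P.card_roots'.trans hdeg.le))
      rw [Finset.card_univ, hK] at this
      nlinarith
    · obtain ⟨z, hz⟩ := not_forall.1 h2
      refine ⟨z ^ q - z, sub_ne_zero.2 hz, ?_⟩
      have := hadd (z ^ q - z) z
      rw [sub_add_cancel, hqq] at this
      linear_combination -this
  have hfix : ∀ z : K, z ^ q = z → ∃ c : F, algebraMap F K c = z := by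
    intro z hz
    let P : Polynomial K := Polynomial.X ^ q - Polynomial.X
    have hq1 : 1 < q := hF ▸ Fintype.one_lt_card
    have hne : P ≠ 0 := FiniteField.X_pow_card_sub_X_ne_zero K hq1
    have h1 : Finset.univ.image (algebraMap F K) = P.roots.toFinset := by
      refine Finset.eq_of_subset_of_card_le (fun w hw => ?_) ?_
      · obtain ⟨c, -, rfl⟩ := Finset.mem_image.1 hw
        rw [Multiset.mem_toFinset, Polynomial.mem_roots hne]; simp [P, hq c]
      · rw [Finset.card_image_of_injective _ (algebraMap F K).injective, Finset.card_univ, hF]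
        exact (Multiset.toFinset_card_le _).trans (P.card_roots'.trans (FiniteField.X_pow_card_sub_X_natDegree_eq K hq1).le)
    have : z ∈ P.roots.toFinset := by
      rw [Multiset.mem_toFinset, Polynomial.mem_roots hne]; simp [P, hz]
    rw [← h1] at this
    obtain ⟨c, -, hc⟩ := Finset.mem_image.1 this
    exact ⟨c, hc⟩
  have hneg : ∀ z : K, (-z) ^ q = -(z ^ q) := fun z => by
    have := hadd (-z) z
    rw [neg_add_cancel, zero_pow (by rw [← hF]; exact Fintype.card_ne_zero)] at this
    linear_combination -this
  choose τ hτ using fun z : K => hfix (ε * (z - z ^ q)) (by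
    rw [mul_pow, sub_eq_add_neg, hadd, hneg, hqq, hε]; ring)
  have hτinj : ∀ z w : K, algebraMap F K (τ z) = algebraMap F K (τ w) → τ z = τ w := fun z w h => (algebraMap F K).injective h
  let T : K →ₗ[F] F :=
    { toFun := τ
      map_add' := fun x y => (algebraMap F K).injective (by rw [map_add, hτ, hτ, hτ, hadd]; ring)
      map_smul' := fun c x => (algebraMap F K).injective (by
        rw [RingHom.id_apply, smul_eq_mul, map_mul, hτ, hτ, Algebra.smul_def, mul_pow, hq]; ring) }
  have hT : ∀ z, T (z ^ q) = -T z := fun z => (algebraMap F K).injective (by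
    rw [map_neg]; show algebraMap F K (τ _) = -algebraMap F K (τ _); rw [hτ, hτ, hqq]; ring)
  let b : Module.Basis (Fin 2) F K := Module.finBasisOfFinrankEq F K hd
  let c : F := T (b 1 * b 0 ^ q)
  have hexp : ∀ x y : K, T (x * y ^ q) = c * (b.repr x 1 * b.repr y 0 - b.repr x 0 * b.repr y 1) := by
    intro x y
    have hself : ∀ z : K, T (z * z ^ q) = 0 := fun z => (algebraMap F K).injective (by
      rw [map_zero]; show algebraMap F K (τ _) = 0; rw [hτ, mul_pow, hqq]; ring)
    have hswap : T (b 0 * b 1 ^ q) = -c := by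
      rw [show b 0 * b 1 ^ q = (b 1 * b 0 ^ q) ^ q by rw [mul_pow, hqq]; ring, hT]
    conv_lhs => rw [← b.sum_repr x, ← b.sum_repr y]
    rw [Fin.sum_univ_two, Fin.sum_univ_two, hadd, Algebra.smul_def, Algebra.smul_def, Algebra.smul_def, Algebra.smul_def,
      mul_pow, mul_pow, hq, hq, show
      (algebraMap F K (b.repr x 0) * b 0 + algebraMap F K (b.repr x 1) * b 1) *
        (algebraMap F K (b.repr y 0) * b 0 ^ q + algebraMap F K (b.repr y 1) * b 1 ^ q)
      = (b.repr x 0 * b.repr y 0) • (b 0 * b 0 ^ q) + (b.repr x 0 * b.repr y 1) • (b 0 * b 1 ^ q)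
        + (b.repr x 1 * b.repr y 0) • (b 1 * b 0 ^ q) + (b.repr x 1 * b.repr y 1) • (b 1 * b 1 ^ q) by
        simp only [Algebra.smul_def, map_mul]; ring]
    simp only [map_add, map_smul, hself, hswap, smul_eq_mul]
    show _ + _ + _ * c + _ = _
    ring
  have hc : c ≠ 0 := by
    intro h0
    have := hexp 1 0
    have hall : ∀ x : K, T x = 0 := fun x => by
      have := hexp x 1
      rwa [one_pow, mul_one, h0, zero_mul] at this
    have hε2 : ∀ z : K, z ^ q = z := fun z => by
      have h1 := hτ z
      rw [show τ z = 0 from hall z, map_zero] at h1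
      exact (sub_eq_zero.1 ((mul_eq_zero.1 h1.symm).resolve_left hε0)).symm
    have := hε2 (b 1 / b 0)
    obtain ⟨r, hr⟩ := hfix _ this
    have hb0 : b 0 ≠ 0 := b.ne_zero 0
    have h2 : b 1 = r • b 0 := by rw [Algebra.smul_def, hr, div_mul_cancel₀ _ hb0]
    have := congrArg (fun w => b.repr w 1) h2
    simp at this
  let E : (Fin m → K) ≃ₗ[F] (Fin m ⊕ Fin m → F) :=
    { toFun := fun u => Sum.elim (fun i => b.repr (u i) 0) (fun i => c * b.repr (u i) 1)
      invFun := fun w i => b.equivFun.symm ![w (Sum.inl i), c⁻¹ * w (Sum.inr i)]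
      map_add' := fun u v => by funext i; rcases i with i | i <;> simp [mul_add]
      map_smul' := fun r u => by funext i; rcases i with i | i <;> simp; ring
      left_inv := fun u => by
        funext i
        rw [LinearEquiv.symm_apply_eq]
        funext k
        fin_cases k <;> simp [hc]
      right_inv := fun w => by
        funext i
        rcases i with i | i <;> simp only [Sum.elim_inl, Sum.elim_inr, ← Module.Basis.equivFun_apply, LinearEquiv.apply_symm_apply]
        · simp
        · simp [hc] }
  have hE : ∀ u v, CfsgLib.Symplectic.Basic.B (E u) (E v) = T (Cfsg.hermForm m K q u v) := by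
    intro u v
    rw [CfsgLib.Symplectic.Basic.B_expand, Cfsg.hermForm, map_sum]
    refine Finset.sum_congr rfl fun i _ => ?_
    rw [hexp]
    simp only [E, LinearEquiv.coe_mk, LinearMap.coe_mk, AddHom.coe_mk, Sum.elim_inl, Sum.elim_inr]
    ring
  exact CfsgLib.Symplectic.Embed.exists_hom ((Units.coeHom _).comp (Cfsg.GU m K q).subtype)
    (fun g h e => Subtype.ext (Units.ext e)) E fun g u v => by
    rw [hE, hE]
    exact congrArg T (g.2 u v)

end Cfsg.Agent.S2639
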