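import Cfsg.Statements.S2640
import Cfsg.Agent.Lib.Orth.UnitaryEmb

set_option autoImplicit false
open Cfsg

namespace Cfsg.Agent.S2640

/-- For m even, the unitary group GU_m(q) (over the field with q² elements) embeds in the orthogonal group O⁺_2m(q) of the hyperbolic form Σ x_i y_i over the field with q elements (there is an injective homomorphism). -/
theorem result {K F : Type*} [Field K] [Fintype K] [Field F] [Fintype F] {q : ℕ} (hK : Fintype.card K = q ^ 2) (hF : Fintype.card F = q) (m : ℕ) (hm : Even m) : ∃ φ : ↥(Cfsg.GU m K q) →* ↥(Cfsg.isometryGroup F (Cfsg.quadFormPlus m F)), Function.Injective φ := by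
  classical
  obtain ⟨k, rfl⟩ := hm.two_dvd
  refine CfsgLib.Orth.UnitaryEmb.exists_emb hK hF _ _ fun a b h => ?_
  obtain ⟨e, he⟩ := CfsgLib.Orth.UnitaryEmb.copies_even h k
  exact ⟨e, fun v => by rw [← CfsgLib.Orth.Models.plusQ_apply]; exact he v⟩

end Cfsg.Agent.S2640
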