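import Cfsg.Statements.S2642
import Mathlib
import Cfsg.Agent.S2570
import Cfsg.Agent.Lib.Unitary.Unipotent

set_option autoImplicit false
open Cfsg

namespace Cfsg.Agent.S2642

/-- Number of conjugacy classes of elements of order p in the general unitary group GU_n(q), q a power of p: every unipotent Jordan type occurs and the classes correspond to the partitions of n with all parts at most p other than the all-ones partition, exactly as in GL_n; so there are (number of partitions of n with parts ≤ p) − 1 classes. -/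
theorem result {K : Type*} [Field K] [Fintype K] {p q n : ℕ} [Fact p.Prime] [CharP K p] (hK : Fintype.card K = q ^ 2) : Nat.card {C : ConjClasses ↥(Cfsg.GU n K q) // ∃ g : ↥(Cfsg.GU n K q), ConjClasses.mk g = C ∧ orderOf g = p} = (Finset.univ.filter (fun μ : Nat.Partition n => ∀ a ∈ μ.parts, a ≤ p)).card - 1 := by
  classical
  rw [← Cfsg.Agent.S2570.result (F := K) (p := p) n]
  obtain ⟨κ, hκ, hκκ⟩ := CfsgLib.Unitary.FieldNorm.exists_conj hK
  have hp : p.Prime := Fact.out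
  let ι := (Cfsg.GU n K q).subtype
  let A := {C : ConjClasses ↥(Cfsg.GU n K q) // ∃ g : ↥(Cfsg.GU n K q), ConjClasses.mk g = C ∧ orderOf g = p}
  let B := {C : ConjClasses (GL (Fin n) K) // ∃ g : GL (Fin n) K, ConjClasses.mk g = C ∧ orderOf g = p}
  let f : A → B := fun C => ⟨ConjClasses.map ι C.1, by
    obtain ⟨g, hg, ho⟩ := C.2
    exact ⟨ι g, by rw [← hg]; rfl, by rw [orderOf_injective ι Subtype.val_injective g, ho]⟩⟩
  refine Nat.card_congr (Equiv.ofBijective f ⟨?_, ?_⟩)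
  · rintro ⟨C, g, rfl, hg⟩ ⟨D, h, rfl, hh⟩ e
    apply Subtype.ext
    have e1 : ConjClasses.mk (ι g) = ConjClasses.mk (ι h) := congrArg Subtype.val e
    obtain ⟨P, hP⟩ := isConj_iff.1 (ConjClasses.mk_eq_mk_iff_isConj.1 e1)
    obtain ⟨c, hc, hce⟩ := CfsgLib.Unitary.Conj.conj_in_GU hK hκ hκκ g.2 h.2 P hP
    exact ConjClasses.mk_eq_mk_iff_isConj.2 (isConj_iff.2 ⟨⟨c, hc⟩, Subtype.ext hce⟩)
  · rintro ⟨C, g, rfl, hg⟩
    have hnil : IsNilpotent ((g : Matrix (Fin n) (Fin n) K) - 1) := by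
      rcases Nat.eq_zero_or_pos n with rfl | hn
      · exact ⟨1, Subsingleton.elim _ _⟩
      haveI : NeZero n := ⟨by omega⟩
      refine ⟨p ^ 1, (CfsgLib.Unipotent.coe_sub_one_pow p g 1).2 ?_⟩
      rw [pow_one, ← hg, pow_orderOf_eq_one]
    obtain ⟨X, hX⟩ := CfsgLib.Unitary.Unipotent.exists_form κ g hnil
    obtain ⟨c, hc⟩ := CfsgLib.Unitary.Conj.exists_conj_mem hK hκ hκκ g X hX
    have ho : orderOf (⟨c * g * c⁻¹, hc⟩ : ↥(Cfsg.GU n K q)) = p := by
      rw [← orderOf_injective ι Subtype.val_injective ⟨c * g * c⁻¹, hc⟩]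
      show orderOf (c * g * c⁻¹) = p
      rw [← MulAut.conj_apply, MulEquiv.orderOf_eq, hg]
    refine ⟨⟨ConjClasses.mk ⟨c * g * c⁻¹, hc⟩, _, rfl, ho⟩, Subtype.ext ?_⟩
    show ConjClasses.mk (c * g * c⁻¹) = ConjClasses.mk g
    exact ConjClasses.mk_eq_mk_iff_isConj.2 (isConj_iff.2 ⟨c⁻¹, by simp [mul_assoc]⟩)

end Cfsg.Agent.S2642
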