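import Cfsg.Statements.S2643
import Mathlib
import Cfsg.Agent.Lib.Unitary.Unipotent
import Cfsg.Agent.Lib.Unipotent.RegularNormalForm

set_option autoImplicit false
open Cfsg

namespace Cfsg.Agent.S2643

/-- Regular unipotent classes of SU_n(q), n ≥ 2: the elements u of the special unitary group (isometries of Σ u_i v_i^q of determinant one over the field with q² elements) with (u − 1)^n = 0 and rank(u − 1) = n − 1 form exactly gcd(n, q + 1) conjugacy classes of SU_n(q). -/
theorem result {K : Type*} [Field K] [Fintype K] {q n : ℕ} (hK : Fintype.card K = q ^ 2) (hn : 2 ≤ n) : Nat.card {C : ConjClasses ↥(Cfsg.SU n K q) // ∃ u : ↥(Cfsg.SU n K q), ConjClasses.mk u = C ∧ (((u : GL (Fin n) K) : Matrix (Fin n) (Fin n) K) - 1) ^ n = 0 ∧ (((u : GL (Fin n) K) : Matrix (Fin n) (Fin n) K) - 1).rank = n - 1} = Nat.gcd n (q + 1) := by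
  classical
  haveI : NeZero n := ⟨by omega⟩
  obtain ⟨κ, hκ, hκκ⟩ := CfsgLib.Unitary.FieldNorm.exists_conj hK
  have hq2 := CfsgLib.Unitary.FieldNorm.two_le_q hK
  let J := CfsgLib.Unipotent.NilpotentCount.shift K n
  have hJnil : IsNilpotent J := CfsgLib.Unipotent.NilpotentCount.shift_nilpotent n
  have hJn : J ^ n = 0 := by simpa using CfsgLib.Unipotent.pow_card_eq_zero hJnil
  have hJr : J.rank = n - 1 := by
    have hle : J.rank ≤ n - 1 := by
      have hl := Matrix.rank_le_card_width J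
      rw [Fintype.card_fin] at hl
      by_contra hlt
      have : J.rank = n := by omega
      have hu : IsUnit J := by
        rw [← Matrix.mulVec_surjective_iff_isUnit]
        have htop : LinearMap.range J.mulVecLin = ⊤ := Submodule.eq_top_of_finrank_eq (by
          rw [Module.finrank_fin_fun]; exact this)
        exact LinearMap.range_eq_top.1 htop
      have h0 := hu.pow n
      rw [hJn] at h0
      exact not_isUnit_zero h0
    refine le_antisymm hle ?_
    let ι : Fin (n - 1) → (LinearMap.range J.mulVecLin) := fun k =>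
      ⟨Pi.single ⟨(k : ℕ) + 1, by omega⟩ 1, Pi.single ⟨(k : ℕ), by omega⟩ 1, by
        funext r
        rw [Matrix.mulVecLin_apply, Matrix.mulVec_single_one]
        simp only [J, CfsgLib.Unipotent.NilpotentCount.shift, Matrix.col_apply, Matrix.of_apply, Pi.single_apply, Fin.ext_iff]⟩
    have hli : LinearIndependent K ι := by
      apply LinearIndependent.of_comp (LinearMap.range J.mulVecLin).subtype
      have hc := (Pi.basisFun K (Fin n)).linearIndependent.comp
        (fun k : Fin (n - 1) => (⟨(k : ℕ) + 1, by omega⟩ : Fin n)) (fun a b h => Fin.ext (by simpa [Fin.ext_iff] using h))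
      have he : (LinearMap.range J.mulVecLin).subtype ∘ ι = ⇑(Pi.basisFun K (Fin n)) ∘ (fun k : Fin (n - 1) => (⟨(k : ℕ) + 1, by omega⟩ : Fin n)) := by
        funext k
        simp [ι, Pi.basisFun_apply]
      rw [he]
      exact hc
    have := hli.fintype_card_le_finrank
    simpa [Matrix.rank] using this
  let U : GL (Fin n) K := hJnil.isUnit_one_add.unit
  have hU : (U : Matrix (Fin n) (Fin n) K) = 1 + J := IsUnit.unit_spec _
  have hUdet : (U : Matrix (Fin n) (Fin n) K).det = 1 := by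
    rw [hU]
    have hl : ∀ r c : Fin n, r < c → (1 + J) r c = 0 := by
      intro r c hrc
      simp only [J, CfsgLib.Unipotent.NilpotentCount.shift, Matrix.add_apply, Matrix.of_apply,
        Matrix.one_apply_ne hrc.ne, zero_add]
      rw [if_neg (by rw [Fin.lt_def] at hrc; omega)]
    rw [Matrix.det_of_isLowerTriangular _ (fun r c hrc => hl r c hrc)]
    refine Finset.prod_eq_one fun i _ => ?_
    simp [J, CfsgLib.Unipotent.NilpotentCount.shift]
  obtain ⟨X, hX⟩ := CfsgLib.Unitary.Unipotent.exists_form κ U (by rw [hU, add_sub_cancel_left]; exact hJnil)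
  obtain ⟨c, hc⟩ := CfsgLib.Unitary.Conj.exists_conj_mem hK hκ hκκ U X hX
  set U0 := c * U * c⁻¹ with hU0
  have hGU := fun g => CfsgLib.Unitary.Conj.mem_GU (n := n) hK hκ g
  let μ : Subgroup Kˣ := (powMonoidHom (q + 1) : Kˣ →* Kˣ).ker
  have hμ : ∀ a : μ, κ ((a : Kˣ) : K) * ((a : Kˣ) : K) = 1 := by
    intro a
    rw [hκ, ← pow_succ]
    have := congrArg Units.val (show (a : Kˣ) ^ (q + 1) = 1 from a.2)
    simpa using this
  have hdetmem : ∀ g : GL (Fin n) K, g ∈ Cfsg.GU n K q → Matrix.GeneralLinearGroup.det g ∈ μ := by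
    intro g hg
    show Matrix.GeneralLinearGroup.det g ^ (q + 1) = 1
    refine Units.ext ?_
    rw [Units.val_pow_eq_pow_val, Units.val_one, pow_succ, ← hκ]
    have h1 := congrArg Matrix.det ((hGU g).1 hg)
    rw [Matrix.det_mul, CfsgLib.Unitary.Conj.det_adj, Matrix.det_one] at h1
    exact h1
  let D : μ → GL (Fin n) K := fun a => Matrix.GeneralLinearGroup.mkOfDetNeZero
    (Matrix.diagonal (Function.update (1 : Fin n → K) 0 ((a : Kˣ) : K)))
    (by rw [Matrix.det_diagonal, Finset.prod_update_of_mem (Finset.mem_univ _)]; simp)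
  have hD : ∀ a, Matrix.GeneralLinearGroup.det (D a) = (a : Kˣ) := by
    intro a
    refine Units.ext ?_
    show (Matrix.diagonal (Function.update (1 : Fin n → K) 0 ((a : Kˣ) : K))).det = _
    rw [Matrix.det_diagonal, Finset.prod_update_of_mem (Finset.mem_univ _)]
    simp
  have hDmem : ∀ a, D a ∈ Cfsg.GU n K q := by
    intro a
    rw [hGU]
    show CfsgLib.Unitary.Conj.adj κ (Matrix.diagonal _) * Matrix.diagonal _ = 1
    rw [CfsgLib.Unitary.Conj.adj, Matrix.diagonal_map (map_zero κ), Matrix.diagonal_transpose, Matrix.diagonal_mul_diagonal,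
      ← Matrix.diagonal_one]
    refine congrArg Matrix.diagonal (funext fun i => ?_)
    rcases eq_or_ne i 0 with rfl | hi
    · simp [hμ a]
    · simp [Function.update_of_ne hi]
  have hU0det : Matrix.GeneralLinearGroup.det U0 = 1 := by
    rw [hU0, map_mul, map_mul, mul_comm, map_inv, inv_mul_cancel_left]
    exact Units.ext hUdet
  let H := ↥(Cfsg.SU n K q)
  let ι : H →* GL (Fin n) K := Matrix.SpecialLinearGroup.toGL.comp (Cfsg.SU n K q).subtype
  have hι : Function.Injective ι := fun x y h => Subtype.ext (Subtype.ext (congrArg Units.val h))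
  have hιdet : ∀ x, Matrix.GeneralLinearGroup.det (ι x) = 1 := fun x => Units.ext x.1.2
  have hιmem : ∀ x, ι x ∈ Cfsg.GU n K q := fun x => x.2
  have hlift : ∀ g : GL (Fin n) K, g ∈ Cfsg.GU n K q → Matrix.GeneralLinearGroup.det g = 1 → ∃ x : H, ι x = g := by
    intro g hg hd
    let s : Matrix.SpecialLinearGroup (Fin n) K := ⟨(g : Matrix (Fin n) (Fin n) K), congrArg Units.val hd⟩
    exact ⟨⟨s, hg⟩, Units.ext rfl⟩
  have hSex : ∀ a : μ, ∃ x : H, ι x = D a * U0 * (D a)⁻¹ := fun a =>
    hlift _ (mul_mem (mul_mem (hDmem a) hc) (inv_mem (hDmem a))) (by rw [map_mul, map_mul, hU0det, mul_one, map_inv, mul_inv_cancel])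
  choose S hS using hSex
  let T := {C : ConjClasses H // ∃ u : H, ConjClasses.mk u = C ∧ ((ι u : Matrix (Fin n) (Fin n) K) - 1) ^ n = 0 ∧ ((ι u : Matrix (Fin n) (Fin n) K) - 1).rank = n - 1}
  have hconjsub : ∀ P : GL (Fin n) K, ((P * U * P⁻¹ : GL (Fin n) K) : Matrix (Fin n) (Fin n) K) - 1 = (P : Matrix (Fin n) (Fin n) K) * J * ((P⁻¹ : GL (Fin n) K) : Matrix (Fin n) (Fin n) K) := by
    intro P
    rw [Units.val_mul, Units.val_mul, hU, mul_add, mul_one, add_mul, Units.mul_inv, add_sub_cancel_left]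
  have hSc : ∀ a, ι (S a) = (D a * c) * U * (D a * c)⁻¹ := fun a => by rw [hS, hU0, mul_inv_rev]; simp only [mul_assoc]
  let Φ : μ → T := fun a => ⟨ConjClasses.mk (S a), S a, rfl, by
    rw [hSc, hconjsub, Units.conj_pow, hJn, mul_zero, zero_mul], by
    rw [hSc, hconjsub, Matrix.rank_mul_eq_left_of_isUnit_det _ _ ((Matrix.isUnit_iff_isUnit_det _).1 (D a * c)⁻¹.isUnit),
      Matrix.rank_mul_eq_right_of_isUnit_det _ _ ((Matrix.isUnit_iff_isUnit_det _).1 (D a * c).isUnit), hJr]⟩
  let R : Subgroup μ := (powMonoidHom n : μ →* μ).range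
  have hfib : ∀ a b : μ, Φ a = Φ b ↔ a⁻¹ * b ∈ R := by
    intro a b
    constructor
    · intro h
      obtain ⟨s, hs⟩ := isConj_iff.1 (ConjClasses.mk_eq_mk_iff_isConj.1 (congrArg Subtype.val h))
      have h1 : ι s * (D a * U0 * (D a)⁻¹) * (ι s)⁻¹ = D b * U0 * (D b)⁻¹ := by
        rw [← hS, ← hS, ← map_inv, ← map_mul, ← map_mul, hs]
      set Z := (D b)⁻¹ * ι s * D a with hZ
      have hZU : Z * U0 = U0 * Z := by
        calc Z * U0 = (D b)⁻¹ * (ι s * (D a * U0 * (D a)⁻¹) * (ι s)⁻¹) * (ι s * D a) := by simp [hZ, mul_assoc]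
          _ = U0 * Z := by rw [h1]; simp [hZ, mul_assoc]
      have hZmem : Z ∈ Cfsg.GU n K q := mul_mem (mul_mem (inv_mem (hDmem b)) (hιmem s)) (hDmem a)
      set W := c⁻¹ * Z * c with hW
      have hWU : W * U = U * W := by
        calc W * U = c⁻¹ * (Z * U0) * c := by simp [hW, hU0, mul_assoc]
          _ = U * W := by rw [hZU]; simp [hW, hU0, mul_assoc]
      clear_value W
      have hWJ : (W : Matrix (Fin n) (Fin n) K) * J = J * (W : Matrix (Fin n) (Fin n) K) := by
        have := congrArg Units.val hWU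
        rwa [Units.val_mul, Units.val_mul, hU, mul_add, add_mul, mul_one, one_mul, add_right_inj] at this
      set z := (W : Matrix (Fin n) (Fin n) K) 0 0 with hz
      have hdetW := CfsgLib.Unipotent.RegularNormalForm.det_of_commute_shift _ hWJ
      rw [← hz] at hdetW
      have hz0 : z ≠ 0 := by
        intro h0
        rw [h0, zero_pow (NeZero.ne n)] at hdetW
        exact ((Matrix.isUnit_iff_isUnit_det _).1 W.isUnit).ne_zero hdetW
      have hev : ∀ t : K, ((Z : Matrix (Fin n) (Fin n) K) - Matrix.scalar (Fin n) t).det = (z - t) ^ n := by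
        intro t
        have hsc : ∀ A : Matrix (Fin n) (Fin n) K, Commute (Matrix.scalar (Fin n) t) A := fun A => Matrix.scalar_commute t (fun _ => Commute.all _ _) A
        have e1 : ((Z : Matrix (Fin n) (Fin n) K) - Matrix.scalar (Fin n) t) = (c : Matrix (Fin n) (Fin n) K) *
            ((W : Matrix (Fin n) (Fin n) K) - Matrix.scalar (Fin n) t) * ((c⁻¹ : GL (Fin n) K) : Matrix (Fin n) (Fin n) K) := by
          rw [mul_sub, sub_mul, ← (hsc (c : Matrix (Fin n) (Fin n) K)).eq, mul_assoc (Matrix.scalar (Fin n) t), Units.mul_inv, mul_one,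
            ← Units.val_mul, ← Units.val_mul]
          simp [hW, mul_assoc]
        rw [e1, Matrix.det_units_conj, CfsgLib.Unipotent.RegularNormalForm.det_of_commute_shift _
          (by rw [sub_mul, mul_sub, hWJ, (hsc J).eq]), Matrix.sub_apply, Matrix.scalar_apply, Matrix.diagonal_apply_eq]
      have hzz : κ z * z = 1 := by
        have h0 : ((Z : Matrix (Fin n) (Fin n) K) - Matrix.scalar (Fin n) z).det = 0 := by
          rw [hev, sub_self, zero_pow (NeZero.ne n)]
        -- transfer the eigenvalue through the adjoint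
        have hZa : CfsgLib.Unitary.Conj.adj κ (Z : Matrix (Fin n) (Fin n) K) = ((Z⁻¹ : GL (Fin n) K) : Matrix (Fin n) (Fin n) K) := by
          calc CfsgLib.Unitary.Conj.adj κ (Z : Matrix (Fin n) (Fin n) K)
              = CfsgLib.Unitary.Conj.adj κ (Z : Matrix (Fin n) (Fin n) K) * (Z : Matrix (Fin n) (Fin n) K) * ((Z⁻¹ : GL (Fin n) K) : Matrix (Fin n) (Fin n) K) := by
                rw [mul_assoc, Units.mul_inv, mul_one]
            _ = _ := by rw [(hGU Z).1 hZmem, one_mul]
        have h2 : (((Z⁻¹ : GL (Fin n) K) : Matrix (Fin n) (Fin n) K) - Matrix.scalar (Fin n) z⁻¹).det = 0 := by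
          have e : ((Z⁻¹ : GL (Fin n) K) : Matrix (Fin n) (Fin n) K) - Matrix.scalar (Fin n) z⁻¹
              = -(((Z⁻¹ : GL (Fin n) K) : Matrix (Fin n) (Fin n) K) * Matrix.scalar (Fin n) z⁻¹ * ((Z : Matrix (Fin n) (Fin n) K) - Matrix.scalar (Fin n) z)) := by
            rw [mul_sub, mul_assoc _ (Matrix.scalar (Fin n) z⁻¹) (Matrix.scalar (Fin n) z), ← map_mul, inv_mul_cancel₀ hz0, map_one, mul_one,
              ← (Matrix.scalar_commute z⁻¹ (fun _ => Commute.all _ _) ((Z⁻¹ : GL (Fin n) K) : Matrix (Fin n) (Fin n) K)).eq, mul_assoc, Units.inv_mul, mul_one, neg_sub]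
          rw [e, Matrix.det_neg, Matrix.det_mul, h0, mul_zero, mul_zero]
        have e3 : CfsgLib.Unitary.Conj.adj κ ((Z : Matrix (Fin n) (Fin n) K) - Matrix.scalar (Fin n) (κ z⁻¹))
            = ((Z⁻¹ : GL (Fin n) K) : Matrix (Fin n) (Fin n) K) - Matrix.scalar (Fin n) z⁻¹ := by
          rw [CfsgLib.Unitary.Conj.adj_sub, hZa]
          congr 1
          simp only [CfsgLib.Unitary.Conj.adj, Matrix.scalar_apply, Matrix.diagonal_map (map_zero κ), Matrix.diagonal_transpose, hκκ]
        rw [← e3, CfsgLib.Unitary.Conj.det_adj, hev] at h2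
        have h3 : z = κ z⁻¹ := sub_eq_zero.1 (eq_zero_of_pow_eq_zero (κ.injective (h2.trans (map_zero κ).symm)))
        calc κ z * z = κ z * κ z⁻¹ := by rw [← h3]
          _ = 1 := by rw [← map_mul, mul_inv_cancel₀ hz0, map_one]
      let zμ : μ := ⟨Units.mk0 z hz0, Units.ext (by
        show ((Units.mk0 z hz0) ^ (q + 1) : Kˣ) = (1 : K)
        rw [Units.val_pow_eq_pow_val, Units.val_mk0, pow_succ, ← hκ, hzz])⟩
      refine ⟨zμ⁻¹, Subtype.ext ?_⟩
      have hdz : Matrix.GeneralLinearGroup.det Z = (zμ : Kˣ) ^ n := by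
        have : Matrix.GeneralLinearGroup.det W = Matrix.GeneralLinearGroup.det Z := by
          rw [hW, map_mul, map_mul, map_inv, mul_comm, mul_inv_cancel_left]
        rw [← this]
        exact Units.ext (by rw [Units.val_pow_eq_pow_val]; exact hdetW)
      have hdz' : Matrix.GeneralLinearGroup.det Z = (b : Kˣ)⁻¹ * a := by
        rw [hZ, map_mul, map_mul, hιdet, mul_one, map_inv, hD, hD]
      simp only [powMonoidHom_apply, SubmonoidClass.coe_pow, InvMemClass.coe_inv, Subgroup.coe_mul, inv_pow]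
      rw [← hdz, hdz', mul_inv_rev, inv_inv]
    · rintro ⟨z, hz⟩
      simp only [powMonoidHom_apply] at hz
      let Zc : GL (Fin n) K := Units.map (Matrix.scalar (Fin n)).toMonoidHom ((z⁻¹ : μ) : Kˣ)
      have hZc : ∀ g, Zc * g = g * Zc := fun g =>
        Units.ext (Matrix.scalar_commute _ (fun _ => Commute.all _ _) (g : Matrix (Fin n) (Fin n) K)).eq
      have hZmem : Zc ∈ Cfsg.GU n K q := by
        rw [hGU]
        show CfsgLib.Unitary.Conj.adj κ (Matrix.scalar (Fin n) (((z⁻¹ : μ) : Kˣ) : K)) * Matrix.scalar (Fin n) _ = 1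
        simp only [CfsgLib.Unitary.Conj.adj, Matrix.scalar_apply, Matrix.diagonal_map (map_zero κ), Matrix.diagonal_transpose,
          Matrix.diagonal_mul_diagonal, hμ, Matrix.diagonal_one]
      let g := D b * Zc * (D a)⁻¹
      have hg : Matrix.GeneralLinearGroup.det g = 1 := by
        have h1 : Matrix.GeneralLinearGroup.det Zc = ((z⁻¹ : μ) : Kˣ) ^ n := by
          refine Units.ext ?_
          show (Matrix.scalar (Fin n) (((z⁻¹ : μ) : Kˣ) : K)).det = _
          rw [Matrix.scalar_apply, Matrix.det_diagonal, Finset.prod_const, Finset.card_univ, Fintype.card_fin, Units.val_pow_eq_pow_val]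
        have h2 : ((z⁻¹ : μ) : Kˣ) ^ n = (b : Kˣ)⁻¹ * a := by
          have := congrArg (fun w : μ => ((w⁻¹ : μ) : Kˣ)) hz
          simpa [mul_comm] using this
        rw [map_mul, map_mul, map_inv, hD, hD, h1, h2, mul_inv_cancel_left, mul_inv_cancel]
      obtain ⟨s, hs⟩ := hlift g (mul_mem (mul_mem (hDmem b) hZmem) (inv_mem (hDmem a))) hg
      refine Subtype.ext (ConjClasses.mk_eq_mk_iff_isConj.2 (isConj_iff.2 ⟨s, hι ?_⟩))
      rw [map_mul, map_mul, map_inv, hs, hS, hS]
      calc g * (D a * U0 * (D a)⁻¹) * g⁻¹ = D b * (Zc * U0) * (Zc⁻¹ * (D b)⁻¹) := by simp [g, mul_assoc]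
        _ = D b * U0 * (D b)⁻¹ := by rw [hZc]; simp [mul_assoc]
  have hsurj : Function.Surjective Φ := by
    rintro ⟨C, u, rfl, hu1, hu2⟩
    obtain ⟨P, hP⟩ := CfsgLib.Unipotent.RegularNormalForm.exists_conj _ hu1 hu2
    have hu : ι u = P * U * P⁻¹ := by
      refine Units.ext (sub_left_injective (b := (1 : Matrix (Fin n) (Fin n) K)) ?_)
      show (ι u : Matrix (Fin n) (Fin n) K) - 1 = ((P * U * P⁻¹ : GL (Fin n) K) : Matrix (Fin n) (Fin n) K) - 1
      rw [hconjsub, ← hP]
      simp
    obtain ⟨G, hG, hGe⟩ := CfsgLib.Unitary.Conj.conj_in_GU hK hκ hκκ hc (hιmem u) (P * c⁻¹) (by rw [hu, hU0]; simp [mul_assoc])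
    let a : μ := ⟨Matrix.GeneralLinearGroup.det G, hdetmem G hG⟩
    obtain ⟨s, hs⟩ := hlift (G * (D a)⁻¹) (mul_mem hG (inv_mem (hDmem a))) (by rw [map_mul, map_inv, hD, mul_inv_cancel])
    refine ⟨a, Subtype.ext (ConjClasses.mk_eq_mk_iff_isConj.2 (isConj_iff.2 ⟨s, hι ?_⟩))⟩
    rw [map_mul, map_mul, map_inv, hs, hS, ← hGe]
    simp [mul_assoc]
  let Ψ : μ ⧸ R → T := Quotient.lift Φ (fun a b h => (hfib a b).2 (QuotientGroup.leftRel_apply.1 h))
  have hbij : Function.Bijective Ψ := by
    constructor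
    · intro x y hxy
      induction x using QuotientGroup.induction_on with
      | _ a =>
        induction y using QuotientGroup.induction_on with
        | _ b => exact QuotientGroup.eq.2 ((hfib a b).1 hxy)
    · intro t
      obtain ⟨a, ha⟩ := hsurj t
      exact ⟨a, ha⟩
  show Nat.card T = _
  have hμcard : Nat.card μ = q + 1 := by
    rw [IsCyclic.card_powMonoidHom_ker, CfsgLib.Unitary.FieldNorm.card_units_sq hK]
    exact Nat.gcd_eq_right (dvd_mul_right _ _)
  rw [← Nat.card_congr (Equiv.ofBijective Ψ hbij), ← Subgroup.index_eq_card, IsCyclic.index_powMonoidHom_range,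
    hμcard, Nat.gcd_comm]

end Cfsg.Agent.S2643
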