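import Cfsg.Statements.S2665
import Cfsg.Agent.Lib.Linear.SemilinearFixed
import Mathlib

set_option autoImplicit false
open scoped MatrixGroups
open Cfsg

namespace Cfsg.Agent.S2665

/-- The Lang–Steinberg Theorem for the general linear group. Let `K` be an algebraically closed field of prime characteristic `p`, let `q = p^f` with `f ≥ 1`, and let `σ` be the endomorphism of GL_n(K) raising every matrix entry to the `q`-th power. Then every element `g` of GL_n(K) can be written `g = x · σ(x)⁻¹` for some `x` in GL_n(K): the map `x ↦ x σ(x)⁻¹` is surjective. -/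
theorem result {K : Type*} [Field K] [IsAlgClosed K] (p : ℕ) [Fact p.Prime] [CharP K p]
    (f : ℕ) (hf : 1 ≤ f) (n : ℕ) (g : GL (Fin n) K) :
    ∃ x : GL (Fin n) K, g = x * (Matrix.GeneralLinearGroup.map (iterateFrobenius K p f) x)⁻¹ := by
  classical
  have hp := (Fact.out : p.Prime)
  have hq : 2 ≤ p ^ f := le_trans hp.two_le (Nat.le_self_pow (by omega) p)
  let σ := iterateFrobenius K p f
  have hσ : ∀ x, σ x = x ^ p ^ f := fun x => rfl
  let Φ : (Fin n → K) →+ (Fin n → K) := AddMonoidHom.mk' (fun v => (g : Matrix (Fin n) (Fin n) K).mulVec (fun i => σ (v i)))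
    fun v w => by rw [← Matrix.mulVec_add]; congr 1; funext i; simp [map_add]
  have hΦ : ∀ (c : K) v, Φ (c • v) = c ^ p ^ f • Φ v := fun c v => by
    show (g : Matrix (Fin n) (Fin n) K).mulVec _ = _
    rw [show (fun i => σ ((c • v) i)) = c ^ p ^ f • fun i => σ (v i) from funext fun i => by simp [← hσ],
      Matrix.mulVec_smul]
    rfl
  have hinj : Function.Injective Φ := fun v w h => by
    have hu : IsUnit (g : Matrix (Fin n) (Fin n) K) := g.isUnit
    have h' := (Matrix.mulVec_injective_iff_isUnit.2 hu) h
    exact funext fun i => σ.injective (congrFun h' i)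
  have hspan := CfsgLib.Linear.SemilinearFixed.span_fixed hq
    (fun x y => by rw [← hσ, ← hσ, ← hσ, map_add]) Φ hΦ hinj
  let b := Module.Basis.ofSpan (ge_of_eq hspan)
  have hfix : ∀ i, Φ (b i) = b i := fun i => Module.Basis.ofSpan_subset (ge_of_eq hspan) ⟨i, rfl⟩
  let e : _ ≃ Fin n := b.indexEquiv (Pi.basisFun K (Fin n))
  let b' := b.reindex e
  let M : Matrix (Fin n) (Fin n) K := Matrix.of fun i j => b' j i
  have hM : IsUnit M := by
    rw [← Matrix.linearIndependent_cols_iff_isUnit]
    exact b'.linearIndependent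
  refine ⟨hM.unit, eq_mul_inv_of_mul_eq (Units.ext ?_)⟩
  ext i j
  show ((g : Matrix (Fin n) (Fin n) K) * M.map σ) i j = M i j
  have h := congrFun (hfix (e.symm j)) i
  rw [show b (e.symm j) = b' j from (b.reindex_apply e j).symm] at h
  exact h

end Cfsg.Agent.S2665
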