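import Cfsg.Statements.S2669
import Cfsg.Agent.Lib.Shintani.Basic

set_option autoImplicit false
open Cfsg

namespace Cfsg.Agent.S2669

/-- Shintani descent preserves numbers of fixed points on coset spaces (abstract form). Let `σ` be an automorphism of a group `X` and `e ≥ 1`; write `G` for the fixed points of `σᵉ` and `H` for the fixed points of `σ`, and assume `G` is finite. Let `Y` be a `σ`-stable subgroup of `X` on which the maps `a ↦ a σ(a)⁻¹` and `a ↦ a σᵉ(a)⁻¹` are surjective (as for a closed connected `σ`-stable subgroup of an algebraic group). Let `g ∈ G`, let `a ∈ X` satisfy `g = a σ(a)⁻¹` and put `x = σᵉ(a)⁻¹ a` (the Shintani image, an element of `H`). The element `g σ` of the semidirect product acts on the cosets of `Y ∩ G` in `G` by `k (Y ∩ G) ↦ g σ(k) (Y ∩ G)`, fixing that coset exactly when `k⁻¹ g σ(k) ∈ Y`; and `x` fixes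 the coset `h (Y ∩ H)` of `H` exactly when `h⁻¹ x h ∈ Y`. Then the two numbers of fixed cosets agree; in cross-multiplied form, `#{k ∈ G : k⁻¹ g σ(k) ∈ Y} · |Y ∩ H| = #{h ∈ H : h⁻¹ x h ∈ Y} · |Y ∩ G|`. -/
theorem result {X : Type*} [Group X] (σ : MulAut X) (e : ℕ) (he : 1 ≤ e)
    [Finite ↥((MulEquiv.toMonoidHom (σ ^ e)).eqLocus (MonoidHom.id X))]
    (Y : Subgroup X) (hY : ∀ y : X, y ∈ Y ↔ σ y ∈ Y)
    (hYL : ∀ y ∈ Y, ∃ a ∈ Y, y = a * (σ a)⁻¹) (hYLe : ∀ y ∈ Y, ∃ a ∈ Y, y = a * ((σ ^ e) a)⁻¹)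
    (g : X) (hg : g ∈ (MulEquiv.toMonoidHom (σ ^ e)).eqLocus (MonoidHom.id X)) (a : X) (ha : g = a * (σ a)⁻¹) :
    Nat.card {k : ↥((MulEquiv.toMonoidHom (σ ^ e)).eqLocus (MonoidHom.id X)) // (k : X)⁻¹ * g * σ k ∈ Y} *
        Nat.card ↥(Y ⊓ (MulEquiv.toMonoidHom σ).eqLocus (MonoidHom.id X)) =
      Nat.card {h : ↥((MulEquiv.toMonoidHom σ).eqLocus (MonoidHom.id X)) // (h : X)⁻¹ * (((σ ^ e) a)⁻¹ * a) * h ∈ Y} *
        Nat.card ↥(Y ⊓ (MulEquiv.toMonoidHom (σ ^ e)).eqLocus (MonoidHom.id X)) := by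
  classical
  simp only [CfsgLib.Shintani.mem_fix] at hg
  set G := (MulEquiv.toMonoidHom (σ ^ e)).eqLocus (MonoidHom.id X) with hG
  set H := (MulEquiv.toMonoidHom σ).eqLocus (MonoidHom.id X) with hH
  let T := {p : X × X // p.1 ∈ G ∧ p.2 ∈ Y ∧ a⁻¹ * p.1 * p.2 ∈ H}
  have hGmem : ∀ z, z ∈ G ↔ (σ ^ e) z = z := fun z => Iff.rfl
  have hHmem : ∀ z, z ∈ H ↔ σ z = z := fun z => Iff.rfl
  have hA : ∀ k : X, ∀ y ∈ Y, a⁻¹ * k * y ∈ H → k⁻¹ * g * σ k ∈ Y := by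
    intro k y hy hh
    rw [hHmem, map_mul, map_mul, map_inv] at hh
    have h1 : k⁻¹ * g * σ k = y * (σ y)⁻¹ := by
      rw [ha]
      calc k⁻¹ * (a * (σ a)⁻¹) * σ k = k⁻¹ * a * ((σ a)⁻¹ * σ k * σ y) * (σ y)⁻¹ := by group
        _ = k⁻¹ * a * (a⁻¹ * k * y) * (σ y)⁻¹ := by rw [hh]
        _ = y * (σ y)⁻¹ := by group
    rw [h1]
    exact mul_mem hy (inv_mem ((hY y).mp hy))
  have hYe : ∀ n : ℕ, ∀ y ∈ Y, (σ ^ n) y ∈ Y := by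
    intro n
    induction n with
    | zero => simp
    | succ n ih =>
      intro y hy
      rw [CfsgLib.Shintani.pow_apply_succ]
      exact (hY _).mp (ih y hy)
  have hB : ∀ k y : X, k ∈ G → y ∈ Y → a⁻¹ * k * y ∈ H →
      (a⁻¹ * k * y)⁻¹ * (((σ ^ e) a)⁻¹ * a) * (a⁻¹ * k * y) ∈ Y := by
    intro k y hk hy hh
    have h2 := CfsgLib.Shintani.pow_fix σ ((hHmem _).mp hh) e
    rw [map_mul, map_mul, map_inv, (hGmem k).mp hk] at h2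
    have h1 : (a⁻¹ * k * y)⁻¹ * (((σ ^ e) a)⁻¹ * a) * (a⁻¹ * k * y) = ((σ ^ e) y)⁻¹ * y := by
      conv_lhs => arg 1; arg 1; rw [← h2]
      group
    rw [h1]
    exact mul_mem (inv_mem (hYe e y hy)) hy
  have hy0 : ∀ k : {k : G // (k : X)⁻¹ * g * σ k ∈ Y}, ∃ y ∈ Y, a⁻¹ * k.1.1 * y ∈ H := by
    rintro ⟨⟨k, hk⟩, hkY⟩
    obtain ⟨y, hy, hyk⟩ := hYL _ hkY
    refine ⟨y, hy, ?_⟩
    rw [hHmem, map_mul, map_mul, map_inv]
    have h1 : σ y = (σ k)⁻¹ * g⁻¹ * k * y := by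
      rw [show (σ k)⁻¹ * g⁻¹ * k = (k⁻¹ * g * σ k)⁻¹ by group]
      simp only at hyk
      rw [hyk]
      group
    rw [h1]
    show (σ a)⁻¹ * σ k * ((σ k)⁻¹ * g⁻¹ * k * y) = a⁻¹ * k * y
    rw [ha]
    group
  choose y₀ hy₀Y hy₀H using hy0
  have hz0 : ∀ h : {h : H // (h : X)⁻¹ * (((σ ^ e) a)⁻¹ * a) * h ∈ Y},
      ∃ y ∈ Y, a * h.1.1 * y⁻¹ ∈ G := by
    rintro ⟨⟨h, hh⟩, hhY⟩
    obtain ⟨c, hc, hck⟩ := hYLe _ (inv_mem hhY)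
    refine ⟨c⁻¹, inv_mem hc, ?_⟩
    rw [hGmem, inv_inv, map_mul, map_mul, CfsgLib.Shintani.pow_fix σ ((hHmem h).mp hh) e]
    have h1 : (σ ^ e) c = (h⁻¹ * (((σ ^ e) a)⁻¹ * a) * h) * c := by
      simp only at hck
      rw [inv_eq_iff_eq_inv] at hck
      rw [hck]
      group
    rw [h1]
    group
  choose z₀ hz₀Y hz₀G using hz0
  let e₁ : T ≃ {k : G // (k : X)⁻¹ * g * σ k ∈ Y} × ↥(Y ⊓ H) :=
    { toFun := fun p => (⟨⟨p.1.1, p.2.1⟩, hA _ _ p.2.2.1 p.2.2.2⟩,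
        ⟨(y₀ ⟨⟨p.1.1, p.2.1⟩, hA _ _ p.2.2.1 p.2.2.2⟩)⁻¹ * p.1.2,
          Y.mul_mem (Y.inv_mem (hy₀Y _)) p.2.2.1, by
          have h3 := H.mul_mem (H.inv_mem (hy₀H ⟨⟨p.1.1, p.2.1⟩, hA _ _ p.2.2.1 p.2.2.2⟩)) p.2.2.2
          rwa [show ∀ u v w : X, (u * v * w)⁻¹ * (u * v * p.1.2) = w⁻¹ * p.1.2 from
            fun u v w => by group] at h3⟩)
      invFun := fun q => ⟨(q.1.1.1, y₀ q.1 * q.2.1), q.1.1.2, mul_mem (hy₀Y _) q.2.2.1, by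
        rw [show a⁻¹ * q.1.1.1 * (y₀ q.1 * q.2.1) = (a⁻¹ * q.1.1.1 * y₀ q.1) * q.2.1 by group]
        exact mul_mem (hy₀H _) q.2.2.2⟩
      left_inv := fun p => by
        apply Subtype.ext
        simp
      right_inv := fun q => by
        refine Prod.ext rfl (Subtype.ext ?_)
        simp }
  let e₂ : T ≃ {h : H // (h : X)⁻¹ * (((σ ^ e) a)⁻¹ * a) * h ∈ Y} × ↥(Y ⊓ G) :=
    { toFun := fun p => (⟨⟨_, p.2.2.2⟩, hB _ _ p.2.1 p.2.2.1 p.2.2.2⟩,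
        ⟨p.1.2 * (z₀ ⟨⟨_, p.2.2.2⟩, hB _ _ p.2.1 p.2.2.1 p.2.2.2⟩)⁻¹,
          Y.mul_mem p.2.2.1 (Y.inv_mem (hz₀Y _)), by
          have h3 := G.mul_mem (G.inv_mem p.2.1) (hz₀G ⟨⟨_, p.2.2.2⟩, hB _ _ p.2.1 p.2.2.1 p.2.2.2⟩)
          rwa [show ∀ w : X, p.1.1⁻¹ * (a * (a⁻¹ * p.1.1 * p.1.2) * w⁻¹) = p.1.2 * w⁻¹ from
            fun w => by group] at h3⟩)
      invFun := fun q => ⟨(a * q.1.1.1 * (z₀ q.1)⁻¹ * q.2.1⁻¹, q.2.1 * z₀ q.1),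
        mul_mem (hz₀G _) (inv_mem q.2.2.2), mul_mem q.2.2.1 (hz₀Y _), by
        rw [show a⁻¹ * (a * q.1.1.1 * (z₀ q.1)⁻¹ * q.2.1⁻¹) * (q.2.1 * z₀ q.1) = q.1.1.1 by group]
        exact q.1.1.2⟩
      left_inv := fun p => by
        apply Subtype.ext
        ext <;> simp <;> group
      right_inv := fun q => by
        have h1 : ∀ z : {h : H // (h : X)⁻¹ * (((σ ^ e) a)⁻¹ * a) * h ∈ Y},
            (z.1 : X) = a⁻¹ * (a * q.1.1.1 * (z₀ q.1)⁻¹ * q.2.1⁻¹) * (q.2.1 * z₀ q.1) → z = q.1 :=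
          fun z hz => Subtype.ext (Subtype.ext (by rw [hz]; group))
        have h2 : ∀ z : {h : H // (h : X)⁻¹ * (((σ ^ e) a)⁻¹ * a) * h ∈ Y},
            (z.1 : X) = a⁻¹ * (a * q.1.1.1 * (z₀ q.1)⁻¹ * q.2.1⁻¹) * (q.2.1 * z₀ q.1) →
              q.2.1 * z₀ q.1 * (z₀ z)⁻¹ = q.2.1 :=
          fun z hz => by rw [h1 z hz, mul_inv_cancel_right]
        exact Prod.ext (h1 _ rfl) (Subtype.ext (h2 _ rfl)) }
  rw [← Nat.card_prod, ← Nat.card_prod]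
  exact Nat.card_congr (e₁.symm.trans e₂)

end Cfsg.Agent.S2669
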