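import Cfsg.Statements.S2671
import Mathlib
import Cfsg.Agent.S2568
import Cfsg.Agent.S2670
import Cfsg.Agent.Lib.Unitary.Conj
import Cfsg.Agent.Lib.Semisimple.CharpolyConj

set_option autoImplicit false
open Cfsg

namespace Cfsg.Agent.S2671


open Polynomial

open Classical in
/-- The minimal polynomial of the `m`-th power of a root. -/
noncomputable def dual {K : Type*} [Field K] (m : ℕ) (φ : K[X]) : K[X] :=
  if h : Irreducible φ then (haveI := Fact.mk h; minpoly K ((AdjoinRoot.root φ) ^ m)) else φ

theorem dual_eq {K : Type*} [Field K] (m : ℕ) {φ : K[X]} (hirr : Irreducible φ) {L : Type*} [Field L] [Algebra K L]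
    (y : L) (hy : aeval y φ = 0) : dual m φ = minpoly K (y ^ m) := by
  classical
  haveI := Fact.mk hirr
  rw [dual, dif_pos hirr]
  let f : AdjoinRoot φ →ₐ[K] L := AdjoinRoot.liftAlgHom φ (Algebra.ofId K L) y hy
  have hf : f (AdjoinRoot.root φ) = y := AdjoinRoot.lift_root hy
  rw [← hf, ← map_pow, minpoly.algHom_eq f f.toRingHom.injective]

theorem dual_X_sub_one {K : Type*} [Field K] (m : ℕ) : dual m (X - 1 : K[X]) = X - 1 := by
  rw [dual_eq m (by simpa using irreducible_X_sub_C (1 : K)) (1 : K) (by simp), one_pow, minpoly.one]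

/-- Block realisation of a multiset of factors together with the twisted polynomial. -/
theorem realizeDual {K : Type*} [Field K] [Fintype K] {p q r : ℕ} [Fact p.Prime] [CharP K p] (κ : K →+* K)
    (hκ : ∀ x, κ x = x ^ q) (hqp : ∃ e, q = p ^ e) (hr : r.Prime) (hrp : r ≠ p) (hcop : ¬ r ∣ q) (s : Multiset K[X])
    (hs : ∀ φ ∈ s, φ.Monic ∧ Irreducible φ ∧ φ ∣ X ^ r - 1) :
    ∀ N : ℕ, (s.map natDegree).sum = N → ∃ A : Matrix (Fin N) (Fin N) K, A ^ r = 1 ∧ A.charpoly = s.prod ∧
      ((A ^ (r - 1)).map κ).transpose.charpoly = (s.map (dual ((r - 1) * q))).prod := by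
  classical
  induction s using Multiset.induction with
  | empty =>
    intro N hN
    simp only [Multiset.map_zero, Multiset.sum_zero] at hN
    subst hN
    exact ⟨0, Subsingleton.elim _ _, by rw [Multiset.prod_zero, Matrix.charpoly, Matrix.det_isEmpty],
      by rw [Multiset.map_zero, Multiset.prod_zero, Matrix.charpoly, Matrix.det_isEmpty]⟩
  | cons φ s ih =>
    intro N hN
    obtain ⟨hmon, hirr, hdvd⟩ := hs φ (Multiset.mem_cons_self _ _)
    obtain ⟨B, hB, hBc, hBd⟩ := ih (fun ψ h => hs ψ (Multiset.mem_cons_of_mem h)) _ rfl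
    rw [Multiset.map_cons, Multiset.sum_cons] at hN
    haveI := Fact.mk hirr
    let pb := AdjoinRoot.powerBasis hmon.ne_zero
    let A := Algebra.leftMulMatrix pb.basis pb.gen
    have h1 : (AdjoinRoot.root φ) ^ r = 1 := by
      have h2 := AdjoinRoot.mk_eq_zero.2 hdvd
      exact sub_eq_zero.1 (by simpa using h2)
    have hA : A ^ r = 1 := by
      rw [← map_pow, show pb.gen = AdjoinRoot.root φ from AdjoinRoot.powerBasis_gen _, h1, map_one]
    have hAc : A.charpoly = φ := by
      rw [charpoly_leftMulMatrix]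
      exact AdjoinRoot.minpoly_powerBasis_gen_of_monic hmon
    have hdim : pb.dim = φ.natDegree := AdjoinRoot.powerBasis_dim _
    have hAd : ((A ^ (r - 1)).map κ).transpose.charpoly = dual ((r - 1) * q) φ := by
      rw [Matrix.charpoly_transpose, Matrix.charpoly_map]
      set w := (AdjoinRoot.root φ) ^ (r - 1) with hw
      have hAw : A ^ (r - 1) = Algebra.leftMulMatrix pb.basis w := by
        rw [← map_pow, show pb.gen = AdjoinRoot.root φ from AdjoinRoot.powerBasis_gen _]
      rw [hAw]
      set χ := (Algebra.leftMulMatrix pb.basis w).charpoly with hχ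
      have hχw : aeval w χ = 0 := by
        apply Algebra.leftMulMatrix_injective pb.basis
        rw [← aeval_algHom_apply, map_zero, hχ, Matrix.aeval_self_charpoly]
      have hχd : χ.natDegree = φ.natDegree := by
        rw [hχ, Matrix.charpoly_natDegree_eq_dim, Fintype.card_fin, hdim]
      obtain ⟨e, he⟩ := hqp
      haveI : CharP (AdjoinRoot φ) p := charP_of_injective_algebraMap (algebraMap K (AdjoinRoot φ)).injective p
      have heval : aeval (w ^ q) (χ.map κ) = 0 := by
        have hF : (w ^ q) = iterateFrobenius (AdjoinRoot φ) p e w := by rw [he]; rfl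
        have hcomp : ((algebraMap K (AdjoinRoot φ)).comp κ) = (iterateFrobenius (AdjoinRoot φ) p e).comp (algebraMap K (AdjoinRoot φ)) := by
          refine RingHom.ext fun x => ?_
          show algebraMap K (AdjoinRoot φ) (κ x) = (algebraMap K (AdjoinRoot φ) x) ^ p ^ e
          rw [hκ, map_pow, he]
        rw [aeval_def, eval₂_map, hF, hcomp, ← hom_eval₂, ← aeval_def, hχw, map_zero]
      rw [dual, dif_pos hirr, pow_mul, ← hw]
      haveI : Module.Finite K (AdjoinRoot φ) := pb.finite
      have hint : IsIntegral K (w ^ q) := IsIntegral.of_finite K (w ^ q)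
      refine eq_of_monic_of_associated ((Matrix.charpoly_monic _).map κ) (minpoly.monic hint) ?_
      have hdv := minpoly.dvd K _ heval
      refine Associated.symm (associated_of_dvd_of_natDegree_le hdv ((Matrix.charpoly_monic _).map κ).ne_zero ?_)
      rw [natDegree_map, hχd]
      by_cases hφ1 : φ = X - 1
      · rw [show φ.natDegree = 1 by rw [hφ1]; simpa using natDegree_X_sub_C (1 : K)]
        exact minpoly.natDegree_pos hint
      · have hz1 : AdjoinRoot.root φ ≠ 1 := by
          intro h
          apply hφ1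
          have h3 : φ ∣ X - 1 := AdjoinRoot.mk_eq_zero.1 (by simpa using sub_eq_zero.2 h)
          exact eq_of_monic_of_associated hmon (by simpa using monic_X_sub_C (1 : K))
            (hirr.associated_of_dvd (by simpa using irreducible_X_sub_C (1 : K)) h3)
        have hord : orderOf (AdjoinRoot.root φ) = r := haveI := Fact.mk hr; orderOf_eq_prime h1 hz1
        have hwq : (w ^ q) ^ r = 1 := by rw [hw, pow_right_comm, pow_right_comm _ (r - 1) r, h1, one_pow, one_pow]
        have hwq1 : w ^ q ≠ 1 := by
          rw [hw, ← pow_mul, ← hord]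
          intro h
          have h5 := orderOf_dvd_of_pow_eq_one h
          rw [hord] at h5
          rcases hr.dvd_mul.1 h5 with h6 | h6
          · have := hr.two_le; have := Nat.le_of_dvd (by omega) h6; omega
          · exact hcop h6
        have hmi := minpoly.irreducible hint
        have hmd : minpoly K (w ^ q) ∣ X ^ r - 1 := minpoly.dvd K _ (by simp [hwq])
        have hne : minpoly K (w ^ q) ≠ X - 1 := by
          intro h
          have h4 := minpoly.aeval K (w ^ q)
          rw [h, map_sub, aeval_X, map_one, sub_eq_zero] at h4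
          exact hwq1 h4
        rw [Cfsg.Agent.S2568.factor_degree hr hrp hmon hirr hdvd hφ1,
          Cfsg.Agent.S2568.factor_degree hr hrp (minpoly.monic hint) hmi hmd hne]
    let e : Fin pb.dim ⊕ Fin (s.map natDegree).sum ≃ Fin N := finSumFinEquiv.trans (finCongr (by omega))
    refine ⟨Matrix.reindexAlgEquiv K K e (Matrix.fromBlocks A 0 0 B), ?_, ?_, ?_⟩
    · rw [← map_pow, Matrix.fromBlocks_diagonal_pow, hA, hB, Matrix.fromBlocks_one, map_one]
    · rw [Matrix.coe_reindexAlgEquiv, Matrix.charpoly_reindex, Matrix.charpoly_fromBlocks_zero₁₂, hAc, hBc, Multiset.prod_cons]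
    · rw [← map_pow, Matrix.fromBlocks_diagonal_pow, Matrix.coe_reindexAlgEquiv, Matrix.charpoly_transpose, Matrix.charpoly_map,
        Matrix.charpoly_reindex, Matrix.charpoly_fromBlocks_zero₁₂, Polynomial.map_mul, ← Matrix.charpoly_map, ← Matrix.charpoly_map,
        ← Matrix.charpoly_transpose ((A ^ (r - 1)).map κ), ← Matrix.charpoly_transpose ((B ^ (r - 1)).map κ), hAd, hBd,
        Multiset.map_cons, Multiset.prod_cons]


/-- Number of conjugacy classes of elements of odd prime order r in the general unitary group GU_n(q), for r not dividing q(q + 1): let i be the multiplicative order of q modulo r, b = i if i is odd and b = i/2 if i is even, and s = (r − 1)/b. If i ≢ 2 (mod 4) the eigenvalue orbits pair off into dual pairs of totally isotropic blocks and there are C(⌊n/(2b)⌋ + s/2, s/2) − 1 classes; if i ≡ 2 (mod 4) each orbit gives a non-degenerate block of dimension i/2 and there are C(⌊2n/i⌋ + s, s) − 1 classes. -/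
theorem result {K : Type*} [Field K] [Fintype K] {p q n r i b s : ℕ} [Fact p.Prime] [CharP K p] (hK : Fintype.card K = q ^ 2) (hr : r.Prime) (hr2 : r ≠ 2) (hrp : r ≠ p) (hi : i = orderOf (q : ZMod r)) (hi2 : i ≠ 2) (hb : b = if Odd i then i else i / 2) (hs : s * b = r - 1) : Nat.card {C : ConjClasses ↥(Cfsg.GU n K q) // ∃ g : ↥(Cfsg.GU n K q), ConjClasses.mk g = C ∧ orderOf g = r} = if i % 4 = 2 then Nat.choose (2 * n / i + s) s - 1 else Nat.choose (n / (2 * b) + s / 2) (s / 2) - 1 := by
  classical
  haveI := Fact.mk hr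
  obtain ⟨κ, hκ, hκκ⟩ := CfsgLib.Unitary.FieldNorm.exists_conj hK
  obtain ⟨p', k, hp', hcp, hqk, hk⟩ := CfsgLib.Unitary.FieldNorm.exists_char hK
  have hpp : p' = p := CharP.eq K hcp ‹CharP K p›
  subst hpp
  have hqe : ∃ e, q = p' ^ e := ⟨k, hqk⟩
  have hcop : ¬ r ∣ q := by
    intro h
    rw [hqk] at h
    exact hrp ((Nat.prime_dvd_prime_iff_eq hr hp').1 (hr.dvd_of_dvd_pow h))
  have hr3 : 3 ≤ r := by have := hr.two_le; omega
  have hq0 : (q : ZMod r) ≠ 0 := fun h => hcop ((ZMod.natCast_eq_zero_iff _ _).1 h)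
  have hipos : 0 < i := by
    rw [hi]
    exact orderOf_pos_iff.2 (isOfFinOrder_iff_pow_eq_one.2 ⟨r - 1, by omega, ZMod.pow_card_sub_one_eq_one hq0⟩)
  have hrK : (r : K) ≠ 0 := by
    rw [Ne, CharP.cast_eq_zero_iff K p']
    exact fun h => hrp ((Nat.prime_dvd_prime_iff_eq hp' hr).1 h).symm
  -- the order of q² modulo r
  have hbord : orderOf ((Fintype.card K : ℕ) : ZMod r) = b := by
    rw [hK, Nat.cast_pow, orderOf_pow' _ two_ne_zero, ← hi, hb]
    rcases Nat.even_or_odd i with he | ho
    · rw [if_neg (Nat.not_odd_iff_even.2 he), Nat.gcd_eq_right (even_iff_two_dvd.1 he)]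
    · rw [if_pos ho, Nat.coprime_two_right.2 ho, Nat.div_one]
  have hbpos : 0 < b := by
    rw [hb]
    split_ifs with h
    · exact hipos
    · obtain ⟨j, hj⟩ := Nat.not_odd_iff_even.1 h; omega
  let P₀ : Polynomial K := Polynomial.X ^ r - 1
  have hP0m : P₀.Monic := by simpa [P₀] using Polynomial.monic_X_pow_sub_C (1 : K) hr.ne_zero
  let one' : Polynomial K := Polynomial.X - 1
  let Ψ := (UniqueFactorizationMonoid.normalizedFactors P₀).toFinset
  have hΨ : ∀ φ, φ ∈ Ψ ↔ φ.Monic ∧ Irreducible φ ∧ φ ∣ P₀ := by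
    intro φ
    rw [Multiset.mem_toFinset, Polynomial.mem_normalizedFactors_iff hP0m.ne_zero]
    tauto
  have honem : one'.Monic := by simpa [one'] using Polynomial.monic_X_sub_C (1 : K)
  have hone : one' ∈ Ψ := (hΨ _).2 ⟨honem, by simpa [one'] using Polynomial.irreducible_X_sub_C (1 : K), by
    simpa [one', P₀] using sub_dvd_pow_sub_pow (Polynomial.X : Polynomial K) 1 r⟩
  have honedeg : one'.natDegree = 1 := by simpa [one'] using Polynomial.natDegree_X_sub_C (1 : K)
  let Φ := Ψ.erase one'
  have hΦdeg : ∀ φ ∈ Φ, φ.natDegree = b := by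
    intro φ hφ
    obtain ⟨hne, hφ'⟩ := Finset.mem_erase.1 hφ
    obtain ⟨h1, h2, h3⟩ := (hΨ φ).1 hφ'
    rw [Cfsg.Agent.S2568.factor_degree hr hrp h1 h2 h3 hne, hbord]
  have hΦcard : Φ.card = s := by
    have hsq : Squarefree P₀ := (Polynomial.separable_X_pow_sub_C (1 : K) hrK one_ne_zero).squarefree |> (by simpa [P₀] using ·)
    have hnd := (UniqueFactorizationMonoid.squarefree_iff_nodup_normalizedFactors hP0m.ne_zero).1 hsq
    have hprod := UniqueFactorizationMonoid.prod_normalizedFactors_eq hP0m.ne_zero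
    rw [hP0m.normalize_eq_self] at hprod
    have h := congrArg Polynomial.natDegree hprod
    rw [Polynomial.natDegree_multiset_prod_of_monic _ (fun f hf => ((hΨ f).1 (Multiset.mem_toFinset.2 hf)).1)] at h
    have h' : P₀.natDegree = r := by simpa [P₀] using Polynomial.natDegree_X_pow_sub_C (n := r) (r := (1 : K))
    have hsum : ∑ φ ∈ Ψ, φ.natDegree = r := by
      rw [Finset.sum, show Ψ.val = UniqueFactorizationMonoid.normalizedFactors P₀ from (Multiset.toFinset_val _).trans (Multiset.dedup_eq_self.2 hnd)]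
      exact h.trans h'
    rw [← Finset.add_sum_erase _ _ hone, Finset.sum_congr rfl hΦdeg, Finset.sum_const, smul_eq_mul, honedeg] at hsum
    exact Nat.eq_of_mul_eq_mul_right hbpos (by rw [hs]; change Φ.card * b = r - 1; change 1 + Φ.card * b = r at hsum; omega)
  -- the twisting involution
  set m0 := (r - 1) * q with hm0
  have hrootprops : ∀ φ ∈ Φ, ∀ (hirr : Irreducible φ),
      haveI := Fact.mk hirr
      (AdjoinRoot.root φ) ^ r = 1 ∧ orderOf (AdjoinRoot.root φ) = r := by
    intro φ hφ hirr
    haveI := Fact.mk hirr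
    obtain ⟨hne, hφ'⟩ := Finset.mem_erase.1 hφ
    obtain ⟨hmon, -, hdvd⟩ := (hΨ φ).1 hφ'
    have h1 : (AdjoinRoot.root φ) ^ r = 1 := by
      have h2 := AdjoinRoot.mk_eq_zero.2 hdvd
      exact sub_eq_zero.1 (by simpa [P₀] using h2)
    refine ⟨h1, orderOf_eq_prime h1 fun h => hne ?_⟩
    have h3 : φ ∣ Polynomial.X - 1 := AdjoinRoot.mk_eq_zero.1 (by simpa using sub_eq_zero.2 h)
    exact Polynomial.eq_of_monic_of_associated hmon honem
      (hirr.associated_of_dvd (by simpa using Polynomial.irreducible_X_sub_C (1 : K)) h3)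
  have hrm : ¬ r ∣ m0 := by
    intro h
    rcases hr.dvd_mul.1 h with h' | h'
    · have := Nat.le_of_dvd (by omega) h'; omega
    · exact hcop h'
  have hdualmem : ∀ φ ∈ Φ, dual m0 φ ∈ Φ := by
    intro φ hφ
    have hirr := ((hΨ φ).1 (Finset.mem_of_mem_erase hφ)).2.1
    haveI := Fact.mk hirr
    obtain ⟨hz, hzo⟩ := hrootprops φ hφ hirr
    haveI : Module.Finite K (AdjoinRoot φ) := (AdjoinRoot.powerBasis hirr.ne_zero).finite
    have hint : IsIntegral K ((AdjoinRoot.root φ) ^ m0) := IsIntegral.of_finite K _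
    rw [dual, dif_pos hirr]
    refine Finset.mem_erase.2 ⟨?_, (hΨ _).2 ⟨minpoly.monic hint, minpoly.irreducible hint, minpoly.dvd K _ ?_⟩⟩
    · intro h
      have h4 := minpoly.aeval K ((AdjoinRoot.root φ) ^ m0)
      rw [h, map_sub, Polynomial.aeval_X, map_one, sub_eq_zero] at h4
      exact hrm (hzo ▸ orderOf_dvd_of_pow_eq_one h4)
    · have h1 : ((AdjoinRoot.root φ) ^ m0) ^ r = 1 := by rw [← pow_mul, mul_comm, pow_mul, hz, one_pow]
      simp [P₀, h1]
  have hroots : ∀ φ ∈ Φ, ∀ (hirr : Irreducible φ) (a : ℕ),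
      haveI := Fact.mk hirr
      Polynomial.aeval ((AdjoinRoot.root φ) ^ a) φ = 0 ↔ ∃ j : ℕ, (a : ZMod r) = ((q : ZMod r) ^ 2) ^ j := by
    intro φ hφ hirr a
    haveI := Fact.mk hirr
    obtain ⟨hz, hzo⟩ := hrootprops φ hφ hirr
    set z := AdjoinRoot.root φ
    haveI : CharP (AdjoinRoot φ) p' := charP_of_injective_algebraMap (algebraMap K (AdjoinRoot φ)).injective p'
    have hz0 : Polynomial.aeval z φ = 0 := by rw [AdjoinRoot.aeval_eq]; exact AdjoinRoot.mk_self
    have hfr : ∀ y : AdjoinRoot φ, Polynomial.aeval y φ = 0 → Polynomial.aeval (y ^ (q ^ 2)) φ = 0 := by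
      intro y hy
      have hF : y ^ (q ^ 2) = iterateFrobenius (AdjoinRoot φ) p' (k * 2) y := by rw [hqk, ← pow_mul]; rfl
      have hcomp : (algebraMap K (AdjoinRoot φ)) = (iterateFrobenius (AdjoinRoot φ) p' (k * 2)).comp (algebraMap K (AdjoinRoot φ)) := by
        refine RingHom.ext fun x => ?_
        show algebraMap K (AdjoinRoot φ) x = (algebraMap K (AdjoinRoot φ) x) ^ p' ^ (k * 2)
        rw [← map_pow, pow_mul p', ← hqk, ← hK, FiniteField.pow_card]
      rw [Polynomial.aeval_def, hF]
      conv_lhs => rw [hcomp]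
      rw [← Polynomial.hom_eval₂, ← Polynomial.aeval_def, hy, map_zero]
    have hconj : ∀ j : ℕ, Polynomial.aeval (z ^ ((q ^ 2) ^ j)) φ = 0 := by
      intro j
      induction j with
      | zero => rw [pow_zero, pow_one]; exact hz0
      | succ j ih => rw [pow_succ, pow_mul]; exact hfr _ ih
    have hpowmod : ∀ x y : ℕ, z ^ x = z ^ y ↔ (x : ZMod r) = (y : ZMod r) := by
      intro x y
      rw [ZMod.natCast_eq_natCast_iff, (orderOf_pos_iff.1 (hzo.symm ▸ hr.pos)).pow_eq_pow_iff_modEq, hzo]
    constructor
    · intro ha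
      let R : Finset (AdjoinRoot φ) := (Finset.range b).image (fun j => z ^ ((q ^ 2) ^ j))
      have hRcard : R.card = b := by
        rw [Finset.card_image_of_injOn, Finset.card_range]
        intro x hx y hy hxy
        have h1 := (hpowmod _ _).1 hxy
        push_cast at h1
        have hb' : orderOf ((q : ZMod r) ^ 2) = b := by rw [← hbord, hK, Nat.cast_pow]
        have h2 : IsOfFinOrder ((q : ZMod r) ^ 2) := orderOf_pos_iff.1 (by omega)
        have h3 := h2.pow_eq_pow_iff_modEq.1 h1
        rw [hb'] at h3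
        exact h3.eq_of_lt_of_lt (Finset.mem_range.1 hx) (Finset.mem_range.1 hy)
      have hne : φ.map (algebraMap K (AdjoinRoot φ)) ≠ 0 := Polynomial.map_ne_zero hirr.ne_zero
      by_contra hno
      push Not at hno
      have hnot : z ^ a ∉ R := by
        intro h
        obtain ⟨j, -, hj⟩ := Finset.mem_image.1 h
        have := (hpowmod _ _).1 hj
        push_cast at this
        exact hno j this.symm
      have hsub : (insert (z ^ a) R).val ⊆ (φ.map (algebraMap K (AdjoinRoot φ))).roots := by
        intro y hy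
        rw [Polynomial.mem_roots hne, Polynomial.IsRoot, Polynomial.eval_map, ← Polynomial.aeval_def]
        rcases Finset.mem_insert.1 (show y ∈ insert (z ^ a) R from hy) with h | h
        · rw [h]; exact ha
        · obtain ⟨j, -, hj⟩ := Finset.mem_image.1 h
          rw [← hj]; exact hconj j
      have hcard := Polynomial.card_le_degree_of_subset_roots hsub
      rw [Finset.card_insert_of_notMem hnot, hRcard, Polynomial.natDegree_map, hΦdeg φ hφ] at hcard
      omega
    · rintro ⟨j, hj⟩
      rw [(hpowmod a ((q ^ 2) ^ j)).2 (by push_cast; exact hj)]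
      exact hconj j
  have hm0cast : (m0 : ZMod r) = -(q : ZMod r) := by
    rw [hm0, Nat.cast_mul, Nat.cast_sub (by omega : 1 ≤ r), ZMod.natCast_self, Nat.cast_one, zero_sub, neg_one_mul]
  have hdual2 : ∀ φ ∈ Φ, dual m0 (dual m0 φ) = φ := by
    intro φ hφ
    obtain ⟨hmon, hirr, -⟩ := (hΨ φ).1 (Finset.mem_of_mem_erase hφ)
    have hirr2 := ((hΨ _).1 (Finset.mem_of_mem_erase (hdualmem φ hφ))).2.1
    haveI := Fact.mk hirr
    haveI : Module.Finite K (AdjoinRoot φ) := (AdjoinRoot.powerBasis hirr.ne_zero).finite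
    have hy : Polynomial.aeval ((AdjoinRoot.root φ) ^ m0) (dual m0 φ) = 0 := by
      rw [dual, dif_pos hirr]; exact minpoly.aeval K _
    rw [dual_eq m0 hirr2 ((AdjoinRoot.root φ) ^ m0) hy, ← pow_mul]
    refine (minpoly.eq_of_irreducible_of_monic hirr ?_ hmon).symm
    refine (hroots φ hφ hirr _).2 ⟨1, ?_⟩
    rw [Nat.cast_mul, hm0cast, pow_one]; ring
  have hfix : ∀ φ ∈ Φ, (dual m0 φ = φ ↔ i % 4 = 2) := by
    intro φ hφ
    obtain ⟨hmon, hirr, -⟩ := (hΨ φ).1 (Finset.mem_of_mem_erase hφ)
    haveI := Fact.mk hirr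
    haveI : Module.Finite K (AdjoinRoot φ) := (AdjoinRoot.powerBasis hirr.ne_zero).finite
    have h1 : dual m0 φ = φ ↔ Polynomial.aeval ((AdjoinRoot.root φ) ^ m0) φ = 0 := by
      constructor
      · intro h
        conv_lhs => arg 2; rw [← h, dual, dif_pos hirr]
        exact minpoly.aeval K _
      · intro h
        rw [dual, dif_pos hirr]
        exact (minpoly.eq_of_irreducible_of_monic hirr h hmon).symm
    rw [h1, hroots φ hφ hirr, hm0cast]
    have hqi : (q : ZMod r) ^ i = 1 := hi ▸ pow_orderOf_eq_one _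
    have hne1 : (-1 : ZMod r) ≠ 1 := by
      intro h
      have h2 : ((2 : ℕ) : ZMod r) = 0 := by push_cast; linear_combination -h
      rw [ZMod.natCast_eq_zero_iff] at h2
      exact hr2 ((Nat.prime_dvd_prime_iff_eq hr Nat.prime_two).1 h2)
    constructor
    · rintro ⟨j, hj⟩
      have hj' : (q : ZMod r) ^ (2 * j + i) = -(q : ZMod r) := by
        rw [pow_add, pow_mul, ← hj, hqi, mul_one]
      obtain ⟨l, hl⟩ : ∃ l, 2 * j + i = l + 1 := ⟨2 * j + i - 1, by omega⟩
      have hl1 : (q : ZMod r) ^ l = -1 := by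
        rw [hl, pow_succ] at hj'
        exact mul_right_cancel₀ hq0 (by rw [hj', neg_one_mul])
      have hl2 : i ∣ 2 * l := by
        rw [hi]; apply orderOf_dvd_of_pow_eq_one
        rw [mul_comm, pow_mul, hl1]; ring
      have hl3 : ¬ i ∣ l := by
        intro h
        rw [hi] at h
        exact hne1 (hl1.symm.trans (orderOf_dvd_iff_pow_eq_one.1 h))
      rcases Nat.even_or_odd i with he | ho
      · obtain ⟨i', rfl⟩ := he
        obtain ⟨c, hc⟩ := hl2
        have hc1 : l = i' * c := by
          rw [← two_mul, mul_assoc] at hc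
          omega
        rcases Nat.even_or_odd c with hce | hco
        · obtain ⟨c', rfl⟩ := hce
          exact absurd (show i' + i' ∣ l from ⟨c', by rw [hc1]; ring⟩) hl3
        · obtain ⟨c', rfl⟩ := hco
          have hodd : Odd l := by
            rcases Nat.even_or_odd l with hle | hlo
            · obtain ⟨l', hl'⟩ := hle; omega
            · exact hlo
          rw [hc1] at hodd
          obtain ⟨u, hu⟩ := (Nat.odd_mul.1 hodd).1
          omega
      · exact absurd ((Nat.coprime_two_right.2 ho).dvd_of_dvd_mul_left hl2) hl3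
    · intro h4
      have hh : (q : ZMod r) ^ (i / 2) = -1 := by
        have hsq : ((q : ZMod r) ^ (i / 2)) ^ 2 = 1 := by rw [← pow_mul, show i / 2 * 2 = i by omega, hqi]
        rcases sq_eq_one_iff.1 hsq with h | h
        · exfalso
          have h5 : i ∣ i / 2 := by rw [hi] at h ⊢; exact orderOf_dvd_of_pow_eq_one h
          have := Nat.le_of_dvd (by omega) h5
          omega
        · exact h
      refine ⟨(i / 2 + 1) / 2, ?_⟩
      rw [← pow_mul, show 2 * ((i / 2 + 1) / 2) = i / 2 + 1 by omega, pow_succ, hh, neg_one_mul]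
  have hdual1 : dual m0 one' = one' := dual_X_sub_one m0
  -- representatives
  obtain ⟨nΦ, ⟨eΦ⟩⟩ := Finite.exists_equiv_fin Φ
  let du : Φ → Φ := fun φ => ⟨dual m0 φ.1, hdualmem φ.1 φ.2⟩
  have hdu : ∀ φ, du (du φ) = φ := fun φ => Subtype.ext (hdual2 φ.1 φ.2)
  let Pr := {φ : Φ // i % 4 = 2 ∨ eΦ φ < eΦ (du φ)}
  set D := if i % 4 = 2 then b else 2 * b with hD
  have hDpos : 0 < D := by rw [hD]; split_ifs <;> omega
  have hPcard : Fintype.card Pr = if i % 4 = 2 then s else s / 2 := by
    rw [Fintype.card_subtype]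
    split_ifs with h4
    · rw [Finset.filter_true_of_mem (fun φ _ => Or.inl h4), Finset.card_univ, Fintype.card_coe, hΦcard]
    · rw [Finset.filter_congr (fun φ _ => or_iff_right h4)]
      set A := Finset.univ.filter (fun φ : Φ => eΦ φ < eΦ (du φ)) with hA
      set A' := Finset.univ.filter (fun φ : Φ => eΦ (du φ) < eΦ φ) with hA'
      have hAA : A.card = A'.card :=
        Finset.card_nbij' du du
          (fun φ hφ => by simpa [hA, hA', hdu] using hφ) (fun φ hφ => by simpa [hA, hA', hdu] using hφ)
          (fun φ _ => hdu φ) (fun φ _ => hdu φ)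
      have hun : A ∪ A' = Finset.univ := by
        ext φ
        simp only [hA, hA', Finset.mem_union, Finset.mem_filter, Finset.mem_univ, true_and, iff_true]
        exact lt_or_gt_of_ne fun h => h4 ((hfix φ.1 φ.2).1 (congrArg Subtype.val (eΦ.injective h).symm))
      have hdis : Disjoint A A' := by
        rw [Finset.disjoint_filter]
        exact fun φ _ h h' => lt_asymm h h'
      have h2 := Finset.card_union_of_disjoint hdis
      rw [hun, Finset.card_univ, Fintype.card_coe, hΦcard] at h2
      omega
  -- classes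
  let T := {t : Multiset (Polynomial K) // (∀ φ ∈ t, φ ∈ Ψ) ∧ (t.map Polynomial.natDegree).sum = n ∧ t.map (dual m0) = t}
  let A := {C : ConjClasses ↥(Cfsg.GU n K q) // ∃ g : ↥(Cfsg.GU n K q), ConjClasses.mk g = C ∧ g ^ r = 1}
  have hss : ∀ x : GL (Fin n) K, x ^ r = 1 → Module.End.IsSemisimple (Matrix.toLin' (x : Matrix (Fin n) (Fin n) K)) := fun x hx =>
    Module.End.isSemisimple_of_squarefree_aeval_eq_zero
      ((Polynomial.separable_X_pow_sub_C (1 : K) hrK one_ne_zero).squarefree)
      (by
        have : (Matrix.toLin' (x : Matrix (Fin n) (Fin n) K)) ^ r = 1 := by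
          rw [← Matrix.toLin'_pow, ← Units.val_pow_eq_pow_val, hx, Units.val_one, Matrix.toLin'_one]; rfl
        simp [this])
  have hconjGL : ∀ x y : GL (Fin n) K, x ^ r = 1 → y ^ r = 1 →
      (x : Matrix (Fin n) (Fin n) K).charpoly = (y : Matrix (Fin n) (Fin n) K).charpoly → IsConj x y := by
    intro x y hx hy hc
    obtain ⟨e, he⟩ := CfsgLib.Semisimple.CharpolyConj.exists_conj _ _ (hss x hx) (hss y hy)
      (by rw [Matrix.charpoly_toLin', Matrix.charpoly_toLin', hc])
    let E := Matrix.GeneralLinearGroup.toLin.symm (LinearMap.GeneralLinearGroup.ofLinearEquiv e)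
    refine isConj_iff.2 ⟨E, ?_⟩
    rw [mul_inv_eq_iff_eq_mul]
    apply Units.ext
    apply Matrix.toLin'.injective
    rw [Units.val_mul, Units.val_mul, Matrix.toLin'_mul, Matrix.toLin'_mul]
    have hE : Matrix.toLin' (E : Matrix (Fin n) (Fin n) K) = (e : (Fin n → K) →ₗ[K] (Fin n → K)) :=
      Matrix.toLin'_toMatrix' _
    rw [hE]
    exact LinearMap.ext he
  have hGex : ∀ t : Multiset (Polynomial K), (∀ φ ∈ t, φ ∈ Ψ) → (t.map Polynomial.natDegree).sum = n →
      ∃ g : GL (Fin n) K, g ^ r = 1 ∧ (g : Matrix (Fin n) (Fin n) K).charpoly = t.prod ∧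
        (CfsgLib.Unitary.Conj.adj κ ((g ^ (r - 1) : GL (Fin n) K) : Matrix (Fin n) (Fin n) K)).charpoly = (t.map (dual m0)).prod := by
    intro t ht hd
    obtain ⟨M, hM, hMc, hMd⟩ := realizeDual κ hκ hqe hr hrp hcop t (fun φ hφ => (hΨ φ).1 (ht φ hφ)) n hd
    refine ⟨Units.ofPowEqOne M r hM hr.ne_zero, Units.ext (by simpa using hM), hMc, ?_⟩
    rw [Units.val_pow_eq_pow_val]
    exact hMd
  have hcp : ∀ (c x : GL (Fin n) K), ((c * x * c⁻¹ : GL (Fin n) K) : Matrix (Fin n) (Fin n) K).charpoly = (x : Matrix (Fin n) (Fin n) K).charpoly := by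
    intro c x
    rw [Units.val_mul, Units.val_mul, Matrix.coe_units_inv, Matrix.charpoly_units_conj]
  have hnf : ∀ t : Multiset (Polynomial K), (∀ φ ∈ t, φ ∈ Ψ) → UniqueFactorizationMonoid.normalizedFactors t.prod = t := by
    intro t ht
    rw [UniqueFactorizationMonoid.normalizedFactors_prod_eq _ (fun a ha => ((hΨ a).1 (ht a ha)).2.1)]
    conv_rhs => rw [← Multiset.map_id t]
    exact Multiset.map_congr rfl fun a ha => ((hΨ a).1 (ht a ha)).1.normalize_eq_self
  have hmk : ∀ t : T, ∃ g : ↥(Cfsg.GU n K q), g ^ r = 1 ∧ ((g : GL (Fin n) K) : Matrix (Fin n) (Fin n) K).charpoly = t.1.prod := by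
    intro t
    obtain ⟨g, hg, hgc, hgd⟩ := hGex t.1 t.2.1 t.2.2.1
    rw [t.2.2.2, ← hgc] at hgd
    let ga : GL (Fin n) K := (CfsgLib.Unitary.Conj.isUnit_adj κ g.isUnit).unit
    have hga : (ga : Matrix (Fin n) (Fin n) K) = CfsgLib.Unitary.Conj.adj κ (g : Matrix (Fin n) (Fin n) K) := IsUnit.unit_spec _
    let gb : GL (Fin n) K := (CfsgLib.Unitary.Conj.isUnit_adj κ (g ^ (r - 1)).isUnit).unit
    have hgb : (gb : Matrix (Fin n) (Fin n) K) = CfsgLib.Unitary.Conj.adj κ ((g ^ (r - 1) : GL (Fin n) K) : Matrix (Fin n) (Fin n) K) := IsUnit.unit_spec _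
    have hgab : ga * gb = 1 := by
      refine Units.ext ?_
      rw [Units.val_mul, hga, hgb, ← CfsgLib.Unitary.Conj.adj_mul, ← Units.val_mul, ← pow_succ, Nat.sub_add_cancel (by omega : 1 ≤ r), hg,
        Units.val_one, CfsgLib.Unitary.Conj.adj_one]
    have hgbr : gb ^ r = 1 := by
      refine Units.ext ?_
      rw [Units.val_pow_eq_pow_val, hgb, ← CfsgLib.Unitary.Conj.adj_pow, ← Units.val_pow_eq_pow_val, ← pow_mul, mul_comm, pow_mul, hg, one_pow,
        Units.val_one, CfsgLib.Unitary.Conj.adj_one]
    obtain ⟨C, hC⟩ := isConj_iff.1 (hconjGL g gb hg hgbr (by rw [hgb, hgd]))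
    have hX : ga * C * g = C := by
      have h1 : C * g = gb * C := by rw [← hC, inv_mul_cancel_right]
      rw [mul_assoc, h1, ← mul_assoc, hgab, one_mul]
    have hX' := congrArg Units.val hX
    rw [Units.val_mul, Units.val_mul, hga] at hX'
    obtain ⟨c, hc⟩ := CfsgLib.Unitary.Conj.exists_conj_mem hK hκ hκκ g C hX'
    refine ⟨⟨c * g * c⁻¹, hc⟩, Subtype.ext ?_, (hcp c g).trans hgc⟩
    show (c * g * c⁻¹) ^ r = 1
    rw [conj_pow, hg, mul_one, mul_inv_cancel]
  choose G hGr hGc using hmk
  let f : T → A := fun t => ⟨ConjClasses.mk (G t), G t, rfl, hGr t⟩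
  have hf : Function.Bijective f := by
    constructor
    · intro t t' h
      obtain ⟨c, hc⟩ := isConj_iff.1 (ConjClasses.mk_eq_mk_iff_isConj.1 (congrArg Subtype.val h))
      have h1 : t.1.prod = t'.1.prod := by
        rw [← hGc, ← hGc, ← hc]
        exact (hcp (c : GL (Fin n) K) _).symm
      exact Subtype.ext (by rw [← hnf t.1 t.2.1, h1, hnf t'.1 t'.2.1])
    · rintro ⟨C, g, rfl, hg⟩
      have hg' : (g : GL (Fin n) K) ^ r = 1 := by rw [← SubgroupClass.coe_pow, hg]; rfl
      set χ := ((g : GL (Fin n) K) : Matrix (Fin n) (Fin n) K).charpoly with hχ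
      have hχm : χ.Monic := Matrix.charpoly_monic _
      set fs := UniqueFactorizationMonoid.normalizedFactors χ with hfs
      have hfac : ∀ φ ∈ fs, φ ∈ Ψ := by
        intro φ hφ
        obtain ⟨hirr, hmon, hdvd⟩ := (Polynomial.mem_normalizedFactors_iff hχm.ne_zero).1 hφ
        refine (hΨ φ).2 ⟨hmon, hirr, ?_⟩
        have h1 := Cfsg.Agent.S2670.factor_dvd (g := (g : GL (Fin n) K)) (r := r) (c := 1) (by rw [map_one]; exact hg') hirr hdvd
        simpa [P₀] using h1
      have hprod : fs.prod = χ := by
        rw [UniqueFactorizationMonoid.prod_normalizedFactors_eq hχm.ne_zero, hχm.normalize_eq_self]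
      have hdeg : (fs.map Polynomial.natDegree).sum = n := by
        rw [← Polynomial.natDegree_multiset_prod_of_monic _ (fun φ hφ => ((hΨ φ).1 (hfac φ hφ)).1), hprod, hχ,
          Matrix.charpoly_natDegree_eq_dim, Fintype.card_fin]
      have hinv : fs.map (dual m0) = fs := by
        obtain ⟨y, hy, hyc, hyd⟩ := hGex fs hfac hdeg
        obtain ⟨P, hP⟩ := isConj_iff.1 (hconjGL (g : GL (Fin n) K) y hg' hy (by rw [hyc, hprod, hχ]))
        have hP' : y ^ (r - 1) = P * (g : GL (Fin n) K)⁻¹ * P⁻¹ := by
          rw [← hP, conj_pow]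
          congr 2
          rw [eq_inv_iff_mul_eq_one, ← pow_succ, Nat.sub_add_cancel (by omega : 1 ≤ r)]
          exact hg'
        let Pa : GL (Fin n) K := (CfsgLib.Unitary.Conj.isUnit_adj κ P.isUnit).unit
        have hPa : (Pa : Matrix (Fin n) (Fin n) K) = CfsgLib.Unitary.Conj.adj κ (P : Matrix (Fin n) (Fin n) K) := IsUnit.unit_spec _
        have hginv : CfsgLib.Unitary.Conj.adj κ (((g : GL (Fin n) K)⁻¹ : GL (Fin n) K) : Matrix (Fin n) (Fin n) K) = ((g : GL (Fin n) K) : Matrix (Fin n) (Fin n) K) := by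
          have h1 := (CfsgLib.Unitary.Conj.mem_GU hK hκ _).1 (g : ↥(Cfsg.GU n K q)).2
          have h2 : CfsgLib.Unitary.Conj.adj κ ((g : GL (Fin n) K) : Matrix (Fin n) (Fin n) K) = (((g : GL (Fin n) K)⁻¹ : GL (Fin n) K) : Matrix (Fin n) (Fin n) K) :=
            (Units.eq_inv_of_mul_eq_one_right h1 : _)
          rw [← h2, CfsgLib.Unitary.Conj.adj_adj hκκ]
        have hPi : CfsgLib.Unitary.Conj.adj κ ((P⁻¹ : GL (Fin n) K) : Matrix (Fin n) (Fin n) K) = ((Pa⁻¹ : GL (Fin n) K) : Matrix (Fin n) (Fin n) K) := by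
          refine Units.eq_inv_of_mul_eq_one_left ?_
          rw [hPa, ← CfsgLib.Unitary.Conj.adj_mul, Units.inv_mul, CfsgLib.Unitary.Conj.adj_one]
        have hchar : (CfsgLib.Unitary.Conj.adj κ ((y ^ (r - 1) : GL (Fin n) K) : Matrix (Fin n) (Fin n) K)).charpoly = χ := by
          rw [hP', Units.val_mul, Units.val_mul, CfsgLib.Unitary.Conj.adj_mul, CfsgLib.Unitary.Conj.adj_mul, hginv, hPi, ← hPa, ← mul_assoc]
          have h5 := hcp Pa⁻¹ (g : GL (Fin n) K)
          rw [inv_inv, Units.val_mul, Units.val_mul] at h5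
          rw [hχ]
          exact h5
        rw [hchar] at hyd
        have h6 : ∀ φ ∈ fs.map (dual m0), φ ∈ Ψ := by
          intro φ hφ
          obtain ⟨ψ, hψ, rfl⟩ := Multiset.mem_map.1 hφ
          by_cases h1 : ψ = one'
          · rw [h1, hdual1]; exact hone
          · exact Finset.mem_of_mem_erase (hdualmem ψ (Finset.mem_erase.2 ⟨h1, hfac ψ hψ⟩))
        rw [← hnf _ h6, ← hyd]
      let t : T := ⟨fs, hfac, hdeg, hinv⟩
      refine ⟨t, Subtype.ext (ConjClasses.mk_eq_mk_iff_isConj.2 ?_)⟩
      have hG' : (G t : GL (Fin n) K) ^ r = 1 := by rw [← SubgroupClass.coe_pow, hGr]; rfl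
      obtain ⟨P, hP⟩ := isConj_iff.1 (hconjGL (G t : GL (Fin n) K) (g : GL (Fin n) K) hG' hg' (by rw [hGc, hprod]))
      obtain ⟨c, hc, hce⟩ := CfsgLib.Unitary.Conj.conj_in_GU hK hκ hκκ (G t).2 g.2 P hP
      exact isConj_iff.2 ⟨⟨c, hc⟩, Subtype.ext hce⟩
  -- counting
  set N := n / D with hN
  let val : Pr → Polynomial K := fun x => x.1.1
  let build : Multiset Pr → Multiset (Polynomial K) := fun m =>
    m.map val + (if i % 4 = 2 then 0 else (m.map val).map (dual m0)) + Multiset.replicate (n - D * m.card) one'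
  have hval : ∀ x, val x ∈ Φ := fun x => x.1.2
  have hvalinj : Function.Injective val := fun x y h => Subtype.ext (Subtype.ext h)
  have hne1 : ∀ φ ∈ Φ, φ ≠ one' := fun φ hφ => (Finset.mem_erase.1 hφ).1
  have hnval : i % 4 ≠ 2 → ∀ x y : Pr, dual m0 (val x) ≠ val y := by
    intro h4 x y h
    have hx := x.2.resolve_left h4
    have hy := y.2.resolve_left h4
    have e1 : du x.1 = y.1 := Subtype.ext h
    rw [← e1, hdu] at hy
    exact lt_asymm hx hy
  have hcount : ∀ (m : Multiset Pr) (x : Pr), (build m).count (val x) = m.count x := by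
    intro m x
    simp only [build, Multiset.count_add]
    rw [Multiset.count_map_eq_count' _ _ hvalinj, Multiset.count_replicate, if_neg (Ne.symm (hne1 _ (hval x))), add_zero]
    split_ifs with h4
    · rw [Multiset.count_zero, add_zero]
    · rw [Multiset.map_map, (Multiset.count_eq_zero (a := val x) (s := m.map (dual m0 ∘ val))).2 ?_, add_zero]
      intro h
      obtain ⟨y, -, hy⟩ := Multiset.mem_map.1 h
      exact hnval h4 y x hy
  have hbuildT : ∀ m : Multiset Pr, m.card ≤ N →
      (∀ φ ∈ build m, φ ∈ Ψ) ∧ ((build m).map Polynomial.natDegree).sum = n ∧ (build m).map (dual m0) = build m := by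
    intro m hm
    have hDm : D * m.card ≤ n := le_trans (Nat.mul_le_mul_left _ hm) (by rw [mul_comm]; exact Nat.div_mul_le_self n D)
    refine ⟨?_, ?_, ?_⟩
    · intro φ hφ
      rcases Multiset.mem_add.1 hφ with h | h
      · rcases Multiset.mem_add.1 h with h' | h'
        · obtain ⟨x, -, rfl⟩ := Multiset.mem_map.1 h'
          exact Finset.mem_of_mem_erase (hval x)
        · split_ifs at h' with h4
          · exact absurd h' (Multiset.notMem_zero _)
          · obtain ⟨ψ, hψ, rfl⟩ := Multiset.mem_map.1 h'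
            obtain ⟨x, -, rfl⟩ := Multiset.mem_map.1 hψ
            exact Finset.mem_of_mem_erase (hdualmem _ (hval x))
      · rw [Multiset.eq_of_mem_replicate h]; exact hone
    · have e1 : ((m.map val).map Polynomial.natDegree).sum = b * m.card := by
        simp only [Multiset.map_map, Function.comp_def]; rw [Multiset.map_congr rfl (fun x _ => hΦdeg _ (hval x) : ∀ x ∈ m, _ = b), Multiset.map_const', Multiset.sum_replicate, smul_eq_mul, mul_comm]
      have e2 : ((((m.map val).map (dual m0))).map Polynomial.natDegree).sum = b * m.card := by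
        simp only [Multiset.map_map, Function.comp_def]; rw [Multiset.map_congr rfl (fun x _ => hΦdeg _ (hdualmem _ (hval x)) : ∀ x ∈ m, _ = b), Multiset.map_const', Multiset.sum_replicate, smul_eq_mul, mul_comm]
      simp only [build, Multiset.map_add, Multiset.sum_add, Multiset.map_replicate, Multiset.sum_replicate, honedeg, smul_eq_mul, mul_one, e1]
      split_ifs with h4
      · rw [Multiset.map_zero, Multiset.sum_zero, add_zero]
        rw [hD, if_pos h4] at hDm ⊢
        omega
      · rw [e2]
        rw [hD, if_neg h4, mul_assoc] at hDm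
        rw [hD, if_neg h4, mul_assoc]
        omega
    · simp only [build, Multiset.map_add, Multiset.map_replicate, hdual1]
      congr 1
      split_ifs with h4
      · rw [Multiset.map_zero, add_zero, add_zero, Multiset.map_map]
        exact Multiset.map_congr rfl fun x _ => (hfix _ (hval x)).2 h4
      · have e : ((m.map val).map (dual m0)).map (dual m0) = m.map val := by
          rw [Multiset.map_map, Multiset.map_map]
          exact Multiset.map_congr rfl fun x _ => hdual2 _ (hval x)
        rw [e, add_comm]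
  have hred : ∀ (m : Multiset (Option Pr)), (m.filterMap id).card ≤ m.card := by
    intro m
    induction m using Multiset.induction with
    | empty => simp
    | cons a m ih =>
      cases a with
      | none => rw [Multiset.filterMap_cons_none _ _ rfl, Multiset.card_cons]; omega
      | some b => rw [Multiset.filterMap_cons_some id _ _ rfl, Multiset.card_cons, Multiset.card_cons]; omega
  have hsplitM : ∀ m : Multiset (Option Pr), m = (m.filterMap id).map some + Multiset.replicate (m.card - (m.filterMap id).card) none := by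
    intro m
    induction m using Multiset.induction with
    | empty => simp
    | cons a m ih =>
      cases a with
      | none =>
        rw [Multiset.filterMap_cons_none _ _ rfl, Multiset.card_cons, Nat.sub_add_comm (hred m), Multiset.replicate_succ]
        conv_lhs => rw [ih]
        rw [Multiset.add_cons]
      | some b =>
        rw [Multiset.filterMap_cons_some id _ _ rfl, Multiset.map_cons, Multiset.card_cons, Multiset.card_cons, Nat.add_sub_add_right]
        conv_lhs => rw [ih]
        rw [Multiset.cons_add]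
  let Γ : Sym (Option Pr) N → T := fun w => ⟨build (w.1.filterMap id), hbuildT _ ((hred _).trans w.2.le)⟩
  have hΓ : Function.Bijective Γ := by
    constructor
    · intro w w' h
      have h'' : w.1.filterMap id = w'.1.filterMap id := Multiset.ext.2 fun x => by
        rw [← hcount, ← hcount, show build (w.1.filterMap id) = build (w'.1.filterMap id) from congrArg Subtype.val h]
      apply Subtype.ext
      rw [hsplitM w.1, hsplitM w'.1, h'', w.2, w'.2]
    · intro t
      let m : Multiset Pr := ∑ x : Pr, Multiset.replicate (t.1.count (val x)) x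
      have hm : ∀ x, m.count x = t.1.count (val x) := by
        intro x
        show (∑ x : Pr, Multiset.replicate (t.1.count (val x)) x).count x = _
        rw [Multiset.count_sum', Finset.sum_eq_single x]
        · rw [Multiset.count_replicate, if_pos rfl]
        · intro y _ hy; rw [Multiset.count_replicate, if_neg hy]
        · simp
      have hsym : ∀ φ ∈ Φ, t.1.count (dual m0 φ) = t.1.count φ := by
        intro φ hφ
        conv_lhs => rw [← t.2.2.2]
        by_cases hφt : φ ∈ t.1
        · refine Multiset.count_map_eq_count (dual m0) t.1 ?_ φ hφt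
          intro x hx y hy hxy
          have hinv : ∀ x ∈ Ψ, dual m0 (dual m0 x) = x := by
            intro x hx
            by_cases h1 : x = one'
            · rw [h1, hdual1, hdual1]
            · exact hdual2 x (Finset.mem_erase.2 ⟨h1, hx⟩)
          rw [← hinv x (t.2.1 x hx), hxy, hinv y (t.2.1 y hy)]
        · rw [Multiset.count_eq_zero.2 hφt, Multiset.count_eq_zero]
          intro h
          obtain ⟨ψ, hψ, hψe⟩ := Multiset.mem_map.1 h
          apply hφt
          have h2 : ψ = φ := by
            by_cases h1 : ψ = one'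
            · exfalso
              rw [h1, hdual1] at hψe
              exact hne1 _ (hdualmem φ hφ) hψe.symm
            · rw [← hdual2 ψ (Finset.mem_erase.2 ⟨h1, t.2.1 ψ hψ⟩), hψe, hdual2 φ hφ]
          rwa [h2] at hψ
      have hcΦ : ∀ φ ∈ Φ, (build m).count φ = t.1.count φ := by
        intro φ hφ
        by_cases hP : i % 4 = 2 ∨ eΦ ⟨φ, hφ⟩ < eΦ (du ⟨φ, hφ⟩)
        · have := hcount m ⟨⟨φ, hφ⟩, hP⟩
          rw [this, hm]
        · push Not at hP
          obtain ⟨h4, hle⟩ := hP
          have hlt : eΦ (du ⟨φ, hφ⟩) < eΦ ⟨φ, hφ⟩ := lt_of_le_of_ne hle fun h => h4 ((hfix φ hφ).1 (congrArg Subtype.val (eΦ.injective h)))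
          let x : Pr := ⟨du ⟨φ, hφ⟩, Or.inr (by rw [hdu]; exact hlt)⟩
          have hx : dual m0 (val x) = φ := hdual2 φ hφ
          simp only [build, Multiset.count_add]
          rw [if_neg h4, Multiset.map_map, Multiset.count_replicate, if_neg (Ne.symm (hne1 φ hφ)), add_zero,
            Multiset.count_eq_zero.2 (fun h => by
              obtain ⟨y, -, hy⟩ := Multiset.mem_map.1 h
              exact hnval h4 x y (hx.trans hy.symm)), zero_add]
          rw [← hx]
          have hinjd : Function.Injective (dual m0 ∘ val) := fun y z hyz => hvalinj (by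
            have h1 := congrArg (dual m0) hyz
            rwa [Function.comp_apply, Function.comp_apply, hdual2 _ (hval y), hdual2 _ (hval z)] at h1)
          show Multiset.count ((dual m0 ∘ val) x) _ = _
          rw [Multiset.count_map_eq_count' _ _ hinjd, hm, hsym _ (hval x)]
      have hdegb : ∀ (u : Multiset (Polynomial K)), (∀ φ ∈ u, φ ∈ Ψ) → (u.map Polynomial.natDegree).sum = u.count one' + ∑ φ ∈ Φ, b * u.count φ := by
        intro u hu
        rw [Finset.sum_multiset_map_count, Finset.sum_subset (s₂ := Ψ) (fun φ hφ => hu φ (Multiset.mem_toFinset.1 hφ))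
          (fun φ _ hφ => by rw [Multiset.count_eq_zero.2 (fun h => hφ (Multiset.mem_toFinset.2 h)), zero_smul])]
        rw [← Finset.add_sum_erase _ _ hone, honedeg, smul_eq_mul, mul_one]
        congr 1
        exact Finset.sum_congr rfl fun φ hφ => by rw [hΦdeg φ hφ, smul_eq_mul, mul_comm]
      have hmN : m.card ≤ N := by
        rw [hN, Nat.le_div_iff_mul_le hDpos]
        have h1 := hdegb t.1 t.2.1
        rw [t.2.2.1] at h1
        have h2 : ∀ φ ∈ Φ, (m.map val + (if i % 4 = 2 then 0 else (m.map val).map (dual m0))).count φ = t.1.count φ := by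
          intro φ hφ
          rw [← hcΦ φ hφ]
          simp only [build, Multiset.count_add, Multiset.count_replicate, if_neg (Ne.symm (hne1 φ hφ)), add_zero]
        set u := m.map val + (if i % 4 = 2 then 0 else (m.map val).map (dual m0)) with hu
        have hu1 : u.toFinset ⊆ Φ := by
          intro φ hφ
          rw [Multiset.mem_toFinset, hu] at hφ
          rcases Multiset.mem_add.1 hφ with h' | h'
          · obtain ⟨x, -, rfl⟩ := Multiset.mem_map.1 h'; exact hval x
          · split_ifs at h' with h4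
            · exact absurd h' (Multiset.notMem_zero _)
            · obtain ⟨ψ, hψ, rfl⟩ := Multiset.mem_map.1 h'
              obtain ⟨x, -, rfl⟩ := Multiset.mem_map.1 hψ
              exact hdualmem _ (hval x)
        have h3 : b * u.card = ∑ φ ∈ Φ, b * t.1.count φ := by
          rw [← Multiset.sum_count_eq_card (s := Φ) (fun a ha => hu1 (Multiset.mem_toFinset.2 ha)), Finset.mul_sum]
          exact Finset.sum_congr rfl fun φ hφ => by rw [h2 φ hφ]
        have h4' : D * m.card = b * u.card := by
          rw [hu, Multiset.card_add, Multiset.card_map, hD]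
          split_ifs
          · rw [Multiset.card_zero, add_zero]
          · rw [Multiset.card_map, Multiset.card_map]; ring
        rw [mul_comm, h4', h3]
        omega
      let w : Sym (Option Pr) N := ⟨m.map some + Multiset.replicate (N - m.card) none, by
        rw [Multiset.card_add, Multiset.card_map, Multiset.card_replicate]; omega⟩
      have hw : w.1.filterMap id = m := by
        show (m.map some + Multiset.replicate (N - m.card) (none : Option Pr)).filterMap id = m
        rw [Multiset.filterMap_add, Multiset.filterMap_map]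
        rw [show (Multiset.replicate (N - m.card) (none : Option Pr)).filterMap id = 0 from ?_, add_zero]
        · exact Multiset.filterMap_some m
        · apply Multiset.eq_zero_of_forall_notMem
          intro a ha
          obtain ⟨b, hb, hb'⟩ := (Multiset.mem_filterMap id _).1 ha
          rw [Multiset.eq_of_mem_replicate hb] at hb'
          cases hb'
      refine ⟨w, Subtype.ext (Multiset.ext.2 fun φ => ?_)⟩
      show (build (w.1.filterMap id)).count φ = t.1.count φ
      rw [hw]
      obtain ⟨hb1, hb2, -⟩ := hbuildT m hmN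
      by_cases hφ : φ ∈ Φ
      · exact hcΦ φ hφ
      · by_cases h1 : φ = one'
        · subst h1
          have e1 := hdegb _ hb1
          have e2 := hdegb _ t.2.1
          rw [hb2] at e1
          rw [t.2.2.1] at e2
          have e3 : ∑ φ ∈ Φ, b * (build m).count φ = ∑ φ ∈ Φ, b * t.1.count φ :=
            Finset.sum_congr rfl fun φ hφ => by rw [hcΦ φ hφ]
          omega
        · rw [Multiset.count_eq_zero.2, Multiset.count_eq_zero.2]
          · exact fun h => hφ (Finset.mem_erase.2 ⟨h1, t.2.1 φ h⟩)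
          · exact fun h => hφ (Finset.mem_erase.2 ⟨h1, hb1 φ h⟩)
  have hcardA : Nat.card A = (N + Fintype.card Pr).choose (Fintype.card Pr) := by
    rw [← Nat.card_congr ((Equiv.ofBijective Γ hΓ).trans (Equiv.ofBijective f hf)), Nat.card_eq_fintype_card,
      Sym.card_sym_eq_choose, Fintype.card_option]
    rw [Nat.add_right_comm, Nat.add_sub_cancel, Nat.add_comm]
    exact Nat.choose_symm_add
  haveI : Finite A := Finite.of_injective Subtype.val Subtype.val_injective
  let one : A := ⟨ConjClasses.mk 1, 1, rfl, one_pow r⟩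
  have h1 : Nat.card {a : A // a ≠ one} = Nat.card A - 1 := by
    haveI : Fintype A := Fintype.ofFinite A
    rw [Nat.card_eq_fintype_card, Fintype.card_subtype_compl, Fintype.card_subtype_eq, Nat.card_eq_fintype_card]
  have hfinal : Nat.card {C : ConjClasses ↥(Cfsg.GU n K q) // ∃ g : ↥(Cfsg.GU n K q), ConjClasses.mk g = C ∧ orderOf g = r} = Nat.card A - 1 := by
    rw [← h1]
    refine Nat.card_congr
      { toFun := fun C => ⟨⟨C.1, by obtain ⟨g, hg, ho⟩ := C.2; exact ⟨g, hg, ho ▸ pow_orderOf_eq_one g⟩⟩, fun h => by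
          obtain ⟨g, hg, ho⟩ := C.2
          have h' : ConjClasses.mk g = ConjClasses.mk 1 := hg.trans (congrArg Subtype.val h)
          have := isConj_one_left.1 (ConjClasses.mk_eq_mk_iff_isConj.1 h')
          rw [this, orderOf_one] at ho
          exact hr.ne_one ho.symm⟩
        invFun := fun a => ⟨a.1.1, by
          obtain ⟨g, hg, hp⟩ := a.1.2
          refine ⟨g, hg, orderOf_eq_prime hp ?_⟩
          intro h1
          exact a.2 (Subtype.ext (by rw [← hg, h1]))⟩
        left_inv := fun C => rfl
        right_inv := fun a => rfl }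
  rw [hfinal, hcardA, hPcard]
  by_cases h4 : i % 4 = 2
  · rw [if_pos h4, if_pos h4]
    have e : 2 * n / i = N := by
      rw [hN, hD, if_pos h4, hb, if_neg (fun ho : Odd i => by obtain ⟨j, hj⟩ := ho; omega)]
      obtain ⟨j, hj⟩ : ∃ j, i = 2 * j := ⟨i / 2, by omega⟩
      rw [hj, Nat.mul_div_mul_left _ _ two_pos, Nat.mul_div_cancel_left _ two_pos]
    rw [e]
  · rw [if_neg h4, if_neg h4]
    have e : n / (2 * b) = N := by rw [hN, hD, if_neg h4]
    rw [e]

end Cfsg.Agent.S2671
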