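import Cfsg.Statements.S2677
import Mathlib
import Cfsg.Agent.S2672
import Cfsg.Agent.Lib.Unitary.Order

set_option autoImplicit false
open Cfsg

namespace Cfsg.Agent.S2677

open Cfsg.Agent.S2670 (sc sc_val)

/-- Centraliser of a field automorphism of odd prime order in PGU_n(q): let q = q₀^r with r an odd prime, K the field with q² elements and σ a field automorphism of K of order r (fixed field of order q₀²). The elements g of GU_n(q) whose entrywise image under σ is a scalar multiple of g — those whose coset modulo the q + 1 unitary scalars is fixed by σ — number (q + 1)/(q₀ + 1) · |GU_n(q₀)|; equivalently the centraliser in PGU_n(q) of the induced automorphism has the order of PGU_n(q₀). -/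
theorem result {K : Type*} [Field K] [Fintype K] {q₀ q r n : ℕ} (hr : r.Prime) (hr2 : r ≠ 2) (hn : 1 ≤ n) (hq : q = q₀ ^ r) (hK : Fintype.card K = q ^ 2) (σ : K ≃+* K) (hσ : orderOf σ = r) : (Nat.card {g : ↥(Cfsg.GU n K q) // ∃ c : K, c ≠ 0 ∧ ((g : GL (Fin n) K) : Matrix (Fin n) (Fin n) K).map σ = c • ((g : GL (Fin n) K) : Matrix (Fin n) (Fin n) K)} : ℤ) = ((q + 1) / (q₀ + 1) : ℕ) * ((q₀ : ℤ) ^ (n * (n - 1) / 2) * ∏ i : Fin n, ((q₀ : ℤ) ^ ((i : ℕ) + 1) - (-1) ^ ((i : ℕ) + 1))) := by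
  classical
  haveI : NeZero n := ⟨by omega⟩
  haveI := Fact.mk hr
  let H : Subgroup (K ≃+* K) := Subgroup.zpowers σ
  haveI : Finite (K ≃+* K) := Finite.of_injective (fun f => (f : K → K)) DFunLike.coe_injective
  haveI : Fintype H := Fintype.ofFinite H
  let L := FixedPoints.subfield H K
  haveI : Fintype L := Fintype.ofFinite L
  have hmemL : ∀ x : K, x ∈ L ↔ σ x = x := by
    intro x
    constructor
    · intro h; exact h ⟨σ, Subgroup.mem_zpowers σ⟩
    · intro h g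
      have hs : σ ∈ MulAction.stabilizer (K ≃+* K) x := h
      exact Subgroup.zpowers_le.2 hs g.2
  have hLcard : Fintype.card L = q₀ ^ 2 := by
    have h1 := Module.card_eq_pow_finrank (K := L) (V := K)
    rw [FixedPoints.finrank_eq_card H K, ← Nat.card_eq_fintype_card (α := H), Nat.card_zpowers, hσ, hK, hq, pow_right_comm] at h1
    exact (Nat.pow_left_injective hr.ne_zero h1).symm
  have hq₀ := CfsgLib.Unitary.FieldNorm.two_le_q hLcard
  obtain ⟨κ, hκ, hκκ⟩ := CfsgLib.Unitary.FieldNorm.exists_conj hK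
  obtain ⟨κ₀, hκ₀, hκκ₀⟩ := CfsgLib.Unitary.FieldNorm.exists_conj hLcard
  obtain ⟨s', hs'⟩ : ∃ s', r = 2 * s' + 1 := (hr.odd_of_ne_two hr2)
  have hsq : ∀ (j : ℕ) (x : L), x ^ ((q₀ ^ 2) ^ j) = x := by
    intro j x
    rw [← hLcard]
    exact FiniteField.pow_card_pow j x
  have hLq : ∀ x : L, x ^ q = x ^ q₀ := by
    intro x
    rw [hq, hs', pow_succ, pow_mul, pow_mul, hsq]
  have hκL : ∀ x : L, κ (x : K) = ((κ₀ x : L) : K) := by
    intro x
    rw [hκ, hκ₀, ← hLq x]
    rfl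
  have hLfix : ∀ x : L, σ (x : K) = (x : K) := fun x => (hmemL x).1 x.2
  let ι : GL (Fin n) L →* GL (Fin n) K := Matrix.GeneralLinearGroup.map L.subtype
  have hι : ∀ h : GL (Fin n) L, ((ι h : GL (Fin n) K) : Matrix (Fin n) (Fin n) K) = (h : Matrix (Fin n) (Fin n) L).map L.subtype := fun h => rfl
  have hιinj : Function.Injective ι := fun a b h => Units.ext (Matrix.map_injective L.subtype.injective (congrArg Units.val h))
  have hadjι : ∀ M : Matrix (Fin n) (Fin n) L, CfsgLib.Unitary.Conj.adj κ (M.map L.subtype) = (CfsgLib.Unitary.Conj.adj κ₀ M).map L.subtype := by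
    intro M; ext a b; exact hκL (M b a)
  have hιmem : ∀ h : GL (Fin n) L, ι h ∈ Cfsg.GU n K q ↔ h ∈ Cfsg.GU n L q₀ := by
    intro h
    rw [CfsgLib.Unitary.Conj.mem_GU hK hκ, CfsgLib.Unitary.Conj.mem_GU hLcard hκ₀, hι, hadjι, ← Matrix.map_mul]
    constructor
    · intro h1; exact Matrix.map_injective L.subtype.injective (h1.trans (Matrix.map_one _ L.subtype.map_zero L.subtype.map_one).symm)
    · intro h1; rw [h1, Matrix.map_one _ L.subtype.map_zero L.subtype.map_one]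
  let U : Subgroup Kˣ := (powMonoidHom (q + 1) : Kˣ →* Kˣ).ker
  let U₀ : Subgroup Lˣ := (powMonoidHom (q₀ + 1) : Lˣ →* Lˣ).ker
  have hU : ∀ a : U, (a : Kˣ) ^ (q + 1) = 1 := fun a => a.2
  let j : Lˣ →* Kˣ := Units.map L.subtype.toMonoidHom
  have hLq1 : ∀ a : Lˣ, a ^ (q + 1) = a ^ (q₀ + 1) := fun a => Units.ext (by rw [Units.val_pow_eq_pow_val, Units.val_pow_eq_pow_val, pow_succ, pow_succ, hLq])
  have hjU : ∀ a : U₀, j a ∈ U := fun a => by
    show j a ^ (q + 1) = 1
    rw [← map_pow, hLq1, show (a : Lˣ) ^ (q₀ + 1) = 1 from a.2, map_one]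
  let S := {g : ↥(Cfsg.GU n K q) // ∃ c : K, c ≠ 0 ∧ ((g : GL (Fin n) K) : Matrix (Fin n) (Fin n) K).map σ = c • ((g : GL (Fin n) K) : Matrix (Fin n) (Fin n) K)}
  have hval : ∀ (a : Kˣ) (h : GL (Fin n) L) (x y : Fin n), ((sc n a * ι h : GL (Fin n) K) : Matrix (Fin n) (Fin n) K) x y = (a : K) * (((h : Matrix (Fin n) (Fin n) L) x y : L) : K) := by
    intro a h x y
    rw [Units.val_mul, sc_val, Matrix.scalar_apply, Matrix.diagonal_mul, hι]
    rfl
  have hσU : ∀ a : U, (σ (a : Kˣ) / ((a : Kˣ) : K)) ≠ 0 := fun a => div_ne_zero (by simp) (a : Kˣ).ne_zero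
  let Φ : U × ↥(Cfsg.GU n L q₀) → S := fun x =>
    ⟨⟨sc n (x.1 : Kˣ) * ι x.2, mul_mem ((Cfsg.Agent.S2672.sc_mem_iff hK hκ _).2 (hU x.1)) ((hιmem _).2 x.2.2)⟩,
      σ ((x.1 : Kˣ) : K) / ((x.1 : Kˣ) : K), hσU x.1, by
        ext a b
        show σ (((sc n (x.1 : Kˣ) * ι x.2 : GL (Fin n) K) : Matrix (Fin n) (Fin n) K) a b) = _ * ((sc n (x.1 : Kˣ) * ι x.2 : GL (Fin n) K) : Matrix (Fin n) (Fin n) K) a b
        rw [hval, map_mul, hLfix, ← mul_assoc, div_mul_cancel₀ _ (x.1 : Kˣ).ne_zero]⟩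
  have hsurj : Function.Surjective Φ := by
    rintro ⟨⟨g, hg⟩, c, hc, hgc⟩
    set M : Matrix (Fin n) (Fin n) K := (g : Matrix (Fin n) (Fin n) K) with hM
    have hgc' : ∀ a b, σ (M a b) = c * M a b := fun a b => congrFun (congrFun hgc a) b
    obtain ⟨i₀, j₀, hb⟩ : ∃ a b, M a b ≠ 0 := by
      by_contra hno
      push Not at hno
      apply ((Matrix.isUnit_iff_isUnit_det _).1 g.isUnit).ne_zero
      exact Matrix.det_eq_zero_of_row_eq_zero 0 (fun k => hno 0 k)
    have hM1 := (CfsgLib.Unitary.Conj.mem_GU hK hκ g).1 hg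
    have hκσ : ∀ x, κ (σ x) = σ (κ x) := fun x => by rw [hκ, hκ, map_pow]
    have hcU : κ c * c = 1 := by
      have h1 : ∀ x, σ ((CfsgLib.Unitary.Conj.adj κ M * M) x x) = κ c * c * (CfsgLib.Unitary.Conj.adj κ M * M) x x := by
        intro x
        simp only [Matrix.mul_apply, CfsgLib.Unitary.Conj.adj, Matrix.transpose_apply, Matrix.map_apply, map_sum, map_mul, ← hκσ, hgc', Finset.mul_sum]
        exact Finset.sum_congr rfl fun y _ => by ring
      have := h1 0
      rw [hM1, Matrix.one_apply_eq, map_one, mul_one] at this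
      exact this.symm
    set b := M i₀ j₀ with hbdef
    have hbq : b ^ (q + 1) ∈ L := by
      rw [hmemL, pow_succ, ← hκ, map_mul, ← hκσ, hbdef, hgc', map_mul]
      linear_combination κ (M i₀ j₀) * M i₀ j₀ * hcU
    let N : Lˣ := Units.mk0 ⟨b ^ (q + 1), hbq⟩ (fun h => pow_ne_zero (q + 1) hb (congrArg Subtype.val h))
    have hNfix : N ∈ (powMonoidHom (q₀ + 1) : Lˣ →* Lˣ).range := by
      rw [CfsgLib.Unitary.FieldNorm.range_eq_ker hLcard, MonoidHom.mem_ker, powMonoidHom_apply]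
      have h1 : N ^ q₀ = N := by
        refine Units.ext ?_
        rw [Units.val_pow_eq_pow_val, ← hLq]
        refine Subtype.ext ?_
        show (b ^ (q + 1)) ^ q = b ^ (q + 1)
        rw [← hκ, map_pow, pow_succ, ← hκ, hκκ, hκ (b), ← pow_succ', pow_succ]
      have h2 : N ^ (q₀ - 1) * N = 1 * N := by rw [← pow_succ, Nat.sub_add_cancel (by omega : 1 ≤ q₀), h1, one_mul]
      exact mul_right_cancel h2
    obtain ⟨l, hl⟩ := hNfix
    rw [powMonoidHom_apply] at hl
    let a : Kˣ := Units.mk0 b hb * (j l)⁻¹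
    have ha : a ^ (q + 1) = 1 := by
      rw [mul_pow, inv_pow, ← map_pow, hLq1, hl, mul_inv_eq_one]
      exact Units.ext (by rw [Units.val_pow_eq_pow_val]; rfl)
    have hσa : σ (a : K) = c * (a : K) := by
      show σ ((b : K) * ((j l)⁻¹ : Kˣ)) = c * ((b : K) * ((j l)⁻¹ : Kˣ))
      rw [map_mul, hbdef, hgc', ← map_inv, mul_assoc]
      congr 2
      exact hLfix _
    have hc' := hc
    have hfix : ∀ x y, (a : K)⁻¹ * M x y ∈ L := fun x y => by
      rw [hmemL, map_mul, map_inv₀, hσa, hgc']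
      field_simp
    let h₀ : Matrix (Fin n) (Fin n) L := fun x y => ⟨_, hfix x y⟩
    have hh₀ : h₀.map L.subtype = (a : K)⁻¹ • M := rfl
    have hdet : IsUnit h₀ := by
      rw [Matrix.isUnit_iff_isUnit_det, isUnit_iff_ne_zero]
      intro h0
      have h1 : (h₀.map L.subtype).det = 0 := by rw [← RingHom.mapMatrix_apply, ← RingHom.map_det, h0, map_zero]
      rw [hh₀, Matrix.det_smul, mul_eq_zero] at h1
      rcases h1 with h1 | h1
      · exact pow_ne_zero _ (inv_ne_zero a.ne_zero) h1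
      · exact ((Matrix.isUnit_iff_isUnit_det _).1 g.isUnit).ne_zero h1
    have hgeq : g = sc n a * ι hdet.unit := by
      refine Units.ext ?_
      ext x y
      rw [hval, IsUnit.unit_spec]
      show M x y = (a : K) * ((a : K)⁻¹ * M x y)
      rw [mul_inv_cancel_left₀ a.ne_zero]
    have hmem : hdet.unit ∈ Cfsg.GU n L q₀ := by
      rw [← hιmem, show ι hdet.unit = (sc n a)⁻¹ * g by rw [hgeq, inv_mul_cancel_left]]
      exact mul_mem (inv_mem ((Cfsg.Agent.S2672.sc_mem_iff hK hκ _).2 ha)) hg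
    exact ⟨(⟨a, ha⟩, ⟨_, hmem⟩), Subtype.ext (Subtype.ext hgeq.symm)⟩
  choose sec hsec using hsurj
  let Θ : S × U₀ → U × ↥(Cfsg.GU n L q₀) := fun x =>
    ((sec x.1).1 * ⟨j x.2, hjU x.2⟩, ⟨sc n ((x.2 : Lˣ))⁻¹, (Cfsg.Agent.S2672.sc_mem_iff hLcard hκ₀ _).2 (by rw [inv_pow, show (x.2 : Lˣ) ^ (q₀ + 1) = 1 from x.2.2, inv_one])⟩ * (sec x.1).2)
  have hιsc : ∀ a : Lˣ, ι (sc n a) = sc n (j a) := fun a => Units.ext (by
    rw [hι, sc_val, sc_val, Matrix.scalar_apply, Matrix.scalar_apply, Matrix.diagonal_map L.subtype.map_zero]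
    rfl)
  have hΦΘ : ∀ x, Φ (Θ x) = x.1 := by
    rintro ⟨s, u⟩
    refine Eq.trans (Subtype.ext (Subtype.ext ?_)) (hsec s)
    show sc n (((sec s).1 : Kˣ) * j u) * ι (sc n (u : Lˣ)⁻¹ * ((sec s).2 : GL (Fin n) L)) = sc n ((sec s).1 : Kˣ) * ι ((sec s).2 : GL (Fin n) L)
    rw [map_mul ι, hιsc, ← mul_assoc, ← map_mul, map_inv, mul_inv_cancel_right]
  have hjinj : Function.Injective j := Units.map_injective L.subtype.injective
  have hΘ : Function.Bijective Θ := by
    constructor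
    · intro x y hxy
      have h1 : x.1 = y.1 := by rw [← hΦΘ x, ← hΦΘ y, hxy]
      refine Prod.ext h1 ?_
      have h2 := congrArg Prod.fst hxy
      simp only [Θ, h1] at h2
      exact Subtype.ext (hjinj (congrArg Subtype.val (mul_left_cancel h2)))
    · rintro ⟨a, h⟩
      set s := Φ (a, h) with hs
      have h1 : sc n ((sec s).1 : Kˣ) * ι ((sec s).2 : GL (Fin n) L) = sc n (a : Kˣ) * ι (h : GL (Fin n) L) :=
        congrArg (fun z : S => ((z.1 : ↥(Cfsg.GU n K q)) : GL (Fin n) K)) (hsec s)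
      obtain ⟨x, y, hxy⟩ : ∃ x y, ((h : GL (Fin n) L) : Matrix (Fin n) (Fin n) L) x y ≠ 0 := by
        by_contra hno
        push Not at hno
        apply ((Matrix.isUnit_iff_isUnit_det _).1 (h : GL (Fin n) L).isUnit).ne_zero
        exact Matrix.det_eq_zero_of_row_eq_zero 0 (fun k => hno 0 k)
      have h2 := congrArg (fun z : GL (Fin n) K => (z : Matrix (Fin n) (Fin n) K) x y) h1
      simp only [hval] at h2
      set a' : Kˣ := ((sec s).1 : Kˣ) with ha'
      set u : K := (((((sec s).2 : GL (Fin n) L) : Matrix (Fin n) (Fin n) L) x y : L) : K) with hu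
      set v : K := ((((h : GL (Fin n) L) : Matrix (Fin n) (Fin n) L) x y : L) : K) with hv
      have hv0 : v ≠ 0 := fun e => hxy (Subtype.ext e)
      have hmemr : ((a : Kˣ) : K) / (a' : K) ∈ L := by
        have e : ((a : Kˣ) : K) / (a' : K) = u / v := by rw [div_eq_div_iff a'.ne_zero hv0]; linear_combination -h2
        rw [e]
        exact div_mem (SetLike.coe_mem _) (SetLike.coe_mem _)
      let l : Lˣ := Units.mk0 ⟨_, hmemr⟩ (fun e => div_ne_zero (Units.ne_zero _) a'.ne_zero (congrArg Subtype.val e))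
      have hjl : j l = (a'⁻¹ * (a : Kˣ) : Kˣ) := Units.ext (by
        show ((a : Kˣ) : K) / (a' : K) = ((a'⁻¹ * (a : Kˣ) : Kˣ) : K)
        rw [Units.val_mul, Units.val_inv_eq_inv_val, div_eq_inv_mul])
      have hl : l ∈ U₀ := by
        show l ^ (q₀ + 1) = 1
        apply hjinj
        rw [← hLq1, map_pow, map_one, hjl, mul_pow, inv_pow, hU a, ha', hU (sec s).1, inv_one, mul_one]
      refine ⟨(s, ⟨l, hl⟩), Prod.ext ?_ ?_⟩
      · refine Subtype.ext ?_
        show a' * j l = (a : Kˣ)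
        rw [hjl, mul_inv_cancel_left]
      · refine Subtype.ext ?_
        show sc n l⁻¹ * ((sec s).2 : GL (Fin n) L) = (h : GL (Fin n) L)
        apply hιinj
        rw [map_mul, hιsc, map_inv, hjl, mul_inv_rev, inv_inv, map_mul, mul_assoc, h1, ← mul_assoc, map_inv, inv_mul_cancel, one_mul]
  have hcard := (Nat.card_congr (Equiv.ofBijective Θ hΘ))
  rw [Nat.card_prod, Nat.card_prod, CfsgLib.Unitary.FieldNorm.card_ker_succ hLcard, CfsgLib.Unitary.FieldNorm.card_ker_succ hK,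
    CfsgLib.Unitary.Order.card_GU hLcard] at hcard
  have hdvd : q₀ + 1 ∣ q + 1 := by
    rw [hq]
    simpa using (hr.odd_of_ne_two hr2).nat_add_dvd_pow_add_pow q₀ 1
  have hS : Nat.card S = (q + 1) / (q₀ + 1) * (q₀ ^ (n * (n - 1) / 2) * ∏ i ∈ Finset.range n, (if Even i then q₀ ^ (i + 1) + 1 else q₀ ^ (i + 1) - 1)) := by
    obtain ⟨k, hk⟩ := hdvd
    rw [hk, Nat.mul_div_cancel_left _ (Nat.succ_pos _)]
    rw [hk, mul_comm (Nat.card S), mul_assoc] at hcard
    exact Nat.eq_of_mul_eq_mul_left (Nat.succ_pos _) hcard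
  show (Nat.card S : ℤ) = _
  rw [hS]
  push_cast
  rw [Finset.prod_range]
  congr 2
  refine Finset.prod_congr rfl fun i _ => ?_
  split_ifs with h
  · rw [(Even.add_one h).neg_one_pow, sub_neg_eq_add]
  · rw [Nat.cast_sub (Nat.one_le_pow _ _ (by omega)), Nat.cast_pow, Nat.cast_one, (Nat.even_add_one.2 h).neg_one_pow]

end Cfsg.Agent.S2677
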