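import Cfsg.Statements.S2678
import Cfsg.Agent.Lib.Symplectic.Embed
import Cfsg.Agent.Lib.Geometry.FieldEmbed

set_option autoImplicit false
open Cfsg

namespace Cfsg.Agent.S2678

open scoped Matrix

/-- Field-extension embedding of symplectic groups: for a field K with q² elements and a field F with q elements there is an injective homomorphism Sp_2a(K) → Sp_4a(F). -/
theorem result {K F : Type*} [Field K] [Fintype K] [Field F] [Fintype F] {q : ℕ} (hK : Fintype.card K = q ^ 2) (hF : Fintype.card F = q) (a : ℕ) : ∃ φ : ↥(Matrix.symplecticGroup (Fin a) K) →* ↥(Matrix.symplecticGroup (Fin (2 * a)) F), Function.Injective φ := by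
  classical
  obtain ⟨_, hd⟩ := CfsgLib.Geometry.FieldEmbed.exists_algebra hK hF
  haveI : FiniteDimensional F K := FiniteDimensional.of_finrank_eq_succ hd
  let b : Module.Basis (Fin 2) F K := Module.finBasisOfFinrankEq F K hd
  let lam : K →ₗ[F] F := b.coord 0
  -- the dual coordinates
  let D : K →ₗ[F] (Fin 2 → F) := LinearMap.pi fun k => lam.comp (LinearMap.mulLeft F (b k))
  have hlam : ∀ x y : K, lam (x * y) = ∑ k, b.repr x k * D y k := by
    intro x y
    conv_lhs => rw [← b.sum_repr x, Finset.sum_mul, map_sum]
    refine Finset.sum_congr rfl fun k _ => ?_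
    rw [smul_mul_assoc, map_smul, smul_eq_mul]
    rfl
  have hDinj : Function.Injective D := by
    rw [← LinearMap.ker_eq_bot, LinearMap.ker_eq_bot']
    intro y hy
    by_contra hy0
    have := hlam (b 0 * y⁻¹) y
    rw [hy, mul_assoc, inv_mul_cancel₀ hy0, mul_one] at this
    simp [lam] at this
  let De : K ≃ₗ[F] (Fin 2 → F) := LinearEquiv.ofBijective D ⟨hDinj,
    (LinearMap.injective_iff_surjective_of_finrank_eq_finrank (by rw [hd, Module.finrank_fin_fun])).1 hDinj⟩
  let e : Fin a × Fin 2 ≃ Fin (2 * a) := finProdFinEquiv.trans (finCongr (Nat.mul_comm a 2))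
  let E : (Fin a ⊕ Fin a → K) ≃ₗ[F] (Fin (2 * a) ⊕ Fin (2 * a) → F) :=
    { toFun := fun u => Sum.elim (fun i => b.repr (u (Sum.inl (e.symm i).1)) (e.symm i).2)
        (fun i => De (u (Sum.inr (e.symm i).1)) (e.symm i).2)
      invFun := fun w => Sum.elim (fun i => b.equivFun.symm fun k => w (Sum.inl (e (i, k))))
        (fun i => De.symm fun k => w (Sum.inr (e (i, k))))
      map_add' := fun u v => by funext i; rcases i with i | i <;> simp
      map_smul' := fun c u => by funext i; rcases i with i | i <;> simp
      left_inv := fun u => by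
        funext i
        rcases i with i | i <;> simp only [Sum.elim_inl, Sum.elim_inr, Equiv.symm_apply_apply]
        · rw [LinearEquiv.symm_apply_eq]; rfl
        · rw [LinearEquiv.symm_apply_eq]
      right_inv := fun w => by
        funext i
        rcases i with i | i <;> simp only [Sum.elim_inl, Sum.elim_inr]
        · rw [← Module.Basis.equivFun_apply, LinearEquiv.apply_symm_apply]; simp
        · rw [LinearEquiv.apply_symm_apply]; simp }
  have hE : ∀ u v, CfsgLib.Symplectic.Basic.B (E u) (E v) = lam (CfsgLib.Symplectic.Basic.B u v) := by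
    intro u v
    rw [CfsgLib.Symplectic.Basic.B_expand, CfsgLib.Symplectic.Basic.B_expand, map_sum, ← Equiv.sum_comp e,
      Fintype.sum_prod_type]
    refine Finset.sum_congr rfl fun i _ => ?_
    rw [map_sub, hlam (u (Sum.inl i)), mul_comm (u (Sum.inr i)), hlam (v (Sum.inl i)), ← Finset.sum_sub_distrib]
    refine Finset.sum_congr rfl fun k _ => ?_
    simp only [E, LinearEquiv.coe_mk, LinearMap.coe_mk, AddHom.coe_mk, Sum.elim_inl, Sum.elim_inr, Equiv.symm_apply_apply]
    show De _ _ * _ - _ * De _ _ = _ * De _ _ - _ * De _ _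
    ring
  exact CfsgLib.Symplectic.Embed.exists_hom (Submonoid.subtype _) Subtype.val_injective E fun g u v => by
    rw [hE, hE, Submonoid.subtype_apply, CfsgLib.Symplectic.Basic.B_map]

end Cfsg.Agent.S2678
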