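import Cfsg.Statements.S2679
import Cfsg.Agent.Lib.QuadClass.Witt
import Cfsg.Agent.Lib.Geometry.QuadBasic
import Cfsg.Agent.Lib.Orth.Binary

set_option autoImplicit false
open Cfsg

namespace Cfsg.Agent.S2679

open Polynomial
open scoped Matrix

/-- An elliptic orthogonal group embeds in the hyperbolic orthogonal group of the same dimension over the quadratic extension: for a field F with q elements and a field K with q² elements there is an injective homomorphism from O⁻_2m(F) (isometries of Σ_(j<m−1) x_j y_j + z₁² + a z₁z₂ + c z₂², binary part anisotropic) to O⁺_2m(K) (isometries of Σ_(j<m) x_j y_j over K). -/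
theorem result {F K : Type*} [Field F] [Fintype F] [Field K] [Fintype K] {q : ℕ} (hF : Fintype.card F = q) (hK : Fintype.card K = q ^ 2) {m : ℕ} (hm : 1 ≤ m) (a c : F) (hac : ∀ z₁ z₂ : F, z₁ ^ 2 + a * z₁ * z₂ + c * z₂ ^ 2 = 0 → z₁ = 0 ∧ z₂ = 0) : ∃ φ : ↥(Cfsg.isometryGroup F (Cfsg.quadFormMinus (m - 1) F a c)) →* ↥(Cfsg.isometryGroup K (Cfsg.quadFormPlus m K)), Function.Injective φ := by
  classical
  obtain ⟨k, rfl⟩ : ∃ k, m = k + 1 := ⟨m - 1, by omega⟩
  set P : F[X] := X ^ 2 + (C a * X + C c) with hP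
  have hd : P.natDegree = 2 := by rw [hP]; compute_degree!
  have hirr : Irreducible P := by
    refine (Polynomial.irreducible_iff_roots_eq_zero_of_degree_le_three (by omega) (by omega)).2 ?_
    refine Multiset.eq_zero_of_forall_notMem fun x hx => ?_
    obtain ⟨-, hx⟩ := Polynomial.mem_roots'.1 hx
    simp [hP] at hx
    exact one_ne_zero (hac x 1 (by linear_combination hx)).2
  haveI := Fact.mk hirr
  let pb := AdjoinRoot.powerBasis hirr.ne_zero
  haveI : Module.Finite F (AdjoinRoot P) := pb.finite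
  haveI : Finite (AdjoinRoot P) := Module.finite_of_finite F
  haveI := Fintype.ofFinite (AdjoinRoot P)
  have hcard : Fintype.card (AdjoinRoot P) = Fintype.card K := by
    rw [Module.card_eq_pow_finrank (K := F), pb.finrank, AdjoinRoot.powerBasis_dim, hd, hF, hK]
  let ε : AdjoinRoot P ≃+* K := FiniteField.ringEquivOfCardEq hcard
  let φ : F →+* K := ε.toRingHom.comp (AdjoinRoot.of P)
  set r := ε (AdjoinRoot.root P) with hr
  have hroot : r ^ 2 + φ a * r + φ c = 0 := by
    have h := AdjoinRoot.eval₂_root P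
    have h' := congrArg ε h
    simp only [hP, eval₂_add, eval₂_mul, eval₂_pow, eval₂_X, eval₂_C, map_add, map_mul, map_pow, map_zero] at h'
    rw [hr]; simpa [φ, add_assoc] using h'
  set s : K := -φ a - r with hs
  -- the equivalence over K
  have hrs : r ≠ s := by
    intro e
    have h2r : 2 * r = -φ a := by rw [hs] at e; linear_combination e
    have hr0 : ∀ x : F, φ x ≠ r := fun x hx => by
      have h0 : φ (x ^ 2 + a * x * 1 + c * 1 ^ 2) = φ 0 := by
        simp only [map_add, map_mul, map_pow, map_one, map_zero, hx]; linear_combination hroot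
      exact one_ne_zero (hac x 1 (φ.injective h0)).2
    by_cases h2 : (2 : F) = 0
    · have ha0 := CfsgLib.Orth.Binary.a_ne_zero_of_char_two hac h2
      have hK2 : (2 : K) = 0 := by rw [← map_ofNat φ 2, h2, map_zero]
      rw [hK2, zero_mul] at h2r
      exact ha0 (φ.injective (by rw [map_zero]; linear_combination h2r))
    · refine hr0 (-a / 2) ?_
      rw [map_div₀, map_neg, map_ofNat, ← h2r, mul_div_cancel_left₀]
      rw [← map_ofNat φ 2]; exact fun e => h2 (φ.injective (by rw [e, map_zero]))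
  let L : ((Fin k ⊕ Fin k) ⊕ Fin 2 → K) →ₗ[K] (K × K) × (Fin k ⊕ Fin k → K) :=
    (((LinearMap.proj (Sum.inr 0) : ((Fin k ⊕ Fin k) ⊕ Fin 2 → K) →ₗ[K] K) - r • LinearMap.proj (Sum.inr 1)).prod
      ((LinearMap.proj (Sum.inr 0) : ((Fin k ⊕ Fin k) ⊕ Fin 2 → K) →ₗ[K] K) - s • LinearMap.proj (Sum.inr 1))).prod
      (LinearMap.funLeft K K Sum.inl)
  have hinj : Function.Injective L := by
    rw [← LinearMap.ker_eq_bot, LinearMap.ker_eq_bot']
    intro v hv
    have h1 : v (Sum.inr 0) - r * v (Sum.inr 1) = 0 := congrArg (fun p => p.1.1) hv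
    have h2 : v (Sum.inr 0) - s * v (Sum.inr 1) = 0 := congrArg (fun p => p.1.2) hv
    have hv1 : v (Sum.inr 1) = 0 := by
      have : (r - s) * v (Sum.inr 1) = 0 := by linear_combination h2 - h1
      exact (mul_eq_zero.1 this).resolve_left (sub_ne_zero.2 hrs)
    rw [hv1, mul_zero, sub_zero] at h1
    funext t
    rcases t with t | t
    · exact congrFun (congrArg (fun p => p.2) hv) t
    · fin_cases t
      exacts [h1, hv1]
  let E : ((Fin k ⊕ Fin k) ⊕ Fin 2 → K) ≃ₗ[K] (Fin (k + 1) ⊕ Fin (k + 1) → K) :=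
    (LinearEquiv.ofInjectiveOfFinrankEq L hinj (by simp [Module.finrank_prod]; omega)).trans
      (CfsgLib.Orth.Models.plusE K k).symm
  have hE : ∀ v, Cfsg.quadFormPlus (k + 1) K (E v) = Cfsg.quadFormMinus k K (φ a) (φ c) v := by
    intro v
    rw [← CfsgLib.Orth.Models.plusQ_apply, ← CfsgLib.Orth.Models.plusE_spec]
    show CfsgLib.Orth.Hyperbolic.ext (CfsgLib.Orth.Models.plusQ K k)
      (CfsgLib.Orth.Models.plusE K k ((CfsgLib.Orth.Models.plusE K k).symm (L v))) = _
    rw [LinearEquiv.apply_symm_apply, CfsgLib.Orth.Hyperbolic.ext_apply, CfsgLib.Orth.Models.plusQ_apply,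
      Cfsg.quadFormPlus, Cfsg.quadFormMinus]
    simp only [L, hs, LinearMap.prod_apply, Function.prod_apply, Pi.prod, LinearMap.sub_apply, LinearMap.smul_apply, LinearMap.proj_apply,
      LinearMap.funLeft_apply, smul_eq_mul]
    linear_combination (-(v (Sum.inr 1)) ^ 2) * hroot
  -- transport
  let op : Matrix ((Fin k ⊕ Fin k) ⊕ Fin 2) ((Fin k ⊕ Fin k) ⊕ Fin 2) F →
      Matrix (Fin (k + 1) ⊕ Fin (k + 1)) (Fin (k + 1) ⊕ Fin (k + 1)) K := fun g =>
    LinearMap.toMatrix' (E.toLinearMap ∘ₗ Matrix.mulVecLin (g.map φ) ∘ₗ E.symm.toLinearMap)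
  have hop : ∀ g x, op g *ᵥ x = E ((g.map φ) *ᵥ E.symm x) := fun g x => by
    simp only [op, LinearMap.toMatrix'_mulVec]; rfl
  have hopmul : ∀ g h, op (g * h) = op g * op h := fun g h => Matrix.toLin'.injective (LinearMap.ext fun x => by
    simp only [Matrix.toLin'_apply, ← Matrix.mulVec_mulVec, hop, LinearEquiv.symm_apply_apply, Matrix.map_mul])
  have hopone : op 1 = 1 := Matrix.toLin'.injective (LinearMap.ext fun x => by
    simp only [Matrix.toLin'_apply, hop, Matrix.map_one φ (map_zero φ) (map_one φ), Matrix.one_mulVec, LinearEquiv.apply_symm_apply])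
  let ω : Matrix.GeneralLinearGroup ((Fin k ⊕ Fin k) ⊕ Fin 2) F →* Matrix.GeneralLinearGroup (Fin (k + 1) ⊕ Fin (k + 1)) K :=
    Units.map { toFun := op, map_one' := hopone, map_mul' := hopmul }
  refine ⟨(ω.comp (Cfsg.isometryGroup F (Cfsg.quadFormMinus k F a c)).subtype).codRestrict _ fun g => ?_, fun g h hgh => ?_⟩
  · refine (CfsgLib.Geometry.QuadBasic.mem_isometryGroup_iff _ _).2 fun x => ?_
    show Cfsg.quadFormPlus (k + 1) K (op g.1.1 *ᵥ x) = Cfsg.quadFormPlus (k + 1) K x
    conv_rhs => rw [← E.apply_symm_apply x]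
    rw [hop, hE, hE]
    -- the form over K is invariant
    set y := E.symm x
    let Q : QuadraticForm F ((Fin k ⊕ Fin k) ⊕ Fin 2 → F) := CfsgLib.Orth.Models.minusQ k a c
    have hg : ∀ v, Q (g.1.1 *ᵥ v) = Q v := fun v => by
      rw [CfsgLib.Orth.Models.minusQ_apply, CfsgLib.Orth.Models.minusQ_apply]
      exact (CfsgLib.Geometry.QuadBasic.mem_isometryGroup_iff _ g.1).1 g.2 v
    set QK : QuadraticForm K ((Fin k ⊕ Fin k) ⊕ Fin 2 → K) := CfsgLib.Orth.Models.minusQ k (φ a) (φ c) with hQK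
    have hQKapp : ∀ v : (Fin k ⊕ Fin k) ⊕ Fin 2 → F, QK (φ ∘ v) = φ (Q v) := fun v => by
      rw [hQK, CfsgLib.Orth.Models.minusQ_apply, CfsgLib.Orth.Models.minusQ_apply, Cfsg.quadFormMinus, Cfsg.quadFormMinus]
      simp [map_sum]
    have hmap : ∀ v : (Fin k ⊕ Fin k) ⊕ Fin 2 → F, g.1.1.map φ *ᵥ (φ ∘ v) = φ ∘ (g.1.1 *ᵥ v) := fun v => by
      funext i; exact (RingHom.map_mulVec φ g.1.1 v i).symm
    have hexp : QK.comp (Matrix.mulVecLin (g.1.1.map φ)) = QK := by
      refine QuadraticMap.ext fun z => ?_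
      have hbase : ∀ v : (Fin k ⊕ Fin k) ⊕ Fin 2 → F, QK (g.1.1.map φ *ᵥ (φ ∘ v)) = QK (φ ∘ v) := fun v => by
        rw [hmap, hQKapp, hQKapp, hg]
      have hstd : ∀ i, (Pi.single i (1 : K) : (Fin k ⊕ Fin k) ⊕ Fin 2 → K) = φ ∘ Pi.single i 1 := fun i => by
        funext j; by_cases hj : j = i
        · subst hj; simp
        · simp [hj]
      have hsum : ∀ t : Finset ((Fin k ⊕ Fin k) ⊕ Fin 2), ∀ z : (Fin k ⊕ Fin k) ⊕ Fin 2 → K,
          QK (∑ i ∈ t, z i • g.1.1.map φ *ᵥ Pi.single i 1) = QK (∑ i ∈ t, z i • Pi.single i 1) ∧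
          ∀ j, QuadraticMap.polar (⇑QK) (∑ i ∈ t, z i • g.1.1.map φ *ᵥ Pi.single i 1) (g.1.1.map φ *ᵥ Pi.single j 1)
            = QuadraticMap.polar (⇑QK) (∑ i ∈ t, z i • Pi.single i 1) (Pi.single j 1) := by
        intro t z
        have hp : ∀ i j, QuadraticMap.polar (⇑QK) (g.1.1.map φ *ᵥ Pi.single i 1) (g.1.1.map φ *ᵥ Pi.single j 1)
            = QuadraticMap.polar (⇑QK) (Pi.single i (1 : K)) (Pi.single j 1) := fun i j => by
          have h2 := hbase (Pi.single i 1 + Pi.single j 1)
          have e : φ ∘ (Pi.single i 1 + Pi.single j 1 : (Fin k ⊕ Fin k) ⊕ Fin 2 → F)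
              = Pi.single i (1 : K) + Pi.single j 1 := by
            rw [hstd, hstd]; funext l; simp
          rw [e, Matrix.mulVec_add] at h2
          rw [QuadraticMap.polar, QuadraticMap.polar, h2, hstd, hstd, hbase, hbase]
        induction t using Finset.induction_on with
        | empty => simp
        | insert i t hi ih =>
          obtain ⟨ih1, ih2⟩ := ih
          refine ⟨?_, fun j => ?_⟩
          · have hadd : ∀ (c : K) (x A : (Fin k ⊕ Fin k) ⊕ Fin 2 → K),
                QK (c • x + A) = QK A + c * c * QK x + c * QuadraticMap.polar (⇑QK) A x := fun c x A => by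
              rw [add_comm, CfsgLib.Geometry.QuadBasic.map_add_smul, QuadraticMap.polar_comm _ x A]
            rw [Finset.sum_insert hi, Finset.sum_insert hi, hadd, hadd, ih1, ih2, hstd i, hbase]
          · rw [Finset.sum_insert hi, Finset.sum_insert hi, QuadraticMap.polar_add_left, QuadraticMap.polar_add_left,
              QuadraticMap.polar_smul_left, QuadraticMap.polar_smul_left, hp, ih2]
      have hz : z = ∑ i, z i • Pi.single i (1 : K) := (pi_eq_sum_univ' z).trans (Finset.sum_congr rfl fun i _ => rfl)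
      rw [QuadraticMap.comp_apply]
      conv_rhs => rw [hz]
      rw [← (hsum Finset.univ z).1]
      conv_lhs => rw [hz]
      rw [map_sum]; simp only [map_smul, Matrix.mulVecLin_apply]
    have h := QuadraticMap.congr_fun hexp y
    rw [QuadraticMap.comp_apply, hQK, CfsgLib.Orth.Models.minusQ_apply, CfsgLib.Orth.Models.minusQ_apply] at h
    exact h
  · have h1 : op g.1.1 = op h.1.1 := congrArg (fun z : ↥(Cfsg.isometryGroup K (Cfsg.quadFormPlus (k + 1) K)) => z.1.1) hgh
    refine Subtype.ext (Units.ext (Matrix.map_injective φ.injective ?_))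
    refine Matrix.toLin'.injective (LinearMap.ext fun v => ?_)
    have := congrArg (fun M => M *ᵥ E v) h1
    simp only [hop, LinearEquiv.symm_apply_apply, EmbeddingLike.apply_eq_iff_eq] at this
    simpa using this

end Cfsg.Agent.S2679
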