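import Cfsg.Statements.S2682
import Cfsg.Agent.Lib.Symplectic.InvolutionCards

set_option autoImplicit false
open Cfsg

namespace Cfsg.Agent.S2682

open scoped Matrix

/-- Centraliser order of an involution t of Sp_2m(q), q even, with s = rank(t − 1) even and f(v, tv) ≠ 0 for some v, f the symplectic form (type c_s): |C(t)| = q^(2ms − (3s² − 3s)/2 − 1) · |Sp_(s−2)(q)| · |Sp_(2m−2s)(q)|. -/
theorem result {F : Type*} [Field F] [Fintype F] [CharP F 2] {q : ℕ} (hF : Fintype.card F = q) {m s : ℕ} (t : Matrix.symplecticGroup (Fin m) F) (ht : t ^ 2 = 1) (hs : ((t : Matrix (Fin m ⊕ Fin m) (Fin m ⊕ Fin m) F) - 1).rank = s) (heven : Even s) (hna : ∃ v : Fin m ⊕ Fin m → F, Cfsg.sympForm m F v ((t : Matrix (Fin m ⊕ Fin m) (Fin m ⊕ Fin m) F).mulVec v) ≠ 0) : Nat.card ↥(Subgroup.centralizer ({t} : Set ↥(Matrix.symplecticGroup (Fin m) F))) = q ^ (2 * m * s - (3 * s ^ 2 - 3 * s) / 2 - 1) * ((q : ℕ) ^ (((s - 2) / 2) ^ 2) * ∏ i :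 Fin ((s - 2) / 2), (q ^ (2 * ((i : ℕ) + 1)) - 1)) * ((q : ℕ) ^ ((m - s) ^ 2) * ∏ i : Fin (m - s), (q ^ (2 * ((i : ℕ) + 1)) - 1)) := by
  subst hF
  have ht' : t * t = 1 := by rw [← sq]; exact ht
  have hna' : ∃ x, CfsgLib.Symplectic.Basic.B x (CfsgLib.Symplectic.InvolutionClasses.N t x) ≠ 0 := by
    obtain ⟨v, hv⟩ := hna
    refine ⟨v, ?_⟩
    rw [CfsgLib.Symplectic.InvolutionClasses.N_apply, map_sub, CfsgLib.Symplectic.Basic.B_self, sub_zero,
      CfsgLib.Symplectic.Basic.B_eq]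
    exact hv
  have hs0 : s ≠ 0 := by
    intro h0
    obtain ⟨x, hx⟩ := hna'
    rw [h0, CfsgLib.Symplectic.InvolutionClasses.rank_eq, Submodule.finrank_eq_zero, LinearMap.range_eq_bot] at hs
    rw [hs, LinearMap.zero_apply, map_zero] at hx
    exact hx rfl
  have hsm := hs ▸ CfsgLib.Symplectic.InvolutionCards.rank_le ht'
  have he : 2 * m * s - (3 * s ^ 2 - 3 * s) / 2 - 1 = (s - 1) + (2 * m * s - (3 * s ^ 2 - s) / 2) := by
    have h1 : s ≤ s * s := Nat.le_mul_self s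
    have h2 : s * s ≤ m * s := Nat.mul_le_mul_right s hsm
    obtain ⟨k, hk⟩ := heven
    have h3 : s * s = 2 * (k * s) := by rw [hk]; ring
    rw [sq, mul_assoc 2 m s]
    omega
  rw [CfsgLib.Symplectic.InvolutionCentralizer.card_even ht' hs heven hs0 hna',
    CfsgLib.Symplectic.InvolutionCards.exp_eq hsm,
    Fin.prod_univ_eq_prod_range (fun i => Fintype.card F ^ (2 * (i + 1)) - 1),
    Fin.prod_univ_eq_prod_range (fun i => Fintype.card F ^ (2 * (i + 1)) - 1), he, pow_add]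
  ring

end Cfsg.Agent.S2682
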