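import Cfsg.Statements.S2697
import Cfsg.Agent.Lib.AutPSL.Descent
open CfsgLib.AutPSL

set_option autoImplicit false
open Cfsg

namespace Cfsg.Agent.S2697

/-- Let T = PSL_n(F) be simple over a finite field (n ≥ 2; |F| ≥ 4 when n = 2) and let x be a field automorphism or a graph-field automorphism of T of prime order r. Then an element y of the coset Inndiag(T)·x (that is, y = δ x with δ in the inner-diagonal group, the image of PGL_n(F)) has order r if and only if y is conjugate to x by an element of Inndiag(T). -/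
theorem result {F : Type*} [Field F] [Fintype F] {p f : ℕ} [Fact p.Prime] (hF : Fintype.card F = p ^ f) (hf : 1 ≤ f) {n : ℕ} (hn : 2 ≤ n) (hs : n = 2 → 4 ≤ Fintype.card F) (x δ : MulAut (Matrix.ProjectiveSpecialLinearGroup (Fin n) F)) (hx : Cfsg.IsFieldAutClassPSL x ∨ Cfsg.IsGraphFieldAutClassPSL x) {r : ℕ} (hr : r.Prime) (hxr : orderOf x = r) (hδ : δ ∈ Cfsg.inndiagPSL n F) :
    orderOf (δ * x) = r ↔ Cfsg.IsConjUnder (Cfsg.inndiagPSL n F) x (δ * x) := by
  have key : ∀ (ψ : MulAut (Matrix.ProjectiveSpecialLinearGroup (Fin n) F))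
      (h : GL (Fin n) F), x = delta h * ψ * (delta h)⁻¹ →
      (∀ k : GL (Fin n) F, ∃ k', ψ * delta k = delta k' * ψ) →
      (∀ k : GL (Fin n) F, (delta k * ψ) ^ r = 1 → ∃ h, delta k * ψ = delta h * ψ * (delta h)⁻¹) →
      (orderOf (δ * x) = r ↔ Cfsg.IsConjUnder (Cfsg.inndiagPSL n F) x (δ * x)) := by
    intro ψ h hxh hmove hconj
    refine ⟨fun ho => ?_, fun ⟨w, _, hw⟩ => by
      rw [hw, ← MulAut.conj_apply, MulEquiv.orderOf_eq, hxr]⟩
    rw [inndiag_eq_range] at hδ ⊢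
    obtain ⟨d, rfl⟩ := hδ
    obtain ⟨k', hk'⟩ := hmove h⁻¹
    have hdx : delta d * x = delta (d * h * k') * ψ := by
      rw [hxh, map_mul, map_mul, mul_assoc (delta d * delta h), ← hk', map_inv]
      simp only [mul_assoc]
    obtain ⟨h', hh'⟩ := hconj (d * h * k') (by rw [← hdx, ← ho, pow_orderOf_eq_one])
    refine ⟨delta (h' * h⁻¹), ⟨_, rfl⟩, ?_⟩
    rw [hdx, hh', hxh, map_mul, map_inv]
    group
  rcases hx with hx | hx
  · obtain ⟨σ, h, ho, hxh⟩ := CfsgLib.AutPSL.field_class hn hx hxr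
    exact key _ h hxh (fun k => ⟨_, CfsgLib.AutPSL.phi_delta σ k⟩)
      (fun k hk => CfsgLib.AutPSL.field_conj hn ho hk)
  · obtain ⟨rfl, σ, h, ho, hxh⟩ := CfsgLib.AutPSL.graphField_class hx hr hxr
    exact key _ h hxh (fun k => ⟨CfsgLib.AutPSL.glField σ (CfsgLib.AutPSL.glGamma k), by
      rw [mul_assoc, CfsgLib.AutPSL.gamma_delta, ← mul_assoc, CfsgLib.AutPSL.phi_delta, mul_assoc]⟩)
      (fun k hk => CfsgLib.AutPSL.graphField_conj hn ho hk)

end Cfsg.Agent.S2697
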