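import Cfsg.Statements.S2704
import Cfsg.Agent.Lib.AutPSL.Centralizer
open CfsgLib.AutPSL

set_option autoImplicit false
open Cfsg

namespace Cfsg.Agent.S2704

/-- Let T = PSL_n(F) over the field F with p^f elements, n ≥ 3, and G = Inndiag(T) the image of PGL_n(F). If x is an involutory graph-field automorphism of T then f is even; x is G-conjugate to every other involutory graph-field automorphism; C_G(x) is isomorphic to the projective general unitary group PGU_n(q₀) with q₀² = p^f, realised over F itself through the Hermitian form Σ uᵢ vᵢ^{q₀}; and the G-class of x is the union of exactly gcd(n, q₀ − 1) T-classes. -/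
theorem result {F : Type*} [Field F] [Fintype F] {p f : ℕ} [Fact p.Prime] (hF : Fintype.card F = p ^ f) (hf : 1 ≤ f) {n : ℕ} (hn : 3 ≤ n) (x : MulAut (Matrix.ProjectiveSpecialLinearGroup (Fin n) F)) (hx : Cfsg.IsGraphFieldAutClassPSL x) (hx2 : orderOf x = 2) :
    Even f ∧ (∀ y : MulAut (Matrix.ProjectiveSpecialLinearGroup (Fin n) F), Cfsg.IsGraphFieldAutClassPSL y → orderOf y = 2 → Cfsg.IsConjUnder (Cfsg.inndiagPSL n F) x y) ∧ Nonempty (↥(Cfsg.inndiagPSL n F ⊓ Subgroup.centralizer {x}) ≃* Cfsg.PGU n F (p ^ (f / 2))) ∧ Cfsg.splitClassCount (Cfsg.inndiagPSL n F) (Cfsg.Inn (Matrix.ProjectiveSpecialLinearGroup (Fin n) F)) x = Nat.gcd n (p ^ (f / 2) - 1) := by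
  have hn2 : 2 ≤ n := by omega
  obtain ⟨-, σ, h, hσ, rfl⟩ := graphField_class hx Nat.prime_two hx2
  obtain ⟨heven, hpow⟩ := eq_pow_of_order_two hσ hF
  have hq : Fintype.card F = (p ^ (f / 2)) ^ 2 := by
    rw [hF, ← pow_mul, Nat.div_mul_cancel (even_iff_two_dvd.mp heven)]
  obtain ⟨h1, h2⟩ := graphField_main hn2 hσ hq hpow h
  refine ⟨heven, fun y hy hy2 => ?_, h1, h2⟩
  obtain ⟨-, τ, k, hτ, rfl⟩ := graphField_class hy Nat.prime_two hy2
  obtain rfl : τ = σ := RingEquiv.ext fun a => by rw [(eq_pow_of_order_two hτ hF).2, hpow]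
  refine ⟨delta (k * h⁻¹), by rw [inndiag_eq_range]; exact ⟨_, rfl⟩, ?_⟩
  rw [map_mul, map_inv]
  group

end Cfsg.Agent.S2704
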