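import Cfsg.Statements.S2738
import Cfsg.Agent.Lib.Linear.Card
import Cfsg.Agent.Lib.Linear.Generation
open scoped commutatorElement

set_option autoImplicit false
open Cfsg

namespace Cfsg.Agent.S2738

/-- The special linear group SL(3, 4) has centre of order 3 and does not split over it: no subgroup is a complement to the centre (so SL(3, 4) is a non-split central extension of PSL(3, 4) by a group of order 3). -/
theorem result (F : Type*) [Field F] [Fintype F] (hF : Fintype.card F = 4) : Nat.card ↥(Subgroup.center (Matrix.SpecialLinearGroup (Fin 3) F)) = 3 ∧ ¬ ∃ K : Subgroup (Matrix.SpecialLinearGroup (Fin 3) F), Subgroup.IsComplement' (Subgroup.center (Matrix.SpecialLinearGroup (Fin 3) F)) K := by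
  classical
  have hc : Nat.card ↥(Subgroup.center (Matrix.SpecialLinearGroup (Fin 3) F)) = 3 := by
    rw [CfsgLib.Linear.Card.card_center_SL, hF]; rfl
  refine ⟨hc, ?_⟩
  rintro ⟨K, hK⟩
  have htop : K = ⊤ := by
    rw [eq_top_iff, ← CfsgLib.Linear.Generation.commutator_SL_eq_top (ι := Fin 3) (F := F) (Or.inl (by simp))]
    rw [commutator_def, Subgroup.commutator_le]
    intro a _ b _
    obtain ⟨⟨za, ka⟩, ha⟩ := hK.2 a
    obtain ⟨⟨zb, kb⟩, hb⟩ := hK.2 b
    subst ha hb
    have e : ⁅(za : Matrix.SpecialLinearGroup (Fin 3) F) * ka, (zb : Matrix.SpecialLinearGroup (Fin 3) F) * kb⁆ = ⁅(ka : Matrix.SpecialLinearGroup (Fin 3) F), (kb : Matrix.SpecialLinearGroup (Fin 3) F)⁆ := by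
      have h1 := Subgroup.mem_center_iff.1 za.2
      have h2 := Subgroup.mem_center_iff.1 zb.2
      have c1 : ∀ g, Commute (za : Matrix.SpecialLinearGroup (Fin 3) F) g := fun g => (h1 g).symm
      have c2 : ∀ g, Commute (zb : Matrix.SpecialLinearGroup (Fin 3) F) g := fun g => (h2 g).symm
      simp only [commutatorElement_def, mul_inv_rev]
      have e1 : ∀ g, (za : Matrix.SpecialLinearGroup (Fin 3) F) * g * (za : Matrix.SpecialLinearGroup (Fin 3) F)⁻¹ = g := fun g => by rw [(c1 g).eq, mul_inv_cancel_right]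
      have e2 : ∀ g, (zb : Matrix.SpecialLinearGroup (Fin 3) F) * g * (zb : Matrix.SpecialLinearGroup (Fin 3) F)⁻¹ = g := fun g => by rw [(c2 g).eq, mul_inv_cancel_right]
      calc _ = (za : Matrix.SpecialLinearGroup (Fin 3) F) * ((ka : Matrix.SpecialLinearGroup (Fin 3) F) * ((zb : Matrix.SpecialLinearGroup (Fin 3) F) * kb) * (ka : Matrix.SpecialLinearGroup (Fin 3) F)⁻¹) * (za : Matrix.SpecialLinearGroup (Fin 3) F)⁻¹ * ((kb : Matrix.SpecialLinearGroup (Fin 3) F)⁻¹ * (zb : Matrix.SpecialLinearGroup (Fin 3) F)⁻¹) := by group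
        _ = (ka : Matrix.SpecialLinearGroup (Fin 3) F) * ((zb : Matrix.SpecialLinearGroup (Fin 3) F) * kb) * (ka : Matrix.SpecialLinearGroup (Fin 3) F)⁻¹ * ((kb : Matrix.SpecialLinearGroup (Fin 3) F)⁻¹ * (zb : Matrix.SpecialLinearGroup (Fin 3) F)⁻¹) := by rw [e1]
        _ = (zb : Matrix.SpecialLinearGroup (Fin 3) F) * ((ka : Matrix.SpecialLinearGroup (Fin 3) F) * kb * (ka : Matrix.SpecialLinearGroup (Fin 3) F)⁻¹ * (kb : Matrix.SpecialLinearGroup (Fin 3) F)⁻¹) * (zb : Matrix.SpecialLinearGroup (Fin 3) F)⁻¹ := by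
              rw [← mul_assoc (ka : Matrix.SpecialLinearGroup (Fin 3) F), ← (c2 _).eq]; group
        _ = _ := by rw [e2]
    rw [e, commutatorElement_def]
    exact K.mul_mem (K.mul_mem (K.mul_mem ka.2 kb.2) (K.inv_mem ka.2)) (K.inv_mem kb.2)
  have := hK.disjoint.eq_bot
  rw [htop, inf_top_eq] at this
  rw [this, Subgroup.card_bot] at hc
  exact absurd hc (by norm_num)

end Cfsg.Agent.S2738
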