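import Cfsg.Statements.S2739


set_option autoImplicit false
open scoped Pointwise
open Cfsg

namespace Cfsg.Agent.S2739

open scoped Matrix
local notation "SL" => Matrix.SpecialLinearGroup (Fin 3)

theorem cube_eq_one {F : Type*} [Field F] [Fintype F] (hF : Fintype.card F = 4) {r : F} (hr : r ≠ 0) : r ^ 3 = 1 := by
  have := FiniteField.pow_card_sub_one_eq_one r hr
  rwa [hF] at this

theorem no_scalar_cube {F : Type*} [Field F] [Fintype F] (hF : Fintype.card F = 4) (x : SL F) {a : F}
    (h : (x.1 : Matrix (Fin 3) (Fin 3) F) ^ 3 = a • 1) : a = 1 := by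
  have ha0 : a ≠ 0 := by
    intro h0
    have := congrArg Matrix.det h
    rw [Matrix.det_pow, x.2, one_pow, h0, zero_smul, Matrix.det_zero] at this
    exact one_ne_zero this
  by_contra ha
  have hirr : Irreducible (Polynomial.X ^ 3 - Polynomial.C a) :=
    X_pow_sub_C_irreducible_of_prime Nat.prime_three fun b hb => by
      have hb0 : b ≠ 0 := fun h0 => ha0 (by rw [← hb, h0]; simp)
      exact ha (by rw [← hb, cube_eq_one hF hb0])
  have hm : Polynomial.X ^ 3 - Polynomial.C a = minpoly F (x.1 : Matrix (Fin 3) (Fin 3) F) := by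
    refine minpoly.eq_of_irreducible_of_monic hirr ?_ (Polynomial.monic_X_pow_sub_C a (by norm_num))
    rw [map_sub, map_pow, Polynomial.aeval_X, Polynomial.aeval_C, h, Algebra.algebraMap_eq_smul_one, sub_self]
  have hc : (x.1 : Matrix (Fin 3) (Fin 3) F).charpoly = Polynomial.X ^ 3 - Polynomial.C a := by
    refine (Polynomial.eq_of_monic_of_dvd_of_natDegree_le (Polynomial.monic_X_pow_sub_C a (by norm_num))
      (Matrix.charpoly_monic _) (hm ▸ Matrix.minpoly_dvd_charpoly _) ?_)
    rw [Matrix.charpoly_natDegree_eq_dim, Fintype.card_fin, Polynomial.natDegree_X_pow_sub_C]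
  have hd := Matrix.det_eq_sign_charpoly_coeff (x.1 : Matrix (Fin 3) (Fin 3) F)
  rw [x.2, hc, Fintype.card_fin] at hd
  simp only [Polynomial.coeff_sub, Polynomial.coeff_X_pow, Polynomial.coeff_C_zero] at hd
  apply ha
  norm_num at hd
  exact hd.symm

theorem diag_form {F : Type*} [Field F] [Fintype F] (hF : Fintype.card F = 4) (x : SL F) (hx : (x.1 : Matrix (Fin 3) (Fin 3) F) ^ 3 = 1)
    (hns : ∀ a : F, (x.1 : Matrix (Fin 3) (Fin 3) F) ≠ a • 1) (e : Fin 3 → F) (he : Function.Injective e) (he0 : ∀ i, e i ≠ 0) :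
    ∃ P : SL F, x.1 * P.1 = P.1 * Matrix.diagonal e := by
  classical
  haveI : Fact (Nat.Prime 2) := ⟨Nat.prime_two⟩
  haveI : CharP F 2 := charP_of_card_eq_prime_pow (f := 2) (by rw [hF]; norm_num)
  set f : Module.End F (Fin 3 → F) := Matrix.toLin' x.1 with hf
  have hef : Function.Surjective fun i => (⟨e i, cube_eq_one hF (he0 i)⟩ : {b : F // b ^ 3 = 1}) := by
    refine ((Fintype.bijective_iff_injective_and_card _).2
      ⟨fun i j h => he (congrArg Subtype.val h), le_antisymm ?_ ?_⟩).2
    · exact Fintype.card_le_of_injective _ (fun i j h => he (congrArg Subtype.val h) :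
        Function.Injective fun i => (⟨e i, cube_eq_one hF (he0 i)⟩ : {b : F // b ^ 3 = 1}))
    · rw [Fintype.card_fin]
      refine Nat.lt_succ_iff.1 ?_
      rw [show Nat.succ 3 = Fintype.card F from hF.symm]
      exact Fintype.card_subtype_lt (x := (0 : F)) (by simp)
  have he3 : ∀ i, e i ^ 3 = 1 := fun i => cube_eq_one hF (he0 i)
  have htop : ⨆ b : {b : F // b ^ 3 = 1}, f.eigenspace b.1 = ⊤ := by
    rw [eq_top_iff]
    intro v _
    have h2 : (2 : F) = 0 := CharTwo.two_eq_zero
    have h3 : f (f (f v)) = v := by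
      simp only [hf, Matrix.toLin'_apply, Matrix.mulVec_mulVec]
      rw [show x.1 * (x.1 * x.1) = 1 by rw [← hx]; simp [pow_succ, mul_assoc], Matrix.one_mulVec]
    have key : ∀ b : {b : F // b ^ 3 = 1}, v + (b.1 * b.1) • f v + b.1 • f (f v) ∈ f.eigenspace b.1 := fun b => by
      rw [Module.End.mem_eigenspace_iff, map_add, map_add, map_smul, map_smul, h3, smul_add, smul_add, smul_smul, smul_smul,
        show b.1 * (b.1 * b.1) = 1 by linear_combination b.2, one_smul]
      abel
    have hsum : v = ∑ i, (v + (e i * e i) • f v + e i • f (f v)) := by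
      have hsum1 : ∑ i, e i = 0 := by
        have hne : e 0 ≠ e 1 ∧ e 1 ≠ e 2 ∧ e 0 ≠ e 2 := ⟨he.ne (by decide), he.ne (by decide), he.ne (by decide)⟩
        have q1 : e 0 ^ 2 + e 0 * e 1 + e 1 ^ 2 = 0 := by
          apply mul_left_cancel₀ (sub_ne_zero.2 hne.1); linear_combination he3 0 - he3 1
        have q2 : e 1 ^ 2 + e 1 * e 2 + e 2 ^ 2 = 0 := by
          apply mul_left_cancel₀ (sub_ne_zero.2 hne.2.1); linear_combination he3 1 - he3 2
        rw [Fin.sum_univ_three]
        apply mul_left_cancel₀ (sub_ne_zero.2 hne.2.2)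
        linear_combination q1 - q2
      have hsum2 : ∑ i, e i * e i = 0 := by
        rw [Fin.sum_univ_three] at hsum1 ⊢
        linear_combination (e 0 + e 1 + e 2) * hsum1 - (e 0 * e 1 + e 1 * e 2 + e 0 * e 2) * h2
      simp only [Finset.sum_add_distrib, ← Finset.sum_smul, hsum1, hsum2, zero_smul, add_zero]
      rw [Fin.sum_univ_three, ← two_smul F v, h2, zero_smul, zero_add]
    rw [hsum]
    exact Submodule.sum_mem _ fun i _ => Submodule.mem_iSup_of_mem ⟨e i, he3 i⟩ (key _)
  have hint : DirectSum.IsInternal fun b : {b : F // b ^ 3 = 1} => f.eigenspace b.1 :=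
    DirectSum.isInternal_submodule_of_iSupIndep_of_iSup_eq_top
      ((Module.End.eigenspaces_iSupIndep f).comp Subtype.val_injective) htop
  let B := hint.collectedBasis fun b => Module.finBasis F (f.eigenspace b.1)
  let τ : Fin 3 ≃ Σ b : {b : F // b ^ 3 = 1}, Fin (Module.finrank F (f.eigenspace b.1)) :=
    (Pi.basisFun F (Fin 3)).indexEquiv B
  let C : Matrix (Fin 3) (Fin 3) F := Matrix.of fun r c => B (τ c) r
  have hC : C.det ≠ 0 := by
    have h1 : (Pi.basisFun F (Fin 3)).det (B.reindex τ.symm) ≠ 0 := (Module.Basis.is_basis_iff_det _).1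
      ⟨(B.reindex τ.symm).linearIndependent, (B.reindex τ.symm).span_eq⟩ |>.ne_zero
    rw [Pi.basisFun_det_apply] at h1
    rw [← Matrix.det_transpose]
    convert h1 using 2
    ext i j
    simp [C, Matrix.transpose_apply]
  set d : Fin 3 → F := fun c => (τ c).1.1 with hd
  have hxC : x.1 * C = C * Matrix.diagonal d := by
    ext r c
    rw [Matrix.mul_diagonal]
    have hmem := Module.End.mem_eigenspace_iff.1 (hint.collectedBasis_mem (fun b => Module.finBasis F (f.eigenspace b.1)) (τ c))
    have : (x.1 *ᵥ (B (τ c))) r = ((τ c).1.1 • B (τ c)) r := congrFun hmem r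
    simp only [C, Matrix.mul_apply, Matrix.of_apply, Matrix.mulVec, dotProduct, Pi.smul_apply, smul_eq_mul] at this ⊢
    rw [this, hd, mul_comm]
  have hdet : d 0 * d 1 * d 2 = 1 := by
    have := congrArg Matrix.det hxC
    rw [Matrix.det_mul, Matrix.det_mul, Matrix.det_diagonal, x.2, one_mul, Fin.prod_univ_three] at this
    exact mul_left_cancel₀ hC (this.symm.trans (mul_one _).symm)
  have hd3 : ∀ c, d c ^ 3 = 1 := fun c => (τ c).1.2
  have hdinj : Function.Injective d := by
    have hsc : ∀ a, (∀ c, d c = a) → False := fun a h => by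
      refine hns a ?_
      have hCu : IsUnit C.det := isUnit_iff_ne_zero.2 hC
      have h1 : x.1 * C = a • (1 : Matrix (Fin 3) (Fin 3) F) * C := by
        rw [hxC, show Matrix.diagonal d = a • (1 : Matrix (Fin 3) (Fin 3) F) by
          rw [Matrix.smul_one_eq_diagonal]; exact congrArg _ (funext h), Matrix.mul_smul, Matrix.smul_mul, Matrix.mul_one,
          Matrix.one_mul]
      simpa [Matrix.mul_assoc, Matrix.mul_nonsing_inv _ hCu] using congrArg (· * C⁻¹) h1
    have key : ∀ u v w : F, u ^ 3 = 1 → u = v → u * v * w = 1 → w = u := fun u v w hu huv h => by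
      subst huv
      have hu0 : u ≠ 0 := fun h0 => by simp [h0] at hu
      refine mul_left_cancel₀ (mul_ne_zero hu0 hu0) ?_
      linear_combination h - hu
    intro i j hij
    by_contra hne
    refine hsc (d i) ?_
    fin_cases i <;> fin_cases j <;> first | exact absurd rfl hne | skip
    all_goals intro c; fin_cases c
    all_goals first
      | rfl
      | exact hij.symm
      | exact key _ _ _ (hd3 _) hij (by simp only [Fin.isValue, Fin.mk_one, Fin.zero_eta, Fin.reduceFinMk] at *; linear_combination hdet)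
  obtain ⟨π, hπ⟩ : ∃ π : Fin 3 → Fin 3, ∀ i, d (π i) = e i ∧ Function.Injective π := by
    have hb : Function.Surjective fun c => (⟨d c, hd3 c⟩ : {b : F // b ^ 3 = 1}) := by
      have hb3 : Fintype.card (Fin 3) = Fintype.card {b : F // b ^ 3 = 1} := by
        refine le_antisymm (Fintype.card_le_of_injective (fun i => (⟨e i, he3 i⟩ : {b : F // b ^ 3 = 1}))
          fun i j h => he (congrArg Subtype.val h)) (Fintype.card_le_of_surjective _ hef)
      exact ((Fintype.bijective_iff_injective_and_card _).2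
        ⟨fun i j h => hdinj (congrArg Subtype.val h), hb3⟩).2
    choose π hπ using fun i => hb ⟨e i, he3 i⟩
    exact ⟨π, fun i => ⟨congrArg Subtype.val (hπ i), fun a b h => he (by
      rw [← show d (π a) = e a from congrArg Subtype.val (hπ a), ← show d (π b) = e b from congrArg Subtype.val (hπ b)]; exact congrArg d h)⟩⟩
  let σ : Equiv.Perm (Fin 3) := Equiv.ofBijective π (Finite.injective_iff_bijective.1 (hπ 0).2)
  let C' := C.submatrix id σ
  have hC' : C'.det ≠ 0 := by
    rw [show C'.det = _ from Matrix.det_permute' σ C]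
    exact mul_ne_zero (by rcases Int.units_eq_one_or (Equiv.Perm.sign σ) with h | h <;> simp [h]) hC
  refine ⟨⟨C' * Matrix.diagonal (Pi.mulSingle 0 C'.det⁻¹), ?_⟩, ?_⟩
  · rw [Matrix.det_mul, Matrix.det_diagonal, Finset.prod_pi_mulSingle', if_pos (Finset.mem_univ _), mul_inv_cancel₀ hC']
  · show x.1 * (C' * _) = C' * _ * _
    rw [← Matrix.mul_assoc, mul_assoc C', Matrix.diagonal_mul_diagonal, show x.1 * C' = C' * Matrix.diagonal e by
      ext r c
      have := congrFun (congrFun hxC r) (σ c)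
      rw [Matrix.mul_diagonal] at this ⊢
      rw [show e c = d (σ c) from (hπ c).1.symm]
      exact this, mul_assoc, Matrix.diagonal_mul_diagonal]
    simp_rw [mul_comm]

/-- In the projective special linear group PSL(3, 4) all subgroups of order 3 are conjugate. -/
theorem result (F : Type*) [Field F] [Fintype F] (hF : Fintype.card F = 4) (X Y : Subgroup (Matrix.ProjectiveSpecialLinearGroup (Fin 3) F)) (hX : Nat.card ↥X = 3) (hY : Nat.card ↥Y = 3) : ∃ g : Matrix.ProjectiveSpecialLinearGroup (Fin 3) F, MulAut.conj g • X = Y := by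
  classical
  haveI : Fact (Nat.Prime 3) := ⟨Nat.prime_three⟩
  obtain ⟨u, hu⟩ := IsCyclic.exists_ofOrder_eq_natCard (α := Fˣ)
  let e : Fin 3 → F := fun i => ((u ^ (i : ℕ) : Fˣ) : F)
  have he : Function.Injective e := fun i j h => Fin.ext (pow_injOn_Iio_orderOf
    (by rw [hu, Nat.card_eq_fintype_card, Fintype.card_units, hF]; exact i.2)
    (by rw [hu, Nat.card_eq_fintype_card, Fintype.card_units, hF]; exact j.2) (Units.ext h))
  have gen : ∀ Z : Subgroup (Matrix.ProjectiveSpecialLinearGroup (Fin 3) F), Nat.card ↥Z = 3 →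
      ∃ x P : Matrix.SpecialLinearGroup (Fin 3) F, Z = Subgroup.zpowers (QuotientGroup.mk x) ∧
        x.1 * P.1 = P.1 * Matrix.diagonal e := by
    intro Z hZ
    haveI := isCyclic_of_prime_card hZ
    obtain ⟨g, hg⟩ := IsCyclic.exists_ofOrder_eq_natCard (α := ↥Z)
    rw [hZ] at hg
    obtain ⟨x, hx⟩ := QuotientGroup.mk_surjective g.1
    have hZg : Z = Subgroup.zpowers (QuotientGroup.mk x) := by
      refine (Subgroup.eq_of_le_of_card_ge (Subgroup.zpowers_le.2 ?_) ?_).symm
      · rw [hx]; exact g.2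
      · rw [hZ, Nat.card_zpowers, hx, Subgroup.orderOf_coe, hg]
    have hx3 : x ^ 3 ∈ Subgroup.center (Matrix.SpecialLinearGroup (Fin 3) F) := by
      rw [← QuotientGroup.eq_one_iff, QuotientGroup.mk_pow, hx]
      have := congrArg Subtype.val (pow_orderOf_eq_one g)
      rw [hg] at this
      exact this
    obtain ⟨a, -, ha⟩ := Matrix.SpecialLinearGroup.mem_center_iff.1 hx3
    have ha' : (x.1 : Matrix (Fin 3) (Fin 3) F) ^ 3 = a • 1 := by
      rw [← Matrix.SpecialLinearGroup.coe_pow, Matrix.smul_one_eq_diagonal, ← ha]; rfl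
    have hcube : (x.1 : Matrix (Fin 3) (Fin 3) F) ^ 3 = 1 := by rw [ha', no_scalar_cube hF x ha', one_smul]
    obtain ⟨P, hP⟩ := diag_form hF x hcube (fun b hb => by
      have : x ∈ Subgroup.center (Matrix.SpecialLinearGroup (Fin 3) F) :=
        Matrix.SpecialLinearGroup.mem_center_iff.2 ⟨b, by
          have := congrArg Matrix.det hb
          rw [x.2, Matrix.det_smul, Matrix.det_one, mul_one] at this
          exact this.symm, by rw [hb, Matrix.smul_one_eq_diagonal]; rfl⟩
      have h1 : g = 1 := Subtype.ext (by rw [← hx]; exact (QuotientGroup.eq_one_iff x).2 this)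
      rw [h1, orderOf_one] at hg
      exact absurd hg (by norm_num)) e he fun i => Units.ne_zero _
    exact ⟨x, P, hZg, hP⟩
  obtain ⟨x, P, rfl, hP⟩ := gen X hX
  obtain ⟨y, Q, rfl, hQ⟩ := gen Y hY
  have h : Q * P⁻¹ * x * (Q * P⁻¹)⁻¹ = y := by
    have e1 : (P⁻¹ * x * P).1 = (Q⁻¹ * y * Q).1 := by
      have hPP : (P⁻¹).1 * P.1 = 1 := congrArg Subtype.val (inv_mul_cancel P)
      have hQQ : (Q⁻¹).1 * Q.1 = 1 := congrArg Subtype.val (inv_mul_cancel Q)
      show (P⁻¹).1 * x.1 * P.1 = (Q⁻¹).1 * y.1 * Q.1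
      rw [Matrix.mul_assoc, Matrix.mul_assoc, hP, hQ, ← Matrix.mul_assoc, ← Matrix.mul_assoc, hPP, hQQ]
    have e2 : P⁻¹ * x * P = Q⁻¹ * y * Q := Subtype.ext e1
    calc Q * P⁻¹ * x * (Q * P⁻¹)⁻¹ = Q * (P⁻¹ * x * P) * Q⁻¹ := by group
      _ = y := by rw [e2]; group
  refine ⟨QuotientGroup.mk (Q * P⁻¹), ?_⟩
  show Subgroup.map (MulAut.conj (QuotientGroup.mk (Q * P⁻¹) : Matrix.ProjectiveSpecialLinearGroup (Fin 3) F)).toMonoidHom
    (Subgroup.zpowers (QuotientGroup.mk x : Matrix.ProjectiveSpecialLinearGroup (Fin 3) F)) = _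
  rw [MonoidHom.map_zpowers]
  congr 1
  show MulAut.conj (QuotientGroup.mk (Q * P⁻¹) : Matrix.ProjectiveSpecialLinearGroup (Fin 3) F) (QuotientGroup.mk x) = _
  rw [MulAut.conj_apply, ← QuotientGroup.mk_inv, ← QuotientGroup.mk_mul, ← QuotientGroup.mk_mul, h]

end Cfsg.Agent.S2739
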