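import Cfsg.Statements.S2758
import Cfsg.Agent.Lib.QdFree
import Cfsg.Agent.Lib.Fusion.Group
import Mathlib.GroupTheory.SpecificGroups.Dihedral

set_option autoImplicit false
open Cfsg

namespace Cfsg.Agent.S2758
set_option linter.style.haveILetI false
open scoped Pointwise

theorem involves_of_inverted {G : Type*} [Group G] [Finite G] {p : ℕ} [Fact p.Prime] (hp : p ≠ 2) {x y : G} {k : ℕ}
    (hx : orderOf x = 2 ^ k) (hy : orderOf y = p) (hxy : x * y * x⁻¹ = y⁻¹) : Cfsg.Involves (DihedralGroup p) G := by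
  have hyy : y ≠ y⁻¹ := by
    intro h
    have h2 : y ^ 2 = 1 := by rw [pow_two]; exact mul_eq_one_iff_eq_inv.mpr h
    have h3 := orderOf_dvd_of_pow_eq_one h2
    rw [hy] at h3
    exact hp ((Nat.prime_dvd_prime_iff_eq Fact.out Nat.prime_two).mp h3)
  have hk : k ≠ 0 := by
    rintro rfl
    rw [pow_zero, orderOf_eq_one_iff] at hx
    rw [hx, one_mul, inv_one, mul_one] at hxy
    exact hyy hxy
  set H := Subgroup.closure ({x, y} : Set G)
  set x' : ↥H := ⟨x, Subgroup.subset_closure (Or.inl rfl)⟩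
  set y' : ↥H := ⟨y, Subgroup.subset_closure (Or.inr rfl)⟩
  have hcy : Commute (x' ^ 2) y' := by
    refine Subtype.ext ?_
    show x ^ 2 * y = y * x ^ 2
    rw [pow_two, ← mul_inv_eq_iff_eq_mul, show x * x * y * (x * x)⁻¹ = x * (x * y * x⁻¹) * x⁻¹ by group, hxy,
      show x * y⁻¹ * x⁻¹ = (x * y * x⁻¹)⁻¹ by group, hxy, inv_inv]
  have hgen : Subgroup.closure ({x', y'} : Set ↥H) = ⊤ := by
    refine Subgroup.map_injective H.subtype_injective ?_
    rw [MonoidHom.map_closure, ← MonoidHom.range_eq_map, Subgroup.range_subtype, Set.image_pair]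
    rfl
  set K := Subgroup.zpowers (x' ^ 2)
  have hKc : K ≤ Subgroup.center ↥H := by
    rw [Subgroup.zpowers_le, ← Subgroup.centralizer_univ]
    have hle : Subgroup.closure ({x', y'} : Set ↥H) ≤ Subgroup.centralizer ({x' ^ 2} : Set ↥H) := by
      rw [Subgroup.closure_le]
      rintro z (rfl | rfl)
      · exact Subgroup.mem_centralizer_singleton_iff.mpr ((Commute.self_pow _ 2).eq)
      · exact Subgroup.mem_centralizer_singleton_iff.mpr hcy.eq.symm
    rw [hgen] at hle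
    exact Subgroup.mem_centralizer_iff.mpr fun z _ => Subgroup.mem_centralizer_singleton_iff.mp (hle (Subgroup.mem_top z))
  haveI : K.Normal := ⟨fun z hz g => by rw [Subgroup.mem_center_iff.mp (hKc hz) g, mul_inv_cancel_right]; exact hz⟩
  set π := QuotientGroup.mk' K
  set X := π x'
  set Y := π y'
  have hXX : X * X = 1 := by
    rw [← map_mul, ← pow_two]
    exact (QuotientGroup.eq_one_iff _).mpr (Subgroup.mem_zpowers _)
  have hYp : Y ^ p = 1 := by
    rw [← map_pow, show y' ^ p = 1 from Subtype.ext (by show y ^ p = 1; rw [← hy, pow_orderOf_eq_one]), map_one]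
  have hXY : X * Y * X⁻¹ = Y⁻¹ := by
    rw [← map_inv, ← map_mul, ← map_mul, ← map_inv]
    exact congrArg π (Subtype.ext hxy)
  let pw : ZMod p → (↥H ⧸ K) := fun i => Y ^ i.val
  have hpw : ∀ i j, pw (i + j) = pw i * pw j := fun i j => by
    show Y ^ (i + j).val = Y ^ i.val * Y ^ j.val
    rw [← pow_add, ZMod.val_add, ← pow_eq_pow_mod _ hYp]
  have hneg : ∀ i, pw (-i) = (pw i)⁻¹ := fun i => by
    refine eq_inv_of_mul_eq_one_left ?_
    rw [← hpw, neg_add_cancel]
    show Y ^ (0 : ZMod p).val = 1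
    rw [ZMod.val_zero, pow_zero]
  have hconj : ∀ i, X * pw i = (pw i)⁻¹ * X := fun i => by
    show X * Y ^ i.val = (Y ^ i.val)⁻¹ * X
    rw [← inv_pow, ← hXY, conj_pow, inv_mul_cancel_right]
  have hX' : X⁻¹ = X := inv_eq_of_mul_eq_one_right hXX
  let fn : DihedralGroup p → (↥H ⧸ K)
    | DihedralGroup.r i => pw i
    | DihedralGroup.sr i => X * pw i
  let μ : DihedralGroup p →* (↥H ⧸ K) := MonoidHom.mk' fn (by
    rintro (i | i) (j | j)
    · rw [DihedralGroup.r_mul_r]; exact hpw i j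
    · rw [DihedralGroup.r_mul_sr]
      show X * pw (j - i) = pw i * (X * pw j)
      rw [sub_eq_add_neg, add_comm j, hpw, hneg, ← mul_assoc, ← mul_assoc]
      congr 1
      have := hconj (-i)
      rw [hneg, inv_inv] at this
      exact this
    · rw [DihedralGroup.sr_mul_r]
      show X * pw (i + j) = X * pw i * pw j
      rw [hpw, mul_assoc]
    · rw [DihedralGroup.sr_mul_sr]
      show pw (j - i) = X * pw i * (X * pw j)
      rw [hconj i, mul_assoc, ← mul_assoc X, hXX, one_mul, sub_eq_add_neg, add_comm j, hpw, hneg])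
  have hsurj : Function.Surjective μ := by
    rw [← MonoidHom.range_eq_top, eq_top_iff, ← Subgroup.map_top_of_surjective π (QuotientGroup.mk'_surjective K),
      ← hgen, MonoidHom.map_closure, Subgroup.closure_le]
    rintro _ ⟨z, rfl | rfl, rfl⟩
    · refine ⟨DihedralGroup.sr 0, ?_⟩
      show X * Y ^ (0 : ZMod p).val = X
      rw [ZMod.val_zero, pow_zero, mul_one]
    · refine ⟨DihedralGroup.r 1, ?_⟩
      show Y ^ (1 : ZMod p).val = Y
      rw [ZMod.val_one, pow_one]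
  have hord : ∀ n : ℕ, y ^ n ∈ Subgroup.zpowers x → y ^ n = 1 := fun n hn => by
    refine orderOf_eq_one_iff.mp (Nat.eq_one_of_dvd_coprimes
      (((Nat.coprime_primes Nat.prime_two Fact.out).mpr (Ne.symm hp)).pow_left k) ?_ (hy ▸ orderOf_pow_dvd n))
    rw [← hx]; exact orderOf_dvd_of_mem_zpowers hn
  have hval : ∀ i : ZMod p, y ^ i.val = 1 → i = 0 := fun i hi => by
    have h1 := orderOf_dvd_of_pow_eq_one hi
    rw [hy] at h1
    rw [← ZMod.natCast_zmod_val i]
    exact (ZMod.natCast_eq_zero_iff _ p).mpr h1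
  have hinj : Function.Injective μ := by
    rw [injective_iff_map_eq_one]
    rintro (i | i) h
    · have h1 : y' ^ i.val ∈ K := (QuotientGroup.eq_one_iff _).mp (show π (y' ^ i.val) = 1 by rw [map_pow]; exact h)
      obtain ⟨m, hm⟩ := Subgroup.mem_zpowers_iff.mp h1
      have h2 : y ^ i.val ∈ Subgroup.zpowers x := ⟨2 * m, by
        show x ^ (2 * m) = y ^ i.val
        rw [zpow_mul, zpow_two, ← pow_two]
        exact congrArg Subtype.val hm⟩
      rw [hval i (hord _ h2)]; rfl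
    · exfalso
      have h1 : x' * y' ^ i.val ∈ K := (QuotientGroup.eq_one_iff _).mp (show π (x' * y' ^ i.val) = 1 by
        rw [map_mul, map_pow]; exact h)
      obtain ⟨m, hm⟩ := Subgroup.mem_zpowers_iff.mp h1
      have hm' : (x ^ 2) ^ m = x * y ^ i.val := congrArg Subtype.val hm
      have h2 : y ^ i.val ∈ Subgroup.zpowers x := by
        rw [show y ^ i.val = x⁻¹ * (x ^ 2) ^ m by rw [hm', inv_mul_cancel_left]]
        exact mul_mem (inv_mem (Subgroup.mem_zpowers x)) (zpow_mem (pow_mem (Subgroup.mem_zpowers x) 2) m)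
      rw [hord _ h2, mul_one] at hm'
      have h3 : orderOf x ∣ orderOf (x ^ 2) := by
        conv_lhs => rw [← hm']
        exact orderOf_dvd_of_mem_zpowers ⟨m, rfl⟩
      obtain ⟨j, rfl⟩ : ∃ j, k = j + 1 := ⟨k - 1, by omega⟩
      have h4 : orderOf (x ^ 2) ∣ 2 ^ j := orderOf_dvd_of_pow_eq_one (by
        rw [← pow_mul, mul_comm, ← pow_succ, ← hx, pow_orderOf_eq_one])
      rw [hx] at h3
      have := Nat.le_of_dvd (by positivity) (h3.trans h4)
      rw [pow_succ] at this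
      have : 0 < 2 ^ j := by positivity
      omega
  let e := MulEquiv.ofBijective μ ⟨hinj, hsurj⟩
  exact CfsgLib.QdFree.involves_of_hom H (e.symm.toMonoidHom.comp π) (e.symm.surjective.comp (QuotientGroup.mk'_surjective K))

theorem inverted_of_normalizes {G : Type*} [Group G] [Finite G] {p : ℕ} [Fact p.Prime] {x : G} {P : Subgroup G} {k : ℕ}
    (hx : orderOf x = 2 ^ k) (hP : IsPGroup p ↥P) (hn : x ∈ Subgroup.normalizer (P : Set G))
    (hc : x ∉ Subgroup.centralizer (P : Set G)) :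
    ∃ z y : G, (∃ j : ℕ, orderOf z = 2 ^ j) ∧ (∃ j : ℕ, orderOf y = p ^ j) ∧ y ≠ 1 ∧ z * y * z⁻¹ = y⁻¹ := by
  classical
  have hex : ∃ i, x ^ 2 ^ i ∈ Subgroup.centralizer (P : Set G) :=
    ⟨k, by rw [← hx, pow_orderOf_eq_one]; exact one_mem _⟩
  set i := Nat.find hex with hi
  have hi0 : i ≠ 0 := fun h => hc (by
    have := Nat.find_spec hex
    rwa [← hi, h, pow_zero, pow_one] at this)
  obtain ⟨j, hj⟩ : ∃ j, i = j + 1 := ⟨i - 1, by omega⟩
  set z := x ^ 2 ^ j
  have hz2 : z * z ∈ Subgroup.centralizer (P : Set G) := by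
    rw [← pow_add, ← two_mul, ← pow_succ', ← hj]; exact Nat.find_spec hex
  have hzc : z ∉ Subgroup.centralizer (P : Set G) := Nat.find_min hex (show j < i by omega)
  have hzn : z ∈ Subgroup.normalizer (P : Set G) := pow_mem hn _
  obtain ⟨v, hv, hvz⟩ : ∃ v ∈ P, v⁻¹ * (z * v * z⁻¹) ≠ 1 := by
    by_contra h
    push Not at h
    exact hzc (Subgroup.mem_centralizer_iff.mpr fun v hv => by
      have := inv_mul_eq_one.mp (h v hv)
      exact (mul_inv_eq_iff_eq_mul.mp this.symm).symm)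
  have hw : v⁻¹ * (z * v * z⁻¹) ∈ P := P.mul_mem (P.inv_mem hv) ((Subgroup.mem_normalizer_iff.mp hzn v).mp hv)
  obtain ⟨m, hm⟩ := IsPGroup.iff_orderOf.mp hP ⟨_, hw⟩
  obtain ⟨n, -, hn'⟩ := (Nat.dvd_prime_pow Nat.prime_two).mp (hx ▸ orderOf_pow_dvd (2 ^ j) : orderOf z ∣ 2 ^ k)
  refine ⟨z, _, ⟨n, hn'⟩, ⟨m, by rw [← hm, Subgroup.orderOf_mk]⟩, hvz, ?_⟩
  have h2 := Subgroup.mem_centralizer_iff.mp hz2 v hv
  calc z * (v⁻¹ * (z * v * z⁻¹)) * z⁻¹ = (z * v⁻¹ * z⁻¹) * ((z * z) * v) * (z * z)⁻¹ := by group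
    _ = (z * v⁻¹ * z⁻¹) * (v * (z * z)) * (z * z)⁻¹ := by rw [h2]
    _ = _ := by group

theorem normalizes_of_involves {G : Type*} [Group G] [Finite G] {p : ℕ} [Fact p.Prime] (hp : p ≠ 2)
    (h : Cfsg.Involves (DihedralGroup p) G) :
    ∃ (x : G) (P : Subgroup G), (∃ k : ℕ, orderOf x = 2 ^ k) ∧ IsPGroup p ↥P ∧ x ∈ Subgroup.normalizer (P : Set G) ∧
      x ∉ Subgroup.centralizer (P : Set G) := by
  obtain ⟨K, R, hR, ⟨e⟩⟩ := h
  set f : ↥K →* DihedralGroup p := e.toMonoidHom.comp (QuotientGroup.mk' (R.subgroupOf K))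
  have hf : Function.Surjective f := e.surjective.comp (QuotientGroup.mk'_surjective _)
  haveI : Finite ↥K := inferInstance
  obtain ⟨P0⟩ := (inferInstance : Nonempty (Sylow p ↥K))
  set Pi := P0.mapSurjective hf
  have hr1 : orderOf (DihedralGroup.r (1 : ZMod p)) = p := DihedralGroup.orderOf_r_one
  -- a Sylow `p`-subgroup of the dihedral group is the rotations
  have hrot : DihedralGroup.r (1 : ZMod p) ∈ (Pi : Subgroup (DihedralGroup p)) := by
    obtain ⟨Q, hQ⟩ := (IsPGroup.of_card (n := 1) (by rw [Nat.card_zpowers, hr1, pow_one]) :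
      IsPGroup p ↥(Subgroup.zpowers (DihedralGroup.r (1 : ZMod p)))).exists_le_sylow
    obtain ⟨d, hd⟩ := MulAction.exists_smul_eq (DihedralGroup p) Q Pi
    have hn : (Subgroup.zpowers (DihedralGroup.r (1 : ZMod p))).Normal := by
      apply Subgroup.normal_of_index_eq_two
      have h1 := Subgroup.card_mul_index (Subgroup.zpowers (DihedralGroup.r (1 : ZMod p)))
      rw [Nat.card_zpowers, hr1, DihedralGroup.nat_card, mul_comm 2 p] at h1
      exact Nat.eq_of_mul_eq_mul_left (Fact.out : p.Prime).pos h1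
    rw [← hd, Sylow.coe_subgroup_smul, Subgroup.mem_pointwise_smul_iff_inv_smul_mem]
    refine hQ ?_
    show (MulAut.conj d)⁻¹ _ ∈ _
    rw [MulAut.conj_inv_apply]
    simpa using hn.conj_mem _ (Subgroup.mem_zpowers _) d⁻¹
  set S := (f.ker ⊔ (P0 : Subgroup ↥K))
  have hSc : S = (Subgroup.zpowers (DihedralGroup.r (1 : ZMod p))).comap f := by
    have hPi : (P0 : Subgroup ↥K).map f = Subgroup.zpowers (DihedralGroup.r (1 : ZMod p)) := by
      refine (Subgroup.eq_of_le_of_card_ge (Subgroup.zpowers_le.mpr ?_) ?_).symm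
      · rw [← Sylow.coe_mapSurjective hf P0]; exact hrot
      · rw [← Sylow.coe_mapSurjective hf P0, Sylow.card_eq_multiplicity, Nat.card_zpowers, hr1, DihedralGroup.nat_card]
        have h2 : (2 * p).factorization p = 1 := by
          rw [Nat.factorization_mul (by norm_num) (Fact.out : p.Prime).ne_zero, Finsupp.add_apply,
            (Fact.out : p.Prime).factorization_self, Nat.factorization_eq_zero_of_not_dvd, zero_add]
          exact fun h => hp ((Nat.prime_dvd_prime_iff_eq Fact.out Nat.prime_two).mp h)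
        rw [h2, pow_one]
    rw [← hPi, Subgroup.comap_map_eq, sup_comm]
  haveI : S.Normal := by
    rw [hSc]
    refine Subgroup.Normal.comap ?_ f
    apply Subgroup.normal_of_index_eq_two
    have h1 := Subgroup.card_mul_index (Subgroup.zpowers (DihedralGroup.r (1 : ZMod p)))
    rw [Nat.card_zpowers, hr1, DihedralGroup.nat_card, mul_comm 2 p] at h1
    exact Nat.eq_of_mul_eq_mul_left (Fact.out : p.Prime).pos h1
  have hfr := Sylow.normalizer_sup_eq_top' (N := S) P0 le_sup_right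
  obtain ⟨n, hn, hnf⟩ : ∃ n ∈ Subgroup.normalizer ((P0 : Subgroup ↥K) : Set ↥K), ∃ i, f n = DihedralGroup.sr i := by
    by_contra hcon
    push Not at hcon
    have hle : Subgroup.normalizer ((P0 : Subgroup ↥K) : Set ↥K) ≤ S := by
      intro n hn
      rw [hSc, Subgroup.mem_comap]
      rcases hfn : f n with i | i
      · exact ⟨(i.val : ℤ), by
          show DihedralGroup.r (1 : ZMod p) ^ ((i.val : ℕ) : ℤ) = _
          rw [zpow_natCast, DihedralGroup.r_one_pow, ZMod.natCast_zmod_val]⟩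
      · exact absurd hfn (hcon n hn i)
    obtain ⟨s, hs⟩ := hf (DihedralGroup.sr 0)
    have h1 : s ∈ S := by
      have h2 : s ∈ Subgroup.normalizer ((P0 : Subgroup ↥K) : Set ↥K) ⊔ S := hfr.ge (Subgroup.mem_top s)
      exact (sup_le hle le_rfl : _ ≤ S) h2
    rw [hSc, Subgroup.mem_comap, hs] at h1
    obtain ⟨m, hm⟩ := h1
    have hm : DihedralGroup.r (1 : ZMod p) ^ m = DihedralGroup.sr 0 := hm
    rw [DihedralGroup.r_one_zpow] at hm
    simp at hm
  obtain ⟨i, hi⟩ := hnf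
  obtain ⟨e', m, hm, hen⟩ := Nat.exists_eq_pow_mul_and_not_dvd (orderOf_pos n).ne' 2 (by norm_num)
  have hfm : f (n ^ m) = DihedralGroup.sr i := by
    obtain ⟨t, ht⟩ : Odd m := Nat.not_even_iff_odd.mp fun h => hm (even_iff_two_dvd.mp h)
    rw [map_pow, hi, ht, pow_succ, pow_mul, pow_two, DihedralGroup.sr_mul_self, one_pow, one_mul]
  obtain ⟨j, -, hj⟩ := (Nat.dvd_prime_pow Nat.prime_two).mp (orderOf_dvd_of_pow_eq_one (x := n ^ m) (n := 2 ^ e') (by
    rw [← pow_mul, mul_comm, ← hen, pow_orderOf_eq_one]))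
  refine ⟨((n ^ m : ↥K) : G), (P0 : Subgroup ↥K).map K.subtype, ⟨j, by rw [Subgroup.orderOf_coe, hj]⟩, P0.2.map _, ?_, ?_⟩
  · refine Subgroup.mem_normalizer_fintype ?_
    rintro _ ⟨z, hz, rfl⟩
    exact ⟨_, (Subgroup.mem_normalizer_iff.mp (pow_mem hn m) z).mp hz, rfl⟩
  · intro hcm
    obtain ⟨u, hu, hue⟩ := (Sylow.coe_mapSurjective hf P0 ▸ hrot : DihedralGroup.r (1 : ZMod p) ∈ (P0 : Subgroup ↥K).map f)
    have h1 : u * n ^ m = n ^ m * u := Subtype.ext (Subgroup.mem_centralizer_iff.mp hcm (u : G) ⟨u, hu, rfl⟩)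
    have h2 := congrArg f h1
    rw [map_mul, map_mul, hue, hfm, DihedralGroup.r_mul_sr, DihedralGroup.sr_mul_r] at h2
    have h3 : i - 1 = i + 1 := DihedralGroup.sr.inj h2
    have h4 : ((2 : ℕ) : ZMod p) = 0 := by push_cast; linear_combination -h3
    exact hp ((Nat.prime_dvd_prime_iff_eq Fact.out Nat.prime_two).mp ((ZMod.natCast_eq_zero_iff 2 p).mp h4))

theorem involves_of_inverted' {G : Type*} [Group G] [Finite G] {p : ℕ} [Fact p.Prime] (hp : p ≠ 2) {x y : G} {k j : ℕ}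
    (hx : orderOf x = 2 ^ k) (hy : orderOf y = p ^ j) (hy1 : y ≠ 1) (hxy : x * y * x⁻¹ = y⁻¹) :
    Cfsg.Involves (DihedralGroup p) G := by
  obtain ⟨i, rfl⟩ : ∃ i, j = i + 1 := ⟨j - 1, by
    rcases Nat.eq_zero_or_pos j with rfl | h
    · exact absurd (orderOf_eq_one_iff.mp hy) hy1
    · omega⟩
  refine involves_of_inverted hp (y := y ^ p ^ i) hx ?_ (by rw [← conj_pow, hxy, inv_pow])
  rw [orderOf_pow, hy, Nat.gcd_eq_right (pow_dvd_pow p (Nat.le_succ i)), pow_succ, Nat.mul_div_cancel_left _ (pow_pos (Fact.out : p.Prime).pos i)]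


/-- For an odd prime p and a finite group G the following are equivalent: the dihedral group of order 2p is involved in G; some element of 2-power order normalizes but does not centralize some p-subgroup of G; some element of 2-power order inverts some nonidentity element of p-power order. -/
theorem result {G : Type*} [Group G] [Finite G] {p : ℕ} [Fact p.Prime] (hp : p ≠ 2) : (Cfsg.Involves (DihedralGroup p) G ↔ ∃ (x : G) (P : Subgroup G), (∃ k : ℕ, orderOf x = 2 ^ k) ∧ IsPGroup p ↥P ∧ x ∈ Subgroup.normalizer (P : Set G) ∧ x ∉ Subgroup.centralizer (P : Set G)) ∧ (Cfsg.Involves (DihedralGroup p) G ↔ ∃ x y : G, (∃ k : ℕ, orderOf x = 2 ^ k) ∧ (∃ k : ℕ, orderOf y = p ^ k) ∧ y ≠ 1 ∧ x * y * x⁻¹ = y⁻¹) := by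
  have key : (∃ (x : G) (P : Subgroup G), (∃ k : ℕ, orderOf x = 2 ^ k) ∧ IsPGroup p ↥P ∧ x ∈ Subgroup.normalizer (P : Set G) ∧ x ∉ Subgroup.centralizer (P : Set G)) → ∃ x y : G, (∃ k : ℕ, orderOf x = 2 ^ k) ∧ (∃ k : ℕ, orderOf y = p ^ k) ∧ y ≠ 1 ∧ x * y * x⁻¹ = y⁻¹ := by
    rintro ⟨x, P, ⟨k, hx⟩, hP, hn, hc⟩
    exact inverted_of_normalizes hx hP hn hc
  refine ⟨⟨normalizes_of_involves hp, fun h => ?_⟩, ⟨fun h => key (normalizes_of_involves hp h), ?_⟩⟩
  · obtain ⟨x, y, ⟨k, hx⟩, ⟨j, hy⟩, hy1, hxy⟩ := key h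
    exact involves_of_inverted' hp hx hy hy1 hxy
  · rintro ⟨x, y, ⟨k, hx⟩, ⟨j, hy⟩, hy1, hxy⟩
    exact involves_of_inverted' hp hx hy hy1 hxy

end Cfsg.Agent.S2758
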