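import Cfsg.Statements.S2759
import Cfsg.Agent.Lib.FourAct
import Cfsg.Agent.Lib.QdFree
import Cfsg.Agent.S2758
import Cfsg.Agent.Lib.Fusion.Group

set_option autoImplicit false
open Cfsg

namespace Cfsg.Agent.S2759
set_option linter.style.haveILetI false
open scoped Pointwise

theorem dihedral_perm : Nonempty (Equiv.Perm (Fin 3) ≃* DihedralGroup 3) := by
  let c : Equiv.Perm (Fin 3) := finRotate 3
  let s : Equiv.Perm (Fin 3) := Equiv.swap 1 2
  let fn : DihedralGroup 3 → Equiv.Perm (Fin 3)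
    | DihedralGroup.r i => c ^ i.val
    | DihedralGroup.sr i => s * c ^ i.val
  have hm : ∀ a b, fn (a * b) = fn a * fn b := by
    rintro (i | i) (j | j)
    all_goals revert i j
    all_goals decide
  have hb : Function.Bijective fn := by
    rw [Fintype.bijective_iff_injective_and_card]
    refine ⟨?_, by rw [Fintype.card_perm, DihedralGroup.card]; rfl⟩
    rintro (i | i) (j | j)
    all_goals revert i j
    all_goals decide
  exact ⟨(MulEquiv.ofBijective (MonoidHom.mk' fn hm) hb).symm⟩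

theorem four_hom {G : Type*} [Group G] (h : Cfsg.Involves (Equiv.Perm (Fin 4)) G) :
    ∃ (K : Subgroup G) (f : ↥K →* Equiv.Perm (Fin 4)), Function.Surjective f := by
  obtain ⟨K, R, hR, ⟨e⟩⟩ := h
  exact ⟨K, e.toMonoidHom.comp (QuotientGroup.mk' (R.subgroupOf K)), e.surjective.comp (QuotientGroup.mk'_surjective _)⟩

/-- The three pairings. -/
def pairing : Fin 3 → Equiv.Perm (Fin 4) :=
  ![Equiv.swap 0 1 * Equiv.swap 2 3, Equiv.swap 0 2 * Equiv.swap 1 3, Equiv.swap 0 3 * Equiv.swap 1 2]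

/-- Action on the pairings. -/
def actFun (σ : Equiv.Perm (Fin 4)) (i : Fin 3) : Fin 3 :=
  if σ * pairing i * σ⁻¹ = pairing 0 then 0 else if σ * pairing i * σ⁻¹ = pairing 1 then 1 else 2

theorem pairing_act : ∀ (σ : Equiv.Perm (Fin 4)) (i : Fin 3), pairing (actFun σ i) = σ * pairing i * σ⁻¹ := by decide

theorem pairing_inj : ∀ i j : Fin 3, pairing i = pairing j → i = j := by decide

theorem actFun_inv (σ : Equiv.Perm (Fin 4)) (i : Fin 3) : actFun σ⁻¹ (actFun σ i) = i := by
  apply pairing_inj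
  rw [pairing_act, pairing_act]; group

/-- The map of `Sym(4)` onto `Sym(3)`. -/
def toThree : Equiv.Perm (Fin 4) →* Equiv.Perm (Fin 3) :=
  MonoidHom.mk' (fun σ => ⟨actFun σ, actFun σ⁻¹, actFun_inv σ, fun i => by
    have := actFun_inv σ⁻¹ i
    rwa [inv_inv] at this⟩) fun σ τ => Equiv.ext fun i => by
    show actFun (σ * τ) i = actFun σ (actFun τ i)
    apply pairing_inj
    rw [pairing_act, pairing_act, pairing_act]; group

theorem toThree_surjective : ∀ τ : Equiv.Perm (Fin 3), ∃ σ, toThree σ = τ := by decide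

theorem pairing_mem : ∀ i : Fin 3, toThree (pairing i) = 1 := by decide

theorem toThree_eq_one {σ : Equiv.Perm (Fin 4)} (h : ∀ i, σ * pairing i = pairing i * σ) : toThree σ = 1 :=
  Equiv.ext fun i => pairing_inj _ _ (by
    show pairing (actFun σ i) = pairing i
    rw [pairing_act, h i, mul_inv_cancel_right])


/-- For a finite group G, the symmetric group of degree 4 is involved in G if and only if there is a 2-subgroup T of G such that the symmetric group of degree 3 is involved in N(T)/C(T). -/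
theorem result {G : Type*} [Group G] [Finite G] : Cfsg.Involves (Equiv.Perm (Fin 4)) G ↔ ∃ T : Subgroup G, IsPGroup 2 ↥T ∧ Cfsg.Involves (Equiv.Perm (Fin 3)) (↥(Subgroup.normalizer (T : Set G)) ⧸ (Subgroup.centralizer (T : Set G)).subgroupOf (Subgroup.normalizer (T : Set G))) := by
  classical
  haveI : Fact (Nat.Prime 2) := ⟨Nat.prime_two⟩
  haveI : Fact (Nat.Prime 3) := ⟨Nat.prime_three⟩
  constructor
  · intro h
    obtain ⟨K, f, hf⟩ := four_hom h
    set V := (toThree).ker with hV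
    have hVc : Nat.card ↥V = 4 := by
      have h1 := Subgroup.card_mul_index V
      have e6 : Nat.card (Equiv.Perm (Fin 3)) = 6 := by rw [Nat.card_perm, Nat.card_fin]; rfl
      have e24 : Nat.card (Equiv.Perm (Fin 4)) = 24 := by rw [Nat.card_perm, Nat.card_fin]; rfl
      rw [Subgroup.index_ker, MonoidHom.range_eq_top.mpr toThree_surjective, Subgroup.card_top, e6, e24] at h1
      omega
    have hVp : IsPGroup 2 ↥V := IsPGroup.of_card (n := 2) (by rw [hVc]; norm_num)
    set W := V.comap f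
    obtain ⟨P⟩ := (inferInstance : Nonempty (Sylow 2 ↥W))
    let fW : ↥W →* ↥V := (f.comp W.subtype).codRestrict V fun x => x.2
    have hfW : Function.Surjective fW := fun v => by
      obtain ⟨x, hx⟩ := hf v
      exact ⟨⟨x, by show f x ∈ V; rw [hx]; exact v.2⟩, Subtype.ext hx⟩
    have himg : ∀ i, ∃ z ∈ (P : Subgroup ↥W), f (z : ↥K) = pairing i := by
      intro i
      obtain ⟨R, hR⟩ := (hVp.of_equiv Subgroup.topEquiv.symm : IsPGroup 2 ↥(⊤ : Subgroup ↥V)).exists_le_sylow
      have htop : ((P.mapSurjective hfW : Sylow 2 ↥V) : Subgroup ↥V) = ⊤ := by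
        refine Subgroup.eq_top_of_card_eq _ ?_
        rw [Sylow.card_eq_multiplicity, ← Sylow.card_eq_multiplicity R, top_le_iff.mp hR, Subgroup.card_top]
      rw [Sylow.coe_mapSurjective] at htop
      obtain ⟨z, hz, hze⟩ := htop.ge (Subgroup.mem_top (⟨pairing i, pairing_mem i⟩ : ↥V))
      exact ⟨z, hz, congrArg Subtype.val hze⟩
    set P' := (P : Subgroup ↥W).map W.subtype
    set T := P'.map K.subtype
    have hTp : IsPGroup 2 ↥T := (P.2.map _).map _
    haveI : W.Normal := Subgroup.Normal.comap inferInstance f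
    have hfr := Sylow.normalizer_sup_eq_top P
    set L := Subgroup.normalizer (P' : Set ↥K)
    set N := Subgroup.normalizer (T : Set G)
    set C := (Subgroup.centralizer (T : Set G)).subgroupOf N
    have hLN : ∀ l ∈ L, (l : G) ∈ N := fun l hl => Subgroup.mem_normalizer_fintype (by
      rintro _ ⟨z, hz, rfl⟩
      exact ⟨l * z * l⁻¹, (Subgroup.mem_normalizer_iff.mp hl z).mp hz, rfl⟩)
    let θ : ↥L →* ↥N ⧸ C := (QuotientGroup.mk' C).comp ((K.subtype.comp L.subtype).codRestrict N fun l => hLN l l.2)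
    let g : ↥L →* Equiv.Perm (Fin 3) := toThree.comp (f.comp L.subtype)
    have hg : Function.Surjective g := by
      intro τ
      obtain ⟨σ, rfl⟩ := toThree_surjective τ
      obtain ⟨k, rfl⟩ := hf σ
      have hk : k ∈ ((L ⊔ W : Subgroup ↥K) : Set ↥K) := hfr.ge (Subgroup.mem_top k)
      rw [Subgroup.coe_mul_of_left_le_normalizer_right L W (by rw [Subgroup.normalizer_eq_top W]; exact le_top)] at hk
      obtain ⟨l, hl, w, hw, rfl⟩ := hk
      refine ⟨⟨l, hl⟩, ?_⟩
      show toThree (f l) = toThree (f (l * w))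
      rw [map_mul f, map_mul, show toThree (f w) = 1 from hw, mul_one]
    have hker : θ.ker ≤ g.ker := by
      intro l hl
      have hc' : (⟨((l : ↥K) : G), hLN l l.2⟩ : ↥N) ∈ C :=
        (QuotientGroup.eq_one_iff (N := C) _).mp (MonoidHom.mem_ker.mp hl)
      have hc : ((l : ↥K) : G) ∈ Subgroup.centralizer (T : Set G) := hc'
      refine MonoidHom.mem_ker.mpr (toThree_eq_one fun i => ?_)
      obtain ⟨z, hz, hze⟩ := himg i
      have h1 : (z : ↥K) * (l : ↥K) = (l : ↥K) * (z : ↥K) :=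
        Subtype.ext (Subgroup.mem_centralizer_iff.mp hc ((z : ↥K) : G) ⟨_, ⟨z, hz, rfl⟩, rfl⟩)
      rw [← hze, MonoidHom.comp_apply, Subgroup.subtype_apply, ← map_mul, ← map_mul, h1]
    refine ⟨T, hTp, CfsgLib.QdFree.involves_of_hom θ.range
      (θ.rangeRestrict.liftOfSurjective (MonoidHom.rangeRestrict_surjective θ) ⟨g, ?_⟩) fun τ => ?_⟩
    · rw [MonoidHom.ker_rangeRestrict]; exact hker
    · obtain ⟨l, rfl⟩ := hg τ
      exact ⟨θ.rangeRestrict l, MonoidHom.liftOfRightInverse_comp_apply θ.rangeRestrict _ _ ⟨g, _⟩ l⟩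
  · rintro ⟨T, hT, hinv⟩
    obtain ⟨e3⟩ := dihedral_perm
    obtain ⟨K, R, hR, ⟨e⟩⟩ := hinv
    have hD : Cfsg.Involves (DihedralGroup 3) (↥(Subgroup.normalizer (T : Set G)) ⧸ (Subgroup.centralizer (T : Set G)).subgroupOf (Subgroup.normalizer (T : Set G))) :=
      ⟨K, R, hR, ⟨e.trans e3⟩⟩
    set N := Subgroup.normalizer (T : Set G)
    set C := (Subgroup.centralizer (T : Set G)).subgroupOf N
    obtain ⟨x, y, ⟨i, hx⟩, ⟨j, hy⟩, hy1, hxy⟩ := (Cfsg.Agent.S2758.result (p := 3) (by norm_num)).2.mp hD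
    obtain ⟨j', rfl⟩ : ∃ j', j = j' + 1 := ⟨j - 1, by
      rcases Nat.eq_zero_or_pos j with rfl | h
      · exact absurd (orderOf_eq_one_iff.mp hy) hy1
      · omega⟩
    set y₁ := y ^ 3 ^ j'
    have hy₁ : orderOf y₁ = 3 := by
      rw [orderOf_pow, hy, Nat.gcd_eq_right (pow_dvd_pow 3 (Nat.le_succ j')), pow_succ,
        Nat.mul_div_cancel_left _ (pow_pos (by norm_num) j')]
    have hxy₁ : x * y₁ * x⁻¹ = y₁⁻¹ := by rw [← conj_pow, hxy, inv_pow]
    have hlift : ∀ (q : ℕ) [Fact q.Prime] (z : ↥N ⧸ C) (k : ℕ), orderOf z = q ^ k →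
        ∃ g : ↥N, (∃ l, orderOf g = q ^ l) ∧ ∃ m : ℕ, m.Coprime q ∧ QuotientGroup.mk' C g = z ^ m := by
      intro q _ z k hk
      obtain ⟨g, rfl⟩ := QuotientGroup.mk'_surjective C z
      obtain ⟨e', m, hm, hgm⟩ := Nat.exists_eq_pow_mul_and_not_dvd (orderOf_pos g).ne' q (Fact.out : q.Prime).ne_one
      refine ⟨g ^ m, ?_, m, ((Fact.out : q.Prime).coprime_iff_not_dvd.mpr hm).symm, map_pow _ _ _⟩
      obtain ⟨l, -, hl⟩ := (Nat.dvd_prime_pow (Fact.out : q.Prime)).mp (orderOf_dvd_of_pow_eq_one (x := g ^ m) (n := q ^ e') (by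
        rw [← pow_mul, mul_comm, ← hgm, pow_orderOf_eq_one]))
      exact ⟨l, hl⟩
    obtain ⟨t, ⟨lt, hlt⟩, mt, hmt, hte⟩ := hlift 2 x i hx
    obtain ⟨g, ⟨lg, hlg⟩, mg, hmg, hge⟩ := hlift 3 y₁ 1 (by rw [hy₁, pow_one])
    set w := y₁ ^ mg
    have hw1 : w ≠ 1 := fun h => by
      have h1 := orderOf_dvd_of_pow_eq_one h
      rw [hy₁] at h1
      have := Nat.eq_one_of_dvd_coprimes hmg h1 dvd_rfl
      omega
    have hxw : x * w * x⁻¹ = w⁻¹ := by rw [← conj_pow, hxy₁, inv_pow]
    have hxodd : ∀ n : ℕ, Odd n → x ^ n * w * (x ^ n)⁻¹ = w⁻¹ := by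
      rintro n ⟨l, rfl⟩
      induction l with
      | zero => simpa using hxw
      | succ l ih =>
        rw [show 2 * (l + 1) + 1 = (2 * l + 1) + 1 + 1 by ring, pow_succ', pow_succ',
          show x * (x * x ^ (2 * l + 1)) * w * (x * (x * x ^ (2 * l + 1)))⁻¹ = x * (x * (x ^ (2 * l + 1) * w * (x ^ (2 * l + 1))⁻¹) * x⁻¹) * x⁻¹ by group,
          ih, show x * w⁻¹ * x⁻¹ = (x * w * x⁻¹)⁻¹ by group, hxw, inv_inv, hxw]
    have hC : ∀ n : ↥N, (n : G) ∈ Subgroup.centralizer (T : Set G) ↔ QuotientGroup.mk' C n = 1 := fun n =>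
      (QuotientGroup.eq_one_iff (N := C) n).symm
    have hfree := CfsgLib.FourAct.not_s4Free hT (y := (g : G)) (t := (t : G)) g.2 t.2
      ⟨lg, by rw [Subgroup.orderOf_coe, hlg]⟩ ⟨lt, by rw [Subgroup.orderOf_coe, hlt]⟩
      (fun h => hw1 (by rw [← hge]; exact (hC g).mp h))
      (by
        have : QuotientGroup.mk' C (g ^ 3) = 1 := by
          rw [map_pow, hge, ← pow_mul, mul_comm, pow_mul, ← hy₁, pow_orderOf_eq_one, one_pow]
        exact (hC (g ^ 3)).mpr this)
      (by
        have : QuotientGroup.mk' C (t * g * t⁻¹ * g) = 1 := by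
          rw [map_mul, map_mul, map_mul, map_inv, hte, hge,
            hxodd mt (Nat.coprime_two_right.mp hmt), inv_mul_cancel]
        exact (hC (t * g * t⁻¹ * g)).mpr this)
    by_contra hcon
    exact hfree (CfsgLib.ThompsonNPC.s4Free_of_not_involves hcon)

end Cfsg.Agent.S2759
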