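import Cfsg.Statements.S2760
import Cfsg.Agent.Lib.CharP

set_option autoImplicit false
open Cfsg

namespace Cfsg.Agent.S2760
open CfsgLib.CharP

/-- Let G be a finite group with C_G(O₂(G)) ≤ O₂(G) and H a subgroup of G such that H is normal in G, or the subgroup O²(H) generated by the elements of H of odd order is normal in G. Then C_H(O₂(H)) ≤ O₂(H). -/
theorem result {G : Type*} [Group G] [Finite G] (hchar : Subgroup.centralizer (Cfsg.pCore 2 G : Set G) ≤ Cfsg.pCore 2 G) (H : Subgroup G) (hH : H.Normal ∨ ((Cfsg.pResidual 2 ↥H).map H.subtype).Normal) : Subgroup.centralizer (Cfsg.pCore 2 ↥H : Set ↥H) ≤ Cfsg.pCore 2 ↥H := by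
  rcases hH with hH | hH
  · exact charP_of_normal hchar H
  · set K := (Cfsg.pResidual 2 ↥H).map H.subtype with hK
    have hKH : K ≤ H := Subgroup.map_subtype_le _
    have hKc : HasCharP 2 ↥(K.subgroupOf H) :=
      charP_congr (Subgroup.subgroupOfEquivOfLe hKH).symm (charP_of_normal hchar K)
    have hn : (K.subgroupOf H).Normal := ⟨fun x hx h => hH.conj_mem (x : G) hx (h : G)⟩
    refine charP_of_forall (p := 2) fun c hc hcent => ?_
    have hcK : c ∈ K.subgroupOf H := ⟨c, Subgroup.subset_closure hc, rfl⟩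
    refine congrArg Subtype.val (eq_one_of_centralizes hKc (c := (⟨c, hcK⟩ : ↥(K.subgroupOf H)))
      (by rwa [Subgroup.orderOf_mk]) fun x hx => Subtype.ext ?_)
    exact hcent x (CfsgLib.Core.pCore_subgroup_map_le 2 (K.subgroupOf H) ⟨x, hx, rfl⟩)

end Cfsg.Agent.S2760
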