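import Cfsg.Statements.S2761
import Cfsg.Agent.Lib.Qd

set_option autoImplicit false
open Cfsg

namespace Cfsg.Agent.S2761
open CfsgLib.Qd
open scoped Matrix

def actHom : ↥(aff (ZMod 2)) →* Equiv.Perm (Fin 2 → ZMod 2) where
  toFun M :=
    { toFun := fun v => (blk M).1 *ᵥ v + vec M
      invFun := fun v => (blk M⁻¹).1 *ᵥ v + vec M⁻¹
      left_inv := fun v => by
        have h := vec_mul M⁻¹ M
        rw [inv_mul_cancel, show vec (1 : ↥(aff (ZMod 2))) = 0 by funext i; fin_cases i <;> simp [vec]] at h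
        dsimp only
        rw [Matrix.mulVec_add, Matrix.mulVec_mulVec, ← Matrix.SpecialLinearGroup.coe_mul, ← map_mul,
          inv_mul_cancel, map_one, Matrix.SpecialLinearGroup.coe_one, Matrix.one_mulVec, add_assoc, ← h, add_zero]
      right_inv := fun v => by
        have h := vec_mul M M⁻¹
        rw [mul_inv_cancel, show vec (1 : ↥(aff (ZMod 2))) = 0 by funext i; fin_cases i <;> simp [vec]] at h
        dsimp only
        rw [Matrix.mulVec_add, Matrix.mulVec_mulVec, ← Matrix.SpecialLinearGroup.coe_mul, ← map_mul,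
          mul_inv_cancel, map_one, Matrix.SpecialLinearGroup.coe_one, Matrix.one_mulVec, add_assoc, ← h, add_zero] }
  map_one' := Equiv.ext fun v => by
    show (blk (1 : ↥(aff (ZMod 2)))).1 *ᵥ v + vec (1 : ↥(aff (ZMod 2))) = v
    rw [show vec (1 : ↥(aff (ZMod 2))) = 0 by funext i; fin_cases i <;> simp [vec]]
    simp
  map_mul' A B := Equiv.ext fun v => by
    show (blk (A * B)).1 *ᵥ v + vec (A * B) = (blk A).1 *ᵥ ((blk B).1 *ᵥ v + vec B) + vec A
    rw [vec_mul, map_mul, Matrix.SpecialLinearGroup.coe_mul, Matrix.mulVec_add, Matrix.mulVec_mulVec, add_assoc]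

theorem actHom_injective : Function.Injective actHom := by
  rw [injective_iff_map_eq_one]
  intro M h
  have h0 := congrFun (congrArg DFunLike.coe h) 0
  have hv : ∀ v : Fin 2 → ZMod 2, (blk M).1 *ᵥ v = v := fun v => by
    have h1 : (blk M).1 *ᵥ v + vec M = v := congrFun (congrArg DFunLike.coe h) v
    have h2 : (blk M).1 *ᵥ 0 + vec M = 0 := h0
    rw [Matrix.mulVec_zero, zero_add] at h2
    rwa [h2, add_zero] at h1
  have h2 : vec M = 0 := by
    have h2 : (blk M).1 *ᵥ 0 + vec M = 0 := h0
    rwa [Matrix.mulVec_zero, zero_add] at h2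
  rw [ext_iff', map_one, h2]
  refine ⟨Subtype.ext (Matrix.toLin'.injective (LinearMap.ext fun v => ?_)), by funext i; fin_cases i <;> simp [vec]⟩
  rw [Matrix.toLin'_apply, Matrix.toLin'_apply, hv, Matrix.SpecialLinearGroup.coe_one, Matrix.one_mulVec]

theorem card_SL2_two : Nat.card (Matrix.SpecialLinearGroup (Fin 2) (ZMod 2)) = 6 := by
  rw [Nat.card_eq_fintype_card]; decide

/-- The group Qd(2), the natural semidirect product of an elementary abelian group of order 4 by SL₂(2) (realised as the affine subgroup of SL₃(2)), is isomorphic to the symmetric group of degree 4. -/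
theorem result : Nonempty (↥(Cfsg.qd 2) ≃* Equiv.Perm (Fin 4)) := by
  rw [qd_eq]
  haveI := Fintype.ofFinite ↥(aff (ZMod 2))
  refine ⟨(MulEquiv.ofBijective actHom ((Fintype.bijective_iff_injective_and_card _).mpr ⟨actHom_injective, ?_⟩)).trans
    (Fintype.equivFinOfCardEq (α := Fin 2 → ZMod 2) (by simp)).permCongrHom⟩
  rw [← Nat.card_eq_fintype_card, ← Nat.card_eq_fintype_card, card_aff, card_SL2_two, Nat.card_perm]
  simp [Nat.factorial]

end Cfsg.Agent.S2761
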