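import Cfsg.Statements.S2762
import Cfsg.Agent.Lib.Qd

set_option autoImplicit false
open Cfsg

namespace Cfsg.Agent.S2762
open CfsgLib.Qd
open scoped Matrix

/-- Structure of Qd over a finite field F of characteristic p (the affine subgroup of SL₃(F)): its largest normal p-subgroup is the group of translations (matrices with upper-left block the identity), the block-diagonal matrices form a complement isomorphic to SL₂(F), and the translation subgroup is a natural SL₂(F)-module for that complement. -/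
theorem result {F : Type*} [Field F] [Fintype F] {p : ℕ} [Fact p.Prime] [CharP F p] : (∀ M : ↥(Cfsg.qdOver F), M ∈ Cfsg.pCore p ↥(Cfsg.qdOver F) ↔ ((M : Matrix.SpecialLinearGroup (Fin 3) F) : Matrix (Fin 3) (Fin 3) F) 0 0 = 1 ∧ ((M : Matrix.SpecialLinearGroup (Fin 3) F) : Matrix (Fin 3) (Fin 3) F) 0 1 = 0 ∧ ((M : Matrix.SpecialLinearGroup (Fin 3) F) : Matrix (Fin 3) (Fin 3) F) 1 0 = 0 ∧ ((M : Matrix.SpecialLinearGroup (Fin 3) F) : Matrix (Fin 3) (Fin 3) F) 1 1 = 1) ∧ ∃ K : Subgroup ↥(Cfsg.qdOver F), (∀ M : ↥(Cfsg.qdOver F), M ∈ K ↔ ((M : Matrix.SpecialLinearGroup (Fin 3) F) : Matrix (Fin 3) (Fin 3) F) 0 2 = 0 ∧ ((M : Matrix.SpecialLinearGroup (Fin 3) F) : Matrix (Fin 3) (Fin 3) F) 1 2 = 0) ∧ K ⊓ Cfsg.pCore p ↥(Cfsg.qdOver F) = ⊥ ∧ K ⊔ Cfsg.pCore p ↥(Cfsg.qdOver F) = ⊤ ∧ Nonempty (↥K ≃* Matrix.SpecialLinearGroup (Fin 2) F) ∧ Cfsg.IsNaturalSL2Module F (Cfsg.pCore p ↥(Cfsg.qdOver F)) K := by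
  rw [qdOver_eq]
  rw [pCore_aff]
  have hker : ∀ M : ↥(aff F), M ∈ (blk : ↥(aff F) →* _).ker ↔ blk M = 1 := fun M => Iff.rfl
  refine ⟨fun M => ?_, (lift : _ →* ↥(aff F)).range, fun M => ?_, ?_, ?_,
    ⟨(MonoidHom.ofInjective lift_injective).symm⟩, ?_, ?_⟩
  · rw [hker]
    constructor
    · intro h
      have h3 := congrArg Subtype.val h
      rw [blk_coe, Matrix.SpecialLinearGroup.coe_one] at h3
      exact ⟨by simpa using congrFun (congrFun h3 0) 0, by simpa using congrFun (congrFun h3 0) 1,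
        by simpa using congrFun (congrFun h3 1) 0, by simpa using congrFun (congrFun h3 1) 1⟩
    · rintro ⟨a, b, c, d⟩
      exact Subtype.ext (by rw [blk_coe, a, b, c, d, Matrix.SpecialLinearGroup.coe_one, Matrix.one_fin_two])
  · rw [mem_range_lift]
    constructor
    · intro h
      exact ⟨by simpa [vec] using congrFun h 0, by simpa [vec] using congrFun h 1⟩
    · rintro ⟨a, b⟩
      funext i; fin_cases i <;> simp [vec, a, b]
  · rw [Subgroup.eq_bot_iff_forall]
    rintro x ⟨hx1, hx2⟩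
    rw [ext_iff', (hker x).mp hx2, mem_range_lift.mp hx1, map_one]
    exact ⟨rfl, by funext i; fin_cases i <;> simp [vec]⟩
  · rw [eq_top_iff]
    intro M _
    rw [eq_trl_mul_lift M, sup_comm]
    exact Subgroup.mul_mem_sup ((hker _).mpr (blk_trl _)) ⟨_, rfl⟩
  · intro M _
    rw [Subgroup.normalizer_eq_top]
    exact Subgroup.mem_top _
  · refine ⟨blk.comp (Subgroup.subtype _), kerEquiv,
      fun A => ⟨⟨lift A, A, rfl⟩, blk_lift A⟩, ?_, fun l v => ⟨⟨(l : ↥(aff F)) * v * (l : ↥(aff F))⁻¹,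
        MonoidHom.normal_ker (blk : ↥(aff F) →* _) |>.conj_mem _ v.2 _⟩, rfl, vec_conj _ v.2⟩⟩
    ext l
    obtain ⟨A, hA⟩ := l.2
    rw [MonoidHom.mem_ker, Subgroup.mem_subgroupOf, Subgroup.mem_centralizer_iff]
    show blk (l : ↥(aff F)) = 1 ↔ _
    constructor
    · intro h v hv
      have hl : (l : ↥(aff F)) = 1 := by rw [← hA] at h ⊢; rw [blk_lift] at h; rw [h, map_one]
      rw [hl, one_mul, mul_one]
    · intro h
      refine Subtype.ext (Matrix.toLin'.injective (LinearMap.ext fun v => ?_))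
      rw [Matrix.toLin'_apply, Matrix.toLin'_apply, Matrix.SpecialLinearGroup.coe_one, Matrix.one_mulVec]
      have h1 := vec_conj (l : ↥(aff F)) (blk_trl v)
      rw [← h (trl v) (blk_trl v), mul_assoc, mul_inv_cancel, mul_one, vec_trl] at h1
      exact h1.symm

end Cfsg.Agent.S2762
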