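import Cfsg.Statements.S2763
import Cfsg.Agent.Lib.KInfQd

set_option autoImplicit false
open Cfsg

namespace Cfsg.Agent.S2763
open Subgroup CfsgLib.Qd CfsgLib.KInfQd CfsgLib.LocalBasic
open scoped Matrix

variable {p : ℕ} [Fact p.Prime]

set_option quotPrecheck false in
local notation "Q0" => ↥(CfsgLib.Qd.aff (ZMod p))

/-- The swap automorphism on the standard Sylow subgroup, as a function. -/
def swapFun (m : Q0) : Q0 :=
  trl ![((blk m).1 1 0), ((blk m).1 1 0) * vec m 0 - vec m 1] * lift (CfsgLib.Linear.GL2Unipotent.v (vec m 0))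

theorem swapFun_mem (m : Q0) : swapFun m ∈ T0 (p := p) :=
  mul_mem (trl_mem _) (lift_v_mem _)

theorem blk_swapFun (m : Q0) : blk (swapFun m) = CfsgLib.Linear.GL2Unipotent.v (vec m 0) := by
  rw [swapFun, map_mul, blk_trl, blk_lift, one_mul]

theorem vec_swapFun (m : Q0) : vec (swapFun m) = ![((blk m).1 1 0), ((blk m).1 1 0) * vec m 0 - vec m 1] := by
  rw [swapFun, vec_mul, blk_trl, vec_lift, vec_trl]; simp

theorem swapFun_mul {a b : Q0} (ha : a ∈ T0 (p := p)) (hb : b ∈ T0 (p := p)) :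
    swapFun (a * b) = swapFun a * swapFun b := by
  obtain ⟨c, hc⟩ := mem_T0.mp ha
  obtain ⟨d, hd⟩ := mem_T0.mp hb
  rw [ext_iff']
  constructor
  · rw [map_mul, blk_swapFun, blk_swapFun, blk_swapFun, vec_mul, ← hc]
    apply Subtype.ext
    simp [Matrix.mulVec, dotProduct, Fin.sum_univ_two, add_comm]
  · rw [vec_mul (swapFun a) (swapFun b), vec_swapFun, vec_swapFun, vec_swapFun, blk_swapFun, map_mul, ← hc, ← hd, vec_mul, ← hc]
    funext i
    fin_cases i <;> simp [Matrix.mulVec, dotProduct, Fin.sum_univ_two] <;> ring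

theorem swapFun_swapFun {a : Q0} (ha : a ∈ T0 (p := p)) : swapFun (swapFun a) = a := by
  obtain ⟨c, hc⟩ := mem_T0.mp ha
  rw [ext_iff']
  constructor
  · rw [blk_swapFun, vec_swapFun, ← hc]
    simp
  · rw [vec_swapFun, blk_swapFun, vec_swapFun, ← hc]
    funext i
    fin_cases i <;> simp <;> ring

/-- The swap automorphism of the standard Sylow subgroup. -/
def swap : ↥(T0 (p := p)) ≃* ↥(T0 (p := p)) where
  toFun m := ⟨swapFun m.1, swapFun_mem _⟩
  invFun m := ⟨swapFun m.1, swapFun_mem _⟩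
  left_inv m := Subtype.ext (swapFun_swapFun m.2)
  right_inv m := Subtype.ext (swapFun_swapFun m.2)
  map_mul' a b := Subtype.ext (swapFun_mul a.2 b.2)

theorem exists_mulVec_eq {a b : Fin 2 → ZMod p} (ha : a ≠ 0) (hb : b ≠ 0) :
    ∃ A : Matrix.SpecialLinearGroup (Fin 2) (ZMod p), A.1 *ᵥ a = b := by
  have key : ∀ a : Fin 2 → ZMod p, a ≠ 0 → ∃ A : Matrix.SpecialLinearGroup (Fin 2) (ZMod p), A.1 *ᵥ ![1, 0] = a := by
    intro a ha
    by_cases h0 : a 0 = 0
    · have h1 : a 1 ≠ 0 := fun h => ha (by funext i; fin_cases i <;> simpa)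
      refine ⟨⟨!![0, -(a 1)⁻¹; a 1, 0], by simp [Matrix.det_fin_two_of, h1]⟩, ?_⟩
      funext i; fin_cases i <;> simp [Matrix.mulVec, dotProduct, Fin.sum_univ_two, h0]
    · refine ⟨⟨!![a 0, 0; a 1, (a 0)⁻¹], by simp [Matrix.det_fin_two_of, h0]⟩, ?_⟩
      funext i; fin_cases i <;> simp [Matrix.mulVec, dotProduct, Fin.sum_univ_two]
  obtain ⟨A, hA⟩ := key a ha
  obtain ⟨B, hB⟩ := key b hb
  refine ⟨B * A⁻¹, ?_⟩
  have h3 : (A⁻¹).1 * A.1 = 1 := congrArg Subtype.val (inv_mul_cancel A)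
  show (B.1 * (A⁻¹).1) *ᵥ a = b
  rw [← hA, ← Matrix.mulVec_mulVec, Matrix.mulVec_mulVec ![1, 0], h3, Matrix.one_mulVec, hB]

theorem ker_le (P : Sylow p Q0) : (blk : Q0 →* _).ker ≤ (P : Subgroup Q0) :=
  CfsgLib.Core.sylow_inf_le P CfsgLib.Qd.isPGroup_ker

theorem main (S : Sylow p Q0) (T : Subgroup ↥(S : Subgroup Q0)) (hT : T ≠ ⊥) (hTc : T.Characteristic) :
    normalizer ((T.map (S : Subgroup Q0).subtype : Subgroup Q0) : Set Q0) = normalizer ((S : Subgroup Q0) : Set Q0) ∧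
      normalizer ((S : Subgroup Q0) : Set Q0) ≠ ⊤ := by
  classical
  obtain ⟨hTp, hTi⟩ := T0_sylow (p := p)
  set S0 : Sylow p Q0 := hTp.toSylow hTi
  obtain ⟨g, hg⟩ := MulAction.exists_smul_eq Q0 S0 S
  have hSg : (S : Subgroup Q0) = (T0 (p := p)).map (MulAut.conj g).toMonoidHom := by rw [← hg]; rfl
  have hx : lift (CfsgLib.Linear.GL2Unipotent.v (1 : ZMod p)) ∉ (blk : Q0 →* _).ker := by
    rw [MonoidHom.mem_ker, blk_lift]
    intro h
    have := congrFun (congrFun (congrArg Subtype.val h) 1) 0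
    simp at this
  have hkn : ∀ (y : Q0), g * y * g⁻¹ ∈ (blk : Q0 →* _).ker → y ∈ (blk : Q0 →* _).ker := fun y hy => by
    simpa [mul_assoc] using (inferInstance : ((blk : Q0 →* _).ker).Normal).conj_mem _ hy g⁻¹
  have hSn : normalizer ((S : Subgroup Q0) : Set Q0) ≠ ⊤ := by
    intro htop
    have h1 : (S : Subgroup Q0) ≤ (blk : Q0 →* _).ker := by
      rw [← CfsgLib.Qd.pCore_aff (F := ZMod p) (p := p)]
      exact CfsgLib.Core.le_pCore (normalizer_eq_top_iff.mp htop) S.isPGroup'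
    exact hx (hkn _ (h1 (hSg ▸ ⟨_, lift_v_mem 1, rfl⟩)))
  refine ⟨le_antisymm ?_ ?_, hSn⟩
  swap
  · intro n hn
    refine mem_normalizer_of_conj_map_eq ?_
    ext y
    constructor
    · rintro ⟨_, ⟨t, ht, rfl⟩, rfl⟩
      let e : ↥(S : Subgroup Q0) ≃* ↥(S : Subgroup Q0) := (S : Subgroup Q0).normalizerMonoidHom ⟨n, hn⟩
      refine ⟨e t, ?_, rfl⟩
      have := (Subgroup.characteristic_iff_map_eq.mp hTc) e
      exact this.le ⟨t, ht, rfl⟩
    · rintro ⟨t, ht, rfl⟩
      let e : ↥(S : Subgroup Q0) ≃* ↥(S : Subgroup Q0) := (S : Subgroup Q0).normalizerMonoidHom ⟨n, hn⟩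
      refine ⟨_, ⟨e.symm t, ?_, rfl⟩, ?_⟩
      · have := (Subgroup.characteristic_iff_map_eq.mp hTc) e
        obtain ⟨t', ht', he⟩ := this.ge ht
        rw [← he]; simpa using ht'
      · have h2 : (((e (e.symm t)) : ↥(S : Subgroup Q0)) : Q0) = t := by rw [e.apply_symm_apply]
        exact h2
  set X : Subgroup Q0 := T.map (S : Subgroup Q0).subtype with hX
  have hXS : X ≤ (S : Subgroup Q0) := Subgroup.map_subtype_le T
  have hSX : (S : Subgroup Q0) ≤ normalizer (X : Set Q0) := by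
    have : T.Normal := inferInstance
    have := Subgroup.le_normalizer_map (H := T) (S : Subgroup Q0).subtype
    rw [Subgroup.normalizer_eq_top (H := T), ← MonoidHom.range_eq_map, Subgroup.range_subtype] at this
    exact this
  by_contra hle
  obtain ⟨n, hn, hnS⟩ := SetLike.not_le_iff_exists.mp hle
  -- the normalizer is everything
  have htop : normalizer (X : Set Q0) = ⊤ := by
    set P' : Sylow p Q0 := n • S
    have hP' : (P' : Subgroup Q0) ≤ normalizer (X : Set Q0) := by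
      rintro _ ⟨s, hs, rfl⟩
      exact mul_mem (mul_mem hn (hSX hs)) (inv_mem hn)
    have hne : P' ≠ S := fun h => hnS (Sylow.smul_eq_iff_mem_normalizer.mp h)
    set P1 := S.mapSurjective (f := (blk : Q0 →* _)) blk_surjective
    set P2 := P'.mapSurjective (f := (blk : Q0 →* _)) blk_surjective
    have h12 : P1 ≠ P2 := by
      intro h
      apply hne
      apply Sylow.ext
      have h' : (S : Subgroup Q0).map blk = (P' : Subgroup Q0).map blk := congrArg Sylow.toSubgroup h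
      have e : ∀ P : Sylow p Q0, ((P : Subgroup Q0).map blk).comap blk = (P : Subgroup Q0) := fun P => by
        rw [Subgroup.comap_map_eq, sup_eq_left.mpr (ker_le P)]
      rw [← e P', ← h', e S]
    have h3 := CfsgLib.Linear.GL2Unipotent.sup_sylow_eq_top p P1 P2 h12
    have h4 : (⊤ : Subgroup _) ≤ (normalizer (X : Set Q0)).map blk := by
      rw [← h3]
      exact sup_le (Subgroup.map_mono hSX) (Subgroup.map_mono hP')
    rw [eq_top_iff]
    intro y _
    obtain ⟨z, hz, hzy⟩ := h4 (mem_top (blk y))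
    rw [show y = z * (z⁻¹ * y) by group]
    exact mul_mem hz (hSX (ker_le S (by rw [MonoidHom.mem_ker, map_mul, map_inv, hzy, inv_mul_cancel])))
  have hXn : X.Normal := normalizer_eq_top_iff.mp htop
  have hXk : X ≤ (blk : Q0 →* _).ker := by
    rw [← CfsgLib.Qd.pCore_aff (F := ZMod p) (p := p)]
    exact CfsgLib.Core.le_pCore hXn (S.isPGroup'.to_le hXS)
  -- so it contains a translation in every direction
  have hkX : (blk : Q0 →* _).ker ≤ X := by
    obtain ⟨t, htX, ht1⟩ : ∃ t ∈ X, t ≠ 1 := by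
      by_contra hc
      push Not at hc
      exact hT ((Subgroup.map_eq_bot_iff_of_injective _ (S : Subgroup Q0).subtype_injective).mp
        ((Subgroup.eq_bot_iff_forall _).mpr hc))
    intro y hy
    have htk : blk t = 1 := hXk htX
    have hyk : blk y = 1 := hy
    by_cases hy1 : vec y = 0
    · rw [show y = 1 from (ext_iff' y 1).mpr ⟨by rw [hyk, map_one], by rw [hy1]; funext i; fin_cases i <;> simp [vec]⟩]
      exact one_mem _
    have ha : vec t ≠ 0 := fun h => ht1 ((ext_iff' t 1).mpr ⟨by rw [htk, map_one], by rw [h]; funext i; fin_cases i <;> simp [vec]⟩)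
    obtain ⟨A, hA⟩ := exists_mulVec_eq ha hy1
    have : y = lift A * t * (lift A)⁻¹ := (ext_iff' _ _).mpr ⟨by rw [map_mul, map_mul, map_inv, htk, hyk, mul_one, mul_inv_cancel],
      by rw [vec_conj _ htk, blk_lift, hA]⟩
    rw [this]
    exact hXn.conj_mem t htX _
  -- but the translations are not characteristic
  let σ : ↥(T0 (p := p)) ≃* ↥(S : Subgroup Q0) :=
    ((T0 (p := p)).equivMapOfInjective (MulAut.conj g).toMonoidHom (MulEquiv.injective _)).trans (MulEquiv.subgroupCongr hSg.symm)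
  have hσ : ∀ a, ((σ a : ↥(S : Subgroup Q0)) : Q0) = g * a * g⁻¹ := fun a => rfl
  set t0 : ↥(T0 (p := p)) := ⟨trl ![1, 0], trl_mem _⟩
  have ht0 : σ t0 ∈ T := by
    have h1 : ((σ t0 : ↥(S : Subgroup Q0)) : Q0) ∈ X := hkX (by
      rw [hσ]; exact (inferInstance : ((blk : Q0 →* _).ker).Normal).conj_mem _ (blk_trl _) g)
    obtain ⟨t, ht, he⟩ := h1
    rwa [← Subtype.ext he]
  let ψ : ↥(S : Subgroup Q0) ≃* ↥(S : Subgroup Q0) := (σ.symm.trans swap).trans σ
  have h2 : ψ (σ t0) ∈ T := (Subgroup.characteristic_iff_map_eq.mp hTc ψ).le ⟨_, ht0, rfl⟩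
  have h3 : (swap t0 : Q0) ∈ (blk : Q0 →* _).ker := by
    have h4 : ((ψ (σ t0) : ↥(S : Subgroup Q0)) : Q0) ∈ X := ⟨_, h2, rfl⟩
    have h5 : ψ (σ t0) = σ (swap t0) := by simp [ψ]
    rw [h5, hσ] at h4
    exact hkn _ (hXk h4)
  rw [MonoidHom.mem_ker] at h3
  have h6 : blk (swapFun (t0 : Q0)) = 1 := h3
  rw [blk_swapFun] at h6
  have h7 := congrFun (congrFun (congrArg Subtype.val h6) 1) 0
  simp [t0] at h7

theorem main' (X : Subgroup (Matrix.SpecialLinearGroup (Fin 3) (ZMod p))) (hX : X = CfsgLib.Qd.aff (ZMod p))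
    (S : Sylow p ↥X) (T : Subgroup ↥(S : Subgroup ↥X)) (hT : T ≠ ⊥) (hTc : T.Characteristic) :
    normalizer ((T.map (S : Subgroup ↥X).subtype : Subgroup ↥X) : Set ↥X) = normalizer ((S : Subgroup ↥X) : Set ↥X) ∧
      normalizer ((S : Subgroup ↥X) : Set ↥X) ≠ ⊤ := by
  subst hX
  exact main S T hT hTc

/-- In the group Qd(p) (p prime; the natural semidirect product of an elementary abelian group of order p² by SL₂(p)), the normalizer of every nontrivial characteristic subgroup of a Sylow p-subgroup S equals the normalizer of S, which is a proper subgroup; in particular no such characteristic subgroup is normal. -/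
theorem result {p : ℕ} [Fact p.Prime] (S : Sylow p ↥(Cfsg.qd p)) (T : Subgroup ↥(S : Subgroup ↥(Cfsg.qd p))) (hT : T ≠ ⊥) (hTc : T.Characteristic) : Subgroup.normalizer ((T.map (S : Subgroup ↥(Cfsg.qd p)).subtype : Subgroup ↥(Cfsg.qd p)) : Set ↥(Cfsg.qd p)) = Subgroup.normalizer ((S : Subgroup ↥(Cfsg.qd p)) : Set ↥(Cfsg.qd p)) ∧ Subgroup.normalizer ((S : Subgroup ↥(Cfsg.qd p)) : Set ↥(Cfsg.qd p)) ≠ ⊤ := by
  exact main' _ (CfsgLib.Qd.qd_eq p) S T hT hTc

end Cfsg.Agent.S2763
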