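import Cfsg.Statements.S2779
import Cfsg.Agent.Lib.NaturalSL2Sylow

set_option autoImplicit false
open Cfsg

namespace Cfsg.Agent.S2779

open CfsgLib.NaturalSL2Sylow
open scoped commutatorElement

/-- Let L act on the elementary abelian p-group V (inside a finite group, by conjugation, faithfully) as SL₂(F) on its natural module, F a field with p^n elements, and let S be a Sylow p-subgroup of L. Then [V, S, S] = 1; |V| = p^(2n) and |C_V(S)| = p^n; and for every nonidentity s ∈ S and every v ∈ V outside C_V(S): C_V(s) = C_V(S) = [V, S] = [V, s] = the subgroup generated by the commutators [v, t], t ∈ S. -/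
theorem result {G : Type*} [Group G] [Finite G] {p : ℕ} [Fact p.Prime] {F : Type*} [Field F] [Fintype F] (n : ℕ) (hF : Fintype.card F = p ^ n) (V L : Subgroup G) (hnat : Cfsg.IsNaturalSL2Module F V L) (hf : L ⊓ Subgroup.centralizer (V : Set G) = ⊥) (S : Sylow p ↥L) (T : Subgroup G) (hT : T = ((S : Subgroup ↥L).map L.subtype)) : ⁅⁅V, T⁆, T⁆ = ⊥ ∧ Nat.card V = p ^ (2 * n) ∧ Nat.card ↥(V ⊓ Subgroup.centralizer ((T : Subgroup G) : Set G)) = p ^ n ∧ ∀ s ∈ T, s ≠ 1 → (V ⊓ Subgroup.centralizer ({s} : Set G)) = (V ⊓ Subgroup.centralizer ((T : Subgroup G) : Set G)) ∧ ⁅V, T⁆ = (V ⊓ Subgroup.centralizer ((T : Subgroup G) : Set G)) ∧ ⁅V, Subgroup.zpowers s⁆ = (V ⊓ Subgroup.centralizer ((T : Subgroup G) : Set G)) ∧ ∀ v ∈ V, v ∉ Subgroup.centralizer (T : Set G) → Subgroup.closure {x : G | ∃ t ∈ T, x = v * t * v⁻¹ * t⁻¹} = (V ⊓ Subgroup.centralizer ((T : Subgroup G) : Set G)) := by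
  obtain ⟨c⟩ := exists_coord hF hnat hf S hT
  set D := V ⊓ Subgroup.centralizer ((T : Subgroup G) : Set G) with hD
  have hVT : ⁅V, T⁆ ≤ D := by
    rw [Subgroup.commutator_le]
    intro v hv t ht
    obtain ⟨x, rfl⟩ := c.exists_eq hv
    obtain ⟨a, rfl⟩ := c.exists_t ht
    rw [commutatorElement_def, c.commutator_eq]
    exact c.mem_fixed.mpr rfl
  have hdec : ∀ d ∈ D, ∃ y, d = c.φ ![0, y] := by
    intro d hd
    obtain ⟨x, rfl⟩ := c.exists_eq hd.1
    refine ⟨x 1, congrArg c.φ ?_⟩
    funext i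
    fin_cases i <;> simp [c.mem_fixed.mp hd]
  refine ⟨?_, ?_, ?_, fun s hs hs1 => ?_⟩
  · rw [Subgroup.commutator_eq_bot_iff_le_centralizer]
    exact hVT.trans inf_le_right
  · rw [c.card_V, hF, ← pow_mul, mul_comm]
  · rw [c.card_fixed, hF]
  · obtain ⟨a, rfl⟩ := c.exists_t hs
    have ha : a ≠ 0 := by
      rintro rfl
      refine hs1 ?_
      have : c.t 0 = 1 := c.e.injective (Subtype.ext (by simp [Coord.t, Matrix.one_fin_two]))
      rw [this]; rfl
    refine ⟨le_antisymm ?_ (inf_le_inf_left V (Subgroup.centralizer_le (Set.singleton_subset_iff.mpr hs))),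
      le_antisymm hVT ?_, le_antisymm ((Subgroup.commutator_mono le_rfl (Subgroup.zpowers_le.mpr hs)).trans hVT) ?_,
      fun v hv hv2 => le_antisymm ?_ ?_⟩
    · intro w hw
      obtain ⟨x, rfl⟩ := c.exists_eq hw.1
      have h := (c.commute_t (a := a)).mp (Subgroup.mem_centralizer_singleton_iff.mp hw.2).symm
      exact c.mem_fixed.mpr ((mul_eq_zero.mp h).resolve_left ha)
    · intro d hd
      obtain ⟨y, rfl⟩ := hdec d hd
      have h := Subgroup.commutator_mem_commutator (c.φ_mem ![1, 0]) (c.t_mem (-y))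
      rw [commutatorElement_def, c.commutator_eq] at h
      simpa using h
    · intro d hd
      obtain ⟨y, rfl⟩ := hdec d hd
      have h := Subgroup.commutator_mem_commutator (c.φ_mem ![-y / a, 0]) (Subgroup.mem_zpowers (c.t a : G))
      rw [commutatorElement_def, c.commutator_eq] at h
      convert h using 3
      simp only [Matrix.cons_val_zero]
      field_simp
    · rw [Subgroup.closure_le]
      rintro _ ⟨t, ht, rfl⟩
      obtain ⟨x, rfl⟩ := c.exists_eq hv
      obtain ⟨b, rfl⟩ := c.exists_t ht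
      rw [c.commutator_eq]
      exact c.mem_fixed.mpr rfl
    · intro d hd
      obtain ⟨y, rfl⟩ := hdec d hd
      obtain ⟨x, rfl⟩ := c.exists_eq hv
      have hx : x 0 ≠ 0 := fun h => hv2 (c.mem_fixed.mpr h).2
      refine Subgroup.subset_closure ⟨_, c.t_mem (-y / x 0), ?_⟩
      rw [c.commutator_eq]
      congr 3
      field_simp

end Cfsg.Agent.S2779
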