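import Cfsg.Statements.S2780
import Cfsg.Agent.Lib.NaturalSL2Sylow

set_option autoImplicit false
open Cfsg

namespace Cfsg.Agent.S2780

open CfsgLib.NaturalSL2Sylow
open scoped Matrix

/-- Let L act on the elementary abelian p-group V (inside a finite group, faithfully) as SL₂(F) on its natural module, F a field with p^n elements, S a Sylow p-subgroup of L. Then: for every g ∈ L not normalizing S, V is the internal direct product of C_V(S) and C_V(gSg⁻¹); every nonidentity element of L of order prime to p acts on V without nonidentity fixed points; and C_V(S) and V/C_V(S) are irreducible for N_L(S): the only N_L(S)-invariant subgroups of C_V(S) are 1 and C_V(S), and the only N_L(S)-invariant subgroups between C_V(S) and V are those two. -/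
theorem result {G : Type*} [Group G] [Finite G] {p : ℕ} [Fact p.Prime] {F : Type*} [Field F] [Fintype F] (n : ℕ) (hF : Fintype.card F = p ^ n) (V L : Subgroup G) (hnat : Cfsg.IsNaturalSL2Module F V L) (hf : L ⊓ Subgroup.centralizer (V : Set G) = ⊥) (S : Sylow p ↥L) (T : Subgroup G) (hT : T = ((S : Subgroup ↥L).map L.subtype)) : (∀ g ∈ L, g ∉ Subgroup.normalizer (T : Set G) → Cfsg.IsInternalDirectProduct (V ⊓ Subgroup.centralizer ((T : Subgroup G) : Set G)) (V ⊓ Subgroup.centralizer ((T.map (MulAut.conj g).toMonoidHom : Subgroup G) : Set G)) V) ∧ (∀ x ∈ L, x ≠ 1 → (orderOf x).Coprime p → (V ⊓ Subgroup.centralizer ({x} : Set G)) = ⊥) ∧ (∀ U : Subgroup G, U ≤ (V ⊓ Subgroup.centralizer ((T : Subgroup G) : Set G)) → L ⊓ Subgroup.normalizer (T : Set G) ≤ Subgroup.normalizer (U : Set G) → U = ⊥ ∨ U = (V ⊓ Subgroup.centralizer ((T : Subgroup G) : Set G))) ∧ (∀ U : Subgroup G, (V ⊓ Subgroup.centralizer ((T : Subgroup G) : Set G)) ≤ U → U ≤ V → L ⊓ Subgroup.normalizer (T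 : Set G) ≤ Subgroup.normalizer (U : Set G) → U = (V ⊓ Subgroup.centralizer ((T : Subgroup G) : Set G)) ∨ U = V) := by
  haveI := charP_of_card hF
  obtain ⟨c⟩ := exists_coord hF hnat hf S hT
  set D := V ⊓ Subgroup.centralizer ((T : Subgroup G) : Set G) with hD
  have hconjV : ∀ l : ↥L, ∀ x, (l : G)⁻¹ * c.φ x * (l : G) =
      c.φ (((c.e l)⁻¹ : Matrix.SpecialLinearGroup (Fin 2) F) *ᵥ x) := by
    intro l x
    have := c.act l⁻¹ x
    rw [map_inv] at this
    simpa using this
  have hdiag : ∀ a : F, a ≠ 0 → ∃ l : ↥L, (l : G) ∈ L ⊓ Subgroup.normalizer (T : Set G) ∧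
      ∀ x, (l : G) * c.φ x * (l : G)⁻¹ = c.φ ![a⁻¹ * x 0, a * x 1] := by
    intro a ha
    have hdet : Matrix.det !![a⁻¹, 0; 0, a] = 1 := by simp [Matrix.det_fin_two_of, inv_mul_cancel₀ ha]
    let d : Matrix.SpecialLinearGroup (Fin 2) F := ⟨_, hdet⟩
    refine ⟨c.e.symm d, Subgroup.mem_inf.mpr ⟨(c.e.symm d).2, c.mem_normalizer ?_⟩, fun x => ?_⟩
    · rw [MulEquiv.apply_symm_apply]; rfl
    · rw [c.act, MulEquiv.apply_symm_apply]
      congr 1
      funext i
      fin_cases i <;> simp [d, Matrix.mulVec, dotProduct, Fin.sum_univ_two]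
  have hconj : ∀ U : Subgroup G, L ⊓ Subgroup.normalizer (T : Set G) ≤ Subgroup.normalizer (U : Set G) →
      ∀ x, c.φ x ∈ U → ∀ a : F, a ≠ 0 → c.φ ![a⁻¹ * x 0, a * x 1] ∈ U := by
    intro U hU x hx a ha
    obtain ⟨l, hl, hl2⟩ := hdiag a ha
    rw [← hl2]
    exact (Subgroup.mem_normalizer_iff.mp (hU hl) _).mp hx
  refine ⟨fun g hg hgT => ?_, fun x hx hx1 hco => ?_, fun U hUD hU => ?_, fun U hDU hUV hU => ?_⟩
  · set l : ↥L := ⟨g, hg⟩ with hl
    set M := (c.e l : Matrix (Fin 2) (Fin 2) F) with hM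
    have h01 : M 0 1 ≠ 0 := fun h => hgT (c.mem_normalizer h)
    set D' := V ⊓ Subgroup.centralizer ((T.map (MulAut.conj g).toMonoidHom : Subgroup G) : Set G) with hD'
    have hmem : ∀ x, c.φ x ∈ D → c.φ (M *ᵥ x) ∈ D' := by
      intro x hx
      refine Subgroup.mem_inf.mpr ⟨c.φ_mem _, ?_⟩
      rw [← c.act l x]
      rintro _ ⟨t, ht, rfl⟩
      show g * t * g⁻¹ * (g * c.φ x * g⁻¹) = g * c.φ x * g⁻¹ * (g * t * g⁻¹)
      calc g * t * g⁻¹ * (g * c.φ x * g⁻¹) = g * (t * c.φ x) * g⁻¹ := by group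
        _ = g * (c.φ x * t) * g⁻¹ := by rw [hx.2 t ht]
        _ = _ := by group
    have hmem' : ∀ y, c.φ y ∈ D' → ∃ x, x 0 = 0 ∧ y = M *ᵥ x := by
      intro y hy
      refine ⟨((c.e l)⁻¹ : Matrix.SpecialLinearGroup (Fin 2) F) *ᵥ y, c.mem_fixed.mp ?_, ?_⟩
      · rw [← hconjV l y]
        refine Subgroup.mem_inf.mpr ⟨?_, fun t ht => ?_⟩
        · rw [hconjV]; exact c.φ_mem _
        · have h := hy.2 _ ⟨t, ht, rfl⟩
          simp only [MulEquiv.coe_toMonoidHom, MulAut.conj_apply] at h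
          show t * (g⁻¹ * c.φ y * g) = g⁻¹ * c.φ y * g * t
          calc t * (g⁻¹ * c.φ y * g) = g⁻¹ * (g * t * g⁻¹ * c.φ y) * g := by group
            _ = g⁻¹ * (c.φ y * (g * t * g⁻¹)) * g := by rw [h]
            _ = _ := by group
      · rw [hM, Matrix.mulVec_mulVec, ← Matrix.SpecialLinearGroup.coe_mul, mul_inv_cancel,
          Matrix.SpecialLinearGroup.coe_one, Matrix.one_mulVec]
    refine ⟨inf_le_left, inf_le_left, fun a ha b hb => ?_, ?_, le_antisymm (sup_le inf_le_left inf_le_left) ?_⟩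
    · obtain ⟨x, rfl⟩ := c.exists_eq ha.1
      obtain ⟨y, rfl⟩ := c.exists_eq hb.1
      rw [← c.add, ← c.add, add_comm]
    · rw [Subgroup.eq_bot_iff_forall]
      intro w hw
      obtain ⟨y, rfl⟩ := c.exists_eq hw.1.1
      obtain ⟨x, hx, rfl⟩ := hmem' y hw.2
      have h := c.mem_fixed.mp hw.1
      simp [Matrix.mulVec, dotProduct, Fin.sum_univ_two, hx, h01] at h
      have : x = 0 := by funext i; fin_cases i <;> simp [hx, h]
      rw [this, Matrix.mulVec_zero, c.φ_zero]
    · intro w hw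
      obtain ⟨x, rfl⟩ := c.exists_eq hw
      have h : x = ![0, x 1 - M 1 1 * (x 0 / M 0 1)] + M *ᵥ ![0, x 0 / M 0 1] := by
        funext i
        fin_cases i <;> simp [Matrix.mulVec, dotProduct, Fin.sum_univ_two]
        field_simp
      rw [h, c.add]
      exact Subgroup.mul_mem_sup (c.mem_fixed.mpr rfl) (hmem _ (c.mem_fixed.mpr rfl))
  · rw [Subgroup.eq_bot_iff_forall]
    intro w hw
    obtain ⟨y, rfl⟩ := c.exists_eq hw.1
    by_contra hne
    have hy0 : y ≠ 0 := fun h => hne (h ▸ c.φ_zero)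
    set l : ↥L := ⟨x, hx⟩ with hl
    set M := (c.e l : Matrix (Fin 2) (Fin 2) F) with hM
    have hfix : M *ᵥ y = y := by
      refine c.inj ((c.act l y).symm.trans ?_)
      rw [mul_inv_eq_iff_eq_mul]
      exact (Subgroup.mem_centralizer_singleton_iff.mp hw.2).symm
    have hdet0 : (M - 1).det = 0 := Matrix.exists_mulVec_eq_zero_iff.mp
      ⟨y, hy0, by rw [Matrix.sub_mulVec, hfix, Matrix.one_mulVec, sub_self]⟩
    have htr : M.trace = 2 := by
      have hd : M.det = 1 := (c.e l).2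
      rw [Matrix.det_fin_two] at hdet0 hd
      simp at hdet0
      rw [Matrix.trace_fin_two]
      linear_combination hd - hdet0
    have he1 : c.e l ≠ 1 := fun h => hx1 (by
      have := c.e.injective (h.trans (map_one c.e).symm)
      exact congrArg Subtype.val this)
    have he2 : c.e l ≠ -1 := by
      intro h
      have h2 : (2 : F) • y = 0 := by
        have : M *ᵥ y = -y := by rw [hM, h, Matrix.SpecialLinearGroup.coe_neg, Matrix.SpecialLinearGroup.coe_one,
          Matrix.neg_mulVec, Matrix.one_mulVec]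
        rw [hfix] at this
        rw [two_smul]
        nth_rewrite 2 [this]
        exact add_neg_cancel y
      have h20 : (2 : F) = 0 := (smul_eq_zero.mp h2).resolve_right hy0
      refine he1 (h.trans (Subtype.ext ?_))
      rw [Matrix.SpecialLinearGroup.coe_neg, Matrix.SpecialLinearGroup.coe_one]
      have h11 : (-1 : F) = 1 := by linear_combination -h20
      rw [← neg_one_smul F (1 : Matrix (Fin 2) (Fin 2) F), h11, one_smul]
    have hd := CfsgLib.Dickson.dvd_orderOf_parabolic (p := p) he1 he2 (Or.inl htr)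
    rw [MulEquiv.orderOf_eq, ← Subgroup.orderOf_coe] at hd
    exact (Fact.out : p.Prime).coprime_iff_not_dvd.mp hco.symm hd
  · rw [or_iff_not_imp_left]
    intro hU1
    refine le_antisymm hUD ?_
    obtain ⟨⟨u, hu⟩, hu1⟩ := Subgroup.ne_bot_iff_exists_ne_one.mp hU1
    obtain ⟨x, rfl⟩ := c.exists_eq (hUD hu).1
    have hx0 := c.mem_fixed.mp (hUD hu)
    have hx1 : x 1 ≠ 0 := by
      intro h
      refine hu1 (Subtype.ext ?_)
      have : x = 0 := by funext i; fin_cases i <;> simp [h, hx0]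
      show c.φ x = 1
      rw [this, c.φ_zero]
    intro w hw
    obtain ⟨y, rfl⟩ := c.exists_eq hw.1
    have hy0 := c.mem_fixed.mp hw
    by_cases hy1 : y 1 = 0
    · have : y = 0 := by funext i; fin_cases i <;> simp [hy1, hy0]
      rw [this, c.φ_zero]; exact U.one_mem
    · have h := hconj U hU x hu (y 1 / x 1) (div_ne_zero hy1 hx1)
      convert h using 2
      funext i
      fin_cases i <;> simp [hx0, hy0, hx1]
  · rw [or_iff_not_imp_left]
    intro hne
    refine le_antisymm hUV ?_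
    obtain ⟨u, hu, huD⟩ := SetLike.exists_of_lt (lt_of_le_of_ne hDU (fun h => hne h.symm))
    obtain ⟨x, rfl⟩ := c.exists_eq (hUV hu)
    have hx0 : x 0 ≠ 0 := fun h => huD (c.mem_fixed.mpr h)
    intro w hw
    obtain ⟨y, rfl⟩ := c.exists_eq hw
    by_cases hy0 : y 0 = 0
    · exact hDU (c.mem_fixed.mpr hy0)
    · have h := hconj U hU x hu (x 0 / y 0) (div_ne_zero hx0 hy0)
      have e : y = ![(x 0 / y 0)⁻¹ * x 0, x 0 / y 0 * x 1] + ![0, y 1 - x 0 / y 0 * x 1] := by
        funext i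
        fin_cases i <;> simp
        field_simp
      rw [e, c.add]
      exact U.mul_mem h (hDU (c.mem_fixed.mpr rfl))

end Cfsg.Agent.S2780
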