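import Cfsg.Statements.S2781
import Cfsg.Agent.Lib.CoprimeAvg
import Cfsg.Agent.Lib.PResidual

set_option autoImplicit false
open Cfsg

namespace Cfsg.Agent.S2781
open CfsgLib.LocalBasic
open scoped commutatorElement

/-- Let H act faithfully by conjugation on the elementary abelian p-subgroup V of a finite group, let O^p(H) be the subgroup of H generated by its elements of order prime to p, and T a Sylow p-subgroup of O^p(H). If V is generated by the H-conjugates of C_V(T) (V is the smallest H-invariant subgroup containing C_V(T)), then V = [V, O^p(H)]·C_V(O^p(H)). -/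
theorem result {G : Type*} [Group G] [Finite G] {p : ℕ} [Fact p.Prime] (V H : Subgroup G) (hV : Cfsg.IsElementaryAbelian p V) (hHV : H ≤ Subgroup.normalizer (V : Set G)) (hf : H ⊓ Subgroup.centralizer (V : Set G) = ⊥) (R : Subgroup G) (hR : R = (Cfsg.pResidual p ↥H).map H.subtype) (S : Sylow p ↥R) (T : Subgroup G) (hT : T = ((S : Subgroup ↥R).map R.subtype)) (hgen : ∀ W : Subgroup G, H ≤ Subgroup.normalizer (W : Set G) → (V ⊓ Subgroup.centralizer ((T : Subgroup G) : Set G)) ≤ W → V ≤ W) : ⁅V, R⁆ ⊔ (V ⊓ Subgroup.centralizer ((R : Subgroup G) : Set G)) = V := by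
  subst hR
  set R := (Cfsg.pResidual p ↥H).map H.subtype with hRdef
  have hRH : R ≤ H := Subgroup.map_subtype_le _
  have hRV : R ≤ Subgroup.normalizer (V : Set G) := hRH.trans hHV
  have hWV : ⁅V, R⁆ ≤ V := Subgroup.le_normalizer_iff_commutator_le_left.mp hRV
  refine le_antisymm (sup_le hWV inf_le_left) (hgen _ ?_ ?_)
  · have hHR : H ≤ Subgroup.normalizer (R : Set G) := by
      refine (Subgroup.normal_subgroupOf_iff_le_normalizer hRH).mp ?_
      rw [hRdef, Subgroup.subgroupOf, Subgroup.comap_map_eq_self_of_injective H.subtype_injective]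
      infer_instance
    exact normalizer_sup_ge (normalizer_commutator_ge hHV hHR) (normalizer_inf_ge hHV (normalizer_centralizer_ge hHR))
  · rintro z ⟨hz, hzT⟩
    have hTR : T ≤ R := hT ▸ Subgroup.map_subtype_le _
    obtain ⟨a, ha, hal, w, hw, rfl⟩ := CfsgLib.CoprimeAvg.avg_fixed (p := p) (T := T) (W := ⁅V, R⁆) hTR
      (by
        rw [Subgroup.relIndex, hT, Subgroup.subgroupOf, Subgroup.comap_map_eq_self_of_injective R.subtype_injective]
        exact ((Fact.out : p.Prime).coprime_iff_not_dvd.mpr (Sylow.not_dvd_index _)).symm)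
      hWV hV.1 hV.2 hRV le_rfl hz hzT
    rw [sup_comm]
    exact Subgroup.mul_mem_sup ⟨ha, hal⟩ hw

end Cfsg.Agent.S2781
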