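import Cfsg.Statements.S2791
import Cfsg.Agent.Lib.Fusion.Group
import Cfsg.Agent.Lib.LocalBasic

set_option autoImplicit false
open Cfsg

namespace Cfsg.Agent.S2791
open CfsgLib.Fusion Cfsg.FusionSystem
open scoped commutatorElement

variable {G : Type*} [Group G] [Finite G] {p : ℕ} [Fact p.Prime]

/-- `g` acts on `B` like an element of `N(A)`. -/
def Real (A B : Subgroup G) (g : G) : Prop :=
  ∃ n ∈ Subgroup.normalizer (A : Set G), ∀ b ∈ B, g * b * g⁻¹ = n * b * n⁻¹

theorem mem_normalizer_of_cj_le {H : Subgroup G} {g : G} (h : cj g H ≤ H) : g ∈ Subgroup.normalizer (H : Set G) :=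
  mem_normalizer_iff_cj.mpr (Subgroup.eq_of_le_of_card_ge h (card_cj g H).ge)

variable (S : Sylow p G) {A : Subgroup G}

theorem step (hA : ∀ a ∈ A, ∀ b ∈ A, a * b = b * a) (hAS : A ≤ (S : Subgroup G))
    (hsc : ∀ x ∈ A, ∀ g : G, g * x * g⁻¹ ∈ (S : Subgroup G) → g * x * g⁻¹ ∈ A)
    {E : Subgroup G} (hES : E ≤ (S : Subgroup G)) 
    (hfull : ¬ p ∣ (normalizerIn (S : Subgroup G) E).relIndex (Subgroup.normalizer (E : Set G)))
    (ih : ∀ B : Subgroup G, E < B → B ≤ (S : Subgroup G) → ∀ g : G, cj g B ≤ (S : Subgroup G) → Real A B g)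
    {g : G} (hg : g ∈ Subgroup.normalizer (E : Set G)) : Real A E g := by
  classical
  have hAn : ∀ s ∈ (S : Subgroup G), ∀ a ∈ A, s * a * s⁻¹ ∈ A := fun s hs a ha =>
    hsc a ha s (mul_mem (mul_mem hs (hAS ha)) (inv_mem hs))
  have hNE : ∀ x ∈ Subgroup.normalizer (E : Set G), ∀ e ∈ E, x * e * x⁻¹ ∈ E := fun x hx e he =>
    (Subgroup.mem_normalizer_iff.mp hx e).mp he
  have hNEA : ∀ x ∈ Subgroup.normalizer (E : Set G), ∀ e ∈ E, e ∈ A → x * e * x⁻¹ ∈ A := fun x hx e he ha =>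
    hsc e ha x (hES (hNE x hx e he))
  let K : Subgroup G :=
    { carrier := {k | k ∈ Subgroup.normalizer (E : Set G) ∧ (∀ e ∈ E, k * e * k⁻¹ * e⁻¹ ∈ A) ∧
        ∀ e ∈ E, e ∈ A → k * e * k⁻¹ = e}
      one_mem' := ⟨one_mem _, fun e _ => by simp, fun e _ _ => by simp⟩
      mul_mem' := by
        rintro a b ⟨haN, ha1, ha2⟩ ⟨hbN, hb1, hb2⟩
        refine ⟨mul_mem haN hbN, fun e he => ?_, fun e he hea => ?_⟩
        · have hbe : b * e * b⁻¹ * e⁻¹ ∈ E := E.mul_mem (hNE b hbN e he) (inv_mem he)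
          have h := mul_mem (hb1 e he) (ha1 e he)
          rwa [← show a * b * e * (a * b)⁻¹ * e⁻¹ = b * e * b⁻¹ * e⁻¹ * (a * e * a⁻¹ * e⁻¹) by
            calc a * b * e * (a * b)⁻¹ * e⁻¹ = a * (b * e * b⁻¹ * e⁻¹) * a⁻¹ * (a * e * a⁻¹ * e⁻¹) := by group
              _ = _ := by rw [ha2 _ hbe (hb1 e he)]] at h
        · calc a * b * e * (a * b)⁻¹ = a * (b * e * b⁻¹) * a⁻¹ := by group
            _ = e := by rw [hb2 e he hea, ha2 e he hea]
      inv_mem' := by
        rintro a ⟨haN, ha1, ha2⟩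
        refine ⟨inv_mem haN, fun e he => ?_, fun e he hea => ?_⟩
        · have he' : a⁻¹ * e * a ∈ E := by simpa using hNE a⁻¹ (inv_mem haN) e he
          have h := inv_mem (ha1 _ he')
          have hce : (a * (a⁻¹ * e * a) * a⁻¹ * (a⁻¹ * e * a)⁻¹)⁻¹ = a⁻¹ * e * a⁻¹⁻¹ * e⁻¹ := by group
          exact hce ▸ h
        · conv_lhs => rw [← ha2 e he hea]
          group }
  have hKN : K ≤ Subgroup.normalizer (E : Set G) := fun k hk => hk.1
  have hNK : Subgroup.normalizer (E : Set G) ≤ Subgroup.normalizer (K : Set G) := fun x hx =>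
    mem_normalizer_of_cj_le (cj_le_iff.mpr fun k hk => by
      refine ⟨mul_mem (mul_mem hx hk.1) (inv_mem hx), fun e he => ?_, fun e he hea => ?_⟩
      · have he' : x⁻¹ * e * x ∈ E := by simpa using hNE x⁻¹ (inv_mem hx) e he
        have h := hNEA x hx _ (E.mul_mem (hNE k hk.1 _ he') (inv_mem he')) (hk.2.1 _ he')
        have hce : x * (k * (x⁻¹ * e * x) * k⁻¹ * (x⁻¹ * e * x)⁻¹) * x⁻¹ = x * k * x⁻¹ * e * (x * k * x⁻¹)⁻¹ * e⁻¹ := by
          group
        exact hce ▸ h
      · have he' : x⁻¹ * e * x ∈ E := by simpa using hNE x⁻¹ (inv_mem hx) e he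
        have hea' : x⁻¹ * e * x ∈ A := by simpa using hNEA x⁻¹ (inv_mem hx) e he hea
        calc x * k * x⁻¹ * e * (x * k * x⁻¹)⁻¹ = x * (k * (x⁻¹ * e * x) * k⁻¹) * x⁻¹ := by group
          _ = e := by rw [hk.2.2 _ he' hea']; group)
  set U := normalizerIn (S : Subgroup G) E ⊓ K with hU
  have hUS : U ≤ (S : Subgroup G) := inf_le_left.trans inf_le_left
  have hUp : IsPGroup p ↥U := S.2.to_le hUS
  have hUi : ¬ p ∣ U.relIndex K := sylow_inf_normal hfull inf_le_right hKN hNK
  -- elements of order prime to `p` in `K` centralize `E`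
  set C := K ⊓ Subgroup.centralizer (E : Set G) with hC
  have hcop : ∀ k ∈ K, (orderOf k).Coprime p → k ∈ C := by
    intro k hk hcp
    refine ⟨hk, Subgroup.mem_centralizer_iff.mpr fun e he => ?_⟩
    have hm : ⁅k, e⁆ ∈ E := by rw [commutatorElement_def]; exact E.mul_mem (hNE k hk.1 e he) (inv_mem he)
    have hfix := hk.2.2 _ hm (by rw [commutatorElement_def]; exact hk.2.1 e he)
    obtain ⟨j, hj⟩ := (S.2.to_le hES) ⟨_, hm⟩
    refine (CfsgLib.LocalBasic.commute_of_commutator_fixed ?_ (j := j) (by simpa using congrArg Subtype.val hj) hcp).symm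
    calc k * ⁅k, e⁆ = k * ⁅k, e⁆ * k⁻¹ * k := by group
      _ = ⁅k, e⁆ * k := by rw [hfix]
  have hUC : U ≤ Subgroup.normalizer (C : Set G) := fun u hu =>
    mem_normalizer_of_cj_le (by
      rw [hC]
      refine le_inf ((cj_mono u inf_le_left).trans (mem_normalizer_iff_cj.mp (Subgroup.le_normalizer hu.2)).le) ?_
      refine (cj_mono u inf_le_right).trans ?_
      rw [cj_centralizer, mem_normalizer_iff_cj.mp hu.2.1])
  have hKUC : ∀ k ∈ K, ∃ u ∈ U, ∃ c ∈ C, k = u * c := by
    have htop : (U ⊔ C).relIndex K = 1 := by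
      by_contra hne
      obtain ⟨q, hq, hqd⟩ := Nat.exists_prime_and_dvd hne
      haveI := Fact.mk hq
      by_cases hqp : q = p
      · subst hqp
        exact hUi (hqd.trans (Subgroup.relIndex_dvd_of_le_left _ le_sup_left))
      · obtain ⟨Q⟩ := (inferInstance : Nonempty (Sylow q ↥K))
        refine Q.not_dvd_index (hqd.trans (Subgroup.index_dvd_of_le fun x hx => ?_))
        refine Subgroup.mem_sup_right (hcop _ x.2 ?_)
        obtain ⟨k, hk⟩ := IsPGroup.iff_orderOf.mp Q.2 ⟨x, hx⟩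
        rw [Subgroup.orderOf_mk] at hk
        rw [Subgroup.coe_subtype, Subgroup.orderOf_coe, hk]
        exact ((Nat.coprime_primes hq Fact.out).mpr hqp).pow_left k
    intro k hk
    have hk' : k ∈ U ⊔ C := Subgroup.relIndex_eq_one.mp htop hk
    rw [← SetLike.mem_coe, Subgroup.coe_mul_of_left_le_normalizer_right U C hUC] at hk'
    obtain ⟨u, hu, c, hc, rfl⟩ := hk'
    exact ⟨u, hu, c, hc, rfl⟩
  obtain ⟨k, hk, hkle⟩ := exists_conj_le hUp hUi (Y := cj g U) (hUp.map _)
    ((cj_mono g inf_le_right).trans (mem_normalizer_iff_cj.mp (hNK hg)).le)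
  obtain ⟨u, hu, c, hc, rfl⟩ := hKUC k hk
  -- `n = c g` normalizes `U` and acts on `E` like `g`
  have hnU : cj (c * g) U ≤ U := by
    rw [cj_mul, ← cj_inv_cj u (cj c (cj g U)), ← cj_mul u c]
    exact (cj_mono u⁻¹ hkle).trans (mem_normalizer_iff_cj.mp (inv_mem (Subgroup.le_normalizer hu))).le
  have hnE : cj (c * g) E = E := mem_normalizer_iff_cj.mp (mul_mem (hKN hc.1) hg)
  have hact : ∀ e ∈ E, c * g * e * (c * g)⁻¹ = g * e * g⁻¹ := fun e he => by
    calc c * g * e * (c * g)⁻¹ = c * (g * e * g⁻¹) * c⁻¹ := by group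
      _ = g * e * g⁻¹ := by
        rw [← Subgroup.mem_centralizer_iff.mp hc.2 _ (hNE g hg e he), mul_inv_cancel_right]
  rcases (le_sup_left : E ≤ E ⊔ U).lt_or_eq with hlt | heq
  · obtain ⟨n, hn, hne⟩ := ih _ hlt (sup_le hES hUS) (c * g) (by
      show Subgroup.map _ (E ⊔ U) ≤ _
      rw [Subgroup.map_sup]
      exact sup_le (hnE.le.trans hES) (hnU.trans hUS))
    exact ⟨n, hn, fun e he => (hact e he).symm.trans (hne e (Subgroup.mem_sup_left he))⟩
  · -- no growth: then `A ≤ E`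
    have hUE : U ≤ E := sup_eq_left.mp heq.symm
    have hNA : ∀ a ∈ A, a ∈ Subgroup.normalizer (E : Set G) → a ∈ E := fun a ha han => hUE ⟨⟨hAS ha, han⟩, han,
      fun e he => by
        rw [show a * e * a⁻¹ * e⁻¹ = a * (e * a⁻¹ * e⁻¹) by group]
        exact A.mul_mem ha (hAn e (hES he) _ (inv_mem ha)),
      fun e _ hea => by rw [hA a ha e hea, mul_inv_cancel_right]⟩
    have hEA : E ≤ Subgroup.normalizer (A : Set G) := fun e he =>
      mem_normalizer_of_cj_le (cj_le_iff.mpr fun a ha => hAn e (hES he) a ha)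
    have hgrow : E = E ⊔ A := by
      refine CfsgLib.LocalBasic.eq_of_normalizer_inf_le (S.2.to_le (sup_le hES hAS)) le_sup_left ?_
      rintro x ⟨hx, hxN⟩
      have hx : x ∈ ((E ⊔ A : Subgroup G) : Set G) := hx
      rw [Subgroup.coe_mul_of_left_le_normalizer_right E A hEA] at hx
      obtain ⟨e, he, a, ha, rfl⟩ := hx
      refine E.mul_mem he (hNA a ha ?_)
      have := mul_mem (Subgroup.le_normalizer (inv_mem he)) hxN
      rwa [inv_mul_cancel_left] at this
    have hAE : A ≤ E := sup_eq_left.mp hgrow.symm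
    exact ⟨g, mem_normalizer_of_cj_le (cj_le_iff.mpr fun a ha => hNEA g hg a (hAE ha) ha), fun _ _ => rfl⟩

theorem main (hA : ∀ a ∈ A, ∀ b ∈ A, a * b = b * a) (hAS : A ≤ (S : Subgroup G))
    (hsc : ∀ x ∈ A, ∀ g : G, g * x * g⁻¹ ∈ (S : Subgroup G) → g * x * g⁻¹ ∈ A) :
    ∀ (m : ℕ) (B : Subgroup G), Nat.card ↥(S : Subgroup G) ≤ Nat.card ↥B + m → B ≤ (S : Subgroup G) →
      ∀ g : G, cj g B ≤ (S : Subgroup G) → Real A B g := by
  intro m
  induction m with
  | zero =>
    intro B hm hB g hg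
    obtain rfl : B = (S : Subgroup G) := Subgroup.eq_of_le_of_card_ge hB (by omega)
    exact ⟨g, mem_normalizer_of_cj_le (cj_le_iff.mpr fun a ha => hsc a ha g (cj_le_iff.mp hg a (hAS ha))),
      fun _ _ => rfl⟩
  | succ m ih =>
    intro B hm hB g hg
    rcases eq_or_ne B (S : Subgroup G) with rfl | hne
    · exact ⟨g, mem_normalizer_of_cj_le (cj_le_iff.mpr fun a ha => hsc a ha g (cj_le_iff.mp hg a (hAS ha))),
        fun _ _ => rfl⟩
    obtain ⟨h, hhS, hfull⟩ := exists_conj_sylow_normalizer S hB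
    have key : ∀ (D : Subgroup G) (r : G), D ≤ (S : Subgroup G) → D ≠ (S : Subgroup G) →
        Nat.card ↥D = Nat.card ↥B → cj r D = cj h B →
        ∃ k ∈ Subgroup.normalizer (cj h B : Set G), Real A D (k * r) := by
      intro D r hD hDne hcard hr
      obtain ⟨k, hk, hkle⟩ := exists_conj_le (isPGroup_normalizerIn S (cj h B)) hfull
        (Y := cj r (normalizerIn (S : Subgroup G) D)) ((isPGroup_normalizerIn S D).map _) (by
          refine (cj_mono r inf_le_right).trans ?_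
          rw [cj_normalizer, hr])
      refine ⟨k, hk, ?_⟩
      have hlt : D < normalizerIn (S : Subgroup G) D := by
        refine lt_of_le_of_ne (le_inf hD Subgroup.le_normalizer) fun he => hDne ?_
        exact CfsgLib.LocalBasic.eq_of_normalizer_inf_le S.2 hD he.ge
      obtain ⟨n, hn, hne⟩ := ih (normalizerIn (S : Subgroup G) D) (by
        have : Nat.card ↥D < Nat.card ↥(normalizerIn (S : Subgroup G) D) := by
          by_contra hle
          exact hlt.ne (Subgroup.eq_of_le_of_card_ge hlt.le (by omega))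
        omega) inf_le_left (k * r) (by rw [cj_mul]; exact hkle.trans inf_le_left)
      exact ⟨n, hn, fun b hb => hne b (hlt.le hb)⟩
    obtain ⟨k1, hk1, n1, hn1, h1⟩ := key B h hB hne rfl rfl
    obtain ⟨k2, hk2, n2, hn2, h2⟩ := key (cj g B) (h * g⁻¹) hg
      (fun he => hne (Subgroup.eq_of_le_of_card_ge hB (by rw [← card_cj g B, he])))
      (card_cj g B) (by rw [cj_mul, cj_inv_cj])
    obtain ⟨n0, hn0, h0⟩ := step S hA hAS hsc hhS hfull (fun D hD hDS r hr => ih D (by
        have : Nat.card ↥(cj h B) < Nat.card ↥D := by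
          by_contra hle
          exact hD.ne (Subgroup.eq_of_le_of_card_ge hD.le (by omega))
        rw [card_cj] at this
        omega) hDS r hr) (mul_mem hk2 (inv_mem hk1))
    refine ⟨n2⁻¹ * n0 * n1, mul_mem (mul_mem (inv_mem hn2) hn0) hn1, fun b hb => ?_⟩
    have e1 := h1 b hb
    have hbE : k1 * h * b * (k1 * h)⁻¹ ∈ cj h B := by
      have := (Subgroup.mem_normalizer_iff.mp hk1 (h * b * h⁻¹)).mp ⟨b, hb, rfl⟩
      convert this using 1; group
    have e0 := h0 _ hbE
    have e2 := h2 (g * b * g⁻¹) ⟨b, hb, rfl⟩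
    have e3 : n2 * (g * b * g⁻¹) * n2⁻¹ = n0 * (n1 * b * n1⁻¹) * n0⁻¹ := by
      rw [← e2, ← e1, ← e0]; group
    calc g * b * g⁻¹ = n2⁻¹ * (n2 * (g * b * g⁻¹) * n2⁻¹) * n2 := by group
      _ = _ := by rw [e3]; group

/-- Let S be a Sylow p-subgroup of the finite group G and A an abelian subgroup of S that is strongly closed in S with respect to G. Then A controls strong fusion in G: for some Sylow p-subgroup T containing A, whenever a subset of T is conjugated into T by an element of G, the same elementwise conjugation is induced by an element of N_G(A). -/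
theorem result {G : Type*} [Group G] [Finite G] {p : ℕ} [Fact p.Prime] (S : Sylow p G) (A : Subgroup G) (hA : IsMulCommutative ↥A) (hsc : Cfsg.IsStronglyClosed A (S : Subgroup G)) : Cfsg.ControlsStrongFusion p A := by
  obtain ⟨hAS, hsc⟩ := hsc
  refine ⟨S, hAS, fun B hB => ⟨hB, fun g hg => ?_⟩⟩
  obtain ⟨n, hn, h⟩ := main S (fun a ha b hb => congrArg Subtype.val (hA.is_comm.comm ⟨a, ha⟩ ⟨b, hb⟩)) hAS hsc
    (Nat.card ↥(S : Subgroup G)) (Subgroup.closure B) (by omega) ((Subgroup.closure_le _).mpr hB) g (by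
      show Subgroup.map _ _ ≤ _
      rw [MonoidHom.map_closure, Subgroup.closure_le]
      exact hg)
  exact ⟨n, hn, fun a ha => h a (Subgroup.subset_closure ha)⟩

end Cfsg.Agent.S2791
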