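import Cfsg.Statements.S2792
import Cfsg.Agent.Lib.Fusion.Yoshida
import Cfsg.Agent.Lib.LocalBasic
import Mathlib.Algebra.Group.ForwardDiff
import Mathlib.GroupTheory.Abelianization.Finite

set_option autoImplicit false
open Cfsg

namespace Cfsg.Agent.S2792
open scoped commutatorElement Pointwise

theorem choose_pred_cast {p : ℕ} [hp : Fact p.Prime] : ∀ k : ℕ, k ≤ p - 1 → ((p - 1).choose k : ZMod p) = (-1) ^ k := by
  intro k
  induction k with
  | zero => intro _; simp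
  | succ k ih =>
    intro hk
    have h1 : p.choose (k + 1) = (p - 1).choose k + (p - 1).choose (k + 1) := by
      conv_lhs => rw [show p = (p - 1) + 1 by have := hp.out.pos; omega]
      exact Nat.choose_succ_succ _ _
    have h2 : (p.choose (k + 1) : ZMod p) = 0 :=
      (CharP.cast_eq_zero_iff (ZMod p) p _).mpr (hp.out.dvd_choose_self (by omega) (by have := hp.out.pos; omega))
    rw [h1, Nat.cast_add, ih (by omega)] at h2
    rw [pow_succ, mul_neg_one]
    exact eq_neg_of_add_eq_zero_right h2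

variable {G : Type*} [Group G] [Finite G] {p : ℕ} [hp : Fact p.Prime] {W : Subgroup G}

/-- The value at a coset. -/
noncomputable def del {C : Type*} [CommGroup C] (N : Subgroup G) (φ : ↥N →* C) (h : G) (y : G ⧸ N) : C :=
  φ ⟨((h • y : G ⧸ N).out)⁻¹ * h * y.out, by
    rw [mul_assoc, ← QuotientGroup.eq, QuotientGroup.out_eq']
    calc h • y = h • ((y.out : G) : G ⧸ N) := by rw [QuotientGroup.out_eq']
      _ = ((h * y.out : G) : G ⧸ N) := rfl⟩

theorem del_mul {C : Type*} [CommGroup C] (N : Subgroup G) (φ : ↥N →* C) (a b : G) (y : G ⧸ N) :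
    del N φ (a * b) y = del N φ a (b • y) * del N φ b y := by
  rw [del, del, del, ← map_mul]
  congr 1
  apply Subtype.ext
  simp only [Subgroup.coe_mul, mul_smul]
  group

theorem del_one {C : Type*} [CommGroup C] (N : Subgroup G) (φ : ↥N →* C) (y : G ⧸ N) : del N φ 1 y = 1 := by
  have h := del_mul N φ 1 1 y
  rwa [one_mul, one_smul, right_eq_mul] at h

/-- The transfer into an abelian group. -/
noncomputable def V {C : Type*} [CommGroup C] (N : Subgroup G) (φ : ↥N →* C) [Fintype (G ⧸ N)] : G →* C :=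
  MonoidHom.mk' (fun u => ∏ y, del N φ u y) fun a b => by
    rw [Finset.prod_congr rfl fun y _ => del_mul N φ a b y, Finset.prod_mul_distrib]
    congr 1
    exact Equiv.prod_comp (MulAction.toPerm b) (del N φ a)

theorem V_comp {C D : Type*} [CommGroup C] [CommGroup D] (N : Subgroup G) (φ : ↥N →* C) (q : C →* D)
    [Fintype (G ⧸ N)] (u : G) : V N (q.comp φ) u = q (V N φ u) := by
  show ∏ y, del N (q.comp φ) u y = q (∏ y, del N φ u y)
  rw [map_prod]; rfl

/-- No configuration. -/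
def NoConfig (p : ℕ) (S W : Subgroup G) : Prop :=
  ∀ x ∈ S, ∀ z ∈ W, ∀ W₀ : Subgroup ↥W, IsCoatom W₀ → (fun y : G => y⁻¹ * z⁻¹ * y * z)^[p - 1] x ∈ W₀.map W.subtype →
    (fun y : G => y⁻¹ * z⁻¹ * y * z)^[p - 1] x ∈ ((frattini ↥W₀).map W₀.subtype).map W.subtype

theorem low_mem {C : Type*} [CommGroup C] (N : Subgroup G) (φ : ↥N →* C) {e : ℕ} {h : G} (hh : h ^ p ^ e = 1) {y : G ⧸ N}
    (hy : h • y = y) : del N φ h y ∈ Subgroup.closure (φ '' {n : ↥N | n ^ p ^ e = 1}) := by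
  refine Subgroup.subset_closure ⟨_, ?_, rfl⟩
  apply Subtype.ext
  simp only [Subgroup.coe_pow, Subgroup.coe_one]
  rw [hy, show (y.out)⁻¹ * h * y.out = (y.out)⁻¹ * h * (y.out)⁻¹⁻¹ by rw [inv_inv], conj_pow, hh]
  group

/-- The contribution of the points other than the base point. -/
theorem rest_mem {C : Type*} [CommGroup C] (hC : ∀ c : C, c ^ p = 1) {N : Subgroup G} (φ : ↥N →* C) (S : Sylow p G)
    (hWS : W ≤ (S : Subgroup G)) (hSW : (S : Subgroup G) ≤ Subgroup.normalizer (W : Set G)) (hWN : W ≤ N)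
    (hfix : ∀ y : G ⧸ N, (∀ w ∈ W, w • y = y) → y = ((1 : G) : G ⧸ N))
    (hno : NoConfig p (S : Subgroup G) W) [Fintype (G ⧸ N)] {e : ℕ} {u : G} (huS : u ∈ (S : Subgroup G))
    (huN : u ∈ N) (hu : u ^ p ^ (e + 1) = 1) :
    V N φ u * (φ ⟨u, huN⟩)⁻¹ ∈ Subgroup.closure (φ '' {n : ↥N | n ^ p ^ e = 1}) := by
  classical
  set F := Subgroup.closure (φ '' {n : ↥N | n ^ p ^ e = 1}) with hF
  set H := W ⊔ Subgroup.zpowers u with hH
  have hWH : W ≤ H := le_sup_left
  have huH : u ∈ H := Subgroup.mem_sup_right (Subgroup.mem_zpowers u)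
  have hHS : H ≤ (S : Subgroup G) := sup_le hWS (Subgroup.zpowers_le.mpr huS)
  have hHW : H ≤ Subgroup.normalizer (W : Set G) := hHS.trans hSW
  have hzW : Subgroup.zpowers u ≤ Subgroup.normalizer (W : Set G) := Subgroup.zpowers_le.mpr (hSW huS)
  set y₀ : G ⧸ N := ((1 : G) : G ⧸ N) with hy₀
  let R := MulAction.orbitRel ↥H (G ⧸ N)
  have hH0 : ∀ h ∈ H, h • y₀ = y₀ := by
    intro h hh
    show ((h * 1 : G) : G ⧸ N) = ((1 : G) : G ⧸ N)
    rw [mul_one, QuotientGroup.eq, mul_one]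
    exact inv_mem (sup_le hWN (Subgroup.zpowers_le.mpr huN) hh)
  have hself : del N φ u y₀ = φ ⟨u, huN⟩ := by
    have hr : y₀.out ∈ N := by
      have := QuotientGroup.eq.mp (QuotientGroup.out_eq' y₀)
      rw [mul_one] at this
      exact inv_mem_iff.mp this
    have e2 : (⟨((u • y₀ : G ⧸ N).out)⁻¹ * u * y₀.out, by rw [hH0 u huH]; exact mul_mem (mul_mem (inv_mem hr) huN) hr⟩ : ↥N) =
        (⟨y₀.out, hr⟩ : ↥N)⁻¹ * ⟨u, huN⟩ * ⟨y₀.out, hr⟩ := Subtype.ext (by simp [hH0 u huH])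
    rw [del, e2, map_mul, map_mul, map_inv, mul_right_comm, inv_mul_cancel, one_mul]
  have hsplit : V N φ u = ∏ q : Quotient R, ∏ y ∈ Finset.univ.filter (fun y => Quotient.mk R y = q), del N φ u y :=
    (Finset.prod_fiberwise Finset.univ (Quotient.mk R) (del N φ u)).symm
  have h0 : Finset.univ.filter (fun y => Quotient.mk R y = Quotient.mk R y₀) = {y₀} := by
    ext y
    simp only [Finset.mem_filter, Finset.mem_univ, true_and, Finset.mem_singleton]
    constructor
    · intro h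
      obtain ⟨⟨h', hh'⟩, he⟩ := MulAction.orbitRel_apply.mp (Quotient.exact h)
      rw [← he]; exact hH0 h' hh'
    · rintro rfl; rfl
  rw [hsplit, ← Finset.mul_prod_erase _ _ (Finset.mem_univ (Quotient.mk R y₀)), h0, Finset.prod_singleton, hself,
    mul_inv_cancel_comm]
  refine Subgroup.prod_mem _ fun q hq => ?_
  have hq0 : q ≠ Quotient.mk R y₀ := Finset.ne_of_mem_erase hq
  set b := Finset.univ.filter (fun y => Quotient.mk R y = q) with hb
  have hbinv : ∀ h ∈ H, ∀ y : G ⧸ N, (h • y ∈ b ↔ y ∈ b) := by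
    intro h hh y
    have : Quotient.mk R (h • y) = Quotient.mk R y := Quotient.sound (MulAction.orbitRel_apply.mpr ⟨⟨h, hh⟩, rfl⟩)
    simp [hb, this]
  by_cases hex : ∃ y ∈ b, u • y = y
  · -- a fixed point
    obtain ⟨y₁, hy₁b, hy₁⟩ := hex
    suffices h1 : ∏ y ∈ b, del N φ u y = 1 by rw [h1]; exact one_mem _
    have hy₁ne : y₁ ≠ y₀ := fun h => hq0 (h ▸ (Finset.mem_filter.mp hy₁b).2).symm
    set T : Subgroup ↥H := MulAction.stabilizer ↥H y₁ with hT
    have hTtop : T ≠ ⊤ := fun h => hy₁ne (hfix y₁ fun w hw => by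
      have hm : (⟨w, hWH hw⟩ : ↥H) ∈ T := h ▸ Subgroup.mem_top _
      exact hm)
    obtain ⟨M, hM, hTM⟩ := (IsCoatomic.eq_top_or_exists_le_coatom T).resolve_left hTtop
    obtain ⟨hMn, hMi⟩ := CfsgLib.Fusion.Yoshida.index_coatom (S.2.to_le hHS) hM
    haveI := hMn
    have huT : (⟨u, huH⟩ : ↥H) ∈ T := hy₁
    obtain ⟨z₀, hz₀W, hz₀M⟩ : ∃ w : ↥H, (w : G) ∈ W ∧ w ∉ M := by
      by_contra hne
      push Not at hne
      refine hM.1 (eq_top_iff.mpr fun h _ => ?_)
      have hh : (h : G) ∈ W ⊔ Subgroup.zpowers u := h.2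
      rw [← SetLike.mem_coe, Subgroup.coe_mul_of_right_le_normalizer_left _ _ hzW, Set.mem_mul] at hh
      obtain ⟨w, hw, t, ht, hwt⟩ := hh
      obtain ⟨j, rfl⟩ := Subgroup.mem_zpowers_iff.mp ht
      rw [show h = ⟨w, hWH hw⟩ * (⟨u, huH⟩ : ↥H) ^ j from Subtype.ext (by simpa using hwt.symm)]
      exact mul_mem (hne _ hw) (zpow_mem (hTM huT) j)
    set z : G := (z₀ : G) with hz
    have hord : orderOf (QuotientGroup.mk' M z₀) = p := by
      refine orderOf_eq_prime ?_ fun h => hz₀M ((QuotientGroup.eq_one_iff _).mp h)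
      rw [← hMi, Subgroup.index_eq_card]; exact pow_card_eq_one'
    have hdec : ∀ h : ↥H, ∃ i : Fin p, ∃ m ∈ M, h = z₀ ^ (i : ℕ) * m := by
      intro h
      have hc : Nat.card (↥H ⧸ M) = p := by rw [← Subgroup.index_eq_card, hMi]
      have hm : QuotientGroup.mk' M h ∈ Subgroup.zpowers (QuotientGroup.mk' M z₀) :=
        mem_zpowers_of_prime_card hc (fun h => hz₀M ((QuotientGroup.eq_one_iff _).mp h))
      rw [← mem_powers_iff_mem_zpowers] at hm
      obtain ⟨i, hi⟩ := (Submonoid.mem_powers_iff _ _).mp hm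
      refine ⟨⟨i % p, Nat.mod_lt _ hp.out.pos⟩, (z₀ ^ (i % p))⁻¹ * h, ?_, by group⟩
      refine QuotientGroup.eq.mp ?_
      show QuotientGroup.mk' M (z₀ ^ (i % p)) = QuotientGroup.mk' M h
      rw [map_pow, ← hi, show i % p = i % orderOf (QuotientGroup.mk' M z₀) by rw [hord], pow_mod_orderOf]
    set M' := M.map H.subtype with hM'
    set b₀ := Finset.univ.filter (fun y : G ⧸ N => ∃ m ∈ M', m • y₁ = y) with hb₀
    have hb₀inv : ∀ m ∈ M', ∀ y : G ⧸ N, m • y ∈ b₀ ↔ y ∈ b₀ := by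
      intro m hm y
      simp only [hb₀, Finset.mem_filter, Finset.mem_univ, true_and]
      constructor
      · rintro ⟨a, ha, he⟩
        exact ⟨m⁻¹ * a, mul_mem (inv_mem hm) ha, by rw [mul_smul, he, inv_smul_smul]⟩
      · rintro ⟨a, ha, he⟩
        exact ⟨m * a, mul_mem hm ha, by rw [mul_smul, he]⟩
    let P₀ : G → C := fun x => ∏ y ∈ b₀, del N φ x y
    have hPmul : ∀ a ∈ M', ∀ c ∈ M', P₀ (a * c) = P₀ a * P₀ c := by
      intro a _ c hc
      show ∏ y ∈ b₀, _ = _
      rw [Finset.prod_congr rfl fun y _ => del_mul N φ a c y, Finset.prod_mul_distrib]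
      congr 1
      exact Finset.prod_equiv (MulAction.toPerm c) (fun y => (hb₀inv c hc y).symm) (fun y _ => rfl)
    have hMconj : ∀ x ∈ M', ∀ i : ℕ, (z ^ i)⁻¹ * x * z ^ i ∈ M' := by
      rintro _ ⟨x, hx, rfl⟩ i
      refine ⟨(z₀ ^ i)⁻¹ * x * z₀ ^ i, ?_, by simp [hz]⟩
      simpa using hMn.conj_mem x hx (z₀ ^ i)⁻¹
    have huM : u ∈ M' := ⟨⟨u, huH⟩, hTM huT, rfl⟩
    -- decomposition of b
    have hbp : ∏ y ∈ b, del N φ u y = ∏ i : Fin p, ∏ y ∈ b₀, del N φ u (z ^ (i : ℕ) • y) := by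
      rw [← Finset.prod_product' (Finset.univ : Finset (Fin p)) b₀ (fun i y => del N φ u (z ^ (i : ℕ) • y))]
      symm
      refine Finset.prod_bij (fun a _ => z ^ ((a.1 : Fin p) : ℕ) • a.2) ?_ ?_ ?_ (fun a _ => rfl)
      · intro a ha
        obtain ⟨m, hm, he⟩ := (Finset.mem_filter.mp (Finset.mem_product.mp ha).2).2
        rw [← he, ← mul_smul]
        exact (hbinv _ (mul_mem (pow_mem z₀.2 _) (Subgroup.map_subtype_le _ hm)) y₁).mpr hy₁b
      · rintro ⟨i, y⟩ hiy ⟨k, y'⟩ hky hee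
        simp only at hee
        obtain ⟨m, ⟨m₀, hm₀, rfl⟩, he⟩ := (Finset.mem_filter.mp (Finset.mem_product.mp hiy).2).2
        obtain ⟨n, ⟨n₀, hn₀, rfl⟩, he'⟩ := (Finset.mem_filter.mp (Finset.mem_product.mp hky).2).2
        have hst : (z₀ ^ (k : ℕ) * n₀)⁻¹ * (z₀ ^ (i : ℕ) * m₀) ∈ T := by
          show ((((z₀ ^ (k : ℕ) * n₀)⁻¹ * (z₀ ^ (i : ℕ) * m₀) : ↥H)) : G) • y₁ = y₁
          simp only [Subgroup.coe_mul, InvMemClass.coe_inv, Subgroup.coe_pow]
          rw [mul_smul, inv_smul_eq_iff, mul_smul, mul_smul]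
          exact (congrArg (fun t => z ^ (i : ℕ) • t) he).trans (hee.trans (congrArg (fun t => z ^ (k : ℕ) • t) he'.symm))
        have h2 : QuotientGroup.mk' M (z₀ ^ (k : ℕ) * n₀) = QuotientGroup.mk' M (z₀ ^ (i : ℕ) * m₀) :=
          QuotientGroup.eq.mpr (hTM hst)
        rw [map_mul, map_mul, show QuotientGroup.mk' M n₀ = 1 from (QuotientGroup.eq_one_iff _).mpr hn₀,
          show QuotientGroup.mk' M m₀ = 1 from (QuotientGroup.eq_one_iff _).mpr hm₀, mul_one, mul_one, map_pow, map_pow,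
          pow_inj_mod, hord, Nat.mod_eq_of_lt i.2, Nat.mod_eq_of_lt k.2] at h2
        have hik : i = k := Fin.ext h2.symm
        subst hik
        exact Prod.ext rfl (MulAction.injective _ hee)
      · intro y hy
        obtain ⟨⟨h, hh⟩, he⟩ := MulAction.orbitRel_apply.mp (Quotient.exact ((Finset.mem_filter.mp hy).2.trans (Finset.mem_filter.mp hy₁b).2.symm))
        obtain ⟨i, m, hm, hhe⟩ := hdec ⟨h, hh⟩
        refine ⟨(i, (m : G) • y₁), Finset.mem_product.mpr ⟨Finset.mem_univ _, Finset.mem_filter.mpr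
          ⟨Finset.mem_univ _, (m : G), ⟨m, hm, rfl⟩, rfl⟩⟩, ?_⟩
        show z ^ (i : ℕ) • ((m : G) • y₁) = y
        rw [← he, ← mul_smul]
        have := congrArg Subtype.val hhe
        simp only [Subgroup.coe_mul, Subgroup.coe_pow] at this
        rw [← this]; rfl
    have hconjP : ∀ i : ℕ, ∏ y ∈ b₀, del N φ u (z ^ i • y) = P₀ ((z ^ i)⁻¹ * u * z ^ i) := by
      intro i
      set x := (z ^ i)⁻¹ * u * z ^ i with hx
      have hxM : x ∈ M' := hMconj u huM i
      have e1 : ∀ y : G ⧸ N, del N φ u (z ^ i • y) = del N φ (z ^ i) (x • y) * del N φ x y * (del N φ (z ^ i) y)⁻¹ := by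
        intro y
        have a1 := del_mul N φ u (z ^ i) y
        have a2 := del_mul N φ (z ^ i) x y
        rw [show z ^ i * x = u * z ^ i by rw [hx]; group, a1] at a2
        exact eq_mul_inv_of_mul_eq a2
      rw [Finset.prod_congr rfl fun y _ => e1 y, Finset.prod_mul_distrib, Finset.prod_mul_distrib, Finset.prod_inv_distrib,
        show ∏ y ∈ b₀, del N φ (z ^ i) (x • y) = ∏ y ∈ b₀, del N φ (z ^ i) y from
          Finset.prod_equiv (MulAction.toPerm x) (fun y => (hb₀inv x hxM y).symm) (fun y _ => rfl),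
        mul_inv_cancel_comm]
    set cz : G → G := fun y => y⁻¹ * z⁻¹ * y * z with hcz
    have hcM : ∀ k, cz^[k] u ∈ M' := by
      intro k
      induction k with
      | zero => exact huM
      | succ k ih =>
        rw [Function.iterate_succ_apply']
        show (cz^[k] u)⁻¹ * z⁻¹ * cz^[k] u * z ∈ M'
        rw [show (cz^[k] u)⁻¹ * z⁻¹ * cz^[k] u * z = (cz^[k] u)⁻¹ * ((z ^ 1)⁻¹ * cz^[k] u * z ^ 1) by rw [pow_one]; group]
        exact mul_mem (inv_mem ih) (hMconj _ ih 1)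
    let f : ℕ → Additive C := fun i => Additive.ofMul (P₀ ((z ^ i)⁻¹ * u * z ^ i))
    have hdiff : ∀ k i : ℕ, (fwdDiff 1)^[k] f i = Additive.ofMul (P₀ ((z ^ i)⁻¹ * cz^[k] u * z ^ i)) := by
      intro k
      induction k with
      | zero => intro i; rfl
      | succ k ih =>
        intro i
        rw [Function.iterate_succ_apply', Function.iterate_succ_apply', fwdDiff, ih, ih]
        have hinv : P₀ ((z ^ i)⁻¹ * cz^[k] u * z ^ i)⁻¹ * P₀ ((z ^ i)⁻¹ * cz^[k] u * z ^ i) = 1 := by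
          rw [← hPmul _ (inv_mem (hMconj _ (hcM k) i)) _ (hMconj _ (hcM k) i), inv_mul_cancel]
          exact Finset.prod_eq_one fun y _ => del_one N φ y
        rw [show (z ^ i)⁻¹ * cz (cz^[k] u) * z ^ i =
            ((z ^ i)⁻¹ * cz^[k] u * z ^ i)⁻¹ * ((z ^ (i + 1))⁻¹ * cz^[k] u * z ^ (i + 1)) by
          rw [hcz, pow_succ]; group, hPmul _ (inv_mem (hMconj _ (hcM k) i)) _ (hMconj _ (hcM k) (i + 1)),
          eq_inv_of_mul_eq_one_left hinv, mul_comm, ofMul_mul, ofMul_inv, sub_eq_add_neg]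
    have hsum := fwdDiff_iter_eq_sum_shift (h := 1) f (p - 1) 0
    rw [hdiff, pow_zero, inv_one, one_mul, mul_one] at hsum
    have hcoef : ∀ k ∈ Finset.range (p - 1 + 1), ((-1 : ℤ) ^ (p - 1 - k) * (p - 1).choose k) • f (0 + k • 1) = f k := by
      intro k hk
      rw [smul_eq_mul, mul_one, zero_add]
      have hk' : k ≤ p - 1 := by have := Finset.mem_range.mp hk; omega
      have hone : (((-1 : ℤ) ^ (p - 1 - k) * (p - 1).choose k - 1 : ℤ) : ZMod p) = 0 := by
        push_cast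
        rw [choose_pred_cast k hk', ← pow_add, Nat.sub_add_cancel hk',
          show (-1 : ZMod p) ^ (p - 1) = 1 from ZMod.pow_card_sub_one_eq_one (neg_ne_zero.mpr one_ne_zero), sub_self]
      obtain ⟨j, hj⟩ := (ZMod.intCast_zmod_eq_zero_iff_dvd _ _).mp hone
      rw [show (-1 : ℤ) ^ (p - 1 - k) * (p - 1).choose k = 1 + (p : ℤ) * j by omega, add_smul, one_smul, mul_comm, mul_smul,
        natCast_zsmul, show p • f k = 0 from congrArg Additive.ofMul (hC _), smul_zero, add_zero]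
    rw [Finset.sum_congr rfl hcoef, show p - 1 + 1 = p by have := hp.out.pos; omega] at hsum
    have hprod : ∏ y ∈ b, del N φ u y = P₀ (cz^[p - 1] u) := by
      rw [hbp]
      simp only [hconjP]
      rw [Fin.prod_univ_eq_prod_range (fun i => P₀ ((z ^ i)⁻¹ * u * z ^ i)) p]
      apply Additive.ofMul.injective
      rw [ofMul_prod]
      exact hsum.symm
    rw [hprod]
    -- no configuration
    set W₀ := M'.subgroupOf W with hW₀
    have hW₀c : IsCoatom W₀ := by
      refine ⟨fun h => hz₀M ?_, fun U hU => ?_⟩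
      · obtain ⟨m, hm, he⟩ := (Subgroup.subgroupOf_eq_top.mp h) hz₀W
        exact Subtype.ext he ▸ hm
      obtain ⟨w, hwU, hwn⟩ := SetLike.exists_of_lt hU
      have hwM : (⟨(w : G), hWH w.2⟩ : ↥H) ∉ M := fun h => hwn (Subgroup.mem_subgroupOf.mpr ⟨_, h, rfl⟩)
      refine eq_top_iff.mpr fun a _ => ?_
      have hc : Nat.card (↥H ⧸ M) = p := by rw [← Subgroup.index_eq_card, hMi]
      obtain ⟨j, hj⟩ := Subgroup.mem_zpowers_iff.mp (mem_zpowers_of_prime_card hc
        (g := QuotientGroup.mk' M ⟨(w : G), hWH w.2⟩) (fun h => hwM ((QuotientGroup.eq_one_iff _).mp h))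
        (g' := QuotientGroup.mk' M ⟨(a : G), hWH a.2⟩))
      rw [← map_zpow] at hj
      have hm := QuotientGroup.eq.mp hj
      have : (w ^ j)⁻¹ * a ∈ W₀ := Subgroup.mem_subgroupOf.mpr ⟨_, hm, by simp⟩
      rw [show a = w ^ j * ((w ^ j)⁻¹ * a) by group]
      exact mul_mem (zpow_mem hwU j) (hU.le this)
    have hcW : cz^[p - 1] u ∈ W := by
      obtain ⟨k, hk⟩ : ∃ k, p - 1 = k + 1 := ⟨p - 2, by have := hp.out.two_le; omega⟩
      rw [hk, Function.iterate_succ_apply']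
      show (cz^[k] u)⁻¹ * z⁻¹ * cz^[k] u * z ∈ W
      refine mul_mem ?_ hz₀W
      exact (Subgroup.mem_normalizer_iff''.mp (hHW (Subgroup.map_subtype_le _ (hcM k))) _).mp (inv_mem hz₀W)
    have hmem := hno u huS z hz₀W W₀ hW₀c ⟨⟨_, hcW⟩, Subgroup.mem_subgroupOf.mpr (hcM _), rfl⟩
    obtain ⟨_, ⟨w₁, hw₁, rfl⟩, he⟩ := hmem
    let ρ : ↥W₀ →* C := MonoidHom.mk' (fun w => P₀ ((w : ↥W) : G))
      fun a c => hPmul _ (Subgroup.mem_subgroupOf.mp a.2) _ (Subgroup.mem_subgroupOf.mp c.2)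
    have hker : frattini ↥W₀ ≤ ρ.ker := CfsgLib.LocalBasic.frattini_le_of_elementary_quotient (p := p) _
      (fun a c => by rw [MonoidHom.mem_ker, map_commutatorElement, commutatorElement_eq_one_iff_mul_comm, mul_comm])
      (fun a => by rw [MonoidHom.mem_ker, map_pow, hC])
    have := MonoidHom.mem_ker.mp (hker hw₁)
    change P₀ ((w₁ : ↥W) : G) = 1 at this
    rwa [show ((w₁ : ↥W) : G) = cz^[p - 1] u from he] at this
  · -- no fixed point
    push Not at hex
    let u' : ↥(Subgroup.zpowers u) := ⟨u, Subgroup.mem_zpowers u⟩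
    let δ : ↥(Subgroup.zpowers u) → (G ⧸ N) → C := fun h y => if y ∈ b then del N φ (h : G) y else 1
    have hinv : ∀ (h : ↥(Subgroup.zpowers u)) (y : G ⧸ N), (h : G) • y ∈ b ↔ y ∈ b := fun h y =>
      hbinv _ (Subgroup.mem_sup_right h.2) y
    have hδ : ∀ a c y, δ (a * c) y = δ a (c • y) * δ c y := by
      intro a c y
      show (if y ∈ b then _ else _) = (if (c : G) • y ∈ b then _ else _) * (if y ∈ b then _ else _)
      by_cases hy : y ∈ b
      · rw [if_pos hy, if_pos ((hinv c y).mpr hy), if_pos hy]; exact del_mul N φ a c y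
      · rw [if_neg hy, if_neg (fun h => hy ((hinv c y).mp h)), if_neg hy, one_mul]
    have h := CfsgLib.Fusion.Yoshida.total_mem hδ u' F fun y i hfx => by
      show (if y ∈ b then _ else _) ∈ F
      split
      case isFalse => exact one_mem _
      case isTrue hy =>
        have hfx' : u ^ i • y = y := by
          have h5 : ((u' ^ i : ↥(Subgroup.zpowers u)) : G) • y = y := hfx
          rwa [SubgroupClass.coe_zpow] at h5
        have hdvd : (p : ℤ) ∣ i := by
          by_contra hndvd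
          have hcop : IsCoprime i ((p : ℤ) ^ (e + 1)) :=
            IsCoprime.pow_right (((Nat.prime_iff_prime_int.mp hp.out).coprime_iff_not_dvd.mpr hndvd).symm)
          obtain ⟨a, c, hac⟩ := hcop
          refine hex y hy ?_
          have hu1 : u = (u ^ i) ^ a := by
            conv_lhs => rw [← zpow_one u, ← hac, zpow_add, mul_comm c, zpow_mul u _ c, ← Nat.cast_pow, zpow_natCast, hu,
              one_zpow, mul_one, mul_comm, zpow_mul]
          have hst : u ^ i ∈ MulAction.stabilizer G y := hfx'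
          rw [hu1]
          exact zpow_mem hst a
        obtain ⟨j, rfl⟩ := hdvd
        have : ((u' ^ ((p : ℤ) * j) : ↥(Subgroup.zpowers u)) : G) = u ^ ((p : ℤ) * j) := by simp [u']
        rw [this]
        refine low_mem N φ ?_ hfx'
        rw [← zpow_natCast, ← zpow_mul, mul_comm, ← mul_assoc, zpow_mul, ← Nat.cast_mul, zpow_natCast, ← pow_succ, hu, one_zpow]
    refine (congrArg (· ∈ F) ?_).mp h
    show ∏ y, (if y ∈ b then del N φ ((u' : ↥(Subgroup.zpowers u)) : G) y else 1) = _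
    rw [Finset.prod_ite_mem, Finset.univ_inter]

/-- Let S be a Sylow p-subgroup of the finite group G and W a subgroup of S weakly closed in S with respect to G. If S ∩ G' ≠ S ∩ (N_G(W))', then there are x ∈ S, z ∈ W and a maximal subgroup W₀ of W such that the iterated commutator [x, z; p−1] (with [x, z] = x⁻¹z⁻¹xz and [x, z; i+1] = [[x, z; i], z]) lies in W₀ but not in the Frattini subgroup of W₀; in particular [x, z; p−1] ≠ 1. -/
theorem result {G : Type*} [Group G] [Finite G] {p : ℕ} [Fact p.Prime] (S : Sylow p G) (W : Subgroup G) (hW : Cfsg.IsWeaklyClosed W (S : Subgroup G)) (h : (S : Subgroup G) ⊓ commutator G ≠ (S : Subgroup G) ⊓ ⁅Subgroup.normalizer (W : Set G), Subgroup.normalizer (W : Set G)⁆) : ∃ x ∈ (S : Subgroup G), ∃ z ∈ W, ∃ W₀ : Subgroup ↥W, IsCoatom W₀ ∧ (fun y : G => y⁻¹ * z⁻¹ * y * z)^[p - 1] x ∈ W₀.map W.subtype ∧ (fun y : G => y⁻¹ * z⁻¹ * y * z)^[p - 1] x ∉ ((frattini ↥W₀).map W₀.subtype).map W.subtype := by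
  classical
  by_contra hne
  have hno : NoConfig p (S : Subgroup G) W := fun x hx z hz W₀ h0 hm => by
    by_contra h'
    exact hne ⟨x, hx, z, hz, W₀, h0, hm, h'⟩
  apply h
  obtain ⟨hWS, hWc⟩ := hW
  have hSW : (S : Subgroup G) ≤ Subgroup.normalizer (W : Set G) := fun s hs =>
    CfsgLib.LocalBasic.mem_normalizer_of_conj_map_eq (hWc s (by
      rintro _ ⟨w, hw, rfl⟩; exact mul_mem (mul_mem hs (hWS hw)) (inv_mem hs)))
  obtain ⟨N, hN⟩ : ∃ N, N = Subgroup.normalizer (W : Set G) := ⟨_, rfl⟩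
  have hSN : (S : Subgroup G) ≤ N := hN ▸ hSW
  have hconj : ∀ n : ↥N, (∃ k : ℕ, n ^ p ^ k = 1) → ∃ g : ↥N, ((g * n * g⁻¹ : ↥N) : G) ∈ (S : Subgroup G) := by
    rintro n ⟨k, hk⟩
    obtain ⟨R, hR⟩ := (CfsgLib.LocalBasic.isPGroup_zpowers_of_pow_eq_one hk).exists_le_sylow
    obtain ⟨g, hg⟩ := MulAction.exists_smul_eq ↥N R (S.subtype hSN)
    refine ⟨g, ?_⟩
    have : g * n * g⁻¹ ∈ ((S.subtype hSN : Sylow p ↥N) : Subgroup ↥N) := hg ▸ ⟨n, hR (Subgroup.mem_zpowers n), rfl⟩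
    exact Subgroup.mem_subgroupOf.mp this
  have hfix : ∀ y : G ⧸ N, (∀ w ∈ W, w • y = y) → y = ((1 : G) : G ⧸ N) := by
    intro y hy
    obtain ⟨g, rfl⟩ := QuotientGroup.mk_surjective y
    have hW' : W.map (MulAut.conj g⁻¹).toMonoidHom ≤ N := by
      rintro _ ⟨w, hw, rfl⟩
      have := QuotientGroup.eq.mp (hy w hw)
      rw [← inv_mem_iff] at this
      show g⁻¹ * w * g⁻¹⁻¹ ∈ N
      simpa [mul_assoc] using this
    obtain ⟨R, hR⟩ := (((S.2.to_le hWS).map (MulAut.conj g⁻¹).toMonoidHom).comap_subtype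
      (H := W.map (MulAut.conj g⁻¹).toMonoidHom) (K := N)).exists_le_sylow
    obtain ⟨a, ha⟩ := MulAction.exists_smul_eq ↥N R (S.subtype hSN)
    have hmem : (a : G) * g⁻¹ ∈ N := by
      refine hN.ge ?_
      refine CfsgLib.LocalBasic.mem_normalizer_of_conj_map_eq (hWc _ ?_)
      rintro _ ⟨w, hw, rfl⟩
      have hm : (⟨g⁻¹ * w * g⁻¹⁻¹, hW' ⟨w, hw, rfl⟩⟩ : ↥N) ∈ (R : Subgroup ↥N) :=
        hR (Subgroup.mem_subgroupOf.mpr ⟨w, hw, rfl⟩)
      have h2 : a * ⟨g⁻¹ * w * g⁻¹⁻¹, hW' ⟨w, hw, rfl⟩⟩ * a⁻¹ ∈ ((S.subtype hSN : Sylow p ↥N) : Subgroup ↥N) :=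
        ha ▸ ⟨_, hm, rfl⟩
      have h3 := Subgroup.mem_subgroupOf.mp h2
      simpa [mul_assoc] using h3
    refine (QuotientGroup.eq.mpr ?_).symm
    have := mul_mem (inv_mem a.2) hmem
    simpa using this
  letI := Fintype.ofFinite (G ⧸ N)
  set B := Abelianization ↥N
  set φ : ↥N →* B := Abelianization.of
  set D : Subgroup B := ((S : Subgroup G).subgroupOf N).map φ with hD
  set L : Subgroup B := (S : Subgroup G).map (V N φ) with hL
  set Q : Subgroup B := (powMonoidHom p : B →* B).range with hQ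
  set q := QuotientGroup.mk' Q with hq
  have hC : ∀ c : B ⧸ Q, c ^ p = 1 := fun c => by
    induction c using QuotientGroup.induction_on with
    | H x => exact (QuotientGroup.eq_one_iff _).mpr ⟨x, rfl⟩
  have hind : ∀ e : ℕ, Subgroup.closure ((q.comp φ) '' {n : ↥N | n ^ p ^ e = 1}) ≤ (S : Subgroup G).map (V N (q.comp φ)) := by
    intro e
    induction e with
    | zero =>
      refine (Subgroup.closure_le _).mpr ?_
      rintro _ ⟨n, hn, rfl⟩
      rw [show n = 1 by simpa using hn, map_one]; exact one_mem _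
    | succ e ih =>
      refine (Subgroup.closure_le _).mpr ?_
      rintro _ ⟨n, hn, rfl⟩
      obtain ⟨g, hg⟩ := hconj n ⟨e + 1, hn⟩
      have hu : ((g * n * g⁻¹ : ↥N) : G) ^ p ^ (e + 1) = 1 := by
        rw [← Subgroup.coe_pow, conj_pow, show n ^ p ^ (e + 1) = 1 from hn]; simp
      have h1 := rest_mem hC (q.comp φ) S hWS hSW (hN ▸ Subgroup.le_normalizer) hfix hno hg (g * n * g⁻¹ : ↥N).2 hu
      have h2 := mul_mem (inv_mem (ih h1)) (show V N (q.comp φ) ((g * n * g⁻¹ : ↥N) : G) ∈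
        (S : Subgroup G).map (V N (q.comp φ)) from ⟨_, hg, rfl⟩)
      rw [mul_inv_rev, inv_inv, mul_assoc, inv_mul_cancel, mul_one] at h2
      rw [SetLike.mem_coe]
      rwa [show (q.comp φ) ⟨((g * n * g⁻¹ : ↥N) : G), (g * n * g⁻¹ : ↥N).2⟩ = (q.comp φ) n by
        rw [show (⟨((g * n * g⁻¹ : ↥N) : G), (g * n * g⁻¹ : ↥N).2⟩ : ↥N) = g * n * g⁻¹ from rfl, map_mul, map_mul, map_inv,
          mul_inv_cancel_comm]] at h2
  have hDp : IsPGroup p ↥D := (S.2.comap_subtype (K := N)).map φ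
  have hDi : ¬ p ∣ D.index := fun hd => (S.subtype hSN).not_dvd_index
    (hd.trans (Subgroup.index_map_dvd _ QuotientGroup.mk_surjective))
  have hroot : ∀ b : B, b ^ p ∈ D → b ∈ D := by
    intro b hb
    have h1 : b ^ D.index ∈ D := Subgroup.pow_index_mem D b
    obtain ⟨x, y, hxy⟩ := (Nat.isCoprime_iff_coprime.mpr ((Fact.out : p.Prime).coprime_iff_not_dvd.mpr hDi))
    rw [show b = (b ^ p) ^ x * (b ^ D.index) ^ y by
      rw [← zpow_natCast b p, ← zpow_natCast b D.index, ← zpow_mul, ← zpow_mul, ← zpow_add, mul_comm (p : ℤ), mul_comm (D.index : ℤ), hxy, zpow_one]]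
    exact mul_mem (zpow_mem hb x) (zpow_mem h1 y)
  have hLD : L ≤ D := by
    rintro _ ⟨s, hs, rfl⟩
    obtain ⟨k, hk⟩ := S.2 ⟨s, hs⟩
    have h0 : (V N φ s) ^ p ^ k = 1 := by
      rw [← map_pow, show s ^ p ^ k = 1 by simpa using congrArg Subtype.val hk, map_one]
    clear hk
    have key : ∀ k : ℕ, ∀ b : B, b ^ p ^ k ∈ D → b ∈ D := by
      intro k
      induction k with
      | zero => intro b hb; simpa using hb
      | succ k ih => intro b hb; exact ih b (hroot _ (by rwa [← pow_mul, ← pow_succ]))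
    exact key k _ (h0 ▸ one_mem D)
  have hstep : ∀ d ∈ D, ∃ l ∈ L, ∃ b ∈ D, d = l * b ^ p := by
    rintro _ ⟨n, hn, rfl⟩
    obtain ⟨k, hk⟩ := S.2 ⟨(n : G), Subgroup.mem_subgroupOf.mp hn⟩
    obtain ⟨s, hs, he⟩ := hind k (Subgroup.subset_closure ⟨n, Subtype.ext (by simpa using congrArg Subtype.val hk), rfl⟩)
    rw [V_comp, MonoidHom.comp_apply] at he
    obtain ⟨b, hb⟩ := QuotientGroup.eq.mp he
    have hb' : b ^ p = (V N φ s)⁻¹ * φ n := hb
    refine ⟨_, ⟨s, hs, rfl⟩, b, hroot b ?_, by rw [hb', mul_inv_cancel_left]⟩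
    rw [hb']
    exact mul_mem (inv_mem (hLD ⟨s, hs, rfl⟩)) ⟨n, hn, rfl⟩
  have hpk : ∀ k : ℕ, ∀ d ∈ D, ∃ l ∈ L, ∃ b ∈ D, d = l * b ^ p ^ k := by
    intro k
    induction k with
    | zero => exact fun d hd => ⟨1, one_mem _, d, hd, by simp⟩
    | succ k ih =>
      intro d hd
      obtain ⟨l, hl, b, hb, rfl⟩ := ih d hd
      obtain ⟨l', hl', b', hb', rfl⟩ := hstep b hb
      exact ⟨l * l' ^ p ^ k, mul_mem hl (pow_mem hl' _), b', hb', by rw [mul_pow, ← pow_mul, ← pow_succ', mul_assoc]⟩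
  have hDL : D ≤ L := by
    intro d hd
    obtain ⟨m, hm⟩ := IsPGroup.iff_card.mp hDp
    obtain ⟨l, hl, b, hb, rfl⟩ := hpk m d hd
    have : (⟨b, hb⟩ : ↥D) ^ p ^ m = 1 := by rw [← hm]; exact pow_card_eq_one'
    rw [show b ^ p ^ m = 1 by simpa using congrArg Subtype.val this, mul_one]
    exact hl
  -- counting
  set f := φ.comp (Subgroup.inclusion hSN) with hf
  set g := (V N φ).comp (S : Subgroup G).subtype with hg
  have hfr : f.range = D := by
    ext x
    constructor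
    · rintro ⟨s, rfl⟩; exact ⟨_, Subgroup.mem_subgroupOf.mpr s.2, rfl⟩
    · rintro ⟨n, hn, rfl⟩; exact ⟨⟨n, Subgroup.mem_subgroupOf.mp hn⟩, rfl⟩
  have hgr : g.range = L := by rw [hg, MonoidHom.range_comp, Subgroup.range_subtype]
  have hkf : f.ker = (⁅N, N⁆).subgroupOf (S : Subgroup G) := by
    ext s
    rw [MonoidHom.mem_ker, Subgroup.mem_subgroupOf, ← Subgroup.map_subtype_commutator]
    show φ (Subgroup.inclusion hSN s) = 1 ↔ _
    rw [← MonoidHom.mem_ker, Abelianization.ker_of]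
    constructor
    · exact fun h => ⟨_, h, rfl⟩
    · rintro ⟨n, hn, he⟩
      have : n = Subgroup.inclusion hSN s := Subtype.ext he
      exact this ▸ hn
  have hkg : (commutator G).subgroupOf (S : Subgroup G) ≤ g.ker := fun s hs =>
    MonoidHom.mem_ker.mpr (MonoidHom.mem_ker.mp (Abelianization.commutator_subset_ker (V N φ) (Subgroup.mem_subgroupOf.mp hs)))
  have hle : f.ker ≤ (commutator G).subgroupOf (S : Subgroup G) := by
    rw [hkf]
    exact fun s hs => Subgroup.mem_subgroupOf.mpr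
      ((Subgroup.commutator_mono le_top le_top) (Subgroup.mem_subgroupOf.mp hs))
  have hcard : Nat.card ↥g.ker = Nat.card ↥f.ker := by
    have h1 := Subgroup.card_mul_index g.ker
    have h2 := Subgroup.card_mul_index f.ker
    rw [Subgroup.index_ker, hgr, le_antisymm hLD hDL] at h1
    rw [Subgroup.index_ker, hfr] at h2
    exact Nat.eq_of_mul_eq_mul_right Nat.card_pos (h1.trans h2.symm)
  have heq : g.ker = f.ker := (Subgroup.eq_of_le_of_card_ge (hle.trans hkg) hcard.le).symm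
  rw [← hN]
  refine le_antisymm (fun x hx => ?_) (inf_le_inf_left _ (Subgroup.commutator_mono le_top le_top))
  obtain ⟨hxS, hxc⟩ := Subgroup.mem_inf.mp hx
  have h1 : (⟨x, hxS⟩ : ↥(S : Subgroup G)) ∈ f.ker := heq ▸ hkg (Subgroup.mem_subgroupOf.mpr hxc)
  rw [hkf] at h1
  exact Subgroup.mem_inf.mpr ⟨hxS, Subgroup.mem_subgroupOf.mp h1⟩

end Cfsg.Agent.S2792
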