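import Cfsg.Statements.S2795
import Cfsg.Agent.Lib.QdFree

set_option autoImplicit false
open Cfsg

namespace Cfsg.Agent.S2795
open scoped Matrix commutatorElement

theorem quad_aff {p : ℕ} [Fact p.Prime] (t : ↥(CfsgLib.Qd.aff (ZMod p))) (ht : CfsgLib.Qd.blk t = 1) :
    ⁅⁅t, CfsgLib.Qd.lift (CfsgLib.Linear.GL2Unipotent.v (1 : ZMod p))⁆,
      CfsgLib.Qd.lift (CfsgLib.Linear.GL2Unipotent.v (1 : ZMod p))⁆ = 1 := by
  set L := CfsgLib.Qd.lift (CfsgLib.Linear.GL2Unipotent.v (1 : ZMod p))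
  have hinv : ∀ s : ↥(CfsgLib.Qd.aff (ZMod p)), CfsgLib.Qd.blk s = 1 → CfsgLib.Qd.vec s⁻¹ = - CfsgLib.Qd.vec s := by
    intro s hs
    have h1 := CfsgLib.Qd.vec_mul s s⁻¹
    rw [hs, mul_inv_cancel, Matrix.SpecialLinearGroup.coe_one, Matrix.one_mulVec] at h1
    have h2 : CfsgLib.Qd.vec (1 : ↥(CfsgLib.Qd.aff (ZMod p))) = 0 := by funext i; fin_cases i <;> simp [CfsgLib.Qd.vec]
    rw [h2] at h1
    exact eq_neg_of_add_eq_zero_left h1.symm
  have hstep : ∀ s : ↥(CfsgLib.Qd.aff (ZMod p)), CfsgLib.Qd.blk s = 1 → CfsgLib.Qd.blk ⁅s, L⁆ = 1 ∧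
      CfsgLib.Qd.vec ⁅s, L⁆ = CfsgLib.Qd.vec s -
        (CfsgLib.Linear.GL2Unipotent.v (1 : ZMod p) : Matrix (Fin 2) (Fin 2) (ZMod p)) *ᵥ CfsgLib.Qd.vec s := by
    intro s hs
    have hc : CfsgLib.Qd.blk (L * s⁻¹ * L⁻¹) = 1 := by simp [hs]
    have he : ⁅s, L⁆ = s * (L * s⁻¹ * L⁻¹) := by rw [commutatorElement_def]; group
    refine ⟨by rw [he, map_mul, hs, hc, one_mul], ?_⟩
    rw [he, CfsgLib.Qd.vec_mul, hs, CfsgLib.Qd.vec_conj L (by rw [map_inv, hs, inv_one]), hinv s hs,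
      CfsgLib.Qd.blk_lift, Matrix.SpecialLinearGroup.coe_one, Matrix.one_mulVec, Matrix.mulVec_neg, neg_add_eq_sub]
  obtain ⟨h1, h2⟩ := hstep t ht
  obtain ⟨h3, h4⟩ := hstep _ h1
  rw [CfsgLib.Qd.ext_iff']
  refine ⟨by rw [h3, map_one], ?_⟩
  rw [h4, h2]
  funext i
  fin_cases i <;> simp [CfsgLib.Qd.vec, Matrix.mulVec_eq_sum, Fin.sum_univ_two, Matrix.vecHead, Matrix.vecTail] <;> ring

theorem pstable_false {p : ℕ} [Fact p.Prime] {X : Type*} [Group X] [Finite X] (ψ : X ≃* ↥(CfsgLib.Qd.aff (ZMod p)))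
    (h : Cfsg.IsNormalizerPStable p X) : False := by
  set φ : X →* Matrix.SpecialLinearGroup (Fin 2) (ZMod p) := CfsgLib.Qd.blk.comp ψ.toMonoidHom
  have hφ : Function.Surjective φ := CfsgLib.Qd.blk_surjective.comp ψ.surjective
  set P := φ.ker
  set g := ψ.symm (CfsgLib.Qd.lift (CfsgLib.Linear.GL2Unipotent.v (1 : ZMod p)))
  have hP : IsPGroup p ↥P := by
    have h1 := (CfsgLib.Qd.isPGroup_ker (F := ZMod p) (p := p)).comap_of_injective ψ.toMonoidHom ψ.injective
    rwa [MonoidHom.comap_ker] at h1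
  have hg : g ∈ Subgroup.normalizer (P : Set X) := by rw [Subgroup.normalizer_eq_top P]; exact Subgroup.mem_top g
  have hq : ∀ t ∈ P, ⁅⁅t, g⁆, g⁆ = 1 := fun t ht => ψ.injective (by
    rw [map_commutatorElement, map_commutatorElement, map_one, MulEquiv.apply_symm_apply]
    exact quad_aff (ψ t) ht)
  set C' := (Subgroup.centralizer (P : Set X)).subgroupOf (Subgroup.normalizer (P : Set X))
  have hC : C' ≤ (φ.comp (Subgroup.normalizer (P : Set X)).subtype).ker := by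
    intro c hc
    rw [MonoidHom.mem_ker]
    show CfsgLib.Qd.blk (ψ (c : X)) = 1
    set A := CfsgLib.Qd.blk (ψ (c : X))
    have hfix : ∀ w : Fin 2 → ZMod p, (A : Matrix (Fin 2) (Fin 2) (ZMod p)) *ᵥ w = w := by
      intro w
      have hmem : ψ.symm (CfsgLib.Qd.trl w) ∈ P := by
        show CfsgLib.Qd.blk (ψ (ψ.symm (CfsgLib.Qd.trl w))) = 1
        rw [MulEquiv.apply_symm_apply, CfsgLib.Qd.blk_trl]
      have h1 := congrArg ψ (Subgroup.mem_centralizer_iff.mp hc _ hmem)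
      rw [map_mul, map_mul, MulEquiv.apply_symm_apply] at h1
      have h2 := CfsgLib.Qd.vec_conj (ψ (c : X)) (CfsgLib.Qd.blk_trl w)
      rw [show ψ (c : X) * CfsgLib.Qd.trl w = CfsgLib.Qd.trl w * ψ (c : X) from h1.symm, mul_inv_cancel_right, CfsgLib.Qd.vec_trl] at h2
      exact h2.symm
    refine Subtype.ext (Matrix.ext fun i j => ?_)
    have h0 := congrFun (hfix (Pi.single j 1)) i
    rw [Matrix.mulVec_single_one, Pi.single_apply] at h0
    rw [Matrix.SpecialLinearGroup.coe_one, Matrix.one_apply]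
    exact h0
  haveI : Fintype (ZMod p) := ZMod.fintype p
  let θ := QuotientGroup.lift C' (φ.comp (Subgroup.normalizer (P : Set X)).subtype) hC
  have hθ : Function.Surjective θ := fun y => by
    obtain ⟨x, rfl⟩ := hφ y
    exact ⟨QuotientGroup.mk (⟨x, by rw [Subgroup.normalizer_eq_top P]; exact Subgroup.mem_top x⟩ : ↥(Subgroup.normalizer (P : Set X))), rfl⟩
  have h1 := h P hP g hg (CfsgLib.Glauberman.comm_zpowers_eq_bot hq)
  have h2 : φ g ∈ Cfsg.pCore p (Matrix.SpecialLinearGroup (Fin 2) (ZMod p)) :=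
    CfsgLib.Core.le_pCore ((Cfsg.pCore_normal p _).map θ hθ) ((CfsgLib.Core.isPGroup_pCore p).map θ) ⟨_, h1, rfl⟩
  rw [CfsgLib.Qd.pCore_SL2, Subgroup.mem_bot] at h2
  have h3 : CfsgLib.Linear.GL2Unipotent.v (1 : ZMod p) = 1 := by
    rw [← h2]
    show _ = CfsgLib.Qd.blk (ψ g)
    rw [MulEquiv.apply_symm_apply, CfsgLib.Qd.blk_lift]
  have h4 := congrFun (congrFun (congrArg Subtype.val h3) 1) 0
  simp at h4


/-- For an odd prime p and a finite group G, the group Qd(p) is not involved in G if and only if every section of G is p-stable in the normalizer form (for every p-subgroup P of the section and every g in its normalizer acting quadratically on P, the image of g in N(P)/C(P) lies in O_p(N(P)/C(P))). -/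
theorem result {G : Type*} [Group G] [Finite G] {p : ℕ} [Fact p.Prime] (hp : p ≠ 2) : ¬ Cfsg.Involves ↥(Cfsg.qd p) G ↔ ∀ (K R : Subgroup G) [hR : (R.subgroupOf K).Normal], Cfsg.IsNormalizerPStable p (K ⧸ R.subgroupOf K) := by
  constructor
  · intro hfree K R hR P hP g hg hq
    have hX : ¬ Cfsg.Involves ↥(Cfsg.qd p) ↥(Subgroup.normalizer (P : Set (↥K ⧸ R.subgroupOf K))) := fun hinv =>
      hfree (CfsgLib.QdFree.involves_trans K (QuotientGroup.mk' (R.subgroupOf K)) (QuotientGroup.mk'_surjective _)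
        (CfsgLib.QdFree.involves_trans (Subgroup.normalizer (P : Set (↥K ⧸ R.subgroupOf K))) (MonoidHom.id _)
          Function.surjective_id hinv))
    exact CfsgLib.Dickson.normalizer_mem_pCore hP hg (CfsgLib.QdFree.stable_of_qdFree hp hX)
      (CfsgLib.Dickson.quad_elements hq)
  · rintro h ⟨K, R, hR, ⟨e⟩⟩
    haveI := hR
    exact pstable_false (e.trans (MulEquiv.subgroupCongr (CfsgLib.Qd.qd_eq p))) (h K R)

end Cfsg.Agent.S2795
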