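import Cfsg.Statements.S2799
import Cfsg.Agent.Lib.Glauberman.JFunctor
import Cfsg.Agent.Lib.Fusion.GroupModel

set_option autoImplicit false
open Cfsg

namespace Cfsg.Agent.S2799

open CfsgLib.Glauberman CfsgLib.Fusion Cfsg.FusionSystem
/-- Let S be a Sylow p-subgroup of the finite group G, J(S) the subgroup generated by the abelian subgroups of S of largest order, and x an element of S lying in the centre of N_G(J(S)). Assume that p is odd, or that x is a p-th power of an element of Z(S), or that the symmetric group of degree 4 is not involved in G. Then x is weakly closed in S with respect to G: every G-conjugate of x that lies in S equals x. -/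
theorem result {G : Type*} [Group G] [Finite G] {p : ℕ} [Fact p.Prime] (S : Sylow p G) (x : G) (hxS : x ∈ (S : Subgroup G)) (hxZ : x ∈ (Subgroup.center ↥(Subgroup.normalizer ((Cfsg.thompsonSubgroupAOf (S : Subgroup G)) : Set G))).map (Subgroup.normalizer ((Cfsg.thompsonSubgroupAOf (S : Subgroup G)) : Set G)).subtype) (h : p ≠ 2 ∨ (∃ z ∈ (S : Subgroup G) ⊓ Subgroup.centralizer ((S : Subgroup G) : Set G), z ^ p = x) ∨ ¬ Cfsg.Involves (Equiv.Perm (Fin 4)) G) : ∀ g : G, g * x * g⁻¹ ∈ (S : Subgroup G) → g * x * g⁻¹ = x := by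
  have hJ : Cfsg.thompsonSubgroupAOf (S : Subgroup G) = ind JW (S : Subgroup G) := by
    rw [ind_JW]; exact CfsgLib.ThompsonNPC.thompsonSubgroupAOf_eq _
  have hW2 : ∀ (Q R : Type _) [Group Q] [Group R] [Finite Q], IsPGroup p Q → ∀ φ : Q ≃* R, (JW Q).map φ.toMonoidHom = JW R :=
    fun Q R _ _ _ _ φ => JW_map Q R φ
  set F := groupFusionSystem (S : Subgroup G)
  have hS : IsPGroup p ↥(S : Subgroup G) := S.2
  have hF : F.IsSaturated p := group_isSaturated (p := p) (S := S)
  obtain ⟨c, hc, rfl⟩ := hxZ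
  have hnc : ∀ n ∈ Subgroup.normalizer (ind JW (S : Subgroup G) : Set G), n * (c : G) = c * n := fun n hn =>
    congrArg Subtype.val (Subgroup.mem_center_iff.mp hc ⟨n, by rw [hJ]; exact hn⟩)
  have hSN : (S : Subgroup G) ≤ Subgroup.normalizer (ind JW (S : Subgroup G) : Set G) :=
    Subgroup.le_normalizer.trans (le_normalizer_of_characteristic (ind_le JW _) (ind_characteristic JW hW2 _ hS))
  have hcS : ∀ s ∈ (S : Subgroup G), s * (c : G) = c * s := fun s hs => hnc s (hSN hs)
  have hyp : ∀ (P : Subgroup G) (φ : ↥P →* G),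
      φ ∈ (normalizerSystem F (ind JW (S : Subgroup G)) (ind_le JW _)).Hom P → ∀ x : ↥P, (x : G) = c → φ x = c := by
    rintro P φ ⟨-, -, -, ψ, ⟨-, -, n, hn⟩, hψe, hψW⟩ x hx
    have hnN : n ∈ Subgroup.normalizer (ind JW (S : Subgroup G) : Set G) := by
      refine Subgroup.mem_normalizer_fintype fun w hw => ?_
      have h := hψW.le ⟨⟨w, le_sup_right (a := P) hw⟩, hw, rfl⟩
      rwa [hn] at h
    rw [← hψe x, hn]
    show n * (x : G) * n⁻¹ = c
    rw [hx, hnc n hnN, mul_inv_cancel_right]
  have hfix : Fixed F (c : G) := by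
    rcases h with h | ⟨z, hz, hzx⟩ | h
    · exact fixed_of_functor_in JW (JW_ne_bot (p := p)) hW2 s4Class anyGood centerCondition_s4 _ F rfl hS hF (Or.inl h)
        _ hxS hcS trivial hyp
    · exact fixed_of_functor JW (JW_ne_bot (p := p)) hW2 (powGood (p := p)) centerCondition_pow _ F rfl hS hF _ hxS hcS
        ⟨z, hz.1, fun s hs => Subgroup.mem_centralizer_iff.mp hz.2 s hs, hzx⟩ hyp
    · refine fixed_of_functor_in JW (JW_ne_bot (p := p)) hW2 s4Class anyGood centerCondition_s4 _ F rfl hS hF (Or.inr ?_)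
        _ hxS hcS trivial hyp
      intro Q hQn hQc E hE L _ ι hL hi
      refine h ?_
      obtain ⟨f, hf, -⟩ := exists_surjection_model S hQn hQc E hE hL
      exact involves_of_injective (involves_of_surjective hi f hf) _ (Subgroup.subtype_injective _)
  intro g hg
  refine hfix (Subgroup.zpowers (c : G)) (conjHom _ g) ⟨Subgroup.zpowers_le.mpr hxS, fun y => ?_, g, fun _ => rfl⟩
    ⟨_, Subgroup.mem_zpowers _⟩ rfl
  obtain ⟨i, hi⟩ := Subgroup.mem_zpowers_iff.mp y.2
  show g * (y : G) * g⁻¹ ∈ (S : Subgroup G)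
  rw [← hi, ← conj_zpow]
  exact Subgroup.zpow_mem _ hg i

end Cfsg.Agent.S2799
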