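import Cfsg.Statements.S2807
import Cfsg.Agent.Lib.Fusion.Yoshida
import Cfsg.Agent.Lib.Fusion.Group

set_option autoImplicit false
open Cfsg

namespace Cfsg.Agent.S2807
open Subgroup
open scoped commutatorElement

/-- Let S be a Sylow p-subgroup of the finite group G. If S ∩ G' ≠ S ∩ (N_G(S))' (derived subgroups), then the wreath product Z_p ≀ Z_p — realised as a Sylow p-subgroup of the symmetric group of degree p² — is a homomorphic image of S. -/
theorem result {G : Type*} [Group G] [Finite G] {p : ℕ} [Fact p.Prime] (S : Sylow p G) (h : (S : Subgroup G) ⊓ commutator G ≠ (S : Subgroup G) ⊓ ⁅Subgroup.normalizer ((S : Subgroup G) : Set G), Subgroup.normalizer ((S : Subgroup G) : Set G)⁆) : ∃ (P : Sylow p (Equiv.Perm (Fin (p ^ 2)))) (f : ↥(S : Subgroup G) →* ↥(P : Subgroup (Equiv.Perm (Fin (p ^ 2))))), Function.Surjective f := by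
  classical
  by_contra hno
  apply h
  set N := Subgroup.normalizer ((S : Subgroup G) : Set G) with hN
  have hSN : (S : Subgroup G) ≤ N := Subgroup.le_normalizer
  set K := (⁅N, N⁆).subgroupOf (S : Subgroup G) with hK
  have hKn : K.Normal := ⟨fun k hk s => by
    rw [Subgroup.mem_subgroupOf] at hk ⊢
    have h1 : ⁅(s : G), (k : G)⁆ ∈ ⁅N, N⁆ := Subgroup.commutator_mem_commutator (hSN s.2) (hSN k.2)
    have h2 := mul_mem h1 hk
    simpa [commutatorElement_def] using h2⟩
  haveI := hKn
  letI : CommGroup (↥(S : Subgroup G) ⧸ K) :=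
    { (inferInstance : Group (↥(S : Subgroup G) ⧸ K)) with
      mul_comm := fun a b => by
        induction a using QuotientGroup.induction_on with
        | H a =>
          induction b using QuotientGroup.induction_on with
          | H b =>
            refine QuotientGroup.eq.mpr (Subgroup.mem_subgroupOf.mpr ?_)
            have h1 : ⁅(b : G)⁻¹, (a : G)⁻¹⁆ ∈ ⁅N, N⁆ :=
              Subgroup.commutator_mem_commutator (inv_mem (hSN b.2)) (inv_mem (hSN a.2))
            rw [commutatorElement_def, inv_inv, inv_inv] at h1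
            push_cast
            simpa [mul_assoc] using h1 }
  obtain ⟨n, hn⟩ := IsPGroup.iff_card.mp (S.isPGroup'.to_quotient K)
  have hinv : ∀ α ∈ (Cfsg.groupFusionSystem (S : Subgroup G)).autGroup (S : Subgroup G), ∀ x,
      QuotientGroup.mk' K (α x) = QuotientGroup.mk' K x := by
    intro α hα x
    rw [CfsgLib.Fusion.group_autGroup le_rfl, CfsgLib.Fusion.mem_autInducedBy] at hα
    obtain ⟨g, -, hg⟩ := hα
    have hgN : g ∈ N := by
      refine CfsgLib.LocalBasic.mem_normalizer_of_conj_map_eq (Subgroup.eq_of_le_of_card_ge ?_ ?_)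
      · rintro _ ⟨w, hw, rfl⟩
        show g * w * g⁻¹ ∈ (S : Subgroup G)
        rw [← hg ⟨w, hw⟩]; exact (α _).2
      · rw [Subgroup.card_map_of_injective (MulEquiv.injective _)]
    refine QuotientGroup.eq.mpr (Subgroup.mem_subgroupOf.mpr ?_)
    have h1 : ⁅g, (x : G)⁻¹⁆ ∈ ⁅N, N⁆ := Subgroup.commutator_mem_commutator hgN (inv_mem (hSN x.2))
    push_cast
    rw [hg x]
    simpa [commutatorElement_def, mul_assoc] using h1
  have key := CfsgLib.Fusion.Yoshida.invariant_extends S.isPGroup' (CfsgLib.Fusion.group_isSaturated (S := S)) hno n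
    (QuotientGroup.mk' K) (fun s => by rw [← hn]; exact pow_card_eq_one') hinv
  refine le_antisymm (le_inf inf_le_left ?_) (le_inf inf_le_left (inf_le_right.trans (Subgroup.commutator_mono le_top le_top)))
  rw [inf_comm, Subgroup.commutator_inf_eq_focalSubgroup S, Subgroup.focalSubgroup_def, Subgroup.closure_le]
  rintro _ ⟨hz, x, hx, u, rfl⟩
  have h1 : u * x⁻¹ * u⁻¹ ∈ (S : Subgroup G) := by
    have := mul_mem (inv_mem hx) hz
    simpa [commutatorElement_def, mul_assoc] using this
  set P := Subgroup.zpowers x⁻¹ with hP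
  let φ : ↥P →* G := (MulAut.conj u).toMonoidHom.comp P.subtype
  have hφ : φ ∈ (Cfsg.groupFusionSystem (S : Subgroup G)).Hom P := by
    refine CfsgLib.Fusion.groupHom_iff.mpr ⟨Subgroup.zpowers_le.mpr (inv_mem hx), ?_, u, fun w => rfl⟩
    rintro ⟨w, hw⟩
    obtain ⟨i, rfl⟩ := hw
    show u * (x⁻¹) ^ i * u⁻¹ ∈ (S : Subgroup G)
    rw [← conj_zpow]
    exact zpow_mem h1 i
  have h2 := key P φ hφ ⟨x⁻¹, mem_zpowers _⟩
  have h3 := Subgroup.mem_subgroupOf.mp (QuotientGroup.eq.mp h2.symm)
  push_cast at h3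
  show ⁅x, u⁆ ∈ ⁅N, N⁆
  simpa [commutatorElement_def, mul_assoc, φ] using h3

end Cfsg.Agent.S2807
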