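import Cfsg.Statements.S2941
import Cfsg.Agent.Lib.LocalBasic

set_option autoImplicit false
open Cfsg

namespace Cfsg.Agent.S2941

open CfsgLib.LocalBasic
open scoped commutatorElement

/-- Let G be a finite group of characteristic 2 type in which every 2-local subgroup is solvable and the centralizer of Ω₁(Z(S)) lies in N_G(S) for every Sylow 2-subgroup S, and let T be a nontrivial 2-subgroup and K a J(T)-component (J the Thompson subgroup generated by the elementary abelian 2-subgroups of largest order). If a subgroup Q is normalized by ⟨K, J(T)⟩ and normalizes J(T), then Q normalizes K. -/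
theorem result {G : Type*} [Group G] [Finite G] (hL : Cfsg.IsCharacteristicTwoType G) (hN : ∀ N : Subgroup G, Cfsg.IsTwoLocal N → Group.IsSolvable ↥N)
    (hZ : ∀ S : Sylow 2 G, Subgroup.centralizer (Cfsg.omegaCenterOf (S : Subgroup G) : Set G) ≤ Subgroup.normalizer ((S : Subgroup G) : Set G)) (T : Subgroup G) (hT : IsPGroup 2 ↥T) (hT1 : T ≠ ⊥) (K : Subgroup G) (hK : Cfsg.IsJComponent T K)
    (Q : Subgroup G) (hQ1 : K ⊔ Cfsg.thompsonSubgroupOf 2 T ≤ Subgroup.normalizer (Q : Set G)) (hQ2 : Q ≤ Subgroup.normalizer (Cfsg.thompsonSubgroupOf 2 T : Set G)) :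
    Q ≤ Subgroup.normalizer (K : Set G) := by
  set J := Cfsg.thompsonSubgroupOf 2 T with hJdef
  obtain ⟨hgen, hKJ, -, -, -, -⟩ := hK
  have hJ2 : IsPGroup 2 ↥J := hT.to_le (Subgroup.map_subtype_le _)
  have hJK : J ≤ Subgroup.normalizer (K : Set G) := Subgroup.le_normalizer_iff_commutator_le_left.mpr hKJ.le
  set R := K ⊔ J with hR
  set C : Set G := {x | ∃ r ∈ R, ∃ j ∈ J, x = r * j * r⁻¹} with hC
  have hRC : R ≤ Subgroup.closure C := by
    have hJC : J ≤ Subgroup.closure C := fun j hj => Subgroup.subset_closure ⟨1, R.one_mem, j, hj, by simp⟩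
    refine sup_le ?_ hJC
    rw [← hKJ, Subgroup.commutator_le]
    intro k hk j hj
    rw [commutatorElement_def]
    exact Subgroup.mul_mem _ (Subgroup.subset_closure ⟨k, Subgroup.mem_sup_left hk, j, hj, rfl⟩)
      (Subgroup.inv_mem _ (hJC hj))
  have hQR : ∀ q ∈ Q, R.map (MulAut.conj q).toMonoidHom = R := by
    intro q hq
    refine Subgroup.eq_of_le_of_card_ge ?_ (Subgroup.card_map_of_injective (MulEquiv.injective _)).ge
    refine (Subgroup.map_mono hRC).trans ?_
    rw [MonoidHom.map_closure, Subgroup.closure_le]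
    rintro _ ⟨_, ⟨r, hr, j, hj, rfl⟩, rfl⟩
    have hq' : r⁻¹ * q * r ∈ Q := by
      simpa using (Subgroup.mem_normalizer_iff.mp ((Subgroup.normalizer (Q : Set G)).inv_mem (hQ1 hr)) q).mp hq
    have hj' : (r⁻¹ * q * r) * j * (r⁻¹ * q * r)⁻¹ ∈ J := (Subgroup.mem_normalizer_iff.mp (hQ2 hq') j).mp hj
    show q * (r * j * r⁻¹) * q⁻¹ ∈ R
    rw [show q * (r * j * r⁻¹) * q⁻¹ = r * ((r⁻¹ * q * r) * j * (r⁻¹ * q * r)⁻¹) * r⁻¹ by group]
    exact R.mul_mem (R.mul_mem hr (Subgroup.mem_sup_right hj')) (R.inv_mem hr)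
  have hodd : ∀ x ∈ R, Odd (orderOf x) → x ∈ K := by
    intro x hx hxo
    rw [← SetLike.mem_coe, hR, Subgroup.coe_mul_of_right_le_normalizer_left _ _ hJK, Set.mem_mul] at hx
    obtain ⟨k, hk, j, hj, rfl⟩ := hx
    have key : ∀ n : ℕ, (k * j) ^ n * (j ^ n)⁻¹ ∈ K := by
      intro n
      induction n with
      | zero => simp
      | succ n ih =>
        have h : (k * j) ^ (n + 1) * (j ^ (n + 1))⁻¹ = (k * j) ^ n * (j ^ n)⁻¹ * (j ^ n * k * (j ^ n)⁻¹) := by
          rw [pow_succ, pow_succ]; group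
        rw [h]
        exact K.mul_mem ih ((Subgroup.mem_normalizer_iff.mp ((Subgroup.normalizer (K : Set G)).pow_mem (hJK hj) n) k).mp hk)
    obtain ⟨m, hm⟩ := hJ2 ⟨j, hj⟩
    have hm' : j ^ 2 ^ m = 1 := by simpa using congrArg Subtype.val hm
    have h2 := key (2 ^ m)
    rw [hm', inv_one, mul_one] at h2
    obtain ⟨t, ht⟩ := exists_pow_eq_self_of_coprime
      (x := k * j) (n := 2 ^ m) (Nat.Coprime.pow_left m (Nat.coprime_two_left.mpr hxo))
    rw [← ht]; exact K.pow_mem h2 t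
  intro q hq
  refine mem_normalizer_of_conj_map_eq (Subgroup.eq_of_le_of_card_ge ?_
    (Subgroup.card_map_of_injective (MulEquiv.injective _)).ge)
  have h := Subgroup.map_mono (f := (MulAut.conj q).toMonoidHom) hgen.ge
  rw [MonoidHom.map_closure] at h
  refine h.trans ((Subgroup.closure_le _).mpr ?_)
  rintro _ ⟨x, ⟨hx, hxo⟩, rfl⟩
  refine hodd _ ?_ ?_
  · rw [← hQR q hq]; exact ⟨x, Subgroup.mem_sup_left hx, rfl⟩
  · rwa [orderOf_injective (MulAut.conj q).toMonoidHom (MulAut.conj q).injective]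

end Cfsg.Agent.S2941
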