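import Cfsg.Statements.S2947
import Cfsg.Agent.Lib.SPE
import Cfsg.Agent.Lib.PCoreOf

set_option autoImplicit false
open Cfsg

namespace Cfsg.Agent.S2947

/-- Let G be a finite group of characteristic 2 type in which every 2-local subgroup is solvable and the centralizer of Ω₁(Z(S)) lies in N_G(S) for every Sylow 2-subgroup S; suppose O₂(G) = 1, fix a Sylow 2-subgroup S and a 2-local subgroup M containing N_G(J(S)) (J the Thompson subgroup generated by the elementary abelian 2-subgroups of largest order). Then M is strongly embedded in G (a proper subgroup of even order whose intersection with each conjugate by an element outside M has odd order) if and only if no nontrivial 2-subgroup of M lies in a 2-local subgroup of G not contained in M. -/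
theorem result {G : Type*} [Group G] [Finite G] (hL : Cfsg.IsCharacteristicTwoType G) (hN : ∀ N : Subgroup G, Cfsg.IsTwoLocal N → Group.IsSolvable ↥N)
    (hZ : ∀ S : Sylow 2 G, Subgroup.centralizer (Cfsg.omegaCenterOf (S : Subgroup G) : Set G) ≤ Subgroup.normalizer ((S : Subgroup G) : Set G)) (hO : Cfsg.pCore 2 G = ⊥) (S : Sylow 2 G) (M : Subgroup G) (hM : Cfsg.IsTwoLocal M)
    (hMJ : Subgroup.normalizer (Cfsg.thompsonSubgroupOf 2 (S : Subgroup G) : Set G) ≤ M) :
    Cfsg.IsStronglyEmbedded M ↔ Cfsg.straddlingTwoSubgroups M = ∅ := by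
  haveI : Fact (Nat.Prime 2) := ⟨Nat.prime_two⟩
  obtain ⟨T₀, hT₀, hT₀1, rfl⟩ := hM
  set M := Subgroup.normalizer (T₀ : Set G)
  have hT₀M : T₀ ≤ M := Subgroup.le_normalizer
  have hdvd : 2 ∣ Nat.card ↥M := (CfsgLib.SPE.dvd_card_of_ne_bot hT₀ hT₀1).trans (Subgroup.card_dvd_of_le hT₀M)
  constructor
  · rintro ⟨-, -, hodd⟩
    have hN : CfsgLib.SPE.NormClosed 2 M := CfsgLib.SPE.normClosed_of_intersectCoprime fun g hg hd =>
      (Nat.not_even_iff_odd.mpr (hodd g hg)) (even_iff_two_dvd.mpr hd)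
    rw [Set.eq_empty_iff_forall_notMem]
    rintro T ⟨hT, hT1, hTM, L, ⟨T', hT', hT'1, rfl⟩, hTL, hLM⟩
    set L := Subgroup.normalizer (T' : Set G)
    obtain ⟨U, hU⟩ := (hT.comap_subtype (K := L)).exists_le_sylow
    have hT'U : T' ≤ (U : Subgroup ↥L).map L.subtype := fun x hx => by
      haveI : (T'.comap L.subtype).Normal := Subgroup.normal_in_normalizer
      exact ⟨⟨x, Subgroup.le_normalizer hx⟩, ((le_sup_left).trans_eq
        (U.3 (IsPGroup.to_sup_of_normal_left (hT'.comap_subtype (K := L)) U.2) le_sup_right)) hx, rfl⟩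
    set U' := (U : Subgroup ↥L).map L.subtype
    have hU'p : IsPGroup 2 ↥U' := U.2.map _
    have hTU : T ≤ U' := fun x hx => ⟨⟨x, hTL hx⟩, hU (Subgroup.mem_subgroupOf.mpr hx), rfl⟩
    have hne : U' ⊓ M ≠ ⊥ := ne_bot_of_le_ne_bot hT1 (le_inf hTU hTM)
    have heq := CfsgLib.LocalBasic.eq_of_normalizer_inf_le (R := U' ⊓ M) hU'p inf_le_left fun x ⟨hx, hxn⟩ =>
      ⟨hx, hN _ inf_le_right hU'p.to_inf_left hne hxn⟩
    exact hLM (hN T' (hT'U.trans (heq ▸ inf_le_right)) hT' hT'1)
  · intro hempty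
    have hN : CfsgLib.SPE.NormClosed 2 M := fun A hAM hA hA1 => by
      by_contra hle
      exact Set.eq_empty_iff_forall_notMem.mp hempty A ⟨hA, hA1, hAM, _, ⟨A, hA, hA1, rfl⟩, Subgroup.le_normalizer, hle⟩
    refine ⟨fun htop => hT₀1 ?_, even_iff_two_dvd.mpr hdvd, fun g hg => Nat.not_even_iff_odd.mp fun he =>
      CfsgLib.SPE.intersectCoprime_of_normClosed hN g hg (even_iff_two_dvd.mp he)⟩
    haveI : T₀.Normal := Subgroup.normalizer_eq_top_iff.mp htop
    exact le_bot_iff.mp (hO ▸ CfsgLib.Core.le_pCore inferInstance hT₀)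

end Cfsg.Agent.S2947
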