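import Cfsg.Statements.S3085
-- import your own Cfsg.Agent.* helpers here

set_option autoImplicit false

open Cfsg

namespace Cfsg.Agent.S3085

variable {Q : Type*} [Group Q]

open scoped Classical in
/-- commutation bit -/
noncomputable def cbit (q t : Q) : ZMod 2 := if Commute q t then 0 else 1

lemma cbit_zero {q t : Q} : cbit q t = 0 ↔ Commute q t := by
  unfold cbit; split_ifs with h <;> simp [h]

lemma cbit_one {q t : Q} : cbit q t = 1 ↔ ¬ Commute q t := by
  unfold cbit; split_ifs with h <;> simp [h]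

lemma cbit_self (q : Q) : cbit q q = 0 := cbit_zero.2 (Commute.refl q)

lemma cbit_comm (q t : Q) : cbit q t = cbit t q := by
  by_cases h : Commute q t
  · rw [cbit_zero.2 h, cbit_zero.2 h.symm]
  · rw [cbit_one.2 h, cbit_one.2 fun h' => h h'.symm]

variable (z : Q) (hz : ∀ q, Commute z q) (hz2 : z * z = 1) (hz1 : z ≠ 1)
  (hcomm : ∀ q t : Q, ¬ Commute q t → q * t = z * (t * q))

include hz hz2 hz1 hcomm

lemma cbit_mul (a b t : Q) : cbit (a * b) t = cbit a t + cbit b t := by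
  by_cases ha : Commute a t <;> by_cases hb : Commute b t
  · rw [cbit_zero.2 ha, cbit_zero.2 hb, cbit_zero.2 (ha.mul_left hb), add_zero]
  · rw [cbit_zero.2 ha, cbit_one.2 hb, zero_add, cbit_one]
    intro h
    apply hb
    have := (ha.inv_left.mul_left h)
    simpa using this
  · rw [cbit_one.2 ha, cbit_zero.2 hb, add_zero, cbit_one]
    intro h
    apply ha
    have := (h.mul_left hb.inv_left)
    simpa using this
  · rw [cbit_one.2 ha, cbit_one.2 hb, show (1 : ZMod 2) + 1 = 0 by decide, cbit_zero]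
    have h1 := hcomm a t ha
    have h2 := hcomm b t hb
    calc a * b * t = a * (b * t) := mul_assoc _ _ _
      _ = a * (z * (t * b)) := by rw [h2]
      _ = z * (a * t * b) := by
        rw [← mul_assoc a z, ← (hz a).eq, mul_assoc z a, ← mul_assoc a t]
      _ = z * (z * (t * a) * b) := by rw [h1]
      _ = (z * z) * (t * a * b) := by simp only [mul_assoc]
      _ = t * (a * b) := by rw [hz2, one_mul, mul_assoc]

lemma cbit_mul_right (a b t : Q) : cbit t (a * b) = cbit t a + cbit t b := by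
  rw [cbit_comm t, cbit_comm t, cbit_comm t]; exact cbit_mul z hz hz2 hz1 hcomm a b t

lemma square_fix (x y : Q) (hxy : ¬ Commute y x) (hx : x * x = 1)
    (hsq : ∀ q : Q, q * q = 1 ∨ q * q = z) :
    ∃ p : Q, (p = y ∨ p = y * x) ∧ p * p = z := by
  rcases hsq y with hy | hy
  · refine ⟨y * x, Or.inr rfl, ?_⟩
    have h := hcomm x y (fun h => hxy h.symm)
    calc y * x * (y * x) = y * (x * y) * x := by simp only [mul_assoc]
      _ = y * (z * (y * x)) * x := by rw [h]
      _ = z * ((y * y) * (x * x)) := by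
        rw [← mul_assoc y z, ← (hz y).eq]; simp only [mul_assoc]
      _ = z := by rw [hx, hy, one_mul, mul_one]
  · exact ⟨y, Or.inl rfl, hy⟩

open scoped Classical in
/-- the reflection attached to `p`, `p * p = z` -/
noncomputable def rfun (p : Q) : Q → Q := fun q => if Commute q p then q else q * p

lemma rfun_mul (p : Q) (hp : p * p = z) (a b : Q) :
    rfun p (a * b) = rfun p a * rfun p b := by
  by_cases ha : Commute a p <;> by_cases hb : Commute b p
  · simp [rfun, ha, hb, ha.mul_left hb]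
  · have : ¬ Commute (a * b) p := by
      rw [← cbit_one, cbit_mul z hz hz2 hz1 hcomm, cbit_zero.2 ha, cbit_one.2 hb, zero_add]
    simp [rfun, ha, hb, this, mul_assoc]
  · have : ¬ Commute (a * b) p := by
      rw [← cbit_one, cbit_mul z hz hz2 hz1 hcomm, cbit_one.2 ha, cbit_zero.2 hb, add_zero]
    simp [rfun, ha, hb, this, mul_assoc, hb.eq]
  · have : Commute (a * b) p := by
      rw [← cbit_zero, cbit_mul z hz hz2 hz1 hcomm, cbit_one.2 ha, cbit_one.2 hb]; decide
    simp only [rfun, ha, hb, this, if_true, if_false]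
    have h := hcomm p b (fun h => hb h.symm)
    calc a * b = (z * z) * (a * b) := by rw [hz2, one_mul]
      _ = a * (z * (b * z)) := by
        rw [← (hz b).eq, ← mul_assoc a z, ← (hz a).eq]
        simp only [mul_assoc]
        congr 1
        rw [← mul_assoc a z, ← (hz a).eq, mul_assoc]
      _ = a * (z * (b * (p * p))) := by rw [hp]
      _ = a * ((p * b) * p) := by rw [h]; simp only [mul_assoc]
      _ = a * p * (b * p) := by simp only [mul_assoc]

lemma cbit_rfun (p q t : Q) : cbit (rfun p q) t = cbit q t + cbit q p * cbit p t := by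
  by_cases h : Commute q p
  · simp [rfun, h, cbit_zero.2 h]
  · simp [rfun, h, cbit_one.2 h, cbit_mul z hz hz2 hz1 hcomm]

lemma rfun_rfun (p : Q) (hp : p * p = z) (q : Q) : rfun p (rfun p q) = p * q * p⁻¹ := by
  by_cases h : Commute q p
  · simp [rfun, h, h.eq.symm]
  · have h' : ¬ Commute (q * p) p := by
      rw [← cbit_one, cbit_mul z hz hz2 hz1 hcomm, cbit_one.2 h, cbit_self, add_zero]
    simp only [rfun, h, h', if_false]
    rw [eq_mul_inv_iff_mul_eq]
    calc q * p * p * p = (q * (p * p)) * p := by simp only [mul_assoc]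
      _ = z * (q * p) := by rw [hp, ← (hz q).eq, mul_assoc]
      _ = (z * z) * (p * q) := by rw [hcomm q p h, mul_assoc]
      _ = p * q := by rw [hz2, one_mul]

lemma exists_refl (p : Q) (hp : p * p = z) :
    ∃ r : MulAut Q, (∀ q, r q = rfun p q) ∧ r * r = MulAut.conj p := by
  have hbij : Function.Bijective (rfun p : Q → Q) := by
    have h2 : Function.Bijective (rfun p ∘ rfun p : Q → Q) := by
      have : (rfun p ∘ rfun p : Q → Q) = MulAut.conj p := by
        funext q; simp [rfun_rfun z hz hz2 hz1 hcomm p hp q]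
      rw [this]; exact (MulAut.conj p).bijective
    exact ⟨h2.injective.of_comp, h2.surjective.of_comp⟩
  refine ⟨MulEquiv.ofBijective (MonoidHom.mk' (rfun p) (rfun_mul z hz hz2 hz1 hcomm p hp)) hbij,
    fun q => rfl, ?_⟩
  ext q
  show rfun p (rfun p q) = MulAut.conj p q
  simp [rfun_rfun z hz hz2 hz1 hcomm p hp q]

lemma refl_commute (p q : Q) (hpq : Commute p q) (r r' : MulAut Q) (hr : ∀ x, r x = rfun p x)
    (hr' : ∀ x, r' x = rfun q x) : r * r' = r' * r := by
  have h0 := cbit_zero.2 hpq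
  have h0' := cbit_zero.2 hpq.symm
  ext x
  show r (r' x) = r' (r x)
  rw [hr', hr x, hr, hr']
  by_cases h1 : Commute x p <;> by_cases h2 : Commute x q
  · simp [rfun, h1, h2]
  · simp [rfun, h1, h2, h1.mul_left hpq.symm]
  · simp [rfun, h1, h2, h2.mul_left hpq]
  · have a1 : ¬ Commute (x * q) p := by
      rw [← cbit_one, cbit_mul z hz hz2 hz1 hcomm, cbit_one.2 h1, h0', add_zero]
    have a2 : ¬ Commute (x * p) q := by
      rw [← cbit_one, cbit_mul z hz hz2 hz1 hcomm, cbit_one.2 h2, h0, add_zero]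
    simp [rfun, h1, h2, a1, a2, mul_assoc, hpq.eq]

/-- The core obstruction. -/
lemma no_complement (p₁ p₂ s t₁ t₂ t₃ : Q) (hp₁ : p₁ * p₁ = z) (hp₂ : p₂ * p₂ = z) (hs : s * s = 1)
    (h12 : Commute p₁ p₂) (h1s : Commute p₁ s) (h2s : Commute p₂ s)
    (a11 : ¬ Commute p₁ t₁) (a21 : Commute p₂ t₁) (as1 : Commute s t₁)
    (a12 : Commute p₁ t₂) (a22 : ¬ Commute p₂ t₂) (as2 : Commute s t₂)
    (a13 : Commute p₁ t₃) (a23 : Commute p₂ t₃) (as3 : ¬ Commute s t₃)
    (L : Subgroup (MulAut Q)) : ¬ (Inn Q).IsComplement' L := by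
  intro hL
  have cm := cbit_mul z hz hz2 hz1 hcomm
  have cr := cbit_rfun z hz hz2 hz1 hcomm
  have hmem : ∀ g : Q, MulAut.conj g ∈ Inn Q := fun g => ⟨g, rfl⟩
  have hp1s : (p₁ * s) * (p₁ * s) = z := by
    rw [mul_assoc, ← mul_assoc s p₁ s, ← h1s.eq, mul_assoc p₁ s s, hs, mul_one, hp₁]
  have hp2s : (p₂ * s) * (p₂ * s) = z := by
    rw [mul_assoc, ← mul_assoc s p₂ s, ← h2s.eq, mul_assoc p₂ s s, hs, mul_one, hp₂]
  obtain ⟨r1, hr1, hr1s⟩ := exists_refl z hz hz2 hz1 hcomm p₁ hp₁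
  obtain ⟨r2, hr2, hr2s⟩ := exists_refl z hz hz2 hz1 hcomm p₂ hp₂
  obtain ⟨r3, hr3, hr3s⟩ := exists_refl z hz hz2 hz1 hcomm (p₁ * s) hp1s
  obtain ⟨r4, hr4, hr4s⟩ := exists_refl z hz hz2 hz1 hcomm (p₂ * s) hp2s
  have e12 : Commute r1 r2 := refl_commute z hz hz2 hz1 hcomm _ _ h12 _ _ hr1 hr2
  have e13 : Commute r1 r3 := refl_commute z hz hz2 hz1 hcomm _ _ ((Commute.refl p₁).mul_right h1s) _ _ hr1 hr3
  have e14 : Commute r1 r4 := refl_commute z hz hz2 hz1 hcomm _ _ (h12.mul_right h1s) _ _ hr1 hr4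
  have e23 : Commute r2 r3 := refl_commute z hz hz2 hz1 hcomm _ _ (h12.symm.mul_right h2s) _ _ hr2 hr3
  have e24 : Commute r2 r4 := refl_commute z hz hz2 hz1 hcomm _ _ ((Commute.refl p₂).mul_right h2s) _ _ hr2 hr4
  have e34 : Commute r3 r4 := refl_commute z hz hz2 hz1 hcomm _ _
    ((h12.mul_right h1s).mul_left (h2s.symm.mul_right (Commute.refl s))) _ _ hr3 hr4
  set a : MulAut Q := r1 * r2 with ha
  set b : MulAut Q := r1 * r3 * r4 with hb
  have hab : a * b = b * a :=
    ((((Commute.refl r1).mul_left e12.symm).mul_right (e13.mul_left e23)).mul_right (e14.mul_left e24)).eq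
  have haa : a * a = MulAut.conj (p₁ * p₂) := by
    rw [ha, (Commute.mul_mul_mul_comm e12.symm r1 r2 : _), map_mul, hr1s, hr2s]
  have hbb : b * b = MulAut.conj (p₁ * (p₁ * s) * (p₂ * s)) := by
    rw [map_mul, map_mul, ← hr1s, ← hr3s, ← hr4s, hb]
    have e : Commute r4 (r1 * r3) := e14.symm.mul_right e34.symm
    rw [e.mul_mul_mul_comm (r1 * r3) r4, e13.symm.mul_mul_mul_comm r1 r3]
  have hbot : Inn Q ⊓ L = ⊥ := hL.disjoint.eq_bot
  have hlift : ∀ g : MulAut Q, ∃ u : Q, MulAut.conj u * g ∈ L := by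
    intro g
    obtain ⟨⟨⟨i, hi⟩, ⟨l, hl⟩⟩, hil⟩ := hL.2 g
    obtain ⟨u, rfl⟩ := hi
    refine ⟨u⁻¹, ?_⟩
    have hil' : MulAut.conj u * l = g := hil
    rw [← hil', ← mul_assoc, ← map_mul, inv_mul_cancel, map_one, one_mul]
    exact hl
  have hone : ∀ x : MulAut Q, x ∈ Inn Q → x ∈ L → x = 1 := fun x h1 h2 => by
    have : x ∈ Inn Q ⊓ L := ⟨h1, h2⟩
    rw [hbot] at this; exact this
  have hcj : ∀ (g : MulAut Q) (w : Q), g * MulAut.conj w = MulAut.conj (g w) * g := fun g w => by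
    ext x; simp [map_mul, map_inv]
  obtain ⟨u, hu⟩ := hlift a
  obtain ⟨w, hw⟩ := hlift b
  have key : ∀ (g g' : MulAut Q) (v v' : Q), MulAut.conj v * g * (MulAut.conj v' * g')
      = MulAut.conj (v * g v') * (g * g') := fun g g' v v' => by
    rw [map_mul]
    calc MulAut.conj v * g * (MulAut.conj v' * g') = MulAut.conj v * (g * MulAut.conj v') * g' := by
          simp only [mul_assoc]
      _ = _ := by rw [hcj]; simp only [mul_assoc]
  have hzero : ∀ g : Q, MulAut.conj g = 1 → ∀ t, cbit g t = 0 := fun g hg t => by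
    have h := congrArg (fun f : MulAut Q => f t) hg
    simp only [MulAut.conj_apply, MulAut.one_apply] at h
    exact cbit_zero.2 (mul_inv_eq_iff_eq_mul.1 h)
  have hA := hzero (u * a u * (p₁ * p₂)) (hone _ (hmem _) (by
    rw [map_mul, ← haa, ← key]; exact L.mul_mem hu hu))
  have hB := hzero (w * b w * (p₁ * (p₁ * s) * (p₂ * s))) (hone _ (hmem _) (by
    rw [map_mul, ← hbb, ← key]; exact L.mul_mem hw hw))
  have hC : ∀ t, cbit (u * a w) t = cbit (w * b u) t := by
    intro t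
    have h1 : MulAut.conj ((u * a w) * (w * b u)⁻¹) = 1 := hone _ (hmem _) (by
      have e1 := L.mul_mem (L.mul_mem hu hw) (L.inv_mem (L.mul_mem hw hu))
      rw [key, key, hab] at e1
      rw [map_mul, map_inv]
      simpa [mul_assoc] using e1)
    have h2 := hzero _ h1 t
    have h3 := cm ((u * a w) * (w * b u)⁻¹) (w * b u) t
    rw [inv_mul_cancel_right, h2, zero_add] at h3
    exact h3
  have fa : ∀ q, a q = rfun p₁ (rfun p₂ q) := fun q => by
    rw [ha, MulAut.mul_apply, hr1, hr2]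
  have fb : ∀ q, b q = rfun p₁ (rfun (p₁ * s) (rfun (p₂ * s) q)) := fun q => by
    rw [hb, MulAut.mul_apply, MulAut.mul_apply, hr1, hr3, hr4]
  have cmr := cbit_mul_right z hz hz2 hz1 hcomm
  have v12 := cbit_zero.2 h12
  have v21 := cbit_zero.2 h12.symm
  have v1s := cbit_zero.2 h1s
  have vs1 := cbit_zero.2 h1s.symm
  have v2s := cbit_zero.2 h2s
  have vs2 := cbit_zero.2 h2s.symm
  have b11 := cbit_one.2 a11
  have b22 := cbit_one.2 a22
  have b33 := cbit_one.2 as3
  have b21 := cbit_zero.2 a21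
  have bs1 := cbit_zero.2 as1
  have b12 := cbit_zero.2 a12
  have bs2 := cbit_zero.2 as2
  have b13 := cbit_zero.2 a13
  have b23 := cbit_zero.2 a23
  have A1 := hA t₁
  have A2 := hA t₂
  have B1 := hB t₁
  have B2 := hB t₂
  have B3 := hB t₃
  have C1 := hC t₁
  have C2 := hC t₂
  simp only [fa, fb, cm, cr, cmr, v12, v21, v1s, vs1, v2s, vs2, cbit_self, b11, b22, b33, b21, bs1,
    b12, bs2, b13, b23] at A1 A2 B1 B2 B3 C1 C2
  revert A1 A2 B1 B2 B3 C1 C2
  generalize cbit u t₁ = u1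
  generalize cbit u t₂ = u2
  generalize cbit w t₁ = w1
  generalize cbit w t₂ = w2
  generalize cbit w t₃ = w3
  generalize cbit u p₁ = up
  generalize cbit u p₂ = uq
  generalize cbit u s = us
  generalize cbit w p₁ = wp
  generalize cbit w p₂ = wq
  generalize cbit w s = ws
  clear * -
  set_option synthInstance.maxSize 4000 in
  revert u1 u2 w1 w2 w3 up uq us wp wq ws; decide +kernel

omit hz hz2 hz1 hcomm in

/-- Let Q be an extraspecial 2-group of order 2^(2n+1) with n ≥ 3 that is of plus type (it contains an elementary abelian subgroup of order 2^(n+1)). Then the group of inner automorphisms of Q has no complement in the full automorphism group of Q: the extension of the inner automorphism group (elementary abelian of order 2^(2n)) by the outer automorphism group (the orthogonal group of plus type) does not split. -/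
theorem result {Q : Type*} [Group Q] [Finite Q] (n : ℕ) (hn : 3 ≤ n) (hQ : Cfsg.IsExtraspecial 2 Q) (hcard : Nat.card Q = 2 ^ (2 * n + 1)) (hplus : ∃ E : Subgroup Q, Cfsg.IsElementaryAbelian 2 E ∧ Nat.card ↥E = 2 ^ (n + 1)) (L : Subgroup (MulAut Q)) : ¬ (Cfsg.Inn Q).IsComplement' L := by
  classical
  obtain ⟨⟨-, -, hder⟩, hZ⟩ := hQ
  obtain ⟨E, hE, hEcard⟩ := hplus
  obtain ⟨z, hz1, hzall⟩ : ∃ z : Subgroup.center Q, z ≠ 1 ∧ ∀ w : Subgroup.center Q, w = 1 ∨ w = z := by
    obtain ⟨x, hx⟩ := (Nat.card_eq_two_iff' (1 : Subgroup.center Q)).1 hZ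
    exact ⟨x, hx.1, fun w => (em (w = 1)).imp_right (hx.2 w)⟩
  have hz : ∀ q, Commute (z : Q) q := fun q => (Subgroup.mem_center_iff.1 z.2 q).symm
  have hz1' : (z : Q) ≠ 1 := fun h => hz1 (Subtype.ext h)
  have hzz : (z : Q) * (z : Q) = 1 := by
    rcases hzall (z * z) with h | h
    · exact congrArg Subtype.val h
    · exact absurd (mul_left_cancel (h.trans (mul_one z).symm)) hz1
  have hcent : ∀ q : Q, q ∈ Subgroup.center Q → q = 1 ∨ q = z := fun q hq =>
    (hzall ⟨q, hq⟩).imp (fun h => congrArg Subtype.val h) (fun h => congrArg Subtype.val h)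
  have hcomm : ∀ q t : Q, ¬ Commute q t → q * t = z * (t * q) := by
    intro q t h
    have hm : q * t * q⁻¹ * t⁻¹ ∈ Subgroup.center Q := by
      rw [← hder]; exact Subgroup.commutator_mem_commutator (Subgroup.mem_top q) (Subgroup.mem_top t)
    rcases hcent _ hm with h1 | h1
    · refine absurd ?_ h
      have := congrArg (· * t * q) h1
      show q * t = t * q
      simpa [mul_assoc] using this
    · have := congrArg (· * t * q) h1
      simpa [mul_assoc] using this
  have cm := cbit_mul (z : Q) hz hzz hz1' hcomm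
  have hsq : ∀ q : Q, q * q = 1 ∨ q * q = z := by
    intro q
    apply hcent
    rw [Subgroup.mem_center_iff]
    intro r
    refine (cbit_zero.1 ?_ : Commute (q * q) r).symm.eq
    rw [cm]; generalize cbit q r = c; revert c; decide
  have hnc : ∀ F : Subgroup Q, 2 < Nat.card F → ∃ x ∈ F, ∃ y : Q, ¬ Commute y x := by
    intro F hF
    by_contra hno
    push Not at hno
    have hle : F ≤ Subgroup.center Q := fun x hx => Subgroup.mem_center_iff.2 fun y => (hno x hx y).eq
    have := Subgroup.card_le_of_le hle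
    omega
  obtain ⟨⟨hEab⟩, hEexp⟩ := hE
  have hEc : ∀ x ∈ E, ∀ y ∈ E, Commute x y := fun x hx y hy =>
    congrArg Subtype.val (hEab.comm ⟨x, hx⟩ ⟨y, hy⟩)
  have hEsq : ∀ x ∈ E, x * x = 1 := fun x hx => by
    have := hEexp x hx; rwa [pow_two] at this
  have hhalf : ∀ (F : Subgroup Q) (p : Q),
      Nat.card F ≤ 2 * Nat.card ↥(F ⊓ Subgroup.centralizer {p}) := by
    intro F p
    let φ : F →* Multiplicative (ZMod 2) :=
      MonoidHom.mk' (fun x => Multiplicative.ofAdd (cbit (x : Q) p)) fun x y => by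
        rw [Subgroup.coe_mul, cm]; rfl
    have hk : φ.ker = (F ⊓ Subgroup.centralizer {p}).subgroupOf F := by
      ext ⟨x, hx⟩
      simp only [φ, MonoidHom.mem_ker, MonoidHom.mk'_apply, Subgroup.mem_subgroupOf, Subgroup.mem_inf,
        hx, true_and, Subgroup.mem_centralizer_singleton_iff, ofAdd_eq_one, cbit_zero]
      exact ⟨fun h => h.eq, fun h => h⟩
    have h1 := φ.ker.card_mul_index
    have h2 : φ.ker.index ≤ 2 := by
      rw [Subgroup.index_ker]
      refine (Subgroup.card_le_card_group _).trans ?_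
      simp
    rw [hk, Nat.card_congr (Subgroup.subgroupOfEquivOfLe inf_le_left).toEquiv] at h1
    rw [← h1, mul_comm]
    exact Nat.mul_le_mul_right _ (hk ▸ h2)
  have hbig : 16 ≤ Nat.card E := by
    rw [hEcard]; calc 16 = 2 ^ 4 := by norm_num
      _ ≤ 2 ^ (n + 1) := Nat.pow_le_pow_right (by norm_num) (by omega)
  obtain ⟨x₁, hx₁, y₁, hy₁⟩ := hnc E (by omega)
  obtain ⟨p₁, hp₁or, hp₁⟩ := square_fix (z : Q) hz hzz hz1' hcomm x₁ y₁ hy₁ (hEsq _ hx₁) hsq
  have c1 : cbit p₁ x₁ = 1 := by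
    rcases hp₁or with rfl | rfl
    · exact cbit_one.2 hy₁
    · rw [cm, cbit_one.2 hy₁, cbit_self, add_zero]
  have hF₁ := hhalf E p₁
  obtain ⟨x₂, hx₂, y₂, hy₂⟩ := hnc (E ⊓ Subgroup.centralizer {p₁}) (by omega)
  obtain ⟨hx₂E, hx₂C⟩ := hx₂
  have c12 : cbit p₁ x₂ = 0 :=
    cbit_zero.2 (Subgroup.mem_centralizer_singleton_iff.1 hx₂C).symm
  have cxx : ∀ a ∈ E, ∀ b ∈ E, cbit a b = 0 := fun a ha b hb => cbit_zero.2 (hEc a ha b hb)
  obtain ⟨y, hyx₂, hyx₁, hyp₁⟩ : ∃ y : Q, cbit y x₂ = 1 ∧ cbit y x₁ = 0 ∧ cbit y p₁ = 0 := by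
    let y' := if cbit y₂ x₁ = 0 then y₂ else y₂ * p₁
    have h1 : cbit y' x₂ = 1 ∧ cbit y' x₁ = 0 := by
      by_cases h : cbit y₂ x₁ = 0
      · simp [y', h, cbit_one.2 hy₂]
      · have h' : cbit y₂ x₁ = 1 := by revert h; generalize cbit y₂ x₁ = c; revert c; decide
        simp only [y', h', one_ne_zero, if_false, cm, c12, c1, cbit_one.2 hy₂]; decide
    by_cases h : cbit y' p₁ = 0
    · exact ⟨y', h1.1, h1.2, h⟩
    · have h' : cbit y' p₁ = 1 := by revert h; generalize cbit y' p₁ = c; revert c; decide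
      refine ⟨y' * x₁, ?_, ?_, ?_⟩
      · rw [cm, h1.1, cxx _ hx₁ _ hx₂E, add_zero]
      · rw [cm, h1.2, cbit_self, add_zero]
      · rw [cm, h', cbit_comm x₁, c1]; decide
  obtain ⟨p₂, hp₂or, hp₂⟩ :=
    square_fix (z : Q) hz hzz hz1' hcomm x₂ y (cbit_one.1 hyx₂) (hEsq _ hx₂E) hsq
  have c2 : cbit p₂ x₂ = 1 ∧ cbit p₂ x₁ = 0 ∧ cbit p₂ p₁ = 0 := by
    rcases hp₂or with rfl | rfl
    · exact ⟨hyx₂, hyx₁, hyp₁⟩
    · refine ⟨?_, ?_, ?_⟩
      · rw [cm, hyx₂, cbit_self, add_zero]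
      · rw [cm, hyx₁, cxx _ hx₂E _ hx₁, add_zero]
      · rw [cm, hyp₁, cbit_comm x₂, c12, add_zero]
  have hF₂ := hhalf (E ⊓ Subgroup.centralizer {p₁}) p₂
  obtain ⟨s, hs, y₃, hy₃⟩ :=
    hnc (E ⊓ Subgroup.centralizer {p₁} ⊓ Subgroup.centralizer {p₂}) (by omega)
  obtain ⟨⟨hsE, hsC₁⟩, hsC₂⟩ := hs
  have cs1 : Commute p₁ s := (Subgroup.mem_centralizer_singleton_iff.1 hsC₁).symm
  have cs2 : Commute p₂ s := (Subgroup.mem_centralizer_singleton_iff.1 hsC₂).symm
  obtain ⟨t, ht1, ht2, hts⟩ : ∃ t : Q, cbit t p₁ = 0 ∧ cbit t p₂ = 0 ∧ cbit t s = 1 := by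
    let t₀ := if cbit y₃ p₁ = 0 then y₃ else y₃ * x₁
    have h1 : cbit t₀ p₁ = 0 ∧ cbit t₀ s = 1 := by
      by_cases h : cbit y₃ p₁ = 0
      · simp [t₀, h, cbit_one.2 hy₃]
      · have h' : cbit y₃ p₁ = 1 := by revert h; generalize cbit y₃ p₁ = c; revert c; decide
        simp only [t₀, h', one_ne_zero, if_false, cm, cbit_comm x₁, c1, cbit_one.2 hy₃,
          cbit_zero.2 (hEc _ hsE _ hx₁)]
        decide
    by_cases h : cbit t₀ p₂ = 0
    · exact ⟨t₀, h1.1, h, h1.2⟩
    · have h' : cbit t₀ p₂ = 1 := by revert h; generalize cbit t₀ p₂ = c; revert c; decide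
      refine ⟨t₀ * x₂, ?_, ?_, ?_⟩
      · rw [cm, h1.1, cbit_comm x₂, c12, add_zero]
      · rw [cm, h', cbit_comm x₂, c2.1]; decide
      · rw [cm, h1.2, cxx _ hx₂E _ hsE, add_zero]
  exact no_complement (z : Q) hz hzz hz1' hcomm p₁ p₂ s x₁ x₂ t hp₁ hp₂ (hEsq _ hsE)
    (cbit_zero.1 c2.2.2).symm cs1 cs2 (cbit_one.1 c1) (cbit_zero.1 c2.2.1) (hEc _ hsE _ hx₁)
    (cbit_zero.1 c12) (cbit_one.1 c2.1) (hEc _ hsE _ hx₂E)
    (cbit_zero.1 ht1).symm (cbit_zero.1 ht2).symm (fun h => cbit_one.1 hts h.symm) L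

end Cfsg.Agent.S3085
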