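import Cfsg.Statements.S3103
import Mathlib
import Cfsg.Agent.S0256
import Cfsg.Agent.S0012
import Cfsg.Agent.Lib.PConstrained
import Cfsg.Agent.Lib.CharP
import Cfsg.Agent.Lib.Core
import Cfsg.Agent.Lib.GroupB.AutPGroup
import Cfsg.Agent.Lib.Linear.Card

set_option autoImplicit false
open Cfsg

namespace Cfsg.Agent.S3103

open CfsgLib.CharP

abbrev M4 := Matrix (Fin 4) (Fin 4) (ZMod 2)

theorem gl4_embed : ∃ f : GL (Fin 4) (ZMod 2) →* ↥(alternatingGroup (Fin 8)), Function.Injective f := by
  classical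
  obtain ⟨e⟩ := Cfsg.Agent.S0256.result (F := ZMod 2) (by simp)
  have h1 := CfsgLib.Linear.Card.card_center_SL (F := ZMod 2) (ι := Fin 4)
  rw [ZMod.card, Fintype.card_fin, Nat.gcd_one_right] at h1
  have hbot : Subgroup.center (Matrix.SpecialLinearGroup (Fin 4) (ZMod 2)) = ⊥ := Subgroup.eq_bot_of_card_eq _ h1
  have hdet : ∀ g : GL (Fin 4) (ZMod 2), (g : M4).det = 1 := by
    intro g
    have h0 : (g : M4).det ≠ 0 := (Matrix.GeneralLinearGroup.det g).ne_zero
    generalize (g : M4).det = d at h0 ⊢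
    revert h0 d
    decide
  let s : GL (Fin 4) (ZMod 2) →* Matrix.SpecialLinearGroup (Fin 4) (ZMod 2) :=
    { toFun := fun g => ⟨(g : M4), hdet g⟩, map_one' := rfl, map_mul' := fun _ _ => rfl }
  refine ⟨e.toMonoidHom.comp ((QuotientGroup.mk' _).comp s), e.injective.comp ?_⟩
  intro a b h
  have h2 : s a = s b := by
    have h3 := QuotientGroup.eq.1 h
    rw [hbot, Subgroup.mem_bot, inv_mul_eq_one] at h3
    exact h3
  exact Units.ext (congrArg Subtype.val h2)

/-- automorphisms of an elementary abelian 2-group of order at most sixteen act as matrices of degree four -/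
theorem mulAut_embed {W : Type*} [CommGroup W] [Finite W] (h2 : ∀ w : W, w ^ 2 = 1) (hc : Nat.card W ≤ 2 ^ 4) :
    ∃ f : MulAut W →* GL (Fin 4) (ZMod 2), Function.Injective f := by
  classical
  let V := Additive W
  letI : Module (ZMod 2) V := AddCommGroup.zmodModule (n := 2) fun v => h2 v
  haveI : Fintype V := Fintype.ofFinite V
  haveI : FiniteDimensional (ZMod 2) V := Module.Finite.of_finite
  have hr : Module.finrank (ZMod 2) V ≤ 4 := by
    have h := Module.card_eq_pow_finrank (K := ZMod 2) (V := V)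
    rw [ZMod.card, ← Nat.card_eq_fintype_card] at h
    have hc' : Nat.card V ≤ 2 ^ 4 := hc
    rw [h] at hc'
    exact (Nat.pow_le_pow_iff_right (by norm_num)).1 hc'
  let L : (V × (Fin (4 - Module.finrank (ZMod 2) V) → ZMod 2)) ≃ₗ[ZMod 2] (Fin 4 → ZMod 2) :=
    LinearEquiv.ofFinrankEq _ _ (by rw [Module.finrank_prod, Module.finrank_fin_fun, Module.finrank_fin_fun]; omega)
  let lm : MulAut W → V →ₗ[ZMod 2] V := fun α => (MonoidHom.toAdditive α.toMonoidHom).toZModLinearMap 2
  have lm_app : ∀ α v, lm α v = Additive.ofMul (α (Additive.toMul v)) := fun _ _ => rfl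
  let T : MulAut W → ((Fin 4 → ZMod 2) →ₗ[ZMod 2] (Fin 4 → ZMod 2)) := fun α =>
    L.toLinearMap ∘ₗ (LinearMap.prodMap (lm α) LinearMap.id) ∘ₗ L.symm.toLinearMap
  let m : MulAut W →* M4 :=
    { toFun := fun α => LinearMap.toMatrix' (T α)
      map_one' := by
        rw [← LinearMap.toMatrix'_id]
        congr 1
        refine LinearMap.ext fun x => ?_
        show L (Additive.ofMul ((1 : MulAut W) (Additive.toMul (L.symm x).1)), (L.symm x).2) = x
        exact L.apply_symm_apply x
      map_mul' := fun α β => by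
        rw [← LinearMap.toMatrix'_comp]
        congr 1
        refine LinearMap.ext fun x => ?_
        show L (lm (α * β) (L.symm x).1, (L.symm x).2) =
          L (lm α (L.symm (L (lm β (L.symm x).1, (L.symm x).2))).1, (L.symm (L (lm β (L.symm x).1, (L.symm x).2))).2)
        rw [L.symm_apply_apply]
        rfl }
  refine ⟨m.toHomUnits, fun α β h => ?_⟩
  have h1 : T α = T β := LinearMap.toMatrix'.injective (congrArg Units.val h)
  refine MulEquiv.ext fun w => ?_
  have h3 : L (lm α (L.symm (L (Additive.ofMul w, 0))).1, (L.symm (L (Additive.ofMul w, 0))).2) =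
      L (lm β (L.symm (L (Additive.ofMul w, 0))).1, (L.symm (L (Additive.ofMul w, 0))).2) :=
    DFunLike.congr_fun h1 (L (Additive.ofMul w, 0))
  rw [L.symm_apply_apply] at h3
  exact Additive.ofMul.injective (congrArg Prod.fst (L.injective h3))


/-- Let X be a finite 2-constrained group with no nontrivial normal subgroup of odd order such that O₂(X) has sectional 2-rank at most 4. Then X/O₂(X) is isomorphic to a subgroup of the alternating group of degree 8. -/
theorem result {X : Type*} [Group X] [Finite X] (hc : Cfsg.IsPConstrained 2 X) (hO : Cfsg.oddCore X = ⊥)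
    (h4 : Cfsg.SectionalPRankLE 2 4 ↥(Cfsg.pCore 2 X)) :
    ∃ f : X ⧸ Cfsg.pCore 2 X →* ↥(alternatingGroup (Fin 8)), Function.Injective f := by
  classical
  haveI : Fact (Nat.Prime 2) := ⟨Nat.prime_two⟩
  haveI hn := CfsgLib.PConstrained.pPrimeCore_normal (G := X) (p := 2)
  have hbot : Cfsg.pPrimeCore 2 X = ⊥ := hO
  have hP : CfsgLib.CharP.HasCharP 2 X :=
    CfsgLib.CharP.charP_congr ((QuotientGroup.quotientMulEquivOfEq hbot).trans QuotientGroup.quotientBot)
      (CfsgLib.PConstrained.isPConstrained_iff.1 hc)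
  let P := Cfsg.pCore 2 X
  have hPp : IsPGroup 2 P := CfsgLib.Core.isPGroup_pCore (G := X) 2
  haveI : P.Normal := by haveI := CfsgLib.Core.pCore_characteristic (G := X) 2; infer_instance
  obtain ⟨hcomm, hpow⟩ := Cfsg.Agent.S0012.result 2 hPp
  haveI : IsMulCommutative (P ⧸ frattini P) :=
    Subgroup.Normal.quotient_commutative_iff_commutator_le.mpr hcomm
  letI : CommGroup (P ⧸ frattini P) := IsMulCommutative.instCommGroup
  have hexp : ∀ w : P ⧸ frattini P, w ^ 2 = 1 := fun w => by
    obtain ⟨x, rfl⟩ := QuotientGroup.mk'_surjective (frattini P) w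
    rw [← map_pow]
    exact (QuotientGroup.eq_one_iff _).2 (hpow x)
  -- sectional rank
  have hrank : (frattini P).index ≤ 2 ^ 4 := by
    let N := (frattini P).subgroupOf (⊤ : Subgroup P)
    haveI : N.Normal := Subgroup.normal_subgroupOf
    have hidx : N.index = (frattini P).index := Subgroup.relIndex_top_right _
    have := h4 ⊤ N ⊤ (by
      refine ⟨⟨fun a b => Subtype.ext ?_⟩⟩
      show (a : _ ⧸ N) * b = (b : _ ⧸ N) * a
      obtain ⟨x, hx⟩ := QuotientGroup.mk'_surjective N (a : _ ⧸ N)
      obtain ⟨y, hy⟩ := QuotientGroup.mk'_surjective N (b : _ ⧸ N)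
      rw [← hx, ← hy]
      show ((x * y : (⊤ : Subgroup P)) : (⊤ : Subgroup P) ⧸ N) = ((y * x : (⊤ : Subgroup P)) : (⊤ : Subgroup P) ⧸ N)
      rw [QuotientGroup.eq]
      show (((x * y)⁻¹ * (y * x) : (⊤ : Subgroup P)) : P) ∈ frattini P
      have h5 := hcomm (Subgroup.commutator_mem_commutator (Subgroup.mem_top (y : P)⁻¹) (Subgroup.mem_top (x : P)⁻¹))
      simpa [commutatorElement_def, mul_assoc] using h5) (fun a _ => by
      obtain ⟨x, rfl⟩ := QuotientGroup.mk'_surjective N a
      rw [← map_pow]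
      exact (QuotientGroup.eq_one_iff _).2 (hpow x))
    rw [Subgroup.card_top, ← Subgroup.index_eq_card, hidx] at this
    exact this
  -- the action on the Frattini quotient
  let c : X →* MulAut P := MulAut.conjNormal
  have hchar : ∀ α : MulAut P, (frattini P).map α.toMonoidHom = frattini P := fun α =>
    Subgroup.characteristic_iff_map_eq.1 inferInstance α
  let bar : MulAut P →* MulAut (P ⧸ frattini P) :=
    { toFun := fun α => QuotientGroup.congr _ _ α (hchar α)
      map_one' := MulEquiv.ext fun x => by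
        induction x using QuotientGroup.induction_on with
        | H x => rfl
      map_mul' := fun α β => MulEquiv.ext fun x => by
        induction x using QuotientGroup.induction_on with
        | H x => rfl }
  let a := bar.comp c
  have hPker : P ≤ a.ker := by
    intro p hp
    refine MulEquiv.ext fun w => ?_
    induction w using QuotientGroup.induction_on with
    | H x =>
      show ((MulAut.conjNormal p x : P) : P ⧸ frattini P) = (x : P ⧸ frattini P)
      rw [show MulAut.conjNormal p x = (⟨p, hp⟩ : P) * x * (⟨p, hp⟩ : P)⁻¹ from Subtype.ext (by simp [MulAut.conjNormal_apply])]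
      rw [QuotientGroup.mk_mul, QuotientGroup.mk_mul, QuotientGroup.mk_inv, mul_inv_cancel_comm]
  -- the kernel is a two-group
  have hK : IsPGroup 2 a.ker := by
    obtain ⟨r, hr⟩ := (hPp.to_quotient (frattini P)).exists_card_eq
    rw [← Subgroup.index_eq_card] at hr
    obtain ⟨⟨b, hb⟩, -⟩ := CfsgLib.GroupB.AutPGroup.card_aut_dvd hPp hr
    let A : Subgroup (MulAut P) := bar.ker
    have hA := CfsgLib.GroupB.AutPGroup.card_dvd_of_trivial hPp hb A (fun α hα x => by
      have h1 := DFunLike.congr_fun (MonoidHom.mem_ker.1 hα) (x : P ⧸ frattini P)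
      have h2 : ((α x : P) : P ⧸ frattini P) = (x : P ⧸ frattini P) := h1
      rw [← QuotientGroup.eq_one_iff, QuotientGroup.mk_mul, QuotientGroup.mk_inv, h2, mul_inv_cancel])
    obtain ⟨j, hj⟩ := IsPGroup.iff_card.1 (hPp.to_subgroup (frattini P))
    rw [hj, ← pow_mul] at hA
    obtain ⟨i, -, hi⟩ := (Nat.dvd_prime_pow Nat.prime_two).1 hA
    have hAp : IsPGroup 2 A := IsPGroup.of_card hi
    intro g
    obtain ⟨k, hk⟩ := hAp ⟨c g, g.2⟩
    have hk' : c ((g : X) ^ 2 ^ k) = 1 := by
      rw [map_pow]; exact congrArg Subtype.val hk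
    have hin : (g : X) ^ 2 ^ k ∈ P := hP (Subgroup.mem_centralizer_iff.2 fun y hy => by
      have h1 := congrArg Subtype.val (DFunLike.congr_fun hk' (⟨y, hy⟩ : P))
      rw [MulAut.conjNormal_apply] at h1
      exact ((mul_inv_eq_iff_eq_mul).1 h1).symm)
    obtain ⟨l, hl⟩ := hPp ⟨_, hin⟩
    refine ⟨k + l, Subtype.ext ?_⟩
    have hl' : ((g : X) ^ 2 ^ k) ^ 2 ^ l = 1 := congrArg Subtype.val hl
    rw [← pow_mul, ← pow_add] at hl'
    exact hl'
  have hker : a.ker = P := le_antisymm (CfsgLib.Core.le_pCore inferInstance hK) hPker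
  obtain ⟨f₁, hf₁⟩ := mulAut_embed hexp (le_of_eq_of_le (Subgroup.index_eq_card _).symm hrank)
  obtain ⟨f₂, hf₂⟩ := gl4_embed
  refine ⟨(f₂.comp (f₁.comp (QuotientGroup.kerLift a))).comp
    (QuotientGroup.quotientMulEquivOfEq hker.symm).toMonoidHom, ?_⟩
  exact ((hf₂.comp (hf₁.comp (QuotientGroup.kerLift_injective a)))).comp (MulEquiv.injective _)

end Cfsg.Agent.S3103
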