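import Cfsg.Statements.S3116
import Mathlib

set_option autoImplicit false
set_option linter.style.haveILetI false
open Cfsg

namespace Cfsg.Agent.S3116

theorem aut_pgroup {X : Type*} [Group X] [Finite X] (r : X) (m : ℕ) (hr : orderOf r = 2 ^ m)
    (hi : (Subgroup.zpowers r).index = 2)
    (hout : ∀ g, g ∉ Subgroup.zpowers r → orderOf g ≠ orderOf r) : IsPGroup 2 (MulAut X) := by
  intro α
  refine ⟨2 * m, ?_⟩
  have hmem : ∀ a : MulAut X, a r ∈ Subgroup.zpowers r := fun a => by
    by_contra h
    exact hout _ h (MulEquiv.orderOf_eq a r)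
  obtain ⟨j, hj⟩ : ∃ j : ℕ, r ^ j = α r := mem_powers_iff_mem_zpowers.mpr (hmem α)
  have hiter : ∀ k : ℕ, (α ^ k) r = r ^ (j ^ k) := by
    intro k
    induction k with
    | zero => simp
    | succ k ih => rw [pow_succ', MulAut.mul_apply, ih, map_pow, ← hj, ← pow_mul, pow_succ']
  have hfix : (α ^ 2 ^ m) r = r := by
    rcases m with _ | m
    · have : r = 1 := orderOf_eq_one_iff.mp (by simpa using hr)
      subst this; simp
    · have hcop : j.Coprime (2 ^ (m + 1)) := by
        have h1 := MulEquiv.orderOf_eq α r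
        rw [← hj] at h1
        rw [← hr]
        have h2 : orderOf (r ^ j) = orderOf r / (orderOf r).gcd j := orderOf_pow r
        rw [h1] at h2
        have h3 := Nat.gcd_dvd_left (orderOf r) j
        obtain ⟨c, hc⟩ := h3
        have hpos : 0 < orderOf r := orderOf_pos r
        have : (orderOf r).gcd j = 1 := by
          by_contra hne
          have hg : 2 ≤ (orderOf r).gcd j := by
            have := Nat.gcd_pos_of_pos_left j hpos
            omega
          have := Nat.div_lt_self hpos hg
          omega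
        exact Nat.Coprime.symm this
      have hmod : j ^ 2 ^ (m + 1) ≡ 1 [MOD 2 ^ (m + 1)] := by
        have ht := Nat.ModEq.pow_totient hcop
        rw [Nat.totient_prime_pow_succ Nat.prime_two] at ht
        have := ht.pow 2
        rwa [one_pow, ← pow_mul, Nat.add_one_sub_one, mul_one, ← pow_succ] at this
      rw [hiter]
      conv_rhs => rw [← pow_one r]
      rw [pow_eq_pow_iff_modEq, hr]
      exact hmod
  set β := α ^ 2 ^ m with hβ
  have hC : ∀ c ∈ Subgroup.zpowers r, β c = c := by
    rintro _ ⟨k, rfl⟩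
    simp [map_zpow, hfix]
  have hout2 : ∀ x : X, x⁻¹ * β x ∈ Subgroup.zpowers r := by
    intro x
    by_cases hx : x ∈ Subgroup.zpowers r
    · rw [hC x hx]; simp
    · have hbx : β x ∉ Subgroup.zpowers r := fun h => hx (by
        have := hC _ h
        rw [β.injective this] at h
        exact h)
      rw [Subgroup.mul_mem_iff_of_index_two hi, inv_mem_iff]
      exact iff_of_false hx hbx
  have hpow : ∀ (x : X) (k : ℕ), (β ^ k) x = x * (x⁻¹ * β x) ^ k := by
    intro x k
    induction k with
    | zero => simp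
    | succ k ih =>
      rw [pow_succ', MulAut.mul_apply, ih, map_mul, hC _ (Subgroup.pow_mem _ (hout2 x) k), pow_succ',
        ← mul_assoc x, mul_inv_cancel_left]
  rw [two_mul, pow_add, pow_mul, ← hβ]
  ext x
  rw [hpow, MulAut.one_apply]
  have : (x⁻¹ * β x) ^ 2 ^ m = 1 := by
    obtain ⟨k, hk⟩ := hout2 x
    simp only at hk
    rw [← hk, ← zpow_natCast (r ^ k), zpow_comm, zpow_natCast, ← hr, pow_orderOf_eq_one, one_zpow]
  rw [this, mul_one]


/-- The automorphism group of a dihedral 2-group of order at least 8, or of a quasi-dihedral (semidihedral) 2-group of order at least 16, is a 2-group. -/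
theorem result {X : Type*} [Group X] [Finite X] (h2 : IsPGroup 2 X)
    (h : (∃ n : ℕ, 4 ≤ n ∧ Nonempty (X ≃* DihedralGroup n)) ∨ Cfsg.IsQuasiDihedral X) : IsPGroup 2 (MulAut X) := by
  haveI := Fact.mk Nat.prime_two
  obtain ⟨m0, hm0⟩ : ∃ k, Nat.card X = 2 ^ k := h2.exists_card_eq
  rcases h with ⟨n, hn, ⟨e⟩⟩ | ⟨n, hn, hcard, x, y, hx, hy, hxy⟩
  · haveI : NeZero n := ⟨by omega⟩
    have hX : Nat.card X = 2 * n := (Nat.card_congr e.toEquiv).trans DihedralGroup.nat_card
    obtain ⟨k, -, hk⟩ := (Nat.dvd_prime_pow Nat.prime_two).mp (hm0 ▸ hX ▸ dvd_mul_left n 2)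
    let r : X := e.symm (DihedralGroup.r 1)
    have hr : orderOf r = n := (MulEquiv.orderOf_eq e.symm _).trans DihedralGroup.orderOf_r_one
    refine aut_pgroup r k (hr.trans hk) ?_ ?_
    · have := (Subgroup.zpowers r).card_mul_index
      rw [Nat.card_zpowers, hr, hX, mul_comm 2 n] at this
      exact Nat.eq_of_mul_eq_mul_left (by omega) this
    · intro g hg
      rcases hgi : e g with i | i
      · exfalso
        refine hg ⟨(i.val : ℤ), ?_⟩
        simp only [r, zpow_natCast]
        rw [← map_pow, DihedralGroup.r_one_pow, ZMod.natCast_zmod_val, ← hgi, e.symm_apply_apply]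
      · rw [hr, ← MulEquiv.orderOf_eq e g, hgi, DihedralGroup.orderOf_sr]
        omega
  · have hn1 : 4 ≤ 2 ^ (n - 1) := by
      calc 4 = 2 ^ 2 := rfl
        _ ≤ _ := Nat.pow_le_pow_right (by norm_num) (by omega)
    have hn2 : 2 * 2 ^ (n - 1) = 2 ^ n := by rw [← pow_succ', Nat.sub_add_cancel (by omega : 1 ≤ n)]
    have hi : (Subgroup.zpowers x).index = 2 := by
      have := (Subgroup.zpowers x).card_mul_index
      rw [Nat.card_zpowers, hx, hcard, pow_succ] at this
      exact Nat.eq_of_mul_eq_mul_left (by positivity) this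
    refine aut_pgroup x n hx hi fun g hg => ?_
    have hyx : y ∉ Subgroup.zpowers x := by
      rintro ⟨k, hk⟩
      have hc : Commute y x := by rw [← hk]; exact Commute.zpow_self x k
      rw [hc.eq, mul_inv_cancel_right] at hxy
      conv_lhs at hxy => rw [← pow_one x]
      rw [pow_eq_pow_iff_modEq, hx] at hxy
      have := Nat.le_of_dvd (by omega) ((Nat.modEq_iff_dvd' (by omega)).mp hxy)
      omega
    obtain ⟨i, hi'⟩ : g * y⁻¹ ∈ Subgroup.zpowers x :=
      (Subgroup.mul_mem_iff_of_index_two hi).mpr (iff_of_false hg (by rwa [inv_mem_iff]))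
    simp only at hi'
    rw [eq_mul_inv_iff_mul_eq] at hi'
    subst hi'
    have hsq : (x ^ i * y) ^ 2 = x ^ (i * (2 ^ (n - 1) : ℕ)) := by
      have h1 : y * x ^ i * y⁻¹ = x ^ (((2 ^ (n - 1) - 1 : ℕ) : ℤ) * i) := by
        rw [← conj_zpow, hxy, zpow_mul, zpow_natCast]
      have hy' : y⁻¹ = y := inv_eq_of_mul_eq_one_right (by rw [← pow_two, ← hy, pow_orderOf_eq_one])
      calc (x ^ i * y) ^ 2 = x ^ i * (y * x ^ i * y⁻¹) := by rw [hy', pow_two]; group
        _ = _ := by
          rw [h1, ← zpow_add]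
          congr 1
          push_cast [Nat.cast_sub (Nat.one_le_two_pow : 1 ≤ 2 ^ (n - 1))]
          ring
    have h4 : (x ^ i * y) ^ 4 = 1 := by
      rw [show (4 : ℕ) = 2 * 2 by rfl, pow_mul, hsq, pow_two, ← zpow_add, ← mul_add,
        ← Nat.cast_add, ← two_mul, hn2, mul_comm, zpow_mul, zpow_natCast, ← hx, pow_orderOf_eq_one,
        one_zpow]
    intro hcon
    have := Nat.le_of_dvd (by norm_num) (orderOf_dvd_of_pow_eq_one h4)
    rw [hcon, hx] at this
    have : 2 ^ 3 ≤ 2 ^ n := Nat.pow_le_pow_right (by norm_num) hn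
    omega

end Cfsg.Agent.S3116
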