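import Cfsg.Statements.S3117
import Mathlib
import Cfsg.Agent.Lib.AnisotropicPencil
import Cfsg.Agent.Lib.RigidAut
import Cfsg.Agent.S0093
import Cfsg.Agent.S0012
import Cfsg.Agent.S0144

set_option autoImplicit false
open Cfsg

namespace Cfsg.Agent.S3117

open CfsgLib.AnisotropicPencil
open scoped commutatorElement

universe u

variable {X : Type u} [Group X] [Finite X]

/-- restriction of automorphisms to an invariant subgroup -/
noncomputable def restr (H : Subgroup X) (hH : ∀ (α : MulAut X), ∀ x ∈ H, α x ∈ H) : MulAut X →* MulAut H where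
  toFun α :=
    { toFun := fun x => ⟨α x, hH α x x.2⟩
      invFun := fun x => ⟨α.symm x, hH α.symm x x.2⟩
      left_inv := fun x => Subtype.ext (α.symm_apply_apply _)
      right_inv := fun x => Subtype.ext (α.apply_symm_apply _)
      map_mul' := fun x y => Subtype.ext (map_mul α (x : X) y) }
  map_one' := rfl
  map_mul' _ _ := rfl

theorem pow_of_odd_eq_one {G : Type*} [Group G] {x : G} {m : ℕ} (hm : Odd m) (h : x ^ m = 1) {k : ℕ}
    (hk : x ^ 2 ^ k = 1) : x = 1 := by
  refine orderOf_eq_one_iff.1 (Nat.eq_one_of_dvd_coprimes ?_ (orderOf_dvd_of_pow_eq_one h) (orderOf_dvd_of_pow_eq_one hk))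
  exact Nat.Coprime.pow_right k (Nat.coprime_two_right.2 hm)

theorem pow_four {G : Type*} [Group G] (z : G) : z ^ 4 = z * z * (z * z) := by
  rw [show (4 : ℕ) = 2 + 2 from rfl, pow_add, sq]

/-- the extension step from a subgroup containing its centralizer -/
theorem extend_fix (hX : IsPGroup 2 X) (H : Subgroup X) (α : MulAut X) (hodd : Odd (orderOf α))
    (hfix : ∀ c ∈ H, α c = c) {x : X} (hnorm : ∀ c ∈ H, x * c * x⁻¹ ∈ H)
    (hs : ∀ s : X, s = x⁻¹ * α x → (∀ c ∈ H, s * c = c * s) → s ∈ H) : α x = x := by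
  let s := x⁻¹ * α x
  have hsc : ∀ c ∈ H, s * c = c * s := by
    intro c hc
    have h1 : α (x * c * x⁻¹) = x * c * x⁻¹ := hfix _ (hnorm c hc)
    rw [map_mul, map_mul, map_inv, hfix c hc] at h1
    calc s * c = x⁻¹ * (α x * c * (α x)⁻¹) * α x := by simp only [s]; group
      _ = c * s := by rw [h1]; simp only [s]; group
  have hsH := hs s rfl hsc
  have hpow : ∀ m : ℕ, (α ^ m) x = x * s ^ m := by
    intro m
    induction m with
    | zero => simp
    | succ m ih =>
      rw [pow_succ', MulAut.mul_apply, ih, map_mul, map_pow, hfix s hsH]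
      rw [pow_succ', ← mul_assoc x s, show x * s = α x from mul_inv_cancel_left _ _]
  have h1 := hpow (orderOf α)
  rw [pow_orderOf_eq_one, MulAut.one_apply, left_eq_mul] at h1
  obtain ⟨k, hk⟩ := hX s
  have hs1 : s = 1 := pow_of_odd_eq_one hodd h1 hk
  exact (inv_mul_eq_one.1 hs1).symm

theorem solvable_kernel {Γ Δ : Type*} [Group Γ] [Group Δ] [Finite Γ] (f : Γ →* Δ) [Group.IsSolvable Δ]
    (hodd : ∀ g : Γ, Odd (orderOf g) → f g = 1 → g = 1) : Group.IsSolvable Γ := by
  have hK : IsPGroup 2 f.ker := by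
    intro g
    obtain ⟨a, m, hm, he⟩ := Nat.exists_eq_pow_mul_and_not_dvd (orderOf_pos g).ne' 2 (by norm_num)
    refine ⟨a, Subtype.ext ?_⟩
    show (g : Γ) ^ 2 ^ a = 1
    refine hodd _ ?_ (by rw [map_pow, MonoidHom.mem_ker.1 g.2, one_pow])
    rw [orderOf_pow, Subgroup.orderOf_coe, he, Nat.gcd_mul_right_left, Nat.mul_div_cancel_left _ (by positivity)]
    exact Nat.odd_iff.2 (Nat.two_dvd_ne_zero.1 hm)
  haveI := hK.isNilpotent
  haveI : Group.IsSolvable f.ker := inferInstance
  exact Group.isSolvable_of_ker_le_range f.ker.subtype f (by simp)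

/-- the central case -/
theorem solvable_core {P : Type*} [Group P] [Finite P] (E : Subgroup P) (hE : ∀ x, x ∈ E ↔ x * x = 1)
    (hcent : E ≤ Subgroup.center P) (hcard : Nat.card E ≤ 4) (hsq : ∀ x : P, x * x ∈ E)
    (hcomm : ∀ x y : P, ⁅x, y⁆ ∈ E) : Group.IsSolvable (MulAut P) := by
  classical
  have cm : ∀ e ∈ E, ∀ x : P, x * e = e * x := fun e he x => Subgroup.mem_center_iff.1 (hcent he) x
  haveI : E.Normal := ⟨fun e he x => by rw [cm e he x, mul_inv_cancel_right]; exact he⟩
  letI : CommGroup E := { (inferInstance : Group E) with mul_comm := fun a b => Subtype.ext (cm b b.2 a) }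
  letI : CommGroup (P ⧸ E) :=
    { (inferInstance : Group (P ⧸ E)) with
      mul_comm := fun a b => by
        induction a using QuotientGroup.induction_on with
        | H a =>
          induction b using QuotientGroup.induction_on with
          | H b =>
            rw [← QuotientGroup.mk_mul, ← QuotientGroup.mk_mul, QuotientGroup.eq]
            have h1 := hcomm b⁻¹ a⁻¹
            simpa [commutatorElement_def, mul_assoc] using h1 }
  have wd : ∀ x e : P, e ∈ E → x * e * (x * e) = x * x := by
    intro x e he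
    have h2 := (hE e).1 he
    calc x * e * (x * e) = x * (e * x) * e := by group
      _ = x * (x * e) * e := by rw [cm e he x]
      _ = x * x * (e * e) := by group
      _ = x * x := by rw [h2, mul_one]
  let q : P ⧸ E → E := Quotient.lift (fun x : P => (⟨x * x, hsq x⟩ : E)) (by
    intro x y hxy
    have he : x⁻¹ * y ∈ E := QuotientGroup.leftRel_apply.1 hxy
    refine Subtype.ext ?_
    show x * x = y * y
    conv_rhs => rw [show y = x * (x⁻¹ * y) by group]
    rw [wd x _ he])
  have hq : ∀ x : P, (q (x : P ⧸ E) : P) = x * x := fun x => rfl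
  have haq : AQ q := by
    refine ⟨fun x => ?_, fun e => Subtype.ext ((hE e).1 e.2), Subtype.ext (one_mul 1), fun x => ?_, fun x y z => ?_⟩
    · induction x using QuotientGroup.induction_on with
      | H x => rw [← QuotientGroup.mk_mul, QuotientGroup.eq_one_iff]; exact hsq x
    · induction x using QuotientGroup.induction_on with
      | H x =>
        intro h
        rw [QuotientGroup.eq_one_iff, hE]
        exact congrArg Subtype.val h
    · induction x using QuotientGroup.induction_on with
      | H x =>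
        induction y using QuotientGroup.induction_on with
        | H y =>
          induction z using QuotientGroup.induction_on with
          | H z =>
            -- the polar form is the commutator
            have hpol : ∀ a b : P, q ((a * b : P) : P ⧸ E) = q (a : P ⧸ E) * q (b : P ⧸ E) * (⟨⁅b, a⁆, hcomm b a⟩ : E) := by
              intro a b
              refine Subtype.ext ?_
              rw [Subgroup.coe_mul, Subgroup.coe_mul, hq, hq, hq]
              show a * b * (a * b) = a * a * (b * b) * ⁅b, a⁆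
              have hc : ⁅b, a⁆ ∈ E := hcomm b a
              calc a * b * (a * b) = a * (b * a * b⁻¹ * a⁻¹) * (a * b * b) := by group
                _ = ⁅b, a⁆ * (a * a * (b * b)) := by
                    rw [← commutatorElement_def, cm _ hc a]; group
                _ = _ := (cm _ hc _).symm
            have hadd : (⟨⁅z, x * y⁆, hcomm z (x * y)⟩ : E) = ⟨⁅z, x⁆, hcomm z x⟩ * ⟨⁅z, y⁆, hcomm z y⟩ := by
              refine Subtype.ext ?_
              show ⁅z, x * y⁆ = ⁅z, x⁆ * ⁅z, y⁆
              have e : ⁅z, x * y⁆ = ⁅z, x⁆ * (x * ⁅z, y⁆ * x⁻¹) := by simp [commutatorElement_def]; group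
              rw [e, cm _ (hcomm z y) x, mul_inv_cancel_right]
            have hexp : ∀ e : E, e * e = 1 := fun e => Subtype.ext ((hE e).1 e.2)
            rw [← QuotientGroup.mk_mul, ← QuotientGroup.mk_mul, ← QuotientGroup.mk_mul, ← QuotientGroup.mk_mul]
            rw [hpol (x * y) z, hpol x y, hpol x z, hpol y z, hadd]
            generalize q (x : P ⧸ E) = a
            generalize q (y : P ⧸ E) = b
            generalize q (z : P ⧸ E) = c
            generalize (⟨⁅y, x⁆, hcomm y x⟩ : E) = d
            generalize (⟨⁅z, x⁆, hcomm z x⟩ : E) = k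
            generalize (⟨⁅z, y⁆, hcomm z y⟩ : E) = l
            calc a * b * d * c * (k * l) * a * b * c = (a * a) * (b * b) * (c * c) * (d * k * l) := by ac_rfl
              _ = d * k * l * (a * a) * (b * b) * (c * c) := by ac_rfl
              _ = _ := by ac_rfl
  have hinv : ∀ (α : MulAut P), ∀ x ∈ E, α x ∈ E := fun α x hx => by
    rw [hE, ← map_mul, (hE x).1 hx, map_one]
  let r := restr E hinv
  haveI : Group.IsSolvable (MulAut E) := by
    let f : MulAut E →* Equiv.Perm {e : E // e ≠ 1} :=
      { toFun := fun α => α.toEquiv.subtypeEquiv fun e => (map_ne_one_iff α α.injective).symm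
        map_one' := rfl
        map_mul' := fun _ _ => rfl }
    have finj : Function.Injective f := fun α β h => MulEquiv.ext fun e => by
      by_cases he : e = 1
      · rw [he, map_one, map_one]
      · exact congrArg Subtype.val (DFunLike.congr_fun h ⟨e, he⟩)
    have h1 := Subgroup.card_dvd_of_injective f finj
    rw [Nat.card_perm] at h1
    have h3 : Nat.card {e : E // e ≠ 1} ≤ 3 := by
      letI := Fintype.ofFinite E
      rw [Nat.card_eq_fintype_card, Fintype.card_subtype_compl, Fintype.card_subtype_eq, ← Nat.card_eq_fintype_card]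
      omega
    have h6 : Nat.card (MulAut E) ∣ 6 := h1.trans (Nat.factorial_dvd_factorial h3)
    rcases (show Nat.card (MulAut E) = 2 ^ 0 * 3 ^ 0 ∨ Nat.card (MulAut E) = 2 ^ 1 * 3 ^ 0 ∨
        Nat.card (MulAut E) = 2 ^ 0 * 3 ^ 1 ∨ Nat.card (MulAut E) = 2 ^ 1 * 3 ^ 1 by
      have h7 : Nat.card (MulAut E) ≤ 6 := Nat.le_of_dvd (by norm_num) h6
      generalize Nat.card (MulAut E) = N at h6 h7 ⊢
      interval_cases N <;> first | omega | (exfalso; norm_num at h6)) with h | h | h | h <;>
      exact Cfsg.Agent.S0144.result 2 3 _ _ Nat.prime_two Nat.prime_three h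
  -- the kernel of the action on E
  haveI : Group.IsSolvable r.ker := by
    have hfix : ∀ (α : r.ker), ∀ e ∈ E, (α : MulAut P) e = e := fun α e he => by
      have h := DFunLike.congr_fun (MonoidHom.mem_ker.1 α.2) (⟨e, he⟩ : E)
      exact congrArg Subtype.val h
    have hmap : ∀ α : MulAut P, E.map α.toMonoidHom = E := fun α => le_antisymm
      (by rintro _ ⟨x, hx, rfl⟩; exact hinv α x hx)
      fun x hx => ⟨α⁻¹ x, hinv α⁻¹ x hx, α.apply_symm_apply x⟩
    let act : r.ker →* MulAut (P ⧸ E) :=
      { toFun := fun α => QuotientGroup.congr E E (α : MulAut P) (hmap α)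
        map_one' := MulEquiv.ext fun x => by
          induction x using QuotientGroup.induction_on with
          | H x => rfl
        map_mul' := fun α β => MulEquiv.ext fun x => by
          induction x using QuotientGroup.induction_on with
          | H x => rfl }
    have happ : ∀ (α : r.ker) (x : P), act α (x : P ⧸ E) = (((α : MulAut P) x : P) : P ⧸ E) := fun _ _ => rfl
    haveI : Group.IsSolvable act.range := by
      refine solvable haq hcard act.range.subtype Subtype.val_injective ?_
      rintro ⟨_, α, rfl⟩ x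
      induction x using QuotientGroup.induction_on with
      | H x =>
        refine Subtype.ext ?_
        show (q (act α (x : P ⧸ E)) : P) = q (x : P ⧸ E)
        rw [happ, hq, hq, ← map_mul]
        exact hfix α _ (hsq x)
    haveI : Group.IsSolvable act.ker := Group.isSolvable_of_comm fun a b => by
      have hdef : ∀ (g : act.ker) (x : P), ∃ s ∈ E, ((g : r.ker) : MulAut P) x = x * s := by
        intro g x
        have h := DFunLike.congr_fun (MonoidHom.mem_ker.1 g.2) (x : P ⧸ E)
        rw [happ, MulAut.one_apply, QuotientGroup.eq] at h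
        exact ⟨x⁻¹ * ((g : r.ker) : MulAut P) x, by simpa [mul_inv_rev] using E.inv_mem h, by group⟩
      refine Subtype.ext (Subtype.ext (MulEquiv.ext fun x => ?_))
      show ((a : r.ker) : MulAut P) (((b : r.ker) : MulAut P) x) = ((b : r.ker) : MulAut P) (((a : r.ker) : MulAut P) x)
      obtain ⟨s, hs, hsx⟩ := hdef a x
      obtain ⟨t, ht, htx⟩ := hdef b x
      rw [htx, hsx, map_mul, map_mul, hsx, htx, hfix _ t ht, hfix _ s hs, mul_assoc, mul_assoc,
        cm t ht s]
    exact Group.isSolvable_of_ker_le_range act.ker.subtype act.rangeRestrict (by simp [MonoidHom.ker_rangeRestrict])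
  exact Group.isSolvable_of_ker_le_range r.ker.subtype r (by simp)


/-- If X is a finite 2-group containing exactly three involutions, then the automorphism group of X is solvable. -/
theorem result {X : Type*} [Group X] [Finite X] (h2 : IsPGroup 2 X) (h3 : Nat.card {x : X // orderOf x = 2} = 3) : Group.IsSolvable (MulAut X) := by
  classical
  haveI : Fact (Nat.Prime 2) := ⟨Nat.prime_two⟩
  have hinv2 : ∀ x : X, orderOf x = 2 ↔ x ≠ 1 ∧ x * x = 1 := fun x => by
    refine ⟨fun h => ⟨fun e => by rw [e, orderOf_one] at h; norm_num at h, ?_⟩, fun ⟨h1, hh⟩ => orderOf_eq_prime (by rw [sq, hh]) h1⟩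
    rw [← sq, ← h, pow_orderOf_eq_one]
  letI := Fintype.ofFinite X
  let I : Finset X := Finset.univ.filter fun x => orderOf x = 2
  have hI : I.card = 3 := by
    rw [← h3, Nat.card_eq_fintype_card, Fintype.card_subtype]
  -- involutions commute
  have hcommI : ∀ x y : X, x * x = 1 → y * y = 1 → x * y = y * x := by
    intro x y hx hy
    by_contra hne
    have hx1 : x ≠ 1 := fun e => hne (by rw [e, one_mul, mul_one])
    have hy1 : y ≠ 1 := fun e => hne (by rw [e, one_mul, mul_one])
    have hxi : x⁻¹ = x := inv_eq_of_mul_eq_one_right hx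
    have hyi : y⁻¹ = y := inv_eq_of_mul_eq_one_right hy
    have m1 : ∀ a b : X, a * a = 1 → b * b = 1 → a ≠ 1 → (b * a * b) * (b * a * b) = 1 ∧ b * a * b ≠ 1 := by
      intro a b ha hb ha1
      constructor
      · calc b * a * b * (b * a * b) = b * a * (b * b) * a * b := by group
          _ = 1 := by rw [hb, mul_one, mul_assoc b a a, ha, mul_one, hb]
      · intro e
        apply ha1
        calc a = (b * b) * a * (b * b) := by rw [hb, one_mul, mul_one]
          _ = b * (b * a * b) * b := by group
          _ = 1 := by rw [e, mul_one, hb]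
    obtain ⟨p1, p2⟩ := m1 y x hy hx hy1
    obtain ⟨r1, r2⟩ := m1 x y hx hy hx1
    have d1 : x ≠ y := fun e => hne (by rw [e])
    have d2 : x * y * x ≠ y := fun e => hne (by
      calc x * y = x * y * x * x := by rw [mul_assoc (x * y), hx, mul_one]
        _ = y * x := by rw [e])
    have d3 : y * x * y ≠ x := fun e => hne (by
      calc x * y = y * x * y * y := by rw [e]
        _ = y * x := by rw [mul_assoc (y * x), hy, mul_one])
    have d4 : x * y * x ≠ x := fun e => d1 (by
      have : x * y = 1 := mul_eq_right.1 e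
      rw [← hxi]; exact inv_eq_of_mul_eq_one_right this)
    have d5 : y * x * y ≠ y := fun e => d1 (by
      have : y * x = 1 := mul_eq_right.1 e
      exact ((hyi ▸ inv_eq_of_mul_eq_one_right this) : y = x).symm)
    have d6 : x * y * x ≠ y * x * y := by
      intro e
      have h1 : (x * y) ^ 3 = 1 := by
        calc (x * y) ^ 3 = x * y * x * (y * x * y) := by rw [pow_succ, pow_two]; group
          _ = 1 := by rw [← e]; exact p1
      obtain ⟨k, hk⟩ := h2 (x * y)
      have := pow_of_odd_eq_one (by decide : Odd 3) h1 hk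
      exact d1 (by rw [← hxi]; exact inv_eq_of_mul_eq_one_right this)
    have hsub : ({x, y, x * y * x, y * x * y} : Finset X) ⊆ I := by
      intro z hz
      simp only [Finset.mem_insert, Finset.mem_singleton] at hz
      refine Finset.mem_filter.2 ⟨Finset.mem_univ _, (hinv2 z).2 ?_⟩
      rcases hz with rfl | rfl | rfl | rfl
      exacts [⟨hx1, hx⟩, ⟨hy1, hy⟩, ⟨p2, p1⟩, ⟨r2, r1⟩]
    have h4 := Finset.card_le_card hsub
    rw [hI, Finset.card_insert_of_notMem, Finset.card_insert_of_notMem, Finset.card_insert_of_notMem,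
      Finset.card_singleton] at h4
    · omega
    all_goals simp [d1, Ne.symm d2, Ne.symm d3, Ne.symm d4, Ne.symm d5, d6]
  let E0 : Subgroup X :=
    { carrier := {x | x * x = 1}
      one_mem' := one_mul 1
      mul_mem' := fun {a b} (ha : a * a = 1) (hb : b * b = 1) => by
        show a * b * (a * b) = 1
        calc a * b * (a * b) = a * (b * a) * b := by group
          _ = a * (a * b) * b := by rw [hcommI a b ha hb]
          _ = 1 := by rw [← mul_assoc, ha, one_mul, hb]
      inv_mem' := fun {a} (ha : a * a = 1) => by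
        show a⁻¹ * a⁻¹ = 1
        rw [← mul_inv_rev, ha, inv_one] }
  have hE0 : Nat.card E0 ≤ 4 := by
    have hsub : (E0 : Set X) ⊆ ((insert 1 I : Finset X) : Set X) := fun x hx => by
      rw [Finset.mem_coe, Finset.mem_insert]
      by_cases h1 : x = 1
      · exact Or.inl h1
      · exact Or.inr (Finset.mem_filter.2 ⟨Finset.mem_univ _, (hinv2 x).2 ⟨h1, hx⟩⟩)
    have := Set.ncard_le_ncard hsub (Set.toFinite _)
    rw [Set.ncard_coe_finset, ← Nat.card_coe_set_eq] at this
    exact this.trans ((Finset.card_insert_le _ _).trans (by omega))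
  obtain ⟨H, hchar, hfrat, hcomm, hcent⟩ := Cfsg.Agent.S0093.result h2
  haveI := hchar
  have hsqH : ∀ x ∈ H, ∀ y ∈ H, x * x * y = y * (x * x) := by
    intro x hx y hy
    have h1 := (Cfsg.Agent.S0012.result 2 (h2.to_subgroup H)).2 ⟨x, hx⟩
    have h4 : x * x ∈ Subgroup.centralizer (H : Set X) := hfrat ⟨_, h1, by rw [sq]; rfl⟩
    exact (Subgroup.mem_centralizer_iff.1 h4 y hy).symm
  have hcc : ∀ x ∈ H, ∀ y : X, ⁅x, y⁆ ∈ H ∧ ∀ w ∈ H, w * ⁅x, y⁆ = ⁅x, y⁆ * w := fun x hx y => by
    have h1 := hcomm (Subgroup.commutator_mem_commutator hx (Subgroup.mem_top y))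
    exact ⟨h1.1, fun w hw => Subgroup.mem_centralizer_iff.1 h1.2 w hw⟩
  let D : Set X := {x | x ∈ H ∧ x ^ 4 = 1 ∧ ∀ e ∈ H, e * e = 1 → x * e = e * x}
  have hcomm2 : ∀ x ∈ H, ∀ y ∈ H, ⁅x, y⁆ * ⁅x, y⁆ = 1 := by
    intro x hx y hy
    have e : ⁅x, y * y⁆ = ⁅x, y⁆ * (y * ⁅x, y⁆ * y⁻¹) := by simp [commutatorElement_def]; group
    rw [(hcc x hx y).2 y hy, mul_inv_cancel_right] at e
    rw [← e, commutatorElement_eq_one_iff_commute]
    exact (hsqH y hy x hx).symm
  let D0 : Subgroup X :=
    { carrier := D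
      one_mem' := ⟨H.one_mem, one_pow 4, fun e _ _ => by rw [one_mul, mul_one]⟩
      mul_mem' := fun {a b} ha hb => by
        refine ⟨H.mul_mem ha.1 hb.1, ?_, fun e he he2 => by rw [mul_assoc, hb.2.2 e he he2, ← mul_assoc, ha.2.2 e he he2, mul_assoc]⟩
        have hc := hcc b hb.1 a
        have hc2 := hcomm2 b hb.1 a ha.1
        have e1 : a * b * (a * b) = a * a * (b * b) * ⁅b, a⁆ := by
          calc a * b * (a * b) = a * (b * a * b⁻¹ * a⁻¹) * (a * b * b) := by group
            _ = ⁅b, a⁆ * (a * a * (b * b)) := by rw [← commutatorElement_def, hc.2 a ha.1]; group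
            _ = _ := (hc.2 _ (H.mul_mem (H.mul_mem ha.1 ha.1) (H.mul_mem hb.1 hb.1))).symm
        have p4 : ∀ z : X, z ^ 4 = z * z * (z * z) := pow_four
        have hab := hsqH b hb.1 (a * a) (H.mul_mem ha.1 ha.1)
        have hca := hc.2 (a * a * (b * b)) (H.mul_mem (H.mul_mem ha.1 ha.1) (H.mul_mem hb.1 hb.1))
        rw [p4, e1]
        calc a * a * (b * b) * ⁅b, a⁆ * (a * a * (b * b) * ⁅b, a⁆)
            = a * a * (b * b) * (⁅b, a⁆ * (a * a * (b * b))) * ⁅b, a⁆ := by group
          _ = a * a * (b * b) * (a * a * (b * b) * ⁅b, a⁆) * ⁅b, a⁆ := by rw [hca]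
          _ = a * a * ((b * b) * (a * a)) * (b * b) * (⁅b, a⁆ * ⁅b, a⁆) := by group
          _ = (a * a * (a * a)) * ((b * b) * (b * b)) := by rw [hab, hc2]; group
          _ = 1 := by rw [← p4, ← p4, ha.2.1, hb.2.1, one_mul]
      inv_mem' := fun {a} ha => ⟨H.inv_mem ha.1, by rw [inv_pow, ha.2.1, inv_one], fun e he he2 =>
        (Commute.inv_left (show Commute a e from ha.2.2 e he he2)).eq⟩ }
  have hD0inv : ∀ (α : MulAut X), ∀ x ∈ D0, α x ∈ D0 := by
    rintro α x ⟨h1, h4, h5⟩
    refine ⟨?_, by rw [← map_pow, h4, map_one], fun e he he2 => ?_⟩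
    · have := hchar.fixed α
      rw [SetLike.ext_iff] at this
      exact (this x).2 h1
    · have hf := hchar.fixed α⁻¹
      rw [SetLike.ext_iff] at hf
      have h6 := h5 (α⁻¹ e) ((hf e).2 he) (by rw [← map_mul, he2, map_one])
      have h7 := congrArg α h6
      rw [map_mul, map_mul, ← MulAut.mul_apply, mul_inv_cancel, MulAut.one_apply] at h7
      exact h7
  haveI : Group.IsSolvable (MulAut D0) := by
    refine solvable_core (P := D0) (E0.subgroupOf D0) (fun x => ?_) (fun x hx => ?_) ?_ (fun x => ?_) (fun x y => ?_)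
    · rw [Subgroup.mem_subgroupOf]
      exact ⟨fun h => Subtype.ext h, fun h => congrArg Subtype.val h⟩
    · rw [Subgroup.mem_center_iff]
      exact fun y => Subtype.ext (y.2.2.2 x x.2.1 hx)
    · have hinj : Function.Injective fun x : E0.subgroupOf D0 => (⟨((x : D0) : X), x.2⟩ : E0) := fun a b h =>
        Subtype.ext (Subtype.ext (congrArg (fun z : E0 => (z : X)) h))
      exact (Nat.card_le_card_of_injective _ hinj).trans hE0
    · show (x : X) * x * ((x : X) * x) = 1
      rw [← x.2.2.1, pow_four]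
    · show ⁅(x : X), (y : X)⁆ * ⁅(x : X), (y : X)⁆ = 1
      exact hcomm2 _ x.2.1 _ y.2.1
  refine solvable_kernel (restr D0 hD0inv) fun α hodd hker => ?_
  have hfix0 : ∀ c ∈ D0, α c = c := fun c hc => by
    have h := DFunLike.congr_fun hker (⟨c, hc⟩ : D0)
    exact congrArg Subtype.val h
  -- elements of exponent four in `H`
  have hfix1 : ∀ x ∈ H, x ^ 4 = 1 → α x = x := by
    intro x hx hx4
    refine extend_fix h2 D0 α hodd hfix0 (fun c hc => ?_) fun s hs hsc => ?_
    · refine ⟨H.mul_mem (H.mul_mem hx hc.1) (H.inv_mem hx), by rw [conj_pow, hc.2.1, mul_one, mul_inv_cancel], fun e he he2 => ?_⟩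
      have hN : x⁻¹ * e * x ∈ H := H.mul_mem (H.mul_mem (H.inv_mem hx) he) hx
      have h5 := hc.2.2 _ hN (by
        calc x⁻¹ * e * x * (x⁻¹ * e * x) = x⁻¹ * (e * e) * x := by group
          _ = 1 := by rw [he2]; group)
      calc x * c * x⁻¹ * e = x * (c * (x⁻¹ * e * x)) * x⁻¹ := by group
        _ = x * ((x⁻¹ * e * x) * c) * x⁻¹ := by rw [h5]
        _ = e * (x * c * x⁻¹) := by group
    · -- `α` fixes squares, so `s` has exponent dividing four
      have hx2 : x * x ∈ D0 := ⟨H.mul_mem hx hx, by
        rw [pow_four, show x * x * (x * x) = x ^ 4 from (pow_four x).symm, hx4, one_mul], fun e he _ => hsqH x hx e he⟩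
      have hxα : α x ∈ H ∧ (α x) ^ 4 = 1 := by
        refine ⟨?_, by rw [← map_pow, hx4, map_one]⟩
        have := hchar.fixed α
        rw [SetLike.ext_iff] at this
        exact (this x).2 hx
      have hsH : s ∈ H := by rw [hs]; exact H.mul_mem (H.inv_mem hx) hxα.1
      refine ⟨hsH, ?_, fun e he he2 => hsc e ⟨he, by rw [pow_four, he2, one_mul], fun e' _ he2' => hcommI e e' he2 he2'⟩⟩
      -- `s² ` is a product of commutators and squares
      have hy := hcc (α x) hxα.1 x⁻¹
      have hsq : α x * α x = x * x := by rw [← map_mul]; exact hfix0 _ hx2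
      have hc2 := hcomm2 (α x) hxα.1 x⁻¹ (H.inv_mem hx)
      have h2' : s * s = ⁅α x, x⁻¹⁆ * ⁅α x, x⁻¹⁆ * (x⁻¹ * x⁻¹ * (α x * α x)) * ⁅α x, x⁻¹⁆ := by
        rw [hc2, one_mul, hs]
        calc x⁻¹ * α x * (x⁻¹ * α x) = x⁻¹ * (α x * x⁻¹ * (α x)⁻¹ * x⁻¹⁻¹) * (x⁻¹ * α x * α x) := by group
          _ = ⁅α x, x⁻¹⁆ * x⁻¹ * (x⁻¹ * α x * α x) := by rw [← commutatorElement_def, hy.2 x⁻¹ (H.inv_mem hx)]
          _ = ⁅α x, x⁻¹⁆ * (x⁻¹ * x⁻¹ * (α x * α x)) := by group
          _ = _ := (hy.2 _ (H.mul_mem (H.mul_mem (H.inv_mem hx) (H.inv_mem hx)) (H.mul_mem hxα.1 hxα.1))).symm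
      have h22 : s * s = ⁅α x, x⁻¹⁆ := by
        rw [h2', hc2, one_mul, hsq]; group
      rw [pow_four, h22, hc2]
  have hfixH : ∀ x ∈ H, α x = x := by
    have hHinv : ∀ (β : MulAut X), ∀ x ∈ H, β x ∈ H := fun β x hx => by
      have := hchar.fixed β
      rw [SetLike.ext_iff] at this
      exact (this x).2 hx
    have hr : restr H hHinv α = 1 := CfsgLib.RigidAut.eq_one_of_fix_small (p := 2) _ rfl (h2.to_subgroup H) _
      ((Nat.coprime_two_right.2 hodd).coprime_dvd_left (orderOf_map_dvd _ α)) (fun y hy => by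
        refine Subtype.ext (hfix1 y y.2 ?_)
        rcases hy with h | ⟨-, h⟩
        · have h' : (y : X) ^ 2 = 1 := congrArg Subtype.val h
          rw [show (4 : ℕ) = 2 * 2 from rfl, pow_mul, h', one_pow]
        · exact congrArg Subtype.val h)
    intro x hx
    have h := DFunLike.congr_fun hr (⟨x, hx⟩ : H)
    exact congrArg Subtype.val h
  refine MulEquiv.ext fun x => ?_
  refine extend_fix h2 H α hodd hfixH (fun c hc => ?_) fun s hs hsc => ?_
  · exact (inferInstance : H.Normal).conj_mem c hc x
  · exact hcent (Subgroup.mem_centralizer_iff.2 fun c hc => (hsc c hc).symm)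

end Cfsg.Agent.S3117
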