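import Cfsg.Statements.S3356
import Mathlib

set_option autoImplicit false
open Cfsg

namespace Cfsg.Agent.S3356

variable {G : Type*} [Group G] [Finite G]

/-- `H ⊓ C(x)`. -/
def K (H : Subgroup G) (x : G) : Subgroup G := H ⊓ Subgroup.centralizer ({x} : Set G)

theorem mem_K {H : Subgroup G} {x h : G} : h ∈ K H x ↔ h ∈ H ∧ h * x = x * h := by
  simp [K, Subgroup.mem_centralizer_singleton_iff]

/-- If all the orbits of `L` on `S` have size `k` then `k` divides `#S`. -/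
theorem dvd_ncard (L : Subgroup G) (S : Set G) (hinv : ∀ l ∈ L, ∀ s ∈ S, l * s * l⁻¹ ∈ S) (k : ℕ)
    (hk : ∀ s ∈ S, Nat.card L = k * Nat.card (K L s)) : k ∣ S.ncard := by
  classical
  letI act : MulAction L S :=
    { smul := fun l s => ⟨(l : G) * s * (l : G)⁻¹, hinv l l.2 s s.2⟩
      one_smul := fun s => Subtype.ext (by show ((1 : L) : G) * s * ((1 : L) : G)⁻¹ = s; simp)
      mul_smul := fun l m s => Subtype.ext (by
        show ((l * m : L) : G) * s * ((l * m : L) : G)⁻¹ = (l : G) * ((m : G) * s * (m : G)⁻¹) * (l : G)⁻¹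
        rw [Subgroup.coe_mul]; group) }
  have hval : ∀ (l : L) (s : S), ((l • s : S) : G) = (l : G) * s * (l : G)⁻¹ := fun _ _ => rfl
  haveI : Finite S := Subtype.finite
  haveI : Fintype (MulAction.orbitRel.Quotient L S) := Fintype.ofFinite _
  rw [← Nat.card_coe_set_eq, Nat.card_congr (MulAction.selfEquivSigmaOrbits L S), Nat.card_sigma]
  refine Finset.dvd_sum fun ω _ => ?_
  have e : Nat.card (MulAction.stabilizer L ω.out) = Nat.card (K L (ω.out : S)) := by
    refine Nat.card_congr ⟨fun l => ⟨l.1.1, mem_K.mpr ⟨l.1.2, ?_⟩⟩, fun l => ⟨⟨l.1, (mem_K.mp l.2).1⟩, ?_⟩,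
      fun _ => rfl, fun _ => rfl⟩
    · exact mul_inv_eq_iff_eq_mul.mp (congrArg Subtype.val l.2)
    · exact Subtype.ext (mul_inv_eq_iff_eq_mul.mpr (mem_K.mp l.2).2)
  have h1 := Subgroup.index_mul_card (MulAction.stabilizer L ω.out)
  rw [MulAction.index_stabilizer, ← Nat.card_coe_set_eq, e, hk _ (ω.out : S).2] at h1
  exact (Nat.eq_of_mul_eq_mul_right Nat.card_pos h1).symm.dvd

/-- `K` is constant on a block whose size is prime to the orbit size. -/
theorem K_const (H : Subgroup G) (k : ℕ) (S : Set G) (hk : ∀ s ∈ S, Nat.card H = k * Nat.card (K H s))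
    (hstab : ∀ s ∈ S, ∀ h ∈ K H s, ∀ u ∈ S, h * u * h⁻¹ ∈ S) (hcop : S.ncard.Coprime k) :
    ∀ s ∈ S, ∀ u ∈ S, K H s = K H u := by
  classical
  let T : Subgroup G :=
    { carrier := {h | ∀ u, u ∈ S ↔ h * u * h⁻¹ ∈ S}
      one_mem' := fun u => by simp
      mul_mem' := fun {a b} ha hb u => by rw [hb u, ha (b * u * b⁻¹)]; group
      inv_mem' := fun {a} ha u => by rw [ha (a⁻¹ * u * a⁻¹⁻¹)]; group }
  set L := H ⊓ T with hL
  have hle : ∀ s ∈ S, K H s ≤ L := by
    intro s hs h hh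
    refine ⟨(mem_K.mp hh).1, fun u => ⟨hstab s hs h hh u, fun hu => ?_⟩⟩
    have := hstab s hs h⁻¹ (inv_mem hh) _ hu
    rwa [show h⁻¹ * (h * u * h⁻¹) * h⁻¹⁻¹ = u by group] at this
  have hKL : ∀ s ∈ S, K L s = K H s := fun s hs => le_antisymm
    (fun h hh => mem_K.mpr ⟨(Subgroup.mem_inf.mp (mem_K.mp hh).1).1, (mem_K.mp hh).2⟩)
    (fun h hh => mem_K.mpr ⟨hle s hs hh, (mem_K.mp hh).2⟩)
  intro s hs u hu
  obtain ⟨j, hj⟩ := Subgroup.card_dvd_of_le (hle s hs)
  have hcards : ∀ v ∈ S, Nat.card (K H v) = Nat.card (K H s) := fun v hv => by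
    have := (hk v hv).symm.trans (hk s hs)
    rcases Nat.eq_zero_or_pos k with h0 | h0
    · have := hk v hv; rw [h0, zero_mul] at this; exact absurd this Nat.card_pos.ne'
    · exact Nat.eq_of_mul_eq_mul_left h0 this
  have h1 : j ∣ S.ncard := dvd_ncard L S (fun l hl v hv => (hl.2 v).mp hv) j fun v hv => by
    rw [hKL v hv, hcards v hv, hj, mul_comm]
  have h2 : j ∣ k := by
    have h := Subgroup.card_dvd_of_le (inf_le_left : L ≤ H)
    rw [hj, hk s hs, mul_comm k] at h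
    exact Nat.dvd_of_mul_dvd_mul_left Nat.card_pos h
  have h3 : j = 1 := Nat.eq_one_of_dvd_coprimes hcop h1 h2
  rw [h3, mul_one] at hj
  have e : ∀ v ∈ S, K H v = L := fun v hv =>
    Subgroup.eq_of_le_of_card_ge (hle v hv) (by rw [hj, hcards v hv])
  rw [e s hs, e u hu]

/-- Let G be a finite 3/2-transitive permutation group: G acts faithfully and transitively on a finite set, the point stabilizers are non-trivial, and for each point a all orbits of G_a on the remaining points have the same size. Suppose G has a regular normal subgroup N and G is not a Frobenius group (some two-point stabilizer is non-trivial). Then N is an elementary abelian p-group for some prime p, and every non-trivial normal subgroup of G contains N (so N is the unique minimal normal subgroup). -/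
theorem result {G Ω : Type*} [Group G] [Finite G]
    [MulAction G Ω] [FaithfulSMul G Ω] [Finite Ω] (htrans : MulAction.IsPretransitive G Ω)
    (hne : ∀ a : Ω, MulAction.stabilizer G a ≠ ⊥)
    (hhalf : ∀ a b c : Ω, b ≠ a → c ≠ a →
      Nat.card (MulAction.orbit (MulAction.stabilizer G a) b) = Nat.card (MulAction.orbit (MulAction.stabilizer G a) c))
    (N : Subgroup G) [hN : N.Normal] (hNt : MulAction.IsPretransitive N Ω) (hNr : ∀ a : Ω, MulAction.stabilizer N a = ⊥)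
    (hnotF : ∃ a b : Ω, a ≠ b ∧ MulAction.stabilizer G a ⊓ MulAction.stabilizer G b ≠ ⊥) :
    (∃ p : ℕ, p.Prime ∧ IsMulCommutative N ∧ ∀ x ∈ N, x ^ p = 1) ∧
    (∀ M : Subgroup G, M.Normal → M ≠ ⊥ → N ≤ M) := by
  classical
  obtain ⟨a₁, b₁, hab, hab'⟩ := hnotF
  set a := a₁
  set H := MulAction.stabilizer G a with hH
  have hreg : ∀ n ∈ N, n • a = a → n = 1 := fun n hn e => by
    have : (⟨n, hn⟩ : N) ∈ MulAction.stabilizer N a := e
    rw [hNr a, Subgroup.mem_bot] at this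
    exact congrArg Subtype.val this
  have htr : ∀ b : Ω, ∃ n ∈ N, n • a = b := fun b => by
    obtain ⟨⟨n, hn⟩, e⟩ := hNt.exists_smul_eq a b
    exact ⟨n, hn, e⟩
  have hinj : ∀ x ∈ N, ∀ y ∈ N, x • a = y • a → x = y := fun x hx y hy e =>
    (inv_mul_eq_one.mp (hreg _ (mul_mem (inv_mem hy) hx) (by rw [mul_smul, e, inv_smul_smul]))).symm
  have hact : ∀ h ∈ H, ∀ x : G, h • x • a = (h * x * h⁻¹) • a := fun h hh x => by
    rw [mul_smul, mul_smul, show h⁻¹ • a = a from inv_smul_eq_iff.mpr (Eq.symm hh)]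
  have hstab : ∀ x ∈ N, ∀ h ∈ H, (h • x • a = x • a ↔ h ∈ K H x) := fun x hx h hh => by
    rw [hact h hh, mem_K]
    constructor
    · exact fun e => ⟨hh, mul_inv_eq_iff_eq_mul.mp (hinj _ (hN.conj_mem x hx h) x hx e)⟩
    · rintro ⟨-, e⟩
      rw [mul_inv_eq_iff_eq_mul.mpr e]
  have hcardK : ∀ x ∈ N, Nat.card H =
      Nat.card (MulAction.orbit H (x • a)) * Nat.card (K H x) := fun x hx => by
    rw [← Subgroup.index_mul_card (MulAction.stabilizer H (x • a)), MulAction.index_stabilizer, ← Nat.card_coe_set_eq]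
    congr 1
    exact Nat.card_congr ⟨fun l => ⟨l.1.1, (hstab x hx l.1 l.1.2).mp l.2⟩,
      fun l => ⟨⟨l.1, (mem_K.mp l.2).1⟩, (hstab x hx l.1 (mem_K.mp l.2).1).mpr l.2⟩, fun _ => rfl, fun _ => rfl⟩
  obtain ⟨x₁, hx₁, hx₁b⟩ := htr b₁
  have hx₁1 : x₁ ≠ 1 := fun e => hab (by rw [← hx₁b, e, one_smul])
  set k := Nat.card (MulAction.orbit H (x₁ • a)) with hk
  have hne' : ∀ x ∈ N, x ≠ 1 → x • a ≠ a := fun x hx h1 e => h1 (hreg x hx e)
  have hkx : ∀ x ∈ N, x ≠ 1 → Nat.card H = k * Nat.card (K H x) := fun x hx h1 => by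
    rw [hcardK x hx, hk, hhalf a (x • a) (x₁ • a) (hne' x hx h1) (hne' x₁ hx₁ hx₁1)]
  have hk0 : 0 < k := Nat.pos_of_ne_zero fun e => by
    have := hkx x₁ hx₁ hx₁1; rw [e, zero_mul] at this; exact Nat.card_pos.ne' this
  have hKcard : ∀ x ∈ N, x ≠ 1 → ∀ y ∈ N, y ≠ 1 → Nat.card (K H x) = Nat.card (K H y) := fun x hx hx1 y hy hy1 =>
    Nat.eq_of_mul_eq_mul_left hk0 ((hkx x hx hx1).symm.trans (hkx y hy hy1))
  have hKne : ∀ x ∈ N, x ≠ 1 → K H x ≠ ⊥ := fun x hx hx1 e => by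
    have h1 := hKcard x hx hx1 x₁ hx₁ hx₁1
    rw [e, Subgroup.card_bot] at h1
    apply hab'
    rw [← hx₁b, Subgroup.eq_bot_iff_forall]
    rintro h ⟨hh, hh2⟩
    exact (Subgroup.eq_bot_iff_forall _).mp (Subgroup.card_eq_one.mp h1.symm) h ((hstab x₁ hx₁ h hh).mp hh2)
  have hKeq : ∀ x ∈ N, x ≠ 1 → ∀ y ∈ N, y ≠ 1 → K H x ≤ K H y → K H x = K H y := fun x hx hx1 y hy hy1 hle =>
    Subgroup.eq_of_le_of_card_ge hle (hKcard x hx hx1 y hy hy1).ge
  have hfaith : ∀ h ∈ H, (∀ x ∈ N, h * x = x * h) → h = 1 := fun h hh hc => by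
    refine FaithfulSMul.eq_of_smul_eq_smul (α := Ω) fun b => ?_
    obtain ⟨n, hn, rfl⟩ := htr b
    rw [one_smul, (hstab n hn h hh).mpr (mem_K.mpr ⟨hh, hc n hn⟩)]
  have hdvdM : ∀ M : Subgroup G, M ≤ N → (∀ h ∈ H, ∀ m ∈ M, h * m * h⁻¹ ∈ M) → (Nat.card M).Coprime k := by
    intro M hMN hMinv
    have hd := dvd_ncard H ((M : Set G) \ {1}) (fun l hl s hs => ⟨hMinv l hl s hs.1, fun e => hs.2 (by
      rw [Set.mem_singleton_iff] at e ⊢
      have := congrArg (fun z => l⁻¹ * z * l) e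
      simpa [mul_assoc] using this)⟩) k (fun s hs => hkx s (hMN hs.1) (fun e => hs.2 e))
    rw [Set.ncard_diff_singleton_of_mem (one_mem M), ← Nat.card_coe_set_eq] at hd
    obtain ⟨c, hc⟩ := hd
    have hpos : 0 < Nat.card M := Nat.card_pos
    have hM : Nat.card M = k * c + 1 := by
      have : Nat.card (M : Set G) = Nat.card M := rfl
      omega
    rw [hM, Nat.coprime_mul_left_add_left]
    exact Nat.coprime_one_left k
  -- no proper invariant subgroups
  have hmin : ∀ M : Subgroup G, M ≤ N → (∀ h ∈ H, ∀ m ∈ M, h * m * h⁻¹ ∈ M) → M ≠ ⊥ → N ≤ M := by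
    intro M hMN hMinv hMb x hx
    by_contra hxM
    obtain ⟨m₀, hm₀, hm₀1⟩ : ∃ m ∈ M, m ≠ 1 := by
      by_contra h; push Not at h; exact hMb ((Subgroup.eq_bot_iff_forall _).mpr h)
    have key : ∀ y ∈ N, y ∉ M → ∀ m ∈ M, m ≠ 1 → K H y = K H m := by
      intro y hy hyM m hm hm1
      have hSN : ∀ s ∈ (fun m => y * m) '' (M : Set G), s ∈ N ∧ s ≠ 1 := by
        rintro _ ⟨u, hu, rfl⟩
        exact ⟨mul_mem hy (hMN hu), fun e => hyM (by rw [eq_inv_of_mul_eq_one_left e]; exact inv_mem hu)⟩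
      have h := K_const H k ((fun m => y * m) '' (M : Set G))
        (fun s hs => hkx s (hSN s hs).1 (hSN s hs).2)
        (by
          rintro _ ⟨u, hu, rfl⟩ h hh _ ⟨v, hv, rfl⟩
          obtain ⟨hhH, hhc⟩ := mem_K.mp hh
          refine ⟨u * (h * (u⁻¹ * v) * h⁻¹), mul_mem hu (hMinv h hhH _ (mul_mem (inv_mem hu) hv)), ?_⟩
          show y * (u * (h * (u⁻¹ * v) * h⁻¹)) = h * (y * v) * h⁻¹
          rw [← mul_assoc y u, show y * u * (h * (u⁻¹ * v) * h⁻¹) = y * u * h * (u⁻¹ * v) * h⁻¹ by group, ← hhc]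
          group)
        (by rw [Set.ncard_image_of_injective _ (mul_right_injective y), ← Nat.card_coe_set_eq]
            exact hdvdM M hMN hMinv)
        y ⟨1, one_mem M, mul_one y⟩ (y * m) ⟨m, hm, rfl⟩
      have hy1 : y ≠ 1 := fun e => hyM (e ▸ one_mem M)
      refine hKeq y hy hy1 m (hMN hm) hm1 fun g hg => ?_
      have hg2 := mem_K.mp (h ▸ hg)
      have hg1 := mem_K.mp hg
      refine mem_K.mpr ⟨hg1.1, ?_⟩
      have := (show Commute g y from hg1.2).inv_right.mul_right (show Commute g (y * m) from hg2.2)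
      rw [inv_mul_cancel_left] at this
      exact this.eq
    apply hKne x hx (fun e => hxM (e ▸ one_mem M))
    rw [Subgroup.eq_bot_iff_forall]
    intro g hg
    refine hfaith g (mem_K.mp hg).1 fun y hy => ?_
    by_cases hy1 : y = 1
    · simp [hy1]
    have : K H x = K H y := by
      by_cases hyM : y ∈ M
      · exact key x hx hxM y hyM hy1
      · rw [key x hx hxM m₀ hm₀ hm₀1, key y hy hyM m₀ hm₀ hm₀1]
    exact (mem_K.mp (this ▸ hg)).2
  -- `K` is constant on classes of `N`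
  have hclass : ∀ x ∈ N, x ≠ 1 → ∀ n ∈ N, K H (n * x * n⁻¹) = K H x := by
    intro x hx hx1 n hn
    have hSN : ∀ s ∈ MulAction.orbit (ConjAct N) (⟨x, hx⟩ : N), (s : G) ∈ N ∧ (s : G) ≠ 1 := by
      rintro _ ⟨c, rfl⟩
      refine ⟨SetLike.coe_mem _, fun e => hx1 ?_⟩
      have : (c • (⟨x, hx⟩ : N)) = 1 := Subtype.ext e
      rw [← smul_one c, smul_left_cancel_iff] at this
      exact congrArg Subtype.val this
    have hmem : ∀ z : G, z ∈ Subtype.val '' MulAction.orbit (ConjAct N) (⟨x, hx⟩ : N) ↔ ∃ u ∈ N, u * x * u⁻¹ = z := by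
      intro z
      constructor
      · rintro ⟨_, ⟨c, rfl⟩, rfl⟩
        exact ⟨(ConjAct.ofConjAct c : N), SetLike.coe_mem _, by simp [ConjAct.smul_def]⟩
      · rintro ⟨u, hu, rfl⟩
        exact ⟨_, ⟨ConjAct.toConjAct ⟨u, hu⟩, rfl⟩, by simp [ConjAct.smul_def]⟩
    refine K_const H k (Subtype.val '' MulAction.orbit (ConjAct N) (⟨x, hx⟩ : N))
      (fun s hs => ?_) (fun s hs g hg v hv => ?_) ?_ _ ((hmem _).mpr ⟨n, hn, rfl⟩) _
      ((hmem _).mpr ⟨1, one_mem N, by group⟩)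
    · obtain ⟨s', hs', rfl⟩ := hs
      exact hkx _ (hSN s' hs').1 (hSN s' hs').2
    · obtain ⟨u, hu, rfl⟩ := (hmem _).mp hs
      obtain ⟨w, hw, rfl⟩ := (hmem _).mp hv
      obtain ⟨hgH, hgc⟩ := mem_K.mp hg
      refine (hmem _).mpr ⟨g * (w * u⁻¹) * g⁻¹ * u, mul_mem (hN.conj_mem _ (mul_mem hw (inv_mem hu)) g) hu, ?_⟩
      have e : g⁻¹ * (u * x * u⁻¹) * g = u * x * u⁻¹ := by
        rw [mul_assoc, ← hgc, inv_mul_cancel_left]
      calc g * (w * u⁻¹) * g⁻¹ * u * x * (g * (w * u⁻¹) * g⁻¹ * u)⁻¹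
          = g * (w * u⁻¹) * (g⁻¹ * (u * x * u⁻¹) * g) * (w * u⁻¹)⁻¹ * g⁻¹ := by group
        _ = g * (w * x * w⁻¹) * g⁻¹ := by rw [e]; group
    · rw [Set.ncard_image_of_injective _ Subtype.val_injective, ← Nat.card_coe_set_eq]
      refine (hdvdM N le_rfl fun h _ m hm => hN.conj_mem m hm h).coprime_dvd_left ?_
      rw [Nat.card_coe_set_eq, ← MulAction.index_stabilizer]
      exact Subgroup.index_dvd_card _
  have hcomm' : ∀ x ∈ N, ∀ y ∈ N, x ≠ 1 → y ≠ 1 → K H x ≠ K H y → x * y = y * x := by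
    intro x hx y hy hx1 hy1 hxy
    by_contra hne2
    have hc : x * y * x⁻¹ * y⁻¹ ≠ 1 := fun e => hne2 (by
      rwa [mul_inv_eq_one, mul_inv_eq_iff_eq_mul] at e)
    have hcN : x * y * x⁻¹ * y⁻¹ ∈ N := mul_mem (mul_mem (mul_mem hx hy) (inv_mem hx)) (inv_mem hy)
    have e1 : K H x = K H (x * y * x⁻¹ * y⁻¹) := hKeq x hx hx1 _ hcN hc fun g hg => by
      refine mem_K.mpr ⟨(mem_K.mp hg).1, ?_⟩
      have h1 : Commute g x := (mem_K.mp hg).2
      have h2 : Commute g (y * x⁻¹ * y⁻¹) := by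
        have h3 : Commute g (y * x * y⁻¹) := (mem_K.mp ((hclass x hx hx1 y hy).symm ▸ hg)).2
        have := h3.inv_right
        rwa [show (y * x * y⁻¹)⁻¹ = y * x⁻¹ * y⁻¹ by group] at this
      have := (h1.mul_right h2).eq
      rwa [show x * (y * x⁻¹ * y⁻¹) = x * y * x⁻¹ * y⁻¹ by group] at this
    have e2 : K H y = K H (x * y * x⁻¹ * y⁻¹) := hKeq y hy hy1 _ hcN hc fun g hg => by
      refine mem_K.mpr ⟨(mem_K.mp hg).1, ?_⟩
      have h1 : Commute g (x * y * x⁻¹) := (mem_K.mp ((hclass y hy hy1 x hx).symm ▸ hg)).2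
      exact (h1.mul_right (show Commute g y from (mem_K.mp hg).2).inv_right).eq
    exact hxy (e1.trans e2.symm)
  have hab2 : ∀ x ∈ N, ∀ y ∈ N, x * y = y * x := by
    intro x hx y hy
    by_cases hx1 : x = 1
    · simp [hx1]
    by_cases hy1 : y = 1
    · simp [hy1]
    by_cases hxy : K H x = K H y
    · obtain ⟨z, hz, hz1, hzx⟩ : ∃ z ∈ N, z ≠ 1 ∧ K H x ≠ K H z := by
        by_contra h; push Not at h
        refine hKne x hx hx1 ((Subgroup.eq_bot_iff_forall _).mpr fun g hg => hfaith g (mem_K.mp hg).1 fun z hz => ?_)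
        by_cases hz1 : z = 1
        · simp [hz1]
        · exact (mem_K.mp (h z hz hz1 ▸ hg)).2
      have hzy1 : z * y ≠ 1 := fun e => by
        have : z = y⁻¹ := eq_inv_of_mul_eq_one_left e
        apply hzx
        rw [hxy]
        refine hKeq y hy hy1 z hz hz1 fun g hg => mem_K.mpr ⟨(mem_K.mp hg).1, ?_⟩
        rw [this]
        exact (show Commute g y from (mem_K.mp hg).2).inv_right.eq
      have hzy : K H x ≠ K H (z * y) := fun e => hzx (hKeq x hx hx1 z hz hz1 fun g hg => by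
        refine mem_K.mpr ⟨(mem_K.mp hg).1, ?_⟩
        have h1 : Commute g (z * y) := (mem_K.mp (e ▸ hg)).2
        have h2 : Commute g y := (mem_K.mp (hxy ▸ hg)).2
        have := (h1.mul_right h2.inv_right).eq
        rwa [mul_inv_cancel_right] at this)
      have h1 : Commute x z := hcomm' x hx z hz hx1 hz1 hzx
      have h2 : Commute x (z * y) := hcomm' x hx _ (mul_mem hz hy) hx1 hzy1 hzy
      have := (h1.inv_right.mul_right h2).eq
      rwa [inv_mul_cancel_left] at this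
    · exact hcomm' x hx y hy hx1 hy1 hxy
  refine ⟨?_, fun M hMn hMb => ?_⟩
  · obtain ⟨p, hp, hpd⟩ := Nat.exists_prime_and_dvd (show Nat.card N ≠ 1 from fun e =>
      hx₁1 ((Subgroup.eq_bot_iff_forall _).mp (Subgroup.card_eq_one.mp e) x₁ hx₁))
    haveI : Fact p.Prime := ⟨hp⟩
    refine ⟨p, hp, ⟨⟨fun x y => Subtype.ext (hab2 x x.2 y y.2)⟩⟩, ?_⟩
    let M : Subgroup G :=
      { carrier := {x | x ∈ N ∧ x ^ p = 1}
        one_mem' := ⟨one_mem N, one_pow p⟩
        mul_mem' := fun {u v} hu hv => ⟨mul_mem hu.1 hv.1, by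
          rw [(show Commute u v from hab2 u hu.1 v hv.1).mul_pow, hu.2, hv.2, one_mul]⟩
        inv_mem' := fun {u} hu => ⟨inv_mem hu.1, by rw [inv_pow, hu.2, inv_one]⟩ }
    obtain ⟨c, hc⟩ := exists_prime_orderOf_dvd_card' p hpd
    have hMN := hmin M (fun _ hm => hm.1) (fun h _ m hm => ⟨hN.conj_mem m hm.1 h, by
      rw [conj_pow, hm.2, mul_one, mul_inv_cancel]⟩) (fun e => by
        have hcM : (c : G) ∈ M := ⟨c.2, by rw [← SubgroupClass.coe_pow, ← hc, pow_orderOf_eq_one, OneMemClass.coe_one]⟩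
        rw [e, Subgroup.mem_bot] at hcM
        rw [show c = 1 from Subtype.ext hcM, orderOf_one] at hc
        exact hp.ne_one hc.symm)
    exact fun x hx => (hMN hx).2
  · haveI := hMn
    refine le_trans (hmin (M ⊓ N) inf_le_right (fun h _ m hm => ⟨hMn.conj_mem m hm.1 h, hN.conj_mem m hm.2 h⟩) ?_) inf_le_left
    intro hbot
    apply hMb
    rw [Subgroup.eq_bot_iff_forall]
    intro c hc
    have hcN : ∀ x ∈ N, c * x = x * c := fun x hx => by
      have : c * x * c⁻¹ * x⁻¹ ∈ M ⊓ N := ⟨by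
          rw [show c * x * c⁻¹ * x⁻¹ = c * (x * c⁻¹ * x⁻¹) by group]
          exact mul_mem hc (hMn.conj_mem _ (inv_mem (show c ∈ M from hc)) x),
        N.mul_mem (hN.conj_mem x hx c) (N.inv_mem hx)⟩
      rwa [hbot, Subgroup.mem_bot, mul_inv_eq_one, mul_inv_eq_iff_eq_mul] at this
    obtain ⟨n, hn, hna⟩ := htr (c • a)
    have hh : n⁻¹ * c ∈ H := show (n⁻¹ * c) • a = a by rw [mul_smul, ← hna, inv_smul_smul]
    have e := hfaith _ hh fun x hx =>
      ((show Commute n x from hab2 n hn x hx).inv_left.mul_left (show Commute c x from hcN x hx)).eq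
    have hcn : c ∈ N := (inv_mul_eq_one.mp e) ▸ hn
    have : c ∈ M ⊓ N := ⟨hc, hcn⟩
    rwa [hbot, Subgroup.mem_bot] at this

end Cfsg.Agent.S3356
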