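import Cfsg.Statements.S3357
import Mathlib
import Cfsg.Agent.Lib.GroupB.FrobBasic

set_option autoImplicit false
open Cfsg

namespace Cfsg.Agent.S3357


open Matrix

/-- A linear action in coordinates. -/
theorem matrix_of_action {K V H : Type*} [CommRing K] [AddCommGroup V] [Module K V] [Monoid H]
    {d : ℕ} (b : Module.Basis (Fin d) K V) (act : H →* Module.End K V) :
    ∃ (ρ : H →* Matrix (Fin d) (Fin d) K)
      (e : V ≃ₗ[K] (Fin d → K)), ∀ h x, ρ h *ᵥ e x = e (act h x) := by
  refine ⟨{ toFun := fun h => LinearMap.toMatrix'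
              (b.equivFun.toLinearMap ∘ₗ (act h) ∘ₗ b.equivFun.symm.toLinearMap)
            map_one' := ?_, map_mul' := fun g h => ?_ }, b.equivFun, fun h x => ?_⟩
  · have : b.equivFun.toLinearMap ∘ₗ (act 1) ∘ₗ b.equivFun.symm.toLinearMap = LinearMap.id :=
      LinearMap.ext fun v => by
        simp only [LinearMap.comp_apply, map_one, Module.End.one_apply, LinearEquiv.coe_coe, LinearEquiv.apply_symm_apply, LinearMap.id_apply]
    rw [this, LinearMap.toMatrix'_id]
  · rw [← LinearMap.toMatrix'_comp]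
    congr 1
    refine LinearMap.ext fun v => ?_
    simp [Module.End.mul_apply]
  · show LinearMap.toMatrix' _ *ᵥ _ = _
    rw [LinearMap.toMatrix'_mulVec]
    simp

/-- Additive actions are linear over `ZMod n`. -/
theorem exists_zmod_act {A H : Type*} [AddCommGroup A] [Monoid H] {n : ℕ} [Module (ZMod n) A] (φ : H → A →+ A)
    (hφ1 : ∀ a, φ 1 a = a) (hφm : ∀ g h a, φ (g * h) a = φ g (φ h a)) :
    ∃ act : H →* Module.End (ZMod n) A, ∀ h x, act h x = φ h x :=
  ⟨{ toFun := fun h => AddMonoidHom.toZModLinearMap n (φ h)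
     map_one' := LinearMap.ext fun x => by rw [AddMonoidHom.coe_toZModLinearMap]; exact hφ1 x
     map_mul' := fun g h => LinearMap.ext fun x => by
       rw [Module.End.mul_apply, AddMonoidHom.coe_toZModLinearMap, AddMonoidHom.coe_toZModLinearMap,
         AddMonoidHom.coe_toZModLinearMap]
       exact hφm g h x },
    fun h x => congrFun (AddMonoidHom.coe_toZModLinearMap _ _) x⟩

/-- An elementary abelian action in coordinates. -/
theorem matrix_of_elementary_add {A H : Type*} [AddCommGroup A] [Finite A] [Nontrivial A] [Monoid H] {q : ℕ} [Fact q.Prime]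
    (hA : ∀ x : A, q • x = 0) (φ : H → A →+ A)
    (hφ1 : ∀ a, φ 1 a = a) (hφm : ∀ g h a, φ (g * h) a = φ g (φ h a)) :
    ∃ (n : ℕ) (ρ : H →* Matrix (Fin n) (Fin n) (ZMod q)) (e : A ≃ (Fin n → ZMod q)),
      0 < n ∧ e 0 = 0 ∧ ∀ h x, ρ h *ᵥ e x = e (φ h x) := by
  obtain ⟨hm⟩ : Nonempty (Module (ZMod q) A) := ⟨AddCommGroup.zmodModule hA⟩
  have : Module.Finite (ZMod q) A := Module.Finite.of_finite
  obtain ⟨act, hact⟩ := exists_zmod_act (n := q) φ hφ1 hφm
  let b := Module.finBasis (ZMod q) A
  obtain ⟨ρ, e, he⟩ := matrix_of_action b act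
  exact ⟨_, ρ, e.toEquiv, Module.finrank_pos, e.map_zero, fun h x => (he h x).trans (congrArg e (hact h x))⟩

/-- An elementary abelian action in coordinates, written multiplicatively. -/
theorem matrix_of_elementary {V H : Type*} [CommGroup V] [Finite V] [Nontrivial V] [Monoid H] {q : ℕ} [Fact q.Prime]
    (hV : ∀ x : V, x ^ q = 1) (φ : H → V → V) (hφ : ∀ h a b, φ h (a * b) = φ h a * φ h b)
    (hφ1 : ∀ a, φ 1 a = a) (hφm : ∀ g h a, φ (g * h) a = φ g (φ h a)) :
    ∃ (n : ℕ) (ρ : H →* Matrix (Fin n) (Fin n) (ZMod q)) (e : V ≃ (Fin n → ZMod q)),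
      0 < n ∧ e 1 = 0 ∧ ∀ h x, ρ h *ᵥ e x = e (φ h x) := by
  obtain ⟨n, ρ, e, hn, h0, he⟩ := matrix_of_elementary_add (A := Additive V) (H := H) (q := q)
    (fun x => congrArg Additive.ofMul (hV x.toMul))
    (fun h => AddMonoidHom.mk' (fun x : Additive V => Additive.ofMul (φ h x.toMul))
      (fun a b => congrArg Additive.ofMul (hφ h a.toMul b.toMul)))
    (fun a => congrArg Additive.ofMul (hφ1 a.toMul)) (fun g h a => congrArg Additive.ofMul (hφm g h a.toMul))
  exact ⟨n, ρ, Additive.ofMul.trans e, hn, h0, fun h x => he h (Additive.ofMul x)⟩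

/-- A Frobenius complement has a fixed point free representation in prime characteristic coprime to its order. -/
theorem exists_modular {L : Type} [Group L] [Finite L] (H : Subgroup L) (hH : Cfsg.IsFrobeniusComplement H) :
    ∃ (q n : ℕ) (_ : Fact q.Prime) (ρ : H →* Matrix (Fin n) (Fin n) (ZMod q)), 0 < n ∧ q.Coprime (Nat.card H) ∧
      ∀ h : H, h ≠ 1 → ∀ v, ρ h *ᵥ v = v → v = 0 := by
  classical
  obtain ⟨N, -, hN, hc⟩ := CfsgLib.GroupB.Frobenius.exists_kernel_subgroup hH
  have := hN
  have hnil := CfsgLib.GroupB.FrobBasic.isNilpotent_kernel hH N hc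
  have hNb := CfsgLib.GroupB.FrobBasic.kernel_ne_bot hH hc
  have : Nontrivial N := (Subgroup.nontrivial_iff_ne_bot N).mpr hNb
  have hZ : Nontrivial (Subgroup.center N) := by
    rw [Subgroup.nontrivial_iff_ne_bot]
    intro h
    have key : ∀ k, Subgroup.upperCentralSeries N k = ⊥ := by
      intro k
      induction k with
      | zero => exact Subgroup.upperCentralSeries_zero N
      | succ k ih =>
        rw [← le_bot_iff, ← h]
        intro x hx
        rw [Subgroup.mem_center_iff]
        intro y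
        have := (Subgroup.mem_upperCentralSeries_succ_iff).mp hx y
        rw [ih, Subgroup.mem_bot, commutatorElement_eq_one_iff_mul_comm] at this
        exact this.symm
    obtain ⟨k, hk⟩ := hnil.nilpotent'
    rw [key k] at hk
    exact bot_ne_top hk
  obtain ⟨q, hq, hqd⟩ := Nat.exists_prime_and_dvd (Finite.one_lt_card (α := Subgroup.center N)).ne'
  have := Fact.mk hq
  obtain ⟨z, hz⟩ := exists_prime_orderOf_dvd_card' q hqd
  let V : Subgroup L :=
    { carrier := {x | x ∈ N ∧ x ^ q = 1 ∧ ∀ y ∈ N, x * y = y * x}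
      one_mem' := ⟨one_mem N, one_pow q, fun y _ => by rw [one_mul, mul_one]⟩
      mul_mem' := fun {a b} ha hb => ⟨mul_mem ha.1 hb.1,
        by rw [Commute.mul_pow (ha.2.2 b hb.1 : Commute a b), ha.2.1, hb.2.1, one_mul],
        fun y hy => (Commute.mul_left (ha.2.2 y hy : Commute a y) (hb.2.2 y hy : Commute b y)).eq⟩
      inv_mem' := fun {a} ha => ⟨inv_mem ha.1, by rw [inv_pow, ha.2.1, inv_one],
        fun y hy => (Commute.inv_left (ha.2.2 y hy : Commute a y)).eq⟩ }
  have hVn : ∀ h : H, ∀ x ∈ V, (h : L) * x * (h : L)⁻¹ ∈ V := fun h x hx => by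
    refine ⟨hN.conj_mem x hx.1 _, by rw [conj_pow, hx.2.1, mul_one, mul_inv_cancel], fun y hy => ?_⟩
    have := hx.2.2 _ (by simpa using hN.conj_mem y hy (h : L)⁻¹ : (h : L)⁻¹ * y * (h : L) ∈ N)
    calc (h : L) * x * (h : L)⁻¹ * y = (h : L) * (x * ((h : L)⁻¹ * y * h)) * (h : L)⁻¹ := by group
      _ = y * ((h : L) * x * (h : L)⁻¹) := by rw [this]; group
  let hcomm : CommGroup V := { (inferInstance : Group V) with
    mul_comm := fun a b => Subtype.ext (a.2.2.2 b b.2.1) }
  let φ : H → V → V := fun h x => ⟨(h : L) * x * (h : L)⁻¹, hVn h _ x.2⟩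
  have hzV : ((z : N) : L) ∈ V := by
    refine ⟨(z : N).2, ?_, fun y hy => ?_⟩
    · rw [← Subgroup.coe_pow, ← Subgroup.coe_pow, ← hz, pow_orderOf_eq_one]; rfl
    · exact (congrArg Subtype.val (Subgroup.mem_center_iff.mp z.2 ⟨y, hy⟩)).symm
  have : Nontrivial V := by
    refine ⟨⟨⟨_, hzV⟩, 1, fun h => hq.ne_one ?_⟩⟩
    rw [← hz, orderOf_eq_one_iff]
    exact Subtype.ext (Subtype.ext (congrArg Subtype.val h :))
  obtain ⟨n, ρ, e, hn, he1, he⟩ := matrix_of_elementary (q := q) (fun x : V => Subtype.ext x.2.2.1) φ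
    (fun h a b => Subtype.ext (show (h : L) * ((a : L) * b) * (h : L)⁻¹ =
      ((h : L) * a * (h : L)⁻¹) * ((h : L) * b * (h : L)⁻¹) by group))
    (fun a => Subtype.ext (show ((1 : H) : L) * a * ((1 : H) : L)⁻¹ = (a : L) by simp))
    (fun g h a => Subtype.ext (show ((g * h : H) : L) * a * ((g * h : H) : L)⁻¹ = (g : L) * ((h : L) * a * (h : L)⁻¹) * (g : L)⁻¹ by
      simp [mul_assoc]))
  refine ⟨q, n, ‹Fact q.Prime›, ρ, hn, ?_, ?_⟩
  · have hco : (Nat.card N).Coprime (Nat.card H) := by
      rw [← hc.symm.index_eq_card]; exact CfsgLib.GroupB.FrobBasic.coprime_of_compl hH hc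
    exact hco.coprime_dvd_left (dvd_trans hqd (Subgroup.card_subgroup_dvd_card _))
  · intro h h1 v hv
    obtain ⟨x, rfl⟩ := e.surjective v
    rw [he] at hv
    have e2 : (h : L) * x * (h : L)⁻¹ = x := congrArg Subtype.val (e.injective hv)
    have e3 : (x : L) = 1 :=
      CfsgLib.GroupB.Frobenius.eq_one_of_commute hH hc.disjoint.eq_bot h.2 (fun e => h1 (Subtype.ext e))
        x.2.1 (mul_inv_eq_iff_eq_mul.mp e2)
    rw [show x = 1 from Subtype.ext e3, he1]

/-- Lifting a coprime representation from `ZMod q` to `ZMod (q ^ (k + 1))`. -/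
theorem exists_lift {H : Type*} [Group H] [Finite H] {q n : ℕ} [Fact q.Prime] (hq : q.Coprime (Nat.card H))
    (ρ : H →* Matrix (Fin n) (Fin n) (ZMod q)) (k : ℕ) :
    ∃ τ : H →* Matrix (Fin n) (Fin n) (ZMod (q ^ (k + 1))),
      ∀ h, (τ h).map (ZMod.castHom (dvd_pow_self q k.succ_ne_zero) (ZMod q)) = ρ h := by
  classical
  set c := ZMod.castHom (dvd_pow_self q k.succ_ne_zero) (ZMod q) with hc
  have : NeZero (q ^ (k + 1)) := ⟨pow_ne_zero _ (Fact.out : q.Prime).ne_zero⟩
  let red : (Matrix (Fin n) (Fin n) (ZMod (q ^ (k + 1))))ˣ →* (Matrix (Fin n) (Fin n) (ZMod q))ˣ :=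
    Units.map c.mapMatrix.toMonoidHom
  let E : Subgroup (H × (Matrix (Fin n) (Fin n) (ZMod (q ^ (k + 1))))ˣ) :=
    MonoidHom.eqLocus (ρ.toHomUnits.comp (MonoidHom.fst _ _)) (red.comp (MonoidHom.snd _ _))
  let pr : E →* H := (MonoidHom.fst _ _).comp E.subtype
  have hdet : ∀ A : Matrix (Fin n) (Fin n) (ZMod (q ^ (k + 1))), IsUnit (A.map c).det → IsUnit A.det := by
    intro A hA
    have hmap : c A.det = (A.map c).det := c.map_det A
    rw [← hmap] at hA
    rw [← ZMod.natCast_zmod_val A.det] at hA ⊢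
    rw [map_natCast, ZMod.isUnit_iff_coprime] at hA
    rw [ZMod.isUnit_iff_coprime]
    exact hA.pow_right _
  have hpr : Function.Surjective pr := by
    intro h
    have hcs : Function.Surjective c := ZMod.ringHom_surjective c
    choose s hs using hcs
    have hA : (((ρ h).map s).map c) = ρ h := by ext i j; exact hs _
    have hu : IsUnit ((ρ h).map s) := (Matrix.isUnit_iff_isUnit_det _).mpr (hdet _ (by
      rw [hA]; exact (Matrix.isUnit_iff_isUnit_det _).mp ((ρ.toHomUnits h).isUnit)))
    exact ⟨⟨(h, hu.unit), Units.ext hA.symm⟩, rfl⟩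
  have hker : ∃ e : ℕ, Nat.card pr.ker = q ^ e := by
    have hmem : ∀ D : Matrix (Fin n) (Fin n) (ZMod (q ^ (k + 1))), D.map c = 0 → IsUnit (1 + D) := by
      intro D hD
      refine (Matrix.isUnit_iff_isUnit_det _).mpr (hdet _ ?_)
      rw [Matrix.map_add _ (map_add c), hD, add_zero, Matrix.map_one _ (map_zero c) (map_one c), Matrix.det_one]
      exact isUnit_one
    let K0 := (c.mapMatrix (m := Fin n)).toAddMonoidHom.ker
    let f : K0 → pr.ker := fun D =>
      ⟨⟨(1, (hmem D.1 D.2).unit), by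
        refine Units.ext ?_
        show ρ 1 = ((1 : Matrix (Fin n) (Fin n) (ZMod (q ^ (k + 1)))) + D.1).map c
        rw [Matrix.map_add _ (map_add c), show D.1.map c = 0 from D.2, add_zero, map_one,
          Matrix.map_one _ (map_zero c) (map_one c)]⟩, rfl⟩
    have hf : Function.Bijective f := by
      constructor
      · intro D D' h
        have := congrArg (fun x : pr.ker => (((x : E) : H × (Matrix (Fin n) (Fin n) (ZMod (q ^ (k + 1))))ˣ).2 : Matrix (Fin n) (Fin n) (ZMod (q ^ (k + 1))))) h
        exact Subtype.ext (add_left_cancel (a := (1 : Matrix (Fin n) (Fin n) (ZMod (q ^ (k + 1))))) this)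
      · rintro ⟨⟨⟨h, u⟩, he⟩, h1⟩
        obtain rfl : h = 1 := h1
        have hu : (u : Matrix (Fin n) (Fin n) (ZMod (q ^ (k + 1)))).map c = 1 := by
          have := congrArg Units.val he
          exact this.symm.trans (map_one ρ)
        refine ⟨⟨(u : Matrix (Fin n) (Fin n) (ZMod (q ^ (k + 1)))) - 1, ?_⟩, ?_⟩
        · show ((u : Matrix (Fin n) (Fin n) (ZMod (q ^ (k + 1)))) - 1).map c = 0
          rw [Matrix.map_sub _ (map_sub c), hu, Matrix.map_one _ (map_zero c) (map_one c), sub_self]
        · refine Subtype.ext (Subtype.ext (Prod.ext rfl (Units.ext ?_)))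
          exact add_sub_cancel _ _
    rw [← Nat.card_congr (Equiv.ofBijective f hf)]
    have hd : Nat.card K0 ∣ q ^ ((k + 1) * (n * n)) := by
      have hm := K0.card_addSubgroup_dvd_card
      have e : Nat.card (Matrix (Fin n) (Fin n) (ZMod (q ^ (k + 1)))) = q ^ ((k + 1) * (n * n)) := by
        simp only [Matrix, Nat.card_pi, Nat.card_zmod, Finset.prod_const, Finset.card_univ, Fintype.card_fin]
        rw [← pow_mul, ← pow_mul]
      rwa [e] at hm
    obtain ⟨e, -, he⟩ := (Nat.dvd_prime_pow Fact.out).mp hd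
    exact ⟨e, he⟩
  have hidx : pr.ker.index = Nat.card H := by
    rw [Subgroup.index_ker, MonoidHom.range_eq_top.mpr hpr, Subgroup.card_top]
  obtain ⟨e, he⟩ := hker
  obtain ⟨C, hC⟩ := Subgroup.exists_right_complement'_of_coprime (N := pr.ker) (by rw [he, hidx]; exact hq.pow_left e)
  have hbij : Function.Bijective (pr.comp C.subtype) := by
    refine ⟨(injective_iff_map_eq_one _).mpr fun x hx => ?_, fun h => ?_⟩
    · exact Subtype.ext (Subgroup.mem_bot.mp (hC.disjoint.eq_bot ▸ Subgroup.mem_inf.mpr ⟨hx, x.2⟩))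
    · obtain ⟨x, hx⟩ := hpr h
      obtain ⟨⟨a, b⟩, hab, -⟩ := Function.Bijective.existsUnique hC x
      refine ⟨b, ?_⟩
      show pr b = h
      rw [← hx, ← show (a : E) * b = x from hab, map_mul, show pr a = 1 from a.2, one_mul]
  let σ := (MulEquiv.ofBijective (pr.comp C.subtype) hbij).symm
  refine ⟨(Units.coeHom _).comp (((MonoidHom.snd _ _).comp E.subtype).comp (C.subtype.comp σ.toMonoidHom)), fun h => ?_⟩
  have h1 : pr (C.subtype (σ h)) = h := (MulEquiv.ofBijective (pr.comp C.subtype) hbij).apply_symm_apply h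
  have h2 := congrArg Units.val (C.subtype (σ h)).2
  exact h2.symm.trans (congrArg ρ h1)

/-- A rational functional killing all translated prime order cycle sums. -/
theorem exists_functional {H : Type*} [Group H] [Finite H] {q n : ℕ} [Fact q.Prime] (hn : 0 < n)
    (hq : q.Coprime (Nat.card H)) (ρ : H →* Matrix (Fin n) (Fin n) (ZMod q))
    (hfpf : ∀ h : H, h ≠ 1 → ∀ v, ρ h *ᵥ v = v → v = 0) :
    ∃ μ : H → ℚ, μ 1 ≠ 0 ∧ ∀ a x b : H, (orderOf x).Prime → ∑ j ∈ Finset.range (orderOf x), μ (a * x ^ j * b) = 0 := by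
  classical
  have := Fintype.ofFinite H
  let S : (H × {x : H // (orderOf x).Prime} × H) → (H → ℤ) := fun t y =>
    ∑ j ∈ Finset.range (orderOf t.2.1.1), if t.1 * t.2.1.1 ^ j * t.2.2 = y then 1 else 0
  let S' : (H × {x : H // (orderOf x).Prime} × H) → (H → ℚ) := fun t y => (S t y : ℚ)
  by_cases hmem : (Pi.single 1 1 : H → ℚ) ∈ Submodule.span ℚ (Set.range S')
  · exfalso
    obtain ⟨c, hc⟩ := Submodule.mem_span_range_iff_exists_fun ℚ |>.mp hmem
    obtain ⟨⟨b, hb⟩, hbi⟩ := IsLocalization.exist_integer_multiples_of_finite (nonZeroDivisors ℤ) c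
    choose z hz using hbi
    have hb0 : b ≠ 0 := nonZeroDivisors.ne_zero hb
    have hint : ∀ y : H, ∑ t, z t * S t y = b * (if (1 : H) = y then 1 else 0) := by
      intro y
      have h := congrFun hc y
      simp only [Finset.sum_apply, Pi.smul_apply, smul_eq_mul, Pi.single_apply] at h
      apply Int.cast_injective (α := ℚ)
      push_cast
      have hzt : ∀ t, (z t : ℚ) = (b : ℚ) * c t := fun t => by
        have := hz t
        simpa [zsmul_eq_mul] using this
      simp only [hzt, mul_assoc]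
      rw [← Finset.mul_sum]
      congr 1
      refine h.trans ?_
      simp [eq_comm]
    have hdiv : ∀ k : ℕ, ((q ^ (k + 1) : ℕ) : ℤ) ∣ b := by
      intro k
      obtain ⟨τ, hτ⟩ := exists_lift hq ρ k
      have hσ : ∀ x : H, (orderOf x).Prime → ∑ j ∈ Finset.range (orderOf x), τ (x ^ j) = 0 := by
        intro x hx
        have hu : IsUnit (τ x - 1) := by
          rw [Matrix.isUnit_iff_isUnit_det]
          have hne : (ρ x - 1).det ≠ 0 := by
            intro h0
            obtain ⟨v, hv, hv0⟩ := Matrix.exists_mulVec_eq_zero_iff.mpr h0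
            rw [Matrix.sub_mulVec, Matrix.one_mulVec, sub_eq_zero] at hv0
            exact hv (hfpf x (fun e => hx.ne_one (by rw [e, orderOf_one])) v hv0)
          set c := ZMod.castHom (dvd_pow_self q k.succ_ne_zero) (ZMod q) with hc'
          have hmap : c (τ x - 1).det = (ρ x - 1).det := by
            rw [c.map_det]
            congr 1
            show (τ x - 1).map c = _
            rw [Matrix.map_sub _ (map_sub c), hτ, Matrix.map_one _ (map_zero c) (map_one c)]
          have : NeZero (q ^ (k + 1)) := ⟨pow_ne_zero _ (Fact.out : q.Prime).ne_zero⟩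
          rw [← ZMod.natCast_zmod_val (τ x - 1).det] at hmap ⊢
          rw [ZMod.isUnit_iff_coprime]
          refine Nat.Coprime.pow_right _ ((Nat.coprime_comm.mp ((Fact.out : q.Prime).coprime_iff_not_dvd.mpr ?_)))
          intro hdvd
          rw [map_natCast, (ZMod.natCast_eq_zero_iff _ q).mpr hdvd] at hmap
          exact hne hmap.symm
        have h0 := mul_geom_sum (τ x) (orderOf x)
        rw [← map_pow, pow_orderOf_eq_one, map_one, sub_self] at h0
        simp only [map_pow]
        exact hu.mul_right_eq_zero.mp h0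
      have hsum : ∑ y : H, (∑ t, z t * S t y) • τ y = 0 := by
        simp only [Finset.sum_smul, mul_smul]
        rw [Finset.sum_comm]
        refine Finset.sum_eq_zero fun t _ => ?_
        rw [← Finset.smul_sum]
        simp only [S, Finset.sum_smul, ite_smul, one_smul, zero_smul]
        rw [Finset.sum_comm]
        simp only [Finset.sum_ite_eq, Finset.mem_univ, if_true, map_mul]
        rw [← Finset.sum_mul, ← Finset.mul_sum, hσ _ t.2.1.2, mul_zero, zero_mul, smul_zero]
      simp only [hint, mul_ite, mul_one, mul_zero, ite_smul, zero_smul, Finset.sum_ite_eq, Finset.mem_univ,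
        if_true, map_one] at hsum
      have h00 := congrFun (congrFun hsum ⟨0, hn⟩) ⟨0, hn⟩
      simp [Matrix.smul_apply] at h00
      exact (ZMod.intCast_zmod_eq_zero_iff_dvd b (q ^ (k + 1))).mp h00
    have hbig := hdiv b.natAbs
    have h1 := Int.natAbs_dvd_natAbs.mpr hbig
    rw [Int.natAbs_natCast] at h1
    have h2 := Nat.le_of_dvd (Int.natAbs_pos.mpr hb0) h1
    have h3 := Nat.lt_pow_self (Fact.out : q.Prime).one_lt (n := b.natAbs + 1)
    omega
  · obtain ⟨f, hf, hfS⟩ := Submodule.exists_dual_map_eq_bot_of_notMem hmem inferInstance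
    refine ⟨fun g => f (Pi.single g 1), hf, fun a x b hx => ?_⟩
    have h0 : f (S' (a, ⟨x, hx⟩, b)) = 0 := by
      have : f (S' (a, ⟨x, hx⟩, b)) ∈ (Submodule.span ℚ (Set.range S')).map f :=
        Submodule.mem_map_of_mem (Submodule.subset_span ⟨_, rfl⟩)
      rwa [hfS, Submodule.mem_bot] at this
    rw [← h0, ← map_sum]
    congr 1
    funext y
    simp only [S', S, Finset.sum_apply, Int.cast_sum, Pi.single_apply]
    refine Finset.sum_congr rfl fun j _ => ?_
    by_cases h : a * x ^ j * b = y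
    · rw [if_pos h, if_pos h.symm, Int.cast_one]
    · rw [if_neg h, if_neg (Ne.symm h), Int.cast_zero]


/-- Let G be a finite group that occurs as a Frobenius complement. Then G has a faithful irreducible representation over an algebraic closure of the rationals in which no non-identity element of G has 1 as an eigenvalue: there are n ≥ 1 and an injective homomorphism ρ from G to GL(n) over that field, with no invariant subspace other than 0 and the whole space, such that for g ≠ 1 the only vector fixed by ρ(g) is 0. -/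
theorem result {G : Type*} [Group G] [Finite G]
    (hFC : ∃ (L : Type) (_ : Group L) (_ : Finite L) (H : Subgroup L), Cfsg.IsFrobeniusComplement H ∧ Nonempty (G ≃* H)) :
    ∃ (n : ℕ) (ρ : G →* GL (Fin n) (AlgebraicClosure ℚ)), 0 < n ∧ Function.Injective ρ ∧
      (∀ W : Submodule (AlgebraicClosure ℚ) (Fin n → AlgebraicClosure ℚ),
        (∀ g : G, ∀ w ∈ W, ((ρ g : GL (Fin n) (AlgebraicClosure ℚ)) : Matrix (Fin n) (Fin n) (AlgebraicClosure ℚ)).mulVec w ∈ W) → W = ⊥ ∨ W = ⊤) ∧
      ∀ g : G, g ≠ 1 → ∀ v : Fin n → AlgebraicClosure ℚ,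
        ((ρ g : GL (Fin n) (AlgebraicClosure ℚ)) : Matrix (Fin n) (Fin n) (AlgebraicClosure ℚ)).mulVec v = v → v = 0 := by
  classical
  obtain ⟨L, hL, hLf, H, hH, ⟨e⟩⟩ := hFC
  obtain ⟨q, n₀, hqf, ρ₀, hn₀, hq, hfpf⟩ := exists_modular H hH
  obtain ⟨μ, hμ1, hμ⟩ := exists_functional hn₀ (H := G) (by rwa [Nat.card_congr e.toEquiv]) (ρ₀.comp e.toMonoidHom)
    fun g hg v hv => hfpf (e g) (fun h => hg (e.injective (h.trans (map_one e).symm))) v hv
  have := Fintype.ofFinite G
  let K := AlgebraicClosure ℚ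
  let U : Submodule K (G → K) :=
    { carrier := {f | ∀ a x b : G, (orderOf x).Prime → ∑ j ∈ Finset.range (orderOf x), f (a * x ^ j * b) = 0}
      zero_mem' := fun a x b _ => Finset.sum_const_zero
      add_mem' := fun {f g} hf hg a x b hx => by
        show ∑ j ∈ Finset.range (orderOf x), (f _ + g _) = 0
        rw [Finset.sum_add_distrib, hf a x b hx, hg a x b hx, add_zero]
      smul_mem' := fun r f hf a x b hx => by
        show ∑ j ∈ Finset.range (orderOf x), r • f _ = 0
        rw [← Finset.smul_sum, hf a x b hx, smul_zero] }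
  let R : G →* Module.End K (G → K) :=
    { toFun := fun g => LinearMap.funLeft K K (fun y => y * g)
      map_one' := LinearMap.ext fun f => funext fun y => by simp [LinearMap.funLeft_apply]
      map_mul' := fun g h => LinearMap.ext fun f => funext fun y => by simp [LinearMap.funLeft_apply, mul_assoc] }
  have hR : ∀ g : G, ∀ f : G → K, ∀ y, R g f y = f (y * g) := fun g f y => rfl
  have hU : ∀ g : G, ∀ f ∈ U, R g f ∈ U := by
    intro g f hf a x b hx
    simp only [hR, mul_assoc _ b g]
    exact hf a x (b * g) hx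
  have hUne : (fun g => (algebraMap ℚ K (μ g))) ∈ U := fun a x b hx => by
    rw [← map_sum, hμ a x b hx, map_zero]
  let P : Set ℕ := {d | ∃ W : Submodule K (G → K), W ≤ U ∧ W ≠ ⊥ ∧ (∀ g, ∀ f ∈ W, R g f ∈ W) ∧ Module.finrank K W = d}
  have hP : P.Nonempty := ⟨_, U, le_rfl, fun h => hμ1 ((map_eq_zero (algebraMap ℚ K)).mp
    (congrFun ((Submodule.mem_bot K).mp (show _ ∈ (⊥ : Submodule K (G → K)) from h ▸ hUne)) 1)), hU, rfl⟩
  obtain ⟨W, hWU, hW0, hWR, hWd⟩ := Nat.sInf_mem hP
  let RW : G →* Module.End K W :=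
    { toFun := fun g => (R g).restrict (hWR g)
      map_one' := LinearMap.ext fun f => Subtype.ext (by rw [LinearMap.restrict_apply]; simp)
      map_mul' := fun g h => LinearMap.ext fun f => Subtype.ext (by simp [LinearMap.restrict_apply]) }
  obtain ⟨ψ, ew, hψ⟩ := matrix_of_action (Module.finBasis K W) RW
  have hfix : ∀ g : G, g ≠ 1 → ∀ v, ψ g *ᵥ v = v → v = 0 := by
    intro g hg v hv
    obtain ⟨f, rfl⟩ := ew.surjective v
    rw [hψ] at hv
    have hf : RW g f = f := ew.injective hv
    have hfy : ∀ y, (f : G → K) (y * g) = (f : G → K) y := fun y => congrFun (congrArg Subtype.val hf) y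
    obtain ⟨p, hp, hpd⟩ := Nat.exists_prime_and_dvd (fun h => hg (orderOf_eq_one_iff.mp h))
    set x := g ^ (orderOf g / p) with hx
    have hxp : orderOf x = p := by
      rw [hx, orderOf_pow_orderOf_div (orderOf_pos g).ne' hpd]
    have hpow : ∀ (i : ℕ) y, (f : G → K) (y * g ^ i) = (f : G → K) y := by
      intro i
      induction i with
      | zero => intro y; rw [pow_zero, mul_one]
      | succ i ih => intro y; rw [pow_succ, ← mul_assoc, hfy, ih]
    rw [LinearEquiv.map_eq_zero_iff]
    refine Subtype.ext (funext fun y => ?_)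
    have h := hWU f.2 y x 1 (hxp ▸ hp)
    simp only [mul_one, hx, ← pow_mul, hpow, Finset.sum_const, Finset.card_range, nsmul_eq_mul] at h
    rcases mul_eq_zero.mp h with h | h
    · exfalso
      rw [Nat.cast_eq_zero] at h
      exact hp.ne_zero (by rw [← hxp]; exact h)
    · exact h
  have hpos : 0 < Module.finrank K W := Module.finrank_pos_iff.mpr (Submodule.nontrivial_iff_ne_bot.mpr hW0)
  refine ⟨Module.finrank K W, ψ.toHomUnits, hpos, ?_, ?_, fun g hg v hv => hfix g hg v hv⟩
  · refine (injective_iff_map_eq_one _).mpr fun g hg => by_contra fun h => ?_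
    have hv := hfix g h (fun _ => 1) (by
      rw [show ψ g = 1 from congrArg Units.val hg, Matrix.one_mulVec])
    exact one_ne_zero (congrFun hv ⟨0, hpos⟩)
  · intro X hX
    by_cases hX0 : X = ⊥
    · exact Or.inl hX0
    right
    let emb : (Fin (Module.finrank K W) → K) →ₗ[K] (G → K) := W.subtype.comp ew.symm.toLinearMap
    have hemb : Function.Injective emb := Subtype.val_injective.comp ew.symm.injective
    let Y := X.map emb
    have hYP : Module.finrank K Y ∈ P := by
      refine ⟨Y, ?_, fun h => hX0 ?_, ?_, rfl⟩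
      · rintro _ ⟨v, -, rfl⟩; exact hWU (ew.symm v).2
      · rw [← Submodule.comap_map_eq_of_injective hemb X, show X.map emb = ⊥ from h, Submodule.comap_bot,
          LinearMap.ker_eq_bot.mpr hemb]
      · rintro g _ ⟨v, hv, rfl⟩
        refine ⟨ψ g *ᵥ v, hX g v hv, ?_⟩
        show ((ew.symm (ψ g *ᵥ v) : W) : G → K) = R g _
        obtain ⟨f, rfl⟩ := ew.surjective v
        rw [hψ, LinearEquiv.symm_apply_apply]
        show (RW g f : G → K) = R g (emb (ew f))
        simp [RW, emb, LinearMap.restrict_apply]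
    have hle := Nat.sInf_le hYP
    refine Submodule.eq_top_of_finrank_eq (le_antisymm (Submodule.finrank_le X) ?_)
    rw [Module.finrank_fin_fun]
    exact (hWd.trans_le hle).trans (LinearEquiv.finrank_eq (Submodule.equivMapOfInjective emb hemb X).symm).le

end Cfsg.Agent.S3357
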