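import Cfsg.Statements.S3362
import Mathlib.GroupTheory.GroupAction.MultipleTransitivity
import Mathlib.Data.Fintype.CardEmbedding
import Mathlib.GroupTheory.Perm.Basic
import Mathlib.Tactic

set_option autoImplicit false
open Cfsg

namespace Cfsg.Agent.S3362

open Equiv

set_option maxRecDepth 4000

abbrev P := Equiv.Perm (Fin 12)

theorem step {n : ℕ} {gens : Set P} (p : Fin 12) (T : Fin n → P) (K' : Subgroup P)
    (hT : ∀ j, T j ∈ Subgroup.closure gens) (hle : K' ≤ Subgroup.closure gens) (hfix : K' ≤ MulAction.stabilizer P p)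
    (hinj : ∀ i j, T i p = T j p → i = j) (j0 : Fin n) (h0 : T j0 = 1)
    (hcl : ∀ a ∈ gens, ∀ j, ∃ k m, m ∈ K' ∧ a * T j = T k * m) :
    Nat.card (Subgroup.closure gens) = n * Nat.card K' ∧ Subgroup.closure gens ⊓ MulAction.stabilizer P p = K' := by
  classical
  let f : Fin n × K' → Subgroup.closure gens := fun q => ⟨T q.1 * q.2, mul_mem (hT _) (hle q.2.2)⟩
  let S : Set P := {x | ∃ k m, m ∈ K' ∧ x = T k * m}
  have hS : ∀ x ∈ Subgroup.closure gens, x ∈ S := by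
    intro x hx
    have hfin : ∀ a : P, (∀ y ∈ S, a * y ∈ S) → ∀ y ∈ S, a⁻¹ * y ∈ S := by
      intro a ha y hy
      have himg : (S.toFinset.image fun z => a * z) = S.toFinset := Finset.eq_of_subset_of_card_le
        (fun z hz => by
          obtain ⟨w, hw, rfl⟩ := Finset.mem_image.1 hz
          exact Set.mem_toFinset.2 (ha w (Set.mem_toFinset.1 hw)))
        (by rw [Finset.card_image_of_injective _ (mul_right_injective a)])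
      have : y ∈ S.toFinset.image fun z => a * z := by rw [himg]; exact Set.mem_toFinset.2 hy
      obtain ⟨w, hw, rfl⟩ := Finset.mem_image.1 this
      rw [inv_mul_cancel_left]; exact Set.mem_toFinset.1 hw
    have hgen : ∀ a ∈ gens, ∀ y ∈ S, a * y ∈ S := by
      rintro a ha y ⟨k, m, hm, rfl⟩
      obtain ⟨k', m', hm', e⟩ := hcl a ha k
      exact ⟨k', m' * m, mul_mem hm' hm, by rw [← mul_assoc, e, mul_assoc]⟩
    have key : ∀ y ∈ S, x * y ∈ S := by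
      induction hx using Subgroup.closure_induction with
      | mem a ha => exact hgen a ha
      | one => intro y hy; rwa [one_mul]
      | mul a b _ _ ha hb => intro y hy; rw [mul_assoc]; exact ha _ (hb y hy)
      | inv a _ ha => exact hfin a ha
    simpa using key 1 ⟨j0, 1, one_mem _, by rw [h0, one_mul]⟩
  have happ : ∀ k m, m ∈ K' → (T k * m) p = T k p := fun k m hm => by
    rw [Perm.mul_apply, show m p = p from hfix hm]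
  have hb : Function.Bijective f := by
    constructor
    · rintro ⟨i, m⟩ ⟨j, m'⟩ h
      have h' : T i * m = T j * m' := congrArg Subtype.val h
      have hij : i = j := hinj i j (by rw [← happ i m m.2, ← happ j m' m'.2, h'])
      subst hij
      rw [mul_left_cancel_iff] at h'
      exact Prod.ext rfl (Subtype.ext h')
    · rintro ⟨x, hx⟩
      obtain ⟨k, m, hm, rfl⟩ := hS x hx
      exact ⟨(k, ⟨m, hm⟩), rfl⟩
  refine ⟨by rw [← Nat.card_congr (Equiv.ofBijective f hb), Nat.card_prod, Nat.card_fin], le_antisymm ?_ (le_inf hle hfix)⟩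
  rintro x ⟨hx, hxp⟩
  obtain ⟨k, m, hm, rfl⟩ := hS x hx
  have hk : k = j0 := hinj k j0 (by
    rw [← happ k m hm, h0, Perm.one_apply]; exact hxp)
  rw [hk, h0, one_mul]; exact hm

def gs : P := ⟨![0, 1, 2, 4, 5, 3, 7, 8, 6, 10, 11, 9], ![0, 1, 2, 5, 3, 4, 8, 6, 7, 11, 9, 10], by decide, by decide⟩

def gt : P := ⟨![0, 1, 2, 6, 7, 8, 9, 10, 11, 3, 4, 5], ![0, 1, 2, 9, 10, 11, 3, 4, 5, 6, 7, 8], by decide, by decide⟩

def gu : P := ⟨![0, 1, 2, 3, 6, 9, 5, 8, 11, 4, 7, 10], ![0, 1, 2, 3, 9, 6, 4, 10, 7, 5, 11, 8], by decide, by decide⟩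

def gv : P := ⟨![0, 1, 2, 3, 7, 11, 10, 5, 6, 8, 9, 4], ![0, 1, 2, 3, 11, 7, 8, 4, 9, 10, 6, 5], by decide, by decide⟩

def gw : P := ⟨![0, 1, 2, 3, 10, 8, 11, 6, 4, 7, 5, 9], ![0, 1, 2, 3, 8, 10, 7, 9, 5, 11, 4, 6], by decide, by decide⟩

def g1 : P := ⟨![3, 1, 2, 0, 4, 5, 7, 6, 10, 11, 8, 9], ![3, 1, 2, 0, 4, 5, 7, 6, 10, 11, 8, 9], by decide, by decide⟩

def g2 : P := ⟨![1, 0, 2, 3, 4, 5, 9, 10, 11, 6, 7, 8], ![1, 0, 2, 3, 4, 5, 9, 10, 11, 6, 7, 8], by decide, by decide⟩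

def g3 : P := ⟨![0, 2, 1, 3, 4, 5, 11, 9, 10, 7, 8, 6], ![0, 2, 1, 3, 4, 5, 11, 9, 10, 7, 8, 6], by decide, by decide⟩

def T0 : Fin 12 → P := ![⟨![0, 1, 2, 3, 4, 5, 6, 7, 8, 9, 10, 11], ![0, 1, 2, 3, 4, 5, 6, 7, 8, 9, 10, 11], by decide, by decide⟩, ⟨![0, 2, 1, 3, 4, 5, 11, 9, 10, 7, 8, 6], ![0, 2, 1, 3, 4, 5, 11, 9, 10, 7, 8, 6], by decide, by decide⟩, ⟨![1, 2, 0, 3, 4, 5, 8, 6, 7, 10, 11, 9], ![2, 0, 1, 3, 4, 5, 7, 8, 6, 11, 9, 10], by decide, by decide⟩, ⟨![1, 2, 3, 0, 4, 5, 10, 7, 6, 8, 9, 11], ![3, 0, 1, 2, 4, 5, 8, 7, 9, 10, 6, 11], by decide, by decide⟩, ⟨![1, 2, 4, 0, 5, 3, 11, 8, 7, 6, 10, 9], ![3, 0, 1, 5, 2, 4, 9, 8, 7, 11, 10, 6], by decide, by decide⟩, ⟨![1, 2, 6, 0, 7, 8, 4, 10, 9, 11, 3, 5], ![3, 0, 1, 10, 6, 11, 2, 4, 5, 8, 7, 9], by decide, by decide⟩, ⟨![1, 2, 5, 0, 3, 4, 9, 6, 8, 7, 11, 10], ![3, 0, 1, 4, 5, 2, 7, 9, 8,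 6, 11, 10], by decide, by decide⟩, ⟨![1, 2, 7, 0, 8, 6, 5, 11, 10, 9, 4, 3], ![3, 0, 1, 11, 10, 6, 5, 2, 4, 9, 8, 7], by decide, by decide⟩, ⟨![1, 2, 10, 0, 8, 3, 9, 4, 6, 11, 5, 7], ![3, 0, 1, 5, 7, 10, 8, 11, 4, 6, 2, 9], by decide, by decide⟩, ⟨![1, 2, 9, 0, 10, 11, 7, 4, 3, 5, 6, 8], ![3, 0, 1, 8, 7, 9, 10, 6, 11, 2, 4, 5], by decide, by decide⟩, ⟨![1, 2, 11, 0, 6, 4, 10, 5, 7, 9, 3, 8], ![3, 0, 1, 10, 5, 7, 4, 8, 11, 9, 6, 2], by decide, by decide⟩, ⟨![1, 2, 8, 0, 6, 7, 3, 9, 11, 10, 5, 4], ![3, 0, 1, 6, 11, 10, 4, 5, 2, 7, 9, 8], by decide, by decide⟩]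

def K0 : Subgroup P := Subgroup.closure {gs, gt, gu, gv, gw, g1, g2, g3}

def T1 : Fin 11 → P := ![⟨![0, 1, 2, 3, 4, 5, 6, 7, 8, 9, 10, 11], ![0, 1, 2, 3, 4, 5, 6, 7, 8, 9, 10, 11], by decide, by decide⟩, ⟨![1, 0, 2, 3, 4, 5, 9, 10, 11, 6, 7, 8], ![1, 0, 2, 3, 4, 5, 9, 10, 11, 6, 7, 8], by decide, by decide⟩, ⟨![1, 3, 2, 0, 4, 5, 11, 8, 9, 7, 6, 10], ![3, 0, 2, 1, 4, 5, 10, 9, 7, 8, 11, 6], by decide, by decide⟩, ⟨![1, 4, 2, 0, 5, 3, 9, 6, 10, 8, 7, 11], ![3, 0, 2, 5, 1, 4, 7, 10, 9, 6, 8, 11], by decide, by decide⟩, ⟨![1, 6, 2, 0, 7, 8, 5, 11, 3, 10, 9, 4], ![3, 0, 2, 8, 11, 6, 1, 4, 5, 10, 9, 7], by decide, by decide⟩, ⟨![1, 5, 2, 0, 3, 4, 10, 7, 11, 6, 8, 9], ![3, 0, 2, 4, 5, 1, 9, 7, 10, 11, 6, 8], by decide, by decide⟩, ⟨![1, 7, 2, 0, 8, 6, 3, 9, 4, 11, 10, 5], ![3, 0, 2, 6, 8, 11, 5, 1, 4, 7, 10, 9], by decide, by decide⟩, ⟨![1, 10, 2,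 0, 8, 3, 7, 11, 5, 4, 6, 9], ![3, 0, 2, 5, 9, 8, 10, 6, 4, 11, 1, 7], by decide, by decide⟩, ⟨![1, 9, 2, 0, 10, 11, 8, 5, 6, 4, 3, 7], ![3, 0, 2, 10, 9, 7, 8, 11, 6, 1, 4, 5], by decide, by decide⟩, ⟨![1, 11, 2, 0, 6, 4, 8, 9, 3, 5, 7, 10], ![3, 0, 2, 8, 5, 9, 4, 10, 6, 7, 11, 1], by decide, by decide⟩, ⟨![1, 8, 2, 0, 6, 7, 4, 10, 5, 9, 11, 3], ![3, 0, 2, 11, 6, 8, 4, 5, 1, 9, 7, 10], by decide, by decide⟩]

def K1 : Subgroup P := Subgroup.closure {gs, gt, gu, gv, gw, g1, g2}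

def T2 : Fin 10 → P := ![⟨![0, 1, 2, 3, 4, 5, 6, 7, 8, 9, 10, 11], ![0, 1, 2, 3, 4, 5, 6, 7, 8, 9, 10, 11], by decide, by decide⟩, ⟨![3, 1, 2, 0, 4, 5, 7, 6, 10, 11, 8, 9], ![3, 1, 2, 0, 4, 5, 7, 6, 10, 11, 8, 9], by decide, by decide⟩, ⟨![4, 1, 2, 0, 5, 3, 8, 7, 11, 9, 6, 10], ![3, 1, 2, 5, 0, 4, 10, 7, 6, 9, 11, 8], by decide, by decide⟩, ⟨![6, 1, 2, 0, 7, 8, 10, 9, 4, 5, 11, 3], ![3, 1, 2, 11, 8, 9, 0, 4, 5, 7, 6, 10], by decide, by decide⟩, ⟨![5, 1, 2, 0, 3, 4, 6, 8, 9, 10, 7, 11], ![3, 1, 2, 4, 5, 0, 6, 10, 7, 8, 9, 11], by decide, by decide⟩, ⟨![7, 1, 2, 0, 8, 6, 11, 10, 5, 3, 9, 4], ![3, 1, 2, 9, 11, 8, 5, 0, 4, 10, 7, 6], by decide, by decide⟩, ⟨![10, 1, 2, 0, 8, 3, 4, 6, 9, 7, 11, 5], ![3, 1, 2, 5, 6, 11, 7, 9, 4, 8, 0, 10], by decide, by decide⟩, ⟨![9, 1, 2, 0, 10, 11, 4, 3, 7, 8, 5, 6], ![3, 1, 2, 7, 6, 10, 11, 8, 9, 0, 4, 5], by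 decide, by decide⟩, ⟨![11, 1, 2, 0, 6, 4, 5, 7, 10, 8, 9, 3], ![3, 1, 2, 11, 5, 6, 4, 7, 9, 10, 8, 0], by decide, by decide⟩, ⟨![8, 1, 2, 0, 6, 7, 9, 11, 3, 4, 10, 5], ![3, 1, 2, 8, 9, 11, 4, 5, 0, 6, 10, 7], by decide, by decide⟩]

def K2 : Subgroup P := Subgroup.closure {gs, gt, gu, gv, gw, g1}

def T3 : Fin 9 → P := ![⟨![0, 1, 2, 3, 4, 5, 6, 7, 8, 9, 10, 11], ![0, 1, 2, 3, 4, 5, 6, 7, 8, 9, 10, 11], by decide, by decide⟩, ⟨![0, 1, 2, 4, 5, 3, 7, 8, 6, 10, 11, 9], ![0, 1, 2, 5, 3, 4, 8, 6, 7, 11, 9, 10], by decide, by decide⟩, ⟨![0, 1, 2, 6, 7, 8, 9, 10, 11, 3, 4, 5], ![0, 1, 2, 9, 10, 11, 3, 4, 5, 6, 7, 8], by decide, by decide⟩, ⟨![0, 1, 2, 5, 3, 4, 8, 6, 7, 11, 9, 10], ![0, 1, 2, 4, 5, 3, 7, 8, 6, 10, 11, 9], by decide, by decide⟩, ⟨![0, 1, 2, 7, 8, 6, 10, 11, 9, 4, 5, 3], ![0, 1, 2, 11, 9, 10, 5, 3, 4, 8, 6, 7], by decide, by decide⟩,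 ⟨![0, 1, 2, 10, 8, 3, 6, 4, 11, 5, 9, 7], ![0, 1, 2, 5, 7, 9, 6, 11, 4, 10, 3, 8], by decide, by decide⟩, ⟨![0, 1, 2, 9, 10, 11, 3, 4, 5, 6, 7, 8], ![0, 1, 2, 6, 7, 8, 9, 10, 11, 3, 4, 5], by decide, by decide⟩, ⟨![0, 1, 2, 11, 6, 4, 7, 5, 9, 3, 10, 8], ![0, 1, 2, 9, 5, 7, 4, 6, 11, 8, 10, 3], by decide, by decide⟩, ⟨![0, 1, 2, 8, 6, 7, 11, 9, 10, 5, 3, 4], ![0, 1, 2, 10, 11, 9, 4, 5, 3, 7, 8, 6], by decide, by decide⟩]

def K3 : Subgroup P := Subgroup.closure {gs, gt, gu, gv, gw}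

def T4 : Fin 8 → P := ![⟨![0, 1, 2, 3, 4, 5, 6, 7, 8, 9, 10, 11], ![0, 1, 2, 3, 4, 5, 6, 7, 8, 9, 10, 11], by decide, by decide⟩, ⟨![0, 1, 2, 3, 6, 9, 5, 8, 11, 4, 7, 10], ![0, 1, 2, 3, 9, 6, 4, 10, 7, 5, 11, 8], by decide, by decide⟩, ⟨![0, 1, 2, 3, 7, 11, 10, 5, 6, 8, 9, 4], ![0, 1, 2, 3, 11, 7, 8, 4, 9, 10, 6, 5], by decide, by decide⟩, ⟨![0, 1, 2, 3, 10, 8, 11, 6, 4, 7, 5, 9], ![0, 1, 2, 3, 8, 10, 7, 9, 5, 11, 4, 6], by decide, by decide⟩, ⟨![0, 1, 2, 3, 5, 4, 9, 11, 10, 6, 8, 7], ![0, 1, 2, 3, 5, 4, 9, 11, 10, 6, 8, 7], by decide, by decide⟩, ⟨![0, 1, 2, 3, 11, 7, 8, 4, 9, 10, 6, 5], ![0, 1, 2, 3, 7, 11, 10, 5, 6, 8, 9, 4], by decide, by decide⟩, ⟨![0, 1, 2, 3, 8, 10, 7, 9, 5, 11, 4, 6], ![0, 1, 2, 3, 10, 8, 11, 6, 4, 7, 5, 9], by decide, by decide⟩, ⟨![0, 1, 2, 3, 9, 6, 4, 10, 7, 5, 11, 8], ![0, 1, 2, 3, 6, 9, 5, 8, 11, 4, 7, 10], by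 decide, by decide⟩]

def K4 : Subgroup P := Subgroup.closure {gu, gv, gw}

def K5 : Subgroup P := ⊥

lemma T0_mem : ∀ j, T0 j ∈ K0 := by
  have h0 : T0 0 ∈ K0 := by rw [show T0 0 = 1 by decide +kernel]; exact one_mem _
  have h1 : T0 1 ∈ K0 := by
    rw [show T0 1 = g3 * T0 0 by decide +kernel]
    exact mul_mem (Subgroup.subset_closure (by simp)) h0
  have h2 : T0 2 ∈ K0 := by
    rw [show T0 2 = g2 * T0 1 by decide +kernel]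
    exact mul_mem (Subgroup.subset_closure (by simp)) h1
  have h3 : T0 3 ∈ K0 := by
    rw [show T0 3 = g1 * T0 2 by decide +kernel]
    exact mul_mem (Subgroup.subset_closure (by simp)) h2
  have h4 : T0 4 ∈ K0 := by
    rw [show T0 4 = gs * T0 3 by decide +kernel]
    exact mul_mem (Subgroup.subset_closure (by simp)) h3
  have h5 : T0 5 ∈ K0 := by
    rw [show T0 5 = gt * T0 3 by decide +kernel]
    exact mul_mem (Subgroup.subset_closure (by simp)) h3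
  have h6 : T0 6 ∈ K0 := by
    rw [show T0 6 = gs * T0 4 by decide +kernel]
    exact mul_mem (Subgroup.subset_closure (by simp)) h4
  have h7 : T0 7 ∈ K0 := by
    rw [show T0 7 = gt * T0 4 by decide +kernel]
    exact mul_mem (Subgroup.subset_closure (by simp)) h4
  have h8 : T0 8 ∈ K0 := by
    rw [show T0 8 = gw * T0 4 by decide +kernel]
    exact mul_mem (Subgroup.subset_closure (by simp)) h4
  have h9 : T0 9 ∈ K0 := by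
    rw [show T0 9 = gt * T0 5 by decide +kernel]
    exact mul_mem (Subgroup.subset_closure (by simp)) h5
  have h10 : T0 10 ∈ K0 := by
    rw [show T0 10 = gw * T0 5 by decide +kernel]
    exact mul_mem (Subgroup.subset_closure (by simp)) h5
  have h11 : T0 11 ∈ K0 := by
    rw [show T0 11 = gt * T0 6 by decide +kernel]
    exact mul_mem (Subgroup.subset_closure (by simp)) h6
  intro j
  fin_cases j <;> assumption

lemma T1_mem : ∀ j, T1 j ∈ K1 := by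
  have h0 : T1 0 ∈ K1 := by rw [show T1 0 = 1 by decide +kernel]; exact one_mem _
  have h1 : T1 1 ∈ K1 := by
    rw [show T1 1 = g2 * T1 0 by decide +kernel]
    exact mul_mem (Subgroup.subset_closure (by simp)) h0
  have h2 : T1 2 ∈ K1 := by
    rw [show T1 2 = g1 * T1 1 by decide +kernel]
    exact mul_mem (Subgroup.subset_closure (by simp)) h1
  have h3 : T1 3 ∈ K1 := by
    rw [show T1 3 = gs * T1 2 by decide +kernel]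
    exact mul_mem (Subgroup.subset_closure (by simp)) h2
  have h4 : T1 4 ∈ K1 := by
    rw [show T1 4 = gt * T1 2 by decide +kernel]
    exact mul_mem (Subgroup.subset_closure (by simp)) h2
  have h5 : T1 5 ∈ K1 := by
    rw [show T1 5 = gs * T1 3 by decide +kernel]
    exact mul_mem (Subgroup.subset_closure (by simp)) h3
  have h6 : T1 6 ∈ K1 := by
    rw [show T1 6 = gt * T1 3 by decide +kernel]
    exact mul_mem (Subgroup.subset_closure (by simp)) h3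
  have h7 : T1 7 ∈ K1 := by
    rw [show T1 7 = gw * T1 3 by decide +kernel]
    exact mul_mem (Subgroup.subset_closure (by simp)) h3
  have h8 : T1 8 ∈ K1 := by
    rw [show T1 8 = gt * T1 4 by decide +kernel]
    exact mul_mem (Subgroup.subset_closure (by simp)) h4
  have h9 : T1 9 ∈ K1 := by
    rw [show T1 9 = gw * T1 4 by decide +kernel]
    exact mul_mem (Subgroup.subset_closure (by simp)) h4
  have h10 : T1 10 ∈ K1 := by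
    rw [show T1 10 = gt * T1 5 by decide +kernel]
    exact mul_mem (Subgroup.subset_closure (by simp)) h5
  intro j
  fin_cases j <;> assumption

lemma T2_mem : ∀ j, T2 j ∈ K2 := by
  have h0 : T2 0 ∈ K2 := by rw [show T2 0 = 1 by decide +kernel]; exact one_mem _
  have h1 : T2 1 ∈ K2 := by
    rw [show T2 1 = g1 * T2 0 by decide +kernel]
    exact mul_mem (Subgroup.subset_closure (by simp)) h0
  have h2 : T2 2 ∈ K2 := by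
    rw [show T2 2 = gs * T2 1 by decide +kernel]
    exact mul_mem (Subgroup.subset_closure (by simp)) h1
  have h3 : T2 3 ∈ K2 := by
    rw [show T2 3 = gt * T2 1 by decide +kernel]
    exact mul_mem (Subgroup.subset_closure (by simp)) h1
  have h4 : T2 4 ∈ K2 := by
    rw [show T2 4 = gs * T2 2 by decide +kernel]
    exact mul_mem (Subgroup.subset_closure (by simp)) h2
  have h5 : T2 5 ∈ K2 := by
    rw [show T2 5 = gt * T2 2 by decide +kernel]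
    exact mul_mem (Subgroup.subset_closure (by simp)) h2
  have h6 : T2 6 ∈ K2 := by
    rw [show T2 6 = gw * T2 2 by decide +kernel]
    exact mul_mem (Subgroup.subset_closure (by simp)) h2
  have h7 : T2 7 ∈ K2 := by
    rw [show T2 7 = gt * T2 3 by decide +kernel]
    exact mul_mem (Subgroup.subset_closure (by simp)) h3
  have h8 : T2 8 ∈ K2 := by
    rw [show T2 8 = gw * T2 3 by decide +kernel]
    exact mul_mem (Subgroup.subset_closure (by simp)) h3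
  have h9 : T2 9 ∈ K2 := by
    rw [show T2 9 = gt * T2 4 by decide +kernel]
    exact mul_mem (Subgroup.subset_closure (by simp)) h4
  intro j
  fin_cases j <;> assumption

lemma T3_mem : ∀ j, T3 j ∈ K3 := by
  have h0 : T3 0 ∈ K3 := by rw [show T3 0 = 1 by decide +kernel]; exact one_mem _
  have h1 : T3 1 ∈ K3 := by
    rw [show T3 1 = gs * T3 0 by decide +kernel]
    exact mul_mem (Subgroup.subset_closure (by simp)) h0
  have h2 : T3 2 ∈ K3 := by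
    rw [show T3 2 = gt * T3 0 by decide +kernel]
    exact mul_mem (Subgroup.subset_closure (by simp)) h0
  have h3 : T3 3 ∈ K3 := by
    rw [show T3 3 = gs * T3 1 by decide +kernel]
    exact mul_mem (Subgroup.subset_closure (by simp)) h1
  have h4 : T3 4 ∈ K3 := by
    rw [show T3 4 = gt * T3 1 by decide +kernel]
    exact mul_mem (Subgroup.subset_closure (by simp)) h1
  have h5 : T3 5 ∈ K3 := by
    rw [show T3 5 = gw * T3 1 by decide +kernel]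
    exact mul_mem (Subgroup.subset_closure (by simp)) h1
  have h6 : T3 6 ∈ K3 := by
    rw [show T3 6 = gt * T3 2 by decide +kernel]
    exact mul_mem (Subgroup.subset_closure (by simp)) h2
  have h7 : T3 7 ∈ K3 := by
    rw [show T3 7 = gw * T3 2 by decide +kernel]
    exact mul_mem (Subgroup.subset_closure (by simp)) h2
  have h8 : T3 8 ∈ K3 := by
    rw [show T3 8 = gt * T3 3 by decide +kernel]
    exact mul_mem (Subgroup.subset_closure (by simp)) h3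
  intro j
  fin_cases j <;> assumption

lemma T4_mem : ∀ j, T4 j ∈ K4 := by
  have h0 : T4 0 ∈ K4 := by rw [show T4 0 = 1 by decide +kernel]; exact one_mem _
  have h1 : T4 1 ∈ K4 := by
    rw [show T4 1 = gu * T4 0 by decide +kernel]
    exact mul_mem (Subgroup.subset_closure (by simp)) h0
  have h2 : T4 2 ∈ K4 := by
    rw [show T4 2 = gv * T4 0 by decide +kernel]
    exact mul_mem (Subgroup.subset_closure (by simp)) h0
  have h3 : T4 3 ∈ K4 := by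
    rw [show T4 3 = gw * T4 0 by decide +kernel]
    exact mul_mem (Subgroup.subset_closure (by simp)) h0
  have h4 : T4 4 ∈ K4 := by
    rw [show T4 4 = gu * T4 1 by decide +kernel]
    exact mul_mem (Subgroup.subset_closure (by simp)) h1
  have h5 : T4 5 ∈ K4 := by
    rw [show T4 5 = gw * T4 1 by decide +kernel]
    exact mul_mem (Subgroup.subset_closure (by simp)) h1
  have h6 : T4 6 ∈ K4 := by
    rw [show T4 6 = gu * T4 2 by decide +kernel]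
    exact mul_mem (Subgroup.subset_closure (by simp)) h2
  have h7 : T4 7 ∈ K4 := by
    rw [show T4 7 = gv * T4 3 by decide +kernel]
    exact mul_mem (Subgroup.subset_closure (by simp)) h3
  intro j
  fin_cases j <;> assumption

lemma cert4_gu : ∀ j : Fin 8, gu * T4 j = T4 (![1, 4, 6, 2, 7, 3, 5, 0] j) := by decide +kernel
lemma cert4_gv : ∀ j : Fin 8, gv * T4 j = T4 (![2, 3, 4, 7, 5, 0, 1, 6] j) := by decide +kernel
lemma cert4_gw : ∀ j : Fin 8, gw * T4 j = T4 (![3, 5, 1, 4, 6, 7, 0, 2] j) := by decide +kernel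

lemma le4 : K5 ≤ K4 := bot_le

lemma fix4 : K5 ≤ MulAction.stabilizer P (4 : Fin 12) := bot_le

lemma step4 : Nat.card K4 = 8 * Nat.card K5 ∧ K4 ⊓ MulAction.stabilizer P (4 : Fin 12) = K5 := by
  refine step (gens := {gu, gv, gw}) 4 T4 K5 T4_mem le4 fix4 (by decide +kernel) 0 (by decide +kernel) ?_
  intro a ha j
  simp only [Set.mem_insert_iff, Set.mem_singleton_iff] at ha
  rcases ha with rfl | rfl | rfl
  · exact ⟨_, 1, one_mem _, (cert4_gu j).trans (mul_one _).symm⟩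
  · exact ⟨_, 1, one_mem _, (cert4_gv j).trans (mul_one _).symm⟩
  · exact ⟨_, 1, one_mem _, (cert4_gw j).trans (mul_one _).symm⟩

lemma cert3_gs : ∀ j : Fin 9, gs * T3 j = T3 (![1, 3, 4, 0, 8, 7, 5, 6, 2] j) * (T4 ((![0, 0, 0, 0, 0, 0, 6, 3, 0] : Fin 9 → Fin 8) j)) := by decide +kernel
lemma cert3_gt : ∀ j : Fin 9, gt * T3 j = T3 (![2, 4, 6, 8, 5, 1, 0, 3, 7] j) * (T4 ((![0, 0, 0, 0, 6, 3, 0, 3, 6] : Fin 9 → Fin 8) j)) := by decide +kernel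
lemma cert3_gu : ∀ j : Fin 9, gu * T3 j = T3 (![0, 2, 3, 6, 8, 4, 1, 5, 7] j) * (T4 ((![1, 1, 1, 1, 1, 2, 1, 7, 2] : Fin 9 → Fin 8) j)) := by decide +kernel
lemma cert3_gv : ∀ j : Fin 9, gv * T3 j = T3 (![0, 4, 5, 7, 3, 6, 8, 1, 2] j) * (T4 ((![2, 2, 7, 7, 2, 7, 2, 7, 2] : Fin 9 → Fin 8) j)) := by decide +kernel
lemma cert3_gw : ∀ j : Fin 9, gw * T3 j = T3 (![0, 5, 7, 8, 2, 3, 4, 6, 1] j) * (T4 ((![3, 0, 0, 3, 3, 4, 3, 4, 3] : Fin 9 → Fin 8) j)) := by decide +kernel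

lemma le3 : K4 ≤ K3 := Subgroup.closure_mono (by intro a ha; simp only [Set.mem_insert_iff, Set.mem_singleton_iff] at ha ⊢; tauto)

lemma fix3 : K4 ≤ MulAction.stabilizer P (3 : Fin 12) := by
  rw [K4, Subgroup.closure_le]
  intro a ha
  simp only [Set.mem_insert_iff, Set.mem_singleton_iff] at ha
  rcases ha with rfl | rfl | rfl <;> (rw [SetLike.mem_coe, MulAction.mem_stabilizer_iff, Equiv.Perm.smul_def]; decide +kernel)

lemma step3 : Nat.card K3 = 9 * Nat.card K4 ∧ K3 ⊓ MulAction.stabilizer P (3 : Fin 12) = K4 := by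
  refine step (gens := {gs, gt, gu, gv, gw}) 3 T3 K4 T3_mem le3 fix3 (by decide +kernel) 0 (by decide +kernel) ?_
  intro a ha j
  simp only [Set.mem_insert_iff, Set.mem_singleton_iff] at ha
  rcases ha with rfl | rfl | rfl | rfl | rfl
  · exact ⟨_, _, T4_mem _, cert3_gs j⟩
  · exact ⟨_, _, T4_mem _, cert3_gt j⟩
  · exact ⟨_, _, T4_mem _, cert3_gu j⟩
  · exact ⟨_, _, T4_mem _, cert3_gv j⟩
  · exact ⟨_, _, T4_mem _, cert3_gw j⟩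

lemma cert2_gs : ∀ j : Fin 10, gs * T2 j = T2 (![0, 2, 4, 5, 1, 9, 8, 6, 7, 3] j) * (T3 ((![1, 0, 0, 0, 0, 0, 0, 0, 0, 0] : Fin 10 → Fin 9) j) * (T4 ((![0, 0, 0, 0, 0, 0, 0, 3, 6, 0] : Fin 10 → Fin 8) j))) := by decide +kernel
lemma cert2_gt : ∀ j : Fin 10, gt * T2 j = T2 (![0, 3, 5, 7, 9, 6, 2, 1, 4, 8] j) * (T3 ((![2, 0, 0, 0, 0, 0, 0, 0, 0, 0] : Fin 10 → Fin 9) j) * (T4 ((![0, 0, 0, 0, 0, 3, 6, 0, 6, 3] : Fin 10 → Fin 8) j))) := by decide +kernel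
lemma cert2_gu : ∀ j : Fin 10, gu * T2 j = T2 (![0, 1, 3, 4, 7, 9, 5, 2, 6, 8] j) * (T3 ((![0, 0, 0, 0, 0, 0, 0, 0, 0, 0] : Fin 10 → Fin 9) j) * (T4 ((![1, 2, 2, 2, 2, 2, 1, 2, 5, 1] : Fin 10 → Fin 8) j))) := by decide +kernel
lemma cert2_gv : ∀ j : Fin 10, gv * T2 j = T2 (![0, 1, 5, 6, 8, 4, 7, 9, 2, 3] j) * (T3 ((![0, 0, 0, 0, 0, 0, 0, 0, 0, 0] : Fin 10 → Fin 9) j) * (T4 ((![2, 1, 1, 5, 5, 1, 5, 1, 5, 1] : Fin 10 → Fin 8) j))) := by decide +kernel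
lemma cert2_gw : ∀ j : Fin 10, gw * T2 j = T2 (![0, 1, 6, 8, 9, 3, 4, 5, 7, 2] j) * (T3 ((![0, 0, 0, 0, 0, 0, 0, 0, 0, 0] : Fin 10 → Fin 9) j) * (T4 ((![3, 6, 0, 0, 6, 6, 4, 6, 4, 6] : Fin 10 → Fin 8) j))) := by decide +kernel
lemma cert2_g1 : ∀ j : Fin 10, g1 * T2 j = T2 (![1, 0, 2, 5, 4, 3, 9, 8, 7, 6] j) * (T3 ((![0, 0, 3, 6, 1, 7, 8, 7, 4, 3] : Fin 10 → Fin 9) j) * (T4 ((![0, 0, 4, 6, 4, 0, 6, 6, 0, 3] : Fin 10 → Fin 8) j))) := by decide +kernel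

lemma le2 : K3 ≤ K2 := Subgroup.closure_mono (by intro a ha; simp only [Set.mem_insert_iff, Set.mem_singleton_iff] at ha ⊢; tauto)

lemma fix2 : K3 ≤ MulAction.stabilizer P (0 : Fin 12) := by
  rw [K3, Subgroup.closure_le]
  intro a ha
  simp only [Set.mem_insert_iff, Set.mem_singleton_iff] at ha
  rcases ha with rfl | rfl | rfl | rfl | rfl <;> (rw [SetLike.mem_coe, MulAction.mem_stabilizer_iff, Equiv.Perm.smul_def]; decide +kernel)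

lemma step2 : Nat.card K2 = 10 * Nat.card K3 ∧ K2 ⊓ MulAction.stabilizer P (0 : Fin 12) = K3 := by
  refine step (gens := {gs, gt, gu, gv, gw, g1}) 0 T2 K3 T2_mem le2 fix2 (by decide +kernel) 0 (by decide +kernel) ?_
  intro a ha j
  simp only [Set.mem_insert_iff, Set.mem_singleton_iff] at ha
  rcases ha with rfl | rfl | rfl | rfl | rfl | rfl
  · exact ⟨_, _, mul_mem (T3_mem _) (le3 (T4_mem _)), cert2_gs j⟩
  · exact ⟨_, _, mul_mem (T3_mem _) (le3 (T4_mem _)), cert2_gt j⟩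
  · exact ⟨_, _, mul_mem (T3_mem _) (le3 (T4_mem _)), cert2_gu j⟩
  · exact ⟨_, _, mul_mem (T3_mem _) (le3 (T4_mem _)), cert2_gv j⟩
  · exact ⟨_, _, mul_mem (T3_mem _) (le3 (T4_mem _)), cert2_gw j⟩
  · exact ⟨_, _, mul_mem (T3_mem _) (le3 (T4_mem _)), cert2_g1 j⟩

lemma cert1_gs : ∀ j : Fin 11, gs * T1 j = T1 (![0, 1, 3, 5, 6, 2, 10, 9, 7, 8, 4] j) * (T2 ((![0, 0, 0, 0, 0, 0, 0, 0, 0, 0, 0] : Fin 11 → Fin 10) j) * (T3 ((![1, 1, 0, 0, 0, 0, 0, 0, 0, 0, 0] : Fin 11 → Fin 9) j) * (T4 ((![0, 0, 0, 0, 0, 0, 0, 0, 2, 5, 0] : Fin 11 → Fin 8) j)))) := by decide +kernel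
lemma cert1_gt : ∀ j : Fin 11, gt * T1 j = T1 (![0, 1, 4, 6, 8, 10, 7, 3, 2, 5, 9] j) * (T2 ((![0, 0, 0, 0, 0, 0, 0, 0, 0, 0, 0] : Fin 11 → Fin 10) j) * (T3 ((![2, 6, 0, 0, 0, 0, 0, 0, 0, 0, 0] : Fin 11 → Fin 9) j) * (T4 ((![0, 0, 0, 0, 0, 0, 2, 5, 0, 5, 2] : Fin 11 → Fin 8) j)))) := by decide +kernel
lemma cert1_gu : ∀ j : Fin 11, gu * T1 j = T1 (![0, 1, 2, 4, 5, 8, 10, 6, 3, 7, 9] j) * (T2 ((![0, 0, 0, 0, 0, 0, 0, 0, 0, 0, 0] : Fin 11 → Fin 10) j) * (T3 ((![0, 0, 0, 0, 0, 0, 0, 0, 0, 0, 0] : Fin 11 → Fin 9) j) * (T4 ((![1, 7, 3, 3, 3, 3, 3, 7, 3, 6, 7] : Fin 11 → Fin 8) j)))) := by decide +kernel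
lemma cert1_gv : ∀ j : Fin 11, gv * T1 j = T1 (![0, 1, 2, 6, 7, 9, 5, 8, 10, 3, 4] j) * (T2 ((![0, 0, 0, 0, 0, 0, 0, 0, 0, 0, 0] : Fin 11 → Fin 10) j) * (T3 ((![0, 0, 0, 0, 0, 0, 0, 0, 0, 0, 0] : Fin 11 → Fin 9) j) * (T4 ((![2, 3, 7, 7, 6, 6, 7, 6, 7, 6, 7] : Fin 11 → Fin 8) j)))) := by decide +kernel
lemma cert1_gw : ∀ j : Fin 11, gw * T1 j = T1 (![0, 1, 2, 7, 9, 10, 4, 5, 6, 8, 3] j) * (T2 ((![0, 0, 0, 0, 0, 0, 0, 0, 0, 0, 0] : Fin 11 → Fin 10) j) * (T3 ((![0, 0, 0, 0, 0, 0, 0, 0, 0, 0, 0] : Fin 11 → Fin 9) j) * (T4 ((![3, 2, 5, 0, 0, 5, 5, 4, 5, 4, 5] : Fin 11 → Fin 8) j)))) := by decide +kernel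
lemma cert1_g1 : ∀ j : Fin 11, g1 * T1 j = T1 (![0, 2, 1, 3, 6, 5, 4, 10, 9, 8, 7] j) * (T2 ((![1, 0, 0, 0, 0, 0, 0, 0, 0, 0, 0] : Fin 11 → Fin 10) j) * (T3 ((![0, 0, 0, 3, 2, 1, 8, 7, 8, 5, 3] : Fin 11 → Fin 9) j) * (T4 ((![0, 0, 0, 4, 5, 4, 2, 1, 0, 6, 2] : Fin 11 → Fin 8) j)))) := by decide +kernel
lemma cert1_g2 : ∀ j : Fin 11, g2 * T1 j = T1 (![1, 0, 2, 3, 8, 5, 7, 6, 4, 10, 9] j) * (T2 ((![0, 0, 1, 1, 1, 1, 1, 1, 1, 1, 1] : Fin 11 → Fin 10) j) * (T3 ((![0, 0, 0, 0, 0, 0, 0, 0, 0, 0, 0] : Fin 11 → Fin 9) j) * (T4 ((![0, 0, 0, 0, 0, 0, 1, 5, 0, 5, 1] : Fin 11 → Fin 8) j)))) := by decide +kernel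

lemma le1 : K2 ≤ K1 := Subgroup.closure_mono (by intro a ha; simp only [Set.mem_insert_iff, Set.mem_singleton_iff] at ha ⊢; tauto)

lemma fix1 : K2 ≤ MulAction.stabilizer P (1 : Fin 12) := by
  rw [K2, Subgroup.closure_le]
  intro a ha
  simp only [Set.mem_insert_iff, Set.mem_singleton_iff] at ha
  rcases ha with rfl | rfl | rfl | rfl | rfl | rfl <;> (rw [SetLike.mem_coe, MulAction.mem_stabilizer_iff, Equiv.Perm.smul_def]; decide +kernel)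

lemma step1 : Nat.card K1 = 11 * Nat.card K2 ∧ K1 ⊓ MulAction.stabilizer P (1 : Fin 12) = K2 := by
  refine step (gens := {gs, gt, gu, gv, gw, g1, g2}) 1 T1 K2 T1_mem le1 fix1 (by decide +kernel) 0 (by decide +kernel) ?_
  intro a ha j
  simp only [Set.mem_insert_iff, Set.mem_singleton_iff] at ha
  rcases ha with rfl | rfl | rfl | rfl | rfl | rfl | rfl
  · exact ⟨_, _, mul_mem (T2_mem _) (mul_mem (le2 (T3_mem _)) (le2 (le3 (T4_mem _)))), cert1_gs j⟩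
  · exact ⟨_, _, mul_mem (T2_mem _) (mul_mem (le2 (T3_mem _)) (le2 (le3 (T4_mem _)))), cert1_gt j⟩
  · exact ⟨_, _, mul_mem (T2_mem _) (mul_mem (le2 (T3_mem _)) (le2 (le3 (T4_mem _)))), cert1_gu j⟩
  · exact ⟨_, _, mul_mem (T2_mem _) (mul_mem (le2 (T3_mem _)) (le2 (le3 (T4_mem _)))), cert1_gv j⟩
  · exact ⟨_, _, mul_mem (T2_mem _) (mul_mem (le2 (T3_mem _)) (le2 (le3 (T4_mem _)))), cert1_gw j⟩
  · exact ⟨_, _, mul_mem (T2_mem _) (mul_mem (le2 (T3_mem _)) (le2 (le3 (T4_mem _)))), cert1_g1 j⟩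
  · exact ⟨_, _, mul_mem (T2_mem _) (mul_mem (le2 (T3_mem _)) (le2 (le3 (T4_mem _)))), cert1_g2 j⟩

lemma cert0_gs : ∀ j : Fin 12, gs * T0 j = T0 (![0, 1, 2, 4, 6, 7, 3, 11, 10, 8, 9, 5] j) * (T1 ((![0, 0, 0, 0, 0, 0, 0, 0, 0, 0, 0, 0] : Fin 12 → Fin 11) j) * (T2 ((![0, 0, 0, 0, 0, 0, 0, 0, 0, 0, 0, 0] : Fin 12 → Fin 10) j) * (T3 ((![1, 1, 1, 0, 0, 0, 0, 0, 0, 0, 0, 0] : Fin 12 → Fin 9) j) * (T4 ((![0, 0, 0, 0, 0, 0, 0, 0, 0, 7, 1, 0] : Fin 12 → Fin 8) j))))) := by decide +kernel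
lemma cert0_gt : ∀ j : Fin 12, gt * T0 j = T0 (![0, 1, 2, 5, 7, 9, 11, 8, 4, 3, 6, 10] j) * (T1 ((![0, 0, 0, 0, 0, 0, 0, 0, 0, 0, 0, 0] : Fin 12 → Fin 11) j) * (T2 ((![0, 0, 0, 0, 0, 0, 0, 0, 0, 0, 0, 0] : Fin 12 → Fin 10) j) * (T3 ((![2, 7, 4, 0, 0, 0, 0, 0, 0, 0, 0, 0] : Fin 12 → Fin 9) j) * (T4 ((![0, 6, 0, 0, 0, 0, 0, 7, 1, 0, 1, 7] : Fin 12 → Fin 8) j))))) := by decide +kernel
lemma cert0_gu : ∀ j : Fin 12, gu * T0 j = T0 (![0, 1, 2, 3, 5, 6, 9, 11, 7, 4, 8, 10] j) * (T1 ((![0, 0, 0, 0, 0, 0, 0, 0, 0, 0, 0, 0] : Fin 12 → Fin 11) j) * (T2 ((![0, 0, 0, 0, 0, 0, 0, 0, 0, 0, 0, 0] : Fin 12 → Fin 10) j) * (T3 ((![0, 0, 0, 0, 0, 0, 0, 0, 0, 0, 0, 0] : Fin 12 → Fin 9) j) * (T4 ((![1, 5, 2, 6, 6, 6, 6, 6, 2, 6, 3, 2] : Fin 12 → Fin 8) j))))) := by decide +kernel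
lemma cert0_gv : ∀ j : Fin 12, gv * T0 j = T0 (![0, 1, 2, 3, 7, 8, 10, 6, 9, 11, 4, 5] j) * (T1 ((![0, 0, 0, 0, 0, 0, 0, 0, 0, 0, 0, 0] : Fin 12 → Fin 11) j) * (T2 ((![0, 0, 0, 0, 0, 0, 0, 0, 0, 0, 0, 0] : Fin 12 → Fin 10) j) * (T3 ((![0, 0, 0, 0, 0, 0, 0, 0, 0, 0, 0, 0] : Fin 12 → Fin 9) j) * (T4 ((![2, 7, 6, 2, 2, 3, 3, 2, 3, 2, 3, 2] : Fin 12 → Fin 8) j))))) := by decide +kernel
lemma cert0_gw : ∀ j : Fin 12, gw * T0 j = T0 (![0, 1, 2, 3, 8, 10, 11, 5, 6, 7, 9, 4] j) * (T1 ((![0, 0, 0, 0, 0, 0, 0, 0, 0, 0, 0, 0] : Fin 12 → Fin 11) j) * (T2 ((![0, 0, 0, 0, 0, 0, 0, 0, 0, 0, 0, 0] : Fin 12 → Fin 10) j) * (T3 ((![0, 0, 0, 0, 0, 0, 0, 0, 0, 0, 0, 0] : Fin 12 → Fin 9) j) * (T4 ((![3, 6, 7, 1, 0, 0, 1, 1, 4, 1, 4, 1] : Fin 12 → Fin 8) j))))) := by decide +kernel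
lemma cert0_g1 : ∀ j : Fin 12, g1 * T0 j = T0 (![0, 1, 3, 2, 4, 7, 6, 5, 11, 10, 9, 8] j) * (T1 ((![0, 0, 0, 0, 0, 0, 0, 0, 0, 0, 0, 0] : Fin 12 → Fin 11) j) * (T2 ((![1, 1, 0, 0, 0, 0, 0, 0, 0, 0, 0, 0] : Fin 12 → Fin 10) j) * (T3 ((![0, 0, 0, 0, 3, 7, 1, 5, 2, 5, 8, 3] : Fin 12 → Fin 9) j) * (T4 ((![0, 0, 0, 0, 4, 2, 4, 5, 1, 6, 0, 7] : Fin 12 → Fin 8) j))))) := by decide +kernel
lemma cert0_g2 : ∀ j : Fin 12, g2 * T0 j = T0 (![0, 2, 1, 3, 4, 9, 6, 8, 7, 5, 11, 10] j) * (T1 ((![1, 0, 0, 0, 0, 0, 0, 0, 0, 0, 0, 0] : Fin 12 → Fin 11) j) * (T2 ((![0, 0, 0, 1, 1, 1, 1, 1, 1, 1, 1, 1] : Fin 12 → Fin 10) j) * (T3 ((![0, 0, 0, 0, 0, 0, 0, 0, 0, 0, 0, 0] : Fin 12 → Fin 9) j) * (T4 ((![0, 0, 0, 0, 0, 0, 0, 5, 1, 0, 1, 5] : Fin 12 → Fin 8) j))))) := by decide +kernel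
lemma cert0_g3 : ∀ j : Fin 12, g3 * T0 j = T0 (![1, 0, 2, 3, 4, 10, 6, 9, 11, 7, 5, 8] j) * (T1 ((![0, 0, 1, 1, 1, 1, 1, 1, 1, 1, 1, 1] : Fin 12 → Fin 11) j) * (T2 ((![0, 0, 0, 0, 0, 0, 0, 0, 0, 0, 0, 0] : Fin 12 → Fin 10) j) * (T3 ((![0, 0, 0, 0, 0, 0, 0, 0, 0, 0, 0, 0] : Fin 12 → Fin 9) j) * (T4 ((![0, 0, 0, 0, 0, 1, 0, 0, 1, 0, 1, 1] : Fin 12 → Fin 8) j))))) := by decide +kernel

lemma le0 : K1 ≤ K0 := Subgroup.closure_mono (by intro a ha; simp only [Set.mem_insert_iff, Set.mem_singleton_iff] at ha ⊢; tauto)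

lemma fix0 : K1 ≤ MulAction.stabilizer P (2 : Fin 12) := by
  rw [K1, Subgroup.closure_le]
  intro a ha
  simp only [Set.mem_insert_iff, Set.mem_singleton_iff] at ha
  rcases ha with rfl | rfl | rfl | rfl | rfl | rfl | rfl <;> (rw [SetLike.mem_coe, MulAction.mem_stabilizer_iff, Equiv.Perm.smul_def]; decide +kernel)

lemma step0 : Nat.card K0 = 12 * Nat.card K1 ∧ K0 ⊓ MulAction.stabilizer P (2 : Fin 12) = K1 := by
  refine step (gens := {gs, gt, gu, gv, gw, g1, g2, g3}) 2 T0 K1 T0_mem le0 fix0 (by decide +kernel) 0 (by decide +kernel) ?_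
  intro a ha j
  simp only [Set.mem_insert_iff, Set.mem_singleton_iff] at ha
  rcases ha with rfl | rfl | rfl | rfl | rfl | rfl | rfl | rfl
  · exact ⟨_, _, mul_mem (T1_mem _) (mul_mem (le1 (T2_mem _)) (mul_mem (le1 (le2 (T3_mem _))) (le1 (le2 (le3 (T4_mem _)))))), cert0_gs j⟩
  · exact ⟨_, _, mul_mem (T1_mem _) (mul_mem (le1 (T2_mem _)) (mul_mem (le1 (le2 (T3_mem _))) (le1 (le2 (le3 (T4_mem _)))))), cert0_gt j⟩
  · exact ⟨_, _, mul_mem (T1_mem _) (mul_mem (le1 (T2_mem _)) (mul_mem (le1 (le2 (T3_mem _))) (le1 (le2 (le3 (T4_mem _)))))), cert0_gu j⟩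
  · exact ⟨_, _, mul_mem (T1_mem _) (mul_mem (le1 (T2_mem _)) (mul_mem (le1 (le2 (T3_mem _))) (le1 (le2 (le3 (T4_mem _)))))), cert0_gv j⟩
  · exact ⟨_, _, mul_mem (T1_mem _) (mul_mem (le1 (T2_mem _)) (mul_mem (le1 (le2 (T3_mem _))) (le1 (le2 (le3 (T4_mem _)))))), cert0_gw j⟩
  · exact ⟨_, _, mul_mem (T1_mem _) (mul_mem (le1 (T2_mem _)) (mul_mem (le1 (le2 (T3_mem _))) (le1 (le2 (le3 (T4_mem _)))))), cert0_g1 j⟩
  · exact ⟨_, _, mul_mem (T1_mem _) (mul_mem (le1 (T2_mem _)) (mul_mem (le1 (le2 (T3_mem _))) (le1 (le2 (le3 (T4_mem _)))))), cert0_g2 j⟩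
  · exact ⟨_, _, mul_mem (T1_mem _) (mul_mem (le1 (T2_mem _)) (mul_mem (le1 (le2 (T3_mem _))) (le1 (le2 (le3 (T4_mem _)))))), cert0_g3 j⟩

lemma card_K : Nat.card K0 = 95040 ∧ Nat.card K1 = 7920 := by
  have h5 : Nat.card K5 = 1 := Subgroup.card_bot
  obtain ⟨h0, -⟩ := step0
  obtain ⟨h1, -⟩ := step1
  obtain ⟨h2, -⟩ := step2
  obtain ⟨h3, -⟩ := step3
  obtain ⟨h4, -⟩ := step4
  constructor <;> omega

lemma base_trivial (x : P) (hx : x ∈ K0) (h : x 2 = 2 ∧ x 1 = 1 ∧ x 0 = 0 ∧ x 3 = 3 ∧ x 4 = 4) : x = 1 := by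
  have a : x ∈ K1 := step0.2 ▸ ⟨hx, h.1⟩
  have b : x ∈ K2 := step1.2 ▸ ⟨a, h.2.1⟩
  have c : x ∈ K3 := step2.2 ▸ ⟨b, h.2.2.1⟩
  have d : x ∈ K4 := step3.2 ▸ ⟨c, h.2.2.2.1⟩
  have e : x ∈ K5 := step4.2 ▸ ⟨d, h.2.2.2.2⟩
  exact Subgroup.mem_bot.1 e


/-- An explicit construction of the Mathieu groups of degrees 11 and 12. On the points 0, …, 11 let s = (3 4 5)(6 7 8)(9 10 11), t = (3 6 9)(4 7 10)(5 8 11), u = (4 6 5 9)(7 8 11 10), v = (4 7 5 11)(6 10 9 8), w = (4 10 5 8)(6 11 9 7), x₁ = (0 3)(6 7)(8 10)(9 11), x₂ = (0 1)(6 9)(7 10)(8 11), x₃ = (1 2)(6 11)(7 9)(8 10) (each written as a product of transpositions). Then the group M₁₂ generated by all eight permutations is sharply 5-transitive on the 12 points and has order 95040, and the group M₁₁ generated by the first seven has order 7920 and is the stabilizer of the point 2 in M₁₂. -/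
theorem result
    (s t u v w x₁ x₂ x₃ : Equiv.Perm (Fin 12))
    (hs : s = Equiv.swap (3 : Fin 12) 5 * Equiv.swap (3 : Fin 12) 4 * Equiv.swap (6 : Fin 12) 8 * Equiv.swap (6 : Fin 12) 7 * Equiv.swap (9 : Fin 12) 11 * Equiv.swap (9 : Fin 12) 10) (ht : t = Equiv.swap (3 : Fin 12) 9 * Equiv.swap (3 : Fin 12) 6 * Equiv.swap (4 : Fin 12) 10 * Equiv.swap (4 : Fin 12) 7 * Equiv.swap (5 : Fin 12) 11 * Equiv.swap (5 : Fin 12) 8)
    (hu : u = Equiv.swap (4 : Fin 12) 9 * Equiv.swap (4 : Fin 12) 5 * Equiv.swap (4 : Fin 12) 6 * Equiv.swap (7 : Fin 12) 10 * Equiv.swap (7 : Fin 12) 11 * Equiv.swap (7 : Fin 12) 8) (hv : v = Equiv.swap (4 : Fin 12) 11 * Equiv.swap (4 : Fin 12) 5 * Equiv.swap (4 : Fin 12) 7 * Equiv.swap (6 : Fin 12) 8 * Equiv.swap (6 : Fin 12) 9 * Equiv.swap (6 : Fin 12) 10) (hw : w = Equiv.swap (4 : Fin 12) 8 * Equiv.swap (4 : Fin 12) 5 * Equiv.swap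 (4 : Fin 12) 10 * Equiv.swap (6 : Fin 12) 7 * Equiv.swap (6 : Fin 12) 9 * Equiv.swap (6 : Fin 12) 11)
    (hx₁ : x₁ = Equiv.swap (0 : Fin 12) 3 * Equiv.swap (6 : Fin 12) 7 * Equiv.swap (8 : Fin 12) 10 * Equiv.swap (9 : Fin 12) 11) (hx₂ : x₂ = Equiv.swap (0 : Fin 12) 1 * Equiv.swap (6 : Fin 12) 9 * Equiv.swap (7 : Fin 12) 10 * Equiv.swap (8 : Fin 12) 11)
    (hx₃ : x₃ = Equiv.swap (1 : Fin 12) 2 * Equiv.swap (6 : Fin 12) 11 * Equiv.swap (7 : Fin 12) 9 * Equiv.swap (8 : Fin 12) 10)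
    (M₁₂ M₁₁ : Subgroup (Equiv.Perm (Fin 12))) (hM₁₂ : M₁₂ = Subgroup.closure {s, t, u, v, w, x₁, x₂, x₃})
    (hM₁₁ : M₁₁ = Subgroup.closure {s, t, u, v, w, x₁, x₂}) :
    MulAction.IsMultiplyPretransitive M₁₂ (Fin 12) 5 ∧ (∀ y : Fin 5 ↪ Fin 12, MulAction.stabilizer M₁₂ y = ⊥) ∧
    Nat.card M₁₂ = 95040 ∧ Nat.card M₁₁ = 7920 ∧
    M₁₁ = M₁₂ ⊓ MulAction.stabilizer (Equiv.Perm (Fin 12)) (2 : Fin 12) := by
  classical
  obtain rfl : s = gs := by rw [hs]; decide +kernel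
  obtain rfl : t = gt := by rw [ht]; decide +kernel
  obtain rfl : u = gu := by rw [hu]; decide +kernel
  obtain rfl : v = gv := by rw [hv]; decide +kernel
  obtain rfl : w = gw := by rw [hw]; decide +kernel
  obtain rfl : x₁ = g1 := by rw [hx₁]; decide +kernel
  obtain rfl : x₂ = g2 := by rw [hx₂]; decide +kernel
  obtain rfl : x₃ = g3 := by rw [hx₃]; decide +kernel
  obtain rfl : M₁₂ = K0 := hM₁₂
  obtain rfl : M₁₁ = K1 := hM₁₁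
  let b : Fin 5 ↪ Fin 12 := ⟨![2, 1, 0, 3, 4], by decide⟩
  have hstab : MulAction.stabilizer K0 b = ⊥ := by
    rw [Subgroup.eq_bot_iff_forall]
    intro x hx
    have h : ∀ i, (x : P) (b i) = b i := fun i => DFunLike.congr_fun (show x • b = b from hx) i
    exact Subtype.ext (base_trivial _ x.2 ⟨h 0, h 1, h 2, h 3, h 4⟩)
  have horb : MulAction.orbit K0 b = Set.univ := by
    refine Set.eq_of_subset_of_ncard_le (Set.subset_univ _) (le_of_eq ?_) Set.finite_univ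
    rw [Set.ncard_univ]; refine Eq.trans ?_ (MulAction.index_stabilizer K0 b)
    rw [hstab, Subgroup.index_bot, card_K.1,
      Nat.card_eq_fintype_card, Fintype.card_embedding_eq, Fintype.card_fin, Fintype.card_fin]
    rfl
  have htr : MulAction.IsPretransitive K0 (Fin 5 ↪ Fin 12) := by
    refine ⟨fun y z => ?_⟩
    obtain ⟨g, hg⟩ : y ∈ MulAction.orbit K0 b := by rw [horb]; trivial
    obtain ⟨k, hk⟩ : z ∈ MulAction.orbit K0 b := by rw [horb]; trivial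
    refine ⟨k * g⁻¹, ?_⟩
    subst hg hk
    show (k * g⁻¹) • g • b = k • b
    erw [mul_smul, inv_smul_smul]; rfl
  refine ⟨htr, fun y => ?_, card_K.1, card_K.2, step0.2.symm⟩
  obtain ⟨g, rfl⟩ : y ∈ MulAction.orbit K0 b := by rw [horb]; trivial
  rw [Subgroup.eq_bot_iff_forall]
  intro x hx
  have hm : g⁻¹ * x * g ∈ MulAction.stabilizer K0 b := by
    have hx' : x • g • b = g • b := hx
    rw [MulAction.mem_stabilizer_iff, mul_smul, mul_smul]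
    erw [hx', inv_smul_smul]
  rw [hstab, Subgroup.mem_bot, mul_assoc, inv_mul_eq_one] at hm
  exact mul_right_cancel (hm.symm.trans (one_mul g).symm)

end Cfsg.Agent.S3362
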