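import Cfsg.Statements.S3370
import Mathlib
import Cfsg.Agent.S1160
import Cfsg.Agent.Lib.UniqueOrderP

set_option autoImplicit false
open Cfsg

namespace Cfsg.Agent.S3370


theorem ord8 : (!![1, 1; 1, 0] : Matrix (Fin 2) (Fin 2) (ZMod 3)) ^ 8 = 1 ∧ (!![1, 1; 1, 0] : Matrix (Fin 2) (Fin 2) (ZMod 3)) ^ 4 ≠ 1 := by
  decide

theorem ord2 : (!![1, 0; 2, 2] : Matrix (Fin 2) (Fin 2) (ZMod 3)) ^ 2 = 1 ∧ (!![1, 0; 2, 2] : Matrix (Fin 2) (Fin 2) (ZMod 3)) ≠ 1 ∧
    (!![1, 0; 2, 2] : Matrix (Fin 2) (Fin 2) (ZMod 3)) * !![1, 1; 1, 0] = !![1, 1; 1, 0] ^ 3 * !![1, 0; 2, 2] ∧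
    (∀ i : Fin 8, (!![1, 1; 1, 0] : Matrix (Fin 2) (Fin 2) (ZMod 3)) ^ (i : ℕ) ≠ !![1, 0; 2, 2]) := by
  decide

/-- `2^n - 1` is no proper power of an odd number greater than one. -/
theorem pow_sub_one {n p b : ℕ} (hp : Odd p) (hp1 : 1 < p) (hb : 2 ≤ b) : 2 ^ n ≠ p ^ b + 1 := by
  intro h
  have hpb : 1 < p ^ b := Nat.one_lt_pow (by omega) hp1
  have hn : 2 ≤ n := by
    by_contra hn
    have : n = 0 ∨ n = 1 := by omega
    rcases this with rfl | rfl <;> omega
  obtain ⟨n', rfl⟩ := Nat.exists_eq_add_of_le hn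
  rcases Nat.even_or_odd b with ⟨c, rfl⟩ | hbo
  · obtain ⟨r, hr⟩ := hp.pow (n := c)
    rw [pow_add, pow_add, hr, show (2 * r + 1) * (2 * r + 1) = 4 * (r * r + r) + 1 by ring] at h
    omega
  · have hd : p + 1 ∣ p ^ b + 1 ^ b := hbo.nat_add_dvd_pow_add_pow p 1
    rw [one_pow, ← h] at hd
    obtain ⟨m, hm, hpm⟩ := (Nat.dvd_prime_pow Nat.prime_two).mp hd
    have hm2 : 2 ≤ m := by
      by_contra hm2
      have : m = 0 ∨ m = 1 := by omega
      rcases this with rfl | rfl <;> omega
    obtain ⟨m', rfl⟩ := Nat.exists_eq_add_of_le hm2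
    have hsq : p * p ≡ 1 [MOD 2 ^ (2 + m' + 1)] := by
      obtain ⟨u, hu⟩ : ∃ u, 2 ^ m' = u := ⟨_, rfl⟩
      have hu1 : 1 ≤ u := hu ▸ Nat.one_le_two_pow
      obtain ⟨u', rfl⟩ := Nat.exists_eq_add_of_le hu1
      have hp' : p = 4 * u' + 3 := by rw [pow_add, hu] at hpm; omega
      symm
      rw [Nat.modEq_iff_dvd' (by nlinarith), pow_succ, pow_add, hu]
      refine ⟨2 * u' + 1, ?_⟩
      rw [hp', show (4 * u' + 3) * (4 * u' + 3) = 2 ^ 2 * (1 + u') * 2 * (2 * u' + 1) + 1 by ring]
      omega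
    obtain ⟨c, rfl⟩ := hbo
    have h2 : p ^ (2 * c + 1) + 1 ≡ p + 1 [MOD 2 ^ (2 + m' + 1)] := by
      refine Nat.ModEq.add_right 1 ?_
      rw [pow_succ p, pow_mul, pow_two]
      simpa using (hsq.pow c).mul_right p
    rw [← h, hpm] at h2
    have hle : 2 + n' ≤ 2 + m' := by
      by_contra hlt
      have h3 : (2 : ℕ) ^ (2 + n') % 2 ^ (2 + m' + 1) = 0 := Nat.mod_eq_zero_of_dvd (pow_dvd_pow 2 (by omega))
      rw [Nat.ModEq, h3, Nat.mod_eq_of_lt (Nat.pow_lt_pow_right one_lt_two (by omega))] at h2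
      exact (Nat.two_pow_pos _).ne h2
    have hle' := Nat.pow_le_pow_right (show 0 < 2 by norm_num) hle
    have hp2 : p ^ 1 < p ^ (2 * c + 1) := Nat.pow_lt_pow_right hp1 (by omega)
    rw [pow_one] at hp2
    omega


/-- Let q be a prime, V a non-trivial finite vector space over the field with q elements, and G a non-trivial finite p-group (p prime) acting faithfully and linearly on V and transitively on the non-zero vectors. Then either q = 2 and G has prime order p = |V| − 1; or p = 2, V has q elements with q = 2^m + 1 and G is cyclic of order 2^m; or p = 2, q = 3, V has 9 elements and G is cyclic of order 8, quaternion of order 8, or semidihedral of order 16. -/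
theorem result (q : ℕ) [Fact q.Prime] {V : Type*} [AddCommGroup V] [Module (ZMod q) V] [Finite V] [Nontrivial V]
    {G : Type*} [Group G] [Finite G] [Nontrivial G] (p : ℕ) [Fact p.Prime] (hG : IsPGroup p G)
    (ρ : G →* (V ≃ₗ[ZMod q] V)) (hρ : Function.Injective ρ)
    (htrans : ∀ v w : V, v ≠ 0 → w ≠ 0 → ∃ g : G, ρ g v = w) :
    (q = 2 ∧ p = Nat.card V - 1 ∧ Nat.card G = p) ∨
    (p = 2 ∧ Nat.card V = q ∧ (∃ m : ℕ, q = 2 ^ m + 1 ∧ Nat.card G = 2 ^ m) ∧ IsCyclic G) ∨
    (p = 2 ∧ q = 3 ∧ Nat.card V = 9 ∧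
      ((IsCyclic G ∧ Nat.card G = 8) ∨ Nonempty (G ≃* QuaternionGroup 2) ∨ (Cfsg.IsQuasiDihedral G ∧ Nat.card G = 16))) := by
  classical
  have hp := (Fact.out : p.Prime)
  have hq := (Fact.out : q.Prime)
  let act : DistribMulAction G V :=
    { smul := fun g v => ρ g v
      one_smul := fun v => by show ρ 1 v = v; rw [map_one]; rfl
      mul_smul := fun g h v => by show ρ (g * h) v = ρ g (ρ h v); rw [map_mul]; rfl
      smul_zero := fun g => map_zero (ρ g)
      smul_add := fun g => map_add (ρ g) }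
  have hfaith : FaithfulSMul G V := ⟨fun {g h} e => hρ (LinearEquiv.ext e)⟩
  have hdim := Module.natCard_eq_pow_finrank (K := ZMod q) (V := V)
  rw [Nat.card_zmod] at hdim
  set n := Module.finrank (ZMod q) V with hn
  have hN1 : 1 < Nat.card V := Finite.one_lt_card
  have hn0 : n ≠ 0 := fun h => by rw [h, pow_zero] at hdim; omega
  have horb : ∀ v : V, v ≠ 0 → Nat.card (MulAction.orbit G v) * Nat.card (MulAction.stabilizer G v) = Nat.card G ∧
      Nat.card (MulAction.orbit G v) = Nat.card V - 1 := by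
    intro v hv
    refine ⟨?_, ?_⟩
    · rw [Nat.card_congr (MulAction.orbitEquivQuotientStabilizer G v), Nat.mul_comm]
      exact (Subgroup.card_mul_index (MulAction.stabilizer G v))
    · have : MulAction.orbit G v = {(0 : V)}ᶜ := by
        ext w
        constructor
        · rintro ⟨g, rfl⟩ h0
          exact hv ((map_eq_zero_iff _ (ρ g).injective).mp h0)
        · intro hw
          obtain ⟨g, hg⟩ := htrans v w hv hw
          exact ⟨g, hg⟩
      rw [Nat.card_coe_set_eq, this, Set.ncard_compl, Set.ncard_singleton]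
  obtain ⟨v₀, hv₀⟩ := exists_ne (0 : V)
  obtain ⟨k, hk⟩ := IsPGroup.iff_card.mp hG
  obtain ⟨b, -, hb⟩ : ∃ b ≤ k, Nat.card V - 1 = p ^ b := by
    refine (Nat.dvd_prime_pow hp).mp ?_
    rw [← hk, ← (horb v₀ hv₀).1, (horb v₀ hv₀).2]
    exact Dvd.intro _ rfl
  have hGcard : (∀ g : G, g ≠ 1 → ∀ a : V, g • a = a → a = 0) → Nat.card G = Nat.card V - 1 := by
    intro hfree
    have h1 := (horb v₀ hv₀).1
    rw [(horb v₀ hv₀).2] at h1
    have : MulAction.stabilizer G v₀ = ⊥ := (Subgroup.eq_bot_iff_forall _).mpr fun g hg => by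
      by_contra hne; exact hv₀ (hfree g hne v₀ hg)
    rw [this, Subgroup.card_bot, mul_one] at h1
    exact h1.symm
  have hone : Nat.card V ≠ 2 := by
    intro h
    obtain ⟨g, hg⟩ := exists_ne (1 : G)
    refine hg (eq_of_smul_eq_smul (α := V) fun v => ?_)
    rw [one_smul]
    by_cases hv : v = 0
    · rw [hv, smul_zero]
    have h2 := horb v hv
    have hs : (MulAction.orbit G v).ncard = 1 := by rw [← Nat.card_coe_set_eq, h2.2, h]
    obtain ⟨w, hw⟩ := Set.ncard_eq_one.mp hs
    have e1 : g • v ∈ ({w} : Set V) := hw ▸ MulAction.mem_orbit v g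
    have e2 : v ∈ ({w} : Set V) := hw ▸ MulAction.mem_orbit_self v
    exact e1.trans e2.symm
  by_cases hp2 : p = 2
  swap
  · -- odd prime
    left
    obtain ⟨hcyc, hfree⟩ := Cfsg.Agent.S1160.result (P := G) (E := V) hp2 hG hq
      (fun e => ZModModule.char_nsmul_eq_zero q e) (fun x y hx hy => by
        have h1 := horb x hx; have h2 := horb y hy
        have : Nat.card (MulAction.orbit G x) * Nat.card (MulAction.stabilizer G x) =
            Nat.card (MulAction.orbit G x) * Nat.card (MulAction.stabilizer G y) := by rw [h1.1, h1.2, ← h2.2, h2.1]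
        exact Nat.eq_of_mul_eq_mul_left (by rw [h1.2]; omega) this)
    have hpo : Odd p := hp.odd_of_ne_two hp2
    have hodd : Odd (p ^ b) := hpo.pow
    have hq2 : q = 2 := by
      by_contra hq2
      obtain ⟨r, hr⟩ := (hq.odd_of_ne_two hq2).pow (n := n)
      obtain ⟨s, hs⟩ := hodd
      omega
    subst hq2
    have hb1 : b = 1 := by
      by_contra hb1
      rcases Nat.lt_or_ge b 2 with hb2 | hb2
      · have : b = 0 := by omega
        rw [this, pow_zero] at hb
        exact hone (by omega)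
      · exact pow_sub_one (n := n) hpo hp.one_lt hb2 (by omega)
    rw [hb1, pow_one] at hb
    exact ⟨rfl, hb.symm, (hGcard hfree).trans hb⟩
  subst hp2
  right
  have hb0 : b ≠ 0 := fun h => hone (by rw [h, pow_zero] at hb; omega)
  have hqo : Odd q := by
    refine hq.odd_of_ne_two fun h => ?_
    subst h
    obtain ⟨b', rfl⟩ := Nat.exists_eq_succ_of_ne_zero hb0
    obtain ⟨n', hn'⟩ := Nat.exists_eq_succ_of_ne_zero hn0
    rw [hn', pow_succ] at hdim
    rw [pow_succ] at hb
    omega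
  have hVb : q ^ n = 2 ^ b + 1 := by omega
  by_cases hn1 : n = 1
  · left
    rw [hn1, pow_one] at hdim hVb
    -- scalars
    have hsc : ∀ g : G, ∃ c : ZMod q, ∀ v : V, ρ g v = c • v := by
      intro g
      obtain ⟨c, hc⟩ := exists_smul_eq_of_finrank_eq_one hn1 hv₀ (ρ g v₀)
      refine ⟨c, fun v => ?_⟩
      obtain ⟨d, rfl⟩ := exists_smul_eq_of_finrank_eq_one hn1 hv₀ v
      rw [map_smul, ← hc, smul_comm]
    choose c hc using hsc
    have hc_inj : Function.Injective c := fun g h e => hρ (LinearEquiv.ext fun v => by rw [hc, hc, e])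
    let φ : G →* ZMod q :=
      { toFun := c
        map_one' := smul_left_injective (ZMod q) hv₀ (by
          show c 1 • v₀ = (1 : ZMod q) • v₀
          rw [← hc, map_one, one_smul]; rfl)
        map_mul' := fun g h => smul_left_injective (ZMod q) hv₀ (by
          show c (g * h) • v₀ = (c g * c h) • v₀
          rw [← hc, map_mul, mul_smul, ← hc h, ← hc g]; rfl) }
    have hfree : ∀ g : G, g ≠ 1 → ∀ a : V, g • a = a → a = 0 := by
      intro g hg a ha
      by_contra ha0
      refine hg (hc_inj ?_)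
      refine (smul_left_injective (ZMod q) ha0 ?_).trans φ.map_one.symm
      show c g • a = (1 : ZMod q) • a
      rw [← hc, one_smul]; exact ha
    refine ⟨rfl, hdim, ⟨b, hVb, ?_⟩, isCyclic_of_subgroup_isDomain φ hc_inj⟩
    rw [hGcard hfree, hdim]; omega
  right
  have hn2 : q ^ n = 9 ∧ n = 2 ∧ q = 3 := by
    rcases Nat.even_or_odd n with ⟨c, hc⟩ | hno
    · have hx : (q ^ c - 1) * (q ^ c + 1) = 2 ^ b := by
        have h0 := Nat.one_le_pow c q hq.pos
        zify [h0] at hVb ⊢
        rw [hc, pow_add] at hVb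
        linarith [hVb, show ((q : ℤ) ^ c - 1) * ((q : ℤ) ^ c + 1) = (q : ℤ) ^ c * (q : ℤ) ^ c - 1 by ring]
      obtain ⟨i, -, hi⟩ := (Nat.dvd_prime_pow Nat.prime_two).mp (Dvd.intro _ hx)
      obtain ⟨j, -, hj⟩ := (Nat.dvd_prime_pow Nat.prime_two).mp (Dvd.intro_left _ hx)
      have hqc : q ^ c = 3 := by
        have h3 : 3 ≤ q := by have := hq.two_le; obtain ⟨r, hr⟩ := hqo; omega
        have hc0 : c ≠ 0 := by omega
        have h4 : 3 ≤ q ^ c := h3.trans (Nat.le_self_pow hc0 q)
        have hi1 : 1 ≤ i := by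
          by_contra h'
          rw [show i = 0 by omega, pow_zero] at hi; omega
        have hj2 : 2 ≤ j := by
          by_contra h'
          rcases (show j = 0 ∨ j = 1 by omega) with h'' | h'' <;> rw [h''] at hj <;> norm_num at hj <;> omega
        obtain ⟨j', rfl⟩ := Nat.exists_eq_add_of_le hj2
        by_contra hne
        have hi2 : 2 ≤ i := by
          by_contra h'
          rw [show i = 1 by omega, pow_one] at hi; omega
        obtain ⟨i', rfl⟩ := Nat.exists_eq_add_of_le hi2
        rw [pow_add] at hi hj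
        omega
      have hc1 : c = 1 := by
        by_contra hc1
        have hc2 : 2 ≤ c := by omega
        have h5 : q ^ 2 ≤ q ^ c := Nat.pow_le_pow_right hq.pos hc2
        have h6 := Nat.mul_le_mul hq.two_le hq.two_le
        rw [pow_two] at h5
        omega
      rw [hc1, pow_one] at hqc
      have hn' : n = 2 := by omega
      exact ⟨by rw [hn', hqc]; norm_num, hn', hqc⟩
    · exfalso
      have hgeom := Nat.geomSum_eq hq.two_le n
      have hdd : q - 1 ∣ q ^ n - 1 := by simpa using Nat.sub_dvd_pow_sub_pow q 1 n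
      set s := ∑ i ∈ Finset.range n, q ^ i with hs
      have hmul : s * (q - 1) = 2 ^ b := by
        rw [hgeom, Nat.div_mul_cancel hdd]; omega
      have hsodd : Odd s := by
        rw [hs, Nat.odd_iff, Finset.sum_nat_mod, Finset.sum_congr rfl (fun i _ => Nat.odd_iff.mp (hqo.pow (n := i)))]
        simp [Nat.odd_iff.mp hno]
      obtain ⟨j, -, hj⟩ := (Nat.dvd_prime_pow Nat.prime_two).mp (Dvd.intro _ hmul)
      have hj0 : j = 0 := by
        by_contra h
        rw [hj] at hsodd
        exact Nat.not_even_iff_odd.mpr hsodd ((Nat.even_pow).mpr ⟨even_two, h⟩)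
      rw [hj0, pow_zero] at hj
      have h2 : q ^ 0 + q ^ 1 ≤ s := by
        rw [hs, show q ^ 0 + q ^ 1 = ∑ i ∈ Finset.range 2, q ^ i by simp [Finset.sum_range_succ]]
        exact Finset.sum_le_sum_of_subset (Finset.range_mono (by omega))
      rw [pow_zero, pow_one] at h2
      have := hq.two_le
      omega
  obtain ⟨h9, hn2, hq3⟩ := hn2
  subst hq3
  refine ⟨rfl, rfl, hdim.trans h9, ?_⟩
  have hb3 : Nat.card V - 1 = 8 := by omega
  let B : Module.Basis (Fin 2) (ZMod 3) V := Module.finBasisOfFinrankEq (ZMod 3) V hn2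
  let M : G →* Matrix (Fin 2) (Fin 2) (ZMod 3) :=
    { toFun := fun g => LinearMap.toMatrixAlgEquiv B (ρ g : V →ₗ[ZMod 3] V)
      map_one' := by rw [map_one]; exact map_one (LinearMap.toMatrixAlgEquiv B)
      map_mul' := fun g h => by rw [map_mul]; exact map_mul (LinearMap.toMatrixAlgEquiv B) _ _ }
  let F : G →* GL (Fin 2) (ZMod 3) := M.toHomUnits
  have hF : Function.Injective F := fun g h e => hρ (LinearEquiv.toLinearMap_injective
    ((LinearMap.toMatrixAlgEquiv B).injective (congrArg Units.val e)))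
  have hGL : Nat.card (GL (Fin 2) (ZMod 3)) = 2 ^ 4 * 3 := by
    rw [Matrix.card_GL_field, Fin.prod_univ_two, ZMod.card]; norm_num
  have hdvd := Subgroup.card_dvd_of_injective F hF
  rw [hGL, hk] at hdvd
  have hk4 : k ≤ 4 := (Nat.pow_dvd_pow_iff_le_right (by norm_num : 1 < 2)).mp
    ((Nat.Coprime.pow_left k (by norm_num : Nat.Coprime 2 3)).dvd_of_dvd_mul_right hdvd)
  have hk3 : 3 ≤ k := by
    by_contra h'
    have h1 := (horb v₀ hv₀).1
    rw [(horb v₀ hv₀).2, hb3, hk] at h1
    have := Nat.le_of_dvd (Nat.two_pow_pos k) (Dvd.intro _ h1)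
    have := Nat.pow_le_pow_right (show 0 < 2 by norm_num) (show k ≤ 2 by omega)
    omega
  rcases (show k = 3 ∨ k = 4 by omega) with rfl | rfl
  · -- regular: a unique involution
    have hfree : ∀ g : G, g ≠ 1 → ∀ a : V, g • a = a → a = 0 := by
      intro g hg a ha
      by_contra ha0
      have h1 := (horb a ha0).1
      rw [(horb a ha0).2, hb3, hk] at h1
      have : MulAction.stabilizer G a = ⊥ := Subgroup.card_eq_one.mp (by omega)
      exact hg (by rw [← Subgroup.mem_bot, ← this]; exact ha)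
    have hneg : ∀ t : G, orderOf t = 2 → ∀ v : V, t • v = -v := by
      intro t ht v
      have ht1 : t ≠ 1 := fun h => by rw [h, orderOf_one] at ht; omega
      have htt : t * t = 1 := by rw [← pow_two, ← ht, pow_orderOf_eq_one]
      have := hfree t ht1 (t • v + v) (by rw [smul_add, ← mul_smul, htt, one_smul, add_comm])
      exact eq_neg_of_add_eq_zero_left this
    rcases CfsgLib.UniqueOrderP.cyclic_or_quaternion hG (fun x y hx hy => by
      have : x = y := eq_of_smul_eq_smul (α := V) fun v => by rw [hneg x hx, hneg y hy]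
      rw [this]; exact Subgroup.mem_zpowers y) with h | ⟨-, m, ⟨e⟩⟩
    · exact Or.inl ⟨h, by rw [hk]; norm_num⟩
    · refine Or.inr (Or.inl ?_)
      have hcard := Nat.card_congr e.toEquiv
      rw [hk, Nat.card_eq_fintype_card (α := QuaternionGroup _), QuaternionGroup.card] at hcard
      have hm : m = 1 := Nat.pow_right_injective (le_refl 2) (show 2 ^ m = 2 ^ 1 by omega)
      subst hm
      exact ⟨e⟩
  · refine Or.inr (Or.inr ⟨?_, by rw [hk]; norm_num⟩)
    let X : GL (Fin 2) (ZMod 3) := ⟨!![1, 1; 1, 0], !![1, 1; 1, 0] ^ 7, by rw [← pow_succ']; exact ord8.1, by rw [← pow_succ]; exact ord8.1⟩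
    let Y : GL (Fin 2) (ZMod 3) := ⟨!![1, 0; 2, 2], !![1, 0; 2, 2], by rw [← pow_two]; exact ord2.1, by rw [← pow_two]; exact ord2.1⟩
    have hX : orderOf X = 2 ^ (2 + 1) := by
      refine orderOf_eq_prime_pow (fun h => ord8.2 ?_) ?_
      · exact congrArg Units.val h
      · exact Units.ext ord8.1
    have hY : orderOf Y = 2 := orderOf_eq_prime (Units.ext ord2.1) fun h => ord2.2.1 (congrArg Units.val h)
    have hYX : Y * X * Y⁻¹ = X ^ 3 := mul_inv_eq_iff_eq_mul.mpr (Units.ext ord2.2.2.1)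
    set S := Subgroup.zpowers Y ⊔ Subgroup.zpowers X with hS
    have hnorm : Subgroup.zpowers Y ≤ Subgroup.normalizer ((Subgroup.zpowers X) : Set (GL (Fin 2) (ZMod 3))) := by
      rw [Subgroup.zpowers_le, Subgroup.mem_normalizer_iff]
      have fwd : ∀ w ∈ Subgroup.zpowers X, Y * w * Y⁻¹ ∈ Subgroup.zpowers X := by
        rintro _ ⟨i, rfl⟩
        show Y * X ^ i * Y⁻¹ ∈ _
        rw [← conj_zpow, hYX]
        exact zpow_mem (Subgroup.npow_mem_zpowers X 3) i
      intro w
      refine ⟨fwd w, fun h => ?_⟩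
      have h2 := fwd _ h
      have e : Y⁻¹ = Y := inv_eq_of_mul_eq_one_right (Units.ext (by rw [Units.val_mul, ← pow_two]; exact ord2.1))
      rw [e, show Y * (Y * w * Y) * Y = (Y * Y) * w * (Y * Y) by group,
        show Y * Y = 1 by nth_rewrite 2 [← e]; exact mul_inv_cancel Y, one_mul, mul_one] at h2
      exact h2
    have hPY : IsPGroup 2 (Subgroup.zpowers Y) := IsPGroup.of_card (n := 1) (by rw [Nat.card_zpowers, hY, pow_one])
    have hPX : IsPGroup 2 (Subgroup.zpowers X) := IsPGroup.of_card (n := 3) (by rw [Nat.card_zpowers, hX])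
    have hSp : IsPGroup 2 S := hPY.to_sup_of_normal_right' hPX hnorm
    obtain ⟨P, hP⟩ := hSp.exists_le_sylow
    have hfac : (Nat.card (GL (Fin 2) (ZMod 3))).factorization 2 = 4 := by
      rw [hGL, Nat.factorization_mul (pow_ne_zero 4 two_ne_zero) three_ne_zero, Finsupp.add_apply,
        Nat.prime_two.factorization_pow, Nat.prime_three.factorization, Finsupp.single_eq_same,
        Finsupp.single_eq_of_ne (by norm_num), add_zero]
    have hR : Nat.card F.range = 2 ^ (Nat.card (GL (Fin 2) (ZMod 3))).factorization 2 := by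
      rw [hfac, ← hk]; exact (Nat.card_congr (MonoidHom.ofInjective hF).toEquiv).symm
    obtain ⟨g, hg⟩ := MulAction.exists_smul_eq (GL (Fin 2) (ZMod 3)) P (Sylow.ofCard F.range hR)
    have hmem : ∀ Z ∈ S, ∃ z : G, F z = g * Z * g⁻¹ := by
      intro Z hZ
      have : g * Z * g⁻¹ ∈ F.range := by
        have h' := congrArg (fun Q : Sylow 2 _ => (Q : Subgroup (GL (Fin 2) (ZMod 3)))) hg
        simp only [Sylow.coe_subgroup_smul] at h'
        have h'' : g * Z * g⁻¹ ∈ (Sylow.ofCard F.range hR : Subgroup (GL (Fin 2) (ZMod 3))) := by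
          rw [← h']
          exact Subgroup.smul_mem_pointwise_smul Z (MulAut.conj g) _ (hP hZ)
        exact h''
      exact this
    obtain ⟨x, hx⟩ := hmem X ((le_sup_right : _ ≤ S) (Subgroup.mem_zpowers X))
    obtain ⟨y, hy⟩ := hmem Y ((le_sup_left : _ ≤ S) (Subgroup.mem_zpowers Y))
    refine ⟨3, le_rfl, hk, x, y, ?_, ?_, hF ?_⟩
    · rw [← orderOf_injective F hF x, hx, ← MulAut.conj_apply, MulEquiv.orderOf_eq, hX]
    · rw [← orderOf_injective F hF y, hy, ← MulAut.conj_apply, MulEquiv.orderOf_eq, hY]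
    · rw [map_mul, map_mul, map_inv, map_pow, hx, hy, conj_pow]
      calc g * Y * g⁻¹ * (g * X * g⁻¹) * (g * Y * g⁻¹)⁻¹ = g * (Y * X * Y⁻¹) * g⁻¹ := by group
        _ = _ := by rw [hYX]; norm_num

end Cfsg.Agent.S3370
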