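import Cfsg.Statements.S3380
import Mathlib
import Cfsg.Agent.S0519
import Cfsg.Agent.Lib.Perm.ModularFixed
import Cfsg.Agent.Lib.PLocal.OddRankTwo
import Cfsg.Agent.Lib.PStep
import Cfsg.Agent.Lib.UniqueOrderP

set_option autoImplicit false
set_option maxHeartbeats 1000000
open Cfsg

namespace Cfsg.Agent.S3380

theorem uniq_of_all_cyclic {G : Type*} [Group G] [Finite G] {p : ℕ} [Fact p.Prime] (hG : IsPGroup p G)
    (hm : ∀ B : Subgroup G, IsMulCommutative B → IsCyclic B) : CfsgLib.UniqueOrderP.Uniq p G := by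
  intro x y hx hy
  have hp : p.Prime := Fact.out
  haveI : Nontrivial G := ⟨⟨x, 1, fun e => hp.ne_one (by rw [← hx, e, orderOf_one])⟩⟩
  haveI := hG.center_nontrivial
  obtain ⟨z, hz⟩ : ∃ z : Subgroup.center G, orderOf z = p := by
    obtain ⟨n, hn0, hn⟩ := (hG.to_subgroup (Subgroup.center G)).nontrivial_iff_card.mp inferInstance
    exact exists_prime_orderOf_dvd_card' p (hn ▸ dvd_pow_self p hn0.ne')
  have key : ∀ w : G, orderOf w = p → Subgroup.zpowers w = Subgroup.zpowers (z : G) := by
    intro w hw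
    have hzw : (z : G) * w = w * (z : G) := (Subgroup.mem_center_iff.mp z.2 w).symm
    let B : Subgroup G := Subgroup.closure {(z : G), w}
    have hB : IsMulCommutative B := Subgroup.isMulCommutative_closure (by
      intro a ha b hb
      simp only [Set.mem_insert_iff, Set.mem_singleton_iff] at ha hb
      rcases ha with rfl | rfl <;> rcases hb with rfl | rfl <;> first | rfl | exact hzw | exact hzw.symm)
    haveI := hm B hB
    have hzB : (z : G) ∈ B := Subgroup.subset_closure (Set.mem_insert _ _)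
    have hwB : w ∈ B := Subgroup.subset_closure (Set.mem_insert_of_mem _ rfl)
    have hzo : orderOf (⟨_, hzB⟩ : B) = p := by rw [Subgroup.orderOf_mk, Subgroup.orderOf_coe, hz]
    have hwo : orderOf (⟨_, hwB⟩ : B) = p := by rw [Subgroup.orderOf_mk, hw]
    refine Subgroup.eq_of_le_of_card_ge ?_ (by rw [Nat.card_zpowers, Nat.card_zpowers, hw, Subgroup.orderOf_coe, hz])
    rw [Subgroup.zpowers_le]
    obtain ⟨i, hi⟩ := Subgroup.mem_zpowers_iff.mp (CfsgLib.UniqueOrderP.uniq_of_cyclic (G := B) (p := p) _ _ hzo hwo)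
    exact Subgroup.mem_zpowers_iff.mpr ⟨i, by simpa using congrArg Subtype.val hi⟩
  rw [key x hx, ← key y hy]
  exact Subgroup.mem_zpowers y

theorem quaternion_cyclic {A : Type*} [Group A] (n : ℕ) (hc : IsMulCommutative A) (e : A ≃* QuaternionGroup (2 ^ n)) :
    IsCyclic A := by
  rcases Nat.eq_zero_or_pos n with rfl | hn
  · refine e.isCyclic.mpr ?_
    exact isCyclic_of_orderOf_eq_card (QuaternionGroup.xa 0) (by simp [QuaternionGroup.orderOf_xa, Nat.card_eq_fintype_card, QuaternionGroup.card])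
  · exfalso
    have h := hc.is_comm.comm (e.symm (QuaternionGroup.a 1)) (e.symm (QuaternionGroup.xa 0))
    rw [← map_mul, ← map_mul] at h
    have h1 := e.symm.injective h
    rw [QuaternionGroup.a_mul_xa, QuaternionGroup.xa_mul_a] at h1
    have h2 : ((2 : ℕ) : ZMod (2 * 2 ^ n)) = 0 := by
      have h3 := QuaternionGroup.xa.inj h1
      push_cast
      linear_combination -h3
    rw [ZMod.natCast_eq_zero_iff] at h2
    have := Nat.le_of_dvd (by norm_num) h2
    have := Nat.one_lt_two_pow hn.ne'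
    omega


/-- Let a finite p-group G act faithfully and irreducibly on a non-trivial finite vector space V over the field with q elements (q prime), and suppose G is not cyclic, generalized quaternion, dihedral or semidihedral. Then G has a subgroup H of index p and V is the direct sum of p subspaces, each invariant under H, on none of which H acts faithfully, and which every element of G outside H permutes in a single p-cycle. -/
theorem result
    (q : ℕ) [Fact q.Prime] {V : Type*} [AddCommGroup V] [Module (ZMod q) V] [Finite V] [Nontrivial V]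
    {G : Type*} [Group G] [Finite G] (p : ℕ) [Fact p.Prime] (hG : IsPGroup p G)
    (ρ : G →* (V ≃ₗ[ZMod q] V)) (hρ : Function.Injective ρ)
    (hirr : ∀ W : Submodule (ZMod q) V, (∀ g : G, ∀ w ∈ W, ρ g w ∈ W) → W = ⊥ ∨ W = ⊤)
    (hnc : ¬ IsCyclic G) (hnq : ∀ n : ℕ, ¬ Nonempty (G ≃* QuaternionGroup n))
    (hnd : ∀ n : ℕ, ¬ Nonempty (G ≃* DihedralGroup n)) (hnsd : ¬ Cfsg.IsQuasiDihedral G) :
    ∃ (H : Subgroup G) (W : Fin p → Submodule (ZMod q) V), H.index = p ∧
      iSup W = ⊤ ∧ iSupIndep W ∧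
      (∀ h ∈ H, ∀ i, ∀ w ∈ W i, ρ h w ∈ W i) ∧
      (∀ i, ∃ h ∈ H, h ≠ 1 ∧ ∀ w ∈ W i, ρ h w = w) ∧
      ∀ g : G, g ∉ H → ∃ σ : Equiv.Perm (Fin p), orderOf σ = p ∧ ∀ i, (W i).map (ρ g : V →ₗ[ZMod q] V) = W (σ i) := by
  classical
  haveI := Fintype.ofFinite G
  let R : G →* Module.End (ZMod q) V :=
    { toFun := fun g => (ρ g : V →ₗ[ZMod q] V)
      map_one' := by rw [map_one]; rfl
      map_mul' := fun a b => by rw [map_mul]; rfl }
  have hRapply : ∀ g v, R g v = ρ g v := fun g v => rfl
  have hRinj : ∀ {g : G}, (∀ v, R g v = v) → g = 1 := fun {g} h => hρ (LinearEquiv.ext fun v => by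
    rw [map_one]; exact h v)
  have hRmul : ∀ a b v, R (a * b) v = R a (R b v) := fun a b v => by rw [map_mul]; rfl
  have hp : p.Prime := Fact.out
  have hpq : p ≠ q := by
    rintro rfl
    obtain ⟨w, -, hw0, hw⟩ := CfsgLib.Perm.ModularFixed.exists_fixed hG R ⊤ top_ne_bot (fun g w _ => Submodule.mem_top)
    let F : Submodule (ZMod p) V :=
      { carrier := {v | ∀ g : G, R g v = v}
        add_mem' := fun {a b} ha hb g => by rw [map_add, ha g, hb g]
        zero_mem' := fun g => map_zero _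
        smul_mem' := fun c a ha g => by rw [map_smul, ha g] }
    rcases hirr F (fun g v hv h => by show R h (R g v) = R g v; rw [hv g, hv h]) with h | h
    · have : w ∈ F := hw
      rw [h, Submodule.mem_bot] at this
      exact hw0 this
    · haveI : Subsingleton G := ⟨fun a b => by
        have h1 : ∀ g : G, g = 1 := fun g => hRinj fun v => (h ▸ Submodule.mem_top : v ∈ F) g
        rw [h1 a, h1 b]⟩
      exact hnc inferInstance
  have hpu : (p : ZMod q) ≠ 0 := by
    rw [Ne, ZMod.natCast_eq_zero_iff]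
    exact fun h => hpq ((Nat.prime_dvd_prime_iff_eq Fact.out hp).mp h).symm
  -- a normal elementary abelian subgroup of order p²
  obtain ⟨A, hAn, hAc, hAnc⟩ : ∃ A : Subgroup G, A.Normal ∧ IsMulCommutative A ∧ ¬ IsCyclic A := by
    by_contra hcon
    have hn : ∀ A : Subgroup G, A.Normal → IsMulCommutative A → IsCyclic A := fun A a b => by
      by_contra hA; exact hcon ⟨A, a, b, hA⟩
    by_cases hm : ∃ B : Subgroup G, IsMulCommutative B ∧ ¬ IsCyclic B
    · rcases (Cfsg.Agent.S0519.result p hG hn hm).2 with ⟨n, h⟩ | ⟨n, -, h⟩ | h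
      · exact hnq n h
      · exact hnd n h
      · exact hnsd h
    · push Not at hm
      have hu : CfsgLib.UniqueOrderP.Uniq p G := uniq_of_all_cyclic hG hm
      rcases CfsgLib.UniqueOrderP.cyclic_or_quaternion hG hu with h | ⟨-, n, h⟩
      · exact hnc h
      · exact hnq _ h
  have hcA : ∀ a ∈ A, ∀ b ∈ A, a * b = b * a := fun a ha b hb =>
    congrArg Subtype.val (hAc.is_comm.comm (⟨a, ha⟩ : A) ⟨b, hb⟩)
  let W₀ : Subgroup G :=
    { carrier := {x | x ∈ A ∧ x ^ p = 1}
      one_mem' := ⟨A.one_mem, one_pow p⟩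
      mul_mem' := fun {a b} ha hb => ⟨A.mul_mem ha.1 hb.1, by
        rw [(show Commute a b from hcA a ha.1 b hb.1).mul_pow, ha.2, hb.2, one_mul]⟩
      inv_mem' := fun {a} ha => ⟨A.inv_mem ha.1, by rw [inv_pow, ha.2, inv_one]⟩ }
  haveI : W₀.Normal := ⟨fun x hx g => ⟨hAn.conj_mem x hx.1 g, by rw [conj_pow, hx.2, mul_one, mul_inv_cancel]⟩⟩
  have hW₀ : p < Nat.card W₀ := by
    by_contra hle
    apply hAnc
    have hu : CfsgLib.UniqueOrderP.Uniq p A := by
      intro x y hx hy
      have hxW : ((x : A) : G) ∈ W₀ := ⟨x.2, by rw [← SubgroupClass.coe_pow, ← hx, pow_orderOf_eq_one]; rfl⟩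
      have hyW : ((y : A) : G) ∈ W₀ := ⟨y.2, by rw [← SubgroupClass.coe_pow, ← hy, pow_orderOf_eq_one]; rfl⟩
      have h1 : Subgroup.zpowers (x : G) = W₀ := Subgroup.eq_of_le_of_card_ge (Subgroup.zpowers_le.mpr hxW)
        (by rw [Nat.card_zpowers, Subgroup.orderOf_coe, hx]; omega)
      obtain ⟨i, hi⟩ := Subgroup.mem_zpowers_iff.mp (h1.symm ▸ hyW : (y : G) ∈ Subgroup.zpowers (x : G))
      exact Subgroup.mem_zpowers_iff.mpr ⟨i, Subtype.ext (by rw [SubgroupClass.coe_zpow]; exact hi)⟩
    rcases CfsgLib.UniqueOrderP.cyclic_or_quaternion (hG.to_subgroup A) hu with h | ⟨-, n, ⟨e⟩⟩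
    · exact h
    · exact (quaternion_cyclic n hAc e)
  obtain ⟨z, hz, hzo, hzc⟩ : ∃ z ∈ W₀, orderOf z = p ∧ z ∈ Subgroup.center G := by
    have h1 := CfsgLib.PStep.normal_inf_center_ne_bot hG ‹W₀.Normal› (fun h => by
      rw [h, Subgroup.card_bot] at hW₀; have := hp.two_le; omega)
    obtain ⟨z, hzm, hz1⟩ := (Subgroup.bot_or_exists_ne_one _).resolve_left h1
    exact ⟨z, hzm.1, orderOf_eq_prime hzm.1.2 hz1, hzm.2⟩
  obtain ⟨E, -, hEn, hEel, hEcard⟩ := CfsgLib.PLocal.exists_normal_prime_sq hG (fun x (hx : x ∈ W₀) => hx.2) hW₀ hz hzo hzc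
  haveI := hEn
  have hEexp : ∀ a ∈ E, a ^ p = 1 := hEel.2
  have hEcomm : ∀ a ∈ E, ∀ b ∈ E, a * b = b * a := fun a ha b hb =>
    congrArg Subtype.val (hEel.1.is_comm.comm (⟨a, ha⟩ : E) ⟨b, hb⟩)
  -- replace `z` by a central element inside `E`
  obtain ⟨z, hz, hzo, hzc⟩ : ∃ z ∈ E, orderOf z = p ∧ z ∈ Subgroup.center G := by
    have h1 := CfsgLib.PStep.normal_inf_center_ne_bot hG hEn (fun h => by
      rw [h, Subgroup.card_bot] at hEcard; exact (Nat.one_lt_pow two_ne_zero hp.one_lt).ne hEcard)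
    obtain ⟨z, hzm, hz1⟩ := (Subgroup.bot_or_exists_ne_one _).resolve_left h1
    exact ⟨z, hzm.1, orderOf_eq_prime (hEexp z hzm.1) hz1, hzm.2⟩
  obtain ⟨x, hx, hxz⟩ : ∃ x ∈ E, x ∉ Subgroup.zpowers z := by
    by_contra hcon
    push Not at hcon
    have := Subgroup.card_le_of_le hcon
    rw [hEcard, Nat.card_zpowers, hzo] at this
    rw [pow_two] at this
    have h2 := Nat.mul_le_mul_left p hp.two_le
    have := hp.two_le
    omega
  have hzx : ∀ g : G, g * z = z * g := fun g => Subgroup.mem_center_iff.mp hzc g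
  have hz1 : z ≠ 1 := fun h => by rw [h, orderOf_one] at hzo; exact hp.ne_one hzo.symm
  -- `z` fixes no vector
  have hzfix : ∀ v, R z v = v → v = 0 := by
    intro v hv
    rcases hirr (LinearMap.ker (R z - 1)) (fun g w hw => by
      rw [LinearMap.mem_ker, LinearMap.sub_apply, Module.End.one_apply, sub_eq_zero] at hw ⊢
      rw [← hRapply g, ← hRmul, ← hzx, hRmul, hw]) with h | h
    · have : v ∈ LinearMap.ker (R z - 1) := by simp [hv]
      rwa [h, Submodule.mem_bot] at this
    · refine absurd (hRinj fun w => ?_) hz1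
      have : w ∈ LinearMap.ker (R z - 1) := h ▸ Submodule.mem_top
      rwa [LinearMap.mem_ker, LinearMap.sub_apply, Module.End.one_apply, sub_eq_zero] at this
  have hzfix' : ∀ i : ℕ, ¬ p ∣ i → ∀ v, R (z ^ i) v = v → v = 0 := by
    intro i hi v hv
    apply hzfix
    obtain ⟨j, hj⟩ : ∃ j, z = (z ^ i) ^ j := by
      have hc : (orderOf z).Coprime i := hzo ▸ hp.coprime_iff_not_dvd.mpr hi
      obtain ⟨j, hj⟩ := exists_pow_eq_self_of_coprime hc.symm
      exact ⟨j, hj.symm⟩
    rw [hj]
    clear hj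
    induction j with
    | zero => rw [pow_zero, map_one]; rfl
    | succ j ih => rw [pow_succ, hRmul, hv, ih]
  -- the averaging operators
  let N : ℕ → Module.End (ZMod q) V := fun i => ∑ j ∈ Finset.range p, R ((x * z ^ i) ^ j)
  let W' : ℕ → Submodule (ZMod q) V := fun i => LinearMap.ker (R (x * z ^ i) - 1)
  have hWmem : ∀ i v, v ∈ W' i ↔ R (x * z ^ i) v = v := fun i v => by
    show v ∈ LinearMap.ker _ ↔ _
    rw [LinearMap.mem_ker, LinearMap.sub_apply, Module.End.one_apply, sub_eq_zero]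
  have hxzp : ∀ i, (x * z ^ i) ^ p = 1 := fun i => hEexp _ (mul_mem hx (pow_mem hz i))
  have hNin : ∀ i v, N i v ∈ W' i := by
    intro i v
    rw [hWmem]
    simp only [N, LinearMap.sum_apply, map_sum]
    simp only [← hRmul, ← pow_succ']
    have h1 := Finset.sum_range_succ (fun j => R ((x * z ^ i) ^ j) v) p
    have h2 := Finset.sum_range_succ' (fun j => R ((x * z ^ i) ^ j) v) p
    rw [h1, hxzp] at h2
    rw [pow_zero] at h2
    exact (add_right_cancel h2).symm
  have hzsum : ∀ i, ¬ p ∣ i → ∀ v, (∑ j ∈ Finset.range p, R ((z ^ i) ^ j) v) = 0 := by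
    intro i hi v
    apply hzfix' i hi
    rw [map_sum]
    simp only [← hRmul, ← pow_succ']
    have h1 := Finset.sum_range_succ (fun j => R ((z ^ i) ^ j) v) p
    have h2 := Finset.sum_range_succ' (fun j => R ((z ^ i) ^ j) v) p
    have hzp : (z ^ i) ^ p = 1 := by rw [← pow_mul, mul_comm, pow_mul, hEexp z hz, one_pow]
    rw [h1, hzp] at h2
    rw [pow_zero] at h2
    exact (add_right_cancel h2).symm
  have hsum : ∀ v, ∑ i ∈ Finset.range p, N i v = (p : ZMod q) • v := by
    intro v
    simp only [N, LinearMap.sum_apply]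
    rw [Finset.sum_comm, Finset.sum_eq_single_of_mem 0 (Finset.mem_range.mpr hp.pos)]
    · simp only [pow_zero, map_one, Module.End.one_apply, Finset.sum_const, Finset.card_range]
      rw [Nat.cast_smul_eq_nsmul]
    · intro j hj hj0
      have hnd : ¬ p ∣ j := fun h => absurd (Nat.le_of_dvd (Nat.pos_of_ne_zero hj0) h) (not_le.mpr (Finset.mem_range.mp hj))
      have : ∀ i, R ((x * z ^ i) ^ j) v = R (x ^ j) (R ((z ^ j) ^ i) v) := fun i => by
        rw [← hRmul, (show Commute x (z ^ i) from (hzx x |> fun h => (show Commute x z from h)).pow_right i).mul_pow, ← pow_mul, ← pow_mul, mul_comm i j]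
      simp only [this]
      rw [← map_sum, hzsum j hnd, map_zero]
  have hNW : ∀ i v, v ∈ W' i → N i v = (p : ZMod q) • v := by
    intro i v hv
    rw [hWmem] at hv
    simp only [N, LinearMap.sum_apply]
    have : ∀ j : ℕ, R ((x * z ^ i) ^ j) v = v := fun j => by
      induction j with
      | zero => rw [pow_zero, map_one]; rfl
      | succ j ih => rw [pow_succ, hRmul, hv, ih]
    rw [Finset.sum_congr rfl fun j _ => this j, Finset.sum_const, Finset.card_range, Nat.cast_smul_eq_nsmul]
  have hNW' : ∀ i k, i < p → k < p → i ≠ k → ∀ w ∈ W' k, N i w = 0 := by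
    intro i k hi hk hik w hw
    rw [hWmem] at hw
    obtain ⟨d, hd, hd'⟩ : ∃ d, ¬ p ∣ d ∧ z ^ i = z ^ k * z ^ d := by
      rcases Nat.lt_or_ge k i with h | h
      · exact ⟨i - k, fun hd => absurd (Nat.le_of_dvd (by omega) hd) (by omega), by rw [← pow_add, Nat.add_sub_cancel' h.le]⟩
      · refine ⟨p + i - k, fun hd => absurd (Nat.le_of_dvd (by omega) hd) (by omega), ?_⟩
        rw [← pow_add, show k + (p + i - k) = p + i by omega, pow_add, hEexp z hz, one_mul]
    have hpw : ∀ j : ℕ, R ((x * z ^ i) ^ j) w = R ((z ^ d) ^ j) w := by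
      intro j
      induction j with
      | zero => rw [pow_zero, pow_zero]
      | succ j ih =>
        rw [pow_succ', hRmul, ih, ← hRmul, hd',
          show x * (z ^ k * z ^ d) * (z ^ d) ^ j = (z ^ d) ^ (j + 1) * (x * z ^ k) by
            rw [(show Commute ((z ^ d) ^ (j + 1)) (x * z ^ k) from
              (((show Commute z (x * z ^ k) from (hzx (x * z ^ k)).symm).pow_left d).pow_left (j + 1))).eq, pow_succ']
            group,
          hRmul, hw]
    simp only [N, LinearMap.sum_apply, hpw]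
    exact hzsum d hd w
  -- the centraliser of `E`
  obtain ⟨H, hHdef⟩ : ∃ H : Subgroup G, H = Subgroup.centralizer (E : Set G) := ⟨_, rfl⟩
  have hEgen : ∀ e ∈ E, ∃ i j : ℕ, i < p ∧ j < p ∧ e = x ^ i * z ^ j := by
    let f : Fin p × Fin p → E := fun ij => ⟨x ^ (ij.1 : ℕ) * z ^ (ij.2 : ℕ), mul_mem (pow_mem hx _) (pow_mem hz _)⟩
    have hf : Function.Injective f := by
      rintro ⟨⟨i, hi⟩, ⟨j, hj⟩⟩ ⟨⟨i', hi'⟩, ⟨j', hj'⟩⟩ e
      have e' : x ^ i * z ^ j = x ^ i' * z ^ j' := congrArg Subtype.val e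
      have key : ∀ a b : ℕ, a < b → b < p → x ^ (b - a) ∈ Subgroup.zpowers z → False := by
        intro a b hab hbp hmem
        have hxo : orderOf x = p := orderOf_eq_prime (hEexp x hx) fun h => hxz (h ▸ one_mem _)
        have hc : (orderOf x).Coprime (b - a) := hxo ▸ hp.coprime_iff_not_dvd.mpr
          fun hd => absurd (Nat.le_of_dvd (by omega) hd) (by omega)
        obtain ⟨m, hm⟩ := exists_pow_eq_self_of_coprime hc.symm
        exact hxz (hm ▸ pow_mem hmem m)
      have hii : i = i' := by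
        rcases Nat.lt_trichotomy i i' with h | h | h
        · exfalso
          refine key i i' h hi' ?_
          have : x ^ (i' - i) = z ^ j * (z ^ j')⁻¹ := by
            rw [eq_mul_inv_iff_mul_eq, ← mul_right_inj (x ^ i), ← mul_assoc, ← pow_add, Nat.add_sub_cancel' h.le]
            exact e'.symm
          rw [this]
          exact mul_mem (pow_mem (Subgroup.mem_zpowers z) _) (inv_mem (pow_mem (Subgroup.mem_zpowers z) _))
        · exact h
        · exfalso
          refine key i' i h hi ?_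
          have : x ^ (i - i') = z ^ j' * (z ^ j)⁻¹ := by
            rw [eq_mul_inv_iff_mul_eq, ← mul_right_inj (x ^ i'), ← mul_assoc, ← pow_add, Nat.add_sub_cancel' h.le]
            exact e'
          rw [this]
          exact mul_mem (pow_mem (Subgroup.mem_zpowers z) _) (inv_mem (pow_mem (Subgroup.mem_zpowers z) _))
      subst hii
      have hjj : j = j' := pow_injOn_Iio_orderOf (by simpa [hzo] using hj) (by simpa [hzo] using hj') (mul_left_cancel e')
      subst hjj
      rfl
    have hb := hf.bijective_of_nat_card_le (by rw [Nat.card_prod, Nat.card_fin, hEcard, pow_two])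
    intro e he
    obtain ⟨⟨i, j⟩, hij⟩ := hb.2 ⟨e, he⟩
    exact ⟨i, j, i.2, j.2, (congrArg Subtype.val hij).symm⟩
  have hHmem : ∀ g, g ∈ H ↔ g * x = x * g := by
    intro g
    rw [hHdef, Subgroup.mem_centralizer_iff]
    constructor
    · intro h; exact (h x hx).symm
    · intro h e he
      obtain ⟨i, j, -, -, rfl⟩ := hEgen e he
      exact (((show Commute g x from h).pow_right i).mul_right ((show Commute g z from hzx g).pow_right j)).eq.symm
  -- conjugation moves `x` inside its coset
  have hconj : ∀ g : G, ∃ c : ℕ, c < p ∧ g * x * g⁻¹ = x * z ^ c := by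
    intro g
    have hmap : ∀ h : G, ∀ i j : ℕ, h * x * h⁻¹ = x ^ i * z ^ j → ∀ k, ∃ l, h ^ k * x * (h ^ k)⁻¹ = x ^ i ^ k * z ^ l := by
      intro h i j hh k
      induction k with
      | zero => exact ⟨0, by simp⟩
      | succ k ih =>
        obtain ⟨l, hl⟩ := ih
        refine ⟨j * i ^ k + l, ?_⟩
        rw [pow_succ', mul_inv_rev, show h * h ^ k * x * ((h ^ k)⁻¹ * h⁻¹) = h * (h ^ k * x * (h ^ k)⁻¹) * h⁻¹ by group,
          hl, show h * (x ^ i ^ k * z ^ l) * h⁻¹ = (h * x ^ i ^ k * h⁻¹) * (h * z ^ l * h⁻¹) by group,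
          ← conj_pow, hh, ← conj_pow, hzx h, mul_inv_cancel_right,
          ((show Commute x z from hzx x).pow_pow i j).mul_pow, ← pow_mul, ← pow_mul, pow_succ', mul_assoc, ← pow_add]
    obtain ⟨i, j, hi, hj, he⟩ := hEgen _ (hEn.conj_mem x hx g)
    obtain ⟨k, hk⟩ := hG g
    obtain ⟨l, hl⟩ := hmap g i j he (p ^ k)
    rw [hk, one_mul, inv_one, mul_one] at hl
    have hi1 : (i : ZMod p) = 1 := by
      have hxo : orderOf x = p := orderOf_eq_prime (hEexp x hx) fun h => hxz (h ▸ one_mem _)
      have h1 : x ^ (i ^ p ^ k + (p - 1)) ∈ Subgroup.zpowers z := by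
        have h2 : x ^ (i ^ p ^ k + (p - 1)) = (z ^ l)⁻¹ := by
          have hxl : x ^ i ^ p ^ k = x * (z ^ l)⁻¹ := eq_mul_inv_iff_mul_eq.mpr hl.symm
          rw [pow_add, hxl, mul_assoc, (((show Commute z x from (hzx x).symm).pow_left l).inv_left.pow_right (p - 1)).eq,
            ← mul_assoc, ← pow_succ', Nat.sub_add_cancel hp.pos, hEexp x hx, one_mul]
        rw [h2]
        exact inv_mem (pow_mem (Subgroup.mem_zpowers z) _)
      have h3 : p ∣ i ^ p ^ k + (p - 1) := by
        by_contra hnd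
        have hc : (orderOf x).Coprime (i ^ p ^ k + (p - 1)) := hxo ▸ hp.coprime_iff_not_dvd.mpr hnd
        obtain ⟨m, hm⟩ := exists_pow_eq_self_of_coprime hc.symm
        exact hxz (hm ▸ pow_mem h1 m)
      rw [← ZMod.natCast_eq_zero_iff, Nat.cast_add, Nat.cast_pow, ZMod.pow_card_pow, Nat.cast_sub hp.pos, ZMod.natCast_self] at h3
      linear_combination h3
    have hi' : i = 1 := by
      have := congrArg ZMod.val hi1
      rwa [ZMod.val_natCast, Nat.mod_eq_of_lt hi, ZMod.val_one] at this
    exact ⟨j, hj, by rw [he, hi', pow_one]⟩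
  choose φ hφlt hφ using hconj
  have hHφ : ∀ g, g ∈ H ↔ φ g = 0 := by
    intro g
    rw [hHmem]
    constructor
    · intro h
      have h1 := hφ g
      rw [h, mul_inv_cancel_right] at h1
      have h2 : z ^ φ g = z ^ 0 := by rw [pow_zero]; exact mul_eq_left.mp h1.symm
      exact pow_injOn_Iio_orderOf (by simpa [hzo] using hφlt g) (by simpa [hzo] using hp.pos) h2
    · intro h
      have h1 := hφ g
      rw [h, pow_zero, mul_one, mul_inv_eq_iff_eq_mul] at h1
      exact h1
  -- the subspaces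
  haveI : NeZero p := ⟨hp.ne_zero⟩
  have hWW : ∀ i j : ℕ, z ^ i = z ^ j → W' i = W' j := fun i j h => by simp only [W', h]
  have hsup : iSup (fun i : Fin p => W' i) = ⊤ := by
    rw [eq_top_iff]
    intro v _
    have h1 : (p : ZMod q) • v ∈ iSup (fun i : Fin p => W' i) := by
      rw [← hsum v, ← Fin.sum_univ_eq_sum_range (fun i => N i v)]
      exact Submodule.sum_mem _ fun i _ => Submodule.mem_iSup_of_mem i (hNin i v)
    have := Submodule.smul_mem _ ((p : ZMod q)⁻¹) h1
    rwa [smul_smul, inv_mul_cancel₀ hpu, one_smul] at this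
  have hind : iSupIndep (fun i : Fin p => W' i) := by
    intro i
    rw [Submodule.disjoint_def]
    intro v hv hv'
    have hle : (⨆ k, ⨆ (_ : k ≠ i), W' (k : Fin p)) ≤ LinearMap.ker (N i) :=
      iSup₂_le fun k hk w hw => LinearMap.mem_ker.mpr (hNW' i k i.2 k.2 (fun e => hk (Fin.ext e).symm) w hw)
    have h0 : N i v = 0 := LinearMap.mem_ker.mp (hle hv')
    rw [hNW i v hv, smul_eq_zero] at h0
    exact h0.resolve_left hpu
  -- the index
  have hHne : ∃ g, g ∉ H := by
    by_contra hcon
    push Not at hcon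
    -- every line fixes nothing
    have hbot : ∀ i : ℕ, i < p → W' i = ⊥ := by
      intro i hi
      rcases hirr (W' i) (fun g w hw => by
        rw [hWmem] at hw ⊢
        have hc : g * (x * z ^ i) = (x * z ^ i) * g :=
          ((show Commute g x from (hHmem g).mp (hcon g)).mul_right ((show Commute g z from hzx g).pow_right i)).eq
        rw [← hRapply g, ← hRmul, ← hc, hRmul, hw]) with h | h
      · exact h
      · exfalso
        refine hxz ?_
        have h1 : x * z ^ i = 1 := hRinj fun w => (hWmem i w).mp (h ▸ Submodule.mem_top)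
        rw [eq_inv_of_mul_eq_one_left h1]
        exact inv_mem (pow_mem (Subgroup.mem_zpowers z) _)
    have : (⊤ : Submodule (ZMod q) V) ≤ ⊥ := by
      rw [← hsup]
      exact iSup_le fun i => (hbot i i.2).le
    exact top_ne_bot (le_bot_iff.mp this)
  obtain ⟨g₀, hg₀⟩ := hHne
  have hidx : H.index = p := by
    obtain ⟨k, hk⟩ := hG.index H
    have hle : H.index ≤ p := by
      rw [Subgroup.index_eq_card, ← Nat.card_fin p]
      refine Nat.card_le_card_of_injective (Quotient.lift (fun g => (⟨φ g, hφlt g⟩ : Fin p)) ?_) ?_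
      · intro a b hab
        replace hab := (hHmem _).mp (QuotientGroup.leftRel_apply.mp hab)
        have ha := hφ a
        have hb := hφ b
        have hh : a * x * a⁻¹ = b * x * b⁻¹ := by
          have : b = a * (a⁻¹ * b) := by group
          conv_rhs => rw [this]
          rw [show a * (a⁻¹ * b) * x * (a * (a⁻¹ * b))⁻¹ = a * ((a⁻¹ * b) * x) * (a⁻¹ * b)⁻¹ * a⁻¹ by group, hab]
          group
        rw [ha, hb] at hh
        exact Fin.ext (pow_injOn_Iio_orderOf (by simpa [hzo] using hφlt a) (by simpa [hzo] using hφlt b) (mul_left_cancel hh))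
      · rintro ⟨a⟩ ⟨b⟩ hab
        refine Quotient.sound ?_
        refine QuotientGroup.leftRel_apply.mpr ((hHmem _).mpr ?_)
        have h1 : a * x * a⁻¹ = b * x * b⁻¹ := by rw [hφ a, hφ b, show φ a = φ b from congrArg Fin.val hab]
        calc a⁻¹ * b * x = a⁻¹ * (b * x * b⁻¹) * b := by group
          _ = x * (a⁻¹ * b) := by rw [← h1]; group
    rcases Nat.eq_zero_or_pos k with h0 | h0
    · rw [h0, pow_zero, Subgroup.index_eq_one] at hk
      exact absurd (hk ▸ Subgroup.mem_top g₀) hg₀
    · rw [hk] at hle ⊢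
      have : k = 1 := le_antisymm ((Nat.pow_le_pow_iff_right hp.one_lt).mp (hle.trans (pow_one p).ge)) h0
      rw [this, pow_one]
  refine ⟨H, fun i => W' i, hidx, hsup, hind, fun h hh i w hw => ?_, fun i => ?_, fun g hg => ?_⟩
  · rw [hWmem] at hw ⊢
    have hc : h * (x * z ^ (i : ℕ)) = (x * z ^ (i : ℕ)) * h :=
      ((show Commute h x from (hHmem h).mp hh).mul_right ((show Commute h z from hzx h).pow_right i)).eq
    rw [← hRapply h, ← hRmul, ← hc, hRmul, hw]
  · refine ⟨x * z ^ (i : ℕ), ?_, fun e => hxz ?_, fun w hw => (hWmem _ w).mp hw⟩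
    · rw [hHdef, Subgroup.mem_centralizer_iff]
      intro e he
      exact hEcomm e he _ (mul_mem hx (pow_mem hz _))
    · rw [eq_inv_of_mul_eq_one_left e]
      exact inv_mem (pow_mem (Subgroup.mem_zpowers z) _)
  · obtain ⟨c, hc⟩ : ∃ c : Fin p, c = ⟨φ g, hφlt g⟩ := ⟨_, rfl⟩
    have hc0 : c ≠ 0 := fun e => hg ((hHφ g).mpr (by rw [hc] at e; exact congrArg Fin.val e))
    refine ⟨Equiv.addRight c, ?_, fun i => ?_⟩
    · have hpow : ∀ (n : ℕ) (u : Fin p), (Equiv.addRight c ^ n) u = u + n • c := by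
        intro n
        induction n with
        | zero => intro u; simp
        | succ n ih =>
          intro u
          rw [pow_succ', Equiv.Perm.mul_apply, ih, succ_nsmul]
          exact add_assoc _ _ _
      refine orderOf_eq_prime (Equiv.ext fun u => ?_) fun e => ?_
      · rw [hpow]
        have := card_nsmul_eq_zero (G := Fin p) (x := c)
        rw [Fintype.card_fin] at this
        rw [this, add_zero]; rfl
      · have h1 := Equiv.ext_iff.mp e 0
        simp at h1
        exact hc0 h1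
    · have hzmod : z ^ (φ g + (i : ℕ)) = z ^ (((i + c : Fin p) : ℕ)) := by
        rw [Fin.val_add, hc, pow_eq_pow_iff_modEq, hzo, add_comm]
        exact (Nat.mod_modEq _ _).symm
      have hkey : g * (x * z ^ (i : ℕ)) = (x * z ^ (((i + c : Fin p) : ℕ))) * g := by
        rw [← hzmod, pow_add, ← mul_assoc x, ← hφ g, mul_assoc (g * x * g⁻¹),
          ← ((show Commute g z from hzx g).pow_right (i : ℕ)).eq]
        group
      show (W' i).map (ρ g : V →ₗ[ZMod q] V) = W' ((i + c : Fin p) : ℕ)
      refine le_antisymm ?_ fun w hw => ?_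
      · rintro _ ⟨w, hw, rfl⟩
        rw [SetLike.mem_coe, hWmem] at hw
        rw [hWmem]
        show R _ (R g w) = R g w
        rw [← hRmul, ← hkey, hRmul, hw]
      · rw [hWmem] at hw
        refine ⟨R g⁻¹ w, ?_, ?_⟩
        · rw [SetLike.mem_coe, hWmem, ← hRmul]
          have : x * z ^ (i : ℕ) * g⁻¹ = g⁻¹ * (x * z ^ (((i + c : Fin p) : ℕ))) := by
            rw [eq_inv_mul_iff_mul_eq, ← mul_assoc, hkey, mul_inv_cancel_right]
          rw [this, hRmul, hw]
        · show R g (R g⁻¹ w) = w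
          rw [← hRmul, mul_inv_cancel, map_one]; rfl

end Cfsg.Agent.S3380
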