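import Cfsg.Statements.S3371
import Mathlib
import Cfsg.Agent.S3370
import Cfsg.Agent.S3380
import Cfsg.Agent.S1160
import Cfsg.Agent.Lib.UniqueOrderP
import Cfsg.Agent.Lib.Perm.ModularFixed
import Cfsg.Agent.Lib.Extra2.Basic

set_option autoImplicit false
open Cfsg

set_option maxHeartbeats 2000000

namespace Cfsg.Agent.S3371

theorem quaternion_inv_central {n : ℕ} [NeZero n] (g h : QuaternionGroup n) (hg : g * g = 1) : g * h = h * g := by
  rcases g with i | i
  · rw [QuaternionGroup.a_mul_a, QuaternionGroup.one_def] at hg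
    have h2 : i + i = 0 := QuaternionGroup.a.inj hg
    rcases h with j | j
    · rw [QuaternionGroup.a_mul_a, QuaternionGroup.a_mul_a, add_comm]
    · rw [QuaternionGroup.a_mul_xa, QuaternionGroup.xa_mul_a]
      congr 1
      linear_combination -h2
  · exfalso
    have h4 := QuaternionGroup.orderOf_xa i
    have := orderOf_dvd_of_pow_eq_one (x := QuaternionGroup.xa i) (n := 2) (by rw [pow_two]; exact hg)
    rw [h4] at this
    omega

section
variable {q : ℕ} [Fact q.Prime] {V : Type*} [AddCommGroup V] [Module (ZMod q) V] [Finite V] [Nontrivial V]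
  {G : Type*} [Group G] [Finite G]

/-- A cyclic subgroup of index two without fixed vectors, and point stabilisers of order two. -/
theorem reflect (hG : IsPGroup 2 G) (hqo : Odd q) (ρ : G →* (V ≃ₗ[ZMod q] V)) (C : Subgroup G) (hC : C.index = 2)
    (hCc : IsCyclic C) (z : G) (hzC : z ∈ C) (hzo : orderOf z = 2)
    (hzneg : ∀ v, ρ z v = -v)
    (hσ : ∀ v : V, v ≠ 0 → ∃ g : G, g ≠ 1 ∧ ρ g v = v)
    (hconj : ∀ t : G, t ∉ C → t * t = 1 → ∃ g : G, g * t * g⁻¹ = t * z) :
    ∃ f, 1 < f ∧ Nat.card V = f ^ 2 ∧ Nat.card {t : G // t ∉ C ∧ t * t = 1} = f + 1 := by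
  classical
  haveI : Fact (Nat.Prime 2) := ⟨Nat.prime_two⟩
  haveI := Fintype.ofFinite G
  haveI := Fintype.ofFinite V
  have hq : q.Prime := Fact.out
  have h2 : (2 : ZMod q) ≠ 0 := by
    rw [show (2 : ZMod q) = ((2 : ℕ) : ZMod q) by norm_num, Ne, ZMod.natCast_eq_zero_iff]
    intro h
    rcases (Nat.dvd_prime Nat.prime_two).mp h with e | e
    · exact hq.ne_one e
    · subst e; exact absurd hqo (by decide)
  have hneg : ∀ v : V, v = -v → v = 0 := fun v hv => by
    have h : (2 : ZMod q) • v = 0 := by rw [two_smul]; nth_rewrite 1 [hv]; exact neg_add_cancel v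
    exact (smul_eq_zero.mp h).resolve_left h2
  have hmul : ∀ a b v, ρ (a * b) v = ρ a (ρ b v) := fun a b v => by rw [map_mul]; rfl
  -- rotations fix nothing
  have hCfree : ∀ g ∈ C, ∀ v : V, v ≠ 0 → ρ g v = v → g = 1 := by
    intro g hg v hv hgv
    by_contra hg1
    obtain ⟨k, hk⟩ := hG g
    obtain ⟨j, hj, hjo⟩ := (Nat.dvd_prime_pow Nat.prime_two).mp (orderOf_dvd_of_pow_eq_one hk)
    have hj0 : j ≠ 0 := fun h => hg1 (orderOf_eq_one_iff.mp (by rw [hjo, h, pow_zero]))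
    have hio : orderOf (g ^ 2 ^ (j - 1)) = 2 := by
      rw [orderOf_pow_of_dvd (pow_ne_zero _ two_ne_zero) (hjo ▸ pow_dvd_pow 2 (Nat.sub_le j 1)), hjo,
        Nat.pow_div (Nat.sub_le j 1) (by norm_num), show j - (j - 1) = 1 by omega, pow_one]
    have hiC : g ^ 2 ^ (j - 1) ∈ C := C.pow_mem hg _
    obtain ⟨i, hi⟩ := Subgroup.mem_zpowers_iff.mp (CfsgLib.UniqueOrderP.uniq_of_cyclic (G := C) (p := 2) ⟨z, hzC⟩ ⟨g ^ 2 ^ (j - 1), hiC⟩
      (by rw [Subgroup.orderOf_mk, hzo]) (by rw [Subgroup.orderOf_mk, hio]))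
    have hi' : z ^ i = g ^ 2 ^ (j - 1) := by simpa using congrArg Subtype.val hi
    have hgz : g ^ 2 ^ (j - 1) = z := by
      rcases Int.even_or_odd i with ⟨l, rfl⟩ | ⟨l, rfl⟩
      · exfalso
        rw [← hi', ← two_mul, zpow_mul, show z ^ (2 : ℤ) = 1 by rw [show (2 : ℤ) = ((2 : ℕ) : ℤ) by norm_num, zpow_natCast, ← hzo, pow_orderOf_eq_one],
          one_zpow, orderOf_one] at hio
        omega
      · rw [← hi', zpow_add, zpow_mul, show z ^ (2 : ℤ) = 1 by rw [show (2 : ℤ) = ((2 : ℕ) : ℤ) by norm_num, zpow_natCast, ← hzo, pow_orderOf_eq_one],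
          one_zpow, one_mul, zpow_one]
    have hfix : ∀ l : ℕ, ρ (g ^ l) v = v := fun l => by
      induction l with
      | zero => rw [pow_zero, map_one]; rfl
      | succ l ih => rw [pow_succ, hmul, hgv, ih]
    have h1 := hfix (2 ^ (j - 1))
    rw [hgz, hzneg] at h1
    exact hv (hneg v h1.symm)
  let Rf := {t : G // t ∉ C ∧ t * t = 1}
  have hstab : ∀ v : V, v ≠ 0 → ∃! t : Rf, ρ (t : G) v = v := by
    intro v hv
    obtain ⟨g, hg1, hgv⟩ := hσ v hv
    have hgC : g ∉ C := fun h => hg1 (hCfree g h v hv hgv)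
    have hgg : g * g = 1 := hCfree _ ((Subgroup.mul_mem_iff_of_index_two hC).mpr (by simp)) v hv (by rw [hmul, hgv, hgv])
    refine ⟨⟨g, hgC, hgg⟩, hgv, fun t ht => Subtype.ext ?_⟩
    have hm : (t : G) * g ∈ C := (Subgroup.mul_mem_iff_of_index_two hC).mpr (by simp [t.2.1, hgC])
    have h1 := hCfree _ hm v hv (by rw [hmul, hgv]; exact ht)
    calc (t : G) = (t : G) * (g * g) := by rw [hgg, mul_one]
      _ = g := by rw [← mul_assoc, h1, one_mul]
  -- fixed spaces of reflections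
  have hsq : ∀ t : G, t * t = 1 → ∀ v, ρ t (ρ t v) = v := fun t ht v => by rw [← hmul, ht, map_one]; rfl
  have hFcard : ∀ t : Rf, Nat.card {v : V // ρ (t : G) v = v} ^ 2 = Nat.card V := by
    intro t
    obtain ⟨g, hg⟩ := hconj t t.2.1 t.2.2
    have e1 : Nat.card {v : V // ρ (t : G) v = -v} = Nat.card {v : V // ρ (t : G) v = v} := by
      refine Nat.card_congr ((Equiv.subtypeEquiv (ρ g).toEquiv fun v => ?_).symm)
      show ρ (t : G) v = v ↔ ρ (t : G) (ρ g v) = -ρ g v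
      have h1 : ρ (g * t * g⁻¹) (ρ g v) = -ρ (t : G) (ρ g v) := by
        rw [hg, hmul, hzneg, map_neg]
      rw [show ρ (g * t * g⁻¹) (ρ g v) = ρ g (ρ (t : G) v) by rw [← hmul, inv_mul_cancel_right, hmul]] at h1
      constructor
      · intro h
        rw [h] at h1
        rw [← neg_neg (ρ (t : G) (ρ g v)), ← h1]
      · intro h
        rw [h, neg_neg] at h1
        exact (ρ g).injective h1
    rw [pow_two]
    nth_rewrite 1 [← e1]
    rw [← Nat.card_prod]
    refine Nat.card_congr (Equiv.ofBijective (fun p => (p.1 : V) + p.2) ⟨?_, ?_⟩)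
    · rintro ⟨⟨a, ha⟩, ⟨b, hb⟩⟩ ⟨⟨a', ha'⟩, ⟨b', hb'⟩⟩ h
      simp only at h
      have h1 := congrArg (ρ (t : G)) h
      rw [map_add, map_add, ha, hb, ha', hb'] at h1
      have hb2 : (b - b') + (b - b') = 0 := by
        rw [show (b - b') + (b - b') = ((a + b) + (-a + b)) - ((a' + b') + (-a' + b')) by abel, h, h1, sub_self]
      have hbb : b = b' := sub_eq_zero.mp (hneg _ (eq_neg_of_add_eq_zero_left hb2))
      subst hbb
      have haa : a = a' := add_right_cancel h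
      subst haa
      rfl
    · intro v
      refine ⟨(⟨(2 : ZMod q)⁻¹ • (v - ρ (t : G) v), ?_⟩, ⟨(2 : ZMod q)⁻¹ • (v + ρ (t : G) v), ?_⟩), ?_⟩
      · rw [map_smul, map_sub, hsq _ t.2.2, ← smul_neg, neg_sub]
      · rw [map_smul, map_add, hsq _ t.2.2, add_comm]
      · show (2 : ZMod q)⁻¹ • (v - ρ (t : G) v) + (2 : ZMod q)⁻¹ • (v + ρ (t : G) v) = v
        rw [← smul_add, show v - ρ (t : G) v + (v + ρ (t : G) v) = v + v by abel, ← two_smul (ZMod q) v, smul_smul,
          inv_mul_cancel₀ h2, one_smul]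
  obtain ⟨v₁, hv₁⟩ := exists_ne (0 : V)
  obtain ⟨t₁, -, -⟩ := hstab v₁ hv₁
  obtain ⟨f, hf⟩ : ∃ f, f = Nat.card {v : V // ρ (t₁ : G) v = v} := ⟨_, rfl⟩
  have hfall : ∀ t : Rf, Nat.card {v : V // ρ (t : G) v = v} = f := fun t => by
    apply Nat.pow_left_injective two_ne_zero
    show _ ^ 2 = f ^ 2
    rw [hFcard, hf, hFcard]
  -- count the non-zero vectors
  have hcount : Nat.card V - 1 = Nat.card Rf * (f - 1) := by
    have e : {v : V // v ≠ 0} ≃ Σ t : Rf, {v : V // ρ (t : G) v = v ∧ v ≠ 0} :=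
      { toFun := fun v => ⟨Classical.choose (hstab v v.2), v, (Classical.choose_spec (hstab v v.2)).1, v.2⟩
        invFun := fun p => ⟨p.2, p.2.2.2⟩
        left_inv := fun v => rfl
        right_inv := fun p => by
          obtain ⟨t, v, hv, hv0⟩ := p
          have : Classical.choose (hstab v hv0) = t := ((Classical.choose_spec (hstab v hv0)).2 t hv).symm
          subst this
          rfl }
    have h1 : ∀ t : Rf, Nat.card {v : V // ρ (t : G) v = v ∧ v ≠ 0} = f - 1 := by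
      intro t
      have h3 := hfall t
      rw [Nat.card_eq_fintype_card, Fintype.card_subtype] at h3 ⊢
      rw [show (Finset.univ.filter fun v : V => ρ (t : G) v = v ∧ v ≠ 0) = (Finset.univ.filter fun v : V => ρ (t : G) v = v).erase 0 by
        ext v; simp [and_comm], Finset.card_erase_of_mem (by simp), h3]
    have h4 := Nat.card_congr e
    rw [Nat.card_sigma, Finset.sum_congr rfl (fun t _ => h1 t), Finset.sum_const, smul_eq_mul, Finset.card_univ,
      ← Nat.card_eq_fintype_card] at h4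
    rw [← h4, Nat.card_eq_fintype_card (α := {v : V // v ≠ 0}), Fintype.card_subtype_compl, Fintype.card_subtype_eq,
      Nat.card_eq_fintype_card]
  have hV : Nat.card V = f ^ 2 := by rw [hf, hFcard]
  have hf1 : 1 < f := by
    have : 1 < Nat.card V := Finite.one_lt_card
    rw [hV] at this
    by_contra h
    rcases (show f = 0 ∨ f = 1 by omega) with e | e <;> rw [e] at this <;> norm_num at this
  have hRf : Nat.card Rf = f + 1 := by
    rw [hV, show f ^ 2 - 1 = (f + 1) * (f - 1) by rw [← Nat.sq_sub_sq, one_pow]] at hcount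
    exact (Nat.eq_of_mul_eq_mul_right (by omega) hcount).symm
  exact ⟨f, hf1, hV, hRf⟩

theorem finish (hqo : Odd q) {f m : ℕ} (hf1 : 1 < f) (hV : Nat.card V = f ^ 2) (hm : 2 ^ m = f + 1) :
    Nat.card V = q ^ 2 ∧ q = 2 ^ m - 1 := by
  have hq : q.Prime := Fact.out
  obtain ⟨N, hN⟩ : ∃ N, Nat.card V = q ^ N := ⟨_, (Module.natCard_eq_pow_finrank (K := ZMod q) (V := V)).trans (by rw [Nat.card_zmod])⟩
  obtain ⟨d, -, hd⟩ := (Nat.dvd_prime_pow hq).mp (show f ∣ q ^ N by rw [← hN, hV]; exact dvd_pow_self f two_ne_zero)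
  have hd1 : d = 1 := by
    by_contra hne
    rcases Nat.lt_or_ge d 2 with h | h
    · have : d = 0 := by omega
      rw [this, pow_zero] at hd; omega
    · exact Cfsg.Agent.S3370.pow_sub_one (n := m) hqo hq.one_lt h (by rw [hm, hd])
  rw [hd1, pow_one] at hd
  subst hd
  exact ⟨hV, by omega⟩

end

theorem fin2_swap (σ : Equiv.Perm (Fin 2)) (h : orderOf σ = 2) : σ 0 = 1 ∧ σ 1 = 0 := by
  have hne : σ ≠ 1 := fun e => by rw [e, orderOf_one] at h; omega
  revert hne; clear h; revert σ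
  decide

section
variable (q : ℕ) [Fact q.Prime] {V : Type*} [AddCommGroup V] [Module (ZMod q) V] [Finite V] [Nontrivial V]
  {G : Type*} [Group G] [Finite G]

/-- Two blocks exchanged by the group. -/
theorem monomial (hG : IsPGroup 2 G) (ρ : G →* (V ≃ₗ[ZMod q] V)) (hρ : Function.Injective ρ) (hqo : Odd q)
    (hconst : ∀ a b : V, a ≠ 0 → b ≠ 0 →
      Nat.card {g : G // ρ g a = a} = Nat.card {g : G // ρ g b = b})
    (hσ : ∀ v : V, v ≠ 0 → ∃ g : G, g ≠ 1 ∧ ρ g v = v)
    (H : Subgroup G) (W : Fin 2 → Submodule (ZMod q) V) (hHidx : H.index = 2)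
    (hWsup : iSup W = ⊤) (hWind : iSupIndep W) (hWH : ∀ h ∈ H, ∀ i, ∀ w ∈ W i, ρ h w ∈ W i)
    (hWker : ∀ i, ∃ h ∈ H, h ≠ 1 ∧ ∀ w ∈ W i, ρ h w = w)
    (hWperm : ∀ g : G, g ∉ H → ∃ σ : Equiv.Perm (Fin 2), orderOf σ = 2 ∧ ∀ i, (W i).map (ρ g : V →ₗ[ZMod q] V) = W (σ i)) :
    ((IsCyclic G ∨ ∃ n : ℕ, Nonempty (G ≃* QuaternionGroup n)) ∧ ∀ v : V, v ≠ 0 → ∀ g : G, ρ g v = v → g = 1) ∨
    (Nat.card V = q ^ 2 ∧ ∃ m : ℕ, q = 2 ^ m - 1 ∧
      (Nonempty (G ≃* DihedralGroup (2 ^ m)) ∨ (Cfsg.IsQuasiDihedral G ∧ Nat.card G = 2 ^ (m + 2)))) ∨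
    (Nat.card V = q ^ 2 ∧ (∃ m : ℕ, q = 2 ^ m + 1) ∧
      ∃ e : V ≃ₗ[ZMod q] (Fin 2 → ZMod q), ∀ f : (Fin 2 → ZMod q) ≃ₗ[ZMod q] (Fin 2 → ZMod q),
        (∃ g : G, f = e.symm.trans ((ρ g).trans e)) ↔
        ∃ a s : ZMod q, a ≠ 0 ∧ (s = 1 ∨ s = -1) ∧
          ((∀ v, f v = ![a * v 0, s * a⁻¹ * v 1]) ∨ (∀ v, f v = ![s * a⁻¹ * v 1, a * v 0]))) ∨
    (Nat.card V = 81 ∧ q = 3 ∧ (2 : ℕ) = 2) := by
  classical
  have hq : q.Prime := Fact.out
  have hmul : ∀ a b v, ρ (a * b) v = ρ a (ρ b v) := fun a b v => by rw [map_mul]; rfl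
  have hone : ∀ v, ρ 1 v = v := fun v => by rw [map_one]; rfl
  have hinj : ∀ {g : G}, (∀ v, ρ g v = v) → g = 1 := fun {g} h => hρ (LinearEquiv.ext fun v => by rw [h, hone])
  have hinvfix : ∀ g v, ρ g⁻¹ (ρ g v) = v := fun g v => by rw [← hmul, inv_mul_cancel, hone]
  have hswap : ∀ g, g ∉ H → (∀ w ∈ W 0, ρ g w ∈ W 1) ∧ (∀ w ∈ W 1, ρ g w ∈ W 0) := by
    intro g hg
    obtain ⟨σ, hσo, hσW⟩ := hWperm g hg
    obtain ⟨e0, e1⟩ := fin2_swap σ hσo
    constructor
    · intro w hw; rw [← e0, ← hσW]; exact ⟨w, hw, rfl⟩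
    · intro w hw; rw [← e1, ← hσW]; exact ⟨w, hw, rfl⟩
  have hdisj : ∀ w ∈ W 0, w ∈ W 1 → w = 0 := fun w h0 h1 =>
    Submodule.disjoint_def.mp (hWind.pairwiseDisjoint (show (0 : Fin 2) ≠ 1 by decide)) w h0 h1
  have hdec : ∀ v : V, ∃ a ∈ W 0, ∃ b ∈ W 1, a + b = v := fun v => by
    have h : v ∈ W 0 ⊔ W 1 := by
      have h1 : iSup W ≤ W 0 ⊔ W 1 := iSup_le fun i => by fin_cases i <;> simp
      exact h1 (hWsup ▸ Submodule.mem_top)
    exact Submodule.mem_sup.mp h
  have huniq : ∀ a ∈ W 0, ∀ b ∈ W 1, ∀ a' ∈ W 0, ∀ b' ∈ W 1, a + b = a' + b' → a = a' ∧ b = b' := by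
    intro a ha b hb a' ha' b' hb' h
    have e : a - a' = b' - b := by rw [sub_eq_sub_iff_add_eq_add, h, add_comm]
    have := hdisj _ ((W 0).sub_mem ha ha') (e ▸ (W 1).sub_mem hb' hb)
    exact ⟨sub_eq_zero.mp this, (sub_eq_zero.mp (e ▸ this)).symm⟩
  let K : V → Subgroup G := fun v =>
    { carrier := {g | ρ g v = v}
      one_mem' := hone v
      mul_mem' := fun {a b} ha hb => by
        show ρ (a * b) v = v
        rw [hmul, show ρ b v = v from hb, show ρ a v = v from ha]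
      inv_mem' := fun {a} ha => by
        show ρ a⁻¹ v = v
        nth_rewrite 1 [← (show ρ a v = v from ha)]
        exact hinvfix a v }
  have hKcard : ∀ a b : V, a ≠ 0 → b ≠ 0 → Nat.card (K a) = Nat.card (K b) := fun a b ha hb => hconst a b ha hb
  have hW0H : ∀ w ∈ W 0, w ≠ 0 → ∀ g ∈ K w, g ∈ H := by
    intro w hw hw0 g hg
    by_contra hgH
    refine hw0 (hdisj w hw ?_)
    rw [← (show ρ g w = w from hg)]
    exact (hswap g hgH).1 w hw
  obtain ⟨g₀, hg₀⟩ : ∃ g, g ∉ H := by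
    by_contra h
    push Not at h
    have : H = ⊤ := eq_top_iff.mpr fun g _ => h g
    rw [this, Subgroup.index_top] at hHidx
    omega
  have hW0ne : ∃ w ∈ W 0, w ≠ 0 := by
    by_contra h
    push Not at h
    obtain ⟨v, hv⟩ := exists_ne (0 : V)
    obtain ⟨a, ha, b, hb, hab⟩ := hdec v
    have h1 := h _ ((hswap g₀ hg₀).2 b hb)
    rw [map_eq_zero_iff _ (ρ g₀).injective] at h1
    exact hv (by rw [← hab, h a ha, h1, add_zero])
  -- `H` is transitive on the non-zero vectors of a block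
  have htrans : ∀ w ∈ W 0, w ≠ 0 → ∀ w' ∈ W 0, w' ≠ 0 → ∃ h ∈ H, ρ h w = w' := by
    intro w hw hw0 w' hw' hw'0
    by_contra hcon
    push Not at hcon
    obtain ⟨k, hkH, hk1, hk⟩ := hWker 0
    refine hk1 (hinj fun v => ?_)
    obtain ⟨a, ha, b, hb, rfl⟩ := hdec v
    rw [map_add, hk a ha]
    congr 1
    by_cases hb0 : b = 0
    · rw [hb0, map_zero]
    obtain ⟨u, hu, hu0, huno⟩ : ∃ u ∈ W 0, u ≠ 0 ∧ ∀ g, g ∉ H → ρ g u ≠ b := by
      by_contra hno
      push Not at hno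
      obtain ⟨g, hgH, hg⟩ := hno w hw hw0
      obtain ⟨g', hg'H, hg'⟩ := hno w' hw' hw'0
      refine hcon (g'⁻¹ * g) ((Subgroup.mul_mem_iff_of_index_two hHidx).mpr (by simp [hgH, hg'H])) ?_
      rw [hmul, hg, ← hg', hinvfix]
    have hub : u + b ≠ 0 := fun h => by
      obtain ⟨h1, -⟩ := huniq u hu b hb 0 (W 0).zero_mem 0 (W 1).zero_mem (by rw [h, add_zero])
      exact hu0 h1
    have hle : ∀ g ∈ K (u + b), g ∈ K u ∧ g ∈ K b := by
      intro g hg
      have hg' : ρ g u + ρ g b = u + b := by rw [← map_add]; exact hg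
      by_cases hgH : g ∈ H
      · exact huniq _ (hWH g hgH 0 u hu) _ (hWH g hgH 1 b hb) u hu b hb hg'
      · rw [add_comm (ρ g u)] at hg'
        exact absurd (huniq _ ((hswap g hgH).2 b hb) _ ((hswap g hgH).1 u hu) u hu b hb hg').2 (huno g hgH)
    have e1 : K (u + b) = K u := Subgroup.eq_of_le_of_card_ge (fun g hg => (hle g hg).1) (hKcard _ _ hu0 hub).le
    have : k ∈ K b := (hle k (e1.symm ▸ (show k ∈ K u from hk u hu))).2
    exact this
  -- apply the transitive case to the block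
  haveI : Nontrivial (W 0) := by
    obtain ⟨w, hw, hw0⟩ := hW0ne
    exact ⟨⟨w, hw⟩, 0, fun h => hw0 (congrArg Subtype.val h)⟩
  let ρ₀ : H →* ((W 0) ≃ₗ[ZMod q] (W 0)) :=
    { toFun := fun h => LinearEquiv.ofLinear
        ((ρ (h : G) : V →ₗ[ZMod q] V).restrict fun w hw => hWH h h.2 0 w hw)
        ((ρ ((h⁻¹ : H) : G) : V →ₗ[ZMod q] V).restrict fun w hw => hWH _ (h⁻¹ : H).2 0 w hw)
        (LinearMap.ext fun w => Subtype.ext (by show ρ (h : G) (ρ ((h : G))⁻¹ w) = (w : V); rw [← hmul, mul_inv_cancel, hone]))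
        (LinearMap.ext fun w => Subtype.ext (by show ρ ((h : G))⁻¹ (ρ (h : G) w) = (w : V); rw [hinvfix]))
      map_one' := LinearEquiv.ext fun w => Subtype.ext (hone w)
      map_mul' := fun a b => LinearEquiv.ext fun w => Subtype.ext (hmul a b w) }
  have hρ₀ : ∀ (h : H) (w : W 0), ((ρ₀ h w : W 0) : V) = ρ (h : G) w := fun h w => rfl
  have htr' : ∀ v w : W 0, v ≠ 0 → w ≠ 0 → ∃ g : ρ₀.range, (g : (W 0) ≃ₗ[ZMod q] (W 0)) v = w := by
    intro v w hv hw
    obtain ⟨h, hh, e⟩ := htrans v v.2 (fun e => hv (Subtype.ext e)) w w.2 (fun e => hw (Subtype.ext e))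
    exact ⟨⟨ρ₀ ⟨h, hh⟩, _, rfl⟩, Subtype.ext e⟩
  have h2 : (2 : ZMod q) ≠ 0 := by
    rw [show (2 : ZMod q) = ((2 : ℕ) : ZMod q) by norm_num, Ne, ZMod.natCast_eq_zero_iff]
    intro h
    rcases (Nat.dvd_prime Nat.prime_two).mp h with e | e
    · exact hq.ne_one e
    · subst e; exact absurd hqo (by decide)
  haveI : Nontrivial ρ₀.range := by
    obtain ⟨w, hw⟩ := exists_ne (0 : W 0)
    obtain ⟨g, hg⟩ := htr' w (-w) hw (neg_ne_zero.mpr hw)
    refine ⟨g, 1, fun e => hw ?_⟩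
    rw [e] at hg
    have h3 : (2 : ZMod q) • w = 0 := by rw [two_smul]; nth_rewrite 1 [show w = -w from hg]; exact neg_add_cancel w
    exact (smul_eq_zero.mp h3).resolve_left h2
  haveI : Finite ρ₀.range := Finite.of_surjective ρ₀.rangeRestrict ρ₀.rangeRestrict_surjective
  have hAp : IsPGroup 2 ρ₀.range := (hG.to_subgroup H).of_surjective ρ₀.rangeRestrict ρ₀.rangeRestrict_surjective
  have hW01 : Nat.card (W 1) = Nat.card (W 0) := by
    refine (Nat.card_congr (Equiv.ofBijective (fun w : W 0 => (⟨ρ g₀ w, (hswap g₀ hg₀).1 w w.2⟩ : W 1)) ⟨?_, ?_⟩)).symm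
    · intro a b h; exact Subtype.ext ((ρ g₀).injective (congrArg Subtype.val h))
    · intro b
      have hgi : g₀⁻¹ ∉ H := fun h => hg₀ (by simpa using H.inv_mem h)
      exact ⟨⟨ρ g₀⁻¹ b, (hswap _ hgi).2 b b.2⟩, Subtype.ext (by show ρ g₀ (ρ g₀⁻¹ b) = (b : V); rw [← hmul, mul_inv_cancel, hone])⟩
  have hVcard : Nat.card V = Nat.card (W 0) * Nat.card (W 1) := by
    rw [← Nat.card_prod]
    refine (Nat.card_congr (Equiv.ofBijective (fun p : W 0 × W 1 => (p.1 : V) + p.2) ⟨?_, ?_⟩)).symm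
    · rintro ⟨a, b⟩ ⟨a', b'⟩ h
      obtain ⟨e1, e2⟩ := huniq _ a.2 _ b.2 _ a'.2 _ b'.2 h
      exact Prod.ext (Subtype.ext e1) (Subtype.ext e2)
    · intro v
      obtain ⟨a, ha, b, hb, e⟩ := hdec v
      exact ⟨(⟨a, ha⟩, ⟨b, hb⟩), e⟩
  rw [hW01] at hVcard
  rcases Cfsg.Agent.S3370.result q 2 hAp ρ₀.range.subtype Subtype.val_injective htr' with
    ⟨hq2, -⟩ | ⟨-, hcard, ⟨m, hm, -⟩, -⟩ | ⟨-, hq3, h9, -⟩
  · subst hq2; exact absurd hqo (by decide)
  swap
  · exact Or.inr (Or.inr (Or.inr ⟨by rw [hVcard, h9], hq3, rfl⟩))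
  refine Or.inr (Or.inr (Or.inl ⟨by rw [hVcard, hcard, pow_two], ⟨m, hm⟩, ?_⟩))
  -- coordinates
  obtain ⟨w0, hw0, hw00⟩ := hW0ne
  have hline : ∀ w ∈ W 0, ∃ c : ZMod q, w = c • w0 := by
    intro w hw
    have hfr : Module.finrank (ZMod q) (W 0) = 1 := by
      have h := Module.natCard_eq_pow_finrank (K := ZMod q) (V := W 0)
      rw [hcard, Nat.card_zmod] at h
      exact (Nat.pow_eq_self_iff hq.one_lt).mp h.symm
    obtain ⟨c, hc⟩ := exists_smul_eq_of_finrank_eq_one hfr (x := (⟨w0, hw0⟩ : W 0)) (fun e => hw00 (congrArg Subtype.val e)) ⟨w, hw⟩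
    exact ⟨c, (congrArg Subtype.val hc).symm⟩
  obtain ⟨w1, hw1def⟩ : ∃ w1, w1 = ρ g₀ w0 := ⟨_, rfl⟩
  have hw1 : w1 ∈ W 1 := hw1def ▸ (hswap g₀ hg₀).1 w0 hw0
  have hw10 : w1 ≠ 0 := fun h => hw00 ((map_eq_zero_iff _ (ρ g₀).injective).mp (hw1def ▸ h))
  have hline1 : ∀ w ∈ W 1, ∃ c : ZMod q, w = c • w1 := by
    intro w hw
    have hgi : g₀⁻¹ ∉ H := fun h => hg₀ (by simpa using H.inv_mem h)
    obtain ⟨c, hc⟩ := hline _ ((hswap _ hgi).2 w hw)
    refine ⟨c, ?_⟩
    rw [hw1def, ← map_smul, ← hc, ← hmul, mul_inv_cancel, hone]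
  have hK2 : ∀ g ∈ K w0, (∀ w ∈ W 0, ρ g w = w) := by
    intro g hg w hw
    obtain ⟨c, rfl⟩ := hline w hw
    rw [map_smul, show ρ g w0 = w0 from hg]
  have hnofix : ∀ g ∈ K w0, ρ g w1 = w1 → g = 1 := by
    intro g hg h1
    refine hinj fun v => ?_
    obtain ⟨a, ha, b, hb, rfl⟩ := hdec v
    obtain ⟨c, rfl⟩ := hline1 b hb
    rw [map_add, hK2 g hg a ha, map_smul, h1]
  -- stabilisers of vectors off the two blocks
  have hg : ∀ c : ZMod q, c ≠ 0 → ∃ g : G, g ∉ H ∧ ρ g w0 = c • w1 ∧ ρ g (c • w1) = w0 ∧ ∀ h ∈ K (w0 + c • w1), h = 1 ∨ h ∉ H := by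
    intro c hc
    have hne : w0 + c • w1 ≠ 0 := fun h => by
      obtain ⟨h1, -⟩ := huniq w0 hw0 _ ((W 1).smul_mem c hw1) 0 (W 0).zero_mem 0 (W 1).zero_mem (by rw [h, add_zero])
      exact hw00 h1
    have hsplit : ∀ h ∈ K (w0 + c • w1), h = 1 ∨ h ∉ H := by
      intro h hh
      by_cases hH' : h ∈ H
      · left
        have hh' : ρ h w0 + ρ h (c • w1) = w0 + c • w1 := by rw [← map_add]; exact hh
        obtain ⟨e1, e2⟩ := huniq _ (hWH h hH' 0 w0 hw0) _ (hWH h hH' 1 _ ((W 1).smul_mem c hw1)) w0 hw0 _ ((W 1).smul_mem c hw1) hh'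
        rw [map_smul] at e2
        exact hnofix h e1 (smul_right_injective V hc e2)
      · exact Or.inr hH'
    obtain ⟨g, hg1, hg⟩ := hσ _ hne
    have hgH : g ∉ H := (hsplit g hg).resolve_left hg1
    rw [map_add, add_comm] at hg
    obtain ⟨e1, e2⟩ := huniq _ ((hswap g hgH).2 _ ((W 1).smul_mem c hw1)) _ ((hswap g hgH).1 w0 hw0) w0 hw0 _ ((W 1).smul_mem c hw1) hg
    exact ⟨g, hgH, e2, e1, hsplit⟩
  obtain ⟨k, hkH, hk1, hk⟩ := hWker 0
  have hkmem : k ∈ K w0 := hk w0 hw0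
  have hKw0 : ∀ g ∈ K w0, g = 1 ∨ g = k := by
    have h1 : Nat.card (K (w0 + (1 : ZMod q) • w1)) ≤ 2 := by
      obtain ⟨g, hgH, -, -, hs⟩ := hg 1 one_ne_zero
      refine le_trans (CfsgLib.Extra2.card_le_two_mul (T := (⊥ : Subgroup G)) fun a ha b hb ha' hb' => ?_) (by rw [Subgroup.card_bot])
      rw [Subgroup.mem_bot] at ha' hb' ⊢
      refine (hs _ ((K _).mul_mem ((K _).inv_mem ha) hb)).resolve_right (fun h => h ?_)
      exact (Subgroup.mul_mem_iff_of_index_two hHidx).mpr (by simp [(hs a ha).resolve_left ha', (hs b hb).resolve_left hb'])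
    have hne : w0 + (1 : ZMod q) • w1 ≠ 0 := fun h => by
      obtain ⟨h1, -⟩ := huniq w0 hw0 _ ((W 1).smul_mem 1 hw1) 0 (W 0).zero_mem 0 (W 1).zero_mem (by rw [h, add_zero])
      exact hw00 h1
    rw [hKcard _ w0 hne hw00] at h1
    intro g hg
    by_contra hne
    push Not at hne
    have : ({1, k, g} : Finset G).card = 3 := by
      rw [Finset.card_insert_of_notMem (by simp [hk1.symm, hne.1.symm]), Finset.card_pair hne.2.symm]
    have h3 : 3 ≤ Nat.card (K w0) := by
      rw [← this, ← Fintype.card_coe, ← Nat.card_eq_fintype_card]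
      refine Nat.card_le_card_of_injective (fun x => (⟨x.1, ?_⟩ : K w0)) fun a b e => Subtype.ext (congrArg (fun q : K w0 => (q : G)) e)
      have := x.2
      simp only [Finset.mem_insert, Finset.mem_singleton] at this
      rcases this with e | e | e <;> rw [e]
      exacts [one_mem _, hkmem, hg]
    omega
  have hkw1 : ρ k w1 = (-1 : ZMod q) • w1 := by
    obtain ⟨d, hd⟩ := hline1 _ (hWH k hkH 1 w1 hw1)
    rw [hd]
    congr 1
    have hkk : k * k = 1 := by
      rcases hKw0 _ ((K w0).mul_mem hkmem hkmem) with h | h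
      · exact h
      · exact absurd (mul_eq_left.mp h) hk1
    have h1 := congrArg (ρ k) hd
    rw [← hmul, hkk, hone, map_smul, hd, smul_smul] at h1
    have h3 : d * d = 1 := smul_left_injective (ZMod q) hw10 (by simpa using h1.symm)
    rcases mul_self_eq_one_iff.mp h3 with h | h
    · exact absurd (hnofix k hkmem (by rw [hd, h, one_smul])) hk1
    · exact h
  have hA : ∀ a s : ZMod q, a ≠ 0 → (s = 1 ∨ s = -1) → ∃ g, ρ g w0 = a • w1 ∧ ρ g w1 = (s * a⁻¹) • w0 := by
    intro a s ha hs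
    obtain ⟨g, -, e1, e2, -⟩ := hg a ha
    rw [map_smul] at e2
    have e3 : ρ g w1 = a⁻¹ • w0 := by rw [← e2, smul_smul, inv_mul_cancel₀ ha, one_smul]
    rcases hs with rfl | rfl
    · exact ⟨g, e1, by rw [one_mul]; exact e3⟩
    · refine ⟨g * k, by rw [hmul, hk w0 hw0, e1], ?_⟩
      rw [hmul, hkw1, map_smul, e3, smul_smul]
  have hD : ∀ a s : ZMod q, a ≠ 0 → (s = 1 ∨ s = -1) → ∃ g, ρ g w0 = a • w0 ∧ ρ g w1 = (s * a⁻¹) • w1 := by
    intro a s ha hs
    obtain ⟨g, e1, e2⟩ := hA a s ha hs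
    obtain ⟨g1, f1, f2⟩ := hA 1 1 one_ne_zero (Or.inl rfl)
    rw [one_smul] at f1
    rw [inv_one, one_mul, one_smul] at f2
    exact ⟨g1 * g, by rw [hmul, e1, map_smul, f2], by rw [hmul, e2, map_smul, f1]⟩
  have hE : Function.Bijective (fun x : Fin 2 → ZMod q => x 0 • w0 + x 1 • w1) := by
    constructor
    · intro x y h
      obtain ⟨e1, e2⟩ := huniq _ ((W 0).smul_mem _ hw0) _ ((W 1).smul_mem _ hw1) _ ((W 0).smul_mem _ hw0) _ ((W 1).smul_mem _ hw1) h
      funext i
      fin_cases i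
      · exact smul_left_injective (ZMod q) hw00 e1
      · exact smul_left_injective (ZMod q) hw10 e2
    · intro v
      obtain ⟨a, ha, b, hb, rfl⟩ := hdec v
      obtain ⟨c, rfl⟩ := hline a ha
      obtain ⟨d, rfl⟩ := hline1 b hb
      exact ⟨![c, d], by simp⟩
  let El : (Fin 2 → ZMod q) →ₗ[ZMod q] V :=
    { toFun := fun x => x 0 • w0 + x 1 • w1
      map_add' := fun x y => by simp only [Pi.add_apply, add_smul]; abel
      map_smul' := fun c x => by simp only [Pi.smul_apply, smul_eq_mul, RingHom.id_apply, smul_add, smul_smul] }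
  let E := LinearEquiv.ofBijective El hE
  have hEv : ∀ x, E x = x 0 • w0 + x 1 • w1 := fun x => rfl
  refine ⟨E.symm, fun f => ?_⟩
  have hiff : ∀ g : G, f = E.symm.symm.trans ((ρ g).trans E.symm) ↔ ∀ x, ρ g (E x) = E (f x) := by
    intro g
    constructor
    · intro h x
      rw [h]
      simp
    · intro h
      refine LinearEquiv.ext fun x => E.injective ?_
      rw [← h x]
      simp
  simp only [hiff]
  constructor
  · rintro ⟨g, hgf⟩
    by_cases hgH : g ∈ H
    · obtain ⟨a, ha⟩ := hline _ (hWH g hgH 0 w0 hw0)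
      have ha0 : a ≠ 0 := fun e => by
        rw [e, zero_smul, map_eq_zero_iff _ (ρ g).injective] at ha
        exact hw00 ha
      obtain ⟨M, M1, M2⟩ := hD a 1 ha0 (Or.inl rfl)
      have hmem : M⁻¹ * g ∈ K w0 := by
        show ρ (M⁻¹ * g) w0 = w0
        rw [hmul, ha, ← M1, hinvfix]
      rcases hKw0 _ hmem with e | e
      · refine ⟨a, 1, ha0, Or.inl rfl, Or.inl fun x => E.injective ?_⟩
        rw [← hgf, show g = M by rw [← inv_mul_eq_one.mp e], hEv, hEv, map_add, map_smul, map_smul, M1, M2]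
        simp [smul_smul, mul_comm]
      · refine ⟨a, -1, ha0, Or.inr rfl, Or.inl fun x => E.injective ?_⟩
        rw [← hgf, show g = M * k by rw [← e, mul_inv_cancel_left], hEv, hEv, map_add, map_smul, map_smul, hmul, hmul,
          hk w0 hw0, hkw1, map_smul, M1, M2]
        simp [smul_smul, mul_comm]
    · obtain ⟨a, ha⟩ := hline1 _ ((hswap g hgH).1 w0 hw0)
      have ha0 : a ≠ 0 := fun e => by
        rw [e, zero_smul, map_eq_zero_iff _ (ρ g).injective] at ha
        exact hw00 ha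
      obtain ⟨M, M1, M2⟩ := hA a 1 ha0 (Or.inl rfl)
      have hmem : M⁻¹ * g ∈ K w0 := by
        show ρ (M⁻¹ * g) w0 = w0
        rw [hmul, ha, ← M1, hinvfix]
      rcases hKw0 _ hmem with e | e
      · refine ⟨a, 1, ha0, Or.inl rfl, Or.inr fun x => E.injective ?_⟩
        rw [← hgf, show g = M by rw [← inv_mul_eq_one.mp e], hEv, hEv, map_add, map_smul, map_smul, M1, M2, add_comm]
        simp [smul_smul, mul_comm]
      · refine ⟨a, -1, ha0, Or.inr rfl, Or.inr fun x => E.injective ?_⟩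
        rw [← hgf, show g = M * k by rw [← e, mul_inv_cancel_left], hEv, hEv, map_add, map_smul, map_smul, hmul, hmul,
          hk w0 hw0, hkw1, map_smul, M1, M2, add_comm]
        simp [smul_smul, mul_comm]
  · rintro ⟨a, s, ha, hs, hf | hf⟩
    · obtain ⟨M, M1, M2⟩ := hD a s ha hs
      refine ⟨M, fun x => ?_⟩
      rw [hEv, hEv, hf, map_add, map_smul, map_smul, M1, M2]
      simp [smul_smul, mul_comm]
    · obtain ⟨M, M1, M2⟩ := hA a s ha hs
      refine ⟨M, fun x => ?_⟩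
      rw [hEv, hEv, hf, map_add, map_smul, map_smul, M1, M2, add_comm]
      simp [smul_smul, mul_comm]

end


/-- Let q be a prime, V a non-trivial finite vector space over the field with q elements, and G a finite p-group (p prime) acting faithfully and linearly on V such that all G-orbits on the non-zero vectors have the same size. Then one of the following holds: G is cyclic or generalized quaternion and acts semiregularly on the non-zero vectors; or V has q² elements with q = 2^m − 1 and G is dihedral of order 2^(m+1) or semidihedral of order 2^(m+2); or V has q² elements with q = 2^m + 1 and, in suitable coordinates V = F_q², G is exactly the group of maps (x, y) ↦ (a x, ± a⁻¹ y) and (x, y) ↦ (± a⁻¹ y, a x) with a ≠ 0; or V has 81 elements (q = 3) and G is a 2-group. -/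
theorem result (q : ℕ) [Fact q.Prime] {V : Type*} [AddCommGroup V] [Module (ZMod q) V] [Finite V] [Nontrivial V]
    {G : Type*} [Group G] [Finite G] (p : ℕ) [Fact p.Prime] (hG : IsPGroup p G)
    (ρ : G →* (V ≃ₗ[ZMod q] V)) (hρ : Function.Injective ρ)
    (hhalf : ∀ v w : V, v ≠ 0 → w ≠ 0 → Nat.card {u : V | ∃ g : G, ρ g v = u} = Nat.card {u : V | ∃ g : G, ρ g w = u}) :
    ((IsCyclic G ∨ ∃ n : ℕ, Nonempty (G ≃* QuaternionGroup n)) ∧ ∀ v : V, v ≠ 0 → ∀ g : G, ρ g v = v → g = 1) ∨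
    (Nat.card V = q ^ 2 ∧ ∃ m : ℕ, q = 2 ^ m - 1 ∧
      (Nonempty (G ≃* DihedralGroup (2 ^ m)) ∨ (Cfsg.IsQuasiDihedral G ∧ Nat.card G = 2 ^ (m + 2)))) ∨
    (Nat.card V = q ^ 2 ∧ (∃ m : ℕ, q = 2 ^ m + 1) ∧
      ∃ e : V ≃ₗ[ZMod q] (Fin 2 → ZMod q), ∀ f : (Fin 2 → ZMod q) ≃ₗ[ZMod q] (Fin 2 → ZMod q),
        (∃ g : G, f = e.symm.trans ((ρ g).trans e)) ↔
        ∃ a s : ZMod q, a ≠ 0 ∧ (s = 1 ∨ s = -1) ∧
          ((∀ v, f v = ![a * v 0, s * a⁻¹ * v 1]) ∨ (∀ v, f v = ![s * a⁻¹ * v 1, a * v 0]))) ∨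
    (Nat.card V = 81 ∧ q = 3 ∧ p = 2) := by
  classical
  haveI := Fintype.ofFinite G
  haveI := Fintype.ofFinite V
  have hp : p.Prime := Fact.out
  have hq : q.Prime := Fact.out
  let R : G →* Module.End (ZMod q) V :=
    { toFun := fun g => (ρ g : V →ₗ[ZMod q] V)
      map_one' := by rw [map_one]; rfl
      map_mul' := fun a b => by rw [map_mul]; rfl }
  have hmul : ∀ a b v, ρ (a * b) v = ρ a (ρ b v) := fun a b v => by rw [map_mul]; rfl
  have hone : ∀ v, ρ 1 v = v := fun v => by rw [map_one]; rfl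
  have hinj : ∀ {g : G}, (∀ v, ρ g v = v) → g = 1 := fun {g} h => hρ (LinearEquiv.ext fun v => by rw [h, hone])
  let act : DistribMulAction G V :=
    { smul := fun g v => ρ g v
      one_smul := hone
      mul_smul := hmul
      smul_zero := fun g => map_zero (ρ g)
      smul_add := fun g => map_add (ρ g) }
  have hfaith : FaithfulSMul G V := ⟨fun {g h} e => hρ (LinearEquiv.ext e)⟩
  have horbset : ∀ v : V, {u : V | ∃ g : G, ρ g v = u} = MulAction.orbit G v := fun v => rfl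
  obtain ⟨v₀, hv₀⟩ := exists_ne (0 : V)
  by_cases hpq : p = q
  · subst hpq
    obtain ⟨w, -, hw0, hw⟩ := CfsgLib.Perm.ModularFixed.exists_fixed hG R ⊤ top_ne_bot (fun g w _ => Submodule.mem_top)
    have htriv : ∀ g : G, g = 1 := fun g => hinj fun v => by
      by_cases hv : v = 0
      · rw [hv, map_zero]
      have h1 : {u : V | ∃ g : G, ρ g w = u} = {w} := by
        ext u
        exact ⟨fun ⟨g, hg⟩ => hg.symm.trans (hw g), fun hu => ⟨1, (hone w).trans hu.symm⟩⟩
      have h2 := hhalf v w hv hw0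
      rw [h1, Nat.card_coe_set_eq, Nat.card_coe_set_eq, Set.ncard_singleton, Set.ncard_eq_one] at h2
      obtain ⟨u, hu⟩ := h2
      have e1 : ρ g v ∈ ({u} : Set V) := hu ▸ ⟨g, rfl⟩
      have e2 : v ∈ ({u} : Set V) := hu ▸ ⟨1, hone v⟩
      exact e1.trans e2.symm
    haveI : Subsingleton G := ⟨fun a b => by rw [htriv a, htriv b]⟩
    exact Or.inl ⟨Or.inl inferInstance, fun v _ g _ => htriv g⟩
  have hconst : ∀ a b : V, a ≠ 0 → b ≠ 0 →
      Nat.card (MulAction.stabilizer G a) = Nat.card (MulAction.stabilizer G b) := by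
    intro a b ha hb
    have h1 := hhalf a b ha hb
    rw [horbset, horbset] at h1
    have ha' := (MulAction.stabilizer G a).card_mul_index
    have hb' := (MulAction.stabilizer G b).card_mul_index
    rw [Subgroup.index_eq_card, ← Nat.card_congr (MulAction.orbitEquivQuotientStabilizer G a)] at ha'
    rw [Subgroup.index_eq_card, ← Nat.card_congr (MulAction.orbitEquivQuotientStabilizer G b), ← h1, ← ha'] at hb'
    have hne : Nonempty (MulAction.orbit G a) := ⟨⟨a, MulAction.mem_orbit_self a⟩⟩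
    exact (Nat.eq_of_mul_eq_mul_right Nat.card_pos hb').symm
  by_cases hp2 : p = 2
  swap
  · obtain ⟨hc, hfree⟩ := Cfsg.Agent.S1160.result (P := G) (E := V) hp2 hG hq
      (fun e => ZModModule.char_nsmul_eq_zero q e) hconst
    refine Or.inl ⟨Or.inl hc, fun v hv g hg => ?_⟩
    by_contra hg1
    exact hv (hfree g hg1 v hg)
  subst hp2
  have hqo : Odd q := hq.odd_of_ne_two (Ne.symm hpq)
  have h2 : (2 : ZMod q) ≠ 0 := by
    rw [show (2 : ZMod q) = ((2 : ℕ) : ZMod q) by norm_num, Ne, ZMod.natCast_eq_zero_iff]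
    intro h
    rcases (Nat.dvd_prime Nat.prime_two).mp h with e | e
    · exact hq.ne_one e
    · exact hpq e.symm
  have hneg : ∀ v : V, v = -v → v = 0 := fun v hv => by
    have h : (2 : ZMod q) • v = 0 := by rw [two_smul]; nth_rewrite 1 [hv]; exact neg_add_cancel v
    exact (smul_eq_zero.mp h).resolve_left h2
  by_cases hfree : ∀ v : V, v ≠ 0 → ∀ g : G, ρ g v = v → g = 1
  · refine Or.inl ⟨?_, hfree⟩
    have hinv : ∀ t : G, orderOf t = 2 → ∀ v : V, ρ t v = -v := by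
      intro t ht v
      have htt : t * t = 1 := by rw [← pow_two, ← ht, pow_orderOf_eq_one]
      by_contra hne
      have := hfree (ρ t v + v) (fun h => hne (eq_neg_of_add_eq_zero_left h)) t (by
        rw [map_add, ← hmul, htt, hone, add_comm])
      rw [this, orderOf_one] at ht
      omega
    rcases CfsgLib.UniqueOrderP.cyclic_or_quaternion hG (fun x y hx hy => by
      have : x = y := hρ (LinearEquiv.ext fun v => by rw [hinv x hx, hinv y hy])
      rw [this]; exact Subgroup.mem_zpowers y) with h | ⟨-, m, h⟩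
    · exact Or.inl h
    · exact Or.inr ⟨_, h⟩
  push Not at hfree
  obtain ⟨a₀, ha₀, g₁, hg₁, hg₁1⟩ := hfree
  have hσ : ∀ v : V, v ≠ 0 → ∃ g : G, g ≠ 1 ∧ ρ g v = v := by
    intro v hv
    have h1 := hconst a₀ v ha₀ hv
    have hne : MulAction.stabilizer G v ≠ ⊥ := fun h => by
      rw [h, Subgroup.card_bot, Subgroup.card_eq_one] at h1
      exact hg₁1 (by rw [← Subgroup.mem_bot, ← h1]; exact hg₁)
    obtain ⟨g, hg, hg1⟩ := (Subgroup.bot_or_exists_ne_one _).resolve_left hne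
    exact ⟨g, hg1, hg⟩
  -- irreducibility
  have hirr : ∀ W : Submodule (ZMod q) V, (∀ g : G, ∀ w ∈ W, ρ g w ∈ W) → W = ⊥ ∨ W = ⊤ := by
    intro W hW
    by_contra hne
    push Not at hne
    obtain ⟨π, hπ⟩ := LinearMap.exists_leftInverse_of_injective W.subtype (Submodule.ker_subtype W)
    have hπW : ∀ w : W, π (w : V) = w := fun w => LinearMap.congr_fun hπ w
    let N : V →ₗ[ZMod q] V := ∑ g : G, (ρ g : V →ₗ[ZMod q] V) ∘ₗ W.subtype ∘ₗ π ∘ₗ (ρ g⁻¹ : V →ₗ[ZMod q] V)
    have hNval : ∀ v, N v = ∑ g : G, ρ g (π (ρ g⁻¹ v) : V) := fun v => by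
      simp [N]
    have hNW : ∀ v, N v ∈ W := fun v => by
      rw [hNval]
      exact Submodule.sum_mem _ fun g _ => hW g _ (π _).2
    have hNfix : ∀ w ∈ W, N w = (Nat.card G : ZMod q) • w := by
      intro w hw
      rw [hNval, Finset.sum_congr rfl (fun g _ => by
        rw [hπW ⟨ρ g⁻¹ w, hW _ w hw⟩, Subtype.coe_mk, ← hmul, mul_inv_cancel, hone]), Finset.sum_const, Finset.card_univ,
        Nat.cast_smul_eq_nsmul, Nat.card_eq_fintype_card]
    have hNcomm : ∀ h v, N (ρ h v) = ρ h (N v) := by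
      intro h v
      rw [hNval, hNval, map_sum]
      refine (Fintype.sum_equiv (Equiv.mulLeft h) _ _ fun g => ?_).symm
      show ρ h (ρ g (π (ρ g⁻¹ v) : V)) = ρ (h * g) (π (ρ (h * g)⁻¹ (ρ h v)) : V)
      rw [← hmul h g, ← hmul (h * g)⁻¹ h v, mul_inv_rev, inv_mul_cancel_right]
    have hGu : (Nat.card G : ZMod q) ≠ 0 := by
      obtain ⟨k, hk⟩ := IsPGroup.iff_card.mp hG
      rw [hk, Nat.cast_pow]
      exact pow_ne_zero _ (by exact_mod_cast h2)
    obtain ⟨u, hu, hu0⟩ := (Submodule.ne_bot_iff W).mp hne.1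
    obtain ⟨v, hv, hv0⟩ : ∃ v, N v = 0 ∧ v ≠ 0 := by
      obtain ⟨x, -, hx⟩ := SetLike.exists_of_lt (lt_top_iff_ne_top.mpr hne.2)
      refine ⟨x - (Nat.card G : ZMod q)⁻¹ • N x, ?_, fun h => hx ?_⟩
      · rw [map_sub, map_smul, hNfix _ (hNW x), smul_smul, inv_mul_cancel₀ hGu, one_smul, sub_self]
      · rw [sub_eq_zero.mp h]; exact W.smul_mem _ (hNW x)
    have hsum : ∀ a ∈ W, ∀ b, N b = 0 → ∀ g : G, ρ g (a + b) = a + b → ρ g a = a ∧ ρ g b = b := by
      intro a ha b hb g hg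
      have h1 := congrArg N hg
      rw [hNcomm, map_add, hNfix a ha, hb, add_zero, map_smul] at h1
      have h3 := (smul_right_injective V hGu) h1
      refine ⟨h3, ?_⟩
      rw [map_add, h3] at hg
      exact add_left_cancel hg
    have hle : ∀ a ∈ W, a ≠ 0 → ∀ b, N b = 0 → b ≠ 0 → MulAction.stabilizer G a = MulAction.stabilizer G b := by
      intro a ha ha0 b hb hb0
      have hab : a + b ≠ 0 := fun h => by
        have h1 := congrArg N h
        rw [map_add, hNfix a ha, hb, add_zero, map_zero] at h1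
        exact ha0 ((smul_eq_zero.mp h1).resolve_left hGu)
      have l1 : MulAction.stabilizer G (a + b) ≤ MulAction.stabilizer G a := fun g hg => (hsum a ha b hb g hg).1
      have l2 : MulAction.stabilizer G (a + b) ≤ MulAction.stabilizer G b := fun g hg => (hsum a ha b hb g hg).2
      have e1 := Subgroup.eq_of_le_of_card_ge l1 (hconst _ _ ha0 hab).le
      have e2 := Subgroup.eq_of_le_of_card_ge l2 (hconst _ _ hb0 hab).le
      rw [← e1, e2]
    obtain ⟨g, hg1, hg⟩ := hσ u hu0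
    refine hg1 (hinj fun x => ?_)
    have hx : x = (Nat.card G : ZMod q)⁻¹ • N x + (x - (Nat.card G : ZMod q)⁻¹ • N x) := by abel
    have hgW : ∀ a ∈ W, ρ g a = a := fun a ha => by
      by_cases ha0 : a = 0
      · rw [ha0, map_zero]
      have h1 : g ∈ MulAction.stabilizer G a := by
        rw [hle a ha ha0 v hv hv0, ← hle u hu hu0 v hv hv0]; exact hg
      exact h1
    have hgU : ∀ b, N b = 0 → ρ g b = b := fun b hb => by
      by_cases hb0 : b = 0
      · rw [hb0, map_zero]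
      have h1 : g ∈ MulAction.stabilizer G b := by
        rw [← hle u hu hu0 b hb hb0]; exact hg
      exact h1
    conv_lhs => rw [hx]
    rw [map_add, hgW _ (W.smul_mem _ (hNW x)), hgU _ (by
      rw [map_sub, map_smul, hNfix _ (hNW x), smul_smul, inv_mul_cancel₀ hGu, one_smul, sub_self]), ← hx]
  -- central elements fix nothing
  have hcentral : ∀ z : G, (∀ g : G, g * z = z * g) → z ≠ 1 → ∀ v, ρ z v = v → v = 0 := by
    intro z hz hz1 v hv
    let F : Submodule (ZMod q) V :=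
      { carrier := {v | ρ z v = v}
        add_mem' := fun {a b} ha hb => by
          show ρ z (a + b) = a + b
          rw [map_add, show ρ z a = a from ha, show ρ z b = b from hb]
        zero_mem' := map_zero _
        smul_mem' := fun c a ha => by
          show ρ z (c • a) = c • a
          rw [map_smul, show ρ z a = a from ha] }
    rcases hirr F (fun g w hw => by show ρ z (ρ g w) = ρ g w; rw [← hmul, ← hz, hmul, show ρ z w = w from hw]) with h | h
    · have : v ∈ F := hv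
      rwa [h, Submodule.mem_bot] at this
    · exact absurd (hinj fun w => (h ▸ Submodule.mem_top : w ∈ F)) hz1
  have hnab : ¬ ∀ a b : G, a * b = b * a := fun hab => by
    obtain ⟨g, hg1, hg⟩ := hσ v₀ hv₀
    exact hv₀ (hcentral g (fun a => hab a g) hg1 v₀ hg)
  have hzneg : ∀ z : G, (∀ g : G, g * z = z * g) → orderOf z = 2 → ∀ v, ρ z v = -v := by
    intro z hz hzo v
    have hz1 : z ≠ 1 := fun h => by rw [h, orderOf_one] at hzo; omega
    have hzz : z * z = 1 := by rw [← pow_two, ← hzo, pow_orderOf_eq_one]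
    refine eq_neg_of_add_eq_zero_left (hcentral z hz hz1 _ ?_)
    rw [map_add, ← hmul, hzz, hone, add_comm]
  by_cases hD : ∃ n : ℕ, Nonempty (G ≃* DihedralGroup n)
  · obtain ⟨n, ⟨e⟩⟩ := hD
    rcases eq_or_ne n 0 with rfl | hn0
    · haveI : Finite (DihedralGroup 0) := Finite.of_equiv G e.toEquiv
      haveI : Finite (ZMod 0) := Finite.of_injective DihedralGroup.r (fun a b h => DihedralGroup.r.inj h)
      exact absurd ‹Finite (ZMod 0)› (by rw [show ZMod 0 = ℤ from rfl]; exact not_finite_iff_infinite.mpr inferInstance)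
    haveI : NeZero n := ⟨hn0⟩
    obtain ⟨k, hk⟩ := IsPGroup.iff_card.mp hG
    have hcard : Nat.card G = 2 * n := (Nat.card_congr e.toEquiv).trans DihedralGroup.nat_card
    obtain ⟨m, hm⟩ : ∃ m, n = 2 ^ m := by
      have h1 : n ∣ 2 ^ k := Dvd.intro_left _ (hcard.symm.trans hk)
      obtain ⟨m, -, hm⟩ := (Nat.dvd_prime_pow Nat.prime_two).mp h1
      exact ⟨m, hm⟩
    have hm2 : 2 ≤ m := by
      by_contra h
      refine hnab fun a b => e.injective ?_
      rw [map_mul, map_mul]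
      generalize e a = x
      generalize e b = y
      rcases (show m = 0 ∨ m = 1 by omega) with rfl | rfl
      · rw [pow_zero] at hm; subst hm; revert x y; decide
      · rw [pow_one] at hm; subst hm; revert x y; decide
    subst hm
    let C : Subgroup G := Subgroup.zpowers (e.symm (DihedralGroup.r 1))
    have hCmem : ∀ g, g ∈ C ↔ ∃ i, e g = DihedralGroup.r i := by
      intro g
      constructor
      · intro hg
        obtain ⟨l, rfl⟩ := Subgroup.mem_zpowers_iff.mp hg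
        refine ⟨(l : ZMod (2 ^ m)), ?_⟩
        rw [map_zpow, MulEquiv.apply_symm_apply, DihedralGroup.r_one_zpow]
      · rintro ⟨i, hi⟩
        refine Subgroup.mem_zpowers_iff.mpr ⟨(i.val : ℤ), e.injective ?_⟩
        rw [map_zpow, MulEquiv.apply_symm_apply, zpow_natCast, DihedralGroup.r_one_pow, ZMod.natCast_zmod_val, hi]
    have hnC : ∀ g, g ∉ C → ∃ i, e g = DihedralGroup.sr i := by
      intro g hg
      rcases h : e g with i | i
      · exact absurd ((hCmem g).mpr ⟨i, h⟩) hg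
      · exact ⟨i, rfl⟩
    have hsrC : ∀ i, e.symm (DihedralGroup.sr i) ∉ C := fun i h => by
      obtain ⟨j, hj⟩ := (hCmem _).mp h
      rw [MulEquiv.apply_symm_apply] at hj
      exact absurd hj (by simp)
    have hCidx : C.index = 2 := by
      have h1 := C.card_mul_index
      rw [Nat.card_zpowers, MulEquiv.orderOf_eq, DihedralGroup.orderOf_r_one, hcard] at h1
      exact Nat.eq_of_mul_eq_mul_left (by positivity) (h1.trans (mul_comm _ _))
    obtain ⟨m', hm'⟩ : ∃ m', m = m' + 2 := ⟨m - 2, by omega⟩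
    subst hm'
    obtain ⟨c, hc⟩ : ∃ c : ZMod (2 ^ (m' + 2)), c = ((2 ^ m' : ℕ) : ZMod (2 ^ (m' + 2))) := ⟨_, rfl⟩
    have hc4 : c + c + c + c = 0 := by
      rw [hc, ← Nat.cast_add, ← Nat.cast_add, ← Nat.cast_add, ZMod.natCast_eq_zero_iff]
      exact dvd_of_eq (by rw [pow_add]; ring)
    have hc2 : c + c ≠ 0 := by
      rw [hc, ← Nat.cast_add, Ne, ZMod.natCast_eq_zero_iff]
      intro h
      have := Nat.le_of_dvd (by have := Nat.two_pow_pos m'; omega) h
      rw [pow_add] at this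
      have := Nat.two_pow_pos m'
      omega
    obtain ⟨z, hzdef⟩ : ∃ z, z = e.symm (DihedralGroup.r (c + c)) := ⟨_, rfl⟩
    have hez : e z = DihedralGroup.r (c + c) := by rw [hzdef, MulEquiv.apply_symm_apply]
    have hzC : z ∈ C := (hCmem z).mpr ⟨_, hez⟩
    have hzo : orderOf z = 2 := by
      refine orderOf_eq_prime (e.injective ?_) fun h => hc2 ?_
      · rw [map_pow, hez, map_one, pow_two, DihedralGroup.r_mul_r, DihedralGroup.one_def]
        congr 1
        linear_combination hc4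
      · rw [h, map_one, DihedralGroup.one_def] at hez
        exact (DihedralGroup.r.inj hez).symm
    have hzc : ∀ g : G, g * z = z * g := by
      intro g
      apply e.injective
      rw [map_mul, map_mul, hez]
      rcases e g with i | i
      · rw [DihedralGroup.r_mul_r, DihedralGroup.r_mul_r]
        exact congrArg DihedralGroup.r (add_comm _ _)
      · rw [DihedralGroup.sr_mul_r, DihedralGroup.r_mul_sr]
        congr 1
        linear_combination hc4
    obtain ⟨f, hf1, hfV, hfR⟩ := reflect hG hqo ρ C hCidx inferInstance z hzC hzo (hzneg z hzc hzo) hσ (by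
      intro t ht _
      obtain ⟨i, hi⟩ := hnC t ht
      refine ⟨e.symm (DihedralGroup.r c), e.injective ?_⟩
      rw [map_mul, map_mul, map_mul, map_inv, MulEquiv.apply_symm_apply, hi, hez, DihedralGroup.inv_r,
        DihedralGroup.r_mul_sr, DihedralGroup.sr_mul_r, DihedralGroup.sr_mul_r]
      congr 1
      linear_combination -hc4)
    have hR : Nat.card {t : G // t ∉ C ∧ t * t = 1} = 2 ^ (m' + 2) := by
      rw [← Nat.card_zmod (2 ^ (m' + 2))]
      refine (Nat.card_congr (Equiv.ofBijective (fun i : ZMod (2 ^ (m' + 2)) =>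
        (⟨e.symm (DihedralGroup.sr i), hsrC i, by rw [← map_mul, DihedralGroup.sr_mul_self, map_one]⟩ :
          {t : G // t ∉ C ∧ t * t = 1})) ⟨?_, ?_⟩)).symm
      · intro a b hab
        exact DihedralGroup.sr.inj (e.symm.injective (congrArg Subtype.val hab))
      · rintro ⟨t, ht, htt⟩
        obtain ⟨i, hi⟩ := hnC t ht
        exact ⟨i, Subtype.ext (e.injective (by rw [MulEquiv.apply_symm_apply, hi]))⟩
    obtain ⟨hV2, hqm⟩ := finish (q := q) hqo hf1 hfV (hR.symm.trans hfR)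
    exact Or.inr (Or.inl ⟨hV2, m' + 2, hqm, Or.inl ⟨e⟩⟩)
  by_cases hSD : Cfsg.IsQuasiDihedral G
  · obtain ⟨n, hn, hcard, x, y, hx, hy, hyx⟩ := hSD
    obtain ⟨l, rfl⟩ : ∃ l, n = l + 3 := ⟨n - 3, by omega⟩
    simp only [Nat.add_sub_cancel, show l + 3 - 1 = l + 2 by omega] at hyx
    obtain ⟨P, hPdef⟩ : ∃ P : ℕ, 2 ^ l = P := ⟨_, rfl⟩
    have hP1 : 1 ≤ P := hPdef ▸ Nat.one_le_two_pow
    have e2 : 2 ^ (l + 2) = 4 * P := by rw [← hPdef, pow_add]; ring
    have e3 : 2 ^ (l + 3) = 8 * P := by rw [← hPdef, pow_add]; ring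
    have e4 : 2 ^ (l + 1) = 2 * P := by rw [← hPdef, pow_add]; ring
    rw [e2] at hyx
    have hyy : y * y = 1 := by rw [← pow_two, ← hy, pow_orderOf_eq_one]
    have hyinv : y⁻¹ = y := inv_eq_of_mul_eq_one_right hyy
    have hxP : x ^ (8 * P) = 1 := by rw [← e3, ← hx, pow_orderOf_eq_one]
    let C : Subgroup G := Subgroup.zpowers x
    have hCidx : C.index = 2 := by
      have h1 := C.card_mul_index
      rw [Nat.card_zpowers, hx, hcard, pow_succ 2 (l + 3)] at h1
      exact Nat.eq_of_mul_eq_mul_left (Nat.two_pow_pos _) h1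
    have hyC : y ∉ C := fun h => by
      obtain ⟨j, hj⟩ := Subgroup.mem_zpowers_iff.mp h
      have h1 : y * x * y⁻¹ = x := by rw [← hj]; group
      rw [h1] at hyx
      have h3 := pow_eq_pow_iff_modEq.mp (show x ^ 1 = x ^ (4 * P - 1) by rw [pow_one]; exact hyx)
      rw [hx, e3] at h3
      rw [Nat.modEq_iff_dvd' (by omega)] at h3
      have := Nat.le_of_dvd (by omega) h3
      omega
    have hconjy : ∀ j : ℕ, y * x ^ j * y = x ^ ((4 * P - 1) * j) := fun j => by
      nth_rewrite 2 [← hyinv]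
      rw [← conj_pow, hyx, ← pow_mul]
    have hout : ∀ g, g ∉ C → ∃ i : ℕ, g = y * x ^ i := by
      intro g hg
      have h1 : y * g ∈ C := (Subgroup.mul_mem_iff_of_index_two hCidx).mpr (by simp [hyC, hg])
      obtain ⟨i, hi⟩ := (mem_powers_iff_mem_zpowers.mpr h1)
      exact ⟨i, by rw [show x ^ i = y * g from hi, ← mul_assoc, hyy, one_mul]⟩
    have hsqr : ∀ i : ℕ, y * x ^ i * (y * x ^ i) = x ^ (4 * P * i) := fun i => by
      rw [← mul_assoc, hconjy, ← pow_add, ← Nat.succ_mul, show Nat.succ (4 * P - 1) = 4 * P by omega]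
    have heven : ∀ i : ℕ, y * x ^ i * (y * x ^ i) = 1 → ∃ j, i = 2 * j := fun i h => by
      rw [hsqr, ← orderOf_dvd_iff_pow_eq_one, hx, e3] at h
      obtain ⟨r, hr⟩ := h
      refine ⟨r, Nat.eq_of_mul_eq_mul_left (show 0 < 4 * P by omega) ?_⟩
      rw [hr]; ring
    obtain ⟨z, hzdef⟩ : ∃ z, z = x ^ (4 * P) := ⟨_, rfl⟩
    have hzC : z ∈ C := hzdef ▸ Subgroup.npow_mem_zpowers x _
    have hzo : orderOf z = 2 := by
      rw [hzdef, orderOf_pow_of_dvd (by omega) (by rw [hx, e3]; exact Dvd.intro_left 2 (by ring)), hx, e3]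
      exact Nat.div_eq_of_eq_mul_left (by omega) (by ring)
    have hzz : z * z = 1 := by rw [← pow_two, ← hzo, pow_orderOf_eq_one]
    have hzy : y * z * y = z := by
      rw [hzdef, hconjy]
      obtain ⟨r, hr⟩ : ∃ r, 4 * P - 1 = 2 * r + 1 := ⟨2 * P - 1, by omega⟩
      rw [hr, show (2 * r + 1) * (4 * P) = 8 * P * r + 4 * P by ring, pow_add, pow_mul, hxP, one_pow, one_mul]
    have hzc : ∀ g : G, g * z = z * g := by
      intro g
      have hxz : ∀ j : ℕ, x ^ j * z = z * x ^ j := fun j => by rw [hzdef, ← pow_add, ← pow_add, add_comm]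
      have hyz : y * z = z * y := by
        nth_rewrite 2 [← hzy]
        rw [mul_assoc _ y y, hyy, mul_one]
      by_cases hg : g ∈ C
      · obtain ⟨i, rfl⟩ := mem_powers_iff_mem_zpowers.mpr hg
        exact hxz i
      · obtain ⟨i, rfl⟩ := hout g hg
        rw [mul_assoc, hxz, ← mul_assoc, hyz, mul_assoc]
    obtain ⟨f, hf1, hfV, hfR⟩ := reflect hG hqo ρ C hCidx inferInstance z hzC hzo (hzneg z hzc hzo) hσ (by
      intro t ht _
      obtain ⟨i, rfl⟩ := hout t ht
      refine ⟨x ^ (2 * P), ?_⟩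
      rw [mul_inv_eq_iff_eq_mul, hzdef]
      have h1 : x ^ (2 * P) * y = y * x ^ ((4 * P - 1) * (2 * P)) := by
        rw [← hconjy, ← mul_assoc, ← mul_assoc, hyy, one_mul]
      rw [← mul_assoc, h1, mul_assoc, ← pow_add, mul_assoc (y * x ^ i), ← pow_add, mul_assoc y, ← pow_add]
      congr 1
      rw [pow_eq_pow_iff_modEq, hx, e3]
      obtain ⟨Q, rfl⟩ : ∃ Q, P = Q + 1 := ⟨P - 1, by omega⟩
      rw [show (4 * (Q + 1) - 1) * (2 * (Q + 1)) + i = i + (4 * Q + 3) * (2 * (Q + 1)) by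
          rw [show 4 * (Q + 1) - 1 = 4 * Q + 3 by omega]; ring,
        show i + (4 * (Q + 1) + 2 * (Q + 1)) = i + 6 * (Q + 1) by ring,
        show (4 * Q + 3) * (2 * (Q + 1)) = 6 * (Q + 1) + 8 * (Q + 1) * Q by ring, ← add_assoc]
      exact Nat.ModEq.symm (Nat.modEq_of_dvd ⟨(Q : ℤ), by push_cast; ring⟩))
    have hR : Nat.card {t : G // t ∉ C ∧ t * t = 1} = 2 ^ (l + 2) := by
      rw [← Nat.card_fin (2 ^ (l + 2))]
      refine (Nat.card_congr (Equiv.ofBijective (fun i : Fin (2 ^ (l + 2)) =>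
        (⟨y * x ^ (2 * (i : ℕ)), ?_, ?_⟩ : {t : G // t ∉ C ∧ t * t = 1})) ⟨?_, ?_⟩)).symm
      · intro h
        exact hyC (by simpa using C.mul_mem h (C.inv_mem (Subgroup.npow_mem_zpowers x (2 * (i : ℕ)))))
      · rw [hsqr, show 4 * P * (2 * (i : ℕ)) = 8 * P * i by ring, pow_mul, hxP, one_pow]
      · intro a b hab
        have h1 := mul_left_cancel (congrArg Subtype.val hab)
        have ha := a.2
        have hb := b.2
        have h3 := pow_injOn_Iio_orderOf (x := x) (show 2 * (a : ℕ) ∈ Set.Iio (orderOf x) by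
          rw [Set.mem_Iio, hx, e3]; omega) (show 2 * (b : ℕ) ∈ Set.Iio (orderOf x) by
          rw [Set.mem_Iio, hx, e3]; omega) h1
        exact Fin.ext (by omega)
      · rintro ⟨t, ht, htt⟩
        obtain ⟨i, rfl⟩ := hout t ht
        obtain ⟨j, rfl⟩ := heven i htt
        refine ⟨⟨j % 2 ^ (l + 2), Nat.mod_lt _ (Nat.two_pow_pos _)⟩, Subtype.ext ?_⟩
        show y * x ^ (2 * (j % 2 ^ (l + 2))) = y * x ^ (2 * j)
        congr 1
        rw [pow_eq_pow_iff_modEq, hx, e3, e2, show 8 * P = 2 * (4 * P) by ring]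
        exact (Nat.mod_modEq j _).mul_left' 2
    obtain ⟨hV2, hqm⟩ := finish (q := q) hqo hf1 hfV (hR.symm.trans hfR)
    exact Or.inr (Or.inl ⟨hV2, l + 2, hqm, Or.inr ⟨⟨l + 3, hn, hcard, x, y, hx, hy, by
      rw [show l + 3 - 1 = l + 2 by omega, e2]; exact hyx⟩, by rw [hcard]⟩⟩)
  have hnc : ¬ IsCyclic G := fun h => hnab fun a b => IsCyclic.commGroup.mul_comm a b
  have hnq : ∀ n : ℕ, ¬ Nonempty (G ≃* QuaternionGroup n) := by
    rintro n ⟨e⟩
    rcases eq_or_ne n 0 with rfl | hn0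
    · haveI : Finite (QuaternionGroup 0) := Finite.of_equiv G e.toEquiv
      haveI : Finite (ZMod (2 * 0)) := Finite.of_injective QuaternionGroup.a (fun a b h => QuaternionGroup.a.inj h)
      exact absurd ‹Finite (ZMod (2 * 0))› (by rw [show ZMod (2 * 0) = ℤ from rfl]; exact not_finite_iff_infinite.mpr inferInstance)
    haveI : NeZero n := ⟨hn0⟩
    obtain ⟨g, hg1, hg⟩ := hσ v₀ hv₀
    obtain ⟨k, hk⟩ := hG g
    obtain ⟨j, -, hjo⟩ := (Nat.dvd_prime_pow Nat.prime_two).mp (orderOf_dvd_of_pow_eq_one hk)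
    have hj0 : j ≠ 0 := fun h => hg1 (orderOf_eq_one_iff.mp (by rw [hjo, h, pow_zero]))
    have hio : orderOf (g ^ 2 ^ (j - 1)) = 2 := by
      rw [orderOf_pow_of_dvd (pow_ne_zero _ two_ne_zero) (hjo ▸ pow_dvd_pow 2 (Nat.sub_le j 1)), hjo,
        Nat.pow_div (Nat.sub_le j 1) (by norm_num), show j - (j - 1) = 1 by omega, pow_one]
    have hfix : ∀ l : ℕ, ρ (g ^ l) v₀ = v₀ := fun l => by
      induction l with
      | zero => rw [pow_zero, hone]
      | succ l ih => rw [pow_succ, hmul, hg, ih]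
    refine hv₀ (hcentral _ (fun a => e.injective ?_) (fun h => ?_) v₀ (hfix (2 ^ (j - 1))))
    · rw [map_mul, map_mul]
      refine (quaternion_inv_central _ _ ?_).symm
      rw [← map_mul, ← pow_two, orderOf_dvd_iff_pow_eq_one.mp (dvd_of_eq hio), map_one]
    · rw [h, orderOf_one] at hio; omega
  push Not at hD
  obtain ⟨H, W, hHidx, hWsup, hWind, hWH, hWker, hWperm⟩ := Cfsg.Agent.S3380.result q 2 hG ρ hρ hirr hnc hnq
    (fun n h => (hD n).false h.some) hSD
  exact monomial q hG ρ hρ hqo hconst hσ H W hHidx hWsup hWind hWH hWker hWperm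

end Cfsg.Agent.S3371
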