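import Cfsg.Statements.S3374
import Cfsg.Agent.Lib.GroupB.FrobExamples
import Mathlib.LinearAlgebra.Matrix.SpecialLinearGroup
import Mathlib.LinearAlgebra.Matrix.Notation
import Mathlib.Tactic

set_option autoImplicit false
open Cfsg

namespace Cfsg.Agent.S3374

abbrev F := ZMod 11
abbrev M11 := F × F × F × F
abbrev M5 := ZMod 5 × ZMod 5 × ZMod 5 × ZMod 5

def m11 : M11 → M11 → M11 := fun ⟨a, b, c, d⟩ ⟨e, f, g, h⟩ => (a*e + b*g, a*f + b*h, c*e + d*g, c*f + d*h)
def m5 : M5 → M5 → M5 := fun ⟨a, b, c, d⟩ ⟨e, f, g, h⟩ => (a*e + b*g, a*f + b*h, c*e + d*g, c*f + d*h)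
def pw {α : Type} (m : α → α → α) (e x : α) : ℕ → α
  | 0 => e
  | n + 1 => m (pw m e x n) x

def one11 : M11 := (1, 0, 0, 1)
def one5 : M5 := (1, 0, 0, 1)
def t11 : M11 := (9, 0, 10, 5)
def s11 : M11 := (0, 10, 1, 0)
def t5 : M5 := (1, 1, 0, 1)
def s5 : M5 := (0, 4, 1, 0)

def inv5 (x : ZMod 5) : ZMod 5 := x * x * x

/-- Bruhat word `T^i S T^k S T^j S^e` -/
def word (x : M5) : ℕ × ℕ × ℕ × ℕ :=
  let e : ℕ := if x.2.2.1 = 0 then 3 else 0
  let y := if x.2.2.1 = 0 then m5 x s5 else x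
  (((y.1 + 1) * inv5 y.2.2.1).val, y.2.2.1.val, ((y.2.2.2 + 1) * inv5 y.2.2.1).val, e)

def evalW {α : Type} (m : α → α → α) (e t s : α) : ℕ × ℕ × ℕ × ℕ → α := fun ⟨i, k, j, l⟩ =>
  m (m (m (m (m (pw m e t i) s) (pw m e t k)) s) (pw m e t j)) (pw m e s l)

def rho (x : M5) : M11 := evalW m11 one11 t11 s11 (word x)

lemma check_word : ∀ a b c d : ZMod 5, a * d - b * c = 1 →
    evalW m5 one5 t5 s5 (word (a, b, c, d)) = (a, b, c, d) := by
  decide +kernel

lemma check_gen : ∀ a b c d : ZMod 5, a * d - b * c = 1 →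
    rho (m5 (a, b, c, d) t5) = m11 (rho (a, b, c, d)) t11 ∧
    rho (m5 (a, b, c, d) s5) = m11 (rho (a, b, c, d)) s11 := by
  decide +kernel

lemma check_one : rho one5 = one11 := by decide +kernel

lemma check_fpf : ∀ a b c d : ZMod 5, a * d - b * c = 1 → (a, b, c, d) ≠ one5 →
    ((rho (a, b, c, d)).1 - 1) * ((rho (a, b, c, d)).2.2.2 - 1)
      - (rho (a, b, c, d)).2.1 * (rho (a, b, c, d)).2.2.1 ≠ 0 := by
  decide +kernel

abbrev SL5 := Matrix.SpecialLinearGroup (Fin 2) (ZMod 5)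

def tup (g : SL5) : M5 := (g.1 0 0, g.1 0 1, g.1 1 0, g.1 1 1)

lemma tup_mul (g h : SL5) : tup (g * h) = m5 (tup g) (tup h) := by
  simp [tup, m5, Matrix.mul_apply, Fin.sum_univ_two]

lemma tup_one : tup 1 = one5 := by simp [tup, one5]

lemma tup_det (g : SL5) : g.1 0 0 * g.1 1 1 - g.1 0 1 * g.1 1 0 = 1 := by
  rw [← Matrix.det_fin_two]; exact g.2

lemma tup_inj {g h : SL5} (hh : tup g = tup h) : g = h := by
  simp only [tup, Prod.mk.injEq] at hh
  ext i j; fin_cases i <;> fin_cases j <;> simp [hh]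

def T : SL5 := ⟨!![1, 1; 0, 1], by decide⟩
def S : SL5 := ⟨!![0, 4; 1, 0], by decide⟩

def toMat (x : M11) : Matrix (Fin 2) (Fin 2) F := !![x.1, x.2.1; x.2.2.1, x.2.2.2]

lemma toMat_mul (x y : M11) : toMat (m11 x y) = toMat x * toMat y := by
  obtain ⟨a, b, c, d⟩ := x
  obtain ⟨e, f, g, h⟩ := y
  simp [toMat, m11, Matrix.mul_fin_two]

/-- the submonoid of right-compatible elements -/
def good : Submonoid SL5 where
  carrier := {h | ∀ g : SL5, toMat (rho (tup (g * h))) = toMat (rho (tup g)) * toMat (rho (tup h))}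
  one_mem' := fun g => by
    rw [mul_one, tup_one, check_one]; simp [toMat, one11, Matrix.one_fin_two]
  mul_mem' := fun {x y} hx hy g => by
    rw [← mul_assoc, hy, hx, hy x, mul_assoc]

lemma gen_mem (u : SL5) (u' : M11)
    (hu : ∀ a b c d : ZMod 5, a * d - b * c = 1 → rho (m5 (a, b, c, d) (tup u)) = m11 (rho (a, b, c, d)) u') :
    u ∈ good := by
  intro g
  have h1 := hu _ _ _ _ (tup_det g)
  have h2 := hu 1 0 0 1 (by decide)
  have h3 : rho (tup u) = m11 one11 u' := by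
    rw [← check_one]
    refine Eq.trans ?_ h2
    rw [show ((1, 0, 0, 1) : M5) = tup 1 from tup_one.symm, ← tup_mul, one_mul]
  rw [tup_mul, show tup g = (g.1 0 0, g.1 0 1, g.1 1 0, g.1 1 1) from rfl, h1, h3, toMat_mul, toMat_mul]
  simp [toMat, one11, ← Matrix.one_fin_two]

lemma tup_pw (u : SL5) : ∀ n, pw m5 one5 (tup u) n = tup (u ^ n)
  | 0 => by rw [pow_zero, tup_one]; rfl
  | n + 1 => by rw [pow_succ, tup_mul, ← tup_pw u n]; rfl

lemma all_good (g : SL5) : g ∈ good := by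
  have hT : T ∈ good := gen_mem T t11 fun a b c d h => by
    have := (check_gen a b c d h).1
    exact this
  have hS : S ∈ good := gen_mem S s11 fun a b c d h => by
    have := (check_gen a b c d h).2
    exact this
  set w := word (tup g)
  have e : g = T ^ w.1 * S * T ^ w.2.1 * S * T ^ w.2.2.1 * S ^ w.2.2.2 := by
    apply tup_inj
    simp only [tup_mul, ← tup_pw]
    exact (check_word _ _ _ _ (tup_det g)).symm
  rw [e]
  exact mul_mem (mul_mem (mul_mem (mul_mem (mul_mem (pow_mem hT _) hS) (pow_mem hT _)) hS) (pow_mem hT _)) (pow_mem hS _)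

def rep : SL5 →* Matrix (Fin 2) (Fin 2) F where
  toFun g := toMat (rho (tup g))
  map_one' := by rw [tup_one, check_one]; simp [toMat, one11, Matrix.one_fin_two]
  map_mul' g h := all_good h g


/-- SL(2,5) occurs as a Frobenius complement: there is a finite group L with a subgroup H isomorphic to SL(2,5) which is a non-trivial proper subgroup meeting each conjugate gHg⁻¹ with g outside H trivially. -/
theorem result :
    ∃ (L : Type) (_ : Group L) (_ : Finite L) (H : Subgroup L),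
      Cfsg.IsFrobeniusComplement H ∧ Nonempty (H ≃* Matrix.SpecialLinearGroup (Fin 2) (ZMod 5)) := by
  haveI : Nontrivial SL5 := ⟨T, 1, fun h => by
    have := congrArg tup h; revert this; decide⟩
  haveI : Fact (Nat.Prime 11) := ⟨by norm_num⟩
  obtain ⟨L, iG, iF, C, hC, ⟨e⟩⟩ :=
    CfsgLib.GroupB.FrobExamples.exists_complement_of_matrix (H := SL5) two_pos rep fun g hg => by
      rw [isUnit_iff_ne_zero, Matrix.det_fin_two]
      have := check_fpf _ _ _ _ (tup_det g) (fun h => hg (tup_inj (h.trans tup_one.symm)))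
      simpa [rep, toMat, tup] using this
  exact ⟨L, iG, iF, C, hC, ⟨e.symm⟩⟩

end Cfsg.Agent.S3374
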