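import Cfsg.Statements.S3375
import Mathlib

set_option autoImplicit false
open Cfsg

namespace Cfsg.Agent.S3375

/-- Let γ be an automorphism of order 2 of a finite group H. (i) If γ fixes only the identity, then H is abelian and γ inverts every element. (ii) If γ has exactly two fixed points and H has a subgroup of index 2, then H has a γ-invariant abelian subgroup of index 2 on which γ acts by inversion. -/
theorem result {H : Type*} [Group H] [Finite H] (γ : MulAut H) (hγ : orderOf γ = 2) :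
    ((∀ h : H, γ h = h → h = 1) → (∀ a b : H, a * b = b * a) ∧ ∀ h : H, γ h = h⁻¹) ∧
    ((Nat.card {h : H // γ h = h} = 2 ∧ ∃ M : Subgroup H, M.index = 2) →
      ∃ A : Subgroup H, A.index = 2 ∧ IsMulCommutative A ∧ (∀ a ∈ A, γ a ∈ A) ∧ ∀ a ∈ A, γ a = a⁻¹) := by
  classical
  haveI := Fintype.ofFinite H
  have hinv : Function.Involutive γ := fun h => by
    have := pow_orderOf_eq_one γ
    rw [hγ, pow_two] at this
    exact congrArg (fun f : MulAut H => f h) this
  refine ⟨fun hfix => ?_, fun ⟨hcard, M, hM⟩ => ?_⟩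
  · have hf : MonoidHom.FixedPointFree γ := hfix
    exact ⟨hf.commute_all_of_involutive hinv, congrFun (hf.coe_eq_inv_of_involutive hinv)⟩
  have mem2 : ∀ N : Subgroup H, N.index = 2 → ∀ a b, (a * b ∈ N ↔ (a ∈ N ↔ b ∈ N)) :=
    fun N hN a b => Subgroup.mul_mem_iff_of_index_two hN
  obtain ⟨A, hA2, hAinv⟩ : ∃ A : Subgroup H, A.index = 2 ∧ ∀ h, (γ h ∈ A ↔ h ∈ A) := by
    by_cases hMi : ∀ h, (γ h ∈ M ↔ h ∈ M)
    · exact ⟨M, hM, hMi⟩
    push Not at hMi
    let A : Subgroup H :=
      { carrier := {h | h ∈ M ↔ γ h ∈ M}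
        one_mem' := by simp [M.one_mem]
        mul_mem' := fun {a b} ha hb => by
          simp only [Set.mem_setOf_eq, map_mul, mem2 M hM] at *
          rw [ha, hb]
        inv_mem' := fun {a} ha => by simpa using ha }
    refine ⟨A, ?_, fun h => ?_⟩
    · obtain ⟨a, ha⟩ := hMi
      refine Subgroup.index_eq_two_iff.mpr ⟨a, fun b => ?_⟩
      simp only [A, Subgroup.mem_mk, Submonoid.mem_mk, Subsemigroup.mem_mk, Set.mem_setOf_eq, map_mul,
        mem2 M hM, xor_def]
      by_cases h1 : b ∈ M <;> by_cases h2 : γ b ∈ M <;> by_cases h3 : a ∈ M <;>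
        by_cases h4 : γ a ∈ M <;> simp_all
    · show (γ h ∈ M ↔ γ (γ h) ∈ M) ↔ (h ∈ M ↔ γ h ∈ M)
      rw [hinv h]; exact Iff.comm
  let f : H → H := fun h => h⁻¹ * γ h
  let T := Finset.univ.filter (fun h : H => h ∈ A)
  have hfmem : ∀ h, f h ∈ T := fun h => by
    simp only [T, Finset.mem_filter, Finset.mem_univ, true_and, f, mem2 A hA2, inv_mem_iff, hAinv]
  let I := Finset.univ.image f
  have hIT : I ⊆ T := fun x hx => by
    obtain ⟨h, -, rfl⟩ := Finset.mem_image.mp hx
    exact hfmem h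
  have hcard2 : (Finset.univ.filter fun h : H => γ h = h).card = 2 := by
    rw [← Fintype.card_subtype, ← Nat.card_eq_fintype_card]; exact hcard
  have hle : (Finset.univ : Finset H).card ≤ 2 * I.card := by
    refine Finset.card_le_mul_card_image _ 2 fun b hb => ?_
    obtain ⟨h0, -, rfl⟩ := Finset.mem_image.mp hb
    rw [← hcard2]
    refine Finset.card_le_card_of_injOn (fun h => h * h0⁻¹) (fun h hh => ?_) fun a _ b _ e => mul_right_cancel e
    simp only [Finset.coe_filter, Finset.mem_univ, true_and, Set.mem_setOf_eq, f] at hh ⊢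
    rw [map_mul, map_inv]
    calc γ h * (γ h0)⁻¹ = h * (h⁻¹ * γ h) * (γ h0)⁻¹ := by group
      _ = h * (h0⁻¹ * γ h0) * (γ h0)⁻¹ := by rw [hh]
      _ = _ := by group
  have hT : T.card * 2 = (Finset.univ : Finset H).card := by
    have := A.card_mul_index
    rw [hA2, Nat.card_eq_fintype_card, Nat.card_eq_fintype_card, Fintype.card_subtype] at this
    simpa [T] using this
  have heq : I = T := Finset.eq_of_subset_of_card_le hIT (by omega)
  have hAneg : ∀ a ∈ A, γ a = a⁻¹ := by
    intro a ha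
    have : a ∈ I := by rw [heq]; simp [T, ha]
    obtain ⟨h, -, rfl⟩ := Finset.mem_image.mp this
    simp only [f, map_mul, map_inv, hinv h, mul_inv_rev, inv_inv]
  refine ⟨A, hA2, ⟨⟨fun a b => Subtype.ext ?_⟩⟩, fun a ha => (hAinv a).mpr ha, hAneg⟩
  have h1 := hAneg _ (A.mul_mem a.2 b.2)
  rw [map_mul, hAneg _ a.2, hAneg _ b.2, mul_inv_rev] at h1
  have h2 := congrArg Inv.inv h1
  simp only [mul_inv_rev, inv_inv] at h2
  exact h2.symm

end Cfsg.Agent.S3375
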