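import Cfsg.Statements.S3377
import Cfsg.Agent.Lib.IcosahedralBound
import Mathlib.GroupTheory.PresentedGroup
import Mathlib.GroupTheory.SpecificGroups.Alternating.Simple
import Mathlib.GroupTheory.Perm.Fin

set_option autoImplicit false
open Cfsg

namespace Cfsg.Agent.S3377

open Equiv

abbrev rels : Set (FreeGroup (Fin 2)) := {FreeGroup.of (0 : Fin 2) ^ 3, FreeGroup.of (1 : Fin 2) ^ 5,
        (FreeGroup.of (0 : Fin 2) * FreeGroup.of 1) ^ 2}

def a : alternatingGroup (Fin 5) := ⟨swap 0 1 * swap 0 3, by simp [Perm.mem_alternatingGroup]⟩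
def b : alternatingGroup (Fin 5) := ⟨finRotate 5, by rw [Perm.mem_alternatingGroup, sign_finRotate]; rfl⟩

lemma facts : a ^ 3 = 1 ∧ b ^ 5 = 1 ∧ (a * b) ^ 2 = 1 ∧ a ≠ 1 ∧ b ≠ 1 ∧ a * b ≠ 1 := by decide +kernel

lemma gen_top (H : Subgroup (alternatingGroup (Fin 5))) (ha : a ∈ H) (hb : b ∈ H) : H = ⊤ := by
  obtain ⟨h1, h2, h3, n1, n2, n3⟩ := facts
  have d3 : 3 ∣ Nat.card H := by
    haveI := Fact.mk Nat.prime_three
    have h := Subgroup.orderOf_dvd_natCard H ha; rwa [orderOf_eq_prime h1 n1] at h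
  have d5 : 5 ∣ Nat.card H := by
    haveI : Fact (Nat.Prime 5) := ⟨by norm_num⟩
    have h := Subgroup.orderOf_dvd_natCard H hb; rwa [orderOf_eq_prime h2 n2] at h
  have d2 : 2 ∣ Nat.card H := by
    have h := Subgroup.orderOf_dvd_natCard H (H.mul_mem ha hb); rwa [orderOf_eq_prime h3 n3] at h
  have hA : Nat.card (alternatingGroup (Fin 5)) = 60 := by
    rw [nat_card_alternatingGroup, Nat.card_fin]; rfl
  have hci := H.card_mul_index
  rw [hA] at hci
  have hle : 30 ≤ Nat.card H := Nat.le_of_dvd Nat.card_pos (by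
    have := Nat.Coprime.mul_dvd_of_dvd_of_dvd (by norm_num) d2 (Nat.Coprime.mul_dvd_of_dvd_of_dvd (by norm_num : Nat.Coprime 3 5) d3 d5)
    simpa using this)
  by_contra hne
  have hi : H.index = 2 := by
    have h1i : H.index ≠ 1 := fun h => hne (Subgroup.index_eq_one.1 h)
    have h0 : H.index ≠ 0 := fun h => by rw [h] at hci; omega
    have : H.index ≤ 2 := by
      by_contra h; nlinarith
    omega
  haveI := Subgroup.normal_of_index_eq_two hi
  haveI := alternatingGroup.isSimpleGroup_five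
  rcases (inferInstance : H.Normal).eq_bot_or_eq_top with h | h
  · rw [h, Subgroup.card_bot] at hle; omega
  · exact hne h


/-- The alternating group of degree 5 has the presentation ⟨x, y | x³ = 1, y⁵ = 1, (xy)² = 1⟩: the group so presented is isomorphic to Alt(5). -/
theorem result :
    Nonempty (PresentedGroup ({FreeGroup.of (0 : Fin 2) ^ 3, FreeGroup.of (1 : Fin 2) ^ 5,
        (FreeGroup.of (0 : Fin 2) * FreeGroup.of 1) ^ 2} : Set (FreeGroup (Fin 2))) ≃* alternatingGroup (Fin 5)) := by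
  obtain ⟨h1, h2, h3, n1, n2, n3⟩ := facts
  let f : Fin 2 → alternatingGroup (Fin 5) := ![a, b]
  let φ : PresentedGroup rels →* alternatingGroup (Fin 5) := PresentedGroup.toGroup (f := f) (by
    intro r hr
    rcases hr with rfl | rfl | rfl <;> simp [f, h1, h2, h3])
  have hgen : Subgroup.closure {(PresentedGroup.of (rels := rels) 0), PresentedGroup.of 1, 1} = ⊤ := by
    rw [eq_top_iff, ← PresentedGroup.closure_range_of rels]
    refine Subgroup.closure_mono ?_
    rintro t ⟨i, rfl⟩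
    fin_cases i <;> simp
  have hrel : ∀ r ∈ rels, PresentedGroup.mk rels r = 1 := fun r hr =>
    (PresentedGroup.mk_eq_one_iff).2 (Subgroup.subset_normalClosure hr)
  obtain ⟨hfin, hle⟩ := CfsgLib.IcosahedralBound.card_le hgen (one_mem _) 1 one_pos (one_pow 1)
    (hrel (FreeGroup.of (0 : Fin 2) ^ 3) (by simp))
    (hrel (FreeGroup.of (1 : Fin 2) ^ 5) (by simp))
    (hrel ((FreeGroup.of (0 : Fin 2) * FreeGroup.of 1) ^ 2) (by simp))
  have hsurj : Function.Surjective φ := by
    rw [← MonoidHom.range_eq_top]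
    exact gen_top _ ⟨PresentedGroup.of 0, by simp [φ, f]⟩ ⟨PresentedGroup.of 1, by simp [φ, f]⟩
  have hA : Nat.card (alternatingGroup (Fin 5)) = 60 := by rw [nat_card_alternatingGroup, Nat.card_fin]; rfl
  haveI := hfin
  exact ⟨MulEquiv.ofBijective φ ((Nat.bijective_iff_surjective_and_card φ).2
    ⟨hsurj, le_antisymm (by rw [hA]; exact hle) (Nat.card_le_card_of_surjective _ hsurj)⟩)⟩

end Cfsg.Agent.S3377
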