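import Cfsg.Statements.S3378
import Cfsg.Agent.Lib.IcosahedralBound
import Cfsg.Agent.Lib.SmallSimple
import Cfsg.Agent.S3374
import Cfsg.Agent.S3377
import Cfsg.Agent.S0493
import Cfsg.Agent.S0494
import Mathlib.GroupTheory.PresentedGroup
import Mathlib.GroupTheory.SpecificGroups.Alternating.Simple
import Mathlib.GroupTheory.SpecificGroups.Quaternion

set_option autoImplicit false
open Cfsg

namespace Cfsg.Agent.S3378

open Cfsg.Agent.S3374 (SL5 T S tup word evalW m5 one5 t5 s5 check_word tup_inj tup_mul tup_pw tup_det)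

universe u

abbrev rels : Set (FreeGroup (Fin 3)) := {FreeGroup.of (0 : Fin 3) ^ 3, FreeGroup.of (1 : Fin 3) ^ 5, FreeGroup.of (2 : Fin 3) ^ 2,
        (FreeGroup.of (2 : Fin 3))⁻¹ * FreeGroup.of 0 * FreeGroup.of 2 * (FreeGroup.of (0 : Fin 3))⁻¹,
        (FreeGroup.of (2 : Fin 3))⁻¹ * FreeGroup.of 1 * FreeGroup.of 2 * (FreeGroup.of (1 : Fin 3))⁻¹,
        (FreeGroup.of (0 : Fin 3) * FreeGroup.of 1) ^ 2 * (FreeGroup.of (2 : Fin 3))⁻¹}

lemma pres_bound : Finite (PresentedGroup rels) ∧ Nat.card (PresentedGroup rels) ≤ 120 := by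
  have hrel : ∀ r ∈ rels, PresentedGroup.mk rels r = 1 := fun r hr =>
    (PresentedGroup.mk_eq_one_iff).2 (Subgroup.subset_normalClosure hr)
  have hgen : Subgroup.closure {(PresentedGroup.of (rels := rels) 0), PresentedGroup.of 1, PresentedGroup.of 2} = ⊤ := by
    rw [eq_top_iff, ← PresentedGroup.closure_range_of rels]
    refine Subgroup.closure_mono ?_
    rintro t ⟨i, rfl⟩
    fin_cases i <;> simp
  have hx0 : (PresentedGroup.of (rels := rels) 2)⁻¹ * PresentedGroup.of 0 * PresentedGroup.of 2 * (PresentedGroup.of 0)⁻¹ = 1 := by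
    exact hrel ((FreeGroup.of (2 : Fin 3))⁻¹ * FreeGroup.of 0 * FreeGroup.of 2 * (FreeGroup.of (0 : Fin 3))⁻¹) (by simp)
  have hy0 : (PresentedGroup.of (rels := rels) 2)⁻¹ * PresentedGroup.of 1 * PresentedGroup.of 2 * (PresentedGroup.of 1)⁻¹ = 1 := by
    exact hrel ((FreeGroup.of (2 : Fin 3))⁻¹ * FreeGroup.of 1 * FreeGroup.of 2 * (FreeGroup.of (1 : Fin 3))⁻¹) (by simp)
  have hz : PresentedGroup.of (rels := rels) 2 ∈ Subgroup.center (PresentedGroup rels) := by
    have hC : Subgroup.closure {(PresentedGroup.of (rels := rels) 0), PresentedGroup.of 1, PresentedGroup.of 2} ≤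
        Subgroup.centralizer {PresentedGroup.of (rels := rels) 2} := by
      rw [Subgroup.closure_le]
      rintro t (rfl | rfl | rfl) <;> rw [SetLike.mem_coe, Subgroup.mem_centralizer_iff] <;> rintro _ rfl
      · rw [mul_inv_eq_one, mul_assoc, inv_mul_eq_iff_eq_mul] at hx0; exact hx0.symm
      · rw [mul_inv_eq_one, mul_assoc, inv_mul_eq_iff_eq_mul] at hy0; exact hy0.symm
      · rfl
    rw [hgen] at hC
    rw [Subgroup.mem_center_iff]
    intro g
    exact (Subgroup.mem_centralizer_iff.1 (hC (Subgroup.mem_top g)) _ rfl).symm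
  have hxy : ((PresentedGroup.of (rels := rels) 0) * PresentedGroup.of 1) ^ 2 = PresentedGroup.of 2 := by
    have h : ((PresentedGroup.of (rels := rels) 0) * PresentedGroup.of 1) ^ 2 * (PresentedGroup.of 2)⁻¹ = 1 := by
      exact hrel ((FreeGroup.of (0 : Fin 3) * FreeGroup.of 1) ^ 2 * (FreeGroup.of (2 : Fin 3))⁻¹) (by simp)
    exact mul_inv_eq_one.1 h
  exact CfsgLib.IcosahedralBound.card_le hgen hz 2 two_pos
    (hrel (FreeGroup.of (2 : Fin 3) ^ 2) (by simp))
    (hrel (FreeGroup.of (0 : Fin 3) ^ 3) (by simp))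
    (hrel (FreeGroup.of (1 : Fin 3) ^ 5) (by simp)) hxy

lemma toGroup_rels {G : Type u} [Group G] {x y z : G} (hx : x ^ 3 = 1) (hy : y ^ 5 = 1) (hz : z ^ 2 = 1)
    (hzx : Commute z x) (hzy : Commute z y) (hxy : (x * y) ^ 2 = z) :
    ∀ r ∈ rels, FreeGroup.lift ![x, y, z] r = 1 := by
  intro r hr
  rcases hr with rfl | rfl | rfl | rfl | rfl | rfl
  · simp [hx]
  · simp [hy]
  · simp [hz]
  · simp only [map_mul, map_inv, FreeGroup.lift_apply_of]; show z⁻¹ * x * z * x⁻¹ = 1; rw [mul_assoc z⁻¹ x z, ← hzx.eq, inv_mul_cancel_left, mul_inv_cancel]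
  · simp only [map_mul, map_inv, FreeGroup.lift_apply_of]; show z⁻¹ * y * z * y⁻¹ = 1; rw [mul_assoc z⁻¹ y z, ← hzy.eq, inv_mul_cancel_left, mul_inv_cancel]
  · simp [hxy]

def X : SL5 := ⟨!![0, -1; 1, -1], by decide⟩
def Z : SL5 := ⟨!![-1, 0; 0, -1], by decide⟩

lemma facts : X ^ 3 = 1 ∧ T ^ 5 = 1 ∧ Z ^ 2 = 1 ∧ Z * X = X * Z ∧ Z * T = T * Z ∧ (X * T) ^ 2 = Z ∧ X * T = S := by
  decide +kernel

lemma card_SL5 : Nat.card SL5 = 120 := by
  rw [Nat.card_eq_fintype_card]; decide +kernel

noncomputable def presEquiv : PresentedGroup rels ≃* SL5 := by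
  obtain ⟨f1, f2, f3, f4, f5, f6, f7⟩ := facts
  let φ : PresentedGroup rels →* SL5 := PresentedGroup.toGroup (f := ![X, T, Z]) (toGroup_rels f1 f2 f3 f4 f5 f6)
  have hT : T ∈ φ.range := ⟨PresentedGroup.of 1, by simp [φ]⟩
  have hS : S ∈ φ.range := ⟨PresentedGroup.of 0 * PresentedGroup.of 1, by simp [φ, f7]⟩
  have hsurj : Function.Surjective φ := by
    intro g
    set w := word (tup g)
    have e : g = T ^ w.1 * S * T ^ w.2.1 * S * T ^ w.2.2.1 * S ^ w.2.2.2 := by
      apply tup_inj
      simp only [tup_mul, ← tup_pw]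
      exact (check_word _ _ _ _ (tup_det g)).symm
    have : g ∈ φ.range := by
      rw [e]
      exact mul_mem (mul_mem (mul_mem (mul_mem (mul_mem (pow_mem hT _) hS) (pow_mem hT _)) hS) (pow_mem hT _)) (pow_mem hS _)
    exact this
  haveI := pres_bound.1
  exact MulEquiv.ofBijective φ ((Nat.bijective_iff_surjective_and_card φ).2
    ⟨hsurj, le_antisymm (pres_bound.2.trans card_SL5.ge) (Nat.card_le_card_of_surjective _ hsurj)⟩)

lemma solvable_small : ∀ (n : ℕ) (G : Type u) [Group G] [Finite G], Nat.card G = n → n < 60 → Group.IsSolvable G := by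
  intro n
  induction n using Nat.strong_induction_on with | _ n ih =>
  intro G _ _ hn hlt
  by_contra hns
  haveI : Nontrivial G := by
    by_contra h
    rw [not_nontrivial_iff_subsingleton] at h
    exact hns inferInstance
  by_cases hsimp : IsSimpleGroup G
  · have hnc : ¬ IsCyclic G := fun h => hns (by
      haveI := h; exact Group.isSolvable_of_comm (fun a b => mul_comm' a b))
    have := Cfsg.Agent.S0493.result hnc (by omega)
    omega
  · obtain ⟨N, hN, h1, h2⟩ : ∃ N : Subgroup G, N.Normal ∧ N ≠ ⊥ ∧ N ≠ ⊤ := by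
      by_contra h
      push Not at h
      exact hsimp ⟨fun N hN => or_iff_not_imp_left.2 (h N hN)⟩
    haveI := hN
    have hlt1 : Nat.card N < n := by rw [← hn]; exact lt_of_le_of_ne (Subgroup.card_le_card_group N) (fun h => h2 (Subgroup.eq_top_of_card_eq N h))
    have hlt2 : Nat.card (G ⧸ N) < n := by
      rw [← hn, ← Subgroup.card_mul_index N, ← Subgroup.index_eq_card]
      exact lt_mul_of_one_lt_left (Nat.pos_of_ne_zero Subgroup.index_ne_zero_of_finite) ((Subgroup.one_lt_card_iff_ne_bot N).2 h1)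
    haveI := ih _ hlt1 N rfl (by omega)
    haveI := ih _ hlt2 (G ⧸ N) rfl (by omega)
    exact hns (Group.isSolvable_of_ker_le_range (N.subtype) (QuotientGroup.mk' N) (by rw [QuotientGroup.ker_mk', Subgroup.range_subtype]))

lemma simple_sixty {G : Type u} [Group G] [Finite G] (h : Nat.card G = 60) (hns : ¬ Group.IsSolvable G) :
    IsSimpleGroup G := by
  haveI : Nontrivial G := Finite.one_lt_card_iff_nontrivial.1 (by omega)
  refine ⟨fun N hN => ?_⟩
  haveI := hN
  by_contra hne
  push Not at hne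
  obtain ⟨h1, h2⟩ := hne
  have hb := (Subgroup.one_lt_card_iff_ne_bot N).2 h1
  have hc := Subgroup.card_mul_index N
  rw [h] at hc
  have hi : 1 < N.index := Subgroup.one_lt_index_of_ne_top h2
  have h3 : Nat.card N < 60 := by nlinarith
  have h4 : N.index < 60 := by nlinarith
  haveI := solvable_small _ N rfl h3
  haveI := solvable_small _ (G ⧸ N) rfl (by rw [← Subgroup.index_eq_card]; exact h4)
  exact hns (Group.isSolvable_of_ker_le_range (N.subtype) (QuotientGroup.mk' N) (by rw [QuotientGroup.ker_mk', Subgroup.range_subtype]))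

lemma not_simple_120 {G : Type u} [Group G] [Finite G] [IsSimpleGroup G] (h : Nat.card G = 120) : False := by
  classical
  haveI : Fact (Nat.Prime 5) := ⟨by norm_num⟩
  have hnc : ¬ IsMulCommutative G := CfsgLib.SmallSimple.not_isMulCommutative_of_card (by rw [h]; norm_num)
  obtain ⟨P⟩ := (inferInstance : Nonempty (Sylow 5 G))
  have hd : 5 ∣ Nat.card G := by rw [h]; norm_num
  have hmem := CfsgLib.SmallSimple.card_sylow_mem (k := 1) (m := 24) (by rw [h]; norm_num) (by norm_num) P
  have hne := CfsgLib.SmallSimple.card_sylow_ne_one hnc hd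
  have h6 : Nat.card (Sylow 5 G) = 6 := by
    obtain ⟨-, h24, hm⟩ := hmem
    have hle := Nat.le_of_dvd (by norm_num) h24
    interval_cases hk : Nat.card (Sylow 5 G) <;> omega
  have hidx : (Subgroup.normalizer ((P : Subgroup G) : Set G)).index = 6 := by
    rw [← h6]; exact (Sylow.card_eq_index_normalizer P).symm
  have hneT : Subgroup.normalizer ((P : Subgroup G) : Set G) ≠ ⊤ := fun e => by
    rw [e, Subgroup.index_top] at hidx; omega
  obtain ⟨f, hf⟩ := CfsgLib.InvolutionCount.exists_injective_perm _ hneT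
  haveI := Fintype.ofFinite (G ⧸ Subgroup.normalizer ((P : Subgroup G) : Set G))
  let e : (G ⧸ Subgroup.normalizer ((P : Subgroup G) : Set G)) ≃ Fin 6 :=
    Finite.equivFinOfCardEq (by rw [← Subgroup.index_eq_card, hidx])
  let F : G →* Equiv.Perm (Fin 6) := e.permCongrHom.toMonoidHom.comp f
  have hF : Function.Injective F := e.permCongrHom.injective.comp hf
  let s : G →* ℤˣ := Equiv.Perm.sign.comp F
  have hker : s.ker = ⊤ := by
    rcases (inferInstance : s.ker.Normal).eq_bot_or_eq_top with hb | ht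
    · have := Nat.card_le_card_of_injective s ((MonoidHom.ker_eq_bot_iff s).1 hb)
      rw [h, Nat.card_eq_fintype_card, Fintype.card_units_int] at this
      omega
    · exact ht
  let F' : G →* alternatingGroup (Fin 6) := F.codRestrict _ (fun g => by
    rw [Equiv.Perm.mem_alternatingGroup]
    exact MonoidHom.mem_ker.1 (show g ∈ s.ker by rw [hker]; trivial))
  have hF' : Function.Injective F' := fun u v huv => hF (congrArg Subtype.val huv)
  have hcr : Nat.card F'.range = 120 := by rw [← Nat.card_congr (MonoidHom.ofInjective hF').toEquiv, h]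
  have hA : Nat.card (alternatingGroup (Fin 6)) = 360 := by rw [nat_card_alternatingGroup, Nat.card_fin]; rfl
  have hci := F'.range.card_mul_index
  rw [hcr, hA] at hci
  have hi : F'.range.index = 3 := by omega
  haveI : IsSimpleGroup (alternatingGroup (Fin 6)) := alternatingGroup.isSimpleGroup (by rw [Nat.card_fin]; norm_num)
  have := CfsgLib.SmallSimple.card_dvd_factorial F'.range (fun e => by rw [e, Subgroup.index_top] at hi; omega)
  rw [hA, hi] at this
  norm_num [Nat.factorial] at this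

lemma quat_involution : ∀ a b : QuaternionGroup 2, a ≠ 1 → b ≠ 1 → a * a = 1 → b * b = 1 → a = b := by decide

lemma equiv_of_120 {G : Type u} [Group G] [Finite G] (h : Nat.card G = 120) (hns : ¬ Group.IsSolvable G)
    (hQ : ∀ P : Sylow 2 G, Nonempty ((P : Subgroup G) ≃* QuaternionGroup 2)) :
    Nonempty (G ≃* SL5) := by
  classical
  haveI : Fact (Nat.Prime 2) := ⟨Nat.prime_two⟩
  have noA5 : ∀ N : Subgroup G, N.Normal → Nat.card N = 60 → False := by
    intro N hN hc
    haveI := hN
    have hns' : ¬ Group.IsSolvable N := fun hsol => hns (by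
      haveI := hsol
      haveI := solvable_small _ (G ⧸ N) rfl (by
        have := Subgroup.card_mul_index N
        rw [hc, h, Subgroup.index_eq_card] at this; omega)
      exact Group.isSolvable_of_ker_le_range (N.subtype) (QuotientGroup.mk' N) (by rw [QuotientGroup.ker_mk', Subgroup.range_subtype]))
    haveI := simple_sixty hc hns'
    obtain ⟨e⟩ := Cfsg.Agent.S0494.result hc
    obtain ⟨u, v, hu1, hv1, huv, huu, hvv, hcomm⟩ : ∃ u v : alternatingGroup (Fin 5), u ≠ 1 ∧ v ≠ 1 ∧ u ≠ v ∧ u * u = 1 ∧ v * v = 1 ∧ u * v = v * u :=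
      ⟨⟨Equiv.swap 0 1 * Equiv.swap 2 3, by simp [Equiv.Perm.mem_alternatingGroup]⟩,
        ⟨Equiv.swap 0 2 * Equiv.swap 1 3, by simp [Equiv.Perm.mem_alternatingGroup]⟩,
        by decide +kernel, by decide +kernel, by decide +kernel, by decide +kernel, by decide +kernel, by decide +kernel⟩
    let ι : alternatingGroup (Fin 5) →* G := N.subtype.comp e.symm.toMonoidHom
    have hι : Function.Injective ι := N.subtype_injective.comp e.symm.injective
    have hK : IsPGroup 2 (Subgroup.closure {ι u, ι v}) := by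
      haveI := Subgroup.isMulCommutative_closure (k := ({ι u, ι v} : Set G)) (by
        intro s hs t ht
        rcases hs with rfl | rfl <;> rcases ht with rfl | rfl
        · rfl
        · rw [← map_mul, ← map_mul, hcomm]
        · rw [← map_mul, ← map_mul, hcomm]
        · rfl)
      intro g
      refine ⟨1, ?_⟩
      obtain ⟨g, hg⟩ := g
      have key : g ^ 2 = 1 := by
        induction hg using Subgroup.closure_induction with
        | mem t ht => rcases ht with rfl | rfl <;> rw [← map_pow, pow_two] <;> simp [huu, hvv]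
        | one => simp
        | mul s t hs ht hs2 ht2 =>
          rw [Commute.mul_pow (congrArg Subtype.val (IsMulCommutative.is_comm.comm (⟨s, hs⟩ : Subgroup.closure _) ⟨t, ht⟩)), hs2, ht2, one_mul]
        | inv s _ hs2 => rw [inv_pow, hs2, inv_one]
      exact Subtype.ext (by simpa using key)
    obtain ⟨P, hP⟩ := hK.exists_le_sylow
    obtain ⟨q⟩ := hQ P
    have hu' : ι u ∈ (P : Subgroup G) := hP (Subgroup.subset_closure (Or.inl rfl))
    have hv' : ι v ∈ (P : Subgroup G) := hP (Subgroup.subset_closure (Or.inr rfl))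
    have := quat_involution (q ⟨ι u, hu'⟩) (q ⟨ι v, hv'⟩)
      (fun e' => hu1 (hι (by rw [map_one]; exact congrArg Subtype.val (q.injective (e'.trans (map_one q).symm)))))
      (fun e' => hv1 (hι (by rw [map_one]; exact congrArg Subtype.val (q.injective (e'.trans (map_one q).symm)))))
      (by rw [← map_mul, ← map_one q]; congr 1; exact Subtype.ext (by show ι u * ι u = 1; rw [← map_mul, huu, map_one]))
      (by rw [← map_mul, ← map_one q]; congr 1; exact Subtype.ext (by show ι v * ι v = 1; rw [← map_mul, hvv, map_one]))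
    have e2 := congrArg Subtype.val (q.injective this)
    exact huv (hι e2)
  haveI : Nontrivial G := Finite.one_lt_card_iff_nontrivial.1 (by omega)
  obtain ⟨N, hN, h1, h2⟩ : ∃ N : Subgroup G, N.Normal ∧ N ≠ ⊥ ∧ N ≠ ⊤ := by
    by_contra hh
    push Not at hh
    haveI : IsSimpleGroup G := ⟨fun N hN => or_iff_not_imp_left.2 (hh N hN)⟩
    exact not_simple_120 h
  haveI := hN
  have hb := (Subgroup.one_lt_card_iff_ne_bot N).2 h1
  have hi : 1 < N.index := Subgroup.one_lt_index_of_ne_top h2
  have hc := Subgroup.card_mul_index N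
  rw [h] at hc
  have hcase : Nat.card N = 2 := by
    by_contra hne
    have hne' : Nat.card N ≠ 60 := fun e => noA5 N hN e
    have hi2 : N.index ≠ 2 := fun e => by rw [e] at hc; omega
    have h3 : Nat.card N < 60 := by nlinarith [Nat.lt_of_le_of_ne (show 2 ≤ N.index by omega) (Ne.symm hi2)]
    have h4 : N.index < 60 := by nlinarith [Nat.lt_of_le_of_ne (show 2 ≤ Nat.card N by omega) (Ne.symm hne)]
    haveI := solvable_small _ N rfl h3
    haveI := solvable_small _ (G ⧸ N) rfl (by rw [← Subgroup.index_eq_card]; exact h4)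
    exact hns (Group.isSolvable_of_ker_le_range (N.subtype) (QuotientGroup.mk' N) (by rw [QuotientGroup.ker_mk', Subgroup.range_subtype]))
  have hq : Nat.card (G ⧸ N) = 60 := by rw [← Subgroup.index_eq_card]; rw [hcase] at hc; omega
  have hnsq : ¬ Group.IsSolvable (G ⧸ N) := fun hsol => hns (by
    haveI := hsol
    haveI := solvable_small _ N rfl (by omega)
    exact Group.isSolvable_of_ker_le_range (N.subtype) (QuotientGroup.mk' N) (by rw [QuotientGroup.ker_mk', Subgroup.range_subtype]))
  haveI := simple_sixty hq hnsq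
  obtain ⟨e⟩ := Cfsg.Agent.S0494.result hq
  let π : G →* alternatingGroup (Fin 5) := e.toMonoidHom.comp (QuotientGroup.mk' N)
  have hπ : Function.Surjective π := e.surjective.comp (QuotientGroup.mk'_surjective N)
  have hkerπ : π.ker = N := by ext g; simp [π, MonoidHom.mem_ker]
  have hsq : ∀ g ∈ N, g ^ 2 = 1 := fun g hg => by
    have := pow_card_eq_one' (G := N) (x := ⟨g, hg⟩)
    rw [hcase] at this; exact congrArg Subtype.val this
  obtain ⟨a1, a2, a3, n1, n2, n3⟩ := Cfsg.Agent.S3377.facts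
  obtain ⟨x0, hx0⟩ := hπ Cfsg.Agent.S3377.a
  obtain ⟨y0, hy0⟩ := hπ Cfsg.Agent.S3377.b
  set x := x0 ^ 4 with hxdef
  set y := y0 ^ 6 with hydef
  have hπx : π x = Cfsg.Agent.S3377.a := by rw [hxdef, map_pow, hx0, pow_succ, a1, one_mul]
  have hπy : π y = Cfsg.Agent.S3377.b := by rw [hydef, map_pow, hy0, pow_succ, a2, one_mul]
  have hx : x ^ 3 = 1 := by
    rw [hxdef, ← pow_mul, show 4 * 3 = 3 * 2 * 2 by rfl, pow_mul, pow_mul,
      hsq (x0 ^ 3) (by rw [← hkerπ, MonoidHom.mem_ker, map_pow, hx0, a1]), one_pow]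
  have hy : y ^ 5 = 1 := by
    rw [hydef, ← pow_mul, show 6 * 5 = 5 * 2 * 3 by rfl, pow_mul, pow_mul,
      hsq (y0 ^ 5) (by rw [← hkerπ, MonoidHom.mem_ker, map_pow, hy0, a2]), one_pow]
  set z := (x * y) ^ 2 with hz
  have hzN : z ∈ N := by rw [← hkerπ, MonoidHom.mem_ker, hz, map_pow, map_mul, hπx, hπy, a3]
  have hzc : ∀ g : G, g * z = z * g := by
    intro g
    have hmem := hN.conj_mem z hzN g
    by_cases hz1 : z = 1
    · rw [hz1, one_mul, mul_one]
    · have h2 : ∀ w ∈ N, w ≠ 1 → w = z := by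
        intro w hw hw1
        by_contra hne
        have h3 : ({⟨1, one_mem N⟩, ⟨z, hzN⟩, ⟨w, hw⟩} : Finset N).card = 3 := by
          rw [Finset.card_insert_of_notMem, Finset.card_pair (fun e => hne (congrArg Subtype.val e).symm)]
          simp [Subtype.ext_iff, Ne.symm hz1, Ne.symm hw1]
        haveI := Fintype.ofFinite N
        have := Finset.card_le_univ ({⟨1, one_mem N⟩, ⟨z, hzN⟩, ⟨w, hw⟩} : Finset N)
        rw [h3, ← Nat.card_eq_fintype_card, hcase] at this
        omega
      have := h2 _ hmem (fun e => hz1 (by simpa using e))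
      exact mul_inv_eq_iff_eq_mul.1 this
  have hL : ∀ (K : Subgroup G), x ∈ K → y ∈ K → K.map π = ⊤ := fun K hxK hyK =>
    Cfsg.Agent.S3377.gen_top _ ⟨x, hxK, hπx⟩ ⟨y, hyK, hπy⟩
  set K := Subgroup.closure {x, y, z} with hKdef
  have hxK : x ∈ K := Subgroup.subset_closure (by simp)
  have hyK : y ∈ K := Subgroup.subset_closure (by simp)
  have hA : Nat.card (alternatingGroup (Fin 5)) = 60 := by rw [nat_card_alternatingGroup, Nat.card_fin]; rfl
  have hKtop : K = ⊤ := by
    by_contra hne
    have hKi : 1 < K.index := Subgroup.one_lt_index_of_ne_top hne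
    have hKc := K.card_mul_index
    rw [h] at hKc
    have h60 : 60 ≤ Nat.card K := by
      have := Subgroup.card_map_dvd π (H := K)
      rw [hL K hxK hyK, Subgroup.card_top, hA] at this
      exact Nat.le_of_dvd Nat.card_pos this
    have hK2 : K.index = 2 := by nlinarith
    exact noA5 K (Subgroup.normal_of_index_eq_two hK2) (by rw [hK2] at hKc; omega)
  let φ : PresentedGroup rels →* G := PresentedGroup.toGroup (f := ![x, y, z])
    (toGroup_rels hx hy (hsq z hzN) (hzc x).symm (hzc y).symm rfl)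
  have hsurj : Function.Surjective φ := by
    rw [← MonoidHom.range_eq_top, eq_top_iff, ← hKtop, hKdef, Subgroup.closure_le]
    rintro t (rfl | rfl | rfl)
    · exact ⟨PresentedGroup.of 0, by simp [φ]⟩
    · exact ⟨PresentedGroup.of 1, by simp [φ]⟩
    · exact ⟨PresentedGroup.of 2, by simp [φ]⟩
  haveI := pres_bound.1
  exact ⟨(MulEquiv.ofBijective φ ((Nat.bijective_iff_surjective_and_card φ).2
    ⟨hsurj, le_antisymm (pres_bound.2.trans h.ge) (Nat.card_le_card_of_surjective _ hsurj)⟩)).symm.trans presEquiv⟩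


/-- Every non-solvable group of order 120 whose Sylow 2-subgroups are quaternion of order 8 is isomorphic to SL(2,5), and SL(2,5) has the presentation ⟨x, y, z | x³ = y⁵ = z² = 1, z⁻¹xz = x, z⁻¹yz = y, (xy)² = z⟩. -/
theorem result :
    (∀ (G : Type*) [Group G] [Finite G], Nat.card G = 120 → ¬ Group.IsSolvable G →
      (∀ P : Sylow 2 G, Nonempty ((P : Subgroup G) ≃* QuaternionGroup 2)) →
      Nonempty (G ≃* Matrix.SpecialLinearGroup (Fin 2) (ZMod 5))) ∧
    Nonempty (PresentedGroup ({FreeGroup.of (0 : Fin 3) ^ 3, FreeGroup.of (1 : Fin 3) ^ 5, FreeGroup.of (2 : Fin 3) ^ 2,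
        (FreeGroup.of (2 : Fin 3))⁻¹ * FreeGroup.of 0 * FreeGroup.of 2 * (FreeGroup.of (0 : Fin 3))⁻¹,
        (FreeGroup.of (2 : Fin 3))⁻¹ * FreeGroup.of 1 * FreeGroup.of 2 * (FreeGroup.of (1 : Fin 3))⁻¹,
        (FreeGroup.of (0 : Fin 3) * FreeGroup.of 1) ^ 2 * (FreeGroup.of (2 : Fin 3))⁻¹} : Set (FreeGroup (Fin 3)))
      ≃* Matrix.SpecialLinearGroup (Fin 2) (ZMod 5)) := by
  refine ⟨fun G _ _ h hns hQ => equiv_of_120 h hns hQ, ⟨presEquiv⟩⟩

end Cfsg.Agent.S3378
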