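import Cfsg.Statements.S3379
import Mathlib.GroupTheory.SpecificGroups.ZGroup
import Mathlib.GroupTheory.SchurZassenhaus
import Mathlib.GroupTheory.Abelianization.Defs
import Mathlib.Tactic

set_option autoImplicit false
open Cfsg

namespace Cfsg.Agent.S3379

open Subgroup
open scoped commutatorElement


/-- Let G be a finite group all of whose Sylow subgroups are cyclic. Then G is generated by two elements x and y of coprime orders n and m with x⁻¹yx = y^r, where gcd(r − 1, m) = 1 and r^n ≡ 1 (mod m). -/
theorem result {G : Type*} [Group G] [Finite G]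
    (hZ : ∀ (p : ℕ) [Fact p.Prime] (P : Sylow p G), IsCyclic (P : Subgroup G)) :
    ∃ (x y : G) (n m r : ℕ), Subgroup.closure {x, y} = ⊤ ∧ orderOf x = n ∧ orderOf y = m ∧
      x⁻¹ * y * x = y ^ r ∧ Nat.Coprime (r - 1) m ∧ Nat.Coprime n m ∧ 1 ≤ r ∧ r ^ n % m = 1 % m := by
  classical
  haveI : IsZGroup G := ⟨fun p hp P => by haveI := Fact.mk hp; exact hZ p P⟩
  haveI hcyc := IsZGroup.isCyclic_commutator (G := G)
  have hcop : Nat.Coprime (Nat.card (commutator G)) (commutator G).index := IsZGroup.coprime_commutator_index G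
  obtain ⟨K, hK⟩ := Subgroup.exists_right_complement'_of_coprime hcop
  obtain ⟨y, hy⟩ := hcyc.exists_generator
  haveI : IsCyclic (G ⧸ commutator G) := (inferInstance : IsCyclic (Abelianization G))
  haveI : IsCyclic K := isCyclic_of_surjective hK.symm.QuotientMulEquiv.toMonoidHom hK.symm.QuotientMulEquiv.surjective
  obtain ⟨x, hx⟩ := IsCyclic.exists_generator (α := K)
  have hY : Subgroup.zpowers (y : G) = commutator G := by
    apply le_antisymm (Subgroup.zpowers_le.2 y.2)
    intro z hz
    obtain ⟨k, hk⟩ := hy ⟨z, hz⟩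
    exact ⟨k, congrArg Subtype.val hk⟩
  have hX : Subgroup.zpowers (x : G) = K := by
    apply le_antisymm (Subgroup.zpowers_le.2 x.2)
    intro z hz
    obtain ⟨k, hk⟩ := hx ⟨z, hz⟩
    exact ⟨k, congrArg Subtype.val hk⟩
  have hm : orderOf (y : G) = Nat.card (commutator G) := by rw [← Nat.card_zpowers, hY]
  have hn : orderOf (x : G) = (commutator G).index := by
    rw [← Nat.card_zpowers, hX, hK.symm.index_eq_card]
  obtain ⟨r0, hr0⟩ : ∃ r : ℕ, (x : G)⁻¹ * y * x = (y : G) ^ r := by
    have hmem : (x : G)⁻¹ * y * x ∈ Subgroup.zpowers (y : G) := by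
      rw [hY]
      simpa using (Subgroup.Normal.conj_mem inferInstance _ y.2 (x : G)⁻¹)
    rw [mem_zpowers_iff_mem_range_orderOf, Finset.mem_image] at hmem
    obtain ⟨r, -, hr⟩ := hmem
    exact ⟨r, hr.symm⟩
  set m := orderOf (y : G) with hmdef
  set r := r0 + m with hrdef
  have hmpos : 0 < m := orderOf_pos _
  have hr : (x : G)⁻¹ * y * x = (y : G) ^ r := by
    rw [hr0, hrdef, pow_add, pow_orderOf_eq_one, mul_one]
  have hgen : Subgroup.closure {(x : G), (y : G)} = ⊤ := by
    have hsup : Subgroup.zpowers (y : G) ⊔ Subgroup.zpowers (x : G) = ⊤ := by rw [hY, hX]; exact hK.sup_eq_top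
    rw [eq_top_iff, ← hsup, sup_le_iff, Subgroup.zpowers_le, Subgroup.zpowers_le]
    exact ⟨Subgroup.subset_closure (Or.inr rfl), Subgroup.subset_closure (Or.inl rfl)⟩
  refine ⟨x, y, orderOf (x : G), m, r, hgen, rfl, rfl, hr, ?_, ?_, by omega, ?_⟩
  · set z := (y : G) ^ (r - 1) with hz
    have hzn : (Subgroup.zpowers z).Normal := by
      constructor
      intro w hw g
      obtain ⟨k, rfl⟩ := hw
      have hg : g * y * g⁻¹ ∈ Subgroup.zpowers (y : G) := by
        rw [hY]; exact Subgroup.Normal.conj_mem inferInstance _ y.2 g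
      obtain ⟨j, hj⟩ := hg
      refine ⟨j * k, ?_⟩
      simp only at hj ⊢
      rw [← conj_zpow, hz, ← conj_pow, ← hj, ← zpow_natCast, ← zpow_natCast, ← zpow_mul, ← zpow_mul, ← zpow_mul]
      congr 1; ring
    haveI := hzn
    have hcomm : commutator G ≤ Subgroup.zpowers z := by
      rw [_root_.commutator_def, Subgroup.commutator_le]
      intro a _ b _
      let π := QuotientGroup.mk' (Subgroup.zpowers z)
      have hxy : Commute (π x) (π y) := by
        have h1 : π ((x : G)⁻¹ * y * x) = π y := by
          rw [hr, show r = (r - 1) + 1 by omega, pow_succ, map_mul,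
            show π ((y : G) ^ (r - 1)) = 1 from (QuotientGroup.eq_one_iff _).2 (Subgroup.mem_zpowers _), one_mul]
        rw [map_mul, map_mul, map_inv, mul_assoc, inv_mul_eq_iff_eq_mul] at h1
        exact h1.symm
      have htop : ∀ g : G, π g ∈ Subgroup.closure {π x, π y} := by
        intro g
        have : g ∈ Subgroup.closure {(x : G), (y : G)} := by rw [hgen]; trivial
        have h' := Subgroup.mem_map_of_mem π this
        rwa [MonoidHom.map_closure, Set.image_pair] at h'
      haveI := Subgroup.isMulCommutative_closure (k := ({π x, π y} : Set _)) (by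
        intro u hu v hv
        rcases hu with rfl | rfl <;> rcases hv with rfl | rfl
        · rfl
        · exact hxy
        · exact hxy.symm
        · rfl)
      have hab : Commute (π a) (π b) :=
        congrArg Subtype.val (IsMulCommutative.is_comm.comm (⟨π a, htop a⟩ : Subgroup.closure {π x, π y}) ⟨π b, htop b⟩)
      rw [← QuotientGroup.eq_one_iff]
      show π ⁅a, b⁆ = 1
      rw [map_commutatorElement, commutatorElement_eq_one_iff_commute]
      exact hab
    have hzy : Subgroup.zpowers z = Subgroup.zpowers (y : G) :=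
      le_antisymm (Subgroup.zpowers_le.2 (pow_mem (Subgroup.mem_zpowers _) _)) (hY.le.trans hcomm)
    have hord : orderOf z = m := by rw [← Nat.card_zpowers, hzy, Nat.card_zpowers]
    rw [hz, orderOf_pow] at hord
    rcases Nat.div_eq_self.1 hord with h | h
    · omega
    · rw [Nat.coprime_comm]; exact h
  · rw [hn, hm]; exact hcop.symm
  · have h : ∀ k : ℕ, ((x : G) ^ k)⁻¹ * y * (x : G) ^ k = (y : G) ^ (r ^ k) := by
      intro k
      induction k with
      | zero => simp
      | succ k ih =>
        rw [pow_succ (x : G) k, mul_inv_rev, show (x : G)⁻¹ * ((x : G) ^ k)⁻¹ * y * ((x : G) ^ k * x) = (x : G)⁻¹ * (((x : G) ^ k)⁻¹ * y * (x : G) ^ k) * x by group, ih]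
        have h2 := (conj_pow (i := r ^ k) (a := (x : G)⁻¹) (b := (y : G))).symm
        rw [inv_inv] at h2
        rw [h2, hr, ← pow_mul, ← pow_succ']
    have h' := h (orderOf (x : G))
    rw [pow_orderOf_eq_one, inv_one, one_mul, mul_one] at h'
    conv_lhs at h' => rw [← pow_one (y : G)]
    exact (pow_eq_pow_iff_modEq.1 h').symm

end Cfsg.Agent.S3379
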