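import Cfsg.Statements.S3381
import Mathlib.FieldTheory.Finiteness
import Mathlib.Algebra.Module.ZMod
import Mathlib.GroupTheory.OrderOfElement
import Mathlib.GroupTheory.Subgroup.Center
import Mathlib.Tactic

set_option autoImplicit false
open Cfsg

namespace Cfsg.Agent.S3381

variable {q : ℕ} [Fact q.Prime] {V : Type*} [AddCommGroup V] [Module (ZMod q) V] [Finite V]
  {G : Type*} [Group G] [Finite G] (ρ : G →* (V ≃ₗ[ZMod q] V))

def Fix (g : G) : Submodule (ZMod q) V := LinearMap.ker ((ρ g : V →ₗ[ZMod q] V) - 1)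

lemma mem_fix {g : G} {v : V} : v ∈ Fix ρ g ↔ ρ g v = v := by
  simp [Fix, sub_eq_zero]

lemma rho_mul (a b : G) (v : V) : ρ (a * b) v = ρ a (ρ b v) := by rw [map_mul]; rfl

lemma stab_unique (hstab : ∀ v : V, v ≠ 0 → Nat.card {g : G // ρ g v = v} = 2) {v : V} (hv : v ≠ 0) :
    ∃ t : G, t ≠ 1 ∧ ρ t v = v ∧ t * t = 1 ∧ ∀ g : G, ρ g v = v → g = 1 ∨ g = t := by
  have h := hstab v hv
  rw [Nat.card_eq_two_iff' (⟨1, by rw [map_one]; rfl⟩ : {g : G // ρ g v = v})] at h
  obtain ⟨⟨t, ht⟩, htne, huniq⟩ := h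
  have ht1 : t ≠ 1 := fun h => htne (Subtype.ext h)
  have hall : ∀ g : G, ρ g v = v → g = 1 ∨ g = t := fun g hg => by
    by_cases hg1 : g = 1
    · exact Or.inl hg1
    · exact Or.inr (congrArg Subtype.val (huniq ⟨g, hg⟩ (fun h => hg1 (congrArg Subtype.val h))))
  refine ⟨t, ht1, ht, ?_, hall⟩
  rcases hall (t * t) (by rw [rho_mul, ht, ht]) with h | h
  · exact h
  · exact absurd (mul_eq_right.1 h) ht1

lemma central_inv (hρ : Function.Injective ρ)
    (hstab : ∀ v : V, v ≠ 0 → Nat.card {g : G // ρ g v = v} = 2)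
    {z : G} (hz1 : z ≠ 1) (hzz : z * z = 1) (hzc : ∀ g : G, g * z = z * g) :
    ∀ v : V, ρ z v = -v := by
  have hzv : ∀ v : V, ρ z (ρ z v) = v := fun v => by rw [← rho_mul, hzz, map_one]; rfl
  have hcomm : ∀ (g : G) (v : V), ρ g (ρ z v) = ρ z (ρ g v) := fun g v => by rw [← rho_mul, hzc, rho_mul]
  suffices hfp : ∀ v : V, ρ z v = v → v = 0 by
    intro v
    have := hfp (v + ρ z v) (by rw [map_add, hzv, add_comm])
    exact eq_neg_of_add_eq_zero_right this
  intro v hv
  by_contra hv0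
  obtain ⟨t0, -, -, -, hall0⟩ := stab_unique ρ hstab hv0
  have hz0 : z = t0 := (hall0 z hv).resolve_left hz1
  obtain ⟨w, hw⟩ : ∃ w, ρ z w ≠ w := by
    by_contra h
    push Not at h
    exact hz1 (hρ (LinearEquiv.ext fun v => by rw [h v, map_one]; rfl))
  set d := w - ρ z w with hd
  have hd0 : d ≠ 0 := fun h => hw (sub_eq_zero.1 h).symm
  have hzd : ρ z d = -d := by rw [hd, map_sub, hzv, neg_sub]
  by_cases hq : q = 2
  · subst hq
    have hneg : ∀ u : V, -u = u := fun u => neg_eq_of_add_eq_zero_right (by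
      rw [← two_smul (ZMod 2) u, show (2 : ZMod 2) = 0 from ZMod.natCast_self 2, zero_smul])
    have hw0 : w ≠ 0 := fun h => hw (by rw [h, map_zero])
    obtain ⟨t, ht1, htw, htt, -⟩ := stab_unique ρ hstab hw0
    have htz : t ≠ z := fun h => hw (h ▸ htw)
    have htv : ∀ u : V, ρ t (ρ t u) = u := fun u => by rw [← rho_mul, htt, map_one]; rfl
    obtain ⟨c, hc0, hcz, hct⟩ : ∃ c, c ≠ 0 ∧ ρ z c = c ∧ ρ t c = c := by
      by_cases h : ρ t v = v
      · exact ⟨v, hv0, hv, h⟩
      · refine ⟨v + ρ t v, fun h0 => h ?_, by rw [map_add, hv, ← hcomm, hv], by rw [map_add, htv, add_comm]⟩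
        rw [eq_neg_of_add_eq_zero_right h0, hneg]
    obtain ⟨t1, -, -, -, hall⟩ := stab_unique ρ hstab hc0
    exact htz (((hall t hct).resolve_left ht1).trans ((hall z hcz).resolve_left hz1).symm)
  · have h2 : (2 : ZMod q) ≠ 0 := fun h => by
      have : ((2 : ℕ) : ZMod q) = 0 := by exact_mod_cast h
      rw [ZMod.natCast_eq_zero_iff] at this
      exact hq ((Nat.prime_dvd_prime_iff_eq Fact.out Nat.prime_two).1 this)
    have hs : v + d ≠ 0 := fun h => by
      have e : d = -v := eq_neg_of_add_eq_zero_right h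
      rw [e, map_neg, hv, neg_neg] at hzd
      have : (2 : ZMod q) • v = 0 := by rw [two_smul]; nth_rewrite 1 [← hzd]; exact neg_add_cancel v
      exact hv0 ((smul_eq_zero.1 this).resolve_left h2)
    obtain ⟨t, ht1, htv, -, -⟩ := stab_unique ρ hstab hs
    have e1 := htv
    have e2 : ρ t v - ρ t d = v - d := by
      have := congrArg (ρ z) htv
      rw [← hcomm, map_add (ρ z), hv, hzd, map_add, map_neg] at this
      rw [sub_eq_add_neg, sub_eq_add_neg]; exact this
    rw [map_add] at e1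
    have e3 : (2 : ZMod q) • ρ t v = (2 : ZMod q) • v := by
      rw [two_smul, two_smul]
      calc ρ t v + ρ t v = (ρ t v + ρ t d) + (ρ t v - ρ t d) := by abel
        _ = (v + d) + (v - d) := by rw [e1, e2]
        _ = v + v := by abel
    have e4 : ρ t v = v := smul_right_injective V h2 e3
    have e5 : ρ t d = d := by rw [e4] at e1; exact add_left_cancel e1
    have := (hall0 t e4).resolve_left ht1
    rw [this, ← hz0, hzd] at e5
    have : (2 : ZMod q) • d = 0 := by rw [two_smul]; nth_rewrite 1 [← e5]; exact neg_add_cancel d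
    exact hd0 ((smul_eq_zero.1 this).resolve_left h2)


/-- Let G be a finite group acting faithfully and linearly on a non-trivial finite vector space V over the field with q elements (q prime) so that every non-zero vector has a stabilizer of order 2, and suppose G has a central involution. Then V has q^(2r) elements for some r and G contains exactly q^r + 1 non-central involutions. -/
theorem result
    (q : ℕ) [Fact q.Prime] {V : Type*} [AddCommGroup V] [Module (ZMod q) V] [Finite V] [Nontrivial V]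
    {G : Type*} [Group G] [Finite G] (ρ : G →* (V ≃ₗ[ZMod q] V)) (hρ : Function.Injective ρ)
    (hstab : ∀ v : V, v ≠ 0 → Nat.card {g : G // ρ g v = v} = 2)
    (z : G) (hz : orderOf z = 2) (hzc : z ∈ Subgroup.center G) :
    ∃ r : ℕ, Nat.card V = q ^ (2 * r) ∧
      Nat.card {g : G // orderOf g = 2 ∧ g ∉ Subgroup.center G} = q ^ r + 1 := by
  classical
  haveI := Fintype.ofFinite V
  haveI := Fintype.ofFinite G
  have hzz : z * z = 1 := by rw [← pow_two, ← hz]; exact pow_orderOf_eq_one z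
  have hz1 : z ≠ 1 := fun h => by rw [h, orderOf_one] at hz; omega
  have hzc' : ∀ g : G, g * z = z * g := Subgroup.mem_center_iff.1 hzc
  have hneg := central_inv ρ hρ hstab hz1 hzz hzc'
  have h2 : (2 : ZMod q) ≠ 0 := fun h => hz1 (hρ (LinearEquiv.ext fun v => by
    rw [hneg, map_one]
    show -v = v
    exact neg_eq_of_add_eq_zero_right (by rw [← two_smul (ZMod q) v, h, zero_smul])))
  set I := {g : G // orderOf g = 2 ∧ g ∉ Subgroup.center G} with hI
  have hIiff : ∀ g : G, (orderOf g = 2 ∧ g ∉ Subgroup.center G) ↔ g * g = 1 ∧ g ≠ 1 ∧ g ≠ z := by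
    intro g
    constructor
    · rintro ⟨ho, hc⟩
      exact ⟨by rw [← pow_two, ← ho]; exact pow_orderOf_eq_one g, fun h => by rw [h, orderOf_one] at ho; omega,
        fun h => hc (h ▸ hzc)⟩
    · rintro ⟨hgg, hg1, hgz⟩
      refine ⟨orderOf_eq_prime (by rw [pow_two]; exact hgg) hg1, fun hc => hgz (hρ (LinearEquiv.ext fun v => ?_))⟩
      rw [hneg, central_inv ρ hρ hstab hg1 hgg (Subgroup.mem_center_iff.1 hc)]
  let c : G → ℕ := fun g => Nat.card (Fix ρ g)
  have hkey : Nat.card {v : V // v ≠ 0} = ∑ t : I, (c t.1 - 1) := by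
    have hfix : ∀ v : {v : V // v ≠ 0}, ∃! t : I, ρ t.1 v.1 = v.1 := by
      intro ⟨v, hv⟩
      obtain ⟨t, ht1, htv, htt, hall⟩ := stab_unique ρ hstab hv
      have htz : t ≠ z := fun h => by
        rw [h, hneg] at htv
        have : (2 : ZMod q) • v = 0 := by rw [two_smul]; nth_rewrite 1 [← htv]; exact neg_add_cancel v
        exact hv ((smul_eq_zero.1 this).resolve_left h2)
      refine ⟨⟨t, (hIiff t).2 ⟨htt, ht1, htz⟩⟩, htv, fun s hs => Subtype.ext ((hall s.1 hs).resolve_left ?_)⟩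
      exact ((hIiff s.1).1 s.2).2.1
    let e : (Σ t : I, {v : Fix ρ t.1 // v ≠ 0}) ≃ {v : V // v ≠ 0} :=
      Equiv.ofBijective (fun x => ⟨x.2.1.1, fun h => x.2.2 (Subtype.ext h)⟩) ⟨by
        rintro ⟨t, ⟨v, hv⟩, hv0⟩ ⟨s, ⟨w, hw⟩, hw0⟩ h
        obtain rfl : v = w := congrArg Subtype.val h
        obtain ⟨u, -, hu⟩ := hfix ⟨v, fun h => hv0 (Subtype.ext h)⟩
        obtain rfl : t = s := (hu t ((mem_fix ρ).1 hv)).trans (hu s ((mem_fix ρ).1 hw)).symm
        rfl, by
        intro v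
        obtain ⟨t, ht, -⟩ := hfix v
        exact ⟨⟨t, ⟨v.1, (mem_fix ρ).2 ht⟩, fun h => v.2 (congrArg Subtype.val h)⟩, Subtype.ext rfl⟩⟩
    rw [← Nat.card_congr e, Nat.card_sigma]
    refine Finset.sum_congr rfl fun t _ => ?_
    rw [Nat.card_eq_fintype_card, Fintype.card_subtype_compl, Fintype.card_subtype_eq]
    exact congrArg (· - 1) Nat.card_eq_fintype_card.symm
  have hcpos : ∀ t : I, 1 < c t.1 := by
    intro t
    obtain ⟨htt, ht1, htz⟩ := (hIiff t.1).1 t.2
    by_contra h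
    rw [not_lt] at h
    haveI : Subsingleton (Fix ρ t.1) := Finite.card_le_one_iff_subsingleton.1 h
    refine htz (hρ (LinearEquiv.ext fun v => ?_))
    rw [hneg]
    have hm : v + ρ t.1 v ∈ Fix ρ t.1 := (mem_fix ρ).2 (by
      rw [map_add, ← rho_mul, htt, map_one]; exact add_comm _ _)
    have := congrArg Subtype.val (Subsingleton.elim (⟨_, hm⟩ : Fix ρ t.1) 0)
    exact eq_neg_of_add_eq_zero_right this
  have hprod : ∀ t : G, t * t = 1 → c t * c (t * z) = Nat.card V := by
    intro t htt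
    have htv : ∀ u : V, ρ t (ρ t u) = u := fun u => by rw [← rho_mul, htt, map_one]; rfl
    rw [← Nat.card_prod]
    refine Nat.card_congr (Equiv.ofBijective (fun x => (x.1 : V) + (x.2 : V)) ⟨?_, ?_⟩)
    · rintro ⟨⟨a, ha⟩, ⟨b, hb⟩⟩ ⟨⟨a', ha'⟩, ⟨b', hb'⟩⟩ h
      simp only at h
      have ha1 := (mem_fix ρ).1 ha
      have ha2 := (mem_fix ρ).1 ha'
      have hb1 : ρ t b = -b := by
        have := (mem_fix ρ).1 hb; rw [rho_mul, hneg, map_neg] at this
        exact neg_eq_iff_eq_neg.1 this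
      have hb2 : ρ t b' = -b' := by
        have := (mem_fix ρ).1 hb'; rw [rho_mul, hneg, map_neg] at this
        exact neg_eq_iff_eq_neg.1 this
      have h' := congrArg (ρ t) h
      rw [map_add, map_add, ha1, ha2, hb1, hb2] at h'
      have : a = a' := smul_right_injective V h2 (by
        show (2 : ZMod q) • a = (2 : ZMod q) • a'
        rw [two_smul, two_smul]
        calc a + a = (a + b) + (a + -b) := by abel
          _ = (a' + b') + (a' + -b') := by rw [h, h']
          _ = a' + a' := by abel)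
      subst this
      obtain rfl := add_left_cancel h
      rfl
    · intro v
      refine ⟨(⟨(2 : ZMod q)⁻¹ • (v + ρ t v), (mem_fix ρ).2 ?_⟩, ⟨(2 : ZMod q)⁻¹ • (v - ρ t v), (mem_fix ρ).2 ?_⟩), ?_⟩
      · rw [map_smul, map_add, htv, add_comm]
      · rw [rho_mul, hneg, map_neg, map_smul, map_sub, htv, ← smul_neg, neg_sub]
      · show (2 : ZMod q)⁻¹ • (v + ρ t v) + (2 : ZMod q)⁻¹ • (v - ρ t v) = v
        rw [← smul_add, show v + ρ t v + (v - ρ t v) = (2 : ZMod q) • v by rw [two_smul]; abel, inv_smul_smul₀ h2]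
  have hle : ∀ s t : I, s ≠ t → c s.1 * c t.1 ≤ Nat.card V := by
    intro s t hst
    rw [← Nat.card_prod]
    refine Nat.card_le_card_of_injective (fun x => (x.1 : V) + (x.2 : V)) ?_
    rintro ⟨⟨a, ha⟩, ⟨b, hb⟩⟩ ⟨⟨a', ha'⟩, ⟨b', hb'⟩⟩ h
    simp only at h
    have e : a - a' = b' - b := by rw [sub_eq_sub_iff_add_eq_add, h, add_comm b']
    have hz0 : a - a' = 0 := by
      by_contra h0
      obtain ⟨u, -, -, -, hall⟩ := stab_unique ρ hstab h0
      have hs1 := (hall s.1 ((mem_fix ρ).1 (sub_mem ha ha'))).resolve_left ((hIiff s.1).1 s.2).2.1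
      have ht1 := (hall t.1 (by rw [e]; exact (mem_fix ρ).1 (sub_mem hb' hb))).resolve_left ((hIiff t.1).1 t.2).2.1
      exact hst (Subtype.ext (hs1.trans ht1.symm))
    obtain rfl := sub_eq_zero.1 hz0
    obtain rfl := add_left_cancel h
    rfl
  have hpair : ∀ t : I, orderOf (t.1 * z) = 2 ∧ t.1 * z ∉ Subgroup.center G := fun t => by
    obtain ⟨htt, ht1, htz⟩ := (hIiff t.1).1 t.2
    refine (hIiff _).2 ⟨?_, fun h => htz ?_, fun h => ht1 (mul_eq_right.1 h)⟩
    · rw [mul_assoc, ← mul_assoc z t.1 z, ← hzc' t.1, mul_assoc t.1 z z, hzz, mul_one, htt]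
    · exact mul_right_cancel (h.trans hzz.symm)
  let tz : I → I := fun t => ⟨t.1 * z, hpair t⟩
  have hVpos : 0 < Nat.card V := Nat.card_pos
  haveI : Nonempty I := by
    obtain ⟨v, hv⟩ := exists_ne (0 : V)
    by_contra h
    rw [not_nonempty_iff] at h
    have : Nat.card {v : V // v ≠ 0} = 0 := by rw [hkey]; simp
    exact (Nat.card_ne_zero.2 ⟨⟨⟨v, hv⟩⟩, inferInstance⟩) this
  obtain ⟨t⟩ := ‹Nonempty I›
  have htne : tz t ≠ t := fun h => hz1 (mul_eq_left.1 (congrArg Subtype.val h))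
  have hVc : Nat.card {v : V // v ≠ 0} = Nat.card V - 1 := by
    rw [Nat.card_eq_fintype_card, Nat.card_eq_fintype_card, Fintype.card_subtype_compl, Fintype.card_subtype_eq]
  have hp : c t.1 * c (tz t).1 = Nat.card V := hprod t.1 ((hIiff t.1).1 t.2).1
  obtain ⟨s, hs1, hs2⟩ : ∃ s : I, s ≠ t ∧ s ≠ tz t := by
    by_contra h
    push Not at h
    have huniv : (Finset.univ : Finset I) = {t, tz t} := by
      ext s; simp only [Finset.mem_univ, Finset.mem_insert, Finset.mem_singleton, true_iff]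
      by_cases hst : s = t
      · exact Or.inl hst
      · exact Or.inr (h s hst)
    rw [huniv, Finset.sum_pair htne.symm, hVc, ← hp] at hkey
    have a1 := hcpos t
    have a2 := hcpos (tz t)
    obtain ⟨a, ha⟩ : ∃ a, c t.1 = a + 2 := ⟨_, (Nat.sub_add_cancel a1).symm⟩
    obtain ⟨b, hb⟩ : ∃ b, c (tz t).1 = b + 2 := ⟨_, (Nat.sub_add_cancel a2).symm⟩
    rw [ha, hb] at hkey
    have e2 : (a + 2) * (b + 2) = a * b + 2 * a + 2 * b + 4 := by ring
    omega
  have hall : ∀ t s : I, s ≠ t → s ≠ tz t → c s.1 ≤ c t.1 ∧ c s.1 ≤ c (tz t).1 := by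
    intro t s h1 h2'
    have hp := hprod t.1 ((hIiff t.1).1 t.2).1
    have e1 := hle s t h1
    have e2 := hle s (tz t) h2'
    constructor
    · refine Nat.le_of_mul_le_mul_right (c := c (tz t).1) ?_ (by linarith [hcpos (tz t)])
      exact e2.trans hp.ge
    · refine Nat.le_of_mul_le_mul_right (c := c t.1) ?_ (by linarith [hcpos t])
      rw [mul_comm (c (tz t).1)]; exact e1.trans hp.ge
  have hswap : ∀ t s : I, s ≠ t → s ≠ tz t → t ≠ s ∧ t ≠ tz s ∧ tz t ≠ s ∧ tz t ≠ tz s := by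
    intro t s h1 h2'
    have hinvol : ∀ u : I, tz (tz u) = u := fun u => Subtype.ext (by
      show u.1 * z * z = u.1; rw [mul_assoc, hzz, mul_one])
    refine ⟨h1.symm, fun h => h2' ?_, h2'.symm, fun h => h1 ?_⟩
    · rw [h, hinvol]
    · rw [← hinvol s, ← h, hinvol]
  obtain ⟨hs3, hs4, hs5, hs6⟩ := hswap t s hs1 hs2
  have hC : ∀ u : I, c u.1 = c t.1 := by
    have base : ∀ u : I, u ≠ t → u ≠ tz t → c u.1 = c t.1 ∧ c u.1 = c (tz t).1 := by
      intro u h1 h2'
      obtain ⟨a, b, a', b'⟩ := hswap t u h1 h2'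
      exact ⟨le_antisymm (hall t u h1 h2').1 (hall u t a b).1, le_antisymm (hall t u h1 h2').2 (hall u (tz t) a' b').1⟩
    intro u
    by_cases h1 : u = t
    · rw [h1]
    by_cases h2' : u = tz t
    · rw [h2', ← (base s hs1 hs2).2, (base s hs1 hs2).1]
    · exact (base u h1 h2').1
  rw [hC (tz t)] at hp
  obtain ⟨r, hr⟩ : ∃ r, c t.1 = q ^ r := ⟨_, by
    show Nat.card (Fix ρ t.1) = _
    rw [Module.natCard_eq_pow_finrank (K := ZMod q), Nat.card_zmod]⟩
  refine ⟨r, by rw [← hp, hr, ← pow_add, two_mul], ?_⟩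
  rw [hVc, Finset.sum_congr rfl (fun u _ => by rw [hC u]), Finset.sum_const, Finset.card_univ, smul_eq_mul, ← hp] at hkey
  rw [Nat.card_eq_fintype_card, ← hr]
  have a1 := hcpos t
  obtain ⟨a, ha⟩ : ∃ a, c t.1 = a + 2 := ⟨_, (Nat.sub_add_cancel a1).symm⟩
  rw [ha] at hkey ⊢
  refine Nat.eq_of_mul_eq_mul_right (show 0 < a + 1 by omega) ?_
  have e : (a + 2) * (a + 2) = (a + 2 + 1) * (a + 1) + 1 := by ring
  have e' : Fintype.card I * (a + 2 - 1) = Fintype.card I * (a + 1) := by rw [show a + 2 - 1 = a + 1 from rfl]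
  omega

end Cfsg.Agent.S3381
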