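import Cfsg.Statements.S3382
import Mathlib
import Cfsg.Agent.Lib.S3382Aux

set_option autoImplicit false
open Cfsg Cfsg.Agent.Lib

namespace Cfsg.Agent.S3382


section
variable {q : ℕ} [Fact q.Prime]

/-- The diagonal map `(x, y) ↦ (u x, v y)`. -/
def diag2 : (ZMod q)ˣ × (ZMod q)ˣ →* ((Fin 2 → ZMod q) ≃ₗ[ZMod q] (Fin 2 → ZMod q)) where
  toFun p := LinearEquiv.piCongrRight fun i => LinearEquiv.smulOfUnit (![p.1, p.2] i)
  map_one' := by
    refine LinearEquiv.ext fun v => funext fun i => ?_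
    fin_cases i <;> simp [LinearEquiv.smulOfUnit]
  map_mul' p p' := by
    refine LinearEquiv.ext fun v => funext fun i => ?_
    fin_cases i <;> simp [LinearEquiv.smulOfUnit, mul_smul]

theorem diag2_apply (u v : (ZMod q)ˣ) (x : Fin 2 → ZMod q) :
    diag2 (u, v) x = ![(u : ZMod q) * x 0, (v : ZMod q) * x 1] := by
  funext i
  fin_cases i <;> simp [diag2, LinearEquiv.smulOfUnit, Units.smul_def]

theorem diag2_inj : Function.Injective (diag2 (q := q)) := fun ⟨u, v⟩ ⟨u', v'⟩ h => by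
  have h0 := congrFun (LinearEquiv.congr_fun h ![1, 1]) 0
  have h1 := congrFun (LinearEquiv.congr_fun h ![1, 1]) 1
  simp [diag2_apply] at h0 h1
  exact Prod.ext (Units.ext h0) (Units.ext h1)

/-- The swap of the two coordinates. -/
def swap2 : (Fin 2 → ZMod q) ≃ₗ[ZMod q] (Fin 2 → ZMod q) :=
  LinearEquiv.funCongrLeft (ZMod q) (ZMod q) (Equiv.swap (0 : Fin 2) 1)

theorem swap2_apply (x : Fin 2 → ZMod q) : swap2 x = ![x 1, x 0] := by
  funext i
  fin_cases i <;> simp [swap2, LinearEquiv.funCongrLeft_apply, LinearMap.funLeft_apply]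

theorem swap2_sq : swap2 (q := q) * swap2 = 1 := LinearEquiv.ext fun x => by
  rw [LinearEquiv.mul_apply, swap2_apply, swap2_apply]
  funext i; fin_cases i <;> simp

theorem swap2_conj (u v : (ZMod q)ˣ) : swap2 * diag2 (u, v) * swap2 = diag2 (v, u) := LinearEquiv.ext fun x => by
  rw [LinearEquiv.mul_apply, LinearEquiv.mul_apply, swap2_apply, diag2_apply, swap2_apply, diag2_apply]
  funext i; fin_cases i <;> simp

end


/-- Let q = 2^m + 1 be a prime other than 5. Then the automorphism group of the group of linear maps of F_q² of the forms (x, y) ↦ (a x, ± a⁻¹ y) and (x, y) ↦ (± a⁻¹ y, a x) with a ≠ 0 is itself a 2-group. -/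
theorem result (q m : ℕ) [Fact q.Prime] (hq : q = 2 ^ m + 1) (hq5 : q ≠ 5)
    (T : Subgroup ((Fin 2 → ZMod q) ≃ₗ[ZMod q] (Fin 2 → ZMod q)))
    (hT : ∀ f, f ∈ T ↔ ∃ a s : ZMod q, a ≠ 0 ∧ (s = 1 ∨ s = -1) ∧
      ((∀ v, f v = ![a * v 0, s * a⁻¹ * v 1]) ∨ (∀ v, f v = ![s * a⁻¹ * v 1, a * v 0]))) :
    IsPGroup 2 (MulAut T) := by
  classical
  have hqp := (Fact.out : q.Prime)
  obtain ⟨g, hg⟩ := (inferInstance : IsCyclic (ZMod q)ˣ).exists_generator
  have hord : orderOf g = 2 ^ m := by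
    rw [orderOf_eq_card_of_forall_mem_zpowers hg, Nat.card_eq_fintype_card, ZMod.card_units q, hq]
    exact Nat.add_sub_cancel _ 1
  have hsu : ∀ s : ZMod q, s = 1 ∨ s = -1 → ∃ S : (ZMod q)ˣ, (S : ZMod q) = s ∧ (S = 1 ∨ S = -1) := fun s hs => by
    rcases hs with rfl | rfl
    · exact ⟨1, rfl, Or.inl rfl⟩
    · exact ⟨-1, by simp, Or.inr rfl⟩
  have hmemD : ∀ u S : (ZMod q)ˣ, S = 1 ∨ S = -1 → diag2 (u, S * u⁻¹) ∈ T := fun u S hS => by
    refine (hT _).mpr ⟨u, S, u.ne_zero, by rcases hS with rfl | rfl <;> simp, Or.inl fun v => ?_⟩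
    rw [diag2_apply, Units.val_mul, Units.val_inv_eq_inv_val]
  have hmemS : swap2 ∈ T :=
    (hT _).mpr ⟨1, 1, one_ne_zero, Or.inl rfl, Or.inr fun v => by rw [swap2_apply]; simp⟩
  let d : T := ⟨diag2 (g, g⁻¹), by simpa using hmemD g 1 (Or.inl rfl)⟩
  let z : T := ⟨diag2 (1, -1), by simpa using hmemD 1 (-1) (Or.inr rfl)⟩
  let w : T := ⟨swap2, hmemS⟩
  have hdk : ∀ k : ℕ, ((d ^ k : T) : (Fin 2 → ZMod q) ≃ₗ[ZMod q] _) = diag2 (g ^ k, (g ^ k)⁻¹) := fun k => by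
    rw [Subgroup.coe_pow, ← map_pow, Prod.pow_mk, inv_pow]
  have hdkz : ∀ k : ℕ, ((d ^ k * z : T) : (Fin 2 → ZMod q) ≃ₗ[ZMod q] _) = diag2 (g ^ k, -(g ^ k)⁻¹) := fun k => by
    rw [Subgroup.coe_mul, hdk, ← map_mul, Prod.mk_mul_mk, mul_one, mul_neg_one]
  have hgk : ∀ u : (ZMod q)ˣ, ∃ k : ℕ, g ^ k = u := fun u => by
    obtain ⟨k, -, hk⟩ := Finset.mem_image.mp ((mem_zpowers_iff_mem_range_orderOf (x := g)).mp (hg u))
    exact ⟨k, hk⟩
  have hall : ∀ f : T, ∃ k : ℕ, f = d ^ k ∨ f = d ^ k * z ∨ f = d ^ k * w ∨ f = d ^ k * z * w := by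
    intro f
    obtain ⟨a, s, ha, hs, hf | hf⟩ := (hT _).mp f.2 <;> obtain ⟨S, rfl, hS⟩ := hsu s hs
    · obtain ⟨k, hk⟩ := hgk (Units.mk0 a ha)
      have e : (f : (Fin 2 → ZMod q) ≃ₗ[ZMod q] _) = diag2 (g ^ k, S * (g ^ k)⁻¹) := LinearEquiv.ext fun v => by
        rw [hf, diag2_apply, Units.val_mul, Units.val_inv_eq_inv_val, hk, Units.val_mk0]
      rcases hS with rfl | rfl
      · exact ⟨k, Or.inl (Subtype.ext (by rw [e, hdk, one_mul]))⟩
      · exact ⟨k, Or.inr (Or.inl (Subtype.ext (by rw [e, hdkz, neg_one_mul])))⟩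
    · obtain ⟨k, hk⟩ := hgk (S * (Units.mk0 a ha)⁻¹)
      have hka : Units.mk0 a ha = S * (g ^ k)⁻¹ := by rw [hk, mul_inv_rev, inv_inv, mul_comm (Units.mk0 a ha), mul_inv_cancel_left]
      have e : (f : (Fin 2 → ZMod q) ≃ₗ[ZMod q] _) = diag2 (g ^ k, S * (g ^ k)⁻¹) * swap2 := LinearEquiv.ext fun v => by
        rw [hf, LinearEquiv.mul_apply, swap2_apply, diag2_apply, ← hka, hk, Units.val_mul,
          Units.val_inv_eq_inv_val, Units.val_mk0]
        simp
      rcases hS with rfl | rfl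
      · exact ⟨k, Or.inr (Or.inr (Or.inl (Subtype.ext (by rw [e, Subgroup.coe_mul, hdk, one_mul]))))⟩
      · exact ⟨k, Or.inr (Or.inr (Or.inr (Subtype.ext (by rw [e, Subgroup.coe_mul, hdkz, neg_one_mul]))))⟩
  have hfinL : Finite ((Fin 2 → ZMod q) ≃ₗ[ZMod q] (Fin 2 → ZMod q)) :=
    Finite.of_injective (fun e : (Fin 2 → ZMod q) ≃ₗ[ZMod q] (Fin 2 → ZMod q) => (e : (Fin 2 → ZMod q) → (Fin 2 → ZMod q))) DFunLike.coe_injective
  have hww : w * w = 1 := Subtype.ext swap2_sq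
  rcases Nat.eq_zero_or_pos m with rfl | hm
  · -- two elements
    have hg1 : g = 1 := orderOf_eq_one_iff.mp (by rw [hord, pow_zero])
    have hd1 : d = 1 := Subtype.ext (show diag2 (g, g⁻¹) = 1 by rw [hg1, inv_one, ← Prod.one_eq_mk, map_one])
    have hz1 : z = 1 := Subtype.ext (show diag2 (1, -1) = 1 by
      obtain ⟨k, hk⟩ := hgk (-1)
      rw [← hk, hg1, one_pow, ← Prod.one_eq_mk, map_one])
    have h2 : ∀ f : T, f = 1 ∨ f = w := fun f => by
      obtain ⟨k, h⟩ := hall f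
      simp only [hd1, hz1, one_pow, one_mul] at h
      tauto
    have hid : ∀ α : MulAut T, α = 1 := fun α => MulEquiv.ext fun f => by
      rw [MulAut.one_apply]
      rcases h2 f with rfl | rfl
      · exact map_one α
      · rcases h2 (α w) with e | e
        · rw [e, ← α.injective (e.trans (map_one α).symm)]
        · exact e
    exact fun α => ⟨0, by rw [hid α, one_pow]⟩
  obtain ⟨j, rfl⟩ : ∃ j, m = j + 1 := ⟨m - 1, by omega⟩
  have hj : j = 0 ∨ 2 ≤ j := by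
    rcases Nat.lt_or_ge j 2 with h | h
    · interval_cases j
      · exact Or.inl rfl
      · exact absurd (by rw [hq]; norm_num) hq5
    · exact Or.inr h
  have hneg : (-1 : (ZMod q)ˣ) = g ^ (2 ^ j) := by
    have h1 : ((g ^ (2 ^ j) : (ZMod q)ˣ) : ZMod q) * ((g ^ (2 ^ j) : (ZMod q)ˣ) : ZMod q) = 1 := by
      rw [← Units.val_mul, ← pow_add, ← two_mul, ← pow_succ', ← hord, pow_orderOf_eq_one, Units.val_one]
    rcases mul_self_eq_one_iff.mp h1 with h | h
    · exfalso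
      have := Nat.le_of_dvd (Nat.two_pow_pos j) (hord ▸ orderOf_dvd_of_pow_eq_one (Units.ext h))
      rw [pow_succ] at this
      have := Nat.two_pow_pos j
      omega
    · exact Units.ext (by rw [h]; simp)
  have hne : (1 : (ZMod q)ˣ) ≠ -1 := fun h => by
    have := Nat.le_of_dvd (Nat.two_pow_pos j) (hord ▸ orderOf_dvd_of_pow_eq_one (hneg.symm.trans h.symm))
    rw [pow_succ] at this
    have := Nat.two_pow_pos j
    omega
  refine (S3382Aux.Dat.mk d z w (orderOf_eq_iff (by positivity) |>.mpr ⟨?_, ?_⟩) ?_ ?_ hww ?_ ?_ ?_ hall : S3382Aux.Dat j).isPGroup_aut hj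
  · refine Subtype.ext ?_
    rw [hdk, ← hord, pow_orderOf_eq_one, inv_one, ← Prod.one_eq_mk, map_one, Subgroup.coe_one]
  · intro n hn hn0 h
    have h' := congrArg Subtype.val h
    rw [hdk, Subgroup.coe_one, ← map_one (diag2 (q := q))] at h'
    have := Nat.le_of_dvd hn0 (hord ▸ orderOf_dvd_of_pow_eq_one (congrArg Prod.fst (diag2_inj h')))
    omega
  · refine Subtype.ext ?_
    show diag2 (1, -1) * diag2 (1, -1) = 1
    rw [← map_mul, Prod.mk_mul_mk, one_mul, neg_one_mul, neg_neg, ← Prod.one_eq_mk, map_one]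
  · exact Subtype.ext (show diag2 (g, g⁻¹) * diag2 (1, -1) = diag2 (1, -1) * diag2 (g, g⁻¹) by
      rw [← map_mul, ← map_mul, mul_comm])
  · refine Subtype.ext ?_
    show swap2 * diag2 (g, g⁻¹) * swap2 = (diag2 (g, g⁻¹))⁻¹
    rw [swap2_conj, ← map_inv, Prod.inv_mk, inv_inv]
  · refine Subtype.ext ?_
    rw [Subgroup.coe_mul T z, hdk]
    show swap2 * diag2 (1, -1) * swap2 = diag2 (1, -1) * _
    rw [swap2_conj, ← map_mul, Prod.mk_mul_mk, one_mul, ← hneg]
    congr 2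
    simp
  · intro k h
    have h' : diag2 (g ^ k, (g ^ k)⁻¹) = diag2 (1, -1) := (hdk k).symm.trans (congrArg Subtype.val h)
    have h2 := diag2_inj h'
    rw [Prod.mk.injEq] at h2
    rw [h2.1, inv_one] at h2
    exact hne h2.2

end Cfsg.Agent.S3382
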