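import Cfsg.Statements.S3419
import Mathlib
import Cfsg.Agent.Lib.GroupB.Hall
import Cfsg.Agent.Lib.NumTheory.TwoPrimes
import Cfsg.Agent.Lib.NumTheory.AltSpectrum

set_option autoImplicit false
open Cfsg

namespace Cfsg.Agent.S3419

theorem exists_orderOf {G : Type*} [Group G] [Finite G] [Group.IsSolvable G] {p q e : ℕ} (hp : p.Prime) (hq : q.Prime)
    (hpq : p ≠ q) (hp1 : p ∣ Nat.card G) (hp2 : ¬ p ^ 2 ∣ Nat.card G) (hq1 : q ∣ Nat.card G)
    (hq2 : ¬ q ^ (e + 1) ∣ Nat.card G)
    (hne : ∀ j, 1 ≤ j → j ≤ e → ¬ q ^ j % p = 1) (hqp : ¬ q ∣ p - 1) : ∃ g : G, orderOf g = p * q := by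
  obtain ⟨H, hH⟩ := CfsgLib.GroupB.Hall.exists_isPiHall (CfsgLib.GroupB.Hall.piSep_of_isSolvable (G := G) {p, q})
  haveI := Fact.mk hp
  haveI := Fact.mk hq
  have hdvd : ∀ r ∈ ({p, q} : Set ℕ), r.Prime → ∀ k, r ^ k ∣ Nat.card G → r ^ k ∣ Nat.card H := by
    intro r hr hrp k hk
    rw [← Subgroup.card_mul_index H] at hk
    exact ((Nat.Coprime.pow_left k (hrp.coprime_iff_not_dvd.mpr (hH.2 r hrp hr)))).dvd_of_dvd_mul_right hk
  have hpH : p ∣ Nat.card H := by simpa using hdvd p (Or.inl rfl) hp 1 (by simpa using hp1)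
  have hqH : q ∣ Nat.card H := by simpa using hdvd q (Or.inr rfl) hq 1 (by simpa using hq1)
  let P : Sylow p H := default
  have hPcard : Nat.card P = p := by
    obtain ⟨k, hk⟩ := (IsPGroup.iff_card.mp P.2)
    have hle : k ≤ 1 := by
      by_contra hlt
      refine hp2 ((pow_dvd_pow p (show 2 ≤ k by omega)).trans ?_)
      rw [← hk]
      exact (Subgroup.card_subgroup_dvd_card _).trans (Subgroup.card_subgroup_dvd_card H)
    have hpP := P.dvd_card_of_dvd_card hpH
    rcases Nat.eq_zero_or_pos k with h0 | h0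
    · rw [hk, h0, pow_zero] at hpP
      exact absurd hpP hp.not_dvd_one
    · rw [hk, show k = 1 by omega, pow_one]
  obtain ⟨a, ha⟩ : ∃ a, (P : Subgroup H).index = q ^ a := by
    refine ⟨((P : Subgroup H).index).primeFactorsList.length, Nat.eq_prime_pow_of_unique_prime_dvd Subgroup.index_ne_zero_of_finite ?_⟩
    intro r hr hrd
    rcases hH.1 r hr (hrd.trans (Subgroup.index_dvd_card _)) with h | h
    · exfalso
      exact P.not_dvd_index (h ▸ hrd)
    · exact h
  have hae : a ≤ e := by
    by_contra hlt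
    refine hq2 ((pow_dvd_pow q (show e + 1 ≤ a by omega)).trans ?_)
    rw [← ha]
    exact (Subgroup.index_dvd_card _).trans (Subgroup.card_subgroup_dvd_card H)
  -- `P` is normal
  have hn : Nat.card (Sylow p H) = 1 := by
    have h1 := P.card_dvd_index
    rw [ha, Nat.dvd_prime_pow hq] at h1
    obtain ⟨j, hj, hj'⟩ := h1
    rcases Nat.eq_zero_or_pos j with h0 | h0
    · rw [hj', h0, pow_zero]
    · exfalso
      have h2 := card_sylow_modEq_one p H
      rw [hj', Nat.ModEq, Nat.mod_eq_of_lt hp.one_lt] at h2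
      exact hne j h0 (hj.trans hae) h2
  haveI : Subsingleton (Sylow p H) := (Nat.card_eq_one_iff_unique.mp hn).1
  haveI := P.normal_of_subsingleton
  obtain ⟨y, hy⟩ := exists_prime_orderOf_dvd_card' (G := H) q hqH
  obtain ⟨x, hx⟩ := exists_prime_orderOf_dvd_card' (G := (P : Subgroup H)) p (by rw [hPcard])
  have hxy : Commute (x : H) y := CfsgLib.AltSpectrum.commute_of_normalizes hp hq hqp (P : Subgroup H) hPcard hy
    (by rw [Subgroup.normalizer_eq_top]; trivial) x.2
  refine ⟨(((x : H) * y : H) : G), ?_⟩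
  rw [Subgroup.orderOf_coe, hxy.orderOf_mul_eq_mul_orderOf_of_coprime, Subgroup.orderOf_coe, hx, hy]
  rw [Subgroup.orderOf_coe, hx, hy]
  exact (Nat.coprime_primes hp hq).mpr hpq


/-- Let n ≥ 5 and let G be a finite group with the same order and the same set of element orders as the alternating group of degree n. Then G is not solvable. -/
theorem result {G : Type*} [Group G] [Finite G] (n : ℕ) (hn : 5 ≤ n)
    (hcard : Nat.card G = Nat.card ↥(alternatingGroup (Fin n)))
    (hspec : Set.range (orderOf : G → ℕ) = Set.range (orderOf : ↥(alternatingGroup (Fin n)) → ℕ)) :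
    ¬ Group.IsSolvable G := by
  intro hs
  haveI := hs
  -- generic use of two primes
  have gen : ∀ p q : ℕ, p.Prime → q.Prime → q ≠ 2 → q < p → p ≤ n → n < 2 * q → False := by
    intro p q hp hq hq2 hqp hpn hnq
    have hp2 : p ≠ 2 := by have := hq.two_le; omega
    have h1 := CfsgLib.AltSpectrum.card_alternating_exact hp hp2 hpn (by omega)
    have h2 := CfsgLib.AltSpectrum.card_alternating_exact hq hq2 (by omega) hnq
    rw [← hcard] at h1 h2
    obtain ⟨g, hg⟩ := exists_orderOf (e := 1) hp hq (by omega) h1.1 h1.2 h2.1 h2.2 (fun j hj1 hj2 => by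
      rw [show j = 1 by omega, pow_one, Nat.mod_eq_of_lt hqp]
      exact hq.one_lt.ne') (CfsgLib.AltSpectrum.mul_pow_not_dvd_sub_one hp hq hq2 hqp (by omega))
    exact CfsgLib.AltSpectrum.not_spectrum hp hq (by omega) (by omega) hspec g hg
  -- two exceptional degrees
  have spec2 : ∀ p q : ℕ, p.Prime → q.Prime → p ≠ q → n < p + q →
      p ∣ n.factorial / 2 → ¬ p ^ 2 ∣ n.factorial / 2 → q ∣ n.factorial / 2 → ¬ q ^ 3 ∣ n.factorial / 2 →
      (∀ j, 1 ≤ j → j ≤ 2 → ¬ q ^ j % p = 1) → ¬ q ∣ p - 1 → False := by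
    intro p q hp hq hpq hlt a b c d h1 h2
    haveI : Nontrivial (Fin n) := Fin.nontrivial_iff_two_le.mpr (by omega)
    have e : Nat.card G = n.factorial / 2 := by
      rw [hcard, nat_card_alternatingGroup, Nat.card_fin]
    rw [← e] at a b c d
    obtain ⟨g, hg⟩ := exists_orderOf (e := 2) hp hq hpq a b c d h1 h2
    exact CfsgLib.AltSpectrum.not_spectrum hp hq hpq hlt hspec g hg
  by_cases h11 : 11 ≤ n
  · obtain ⟨p, q, hp, hq, h1, h2, h3⟩ := CfsgLib.TwoPrimes.two_primes n h11
    exact gen p q hp hq (by omega) h1 h2 h3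
  have hcases : n = 5 ∨ n = 6 ∨ n = 7 ∨ n = 8 ∨ n = 9 ∨ n = 10 := by omega
  rcases hcases with h | h | h | h | h | h
  · exact gen 5 3 (by norm_num) (by norm_num) (by norm_num) (by norm_num) (by omega) (by omega)
  · subst h
    exact spec2 5 3 (by norm_num) (by norm_num) (by norm_num) (by norm_num) (by norm_num [Nat.factorial])
      (by norm_num [Nat.factorial]) (by norm_num [Nat.factorial]) (by norm_num [Nat.factorial])
      (fun j h1 h2 => by interval_cases j <;> norm_num) (by norm_num)
  · exact gen 7 5 (by norm_num) (by norm_num) (by norm_num) (by norm_num) (by omega) (by omega)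
  · exact gen 7 5 (by norm_num) (by norm_num) (by norm_num) (by norm_num) (by omega) (by omega)
  · exact gen 7 5 (by norm_num) (by norm_num) (by norm_num) (by norm_num) (by omega) (by omega)
  · subst h
    exact spec2 7 5 (by norm_num) (by norm_num) (by norm_num) (by norm_num) (by norm_num [Nat.factorial])
      (by norm_num [Nat.factorial]) (by norm_num [Nat.factorial]) (by norm_num [Nat.factorial])
      (fun j h1 h2 => by interval_cases j <;> norm_num) (by norm_num)

end Cfsg.Agent.S3419
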