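import Cfsg.Statements.S3420
import Mathlib
import Cfsg.Agent.Lib.Core
import Cfsg.Agent.Lib.NumTheory.TwoPrimes
import Cfsg.Agent.Lib.NumTheory.AltSpectrum

set_option autoImplicit false
set_option maxHeartbeats 800000
open scoped Pointwise
open Cfsg

namespace Cfsg.Agent.S3420

/-- Let n ≥ 11 and let G be a finite group with the same order and the same set of element orders as the alternating group of degree n. Then G has normal subgroups N < H such that H/N is a non-abelian simple group whose order is divisible by every prime p with n/2 < p ≤ n. -/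
theorem result {G : Type*} [Group G] [Finite G] (n : ℕ) (hn : 11 ≤ n)
    (hcard : Nat.card G = Nat.card ↥(alternatingGroup (Fin n)))
    (hspec : Set.range (orderOf : G → ℕ) = Set.range (orderOf : ↥(alternatingGroup (Fin n)) → ℕ)) :
    ∃ (N H : Subgroup G) (_ : N.Normal), H.Normal ∧ N < H ∧
      IsSimpleGroup (↥H ⧸ N.subgroupOf H) ∧ ¬ IsMulCommutative (↥H ⧸ N.subgroupOf H) ∧
      ∀ p : ℕ, p.Prime → n < 2 * p → p ≤ n → p ∣ Nat.card (↥H ⧸ N.subgroupOf H) := by
  classical
  have hex2 := CfsgLib.TwoPrimes.two_primes n hn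
  let L : ℕ → Prop := fun r => r.Prime ∧ n < 2 * r ∧ r ≤ n
  have hL2 : ∀ r, L r → r ≠ 2 := fun r hr => by have := hr.2.1; omega
  have hexact : ∀ r, L r → r ∣ Nat.card G ∧ ¬ r ^ 2 ∣ Nat.card G := fun r hr => by
    rw [hcard]; exact CfsgLib.AltSpectrum.card_alternating_exact hr.1 (hL2 r hr) hr.2.2 hr.2.1
  have hnd : ∀ p q, L p → L q → ¬ q ∣ p - 1 := fun p q hp hq hd => by
    have h1 : q ≤ p - 1 := Nat.le_of_dvd (by have := hp.1.two_le; omega) hd
    exact CfsgLib.AltSpectrum.mul_pow_not_dvd_sub_one hp.1 hq.1 (hL2 q hq)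
      (by have := hp.1.two_le; omega) (by have := hq.2.1; have := hp.2.2; omega) hd
  obtain ⟨p₁, q₁, hp₁, hq₁, hpq₁, hp₁n, hq₁n⟩ := hex2
  have hLp₁ : L p₁ := ⟨hp₁, by omega, hp₁n⟩
  have hLq₁ : L q₁ := ⟨hq₁, hq₁n, by omega⟩
  -- the normal subgroups
  letI : Fintype (Subgroup G) := Fintype.ofFinite _
  obtain ⟨N, hN, hNmax⟩ := Finset.exists_max_image
    (Finset.univ.filter fun N : Subgroup G => N.Normal ∧ ∀ r, L r → ¬ r ∣ Nat.card N) (fun N => Nat.card N)
    ⟨⊥, Finset.mem_filter.mpr ⟨Finset.mem_univ _, inferInstance, fun r hr h => by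
      rw [Subgroup.card_bot] at h; exact hr.1.not_dvd_one h⟩⟩
  obtain ⟨-, hNn, hNL⟩ := Finset.mem_filter.mp hN
  have hNtop : N < ⊤ := lt_top_iff_ne_top.mpr fun h => by
    refine hNL p₁ hLp₁ ?_
    rw [h, Subgroup.card_top]; exact (hexact p₁ hLp₁).1
  obtain ⟨H, hH, hHmin⟩ := Finset.exists_min_image
    (Finset.univ.filter fun H : Subgroup G => H.Normal ∧ N < H) (fun H => Nat.card H)
    ⟨⊤, Finset.mem_filter.mpr ⟨Finset.mem_univ _, inferInstance, hNtop⟩⟩
  obtain ⟨-, hHn, hNH⟩ := Finset.mem_filter.mp hH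
  have hmin : ∀ M : Subgroup G, M.Normal → N ≤ M → M ≤ H → M = N ∨ M = H := by
    intro M hM h1 h2
    rcases eq_or_lt_of_le h1 with h | h
    · exact Or.inl h.symm
    · exact Or.inr (Subgroup.eq_of_le_of_card_ge h2 (hHmin M (Finset.mem_filter.mpr ⟨Finset.mem_univ _, hM, h⟩)))
  obtain ⟨p, hpL, hpH⟩ : ∃ p, L p ∧ p ∣ Nat.card H := by
    by_contra hcon
    push Not at hcon
    have := hNmax H (Finset.mem_filter.mpr ⟨Finset.mem_univ _, hHn, hcon⟩)
    exact hNH.ne (Subgroup.eq_of_le_of_card_ge hNH.le this)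
  haveI := Fact.mk hpL.1
  let P : Sylow p H := default
  obtain ⟨P', hP'⟩ : ∃ P' : Subgroup G, P' = (P : Subgroup H).map H.subtype := ⟨_, rfl⟩
  have hsq : ∀ U : Subgroup G, ¬ p ^ 2 ∣ Nat.card U := fun U h => (hexact p hpL).2 (h.trans U.card_subgroup_dvd_card)
  have hSylcard : ∀ Q : Sylow p H, Nat.card Q = p := by
    intro Q
    obtain ⟨k, hk⟩ := IsPGroup.iff_card.mp Q.2
    have hk1 : k ≤ 1 := by
      by_contra hlt
      exact hsq H (((pow_dvd_pow p (show 2 ≤ k by omega)).trans (hk ▸ dvd_rfl)).trans (Q : Subgroup H).card_subgroup_dvd_card)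
    have hpQ := Q.dvd_card_of_dvd_card hpH
    rcases Nat.eq_zero_or_pos k with h0 | h0
    · rw [hk, h0, pow_zero] at hpQ
      exact absurd hpQ hpL.1.not_dvd_one
    · rw [hk, show k = 1 by omega, pow_one]
  have hP'card : Nat.card P' = p := by rw [hP', Subgroup.card_subtype]; exact hSylcard P
  -- every large prime divides the order of `H`
  have hall : ∀ r, L r → r ∣ Nat.card H := by
    intro r hr
    rcases eq_or_ne r p with h | hrp
    · rw [h]; exact hpH
    by_contra hrH
    have h1 : Subgroup.normalizer (P' : Set G) ⊔ H = ⊤ := hP' ▸ Sylow.normalizer_sup_eq_top P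
    have h2 := CfsgLib.Core.card_sup_dvd_of_normal (Subgroup.normalizer (P' : Set G)) H
    rw [h1, Subgroup.card_top] at h2
    haveI := Fact.mk hr.1
    obtain ⟨y, hy⟩ := exists_prime_orderOf_dvd_card' (G := Subgroup.normalizer (P' : Set G)) r
      ((hr.1.dvd_mul.mp ((hexact r hr).1.trans h2)).resolve_right hrH)
    obtain ⟨x, hx⟩ := exists_prime_orderOf_dvd_card' (G := P') p (by rw [hP'card])
    have hc : Commute (x : G) y := CfsgLib.AltSpectrum.commute_of_normalizes hpL.1 hr.1 (hnd p r hpL hr) P' hP'card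
      (by rw [Subgroup.orderOf_coe]; exact hy) y.2 x.2
    refine CfsgLib.AltSpectrum.not_spectrum hpL.1 hr.1 hrp.symm (by have := hr.2.1; have := hpL.2.1; omega) hspec ((x : G) * y) ?_
    rw [hc.orderOf_mul_eq_mul_orderOf_of_coprime, Subgroup.orderOf_coe, Subgroup.orderOf_coe, hx, hy]
    rw [Subgroup.orderOf_coe, Subgroup.orderOf_coe, hx, hy]
    exact (Nat.coprime_primes hpL.1 hr.1).mpr hrp.symm
  haveI hN'n : (N.subgroupOf H).Normal := inferInstance
  have hcardQ : Nat.card N * Nat.card (↥H ⧸ N.subgroupOf H) = Nat.card H := by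
    rw [← Nat.card_congr (Subgroup.subgroupOfEquivOfLe hNH.le).toEquiv, mul_comm]
    exact (Subgroup.card_eq_card_quotient_mul_card_subgroup _).symm
  have hLQ : ∀ r, L r → r ∣ Nat.card (↥H ⧸ N.subgroupOf H) := fun r hr =>
    (hr.1.dvd_mul.mp (hcardQ.symm ▸ hall r hr)).resolve_left (hNL r hr)
  have hne : N.subgroupOf H ≠ ⊤ := by
    rw [Ne, Subgroup.subgroupOf_eq_top]; exact fun h => hNH.not_ge h
  haveI : Nontrivial (↥H ⧸ N.subgroupOf H) := by
    rw [← Finite.one_lt_card_iff_nontrivial]
    exact lt_of_lt_of_le hpL.1.one_lt (Nat.le_of_dvd Nat.card_pos (hLQ p hpL))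
  have hsimple : IsSimpleGroup (↥H ⧸ N.subgroupOf H) := by
    refine IsSimpleGroup.mk fun K hK => ?_
    haveI := hK
    obtain ⟨K', hK'⟩ : ∃ K' : Subgroup H, K' = K.comap (QuotientGroup.mk' (N.subgroupOf H)) := ⟨_, rfl⟩
    haveI : K'.Normal := hK' ▸ inferInstance
    have hNK : N.subgroupOf H ≤ K' := by
      intro x hx
      rw [hK', Subgroup.mem_comap, QuotientGroup.mk'_apply, (QuotientGroup.eq_one_iff x).mpr hx]
      exact one_mem K
    have hback : K = K'.map (QuotientGroup.mk' (N.subgroupOf H)) := by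
      rw [hK', Subgroup.map_comap_eq_self_of_surjective (QuotientGroup.mk'_surjective _)]
    by_cases hpK : p ∣ Nat.card K'
    · right
      -- `K'` contains every Sylow subgroup
      obtain ⟨S, hS⟩ : ∃ S : Sylow p H, (S : Subgroup H) ≤ K' := by
        obtain ⟨z, hz⟩ := exists_prime_orderOf_dvd_card' (G := K') p hpK
        obtain ⟨S, hS⟩ := (IsPGroup.of_card (G := Subgroup.zpowers (z : H)) (n := 1)
          (by rw [Nat.card_zpowers, Subgroup.orderOf_coe, hz, pow_one])).exists_le_sylow
        refine ⟨S, ?_⟩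
        rw [← Subgroup.eq_of_le_of_card_ge hS (by rw [hSylcard S, Nat.card_zpowers, Subgroup.orderOf_coe, hz])]
        exact Subgroup.zpowers_le.mpr z.2
      have hallS : ∀ Q : Sylow p H, (Q : Subgroup H) ≤ K' := by
        intro Q x hx
        obtain ⟨g, rfl⟩ := MulAction.exists_smul_eq H S Q
        rw [Sylow.coe_subgroup_smul, Subgroup.mem_smul_pointwise_iff_exists] at hx
        obtain ⟨y, hy, rfl⟩ := hx
        exact ‹K'.Normal›.conj_mem y (hS hy) g
      let M : Subgroup G := Subgroup.normalClosure (P' : Set G) ⊔ N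
      have hMle : M ≤ H := sup_le (Subgroup.normalClosure_le_normal (hP' ▸ Subgroup.map_subtype_le _)) hNH.le
      have hMK : M ≤ K'.map H.subtype := by
        refine sup_le ?_ ?_
        · rw [Subgroup.normalClosure, Subgroup.closure_le]
          intro y hy
          rw [Group.mem_conjugatesOfSet_iff] at hy
          obtain ⟨a, ha, hay⟩ := hy
          obtain ⟨c, rfl⟩ := isConj_iff.mp hay
          have haH : a ∈ H := by
            rw [SetLike.mem_coe, hP'] at ha
            exact Subgroup.map_subtype_le _ ha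
          have hyH : c * a * c⁻¹ ∈ H := hHn.conj_mem a haH c
          refine ⟨⟨_, hyH⟩, ?_, rfl⟩
          have hpow : (⟨_, hyH⟩ : H) ^ p = 1 := by
            refine Subtype.ext ?_
            rw [SubgroupClass.coe_pow, conj_pow]
            have := orderOf_dvd_natCard (⟨a, ha⟩ : P')
            rw [hP'card, orderOf_dvd_iff_pow_eq_one] at this
            have h3 := congrArg Subtype.val this
            rw [SubgroupClass.coe_pow] at h3
            rw [show a ^ p = 1 from h3]
            simp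
          obtain ⟨Q, hQ⟩ := (show IsPGroup p (Subgroup.zpowers (⟨_, hyH⟩ : H)) from
            fun z => by
              obtain ⟨i, hi⟩ := Subgroup.mem_zpowers_iff.mp z.2
              refine ⟨1, Subtype.ext ?_⟩
              rw [SubgroupClass.coe_pow, ← hi, pow_one, ← zpow_natCast, ← zpow_mul, mul_comm, zpow_mul, zpow_natCast, hpow, one_zpow]
              rfl).exists_le_sylow
          exact hallS Q (hQ (Subgroup.mem_zpowers _))
        · intro x hx
          exact ⟨⟨x, hNH.le hx⟩, hNK hx, rfl⟩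
      rcases hmin M inferInstance le_sup_right hMle with h | h
      · exfalso
        refine hNL p hpL ?_
        rw [← hP'card]
        exact Subgroup.card_dvd_of_le (h ▸ le_sup_left.trans' (Subgroup.le_normalClosure) : P' ≤ N)
      · have htop : K' = ⊤ := by
          rw [eq_top_iff]
          intro x _
          obtain ⟨y, hy, hyx⟩ := hMK (h ▸ x.2 : (x : G) ∈ M)
          rwa [Subtype.ext (a1 := y) (a2 := x) hyx] at hy
        rw [hback, htop, Subgroup.map_top_of_surjective _ (QuotientGroup.mk'_surjective _)]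
    · left
      obtain ⟨W, hW⟩ : ∃ W : Subgroup H, W = Cfsg.pPrimeCore p H := ⟨_, rfl⟩
      have hKW : K' ≤ W := hW ▸ CfsgLib.Core.le_pPrimeCore inferInstance
        ((hpL.1.coprime_iff_not_dvd.mpr hpK).symm)
      haveI : W.Characteristic := hW ▸ CfsgLib.Core.pPrimeCore_characteristic p
      haveI : (W.map H.subtype).Normal := ConjAct.normal_of_characteristic_of_normal
      have hNW : N ≤ W.map H.subtype := fun x hx => ⟨⟨x, hNH.le hx⟩, hKW (hNK hx), rfl⟩
      rcases hmin _ inferInstance hNW (Subgroup.map_subtype_le W) with h | h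
      · have hle : K' ≤ N.subgroupOf H := fun x hx => by
          rw [Subgroup.mem_subgroupOf, ← h]; exact ⟨x, hKW hx, rfl⟩
        rw [hback, eq_bot_iff]
        rintro _ ⟨x, hx, rfl⟩
        rw [Subgroup.mem_bot, QuotientGroup.mk'_apply, QuotientGroup.eq_one_iff]
        exact hle hx
      · exfalso
        have hpW : p ∣ Nat.card W := by
          rw [← Subgroup.card_subtype H W, h]; exact hpH
        have := CfsgLib.Core.card_pPrimeCore_coprime (G := H) p
        rw [← hW] at this
        exact hpL.1.ne_one (Nat.eq_one_of_dvd_coprimes this hpW dvd_rfl)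
  refine ⟨N, H, hNn, hHn, hNH, hsimple, fun hc => ?_, fun r hr h1 h2 => hLQ r ⟨hr, h1, h2⟩⟩
  haveI := hsimple
  letI : CommGroup (↥H ⧸ N.subgroupOf H) := { (inferInstance : Group (↥H ⧸ N.subgroupOf H)) with
    mul_comm := hc.is_comm.comm }
  have hprime : (Nat.card (↥H ⧸ N.subgroupOf H)).Prime := IsSimpleGroup.prime_card
  have e1 := (Nat.prime_dvd_prime_iff_eq hp₁ hprime).mp (hLQ p₁ hLp₁)
  have e2 := (Nat.prime_dvd_prime_iff_eq hq₁ hprime).mp (hLQ q₁ hLq₁)
  omega

end Cfsg.Agent.S3420
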