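import Cfsg.Statements.S3430
import Mathlib
import Cfsg.Agent.Lib.Zsig.Basic

set_option autoImplicit false
open Cfsg

namespace Cfsg.Agent.S3430

open CfsgLib.Zsig

theorem pow_cast_eq_one {p q i : ℕ} (hq : 0 < q) : (q : ZMod p) ^ i = 1 ↔ p ∣ q ^ i - 1 := by
  rw [← ZMod.natCast_eq_zero_iff, Nat.cast_sub (Nat.one_le_pow _ _ hq), sub_eq_zero]
  simp

/-- `n` is at most its largest prime factor times its totient. -/
theorem le_mul_totient {n P : ℕ} (hn : 0 < n) (hP : ∀ r ∈ n.primeFactors, r ≤ P) (hP1 : 1 ≤ P) :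
    n ≤ P * n.totient := by
  have hS : n.primeFactors ⊆ Finset.Icc 2 P := fun r hr =>
    Finset.mem_Icc.2 ⟨(Nat.prime_of_mem_primeFactors hr).two_le, hP r hr⟩
  have key : ∀ Q : ℕ, 1 ≤ Q → ∏ i ∈ Finset.Icc 2 Q, i = Q * ∏ i ∈ Finset.Icc 2 Q, (i - 1) := by
    intro Q hQ
    induction Q, hQ using Nat.le_induction with
    | base => simp
    | succ Q hQ ih =>
      rw [Finset.prod_Icc_succ_top (by omega), Finset.prod_Icc_succ_top (by omega), ih,
        Nat.add_sub_cancel]
      ring
  have h1 := key P hP1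
  rw [← Finset.prod_sdiff hS, ← Finset.prod_sdiff hS] at h1
  have hpos : 0 < ∏ i ∈ Finset.Icc 2 P \ n.primeFactors, (i - 1) := Finset.prod_pos fun i hi => by
    have := (Finset.mem_Icc.1 (Finset.mem_sdiff.1 hi).1).1; omega
  have h2 : ∏ i ∈ Finset.Icc 2 P \ n.primeFactors, (i - 1) ≤ ∏ i ∈ Finset.Icc 2 P \ n.primeFactors, i :=
    Finset.prod_le_prod' fun i _ => Nat.sub_le i 1
  have h3 : ∏ p ∈ n.primeFactors, p ≤ P * ∏ p ∈ n.primeFactors, (p - 1) := by
    refine Nat.le_of_mul_le_mul_left ?_ hpos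
    calc _ ≤ (∏ i ∈ Finset.Icc 2 P \ n.primeFactors, i) * ∏ p ∈ n.primeFactors, p :=
          Nat.mul_le_mul_right _ h2
      _ = _ := by rw [h1]; ring
  have h4 := n.totient_mul_prod_primeFactors
  have hp : 0 < ∏ p ∈ n.primeFactors, (p - 1) := Finset.prod_pos fun i hi => by
    have := (Nat.prime_of_mem_primeFactors hi).two_le; omega
  refine Nat.le_of_mul_le_mul_right ?_ hp
  rw [← h4]
  calc _ ≤ n.totient * (P * ∏ p ∈ n.primeFactors, (p - 1)) := Nat.mul_le_mul_left _ h3
    _ = _ := by ring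

/-- An exponential lower bound for the cyclotomic value at two. -/
theorem two_pow_half_totient_le {n : ℕ} (hn : 4 ≤ n) (he : Even n) :
    2 ^ (n.totient / 2) ≤ cyc n 2 := by
  have hP : ∃ P : ℕ, P.Prime ∧ P ∣ n ∧ (P = 2 → 4 ∣ n) := by
    by_cases h4 : 4 ∣ n
    · exact ⟨2, Nat.prime_two, he.two_dvd, fun _ => h4⟩
    obtain ⟨m, rfl⟩ := he.two_dvd
    obtain ⟨P, hP, hPm⟩ := Nat.exists_prime_and_dvd (show m ≠ 1 by omega)
    exact ⟨P, hP, hPm.mul_left 2, fun h => absurd (by subst h; exact Nat.mul_dvd_mul_left 2 hPm) h4⟩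
  obtain ⟨P, hP, hPn, hP2⟩ := hP
  obtain ⟨d, rfl⟩ := hPn
  have hd0 : 0 < d := Nat.pos_of_ne_zero (by rintro rfl; simp at hn)
  have hq1 : 2 ≤ 2 ^ P := Nat.le_self_pow hP.ne_zero 2
  by_cases hPd : P ∣ d
  · have h1 := cyc_mul_prime_of_dvd (a := 2) hP hPd
    rw [mul_comm d P] at h1
    rw [h1, Nat.totient_mul_of_prime_of_dvd hP hPd]
    have hd2 : 2 ≤ d := hP.two_le.trans (Nat.le_of_dvd hd0 hPd)
    refine le_trans ?_ (lower_bound (a := 2 ^ P) hd2 (by omega)).le
    calc 2 ^ (P * d.totient / 2) ≤ 2 ^ ((P - 1) * d.totient) := by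
          refine Nat.pow_le_pow_right two_pos ?_
          obtain ⟨j, rfl⟩ : ∃ j, P = j + 2 := ⟨P - 2, by have := hP.two_le; omega⟩
          rw [Nat.div_le_iff_le_mul_add_pred two_pos]
          simp only [show j + 2 - 1 = j + 1 by omega, add_mul, mul_comm 2 (_ : ℕ)]
          omega
      _ = (2 ^ (P - 1)) ^ d.totient := pow_mul _ _ _
      _ ≤ _ := by
          refine Nat.pow_le_pow_left ?_ _
          obtain ⟨j, rfl⟩ : ∃ j, P = j + 1 := ⟨P - 1, by have := hP.two_le; omega⟩
          have := Nat.one_le_two_pow (n := j)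
          simp only [Nat.add_sub_cancel, pow_succ]; omega
  · have hP3 : 3 ≤ P := by
      rcases Nat.lt_or_ge P 3 with h | h
      · have hPe : P = 2 := by have := hP.two_le; omega
        have := hP2 hPe
        subst hPe
        omega
      · exact h
    have hd2 : 2 ≤ d := by
      rcases (Nat.even_mul.1 he) with h | h
      · have := (hP.eq_two_or_odd'.resolve_left (by omega))
        exact absurd h (Nat.not_even_iff_odd.2 this)
      · exact Nat.le_of_dvd hd0 h.two_dvd
    have h1 := cyc_mul_prime_of_not_dvd (a := 2) hP hPd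
    rw [mul_comm d P] at h1
    have h2 := (lower_bound (a := 2 ^ P) hd2 (by omega)).le
    rw [← h1] at h2
    have h3 : (2 ^ P - 1) ^ d.totient ≤ cyc (P * d) 2 * 3 ^ d.totient :=
      h2.trans (Nat.mul_le_mul_left _ cyc_two_le)
    rw [Nat.totient_mul (hP.coprime_iff_not_dvd.2 hPd), Nat.totient_prime hP]
    refine Nat.le_of_mul_le_mul_right (le_trans ?_ h3) (pow_pos (by norm_num : 0 < 3) d.totient)
    calc 2 ^ ((P - 1) * d.totient / 2) * 3 ^ d.totient
        ≤ 2 ^ ((P - 2) * d.totient) * 3 ^ d.totient := by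
          refine Nat.mul_le_mul_right _ (Nat.pow_le_pow_right two_pos ?_)
          obtain ⟨j, rfl⟩ : ∃ j, P = j + 3 := ⟨P - 3, by omega⟩
          rw [Nat.div_le_iff_le_mul_add_pred two_pos]
          simp only [show j + 3 - 1 = j + 2 by omega, show j + 3 - 2 = j + 1 by omega, add_mul,
            mul_comm 2 (_ : ℕ)]
          omega
      _ = (2 ^ (P - 2) * 3) ^ d.totient := by rw [mul_pow, ← pow_mul]
      _ ≤ _ := by
          refine Nat.pow_le_pow_left ?_ _
          obtain ⟨j, rfl⟩ : ∃ j, P = j + 2 := ⟨P - 2, by omega⟩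
          have := Nat.one_le_two_pow (n := j)
          simp only [Nat.add_sub_cancel, pow_add]; omega

theorem poly_le_two_pow {F : ℕ} (h : 11 ≤ F) : ((F + 1) * F + 1) * (F + 1) ≤ 2 ^ F := by
  induction F, h using Nat.le_induction with
  | base => norm_num
  | succ F hF ih =>
    rw [pow_succ]
    nlinarith [Nat.mul_le_mul_left (F * F) hF, Nat.mul_le_mul_left F hF]

theorem poly_le_two_pow_half {j : ℕ} (h : 15 ≤ j) :
    ((2 * j + 1) * (2 * j) + 1) * (2 * j + 1) < 2 ^ j := by
  induction j, h using Nat.le_induction with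
  | base => norm_num
  | succ j hj ih =>
    rw [pow_succ]
    nlinarith [Nat.mul_le_mul_left (j * j) hj, Nat.mul_le_mul_left j hj]

theorem small_list_aux : ((List.range 813).filter fun n => decide (3 ≤ n) &&
    (List.range 10).all (fun d => decide (d < 2) || decide (n + 1 ≤ d) || decide ((n + 1) % d ≠ 0)) &&
    decide (n.totient ≤ 28)) =
    [4, 6, 10, 12, 16, 18, 22, 28, 30, 36, 40, 42, 46, 52, 58, 60, 66, 70, 72, 78] := by
  decide +kernel

theorem small_list (n : ℕ) (h : n < 813) (h3 : 3 ≤ n)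
    (hd : ∀ d < 10, 2 ≤ d → d < n + 1 → ¬ d ∣ n + 1) (hF : n.totient ≤ 28) :
    n ∈ [4, 6, 10, 12, 16, 18, 22, 28, 30, 36, 40, 42, 46, 52, 58, 60, 66, 70, 72, 78] := by
  rw [← small_list_aux, List.mem_filter]
  refine ⟨List.mem_range.2 h, ?_⟩
  simp only [Bool.and_eq_true, decide_eq_true_eq, List.all_eq_true, List.mem_range, Bool.or_eq_true]
  refine ⟨⟨h3, fun d hd10 => ?_⟩, hF⟩
  rcases Nat.lt_or_ge d 2 with h2 | h2
  · exact Or.inl (Or.inl h2)
  rcases Nat.lt_or_ge d (n + 1) with h4 | h4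
  · exact Or.inr fun h5 => hd d hd10 h2 h4 (Nat.dvd_of_mod_eq_zero h5)
  · exact Or.inl (Or.inr h4)

theorem cert {q n : ℕ} (p : ℕ) (hp : p.Prime) (h1 : p ∣ q ^ n - 1)
    (h2 : ∀ i < n, 1 ≤ i → ¬ p ∣ q ^ i - 1) (h3 : n + 1 < p) :
    ∃ p : ℕ, p.Prime ∧ p ∣ q ^ n - 1 ∧ (∀ i : ℕ, 1 ≤ i → i < n → ¬ p ∣ q ^ i - 1) ∧
      (n + 1 < p ∨ p ^ 2 ∣ q ^ n - 1) :=
  ⟨p, hp, h1, fun i a b => h2 i b a, Or.inl h3⟩


/-- Let q, n ≥ 2 be integers. Unless (n = 2 and q + 1 = 2^s·3^t for some s ≥ 0 and t ≤ 1), or (q = 2 and n ∈ {4, 6, 10, 12, 18}), or (q = 3 and n ∈ {4, 6}), or (q, n) = (5, 6), there is a prime p dividing q^n − 1 but no q^i − 1 with 1 ≤ i < n (a primitive prime divisor), such that p > n + 1 or p² divides q^n − 1. -/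
theorem result (q n : ℕ) (hq : 2 ≤ q) (hn : 2 ≤ n)
    (h1 : ¬ (n = 2 ∧ ∃ s t : ℕ, t ≤ 1 ∧ q + 1 = 2 ^ s * 3 ^ t))
    (h2 : ¬ (q = 2 ∧ (n = 4 ∨ n = 6 ∨ n = 10 ∨ n = 12 ∨ n = 18)))
    (h3 : ¬ (q = 3 ∧ (n = 4 ∨ n = 6))) (h4 : ¬ (q = 5 ∧ n = 6)) :
    ∃ p : ℕ, p.Prime ∧ p ∣ q ^ n - 1 ∧ (∀ i : ℕ, 1 ≤ i → i < n → ¬ p ∣ q ^ i - 1) ∧ (n + 1 < p ∨ p ^ 2 ∣ q ^ n - 1) := by
  classical
  by_contra hno
  by_cases hn2 : n = 2
  · subst hn2
    have hsq : q ^ 2 - 1 = (q + 1) * (q - 1) := by rw [← Nat.sq_sub_sq, one_pow]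
    have hdv : ∀ p : ℕ, p.Prime → p ≠ 2 → p ∣ q + 1 → p = 3 ∧ ¬ p ^ 2 ∣ q + 1 := by
      intro p hp hp2 hpd
      have hprim : ∀ i : ℕ, 1 ≤ i → i < 2 → ¬ p ∣ q ^ i - 1 := by
        intro i hi hi2 hd
        interval_cases i
        rw [pow_one] at hd
        have h3 := Nat.dvd_sub hpd hd
        rw [show q + 1 - (q - 1) = 2 by omega] at h3
        exact hp2 ((Nat.prime_dvd_prime_iff_eq hp Nat.prime_two).mp h3)
      have hp3 : ¬ (2 + 1 < p ∨ p ^ 2 ∣ q ^ 2 - 1) := fun h =>
        hno ⟨p, hp, hsq ▸ hpd.mul_right _, hprim, h⟩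
      push Not at hp3
      have := hp.two_le
      exact ⟨by omega, fun h => hp3.2 (hsq ▸ h.mul_right _)⟩
    apply h1
    refine ⟨rfl, ?_⟩
    obtain ⟨s, m, hm, he⟩ := Nat.exists_eq_pow_mul_and_not_dvd (show q + 1 ≠ 0 by omega) 2 (by norm_num)
    have hm3 : ∀ r : ℕ, r.Prime → r ∣ m → r = 3 ∧ ¬ r ^ 2 ∣ q + 1 := fun r hr hrm =>
      hdv r hr (fun h => hm (h ▸ hrm)) (he ▸ hrm.mul_left _)
    have hm0 : m ≠ 0 := fun h => hm (h ▸ dvd_zero 2)
    have := Nat.eq_prime_pow_of_unique_prime_dvd hm0 (fun {d} hd hd' => (hm3 d hd hd').1)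
    refine ⟨s, m.primeFactorsList.length, ?_, by rw [← this]; exact he⟩
    by_contra hlen
    push Not at hlen
    have h9 : 3 ^ 2 ∣ m := by rw [this]; exact pow_dvd_pow 3 (by omega)
    exact (hm3 3 Nat.prime_three (dvd_trans (dvd_pow_self 3 (by norm_num)) h9)).2
      (he ▸ h9.mul_left _)
  have hn3 : 3 ≤ n := by omega
  -- every primitive prime divisor equals `n + 1` and divides exactly once
  have hppd : ∀ p : ℕ, p.Prime → p ∣ q ^ n - 1 → (∀ i : ℕ, 1 ≤ i → i < n → ¬ p ∣ q ^ i - 1) →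
      p = n + 1 ∧ ¬ p ^ 2 ∣ q ^ n - 1 := by
    intro p hp hpd hprim
    haveI := Fact.mk hp
    have hpow : (q : ZMod p) ^ n = 1 := (pow_cast_eq_one (by omega)).2 hpd
    have hne : (q : ZMod p) ≠ 0 := by
      intro h
      rw [h, zero_pow (by omega)] at hpow
      exact zero_ne_one hpow
    have hord : orderOf (q : ZMod p) = n := by
      rw [orderOf_eq_iff (by omega)]
      exact ⟨hpow, fun i hi hi0 h => hprim i hi0 hi ((pow_cast_eq_one (by omega)).1 h)⟩
    have hdvd : n ∣ p - 1 := hord ▸ ZMod.orderOf_dvd_card_sub_one hne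
    have hle := Nat.le_of_dvd (Nat.sub_pos_of_lt hp.one_lt) hdvd
    have hnot : ¬ (n + 1 < p ∨ p ^ 2 ∣ q ^ n - 1) := fun h => hno ⟨p, hp, hpd, hprim, h⟩
    push Not at hnot
    exact ⟨by omega, hnot.2⟩
  -- the successor of `n` is prime
  have hprime : (n + 1).Prime := by
    have h6 : ¬ (q = 2 ∧ n = 6) := fun h => h2 ⟨h.1, Or.inr (Or.inl h.2)⟩
    obtain ⟨r, hr, hrd, hrp⟩ := zsigmondy q n (by omega) (by omega) h6 (fun h => hn2 h.1)
    obtain ⟨hr1, -⟩ := hppd r hr hrd (fun i hi hin => hrp i hi hin)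
    exact hr1 ▸ hr
  have heven : Even n := by
    have := hprime.eq_two_or_odd'.resolve_left (by omega)
    rw [Nat.odd_add_one, Nat.not_odd_iff_even] at this
    exact this
  have hn4 : 4 ≤ n := by
    rcases heven with ⟨j, rfl⟩; omega
  obtain ⟨P, hPmem, hPmax⟩ := Finset.exists_max_image n.primeFactors id
    (Nat.nonempty_primeFactors.2 (by omega))
  have hPp : P.Prime := Nat.prime_of_mem_primeFactors hPmem
  have hPn : P ∣ n := Nat.dvd_of_mem_primeFactors hPmem
  -- the cyclotomic value is small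
  have hcases : ∀ p : ℕ, p.Prime → p ∣ cyc n q →
      (p = n + 1 ∨ p = P) ∧ ¬ p ^ 2 ∣ cyc n q := by
    intro p hp hpc
    haveI := Fact.mk hp
    obtain ⟨k, m, e, hpm, hprim⟩ := prime_dvd_cyc (by omega) hpc
    cases k with
    | zero =>
      rw [pow_zero, one_mul] at e
      subst e
      have hd := hpc.trans (cyc_dvd_pow_sub_one n q (by omega) (by omega))
      obtain ⟨hpe, hsq⟩ := hppd p hp hd fun i hi hin h =>
        hprim.pow_ne_one_of_pos_of_lt (by omega) hin ((pow_cast_eq_one (by omega)).2 h)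
      exact ⟨Or.inl hpe, fun h => hsq (h.trans (cyc_dvd_pow_sub_one n q (by omega) (by omega)))⟩
    | succ k =>
      have hm0 : m ≠ 0 := fun h => hpm (h ▸ dvd_zero p)
      have hm : m ∣ p - 1 :=
        hprim.dvd_of_pow_eq_one _ (ZMod.pow_card_sub_one_eq_one (hprim.ne_zero hm0))
      refine ⟨Or.inr ?_, sq_not_dvd_cyc (by omega) hn3 hp e hm hprim.pow_eq_one⟩
      have hpmem : p ∈ n.primeFactors :=
        Nat.mem_primeFactors.2 ⟨hp, e ▸ (dvd_pow_self p (Nat.succ_ne_zero k)).mul_right m, by omega⟩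
      have h5 : p ≤ P := hPmax p hpmem
      rw [e] at hPn
      rcases hPp.dvd_mul.1 hPn with h | h
      · exact ((Nat.prime_dvd_prime_iff_eq hPp hp).1 (hPp.dvd_of_dvd_pow h)).symm
      · have := Nat.le_of_dvd (Nat.sub_pos_of_lt hp.one_lt) (h.trans hm)
        omega
  have hcyc : cyc n q ∣ (n + 1) * P := by
    rw [Nat.dvd_iff_prime_pow_dvd_dvd]
    intro p k hp hpk
    rcases k with _ | _ | k
    · simp
    · rw [show (0 + 1 : ℕ) = 1 from rfl, pow_one] at hpk ⊢
      rcases (hcases p hp hpk).1 with rfl | rfl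
      · exact dvd_mul_right _ _
      · exact dvd_mul_left _ _
    · exact absurd ((pow_dvd_pow p (show 2 ≤ k + 2 by omega)).trans hpk)
        (hcases p hp (dvd_trans (dvd_pow_self p (Nat.succ_ne_zero _)) hpk)).2
  have hup : cyc n q ≤ (n + 1) * P := Nat.le_of_dvd (Nat.mul_pos (by omega) hPp.pos) hcyc
  have hPF : P ≤ n.totient + 1 := by
    have h := Nat.le_of_dvd (Nat.totient_pos.2 (by omega)) (Nat.totient_dvd_of_dvd hPn)
    rw [Nat.totient_prime hPp] at h
    omega
  have hnF : n ≤ P * n.totient := le_mul_totient (by omega) (fun r hr => hPmax r hr) hPp.one_le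
  have hpoly : (n + 1) * P ≤ ((n.totient + 1) * n.totient + 1) * (n.totient + 1) :=
    Nat.mul_le_mul (by nlinarith) hPF
  obtain ⟨j, hj⟩ := Nat.totient_even (show 2 < n by omega)
  have hbound : n.totient ≤ 28 ∧ (3 ≤ q → n.totient ≤ 10 ∧ (q - 1) ^ n.totient < (n + 1) * n) := by
    have hq3 : 3 ≤ q → n.totient ≤ 10 ∧ (q - 1) ^ n.totient < (n + 1) * n := by
      intro h3q
      have hlb := lower_bound (n := n) (a := q) (by omega) (by omega)
      refine ⟨?_, lt_of_lt_of_le hlb (hup.trans (Nat.mul_le_mul_left _ (Nat.le_of_dvd (by omega) hPn)))⟩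
      by_contra h
      have := poly_le_two_pow (F := n.totient) (by omega)
      have : 2 ^ n.totient ≤ (q - 1) ^ n.totient := Nat.pow_le_pow_left (by omega) _
      omega
    refine ⟨?_, hq3⟩
    rcases Nat.lt_or_ge q 3 with hq' | hq'
    · have hqe : q = 2 := by omega
      subst hqe
      by_contra h
      have hj15 : 15 ≤ j := by omega
      have h5 := two_pow_half_totient_le hn4 heven
      rw [show n.totient / 2 = j by omega] at h5
      have h6 := poly_le_two_pow_half hj15
      rw [show 2 * j = n.totient by omega] at h6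
      omega
    · have := (hq3 hq').1; omega
  have hlist := small_list n (by nlinarith [hbound.1]) hn3
    (fun d _ hd2 hdn hdd => by
      rcases (Nat.dvd_prime hprime).1 hdd with h | h <;> omega) hbound.1
  rcases Nat.lt_or_ge q 3 with hq' | hq'
  · have hqe : q = 2 := by omega
    subst hqe
    simp only [List.mem_cons, List.not_mem_nil, or_false] at hlist
    rcases hlist with e|e|e|e|e|e|e|e|e|e|e|e|e|e|e|e|e|e|e|e <;> subst e
    all_goals first
      | exact h2 ⟨rfl, by omega⟩
      | skip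
    · exact hno (cert 257 (by norm_num) (by decide +kernel) (by decide +kernel) (by omega))
    · exact hno (cert 683 (by norm_num) (by decide +kernel) (by decide +kernel) (by omega))
    · exact hno (cert 113 (by norm_num) (by decide +kernel) (by decide +kernel) (by omega))
    · exact hno (cert 331 (by norm_num) (by decide +kernel) (by decide +kernel) (by omega))
    · exact hno (cert 109 (by norm_num) (by decide +kernel) (by decide +kernel) (by omega))
    · exact hno (cert 61681 (by norm_num) (by decide +kernel) (by decide +kernel) (by omega))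
    · exact hno (cert 5419 (by norm_num) (by decide +kernel) (by decide +kernel) (by omega))
    · exact hno (cert 2796203 (by norm_num) (by decide +kernel) (by decide +kernel) (by omega))
    · exact hno (cert 157 (by norm_num) (by decide +kernel) (by decide +kernel) (by omega))
    · exact hno (cert 3033169 (by norm_num) (by decide +kernel) (by decide +kernel) (by omega))
    · exact hno (cert 1321 (by norm_num) (by decide +kernel) (by decide +kernel) (by omega))
    · exact hno (cert 20857 (by norm_num) (by decide +kernel) (by decide +kernel) (by omega))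
    · exact hno (cert 281 (by norm_num) (by decide +kernel) (by decide +kernel) (by omega))
    · exact hno (cert 433 (by norm_num) (by decide +kernel) (by decide +kernel) (by omega))
    · exact hno (cert 22366891 (by norm_num) (by decide +kernel) (by decide +kernel) (by omega))
  · obtain ⟨hF, hlt⟩ := hbound.2 hq'
    simp only [List.mem_cons, List.not_mem_nil, or_false] at hlist
    have hq8 : q ≤ 8 := by
      by_contra h
      have h8 : 8 ^ n.totient ≤ (q - 1) ^ n.totient := Nat.pow_le_pow_left (by omega) _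
      have key : ∀ m ∈ [4, 6, 10, 12, 16, 18, 22, 28, 30, 36, 40, 42, 46, 52, 58, 60, 66, 70, 72, 78],
          Nat.totient m ≤ 10 → (m + 1) * m ≤ 8 ^ Nat.totient m := by decide +kernel
      have := key n (by simpa using hlist) hF
      omega
    interval_cases q <;> rcases hlist with e|e|e|e|e|e|e|e|e|e|e|e|e|e|e|e|e|e|e|e <;> subst e
    all_goals first
      | exact h3 ⟨rfl, by omega⟩
      | exact h4 ⟨rfl, rfl⟩
      | (revert hF; decide +kernel)
      | (revert hlt; decide +kernel)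
      | skip
    all_goals first
      | exact hno (cert 17 (by norm_num) (by decide +kernel) (by decide +kernel) (by omega))
      | exact hno (cert 13 (by norm_num) (by decide +kernel) (by decide +kernel) (by omega))
      | exact hno (cert 31 (by norm_num) (by decide +kernel) (by decide +kernel) (by omega))
      | exact hno (cert 43 (by norm_num) (by decide +kernel) (by decide +kernel) (by omega))
      | exact hno (cert 61 (by norm_num) (by decide +kernel) (by decide +kernel) (by omega))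
      | exact hno (cert 41 (by norm_num) (by decide +kernel) (by decide +kernel) (by omega))
      | exact hno (cert 73 (by norm_num) (by decide +kernel) (by decide +kernel) (by omega))
      | exact hno (cert 241 (by norm_num) (by decide +kernel) (by decide +kernel) (by omega))
      | exact hno (cert 193 (by norm_num) (by decide +kernel) (by decide +kernel) (by omega))
      | exact hno (cert 37 (by norm_num) (by decide +kernel) (by decide +kernel) (by omega))
      | exact hno (cert 271 (by norm_num) (by decide +kernel) (by decide +kernel) (by omega))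

end Cfsg.Agent.S3430
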