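import Cfsg.Statements.S3704
import Mathlib.GroupTheory.GroupAction.MultipleTransitivity
import Mathlib.LinearAlgebra.FiniteDimensional.Basic
import Mathlib.Data.Real.Basic
import Mathlib.Tactic

set_option autoImplicit false
open Cfsg

namespace Cfsg.Agent.S3704

open MulAction Finset

variable {G Ω : Type*} [Group G] [Finite G] [MulAction G Ω] [Fintype Ω] (H : Subgroup G) [Fintype (G ⧸ H)]

/-- the `G`-equivariant matrix of an `H`-invariant function -/
noncomputable def Mat (f : Ω → ℝ) (x : Ω) (q : G ⧸ H) : ℝ := f (q.out⁻¹ • x)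

variable {H}

lemma mat_smul {f : Ω → ℝ} (hf : ∀ h ∈ H, ∀ x : Ω, f (h • x) = f x) (g : G) (x : Ω) (q : G ⧸ H) :
    Mat H f (g • x) (g • q) = Mat H f x q := by
  have h1 : (((g • q).out : G) : G ⧸ H) = ((g * q.out : G) : G ⧸ H) := by
    rw [QuotientGroup.out_eq']
    conv_lhs => rw [← QuotientGroup.out_eq' q]
    rfl
  rw [QuotientGroup.eq] at h1
  show f ((g • q).out⁻¹ • g • x) = f (q.out⁻¹ • x)
  rw [show (g • q).out⁻¹ • g • x = ((g • q).out⁻¹ * (g * q.out)) • q.out⁻¹ • x by
    simp only [← mul_smul]; congr 1; group]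
  exact hf _ h1 _

lemma col_sum {f : Ω → ℝ} (hf0 : ∑ x, f x = 0) (q : G ⧸ H) : ∑ x, Mat H f x q = 0 := by
  rw [← hf0]; exact Equiv.sum_comp (MulAction.toPerm q.out⁻¹) f

lemma row_sum [IsPretransitive G Ω] [Nonempty Ω] {f : Ω → ℝ} (hf : ∀ h ∈ H, ∀ x : Ω, f (h • x) = f x)
    (hf0 : ∑ x, f x = 0) (x : Ω) : ∑ q : G ⧸ H, Mat H f x q = 0 := by
  have hconst : ∀ y, ∑ q : G ⧸ H, Mat H f y q = ∑ q : G ⧸ H, Mat H f x q := by
    intro y
    obtain ⟨g, rfl⟩ := exists_smul_eq G x y
    rw [← Equiv.sum_comp (MulAction.toPerm g)]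
    exact Finset.sum_congr rfl fun q _ => mat_smul hf g x q
  have h : ∑ y, ∑ q : G ⧸ H, Mat H f y q = 0 := by
    rw [Finset.sum_comm]; exact Finset.sum_eq_zero fun q _ => col_sum hf0 q
  rw [Finset.sum_congr rfl fun y _ => hconst y, Finset.sum_const, nsmul_eq_mul] at h
  exact (mul_eq_zero.1 h).resolve_left (by simp)

/-- the inner product of two rows -/
noncomputable def B (f f' : Ω → ℝ) (x y : Ω) : ℝ := ∑ q : G ⧸ H, Mat H f x q * Mat H f' y q

lemma B_smul {f f' : Ω → ℝ} (hf : ∀ h ∈ H, ∀ x : Ω, f (h • x) = f x) (hf' : ∀ h ∈ H, ∀ x : Ω, f' (h • x) = f' x)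
    (g : G) (x y : Ω) : B (H := H) f f' (g • x) (g • y) = B (H := H) f f' x y := by
  unfold B
  rw [← Equiv.sum_comp (MulAction.toPerm g)]
  exact Finset.sum_congr rfl fun q _ => by
    show Mat H f (g • x) (g • q) * Mat H f' (g • y) (g • q) = _
    rw [mat_smul hf, mat_smul hf']

lemma B_eq [IsPretransitive G Ω] [Nonempty Ω] [DecidableEq Ω] (h2 : IsMultiplyPretransitive G Ω 2) (a b : Ω) (hab : a ≠ b)
    {f f' : Ω → ℝ} (hf : ∀ h ∈ H, ∀ x : Ω, f (h • x) = f x) (hf' : ∀ h ∈ H, ∀ x : Ω, f' (h • x) = f' x)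
    (hf0 : ∑ x, f x = 0) (x y : Ω) :
    B (H := H) f f' x y = (if x = y then B (H := H) f f' a a - B (H := H) f f' a b else 0) + B (H := H) f f' a b ∧
    (B (H := H) f f' a a - B (H := H) f f' a b) + (Fintype.card Ω : ℝ) * B (H := H) f f' a b = 0 := by
  have key : ∀ x y, B (H := H) f f' x y = (if x = y then B (H := H) f f' a a - B (H := H) f f' a b else 0) + B (H := H) f f' a b := by
    intro x y
    by_cases h : x = y
    · subst h
      obtain ⟨g, rfl⟩ := exists_smul_eq G a x
      rw [if_pos rfl, sub_add_cancel, B_smul hf hf']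
    · obtain ⟨g, hg1, hg2⟩ := (is_two_pretransitive_iff.1 h2) hab h
      rw [if_neg h, zero_add, ← hg1, ← hg2, B_smul hf hf']
  refine ⟨key x y, ?_⟩
  have h : ∑ x, B (H := H) f f' x a = 0 := by
    unfold B; rw [Finset.sum_comm]
    exact Finset.sum_eq_zero fun q _ => by rw [← Finset.sum_mul, col_sum hf0, zero_mul]
  rw [Finset.sum_congr rfl fun x _ => key x a, Finset.sum_add_distrib, Finset.sum_ite_eq', if_pos (Finset.mem_univ _),
    Finset.sum_const, nsmul_eq_mul] at h
  exact h

lemma dependent (h2 : IsMultiplyPretransitive G Ω 2) (hidx : Fintype.card (G ⧸ H) = Fintype.card Ω)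
    (hn : 1 < Fintype.card Ω)
    {f f' : Ω → ℝ} (hf : ∀ h ∈ H, ∀ x : Ω, f (h • x) = f x) (hf' : ∀ h ∈ H, ∀ x : Ω, f' (h • x) = f' x)
    (hf0 : ∑ x, f x = 0) (hf0' : ∑ x, f' x = 0) (hne : f ≠ 0) : ∃ l : ℝ, f' = l • f := by
  classical
  haveI : IsPretransitive G Ω := isPretransitive_of_is_two_pretransitive
  obtain ⟨a, b, hab⟩ := Fintype.exists_pair_of_one_lt_card hn
  haveI : Nonempty Ω := ⟨a⟩
  set c := B (H := H) f f a a - B (H := H) f f a b with hc
  have hpos : 0 < c := by
    have hB := B_eq h2 a b hab hf hf hf0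
    have hbb : 0 < B (H := H) f f a a := by
      obtain ⟨x, hx⟩ : ∃ x, f x ≠ 0 := Function.ne_iff.1 hne
      set q1 : G ⧸ H := ((1 : G) : G ⧸ H) with hq1
      have h1 : q1.out ∈ H := by
        have := (QuotientGroup.eq (s := H) (a := q1.out) (b := 1)).1 (QuotientGroup.out_eq' q1)
        simpa using this
      have hxx : B (H := H) f f a a = B (H := H) f f x x := by
        obtain ⟨g, rfl⟩ := exists_smul_eq G a x
        rw [B_smul hf hf]
      rw [hxx]
      refine Finset.sum_pos' (fun q _ => mul_self_nonneg _) ⟨q1, Finset.mem_univ _, mul_self_pos.2 ?_⟩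
      show f (q1.out⁻¹ • x) ≠ 0
      rw [hf _ (H.inv_mem h1)]; exact hx
    have h0 := (hB a a).2
    rw [← hc] at h0
    by_contra hle
    rw [not_lt] at hle
    have hn' : (1 : ℝ) ≤ Fintype.card Ω := by exact_mod_cast hn.le
    rcases le_or_gt (B (H := H) f f a b) 0 with h | h
    · linarith [hc]
    · nlinarith [hc]
  refine ⟨(B (H := H) f' f a a - B (H := H) f' f a b) / c, ?_⟩
  set l := (B (H := H) f' f a a - B (H := H) f' f a b) / c with hl
  set d : Ω → ℝ := f' - l • f with hd
  suffices d = 0 by rwa [hd, sub_eq_zero] at this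
  have hdinv : ∀ h ∈ H, ∀ x : Ω, d (h • x) = d x := fun h hh x => by
    simp [hd, hf h hh x, hf' h hh x]
  have hd0 : ∑ x, d x = 0 := by
    simp [hd, Finset.sum_sub_distrib, ← Finset.mul_sum, hf0, hf0']
  have hBd : ∀ x y, B (H := H) d f x y = 0 := by
    intro x y
    have e : ∀ u v, B (H := H) d f u v = B (H := H) f' f u v - l * B (H := H) f f u v := fun u v => by
      simp only [B, Mat, hd, Pi.sub_apply, Pi.smul_apply, smul_eq_mul]
      rw [Finset.mul_sum, ← Finset.sum_sub_distrib]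
      exact Finset.sum_congr rfl fun q _ => by ring
    have h := B_eq h2 a b hab hdinv hf hd0 x y
    have e0 : B (H := H) d f a a - B (H := H) d f a b = 0 := by
      rw [e, e]
      have : l * c = B (H := H) f' f a a - B (H := H) f' f a b := div_mul_cancel₀ _ hpos.ne'
      rw [hc] at this
      linarith
    have hb0 : B (H := H) d f a b = 0 := by
      have := h.2; rw [e0, zero_add] at this
      exact (mul_eq_zero.1 this).resolve_left (by exact_mod_cast (by omega : Fintype.card Ω ≠ 0))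
    rw [h.1, e0, hb0]; simp
  -- the rows of `f` span the zero-sum vectors
  let s : (Ω → ℝ) →ₗ[ℝ] ℝ :=
    { toFun := fun v => ∑ x, v x
      map_add' := fun u v => by simp [Finset.sum_add_distrib]
      map_smul' := fun t v => by simp [Finset.mul_sum] }
  let eX : Ω ≃ G ⧸ H := Fintype.equivOfCardEq hidx.symm
  let T : (Ω → ℝ) →ₗ[ℝ] (Ω → ℝ) :=
    { toFun := fun v y => ∑ x, v x * Mat H f x (eX y)
      map_add' := fun u v => by funext y; simp [add_mul, Finset.sum_add_distrib]
      map_smul' := fun t v => by funext y; simp [Finset.mul_sum, mul_assoc] }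
  have hT : ∀ v : LinearMap.ker s, T v ∈ LinearMap.ker s := fun v => by
    show ∑ y, ∑ x, (v : Ω → ℝ) x * Mat H f x (eX y) = 0
    rw [Finset.sum_comm]
    exact Finset.sum_eq_zero fun x _ => by
      rw [← Finset.mul_sum, Equiv.sum_comp eX (fun q => Mat H f x q), row_sum hf hf0, mul_zero]
  let L : LinearMap.ker s →ₗ[ℝ] LinearMap.ker s := (T.comp (LinearMap.ker s).subtype).codRestrict _ hT
  have hinj : Function.Injective L := by
    rw [← LinearMap.ker_eq_bot, LinearMap.ker_eq_bot']
    intro v hv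
    have h0 : ∀ q : G ⧸ H, ∑ x, (v : Ω → ℝ) x * Mat H f x q = 0 := fun q => by
      have := congrFun (congrArg Subtype.val hv) (eX.symm q)
      show ∑ x, (v : Ω → ℝ) x * Mat H f x q = 0
      rw [← eX.apply_symm_apply q]; exact this
    apply Subtype.ext; funext x
    have h1 : ∑ z, (v : Ω → ℝ) z * B (H := H) f f z x = 0 := by
      simp only [B, Finset.mul_sum]
      rw [Finset.sum_comm]
      exact Finset.sum_eq_zero fun q _ => by
        rw [Finset.sum_congr rfl fun z _ => (mul_assoc _ _ _).symm, ← Finset.sum_mul, h0, zero_mul]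
    rw [Finset.sum_congr rfl fun z _ => by rw [(B_eq h2 a b hab hf hf hf0 z x).1, mul_add, mul_ite, mul_zero],
      Finset.sum_add_distrib, Finset.sum_ite_eq', if_pos (Finset.mem_univ _), ← Finset.sum_mul,
      show ∑ z, (v : Ω → ℝ) z = 0 from v.2, zero_mul, add_zero, ← hc] at h1
    exact (mul_eq_zero.1 h1).resolve_right hpos.ne'
  have hsurj : Function.Surjective L := LinearMap.injective_iff_surjective.1 hinj
  have hrow : ∀ (x : Ω) (q : G ⧸ H), Mat H d x q = 0 := by
    intro x
    have hw : (fun y => Mat H d x (eX y)) ∈ LinearMap.ker s := by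
      show ∑ y, Mat H d x (eX y) = 0
      rw [Equiv.sum_comp eX (fun q => Mat H d x q)]; exact row_sum hdinv hd0 x
    obtain ⟨v, hv⟩ := hsurj ⟨_, hw⟩
    have hz : ∑ y, Mat H d x (eX y) * Mat H d x (eX y) = 0 := by
      have e : ∀ y, Mat H d x (eX y) = ∑ z, (v : Ω → ℝ) z * Mat H f z (eX y) := fun y =>
        (congrFun (congrArg Subtype.val hv) y).symm
      calc ∑ y, Mat H d x (eX y) * Mat H d x (eX y)
          = ∑ y, Mat H d x (eX y) * ∑ z, (v : Ω → ℝ) z * Mat H f z (eX y) := by simp_rw [← e]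
        _ = ∑ z, (v : Ω → ℝ) z * B (H := H) d f x z := by
          simp only [B, Finset.mul_sum]
          rw [Finset.sum_comm]
          refine Finset.sum_congr rfl fun z _ => ?_
          rw [← Equiv.sum_comp eX]
          exact Finset.sum_congr rfl fun y _ => by ring
        _ = 0 := by simp [hBd]
    intro q
    have := (Finset.sum_eq_zero_iff_of_nonneg (fun y _ => mul_self_nonneg _)).1 hz (eX.symm q) (Finset.mem_univ _)
    simpa using this
  funext x
  set q1 : G ⧸ H := ((1 : G) : G ⧸ H) with hq1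
  have h1 : q1.out ∈ H := by
    have := (QuotientGroup.eq (s := H) (a := q1.out) (b := 1)).1 (QuotientGroup.out_eq' q1)
    simpa using this
  have := hrow x q1
  unfold Mat at this
  rwa [hdinv _ (H.inv_mem h1)] at this


/-- Let G be a finite group acting faithfully and 2-transitively on a finite set Ω of size n, and let H be a subgroup of index n in G which is not transitive on Ω and fixes no point of Ω. Then H has exactly two orbits on Ω. -/
theorem result {G Ω : Type*} [Group G] [Finite G] [MulAction G Ω] [FaithfulSMul G Ω] [Finite Ω] (h2 : MulAction.IsMultiplyPretransitive G Ω 2) (H : Subgroup G) (hidx : H.index = Nat.card Ω) (hnt : ¬ MulAction.IsPretransitive H Ω) (hfix : ∀ a : Ω, ∃ h : H, h • a ≠ a) : Nat.card (MulAction.orbitRel.Quotient H Ω) = 2 := by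
  classical
  haveI := Fintype.ofFinite Ω
  haveI := Fintype.ofFinite (G ⧸ H)
  set Q := orbitRel.Quotient H Ω
  haveI : Fintype Q := Fintype.ofFinite Q
  have hne : Nonempty Ω := by
    by_contra h
    rw [not_nonempty_iff] at h
    exact hnt ⟨fun x => isEmptyElim x⟩
  rw [Nat.card_eq_fintype_card]
  have hr2 : 2 ≤ Fintype.card Q := by
    by_contra h
    haveI : Subsingleton Q := Fintype.card_le_one_iff_subsingleton.1 (by omega)
    exact hnt ((pretransitive_iff_subsingleton_quotient H Ω).2 inferInstance)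
  refine le_antisymm ?_ hr2
  by_contra h3
  obtain ⟨q1, q2, q3, h12, h13, h23⟩ := Fintype.two_lt_card_iff.1 (not_le.1 h3)
  let π : Ω → Q := Quotient.mk''
  have hπ : Function.Surjective π := Quotient.mk''_surjective
  let m : Q → ℝ := fun q => ((univ.filter (fun x => π x = q)).card : ℝ)
  have hm : ∀ q, 0 < m q := fun q => by
    obtain ⟨x, hx⟩ := hπ q
    exact Nat.cast_pos.2 (Finset.card_pos.2 ⟨x, by simp [hx]⟩)
  have hπinv : ∀ h ∈ H, ∀ x : Ω, π (h • x) = π x := fun h hh x =>
    Quotient.sound' ⟨⟨h, hh⟩, rfl⟩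
  let F : Q → Ω → ℝ := fun q x => m q * (if π x = q1 then 1 else 0) - m q1 * (if π x = q then 1 else 0)
  have hinv : ∀ q, ∀ h ∈ H, ∀ x : Ω, F q (h • x) = F q x := fun q h hh x => by simp only [F, hπinv h hh x]
  have hsum : ∀ q, ∑ x, F q x = 0 := fun q => by
    have e : ∀ q' : Q, ∑ x, (if π x = q' then (1 : ℝ) else 0) = m q' := fun q' => by
      rw [← Finset.sum_filter, Finset.sum_const, nsmul_eq_mul, mul_one]
    simp only [F]
    rw [Finset.sum_sub_distrib, ← Finset.mul_sum, ← Finset.mul_sum, e, e]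
    ring
  obtain ⟨x1, hx1⟩ := hπ q1
  obtain ⟨x3, hx3⟩ := hπ q3
  have hF2 : F q2 ≠ 0 := fun h => (hm q2).ne' (by
    have := congrFun h x1
    simpa [F, hx1, h12] using this)
  have hn : 1 < Fintype.card Ω := Fintype.one_lt_card_iff.2 ⟨x1, x3, fun h => h13 (by rw [← hx1, ← hx3, h])⟩
  obtain ⟨l, hl⟩ := dependent h2 (by rw [← Nat.card_eq_fintype_card, ← Subgroup.index_eq_card, hidx, Nat.card_eq_fintype_card]) hn
    (hinv q2) (hinv q3) (hsum q2) (hsum q3) hF2
  have := congrFun hl x3
  simp [F, hx3, h13.symm, h23.symm] at this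
  exact (hm q1).ne' this

end Cfsg.Agent.S3704
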