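import Cfsg.Statements.S3707
import Mathlib

set_option autoImplicit false
set_option maxHeartbeats 800000
open scoped Pointwise
open Cfsg

namespace Cfsg.Agent.S3707

section jordan

variable {G Ω : Type*} [Group G] [MulAction G Ω]

/-- The pointwise stabiliser of the complement of `T` is transitive on `T`. -/
def JSet (G : Type*) [Group G] {Ω : Type*} [MulAction G Ω] (T : Set Ω) : Prop :=
  ∀ x ∈ T, ∀ y ∈ T, ∃ g : G, (∀ z ∉ T, g • z = z) ∧ g • x = y

theorem JSet.smul {T : Set Ω} (hT : JSet G T) (g : G) : JSet G (g • T) := by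
  rintro _ ⟨x, hx, rfl⟩ _ ⟨y, hy, rfl⟩
  obtain ⟨h, hfix, hh⟩ := hT x hx y hy
  refine ⟨g * h * g⁻¹, fun z hz => ?_, ?_⟩
  · rw [mul_smul, mul_smul, hfix _ (fun hz' => hz (Set.mem_smul_set_iff_inv_smul_mem.mpr hz')), smul_inv_smul]
  · rw [mul_smul, mul_smul, inv_smul_smul, hh]

theorem JSet.union {T U : Set Ω} (hT : JSet G T) (hU : JSet G U) {w : Ω} (hwT : w ∈ T) (hwU : w ∈ U) :
    JSet G (T ∪ U) := by
  have h1 : ∀ x ∈ T ∪ U, ∃ g : G, (∀ z ∉ T ∪ U, g • z = z) ∧ g • x = w := by
    rintro x (hx | hx)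
    · obtain ⟨g, h, e⟩ := hT x hx w hwT
      exact ⟨g, fun z hz => h z fun h' => hz (Or.inl h'), e⟩
    · obtain ⟨g, h, e⟩ := hU x hx w hwU
      exact ⟨g, fun z hz => h z fun h' => hz (Or.inr h'), e⟩
  intro x hx y hy
  obtain ⟨g, hg, hgx⟩ := h1 x hx
  obtain ⟨k, hk, hky⟩ := h1 y hy
  refine ⟨k⁻¹ * g, fun z hz => ?_, ?_⟩
  · rw [mul_smul, hg z hz, inv_smul_eq_iff, hk z hz]
  · rw [mul_smul, hgx, inv_smul_eq_iff, hky]

theorem JSet.isPretransitive_compl {T : Set Ω} (hT : JSet G T) :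
    MulAction.IsPretransitive (fixingSubgroup G Tᶜ) (SubMulAction.ofFixingSubgroup G Tᶜ) := by
  constructor
  rintro ⟨x, hx⟩ ⟨y, hy⟩
  rw [SubMulAction.mem_ofFixingSubgroup_iff, Set.notMem_compl_iff] at hx hy
  obtain ⟨g, hg, hgx⟩ := hT x hx y hy
  exact ⟨⟨g, (mem_fixingSubgroup_iff G).mpr fun z hz => hg z hz⟩, Subtype.ext hgx⟩

end jordan


/-- Let G be a finite primitive permutation group on Ω of degree n and Γ ⊂ Ω a subset with 1 < #Γ ≤ n/2 such that the pointwise stabilizer of Ω ∖ Γ is transitive on Γ. Then G is 3-transitive on Ω. -/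
theorem result {G Ω : Type*} [Group G] [Finite G] [MulAction G Ω] [FaithfulSMul G Ω] [Finite Ω] (hprim : MulAction.IsPreprimitive G Ω) (Γ : Set Ω) (h1 : 1 < Γ.ncard) (h2 : 2 * Γ.ncard ≤ Nat.card Ω) (htr : ∀ x ∈ Γ, ∀ y ∈ Γ, ∃ g : G, (∀ z ∉ Γ, g • z = z) ∧ g • x = y) : MulAction.IsMultiplyPretransitive G Ω 3 := by
  classical
  haveI := hprim
  haveI := Fintype.ofFinite Ω
  haveI : Fintype (Set Ω) := Fintype.ofFinite _
  obtain ⟨n, hn⟩ : ∃ n, n = Nat.card Ω := ⟨_, rfl⟩
  rw [← hn] at h2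
  -- a largest Jordan set of at most half the size
  obtain ⟨D, hD, hDmax⟩ := Finset.exists_max_image
    (Finset.univ.filter fun T : Set Ω => JSet G T ∧ 1 < T.ncard ∧ 2 * T.ncard ≤ n) Set.ncard
    ⟨Γ, Finset.mem_filter.mpr ⟨Finset.mem_univ _, htr, h1, h2⟩⟩
  obtain ⟨-, hJ, hk1, hk2⟩ := Finset.mem_filter.mp hD
  have hmax : ∀ T : Set Ω, JSet G T → 1 < T.ncard → 2 * T.ncard ≤ n → T.ncard ≤ D.ncard := fun T a b c =>
    hDmax T (Finset.mem_filter.mpr ⟨Finset.mem_univ _, a, b, c⟩)
  have hcompl : D.ncard + Dᶜ.ncard = n := hn ▸ Set.ncard_add_ncard_compl D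
  -- double transitivity
  haveI h2t : MulAction.IsMultiplyPretransitive G Ω 2 := by
    refine MulAction.IsPreprimitive.is_two_pretransitive (s := Dᶜ) (n := Dᶜ.ncard - 1) hprim ?_ ?_ hJ.isPretransitive_compl
    · omega
    · omega
  have h2pair : ∀ x y u v : Ω, x ≠ y → u ≠ v → ∃ g : G, g • x = u ∧ g • y = v := fun x y u v h h' =>
    MulAction.is_two_pretransitive_iff.mp h2t h h'
  -- the translates
  obtain ⟨T₀, hT₀⟩ : ∃ T₀ : Finset (Set Ω), T₀ = Finset.univ.filter fun T => ∃ g : G, T = g • D := ⟨_, rfl⟩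
  have hmemT : ∀ T, T ∈ T₀ ↔ ∃ g : G, T = g • D := fun T => by rw [hT₀]; simp
  have hTcard : ∀ T ∈ T₀, T.ncard = D.ncard := by
    intro T hT
    obtain ⟨g, rfl⟩ := (hmemT T).mp hT
    rw [Set.ncard_smul_set]
  have hTJ : ∀ T ∈ T₀, JSet G T := by
    intro T hT
    obtain ⟨g, rfl⟩ := (hmemT T).mp hT
    exact hJ.smul g
  let μ : Ω → Ω → ℕ := fun x y => (T₀.filter fun T => x ∈ T ∧ y ∉ T).card
  let c : Ω → ℕ := fun x => (T₀.filter fun T => x ∈ T).card
  have hμ : ∀ x y u v : Ω, x ≠ y → u ≠ v → μ x y = μ u v := by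
    intro x y u v hxy huv
    obtain ⟨g, hgx, hgy⟩ := h2pair x y u v hxy huv
    refine Finset.card_nbij' (fun T => g • T) (fun T => g⁻¹ • T) ?_ ?_ ?_ ?_
    · intro T hT
      simp only [Finset.mem_coe, Finset.mem_filter, hmemT] at hT ⊢
      obtain ⟨⟨k, rfl⟩, hx, hy⟩ := hT
      refine ⟨⟨g * k, (mul_smul _ _ _).symm⟩, ?_, ?_⟩
      · rw [← hgx]; exact Set.smul_mem_smul_set hx
      · rw [← hgy, Set.smul_mem_smul_set_iff]; exact hy
    · intro T hT
      simp only [Finset.mem_coe, Finset.mem_filter, hmemT] at hT ⊢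
      obtain ⟨⟨k, rfl⟩, hu, hv⟩ := hT
      refine ⟨⟨g⁻¹ * k, (mul_smul _ _ _).symm⟩, ?_, ?_⟩
      · rw [Set.mem_inv_smul_set_iff, hgx]; exact hu
      · rw [Set.mem_inv_smul_set_iff, hgy]; exact hv
    · intro T _; exact inv_smul_smul g T
    · intro T _; exact smul_inv_smul g T
  -- a point lies in some translate
  have hc0 : ∀ x, 0 < c x := by
    intro x
    obtain ⟨d, hd⟩ : D.Nonempty := Set.nonempty_of_ncard_ne_zero (by omega)
    obtain ⟨g, rfl⟩ := MulAction.exists_smul_eq G d x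
    exact Finset.card_pos.mpr ⟨g • D, Finset.mem_filter.mpr ⟨(hmemT _).mpr ⟨g, rfl⟩, Set.smul_mem_smul_set hd⟩⟩
  -- double counting
  have hcount : ∀ x y : Ω, x ≠ y → (n - 1) * μ x y = c x * (n - D.ncard) := by
    intro x y hxy
    have h1 : ∑ z : Ω, μ x z = c x * (n - D.ncard) := by
      have h0 := Finset.sum_card_bipartiteAbove_eq_sum_card_bipartiteBelow
        (fun (z : Ω) (T : Set Ω) => z ∉ T) (s := (Finset.univ : Finset Ω)) (t := T₀.filter fun T => x ∈ T)
      simp only [Finset.bipartiteAbove, Finset.bipartiteBelow] at h0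
      simp only [μ]
      rw [show (∑ z : Ω, (T₀.filter fun T => x ∈ T ∧ z ∉ T).card) =
        ∑ z : Ω, ((T₀.filter fun T => x ∈ T).filter fun T => z ∉ T).card from
        Finset.sum_congr rfl fun z _ => by rw [Finset.filter_filter], h0]
      rw [Finset.sum_congr rfl (g := fun _ => n - D.ncard) ?_, Finset.sum_const, smul_eq_mul]
      intro T hT
      have h3 : (Finset.univ.filter fun z : Ω => z ∉ T).card = Tᶜ.ncard := by
        rw [Set.ncard_eq_toFinset_card', ]
        congr 1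
        ext z; simp
      rw [h3]
      have := Set.ncard_add_ncard_compl T
      rw [hTcard T (Finset.mem_filter.mp hT).1] at this
      omega
    have h2 : ∑ z : Ω, μ x z = (n - 1) * μ x y := by
      rw [← Finset.sum_erase Finset.univ (show μ x x = 0 from Finset.card_eq_zero.mpr
        (Finset.filter_eq_empty_iff.mpr fun T _ h => h.2 h.1)),
        Finset.sum_congr rfl (g := fun _ => μ x y) fun z hz => hμ x z x y (Finset.ne_of_mem_erase hz).symm hxy,
        Finset.sum_const, smul_eq_mul, Finset.card_erase_of_mem (Finset.mem_univ x), Finset.card_univ,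
        ← Nat.card_eq_fintype_card, ← hn]
    rw [← h2, h1]
  -- the stabiliser of a point is primitive
  obtain ⟨a, ha⟩ : Dᶜ.Nonempty := Set.nonempty_of_ncard_ne_zero (by omega)
  haveI htr1 : MulAction.IsPretransitive (MulAction.stabilizer G a) (SubMulAction.ofStabilizer G a) := by
    constructor
    rintro ⟨x, hx⟩ ⟨y, hy⟩
    obtain ⟨g, hga, hgx⟩ := h2pair a x a y (Ne.symm hx) (Ne.symm hy)
    exact ⟨⟨g, hga⟩, Subtype.ext hgx⟩
  haveI hprima : MulAction.IsPreprimitive (MulAction.stabilizer G a) (SubMulAction.ofStabilizer G a) := by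
    constructor
    intro B hB
    by_contra hnt
    rw [MulAction.IsTrivialBlock, not_or, Set.not_subsingleton_iff] at hnt
    obtain ⟨⟨x, hx, y, hy, hxy⟩, hBne⟩ := hnt
    have hB2 : 2 * B.ncard + 1 ≤ n := by
      by_contra hlt
      refine hBne (hB.eq_univ_of_card_lt ?_)
      rw [SubMulAction.nat_card_ofStabilizer_eq G a, ← hn]
      omega
    obtain ⟨B', hB'⟩ : ∃ B' : Set Ω, B' = Subtype.val '' B := ⟨_, rfl⟩
    have hB'card : B'.ncard = B.ncard := hB' ▸ Set.ncard_image_of_injective B Subtype.val_injective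
    -- a translate avoiding `a` is inside the block or contains it
    have hdich : ∀ T ∈ T₀, a ∉ T → ∀ u ∈ B', u ∈ T → T ⊆ B' ∨ B' ⊆ T := by
      intro T hT haT u huB huT
      by_contra hcon
      rw [not_or, Set.not_subset, Set.not_subset] at hcon
      obtain ⟨⟨v, hvT, hvB⟩, z, hzB, hzT⟩ := hcon
      obtain ⟨h, hfix, hhu⟩ := hTJ T hT u huT v hvT
      rw [hB'] at huB hzB
      obtain ⟨u', hu', rfl⟩ := huB
      obtain ⟨z', hz', rfl⟩ := hzB
      have hha : h • a = a := hfix a haT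
      have heq : (⟨h, hha⟩ : MulAction.stabilizer G a) • B = B := by
        refine MulAction.IsBlock.smul_eq_of_nonempty hB ⟨z', ?_, hz'⟩
        refine ⟨z', hz', Subtype.ext (hfix _ hzT)⟩
      have hmem : (⟨h, hha⟩ : MulAction.stabilizer G a) • u' ∈ B := heq ▸ Set.smul_mem_smul_set hu'
      exact hvB (hB' ▸ ⟨_, hmem, hhu⟩)
    have hxB : (x : Ω) ∈ B' := hB' ▸ ⟨x, hx, rfl⟩
    have hyB : (y : Ω) ∈ B' := hB' ▸ ⟨y, hy, rfl⟩
    have hxy' : (x : Ω) ≠ y := fun e => hxy (Subtype.ext e)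
    have hxa : (x : Ω) ≠ a := x.2
    by_cases hA : ∃ T ∈ T₀, a ∉ T ∧ (x : Ω) ∈ T ∧ (y : Ω) ∉ T
    · obtain ⟨T, hT, haT, hxT, hyT⟩ := hA
      have hTB : T ⊆ B' := (hdich T hT haT x hxB hxT).resolve_right fun h => hyT (h hyB)
      have hlt : T.ncard < B'.ncard :=
        Set.ncard_lt_ncard ⟨hTB, fun h => hyT (h hyB)⟩
      have huniq : ∀ U ∈ T₀, a ∉ U → (x : Ω) ∈ U → U = T := by
        intro U hU haU hxU
        have hUB : U ⊆ B' := (hdich U hU haU x hxB hxU).resolve_right fun h => by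
          have := Set.ncard_le_ncard h
          rw [hTcard U hU, ← hTcard T hT] at this
          omega
        have hTU := Set.ncard_le_ncard (Set.union_subset hTB hUB)
        have hle := Set.ncard_le_ncard (Set.subset_union_left : T ⊆ T ∪ U)
        have hkD := hTcard T hT
        have hm := hmax (T ∪ U) ((hTJ T hT).union (hTJ U hU) hxT hxU) (by omega) (by omega)
        have e1 : T = T ∪ U := Set.eq_of_subset_of_ncard_le Set.subset_union_left (by omega)
        exact Set.eq_of_subset_of_ncard_le (fun z hz => e1.ge (Or.inr hz)) (by rw [hTcard U hU]; omega)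
      have hμ1 : μ (x : Ω) a = 1 := by
        refine Finset.card_eq_one.mpr ⟨T, ?_⟩
        ext U
        simp only [Finset.mem_filter, Finset.mem_singleton]
        exact ⟨fun ⟨hU, hxU, haU⟩ => huniq U hU haU hxU, fun e => e ▸ ⟨hT, hxT, haT⟩⟩
      -- `T` is the only translate through `x`
      have honly : ∀ U ∈ T₀, (x : Ω) ∈ U → U = T := by
        intro U hU hxU
        by_contra hne
        have hsub : Tᶜ ⊆ U := by
          intro z hz
          by_contra hzU
          have hzx : (x : Ω) ≠ z := fun e => hz (e ▸ hxT)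
          have h1 := hμ x z x a hzx hxa
          rw [hμ1] at h1
          exact hne (Finset.card_le_one.mp h1.le U (Finset.mem_filter.mpr ⟨hU, hxU, hzU⟩) T
            (Finset.mem_filter.mpr ⟨hT, hxT, hz⟩))
        have h3 := Set.ncard_le_ncard (Set.insert_subset hxU hsub)
        rw [Set.ncard_insert_of_notMem (show (x : Ω) ∉ Tᶜ from fun h => h hxT), hTcard U hU] at h3
        have := Set.ncard_add_ncard_compl T
        rw [hTcard T hT] at this
        omega
      -- so `T` is a block of `G`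
      have hblock : MulAction.IsBlock G T := by
        rw [MulAction.isBlock_iff_smul_eq_of_nonempty]
        rintro g ⟨z, hzg, hzT⟩
        obtain ⟨k, hk, hkz⟩ : ∃ k : G, k • T = T ∧ k • z = x := by
          obtain ⟨k, hk, hkz⟩ := hTJ T hT z hzT x hxT
          refine ⟨k, ?_, hkz⟩
          refine Set.eq_of_subset_of_ncard_le ?_ (Set.ncard_smul_set k T).ge
          rintro _ ⟨w, hw, rfl⟩
          by_contra hout
          have h1 : k • w = w := MulAction.injective k (hk (k • w) hout)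
          exact hout (show k • w ∈ T by rw [h1]; exact hw)
        have hgT : g • T ∈ T₀ := by
          obtain ⟨s, rfl⟩ := (hmemT T).mp hT
          exact (hmemT _).mpr ⟨g * s, (mul_smul _ _ _).symm⟩
        have hkgT : k • g • T ∈ T₀ := by
          obtain ⟨s, hs⟩ := (hmemT _).mp hgT
          exact (hmemT _).mpr ⟨k * s, by rw [hs, mul_smul]⟩
        have := honly _ hkgT (hkz ▸ Set.smul_mem_smul_set hzg)
        exact smul_left_cancel k (this.trans hk.symm)
      rcases hblock.subsingleton_or_eq_univ with h | h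
      · have := (Set.ncard_le_one_iff_subsingleton).mpr h
        rw [hTcard T hT] at this
        omega
      · have : T.ncard = n := by rw [h, Set.ncard_univ, ← hn]
        rw [hTcard T hT] at this
        omega
    · -- every translate avoiding `a` through `x` passes through `y`
      push Not at hA
      have hsub : (T₀.filter fun T => (x : Ω) ∈ T ∧ a ∉ T) ⊆ T₀.filter fun T => (x : Ω) ∈ T ∧ (y : Ω) ∈ T := by
        intro T hT
        simp only [Finset.mem_filter] at hT ⊢
        exact ⟨hT.1, hT.2.1, hA T hT.1 hT.2.2 hT.2.1⟩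
      have h1 : μ (x : Ω) a ≤ (T₀.filter fun T => (x : Ω) ∈ T ∧ (y : Ω) ∈ T).card := Finset.card_le_card hsub
      have h2 := Finset.card_filter_add_card_filter_not (s := T₀.filter fun T => (x : Ω) ∈ T) (fun T => (y : Ω) ∈ T)
      rw [Finset.filter_filter, Finset.filter_filter] at h2
      have h3 : μ (x : Ω) y = μ (x : Ω) a := hμ x y x a hxy' hxa
      have h4 : 2 * μ (x : Ω) a ≤ c x := by
        simp only [μ, c] at h1 h3 ⊢
        omega
      have h5 := hcount x a hxa
      have h6 : c x * (n - D.ncard) * 2 ≤ (n - 1) * c x := by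
        rw [← h5, mul_assoc, mul_comm (μ _ _) 2]
        exact Nat.mul_le_mul_left _ h4
      have h7 : (n - D.ncard) * 2 ≤ n - 1 := by
        rw [mul_assoc, mul_comm (n - 1)] at h6
        exact Nat.le_of_mul_le_mul_left h6 (hc0 x)
      omega
  rw [SubMulAction.ofStabilizer.isMultiplyPretransitive (a := a)]
  -- Jordan for the stabiliser
  obtain ⟨D', hD'⟩ : ∃ D' : Set (SubMulAction.ofStabilizer G a), D' = Subtype.val ⁻¹' D := ⟨_, rfl⟩
  have hD'J : JSet (MulAction.stabilizer G a) D' := by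
    intro x hx y hy
    rw [hD'] at hx hy
    obtain ⟨g, hg, hgx⟩ := hJ _ hx _ hy
    exact ⟨⟨g, hg a ha⟩, fun z hz => Subtype.ext (hg _ fun h => hz (hD' ▸ h)), Subtype.ext hgx⟩
  have hD'card : D'.ncard = D.ncard := by
    rw [hD', Set.ncard_preimage_of_injective_subset_range Subtype.val_injective]
    intro z hz
    exact ⟨⟨z, fun e => ha (e ▸ hz)⟩, rfl⟩
  have htot : Nat.card (SubMulAction.ofStabilizer G a) = n - 1 := by
    rw [SubMulAction.nat_card_ofStabilizer_eq G a, ← hn]
  have := Set.ncard_add_ncard_compl D'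
  refine MulAction.IsPreprimitive.is_two_pretransitive (s := D'ᶜ) (n := D'ᶜ.ncard - 1) hprima ?_ ?_ hD'J.isPretransitive_compl
  · omega
  · omega

end Cfsg.Agent.S3707
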