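import Cfsg.Statements.S3733
import Mathlib

set_option autoImplicit false
open Cfsg

namespace Cfsg.Agent.S3733

/-- Let A and V be subgroups of a finite group with V abelian and nontrivial and A normalizing V. Suppose a nonempty finite family of proper subgroups of A partitions A: every non-identity element of A lies in exactly one member. If the number of members minus one is coprime to the order of V, then some member B of the family has a non-identity fixed point on V, that is V ∩ C(B) ≠ 1. -/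
theorem result {G : Type*} [Group G] [Finite G] (A V : Subgroup G) (hVab : IsMulCommutative V) (hV : V ≠ ⊥) (hAV : A ≤ Subgroup.normalizer (V : Set G)) (𝒜 : Finset (Subgroup G)) (hne : 𝒜.Nonempty) (hprop : ∀ B ∈ 𝒜, B < A) (hpart : ∀ a ∈ A, a ≠ 1 → ∃! B, B ∈ 𝒜 ∧ a ∈ B) (hk : (𝒜.card - 1).Coprime (Nat.card V)) : ∃ B ∈ 𝒜, V ⊓ Subgroup.centralizer (B : Set G) ≠ ⊥ := by
  classical
  haveI := Fintype.ofFinite G
  by_contra hcon
  push Not at hcon
  letI : CommGroup V := { (inferInstance : Group V) with mul_comm := fun a b => hVab.is_comm.comm a b }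
  have hcn : ∀ a ∈ A, ∀ v ∈ V, a * v * a⁻¹ ∈ V := fun a ha v hv => (Subgroup.mem_normalizer_iff.mp (hAV ha) v).mp hv
  let c : A → (V →* V) := fun a =>
    { toFun := fun v => ⟨(a : G) * v * (a : G)⁻¹, hcn a a.2 v v.2⟩
      map_one' := Subtype.ext (by show (a : G) * ((1 : V) : G) * (a : G)⁻¹ = 1; simp)
      map_mul' := fun u v => Subtype.ext (by show (a : G) * ((u : G) * v) * (a : G)⁻¹ = _ * _; group) }
  haveI := Fintype.ofFinite A
  -- the norm of each member is trivial
  let sB : Subgroup G → Finset A := fun B => Finset.univ.filter (fun a : A => (a : G) ∈ B)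
  have hnorm : ∀ B : Subgroup G, B ≤ A → V ⊓ Subgroup.centralizer (B : Set G) = ⊥ → ∀ v : V, ∏ a ∈ sB B, c a v = 1 := by
    intro B hBA hB v
    set w := ∏ a ∈ sB B, c a v with hw
    have hfix : ∀ b ∈ B, b * (w : G) = w * b := by
      intro b hb
      have h1 : c ⟨b, hBA hb⟩ w = w := by
        rw [hw, map_prod]
        refine Finset.prod_equiv (Equiv.mulLeft ⟨b, hBA hb⟩) (fun a => ?_) (fun a _ => Subtype.ext ?_)
        · simp only [sB, Finset.mem_filter, Finset.mem_univ, true_and, Equiv.coe_mulLeft, Subgroup.coe_mul]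
          exact (B.mul_mem_cancel_left hb).symm
        · show b * ((a : G) * (v : G) * (a : G)⁻¹) * b⁻¹ = (b * (a : G)) * (v : G) * (b * (a : G))⁻¹
          group
      exact mul_inv_eq_iff_eq_mul.mp (congrArg Subtype.val h1)
    have : (w : G) ∈ V ⊓ Subgroup.centralizer (B : Set G) := ⟨w.2, fun b hb => hfix b hb⟩
    rw [hB, Subgroup.mem_bot] at this
    exact Subtype.ext this
  have hA : V ⊓ Subgroup.centralizer (A : Set G) = ⊥ := by
    obtain ⟨B, hB⟩ := hne
    refine eq_bot_iff.mpr (le_trans (inf_le_inf_left V ?_) (hcon B hB).le)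
    exact Subgroup.centralizer_le (hprop B hB).le
  let T : Finset A := Finset.univ.filter (fun a : A => (a : G) ≠ 1)
  let tB : Subgroup G → Finset A := fun B => Finset.univ.filter (fun a : A => (a : G) ∈ B ∧ (a : G) ≠ 1)
  have hsplit : ∀ B : Subgroup G, ∀ v : V, ∏ a ∈ sB B, c a v = v * ∏ a ∈ tB B, c a v := by
    intro B v
    have e : sB B = insert 1 (tB B) := by
      ext a
      simp only [sB, tB, Finset.mem_filter, Finset.mem_univ, true_and, Finset.mem_insert]
      constructor
      · intro h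
        by_cases h1 : a = 1
        · exact Or.inl h1
        · exact Or.inr ⟨h, fun h2 => h1 (Subtype.ext h2)⟩
      · rintro (rfl | h)
        · exact B.one_mem
        · exact h.1
    rw [e, Finset.prod_insert (by simp [tB])]
    congr 1
    exact Subtype.ext (by show ((1 : A) : G) * (v : G) * ((1 : A) : G)⁻¹ = v; simp)
  have hunion : 𝒜.biUnion tB = T := by
    ext a
    simp only [tB, T, Finset.mem_biUnion, Finset.mem_filter, Finset.mem_univ, true_and]
    refine ⟨fun ⟨_, _, _, h⟩ => h, fun h => ?_⟩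
    obtain ⟨B, hB, -⟩ := hpart a a.2 h
    exact ⟨B, hB.1, hB.2, h⟩
  have hdisj : (𝒜 : Set (Subgroup G)).PairwiseDisjoint tB := by
    intro B hB B' hB' hne'
    rw [Function.onFun, Finset.disjoint_left]
    intro a ha ha'
    simp only [tB, Finset.mem_filter, Finset.mem_univ, true_and] at ha ha'
    obtain ⟨B0, -, hu⟩ := hpart a a.2 ha.2
    exact hne' ((hu B ⟨hB, ha.1⟩).trans (hu B' ⟨hB', ha'.1⟩).symm)
  refine hV ((Subgroup.eq_bot_iff_forall V).mpr fun v hv => ?_)
  set u : V := ⟨v, hv⟩
  have h1 : ∏ B ∈ 𝒜, ∏ a ∈ sB B, c a u = 1 :=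
    Finset.prod_eq_one fun B hB => hnorm B (hprop B hB).le (hcon B hB) u
  have h2 : u * ∏ a ∈ T, c a u = 1 := by
    have h := hsplit A u
    rw [hnorm A le_rfl hA u] at h
    have e : tB A = T := by
      ext a; simp [tB, T]
    rw [e] at h
    exact h.symm
  rw [Finset.prod_congr rfl fun B _ => hsplit B u, Finset.prod_mul_distrib, Finset.prod_const,
    ← Finset.prod_biUnion hdisj, hunion, eq_inv_of_mul_eq_one_right h2] at h1
  have h3 : u ^ (𝒜.card - 1) = 1 := by
    obtain ⟨k, hk⟩ : ∃ k, 𝒜.card = k + 1 := ⟨𝒜.card - 1, (Nat.sub_add_cancel hne.card_pos).symm⟩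
    rw [hk, pow_succ, mul_inv_cancel_right] at h1
    rwa [hk, Nat.add_sub_cancel]
  have h4 : orderOf u = 1 := Nat.eq_one_of_dvd_coprimes hk (orderOf_dvd_of_pow_eq_one h3) (orderOf_dvd_natCard u)
  exact congrArg Subtype.val (orderOf_eq_one_iff.mp h4)

end Cfsg.Agent.S3733
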