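import Cfsg.Statements.S3735
import Cfsg.Agent.Lib.GroupB.Coprime

set_option autoImplicit false
open Cfsg

namespace Cfsg.Agent.S3735

/-- Clifford's Theorem for actions on finite abelian groups, first part. Let H and V be subgroups of a finite group with V abelian and H normalizing V, and let A be a normal subgroup of H. If every H-invariant subgroup of V has an H-invariant complement in V, then every A-invariant subgroup of V has an A-invariant complement in V. -/
theorem result {G : Type*} [Group G] [Finite G] (H A V : Subgroup G) (hVab : IsMulCommutative V) (hHV : H ≤ Subgroup.normalizer (V : Set G)) (hAH : A ≤ H) (hAn : H ≤ Subgroup.normalizer (A : Set G)) (hss : ∀ U : Subgroup G, U ≤ V → H ≤ Subgroup.normalizer (U : Set G) → ∃ W : Subgroup G, W ≤ V ∧ H ≤ Subgroup.normalizer (W : Set G) ∧ U ⊓ W = ⊥ ∧ U ⊔ W = V) (U : Subgroup G) (hUV : U ≤ V) (hAU : A ≤ Subgroup.normalizer (U : Set G)) : ∃ W : Subgroup G, W ≤ V ∧ A ≤ Subgroup.normalizer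 (W : Set G) ∧ U ⊓ W = ⊥ ∧ U ⊔ W = V := by
  classical
  haveI := hVab
  obtain ⟨W, hW, hWmax⟩ := Set.Finite.exists_maximal (s := {W : Subgroup G | W ≤ V ∧ A ≤ Subgroup.normalizer (W : Set G) ∧ U ⊓ W = ⊥})
    (Set.toFinite _) ⟨⊥, bot_le, by rw [Subgroup.normalizer_eq_top]; exact le_top, inf_bot_eq U⟩
  refine ⟨W, hW.1, hW.2.1, hW.2.2, le_antisymm (sup_le hUV hW.1) ?_⟩
  -- the join of the minimal invariant subgroups is everything
  let S : Set (Subgroup G) := {M | M ≤ V ∧ A ≤ Subgroup.normalizer (M : Set G) ∧ M ≠ ⊥ ∧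
    ∀ L : Subgroup G, L ≤ M → A ≤ Subgroup.normalizer (L : Set G) → L = ⊥ ∨ L = M}
  have hconj : ∀ h ∈ H, ∀ M ∈ S, M.map (MulAut.conj h).toMonoidHom ∈ S := by
    intro h hh M hM
    have hA : ∀ a, a ∈ A → h⁻¹ * a * h ∈ A := fun a ha => by
      simpa using (Subgroup.mem_normalizer_iff.mp (hAn (H.inv_mem hh)) a).mp ha
    have hA' : ∀ a, a ∈ A → h * a * h⁻¹ ∈ A := fun a ha => (Subgroup.mem_normalizer_iff.mp (hAn hh) a).mp ha
    have hnorm : ∀ (x : G) (L : Subgroup G), (∀ a, a ∈ A → x⁻¹ * a * x ∈ A) → A ≤ Subgroup.normalizer (L : Set G) →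
        A ≤ Subgroup.normalizer ((L.map (MulAut.conj x).toMonoidHom : Subgroup G) : Set G) := by
      intro x L hx hL
      refine CfsgLib.GroupB.Coprime.le_normalizer_of_conj_mem fun a ha y hy => ?_
      obtain ⟨l, hl, rfl⟩ := hy
      exact ⟨(x⁻¹ * a * x) * l * (x⁻¹ * a * x)⁻¹, (Subgroup.mem_normalizer_iff.mp (hL (hx a ha)) l).mp hl,
        by simp only [MulEquiv.coe_toMonoidHom, MulAut.conj_apply]; group⟩
    refine ⟨?_, hnorm h M hA hM.2.1, ?_, fun L hL hLA => ?_⟩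
    · rintro _ ⟨m, hm, rfl⟩
      exact (Subgroup.mem_normalizer_iff.mp (hHV hh) m).mp (hM.1 hm)
    · rw [ne_eq, Subgroup.map_eq_bot_iff_of_injective _ (MulAut.conj h).injective]
      exact hM.2.2.1
    · have hL' : L.map (MulAut.conj h⁻¹).toMonoidHom ≤ M := by
        refine (Subgroup.map_mono hL).trans (le_of_eq ?_)
        rw [CfsgLib.GroupB.SchurZassenhaus.map_conj_map_conj, inv_mul_cancel, map_one]
        exact Subgroup.map_id M
      have e : (L.map (MulAut.conj h⁻¹).toMonoidHom).map (MulAut.conj h).toMonoidHom = L := by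
        rw [CfsgLib.GroupB.SchurZassenhaus.map_conj_map_conj, mul_inv_cancel, map_one]
        exact Subgroup.map_id L
      rcases hM.2.2.2 _ hL' (hnorm h⁻¹ L (fun a ha => by simpa using hA' a ha) hLA) with e' | e'
      · exact Or.inl (by rw [← e, e', Subgroup.map_bot])
      · exact Or.inr (by rw [← e, e'])
  have hexS : ∀ W' : Subgroup G, W' ≤ V → A ≤ Subgroup.normalizer (W' : Set G) → W' ≠ ⊥ → ∃ M ∈ S, M ≤ W' := by
    intro W' h1 h2 h3
    obtain ⟨M, hM, hMmin⟩ := Set.Finite.exists_minimal (s := {M : Subgroup G | M ≤ W' ∧ A ≤ Subgroup.normalizer (M : Set G) ∧ M ≠ ⊥})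
      (Set.toFinite _) ⟨W', le_rfl, h2, h3⟩
    refine ⟨M, ⟨hM.1.trans h1, hM.2.1, hM.2.2, fun L hL hLA => ?_⟩, hM.1⟩
    by_cases hL0 : L = ⊥
    · exact Or.inl hL0
    · exact Or.inr (le_antisymm hL (hMmin ⟨hL.trans hM.1, hLA, hL0⟩ hL))
  have htop : V ≤ sSup S := by
    have hSV : sSup S ≤ V := sSup_le fun M hM => hM.1
    have hSH : H ≤ Subgroup.normalizer ((sSup S : Subgroup G) : Set G) := by
      refine CfsgLib.GroupB.Coprime.le_normalizer_of_conj_mem fun h hh x hx => ?_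
      have : (sSup S).map (MulAut.conj h).toMonoidHom ≤ sSup S := by
        rw [sSup_eq_iSup, Subgroup.map_iSup]
        refine iSup_le fun M => ?_
        rw [Subgroup.map_iSup]
        exact iSup_le fun hM => le_iSup₂_of_le _ (hconj h hh M hM) le_rfl
      exact this ⟨x, hx, rfl⟩
    obtain ⟨C, hCV, hCH, hC, hCsup⟩ := hss _ hSV hSH
    have : C = ⊥ := by
      by_contra hne
      obtain ⟨M, hM, hMC⟩ := hexS C hCV (hAH.trans hCH) hne
      exact hM.2.2.1 (le_bot_iff.mp (hC ▸ le_inf (le_sSup hM) hMC))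
    rw [← hCsup, this, sup_bot_eq]
  refine htop.trans (sSup_le fun M hM => ?_)
  by_contra hnot
  have hcomm : ∀ x ∈ V, ∀ y ∈ V, x * y = y * x := fun x hx y hy =>
    congrArg Subtype.val (hVab.is_comm.comm ⟨x, hx⟩ ⟨y, hy⟩)
  have hnorm_sup : ∀ L₁ L₂ : Subgroup G, A ≤ Subgroup.normalizer (L₁ : Set G) → A ≤ Subgroup.normalizer (L₂ : Set G) →
      A ≤ Subgroup.normalizer ((L₁ ⊔ L₂ : Subgroup G) : Set G) := fun L₁ L₂ h1 h2 a ha => by
    rw [CfsgLib.GroupB.Coprime.mem_normalizer_iff_map_conj_eq, Subgroup.map_sup,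
      CfsgLib.GroupB.Coprime.mem_normalizer_iff_map_conj_eq.mp (h1 ha),
      CfsgLib.GroupB.Coprime.mem_normalizer_iff_map_conj_eq.mp (h2 ha)]
  have hdis : M ⊓ (U ⊔ W) = ⊥ := by
    refine (hM.2.2.2 _ inf_le_left fun a ha => ?_).resolve_right fun e => hnot (e ▸ inf_le_right)
    rw [CfsgLib.GroupB.Coprime.mem_normalizer_iff_map_conj_eq, Subgroup.map_inf _ _ _ (MulAut.conj a).injective,
      CfsgLib.GroupB.Coprime.mem_normalizer_iff_map_conj_eq.mp (hM.2.1 ha),
      CfsgLib.GroupB.Coprime.mem_normalizer_iff_map_conj_eq.mp (hnorm_sup U W hAU hW.2.1 ha)]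
  have hnew : U ⊓ (W ⊔ M) = ⊥ := by
    rw [eq_bot_iff]
    rintro x ⟨hxU, hxWM⟩
    have hMW : M ≤ Subgroup.normalizer (W : Set G) :=
      CfsgLib.GroupB.Coprime.le_normalizer_of_conj_mem fun a ha y hy => by
        rw [hcomm a (hM.1 ha) y (hW.1 hy), mul_inv_cancel_right]; exact hy
    replace hxWM : x ∈ ((W ⊔ M : Subgroup G) : Set G) := hxWM
    rw [Subgroup.coe_mul_of_right_le_normalizer_left W M hMW] at hxWM
    obtain ⟨w, hw, m, hm, rfl⟩ := hxWM
    have hm1 : m ∈ M ⊓ (U ⊔ W) := ⟨hm, by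
      rw [show m = w⁻¹ * (w * m) by group]
      exact Subgroup.mul_mem _ (Subgroup.mem_sup_right (W.inv_mem hw)) (Subgroup.mem_sup_left hxU)⟩
    rw [hdis, Subgroup.mem_bot] at hm1
    subst hm1
    rw [← hW.2.2]
    exact ⟨hxU, by simpa using hw⟩
  have := hWmax ⟨sup_le hW.1 hM.1, hnorm_sup W M hW.2.1 hM.2.1, hnew⟩ le_sup_left
  exact hnot ((le_sup_right.trans this).trans le_sup_right)

end Cfsg.Agent.S3735
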