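import Cfsg.Statements.S3737
import Cfsg.Agent.S0093
import Cfsg.Agent.S0096
import Cfsg.Agent.S0120
import Cfsg.Agent.S0121

set_option linter.unusedSectionVars false

set_option autoImplicit false
open Cfsg

namespace Cfsg.Agent.S3737

open scoped commutatorElement

/-- The group with the symmetrised product. -/
@[ext] structure BW {X : Type*} [Group X] (W : Subgroup X) where
  g : W

theorem baer {X : Type*} [Group X] [Finite X] {p : ℕ} [hpf : Fact p.Prime] (hp : p ≠ 2) (P Q : Subgroup X) (W : Subgroup X)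
    (hP : IsPGroup p P) (hQ : (Nat.card Q).Coprime p) (hPQ : P ≤ Subgroup.normalizer (Q : Set X))
    (hPW : P ≤ Subgroup.normalizer (W : Set X)) (hQW : Q ≤ Subgroup.normalizer (W : Set X))
    (hexp : ∀ w ∈ W, w ^ p = 1) (hcl : ∀ a ∈ W, ∀ b ∈ W, ∀ c ∈ W, Commute ⁅a, b⁆ c)
    (hC : W ⊓ Subgroup.centralizer (P : Set X) ≤ Subgroup.centralizer (Q : Set X)) :
    Q ≤ Subgroup.centralizer (W : Set X) := by
  classical
  set n := (p + 1) / 2 with hn
  have hodd : p % 2 = 1 := Nat.odd_iff.mp (hpf.out.odd_of_ne_two hp)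
  have h2n : 2 * n = p + 1 := by omega
  have hclW : ∀ a b c : W, Commute ⁅a, b⁆ c := fun a b c => Subtype.ext (hcl a a.2 b b.2 c c.2).eq
  have hexpW : ∀ a : W, a ^ p = 1 := fun a => Subtype.ext (hexp a a.2)
  have cL : ∀ a b c : W, ⁅a * b, c⁆ = ⁅a, c⁆ * ⁅b, c⁆ := fun a b c => by
    rw [commutatorElement_mul_left_eq_conj_mul, ← (hclW b c a).eq, mul_inv_cancel_right, (hclW b c ⁅a, c⁆).eq]
  have cR : ∀ a b c : W, ⁅a, b * c⁆ = ⁅a, b⁆ * ⁅a, c⁆ := fun a b c => by
    rw [commutatorElement_mul_right_eq_mul_conj, mul_assoc _ b, ← (hclW a c b).eq, ← mul_assoc, mul_inv_cancel_right]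
  let e : W → W → W := fun a b => ⁅b, a⁆ ^ n
  have he : ∀ a b c : W, Commute (e a b) c := fun a b c => (hclW b a c).pow_left n
  have eLm : ∀ a b c : W, e (a * b) c = e a c * e b c := fun a b c => by
    show ⁅c, a * b⁆ ^ n = _
    rw [cR, (hclW c a _).mul_pow]
  have eRm : ∀ a b c : W, e a (b * c) = e a b * e a c := fun a b c => by
    show ⁅b * c, a⁆ ^ n = _
    rw [cL, (hclW b a _).mul_pow]
  have ez : ∀ a b c : W, e a (e b c) = 1 ∧ e (e b c) a = 1 := fun a b c => by
    constructor
    · show ⁅e b c, a⁆ ^ n = 1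
      rw [commutatorElement_eq_one_iff_commute.mpr (he b c a), one_pow]
    · show ⁅a, e b c⁆ ^ n = 1
      rw [commutatorElement_eq_one_iff_commute.mpr (he b c a).symm, one_pow]
  letI : Add (BW W) := ⟨fun x y => ⟨x.g * y.g * e x.g y.g⟩⟩
  letI : Zero (BW W) := ⟨⟨1⟩⟩
  letI : Neg (BW W) := ⟨fun x => ⟨x.g⁻¹⟩⟩
  have add_g : ∀ x y : BW W, (x + y).g = x.g * y.g * e x.g y.g := fun x y => rfl
  have zero_g : (0 : BW W).g = 1 := rfl
  letI grp : AddCommGroup (BW W) :=
    { add_assoc := fun x y z => by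
        ext : 1
        simp only [add_g, eLm, eRm, (ez _ _ _).1, (ez _ _ _).2, mul_one]
        calc x.g * y.g * e x.g y.g * z.g * (e x.g z.g * e y.g z.g)
            = x.g * y.g * (e x.g y.g * z.g) * (e x.g z.g * e y.g z.g) := by simp only [mul_assoc]
          _ = x.g * y.g * z.g * (e x.g y.g * e x.g z.g * e y.g z.g) := by rw [(he _ _ z.g).eq]; simp only [mul_assoc]
          _ = x.g * y.g * z.g * (e y.g z.g * (e x.g y.g * e x.g z.g)) := by rw [← (he y.g z.g _).eq]
          _ = _ := by simp only [mul_assoc]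
      zero_add := fun x => by
        ext : 1
        simp only [add_g, zero_g, e, commutatorElement_one_right, one_pow, one_mul, mul_one]
      add_zero := fun x => by
        ext : 1
        simp only [add_g, zero_g, e, commutatorElement_one_left, one_pow, mul_one]
      nsmul := nsmulRec
      zsmul := zsmulRec
      neg_add_cancel := fun x => by
        ext : 1
        rw [add_g, zero_g]
        show x.g⁻¹ * x.g * ⁅x.g, x.g⁻¹⁆ ^ n = 1
        rw [commutatorElement_eq_one_iff_commute.mpr (Commute.refl x.g).inv_right, one_pow, inv_mul_cancel, mul_one]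
      add_comm := fun x y => by
        ext : 1
        rw [add_g, add_g]
        show x.g * y.g * ⁅y.g, x.g⁆ ^ n = y.g * x.g * ⁅x.g, y.g⁆ ^ n
        have hc : x.g * y.g = ⁅x.g, y.g⁆ * (y.g * x.g) := by rw [commutatorElement_def]; group
        have hp1 : ⁅x.g, y.g⁆ ^ n * ⁅x.g, y.g⁆ ^ n = ⁅x.g, y.g⁆ := by
          rw [← pow_add, ← two_mul, h2n, pow_succ, hexpW, one_mul]
        rw [hc, (hclW _ _ _).eq, ← commutatorElement_inv x.g y.g, inv_pow, mul_assoc]
        congr 1
        rw [mul_inv_eq_iff_eq_mul, hp1] }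
  let φ : X → BW W → BW W := fun x w =>
    if hx : x ∈ Subgroup.normalizer (W : Set X) then ⟨Subgroup.normalizerMonoidHom W ⟨x, hx⟩ w.g⟩ else w
  have φval : ∀ x ∈ Subgroup.normalizer (W : Set X), ∀ w : BW W, ((φ x w).g : X) = x * w.g * x⁻¹ := fun x hx w => by
    simp only [φ, hx, dite_true]; rfl
  have φadd : ∀ x ∈ Subgroup.normalizer (W : Set X), ∀ v w : BW W, φ x (v + w) = φ x v + φ x w := fun x hx v w => by
    simp only [φ, hx, dite_true]
    ext : 1
    simp only [add_g, e, map_mul, map_pow, map_commutatorElement]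
  have φmul : ∀ x ∈ Subgroup.normalizer (W : Set X), ∀ y ∈ Subgroup.normalizer (W : Set X), ∀ w : BW W,
      φ x (φ y w) = φ (x * y) w := fun x hx y hy w => by
    ext : 1
    apply Subtype.ext
    rw [φval x hx, φval y hy, φval _ (mul_mem hx hy)]
    group
  haveI : Finite (BW W) := Finite.of_injective (fun w => w.g) fun a b h => BW.ext h
  haveI : Fintype Q := Fintype.ofFinite _
  let σ : BW W →+ BW W := AddMonoidHom.mk' (fun w => ∑ q : Q, φ q w) fun v w => by
    rw [← Finset.sum_add_distrib]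
    exact Finset.sum_congr rfl fun q _ => φadd q (hQW q.2) v w
  have hσfix : ∀ q ∈ Q, ∀ w, φ q (σ w) = σ w := fun q hq w => by
    let F : BW W →+ BW W := AddMonoidHom.mk' (φ q) (φadd q (hQW hq))
    show F (∑ r : Q, φ r w) = ∑ r : Q, φ r w
    rw [map_sum]
    exact Fintype.sum_equiv (Equiv.mulLeft (⟨q, hq⟩ : Q)) _ _ fun r => φmul q (hQW hq) r (hQW r.2) w
  have hσP : ∀ x ∈ P, ∀ w, σ (φ x w) = φ x (σ w) := fun x hx w => by
    let F : BW W →+ BW W := AddMonoidHom.mk' (φ x) (φadd x (hPW hx))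
    show ∑ r : Q, φ r (φ x w) = F (∑ r : Q, φ r w)
    rw [map_sum]
    refine Fintype.sum_equiv
      { toFun := fun (r : Q) => ⟨x⁻¹ * (r : X) * x, by
          have := (Subgroup.mem_normalizer_iff.mp (inv_mem (hPQ hx)) r).mp r.2
          rwa [inv_inv] at this⟩
        invFun := fun (r : Q) => ⟨x * (r : X) * x⁻¹, (Subgroup.mem_normalizer_iff.mp (hPQ hx) r).mp r.2⟩
        left_inv := fun r => Subtype.ext (by group)
        right_inv := fun r => Subtype.ext (by group) } _ _ fun r => ?_
    show φ (r : X) (φ x w) = φ x (φ (x⁻¹ * (r : X) * x) w)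
    rw [φmul _ (hQW r.2) _ (hPW hx), φmul _ (hPW hx) _ (mul_mem (mul_mem (inv_mem (hPW hx)) (hQW r.2)) (hPW hx)),
      show x * (x⁻¹ * (r : X) * x) = (r : X) * x by group]
  have hpnsmul : ∀ (m : ℕ) (w : BW W), (m • w).g = w.g ^ m := by
    intro m w
    induction m with
    | zero => rw [zero_smul, zero_g, pow_zero]
    | succ m ih =>
      rw [succ_nsmul, add_g, ih]
      show w.g ^ m * w.g * ⁅w.g, w.g ^ m⁆ ^ n = w.g ^ (m + 1)
      rw [commutatorElement_eq_one_iff_commute.mpr ((Commute.refl w.g).pow_right m), one_pow, mul_one, pow_succ]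
  have hinv : ∀ w : BW W, (Nat.card Q) • w = 0 → w = 0 := fun w h => by
    have h1 : w.g ^ Nat.card Q = 1 := by rw [← hpnsmul, h, zero_g]
    have h2 : orderOf w.g = 1 := Nat.eq_one_of_dvd_coprimes hQ (orderOf_dvd_of_pow_eq_one h1)
      (orderOf_dvd_of_pow_eq_one (hexpW w.g))
    exact BW.ext (orderOf_eq_one_iff.mp h2)
  -- a fixed point in the kernel
  have hker : ∀ w, σ w = 0 → w = 0 := by
    by_contra hne
    push Not at hne
    obtain ⟨w0, hw0, hw0'⟩ := hne
    have hPinv : ∀ x ∈ P, ∀ w, σ w = 0 → σ (φ x w) = 0 := fun x hx w hw => by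
      rw [hσP x hx, hw]; exact (AddMonoidHom.mk' (φ x) (φadd x (hPW hx))).map_zero
    letI act : MulAction P {w : BW W // σ w = 0} :=
      { smul := fun x w => ⟨φ x w.1, hPinv x x.2 w.1 w.2⟩
        one_smul := fun w => Subtype.ext (BW.ext (Subtype.ext (by
          show ((φ (1 : X) w.1).g : X) = _
          rw [φval 1 (one_mem _), one_mul, inv_one, mul_one])))
        mul_smul := fun x y w => Subtype.ext (φmul x (hPW x.2) y (hPW y.2) w.1).symm }
    let K : AddSubgroup (BW W) := σ.ker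
    have hKp : p ∣ Nat.card {w : BW W // σ w = 0} := by
      have hk : addOrderOf (⟨w0, hw0⟩ : K) = p := by
        refine addOrderOf_eq_prime (Subtype.ext (BW.ext ?_)) fun h => hw0' (congrArg Subtype.val h)
        show (p • w0).g = 1
        rw [hpnsmul, hexpW]
      exact hk ▸ addOrderOf_dvd_natCard (⟨w0, hw0⟩ : K)
    have h0 : (⟨0, σ.map_zero⟩ : {w : BW W // σ w = 0}) ∈ MulAction.fixedPoints P {w : BW W // σ w = 0} := fun x =>
      Subtype.ext ((AddMonoidHom.mk' (φ x) (φadd x (hPW x.2))).map_zero)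
    obtain ⟨⟨w, hw⟩, hfix, hne'⟩ := hP.exists_fixed_point_of_prime_dvd_card_of_fixed_point _ hKp h0
    have hwC : (w.g : X) ∈ W ⊓ Subgroup.centralizer (P : Set X) := ⟨w.g.2, Subgroup.mem_centralizer_iff.mpr fun x hx => by
      have h := congrArg (fun v => ((Subtype.val v).g : X)) (hfix ⟨x, hx⟩)
      have h' : x * (w.g : X) * x⁻¹ = w.g := by rw [← φval x (hPW hx)]; exact h
      exact mul_inv_eq_iff_eq_mul.mp h'⟩
    have hwQ := hC hwC
    have hσw : σ w = Nat.card Q • w := by
      show ∑ r : Q, φ r w = _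
      rw [Finset.sum_congr rfl (fun (r : Q) _ => show φ (r : X) w = w from BW.ext (Subtype.ext (by
        rw [φval _ (hQW r.2), Subgroup.mem_centralizer_iff.mp hwQ r r.2, mul_inv_cancel_right]))),
        Finset.sum_const, Finset.card_univ, Nat.card_eq_fintype_card]
    exact hne' (Subtype.ext (hinv w (hσw ▸ hw)).symm)
  intro q hq
  refine Subgroup.mem_centralizer_iff.mpr fun v hv => ?_
  let w : BW W := ⟨⟨v, hv⟩⟩
  have h1 : σ (σ w) = Nat.card Q • σ w := by
    show ∑ r : Q, φ r (σ w) = _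
    rw [Finset.sum_congr rfl fun (r : Q) _ => hσfix (r : X) r.2 w, Finset.sum_const, Finset.card_univ, Nat.card_eq_fintype_card]
  have h2 : Nat.card Q • w - σ w = 0 := hker _ (by rw [map_sub, map_nsmul, h1, sub_self])
  have h3 : φ q w = w := by
    let F : BW W →+ BW W := AddMonoidHom.mk' (φ q) (φadd q (hQW hq))
    have h4 : Nat.card Q • (F w - w) = 0 := by
      rw [nsmul_sub, ← map_nsmul, sub_eq_zero.mp h2, sub_eq_zero]
      exact hσfix q hq w
    exact sub_eq_zero.mp (hinv _ h4)
  have h5 : q * v * q⁻¹ = v := by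
    have := congrArg (fun u => ((u : BW W).g : X)) h3
    rwa [φval q (hQW hq)] at this
  exact (mul_inv_eq_iff_eq_mul.mp h5).symm

/-- Thompson's strengthening of the P × Q lemma for odd primes. Let p be an odd prime and let P, Q and G be subgroups of a finite group with P a p-group, Q of order prime to p and normalized by P, and G a p-group normalized by both P and Q. If every element of G centralized by P is centralized by Q, then Q centralizes G. -/
theorem result {X : Type*} [Group X] [Finite X] {p : ℕ} [Fact p.Prime] (hp : p ≠ 2) (P Q G : Subgroup X) (hP : IsPGroup p P) (hQ : (Nat.card Q).Coprime p) (hPQ : P ≤ Subgroup.normalizer (Q : Set X)) (hG : IsPGroup p G) (hPG : P ≤ Subgroup.normalizer (G : Set X)) (hQG : Q ≤ Subgroup.normalizer (G : Set X)) (hC : G ⊓ Subgroup.centralizer (P : Set X) ≤ Subgroup.centralizer (Q : Set X)) : Q ≤ Subgroup.centralizer (G : Set X) := by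
  classical
  obtain ⟨H, hchar, hΦ, hcomm, hCent⟩ := Cfsg.Agent.S0093.result hG
  have hHH : ⁅commutator ↥H, (⊤ : Subgroup ↥H)⁆ = ⊥ := by
    apply Subgroup.map_injective H.subtype_injective
    rw [Subgroup.map_bot, Subgroup.map_commutator, commutator_def, Subgroup.map_commutator, ← MonoidHom.range_eq_map,
      Subgroup.range_subtype, Subgroup.commutator_eq_bot_iff_le_centralizer]
    exact ((Subgroup.commutator_mono le_rfl le_top).trans hcomm).trans inf_le_right
  have hHp := hG.to_subgroup H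
  let W0 : Subgroup ↥H := Subgroup.closure {x : ↥H | x ^ p = 1}
  let f : ↥H →* X := G.subtype.comp H.subtype
  let W : Subgroup X := W0.map f
  have hinvH : ∀ x ∈ Subgroup.normalizer (G : Set X), ∀ h : ↥H, ∃ h' : ↥H, f h' = x * f h * x⁻¹ := fun x hx h => by
    have h1 := (Subgroup.characteristic_iff_map_le.mp hchar (Subgroup.normalizerMonoidHom G ⟨x, hx⟩))
      ⟨(h : ↥G), h.2, rfl⟩
    exact ⟨⟨_, h1⟩, rfl⟩
  have hfinj : Function.Injective f := G.subtype_injective.comp H.subtype_injective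
  have hNW : Subgroup.normalizer (G : Set X) ≤ Subgroup.normalizer (W : Set X) := by
    intro x hx
    have key : ∀ x ∈ Subgroup.normalizer (G : Set X), ∀ v ∈ W, x * v * x⁻¹ ∈ W := by
      intro x hx v hv
      have hle : W.map (MulAut.conj x).toMonoidHom ≤ W := by
        rw [Subgroup.map_map, MonoidHom.map_closure, Subgroup.closure_le]
        rintro _ ⟨y, hy, rfl⟩
        obtain ⟨y', hy'⟩ := hinvH x hx y
        refine ⟨y', Subgroup.subset_closure (hfinj ?_), hy'⟩
        rw [map_pow, map_one, hy', conj_pow, ← map_pow, show y ^ p = 1 from hy, map_one, mul_one, mul_inv_cancel]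
      exact hle ⟨v, hv, rfl⟩
    rw [Subgroup.mem_normalizer_iff]
    refine fun v => ⟨key x hx v, fun h => ?_⟩
    have := key x⁻¹ (inv_mem hx) _ h
    rwa [inv_inv, show x⁻¹ * (x * v * x⁻¹) * x = v by group] at this
  have hexp : ∀ w ∈ W, w ^ p = 1 := by
    rintro _ ⟨y, hy, rfl⟩
    rw [← map_pow, Cfsg.Agent.S0096.result hp hHp hHH y hy, map_one]
  have hcl : ∀ a ∈ W, ∀ b ∈ W, ∀ c ∈ W, Commute ⁅a, b⁆ c := by
    rintro _ ⟨a, -, rfl⟩ _ ⟨b, -, rfl⟩ _ ⟨c, -, rfl⟩
    rw [← map_commutatorElement]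
    refine Commute.map ?_ f
    exact (Subgroup.mem_centralizer_iff.mp (Subgroup.commutator_eq_bot_iff_le_centralizer.mp hHH
      (Subgroup.commutator_mem_commutator (Subgroup.mem_top a) (Subgroup.mem_top b))) c trivial).symm
  have hWG : W ≤ G := by
    rintro _ ⟨y, -, rfl⟩
    exact (y : ↥G).2
  have hQW := baer hp P Q W hP hQ hPQ (hPG.trans hNW) (hQG.trans hNW) hexp hcl
    ((inf_le_inf_right _ hWG).trans hC)
  intro q hq
  let a : MulAut ↥G := Subgroup.normalizerMonoidHom G ⟨q, hQG hq⟩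
  have ha : (orderOf a).Coprime p := by
    refine hQ.coprime_dvd_left ((orderOf_map_dvd _ _).trans ?_)
    rw [Subgroup.orderOf_mk]
    exact Q.orderOf_dvd_natCard hq
  let aH : MulAut ↥H :=
    { toFun := fun h => ⟨a h, (Subgroup.characteristic_iff_map_le.mp hchar a) ⟨h, h.2, rfl⟩⟩
      invFun := fun h => ⟨a⁻¹ h, (Subgroup.characteristic_iff_map_le.mp hchar a⁻¹) ⟨h, h.2, rfl⟩⟩
      left_inv := fun h => Subtype.ext (a.symm_apply_apply h)
      right_inv := fun h => Subtype.ext (a.apply_symm_apply h)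
      map_mul' := fun x y => Subtype.ext (map_mul a _ _) }
  have haH : (orderOf aH).Coprime p := by
    refine ha.coprime_dvd_left (orderOf_dvd_of_pow_eq_one ?_)
    have h : ∀ (k : ℕ) (x : ↥H), ((aH ^ k) x : ↥G) = (a ^ k) (x : ↥G) := by
      intro k
      induction k with
      | zero => intro x; rfl
      | succ k ih =>
        intro x
        rw [pow_succ', pow_succ', MulAut.mul_apply, MulAut.mul_apply, ← ih x]
        rfl
    ext x : 2
    rw [h, pow_orderOf_eq_one]; rfl
  have h1 : aH = 1 := Cfsg.Agent.S0120.result hp hHp aH haH fun y hy => by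
    apply hfinj
    show q * f y * q⁻¹ = f y
    rw [← (Subgroup.mem_centralizer_iff.mp (hQW hq)) (f y) ⟨y, Subgroup.subset_closure hy, rfl⟩, mul_inv_cancel_right]
  have h2 := Cfsg.Agent.S0121.result hG H hchar hΦ hcomm hCent a ha fun x hx =>
    congrArg Subtype.val (MulEquiv.congr_fun h1 ⟨x, hx⟩)
  refine Subgroup.mem_centralizer_iff.mpr fun g hg => ?_
  have h3 : q * g * q⁻¹ = g := congrArg Subtype.val (MulEquiv.congr_fun h2 ⟨g, hg⟩)
  exact (mul_inv_eq_iff_eq_mul.mp h3).symm

end Cfsg.Agent.S3737
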