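import Cfsg.Statements.S3738
import Cfsg.Agent.Lib.GroupB.MinimalAction
import Cfsg.Agent.Lib.GroupB.AutPGroup

set_option autoImplicit false
open Cfsg

namespace Cfsg.Agent.S3738

open scoped commutatorElement
set_option linter.style.haveILetI false

universe u

/-- An automorphism of order `3ⁿ`, `n ≥ 2`, whose power of order three generates by commutators needs an
abelian quotient of order at least `2⁶`. -/
theorem index_ge {Y : Type u} [Group Y] [Finite Y] (hY : IsPGroup 2 Y) (δ : MulAut Y) {n : ℕ} (hn : 2 ≤ n)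
    (hδ : δ ^ 3 ^ n = 1) (K : Subgroup Y) [K.Characteristic] (hK : commutator Y ≤ K) (hKt : K ≠ ⊤)
    (hgen : Subgroup.closure (Set.range fun g : Y => g * ((δ ^ 3 ^ (n - 1)) g)⁻¹) = ⊤) : 64 ≤ K.index := by
  classical
  haveI : IsMulCommutative (Y ⧸ K) := Subgroup.Normal.quotient_commutative_iff_commutator_le.mpr hK
  have hcomm : ∀ a b : Y ⧸ K, a * b = b * a := fun a b => mul_comm' a b
  have hmap : ∀ α : MulAut Y, ∀ x ∈ K, α x ∈ K := fun α x hx =>
    (Subgroup.characteristic_iff_map_le.mp inferInstance α) ⟨x, hx, rfl⟩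
  let bar : MulAut Y →* MulAut (Y ⧸ K) :=
    { toFun := fun α => QuotientGroup.congr K K α (Subgroup.characteristic_iff_map_eq.mp inferInstance α)
      map_one' := MulEquiv.ext fun q => by induction q using QuotientGroup.induction_on; rfl
      map_mul' := fun α β => MulEquiv.ext fun q => by induction q using QuotientGroup.induction_on; rfl }
  set m := 3 ^ (n - 1) with hm
  let f : Y ⧸ K →* Y ⧸ K := MonoidHom.mk' (fun v => v * ((bar (δ ^ m)) v)⁻¹) fun a b => by
    rw [map_mul, mul_inv_rev, mul_assoc, mul_assoc]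
    congr 1
    rw [← mul_assoc, hcomm (b * _)]
  have hsurj : Function.Surjective f := by
    rw [← MonoidHom.range_eq_top, eq_top_iff]
    intro v _
    obtain ⟨g, rfl⟩ := QuotientGroup.mk'_surjective K v
    have hg : g ∈ Subgroup.closure (Set.range fun g : Y => g * ((δ ^ m) g)⁻¹) := hgen ▸ Subgroup.mem_top g
    refine (show Subgroup.closure (Set.range fun g : Y => g * ((δ ^ m) g)⁻¹) ≤ f.range.comap (QuotientGroup.mk' K) from ?_) hg
    rw [Subgroup.closure_le]
    rintro _ ⟨x, rfl⟩
    exact ⟨QuotientGroup.mk' K x, rfl⟩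
  have hinj : Function.Injective f := Finite.injective_iff_surjective.mpr hsurj
  have hfix : ∀ v : Y ⧸ K, (bar (δ ^ m)) v = v → v = 1 := fun v hv => hinj (by
    rw [map_one]; show v * _⁻¹ = 1; rw [hv, mul_inv_cancel])
  obtain ⟨a, ha⟩ := IsPGroup.iff_card.mp (hY.to_quotient K)
  have ha0 : a ≠ 0 := fun h => hKt (Subgroup.index_eq_one.mp (by rw [Subgroup.index_eq_card, ha, h, pow_zero]))
  haveI : Nontrivial (Y ⧸ K) := Finite.one_lt_card_iff_nontrivial.mp (ha ▸ Nat.one_lt_two_pow ha0)
  have hne : bar δ ^ m ≠ 1 := fun h => by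
    obtain ⟨v, hv⟩ := exists_ne (1 : Y ⧸ K)
    exact hv (hfix v (by rw [map_pow, h]; rfl))
  have hord : orderOf (bar δ) = 3 ^ n := by
    haveI : Fact (Nat.Prime 3) := ⟨Nat.prime_three⟩
    have := orderOf_eq_prime_pow (x := bar δ) (n := n - 1) (p := 3) (by simpa [hm] using hne)
      (by rw [show n - 1 + 1 = n by omega, ← map_pow, hδ, map_one])
    rwa [show n - 1 + 1 = n by omega] at this
  let S := {v : Y ⧸ K // v ≠ 1}
  let H := Subgroup.zpowers (bar δ)
  letI : SMul H S := ⟨fun c v => ⟨(c : MulAut (Y ⧸ K)) v.1, fun h => v.2 ((c : MulAut (Y ⧸ K)).injective (h.trans (map_one _).symm))⟩⟩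
  letI : MulAction H S :=
    { one_smul := fun v => rfl
      mul_smul := fun c d v => rfl }
  have hdvd : Nat.card H ∣ Nat.card S := by
    refine CfsgLib.GroupB.AutPGroup.card_dvd_of_free fun c v hcv => ?_
    obtain ⟨i, hi⟩ := mem_powers_iff_mem_zpowers.mpr c.2
    change bar δ ^ i = c.1 at hi
    refine Subtype.ext ?_
    rw [← hi, Subgroup.coe_one, ← orderOf_dvd_iff_pow_eq_one, hord]
    by_contra hnd
    obtain ⟨l, hl, hg⟩ := (Nat.dvd_prime_pow Nat.prime_three).mp (Nat.gcd_dvd_right i (3 ^ n))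
    have hln : l ≤ n - 1 := by
      have hlne : l ≠ n := fun h => hnd (by rw [← h, ← hg]; exact Nat.gcd_dvd_left i (3 ^ n))
      omega
    have hfixi : bar δ ^ i ∈ MulAction.stabilizer (MulAut (Y ⧸ K)) v.1 := by
      rw [hi]; exact congrArg Subtype.val hcv
    have hgm : bar δ ^ Nat.gcd i (3 ^ n) ∈ MulAction.stabilizer (MulAut (Y ⧸ K)) v.1 := by
      rw [← zpow_natCast, Nat.gcd_eq_gcd_ab, zpow_add, zpow_mul, zpow_mul, zpow_natCast, zpow_natCast,
        ← hord, pow_orderOf_eq_one, one_zpow, mul_one]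
      exact Subgroup.zpow_mem _ hfixi _
    rw [hg] at hgm
    obtain ⟨q, hq⟩ := pow_dvd_pow 3 hln
    have hstab : bar δ ^ m ∈ MulAction.stabilizer (MulAut (Y ⧸ K)) v.1 := by
      rw [hm, hq, pow_mul]; exact Subgroup.pow_mem _ hgm _
    exact v.2 (hfix _ (by rw [map_pow]; exact hstab))
  rw [Nat.card_zpowers, hord] at hdvd
  have hS : Nat.card S = 2 ^ a - 1 := by
    haveI := Fintype.ofFinite (Y ⧸ K)
    show Nat.card {v : Y ⧸ K // v ≠ 1} = _
    rw [Nat.card_eq_fintype_card, Fintype.card_subtype_compl, Fintype.card_subtype_eq, ← Nat.card_eq_fintype_card, ha]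
  rw [hS] at hdvd
  rw [Subgroup.index_eq_card, ha]
  rcases Nat.lt_or_ge a 6 with h6 | h6
  · have h9 : 9 ∣ 2 ^ a - 1 := (pow_dvd_pow 3 hn).trans hdvd
    exfalso
    interval_cases a <;> simp_all
  · exact Nat.pow_le_pow_right two_pos h6

/-- No group of exponent four and class two has a centre of order at most four containing all involutions and
of index at least `64`. -/
theorem rank_contradiction {Y : Type u} [Group Y] [Finite Y] (Z : Subgroup Y) (hZc : Z ≤ Subgroup.center Y)
    (hcomm : ∀ a b : Y, ⁅a, b⁆ ∈ Z) (hsq : ∀ x : Y, x ^ 2 ∈ Z) (hZ2 : ∀ z ∈ Z, z ^ 2 = 1)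
    (hinv : ∀ x : Y, x ^ 2 = 1 → x ∈ Z) (hcard : Nat.card Z ≤ 4) (hidx : 64 ≤ Z.index) : False := by
  classical
  have hc : ∀ z ∈ Z, ∀ g : Y, g * z = z * g := fun z hz g => Subgroup.mem_center_iff.mp (hZc hz) g
  have hcmul : ∀ a b x : Y, ⁅a * b, x⁆ = ⁅a, x⁆ * ⁅b, x⁆ := fun a b x => by
    rw [show ⁅a * b, x⁆ = a * ⁅b, x⁆ * a⁻¹ * ⁅a, x⁆ by simp only [commutatorElement_def]; group,
      hc _ (hcomm b x) a, mul_inv_cancel_right, ← hc _ (hcomm b x) _]
  obtain ⟨x, hx⟩ : ∃ x : Y, x ∉ Z := not_forall.mp fun h => by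
    have : Z = ⊤ := eq_top_iff.mpr fun y _ => h y
    rw [this, Subgroup.index_top] at hidx
    omega
  let φ : Y →* Y := MonoidHom.mk' (fun y => ⁅y, x⁆) fun a b => hcmul a b x
  have hker : 16 * Nat.card Z ≤ Nat.card φ.ker := by
    have h1 : φ.ker.index ≤ 4 := by
      rw [Subgroup.index_ker]
      exact (Subgroup.card_le_of_le (show φ.range ≤ Z by rintro _ ⟨y, rfl⟩; exact hcomm y x)).trans hcard
    have h2 := φ.ker.card_mul_index.trans Z.card_mul_index.symm
    have h3 : φ.ker.index ≠ 0 := Subgroup.index_ne_zero_of_finite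
    nlinarith
  set s := x ^ 2 with hs
  have hs2 : s ^ 2 = 1 := hZ2 _ (hsq x)
  set S := Subgroup.zpowers s with hSd
  have hS1 : s ≠ 1 := fun h => hx (hinv x h)
  let N : Set Y := {y | y ∈ Z ∨ y * x ∈ Z}
  -- squares outside `N` avoid `{1, s}`
  have hout : ∀ y ∈ φ.ker, y ∉ N → y ^ 2 ≠ 1 ∧ y ^ 2 ≠ s := by
    intro y hy hyN
    refine ⟨fun h => hyN (Or.inl (hinv y h)), fun h => hyN (Or.inr (hinv _ ?_))⟩
    have : Commute y x := commutatorElement_eq_one_iff_mul_comm.mp hy
    rw [this.mul_pow, h, ← sq]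
    exact hs2
  -- at most two such values, differing by `s`
  have hclass : ∀ u ∈ Z, ∀ v ∈ Z, u ≠ 1 → u ≠ s → v ≠ 1 → v ≠ s → u * v = 1 ∨ u * v = s := by
    intro u hu v hv u1 us v1 vs
    by_contra hne
    push_neg at hne
    have huu : u * u = 1 := by rw [← sq]; exact hZ2 u hu
    have huv : u ≠ v := fun h => hne.1 (by rw [← h]; exact huu)
    have hw : u * s ≠ v := fun h => hne.2 (by rw [← h, ← mul_assoc, huu, one_mul])
    have hw1 : u * s ≠ 1 := fun h => us (by
      have : s * s = 1 := by rw [← sq]; exact hs2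
      calc u = u * s * s := by rw [mul_assoc, this, mul_one]
        _ = s := by rw [h, one_mul])
    let T : Finset Y := {1, s, u, v, u * s}
    have hT : T.card = 5 := by
      have a1 : u * s ≠ s := fun h => u1 (by simpa using h)
      have a2 : u * s ≠ u := fun h => hS1 (by simpa using h)
      simp [T, Finset.card_insert_of_notMem, u1.symm, us.symm, v1.symm, vs.symm, hS1.symm, huv, hw.symm,
        hw1.symm, a1.symm, a2.symm]
    have hle : T.card ≤ Nat.card Z := by
      rw [show Nat.card Z = (Z : Set Y).ncard from Nat.card_coe_set_eq _, ← Set.ncard_coe_finset]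
      refine Set.ncard_le_ncard ?_ (Set.toFinite _)
      intro y hy
      simp only [T, Finset.coe_insert, Finset.coe_singleton, Set.mem_insert_iff, Set.mem_singleton_iff] at hy
      rcases hy with rfl | rfl | rfl | rfl | rfl
      exacts [Z.one_mem, hsq x, hu, hv, Z.mul_mem hu (hsq x)]
    omega
  have hNmul : ∀ y z : Y, y ∉ N → z ∈ Z → y * z ∉ N := by
    intro y z hy hz h
    rcases h with h | h
    · exact hy (Or.inl (by simpa using Z.mul_mem h (Z.inv_mem hz)))
    · refine hy (Or.inr ?_)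
      rw [mul_assoc, ← hc z hz x, ← mul_assoc] at h
      simpa using Z.mul_mem h (Z.inv_mem hz)
  have hbr : ∀ p ∈ φ.ker, ∀ q ∈ φ.ker, p ∉ N → q ∉ N → p * q ∉ N → ⁅q, p⁆ ≠ 1 ∧ ⁅q, p⁆ ≠ s := by
    intro p hp q hq hpN hqN hpqN
    obtain ⟨e1, e2⟩ := hout p hp hpN
    obtain ⟨f1, f2⟩ := hout q hq hqN
    obtain ⟨g1, g2⟩ := hout _ (φ.ker.mul_mem hp hq) hpqN
    have key : (p * q) ^ 2 = ⁅q, p⁆ * (p ^ 2 * q ^ 2) := by
      rw [sq, show p * q * (p * q) = p * ⁅q, p⁆ * p * (q * q) by simp only [commutatorElement_def]; group,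
        hc _ (hcomm q p) p, sq, sq, mul_assoc, mul_assoc, mul_assoc]
    have h := hclass _ (hsq p) _ (hsq q) e1 e2 f1 f2
    constructor <;> intro hh <;> rw [hh] at key
    · rw [one_mul] at key; rcases h with h | h <;> rw [h] at key
      exacts [g1 key, g2 key]
    · rcases h with h | h <;> rw [h] at key
      · rw [mul_one] at key; exact g2 key
      · rw [← sq, hs2] at key; exact g1 key
  have hbig : ∀ T : Finset Y, T.card ≤ 4 → ∃ y ∈ φ.ker, ∀ t ∈ T, t * y ∉ N := by
    intro T hT
    by_contra hne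
    push_neg at hne
    have hsub : (φ.ker : Set Y) ⊆ ⋃ t ∈ T, (fun n => t⁻¹ * n) '' N := by
      intro y hy
      obtain ⟨t, ht, hty⟩ := hne y hy
      exact Set.mem_biUnion ht ⟨t * y, hty, by simp⟩
    have hN : N.ncard ≤ 2 * Nat.card Z := by
      have : N ⊆ (Z : Set Y) ∪ (fun z => z * x⁻¹) '' (Z : Set Y) := by
        rintro y (hy | hy)
        · exact Or.inl hy
        · exact Or.inr ⟨y * x, hy, by simp⟩
      refine (Set.ncard_le_ncard this (Set.toFinite _)).trans ((Set.ncard_union_le _ _).trans ?_)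
      have h1 := Set.ncard_image_le (f := fun z => z * x⁻¹) (Set.toFinite (Z : Set Y))
      rw [← Nat.card_coe_set_eq (s := (Z : Set Y))] at h1 ⊢
      simp only [SetLike.coe_sort_coe] at h1 ⊢
      omega
    have h2 : (φ.ker : Set Y).ncard ≤ T.card * (2 * Nat.card Z) := by
      refine (Set.ncard_le_ncard hsub (Set.toFinite _)).trans ((Finset.set_ncard_biUnion_le T _).trans ?_)
      refine (Finset.sum_le_card_nsmul T _ _ fun t _ => (Set.ncard_image_le (Set.toFinite N)).trans hN).trans ?_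
      rw [smul_eq_mul]
    rw [← Nat.card_coe_set_eq] at h2
    simp only [SetLike.coe_sort_coe] at h2
    have hpos : 0 < Nat.card Z := Nat.card_pos
    nlinarith
  obtain ⟨a, ha, ha'⟩ := hbig {1} (by simp)
  have haN : a ∉ N := by simpa using ha' 1 (by simp)
  obtain ⟨b, hb, hb'⟩ := hbig {1, a} (Finset.card_le_two.trans (by norm_num))
  have hbN : b ∉ N := by simpa using hb' 1 (by simp)
  have habN : a * b ∉ N := hb' a (by simp)
  obtain ⟨c, hc', hc''⟩ := hbig {1, a, b, a * b} Finset.card_le_four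
  have hcN : c ∉ N := by simpa using hc'' 1 (by simp)
  have hacN : a * c ∉ N := hc'' a (by simp)
  have hbcN : b * c ∉ N := hc'' b (by simp)
  have habcN : a * (b * c) ∉ N := by rw [← mul_assoc]; exact hc'' (a * b) (by simp)
  obtain ⟨u1, u2⟩ := hbr a ha b hb haN hbN habN
  obtain ⟨v1, v2⟩ := hbr a ha c hc' haN hcN hacN
  obtain ⟨w1, w2⟩ := hbr a ha (b * c) (φ.ker.mul_mem hb hc') haN hbcN habcN
  rw [hcmul] at w1 w2
  rcases hclass _ (hcomm b a) _ (hcomm c a) u1 u2 v1 v2 with h | h
  · exact w1 h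
  · exact w2 h


/-- Let d be a non-identity 3-element of a finite group and P a 2-subgroup normalized by d on which ⟨d⟩ acts faithfully (no non-identity power of d centralizes P) and without non-identity fixed points (C_P(d) = 1). If every abelian subgroup of P has 2-rank at most 2, then d has order 3. -/
theorem result {X : Type*} [Group X] [Finite X] (d : X) (n : ℕ) (hn : 1 ≤ n) (hd : orderOf d = 3 ^ n) (P : Subgroup X) (hP : IsPGroup 2 P) (hdP : d ∈ Subgroup.normalizer (P : Set X)) (hfaith : Subgroup.zpowers d ⊓ Subgroup.centralizer (P : Set X) = ⊥) (hfpf : P ⊓ Subgroup.centralizer {d} = ⊥) (hrank : ∀ V : Subgroup X, V ≤ P → IsMulCommutative V → Cfsg.PRankLE 2 2 V) : orderOf d = 3 := by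
  classical
  by_contra hne3
  have hn2 : 2 ≤ n := by
    by_contra h
    exact hne3 (by rw [hd, show n = 1 by omega, pow_one])
  set m := 3 ^ (n - 1) with hm
  set e := d ^ m with he
  set B := Subgroup.zpowers d with hB
  set A := Subgroup.zpowers e with hA
  have hBn : B ≤ Subgroup.normalizer (P : Set X) := Subgroup.zpowers_le.mpr hdP
  have he1 : e ≠ 1 := fun h => by
    have h1 := orderOf_dvd_of_pow_eq_one h
    rw [hd] at h1
    have := (Nat.pow_dvd_pow_iff_le_right (by norm_num : 1 < 3)).mp h1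
    omega
  have heB : e ∈ B := Subgroup.pow_mem _ (Subgroup.mem_zpowers d) m
  have hePne : ⁅P, A⁆ ≠ ⊥ := fun h => he1 (by
    rw [Subgroup.commutator_comm, Subgroup.commutator_eq_bot_iff_le_centralizer] at h
    have : e ∈ B ⊓ Subgroup.centralizer (P : Set X) := ⟨heB, h (Subgroup.mem_zpowers e)⟩
    rwa [hB, hfaith, Subgroup.mem_bot] at this)
  obtain ⟨Q, ⟨hQP, hQn, hQne⟩, hQmin⟩ := Set.exists_min_image
    {U : Subgroup X | U ≤ P ∧ B ≤ Subgroup.normalizer (U : Set X) ∧ ⁅U, A⁆ ≠ ⊥} (fun U => Nat.card U)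
    (Set.toFinite _) ⟨P, le_rfl, hBn, hePne⟩
  have hQp : IsPGroup 2 Q := hP.to_le hQP
  have hAcard : (Nat.card A).Coprime 2 := by
    obtain ⟨j, _, hj⟩ := (Nat.dvd_prime_pow Nat.prime_three).mp
      (show orderOf e ∣ 3 ^ n from hd ▸ orderOf_pow_dvd m)
    rw [hA, Nat.card_zpowers, hj]
    exact Nat.Coprime.pow_left j (by norm_num)
  haveI : Fact (Nat.Prime 2) := ⟨Nat.prime_two⟩
  obtain ⟨hQA, hstr, -, -⟩ := CfsgLib.GroupB.MinimalAction.main B A Q hQp hQn (Subgroup.zpowers_le.mpr heB)
    (fun b hb => by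
      have : Commute b e := by
        obtain ⟨i, rfl⟩ := hb
        exact ((Commute.refl d).zpow_left i).pow_right m
      rw [hA]
      refine Subgroup.centralizer_le_normalizer _ ?_
      intro z hz
      obtain ⟨j, rfl⟩ := hz
      exact ((this.zpow_right j).symm).eq)
    hAcard hQne fun U hU hUn => by_contra fun hUne =>
      hU.ne (Subgroup.eq_of_le_of_card_ge (le_of_lt hU) (hQmin U ⟨(le_of_lt hU).trans hQP, hUn, hUne⟩))
  -- transfer to the group `Q`
  have hdQ : d ∈ Subgroup.normalizer (Q : Set X) := hQn (Subgroup.mem_zpowers d)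
  let δ : MulAut Q := Q.normalizerMonoidHom ⟨d, hdQ⟩
  have hδn : δ ^ 3 ^ n = 1 := by
    rw [← map_pow, show (⟨d, hdQ⟩ : ↥(Subgroup.normalizer (Q : Set X))) ^ 3 ^ n = 1 from
      Subtype.ext (by rw [SubmonoidClass.coe_pow, ← hd, pow_orderOf_eq_one]; rfl), map_one]
  have hδm : ∀ g : Q, (((δ ^ m) g : Q) : X) = e * g * e⁻¹ := fun g => by
    rw [← map_pow]; rfl
  have hgen : Subgroup.closure (Set.range fun g : Q => g * ((δ ^ m) g)⁻¹) = ⊤ := by
    set L := Subgroup.closure (Set.range fun g : Q => g * ((δ ^ m) g)⁻¹)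
    rw [eq_top_iff]
    intro g _
    have hle : ⁅Q, A⁆ ≤ L.map Q.subtype := Subgroup.commutator_le.mpr fun q hq a ha => by
      obtain ⟨i, hi⟩ := mem_powers_iff_mem_zpowers.mpr ha
      change e ^ i = a at hi
      subst hi
      clear ha
      induction i generalizing q with
      | zero => simp
      | succ i ih =>
        have hq' : e * q * e⁻¹ ∈ Q := (Subgroup.mem_normalizer_iff.mp (hQn heB) q).mp hq
        rw [show ⁅q, e ^ (i + 1)⁆ = (q * (e * q * e⁻¹)⁻¹) * ⁅e * q * e⁻¹, e ^ i⁆ * 1 *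
            1 by rw [pow_succ']; simp only [commutatorElement_def]; group]
        simp only [mul_one]
        refine Subgroup.mul_mem _ ⟨_, Subgroup.subset_closure ⟨⟨q, hq⟩, rfl⟩, ?_⟩ (ih _ hq')
        simp [hδm]
    obtain ⟨y, hy, hyg⟩ := hle (hQA.ge g.2)
    exact (Subtype.ext hyg : y = g) ▸ hy
  have hQ1 : Q ≠ ⊥ := fun h => hQne (by rw [h, Subgroup.commutator_bot_left])
  have hrankQ : ∀ V : Subgroup Q, IsMulCommutative V → (∀ v ∈ V, v ^ 2 = 1) → Nat.card V ≤ 4 := by
    intro V hV hV2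
    have hVc : IsMulCommutative ↥(V.map Q.subtype) := ⟨⟨by
      rintro ⟨_, a, ha, rfl⟩ ⟨_, b, hb, rfl⟩
      exact Subtype.ext (congrArg (fun t : ↥V => ((t : Q) : X)) (mul_comm' (⟨a, ha⟩ : ↥V) ⟨b, hb⟩))⟩⟩
    have h := hrank (V.map Q.subtype) ((Subgroup.map_subtype_le V).trans hQP) hVc
    have h2 := h ⊤ ⟨⟨fun a b => Subtype.ext (mul_comm' a.1 b.1)⟩⟩ (by
      rintro ⟨_, a, ha, rfl⟩ _
      exact Subtype.ext (congrArg Subtype.val (hV2 a ha) : ((a ^ 2 : Q) : X) = 1))
    rwa [Subgroup.card_top, Subgroup.card_map_of_injective Q.subtype_injective] at h2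
  haveI : Nontrivial Q := (Subgroup.nontrivial_iff_ne_bot Q).mpr hQ1
  rcases hstr with hel | ⟨-, hΦ, hcom⟩
  · haveI := hel.1
    have h64 := index_ge hQp δ hn2 hδn ⊥
      (by rw [commutator_def, Subgroup.commutator_le]
          intro a _ b _
          rw [Subgroup.mem_bot, commutatorElement_eq_one_iff_mul_comm]; exact mul_comm' a b)
      bot_ne_top hgen
    rw [Subgroup.index_bot] at h64
    have h4 := hrankQ ⊤ ⟨⟨fun a b => Subtype.ext (mul_comm' a.1 b.1)⟩⟩ fun v _ => Subtype.ext (hel.2 v v.2)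
    rw [Subgroup.card_top] at h4
    omega
  · set Z := Subgroup.center Q with hZ
    haveI := hQp.isNilpotent
    have hcm : ∀ a b : Q, ⁅a, b⁆ ∈ Z := fun a b => hcom ▸ Subgroup.commutator_mem_commutator trivial trivial
    have hsq : ∀ x : Q, x ^ 2 ∈ Z := fun x => hΦ ▸ (CfsgLib.GroupB.MinimalAction.frattini_facts hQp).2 x
    have hZ2 : ∀ z ∈ Z, z ^ 2 = 1 := by
      intro z hz
      let T : Subgroup Q :=
        { carrier := {y | y ∈ Z ∧ y ^ 2 = 1}
          one_mem' := ⟨Z.one_mem, one_pow 2⟩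
          mul_mem' := fun {a b} ha hb => ⟨Z.mul_mem ha.1 hb.1, by
            rw [(show Commute a b from Subgroup.mem_center_iff.mp hb.1 a).mul_pow, ha.2, hb.2, one_mul]⟩
          inv_mem' := fun {a} ha => ⟨Z.inv_mem ha.1, by rw [inv_pow, ha.2, inv_one]⟩ }
      have hle : commutator Q ≤ T := by
        rw [commutator_def, Subgroup.commutator_le]
        intro a _ b _
        refine ⟨hcm a b, ?_⟩
        have hc' : ∀ g : Q, g * ⁅a, b⁆ = ⁅a, b⁆ * g := Subgroup.mem_center_iff.mp (hcm a b)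
        have e1 : ⁅a ^ 2, b⁆ = 1 := commutatorElement_eq_one_iff_mul_comm.mpr
          (Subgroup.mem_center_iff.mp (hsq a) b).symm
        rw [show ⁅a ^ 2, b⁆ = a * ⁅a, b⁆ * a⁻¹ * ⁅a, b⁆ by rw [sq]; simp only [commutatorElement_def]; group,
          hc' a, mul_inv_cancel_right] at e1
        rw [sq]; exact e1
      exact (hle (hcom.symm ▸ hz)).2
    have hZcard : Nat.card Z ≤ 4 := hrankQ Z inferInstance hZ2
    have hZ1 : Z ≠ ⊥ := by
      haveI := hQp.center_nontrivial
      exact (Subgroup.nontrivial_iff_ne_bot _).mp inferInstance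
    have hδZ : ∀ z ∈ Z, δ z ∈ Z := fun z hz =>
      (Subgroup.characteristic_iff_map_le.mp (inferInstance : (Subgroup.center Q).Characteristic) δ) ⟨z, hz, rfl⟩
    have hinv : ∀ x : Q, x ^ 2 = 1 → x ∈ Z := by
      intro x hx
      by_contra hxZ
      obtain ⟨z, hz, hz1⟩ := (Subgroup.bot_or_exists_ne_one Z).resolve_left hZ1
      have hzf : δ z ≠ z := fun h => hz1 (by
        have hmem : (z : X) ∈ P ⊓ Subgroup.centralizer {d} := by
          refine ⟨hQP z.2, Subgroup.mem_centralizer_singleton_iff.mpr ?_⟩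
          have h' : d * (z : X) * d⁻¹ = z := congrArg Subtype.val h
          exact (mul_inv_eq_iff_eq_mul.mp h').symm
        rw [hfpf, Subgroup.mem_bot] at hmem
        exact Subtype.ext hmem)
      let V := Subgroup.closure ({z, δ z, x} : Set Q)
      have hcz : ∀ g ∈ ({z, δ z} : Set Q), ∀ y : Q, y * g = g * y := by
        rintro g (rfl | rfl) y
        · exact Subgroup.mem_center_iff.mp hz y
        · exact Subgroup.mem_center_iff.mp (hδZ z hz) y
      haveI hVc : IsMulCommutative V := by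
        refine Subgroup.isMulCommutative_closure ?_
        intro a ha b hb
        simp only [Set.mem_insert_iff, Set.mem_singleton_iff] at ha hb
        rcases ha with ha | ha | ha
        · exact (hcz a (by simp [ha]) b).symm
        · exact (hcz a (by simp [ha]) b).symm
        · rcases hb with hb | hb | hb
          · exact hcz b (by simp [hb]) a
          · exact hcz b (by simp [hb]) a
          · rw [ha, hb]
      have hV2 : ∀ v ∈ V, v ^ 2 = 1 := by
        intro v hv
        have hcomm : ∀ a ∈ V, ∀ b ∈ V, Commute a b := fun a ha b hb =>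
          congrArg Subtype.val (mul_comm' (⟨a, ha⟩ : V) ⟨b, hb⟩)
        induction hv using Subgroup.closure_induction with
        | mem y hy =>
          rcases hy with rfl | rfl | rfl
          exacts [hZ2 _ hz, hZ2 _ (hδZ _ hz), hx]
        | one => exact one_pow 2
        | mul a b ha hb h1 h2 => rw [(hcomm a ha b hb).mul_pow, h1, h2, one_mul]
        | inv a _ h1 => rw [inv_pow, h1, inv_one]
      have h4 := hrankQ V hVc hV2
      let T : Finset Q := {1, z, δ z, x, z * x}
      have hT : T.card = 5 := by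
        have a0 : δ z ≠ 1 := fun h => hz1 (δ.injective (h.trans (map_one δ).symm))
        have a1 : x ≠ 1 := fun h => hxZ (h ▸ Z.one_mem)
        have a2 : x ≠ z := fun h => hxZ (h ▸ hz)
        have a3 : x ≠ δ z := fun h => hxZ (h ▸ hδZ z hz)
        have a4 : z * x ∉ Z := fun h => hxZ (by simpa using Z.mul_mem (Z.inv_mem hz) h)
        have a5 : z * x ≠ 1 := fun h => a4 (h ▸ Z.one_mem)
        have a6 : z * x ≠ z := fun h => a4 (by rw [h]; exact hz)
        have a7 : z * x ≠ δ z := fun h => a4 (by rw [h]; exact hδZ z hz)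
        have a8 : z * x ≠ x := fun h => hz1 (by simpa using h)
        simp [T, Finset.card_insert_of_notMem, hz1.symm, a0.symm, a1.symm, a2.symm, a3.symm, a5.symm, a6.symm,
          a7.symm, a8.symm, hzf.symm]
      have hle : T.card ≤ Nat.card V := by
        rw [show Nat.card V = (V : Set Q).ncard from Nat.card_coe_set_eq _, ← Set.ncard_coe_finset]
        refine Set.ncard_le_ncard ?_ (Set.toFinite _)
        have hg : ({z, δ z, x} : Set Q) ⊆ V := Subgroup.subset_closure
        intro y hy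
        simp only [T, Finset.coe_insert, Finset.coe_singleton, Set.mem_insert_iff, Set.mem_singleton_iff] at hy
        rcases hy with rfl | rfl | rfl | rfl | rfl
        exacts [V.one_mem, hg (by simp), hg (by simp), hg (by simp), V.mul_mem (hg (by simp)) (hg (by simp))]
      omega
    have hKt : Z ≠ ⊤ := fun h => by
      obtain ⟨z, hz, hz1⟩ := (Subgroup.bot_or_exists_ne_one Z).resolve_left hZ1
      have hab : commutator Q = ⊥ := by
        rw [commutator_def, Subgroup.commutator_eq_bot_iff_le_centralizer, Subgroup.coe_top, Subgroup.centralizer_univ]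
        exact h.ge
      rw [← hcom, hab, Subgroup.mem_bot] at hz
      exact hz1 hz
    exact rank_contradiction Z le_rfl hcm hsq hZ2 hinv hZcard
      (index_ge hQp δ hn2 hδn Z hcom.le hKt hgen)

end Cfsg.Agent.S3738
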