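import Cfsg.Statements.S3741
import Mathlib
import Cfsg.Agent.Lib.GroupB.SylowNumber

set_option autoImplicit false
open Cfsg

namespace Cfsg.Agent.S3741
open scoped commutatorElement

/-- Let A and B be subgroups of a finite p-group with [A, B] ≤ A ∩ B and [A, B] of order at most p. Then |A : C_A(B)| = |B : C_B(A)|. -/
theorem result {G : Type*} [Group G] [Finite G] {p : ℕ} [Fact p.Prime] (hG : IsPGroup p G) (A B : Subgroup G) (hAB : ⁅A, B⁆ ≤ A ⊓ B) (hcard : Nat.card ↥⁅A, B⁆ ≤ p) : (A ⊓ Subgroup.centralizer (B : Set G)).relIndex A = (B ⊓ Subgroup.centralizer (A : Set G)).relIndex B := by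
  classical
  haveI := Fintype.ofFinite G
  set T := ⁅A, B⁆ with hT
  by_cases hT1 : T = ⊥
  · have h1 : A ≤ Subgroup.centralizer (B : Set G) := Subgroup.commutator_eq_bot_iff_le_centralizer.mp hT1
    have h2 : B ≤ Subgroup.centralizer (A : Set G) :=
      Subgroup.commutator_eq_bot_iff_le_centralizer.mp (by rw [Subgroup.commutator_comm]; exact hT1)
    rw [inf_eq_left.mpr h1, inf_eq_left.mpr h2, Subgroup.relIndex_self, Subgroup.relIndex_self]
  have hp : p.Prime := Fact.out
  have hTc : Nat.card T = p := by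
    obtain ⟨n, hn⟩ := (hG.to_subgroup T).exists_card_eq
    rcases n with _ | _ | n
    · exact absurd (Subgroup.eq_bot_of_card_eq T (by simpa using hn)) hT1
    · simpa using hn
    · exfalso
      have h4 : p ^ 2 ≤ p ^ (n + 1 + 1) := Nat.pow_le_pow_right hp.pos (by omega)
      have h5 : p < p ^ 2 := by nlinarith [hp.two_le]
      omega
  -- `T` is central in both factors
  have hcent : ∀ X Y : Subgroup G, ⁅X, Y⁆ = T → T ≤ X → T ≤ Y → ∀ y ∈ Y, ∀ t ∈ T, y * t = t * y := by
    intro X Y hXY hTX hTY y hy t ht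
    have hn : (T.subgroupOf Y).Normal := ⟨fun s hs g => by
      rw [Subgroup.mem_subgroupOf] at hs ⊢
      have hc : ⁅(g : G), (s : G)⁆ ∈ T := by
        have := Subgroup.commutator_mem_commutator g.2 (hTX hs)
        rwa [Subgroup.commutator_comm, hXY] at this
      have := T.mul_mem hc hs
      rw [commutatorElement_def] at this
      simpa using this⟩
    have hcard' : Nat.card (T.subgroupOf Y) = p := by
      rw [Nat.card_congr (Subgroup.subgroupOfEquivOfLe hTY).toEquiv, hTc]
    have hle := CfsgLib.GroupB.SylowNumber.normalizer_le_centralizer_of_card (T.subgroupOf Y) (hcard'.symm ▸ hp) (by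
      rw [hcard']
      obtain ⟨n, hn'⟩ := (hG.to_subgroup Y).exists_card_eq
      rw [hn']
      exact ((Nat.coprime_self_sub_right hp.one_lt.le).mpr (Nat.coprime_one_right p)).pow_left n)
    rw [Subgroup.normalizer_eq_top_iff.mpr hn] at hle
    have := hle (Subgroup.mem_top (⟨y, hy⟩ : Y)) ⟨t, hTY ht⟩ (Subgroup.mem_subgroupOf.mpr ht)
    exact (congrArg Subtype.val this).symm
  -- the centralizer of an element of `X` in `Y` has index `1` or `p`
  have hidx : ∀ X Y : Subgroup G, ⁅X, Y⁆ = T → T ≤ X → T ≤ Y → ∀ x ∈ X,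
      x ∉ Subgroup.centralizer (Y : Set G) →
      p * Nat.card (Y ⊓ Subgroup.centralizer ({x} : Set G) : Subgroup G) = Nat.card Y := by
    intro X Y hXY hTX hTY x hx hxn
    let f : Y →* T :=
      { toFun := fun b => ⟨⁅x, (b : G)⁆, hXY ▸ Subgroup.commutator_mem_commutator hx b.2⟩
        map_one' := Subtype.ext (by simp [commutatorElement_def])
        map_mul' := fun b c => Subtype.ext (by
          have h := hcent X Y hXY hTX hTY b b.2 ⁅x, (c : G)⁆ (hXY ▸ Subgroup.commutator_mem_commutator hx c.2)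
          show ⁅x, (b : G) * (c : G)⁆ = ⁅x, (b : G)⁆ * ⁅x, (c : G)⁆
          rw [show ⁅x, (b : G) * (c : G)⁆ = ⁅x, (b : G)⁆ * ((b : G) * ⁅x, (c : G)⁆ * (b : G)⁻¹) by
            simp only [commutatorElement_def]; group, h, mul_inv_cancel_right]) }
    have hker : Nat.card f.ker = Nat.card (Y ⊓ Subgroup.centralizer ({x} : Set G) : Subgroup G) := by
      refine Nat.card_congr
        { toFun := fun b => ⟨b.1.1, b.1.2, Subgroup.mem_centralizer_singleton_iff.mpr
            (commutatorElement_eq_one_iff_mul_comm.mp (congrArg Subtype.val b.2)).symm⟩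
          invFun := fun b => ⟨⟨b.1, b.2.1⟩, Subtype.ext
            (commutatorElement_eq_one_iff_mul_comm.mpr (Subgroup.mem_centralizer_singleton_iff.mp b.2.2).symm)⟩
          left_inv := fun b => rfl
          right_inv := fun b => rfl }
    have hrange : f.range = ⊤ := by
      refine Subgroup.eq_top_of_card_eq _ ((((Nat.dvd_prime hp).mp (hTc ▸ Subgroup.card_subgroup_dvd_card f.range)).resolve_left (fun h => hxn ?_)).trans hTc.symm)
      intro b hb
      have : f ⟨b, hb⟩ = 1 := by
        have hmem : f ⟨b, hb⟩ ∈ f.range := ⟨_, rfl⟩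
        rwa [Subgroup.eq_bot_of_card_eq _ h, Subgroup.mem_bot] at hmem
      exact (commutatorElement_eq_one_iff_mul_comm.mp (congrArg Subtype.val this)).symm
    have h1 := Subgroup.card_mul_index f.ker
    rw [Subgroup.index_ker, hrange, Subgroup.card_top, hTc, hker, mul_comm] at h1
    exact h1
  -- count commuting pairs
  have hcount : ∀ X Y : Subgroup G, ⁅X, Y⁆ = T → T ≤ X → T ≤ Y →
      p * ∑ a : X, Nat.card (Y ⊓ Subgroup.centralizer ({(a : G)} : Set G) : Subgroup G) =
        Nat.card Y * ((p - 1) * Nat.card (X ⊓ Subgroup.centralizer (Y : Set G) : Subgroup G) + Nat.card X) := by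
    intro X Y hXY hTX hTY
    have e : ∀ a : X, p * Nat.card (Y ⊓ Subgroup.centralizer ({(a : G)} : Set G) : Subgroup G) =
        Nat.card Y * ((if (a : G) ∈ Subgroup.centralizer (Y : Set G) then p - 1 else 0) + 1) := by
      intro a
      split
      · next h =>
        rw [inf_eq_left.mpr (fun y hy => Subgroup.mem_centralizer_singleton_iff.mpr (h y hy)),
          Nat.sub_add_cancel hp.one_lt.le, mul_comm]
      · next h => rw [hidx X Y hXY hTX hTY a a.2 h]; ring
    rw [Finset.mul_sum, Finset.sum_congr rfl fun a _ => e a, ← Finset.mul_sum, Finset.sum_add_distrib,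
      Finset.sum_ite, Finset.sum_const_zero, add_zero, Finset.sum_const, Finset.sum_const, smul_eq_mul, smul_eq_mul, mul_one]
    congr 1
    congr 1
    · rw [mul_comm]
      congr 1
      rw [← Fintype.card_subtype, ← Nat.card_eq_fintype_card]
      exact Nat.card_congr
        { toFun := fun a => ⟨a.1.1, a.1.2, a.2⟩
          invFun := fun a => ⟨⟨a.1, a.2.1⟩, a.2.2⟩
          left_inv := fun a => rfl
          right_inv := fun a => rfl }
    · rw [Finset.card_univ, Nat.card_eq_fintype_card]
  have hsym : ∑ a : A, Nat.card (B ⊓ Subgroup.centralizer ({(a : G)} : Set G) : Subgroup G) =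
      ∑ b : B, Nat.card (A ⊓ Subgroup.centralizer ({(b : G)} : Set G) : Subgroup G) := by
    have e : ∀ (X Y : Subgroup G), ∑ a : X, Nat.card (Y ⊓ Subgroup.centralizer ({(a : G)} : Set G) : Subgroup G) =
        Nat.card {ab : X × Y // Commute (ab.1 : G) (ab.2 : G)} := by
      intro X Y
      rw [← Nat.card_sigma]
      exact Nat.card_congr
        { toFun := fun s => ⟨(s.1, ⟨s.2.1, s.2.2.1⟩), (Subgroup.mem_centralizer_singleton_iff.mp s.2.2.2).symm⟩
          invFun := fun ab => ⟨ab.1.1, ⟨ab.1.2.1, ab.1.2.2, Subgroup.mem_centralizer_singleton_iff.mpr ab.2.symm.eq⟩⟩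
          left_inv := fun s => rfl
          right_inv := fun ab => rfl }
    rw [e, e]
    exact Nat.card_congr
      { toFun := fun ab => ⟨(ab.1.2, ab.1.1), ab.2.symm⟩
        invFun := fun ab => ⟨(ab.1.2, ab.1.1), ab.2.symm⟩
        left_inv := fun ab => rfl
        right_inv := fun ab => rfl }
  have hBA : ⁅B, A⁆ = T := Subgroup.commutator_comm B A
  have h1 := hcount A B rfl (hAB.trans inf_le_left) (hAB.trans inf_le_right)
  have h2 := hcount B A hBA (hAB.trans inf_le_right) (hAB.trans inf_le_left)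
  rw [hsym, h2] at h1
  set a0 := Nat.card (A ⊓ Subgroup.centralizer (B : Set G) : Subgroup G)
  set b0 := Nat.card (B ⊓ Subgroup.centralizer (A : Set G) : Subgroup G)
  have h3 : Nat.card A * b0 = Nat.card B * a0 := by
    refine Nat.eq_of_mul_eq_mul_left (show 0 < p - 1 from Nat.sub_pos_of_lt hp.one_lt) ?_
    nlinarith [h1]
  have ha := Subgroup.card_mul_index ((A ⊓ Subgroup.centralizer (B : Set G)).subgroupOf A)
  rw [Nat.card_congr (Subgroup.subgroupOfEquivOfLe (inf_le_left : A ⊓ Subgroup.centralizer (B : Set G) ≤ A)).toEquiv] at ha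
  have hb := Subgroup.card_mul_index ((B ⊓ Subgroup.centralizer (A : Set G)).subgroupOf B)
  rw [Nat.card_congr (Subgroup.subgroupOfEquivOfLe (inf_le_left : B ⊓ Subgroup.centralizer (A : Set G) ≤ B)).toEquiv] at hb
  change a0 * (A ⊓ Subgroup.centralizer (B : Set G)).relIndex A = _ at ha
  change b0 * (B ⊓ Subgroup.centralizer (A : Set G)).relIndex B = _ at hb
  refine Nat.eq_of_mul_eq_mul_left (show 0 < a0 * b0 from Nat.mul_pos Nat.card_pos Nat.card_pos) ?_
  calc a0 * b0 * (A ⊓ Subgroup.centralizer (B : Set G)).relIndex A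
      = (a0 * (A ⊓ Subgroup.centralizer (B : Set G)).relIndex A) * b0 := by ring
    _ = a0 * (b0 * (B ⊓ Subgroup.centralizer (A : Set G)).relIndex B) := by rw [ha, hb, h3]; ring
    _ = _ := by ring

end Cfsg.Agent.S3741
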