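import Cfsg.Statements.S3742

set_option autoImplicit false
open Cfsg

namespace Cfsg.Agent.S3742
open QuaternionGroup

abbrev Q8 : Type := QuaternionGroup 2

def F (P : Q8 × Q8) : Q8 → Q8
  | .a k => P.1 ^ k.val
  | .xa k => P.2 * P.1 ^ k.val

def rep : Fin 4 → Q8 × Q8
  | 0 => (.a 1, .xa 0)
  | 1 => (.a 1, (.xa 0)⁻¹)
  | 2 => ((.a 1)⁻¹, .xa 0)
  | 3 => ((.a 1)⁻¹, (.xa 0)⁻¹)

def blk (m : Fin 4) : List (Q8 × Q8) :=
  let x := (rep m).1
  let y := (rep m).2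
  [(x, y), (y, x * y), (x * y, x), (y⁻¹, x⁻¹), (x⁻¹, (x * y)⁻¹), ((x * y)⁻¹, y⁻¹)]

def idx (p : Q8 × Q8) : Fin 4 :=
  if p ∈ blk 0 then 0 else if p ∈ blk 1 then 1 else if p ∈ blk 2 then 2 else 3

def pairs : List (Q8 × Q8) := blk 0 ++ blk 1 ++ blk 2 ++ blk 3

theorem mem_pairs : ∀ u v : Q8, u ^ 2 ≠ 1 → v ^ 2 ≠ 1 → v ≠ u → v ≠ u⁻¹ → (u, v) ∈ pairs := by decide +kernel

theorem F_id : ∀ x : Q8, F (.a 1, .xa 0) x = x := by decide +kernel

theorem idx_rep : ∀ m, idx (rep m) = m := by decide +kernel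

theorem rep_mem : ∀ m, rep m ∈ pairs := by decide +kernel

theorem idx_map : ∀ P ∈ pairs, ∀ q ∈ pairs,
    idx (F P q.1, F P q.2) = idx (F P (rep (idx q)).1, F P (rep (idx q)).2) := by decide +kernel

theorem eq_one_of_idx : ∀ P ∈ pairs, (∀ m, idx (F P (rep m).1, F P (rep m).2) = m) → P = (.a 1, .xa 0) := by decide +kernel

theorem F_hom : ∀ P ∈ pairs, (∀ x y, F P (x * y) = F P x * F P y) ∧ (∀ x, F P x = 1 → x = 1) := by decide +kernel

theorem exists_idx : ∀ σ : Equiv.Perm (Fin 4), ∃ P ∈ pairs, ∀ m, idx (F P (rep m).1, F P (rep m).2) = σ m := by decide +kernel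

theorem aut_apply (α : MulAut Q8) (x : Q8) : α x = F (α (.a 1), α (.xa 0)) x := by
  conv_lhs => rw [← F_id x]
  cases x <;> simp only [F, map_pow, map_mul]

theorem aut_mem (α : MulAut Q8) : (α (.a 1), α (.xa 0)) ∈ pairs := by
  have h1 : (QuaternionGroup.a 1 : Q8) ^ 2 ≠ 1 ∧ (QuaternionGroup.xa 0 : Q8) ^ 2 ≠ 1 ∧
    (QuaternionGroup.xa 0 : Q8) ≠ .a 1 ∧ (QuaternionGroup.xa 0 : Q8) ≠ (.a 1)⁻¹ := by decide +kernel
  refine mem_pairs _ _ ?_ ?_ ?_ ?_
  · rw [← map_pow]; exact fun h => h1.1 (α.map_eq_one_iff.mp h)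
  · rw [← map_pow]; exact fun h => h1.2.1 (α.map_eq_one_iff.mp h)
  · exact fun h => h1.2.2.1 (α.injective h)
  · rw [← map_inv]; exact fun h => h1.2.2.2 (α.injective h)

theorem idx_aut (α : MulAut Q8) (q : Q8 × Q8) (hq : q ∈ pairs) :
    idx (α q.1, α q.2) = idx (α (rep (idx q)).1, α (rep (idx q)).2) := by
  obtain ⟨P, hP, e⟩ : ∃ P ∈ pairs, ∀ x, α x = F P x := ⟨_, aut_mem α, aut_apply α⟩
  simp only [e]
  exact idx_map P hP q hq

theorem map_mem (α : MulAut Q8) (m : Fin 4) : (α (rep m).1, α (rep m).2) ∈ pairs := by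
  have h := fun P hP => (show ∀ P ∈ pairs, ∀ m, (F P (rep m).1, F P (rep m).2) ∈ pairs by decide +kernel) P hP m
  obtain ⟨P, hP, e⟩ : ∃ P ∈ pairs, ∀ x, α x = F P x := ⟨_, aut_mem α, aut_apply α⟩
  rw [e, e]
  exact h P hP

def perm (α : MulAut Q8) : Equiv.Perm (Fin 4) where
  toFun m := idx (α (rep m).1, α (rep m).2)
  invFun m := idx (α⁻¹ (rep m).1, α⁻¹ (rep m).2)
  left_inv m := by
    show idx (α⁻¹ (rep (idx (α (rep m).1, α (rep m).2))).1, α⁻¹ (rep (idx (α (rep m).1, α (rep m).2))).2) = m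
    rw [← idx_aut α⁻¹ _ (map_mem α m), MulAut.inv_apply_self, MulAut.inv_apply_self]
    exact idx_rep m
  right_inv m := by
    show idx (α (rep (idx (α⁻¹ (rep m).1, α⁻¹ (rep m).2))).1, α (rep (idx (α⁻¹ (rep m).1, α⁻¹ (rep m).2))).2) = m
    rw [← idx_aut α _ (map_mem α⁻¹ m), MulAut.apply_inv_self, MulAut.apply_inv_self]
    exact idx_rep m


/-- The automorphism group of the quaternion group of order 8 is isomorphic to the symmetric group of degree 4. -/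
theorem result : Nonempty (MulAut (QuaternionGroup 2) ≃* Equiv.Perm (Fin 4)) := by
  let f : MulAut Q8 →* Equiv.Perm (Fin 4) := MonoidHom.mk' perm fun α β => Equiv.ext fun m => by
    show idx (α (β (rep m).1), α (β (rep m).2)) = idx _
    exact idx_aut α _ (map_mem β m)
  refine ⟨MulEquiv.ofBijective f ⟨?_, fun σ => ?_⟩⟩
  · rw [injective_iff_map_eq_one]
    intro α hα
    have h := eq_one_of_idx _ (aut_mem α) fun m => by
      rw [← aut_apply α, ← aut_apply α]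
      exact congrArg (fun s : Equiv.Perm (Fin 4) => s m) hα
    exact MulEquiv.ext fun x => by rw [aut_apply α x, h, F_id]; rfl
  · obtain ⟨P, hP, hσ⟩ := exists_idx σ
    let φ : Q8 →* Q8 := MonoidHom.mk' (F P) (F_hom P hP).1
    have hi : Function.Injective φ := (injective_iff_map_eq_one φ).mpr (F_hom P hP).2
    exact ⟨MulEquiv.ofBijective φ ⟨hi, Finite.injective_iff_surjective.mp hi⟩, Equiv.ext hσ⟩

end Cfsg.Agent.S3742
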