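import Cfsg.Statements.S3748
import Cfsg.Agent.Lib.GroupB.Subnormal
import Cfsg.Agent.Lib.Core

set_option autoImplicit false
open Cfsg

namespace Cfsg.Agent.S3748

/-- Call a proper subgroup M of G primitive when M = N_G(N) for every non-trivial normal subgroup N of M. If M is a primitive subgroup of the finite group G, then no non-trivial subnormal subgroup of G is contained in M; in particular M ∩ F(G) = 1. -/
theorem result {G : Type*} [Group G] [Finite G] (M : Subgroup G) (hM : M ≠ ⊤) (hprim : ∀ N : Subgroup G, N ≤ M → M ≤ Subgroup.normalizer (N : Set G) → N ≠ ⊥ → Subgroup.normalizer (N : Set G) = M) : (∀ L : Subgroup G, L.IsSubnormal → L ≤ M → L = ⊥) ∧ M ⊓ Cfsg.fittingSubgroup G = ⊥ := by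
  have key : ∀ L : Subgroup G, L.IsSubnormal → L ≤ M → L = ⊥ := by
    intro L hL hLM
    obtain ⟨D, hLD, hDM, hMD, hD⟩ := CfsgLib.GroupB.Subnormal.exists_invariant hL hLM
    by_contra hne
    have hDne : D ≠ ⊥ := fun e => hne (le_bot_iff.mp (e ▸ hLD))
    rcases hD with rfl | hD
    · exact hM (top_le_iff.mp hDM)
    · exact hD (hprim D hDM hMD hDne).le
  refine ⟨key, key _ ?_ inf_le_left⟩
  haveI := CfsgLib.Core.isNilpotent_fittingSubgroup (G := G)
  exact CfsgLib.GroupB.Subnormal.of_subgroupOf (Subgroup.Normal.isSubnormal CfsgLib.Core.fittingSubgroup_normal) inf_le_right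
    (CfsgLib.GroupB.Subnormal.of_isNilpotent _)

end Cfsg.Agent.S3748
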