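import Cfsg.Statements.S3749
import Cfsg.Agent.Lib.GroupB.Coprime
import Cfsg.Agent.Lib.Core
import Cfsg.Agent.Lib.Solvable.Basics

set_option autoImplicit false
open Cfsg

namespace Cfsg.Agent.S3749

/-- Call a proper subgroup M of G primitive when M = N_G(N) for every non-trivial normal subgroup N of M. Let M be a primitive subgroup of the finite group G, p a prime with O_p(M) ≠ 1, and N a normal subgroup of G with M ∩ N = 1. Then p does not divide the order of N; for every prime q there is exactly one Sylow q-subgroup of N normalized by M; and if the order of N has at least two prime divisors then M is not a maximal subgroup of G. -/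
theorem result {G : Type*} [Group G] [Finite G] (M : Subgroup G) (hM : M ≠ ⊤) (hprim : ∀ N : Subgroup G, N ≤ M → M ≤ Subgroup.normalizer (N : Set G) → N ≠ ⊥ → Subgroup.normalizer (N : Set G) = M) {p : ℕ} [Fact p.Prime] (hOp : Cfsg.pCore p ↥M ≠ ⊥) (N : Subgroup G) [N.Normal] (hMN : M ⊓ N = ⊥) : ¬ p ∣ Nat.card N ∧ (∀ q : ℕ, [Fact q.Prime] → ∃! Q : Sylow q ↥N, M ≤ Subgroup.normalizer ((Q : Subgroup ↥N).map N.subtype : Set G)) ∧ ((∃ q r : ℕ, q.Prime ∧ r.Prime ∧ q ≠ r ∧ q ∣ Nat.card N ∧ r ∣ Nat.card N) → ¬ IsCoatom M) := by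
  classical
  have hp := (Fact.out : p.Prime)
  set P := (Cfsg.pCore p ↥M).map M.subtype with hPdef
  have hPp : IsPGroup p P := (CfsgLib.Core.isPGroup_pCore (G := ↥M) p).map _
  have hPM : P ≤ M := Subgroup.map_subtype_le _
  have hP1 : P ≠ ⊥ := fun h => hOp (by
    rw [hPdef, Subgroup.map_eq_bot_iff, Subgroup.ker_subtype] at h; exact le_bot_iff.mp h)
  haveI hcn : (Cfsg.pCore p ↥M).Normal := (inferInstance : (Cfsg.pCore p ↥M).Normal)
  have hMP : M ≤ Subgroup.normalizer (P : Set G) := CfsgLib.GroupB.Coprime.le_normalizer_of_conj_mem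
    fun m hm y hy => by
      obtain ⟨z, hz, rfl⟩ := hy
      exact ⟨⟨m, hm⟩ * z * ⟨m, hm⟩⁻¹, hcn.conj_mem z hz ⟨m, hm⟩, rfl⟩
  have hN : Subgroup.normalizer (P : Set G) = M := hprim P hPM hMP hP1
  have hC : N ⊓ Subgroup.centralizer (P : Set G) = ⊥ := by
    rw [eq_bot_iff, ← hMN]
    intro g hg
    exact ⟨hN ▸ Subgroup.centralizer_le_normalizer _ hg.2, hg.1⟩
  have hpN : ¬ p ∣ Nat.card N := by
    intro h
    obtain ⟨⟨y, hy⟩, hyo⟩ := exists_prime_orderOf_dvd_card' p h
    obtain ⟨S, hS⟩ := hPp.exists_le_sylow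
    obtain ⟨Q, hQ⟩ := (IsPGroup.of_card (n := 1) (by rw [Nat.card_zpowers, ← Subgroup.orderOf_coe] at *; rw [pow_one]; exact hyo) :
      IsPGroup p (Subgroup.zpowers y)).exists_le_sylow
    obtain ⟨c, hc⟩ := MulAction.exists_smul_eq G Q S
    have hmem : c * y * c⁻¹ ∈ (S : Subgroup G) := by
      rw [← hc, Sylow.coe_subgroup_smul]
      exact Subgroup.smul_mem_pointwise_smul y (MulAut.conj c) _ (hQ (Subgroup.mem_zpowers y))
    haveI := S.isPGroup'.isNilpotent
    have hne : (N.subgroupOf (S : Subgroup G)) ≠ ⊥ := by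
      intro e
      have h1 : (⟨_, hmem⟩ : (S : Subgroup G)) ∈ N.subgroupOf (S : Subgroup G) :=
        (inferInstance : N.Normal).conj_mem y hy c
      rw [e, Subgroup.mem_bot] at h1
      have h2 : c * y * c⁻¹ = 1 := congrArg Subtype.val h1
      rw [conj_eq_one_iff] at h2
      subst h2
      rw [← Subgroup.orderOf_coe, Subgroup.coe_mk, orderOf_one] at hyo
      exact hp.ne_one hyo.symm
    obtain ⟨⟨⟨z, hzS⟩, hz⟩, hz1⟩ := (Subgroup.ne_bot_iff_exists_ne_one.mp
      (CfsgLib.Solvable.Basics.inf_center_ne_bot _ hne))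
    have hzb : z ∈ N ⊓ Subgroup.centralizer (P : Set G) := ⟨hz.1, Subgroup.mem_centralizer_iff.mpr fun a ha =>
      congrArg Subtype.val (Subgroup.mem_center_iff.mp hz.2 ⟨a, hS ha⟩)⟩
    rw [hC, Subgroup.mem_bot] at hzb
    exact hz1 (Subtype.ext (Subtype.ext hzb))
  have hcop : (Nat.card P).Coprime (Nat.card N) := by
    obtain ⟨k, hk⟩ := IsPGroup.iff_card.mp hPp
    rw [hk]
    exact (hp.coprime_iff_not_dvd.mpr hpN).pow_left k
  haveI := hPp.isNilpotent
  have hsolP : Group.IsSolvable P := inferInstance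
  have huniq : ∀ q : ℕ, [Fact q.Prime] → ∀ Q : Sylow q ↥N, ∀ R : Sylow q ↥N,
      P ≤ Subgroup.normalizer ((Q : Subgroup ↥N).map N.subtype : Set G) →
      P ≤ Subgroup.normalizer ((R : Subgroup ↥N).map N.subtype : Set G) → Q = R := by
    intro q _ Q R hQ hR
    obtain ⟨c, hc, hce⟩ := (CfsgLib.GroupB.Coprime.invariant_sylow (G := N) (A := P) (by rw [Subgroup.normalizer_eq_top]; exact le_top) hcop
      (Or.inr hsolP) q).2 _ _ (CfsgLib.GroupB.Coprime.isSylowOf_map Q) hQ (CfsgLib.GroupB.Coprime.isSylowOf_map R) hR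
    rw [hC, Subgroup.mem_bot] at hc
    subst hc
    apply Sylow.ext
    apply Subgroup.map_injective N.subtype_injective
    rw [← hce]
    ext z; simp
  have hex : ∀ q : ℕ, [Fact q.Prime] → ∃ Q : Sylow q ↥N,
      M ≤ Subgroup.normalizer ((Q : Subgroup ↥N).map N.subtype : Set G) := by
    intro q _
    obtain ⟨⟨R, hR, hRP⟩, -⟩ := CfsgLib.GroupB.Coprime.invariant_sylow (G := N) (A := P) (by rw [Subgroup.normalizer_eq_top]; exact le_top) hcop
      (Or.inr hsolP) q
    obtain ⟨Q, hQ⟩ := hR.exists_sylow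
    have hQR : (Q : Subgroup ↥N).map N.subtype = R := by
      first
        | exact hQ
        | exact hQ.symm
    refine ⟨Q, fun m hm => ?_⟩
    have hmN : m ∈ Subgroup.normalizer (N : Set G) := by rw [Subgroup.normalizer_eq_top]; exact Subgroup.mem_top m
    have h2 := (CfsgLib.GroupB.Coprime.isSylowOf_map Q).map_conj hmN
    obtain ⟨Q', hQ'⟩ := h2.exists_sylow
    have hQ'e : (Q' : Subgroup ↥N).map N.subtype = ((Q : Subgroup ↥N).map N.subtype).map (MulAut.conj m).toMonoidHom := by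
      first
        | exact hQ'
        | exact hQ'.symm
    have hinv : P ≤ Subgroup.normalizer ((Q' : Subgroup ↥N).map N.subtype : Set G) := by
      rw [hQ'e, hQR]
      intro a ha
      have ha' : m⁻¹ * a * m ∈ P := by
        have := (Subgroup.mem_normalizer_iff.mp (hMP (M.inv_mem hm)) a).mp ha
        rwa [inv_inv] at this
      rw [Subgroup.mem_normalizer_iff]
      intro y
      have key : ∀ w : G, w ∈ R.map (MulAut.conj m).toMonoidHom ↔ m⁻¹ * w * m ∈ R := by
        intro w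
        constructor
        · rintro ⟨r, hr, rfl⟩
          simpa [mul_assoc] using hr
        · intro h; exact ⟨_, h, by simp [mul_assoc]⟩
      rw [key, key, (Subgroup.mem_normalizer_iff.mp (hRP ha') (m⁻¹ * y * m))]
      rw [show m⁻¹ * (a * y * a⁻¹) * m = m⁻¹ * a * m * (m⁻¹ * y * m) * (m⁻¹ * a * m)⁻¹ by group]
    have heq := huniq q Q Q' (hQR.symm ▸ hRP) hinv
    rw [CfsgLib.GroupB.Coprime.mem_normalizer_iff_map_conj_eq, ← hQ'e, ← heq]
  refine ⟨hpN, fun q _ => ?_, ?_⟩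
  · obtain ⟨Q, hQ⟩ := hex q
    exact ⟨Q, hQ, fun R hR => huniq q R Q (hPM.trans hR) (hPM.trans hQ)⟩
  · rintro ⟨q, r, hq, hr, hqr, hqN, hrN⟩ hco
    haveI := Fact.mk hq
    haveI := Fact.mk hr
    obtain ⟨Q, hQ⟩ := hex q
    set Q₀ := (Q : Subgroup ↥N).map N.subtype with hQ₀
    have hQN : Q₀ ≤ N := Subgroup.map_subtype_le _
    have hQ1 : Q₀ ≠ ⊥ := fun h => Q.ne_bot_of_dvd_card hqN (by
      rw [hQ₀, Subgroup.map_eq_bot_iff, Subgroup.ker_subtype] at h; exact le_bot_iff.mp h)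
    have hlt : M < M ⊔ Q₀ := lt_of_le_of_ne le_sup_left fun e => hQ1 (by
      rw [eq_bot_iff, ← hMN]; exact fun g hg => ⟨e.symm ▸ Subgroup.mem_sup_right hg, hQN hg⟩)
    have htop : M ⊔ Q₀ = ⊤ := hco.2 _ hlt
    have h1 : ∀ g : G, g ∈ N → g ∈ Q₀ := by
      intro g hg
      obtain ⟨a, ha, b, hb, hab⟩ :=
        (CfsgLib.GroupB.Coprime.mem_sup_of_le_normalizer hQ).mp (show g ∈ Q₀ ⊔ M by rw [sup_comm, htop]; exact Subgroup.mem_top g)
      have hbN : b ∈ N := by
        have h2 : a⁻¹ * g ∈ N := N.mul_mem (N.inv_mem (hQN ha)) hg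
        rwa [← hab, inv_mul_cancel_left] at h2
      have hb0 : b ∈ (⊥ : Subgroup G) := hMN ▸ ⟨hb, hbN⟩
      rw [Subgroup.mem_bot] at hb0
      rw [← hab, hb0, mul_one]; exact ha
    obtain ⟨k, hk⟩ := IsPGroup.iff_card.mp Q.isPGroup'
    have hcard : Nat.card N = q ^ k := by
      rw [← hk, Nat.card_congr (Subgroup.equivMapOfInjective (Q : Subgroup ↥N) _ N.subtype_injective).toEquiv, ← hQ₀,
        le_antisymm hQN h1]
    rw [hcard] at hrN
    exact hqr ((Nat.prime_dvd_prime_iff_eq hr hq).mp (hr.dvd_of_dvd_pow hrN)).symm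

end Cfsg.Agent.S3749
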