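import Cfsg.Statements.S3750
import Cfsg.Agent.Lib.Components.FStar
import Cfsg.Agent.Lib.Core
import Cfsg.Agent.Lib.Solvable.Basics

set_option autoImplicit false
open Cfsg
open scoped commutatorElement

namespace Cfsg.Agent.S3750

/-- Call a proper subgroup M of G primitive when M = N_G(N) for every non-trivial normal subgroup N of M. Let M be a primitive subgroup of the finite group G and N a normal subgroup of G with M ∩ F*(N) ≠ 1. Then F(G) = 1 and F*(N) = F*(G) = E(G); in particular every minimal normal subgroup of G is contained in N. -/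
theorem result {G : Type*} [Group G] [Finite G] (M : Subgroup G) (hM : M ≠ ⊤) (hprim : ∀ N : Subgroup G, N ≤ M → M ≤ Subgroup.normalizer (N : Set G) → N ≠ ⊥ → Subgroup.normalizer (N : Set G) = M) (N : Subgroup G) [N.Normal] (hMF : M ⊓ (Cfsg.generalizedFittingSubgroup ↥N).map N.subtype ≠ ⊥) : Cfsg.fittingSubgroup G = ⊥ ∧ (Cfsg.generalizedFittingSubgroup ↥N).map N.subtype = Cfsg.generalizedFittingSubgroup G ∧ Cfsg.generalizedFittingSubgroup G = Cfsg.layer G ∧ ∀ K : Subgroup G, K.Normal → K ≠ ⊥ → (∀ K' : Subgroup G, K'.Normal → K' ≤ K → K' = ⊥ ∨ K' = K) → K ≤ N := by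
  set Fs := (Cfsg.generalizedFittingSubgroup ↥N).map N.subtype with hFs
  haveI := CfsgLib.Components.generalizedFitting_normal (G := G)
  have hFeq : Cfsg.generalizedFittingSubgroup G ⊓ N = Fs := CfsgLib.Components.gFitting_inf_normal N
  haveI hFsn : Fs.Normal := hFeq ▸ inferInstance
  have hC : Subgroup.centralizer (Fs : Set G) = ⊥ := by
    by_contra hne
    have hK : Subgroup.normalizer ((M ⊓ Fs : Subgroup G) : Set G) = M := by
      refine hprim _ inf_le_left (fun m hm => ?_) hMF
      rw [Subgroup.mem_normalizer_iff]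
      intro y
      constructor
      · intro h; exact ⟨M.mul_mem (M.mul_mem hm h.1) (M.inv_mem hm), hFsn.conj_mem y h.2 m⟩
      · intro h
        have := (⟨M.mul_mem (M.mul_mem (M.inv_mem hm) h.1) hm, by simpa using hFsn.conj_mem _ h.2 m⁻¹⟩ :
          m⁻¹ * (m * y * m⁻¹) * m ∈ M ⊓ Fs)
        simpa [mul_assoc] using this
    have hle : Subgroup.centralizer (Fs : Set G) ≤ M :=
      ((Subgroup.centralizer_le (show ((M ⊓ Fs : Subgroup G) : Set G) ⊆ Fs from fun _ h => h.2)).trans
        (Subgroup.centralizer_le_normalizer _)).trans hK.le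
    have := hprim _ hle (by rw [Subgroup.normalizer_eq_top]; exact le_top) hne
    rw [Subgroup.normalizer_eq_top] at this
    exact hM this.symm
  have hF : Cfsg.fittingSubgroup G = ⊥ := by
    by_contra hne
    haveI := CfsgLib.Core.fittingSubgroup_normal (G := G)
    haveI := CfsgLib.Core.isNilpotent_fittingSubgroup (G := G)
    haveI : Nontrivial (Cfsg.fittingSubgroup G) := (Subgroup.nontrivial_iff_ne_bot _).mpr hne
    haveI : Nontrivial (Subgroup.center (Cfsg.fittingSubgroup G)) := (Subgroup.nontrivial_iff_ne_bot _).mpr fun h =>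
      CfsgLib.Solvable.Basics.inf_center_ne_bot (⊤ : Subgroup (Cfsg.fittingSubgroup G)) top_ne_bot (by rw [h, inf_bot_eq])
    obtain ⟨⟨z, hz⟩, hz1⟩ := exists_ne (1 : Subgroup.center (Cfsg.fittingSubgroup G))
    have hle : Fs ≤ Subgroup.centralizer ({(z : G)} : Set G) := by
      rw [← hFeq]
      refine inf_le_left.trans (sup_le (fun l hl => ?_) (fun f hf => ?_))
      · rw [Subgroup.mem_centralizer_singleton_iff]
        exact commutatorElement_eq_one_iff_mul_comm.mp (Subgroup.mem_bot.mp
          (CfsgLib.Components.layer_commute_fitting.le (Subgroup.commutator_mem_commutator hl z.2)))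
      · rw [Subgroup.mem_centralizer_singleton_iff]
        exact congrArg Subtype.val (Subgroup.mem_center_iff.mp hz ⟨f, hf⟩)
    have hmem : (z : G) ∈ Subgroup.centralizer (Fs : Set G) :=
      Subgroup.mem_centralizer_iff.mpr fun f hf => Subgroup.mem_centralizer_singleton_iff.mp (hle hf)
    rw [hC, Subgroup.mem_bot] at hmem
    exact hz1 (Subtype.ext (Subtype.ext hmem))
  have hgF : Cfsg.generalizedFittingSubgroup G = Cfsg.layer G := by
    rw [Cfsg.generalizedFittingSubgroup, hF, sup_bot_eq]
  have hlay : Cfsg.layer G ≤ N := sSup_le fun L hL => by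
    refine (CfsgLib.Components.le_or_commute hL (Subgroup.Normal.isSubnormal (inferInstance : N.Normal))).resolve_right
      fun h => ?_
    have hLC : L ≤ Subgroup.centralizer (Fs : Set G) := fun l hl => Subgroup.mem_centralizer_iff.mpr fun f hf => by
      have hfN : f ∈ N := Subgroup.map_subtype_le _ hf
      exact (commutatorElement_eq_one_iff_mul_comm.mp (Subgroup.mem_bot.mp
        (h.le (Subgroup.commutator_mem_commutator hl hfN)))).symm
    rw [hC] at hLC
    exact CfsgLib.Components.quasisimple_ne_bot hL.2 (le_bot_iff.mp hLC)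
  refine ⟨hF, ?_, hgF, fun K hKn hK1 hKmin => ?_⟩
  · rw [← hFeq, hgF, inf_eq_left.mpr hlay]
  · refine le_trans ?_ hlay
    rw [← CfsgLib.Components.socle_eq_layer hF]
    exact le_sSup ⟨hK1, hKn, hKmin⟩

end Cfsg.Agent.S3750
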