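import Cfsg.Statements.S3751
import Cfsg.Agent.Lib.Core
import Cfsg.Agent.Lib.LocalBasic
import Cfsg.Agent.Lib.Fusion.Group

set_option autoImplicit false
open Cfsg

namespace Cfsg.Agent.S3751

theorem normalizer_le_of_char {G : Type*} [Group G] (A : Subgroup G) (K : Subgroup ↥A) [hK : K.Characteristic] :
    Subgroup.normalizer (A : Set G) ≤ Subgroup.normalizer ((K.map A.subtype : Subgroup G) : Set G) := by
  have key : ∀ n ∈ Subgroup.normalizer (A : Set G), ∀ x ∈ K.map A.subtype, n * x * n⁻¹ ∈ K.map A.subtype := by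
    rintro n hn _ ⟨x, hx, rfl⟩
    let e : ↥A ≃* ↥A :=
      { toFun := fun a => ⟨n * a * n⁻¹, (Subgroup.mem_normalizer_iff.mp hn a).mp a.2⟩
        invFun := fun a => ⟨n⁻¹ * a * n, by
          simpa using (Subgroup.mem_normalizer_iff.mp (inv_mem hn) a).mp a.2⟩
        left_inv := fun a => Subtype.ext (by simp [mul_assoc])
        right_inv := fun a => Subtype.ext (by simp [mul_assoc])
        map_mul' := fun a b => Subtype.ext (by simp [mul_assoc]) }
    exact ⟨e x, (Subgroup.characteristic_iff_map_eq.mp hK e).le ⟨x, hx, rfl⟩, rfl⟩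
  intro n hn
  refine Subgroup.mem_normalizer_iff.mpr fun x => ⟨key n hn x, fun h => ?_⟩
  simpa [mul_assoc] using key n⁻¹ (inv_mem hn) _ h

/-- Two distinct subgroups M₁, M₂ of G form a primitive pair when, for {i, j} = {1, 2}, every non-trivial normal subgroup A of M_i contained in M₁ ∩ M₂ satisfies N_{M_j}(A) = M₁ ∩ M₂; the pair has characteristic p when moreover C_{M_i}(O_p(M_i)) ≤ O_p(M_i) for both i and O_p(M₁)O_p(M₂) ≤ M₁ ∩ M₂. Let G be a finite group, p a prime dividing its order, with O_p(G) = 1 and every p-local subgroup of characteristic p. Then either G has a primitive pair of characteristic p, or every maximal p-local subgroup M of G is strongly p-embedded in G: M is a proper subgroup, p divides its order, and for every g ∉ M the order of M ∩ gMg⁻¹ is prime to p. -/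
theorem result {G : Type*} [Group G] [Finite G] {p : ℕ} [Fact p.Prime] (hloc : Cfsg.IsOfLocalCharacteristic p G) (hOp : Cfsg.pCore p G = ⊥) : (∃ M₁ M₂ : Subgroup G, M₁ ≠ M₂ ∧ (∀ A : Subgroup G, A ≠ ⊥ → A ≤ M₁ ⊓ M₂ → (M₁ ≤ Subgroup.normalizer (A : Set G) → M₂ ⊓ Subgroup.normalizer (A : Set G) = M₁ ⊓ M₂) ∧ (M₂ ≤ Subgroup.normalizer (A : Set G) → M₁ ⊓ Subgroup.normalizer (A : Set G) = M₁ ⊓ M₂)) ∧ Subgroup.centralizer (Cfsg.pCore p ↥M₁ : Set ↥M₁) ≤ Cfsg.pCore p ↥M₁ ∧ Subgroup.centralizer (Cfsg.pCore p ↥M₂ : Set ↥M₂) ≤ Cfsg.pCore p ↥M₂ ∧ (Cfsg.pCore p ↥M₁).map M₁.subtype ⊔ (Cfsg.pCore p ↥M₂).map M₂.subtype ≤ M₁ ⊓ M₂) ∨ (∀ M : Subgroup G, (∃ T : Subgroup G, IsPGroup p T ∧ T ≠ ⊥ ∧ M = Subgroup.normalizer (T : Set G)) → (∀ L : Subgroup G, (∃ T : Subgroup G, IsPGroup p T ∧ T ≠ ⊥ ∧ L = Subgroup.normalizer (T : Set G)) → M ≤ L → L = M) → M ≠ ⊤ ∧ p ∣ Nat.card M ∧ ∀ g : G, g ∉ M → ¬ p ∣ Nat.card ↥(M ⊓ M.map (MulAut.conj g).toMonoidHom))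 := by
  classical
  let Loc : Subgroup G → Prop := fun L => ∃ T : Subgroup G, IsPGroup p T ∧ T ≠ ⊥ ∧ L = Subgroup.normalizer (T : Set G)
  let Max : Subgroup G → Prop := fun M => Loc M ∧ ∀ L, Loc L → M ≤ L → L = M
  have hne_top : ∀ L, Loc L → L ≠ ⊤ := by
    rintro L ⟨T, hT, hT1, rfl⟩ e
    exact hT1 (le_bot_iff.mp (hOp ▸ CfsgLib.Core.le_pCore (Subgroup.normalizer_eq_top_iff.mp e) hT))
  have hup : ∀ L, Loc L → ∃ M, Max M ∧ L ≤ M := by
    intro L hL
    obtain ⟨M, hM, hmax⟩ := Set.exists_max_image {M | Loc M ∧ L ≤ M} (fun M => Nat.card ↥M) (Set.toFinite _)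
      ⟨L, hL, le_rfl⟩
    exact ⟨M, ⟨hM.1, fun K hK hMK => (Subgroup.eq_of_le_of_card_ge hMK (hmax K ⟨hK, hM.2.trans hMK⟩)).symm⟩, hM.2⟩
  -- a normal subgroup of a maximal local has that local as its normalizer
  have hkey : ∀ M, Max M → ∀ A : Subgroup G, A ≠ ⊥ → A ≤ M → M ≤ Subgroup.normalizer (A : Set G) →
      Subgroup.normalizer (A : Set G) = M := by
    intro M hM A hA1 hAM hMA
    obtain ⟨T, hT, hT1, hMT⟩ := hM.1
    have hc := hloc.2 T hT hT1
    rw [← hMT] at hc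
    haveI hn : (A.subgroupOf M).Normal := (Subgroup.normal_subgroupOf_iff_le_normalizer hAM).mpr hMA
    haveI hpn : (Cfsg.pCore p ↥M).Normal := by
      haveI := CfsgLib.Core.pCore_characteristic (G := ↥M) p
      infer_instance
    have hne : A.subgroupOf M ⊓ Cfsg.pCore p ↥M ≠ ⊥ := by
      intro e
      apply hA1
      have h1 : A.subgroupOf M ≤ Cfsg.pCore p ↥M := fun a ha => hc (Subgroup.mem_centralizer_iff.mpr fun x hx =>
        Subgroup.commute_of_normal_of_disjoint _ _ hpn hn (disjoint_iff.mpr (by rw [inf_comm]; exact e)) x a hx ha)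
      rw [inf_eq_left.mpr h1, Subgroup.subgroupOf_eq_bot, disjoint_iff, inf_eq_left.mpr hAM] at e
      exact e
    haveI := CfsgLib.Core.pCore_characteristic (G := ↥A) p
    set Q := (Cfsg.pCore p ↥A).map A.subtype
    have hQ : IsPGroup p ↥Q := (CfsgLib.Core.isPGroup_pCore p).map _
    have hQ1 : Q ≠ ⊥ := by
      intro e
      apply hne
      set B := (A.subgroupOf M ⊓ Cfsg.pCore p ↥M).map M.subtype
      have hBA : B ≤ A := by rintro _ ⟨x, hx, rfl⟩; exact hx.1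
      haveI : (B.subgroupOf A).Normal := ⟨fun b hb a => by
        obtain ⟨x, hx, e'⟩ := Subgroup.mem_subgroupOf.mp hb
        refine Subgroup.mem_subgroupOf.mpr ⟨⟨a, hAM a.2⟩ * x * ⟨a, hAM a.2⟩⁻¹,
          (inferInstance : (A.subgroupOf M ⊓ Cfsg.pCore p ↥M).Normal).conj_mem x hx _, ?_⟩
        show (a : G) * (x : G) * (a : G)⁻¹ = _
        rw [show (x : G) = (b : G) from e']
        rfl⟩
      have h2 : B.subgroupOf A ≤ Cfsg.pCore p ↥A := CfsgLib.Core.le_pCore inferInstance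
        ((((CfsgLib.Core.isPGroup_pCore (G := ↥M) p).to_le inf_le_right).map M.subtype).comap_of_injective _
          A.subtype_injective)
      refine eq_bot_iff.mpr fun x hx => Subgroup.mem_bot.mpr (Subtype.ext ?_)
      have h3 : (x : G) ∈ Q := ⟨⟨x, hBA ⟨x, hx, rfl⟩⟩, h2 (Subgroup.mem_subgroupOf.mpr ⟨x, hx, rfl⟩), rfl⟩
      rw [e] at h3
      exact Subgroup.mem_bot.mp h3
    have hAQ : Subgroup.normalizer (A : Set G) ≤ Subgroup.normalizer (Q : Set G) :=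
      Cfsg.Agent.S3751.normalizer_le_of_char A _
    have := hM.2 _ ⟨Q, hQ, hQ1, rfl⟩ (hMA.trans hAQ)
    exact le_antisymm (this ▸ hAQ) hMA
  have hpr : ∀ M₁ M₂, Max M₁ → Max M₂ → ∀ A : Subgroup G, A ≠ ⊥ → A ≤ M₁ ⊓ M₂ →
      M₁ ≤ Subgroup.normalizer (A : Set G) → M₂ ⊓ Subgroup.normalizer (A : Set G) = M₁ ⊓ M₂ := by
    intro M₁ M₂ h₁ _ A hA1 hA hn
    rw [hkey M₁ h₁ A hA1 (hA.trans inf_le_left) hn, inf_comm]
  -- a common Sylow subgroup puts both cores into the intersection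
  have hpair : ∀ (M₁ M₂ T : Subgroup G), Max M₁ → Max M₂ → M₁ ≠ M₂ → IsPGroup p ↥T → T ≤ M₁ → T ≤ M₂ →
      ¬ p ∣ T.relIndex M₁ → ¬ p ∣ T.relIndex M₂ →
      ∃ M₁ M₂ : Subgroup G, M₁ ≠ M₂ ∧ (∀ A : Subgroup G, A ≠ ⊥ → A ≤ M₁ ⊓ M₂ → (M₁ ≤ Subgroup.normalizer (A : Set G) → M₂ ⊓ Subgroup.normalizer (A : Set G) = M₁ ⊓ M₂) ∧ (M₂ ≤ Subgroup.normalizer (A : Set G) → M₁ ⊓ Subgroup.normalizer (A : Set G) = M₁ ⊓ M₂)) ∧ Subgroup.centralizer (Cfsg.pCore p ↥M₁ : Set ↥M₁) ≤ Cfsg.pCore p ↥M₁ ∧ Subgroup.centralizer (Cfsg.pCore p ↥M₂ : Set ↥M₂) ≤ Cfsg.pCore p ↥M₂ ∧ (Cfsg.pCore p ↥M₁).map M₁.subtype ⊔ (Cfsg.pCore p ↥M₂).map M₂.subtype ≤ M₁ ⊓ M₂ := by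
    intro M₁ M₂ T h₁ h₂ hne hT hT1 hT2 hi1 hi2
    have hcore : ∀ M, T ≤ M → ¬ p ∣ T.relIndex M → (Cfsg.pCore p ↥M).map M.subtype ≤ T := by
      intro M hTM hi
      let TM : Sylow p ↥M := (hT.comap_subtype (K := M)).toSylow hi
      rintro _ ⟨x, hx, rfl⟩
      exact CfsgLib.Core.pCore_le_sylow TM hx
    have hc : ∀ M, Max M → Subgroup.centralizer (Cfsg.pCore p ↥M : Set ↥M) ≤ Cfsg.pCore p ↥M := by
      intro M hM
      obtain ⟨U, hU, hU1, rfl⟩ := hM.1
      exact hloc.2 U hU hU1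
    refine ⟨M₁, M₂, hne, fun A hA1 hA => ⟨hpr M₁ M₂ h₁ h₂ A hA1 hA, fun h => ?_⟩, hc M₁ h₁, hc M₂ h₂,
      sup_le (le_inf (Subgroup.map_subtype_le _) ((hcore M₁ hT1 hi1).trans hT2))
        (le_inf ((hcore M₂ hT2 hi2).trans hT1) (Subgroup.map_subtype_le _))⟩
    rw [hpr M₂ M₁ h₂ h₁ A hA1 (hA.trans (le_of_eq (inf_comm _ _))) h, inf_comm]
  let PP : Set (Subgroup G × Subgroup G) :=
    {x | Max x.1 ∧ Max x.2 ∧ x.1 ≠ x.2 ∧ p ∣ Nat.card ↥(x.1 ⊓ x.2)}
  by_cases hP : PP.Nonempty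
  · left
    obtain ⟨⟨M, L⟩, ⟨hM, hL, hne, hdvd⟩, hmax⟩ := Set.exists_max_image PP
      (fun x => p ^ (Nat.card ↥(x.1 ⊓ x.2)).factorization p) (Set.toFinite _) hP
    obtain ⟨T₀⟩ := (inferInstance : Nonempty (Sylow p ↥(M ⊓ L)))
    set T := (T₀ : Subgroup ↥(M ⊓ L)).map (M ⊓ L).subtype
    have hT : IsPGroup p ↥T := T₀.2.map _
    have hTle : T ≤ M ⊓ L := Subgroup.map_subtype_le _
    have hcard : Nat.card ↥T = p ^ (Nat.card ↥(M ⊓ L)).factorization p := by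
      rw [Subgroup.card_map_of_injective (Subgroup.subtype_injective _), T₀.card_eq_multiplicity]
    have hT1 : T ≠ ⊥ := by
      intro e
      rw [e, Subgroup.card_bot] at hcard
      have := (Nat.Prime.factorization_pos_of_dvd Fact.out Nat.card_pos.ne' hdvd)
      exact absurd hcard (Nat.one_lt_pow this.ne' (Fact.out : p.Prime).one_lt).ne
    obtain ⟨M₃, hM₃, hTM₃⟩ := hup _ ⟨T, hT, hT1, rfl⟩
    have hgrow : ∀ K, Max K → T ≤ K → p ∣ T.relIndex K →
        ∃ x ∈ Subgroup.normalizer (T : Set G), x ∈ K ∧ ∃ R : Subgroup G, IsPGroup p ↥R ∧ T < R ∧ R ≤ K ∧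
          R ≤ Subgroup.normalizer (T : Set G) ∧ x ∈ R ∧ x ∉ T := by
      intro K _ hTK hd
      obtain ⟨R₀, hR₀⟩ := (hT.comap_subtype (K := K)).exists_le_sylow
      set R₁ := (R₀ : Subgroup ↥K).map K.subtype
      have hle : T ≤ R₁ := fun t ht => ⟨⟨t, hTK ht⟩, hR₀ ht, rfl⟩
      have hlt : T ≠ R₁ := fun e => by
        rw [e, Subgroup.relIndex, Subgroup.subgroupOf,
          Subgroup.comap_map_eq_self_of_injective K.subtype_injective] at hd
        exact R₀.not_dvd_index hd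
      have hR₁ : IsPGroup p ↥R₁ := R₀.2.map _
      obtain ⟨x, hx, hxT⟩ := SetLike.not_le_iff_exists.mp fun h' : R₁ ⊓ Subgroup.normalizer (T : Set G) ≤ T =>
        hlt (CfsgLib.LocalBasic.eq_of_normalizer_inf_le hR₁ hle h')
      exact ⟨x, hx.2, Subgroup.map_subtype_le _ hx.1, R₁ ⊓ Subgroup.normalizer (T : Set G), hR₁.to_le inf_le_left,
        lt_of_le_of_ne (le_inf hle Subgroup.le_normalizer) (fun e => hxT (e.ge hx)),
        inf_le_left.trans (Subgroup.map_subtype_le _), inf_le_right, hx, hxT⟩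
    -- `T` is a Sylow subgroup of one of the two
    have hbig : ∀ K, Max K → T ≤ K → p ∣ T.relIndex K → M₃ = K := by
      intro K hK hTK hd
      obtain ⟨-, -, -, R, hR, hlt, hRK, hRN, -, -⟩ := hgrow K hK hTK hd
      by_contra hne'
      have hle : R ≤ M₃ ⊓ K := le_inf (hRN.trans hTM₃) hRK
      have h1 : p ∣ Nat.card ↥(M₃ ⊓ K) := by
        obtain ⟨k, hk⟩ := IsPGroup.iff_card.mp hR
        refine dvd_trans ?_ (hk ▸ Subgroup.card_dvd_of_le hle)
        refine dvd_pow_self p fun hk0 => ?_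
        rw [hk0, pow_zero] at hk
        have := Subgroup.card_eq_one.mp hk
        exact not_lt_bot (this ▸ hlt)
      have h2 := hmax (M₃, K) ⟨hM₃, hK, hne', h1⟩
      simp only at h2
      rw [← hcard] at h2
      obtain ⟨k, hk⟩ := IsPGroup.iff_card.mp hR
      have h3 : p ^ k ≤ p ^ (Nat.card ↥(M₃ ⊓ K)).factorization p := Nat.pow_le_pow_right (Fact.out : p.Prime).pos
        (((Fact.out : p.Prime).pow_dvd_iff_le_factorization Nat.card_pos.ne').mp (hk ▸ Subgroup.card_dvd_of_le hle))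
      have h4 : Nat.card ↥T < Nat.card ↥R := by
        refine lt_of_le_of_ne (Subgroup.card_le_of_le hlt.le) fun e => hlt.ne ?_
        exact Subgroup.eq_of_le_of_card_ge hlt.le e.ge
      omega
    -- the general step
    have hone : ∀ M L : Subgroup G, Max M → Max L → M ≠ L → T ≤ M → T ≤ L → ¬ p ∣ T.relIndex L →
        ∃ M₁ M₂ : Subgroup G, Max M₁ ∧ Max M₂ ∧ M₁ ≠ M₂ ∧ T ≤ M₁ ∧ T ≤ M₂ ∧ ¬ p ∣ T.relIndex M₁ ∧ ¬ p ∣ T.relIndex M₂ := by
      intro M L hM hL hne hTM hTL hiL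
      by_cases hiM : p ∣ T.relIndex M
      swap
      · exact ⟨M, L, hM, hL, hne, hTM, hTL, hiM, hiL⟩
      obtain ⟨x, hxN, hxM, R, hR, hlt, -, -, hxR, hxT⟩ := hgrow M hM hTM hiM
      have hLx : Max (L.map (MulAut.conj x).toMonoidHom) := by
        obtain ⟨U, hU, hU1, rfl⟩ := hL.1
        refine ⟨⟨U.map (MulAut.conj x).toMonoidHom, hU.map _,
          fun e => hU1 ((Subgroup.map_eq_bot_iff_of_injective _ (MulAut.conj x).injective).mp e),
          Subgroup.map_equiv_normalizer_eq U (MulAut.conj x)⟩, fun K hK hle => ?_⟩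
        obtain ⟨V, hV, hV1, rfl⟩ := hK
        have h1 := hL.2 ((Subgroup.normalizer (V : Set G)).map (MulAut.conj x).symm.toMonoidHom)
          ⟨V.map (MulAut.conj x).symm.toMonoidHom, hV.map _,
            fun e => hV1 ((Subgroup.map_eq_bot_iff_of_injective _ (MulAut.conj x).symm.injective).mp e),
            Subgroup.map_equiv_normalizer_eq V (MulAut.conj x).symm⟩
          (fun y hy => ⟨MulAut.conj x y, hle ⟨y, hy, rfl⟩, (MulAut.conj x).symm_apply_apply y⟩)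
        rw [← h1, Subgroup.map_map]
        convert (Subgroup.map_id _).symm
        ext; simp
      have hxeq : T.map (MulAut.conj x).toMonoidHom = T :=
        (Subgroup.mem_normalizer_iff_map_conj_eq).mp hxN
      refine ⟨L, L.map (MulAut.conj x).toMonoidHom, hL, hLx, fun e => hxT ?_, hTL, hxeq.ge.trans (Subgroup.map_mono hTL),
        hiL, ?_⟩
      · obtain ⟨U, hU, hU1, hLU⟩ := hL.1
        have h1 := hkey L hL U hU1 (hLU ▸ Subgroup.le_normalizer) hLU.le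
        have h2 : x ∈ Subgroup.normalizer (L : Set G) := Subgroup.mem_normalizer_iff_map_conj_eq.mpr e.symm
        have h3 : Subgroup.normalizer (L : Set G) = L := hkey L hL L (fun e0 => hT1 (le_bot_iff.mp (e0 ▸ hTL))) le_rfl
          Subgroup.le_normalizer
        rw [h3] at h2
        -- `⟨T, x⟩` is a `p`-subgroup of `L`
        by_contra hxT'
        have h4 : T ⊔ Subgroup.zpowers x ≤ R := sup_le hlt.le (Subgroup.zpowers_le.mpr hxR)
        have h5 : T ⊔ Subgroup.zpowers x ≤ L := sup_le hTL (Subgroup.zpowers_le.mpr h2)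
        obtain ⟨S₁, hS₁⟩ := ((hR.to_le h4).comap_subtype (K := L)).exists_le_sylow
        let TL : Sylow p ↥L := (hT.comap_subtype (K := L)).toSylow hiL
        have h6 := TL.3 S₁.2 (fun z hz => hS₁ (Subgroup.mem_sup_left hz))
        exact hxT' (h6.le (hS₁ (show (⟨x, h2⟩ : ↥L) ∈ (T ⊔ Subgroup.zpowers x).subgroupOf L from
          Subgroup.mem_sup_right (Subgroup.mem_zpowers x))))
      · rw [← hxeq, Subgroup.relIndex_map_map_of_injective _ _ (MulAut.conj x).injective]; exact hiL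
    obtain ⟨M₁, M₂, h₁, h₂, hne', hT₁, hT₂, hi₁, hi₂⟩ : ∃ M₁ M₂ : Subgroup G,
        Max M₁ ∧ Max M₂ ∧ M₁ ≠ M₂ ∧ T ≤ M₁ ∧ T ≤ M₂ ∧ ¬ p ∣ T.relIndex M₁ ∧ ¬ p ∣ T.relIndex M₂ := by
      by_cases hiL : p ∣ T.relIndex L
      · refine hone L M hL hM hne.symm (hTle.trans inf_le_right) (hTle.trans inf_le_left) fun hiM => hne ?_
        rw [← hbig M hM (hTle.trans inf_le_left) hiM, hbig L hL (hTle.trans inf_le_right) hiL]
      · exact hone M L hM hL hne (hTle.trans inf_le_left) (hTle.trans inf_le_right) hiL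
    exact hpair M₁ M₂ T h₁ h₂ hne' hT hT₁ hT₂ hi₁ hi₂
  · right
    intro M hMl hMm
    have hM : Max M := ⟨hMl, hMm⟩
    obtain ⟨T, hT, hT1, hMT⟩ := hMl
    refine ⟨hne_top M ⟨T, hT, hT1, hMT⟩, ?_, fun g hg hdvd => hP ⟨(M, M.map (MulAut.conj g).toMonoidHom), hM, ?_, ?_, hdvd⟩⟩
    · obtain ⟨k, hk⟩ := IsPGroup.iff_card.mp hT
      refine dvd_trans (dvd_pow_self (n := k) p fun hk0 => hT1 (Subgroup.card_eq_one.mp (show Nat.card ↥T = 1 by rw [hk, hk0, pow_zero]))) ?_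
      exact hk ▸ Subgroup.card_dvd_of_le (hMT ▸ Subgroup.le_normalizer)
    · subst hMT
      refine ⟨⟨T.map (MulAut.conj g).toMonoidHom, hT.map _,
        fun e => hT1 ((Subgroup.map_eq_bot_iff_of_injective _ (MulAut.conj g).injective).mp e),
        Subgroup.map_equiv_normalizer_eq T (MulAut.conj g)⟩, fun K hK hle => ?_⟩
      obtain ⟨V, hV, hV1, rfl⟩ := hK
      have h1 := hM.2 ((Subgroup.normalizer (V : Set G)).map (MulAut.conj g).symm.toMonoidHom)
        ⟨V.map (MulAut.conj g).symm.toMonoidHom, hV.map _,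
          fun e => hV1 ((Subgroup.map_eq_bot_iff_of_injective _ (MulAut.conj g).symm.injective).mp e),
          Subgroup.map_equiv_normalizer_eq V (MulAut.conj g).symm⟩
        (fun y hy => ⟨MulAut.conj g y, hle ⟨y, hy, rfl⟩, (MulAut.conj g).symm_apply_apply y⟩)
      rw [← h1, Subgroup.map_map]
      convert (Subgroup.map_id _).symm
      ext; simp
    · intro e
      refine hg ?_
      have h2 : g ∈ Subgroup.normalizer (M : Set G) := Subgroup.mem_normalizer_iff_map_conj_eq.mpr e.symm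
      have h3 : Subgroup.normalizer (M : Set G) = M :=
        hkey M hM M (fun e0 => hT1 (le_bot_iff.mp (e0 ▸ (hMT ▸ Subgroup.le_normalizer : T ≤ M)))) le_rfl
          Subgroup.le_normalizer
      rwa [h3] at h2

end Cfsg.Agent.S3751
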