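import Cfsg.Statements.S3760

set_option autoImplicit false
open Cfsg

namespace Cfsg.Agent.S3760

/-- Let the group G act transitively on a set X, let x ∈ X with stabilizer H = G_x, and let K ≤ H. Then N_G(K) acts transitively on the set of fixed points of K if and only if every G-conjugate of K contained in H is already an H-conjugate of K. -/
theorem result {G : Type*} [Group G] {X : Type*} [MulAction G X] (htrans : ∀ a b : X, ∃ g : G, g • a = b) (x : X) (K : Subgroup G) (hK : K ≤ MulAction.stabilizer G x) : (∀ a b : X, (∀ k ∈ K, k • a = a) → (∀ k ∈ K, k • b = b) → ∃ g ∈ Subgroup.normalizer (K : Set G), g • a = b) ↔ ∀ g : G, K.map (MulAut.conj g).toMonoidHom ≤ MulAction.stabilizer G x → ∃ h ∈ MulAction.stabilizer G x, K.map (MulAut.conj g).toMonoidHom = K.map (MulAut.conj h).toMonoidHom := by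
  constructor
  · intro h g hg
    have hfix : ∀ k ∈ K, k • (g⁻¹ • x) = g⁻¹ • x := by
      intro k hk
      have h1 : (g * k * g⁻¹) • x = x := hg ⟨k, hk, rfl⟩
      calc k • g⁻¹ • x = g⁻¹ • ((g * k * g⁻¹) • x) := by simp only [smul_smul]; group
        _ = g⁻¹ • x := by rw [h1]
    obtain ⟨n, hn, hnx⟩ := h x (g⁻¹ • x) (fun k hk => hK hk) hfix
    refine ⟨g * n, ?_, ?_⟩
    · show (g * n) • x = x
      rw [mul_smul, hnx, smul_inv_smul]
    · rw [Subgroup.mem_normalizer_iff] at hn
      ext y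
      simp only [Subgroup.mem_map, MulEquiv.coe_toMonoidHom, MulAut.conj_apply]
      constructor
      · rintro ⟨k, hk, rfl⟩
        refine ⟨n⁻¹ * k * n, (hn _).mpr ?_, by group⟩
        convert hk using 1; group
      · rintro ⟨k, hk, rfl⟩
        exact ⟨n * k * n⁻¹, (hn _).mp hk, by group⟩
  · intro h
    have key : ∀ a : X, (∀ k ∈ K, k • a = a) → ∃ g ∈ Subgroup.normalizer (K : Set G), g • a = x := by
      intro a ha
      obtain ⟨g, hg⟩ := htrans a x
      have hle : K.map (MulAut.conj g).toMonoidHom ≤ MulAction.stabilizer G x := by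
        rintro _ ⟨k, hk, rfl⟩
        show (g * k * g⁻¹) • x = x
        rw [← hg, ← mul_smul, inv_mul_cancel_right, mul_smul, ha k hk]
      obtain ⟨u, hu, hgu⟩ := h g hle
      refine ⟨u⁻¹ * g, ?_, ?_⟩
      · rw [Subgroup.mem_normalizer_iff]
        intro y
        have e1 : ∀ z, g * z * g⁻¹ ∈ K.map (MulAut.conj g).toMonoidHom ↔ z ∈ K := fun z =>
          Subgroup.mem_map_iff_mem (f := (MulAut.conj g).toMonoidHom) (MulAut.conj g).injective
        have e2 : ∀ z, u * z * u⁻¹ ∈ K.map (MulAut.conj u).toMonoidHom ↔ z ∈ K := fun z =>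
          Subgroup.mem_map_iff_mem (f := (MulAut.conj u).toMonoidHom) (MulAut.conj u).injective
        show y ∈ K ↔ u⁻¹ * g * y * (u⁻¹ * g)⁻¹ ∈ K
        rw [← e2 (u⁻¹ * g * y * (u⁻¹ * g)⁻¹), ← e1 y, hgu,
          show u * (u⁻¹ * g * y * (u⁻¹ * g)⁻¹) * u⁻¹ = g * y * g⁻¹ by group]
      · rw [mul_smul, hg]
        exact inv_smul_eq_iff.mpr (show u • x = x from hu).symm
    intro a b ha hb
    obtain ⟨g1, h1, e1⟩ := key a ha
    obtain ⟨g2, h2, e2⟩ := key b hb
    exact ⟨g2⁻¹ * g1, Subgroup.mul_mem _ (Subgroup.inv_mem _ h2) h1, by rw [mul_smul, e1, ← e2, inv_smul_smul]⟩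


end Cfsg.Agent.S3760
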