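import Cfsg.Statements.S3761
import Cfsg.Agent.Lib.MaximalClassTwoIso
import Cfsg.Agent.Lib.Metacyclic.Num
import Cfsg.Agent.Lib.GroupB.Coprime

set_option autoImplicit false
open Cfsg

namespace Cfsg.Agent.S3761
open scoped commutatorElement

/-- Let G be a finite non-abelian p-group with a cyclic normal subgroup U of order p^n such that C_G(U) = U. Then either p = 2 and G is dihedral, generalized quaternion or semidihedral of order 2^(n+1); or, writing U₁ for the subgroup generated by the p-th powers of elements of U and M = C_G(U₁), the subgroup U has index p in M and the subgroup Ω₁(M) generated by the elements of M of order dividing p is elementary abelian of order p² and characteristic in G. -/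
theorem result {G : Type*} [Group G] [Finite G] {p : ℕ} [Fact p.Prime] (hG : IsPGroup p G) (hna : ¬ IsMulCommutative G) (U : Subgroup G) [U.Normal] (hU : IsCyclic U) (n : ℕ) (hUn : Nat.card U = p ^ n) (hC : Subgroup.centralizer (U : Set G) = U) : (p = 2 ∧ Nat.card G = 2 ^ (n + 1) ∧ ((∃ m : ℕ, Nonempty (G ≃* DihedralGroup m)) ∨ (∃ m : ℕ, Nonempty (G ≃* QuaternionGroup m)) ∨ Cfsg.IsQuasiDihedral G)) ∨ (U.relIndex (Subgroup.centralizer (Cfsg.powerClosure p 1 U : Set G)) = p ∧ Cfsg.IsElementaryAbelian p (Cfsg.omegaOne p (Subgroup.centralizer (Cfsg.powerClosure p 1 U : Set G))) ∧ Nat.card ↥(Cfsg.omegaOne p (Subgroup.centralizer (Cfsg.powerClosure p 1 U : Set G))) = p ^ 2 ∧ (Cfsg.omegaOne p (Subgroup.centralizer (Cfsg.powerClosure p 1 U : Set G))).Characteristic) := by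
  classical
  have hp : p.Prime := Fact.out
  obtain ⟨u, hu⟩ := (Subgroup.isCyclic_iff_exists_zpowers_eq_top U).mp hU
  subst hu
  have hou : orderOf u = p ^ n := by rw [← hUn, Nat.card_zpowers]
  have hz : ∀ a b : ℤ, u ^ a = u ^ b ↔ (p : ℤ) ^ n ∣ b - a := fun a b => by
    rw [zpow_eq_zpow_iff_modEq, hou, Int.modEq_iff_dvd]; push_cast; rfl
  have hact : ∀ g : G, ∃ r : ℕ, g * u * g⁻¹ = u ^ r := fun g => by
    obtain ⟨r, hr⟩ := mem_powers_iff_mem_zpowers.mpr
      ((inferInstance : (Subgroup.zpowers u).Normal).conj_mem u (Subgroup.mem_zpowers u) g)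
    exact ⟨r, hr.symm⟩
  have hconj : ∀ (g : G) (r : ℕ), g * u * g⁻¹ = u ^ r → ∀ i : ℤ, g * u ^ i * g⁻¹ = u ^ ((r : ℤ) * i) := by
    intro g r hr i
    rw [← conj_zpow, hr, ← zpow_natCast, ← zpow_mul]
  have hmul : ∀ (g h : G) (r s : ℕ), g * u * g⁻¹ = u ^ r → h * u * h⁻¹ = u ^ s → (g * h) * u * (g * h)⁻¹ = u ^ (r * s) := by
    intro g h r s hr hs
    calc (g * h) * u * (g * h)⁻¹ = g * (h * u * h⁻¹) * g⁻¹ := by group
      _ = (g * u * g⁻¹) ^ s := by rw [hs, conj_pow]
      _ = u ^ (r * s) := by rw [hr, ← pow_mul]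
  have hpow : ∀ (g : G) (r : ℕ), g * u * g⁻¹ = u ^ r → ∀ j : ℕ, g ^ j * u * (g ^ j)⁻¹ = u ^ (r ^ j) := by
    intro g r hr j
    induction j with
    | zero => simp
    | succ j ih => rw [pow_succ, pow_succ]; exact hmul _ _ _ _ ih hr
  have hmemU : ∀ (g : G) (r : ℕ), g * u * g⁻¹ = u ^ r → (g ∈ Subgroup.zpowers u ↔ (p : ℤ) ^ n ∣ (r : ℤ) - 1) := by
    intro g r hr
    rw [← hz 1 r, zpow_one, zpow_natCast, ← hr]
    constructor
    · intro h
      obtain ⟨i, rfl⟩ := Subgroup.mem_zpowers_iff.mp h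
      rw [(Commute.zpow_self u i).eq, mul_inv_cancel_right]
    · intro h
      rw [← hC, Subgroup.mem_centralizer_iff]
      intro v hv
      obtain ⟨i, rfl⟩ := Subgroup.mem_zpowers_iff.mp hv
      have h1 : Commute g u := mul_inv_eq_iff_eq_mul.mp h.symm
      exact ((h1.zpow_right i).eq).symm
  -- the exponents are congruent to one modulo p
  have hn0 : n ≠ 0 := by
    intro h0
    have hu1 : u = 1 := orderOf_eq_one_iff.mp (by rw [hou, h0, pow_zero])
    have hall : ∀ g : G, g = 1 := fun g => by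
      have hg : g ∈ Subgroup.zpowers u := by
        rw [← hC, Subgroup.mem_centralizer_iff]
        intro v hv
        obtain ⟨i, rfl⟩ := Subgroup.mem_zpowers_iff.mp hv
        simp [hu1]
      obtain ⟨i, rfl⟩ := Subgroup.mem_zpowers_iff.mp hg
      simp [hu1]
    exact hna ⟨⟨fun a b => by rw [hall a, hall b]⟩⟩
  have hrp : ∀ (g : G) (r : ℕ), g * u * g⁻¹ = u ^ r → (p : ℤ) ∣ (r : ℤ) - 1 := by
    intro g r hr
    obtain ⟨e, he⟩ := hG g
    have h1 := hpow g r hr (p ^ e)
    rw [he, one_mul, inv_one, mul_one, ← zpow_one u, ← zpow_natCast, ← zpow_mul, one_mul, hz] at h1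
    rw [← ZMod.intCast_zmod_eq_zero_iff_dvd]
    have h2 : ((((r ^ p ^ e : ℕ) : ℤ) - 1 : ℤ) : ZMod p) = 0 :=
      (ZMod.intCast_zmod_eq_zero_iff_dvd _ _).mpr ((dvd_pow_self _ hn0).trans h1)
    push_cast at h2 ⊢
    rwa [ZMod.pow_card_pow] at h2
  have hn2 : 2 ≤ n := by
    by_contra hlt
    have h1 : n = 1 := by omega
    have hall : ∀ g : G, g ∈ Subgroup.zpowers u := fun g => by
      obtain ⟨r, hr⟩ := hact g
      rw [hmemU g r hr, h1, pow_one]
      exact hrp g r hr
    refine hna ⟨⟨fun a b => ?_⟩⟩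
    obtain ⟨i, rfl⟩ := Subgroup.mem_zpowers_iff.mp (hall a)
    obtain ⟨j, rfl⟩ := Subgroup.mem_zpowers_iff.mp (hall b)
    exact (Commute.zpow_zpow_self u i j).eq
  obtain ⟨m, rfl⟩ : ∃ m, n = m + 1 := ⟨n - 1, by omega⟩
  -- the centralizer of the p-th powers
  set C := Subgroup.centralizer (Cfsg.powerClosure p 1 (Subgroup.zpowers u) : Set G) with hCdef
  have hup : ∀ i : ℤ, (u ^ (p : ℤ)) ^ i ∈ Cfsg.powerClosure p 1 (Subgroup.zpowers u) := fun i =>
    Subgroup.zpow_mem _ (Subgroup.subset_closure (show u ^ (p : ℤ) ∈ {y : G | ∃ x ∈ Subgroup.zpowers u, y = x ^ (p ^ 1)} from ⟨u, Subgroup.mem_zpowers u, by rw [pow_one, zpow_natCast]⟩)) i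
  have hCiff : ∀ (g : G) (r : ℕ), g * u * g⁻¹ = u ^ r → (g ∈ C ↔ (p : ℤ) ^ m ∣ (r : ℤ) - 1) := by
    intro g r hr
    have h0 : g ∈ C ↔ g * u ^ (p : ℤ) * g⁻¹ = u ^ (p : ℤ) := by
      constructor
      · intro h
        have := Subgroup.mem_centralizer_iff.mp h _ (hup 1)
        rw [zpow_one] at this
        rw [← this, mul_inv_cancel_right]
      · intro h
        have hc : Commute g (u ^ (p : ℤ)) := mul_inv_eq_iff_eq_mul.mp h
        rw [hCdef, Subgroup.mem_centralizer_iff]
        intro v hv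
        suffices Commute g v from this.eq.symm
        induction hv using Subgroup.closure_induction with
        | mem v hv =>
          obtain ⟨x, hx, rfl⟩ := hv
          obtain ⟨i, rfl⟩ := Subgroup.mem_zpowers_iff.mp hx
          rw [pow_one, ← zpow_natCast, zpow_comm]
          exact hc.zpow_right i
        | one => exact Commute.one_right g
        | mul s t _ _ h1 h2 => exact h1.mul_right h2
        | inv s _ h1 => exact h1.inv_right
    rw [h0, hconj g r hr, hz, pow_succ', show (p : ℤ) - (r : ℤ) * p = p * (1 - r) by ring,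
      mul_dvd_mul_iff_left (by exact_mod_cast hp.ne_zero), dvd_sub_comm]
  -- elements of order p modulo U
  have hstep : ∀ g : G, g ∉ Subgroup.zpowers u → ∃ e : ℕ, g ^ p ^ e ∉ Subgroup.zpowers u ∧ (g ^ p ^ e) ^ p ∈ Subgroup.zpowers u := by
    intro g hg
    have hex : ∃ e : ℕ, g ^ p ^ e ∈ Subgroup.zpowers u := by
      obtain ⟨e, he⟩ := hG g
      exact ⟨e, by rw [he]; exact Subgroup.one_mem _⟩
    obtain ⟨e, he⟩ : ∃ e, Nat.find hex = e + 1 := ⟨Nat.find hex - 1, by
      have : Nat.find hex ≠ 0 := fun h => hg (by have := Nat.find_spec hex; rwa [h, pow_zero, pow_one] at this)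
      omega⟩
    refine ⟨e, Nat.find_min hex (by omega), ?_⟩
    rw [← pow_mul, ← pow_succ, ← he]
    exact Nat.find_spec hex
  obtain ⟨g0, hg0⟩ : ∃ g : G, g ∉ Subgroup.zpowers u := by
    by_contra! h
    refine hna ⟨⟨fun a b => ?_⟩⟩
    obtain ⟨i, rfl⟩ := Subgroup.mem_zpowers_iff.mp (h a)
    obtain ⟨j, rfl⟩ := Subgroup.mem_zpowers_iff.mp (h b)
    exact (Commute.zpow_zpow_self u i j).eq
  by_cases hA : p = 2 ∧ (m = 1 ∨ C ≤ Subgroup.zpowers u)
  · left
    obtain ⟨rfl, hA⟩ := hA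
    -- elements outside U act as minus one modulo 2^m
    have hneg : ∀ (g : G) (r : ℕ), g * u * g⁻¹ = u ^ r → g ∉ Subgroup.zpowers u →
        (2 : ℤ) ^ m ∣ (r : ℤ) + 1 ∧ (m = 1 → (2 : ℤ) ^ (m + 1) ∣ (r : ℤ) + 1) := by
      intro g r hr hg
      obtain ⟨s, hs⟩ := hrp g r hr
      push_cast at hs
      rcases hA with h1 | hCU
      · subst h1
        rw [hmemU g r hr] at hg
        have h4 : ¬ (4 : ℤ) ∣ (r : ℤ) - 1 := by simpa using hg
        have h5 : (2 : ℤ) ^ (1 + 1) ∣ (r : ℤ) + 1 := by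
          rcases Int.even_or_odd s with ⟨t, ht⟩ | ⟨t, ht⟩
          · exact absurd ⟨t, by rw [hs, ht]; ring⟩ h4
          · exact ⟨t + 1, by linear_combination hs + 2 * ht⟩
        exact ⟨(pow_dvd_pow 2 (by omega)).trans h5, fun _ => h5⟩
      · refine ⟨?_, fun h1 => ?_⟩
        · have hlem : ∀ (y : G) (t : ℕ), y * u * y⁻¹ = u ^ t → y ∉ Subgroup.zpowers u → y ^ 2 ∈ Subgroup.zpowers u →
              (2 : ℤ) ^ m ∣ (t : ℤ) + 1 := by
            intro y t ht hy hy2
            obtain ⟨a, ha⟩ := hrp y t ht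
            push_cast at ha
            have h2 := (hmemU (y ^ 2) (t ^ 2) (hpow y t ht 2)).mp hy2
            push_cast at h2
            rw [show (t : ℤ) ^ 2 - 1 = 2 * (2 * (a * (a + 1))) by linear_combination ((t : ℤ) + 1 + 2 * a) * ha,
              pow_succ', mul_dvd_mul_iff_left (by norm_num)] at h2
            obtain ⟨m', rfl⟩ : ∃ m', m = m' + 1 := ⟨m - 1, by omega⟩
            rw [pow_succ', mul_dvd_mul_iff_left (by norm_num)] at h2
            rcases Int.even_or_odd a with ⟨b, hb⟩ | ⟨b, hb⟩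
            · exfalso
              apply hy
              apply hCU
              rw [hCiff y t ht, ha, pow_succ']
              refine mul_dvd_mul_left _ (IsCoprime.dvd_of_dvd_mul_right ?_ h2)
              exact IsCoprime.pow_left (show IsCoprime (2 : ℤ) _ from ⟨-b, 1, by rw [hb]; ring⟩)
            · rw [show (t : ℤ) + 1 = 2 * (a + 1) by linear_combination ha, pow_succ']
              refine mul_dvd_mul_left _ (IsCoprime.dvd_of_dvd_mul_left ?_ h2)
              exact IsCoprime.pow_left (show IsCoprime (2 : ℤ) _ from ⟨-b, 1, by rw [hb]; ring⟩)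
          obtain ⟨e, he1, he2⟩ := hstep g hg
          rcases Nat.eq_zero_or_pos e with rfl | hepos
          · rw [pow_zero, pow_one] at he2
            exact hlem g r hr hg he2
          · obtain ⟨e', rfl⟩ : ∃ e', e = e' + 1 := ⟨e - 1, by omega⟩
            exfalso
            set y := g ^ 2 ^ e' with hy
            obtain ⟨t, ht⟩ := hact y
            have hy2 : g ^ 2 ^ (e' + 1) = y ^ 2 := by rw [hy, ← pow_mul, ← pow_succ]
            rw [hy2] at he1 he2
            have h3 := hlem (y ^ 2) (t ^ 2) (hpow y t ht 2) he1 he2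
            obtain ⟨a, ha⟩ := hrp y t ht
            push_cast at ha h3
            rcases Nat.lt_or_ge m 2 with hm | hm
            · apply he1
              rw [hmemU (y ^ 2) (t ^ 2) (hpow y t ht 2)]
              push_cast
              refine (pow_dvd_pow 2 (show m + 1 ≤ 2 by omega)).trans ⟨a * (a + 1), ?_⟩
              linear_combination ((t : ℤ) + 1 + 2 * a) * ha
            · obtain ⟨c, hc⟩ := (pow_dvd_pow (2 : ℤ) hm).trans h3
              have h6 : (4 : ℤ) * (a * a + a - c) = -2 := by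
                linear_combination hc - ((t : ℤ) + 1 + 2 * a) * ha
              omega
        · subst h1
          have hnU : ¬ (2 : ℤ) ^ (1 + 1) ∣ (r : ℤ) - 1 := fun h => hg ((hmemU g r hr).mpr h)
          rcases Int.even_or_odd s with ⟨t, ht⟩ | ⟨t, ht⟩
          · exact absurd ⟨t, by rw [hs, ht]; ring⟩ hnU
          · exact ⟨t + 1, by linear_combination hs + 2 * ht⟩
    have hprod : ∀ g h : G, g ∉ Subgroup.zpowers u → h ∉ Subgroup.zpowers u → g * h ∈ Subgroup.zpowers u := by
      intro g h hg hh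
      obtain ⟨r, hr⟩ := hact g
      obtain ⟨s, hs⟩ := hact h
      obtain ⟨ha, ha'⟩ := hneg g r hr hg
      obtain ⟨hb, hb'⟩ := hneg h s hs hh
      rcases hA with h1 | hCU
      · rw [hmemU _ _ (hmul g h r s hr hs)]
        push_cast
        rw [show (r : ℤ) * s - 1 = ((r : ℤ) + 1) * s - ((s : ℤ) + 1) by ring]
        exact dvd_sub (dvd_mul_of_dvd_left (ha' h1) _) (hb' h1)
      · apply hCU
        rw [hCiff _ _ (hmul g h r s hr hs)]
        push_cast
        rw [show (r : ℤ) * s - 1 = ((r : ℤ) + 1) * s - ((s : ℤ) + 1) by ring]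
        exact dvd_sub (dvd_mul_of_dvd_left ha _) hb
    have hidx : (Subgroup.zpowers u).index = 2 := by
      rw [Subgroup.index_eq_two_iff]
      refine ⟨g0, fun b => ?_⟩
      by_cases hb : b ∈ Subgroup.zpowers u
      · exact Or.inr ⟨hb, fun h => hg0 (((Subgroup.zpowers u).mul_mem_cancel_left hb).mp h)⟩
      · exact Or.inl ⟨hprod b g0 hb hg0, hb⟩
    have hcardG : Nat.card G = 2 ^ (m + 1 + 1) := by
      rw [← (Subgroup.zpowers u).card_mul_index, hidx, hUn, ← pow_succ]
    refine ⟨rfl, hcardG, ?_⟩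
    -- the commutator subgroup
    have hK : (commutator G).index = 4 := by
      have hNn : (Subgroup.zpowers (u ^ 2)).Normal := by
        refine ⟨fun v hv g => ?_⟩
        obtain ⟨i, rfl⟩ := Subgroup.mem_zpowers_iff.mp hv
        obtain ⟨r, hr⟩ := hact g
        refine ⟨(r : ℤ) * i, ?_⟩
        show (u ^ 2) ^ ((r : ℤ) * i) = g * (u ^ 2) ^ i * g⁻¹
        rw [← zpow_natCast u 2, ← zpow_mul, ← zpow_mul, hconj g r hr]
        congr 1; ring
      have hN : Nat.card (Subgroup.zpowers (u ^ 2)) = 2 ^ m := by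
        rw [Nat.card_zpowers, orderOf_pow, hou, pow_succ', Nat.gcd_mul_right_left, Nat.mul_div_cancel_left _ two_pos]
      have hNi : (Subgroup.zpowers (u ^ 2)).index = 4 := by
        have h1 := (Subgroup.zpowers (u ^ 2)).card_mul_index
        rw [hN, hcardG, show (2 : ℕ) ^ (m + 1 + 1) = 2 ^ m * 4 by ring] at h1
        exact Nat.eq_of_mul_eq_mul_left (Nat.two_pow_pos m) h1
      suffices commutator G = Subgroup.zpowers (u ^ 2) by rw [this, hNi]
      refine le_antisymm ?_ (Subgroup.zpowers_le.mpr ?_)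
      · have hq : Nat.card (G ⧸ Subgroup.zpowers (u ^ 2)) = 2 ^ 2 := hNi
        rw [commutator_def, Subgroup.commutator_le]
        intro x _ y _
        rw [← QuotientGroup.eq_one_iff, ← QuotientGroup.mk'_apply, map_commutatorElement, commutatorElement_eq_one_iff_mul_comm]
        exact IsPGroup.commutative_of_card_eq_prime_sq hq _ _
      · obtain ⟨r, hr⟩ := hact g0
        obtain ⟨h1, h1'⟩ := hneg g0 r hr hg0
        have h4 : (4 : ℤ) ∣ (r : ℤ) + 1 := by
          rcases Nat.lt_or_ge m 2 with hm | hm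
          · have hm1 : m = 1 := by omega
            have := h1' hm1
            rwa [hm1] at this
          · exact (pow_dvd_pow (2 : ℤ) hm).trans h1
        obtain ⟨c, hc⟩ := h4
        have hcm : u ^ (2 * (2 * c - 1)) ∈ commutator G := by
          have : u ^ (2 * (2 * c - 1)) = ⁅g0, u⁆ := by
            rw [commutatorElement_def, hr, show (2 : ℤ) * (2 * c - 1) = (r : ℤ) - 1 by linear_combination -hc,
              zpow_sub, zpow_natCast, zpow_one]
          rw [this]
          exact Subgroup.commutator_mem_commutator (Subgroup.mem_top _) (Subgroup.mem_top _)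
        obtain ⟨a, b, hab⟩ : IsCoprime (2 * c - 1) ((2 : ℤ) ^ (m + 1)) :=
          IsCoprime.pow_right ⟨-1, c, by ring⟩
        have h5 : u ^ 2 = (u ^ (2 * (2 * c - 1))) ^ a := by
          rw [← zpow_mul, ← zpow_natCast u 2, hz]
          exact ⟨-2 * b, by push_cast; linear_combination 2 * hab⟩
        rw [h5]
        exact Subgroup.zpow_mem _ hcm a
    rcases CfsgLib.MaximalClassTwoIso.classify (show 3 ≤ m + 1 + 1 by omega) hcardG hK with ⟨k, hk⟩ | ⟨k, hk, a, b, ha, hb, hab⟩ | ⟨k, hk⟩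
    · exact Or.inl ⟨_, hk⟩
    · exact Or.inr (Or.inr ⟨k + 3, by omega, hk, a, b, ha, hb, hab⟩)
    · exact Or.inr (Or.inl ⟨_, hk⟩)
  · right
    push Not at hA
    have hm2 : p = 2 → 2 ≤ m := fun h => by have := (hA h).1; omega
    -- norms of elements of C
    have hgeo : ∀ r : ℕ, (p : ℤ) ^ m ∣ (r : ℤ) - 1 → ∃ q : ℕ, CfsgLib.Metacyclic.Num.geo r p = p * q ∧ ¬ p ∣ q := by
      intro r hr
      rcases eq_or_ne p 2 with rfl | hp2
      · obtain ⟨c, hc⟩ := (pow_dvd_pow (2 : ℤ) (hm2 rfl)).trans hr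
        refine ⟨(r + 1) / 2, ?_, ?_⟩
        · rw [show CfsgLib.Metacyclic.Num.geo r 2 = r + 1 by simp [CfsgLib.Metacyclic.Num.geo, Finset.sum_range_succ, add_comm]]
          omega
        · intro hd
          omega
      · have hr1 : (p : ℤ) ∣ (r : ℤ) - 1 := (dvd_pow_self _ (by omega)).trans hr
        obtain ⟨q, hq⟩ := (CfsgLib.Metacyclic.Num.dvd_geo_iff hp hp2 hr1 p 1).mpr (by simp)
        rw [pow_one] at hq
        refine ⟨q, hq, fun hd => ?_⟩
        have h2 := (CfsgLib.Metacyclic.Num.dvd_geo_iff hp hp2 hr1 p 2).mp (by rw [hq, sq]; exact mul_dvd_mul_left _ hd)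
        nth_rewrite 2 [← pow_one p] at h2
        have := (Nat.pow_dvd_pow_iff_le_right hp.one_lt).mp h2
        omega
    obtain ⟨x, hxC, hxU⟩ : ∃ x, x ∈ C ∧ x ∉ Subgroup.zpowers u := by
      rcases eq_or_ne p 2 with rfl | hp2
      · exact Set.not_subset.mp (hA rfl).2
      · obtain ⟨e, he1, he2⟩ := hstep g0 hg0
        refine ⟨_, ?_, he1⟩
        obtain ⟨r, hr⟩ := hact (g0 ^ p ^ e)
        rw [hCiff _ r hr]
        have h1 := (hmemU _ _ (hpow _ r hr p)).mp he2
        push_cast at h1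
        rw [← CfsgLib.Metacyclic.Num.sub_one_mul_geo] at h1
        have hr1 := hrp _ r hr
        obtain ⟨q, hq⟩ := (CfsgLib.Metacyclic.Num.dvd_geo_iff hp hp2 hr1 p 1).mpr (by simp)
        rw [pow_one] at hq
        have hq' : ¬ p ∣ q := fun hd => by
          have h2 := (CfsgLib.Metacyclic.Num.dvd_geo_iff hp hp2 hr1 p 2).mp (by rw [hq, sq]; exact mul_dvd_mul_left _ hd)
          nth_rewrite 2 [← pow_one p] at h2
          have := (Nat.pow_dvd_pow_iff_le_right hp.one_lt).mp h2
          omega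
        rw [hq, Nat.cast_mul, pow_succ', show ((r : ℤ) - 1) * ((p : ℤ) * q) = p * (((r : ℤ) - 1) * q) by ring,
          mul_dvd_mul_iff_left (by exact_mod_cast hp.ne_zero)] at h1
        exact IsCoprime.dvd_of_dvd_mul_right
          ((Nat.isCoprime_iff_coprime.mpr (hp.coprime_iff_not_dvd.mpr hq')).pow_left) h1
    obtain ⟨r, hr⟩ := hact x
    have hr1 := (hCiff x r hr).mp hxC
    obtain ⟨k, hk⟩ := hr1
    have hk' : ¬ (p : ℤ) ∣ k := fun hd => hxU ((hmemU x r hr).mpr (by rw [hk, pow_succ]; exact mul_dvd_mul_left _ hd))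
    have hkc : IsCoprime (p : ℤ) k := (Nat.prime_iff_prime_int.mp hp).coprime_iff_not_dvd.mpr hk'
    obtain ⟨q, hq, hq'⟩ := hgeo r ⟨k, hk⟩
    have hxp : x ^ p ∈ Subgroup.zpowers u := by
      rw [hmemU _ _ (hpow x r hr p)]
      push_cast
      rw [← CfsgLib.Metacyclic.Num.sub_one_mul_geo, hq, hk, pow_succ]
      exact ⟨k * q, by push_cast; ring⟩
    obtain ⟨t, ht⟩ := Subgroup.mem_zpowers_iff.mp hxp
    obtain ⟨t', rfl⟩ : (p : ℤ) ∣ t := by
      have h1 : x * u ^ t * x⁻¹ = u ^ t := by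
        rw [ht]; group
      rw [hconj x r hr, hz, show t - (r : ℤ) * t = -(((r : ℤ) - 1) * t) by ring, dvd_neg, hk, pow_succ, mul_assoc,
        mul_dvd_mul_iff_left (pow_ne_zero _ (by exact_mod_cast hp.ne_zero))] at h1
      exact hkc.dvd_of_dvd_mul_left h1
    have hiter : ∀ (g : G) (s : ℕ), g * u * g⁻¹ = u ^ s → ∀ (i : ℤ) (j : ℕ),
        (u ^ i * g) ^ j = u ^ (i * (CfsgLib.Metacyclic.Num.geo s j : ℤ)) * g ^ j := by
      intro g s hs i j
      induction j with
      | zero => simp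
      | succ j ih =>
        rw [pow_succ, ih, CfsgLib.Metacyclic.Num.geo_add, CfsgLib.Metacyclic.Num.geo_one, mul_one, pow_succ g j]
        push_cast
        rw [mul_add, zpow_add, ← mul_comm ((s : ℤ) ^ j) i, ← Nat.cast_pow, ← hconj (g ^ j) (s ^ j) (hpow g s hs j) i]
        group
    obtain ⟨a, b, hab⟩ : IsCoprime (q : ℤ) ((p : ℤ) ^ m) :=
      (Nat.isCoprime_iff_coprime.mpr (hp.coprime_iff_not_dvd.mpr hq').symm).pow_right
    set i := -t' * a with hi
    set y := u ^ i * x with hy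
    have hyr : y * u * y⁻¹ = u ^ r := by
      rw [hy]
      calc u ^ i * x * u * (u ^ i * x)⁻¹ = u ^ i * (x * u * x⁻¹) * (u ^ i)⁻¹ := by group
        _ = u ^ r := by rw [hr]; group
    have hyp : y ^ p = 1 := by
      rw [hy, hiter x r hr, ← ht, ← zpow_add, ← zpow_zero u, hz, hq, hi]
      push_cast
      rw [pow_succ']
      exact ⟨-(b * t'), by linear_combination ((p : ℤ) * t') * hab⟩
    have hyU : y ∉ Subgroup.zpowers u := fun h =>
      hxU (((Subgroup.zpowers u).mul_mem_cancel_left (Subgroup.zpow_mem_zpowers u i)).mp h)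
    have hyC : y ∈ C := (hCiff y r hyr).mpr ⟨k, hk⟩
    have hoy : orderOf y = p := orderOf_eq_prime hyp (fun h => hyU (h ▸ Subgroup.one_mem _))
    have hUC : Subgroup.zpowers u ≤ C := fun v hv => by
      obtain ⟨s, hs⟩ := hact v
      rw [hCiff v s hs]
      exact (pow_dvd_pow _ m.le_succ).trans ((hmemU v s hs).mp hv)
    have hyN : Subgroup.zpowers y ≤ Subgroup.normalizer (Subgroup.zpowers u : Set G) := by
      rw [Subgroup.normalizer_eq_top]; exact le_top
    have hCeq : C = Subgroup.zpowers u ⊔ Subgroup.zpowers y := by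
      refine le_antisymm (fun c hc => ?_) (sup_le hUC (Subgroup.zpowers_le.mpr hyC))
      obtain ⟨s, hs⟩ := hact c
      obtain ⟨k', hk''⟩ := (hCiff c s hs).mp hc
      obtain ⟨a', b', hab'⟩ := hkc
      obtain ⟨l, hl⟩ : ∃ l : ℕ, (p : ℤ) ∣ k * l - k' := by
        haveI : NeZero p := ⟨hp.ne_zero⟩
        refine ⟨((b' * k' : ℤ) : ZMod p).val, ?_⟩
        rw [← ZMod.intCast_zmod_eq_zero_iff_dvd]
        push_cast
        rw [ZMod.natCast_zmod_val]
        have h1 : (((a' * p + b' * k : ℤ)) : ZMod p) = ((1 : ℤ) : ZMod p) := by rw [hab']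
        push_cast at h1
        rw [ZMod.natCast_self, mul_zero, zero_add] at h1
        push_cast
        linear_combination (k' : ZMod p) * h1
      have hgl : (p : ℤ) ∣ (CfsgLib.Metacyclic.Num.geo r l : ℤ) - l := by
        rw [← ZMod.intCast_zmod_eq_zero_iff_dvd]
        have hr1' : ((r : ℤ) : ZMod p) = 1 := by
          rw [← sub_eq_zero, ← Int.cast_one, ← Int.cast_sub, ZMod.intCast_zmod_eq_zero_iff_dvd]
          exact hrp x r hr
        push_cast at hr1' ⊢
        simp [CfsgLib.Metacyclic.Num.geo, hr1']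
      have hsame : (y ^ l)⁻¹ * c ∈ Subgroup.zpowers u := by
        have h1 : y ^ l * u * (y ^ l)⁻¹ = c * u * c⁻¹ := by
          rw [hpow y r hyr l, hs, ← zpow_natCast, ← zpow_natCast, hz]
          push_cast
          rw [show (s : ℤ) - (r : ℤ) ^ l = ((s : ℤ) - 1) - ((r : ℤ) ^ l - 1) by ring, ← CfsgLib.Metacyclic.Num.sub_one_mul_geo,
            hk, hk'', pow_succ, show (p : ℤ) ^ m * k' - (p : ℤ) ^ m * k * (CfsgLib.Metacyclic.Num.geo r l : ℤ) =
              (p : ℤ) ^ m * (-((k * l - k') + k * ((CfsgLib.Metacyclic.Num.geo r l : ℤ) - l))) by ring]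
          exact mul_dvd_mul_left _ (dvd_neg.mpr (dvd_add hl (dvd_mul_of_dvd_right hgl _)))
        obtain ⟨w, hw⟩ := hact ((y ^ l)⁻¹ * c)
        rw [hmemU _ w hw, ← hz 1 w, zpow_one, zpow_natCast, ← hw]
        calc u = (y ^ l)⁻¹ * (y ^ l * u * (y ^ l)⁻¹) * y ^ l := by group
          _ = (y ^ l)⁻¹ * (c * u * c⁻¹) * y ^ l := by rw [h1]
          _ = (y ^ l)⁻¹ * c * u * ((y ^ l)⁻¹ * c)⁻¹ := by group
      have := (Subgroup.zpowers u ⊔ Subgroup.zpowers y).mul_mem
        (Subgroup.mem_sup_right (Subgroup.npow_mem_zpowers y l)) (Subgroup.mem_sup_left hsame)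
      rwa [mul_inv_cancel_left] at this
    have hinf : Subgroup.zpowers u ⊓ Subgroup.zpowers y = ⊥ := by
      haveI : Fact (Nat.card (Subgroup.zpowers y)).Prime := ⟨by rw [Nat.card_zpowers, hoy]; exact hp⟩
      rcases Subgroup.eq_bot_or_eq_top_of_prime_card ((Subgroup.zpowers u).subgroupOf (Subgroup.zpowers y)) with h | h
      · rw [Subgroup.subgroupOf_eq_bot] at h
        exact h.eq_bot
      · exact absurd ((Subgroup.subgroupOf_eq_top.mp h) (Subgroup.mem_zpowers y)) hyU
    have hrel : (Subgroup.zpowers u).relIndex C = p := by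
      rw [hCeq, CfsgLib.GroupB.Coprime.relIndex_sup_of_le_normalizer hyN, ← Subgroup.inf_relIndex_right, hinf,
        Subgroup.relIndex_bot_left, Nat.card_zpowers, hoy]
    set z := u ^ p ^ m with hzdef
    have hzy : Commute z y := by
      have h1 : z ∈ Cfsg.powerClosure p 1 (Subgroup.zpowers u) := by
        obtain ⟨m', rfl⟩ : ∃ m', m = m' + 1 := ⟨m - 1, by omega⟩
        refine Subgroup.subset_closure ⟨u ^ p ^ m', Subgroup.npow_mem_zpowers u _, ?_⟩
        rw [hzdef, pow_one, ← pow_mul, ← pow_succ]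
      exact Subgroup.mem_centralizer_iff.mp hyC z h1
    have hzp : z ^ p = 1 := by rw [hzdef, ← pow_mul, ← pow_succ, ← hou, pow_orderOf_eq_one]
    have hzC : z ∈ C := hUC (Subgroup.npow_mem_zpowers u _)
    set W := Subgroup.zpowers z ⊔ Subgroup.zpowers y with hW
    have hzN : Subgroup.zpowers y ≤ Subgroup.normalizer (Subgroup.zpowers z : Set G) := by
      refine le_trans ?_ (Subgroup.centralizer_le_normalizer _)
      rw [Subgroup.zpowers_le, Subgroup.mem_centralizer_iff]
      intro w hw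
      obtain ⟨j, rfl⟩ := Subgroup.mem_zpowers_iff.mp hw
      exact (hzy.zpow_left j).eq
    have hWmem : ∀ w ∈ W, ∃ i j : ℤ, w = z ^ i * y ^ j := by
      intro w hw
      obtain ⟨v, hv, v', hv', rfl⟩ := (CfsgLib.GroupB.Coprime.mem_sup_of_le_normalizer hzN).mp hw
      obtain ⟨i, rfl⟩ := Subgroup.mem_zpowers_iff.mp hv
      obtain ⟨j, rfl⟩ := Subgroup.mem_zpowers_iff.mp hv'
      exact ⟨i, j, rfl⟩
    have hWexp : ∀ w ∈ W, w ^ p = 1 := by
      intro w hw
      obtain ⟨i, j, rfl⟩ := hWmem w hw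
      rw [(hzy.zpow_zpow i j).mul_pow, ← zpow_natCast (z ^ i), zpow_comm, zpow_natCast, hzp,
        ← zpow_natCast (y ^ j), zpow_comm, zpow_natCast, hyp, one_zpow, one_zpow, one_mul]
    have hΩ : Cfsg.omegaOne p C = W := by
      refine le_antisymm ((Subgroup.closure_le _).mpr ?_) (sup_le ?_ ?_)
      · rintro g ⟨hgC, hgp⟩
        have hg2 : g ∈ Subgroup.zpowers u ⊔ Subgroup.zpowers y := hCeq ▸ hgC
        obtain ⟨v, hv, w, hw, rfl⟩ := (CfsgLib.GroupB.Coprime.mem_sup_of_le_normalizer hyN).mp hg2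
        obtain ⟨i, rfl⟩ := Subgroup.mem_zpowers_iff.mp hv
        obtain ⟨s, hs⟩ := hact w
        have hwC : w ∈ C := (Subgroup.zpowers_le.mpr hyC) hw
        obtain ⟨q', hq1, hq2⟩ := hgeo s ((hCiff w s hs).mp hwC)
        have hwp : w ^ p = 1 := by
          obtain ⟨j, rfl⟩ := Subgroup.mem_zpowers_iff.mp hw
          rw [← zpow_natCast (y ^ j), zpow_comm, zpow_natCast, hyp, one_zpow]
        rw [hiter w s hs, hwp, mul_one, ← zpow_zero u, hz, hq1] at hgp
        push_cast at hgp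
        rw [pow_succ', show 0 - i * ((p : ℤ) * q') = p * (-(i * q')) by ring,
          mul_dvd_mul_iff_left (by exact_mod_cast hp.ne_zero), dvd_neg] at hgp
        obtain ⟨c, rfl⟩ := IsCoprime.dvd_of_dvd_mul_right
          ((Nat.isCoprime_iff_coprime.mpr (hp.coprime_iff_not_dvd.mpr hq2)).pow_left) hgp
        refine Subgroup.mul_mem _ (Subgroup.mem_sup_left ⟨c, ?_⟩) (Subgroup.mem_sup_right hw)
        show z ^ c = u ^ ((p : ℤ) ^ m * c)
        rw [hzdef, ← zpow_natCast u, ← zpow_mul]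
        push_cast
        rfl
      · exact Subgroup.zpowers_le.mpr (Subgroup.subset_closure ⟨hzC, hzp⟩)
      · exact Subgroup.zpowers_le.mpr (Subgroup.subset_closure ⟨hyC, hyp⟩)
    have hcardW : Nat.card W = p ^ 2 := by
      have hzi : Subgroup.zpowers z ⊓ Subgroup.zpowers y = ⊥ :=
        le_bot_iff.mp (hinf ▸ inf_le_inf_right _ (Subgroup.zpowers_le.mpr (Subgroup.npow_mem_zpowers u _)))
      have hoz : orderOf z = p := by
        rw [hzdef, orderOf_pow, hou, Nat.gcd_eq_right (pow_dvd_pow p m.le_succ), Nat.pow_div m.le_succ hp.pos]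
        simp
      rw [CfsgLib.GroupB.Coprime.card_sup_eq hzN hzi, Nat.card_zpowers, Nat.card_zpowers, hoz, hoy, sq]
    have hCn : C.Normal := by
      refine ⟨fun c hc g => ?_⟩
      obtain ⟨rg, hrg⟩ := hact g
      obtain ⟨rg', hrg'⟩ := hact g⁻¹
      obtain ⟨rc, hrc⟩ := hact c
      rw [hCiff _ _ (hmul _ _ _ _ (hmul g c rg rc hrg hrc) hrg')]
      have h1 : (p : ℤ) ^ (m + 1) ∣ ((rg * rg' : ℕ) : ℤ) - 1 := by
        rw [← hmemU _ _ (hmul g g⁻¹ rg rg' hrg hrg'), mul_inv_cancel]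
        exact Subgroup.one_mem _
      have h2 := (hCiff c rc hrc).mp hc
      push_cast at h1 ⊢
      rw [show (rg : ℤ) * rc * rg' - 1 = (rg * rg' : ℤ) * ((rc : ℤ) - 1) + ((rg : ℤ) * rg' - 1) by ring]
      exact dvd_add (dvd_mul_of_dvd_right h2 _) ((pow_dvd_pow _ m.le_succ).trans h1)
    have hWn : W.Normal := by
      refine ⟨fun w hw g => ?_⟩
      rw [← hΩ]
      refine Subgroup.subset_closure ⟨hCn.conj_mem w ?_ g, by rw [conj_pow, hWexp w hw, mul_one, mul_inv_cancel]⟩
      exact (sup_le (Subgroup.zpowers_le.mpr hzC) (Subgroup.zpowers_le.mpr hyC) : W ≤ C) hw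
    refine ⟨hrel, ?_, hΩ ▸ hcardW, ?_⟩
    · rw [hΩ]
      refine ⟨⟨⟨fun v w => Subtype.ext ?_⟩⟩, hWexp⟩
      obtain ⟨i, j, hv⟩ := hWmem v v.2
      obtain ⟨i', j', hw⟩ := hWmem w w.2
      show (v : G) * w = w * v
      rw [hv, hw]
      have e1 : Commute (z ^ i * y ^ j) (z ^ i') :=
        (Commute.zpow_zpow_self z i i').mul_left (hzy.zpow_zpow i' j).symm
      have e2 : Commute (z ^ i * y ^ j) (y ^ j') :=
        (hzy.zpow_zpow i j').mul_left (Commute.zpow_zpow_self y j j')
      exact (e1.mul_right e2).eq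
    · rw [hΩ, Subgroup.characteristic_iff_map_le]
      intro φ
      rintro _ ⟨w, hw, rfl⟩
      set g := φ.toMonoidHom w with hg
      have hgp : g ^ p = 1 := by rw [hg, ← map_pow, hWexp w hw, map_one]
      rw [← hΩ]
      refine Subgroup.subset_closure ⟨?_, hgp⟩
      obtain ⟨s, hs⟩ := hact g
      rw [hCiff g s hs]
      -- the commutator with u lies in the image of W
      set d := g * u * g⁻¹ * u⁻¹ with hd
      have hdp : d ^ p = 1 := by
        obtain ⟨u', rfl⟩ := φ.surjective u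
        have : d = φ (w * u' * w⁻¹ * u'⁻¹) := by rw [hd, hg]; simp
        rw [this, ← map_pow, hWexp _ ?_, map_one]
        have hwc := hWn.conj_mem _ (W.inv_mem hw) u'
        rw [show w * u' * w⁻¹ * u'⁻¹ = w * (u' * w⁻¹ * u'⁻¹) by group]
        exact W.mul_mem hw hwc
      rw [hd, hs, ← zpow_natCast u s, ← zpow_sub_one, ← zpow_natCast, ← zpow_mul, ← zpow_zero u, hz, pow_succ,
        show 0 - ((s : ℤ) - 1) * p = -((((s : ℤ)) - 1) * p) by ring, dvd_neg,
        mul_dvd_mul_iff_right (by exact_mod_cast hp.ne_zero)] at hdp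
      exact hdp

end Cfsg.Agent.S3761
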