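import Cfsg.Statements.S3770
import Cfsg.Agent.Lib.GroupB.FrobBasic
import Mathlib.Tactic

set_option autoImplicit false
open Cfsg

namespace Cfsg.Agent.S3770

open scoped commutatorElement

noncomputable def fixS {G V : Type*} [Group G] [CommGroup V] (φ : G →* MulAut V) (S : Subgroup G) :
    Subgroup V where
  carrier := {x | ∀ s ∈ S, φ s x = x}
  one_mem' := fun s _ => map_one (φ s)
  mul_mem' := fun ha hb s hs => by rw [map_mul, ha s hs, hb s hs]
  inv_mem' := fun ha s hs => by rw [map_inv, ha s hs]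

noncomputable def normS {G V : Type*} [Group G] [Finite G] [CommGroup V] (φ : G →* MulAut V)
    (S : Subgroup G) : V →* V :=
  haveI := Fintype.ofFinite S
  { toFun := fun x => ∏ a : S, φ a x
    map_one' := by simp
    map_mul' := fun x y => by simp [Finset.prod_mul_distrib] }

section
variable {G V : Type*} [Group G] [Finite G] [CommGroup V] (φ : G →* MulAut V)

theorem mul_ap (a b : G) (x : V) : φ (a * b) x = φ a (φ b x) := by
  rw [map_mul, MulAut.mul_apply]

theorem normS_mem_fix (S : Subgroup G) (x : V) : normS φ S x ∈ fixS φ S := by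
  intro s hs
  letI := Fintype.ofFinite S
  show φ s (∏ a : S, φ a x) = ∏ a : S, φ a x
  rw [map_prod]
  refine Fintype.prod_equiv (Equiv.mulLeft ⟨s, hs⟩) _ _ fun a => ?_
  rw [← mul_ap]; rfl

theorem normS_conj (S : Subgroup G) (g : G) (hg : ∀ a ∈ S, g * a * g⁻¹ ∈ S) (x : V) :
    φ g (normS φ S x) = normS φ S (φ g x) := by
  letI := Fintype.ofFinite S
  show φ g (∏ a : S, φ a x) = ∏ a : S, φ a (φ g x)
  rw [map_prod]
  let f : S → S := fun a => ⟨g * a * g⁻¹, hg a a.2⟩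
  have hf : Function.Injective f := fun a b e => by
    have : g * (a : G) * g⁻¹ = g * b * g⁻¹ := congrArg Subtype.val e
    exact Subtype.ext (mul_left_cancel (mul_right_cancel this))
  refine Fintype.prod_bijective f (Finite.injective_iff_bijective.mp hf) _ _ fun a => ?_
  rw [← mul_ap, ← mul_ap]
  congr 2
  simp [f, mul_assoc]

theorem normS_of_fix (S : Subgroup G) {x : V} (hx : x ∈ fixS φ S) :
    normS φ S x = x ^ Nat.card S := by
  letI := Fintype.ofFinite S
  show ∏ a : S, φ a x = _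
  rw [Finset.prod_congr rfl fun (a : S) _ => hx (a : G) a.2, Finset.prod_const, Finset.card_univ,
    Nat.card_eq_fintype_card]

theorem mem_of_pow {ℓ : ℕ} (hℓ : ℓ.Prime) (hexp : ∀ x : V, x ^ ℓ = 1)
    (hℓG : ¬ ℓ ∣ Nat.card G) (S : Subgroup G) (H : Subgroup V) {x : V}
    (hx : x ^ Nat.card S ∈ H) : x ∈ H := by
  have h1 : (Nat.card S).Coprime (orderOf x) :=
    (((hℓ.coprime_iff_not_dvd.mpr hℓG).symm).coprime_dvd_left
      (Subgroup.card_subgroup_dvd_card S)).coprime_dvd_right (orderOf_dvd_of_pow_eq_one (hexp x))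
  obtain ⟨m, hm⟩ := exists_pow_eq_self_of_coprime h1
  rw [← hm]
  exact H.pow_mem hx m

theorem key {ℓ : ℕ} (hℓ : ℓ.Prime) (hexp : ∀ x : V, x ^ ℓ = 1) (hℓG : ¬ ℓ ∣ Nat.card G)
    {R : Subgroup G} (hR : IsFrobeniusComplement R) {K : Subgroup G} (hKR : K ⊓ R = ⊥)
    (A : Subgroup G) (hAK : A ≤ K) (hAR : ∀ s ∈ R, ∀ a ∈ A, s * a * s⁻¹ ∈ A) (U : Subgroup V)
    (x : V) (hU : ∀ a ∈ A, φ a (normS φ R (φ a⁻¹ x)) ∈ U) : x ∈ U ⊔ fixS φ A := by
  classical
  letI := Fintype.ofFinite A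
  letI := Fintype.ofFinite R
  apply mem_of_pow hℓ hexp hℓG A
  have e1 : ∏ a : A, φ a (normS φ R (φ (a : G)⁻¹ x)) =
      ∏ s : R, ∏ a : A, φ ((a : G) * s * (a : G)⁻¹) x := by
    rw [Finset.prod_comm]
    refine Finset.prod_congr rfl fun a _ => ?_
    show φ a (∏ s : R, φ s (φ (a : G)⁻¹ x)) = _
    rw [map_prod]
    exact Finset.prod_congr rfl fun s _ => by rw [mul_ap, mul_ap]
  rw [← Finset.mul_prod_erase _ _ (Finset.mem_univ (1 : R))] at e1
  have e2 : ∏ a : A, φ ((a : G) * ((1 : R) : G) * (a : G)⁻¹) x = x ^ Nat.card A := by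
    rw [Finset.prod_congr rfl fun (a : A) _ => (by simp : φ ((a : G) * ((1 : R) : G) * (a : G)⁻¹) x = x),
      Finset.prod_const, Finset.card_univ, Nat.card_eq_fintype_card]
  rw [e2] at e1
  rw [eq_mul_inv_of_mul_eq e1.symm]
  refine mul_mem (Subgroup.mem_sup_left (Subgroup.prod_mem U fun a _ => hU a a.2))
    (inv_mem (Subgroup.mem_sup_right (Subgroup.prod_mem (fixS φ A) fun s hs => ?_)))
  have hs1 : (s : G) ≠ 1 := fun e => (Finset.ne_of_mem_erase hs) (Subtype.ext e)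
  let f : A → A := fun a => ⟨(a : G) * (s * (a : G)⁻¹ * (s : G)⁻¹),
    A.mul_mem a.2 (hAR s s.2 _ (A.inv_mem a.2))⟩
  have hf : Function.Injective f := by
    intro a b e
    have e' : (a : G) * (s * (a : G)⁻¹ * (s : G)⁻¹) = (b : G) * (s * (b : G)⁻¹ * (s : G)⁻¹) :=
      congrArg Subtype.val e
    have hc : (s : G) * ((b : G)⁻¹ * a) = (b : G)⁻¹ * a * s := by
      calc (s : G) * ((b : G)⁻¹ * a)
          = (b : G)⁻¹ * ((b : G) * (s * (b : G)⁻¹ * (s : G)⁻¹)) * s * a := by group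
        _ = (b : G)⁻¹ * a * s := by rw [← e']; group
    have := CfsgLib.GroupB.Frobenius.eq_one_of_commute hR hKR s.2 hs1
      (K.mul_mem (K.inv_mem (hAK b.2)) (hAK a.2)) hc
    exact (Subtype.ext (inv_mul_eq_one.mp this)).symm
  have e3 : ∏ a : A, φ ((a : G) * s * (a : G)⁻¹) x = normS φ A (φ s x) := by
    show _ = ∏ a : A, φ a (φ s x)
    refine Fintype.prod_bijective f (Finite.injective_iff_bijective.mp hf) _ _ fun a => ?_
    rw [← mul_ap]
    congr 2
    simp [f, mul_assoc]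
  rw [e3]
  exact normS_mem_fix φ A _

theorem core [Finite V] {ℓ : ℕ} (hℓ : ℓ.Prime) (hexp : ∀ x : V, x ^ ℓ = 1)
    (hℓG : ¬ ℓ ∣ Nat.card G) {R : Subgroup G} (hR : IsFrobeniusComplement R)
    (hfix : Nat.card (fixS φ R) = ℓ) {K : Subgroup G} (hKn : K.Normal) (hKR : K ⊓ R = ⊥)
    (hnil : Group.IsNilpotent K) {k l : G} (hk : k ∈ K) (hl : l ∈ K) (x : V) :
    φ k (φ l x) = φ l (φ k x) := by
  by_cases htriv : ∀ g ∈ K, φ g = 1
  · simp [htriv k hk, htriv l hl]
  push Not at htriv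
  obtain ⟨g0, hg0, hg0'⟩ := htriv
  -- `A`: the elements of the kernel acting centrally
  set A := K ⊓ (Subgroup.centralizer ((K.map φ : Subgroup (MulAut V)) : Set (MulAut V))).comap φ
    with hAdef
  have memA : ∀ a, a ∈ A ↔ a ∈ K ∧ ∀ g ∈ K, φ g * φ a = φ a * φ g := by
    intro a
    simp [hAdef, Subgroup.mem_centralizer_iff]
  have hAn : ∀ g : G, ∀ a ∈ A, g * a * g⁻¹ ∈ A := by
    intro g a ha
    obtain ⟨haK, hac⟩ := (memA a).mp ha
    refine (memA _).mpr ⟨hKn.conj_mem a haK g, fun h hh => ?_⟩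
    have h0 := hac (g⁻¹ * h * g) (by simpa using hKn.conj_mem h hh g⁻¹)
    rw [← map_mul, ← map_mul] at h0
    rw [← map_mul, ← map_mul, show h * (g * a * g⁻¹) = g * (g⁻¹ * h * g * a) * g⁻¹ by group,
      show g * a * g⁻¹ * h = g * (a * (g⁻¹ * h * g)) * g⁻¹ by group]
    simp only [map_mul] at h0 ⊢
    rw [h0]
  have hane : ∃ a ∈ A, φ a ≠ 1 := by
    haveI := hnil
    haveI : Group.IsNilpotent (K.map φ) :=
      Group.nilpotent_of_surjective (φ.subgroupMap K) (φ.subgroupMap_surjective K)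
    haveI : Nontrivial (K.map φ) :=
      ⟨⟨⟨φ g0, Subgroup.mem_map_of_mem φ hg0⟩, 1, fun e => hg0' (congrArg Subtype.val e)⟩⟩
    obtain ⟨⟨z, hz⟩, hzc, hz1⟩ := Subgroup.ne_bot_iff_exists_ne_one.mp
      (Group.IsNilpotent.center_ne_bot (G := K.map φ)) |> fun ⟨⟨w, hw⟩, hw1⟩ =>
        (⟨w, hw, fun e => hw1 (Subtype.ext e)⟩ : ∃ w, w ∈ Subgroup.center (K.map φ) ∧ w ≠ 1)
    obtain ⟨a, haK, rfl⟩ := hz
    refine ⟨a, (memA a).mpr ⟨haK, fun g hg => ?_⟩, fun e => hz1 (Subtype.ext e)⟩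
    exact congrArg Subtype.val (Subgroup.mem_center_iff.mp hzc ⟨φ g, Subgroup.mem_map_of_mem φ hg⟩)
  have hAK : A ≤ K := fun a ha => ((memA a).mp ha).1
  have hcomm : ∀ g ∈ K, ∀ a ∈ A, ∀ y, φ g (φ a y) = φ a (φ g y) := fun g hg a ha y =>
    DFunLike.congr_fun (((memA a).mp ha).2 g hg) y
  -- the fixed vector
  obtain ⟨⟨v, hv⟩, hv1⟩ : ∃ v : fixS φ R, v ≠ 1 := by
    haveI : Nontrivial (fixS φ R) := Finite.one_lt_card_iff_nontrivial.mp (hfix ▸ hℓ.one_lt)
    exact exists_ne 1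
  have hgen : ∀ y ∈ fixS φ R, y ≠ 1 → Subgroup.zpowers y = fixS φ R := by
    intro y hy hy1
    refine Subgroup.eq_of_le_of_card_ge (Subgroup.zpowers_le.mpr hy) ?_
    haveI := Fact.mk hℓ
    rw [hfix, Nat.card_zpowers, orderOf_eq_prime (hexp y) hy1]
  have hv1' : v ≠ 1 := fun e => hv1 (Subtype.ext e)
  set U := Subgroup.closure (Set.range fun a : A => φ a v)
  have hgenU : ∀ a ∈ A, φ a v ∈ U := fun a ha => Subgroup.subset_closure ⟨⟨a, ha⟩, rfl⟩
  have hsup : ∀ y : V, y ∈ U ⊔ fixS φ A := by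
    intro y
    refine key φ hℓ hexp hℓG hR hKR A hAK (fun s _ => hAn s) U y fun a ha => ?_
    have h1 := normS_mem_fix φ R (φ a⁻¹ y)
    rw [← hgen v hv hv1', Subgroup.mem_zpowers_iff] at h1
    obtain ⟨i, hi⟩ := h1
    rw [← hi, map_zpow]
    exact U.zpow_mem (hgenU a ha) i
  have hCn : ∀ g : G, ∀ y ∈ fixS φ A, φ g y ∈ fixS φ A := by
    intro g y hy a ha
    have h0 := hy (g⁻¹ * a * g) (by simpa using hAn g⁻¹ a ha)
    conv_rhs => rw [← h0]
    rw [← mul_ap, ← mul_ap]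
    congr 2
    group
  have hvC : v ∉ fixS φ A := by
    intro hvC
    obtain ⟨a, ha, ha1⟩ := hane
    apply ha1
    have hUC : U ≤ fixS φ A := by
      rw [Subgroup.closure_le]
      rintro _ ⟨b, rfl⟩
      exact hCn _ v hvC
    ext y
    exact (sup_le hUC le_rfl) (hsup y) a ha
  have hCR : ∀ y ∈ fixS φ A, y ∈ fixS φ R → y = 1 := by
    intro y hyA hyR
    by_contra hy1
    apply hvC
    have : v ∈ Subgroup.zpowers y := by rw [hgen y hyR hy1]; exact hv
    exact (Subgroup.zpowers_le.mpr hyA) this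
  -- the kernel centralises the fixed points of `A`
  have hCK : ∀ y ∈ fixS φ A, y ∈ fixS φ K := by
    intro y hy
    have h0 := key φ hℓ hexp hℓG hR hKR K le_rfl (fun s _ a ha => hKn.conj_mem a ha s) ⊥ y ?_
    · simpa using h0
    intro a _
    rw [Subgroup.mem_bot, hCR (normS φ R (φ a⁻¹ y)) ?_ (normS_mem_fix φ R _), map_one]
    letI := Fintype.ofFinite R
    exact Subgroup.prod_mem (fixS φ A) fun s _ => hCn _ _ (hCn _ _ hy)
  have hNv : normS φ A v = 1 := hCR _ (normS_mem_fix φ A v) fun s hs => by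
    rw [normS_conj φ A s (hAn s), hv s hs]
  have hKv : ∀ g ∈ K, φ g v ∈ U := by
    intro g _
    obtain ⟨u, hu, c, hc, huc⟩ := Subgroup.mem_sup.mp (hsup (φ g v))
    have hNu : U ≤ (normS φ A).ker := by
      rw [Subgroup.closure_le]
      rintro _ ⟨b, rfl⟩
      show normS φ A (φ b v) = 1
      rw [← normS_conj φ A b (hAn b), hNv, map_one]
    have h0 : normS φ A (φ g v) = 1 := by rw [← normS_conj φ A g (hAn g), hNv, map_one]
    rw [← huc, map_mul, MonoidHom.mem_ker.mp (hNu hu), one_mul, normS_of_fix φ A hc] at h0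
    have := mem_of_pow hℓ hexp hℓG A ⊥ (x := c) (by simpa using h0)
    rw [Subgroup.mem_bot] at this
    rw [← huc, this, mul_one]; exact hu
  -- endomorphisms commuting with `A` commute on `v`
  let Com : (V →* V) → Prop := fun f => ∀ a ∈ A, ∀ y, f (φ a y) = φ a (f y)
  have hagree : ∀ f g : V →* V, Com f → Com g → f v = g v → ∀ u ∈ U, f u = g u := by
    intro f g hf hg he u hu
    refine MonoidHom.eqOn_closure ?_ hu
    rintro _ ⟨a, rfl⟩
    simp only
    rw [hf a a.2, hg a a.2, he]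
  have hAA : ∀ a ∈ A, Com (φ a).toMonoidHom := fun a ha b hb y => hcomm a (hAK ha) b hb y
  have hE : ∀ u ∈ U, ∃ E : V →* V, E v = u ∧ ∀ f, Com f → ∀ y, f (E y) = E (f y) := by
    intro u hu
    induction hu using Subgroup.closure_induction with
    | mem u hu =>
      obtain ⟨a, rfl⟩ := hu
      exact ⟨(φ a).toMonoidHom, rfl, fun f hf y => hf a a.2 y⟩
    | one => exact ⟨1, rfl, fun f _ y => by simp⟩
    | mul p q _ _ hp hq =>
      obtain ⟨E, hE, hEc⟩ := hp
      obtain ⟨F, hF, hFc⟩ := hq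
      exact ⟨E * F, by simp [hE, hF], fun f hf y => by simp [hEc f hf, hFc f hf]⟩
    | inv p _ hp =>
      obtain ⟨E, hE, hEc⟩ := hp
      exact ⟨E⁻¹, by simp [hE], fun f hf y => by simp [hEc f hf]⟩
  have hKC : ∀ g ∈ K, Com (φ g).toMonoidHom := fun g hg a ha y => hcomm g hg a ha y
  have hv2 : φ k (φ l v) = φ l (φ k v) := by
    obtain ⟨E, hEv, hEc⟩ := hE (φ l v) (hKv l hl)
    have hEA : Com E := fun a ha y => (hEc _ (hAA a ha) y).symm
    have h1 : φ l (φ k v) = E (φ k v) :=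
      hagree (φ l).toMonoidHom E (hKC l hl) hEA hEv.symm _ (hKv k hk)
    rw [h1, ← hEv]
    exact hEc _ (hKC k hk) v
  have hU2 : ∀ u ∈ U, φ k (φ l u) = φ l (φ k u) :=
    hagree ((φ k).toMonoidHom.comp (φ l).toMonoidHom) ((φ l).toMonoidHom.comp (φ k).toMonoidHom)
      (fun a ha y => by simp [hcomm l hl a ha, hcomm k hk a ha])
      (fun a ha y => by simp [hcomm l hl a ha, hcomm k hk a ha]) hv2
  obtain ⟨u, hu, c, hc, rfl⟩ := Subgroup.mem_sup.mp (hsup x)
  have hcK := hCK c hc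
  rw [map_mul, map_mul, map_mul, map_mul, hU2 u hu, hcK l hl, hcK k hk, hcK l hl]

end

/-- Let G and V be subgroups of a finite group with G a Frobenius group with complement R of prime order and kernel K, G normalizing V, and V an elementary abelian ℓ-group for a prime ℓ not dividing the order of G. If C_V(R) has order ℓ, then the derived subgroup of K centralizes V. -/
theorem result {X : Type*} [Group X] [Finite X] (G : Subgroup X) (V : Subgroup X) {ℓ : ℕ} (hℓ : ℓ.Prime) (hV : Cfsg.IsElementaryAbelian ℓ V) (hℓG : ¬ ℓ ∣ Nat.card G) (hGV : G ≤ Subgroup.normalizer (V : Set X)) (R : Subgroup ↥G) (hR : Cfsg.IsFrobeniusComplement R) (hRp : (Nat.card R).Prime) (hCV : Nat.card ↥(V ⊓ Subgroup.centralizer ((R.map G.subtype : Subgroup X) : Set X)) = ℓ) : ⁅Subgroup.closure (Subtype.val '' Cfsg.frobeniusKernel R), Subgroup.closure (Subtype.val '' Cfsg.frobeniusKernel R)⁆ ≤ Subgroup.centralizer (V : Set X) := by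
  
  classical
  obtain ⟨K, hKset, hKn, hKc⟩ := CfsgLib.GroupB.Frobenius.exists_kernel_subgroup hR
  have hnil := CfsgLib.GroupB.FrobBasic.isNilpotent_kernel hR K hKc
  letI : CommGroup V := { (inferInstance : Group V) with mul_comm := fun a b => hV.1.is_comm.comm a b }
  let φ : G →* MulAut V := V.normalizerMonoidHom.comp (Subgroup.inclusion hGV)
  have hφ : ∀ (g : G) (y : V), ((φ g y : V) : X) = (g : X) * y * (g : X)⁻¹ := fun g y => rfl
  have hfix : Nat.card (fixS φ R) = ℓ := by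
    rw [← hCV]
    refine Nat.card_congr
      { toFun := fun y => ⟨((y : V) : X), (y : V).2, ?_⟩
        invFun := fun y => ⟨⟨(y : X), y.2.1⟩, ?_⟩
        left_inv := fun y => rfl
        right_inv := fun y => rfl }
    · refine Subgroup.mem_centralizer_iff.mpr ?_
      rintro _ ⟨s, hs, rfl⟩
      have h0 := congrArg Subtype.val (y.2 s hs)
      rw [hφ] at h0
      exact mul_inv_eq_iff_eq_mul.mp h0
    · intro s hs
      apply Subtype.ext
      rw [hφ]
      exact mul_inv_eq_iff_eq_mul.mpr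
        (Subgroup.mem_centralizer_iff.mp y.2.2 _ ⟨s, hs, rfl⟩)
  have hexp : ∀ y : V, y ^ ℓ = 1 := fun y => Subtype.ext (by simpa using hV.2 y y.2)
  rw [← hKset, show (Subtype.val '' (K : Set G)) = ((K.map G.subtype : Subgroup X) : Set X) from rfl,
    Subgroup.closure_eq, Subgroup.commutator_le]
  rintro _ ⟨k, hk, rfl⟩ _ ⟨l, hl, rfl⟩
  rw [Subgroup.mem_centralizer_iff]
  intro y hy
  have h0 := core φ hℓ hexp hℓG hR hfix hKn (disjoint_iff.mp hKc.disjoint) hnil hk hl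
    (φ (k⁻¹ * l⁻¹) ⟨y, hy⟩)
  rw [← mul_ap, ← mul_ap, ← mul_ap, ← mul_ap] at h0
  have h1 : φ (k * l * k⁻¹ * l⁻¹) ⟨y, hy⟩ = ⟨y, hy⟩ := by
    have e1 : k * l * (k⁻¹ * l⁻¹) = k * l * k⁻¹ * l⁻¹ := by group
    have e2 : l * k * (k⁻¹ * l⁻¹) = 1 := by group
    rw [e1, e2, map_one] at h0
    exact h0
  have h2 := congrArg Subtype.val h1
  rw [hφ] at h2
  exact (mul_inv_eq_iff_eq_mul.mp h2).symm


end Cfsg.Agent.S3770
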