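import Cfsg.Statements.S3771
import Cfsg.Agent.S0129

set_option autoImplicit false
open Cfsg

namespace Cfsg.Agent.S3771

/-- Let p be a prime and R a finite p-group of p-rank at most 2 (no elementary abelian subgroup of order p³) in which every element has order dividing p. Then R has order at most p³. -/
theorem result {R : Type*} [Group R] [Finite R] {p : ℕ} [Fact p.Prime] (hR : IsPGroup p R) (hrank : Cfsg.PRankLE p 2 R) (hexp : ∀ x : R, x ^ p = 1) : Nat.card R ≤ p ^ 3 := by
  classical
  obtain ⟨A, hA, hmax⟩ := Set.exists_max_image {A : Subgroup R | A.Normal ∧ IsMulCommutative A}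
    (fun A => Nat.card A) (Set.toFinite _) ⟨⊥, inferInstance, inferInstance⟩
  haveI := hA.1
  obtain ⟨a, ha⟩ := IsPGroup.iff_card.mp (hR.to_subgroup A)
  have h1 := Cfsg.Agent.S0129.result hR A hA.2
    (fun B hB hBc hAB => (Subgroup.eq_of_le_of_card_ge hAB (hmax B ⟨hB, hBc⟩)).symm) a ha
  have h2 := hrank A hA.2 fun x _ => hexp x
  rw [ha] at h2
  have h3 : a ≤ 2 := (Nat.pow_le_pow_iff_right (Fact.out : p.Prime).one_lt).mp h2
  refine h1.trans (Nat.pow_le_pow_right (Fact.out : p.Prime).pos ?_)
  interval_cases a <;> decide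

end Cfsg.Agent.S3771
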