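import Mathlib
import Cfsg.Agent.Lib.ExtraIso
import Cfsg.Agent.Lib.LocalBasic
import Cfsg.Agent.Lib.CyclicPartitionIdent
import Cfsg.Agent.Lib.ThompsonTransfer
-- Template for statement S5435 (row 5435; see /opt/grader/pristine/manifest.json for weights).
-- Copy to Cfsg/Agent/S5435.lean and replace the sorry. The statement below is byte-identical to the frozen
-- statement Cfsg.CfsgFrozen.S5435 (Cfsg/Statements/S5435.lean; the theorem Cfsg.spor2_simple_with_sylow_two_involution_centralizer_small_frattini);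
-- the grader kernel-checks Cfsg.Agent.S5435.result against that frozen type. Keep the theorem IN THIS FILE
-- (a `result` declared elsewhere and merely imported here is not credited); helpers may live anywhere
-- under Cfsg/Agent/.
-- import your own Cfsg.Agent.* helpers here

set_option autoImplicit false
open Cfsg

namespace Cfsg.Agent.S5435

theorem sq_mem_frattini {P : Type*} [Group P] [Finite P] (hP : IsPGroup 2 P) (r : P) : r ^ 2 ∈ frattini P := by
  haveI := Fact.mk Nat.prime_two
  rw [frattini, Order.radical]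
  simp only [Subgroup.mem_iInf]
  intro M hM
  obtain ⟨hn, hi⟩ := CfsgLib.ExtraIso.index_coatom hP hM
  haveI := hn
  rw [← hi]
  exact M.pow_index_mem r

theorem isolated_transfer {G : Type*} [Group G] [Finite G] {A : Type*} [CommGroup A] (R : Sylow 2 G) (z : G)
    (hR : (R : Subgroup G) = Subgroup.centralizer ({z} : Set G))
    (hz : orderOf z = 2) (hiso : ∀ g : G, g * z * g⁻¹ ∈ (R : Subgroup G) → g * z * g⁻¹ = z)
    (φ : ↥(R : Subgroup G) →* A) (r : ↥(R : Subgroup G)) :
    MonoidHom.transfer φ (r : G) = φ r ^ (R : Subgroup G).index := by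
  classical
  haveI := Fact.mk Nat.prime_two
  have hcen : ∀ u : G, u ∈ (R : Subgroup G) ↔ u * z = z * u := fun u => by
    rw [hR, Subgroup.mem_centralizer_singleton_iff]
  have fus : ∀ (a b : ↥(R : Subgroup G)) (g : G), g * a * g⁻¹ = (b : G) → φ a = φ b := by
    intro a b g hab
    set H := Subgroup.centralizer ({(b : G)} : Set G) with hH
    have hzH : z ∈ H := Subgroup.mem_centralizer_singleton_iff.mpr ((hcen b).mp b.2).symm
    have hz1H : g * z * g⁻¹ ∈ H := by
      refine Subgroup.mem_centralizer_singleton_iff.mpr ?_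
      rw [← hab, show g * z * g⁻¹ * (g * a * g⁻¹) = g * (z * a) * g⁻¹ by group,
        show g * a * g⁻¹ * (g * z * g⁻¹) = g * (a * z) * g⁻¹ by group, (hcen a).mp a.2]
    have hp : ∀ u : ↥H, orderOf (u : G) = 2 → IsPGroup 2 ↥(Subgroup.zpowers u) := fun u hu =>
      IsPGroup.of_card (n := 1) (by rw [Nat.card_zpowers, ← Subgroup.orderOf_coe, hu, pow_one])
    obtain ⟨P, hP⟩ := (hp ⟨z, hzH⟩ hz).exists_le_sylow
    obtain ⟨P', hP'⟩ := (hp ⟨_, hz1H⟩ (by
      exact (MulEquiv.orderOf_eq (MulAut.conj g) z).trans hz)).exists_le_sylow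
    obtain ⟨h, hh⟩ := MulAction.exists_smul_eq ↥H P' P
    obtain ⟨Q, hQ⟩ := (P.2.map H.subtype).exists_le_sylow
    obtain ⟨k, hk⟩ := MulAction.exists_smul_eq G R Q
    have h1 : ∀ v : ↥H, v ∈ (P : Subgroup ↥H) → k⁻¹ * v * k ∈ (R : Subgroup G) := by
      intro v hv
      have h2 : (v : G) ∈ (Q : Subgroup G) := hQ ⟨v, hv, rfl⟩
      rw [← hk, Sylow.coe_subgroup_smul] at h2
      obtain ⟨w, hw, hwv⟩ := h2
      rw [← hwv]
      show k⁻¹ * (k * w * k⁻¹) * k ∈ _
      have hw' : w ∈ (R : Subgroup G) := hw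
      simpa [mul_assoc] using hw'
    have hkR : k ∈ (R : Subgroup G) := by
      have h3 := hiso k⁻¹ (by rw [inv_inv]; exact h1 _ (hP (Subgroup.mem_zpowers _)))
      rw [inv_inv] at h3
      rw [hcen]
      conv_lhs => rw [← h3]
      group
    have h4 : (h : G) * (g * z * g⁻¹) * (h : G)⁻¹ ∈ (R : Subgroup G) := by
      have h5 : h * ⟨_, hz1H⟩ * h⁻¹ ∈ (P : Subgroup ↥H) := by
        rw [← hh, Sylow.coe_subgroup_smul]
        exact ⟨⟨_, hz1H⟩, hP' (Subgroup.mem_zpowers _), rfl⟩
      have h6 := mul_mem (mul_mem hkR (h1 _ h5)) (inv_mem hkR)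
      simpa [mul_assoc] using h6
    have hconj : (h : G) * g * z * ((h : G) * g)⁻¹ = z := by
      have h7 := hiso ((h : G) * g) (by convert h4 using 1; group)
      exact h7
    have hhg : (h : G) * g ∈ (R : Subgroup G) := by
      rw [hcen]
      conv_rhs => rw [← hconj]
      group
    have hb : b = ⟨_, hhg⟩ * a * ⟨_, hhg⟩⁻¹ := Subtype.ext (by
      show (b : G) = (h : G) * g * a * ((h : G) * g)⁻¹
      rw [show (h : G) * g * a * ((h : G) * g)⁻¹ = h * (g * a * g⁻¹) * (h : G)⁻¹ by group, hab,
        Subgroup.mem_centralizer_singleton_iff.mp h.2]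
      group)
    rw [hb, map_mul, map_mul, map_inv, mul_comm, inv_mul_cancel_left]
  letI := Fintype.ofFinite (G ⧸ (R : Subgroup G))
  rw [MonoidHom.transfer_eq_prod_quotient_orbitRel_zpowers_quot]
  refine (Finset.prod_congr rfl (g := fun q => φ r ^ Function.minimalPeriod ((r : G) • ·) q.out) fun q _ => ?_).trans ?_
  · rw [← map_pow]
    exact fus _ _ q.out.out (by simp [mul_assoc])
  · rw [Finset.prod_pow_eq_pow_sum, Subgroup.index, Nat.card_eq_fintype_card]
    congr 1
    rw [Fintype.card_congr (MulAction.selfEquivSigmaOrbits (Subgroup.zpowers (r : G)) (G ⧸ (R : Subgroup G))), Fintype.card_sigma]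
    exact Finset.sum_congr rfl fun q _ => MulAction.minimalPeriod_eq_card (r : G) q.out


/-- Let L be a finite non-abelian simple group with an involution z whose centralizer R is a Sylow 2-subgroup of L whose Frattini subgroup is the subgroup generated by z. Then R is dihedral of order 8. -/
theorem result {L : Type*} [Group L] [Finite L] [IsSimpleGroup L] (hL : ¬ IsMulCommutative L) (z : L) (hz : orderOf z = 2) (R : Sylow 2 L) (hR : (R : Subgroup L) = Subgroup.centralizer ({z} : Set L)) (hΦ : (frattini ↥(R : Subgroup L)).map (R : Subgroup L).subtype = Subgroup.zpowers z) : Nonempty (↥(R : Subgroup L) ≃* DihedralGroup 4) := by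
  classical
  haveI := Fact.mk Nat.prime_two
  have hcen : ∀ u : L, u ∈ (R : Subgroup L) ↔ u * z = z * u := fun u => by
    rw [hR, Subgroup.mem_centralizer_singleton_iff]
  have hz1 : z ≠ 1 := fun h => by simp [h] at hz
  have hzz : z * z = 1 := by rw [← pow_two, ← hz, pow_orderOf_eq_one]
  have hzR : z ∈ (R : Subgroup L) := (hcen z).mpr rfl
  have hzi : z⁻¹ = z := inv_eq_of_mul_eq_one_right hzz
  have hzp : ∀ u : L, u ∈ Subgroup.zpowers z → u = 1 ∨ u = z := by
    intro u hu
    obtain ⟨n, rfl⟩ := Subgroup.mem_zpowers_iff.mp hu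
    rcases Int.even_or_odd n with ⟨m, rfl⟩ | ⟨m, rfl⟩
    · left; rw [← two_mul, zpow_mul, zpow_two, hzz, one_zpow]
    · right; rw [zpow_add, zpow_mul, zpow_two, hzz, one_zpow, one_mul, zpow_one]
  have hsq : ∀ r ∈ (R : Subgroup L), r * r = 1 ∨ r * r = z := fun r hr => hzp _ (by
    rw [← hΦ]; exact ⟨⟨r, hr⟩ ^ 2, sq_mem_frattini R.isPGroup' _, pow_two r⟩)
  have hsqz : ∃ r ∈ (R : Subgroup L), r * r = z := by
    by_contra hcon
    push Not at hcon
    have h1 : ∀ r ∈ (R : Subgroup L), r * r = 1 := fun r hr => (hsq r hr).resolve_right (hcon r hr)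
    have hbot := CfsgLib.LocalBasic.frattini_eq_bot_of_elementary (E := ↥(R : Subgroup L)) (p := 2)
      (fun a b => by
        have h2 : ∀ c : ↥(R : Subgroup L), c⁻¹ = c := fun c => inv_eq_of_mul_eq_one_right (Subtype.ext (h1 _ c.2))
        calc a * b = (a * b)⁻¹ := (h2 _).symm
          _ = b * a := by rw [mul_inv_rev, h2, h2])
      (fun x => Subtype.ext (by rw [SubgroupClass.coe_pow, pow_two]; exact h1 _ x.2))
    rw [hbot, Subgroup.map_bot] at hΦ
    exact hz1 (Subgroup.mem_bot.mp (hΦ.symm ▸ Subgroup.mem_zpowers z))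
  have hcomm : ∀ a ∈ (R : Subgroup L), ∀ b ∈ (R : Subgroup L), a * b = b * a ∨ a * b = z * (b * a) := by
    intro a ha b hb
    have hmem : ∀ u ∈ (R : Subgroup L), u * u ∈ Subgroup.zpowers z := fun u hu => by
      rcases hsq u hu with h | h <;> rw [h]
      · exact one_mem _
      · exact Subgroup.mem_zpowers z
    have h1 : a * b * a⁻¹ * b⁻¹ ∈ Subgroup.zpowers z := by
      rw [show a * b * a⁻¹ * b⁻¹ = (a * b) * (a * b) * ((b⁻¹ * a⁻¹ * b) * (b⁻¹ * a⁻¹ * b)) * (b⁻¹ * b⁻¹) by group]
      exact mul_mem (mul_mem (hmem _ (mul_mem ha hb)) (hmem _ (mul_mem (mul_mem (inv_mem hb) (inv_mem ha)) hb)))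
        (hmem _ (inv_mem hb))
    rcases hzp _ h1 with h | h
    · left; calc a * b = a * b * a⁻¹ * b⁻¹ * (b * a) := by group
        _ = b * a := by rw [h, one_mul]
    · right; calc a * b = a * b * a⁻¹ * b⁻¹ * (b * a) := by group
        _ = z * (b * a) := by rw [h]
  have hsimp : ∀ {A : Type u_1} [CommGroup A] (ψ : L →* A) (x : L), ψ x = 1 := by
    intro A _ ψ x
    rcases IsSimpleGroup.eq_bot_or_eq_top_of_normal ψ.ker inferInstance with h | h
    · exact absurd ⟨⟨fun a b => ψ.ker_eq_bot_iff.mp h (by rw [map_mul, map_mul, mul_comm])⟩⟩ hL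
    · exact MonoidHom.mem_ker.mp (h ▸ Subgroup.mem_top x)
  -- `z` is not isolated
  obtain ⟨g, hgR, hgz⟩ : ∃ g : L, g * z * g⁻¹ ∈ (R : Subgroup L) ∧ g * z * g⁻¹ ≠ z := by
    by_contra hcon
    push Not at hcon
    haveI hΦn : (frattini ↥(R : Subgroup L)).Normal := inferInstance
    letI : CommGroup (↥(R : Subgroup L) ⧸ frattini ↥(R : Subgroup L)) :=
      { (inferInstance : Group _) with
        mul_comm := by
          rintro ⟨a⟩ ⟨b⟩
          refine QuotientGroup.eq.mpr ?_
          have h1 : (a * b)⁻¹ * (b * a) = b⁻¹ ^ 2 * (b * a⁻¹) ^ 2 * a ^ 2 := by rw [pow_two, pow_two, pow_two]; group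
          rw [h1]
          exact mul_mem (mul_mem (sq_mem_frattini R.isPGroup' _) (sq_mem_frattini R.isPGroup' _)) (sq_mem_frattini R.isPGroup' _) }
    set φ := QuotientGroup.mk' (frattini ↥(R : Subgroup L))
    have hnt : ∃ r : ↥(R : Subgroup L), φ r ≠ 1 := by
      by_contra hall
      push Not at hall
      have htop : frattini ↥(R : Subgroup L) = ⊤ := eq_top_iff.mpr fun r _ => (QuotientGroup.eq_one_iff r).mp (hall r)
      have hR2 : (R : Subgroup L) = Subgroup.zpowers z := by
        rw [← hΦ, htop, ← MonoidHom.range_eq_map, Subgroup.range_subtype]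
      obtain ⟨r, hr, hrr⟩ := hsqz
      rcases hzp r (hR2 ▸ hr) with rfl | rfl
      · exact hz1 (by rw [← hrr, one_mul])
      · exact hz1 (hrr.symm.trans hzz)
    obtain ⟨r, hr⟩ := hnt
    have h1 := isolated_transfer R z hR hz hcon φ r
    rw [hsimp] at h1
    have h2 : φ r ^ 2 = 1 := by
      rw [← map_pow]; exact (QuotientGroup.eq_one_iff _).mpr (sq_mem_frattini R.isPGroup' r)
    apply hr
    obtain ⟨m, hm⟩ : Odd (R : Subgroup L).index := Nat.odd_iff.mpr (Nat.two_dvd_ne_zero.mp R.not_dvd_index)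
    rw [hm, pow_succ, pow_mul, h2, one_pow, one_mul] at h1
    exact h1.symm
  set t := g * z * g⁻¹ with ht
  have htt : t * t = 1 := by rw [ht, show g * z * g⁻¹ * (g * z * g⁻¹) = g * (z * z) * g⁻¹ by group, hzz]; group
  have htz : t * z = z * t := (hcen t).mp hgR
  -- elements of `R` commuting with `t` are involutions
  have hA : ∀ a ∈ (R : Subgroup L), a * t = t * a → a * a = 1 := by
    intro a ha hat
    have ha' : g⁻¹ * a * g ∈ (R : Subgroup L) := by
      rw [hcen]
      have h1 : g⁻¹ * (a * t) * g = g⁻¹ * (t * a) * g := by rw [hat]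
      calc g⁻¹ * a * g * z = g⁻¹ * (a * t) * g := by rw [ht]; group
        _ = g⁻¹ * (t * a) * g := h1
        _ = z * (g⁻¹ * a * g) := by rw [ht]; group
    rcases hsq a ha with h | h
    · exact h
    rcases hsq _ ha' with h' | h'
    · have : g⁻¹ * (a * a) * g = 1 := by rw [← h']; group
      calc a * a = g * (g⁻¹ * (a * a) * g) * g⁻¹ := by group
        _ = 1 := by rw [this]; group
    · exfalso; apply hgz
      show t = z
      have h1 : g⁻¹ * z * g = z := by
        calc g⁻¹ * z * g = g⁻¹ * (a * a) * g := by rw [h]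
          _ = g⁻¹ * a * g * (g⁻¹ * a * g) := by group
          _ = z := h'
      calc t = g * (g⁻¹ * z * g) * g⁻¹ := by rw [h1]
        _ = z := by group
  -- the centre of `R` is `⟨z⟩`
  have hZ : ∀ d ∈ (R : Subgroup L), (∀ r ∈ (R : Subgroup L), d * r = r * d) → d = 1 ∨ d = z := by
    intro d hd hdc
    by_contra hcon
    push Not at hcon
    obtain ⟨hd1, hdz⟩ := hcon
    have hdd : d * d = 1 := hA d hd (hdc t hgR)
    have hdΦ : (⟨d, hd⟩ : ↥(R : Subgroup L)) ∉ frattini ↥(R : Subgroup L) := fun hmem => by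
      rcases hzp d (hΦ ▸ ⟨⟨d, hd⟩, hmem, rfl⟩) with h | h
      exacts [hd1 h, hdz h]
    rw [frattini, Order.radical, Subgroup.mem_iInf] at hdΦ
    push Not at hdΦ
    obtain ⟨M, hM⟩ := hdΦ
    rw [Subgroup.mem_iInf] at hM
    push Not at hM
    obtain ⟨hMc, hdM⟩ := hM
    set T := M.map (R : Subgroup L).subtype with hT
    have hTM : T.subgroupOf (R : Subgroup L) = M :=
      Subgroup.comap_map_eq_self_of_injective (Subgroup.subtype_injective _) M
    haveI := R.isPGroup'.isNilpotent
    haveI hMn : M.Normal := Subgroup.NormalizerCondition.normal_of_coatom M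
      Group.normalizerCondition_of_isNilpotent hMc
    haveI : (T.subgroupOf (R : Subgroup L)).Normal := hTM.symm ▸ hMn
    have hprime : (Nat.card (↥(R : Subgroup L) ⧸ T.subgroupOf (R : Subgroup L))) = 2 := by
      rw [hTM]; exact (CfsgLib.ExtraIso.index_coatom R.isPGroup' hMc).2
    have hcyc : IsCyclic (↥(R : Subgroup L) ⧸ T.subgroupOf (R : Subgroup L)) := isCyclic_of_prime_card hprime
    letI : CommGroup (↥(R : Subgroup L) ⧸ T.subgroupOf (R : Subgroup L)) := IsCyclic.commGroup
    obtain ⟨k, hkT, -, hk⟩ := CfsgLib.ThompsonTransfer.extremal R T hcyc d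
      (orderOf_eq_prime (by rw [pow_two, hdd]) hd1) (fun ψ => hsimp ψ d)
    have hkR : ∀ r ∈ (R : Subgroup L), k * r * k⁻¹ ∈ (R : Subgroup L) := fun r hr =>
      (hk ⟨r, ⟨hr, Subgroup.mem_centralizer_singleton_iff.mpr (hdc r hr).symm⟩, rfl⟩).1
    have hkz : k * z = z * k := by
      obtain ⟨r, hr, hrr⟩ := hsqz
      rcases hsq _ (hkR r hr) with h | h
      · refine absurd ?_ hz1
        calc z = k⁻¹ * (k * r * k⁻¹ * (k * r * k⁻¹)) * k := by rw [← hrr]; group
          _ = 1 := by rw [h]; group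
      · calc k * z = k * r * k⁻¹ * (k * r * k⁻¹) * k := by rw [← hrr]; group
          _ = z * k := by rw [h]
    have hkd : k * d * k⁻¹ = d := by rw [← hdc k ((hcen k).mpr hkz), mul_inv_cancel_right]
    rw [hkd, hT] at hkT
    obtain ⟨m, hm, hmd⟩ := hkT
    exact hdM (by rwa [show m = ⟨d, hd⟩ from Subtype.ext hmd] at hm)
  -- an element of order four inverted by `t`
  have htc : ∃ x ∈ (R : Subgroup L), x * t ≠ t * x := by
    by_contra hcon
    push Not at hcon
    rcases hZ t hgR (fun r hr => (hcon r hr).symm) with h | h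
    · exact hz1 (by rw [show z = g⁻¹ * t * g by rw [ht]; group, h]; group)
    · exact hgz h
  obtain ⟨y, hyR, hyt, hyy⟩ : ∃ y ∈ (R : Subgroup L), y * t = z * (t * y) ∧ y * y = z := by
    obtain ⟨x, hx, hxt⟩ := htc
    have hxt' := (hcomm x hx t hgR).resolve_left hxt
    rcases hsq x hx with h | h
    · refine ⟨x * t, mul_mem hx hgR, ?_, ?_⟩
      · calc x * t * t = z * (t * x) * t := by rw [hxt']
          _ = z * (t * (x * t)) := by group
      · calc x * t * (x * t) = z * (t * x) * (x * t) := by rw [hxt']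
          _ = z * t * (x * x) * t := by group
          _ = z := by rw [h, mul_one, mul_assoc, htt, mul_one]
    · exact ⟨x, hx, hxt', h⟩
  have hyi : y⁻¹ = z * y := inv_eq_of_mul_eq_one_right (by
    rw [← mul_assoc, (hcen y).mp hyR, mul_assoc, hyy, hzz])
  -- `R` consists of the eight products
  have hall : ∀ r ∈ (R : Subgroup L), ∃ i j k : ℕ, r = z ^ i * t ^ j * y ^ k := by
    have hAel : ∀ a ∈ (R : Subgroup L), a * t = t * a → ∃ i j : ℕ, a = z ^ i * t ^ j := by
      intro a ha hat
      have hcent : ∀ b ∈ (R : Subgroup L), b * t = t * b → b * y = y * b → b = 1 ∨ b = z := by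
        intro b hb hbt hby
        refine hZ b hb fun r hr => ?_
        have hdec : r * t = t * r ∨ (r * y) * t = t * (r * y) := by
          rcases hcomm r hr t hgR with h | h
          · exact Or.inl h
          · right
            calc r * y * t = r * (z * (t * y)) := by rw [← hyt]; group
              _ = (r * z) * t * y := by group
              _ = z * (r * t) * y := by rw [(hcen r).mp hr]; group
              _ = z * (z * (t * r)) * y := by rw [h]
              _ = t * (r * y) := by rw [← mul_assoc z z, hzz, one_mul, mul_assoc]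
        have hAcomm : ∀ u ∈ (R : Subgroup L), u * t = t * u → b * u = u * b := by
          intro u hu hut
          have h1 : (b * u) * (b * u) = 1 := hA _ (mul_mem hb hu) (by rw [mul_assoc, hut, ← mul_assoc, hbt, mul_assoc])
          calc b * u = (b * u)⁻¹ := (inv_eq_of_mul_eq_one_right h1).symm
            _ = u⁻¹ * b⁻¹ := mul_inv_rev _ _
            _ = u * b := by rw [inv_eq_of_mul_eq_one_right (hA u hu hut), inv_eq_of_mul_eq_one_right (hA b hb hbt)]
        rcases hdec with h | h
        · exact hAcomm r hr h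
        · have h1 := hAcomm _ (mul_mem hr hyR) h
          calc b * r = b * (r * y) * y⁻¹ := by group
            _ = r * (y * b) * y⁻¹ := by rw [h1]; group
            _ = r * b := by rw [← hby]; group
      rcases hcomm y hyR a ha with h | h
      · rcases hcent a ha hat h.symm with rfl | rfl
        exacts [⟨0, 0, by simp⟩, ⟨1, 0, by simp⟩]
      · have h1 : (a * t) * y = y * (a * t) := by
          calc a * t * y = a * (z * (z * (t * y))) := by rw [← mul_assoc z z, hzz, one_mul, mul_assoc]
            _ = a * (z * (y * t)) := by rw [hyt]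
            _ = (a * z) * y * t := by group
            _ = z * (a * y) * t := by rw [(hcen a).mp ha]; group
            _ = y * a * t := by rw [h]
            _ = y * (a * t) := mul_assoc _ _ _
        have h2 : ∀ c, a * t = c → a = c * t := fun c hc => by rw [← hc, mul_assoc, htt, mul_one]
        rcases hcent (a * t) (mul_mem ha hgR) (by rw [mul_assoc, htt, mul_one, ← mul_assoc, ← hat, mul_assoc, htt, mul_one]) h1 with h3 | h3
        exacts [⟨0, 1, by simpa using h2 _ h3⟩, ⟨1, 1, by simpa using h2 _ h3⟩]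
    intro r hr
    rcases hcomm r hr t hgR with h | h
    · obtain ⟨i, j, rfl⟩ := hAel r hr h
      exact ⟨i, j, 0, by simp⟩
    · have h1 : r * y⁻¹ * t = t * (r * y⁻¹) := by
        rw [hyi]
        calc r * (z * y) * t = r * z * (z * (t * y)) := by rw [← hyt]; group
          _ = r * (z * z) * t * y := by group
          _ = r * t * y := by rw [hzz, mul_one]
          _ = z * (t * r) * y := by rw [h]
          _ = (z * t) * r * y := by group
          _ = t * (z * r) * y := by rw [← htz]; group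
          _ = t * (r * (z * y)) := by rw [← (hcen r).mp hr]; group
      obtain ⟨i, j, hij⟩ := hAel _ (mul_mem hr (inv_mem hyR)) h1
      exact ⟨i, j, 1, by rw [← hij]; group⟩
  -- the isomorphism
  let Y : ↥(R : Subgroup L) := ⟨y, hyR⟩
  let T' : ↥(R : Subgroup L) := ⟨t, hgR⟩
  have hY4 : orderOf Y = 4 := orderOf_eq_prime_pow (p := 2) (n := 1)
    (fun h => hz1 (hyy.symm.trans ((pow_two y).symm.trans (congrArg Subtype.val h))))
    (Subtype.ext (show y ^ 4 = 1 by rw [show 4 = 2 * 2 from rfl, pow_mul, pow_two y, hyy, pow_two, hzz]))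
  have hTY : T' ∉ Subgroup.zpowers Y := by
    intro hmem
    obtain ⟨n, hn⟩ := Subgroup.mem_zpowers_iff.mp hmem
    have hc : y * t = t * y := congrArg Subtype.val (show Y * T' = T' * Y by rw [← hn]; exact (Commute.self_zpow Y n).eq)
    exact hz1 (mul_right_cancel (b := t * y) (by rw [← hyt, hc, one_mul]))
  have hTT : T' * T' = 1 := Subtype.ext htt
  have hinv : T' * Y * T'⁻¹ = Y⁻¹ := Subtype.ext (by
    show t * y * t⁻¹ = y⁻¹
    rw [hyi]
    calc t * y * t⁻¹ = z * (z * (t * y)) * t⁻¹ := by rw [← mul_assoc z z, hzz, one_mul]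
      _ = z * (y * t) * t⁻¹ := by rw [hyt]
      _ = z * y := by group)
  have hle : Nat.card ↥(R : Subgroup L) ≤ 8 := by
    refine (Nat.card_le_card_of_surjective (fun p : Fin 2 × Fin 4 => T' ^ (p.1 : ℕ) * Y ^ (p.2 : ℕ)) ?_).trans (le_of_eq (by simp))
    rintro ⟨r, hr⟩
    obtain ⟨i, j, k, hijk⟩ := hall r hr
    refine ⟨(⟨j % 2, Nat.mod_lt _ two_pos⟩, ⟨(2 * i + k) % 4, Nat.mod_lt _ (by norm_num)⟩), Subtype.ext ?_⟩
    show t ^ (j % 2) * y ^ ((2 * i + k) % 4) = r
    rw [← pow_eq_pow_mod j (by rw [pow_two, htt]),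
      ← pow_eq_pow_mod (2 * i + k) (show y ^ 4 = 1 by rw [show 4 = 2 * 2 from rfl, pow_mul, pow_two y, hyy, pow_two, hzz]),
      pow_add, pow_mul, pow_two y, hyy, hijk, (Commute.pow_pow (show Commute z t from htz.symm) i j).eq, mul_assoc]
  have hge : 8 ≤ Nat.card ↥(R : Subgroup L) := by
    have h1 := (Subgroup.zpowers Y).card_mul_index
    rw [Nat.card_zpowers, hY4] at h1
    have h2 : (Subgroup.zpowers Y).index ≠ 1 := fun h => hTY ((Subgroup.index_eq_one.mp h).symm ▸ Subgroup.mem_top _)
    have h3 : (Subgroup.zpowers Y).index ≠ 0 := Subgroup.index_ne_zero_of_finite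
    omega
  exact CfsgLib.CyclicPartition.dihedral_iso (r := Y) (s := T') hY4 hTY hTT hinv (by omega)
end Cfsg.Agent.S5435
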