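import Mathlib
import Cfsg.Prelude.Def_Transfer
import Cfsg.Agent.S5435
-- Template for statement S3772 (row 3772; see /opt/grader/pristine/manifest.json for weights).
-- Copy to Cfsg/Agent/S3772.lean and replace the sorry. The statement below is byte-identical to the frozen
-- statement Cfsg.CfsgFrozen.S3772 (Cfsg/Statements/S3772.lean; the theorem Cfsg.fg_two_group_frattini_of_order_two_involution_count);
-- the grader kernel-checks Cfsg.Agent.S3772.result against that frozen type. Keep the theorem IN THIS FILE
-- (a `result` declared elsewhere and merely imported here is not credited); helpers may live anywhere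
-- under Cfsg/Agent/.
-- import your own Cfsg.Agent.* helpers here

set_option autoImplicit false
open Cfsg

namespace Cfsg.Agent.S3772

theorem sum_eq_zero {G : Type*} [Group G] [Fintype G] (f : G → ℤ) (a : G) (ha : f a = -1)
    (hm : ∀ x, f (x * a) = f x * f a) : ∑ x, f x = 0 := by
  have h : ∑ x, f (x * a) = ∑ x, f x := Fintype.sum_equiv (Equiv.mulRight a) _ _ (fun _ => rfl)
  simp only [hm, ha, mul_neg, mul_one, Finset.sum_neg_distrib] at h
  omega


/-- Let G be a finite 2-group whose Frattini subgroup Φ(G) has order 2, with |G : Φ(G)| = 2^d, and let j be the number of elements x of G with x² = 1. Then j = 2^d, or j = 2^d + 2^(d−r) or j = 2^d − 2^(d−r) for some positive integer r with 2r ≤ d. Moreover if d = 2r and j is 2^d + 2^r or 2^d − 2^r, then G is extraspecial. -/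
theorem result {G : Type*} [Group G] [Finite G] (hG : IsPGroup 2 G) (hΦ : Nat.card (frattini G) = 2) (d : ℕ) (hd : (frattini G).index = 2 ^ d) : (Nat.card {x : G // x ^ 2 = 1} = 2 ^ d ∨ ∃ r : ℕ, 1 ≤ r ∧ 2 * r ≤ d ∧ (Nat.card {x : G // x ^ 2 = 1} = 2 ^ d + 2 ^ (d - r) ∨ Nat.card {x : G // x ^ 2 = 1} + 2 ^ (d - r) = 2 ^ d)) ∧ (∀ r : ℕ, d = 2 * r → (Nat.card {x : G // x ^ 2 = 1} = 2 ^ d + 2 ^ r ∨ Nat.card {x : G // x ^ 2 = 1} + 2 ^ r = 2 ^ d) → Cfsg.IsExtraspecial 2 G) := by
  classical
  haveI := Fact.mk Nat.prime_two
  letI := Fintype.ofFinite G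
  obtain ⟨z, hz⟩ : ∃ z : G, ∀ x, x ∈ frattini G ↔ x = 1 ∨ x = z := by
    obtain ⟨a, b, hab, huniv⟩ := Nat.card_eq_two_iff.mp hΦ
    have h1 := Set.eq_univ_iff_forall.mp huniv ⟨1, one_mem _⟩
    simp only [Set.mem_insert_iff, Set.mem_singleton_iff] at h1
    rcases h1 with h | h
    · refine ⟨b, fun x => ⟨fun hx => ?_, ?_⟩⟩
      · have h2 := Set.eq_univ_iff_forall.mp huniv ⟨x, hx⟩
        simp only [Set.mem_insert_iff, Set.mem_singleton_iff] at h2
        rcases h2 with e | e
        · left; rw [← h] at e; exact congrArg Subtype.val e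
        · right; exact congrArg Subtype.val e
      · rintro (rfl | rfl)
        exacts [one_mem _, b.2]
    · refine ⟨a, fun x => ⟨fun hx => ?_, ?_⟩⟩
      · have h2 := Set.eq_univ_iff_forall.mp huniv ⟨x, hx⟩
        simp only [Set.mem_insert_iff, Set.mem_singleton_iff] at h2
        rcases h2 with e | e
        · right; exact congrArg Subtype.val e
        · left; rw [← h] at e; exact congrArg Subtype.val e
      · rintro (rfl | rfl)
        exacts [one_mem _, a.2]
  have hz1 : z ≠ 1 := by
    intro h
    have hb : frattini G = ⊥ := eq_bot_iff.mpr fun x hx => by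
      rcases (hz x).mp hx with e | e <;> simp [e, h]
    rw [hb, Subgroup.card_bot] at hΦ
    omega
  have hzz : z * z = 1 := by
    rcases (hz (z * z)).mp (mul_mem ((hz z).mpr (Or.inr rfl)) ((hz z).mpr (Or.inr rfl))) with h | h
    · exact h
    · exact absurd (mul_eq_left.mp h) hz1
  have hsqm : ∀ x : G, x * x ∈ frattini G := fun x => pow_two x ▸ Cfsg.Agent.S5435.sq_mem_frattini hG x
  have hzc : ∀ u : G, u * z = z * u := fun u => by
    haveI : (frattini G).Normal := inferInstance
    rcases (hz _).mp ((inferInstance : (frattini G).Normal).conj_mem z ((hz z).mpr (Or.inr rfl)) u) with h | h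
    · exact absurd (by simpa using h) hz1
    · exact mul_inv_eq_iff_eq_mul.mp h
  have hcomm : ∀ a b : G, a * b = b * a ∨ a * b = z * (b * a) := fun a b => by
    have h1 : a * b * a⁻¹ * b⁻¹ ∈ frattini G := by
      rw [show a * b * a⁻¹ * b⁻¹ = (a * b) * (a * b) * ((b⁻¹ * a⁻¹ * b) * (b⁻¹ * a⁻¹ * b)) * (b⁻¹ * b⁻¹) by group]
      exact mul_mem (mul_mem (hsqm _) (hsqm _)) (hsqm _)
    rcases (hz _).mp h1 with h | h
    · left; calc a * b = a * b * a⁻¹ * b⁻¹ * (b * a) := by group
        _ = b * a := by rw [h, one_mul]
    · right; calc a * b = a * b * a⁻¹ * b⁻¹ * (b * a) := by group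
        _ = z * (b * a) := by rw [h]
  let χ : G → ℤ := fun x => if x * x = 1 then 1 else -1
  let c : G → G → ℤ := fun x w => if x * w = w * x then 1 else -1
  have hsq : ∀ x : G, x * x = 1 ∨ x * x = z := fun x => (hz _).mp (hsqm x)
  have hz1' : (1 : G) ≠ z := Ne.symm hz1
  have hmul : ∀ x w : G, χ (x * w) = χ x * χ w * c x w := by
    intro x w
    have e : ∀ u : G, (x * w = w * x → x * w * (x * w) = x * x * (w * w)) := fun _ h => by
      calc x * w * (x * w) = x * (w * x) * w := by group
        _ = x * (x * w) * w := by rw [h]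
        _ = x * x * (w * w) := by group
    by_cases h : x * w = w * x
    · have h1 := e x h
      simp only [χ, c, if_pos h, h1]
      rcases hsq x with hx | hx <;> rcases hsq w with hw | hw <;> simp [hx, hw, hz1, hzz]
    · have h' := (hcomm w x).resolve_left (fun h2 => h h2.symm)
      have h1 : x * w * (x * w) = z * (x * x * (w * w)) := by
        calc x * w * (x * w) = x * (w * x) * w := by group
          _ = x * (z * (x * w)) * w := by rw [h']
          _ = (x * z) * (x * w * w) := by group
          _ = z * (x * x * (w * w)) := by rw [hzc]; group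
      simp only [χ, c, if_neg h, h1]
      rcases hsq x with hx | hx <;> rcases hsq w with hw | hw <;> simp [hx, hw, hz1, hzz]
  have hcsum : ∀ w : G, (∑ x, c x w) = if w ∈ Subgroup.center G then (Nat.card G : ℤ) else 0 := by
    intro w
    split_ifs with hw
    · simp [c, Subgroup.mem_center_iff.mp hw, Nat.card_eq_fintype_card]
    · obtain ⟨a, ha⟩ : ∃ a, a * w ≠ w * a := by
        by_contra hcon; push Not at hcon; exact hw (Subgroup.mem_center_iff.mpr hcon)
      have ha' := (hcomm a w).resolve_left ha
      refine sum_eq_zero _ a (by simp [c, ha]) fun x => ?_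
      simp only [c, if_neg ha]
      rcases hcomm x w with h | h
      · have h1 : x * a * w ≠ w * (x * a) := by
          rw [mul_assoc, ha', ← mul_assoc x z, hzc, mul_assoc z x, ← mul_assoc x w a, h, mul_assoc w x a]
          intro e; exact hz1 (mul_eq_right.mp e)
        simp [if_neg h1, h]
      · have h1 : x * a * w = w * (x * a) := by
          rw [mul_assoc, ha', ← mul_assoc x z, hzc, mul_assoc z x, ← mul_assoc x w a, h]
          calc z * (z * (w * x) * a) = z * z * (w * (x * a)) := by group
            _ = w * (x * a) := by rw [hzz, one_mul]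
        have h2 : ¬ x * w = w * x := by rw [h]; intro e; exact hz1 (mul_eq_right.mp e)
        simp [if_pos h1, if_neg h2]
  set T : ℤ := ∑ x, χ x with hT
  have hsqT : T * T = (Nat.card G : ℤ) * ∑ w ∈ Finset.univ.filter (· ∈ Subgroup.center G), χ w := by
    have hxx : ∀ x, χ x * χ x = 1 := fun x => by
      by_cases h : x * x = 1 <;> simp [χ, h]
    calc T * T = ∑ x, χ x * T := by rw [← Finset.sum_mul]
      _ = ∑ x, ∑ w, χ w * c x w := by
        refine Finset.sum_congr rfl fun x _ => ?_
        rw [hT, Finset.mul_sum, ← Equiv.sum_comp (Equiv.mulLeft x) (fun y => χ x * χ y)]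
        refine Finset.sum_congr rfl fun w _ => ?_
        show χ x * χ (x * w) = _
        rw [hmul, ← mul_assoc, ← mul_assoc, hxx, one_mul]
      _ = ∑ w, χ w * ∑ x, c x w := by rw [Finset.sum_comm]; simp [Finset.mul_sum]
      _ = _ := by
        rw [Finset.mul_sum, Finset.sum_filter]
        refine Finset.sum_congr rfl fun w _ => ?_
        rw [hcsum]; split_ifs <;> ring
  have hj : T = 2 * (Nat.card {x : G // x ^ 2 = 1} : ℤ) - (Nat.card G : ℤ) := by
    rw [Nat.card_eq_fintype_card, Nat.card_eq_fintype_card, Fintype.card_subtype, hT,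
      Finset.card_filter, ← Finset.card_univ, Finset.card_eq_sum_ones]
    push_cast
    rw [Finset.mul_sum, ← Finset.sum_sub_distrib]
    refine Finset.sum_congr rfl fun x _ => ?_
    by_cases h : x * x = 1 <;> simp [χ, pow_two, h]
  have hcard : Nat.card G = 2 * 2 ^ d := by rw [← (frattini G).card_mul_index, hΦ, hd]
  have hΦZ : frattini G ≤ Subgroup.center G := fun x hx => by
    rcases (hz x).mp hx with rfl | rfl
    exacts [one_mem _, Subgroup.mem_center_iff.mpr hzc]
  have hcases : T = 0 ∨ T * T = (Nat.card G : ℤ) * (Nat.card ↥(Subgroup.center G) : ℤ) := by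
    by_cases hall : ∀ w ∈ Subgroup.center G, χ w = 1
    · right
      rw [hsqT]
      congr 1
      rw [Finset.sum_congr rfl (g := fun _ => (1 : ℤ)) (fun w hw => hall w (Finset.mem_filter.mp hw).2),
        Finset.sum_const, nsmul_eq_mul, mul_one, Nat.card_eq_fintype_card, Fintype.card_subtype]
    · left
      push Not at hall
      obtain ⟨a, ha, ha1⟩ := hall
      have ha' : χ a = -1 := by by_cases h : a * a = 1 <;> simp [χ, h] at ha1 ⊢
      refine sum_eq_zero _ a ha' fun x => ?_
      rw [hmul]
      simp [c, Subgroup.mem_center_iff.mp ha x]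
  obtain ⟨k, hk⟩ := IsPGroup.iff_card.mp (hG.to_subgroup (Subgroup.center G))
  have hk1 : 1 ≤ k := by
    rcases Nat.eq_zero_or_pos k with rfl | h
    · have := Subgroup.card_le_of_le hΦZ; rw [hΦ, hk] at this; simp at this
    · exact h
  have hkd : k ≤ d + 1 := (Nat.pow_le_pow_iff_right (by norm_num : 1 < 2)).mp (by
    rw [← hk, pow_succ']; exact hcard ▸ Subgroup.card_le_card_group _)
  set j := Nat.card {x : G // x ^ 2 = 1} with hjdef
  have hjcase : (T = 0 ∧ j = 2 ^ d) ∨ ∃ m, 2 * m + 2 = d + 1 + k ∧ ((j : ℤ) = 2 ^ d + 2 ^ m ∨ (j : ℤ) = 2 ^ d - 2 ^ m) := by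
    rcases hcases with h | h
    · left
      refine ⟨h, ?_⟩
      rw [hj, hcard] at h; push_cast at h
      exact_mod_cast (by linarith : (j : ℤ) = 2 ^ d)
    · right
      rw [hcard, hk] at h
      push_cast at h
      have hn : T.natAbs * T.natAbs = 2 ^ (d + 1 + k) := by
        have := congrArg Int.natAbs h
        rw [Int.natAbs_mul] at this
        rw [this, pow_add, pow_succ']
        simp [Int.natAbs_mul, Int.natAbs_pow]
      obtain ⟨i, hi, hTi⟩ := (Nat.dvd_prime_pow Nat.prime_two).mp (Dvd.intro _ hn)
      rw [hTi, ← pow_add] at hn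
      have hie := Nat.pow_right_injective le_rfl hn
      refine ⟨i - 1, by omega, ?_⟩
      have hT2 : (2 : ℤ) ^ i = 2 * 2 ^ (i - 1) := by rw [← pow_succ', Nat.sub_add_cancel (by omega)]
      have hT3 : T = 2 ^ i ∨ T = -2 ^ i := by
        rcases Int.natAbs_eq T with e | e <;> [left; right] <;> rw [e, hTi] <;> push_cast <;> rfl
      rw [hj, hcard] at hT3; push_cast at hT3
      rcases hT3 with e | e
      · left; linarith
      · right; linarith
  refine ⟨?_, fun r hr hjr => ?_⟩
  · rcases hjcase with ⟨-, h⟩ | ⟨m, hm, h⟩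
    · exact Or.inl h
    rcases Nat.lt_or_ge m d with hmd | hmd
    · right
      refine ⟨d - m, by omega, by omega, ?_⟩
      rw [show d - (d - m) = m by omega]
      rcases h with h | h
      · left; exact_mod_cast h
      · right
        have : (j : ℤ) + 2 ^ m = 2 ^ d := by linarith
        exact_mod_cast this
    · exfalso
      -- otherwise the group is abelian and every square is trivial
      have hab : Subgroup.center G = ⊤ := Subgroup.eq_top_of_card_eq _ (by rw [hk, hcard, show k = d + 1 by omega, pow_succ'])
      have hall : ∀ x : G, x * x = 1 := fun x => by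
        rcases hsq x with e | e
        · exact e
        exfalso
        have h0 : T = 0 := sum_eq_zero _ x (by simp [χ, e, hz1]) fun y => by
          rw [hmul]; simp [c, Subgroup.mem_center_iff.mp (show x ∈ Subgroup.center G by simp [hab]) y]
        rw [hj, hcard] at h0; push_cast at h0
        have : (0 : ℤ) < 2 ^ m := by positivity
        rcases h with h | h <;> linarith
      have hb := CfsgLib.LocalBasic.frattini_eq_bot_of_elementary (E := G) (p := 2)
        (fun a b => (Subgroup.mem_center_iff.mp (show b ∈ Subgroup.center G by simp [hab]) a)) (fun x => by rw [pow_two]; exact hall x)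
      rw [hb, Subgroup.card_bot] at hΦ
      omega
  · subst hr
    have hpos : 0 < 2 ^ r := by positivity
    rcases hjcase with ⟨-, h⟩ | ⟨m, hm, h⟩
    · omega
    have hmr : m = r := by
      have : (2 : ℤ) ^ m = 2 ^ r := by
        have hm0 : (0 : ℤ) < 2 ^ m := by positivity
        have hr0 : (0 : ℤ) < 2 ^ r := by positivity
        rcases hjr with e | e
        · have e' : (j : ℤ) = 2 ^ (2 * r) + 2 ^ r := by exact_mod_cast e
          rcases h with h | h <;> linarith
        · have e' : (j : ℤ) + 2 ^ r = 2 ^ (2 * r) := by exact_mod_cast e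
          rcases h with h | h <;> linarith
      exact Nat.pow_right_injective le_rfl (by exact_mod_cast this)
    have hZ : frattini G = Subgroup.center G := Subgroup.eq_of_le_of_card_ge hΦZ (by rw [hΦ, hk, show k = 1 by omega, pow_one])
    have hcl : commutator G ≤ frattini G := by
      rw [commutator_def, Subgroup.commutator_le]
      intro a _ b _
      rw [hz, commutatorElement_def]
      rcases hcomm a b with e | e
      · left; rw [e]; group
      · right; rw [e]; group
    refine ⟨⟨hG, hZ, le_antisymm (hZ ▸ hcl) ?_⟩, by rw [← hZ]; exact hΦ⟩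
    intro x hx
    rw [← hZ, hz] at hx
    rcases hx with rfl | rfl
    · exact one_mem _
    · by_contra hne
      have hab : ∀ a b : G, a * b = b * a := fun a b => (hcomm a b).resolve_right fun e => hne (by
        have h1 := Subgroup.commutator_mem_commutator (Subgroup.mem_top a) (Subgroup.mem_top b)
        rw [commutatorElement_def, e] at h1
        simpa [commutator_def, mul_assoc] using h1)
      have hZt : Subgroup.center G = ⊤ := eq_top_iff.mpr fun x _ => Subgroup.mem_center_iff.mpr fun g => hab g x
      rw [← hZ] at hZt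
      rw [hZt, Subgroup.card_top, hcard] at hΦ
      have h2 : r = 0 := by
        have : 2 ^ (2 * r) = 2 ^ 0 := by omega
        have := Nat.pow_right_injective le_rfl this
        omega
      exact hz1 (by
        have h3 : ∀ u : G, u = 1 ∨ u = x := fun u => (hz u).mp (hZt ▸ Subgroup.mem_top u)
        have hsq2 : ∀ u : G, u * u = 1 := fun u => by rcases h3 u with rfl | rfl; exacts [one_mul 1, hzz]
        have hb := CfsgLib.LocalBasic.frattini_eq_bot_of_elementary (E := G) (p := 2) hab (fun u => by rw [pow_two]; exact hsq2 u)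
        have := (hz x).mpr (Or.inr rfl); rw [hb] at this; exact Subgroup.mem_bot.mp this)

end Cfsg.Agent.S3772
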