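import Cfsg.Agent.Lib.Zsig.Basic
-- import your own Cfsg.Agent.* helpers here

set_option autoImplicit false

namespace Cfsg.Agent.S3774

/-- Let G be a nontrivial finite 2-group whose automorphism group permutes the involutions of G transitively. Then every involution of G is central, so that the involutions together with 1 form the subgroup Ω₁(Z(G)), and if this subgroup has order q then |G| is a power of q. -/
theorem result {G : Type*} [Group G] [Finite G] [Nontrivial G] (hG : IsPGroup 2 G) (htrans : ∀ x y : G, x ≠ 1 → x ^ 2 = 1 → y ≠ 1 → y ^ 2 = 1 → ∃ a : MulAut G, a x = y) : (∀ x : G, x ^ 2 = 1 → x ∈ Subgroup.center G) ∧ ∃ m : ℕ, Nat.card G = Nat.card {z : G // z ^ 2 = 1} ^ m := by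
  classical
  -- an involution in the center
  obtain ⟨j, hj0, hj⟩ := (hG.to_subgroup (Subgroup.center G)).nontrivial_iff_card.mp hG.center_nontrivial
  obtain ⟨z, hz⟩ := exists_prime_orderOf_dvd_card' (G := Subgroup.center G) 2 (hj ▸ dvd_pow_self 2 hj0.ne')
  have hz1 : (z : G) ≠ 1 := fun e => by
    rw [← Subgroup.orderOf_coe, e, orderOf_one] at hz; omega
  have hz2 : (z : G) ^ 2 = 1 := by rw [← hz, ← Subgroup.orderOf_coe]; exact pow_orderOf_eq_one _
  have hcen : ∀ x : G, x ^ 2 = 1 → x ∈ Subgroup.center G := by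
    intro x hx
    by_cases hx1 : x = 1
    · rw [hx1]; exact one_mem _
    obtain ⟨a, ha⟩ := htrans z x hz1 hz2 hx1 hx
    rw [← ha]
    refine Subgroup.mem_center_iff.mpr fun g => ?_
    obtain ⟨g', rfl⟩ := a.surjective g
    rw [← map_mul, ← map_mul, Subgroup.mem_center_iff.mp z.2 g']
  refine ⟨hcen, ?_⟩
  let Ω : Subgroup G :=
    { carrier := {u | u ^ 2 = 1}
      one_mem' := one_pow 2
      mul_mem' := fun {a b} ha hb => by
        show (a * b) ^ 2 = 1
        rw [(show Commute a b from (Subgroup.mem_center_iff.mp (hcen b hb) a)).mul_pow, ha, hb, one_mul]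
      inv_mem' := fun {a} ha => by show a⁻¹ ^ 2 = 1; rw [inv_pow, ha, inv_one] }
  obtain ⟨k, hk⟩ := IsPGroup.iff_card.mp (hG.to_subgroup Ω)
  obtain ⟨n, hn⟩ := IsPGroup.iff_card.mp hG
  have hk0 : k ≠ 0 := by
    rintro rfl
    rw [pow_zero] at hk
    exact hz1 (Subgroup.mem_bot.mp (Subgroup.eq_bot_of_card_eq Ω hk ▸ (show (z : G) ∈ Ω from hz2)))
  have key : ∀ r : ℕ, r.Prime → r ∣ 2 ^ k - 1 → r ∣ 2 ^ n - 1 := by
    intro r hr hrd
    haveI := Fact.mk hr
    obtain ⟨R⟩ := (inferInstance : Nonempty (Sylow r (MulAut G)))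
    set F : Set G := MulAction.fixedPoints (R : Subgroup (MulAut G)) G with hF
    have hfix : ∀ u ∈ F, u = 1 := by
      intro u hu
      by_contra hu1
      obtain ⟨i, hi⟩ := hG u
      have hone : u ∈ {g : G | g ≠ 1} := hu1
      -- an involution fixed by the Sylow subgroup
      obtain ⟨m, hm0, hm⟩ : ∃ m : ℕ, u ^ m ≠ 1 ∧ (u ^ m) ^ 2 = 1 := by
        have hex : ∃ i, u ^ 2 ^ i = 1 := ⟨i, hi⟩
        rcases Nat.eq_zero_or_pos (Nat.find hex) with h0 | h0
        · exact absurd (by simpa [h0] using Nat.find_spec hex) hu1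
        · refine ⟨2 ^ (Nat.find hex - 1), Nat.find_min hex (Nat.sub_one_lt h0.ne'), ?_⟩
          rw [← pow_mul, ← pow_succ, show Nat.find hex - 1 + 1 = Nat.find hex by omega]
          exact Nat.find_spec hex
      set w := u ^ m with hw
      have hR : (R : Subgroup (MulAut G)) ≤ MulAction.stabilizer (MulAut G) w := fun a ha => by
        have h0 : a u = u := hu ⟨a, ha⟩
        show a w = w
        rw [hw, map_pow, h0]
      have horb : MulAction.orbit (MulAut G) w = {v : G | v ≠ 1 ∧ v ^ 2 = 1} := by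
        ext v
        constructor
        · rintro ⟨a, rfl⟩
          exact ⟨fun e => hm0 (a.injective (e.trans (map_one a).symm)),
            (map_pow a w 2).symm.trans ((congrArg a hm).trans (map_one a))⟩
        · rintro ⟨hv1, hv2⟩
          obtain ⟨a, ha⟩ := htrans w v hm0 hm hv1 hv2
          exact ⟨a, ha⟩
      have hcard : (MulAction.orbit (MulAut G) w).ncard = 2 ^ k - 1 := by
        rw [horb, ← hk, ← SetLike.coe_sort_coe Ω, Nat.card_coe_set_eq]
        have : {v : G | v ≠ 1 ∧ v ^ 2 = 1} = (Ω : Set G) \ {1} := by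
          ext v; exact ⟨fun h => ⟨h.2, h.1⟩, fun h => ⟨h.2, h.1⟩⟩
        rw [this, Set.ncard_diff_singleton_of_mem (one_mem Ω)]
      rw [← MulAction.index_stabilizer] at hcard
      exact R.not_dvd_index (hrd.trans (hcard ▸ Subgroup.index_dvd_of_le hR))
    have h1 : Nat.card F = 1 := by
      haveI : Unique F := ⟨⟨⟨1, fun a => map_one (a : MulAut G)⟩⟩, fun u => Subtype.ext (hfix u u.2)⟩
      exact Nat.card_unique
    have h2 := R.2.card_modEq_card_fixedPoints G
    rw [← hF, h1, hn] at h2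
    exact (Nat.modEq_iff_dvd' Nat.one_le_two_pow).mp h2.symm
  have hdvd : k ∣ n := by
    rcases (show k = 1 ∨ 1 < k by omega) with rfl | hk1
    · exact one_dvd n
    by_cases h6 : k = 6
    · subst h6
      have h3 := key 3 Nat.prime_three (by norm_num)
      have h7 := key 7 (by norm_num) (by norm_num)
      have hsplit : 2 ^ n = 2 ^ (n % 6) * 64 ^ (n / 6) := by
        rw [show (64 : ℕ) = 2 ^ 6 by norm_num, ← pow_mul, ← pow_add, Nat.mod_add_div]
      have hpos := Nat.one_le_two_pow (n := n)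
      have e3 : 2 ^ n % 3 = 2 ^ (n % 6) % 3 := by
        rw [hsplit, Nat.mul_mod, show 64 ^ (n / 6) % 3 = 1 by rw [Nat.pow_mod]; norm_num, mul_one, Nat.mod_mod]
      have e7 : 2 ^ n % 7 = 2 ^ (n % 6) % 7 := by
        rw [hsplit, Nat.mul_mod, show 64 ^ (n / 6) % 7 = 1 by rw [Nat.pow_mod]; norm_num, mul_one, Nat.mod_mod]
      have a3 : 2 ^ n % 3 = 1 := by omega
      have a7 : 2 ^ n % 7 = 1 := by omega
      have hlt : n % 6 < 6 := Nat.mod_lt _ (by norm_num)
      refine Nat.dvd_of_mod_eq_zero ?_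
      rw [e3] at a3
      rw [e7] at a7
      interval_cases hc : n % 6 <;> simp_all
    · obtain ⟨r, hr, hrd, hprim⟩ := CfsgLib.Zsig.zsigmondy 2 k (by norm_num) hk1 (fun h => h6 h.2) (by
        rintro ⟨-, m, hm⟩
        rcases m with _ | m
        · norm_num at hm
        · rw [pow_succ] at hm; omega)
      haveI := Fact.mk hr
      have hpos := Nat.one_le_two_pow (n := n)
      have hposk := Nat.one_le_two_pow (n := k)
      have t : ∀ j : ℕ, r ∣ 2 ^ j - 1 ↔ (2 : ZMod r) ^ j = 1 := fun j => by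
        rw [← Nat.modEq_iff_dvd' Nat.one_le_two_pow, ← ZMod.natCast_eq_natCast_iff]
        push_cast
        exact eq_comm
      have hd : orderOf (2 : ZMod r) ∣ n := orderOf_dvd_of_pow_eq_one ((t n).mp (key r hr hrd))
      have hdk : orderOf (2 : ZMod r) ∣ k := orderOf_dvd_of_pow_eq_one ((t k).mp hrd)
      have heq : orderOf (2 : ZMod r) = k := by
        refine le_antisymm (Nat.le_of_dvd (by omega) hdk) (not_lt.mp fun hlt => ?_)
        exact hprim _ (Nat.pos_of_ne_zero fun e => by rw [e, zero_dvd_iff] at hdk; omega) hlt ((t _).mpr (pow_orderOf_eq_one _))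
      exact heq ▸ hd
  obtain ⟨m, hm⟩ := hdvd
  refine ⟨m, ?_⟩
  rw [hn, hm, pow_mul, ← hk]
  rfl

end Cfsg.Agent.S3774
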