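import Cfsg.Statements.S3775
import Cfsg.Agent.Lib.CoprimeAbelAut.Indecomposable

set_option autoImplicit false
open Cfsg

namespace Cfsg.Agent.S3775

/-- Let A be a finite abelian p-group and X a group of automorphisms of A of order prime to p. Call a subgroup of A invariant when every element of X maps it onto itself. Then the following are equivalent: (i) A is not the direct product of two nontrivial invariant subgroups; (ii) every invariant subgroup of A is one of the subgroups Ω_i(A) = {a : a^(p^i) = 1}; (iii) the subgroup Ω₁(A) of elements of order dividing p has no invariant subgroups other than 1 and itself. -/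
theorem result {A : Type*} [CommGroup A] [Finite A] {p : ℕ} [Fact p.Prime] (hA : IsPGroup p A) (X : Subgroup (MulAut A)) (hX : (Nat.card X).Coprime p) : ((¬ ∃ B C : Subgroup A, B ≠ ⊥ ∧ C ≠ ⊥ ∧ (∀ x ∈ X, B.map x.toMonoidHom = B) ∧ (∀ x ∈ X, C.map x.toMonoidHom = C) ∧ B ⊓ C = ⊥ ∧ B ⊔ C = ⊤) ↔ (∀ B : Subgroup A, (∀ x ∈ X, B.map x.toMonoidHom = B) → ∃ i : ℕ, ∀ a : A, a ∈ B ↔ a ^ p ^ i = 1)) ∧ ((∀ B : Subgroup A, (∀ x ∈ X, B.map x.toMonoidHom = B) → ∃ i : ℕ, ∀ a : A, a ∈ B ↔ a ^ p ^ i = 1) ↔ (∀ B : Subgroup A, (∀ x ∈ X, B.map x.toMonoidHom = B) → (∀ b ∈ B, b ^ p = 1) → B = ⊥ ∨ ∀ a : A, a ∈ B ↔ a ^ p = 1)) := by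
  have hconv : ∀ B : Subgroup A, (∀ x ∈ X, B.map x.toMonoidHom = B) ↔ CfsgLib.CoprimeAbelAut.Inv X.subtype B :=
    fun B => ⟨fun h x => h x x.2, fun h x hx => h ⟨x, hx⟩⟩
  have h31 : (∀ B : Subgroup A, (∀ x ∈ X, B.map x.toMonoidHom = B) → (∀ b ∈ B, b ^ p = 1) → B = ⊥ ∨ ∀ a : A, a ∈ B ↔ a ^ p = 1) →
      ∀ B : Subgroup A, (∀ x ∈ X, B.map x.toMonoidHom = B) → ∃ i : ℕ, ∀ a : A, a ∈ B ↔ a ^ p ^ i = 1 := by
    intro h B hB
    have := CfsgLib.CoprimeAbelAut.eq_omega hA X.subtype ⊥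
      (CfsgLib.CoprimeAbelAut.inv_of_mem fun x a ha => by simp_all) (fun C hC _ hC2 => by
        have hCp : ∀ b ∈ C, b ^ p = 1 := fun b hb => by
          simpa [CfsgLib.CoprimeAbelAut.omega] using hC2 hb
        rcases h C ((hconv C).mpr hC) hCp with h1 | h1
        · exact Or.inl h1
        · exact Or.inr (Subgroup.ext fun a => (h1 a).trans (by simp [CfsgLib.CoprimeAbelAut.omega])))
      B ((hconv B).mp hB) bot_le
    simpa using this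
  have h12 : (∀ B : Subgroup A, (∀ x ∈ X, B.map x.toMonoidHom = B) → ∃ i : ℕ, ∀ a : A, a ∈ B ↔ a ^ p ^ i = 1) →
      ¬ ∃ B C : Subgroup A, B ≠ ⊥ ∧ C ≠ ⊥ ∧ (∀ x ∈ X, B.map x.toMonoidHom = B) ∧ (∀ x ∈ X, C.map x.toMonoidHom = C) ∧ B ⊓ C = ⊥ ∧ B ⊔ C = ⊤ := by
    rintro h ⟨B, C, hB, hC, hBi, hCi, hbc, -⟩
    have key : ∀ D : Subgroup A, D ≠ ⊥ → (∀ x ∈ X, D.map x.toMonoidHom = D) → ∀ a : A, a ^ p = 1 → a ∈ D := by
      intro D hD hDi a ha
      obtain ⟨i, hi⟩ := h D hDi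
      rcases Nat.eq_zero_or_pos i with rfl | hi0
      · exact absurd ((Subgroup.eq_bot_iff_forall _).mpr fun d hd => by simpa using (hi d).mp hd) hD
      · refine (hi a).mpr ?_
        obtain ⟨j, rfl⟩ := Nat.exists_eq_add_of_le hi0
        rw [pow_add, pow_one, pow_mul, ha, one_pow]
    have : Nontrivial B := (Subgroup.nontrivial_iff_ne_bot B).mpr hB
    obtain ⟨b, hb⟩ := exists_prime_orderOf_dvd_card' (G := B) p (by
      obtain ⟨n, hn0, hn⟩ := (IsPGroup.nontrivial_iff_card (hA.to_subgroup B)).mp this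
      exact hn ▸ dvd_pow_self p hn0.ne')
    have hb1 : (b : A) ^ p = 1 := by
      rw [← hb, ← Subgroup.orderOf_coe]; exact pow_orderOf_eq_one _
    have hmem : (b : A) ∈ B ⊓ C := ⟨b.2, key C hC hCi _ hb1⟩
    rw [hbc, Subgroup.mem_bot] at hmem
    rw [← Subgroup.orderOf_coe, hmem, orderOf_one] at hb
    exact (Fact.out : p.Prime).one_lt.ne hb
  have h13 : (¬ ∃ B C : Subgroup A, B ≠ ⊥ ∧ C ≠ ⊥ ∧ (∀ x ∈ X, B.map x.toMonoidHom = B) ∧ (∀ x ∈ X, C.map x.toMonoidHom = C) ∧ B ⊓ C = ⊥ ∧ B ⊔ C = ⊤) →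
      ∀ B : Subgroup A, (∀ x ∈ X, B.map x.toMonoidHom = B) → (∀ b ∈ B, b ^ p = 1) → B = ⊥ ∨ ∀ a : A, a ∈ B ↔ a ^ p = 1 := by
    intro h B hB hBp
    by_contra hh
    push Not at hh
    obtain ⟨C, D, hC, hD, hCi, hDi, h1, h2⟩ := CfsgLib.CoprimeAbelAut.exists_decomposition hA X.subtype hX B
      ((hconv B).mp hB) hBp hh.1 (fun h' => by
        obtain ⟨a, ha⟩ := hh.2
        have := h' a
        tauto)
    exact h ⟨C, D, hC, hD, (hconv C).mpr hCi, (hconv D).mpr hDi, h1, h2⟩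
  have h23 : (∀ B : Subgroup A, (∀ x ∈ X, B.map x.toMonoidHom = B) → ∃ i : ℕ, ∀ a : A, a ∈ B ↔ a ^ p ^ i = 1) →
      ∀ B : Subgroup A, (∀ x ∈ X, B.map x.toMonoidHom = B) → (∀ b ∈ B, b ^ p = 1) → B = ⊥ ∨ ∀ a : A, a ∈ B ↔ a ^ p = 1 :=
    fun h => h13 (h12 h)
  exact ⟨⟨fun h => h31 (h13 h), h12⟩, ⟨h23, h31⟩⟩

end Cfsg.Agent.S3775
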