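import Cfsg.Statements.S3780

set_option autoImplicit false
open Cfsg

namespace Cfsg.Agent.S3780

/-- Let V be a finite abelian p-group and α an automorphism of V of order p whose fixed-point subgroup has order p^n. Then V can be generated by pn elements: some subset of V with at most pn elements generates V. -/
theorem result {V : Type*} [CommGroup V] [Finite V] {p : ℕ} [Fact p.Prime] (hV : IsPGroup p V) (α : MulAut V) (hα : orderOf α = p) (n : ℕ) (hfix : Nat.card {v : V // α v = v} = p ^ n) : ∃ S : Finset V, S.card ≤ p * n ∧ Subgroup.closure (S : Set V) = ⊤ := by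
  classical
  -- elements killed by `p`
  let T : V →* V := powMonoidHom p
  let E : Subgroup V := T.ker
  let δ : V →* V := α.toMonoidHom / MonoidHom.id V
  have hδ : ∀ v, δ v = α v / v := fun v => rfl
  -- iterates of `δ` in the group ring
  let τ : AddMonoid.End (Additive V) := MonoidHom.toAdditive α.toMonoidHom
  let δ' : AddMonoid.End (Additive V) := MonoidHom.toAdditive δ
  have hδ' : δ' = τ - 1 := by ext x; rfl
  have hτp : τ ^ p = 1 := by
    have e : ∀ (k : ℕ) (x : Additive V), (τ ^ k) x = Additive.ofMul ((α ^ k) x.toMul) := by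
      intro k
      induction k with
      | zero => intro x; rfl
      | succ k ih =>
        intro x
        rw [pow_succ', pow_succ']
        show τ ((τ ^ k) x) = _
        rw [ih, MulAut.mul_apply]
        rfl
    ext x
    rw [e, ← hα, pow_orderOf_eq_one]
    rfl
  have hkill : ∀ v ∈ E, δ^[p] v = 1 := by
    intro v hv
    obtain ⟨r, hr⟩ := ((Commute.one_right τ).sub_left (Commute.refl (1 : AddMonoid.End (Additive V)))).exists_add_pow_prime_eq (Fact.out : p.Prime)
    rw [sub_add_cancel, one_pow, hτp] at hr
    have h2 := congrArg (fun φ : AddMonoid.End (Additive V) => φ (Additive.ofMul v)) hr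
    have h3 : ((τ - 1) ^ p) (Additive.ofMul v) = 0 := by
      have hp0 : ∀ φ : AddMonoid.End (Additive V), ((p : AddMonoid.End (Additive V)) * φ) (Additive.ofMul v) = 0 := by
        intro φ
        rw [(Nat.cast_commute p φ).eq]
        show φ ((p : AddMonoid.End (Additive V)) (Additive.ofMul v)) = 0
        have : (p : AddMonoid.End (Additive V)) (Additive.ofMul v) = 0 := by
          rw [AddMonoid.End.natCast_apply]
          show Additive.ofMul (v ^ p) = 0
          rw [show v ^ p = 1 from hv]; rfl
        rw [this, map_zero]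
      have h4 : ∀ a b : AddMonoid.End (Additive V), (a + b) (Additive.ofMul v) = a (Additive.ofMul v) + b (Additive.ofMul v) := fun a b => rfl
      rw [h4, h4, mul_assoc, mul_assoc, hp0, add_zero] at h2
      exact add_eq_right.mp h2.symm
    have e : ∀ (k : ℕ) (x : Additive V), (δ' ^ k) x = Additive.ofMul (δ^[k] x.toMul) := by
      intro k
      induction k with
      | zero => intro x; rfl
      | succ k ih =>
        intro x
        rw [pow_succ', Function.iterate_succ_apply']
        show δ' ((δ' ^ k) x) = _
        rw [ih]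
        rfl
    rw [← hδ', e] at h3
    exact h3
  have hker : Nat.card δ.ker ≤ p ^ n := by
    rw [← hfix]
    exact le_of_eq (Nat.card_congr (Equiv.subtypeEquivRight fun v => by rw [MonoidHom.mem_ker, hδ, div_eq_one]))
  -- bounds along the iterates
  let I : ℕ → Subgroup V := fun k => (fun J : Subgroup V => J.map δ)^[k] E
  have hbound : ∀ j k, I (k + j) = ⊥ → Nat.card ↥(I k) ≤ p ^ (n * j) := by
    intro j
    induction j with
    | zero =>
      intro k hk
      rw [add_zero] at hk
      rw [hk]; simp
    | succ j ih =>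
      intro k hk
      have h1 := ih (k + 1) (by rwa [add_right_comm, add_assoc])
      have h2 : Nat.card ↥(I k) = Nat.card (δ.comp (I k).subtype).range * Nat.card (δ.comp (I k).subtype).ker := by
        rw [← Subgroup.index_ker, Subgroup.index_mul_card]
      have h3 : (δ.comp (I k).subtype).range = I (k + 1) := by
        rw [MonoidHom.range_comp, Subgroup.range_subtype]
        exact (Function.iterate_succ_apply' (fun J : Subgroup V => J.map δ) k E).symm
      have h4 : Nat.card (δ.comp (I k).subtype).ker ≤ Nat.card δ.ker :=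
        Nat.card_le_card_of_injective (fun u => (⟨u.1.1, u.2⟩ : δ.ker))
          (fun u w h => Subtype.ext (Subtype.ext (congrArg (fun z : δ.ker => z.1) h)))
      rw [h2, h3, Nat.mul_succ, pow_add]
      exact Nat.mul_le_mul h1 (h4.trans hker)
  have hI : ∀ k, ∀ u ∈ I k, ∃ v ∈ E, δ^[k] v = u := by
    intro k
    induction k with
    | zero => intro u hu; exact ⟨u, hu, rfl⟩
    | succ k ih =>
      intro z hz
      simp only [I, Function.iterate_succ_apply'] at hz
      obtain ⟨u, hu, rfl⟩ := hz
      obtain ⟨v, hv, rfl⟩ := ih u hu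
      exact ⟨v, hv, by rw [Function.iterate_succ_apply']⟩
  have hbot : I (0 + p) = ⊥ := by
    rw [zero_add, eq_bot_iff]
    intro u hu
    obtain ⟨v, hv, rfl⟩ := hI p u hu
    exact Subgroup.mem_bot.mpr (hkill v hv)
  have hE : Nat.card E ≤ p ^ (p * n) := by rw [mul_comm]; exact hbound p 0 hbot
  -- generators of `V / V^p`
  have hQ : Nat.card (V ⧸ T.range) = Nat.card E := by
    have h1 := Subgroup.index_mul_card T.range
    have h2 := Subgroup.index_mul_card T.ker
    rw [Subgroup.index_ker] at h2
    rw [← Subgroup.index_eq_card]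
    show T.range.index = Nat.card T.ker
    exact Nat.eq_of_mul_eq_mul_right Nat.card_pos (h1.trans (h2.symm.trans (mul_comm _ _)))
  have hclose : ∀ S : Subgroup V, S ⊔ T.range = ⊤ → S = ⊤ := by
    intro S hS
    have hk : ∀ k, ∀ v : V, ∃ s ∈ S, ∃ w : V, v = s * w ^ p ^ k := by
      intro k
      induction k with
      | zero => intro v; exact ⟨1, S.one_mem, v, by simp⟩
      | succ k ih =>
        intro v
        obtain ⟨s, hs, w, rfl⟩ := ih v
        obtain ⟨s', hs', y, ⟨z, rfl⟩, rfl⟩ := Subgroup.mem_sup.mp (hS ▸ Subgroup.mem_top w : w ∈ S ⊔ T.range)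
        refine ⟨s * s' ^ p ^ k, S.mul_mem hs (S.pow_mem hs' _), z, ?_⟩
        show s * (s' * z ^ p) ^ p ^ k = _
        rw [mul_pow, mul_assoc, ← pow_mul, ← pow_succ']
    obtain ⟨k, hk'⟩ := hV.exists_card_eq
    rw [Subgroup.eq_top_iff']
    intro v
    obtain ⟨s, hs, w, rfl⟩ := hk k v
    rw [← hk', pow_card_eq_one', mul_one]; exact hs
  -- choose generators greedily
  have hgrow : ∀ i, (∃ S : Finset V, S.card ≤ i ∧ (Subgroup.closure (S : Set V) ⊔ T.range = ⊤ ∨
      (Subgroup.closure (S : Set V) ⊔ T.range).index * p ^ i ≤ Nat.card E)) := by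
    intro i
    induction i with
    | zero =>
      refine ⟨∅, le_rfl, Or.inr ?_⟩
      simp [← hQ, Subgroup.index_eq_card]
    | succ i ih =>
      obtain ⟨S, hS, hS'⟩ := ih
      by_cases ht : Subgroup.closure (S : Set V) ⊔ T.range = ⊤
      · exact ⟨S, hS.trans (Nat.le_succ i), Or.inl ht⟩
      have hS'' := hS'.resolve_left ht
      obtain ⟨v, hv⟩ : ∃ v, v ∉ Subgroup.closure (S : Set V) ⊔ T.range := by
        by_contra hc; push Not at hc; exact ht ((Subgroup.eq_top_iff' _).mpr hc)
      refine ⟨insert v S, (Finset.card_insert_le v S).trans (Nat.succ_le_succ hS), Or.inr ?_⟩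
      set A := Subgroup.closure (S : Set V) ⊔ T.range with hA
      set B := Subgroup.closure ((insert v S : Finset V) : Set V) ⊔ T.range with hB
      have hAB : A ≤ B := sup_le_sup_right (Subgroup.closure_mono (by simp)) _
      have hvB : v ∈ B := Subgroup.mem_sup_left (Subgroup.subset_closure (by simp))
      have hp' : p ≤ A.relIndex B := by
        obtain ⟨k, hk⟩ := (hV.to_subgroup B).exists_card_eq
        have hdvd : A.relIndex B ∣ p ^ k := hk ▸ Subgroup.index_dvd_card _
        obtain ⟨j, -, hj⟩ := (Nat.dvd_prime_pow (Fact.out : p.Prime)).mp hdvd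
        rcases Nat.eq_zero_or_pos j with rfl | hj0
        · rw [pow_zero] at hj
          exact absurd (Subgroup.relIndex_eq_one.mp hj hvB) hv
        · rw [hj]; exact Nat.le_self_pow hj0.ne' p
      calc B.index * p ^ (i + 1) = p * B.index * p ^ i := by rw [pow_succ]; ring
        _ ≤ A.relIndex B * B.index * p ^ i := Nat.mul_le_mul_right _ (Nat.mul_le_mul_right _ hp')
        _ ≤ Nat.card E := by rw [Subgroup.relIndex_mul_index hAB]; exact hS''
  obtain ⟨S, hS, hS'⟩ := hgrow (p * n)
  refine ⟨S, hS, hclose _ (hS'.elim id fun h => ?_)⟩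
  rw [← Subgroup.index_eq_one]
  have h1 : (Subgroup.closure (S : Set V) ⊔ T.range).index * p ^ (p * n) ≤ 1 * p ^ (p * n) := by rw [one_mul]; exact h.trans hE
  exact le_antisymm (Nat.le_of_mul_le_mul_right h1 (pow_pos (Fact.out : p.Prime).pos _))
    (Nat.pos_of_ne_zero Subgroup.index_ne_zero_of_finite)


end Cfsg.Agent.S3780
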