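import Cfsg.Statements.S3781
import Cfsg.Agent.Lib.LocalBasic

set_option autoImplicit false
open Cfsg

namespace Cfsg.Agent.S3781
universe u

open scoped commutatorElement

/-- Iterated commutators of a subgroup with the whole group. -/
def it {G : Type u} [Group G] (A : Subgroup G) : ℕ → Subgroup G
  | 0 => A
  | k + 1 => ⁅it A k, (⊤ : Subgroup G)⁆

theorem it_succ {G : Type u} [Group G] (A : Subgroup G) (k : ℕ) : it A (k + 1) = ⁅it A k, (⊤ : Subgroup G)⁆ := rfl

theorem it_succ' {G : Type u} [Group G] (A : Subgroup G) : ∀ k, it A (k + 1) = it ⁅A, (⊤ : Subgroup G)⁆ k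
  | 0 => rfl
  | k + 1 => by rw [it_succ, it_succ' A k, it_succ]

theorem it_mono {G : Type u} [Group G] {A B : Subgroup G} (h : A ≤ B) : ∀ k, it A k ≤ it B k
  | 0 => h
  | k + 1 => Subgroup.commutator_mono (it_mono h k) le_rfl

theorem it_le_lcs {G : Type u} [Group G] (A : Subgroup G) : ∀ k, it A k ≤ (⊤ : Subgroup G).lowerCentralSeries k
  | 0 => le_top
  | k + 1 => Subgroup.commutator_mono (it_le_lcs A k) le_rfl

theorem it_normal {G : Type u} [Group G] (A : Subgroup G) [A.Normal] : ∀ k, (it A k).Normal
  | 0 => inferInstanceAs A.Normal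
  | k + 1 => by
    haveI := it_normal A k
    exact (inferInstance : (⁅it A k, (⊤ : Subgroup G)⁆ : Subgroup G).Normal)

theorem commutator_lcs_le {G : Type u} [Group G] : ∀ (k : ℕ) (A : Subgroup G) [A.Normal],
    ⁅A, (⊤ : Subgroup G).lowerCentralSeries k⁆ ≤ it A (k + 1)
  | 0, A, _ => le_rfl
  | k + 1, A, _ => by
    haveI := it_normal A (k + 1 + 1)
    have htop : ∀ X : Subgroup G, X ≤ Subgroup.normalizer (it A (k + 1 + 1) : Set G) := fun X => by
      rw [Subgroup.normalizer_eq_top]; exact le_top
    rw [Subgroup.lowerCentralSeries_succ, Subgroup.commutator_comm]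
    apply CfsgLib.LocalBasic.three_subgroup (htop _) (htop _) (htop _)
    · rw [Subgroup.commutator_comm (⊤ : Subgroup G) A, it_succ' A (k + 1)]
      exact commutator_lcs_le k _
    · rw [it_succ A (k + 1)]
      exact Subgroup.commutator_mono (commutator_lcs_le k A) le_rfl

theorem it_le_of_relIndex {G : Type u} [Group G] [Finite G] {p : ℕ} [Fact p.Prime] (hG : IsPGroup p G) :
    ∀ (m : ℕ) (A B : Subgroup G) [A.Normal] [B.Normal], B ≤ A → B.relIndex A ≤ p ^ m → it A m ≤ B
  | 0, A, B, _, _, hBA, h => by
    have h1 : B.relIndex A = 1 :=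
      le_antisymm (by simpa using h) (Nat.one_le_iff_ne_zero.mpr Subgroup.index_ne_zero_of_finite)
    exact Subgroup.relIndex_eq_one.mp h1
  | m + 1, A, B, _, _, hBA, h => by
    have hp : p.Prime := Fact.out
    haveI := hG.isNilpotent
    set A' := ⁅A, (⊤ : Subgroup G)⁆ ⊔ B with hA'
    have hA'A : A' ≤ A := sup_le (Subgroup.commutator_le_left A ⊤) hBA
    rcases hA'A.eq_or_lt with heq | hlt
    · have hk : ∀ k, A ≤ it A k ⊔ B := by
        intro k
        induction k with
        | zero => exact le_sup_left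
        | succ k ih =>
          calc A = ⁅A, (⊤ : Subgroup G)⁆ ⊔ B := heq.symm
            _ ≤ ⁅it A k ⊔ B, (⊤ : Subgroup G)⁆ ⊔ B := sup_le_sup_right (Subgroup.commutator_mono ih le_rfl) B
            _ ≤ it A (k + 1) ⊔ B := by
              refine sup_le ?_ le_sup_right
              haveI := it_normal A (k + 1)
              rw [Subgroup.commutator_le]
              intro x hx g _
              rw [← QuotientGroup.eq_one_iff, ← QuotientGroup.mk'_apply, map_commutatorElement,
                commutatorElement_eq_one_iff_mul_comm]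
              revert hx
              intro hx
              have hker : ∀ y ∈ it A k ⊔ B, ∀ g : G, ⁅y, g⁆ ∈ it A (k + 1) ⊔ B := by
                haveI := it_normal A k
                intro y hy g
                obtain ⟨a, ha, b, hb, rfl⟩ := Subgroup.mem_sup_of_normal_right.mp hy
                rw [show ⁅a * b, g⁆ = (a * ⁅b, g⁆ * a⁻¹) * ⁅a, g⁆ by simp only [commutatorElement_def]; group]
                refine mul_mem ((inferInstance : (it A (k + 1) ⊔ B).Normal).conj_mem _ (Subgroup.mem_sup_right ?_) a)
                  (Subgroup.mem_sup_left (Subgroup.commutator_mem_commutator ha (Subgroup.mem_top g)))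
                exact Subgroup.commutator_le_left B ⊤ (Subgroup.commutator_mem_commutator hb (Subgroup.mem_top g))
              rw [← commutatorElement_eq_one_iff_mul_comm, ← map_commutatorElement, QuotientGroup.mk'_apply,
                QuotientGroup.eq_one_iff]
              exact hker x hx g
      have hAB : A ≤ B := by
        refine (hk (Group.nilpotencyClass G)).trans (sup_le ?_ le_rfl)
        exact ((it_le_lcs A _).trans Subgroup.lowerCentralSeries_nilpotencyClass.le).trans bot_le
      refine le_trans ?_ hAB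
      clear hk h
      induction (m + 1) with
      | zero => exact le_rfl
      | succ k ih => exact (Subgroup.commutator_mono ih le_rfl).trans (Subgroup.commutator_le_left A ⊤)
    · rw [it_succ']
      refine (it_mono le_sup_left m).trans (it_le_of_relIndex hG m A' B le_sup_right ?_)
      have hmul := Subgroup.relIndex_mul_relIndex B A' A le_sup_right hA'A
      obtain ⟨e, he⟩ : ∃ e, B.relIndex A' = p ^ e := (hG.to_subgroup _).index _
      obtain ⟨f, hf⟩ : ∃ f, A'.relIndex A = p ^ f := (hG.to_subgroup _).index _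
      have hf0 : f ≠ 0 := by
        rintro rfl
        rw [pow_zero] at hf
        exact hlt.not_ge (Subgroup.relIndex_eq_one.mp hf)
      rw [he]
      refine Nat.pow_le_pow_right hp.pos ?_
      rw [← hmul, he, hf, ← pow_add] at h
      have := (Nat.pow_le_pow_iff_right hp.one_lt).mp h
      omega

/-- Let G be a finite p-group and n ≥ 1, and write γ_1(G) = G, γ_{k+1}(G) = [γ_k(G), G], and likewise γ_k(N) for a subgroup N. Let N be a normal subgroup of G contained in γ_n(G). If i > 1 and γ_{i+1}(N) ≠ 1, then |γ_i(N) : γ_{i+1}(N)| ≥ p^n. -/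
theorem result {G : Type*} [Group G] [Finite G] {p : ℕ} [Fact p.Prime] (hG : IsPGroup p G) (n : ℕ) (hn : 1 ≤ n) (N : Subgroup G) [N.Normal] (hN : N ≤ (⊤ : Subgroup G).lowerCentralSeries (n - 1)) (i : ℕ) (hi : 1 < i) (hne : N.lowerCentralSeries i ≠ ⊥) : p ^ n ≤ (N.lowerCentralSeries i).relIndex (N.lowerCentralSeries (i - 1)) := by
  classical
  have hp : p.Prime := Fact.out
  haveI := hG.isNilpotent
  have hNn : ∀ j, (N.lowerCentralSeries j).Normal := by
    intro j
    induction j with
    | zero => assumption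
    | succ j ih =>
      haveI := ih
      exact (inferInstance : (⁅N.lowerCentralSeries j, N⁆ : Subgroup G).Normal)
  obtain ⟨j, rfl⟩ : ∃ j, i = j + 1 := ⟨i - 1, by omega⟩
  rw [Nat.add_sub_cancel]
  haveI := hNn j
  haveI := hNn (j + 1)
  have hle : N.lowerCentralSeries (j + 1) ≤ N.lowerCentralSeries j := N.lowerCentralSeries_antitone (Nat.le_succ j)
  by_contra! hlt
  apply hne
  obtain ⟨e, he⟩ : ∃ e, (N.lowerCentralSeries (j + 1)).relIndex (N.lowerCentralSeries j) = p ^ e :=
    (hG.to_subgroup _).index _
  have hen : e ≤ n - 1 := by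
    rw [he] at hlt
    have := (Nat.pow_lt_pow_iff_right hp.one_lt).mp hlt
    omega
  obtain ⟨n', rfl⟩ : ∃ n', n = n' + 1 := ⟨n - 1, by omega⟩
  rw [Nat.add_sub_cancel] at hen hN
  have h1 : it (N.lowerCentralSeries j) n' ≤ N.lowerCentralSeries (j + 1) :=
    it_le_of_relIndex hG n' _ _ hle (he.le.trans (Nat.pow_le_pow_right hp.pos hen))
  have h2 : N.lowerCentralSeries (j + 1) ≤ ⁅N.lowerCentralSeries (j + 1), (⊤ : Subgroup G)⁆ :=
    calc N.lowerCentralSeries (j + 1) = ⁅N.lowerCentralSeries j, N⁆ := rfl
      _ ≤ ⁅N.lowerCentralSeries j, (⊤ : Subgroup G).lowerCentralSeries n'⁆ := Subgroup.commutator_mono le_rfl hN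
      _ ≤ it (N.lowerCentralSeries j) (n' + 1) := commutator_lcs_le n' _
      _ = ⁅it (N.lowerCentralSeries j) n', (⊤ : Subgroup G)⁆ := it_succ _ _
      _ ≤ ⁅N.lowerCentralSeries (j + 1), (⊤ : Subgroup G)⁆ := Subgroup.commutator_mono h1 le_rfl
  have h3 : ∀ k, N.lowerCentralSeries (j + 1) ≤ it (N.lowerCentralSeries (j + 1)) k := by
    intro k
    induction k with
    | zero => exact le_rfl
    | succ k ih => exact h2.trans ((Subgroup.commutator_mono ih le_rfl).trans (it_succ _ _).ge)
  rw [eq_bot_iff, ← Subgroup.lowerCentralSeries_nilpotencyClass (G := G)]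
  exact (h3 _).trans (it_le_lcs _ _)

end Cfsg.Agent.S3781
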