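import Cfsg.Statements.S3784
import Mathlib.NumberTheory.Fermat
import Cfsg.Agent.S3370

set_option autoImplicit false
open Cfsg

namespace Cfsg.Agent.S3784

/-- Let p, q be primes and a, b positive integers with p^a = q^b + 1. Then either p = 2, b = 1, a is prime and q = 2^a − 1; or q = 2, a = 1, b is a power of 2 and p = 2^b + 1; or p^a = 9 and q^b = 8. -/
theorem result (p q a b : ℕ) (hp : p.Prime) (hq : q.Prime) (ha : 1 ≤ a) (hb : 1 ≤ b) (h : p ^ a = q ^ b + 1) : (p = 2 ∧ b = 1 ∧ a.Prime ∧ q + 1 = 2 ^ a) ∨ (q = 2 ∧ a = 1 ∧ (∃ m : ℕ, b = 2 ^ m) ∧ p = 2 ^ b + 1) ∨ (p ^ a = 9 ∧ q ^ b = 8) := by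
  rcases hp.eq_two_or_odd' with rfl | hpo
  · left
    have hqo : Odd q := by
      rcases hq.eq_two_or_odd' with rfl | h'
      · exfalso
        obtain ⟨a', rfl⟩ := Nat.exists_eq_add_of_le ha
        obtain ⟨b', rfl⟩ := Nat.exists_eq_add_of_le hb
        rw [pow_add, pow_add, pow_one] at h
        omega
      · exact h'
    have hb1 : b = 1 := by
      by_contra hb1
      exact Cfsg.Agent.S3370.pow_sub_one hqo hq.one_lt (by omega) h
    subst hb1
    rw [pow_one] at h
    refine ⟨rfl, rfl, ?_, h.symm⟩
    refine (Nat.prime_of_pow_sub_one_prime (a := 2) (n := a) ?_ ?_).2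
    · rintro rfl
      rw [pow_one] at h
      exact hq.one_lt.ne' (by omega)
    · rwa [show 2 ^ a - 1 = q by omega]
  · have hq2 : q = 2 := by
      by_contra hq2
      obtain ⟨r, hr⟩ := hpo.pow (n := a)
      obtain ⟨s, hs⟩ := (hq.odd_of_ne_two hq2).pow (n := b)
      omega
    subst hq2
    right
    rcases Nat.lt_or_ge a 2 with ha2 | ha2
    · left
      obtain rfl : a = 1 := by omega
      rw [pow_one] at h
      exact ⟨rfl, rfl, Nat.pow_of_pow_add_prime (a := 2) one_lt_two (by omega) (h ▸ hp), h⟩
    · right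
      rcases Nat.even_or_odd a with ⟨c, rfl⟩ | hao
      · have hc : 1 ≤ p ^ c := Nat.one_le_pow _ _ hp.pos
        obtain ⟨d, hd⟩ := Nat.exists_eq_add_of_le hc
        have h2 : d * (d + 2) = 2 ^ b := by rw [pow_add, hd] at h; ring_nf at h ⊢; omega
        obtain ⟨i, -, hi⟩ := (Nat.dvd_prime_pow Nat.prime_two).mp ⟨d + 2, h2.symm⟩
        obtain ⟨j, -, hj⟩ := (Nat.dvd_prime_pow Nat.prime_two).mp ⟨d, by rw [← h2, mul_comm]⟩
        have hi1 : i = 1 := by
          rcases Nat.lt_or_ge i 1 with hi0 | hi1
          · obtain rfl : i = 0 := by omega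
            rw [hi, pow_zero] at hj
            rcases j with _ | _ | j
            · omega
            · omega
            · rw [pow_succ, pow_succ] at hj; omega
          rcases Nat.lt_or_ge i 2 with hi2 | hi2
          · omega
          obtain ⟨i', rfl⟩ := Nat.exists_eq_add_of_le hi2
          rw [pow_add] at hi
          have hu : 1 ≤ 2 ^ i' := Nat.one_le_two_pow
          generalize 2 ^ i' = u at hi hu
          rcases Nat.lt_or_ge j 2 with hj2 | hj2
          · interval_cases j <;> norm_num at hi hj <;> omega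
          obtain ⟨j', rfl⟩ := Nat.exists_eq_add_of_le hj2
          rw [pow_add] at hj
          generalize 2 ^ j' = v at hj
          norm_num at hi hj
          omega
        subst hi1
        subst hi
        have h3 : p ^ c = 3 := by omega
        rw [pow_add, h3] at h ⊢
        omega
      · exfalso
        obtain ⟨c, rfl⟩ := hao
        have hg := geom_sum_mul_add (p - 1) (2 * c + 1)
        rw [Nat.sub_add_cancel hp.one_lt.le, h] at hg
        set S := ∑ i ∈ Finset.range (2 * c + 1), p ^ i with hS
        have hS1 : S * (p - 1) = 2 ^ b := by omega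
        have hSodd : Odd S := by
          rw [hS, Finset.odd_sum_iff_odd_card_odd]
          rw [Finset.filter_true_of_mem fun i _ => hpo.pow, Finset.card_range]
          exact odd_two_mul_add_one c
        obtain ⟨i, -, hi⟩ := (Nat.dvd_prime_pow Nat.prime_two).mp ⟨p - 1, hS1.symm⟩
        have hi0 : i = 0 := by
          by_contra hi0
          obtain ⟨r, hr⟩ := hSodd
          obtain ⟨i', rfl⟩ := Nat.exists_eq_succ_of_ne_zero hi0
          rw [pow_succ] at hi; omega
        rw [hi, hi0, pow_zero, one_mul] at hS1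
        have : p ^ 1 < p ^ (2 * c + 1) := Nat.pow_lt_pow_right hp.one_lt (by omega)
        rw [pow_one] at this
        generalize p ^ (2 * c + 1) = Y at this h
        generalize 2 ^ b = B at hS1 h
        have := hp.two_le
        omega

end Cfsg.Agent.S3784
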