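import Cfsg.Statements.S3785
import Cfsg.Agent.Lib.RigidAut
import Cfsg.Agent.Lib.Core
import Cfsg.Agent.S0044

set_option autoImplicit false
open Cfsg

namespace Cfsg.Agent.S3785

/-- Let G be a finite solvable group whose Fitting subgroup F(G) has odd order. If an element g of G commutes with every element of prime order of F(G), then g ∈ F(G). -/
theorem result {G : Type*} [Group G] [Finite G] (hG : Group.IsSolvable G) (hodd : Odd (Nat.card (Cfsg.fittingSubgroup G))) (g : G) (hg : ∀ x ∈ Cfsg.fittingSubgroup G, (orderOf x).Prime → g * x = x * g) : g ∈ Cfsg.fittingSubgroup G := by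
  classical
  set F := Cfsg.fittingSubgroup G with hFdef
  haveI hFn : F.Normal := CfsgLib.Core.fittingSubgroup_normal
  set S : Set G := {x : G | x ∈ F ∧ (orderOf x).Prime} with hS
  set K := Subgroup.centralizer S with hK
  have hgK : g ∈ K := Subgroup.mem_centralizer_iff.mpr fun x hx => (hg x hx.1 hx.2).symm
  haveI hKn : K.Normal := by
    refine ⟨fun k hk c => Subgroup.mem_centralizer_iff.mpr fun x hx => ?_⟩
    have hx' : c⁻¹ * x * c ∈ S := by
      refine ⟨by simpa using hFn.conj_mem x hx.1 c⁻¹, ?_⟩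
      have : orderOf (c⁻¹ * x * c) = orderOf x := by
        rw [show c⁻¹ * x * c = MulAut.conj c⁻¹ x by simp]
        exact MulEquiv.orderOf_eq _ x
      rw [this]; exact hx.2
    have h := Subgroup.mem_centralizer_iff.mp hk _ hx'
    calc x * (c * k * c⁻¹) = c * ((c⁻¹ * x * c) * k) * c⁻¹ := by group
      _ = c * (k * (c⁻¹ * x * c)) * c⁻¹ := by rw [h]
      _ = c * k * c⁻¹ * x := by group
  -- `r`-elements of `K` centralise the other cores
  have hcore : ∀ (r q : ℕ), r.Prime → q.Prime → r ≠ q → ∀ x ∈ K, (∃ k, orderOf x = r ^ k) →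
      ∀ u ∈ pCore q G, x * u = u * x := by
    intro r q hr hq hrq x hx ⟨k, hk⟩ u hu
    haveI := Fact.mk hq
    set Q := pCore q G with hQ
    have hQn : Q.Normal := by rw [hQ]; infer_instance
    have hQF : Q ≤ F := CfsgLib.Core.pCore_le_fittingSubgroup hq
    let α : MulAut Q := MulAut.conjNormal x
    have hα : (orderOf α).Coprime q := by
      refine Nat.Coprime.coprime_dvd_left (orderOf_map_dvd (MulAut.conjNormal (H := Q)) x) ?_
      rw [hk]
      exact ((Nat.coprime_primes hr hq).mpr hrq).pow_left _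
    have hone : α = 1 := by
      refine CfsgLib.RigidAut.eq_one_of_fix_small (Nat.card Q) rfl (CfsgLib.Core.isPGroup_pCore q) α hα fun w hw => ?_
      apply Subtype.ext
      rw [MulAut.conjNormal_apply]
      by_cases hw1 : (w : G) = 1
      · rw [hw1]; group
      rcases hw with hw | ⟨h2, -⟩
      · have ho : orderOf (w : G) = q := orderOf_eq_prime (by rw [← SubgroupClass.coe_pow, hw]; rfl) hw1
        have := Subgroup.mem_centralizer_iff.mp hx (w : G) ⟨hQF w.2, ho ▸ hq⟩
        rw [← this, mul_inv_cancel_right]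
      · exfalso
        have h3 : orderOf (w : G) ∣ Nat.card F := Subgroup.orderOf_dvd_natCard F (hQF w.2)
        obtain ⟨j, hj⟩ := IsPGroup.iff_orderOf.mp (CfsgLib.Core.isPGroup_pCore q) w
        rw [← Subgroup.orderOf_coe] at hj
        rcases Nat.eq_zero_or_pos j with h0 | h0
        · rw [h0, pow_zero, orderOf_eq_one_iff] at hj; exact hw1 hj
        · rw [hj, h2] at h3
          exact (Nat.not_even_iff_odd.mpr hodd) (even_iff_two_dvd.mpr ((dvd_pow_self 2 h0.ne').trans h3))
    have h := congrArg Subtype.val (DFunLike.congr_fun hone (⟨u, hu⟩ : Q))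
    rw [MulAut.conjNormal_apply] at h
    exact mul_inv_eq_iff_eq_mul.mp h
  -- elements of coprime prime power orders of `K` commute
  have hcomm : ∀ (r s : ℕ), r.Prime → s.Prime → r ≠ s → ∀ x ∈ K, (∃ k, orderOf x = r ^ k) →
      ∀ y ∈ K, (∃ k, orderOf y = s ^ k) → x * y = y * x := by
    intro r s hr hs hrs x hx hxo y hy hyo
    set z := x * y * x⁻¹ * y⁻¹ with hz
    have hcy : y * x⁻¹ * y⁻¹ ∈ K ∧ ∃ k, orderOf (y * x⁻¹ * y⁻¹) = r ^ k := by
      refine ⟨K.mul_mem (K.mul_mem hy (K.inv_mem hx)) (K.inv_mem hy), ?_⟩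
      rw [show y * x⁻¹ * y⁻¹ = MulAut.conj y x⁻¹ from rfl, MulEquiv.orderOf_eq, orderOf_inv]
      exact hxo
    have hcx : x * y * x⁻¹ ∈ K ∧ ∃ k, orderOf (x * y * x⁻¹) = s ^ k := by
      refine ⟨K.mul_mem (K.mul_mem hx hy) (K.inv_mem hx), ?_⟩
      rw [show x * y * x⁻¹ = MulAut.conj x y from rfl, MulEquiv.orderOf_eq]
      exact hyo
    have hyi : ∃ k, orderOf y⁻¹ = s ^ k := by rw [orderOf_inv]; exact hyo
    -- `z` centralises every core
    have hzc : ∀ q : ℕ, q.Prime → z ∈ Subgroup.centralizer (pCore q G : Set G) := by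
      intro q hq
      by_cases hqr : r = q
      · have hsq : s ≠ q := fun h => hrs (hqr.trans h.symm)
        rw [hz]
        exact Subgroup.mul_mem _ (Subgroup.mem_centralizer_iff.mpr fun u hu => (hcore s q hs hq hsq _ hcx.1 hcx.2 u hu).symm)
          (Subgroup.mem_centralizer_iff.mpr fun u hu => (hcore s q hs hq hsq _ (K.inv_mem hy) hyi u hu).symm)
      · rw [hz, show x * y * x⁻¹ * y⁻¹ = x * (y * x⁻¹ * y⁻¹) by group]
        exact Subgroup.mul_mem _ (Subgroup.mem_centralizer_iff.mpr fun u hu => (hcore r q hr hq hqr _ hx hxo u hu).symm)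
          (Subgroup.mem_centralizer_iff.mpr fun u hu => (hcore r q hr hq hqr _ hcy.1 hcy.2 u hu).symm)
    have hzC : z ∈ Subgroup.centralizer (F : Set G) := by
      have h1 : F ≤ Subgroup.centralizer ({z} : Set G) := by
        rw [hFdef, CfsgLib.Core.fittingSubgroup_eq_iSup_pCore]
        refine iSup_le fun q u hu => Subgroup.mem_centralizer_singleton_iff.mpr ?_
        exact Subgroup.mem_centralizer_iff.mp (hzc q q.2) u hu
      exact Subgroup.mem_centralizer_iff.mpr fun u hu => Subgroup.mem_centralizer_singleton_iff.mp (h1 hu)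
    have hzF : z ∈ F := by haveI := hG; exact Cfsg.Agent.S0044.result hzC
    -- `z` is an `r`-element modulo the `r`-core
    have key : ∀ (r : ℕ), r.Prime → ∀ a b : G, a ∈ K → (∃ k, orderOf a = r ^ k) → (∃ k, orderOf b = r ^ k) →
        a * b = z → ∃ k, z ^ r ^ k = 1 := by
      intro r hr a b ha hao hbo hab
      haveI := Fact.mk hr
      set π := QuotientGroup.mk' (pCore r G) with hπ
      have hcF : F ≤ (Subgroup.centralizer ({π a} : Set (G ⧸ pCore r G))).comap π := by
        rw [hFdef, CfsgLib.Core.fittingSubgroup_eq_iSup_pCore]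
        refine iSup_le fun q u hu => ?_
        rw [Subgroup.mem_comap, Subgroup.mem_centralizer_singleton_iff]
        by_cases hqr : (q : ℕ) = r
        · have h1 : π u = 1 := (QuotientGroup.eq_one_iff u).mpr (hqr ▸ hu)
          rw [h1, one_mul, mul_one]
        · rw [← map_mul, ← map_mul, hcore r q hr q.2 (Ne.symm hqr) a ha hao u hu]
      have h1 := Subgroup.mem_centralizer_singleton_iff.mp (Subgroup.mem_comap.mp (hcF hzF))
      have h2 : Commute (π a) (π b) := by
        rw [← hab, map_mul, mul_assoc] at h1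
        exact (mul_left_cancel h1).symm
      obtain ⟨i, hi⟩ := hao
      obtain ⟨j, hj⟩ := hbo
      have h3 : z ^ r ^ (i + j) ∈ pCore r G := by
        rw [← QuotientGroup.eq_one_iff, ← QuotientGroup.mk'_apply, ← hπ, map_pow, ← hab, map_mul, h2.mul_pow, ← map_pow, ← map_pow]
        rw [orderOf_dvd_iff_pow_eq_one.mp (hi ▸ pow_dvd_pow r (Nat.le_add_right i j) : orderOf a ∣ r ^ (i + j)),
          orderOf_dvd_iff_pow_eq_one.mp (hj ▸ pow_dvd_pow r (Nat.le_add_left j i) : orderOf b ∣ r ^ (i + j))]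
        simp
      obtain ⟨l, hl⟩ := CfsgLib.Core.isPGroup_pCore r ⟨_, h3⟩
      refine ⟨i + j + l, ?_⟩
      rw [pow_add, pow_mul]
      exact congrArg Subtype.val hl
    obtain ⟨i, hi⟩ := key r hr x (y * x⁻¹ * y⁻¹) hx hxo hcy.2 (by rw [hz]; group)
    obtain ⟨j, hj⟩ := key s hs (x * y * x⁻¹) y⁻¹ hcx.1 hcx.2 hyi (by rw [hz])
    have hz1 : z = 1 := by
      rw [← orderOf_eq_one_iff]
      exact Nat.eq_one_of_dvd_coprimes (((Nat.coprime_primes hr hs).mpr hrs).pow i j)
        (orderOf_dvd_of_pow_eq_one hi) (orderOf_dvd_of_pow_eq_one hj)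
    exact commutatorElement_eq_one_iff_mul_comm.mp hz1
  have hnil : Group.IsNilpotent K := by
    refine ((Group.isNilpotent_of_finite_tfae (G := K)).out 0 3).mpr ?_
    intro r hr R
    have hr' : r.Prime := hr.out
    rw [← Subgroup.normalizer_eq_top_iff, ← Subgroup.index_eq_one]
    by_contra hne
    obtain ⟨s, hs, hsd⟩ := Nat.exists_prime_and_dvd hne
    haveI := Fact.mk hs
    let S : Sylow s K := Classical.arbitrary _
    have hle : (S : Subgroup K) ≤ Subgroup.normalizer ((R : Subgroup K) : Set K) := by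
      by_cases hsr : s = r
      · subst hsr
        exact absurd (hsd.trans (Subgroup.index_dvd_of_le Subgroup.le_normalizer)) (Sylow.not_dvd_index R)
      intro y hy
      refine Subgroup.centralizer_le_normalizer (R : Set K) |>.trans le_rfl ?_
      rw [Subgroup.mem_centralizer_iff]
      intro x hx
      apply Subtype.ext
      obtain ⟨a, ha⟩ := IsPGroup.iff_orderOf.mp R.2 ⟨x, hx⟩
      obtain ⟨b, hb⟩ := IsPGroup.iff_orderOf.mp S.2 ⟨y, hy⟩
      rw [Subgroup.orderOf_mk, ← Subgroup.orderOf_coe] at ha hb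
      exact hcomm r s hr' hs (Ne.symm hsr) x x.2 ⟨a, ha⟩ y y.2 ⟨b, hb⟩
    exact Sylow.not_dvd_index S (hsd.trans (Subgroup.index_dvd_of_le hle))
  exact CfsgLib.Core.le_fittingSubgroup hKn hnil hgK


end Cfsg.Agent.S3785
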