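import Cfsg.Agent.Lib.PSeries
import Cfsg.Agent.S3790
-- import your own Cfsg.Agent.* helpers here

set_option autoImplicit false
open Cfsg

namespace Cfsg.Agent.S3791

/-- The Hall–Higman bound on derived length: let G be a finite solvable group, let p₁, …, p_r be distinct primes that include every prime dividing the order of G, and suppose that for each i the Sylow p_i-subgroups of G have derived length at most d_i and G has p_i-length at most l_i. Then G has derived length at most Σ d_i l_i. -/
theorem result {G : Type*} [Group G] [Finite G] (hG : Group.IsSolvable G) (r : ℕ) (q : Fin r → ℕ) (hq : ∀ i, (q i).Prime) (hinj : Function.Injective q) (hcover : ∀ s : ℕ, s.Prime → s ∣ Nat.card G → ∃ i, q i = s) (d l : Fin r → ℕ) (hd : ∀ i, ∀ P : Subgroup G, (haveI := Fact.mk (hq i); ∃ S : Sylow (q i) G, (S : Subgroup G) = P) → derivedSeries ↥P (d i) = ⊥) (hl : ∀ i, Cfsg.PLengthLE (q i) (l i) G) : derivedSeries G (Finset.univ.sum fun i => d i * l i) = ⊥ := by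
  classical
  suffices key : ∀ (s : ℕ) (N : Subgroup G), N.Normal → ∀ k : Fin r → ℕ, (∑ i, k i) = s →
      (∀ i, k i ≤ l i ∧ CfsgLib.PSeries.U (q i) G (2 * (l i - k i)) ≤ N) →
      derivedSeries G (∑ i, d i * k i) ≤ N by
    exact le_bot_iff.mp (key _ ⊥ inferInstance l rfl fun i => ⟨le_rfl, by rw [Nat.sub_self, Nat.mul_zero, CfsgLib.PSeries.zero]⟩)
  intro s
  induction s using Nat.strong_induction_on with
  | _ s ih =>
    intro N hN k hsum hk
    haveI := hN
    intro x hx
    by_contra hxN
    -- a prime at which the image of `x` lives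
    obtain ⟨p, hp, hpd⟩ := Nat.exists_prime_and_dvd (mt orderOf_eq_one_iff.mp (mt (QuotientGroup.eq_one_iff x).mp hxN))
    obtain ⟨i, rfl⟩ := hcover p hp ((hpd.trans (orderOf_dvd_natCard _)).trans (Subgroup.index_dvd_card N))
    haveI := Fact.mk (hq i)
    set m := l i - k i with hm
    set R := N ⊔ CfsgLib.PSeries.U (q i) G (2 * m + 1) with hR
    haveI hRn : R.Normal := inferInstanceAs (N ⊔ CfsgLib.PSeries.U (q i) G (2 * m + 1)).Normal
    have hNR : (N.relIndex R).Coprime (q i) := by
      rw [hR, Cfsg.Agent.S3790.relIndex_dvd_sup]
      exact (CfsgLib.PSeries.relIndex_succ_even (even_two_mul m)).coprime_dvd_left (Subgroup.relIndex_dvd_of_le_left _ (hk i).2)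
    have hxR : x ∈ R := by
      by_cases hki : k i = 0
      · have : CfsgLib.PSeries.U (q i) G (2 * m + 1) = ⊤ := by
          rw [hm, hki, Nat.sub_zero]; exact hl i
        rw [hR, this, sup_top_eq]; trivial
      -- one step of the series
      set T := R ⊔ CfsgLib.PSeries.U (q i) G (2 * m + 1 + 1) with hT
      haveI hTn : T.Normal := inferInstanceAs (R ⊔ CfsgLib.PSeries.U (q i) G (2 * m + 1 + 1)).Normal
      let k' := Function.update k i (k i - 1)
      have hs1 : ∑ j, k' j + 1 = ∑ j, k j := by
        rw [Finset.sum_update_of_mem (Finset.mem_univ i), ← Finset.erase_eq, ← Finset.add_sum_erase Finset.univ k (Finset.mem_univ i)]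
        omega
      have hs2 : ∑ j, d j * k' j + d i = ∑ j, d j * k j := by
        have e : (fun j => d j * k' j) = Function.update (fun j => d j * k j) i (d i * (k i - 1)) := by
          funext j; by_cases hj : j = i
          · subst hj; simp [k']
          · simp [k', hj]
        rw [show ∑ j, d j * k' j = ∑ j, (fun j => d j * k' j) j from rfl, e, Finset.sum_update_of_mem (Finset.mem_univ i), ← Finset.erase_eq,
          ← Finset.add_sum_erase Finset.univ (fun j => d j * k j) (Finset.mem_univ i)]
        have : d i * k i = d i * (k i - 1) + d i := by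
          rw [← Nat.mul_succ, show (k i - 1).succ = k i by omega]
        omega
      have hD : derivedSeries G (∑ j, d j * k' j) ≤ T := by
        refine ih (∑ j, k' j) (by omega) T hTn k' rfl fun j => ?_
        by_cases hj : j = i
        · subst hj
          refine ⟨by simp only [k', Function.update_self]; have := (hk j).1; omega, ?_⟩
          have e : 2 * (l j - k' j) = 2 * m + 1 + 1 := by
            simp only [k', Function.update_self]; have := (hk j).1; omega
          rw [e]; exact le_sup_right
        · refine ⟨by simp only [k', Function.update_of_ne hj]; exact (hk j).1, ?_⟩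
          simp only [k', Function.update_of_ne hj]
          exact (hk j).2.trans (le_sup_left.trans le_sup_left)
      obtain ⟨S⟩ := (inferInstance : Nonempty (Sylow (q i) G))
      set π := QuotientGroup.mk' R with hπ
      have hπs : Function.Surjective π := QuotientGroup.mk'_surjective R
      have hTp : IsPGroup (q i) (T.map π) := by
        obtain ⟨a, ha⟩ := CfsgLib.PSeries.relIndex_succ_odd (p := q i) (G := G) (n := 2 * m + 1) (by simp)
        have h1 : R.relIndex T ∣ q i ^ a := by
          rw [hT, Cfsg.Agent.S3790.relIndex_dvd_sup, ← ha]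
          exact Subgroup.relIndex_dvd_of_le_left _ le_sup_right
        obtain ⟨b, -, hb⟩ := (Nat.dvd_prime_pow (hq i)).mp h1
        exact IsPGroup.of_card (n := b) (by rw [hπ, CfsgLib.PSeries.card_map_mk _ _ le_sup_left]; exact hb)
      have hTS : T.map π ≤ (S : Subgroup G).map π := by
        have h1 := (CfsgLib.Core.le_pCore (hTn.map π hπs) hTp).trans (CfsgLib.Core.pCore_le_sylow (S.mapSurjective hπs))
        rwa [Sylow.coe_mapSurjective] at h1
      have hstep : ∀ j, (derivedSeries G (∑ t, d t * k' t + j)).map π ≤
          ((derivedSeries ↥(S : Subgroup G) j).map (S : Subgroup G).subtype).map π := by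
        intro j
        induction j with
        | zero =>
          rw [add_zero, derivedSeries_zero, ← MonoidHom.range_eq_map, Subgroup.range_subtype]
          exact (Subgroup.map_mono hD).trans hTS
        | succ j ihj =>
          rw [← add_assoc, derivedSeries_succ, derivedSeries_succ, Subgroup.map_commutator, Subgroup.map_commutator,
            Subgroup.map_commutator]
          exact Subgroup.commutator_mono ihj ihj
      have h2 := hstep (d i)
      rw [hs2, hd i (S : Subgroup G) ⟨S, rfl⟩, Subgroup.map_bot, Subgroup.map_bot, le_bot_iff, Subgroup.map_eq_bot_iff,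
        QuotientGroup.ker_mk'] at h2
      exact h2 hx
    have h3 : orderOf (QuotientGroup.mk' N x) ∣ N.relIndex R := by
      rw [← CfsgLib.PSeries.card_map_mk N R le_sup_left]
      exact Subgroup.orderOf_dvd_natCard _ ⟨x, hxR, rfl⟩
    exact hp.ne_one (Nat.eq_one_of_dvd_coprimes hNR (hpd.trans h3) dvd_rfl)

end Cfsg.Agent.S3791
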