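import Cfsg.Statements.S3794
import Cfsg.Agent.Lib.GroupB.FpfAverage
import Cfsg.Agent.S0032
import Mathlib.GroupTheory.FixedPointFree
import Mathlib.Algebra.BigOperators.Fin

set_option autoImplicit false
open Cfsg

namespace Cfsg.Agent.S3794

open CfsgLib.GroupB.FpfAverage in
theorem aux (n : ℕ) : ∀ {G : Type*} [Group G] [Finite G], Nat.card G ≤ n → Group.IsSolvable G →
    ∀ σ : MulAut G, σ ^ 4 = 1 → (∀ g : G, σ g = g → g = 1) → Group.IsNilpotent (commutator G) := by
  induction n with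
  | zero => intro G _ _ h _ _ _ _; exact absurd h (by simpa using (Nat.card_pos (α := G)).ne')
  | succ n ih =>
  intro G _ _ hn hG σ hσ hfpf
  classical
  rcases subsingleton_or_nontrivial G with hs | hnt
  · exact Group.isNilpotent_of_subsingleton
  haveI := hG
  obtain ⟨p, V0, hp, hV0c, hV0ne, hV0a, -, hV0p⟩ := CfsgLib.GroupB.Hall.exists_characteristic_abelian G
  haveI := Fact.mk hp
  haveI := hV0c
  -- a minimal invariant normal subgroup inside
  obtain ⟨V, hVle, hVmin⟩ := Finite.exists_le_minimal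
    (p := fun W : Subgroup G => W ≠ ⊥ ∧ W.Normal ∧ ∀ x ∈ W, σ x ∈ W) (a := V0)
    ⟨hV0ne, inferInstance, fun x hx => Subgroup.characteristic_iff_map_le.mp hV0c σ ⟨x, hx, rfl⟩⟩
  obtain ⟨⟨hVne, hVn, hVσ⟩, hVmin⟩ := hVmin
  haveI := hVn
  haveI hVa : IsMulCommutative V := ⟨⟨fun a b => Subtype.ext
    (congrArg Subtype.val (hV0a.is_comm.comm ⟨a, hVle a.2⟩ ⟨b, hVle b.2⟩) : (a : G) * b = b * a)⟩⟩
  letI : CommGroup V := { (inferInstance : Group V) with mul_comm := hVa.is_comm.comm }
  have hVp : IsPGroup p V := hV0p.to_le hVle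
  have hfp : MonoidHom.FixedPointFree (σ : G →* G) := fun g hg => hfpf g hg
  -- induced automorphisms of quotients
  have hquot : ∀ N : Subgroup G, ∀ hN : N.Normal, (∀ x ∈ N, σ x ∈ N) → ∃ τ : MulAut (G ⧸ N),
      τ ^ 4 = 1 ∧ (∀ q, τ q = q → q = 1) ∧ ∀ g : G, τ (QuotientGroup.mk g) = QuotientGroup.mk (σ g) := by
    intro N hN hNσ
    have hmap : N.map σ.toMonoidHom = N := Subgroup.eq_of_le_of_card_ge (by rintro _ ⟨x, hx, rfl⟩; exact hNσ x hx)
      (Subgroup.card_map_of_injective σ.injective).ge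
    let τ : MulAut (G ⧸ N) := QuotientGroup.congr N N σ hmap
    have hmk : ∀ g : G, τ (QuotientGroup.mk g) = QuotientGroup.mk (σ g) := fun g => rfl
    refine ⟨τ, MulEquiv.ext fun q => ?_, fun q hq => ?_, hmk⟩
    · obtain ⟨g, rfl⟩ := QuotientGroup.mk_surjective q
      have : ∀ k : ℕ, (τ ^ k) (QuotientGroup.mk g) = QuotientGroup.mk ((σ ^ k) g) := by
        intro k
        induction k with
        | zero => rfl
        | succ k ihk => rw [pow_succ', MulAut.mul_apply, ihk, hmk, pow_succ', MulAut.mul_apply]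
      rw [this, hσ]; rfl
    · obtain ⟨g, rfl⟩ := QuotientGroup.mk_surjective q
      rw [hmk, QuotientGroup.eq] at hq
      exact (QuotientGroup.eq_one_iff g).mpr (Cfsg.Agent.S0032.result σ hfp N hNσ g hq)
  have hcardV : 1 < Nat.card V := by
    haveI : Nontrivial V := (Subgroup.nontrivial_iff_ne_bot V).mpr hVne
    exact Finite.one_lt_card
  set π := QuotientGroup.mk' V
  have hGV : Group.IsNilpotent (commutator (G ⧸ V)) := by
    obtain ⟨τ, hτ4, hτf, -⟩ := hquot V hVn hVσ
    refine ih ?_ (Group.isSolvable_of_surjective (QuotientGroup.mk'_surjective V)) τ hτ4 hτf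
    have h1 := Subgroup.card_eq_card_quotient_mul_card_subgroup V
    have h3 : Nat.card (G ⧸ V) * 2 ≤ Nat.card G := h1 ▸ Nat.mul_le_mul_left _ hcardV
    have := (Nat.card_pos (α := G ⧸ V))
    omega
  set C := Subgroup.centralizer (V : Set G) with hC
  suffices hab : ∀ a b : G ⧸ C, a * b = b * a by
    have hle : commutator G ≤ C := by
      rw [commutator_def, Subgroup.commutator_le]
      intro a _ b _
      rw [← QuotientGroup.eq_one_iff, ← QuotientGroup.mk'_apply C, map_commutatorElement, commutatorElement_eq_one_iff_mul_comm]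
      exact hab _ _
    have hmap : (commutator G).map π = commutator (G ⧸ V) := by
      rw [commutator_def, Subgroup.map_commutator, Subgroup.map_top_of_surjective _ (QuotientGroup.mk'_surjective V), commutator_def]
    haveI : Group.IsNilpotent ((commutator G).map π) := hmap ▸ hGV
    refine Subgroup.isNilpotent_of_ker_le_center (π.subgroupMap (commutator G)) fun x hx => ?_
    have hxV : (x : G) ∈ V := (QuotientGroup.eq_one_iff _).mp (congrArg Subtype.val (MonoidHom.mem_ker.mp hx))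
    exact Subgroup.mem_center_iff.mpr fun y => Subtype.ext (Subgroup.mem_centralizer_iff.mp (hle y.2) x hxV).symm
  haveI hCn : C.Normal := by rw [hC]; infer_instance
  have hσV : ∀ x ∈ V, ∃ y ∈ V, σ y = x := by
    intro x hx
    have hmap : V.map σ.toMonoidHom = V := Subgroup.eq_of_le_of_card_ge (by rintro _ ⟨y, hy, rfl⟩; exact hVσ y hy)
      (Subgroup.card_map_of_injective σ.injective).ge
    rw [← hmap] at hx
    exact hx
  have hCσ : ∀ x ∈ C, σ x ∈ C := by
    intro x hx
    rw [Subgroup.mem_centralizer_iff]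
    intro v hv
    obtain ⟨w, hw, rfl⟩ := hσV v hv
    rw [← map_mul, ← map_mul, Subgroup.mem_centralizer_iff.mp hx w hw]
  obtain ⟨τ, hτ4, hτf, hτmk⟩ := hquot C hCn hCσ
  rcases subsingleton_or_nontrivial (G ⧸ C) with hs | hnt'
  · exact fun a b => Subsingleton.elim _ _
  -- the action on `V`
  let ψ : G ⧸ C →* MulAut V := QuotientGroup.lift C (MulAut.conjNormal : G →* MulAut V) fun c hc =>
    MonoidHom.mem_ker.mpr (MulEquiv.ext fun v => Subtype.ext (by
      rw [MulAut.conjNormal_apply, ← Subgroup.mem_centralizer_iff.mp hc v v.2, mul_inv_cancel_right]; rfl))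
  have hψinj : ∀ q, ψ q = 1 → q = 1 := by
    intro q hq
    obtain ⟨g, rfl⟩ := QuotientGroup.mk_surjective q
    refine (QuotientGroup.eq_one_iff g).mpr (Subgroup.mem_centralizer_iff.mpr fun v hv => ?_)
    have h : g * v * g⁻¹ = v := congrArg Subtype.val (DFunLike.congr_fun hq (⟨v, hv⟩ : V))
    calc v * g = g * v * g⁻¹ * g := by rw [h]
      _ = g * v := by group
  let σV : V → V := fun v => ⟨σ v, hVσ v v.2⟩
  have hσψ : ∀ q v, σV (ψ q v) = ψ (τ q) (σV v) := by
    intro q v
    obtain ⟨g, rfl⟩ := QuotientGroup.mk_surjective q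
    rw [hτmk]
    exact Subtype.ext (show σ (g * (v : G) * g⁻¹) = σ g * σ v * (σ g)⁻¹ by simp)
  obtain ⟨q, K, hq, hKc, hKne, hKa, -, hKq⟩ := CfsgLib.GroupB.Hall.exists_characteristic_abelian (G ⧸ C)
    (hs := Group.isSolvable_of_surjective (QuotientGroup.mk'_surjective C))
  haveI := hKc
  haveI := Fact.mk hq
  letI : CommGroup K := { (inferInstance : Group K) with mul_comm := hKa.is_comm.comm }
  have hKτ : ∀ x ∈ K, τ x ∈ K := fun x hx => Subgroup.characteristic_iff_map_le.mp hKc τ ⟨x, hx, rfl⟩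
  -- `K` has no fixed points on `V`
  have hKfix : ∀ v : V, (∀ ζ ∈ K, ψ ζ v = v) → v = 1 := by
    intro v hv
    by_contra hne
    let W : Subgroup G :=
      { carrier := {x | ∃ hx : x ∈ V, ∀ ζ ∈ K, ψ ζ ⟨x, hx⟩ = ⟨x, hx⟩}
        one_mem' := ⟨V.one_mem, fun ζ _ => map_one (ψ ζ)⟩
        mul_mem' := fun {a b} ⟨ha, ha'⟩ ⟨hb, hb'⟩ => ⟨V.mul_mem ha hb, fun ζ hζ => by
          rw [show (⟨a * b, V.mul_mem ha hb⟩ : V) = ⟨a, ha⟩ * ⟨b, hb⟩ from rfl, map_mul, ha' ζ hζ, hb' ζ hζ]⟩
        inv_mem' := fun {a} ⟨ha, ha'⟩ => ⟨V.inv_mem ha, fun ζ hζ => by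
          rw [show (⟨a⁻¹, V.inv_mem ha⟩ : V) = (⟨a, ha⟩ : V)⁻¹ from rfl, map_inv, ha' ζ hζ]⟩ }
    have hWV : W ≤ V := fun x hx => hx.1
    have hWn : W.Normal := by
      constructor
      intro x hxW g
      obtain ⟨hx, hx'⟩ := hxW
      refine ⟨hVn.conj_mem x hx g, fun ζ hζ => ?_⟩
      rw [show (⟨g * x * g⁻¹, hVn.conj_mem x hx g⟩ : V) = ψ (QuotientGroup.mk g) ⟨x, hx⟩ from rfl, ← MulAut.mul_apply, ← map_mul,
        show ζ * QuotientGroup.mk g = QuotientGroup.mk g * ((QuotientGroup.mk g)⁻¹ * ζ * QuotientGroup.mk g) by group,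
        map_mul, MulAut.mul_apply, hx' _ (by simpa using (inferInstance : K.Normal).conj_mem ζ hζ (QuotientGroup.mk g)⁻¹)]
    have hWσ : ∀ x ∈ W, σ x ∈ W := by
      intro x hxW
      obtain ⟨hx, hx'⟩ := hxW
      refine ⟨hVσ x hx, fun ζ hζ => ?_⟩
      obtain ⟨η, hη, rfl⟩ : ∃ η ∈ K, τ η = ζ := by
        have := (Subgroup.characteristic_iff_map_eq.mp hKc τ).symm ▸ hζ
        exact this
      exact (hσψ η ⟨x, hx⟩).symm.trans (congrArg σV (hx' η hη))
    have hWtop : V ≤ W := hVmin ⟨fun h => hne (Subtype.ext (Subgroup.mem_bot.mp (h ▸ (⟨v.2, hv⟩ : (v : G) ∈ W)))), hWn, hWσ⟩ hWV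
    exact hKne ((Subgroup.eq_bot_iff_forall _).mpr fun ζ hζ => hψinj ζ (MulEquiv.ext fun w => (hWtop w.2).2 ζ hζ))
  have hcop : (Nat.card K).Coprime (Nat.card V) := by
    refine (IsPGroup.coprime_card_of_ne p q (fun hqp => ?_) V K hVp hKq).symm
    subst hqp
    -- a `p`-group fixes a nontrivial element
    let act : MulAction K V := MulAction.compHom V (ψ.comp K.subtype)
    have hdvd : p ∣ Nat.card V := by
      obtain ⟨k, hk⟩ := IsPGroup.iff_card.mp hVp
      rw [hk]
      refine dvd_pow_self p fun h => ?_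
      rw [h, pow_zero] at hk
      omega
    obtain ⟨v, hv, hvne⟩ := hKq.exists_fixed_point_of_prime_dvd_card_of_fixed_point V hdvd (a := 1) fun ζ => map_one (ψ ζ)
    exact hvne (hKfix v fun ζ hζ => hv ⟨ζ, hζ⟩).symm
  let τK : K →* K := MonoidHom.mk' (fun ζ => ⟨τ ζ, hKτ ζ ζ.2⟩) (fun a b => Subtype.ext (map_mul τ _ _))
  have hσ4 : ∀ g, σ (σ (σ (σ g))) = g := fun g => DFunLike.congr_fun hσ g
  have hτ4' : ∀ g, τ (τ (τ (τ g))) = g := fun g => DFunLike.congr_fun hτ4 g
  have hV4 : ∀ v, σV (σV (σV (σV v))) = v := fun v => Subtype.ext (hσ4 v)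
  have hVmul : ∀ v w, σV (v * w) = σV v * σV w := fun v w => Subtype.ext (map_mul σ _ _)
  -- `ζ ↦ ζ⁻¹ * τ ζ` is onto `K`
  have honto : ∀ (f : K →* K), (∀ ζ, f ζ = ζ → ζ = 1) → ∀ η : K, ∃ ζ, ζ⁻¹ * f ζ = η := by
    intro f hf
    refine Finite.injective_iff_surjective.mp fun a b hab => ?_
    have : f (a * b⁻¹) = a * b⁻¹ := by
      rw [map_mul, map_inv]
      calc f a * (f b)⁻¹ = a * (a⁻¹ * f a) * (f b)⁻¹ := by group
        _ = a * (b⁻¹ * f b) * (f b)⁻¹ := by rw [show a⁻¹ * f a = b⁻¹ * f b from hab]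
        _ = a * b⁻¹ := by group
    exact mul_inv_eq_one.mp (hf _ this)
  have hτK : ∀ ζ, τK ζ = ζ → ζ = 1 := fun ζ h => Subtype.ext (hτf _ (congrArg Subtype.val h))
  have hτK3 : ∀ ζ, τK (τK (τK ζ)) = ζ → ζ = 1 := fun ζ h => Subtype.ext (hτf _ (by
    have h' := congrArg τ (congrArg Subtype.val h : τ (τ (τ (ζ : G ⧸ C))) = ζ)
    change τ (τ (τ (τ (ζ : G ⧸ C)))) = τ ζ at h'
    rw [hτ4'] at h'
    exact h'.symm))
  -- the square of `τ` is trivial on `K`
  have hL : ∀ ζ : K, τK (τK ζ) = ζ := by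
    intro ζ
    let L : Subgroup V :=
      { carrier := {v | ∀ η : K, ψ ((η⁻¹ * τK (τK η) : K) : G ⧸ C) v = v}
        one_mem' := fun η => map_one _
        mul_mem' := fun {a b} ha hb η => by rw [map_mul, ha, hb]
        inv_mem' := fun {a} ha η => by rw [map_inv, ha] }
    have hLtop : L = ⊤ := by
      refine eq_top_of_average (ι := Fin 4) (ψ.comp K.subtype) hcop 0 (fun i v => σV^[(i : ℕ)] v)
        ![MonoidHom.id K, τK, τK.comp τK, τK.comp (τK.comp τK)] (fun v => rfl) (fun ζ => rfl) ?_ ?_ L ?_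
      · intro i η v
        fin_cases i
        · rfl
        · exact hσψ _ _
        · show σV (σV (ψ η v)) = ψ (τ (τ η)) (σV (σV v))
          rw [hσψ, hσψ]
        · show σV (σV (σV (ψ η v))) = ψ (τ (τ (τ η))) (σV (σV (σV v)))
          rw [hσψ, hσψ, hσψ]
      · intro v
        refine Subtype.ext (hfpf _ ?_)
        rw [Fin.prod_univ_four]
        show ((σV (v * σV v * σV (σV v) * σV (σV (σV v))) : V) : G) = ((v * σV v * σV (σV v) * σV (σV (σV v)) : V) : G)
        rw [hVmul, hVmul, hVmul, hV4]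
        congr 1
        ac_rfl
      · intro i hi v hv
        have hbig : ∀ f : K →* K, (∀ ζ, f ζ = ζ → ζ = 1) → (∀ η : K, ψ ((η⁻¹ * f η : K) : G ⧸ C) v = v) → v ∈ L := by
          intro f hf hfv
          have : v = 1 := hKfix v fun η hη => by
            obtain ⟨ξ, hξ⟩ := honto f hf ⟨η, hη⟩
            have := hfv ξ
            rwa [hξ] at this
          rw [this]; exact L.one_mem
        fin_cases i
        · exact absurd rfl hi
        · exact hbig τK hτK hv
        · exact hv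
        · exact hbig (τK.comp (τK.comp τK)) hτK3 hv
    have h1 : ((ζ⁻¹ * τK (τK ζ) : K) : G ⧸ C) = 1 := hψinj _ (MulEquiv.ext fun v => (hLtop ▸ Subgroup.mem_top v : v ∈ L) ζ)
    exact (inv_mul_eq_one.mp (Subtype.ext h1)).symm
  -- the square of `σ` inverts `V`
  have hinv : ∀ v : V, σV (σV v) = v⁻¹ := by
    let U : Subgroup V :=
      { carrier := {v | σV (σV v) = v}
        one_mem' := Subtype.ext (by simp [σV])
        mul_mem' := fun {a b} ha hb => by
          show σV (σV (a * b)) = a * b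
          rw [hVmul, hVmul, show σV (σV a) = a from ha, show σV (σV b) = b from hb]
        inv_mem' := fun {a} ha => by
          show σV (σV a⁻¹) = a⁻¹
          exact Subtype.ext (by have h := congrArg Subtype.val (show σV (σV a) = a from ha); simpa [σV] using h) }
    have hUK : ∀ (ζ : K) (u : V), u ∈ U → ψ ζ u ∈ U := fun ζ u hu => by
      show σV (σV (ψ ζ u)) = ψ ζ u
      rw [hσψ, hσψ, show σV (σV u) = u from hu]
      exact congrArg (fun t => ψ t u) (congrArg Subtype.val (hL ζ))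
    let ψU : K →* MulAut U := MonoidHom.mk'
      (fun ζ => { toFun := fun u => ⟨ψ ζ u, hUK ζ u u.2⟩
                  invFun := fun u => ⟨ψ (ζ⁻¹ : K) u, hUK _ u u.2⟩
                  left_inv := fun u => Subtype.ext (show ψ (ζ⁻¹ : K) (ψ ζ u) = u by rw [← MulAut.mul_apply, ← map_mul]; simp)
                  right_inv := fun u => Subtype.ext (show ψ ζ (ψ (ζ⁻¹ : K) u) = u by rw [← MulAut.mul_apply, ← map_mul]; simp)
                  map_mul' := fun u w => Subtype.ext (map_mul (ψ ζ) (u : V) w) })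
      (fun ζ η => MulEquiv.ext fun u => Subtype.ext (show ψ ((ζ * η : K) : G ⧸ C) u = ψ ζ (ψ η u) by rw [← MulAut.mul_apply, ← map_mul]; rfl))
    have hUbot : (⊥ : Subgroup U) = ⊤ := by
      refine eq_top_of_average (ι := Fin 2) ψU (hcop.coprime_dvd_right (Subgroup.card_subgroup_dvd_card U)) 0
        ![fun u => u, fun u => ⟨σV u, by show σV (σV (σV u)) = σV u; rw [show σV (σV u) = u from u.2]⟩]
        ![MonoidHom.id K, τK] (fun u => rfl) (fun ζ => rfl) ?_ ?_ ⊥ ?_
      · intro i η u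
        fin_cases i
        · rfl
        · exact Subtype.ext (hσψ _ _)
      · intro u
        refine Subtype.ext (Subtype.ext (hfpf _ ?_))
        rw [Fin.prod_univ_two]
        show ((σV ((u : V) * σV u) : V) : G) = (((u : V) * σV u : V) : G)
        rw [hVmul, show σV (σV u) = u from u.2, mul_comm]
      · intro i hi u hu
        fin_cases i
        · exact absurd rfl hi
        · refine Subgroup.mem_bot.mpr (Subtype.ext (hKfix _ fun η hη => ?_))
          obtain ⟨ξ, hξ⟩ := honto τK hτK ⟨η, hη⟩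
          have := congrArg Subtype.val (hu ξ)
          show ψ ((⟨η, hη⟩ : K) : G ⧸ C) (u : V) = u
          rw [← hξ]
          exact this
    intro v
    have hu : v * σV (σV v) ∈ U := by
      show σV (σV (v * σV (σV v))) = v * σV (σV v)
      rw [hVmul, hVmul, hV4, mul_comm]
    have h1 : (⟨_, hu⟩ : U) = 1 := Subgroup.mem_bot.mp (hUbot ▸ Subgroup.mem_top _)
    exact eq_inv_of_mul_eq_one_right (congrArg Subtype.val h1)
  -- hence `τ` is an involution
  have hτ2 : ∀ x, τ (τ x) = x := by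
    intro x
    refine (mul_inv_eq_one.mp (hψinj _ (MulEquiv.ext fun v => ?_)))
    have e : ∀ w : V, ψ (τ (τ x)) w = ψ x w := fun w => by
      have h := hinv (ψ x w⁻¹)
      rw [hσψ, hσψ, hinv, inv_inv, map_inv, inv_inv] at h
      exact h
    show ψ (τ (τ x) * x⁻¹) v = v
    rw [map_mul, MulAut.mul_apply, e, ← MulAut.mul_apply, ← map_mul, mul_inv_cancel, map_one]
    rfl
  exact fun a b => (MonoidHom.FixedPointFree.commute_all_of_involutive (φ := (τ : G ⧸ C →* G ⧸ C)) (fun g h => hτf g h) hτ2 a b).eq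

/-- Let G be a finite solvable group with an automorphism σ satisfying σ⁴ = 1 and fixing only the identity. Then the derived subgroup G' is nilpotent. -/
theorem result {G : Type*} [Group G] [Finite G] (hG : Group.IsSolvable G) (σ : MulAut G) (hσ : σ ^ 4 = 1) (hfpf : ∀ g : G, σ g = g → g = 1) : Group.IsNilpotent (commutator G) := by
  exact aux _ le_rfl hG σ hσ hfpf

end Cfsg.Agent.S3794
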