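import Cfsg.Statements.S3799
import Cfsg.Agent.Lib.LocalBasic
import Cfsg.Agent.Lib.MaximalClassTwo
import Mathlib.LinearAlgebra.Matrix.GeneralLinearGroup.Defs
import Mathlib.Tactic

set_option autoImplicit false
open Cfsg

namespace Cfsg.Agent.S3799
open Matrix
open scoped commutatorElement

variable {p : ℕ} [Fact p.Prime] {n : ℕ}

abbrev e0 : Fin (n + 2) → ZMod p := Pi.single 0 1
abbrev el : Fin (n + 2) → ZMod p := Pi.single (Fin.last (n + 1)) 1

def mid (a : Fin n → ZMod p) : Fin (n + 2) → ZMod p := Fin.cons 0 (Fin.snoc a 0)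

theorem mid_zero (a : Fin n → ZMod p) : mid a 0 = 0 := rfl
theorem mid_last (a : Fin n → ZMod p) : mid a (Fin.last (n + 1)) = 0 := by
  rw [mid, ← Fin.succ_last, Fin.cons_succ, Fin.snoc_last]
theorem mid_mid (a : Fin n → ZMod p) (i : Fin n) : mid a i.castSucc.succ = a i := by
  rw [mid, Fin.cons_succ, Fin.snoc_castSucc]

theorem mid_add (a b : Fin n → ZMod p) : mid (a + b) = mid a + mid b := by
  funext j
  induction j using Fin.cases with
  | zero => simp [mid_zero]
  | succ j =>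
    induction j using Fin.lastCases with
    | last => rw [Fin.succ_last, Pi.add_apply, mid_last, mid_last, mid_last, add_zero]
    | cast i => simp [mid_mid]

theorem mid_dot (a b : Fin n → ZMod p) : mid a ⬝ᵥ mid b = a ⬝ᵥ b := by
  rw [dotProduct, Fin.sum_univ_succ, Fin.sum_univ_castSucc]
  simp [dotProduct, mid_zero, mid_mid, mid_last, Fin.succ_last]

def M (a b : Fin n → ZMod p) (c : ZMod p) : Matrix (Fin (n + 2)) (Fin (n + 2)) (ZMod p) :=
  1 + vecMulVec e0 (mid a) + vecMulVec (mid b) el + c • vecMulVec e0 el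

theorem M_mul (a b a' b' : Fin n → ZMod p) (c c' : ZMod p) :
    M a b c * M a' b' c' = M (a + a') (b + b') (c + c' + a ⬝ᵥ b') := by
  have h1 : ∀ x : Fin n → ZMod p, mid x ⬝ᵥ (e0 : Fin (n + 2) → ZMod p) = 0 := fun x => by simp [e0, mid_zero]
  have h2 : ∀ x : Fin n → ZMod p, (el : Fin (n + 2) → ZMod p) ⬝ᵥ mid x = 0 := fun x => by simp [el, mid_last]
  have h3 : (el : Fin (n + 2) → ZMod p) ⬝ᵥ e0 = 0 := by simp [el, e0, Fin.ext_iff]
  simp only [M, Matrix.add_mul, Matrix.mul_add, Matrix.one_mul, Matrix.mul_one, Matrix.smul_mul, Matrix.mul_smul,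
    vecMulVec_mul_vecMulVec, h1, h2, h3, mid_dot, zero_smul, vecMulVec_zero, smul_zero, mid_add, vecMulVec_add, add_vecMulVec,
    vecMulVec_smul, add_smul]
  abel

theorem M_zero : M (0 : Fin n → ZMod p) 0 0 = 1 := by
  have h : mid (0 : Fin n → ZMod p) = 0 := by
    have := mid_add (0 : Fin n → ZMod p) 0
    rw [add_zero] at this
    exact left_eq_add.mp this
  simp [M, h]

def toGL (a b : Fin n → ZMod p) (c : ZMod p) : GL (Fin (n + 2)) (ZMod p) :=
  ⟨M a b c, M (-a) (-b) (-c + a ⬝ᵥ b), by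
    rw [M_mul, ← M_zero]; congr 1 <;> simp, by
    rw [M_mul, ← M_zero]; congr 1 <;> simp⟩

theorem toGL_mul (a b a' b' : Fin n → ZMod p) (c c' : ZMod p) :
    toGL a b c * toGL a' b' c' = toGL (a + a') (b + b') (c + c' + a ⬝ᵥ b') := Units.ext (M_mul a b a' b' c c')

theorem toGL_zero : toGL (0 : Fin n → ZMod p) 0 0 = 1 := Units.ext M_zero

theorem toGL_inj {a b a' b' : Fin n → ZMod p} {c c' : ZMod p} (h : toGL a b c = toGL a' b' c') :
    a = a' ∧ b = b' ∧ c = c' := by
  have hM : M a b c = M a' b' c' := congrArg Units.val h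
  have key : ∀ i j, M a b c i j = M a' b' c' i j := fun i j => by rw [hM]
  have hl : (0 : Fin (n + 2)) ≠ Fin.last (n + 1) := by simp [Fin.ext_iff]
  refine ⟨funext fun i => ?_, funext fun i => ?_, ?_⟩
  · have hi : i.castSucc.succ ≠ Fin.last (n + 1) := by
      rw [← Fin.succ_last, Ne, Fin.succ_inj]; exact Fin.castSucc_ne_last i
    have := key 0 i.castSucc.succ
    simpa [M, vecMulVec_apply, Matrix.one_apply, e0, el, mid_zero, mid_mid, hi, (Fin.succ_ne_zero i.castSucc).symm] using this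
  · have := key i.castSucc.succ (Fin.last (n + 1))
    simpa [M, vecMulVec_apply, Matrix.one_apply, e0, el, mid_mid, mid_last, Fin.succ_ne_zero] using this
  · have := key 0 (Fin.last (n + 1))
    simpa [M, vecMulVec_apply, Matrix.one_apply, e0, el, mid_zero, mid_last, hl] using this

def heis : Subgroup (GL (Fin (n + 2)) (ZMod p)) where
  carrier := {g | ∃ a b c, g = toGL a b c}
  one_mem' := ⟨0, 0, 0, toGL_zero.symm⟩
  mul_mem' := by
    rintro _ _ ⟨a, b, c, rfl⟩ ⟨a', b', c', rfl⟩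
    exact ⟨_, _, _, toGL_mul a b a' b' c c'⟩
  inv_mem' := by
    rintro _ ⟨a, b, c, rfl⟩
    exact ⟨-a, -b, -c + a ⬝ᵥ b, Units.ext rfl⟩

theorem toGL_pow (a b : Fin n → ZMod p) (c : ZMod p) (k : ℕ) :
    toGL a b c ^ k = toGL (k • a) (k • b) (k • c + (k.choose 2) • (a ⬝ᵥ b)) := by
  induction k with
  | zero => simp [toGL_zero]
  | succ k ih =>
    rw [pow_succ, ih, toGL_mul, Nat.choose_succ_succ', Nat.choose_one_right]
    congr 1
    · rw [succ_nsmul]
    · rw [succ_nsmul]
    · rw [smul_dotProduct, succ_nsmul, add_nsmul]; abel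


/-- For every odd prime p and every n ≥ 1 there is an extraspecial p-group of order p^(1+2n) and exponent p; concretely, the general linear group of degree n + 2 over the field with p elements contains such a subgroup. -/
theorem result (p : ℕ) [Fact p.Prime] (hp : p ≠ 2) (n : ℕ) (hn : 1 ≤ n) : ∃ E : Subgroup (Matrix.GeneralLinearGroup (Fin (n + 2)) (ZMod p)), Cfsg.IsExtraspecial p ↥E ∧ Nat.card E = p ^ (1 + 2 * n) ∧ ∀ x ∈ E, x ^ p = 1 := by
  classical
  have hp' := (Fact.out : p.Prime)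
  set E : Subgroup (GL (Fin (n + 2)) (ZMod p)) := heis with hE
  let f : ((Fin n → ZMod p) × (Fin n → ZMod p)) × ZMod p → E := fun t => ⟨toGL t.1.1 t.1.2 t.2, ⟨_, _, _, rfl⟩⟩
  have hf : Function.Bijective f := by
    refine ⟨fun s t h => ?_, ?_⟩
    · obtain ⟨h1, h2, h3⟩ := toGL_inj (congrArg Subtype.val h)
      exact Prod.ext (Prod.ext h1 h2) h3
    · rintro ⟨_, a, b, c, rfl⟩
      exact ⟨((a, b), c), rfl⟩
  have hcard : Nat.card E = p ^ (1 + 2 * n) := by
    rw [← Nat.card_congr (Equiv.ofBijective f hf), Nat.card_prod, Nat.card_prod, Nat.card_fun, Nat.card_fin, Nat.card_zmod]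
    ring
  have hexp : ∀ x ∈ E, x ^ p = 1 := by
    rintro _ ⟨a, b, c, rfl⟩
    rw [toGL_pow, ← toGL_zero]
    have hch : p ∣ p.choose 2 := hp'.dvd_choose_self two_ne_zero (lt_of_le_of_ne hp'.two_le (Ne.symm hp))
    obtain ⟨r, hr⟩ := hch
    congr 1
    · funext i; simp
    · funext i; simp
    · rw [hr]; simp
  haveI : Finite E := Nat.finite_of_card_ne_zero (by rw [hcard]; exact pow_ne_zero _ hp'.ne_zero)
  have hPE : IsPGroup p E := IsPGroup.of_card hcard
  let z : ZMod p → E := fun c => ⟨toGL 0 0 c, ⟨_, _, _, rfl⟩⟩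
  have hz : ∀ c, z c ∈ Subgroup.center E := fun c => by
    rw [Subgroup.mem_center_iff]
    rintro ⟨_, a, b, c', rfl⟩
    refine Subtype.ext ?_
    show toGL a b c' * toGL 0 0 c = toGL 0 0 c * toGL a b c'
    rw [toGL_mul, toGL_mul]
    congr 1
    · simp
    · simp
    · simp [add_comm]
  have hZ : ∀ g : E, g ∈ Subgroup.center E → ∃ c, g = z c := by
    rintro ⟨_, a, b, c, rfl⟩ hg
    have hcomm : ∀ a' b', a ⬝ᵥ b' = a' ⬝ᵥ b := fun a' b' => by
      have h := congrArg Subtype.val (Subgroup.mem_center_iff.mp hg ⟨toGL a' b' 0, ⟨_, _, _, rfl⟩⟩)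
      simp only [Subgroup.coe_mul, toGL_mul] at h
      have := (toGL_inj h).2.2
      simp only [zero_add, add_zero] at this
      exact (add_left_cancel this).symm
    have ha : a = 0 := funext fun i => by simpa using hcomm 0 (Pi.single i 1)
    have hb : b = 0 := funext fun i => by simpa using (hcomm (Pi.single i 1) 0).symm
    subst ha hb
    exact ⟨c, rfl⟩
  have hcZ : Nat.card (Subgroup.center E) = p := by
    refine (Nat.card_congr (Equiv.ofBijective (fun c => (⟨z c, hz c⟩ : Subgroup.center E)) ⟨fun c c' h => ?_, ?_⟩)).symm.trans (Nat.card_zmod p)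
    · exact (toGL_inj (congrArg Subtype.val (congrArg Subtype.val h))).2.2
    · rintro ⟨g, hg⟩
      obtain ⟨c, rfl⟩ := hZ g hg
      exact ⟨c, rfl⟩
  have hle : ∀ x y : E, ⁅x, y⁆ ∈ Subgroup.center E := by
    rintro ⟨_, a, b, c, rfl⟩ ⟨_, a', b', c', rfl⟩
    have : ⁅(⟨toGL a b c, ⟨_, _, _, rfl⟩⟩ : E), ⟨toGL a' b' c', ⟨_, _, _, rfl⟩⟩⁆ = z (a ⬝ᵥ b' - a' ⬝ᵥ b) := by
      rw [commutatorElement_def, mul_inv_eq_iff_eq_mul, mul_inv_eq_iff_eq_mul]
      refine Subtype.ext ?_
      show toGL a b c * toGL a' b' c' = toGL 0 0 _ * toGL a' b' c' * toGL a b c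
      rw [toGL_mul, toGL_mul, toGL_mul]
      congr 1
      · simp [add_comm]
      · simp [add_comm]
      · simp; ring
    rw [this]; exact hz _
  have hcom : commutator E = Subgroup.center E := by
    refine le_antisymm ?_ fun g hg => ?_
    · rw [commutator_def, Subgroup.commutator_le]
      exact fun x _ y _ => hle x y
    · obtain ⟨c, rfl⟩ := hZ g hg
      have hi : 0 < n := hn
      let u : E := ⟨toGL (Pi.single ⟨0, hi⟩ c) 0 0, ⟨_, _, _, rfl⟩⟩
      let v : E := ⟨toGL 0 (Pi.single ⟨0, hi⟩ 1) 0, ⟨_, _, _, rfl⟩⟩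
      have : z c = ⁅u, v⁆ := by
        rw [commutatorElement_def, eq_mul_inv_iff_mul_eq, eq_mul_inv_iff_mul_eq]
        refine Subtype.ext ?_
        show toGL 0 0 c * toGL _ _ _ * toGL _ _ _ = toGL _ _ _ * toGL _ _ _
        rw [toGL_mul, toGL_mul, toGL_mul]
        congr 1 <;> simp
      rw [this, commutator_def]
      exact Subgroup.commutator_mem_commutator (Subgroup.mem_top _) (Subgroup.mem_top _)
  refine ⟨E, ⟨⟨hPE, le_antisymm ?_ ?_, hcom⟩, hcZ⟩, hcard, hexp⟩
  · exact CfsgLib.LocalBasic.frattini_le_of_elementary_quotient (p := p) _ hle fun a => by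
      rw [show a ^ p = 1 from Subtype.ext (hexp a a.2)]; exact Subgroup.one_mem _
  · rw [← hcom]
    exact le_iInf₂ fun _ hM => CfsgLib.MaximalClassTwo.commutator_le_coatom hPE hM

end Cfsg.Agent.S3799
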