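import Cfsg.Statements.S3800
import Cfsg.Agent.Lib.GroupB.Coprime
import Cfsg.Agent.Lib.Thompson.PClosed

set_option autoImplicit false
open Cfsg

namespace Cfsg.Agent.S3800

/-- Let G be a finite group, N a normal subgroup of G whose order is prime to p, and P a p-subgroup of G. Then in G/N the normalizer of the image of P is the image of N_G(P), and the centralizer of the image of P is the image of C_G(P). -/
theorem result {G : Type*} [Group G] [Finite G] {p : ℕ} [Fact p.Prime] (N : Subgroup G) [N.Normal] (hN : (Nat.card N).Coprime p) (P : Subgroup G) (hP : IsPGroup p P) : Subgroup.normalizer ((P.map (QuotientGroup.mk' N)) : Set (G ⧸ N)) = (Subgroup.normalizer (P : Set G)).map (QuotientGroup.mk' N) ∧ Subgroup.centralizer ((P.map (QuotientGroup.mk' N)) : Set (G ⧸ N)) = (Subgroup.centralizer (P : Set G)).map (QuotientGroup.mk' N) := by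
  have hNP : (Nat.card N).Coprime (Nat.card P) := by
    obtain ⟨k, hk⟩ := IsPGroup.iff_card.mp hP
    rw [hk]; exact hN.pow_right k
  have hnorm : Subgroup.normalizer ((P.map (QuotientGroup.mk' N)) : Set (G ⧸ N)) =
      (Subgroup.normalizer (P : Set G)).map (QuotientGroup.mk' N) := by
    refine le_antisymm (fun q hq => ?_) (Subgroup.le_normalizer_map _)
    obtain ⟨m, rfl⟩ := QuotientGroup.mk'_surjective N q
    have hle : P.map (MulAut.conj m).toMonoidHom ≤ N ⊔ P := by
      rintro _ ⟨a, ha, rfl⟩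
      obtain ⟨b, hb, hbe⟩ := (Subgroup.mem_normalizer_iff.mp hq _).mp (Subgroup.mem_map_of_mem (QuotientGroup.mk' N) ha)
      show m * a * m⁻¹ ∈ N ⊔ P
      have h1 : m * a * m⁻¹ * b⁻¹ ∈ N := (QuotientGroup.eq_one_iff _).mp (by
        rw [← QuotientGroup.mk'_apply, map_mul, map_mul, map_mul, map_inv, map_inv, hbe, mul_inv_cancel])
      rw [show m * a * m⁻¹ = m * a * m⁻¹ * b⁻¹ * b by group]
      exact Subgroup.mul_mem _ (Subgroup.mem_sup_left h1) (Subgroup.mem_sup_right hb)
    obtain ⟨a, ha, hconj⟩ := CfsgLib.GroupB.Coprime.sup_conj N P (P.map (MulAut.conj m).toMonoidHom)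
      (by rw [Subgroup.normalizer_eq_top]; exact le_top) hNP hle
      (Subgroup.card_map_of_injective (MulAut.conj m).injective)
      (Or.inr (by haveI := hP.isNilpotent; infer_instance))
    refine ⟨a⁻¹ * m, ?_, ?_⟩
    · refine CfsgLib.GroupB.Coprime.mem_normalizer_iff_map_conj_eq.mpr ?_
      have h2 := congrArg (Subgroup.map (MulAut.conj a⁻¹).toMonoidHom) hconj
      rw [Subgroup.map_map, Subgroup.map_map] at h2
      have e1 : (MulAut.conj a⁻¹).toMonoidHom.comp (MulAut.conj m).toMonoidHom = (MulAut.conj (a⁻¹ * m)).toMonoidHom := by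
        ext z; simp [mul_assoc]
      have e2 : (MulAut.conj a⁻¹).toMonoidHom.comp (MulAut.conj a).toMonoidHom = MonoidHom.id G := by
        ext z; simp [mul_assoc]
      rw [e1, e2, Subgroup.map_id] at h2
      exact h2
    · rw [map_mul, map_inv, show QuotientGroup.mk' N a = 1 from (QuotientGroup.eq_one_iff a).mpr ha, inv_one, one_mul]
  refine ⟨hnorm, le_antisymm (fun q hq => ?_) ?_⟩
  · have hqN : q ∈ Subgroup.normalizer ((P.map (QuotientGroup.mk' N)) : Set (G ⧸ N)) := by
      refine Subgroup.mem_normalizer_iff.mpr fun y => ⟨fun hy => ?_, fun hy => ?_⟩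
      · rw [← Subgroup.mem_centralizer_iff.mp hq y hy, mul_inv_cancel_right]; exact hy
      · have h3 := Subgroup.mem_centralizer_iff.mp hq _ hy
        have : q * y * q⁻¹ = y := by
          calc q * y * q⁻¹ = q⁻¹ * (q * (q * y * q⁻¹)) := by group
            _ = q⁻¹ * (q * y * q⁻¹ * q) := by rw [h3]
            _ = y := by group
        rwa [this] at hy
    rw [hnorm] at hqN
    obtain ⟨h, hh, rfl⟩ := hqN
    refine ⟨h, Subgroup.mem_centralizer_iff.mpr fun a ha => ?_, rfl⟩
    have h1 : h * a * h⁻¹ * a⁻¹ ∈ N ⊓ P := by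
      refine ⟨(QuotientGroup.eq_one_iff _).mp ?_, P.mul_mem ((Subgroup.mem_normalizer_iff.mp hh a).mp ha) (P.inv_mem ha)⟩
      rw [← QuotientGroup.mk'_apply, map_mul, map_mul, map_mul, map_inv, map_inv,
        ← Subgroup.mem_centralizer_iff.mp hq _ (Subgroup.mem_map_of_mem _ ha), mul_inv_cancel_right, mul_inv_cancel]
    rw [CfsgLib.GroupB.Coprime.inf_eq_bot_of_coprime hNP, Subgroup.mem_bot, mul_inv_eq_one, mul_inv_eq_iff_eq_mul] at h1
    exact h1.symm
  · rintro _ ⟨c, hc, rfl⟩
    refine Subgroup.mem_centralizer_iff.mpr ?_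
    rintro _ ⟨a, ha, rfl⟩
    rw [← map_mul, ← map_mul, Subgroup.mem_centralizer_iff.mp hc a ha]

end Cfsg.Agent.S3800
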