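import Cfsg.Statements.S3979
import Mathlib.GroupTheory.SpecificGroups.Cyclic
import Mathlib.Tactic

set_option autoImplicit false
open Cfsg

namespace Cfsg.Agent.S3979

/-- A finite cyclic group has trivial Schur multiplier: every finite stem extension of it is an isomorphism, said through `HasCyclicSchurMultiplier G 1`. -/
theorem result {G : Type*} [Group G] [Finite G] [IsCyclic G] : Cfsg.HasCyclicSchurMultiplier G 1 := by
  constructor
  · refine ⟨G, inferInstance, inferInstance, MonoidHom.id G, ⟨Function.surjective_id, ?_, ?_⟩, ?_⟩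
    · intro a ha; have h1 : a = 1 := ha; rw [h1]; exact one_mem _
    · intro a ha; have h1 : a = 1 := ha; rw [h1]; exact one_mem _
    · haveI : Subsingleton (MonoidHom.id G).ker := ⟨fun a b => Subtype.ext (a.2.trans b.2.symm)⟩
      haveI : Unique (MonoidHom.id G).ker := ⟨⟨1⟩, fun a => Subsingleton.elim _ _⟩
      haveI : Subsingleton (Multiplicative (ZMod 1)) := inferInstanceAs (Subsingleton (ZMod 1))
      haveI : Unique (Multiplicative (ZMod 1)) := ⟨⟨1⟩, fun a => Subsingleton.elim _ _⟩
      exact ⟨MulEquiv.ofUnique⟩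
  · intro Γ _ _ σ hσ
    have hcomm : ∀ a b : Γ, a * b = b * a := (σ.isMulCommutative_of_isCyclic_of_ker_le_center hσ.2.1).is_comm.comm
    have hker : σ.ker = ⊥ := le_bot_iff.mp (hσ.2.2.trans (by
      rw [commutator_def, Subgroup.commutator_le]
      intro a _ b _
      rw [Subgroup.mem_bot, commutatorElement_eq_one_iff_mul_comm]; exact hcomm a b))
    exact ⟨1, fun a => ⟨1, Subtype.ext (by
      have := a.2; simp only [hker, Subgroup.mem_bot] at this; simp [this])⟩⟩

end Cfsg.Agent.S3979
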