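import Cfsg.Statements.S3950
import Cfsg.Agent.Lib.Schur.Heisenberg
import Cfsg.Agent.Lib.Schur.Basic
import Cfsg.Agent.S3979
import Mathlib.LinearAlgebra.Dual.Lemmas
import Mathlib.Algebra.Module.ZMod
import Mathlib.LinearAlgebra.Basis.VectorSpace
import Mathlib.Algebra.Field.ZMod

set_option autoImplicit false
open Cfsg

namespace Cfsg.Agent.S3950
theorem two_functionals {p : ℕ} [Fact p.Prime] {V : Type*} [AddCommGroup V] [Finite V] (hVp : ∀ v : V, p • v = 0)
    (hV : p < Nat.card V) :
    ∃ (f g : V →+ ZMod p) (x y : V), f x ≠ 0 ∧ f y = 0 ∧ g y ≠ 0 := by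
  obtain ⟨instM⟩ : Nonempty (Module (ZMod p) V) := ⟨AddCommGroup.zmodModule hVp⟩
  have hp : p.Prime := Fact.out
  haveI : Module.Projective (ZMod p) V := inferInstance
  haveI : Nontrivial V := Finite.one_lt_card_iff_nontrivial.mp (lt_of_le_of_lt hp.one_lt.le hV)
  obtain ⟨x, hx⟩ := exists_ne (0 : V)
  obtain ⟨f, hf⟩ := Module.Projective.exists_dual_ne_zero (ZMod p) hx
  obtain ⟨y, hy, hfy⟩ : ∃ y : V, y ≠ 0 ∧ f y = 0 := by
    by_contra hcon
    push Not at hcon
    have hinj : Function.Injective f := (injective_iff_map_eq_zero _).mpr fun v hv => by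
      by_contra hv0; exact hcon v hv0 hv
    have := Nat.card_le_card_of_injective f hinj
    rw [Nat.card_zmod] at this
    omega
  obtain ⟨g, hg⟩ := Module.Projective.exists_dual_ne_zero (ZMod p) hy
  exact ⟨f.toAddMonoidHom, g.toAddMonoidHom, x, y, hf, hfy, hg⟩

theorem cyclic_of_forall_prime {G : Type*} [CommGroup G] [Finite G]
    (h : ∀ p : ℕ, p.Prime → Nat.card (powMonoidHom p : G →* G).ker ≤ p) : IsCyclic G := by
  rw [IsCyclic.iff_exponent_eq_card]
  refine Nat.dvd_antisymm Group.exponent_dvd_nat_card ((Nat.dvd_iff_prime_pow_dvd_dvd _ _).mpr fun p k hp hk => ?_)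
  haveI : Fact p.Prime := ⟨hp⟩
  obtain ⟨P⟩ := (inferInstance : Nonempty (Sylow p G))
  have hker : ∀ j : ℕ, Nat.card (powMonoidHom (p ^ j) : G →* G).ker ≤ p ^ j := by
    intro j
    induction j with
    | zero =>
      haveI : Subsingleton (powMonoidHom (p ^ 0) : G →* G).ker :=
        ⟨fun a b => Subtype.ext (by
          have ha : (a : G) ^ p ^ 0 = 1 := a.2
          have hb : (b : G) ^ p ^ 0 = 1 := b.2
          simp only [pow_zero, pow_one] at ha hb
          exact ha.trans hb.symm)⟩
      rw [Nat.card_of_subsingleton (1 : (powMonoidHom (p ^ 0) : G →* G).ker), pow_zero]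
    | succ j ih =>
      let F : (powMonoidHom (p ^ (j + 1)) : G →* G).ker →* (powMonoidHom (p ^ j) : G →* G).ker :=
        MonoidHom.codRestrict ((powMonoidHom p).comp (powMonoidHom (p ^ (j + 1)) : G →* G).ker.subtype) _ fun a => by
          show ((a : G) ^ p) ^ p ^ j = 1
          rw [← pow_mul, ← pow_succ']; exact a.2
      have h1 := F.ker.card_mul_index
      rw [Subgroup.index_ker] at h1
      refine h1.symm.le.trans (le_trans ?_ (pow_succ' p j).ge)
      refine Nat.mul_le_mul (le_trans ?_ (h p hp)) ((Subgroup.card_le_card_group _).trans ih)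
      exact Nat.card_le_card_of_injective (fun a => (⟨((a : (powMonoidHom (p ^ (j + 1)) : G →* G).ker) : G),
          congrArg Subtype.val a.2⟩ : (powMonoidHom p : G →* G).ker))
        (fun a b e => Subtype.ext (Subtype.ext (congrArg (fun z : (powMonoidHom p : G →* G).ker => (z : G)) e)))
  set e := (Monoid.exponent G).factorization p
  have hle : (P : Subgroup G) ≤ (powMonoidHom (p ^ e) : G →* G).ker := fun x hx => by
    obtain ⟨j, hj⟩ := IsPGroup.iff_orderOf.mp P.2 ⟨x, hx⟩
    rw [Subgroup.orderOf_mk] at hj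
    show x ^ p ^ e = 1
    apply orderOf_dvd_iff_pow_eq_one.mp
    rw [hj]
    exact pow_dvd_pow p ((hp.pow_dvd_iff_le_factorization Monoid.exponent_ne_zero_of_finite).mp (hj ▸ Monoid.order_dvd_exponent x))
  have hPe : p ^ (Nat.card G).factorization p ≤ p ^ e :=
    P.card_eq_multiplicity ▸ (Subgroup.card_le_of_le hle).trans (hker e)
  have h2 : (Nat.card G).factorization p ≤ e := (Nat.pow_le_pow_iff_right hp.one_lt).mp hPe
  exact (pow_dvd_pow p (((hp.pow_dvd_iff_le_factorization Nat.card_pos.ne').mp hk).trans h2)).trans (Nat.ordProj_dvd _ _)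

/-- A finite abelian group has trivial Schur multiplier if and only if it is cyclic. -/
theorem result {G : Type*} [CommGroup G] [Finite G] : Cfsg.HasCyclicSchurMultiplier G 1 ↔ IsCyclic G := by
  refine ⟨fun h => ?_, fun h => by exact Cfsg.Agent.S3979.result⟩
  haveI := CfsgLib.Schur.hasCyclic_one_iff.mp h
  classical
  haveI := Fintype.ofFinite G
  by_contra hnc
  obtain ⟨p, hp, hcard⟩ : ∃ p : ℕ, p.Prime ∧ p < Nat.card (powMonoidHom p : G →* G).ker := by
    by_contra hcon
    push Not at hcon
    exact hnc (cyclic_of_forall_prime hcon)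
  haveI : Fact p.Prime := ⟨hp⟩
  let R := (powMonoidHom p : G →* G).range
  let V := Additive (G ⧸ R)
  have hVp : ∀ v : V, p • v = 0 := fun v => by
    obtain ⟨g, hg⟩ := QuotientGroup.mk_surjective (Additive.toMul v)
    have : v = Additive.ofMul (QuotientGroup.mk g) := by rw [hg]; rfl
    rw [this, ← ofMul_pow, ← QuotientGroup.mk_pow]
    exact congrArg Additive.ofMul ((QuotientGroup.eq_one_iff _).mpr ⟨g, rfl⟩)
  have hV : p < Nat.card V := by
    refine lt_of_lt_of_le hcard (le_of_eq ?_)
    have h1 := R.card_eq_card_quotient_mul_card_subgroup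
    have h2 := (powMonoidHom p : G →* G).ker.card_mul_index
    rw [Subgroup.index_ker, h1] at h2
    exact (Nat.eq_of_mul_eq_mul_right Nat.card_pos h2).trans (Nat.card_congr Additive.toMul).symm
  obtain ⟨f, g, x, y, hf, hfy, hg⟩ := two_functionals (p := p) hVp hV
  let q : G → V := fun a => Additive.ofMul (QuotientGroup.mk a)
  have hq : ∀ a b, q (a * b) = q a + q b := fun a b => rfl
  let β : CfsgLib.Schur.Bilin G (ZMod p) :=
    { toFun := fun a b => f (q a) * g (q b)
      left_mul := fun a b c => by rw [hq, map_add, add_mul]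
      right_mul := fun a b c => by rw [hq, map_add, mul_add] }
  obtain ⟨a, ha⟩ := QuotientGroup.mk_surjective (Additive.toMul x)
  obtain ⟨b, hb⟩ := QuotientGroup.mk_surjective (Additive.toMul y)
  have hd : β.toFun a b - β.toFun b a ≠ 0 := by
    show f (q a) * g (q b) - f (q b) * g (q a) ≠ 0
    rw [show q a = x by simp [q, ha], show q b = y by simp [q, hb], hfy, zero_mul, sub_zero]
    exact mul_ne_zero hf hg
  have htop : AddSubgroup.closure β.altValues = ⊤ := by
    haveI : Fact (Nat.card (ZMod p)).Prime := ⟨(Nat.card_zmod p).symm ▸ hp⟩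
    rcases (AddSubgroup.closure β.altValues).eq_bot_or_eq_top_of_prime_card with h0 | h0
    · refine absurd ?_ hd
      have : β.toFun a b - β.toFun b a ∈ AddSubgroup.closure β.altValues :=
        AddSubgroup.subset_closure ⟨a, b, mul_comm a b, rfl⟩
      rwa [h0, AddSubgroup.mem_bot] at this
    · exact h0
  have h1 := CfsgLib.Schur.card_dvd_of_stem (β.isStemExtension htop)
  rw [CfsgLib.Schur.Bilin.card_ker, Nat.card_zmod, Nat.card_of_subsingleton (1 : CfsgLib.Schur.M G)] at h1
  exact hp.not_dvd_one h1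

end Cfsg.Agent.S3950
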