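import Cfsg.Statements.S3951
import Cfsg.Agent.Lib.Schur.Heisenberg
import Cfsg.Agent.Lib.Schur.Basic

set_option autoImplicit false
open Cfsg

namespace Cfsg.Agent.S3951
open scoped commutatorElement

/-- For positive integers `m` and `n` with `n` dividing `m`, the Schur multiplier of the abelian group `ZMod m × ZMod n` (written multiplicatively) is cyclic of order `n`. In particular the elementary abelian group of order `p ^ 2` has multiplier of order `p`. -/
theorem result (m n : ℕ) [NeZero m] [NeZero n] (hnm : n ∣ m) : Cfsg.HasCyclicSchurMultiplier (Multiplicative (ZMod m × ZMod n)) n := by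
  haveI : Finite (Multiplicative (ZMod m × ZMod n)) := inferInstanceAs (Finite (ZMod m × ZMod n))
  set G := Multiplicative (ZMod m × ZMod n)
  let f : ZMod m →+* ZMod n := ZMod.castHom hnm (ZMod n)
  let β : CfsgLib.Schur.Bilin G (ZMod n) :=
    { toFun := fun a b => f (Multiplicative.toAdd a).1 * (Multiplicative.toAdd b).2
      left_mul := fun a b c => by rw [toAdd_mul, Prod.fst_add, map_add, add_mul]
      right_mul := fun a b c => by rw [toAdd_mul, Prod.snd_add, mul_add] }
  have htop : AddSubgroup.closure β.altValues = ⊤ := by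
    refine eq_top_iff.mpr fun z _ => ?_
    rw [← ZMod.natCast_zmod_val z, ← nsmul_one]
    have h1 : (1 : ZMod n) ∈ β.altValues :=
      ⟨Multiplicative.ofAdd ((1 : ZMod m), (0 : ZMod n)), Multiplicative.ofAdd ((0 : ZMod m), (1 : ZMod n)), mul_comm _ _, by simp [β]⟩
    exact AddSubgroup.nsmul_mem _ (AddSubgroup.subset_closure h1) _
  have hlow := CfsgLib.Schur.card_dvd_of_stem (β.isStemExtension htop)
  rw [CfsgLib.Schur.Bilin.card_ker, Nat.card_zmod] at hlow
  open CfsgLib.Schur in
  obtain ⟨a, ha⟩ := proj_surjective id (closure_range_id G) (Multiplicative.ofAdd ((1 : ZMod m), (0 : ZMod n)))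
  open CfsgLib.Schur in
  obtain ⟨b, hb⟩ := proj_surjective id (closure_range_id G) (Multiplicative.ofAdd ((0 : ZMod m), (1 : ZMod n)))
  set c := ⁅b, a⁆ with hc
  have hcK : c ∈ (CfsgLib.Schur.proj (id : G → G)).ker := by
    rw [hc, MonoidHom.mem_ker, map_commutatorElement, commutatorElement_eq_one_iff_mul_comm]
    exact mul_comm _ _
  have hcc : ∀ w : CfsgLib.Schur.Src (id : G → G), w * c = c * w :=
    fun w => Subgroup.mem_center_iff.mp (CfsgLib.Schur.ker_le_center _ hcK) w
  have hgen : Subgroup.closure ({Multiplicative.ofAdd ((1 : ZMod m), (0 : ZMod n)), Multiplicative.ofAdd ((0 : ZMod m), (1 : ZMod n))} : Set G) = ⊤ := by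
    refine eq_top_iff.mpr fun g _ => ?_
    have hg : g = Multiplicative.ofAdd ((1 : ZMod m), (0 : ZMod n)) ^ (Multiplicative.toAdd g).1.val *
        Multiplicative.ofAdd ((0 : ZMod m), (1 : ZMod n)) ^ (Multiplicative.toAdd g).2.val := by
      rw [← ofAdd_nsmul, ← ofAdd_nsmul, ← ofAdd_add]
      simp [G]
    rw [hg]
    exact mul_mem (pow_mem (Subgroup.subset_closure (by simp)) _) (pow_mem (Subgroup.subset_closure (by simp)) _)
  have hgen' := CfsgLib.Schur.closure_sup_ker (CfsgLib.Schur.proj (id : G → G)) (a := a) (b := b) (by rw [ha, hb]; exact hgen)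
  have hE := CfsgLib.Schur.commutator_le_zpowers' (CfsgLib.Schur.ker_le_center _) hgen'
    (by rw [hcc a, mul_inv_cancel_right]) (Or.inl (by rw [hcc b, mul_inv_cancel_right]))
  have hbn : b ^ n * a = a * b ^ n := by
    refine (Subgroup.mem_center_iff.mp (CfsgLib.Schur.ker_le_center _ ?_) a).symm
    rw [MonoidHom.mem_ker, map_pow, hb, ← ofAdd_nsmul]
    simp [G]
  have hpow : ∀ i : ℕ, b ^ i * a = c ^ i * a * b ^ i := by
    intro i
    induction i with
    | zero => simp
    | succ i ih =>
      calc b ^ (i + 1) * a = b * (b ^ i * a) := by rw [pow_succ', mul_assoc]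
        _ = b * c ^ i * a * b ^ i := by rw [ih]; group
        _ = c ^ i * b * a * b ^ i := by rw [(show Commute b c from hcc b).pow_right i |>.eq]
        _ = c ^ i * (b * a * b⁻¹ * a⁻¹) * a * b ^ (i + 1) := by rw [pow_succ' b i]; group
        _ = c ^ (i + 1) * a * b ^ (i + 1) := by rw [← commutatorElement_def, ← hc, ← pow_succ]
  have hcn : c ^ n = 1 := by
    have := hpow n
    rw [hbn, mul_assoc] at this
    exact right_eq_mul.mp this
  have hdvd : Nat.card (CfsgLib.Schur.M G) ∣ n := by
    have h1 := CfsgLib.Schur.card_mult_dvd _ hE hcn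
    rw [MonoidHom.mem_ker.mp hcK, orderOf_one, Nat.div_one] at h1
    exact h1
  have hM : Nat.card (CfsgLib.Schur.M G) = n := Nat.dvd_antisymm hdvd hlow
  haveI : IsCyclic (CfsgLib.Schur.M G) :=
    isCyclic_of_injective (Subgroup.inclusion (show CfsgLib.Schur.mult (id : G → G) ≤ Subgroup.zpowers c from fun x hx => hE hx.2))
      (Subgroup.inclusion_injective _)
  refine (CfsgLib.Schur.hasSchurMultiplier_iff).mpr ⟨mulEquivOfCyclicCardEq ?_⟩
  rw [hM, Nat.card_congr Multiplicative.toAdd, Nat.card_zmod]

end Cfsg.Agent.S3951
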