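import Cfsg.Statements.S3952
import Cfsg.Agent.Lib.Schur.Exponent

set_option autoImplicit false
open Cfsg

namespace Cfsg.Agent.S3952

/-- If `A` is the Schur multiplier of the finite group `Q`, then the square of the exponent of `A` divides the order of `Q`. -/
theorem result {Q : Type*} [Group Q] [Finite Q] {A : Type*} [CommGroup A] (hA : Cfsg.HasSchurMultiplier Q A) : Monoid.exponent A ^ 2 ∣ Nat.card Q := by
  obtain ⟨⟨Γ, _, _, σ, hσ, ⟨e⟩⟩, -⟩ := hA
  letI : CommGroup σ.ker :=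
    { (inferInstance : Group σ.ker) with
      mul_comm := fun a b => Subtype.ext ((Subgroup.mem_center_iff.mp (hσ.2.1 a.2) b).symm) }
  haveI : NeZero ((Monoid.exponent σ.ker : ℕ) : ℂ) := ⟨Nat.cast_ne_zero.mpr Monoid.exponent_ne_zero_of_finite⟩
  obtain ⟨d⟩ := CommGroup.monoidHom_mulEquiv_of_hasEnoughRootsOfUnity σ.ker ℂ
  haveI : Finite (σ.ker →* ℂˣ) := Finite.of_equiv _ d.symm.toEquiv
  obtain ⟨a, ha⟩ := Monoid.exists_orderOf_eq_exponent (G := σ.ker) Monoid.ExponentExists.of_finite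
  have h := CfsgLib.Schur.Exponent.sq_dvd_index hσ.2.1 hσ.2.2 (d.symm a)
  rw [MulEquiv.orderOf_eq, ha, Monoid.exponent_eq_of_mulEquiv e, Subgroup.index_ker,
    MonoidHom.range_eq_top.mpr hσ.1, Subgroup.card_top] at h
  exact h

end Cfsg.Agent.S3952
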