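import Cfsg.Statements.S3953
import Cfsg.Agent.Lib.Schur.Restrict
import Mathlib.GroupTheory.Torsion
import Mathlib.Data.Nat.Factorization.Basic

set_option autoImplicit false
open Cfsg

namespace Cfsg.Agent.S3953

/-- Let `P` be a Sylow `p`-subgroup of the finite group `G`, let `A` be the Schur multiplier of `G` and `B` that of `P`. Then the `p`-primary component of `A` is isomorphic to a direct factor of `B`: there are subgroups `C` and `D` of `B` meeting trivially and generating `B`, with `C` isomorphic to the `p`-primary component of `A`. -/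
theorem result {G : Type*} [Group G] [Finite G] (p : ℕ) [Fact p.Prime] (P : Sylow p G) {A B : Type*} [CommGroup A] [CommGroup B] (hA : Cfsg.HasSchurMultiplier G A) (hB : Cfsg.HasSchurMultiplier P B) : ∃ C D : Subgroup B, C ⊓ D = ⊥ ∧ C ⊔ D = ⊤ ∧ Nonempty (CommGroup.primaryComponent A p ≃* C) := by
  classical
  obtain ⟨eA⟩ := CfsgLib.Schur.nonempty_equiv hA
  obtain ⟨eB⟩ := CfsgLib.Schur.nonempty_equiv hB
  obtain ⟨c, ν, hcν⟩ := CfsgLib.Schur.Restrict.exists_maps (P : Subgroup G)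
  haveI : Finite A := Finite.of_equiv _ eA.symm.toEquiv
  have hp := (Fact.out : p.Prime)
  set m := (P : Subgroup G).index with hm
  set N := Nat.card A with hN
  set k := N.factorization p with hk
  have hmp : m.Coprime (p ^ k) := ((hp.coprime_iff_not_dvd.mpr P.not_dvd_index).symm).pow_right k
  have hcop : (p ^ k).Coprime (N / p ^ k) :=
    (hp.coprime_iff_not_dvd.mpr (Nat.not_dvd_ordCompl hp Nat.card_pos.ne')).pow_left k
  obtain ⟨e, he1, he2⟩ := Nat.chineseRemainder hcop 1 0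

  have hmem : ∀ a : A, a ∈ CommGroup.primaryComponent A p → a ^ (p ^ k) = 1 := fun a ha => by
    obtain ⟨j, hj⟩ := CommGroup.mem_primaryComponent.mp ha
    obtain ⟨i, -, hi⟩ := (Nat.dvd_prime_pow hp).mp (orderOf_dvd_of_pow_eq_one hj)
    rw [← orderOf_dvd_iff_pow_eq_one, hi]
    exact pow_dvd_pow p ((hp.pow_dvd_iff_le_factorization Nat.card_pos.ne').mp (hi ▸ orderOf_dvd_natCard a))
  have hfix : ∀ (a : A) (n : ℕ), a ^ (p ^ k) = 1 → n ≡ 1 [MOD p ^ k] → a ^ n = a := fun a n ha hn => by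
    conv_rhs => rw [← pow_one a]
    exact pow_eq_pow_iff_modEq.mpr (hn.of_dvd (orderOf_dvd_of_pow_eq_one ha))
  have hproj : ∀ a : A, (a ^ e) ^ (p ^ k) = 1 := fun a => by
    obtain ⟨t, ht⟩ := Nat.modEq_zero_iff_dvd.mp he2
    rw [← pow_mul, ← orderOf_dvd_iff_pow_eq_one]
    refine (orderOf_dvd_natCard a).trans ?_
    rw [ht, mul_comm (N / p ^ k) t, mul_assoc, Nat.div_mul_cancel (Nat.ordProj_dvd N p)]
    exact dvd_mul_left _ _
  obtain ⟨t, ht⟩ : ∃ t, m * t ≡ 1 [MOD p ^ k] := by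
    obtain ⟨t, -, ht⟩ := Nat.exists_mul_mod_eq_of_coprime 1 hmp (pow_ne_zero _ hp.ne_zero)
    exact ⟨t, ht⟩
  let cc : B →* A := eA.symm.toMonoidHom.comp (c.comp eB.toMonoidHom)
  let nn : A →* B := eB.symm.toMonoidHom.comp (ν.comp eA.toMonoidHom)
  have hcn : ∀ a, cc (nn a) = a ^ m := fun a => by
    show eA.symm (c (eB (eB.symm (ν (eA a))))) = _
    rw [MulEquiv.apply_symm_apply, hcν, map_pow, MulEquiv.symm_apply_apply]
  let Ap := CommGroup.primaryComponent A p
  let f : Ap →* B := nn.comp Ap.subtype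
  let π : B →* A := (powMonoidHom e).comp cc
  have hπ : ∀ a : Ap, π (f a) = (a : A) ^ m := fun a => by
    show cc (nn a) ^ e = _
    rw [hcn, hfix _ e (by rw [← pow_mul, mul_comm, pow_mul, hmem a a.2, one_pow]) he1]
  have hinj : ∀ a : Ap, (a : A) ^ m = 1 → a = 1 := fun a ha => Subtype.ext (by
    rw [← hfix a (m * t) (hmem a a.2) ht, pow_mul, ha, one_pow]; rfl)
  have hf : Function.Injective f := (injective_iff_map_eq_one f).mpr fun a ha =>
    hinj a (by rw [← hπ, ha, map_one])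
  refine ⟨f.range, π.ker, ?_, ?_, ⟨MonoidHom.ofInjective hf⟩⟩
  · rw [Subgroup.eq_bot_iff_forall]
    rintro _ ⟨⟨a, rfl⟩, ha⟩
    rw [hinj a (by rw [← hπ]; exact ha), map_one]
  · rw [eq_top_iff]
    intro b _
    let a : Ap := ⟨(π b) ^ t, Subgroup.pow_mem _ (CommGroup.mem_primaryComponent.mpr ⟨k, hproj (cc b)⟩) t⟩
    have h : π (b * (f a)⁻¹) = 1 := by
      rw [map_mul, map_inv, hπ, ← pow_mul, mul_comm t m, hfix (π b) _ (hproj (cc b)) ht, mul_inv_cancel]
    rw [show b = (b * (f a)⁻¹) * f a by rw [inv_mul_cancel_right]]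
    exact Subgroup.mul_mem _ (Subgroup.mem_sup_right h) (Subgroup.mem_sup_left ⟨a, rfl⟩)

end Cfsg.Agent.S3953
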