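import Cfsg.Statements.S3954
import Cfsg.Agent.Lib.Schur.Restrict
import Mathlib.GroupTheory.FiniteAbelian.Duality
import Mathlib.RingTheory.RootsOfUnity.AlgebraicallyClosed
import Mathlib.Analysis.Complex.Polynomial.Basic

set_option autoImplicit false
open Cfsg

namespace Cfsg.Agent.S3954

/-- Let `U` be a subgroup of index `m` in the finite group `G`, let `A` be the Schur multiplier of `G` and `B` that of `U`. Then the subgroup of `m`-th powers of `A` is isomorphic to a subgroup of `B`. -/
theorem result {G : Type*} [Group G] [Finite G] (U : Subgroup G) {A B : Type*} [CommGroup A] [CommGroup B] (hA : Cfsg.HasSchurMultiplier G A) (hB : Cfsg.HasSchurMultiplier U B) : ∃ C : Subgroup B, Nonempty ((powMonoidHom U.index : A →* A).range ≃* C) := by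
  classical
  obtain ⟨eA⟩ := CfsgLib.Schur.nonempty_equiv hA
  obtain ⟨eB⟩ := CfsgLib.Schur.nonempty_equiv hB
  obtain ⟨c, ν, hcν⟩ := CfsgLib.Schur.Restrict.exists_maps U
  haveI : Finite B := Finite.of_equiv _ eB.symm.toEquiv
  let cc : B →* A := eA.symm.toMonoidHom.comp (c.comp eB.toMonoidHom)
  have hle : (powMonoidHom U.index : A →* A).range ≤ cc.range := by
    rintro _ ⟨a, rfl⟩
    refine ⟨eB.symm (ν (eA a)), ?_⟩
    show eA.symm (c (eB (eB.symm (ν (eA a))))) = a ^ U.index
    rw [MulEquiv.apply_symm_apply, hcν, map_pow, MulEquiv.symm_apply_apply]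
  haveI : Finite cc.range := Finite.of_surjective _ cc.rangeRestrict_surjective
  obtain ⟨d₁⟩ := CommGroup.monoidHom_mulEquiv_of_hasEnoughRootsOfUnity cc.range ℂ
  obtain ⟨d₂⟩ := CommGroup.monoidHom_mulEquiv_of_hasEnoughRootsOfUnity B ℂ
  let pre : (cc.range →* ℂˣ) →* (B →* ℂˣ) := MonoidHom.compHom' cc.rangeRestrict
  have hpre : Function.Injective pre := fun u v h => by
    refine MonoidHom.ext fun z => ?_
    obtain ⟨b, rfl⟩ := cc.rangeRestrict_surjective z
    exact DFunLike.congr_fun h b
  let f : cc.range →* B := d₂.toMonoidHom.comp (pre.comp d₁.symm.toMonoidHom)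
  have hf : Function.Injective f := d₂.injective.comp (hpre.comp d₁.symm.injective)
  exact ⟨_, ⟨MonoidHom.ofInjective (f := f.comp (Subgroup.inclusion hle)) (hf.comp (Subgroup.inclusion_injective hle))⟩⟩

end Cfsg.Agent.S3954
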