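import Cfsg.Statements.S3958
import Cfsg.Agent.Lib.Schur.Projective

set_option autoImplicit false
universe u v
open Cfsg

namespace Cfsg.Agent.S3958

/-- Let `σ : Γ →* Q` be a finite stem extension of the finite group `Q` with `Γ` of trivial Schur multiplier. Then `σ` is a Schur covering group of `Q`: for every finite stem extension `τ : Δ →* Q` with `Δ` in the same universe as `Q`, the kernel of `τ` is a homomorphic image of the kernel of `σ`. -/
theorem result {Q : Type u} [Group Q] [Finite Q] {Γ : Type v} [Group Γ] [Finite Γ] (σ : Γ →* Q) (hσ : Cfsg.IsStemExtension σ) (hΓ : Cfsg.HasCyclicSchurMultiplier Γ 1) (Δ : Type u) [Group Δ] [Finite Δ] (τ : Δ →* Q) (hτ : Cfsg.IsStemExtension τ) : ∃ π : σ.ker →* τ.ker, Function.Surjective π := by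
  haveI := CfsgLib.Schur.hasCyclic_one_iff.mp hΓ
  open CfsgLib.Schur in
  obtain ⟨φ, hφ⟩ := exists_lift (id : Q → Q) (MonoidHom.id Q) σ hσ.1 hσ.2.1
  open CfsgLib.Schur in
  obtain ⟨ψ, hψ⟩ := exists_lift (id : Q → Q) (MonoidHom.id Q) τ hτ.1 hτ.2.1
  rw [MonoidHom.id_comp] at hφ hψ
  refine CfsgLib.Schur.exists_ker_surjection hσ hτ hφ hψ fun m hm hφm => ?_
  obtain ⟨hφs, -⟩ := CfsgLib.Schur.lift_surjective id (CfsgLib.Schur.closure_range_id Q) hσ hφ
  let P1 := (φ.prod ψ).range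
  let ξ : P1 →* Γ := (MonoidHom.fst Γ Δ).comp P1.subtype
  have hs : Function.Surjective ξ := by
    intro g
    obtain ⟨x, rfl⟩ := hφs g
    exact ⟨⟨(φ.prod ψ) x, x, rfl⟩, rfl⟩
  have hc : ξ.ker ≤ Subgroup.center P1 := by
    rintro ⟨⟨g, d⟩, x, hx⟩ hk
    have hg : g = 1 := hk
    subst hg
    rw [Subgroup.mem_center_iff]
    rintro ⟨⟨g', d'⟩, hy⟩
    have h1 : φ x = 1 := congrArg Prod.fst hx
    have h2 : ψ x = d := congrArg Prod.snd hx
    have hd : d ∈ Subgroup.center Δ := hτ.2.1 (by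
      rw [MonoidHom.mem_ker, ← h2, ← MonoidHom.comp_apply, hψ, ← hφ, MonoidHom.comp_apply, h1, map_one])
    refine Subtype.ext (Prod.ext ?_ (Subgroup.mem_center_iff.mp hd d'))
    show g' * 1 = 1 * g'
    rw [one_mul, mul_one]
  have h0 := CfsgLib.Schur.ker_inf_commutator_eq_bot ξ hs hc
  have hmem : (⟨(φ.prod ψ) m, m, rfl⟩ : P1) ∈ ξ.ker ⊓ commutator P1 := by
    refine ⟨hφm, ?_⟩
    have h1 := Subgroup.mem_map_of_mem (φ.prod ψ).rangeRestrict hm.2
    rw [commutator_def, Subgroup.map_commutator] at h1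
    rw [commutator_def]
    exact Subgroup.commutator_mono le_top le_top h1
  rw [h0, Subgroup.mem_bot] at hmem
  exact congrArg (fun z : P1 => (z : Γ × Δ).2) hmem

end Cfsg.Agent.S3958
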