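import Cfsg.Statements.S3960
import Cfsg.Agent.Lib.Schur.Basic

set_option autoImplicit false
universe u
open Cfsg

namespace Cfsg.Agent.S3960
open scoped commutatorElement

/-- A finite perfect group `Q` has a universal central extension: a finite perfect group `G` in the universe of `Q` and a surjective homomorphism `π : G →* Q` with central kernel such that for every group `X` in that universe and every surjective homomorphism `ξ : X →* Q` with central kernel there is exactly one homomorphism `η : G →* X` with `ξ ∘ η = π`. -/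
theorem result {Q : Type u} [Group Q] [Finite Q] (hQ : Group.IsPerfect Q) : ∃ (G : Type u) (_ : Group G) (_ : Finite G) (π : G →* Q), Group.IsPerfect G ∧ Function.Surjective π ∧ π.ker ≤ Subgroup.center G ∧ ∀ (X : Type u) [Group X] (ξ : X →* Q), Function.Surjective ξ → ξ.ker ≤ Subgroup.center X → ∃! η : G →* X, ξ.comp η = π := by
  haveI := hQ
  open CfsgLib.Schur in
  have hEK : ∀ x : Src (id : Q → Q), ∃ e ∈ commutator (Src (id : Q → Q)), proj id e = proj id x := by
    intro x
    have h1 : proj id x ∈ (commutator (Src (id : Q → Q))).map (proj id) := by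
      rw [commutator_def, Subgroup.map_commutator,
        Subgroup.map_top_of_surjective _ (proj_surjective id (closure_range_id Q)), ← commutator_def,
        hQ.commutator_eq_top]
      exact Subgroup.mem_top _
    obtain ⟨e, he, hee⟩ := h1
    exact ⟨e, he, hee⟩
  open CfsgLib.Schur in
  let G' := commutator (Src (id : Q → Q))
  have hperf : commutator G' = ⊤ := by
    refine Subgroup.map_injective (Subgroup.subtype_injective G') ?_
    rw [← MonoidHom.range_eq_map, Subgroup.range_subtype, commutator_def, Subgroup.map_commutator,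
      ← MonoidHom.range_eq_map, Subgroup.range_subtype]
    refine le_antisymm (Subgroup.commutator_mono le_top le_top |>.trans (le_of_eq (commutator_def _).symm)) ?_
    show commutator (CfsgLib.Schur.Src (id : Q → Q)) ≤ _
    rw [commutator_def, Subgroup.commutator_le]
    intro a _ b _
    obtain ⟨a', ha', hae⟩ := hEK a
    obtain ⟨b', hb', hbe⟩ := hEK b
    have hz : ∀ x y : CfsgLib.Schur.Src (id : Q → Q), CfsgLib.Schur.proj id x = CfsgLib.Schur.proj id y →
        x⁻¹ * y ∈ Subgroup.center _ := fun x y hxy => CfsgLib.Schur.ker_le_center _ (by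
      rw [MonoidHom.mem_ker, map_mul, map_inv, hxy, inv_mul_cancel])
    have key : ⁅a, b⁆ = ⁅a', b'⁆ := by
      have c1 := Subgroup.mem_center_iff.mp (hz a' a hae)
      have c2 := Subgroup.mem_center_iff.mp (hz b' b hbe)
      obtain ⟨z, hz1, rfl⟩ : ∃ z, z ∈ Subgroup.center _ ∧ a = a' * z := ⟨a'⁻¹ * a, hz a' a hae, by group⟩
      obtain ⟨w, hw1, rfl⟩ : ∃ w, w ∈ Subgroup.center _ ∧ b = b' * w := ⟨b'⁻¹ * b, hz b' b hbe, by group⟩
      rw [commutatorElement_def, commutatorElement_def]
      have cz := Subgroup.mem_center_iff.mp hz1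
      have cw := Subgroup.mem_center_iff.mp hw1
      calc a' * z * (b' * w) * (a' * z)⁻¹ * (b' * w)⁻¹
          = a' * (z * b') * w * z⁻¹ * a'⁻¹ * w⁻¹ * b'⁻¹ := by group
        _ = a' * (b' * z) * w * z⁻¹ * a'⁻¹ * w⁻¹ * b'⁻¹ := by rw [cz b']
        _ = a' * b' * (z * w) * z⁻¹ * a'⁻¹ * w⁻¹ * b'⁻¹ := by group
        _ = a' * b' * (w * z) * z⁻¹ * a'⁻¹ * w⁻¹ * b'⁻¹ := by rw [cz w]
        _ = a' * b' * (w * a'⁻¹) * w⁻¹ * b'⁻¹ := by group
        _ = a' * b' * (a'⁻¹ * w) * w⁻¹ * b'⁻¹ := by rw [cw a'⁻¹]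
        _ = a' * b' * a'⁻¹ * b'⁻¹ := by group
    rw [key]
    exact Subgroup.commutator_mem_commutator ha' hb'
  open CfsgLib.Schur in
  refine ⟨G', inferInstance, inferInstance, (proj id).comp G'.subtype, ⟨hperf⟩, fun q => ?_, ?_, ?_⟩
  · obtain ⟨x, hx⟩ := CfsgLib.Schur.proj_surjective id (CfsgLib.Schur.closure_range_id Q) q
    obtain ⟨e, he, hee⟩ := hEK x
    exact ⟨⟨e, he⟩, hee.trans hx⟩
  · intro g hg
    exact Subgroup.mem_center_iff.mpr fun h => Subtype.ext (Subgroup.mem_center_iff.mp (CfsgLib.Schur.ker_le_center _ hg) h)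
  · intro X _ ξ hξ hc
    obtain ⟨φ, hφ⟩ := CfsgLib.Schur.exists_lift (id : Q → Q) (MonoidHom.id Q) ξ hξ hc
    refine ⟨φ.comp G'.subtype, MonoidHom.ext fun g => DFunLike.congr_fun hφ (g : CfsgLib.Schur.Src (id : Q → Q)), fun η hη => ?_⟩
    exact CfsgLib.Schur.hom_eq_of_perfect hperf ξ hc (by rw [hη, ← MonoidHom.comp_assoc, hφ, MonoidHom.id_comp])

end Cfsg.Agent.S3960
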