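import Cfsg.Statements.S3961
import Cfsg.Agent.Lib.Schur.Basic
import Cfsg.Agent.Lib.Schur.Heisenberg

set_option autoImplicit false
universe u v
open Cfsg

namespace Cfsg.Agent.S3961
open scoped commutatorElement

/-- Let `π : G →* Q` be a surjective homomorphism with central kernel from a finite perfect group `G` (a perfect cover of `Q`). Then `π` is universal, in the sense that every surjective homomorphism `ξ : X →* Q` with central kernel from a group `X` in the universe of `G` admits a homomorphism `η : G →* X` with `ξ ∘ η = π`, if and only if `G` has trivial Schur multiplier. -/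
theorem result {G : Type u} {Q : Type v} [Group G] [Group Q] [Finite G] (hG : Group.IsPerfect G) (π : G →* Q) (hπ : Function.Surjective π) (hker : π.ker ≤ Subgroup.center G) : (∀ (X : Type u) [Group X] (ξ : X →* Q), Function.Surjective ξ → ξ.ker ≤ Subgroup.center X → ∃ η : G →* X, ξ.comp η = π) ↔ Cfsg.HasCyclicSchurMultiplier G 1 := by
  haveI := hG
  open CfsgLib.Schur in
  constructor
  · intro hu
    rw [hasCyclic_one_iff]
    obtain ⟨⟨Δ, _, _, τ, hτ, ⟨e⟩⟩, -⟩ := hasSchurMultiplier G
    -- `Δ` is perfect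
    have hΔ : commutator Δ = ⊤ := by
      refine eq_top_iff.mpr fun d _ => ?_
      have h1 : τ d ∈ (commutator Δ).map τ := by
        rw [commutator_def, Subgroup.map_commutator, Subgroup.map_top_of_surjective _ hτ.1, ← commutator_def,
          hG.commutator_eq_top]
        exact Subgroup.mem_top _
      obtain ⟨c, hc, hcd⟩ := h1
      rw [show d = c * (c⁻¹ * d) by group]
      exact mul_mem hc (hτ.2.2 (by rw [MonoidHom.mem_ker, map_mul, map_inv, hcd, inv_mul_cancel]))
    -- the composite kernel is central (Grün)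
    have hcc : (π.comp τ).ker ≤ Subgroup.center Δ := by
      intro x hx
      have hx' : τ x ∈ Subgroup.center G := hker hx
      have hc : ∀ g : Δ, ⁅x, g⁆ ∈ Subgroup.center Δ := fun g => hτ.2.1 (by
        rw [MonoidHom.mem_ker, map_commutatorElement, commutatorElement_eq_one_iff_mul_comm]
        exact (Subgroup.mem_center_iff.mp hx' _).symm)
      let f : Δ →* Δ := MonoidHom.mk' (fun g => ⁅x, g⁆) (fun a b => by
        have h := Subgroup.mem_center_iff.mp (hc b) a
        rw [commutatorElement_def] at h ⊢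
        rw [commutatorElement_def, commutatorElement_def]
        calc x * (a * b) * x⁻¹ * (a * b)⁻¹
            = x * a * x⁻¹ * ((x * b * x⁻¹ * b⁻¹) * a⁻¹) := by group
          _ = x * a * x⁻¹ * (a⁻¹ * (a * (x * b * x⁻¹ * b⁻¹)) * a⁻¹) := by group
          _ = (x * a * x⁻¹ * a⁻¹) * (x * b * x⁻¹ * b⁻¹) := by rw [h]; group)
      have hle : commutator Δ ≤ f.ker := by
        rw [commutator_def, Subgroup.commutator_le]
        intro a _ b _
        rw [MonoidHom.mem_ker, map_commutatorElement, commutatorElement_eq_one_iff_mul_comm]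
        exact (Subgroup.mem_center_iff.mp (hc a) (f b)).symm
      rw [hΔ] at hle
      exact Subgroup.mem_center_iff.mpr fun g => (commutatorElement_eq_one_iff_mul_comm.mp (hle (Subgroup.mem_top g))).symm
    obtain ⟨η, hη⟩ := hu Δ (π.comp τ) (hπ.comp hτ.1) hcc
    have hτη : τ.comp η = MonoidHom.id G := hom_eq_of_perfect hG.commutator_eq_top π hker (by
      rw [← MonoidHom.comp_assoc, hη, MonoidHom.comp_id])
    have hηr : commutator Δ ≤ η.range := by
      rw [commutator_def, Subgroup.commutator_le]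
      intro a _ b _
      have hz : ∀ d : Δ, d * (η (τ d))⁻¹ ∈ Subgroup.center Δ := fun d => hτ.2.1 (by
        rw [MonoidHom.mem_ker, map_mul, map_inv]
        have := DFunLike.congr_fun hτη (τ d)
        rw [MonoidHom.comp_apply, MonoidHom.id_apply] at this
        rw [this, mul_inv_cancel])
      obtain ⟨u, hu1, hua⟩ : ∃ u ∈ Subgroup.center Δ, a = u * η (τ a) := ⟨_, hz a, by group⟩
      obtain ⟨v, hv1, hvb⟩ : ∃ v ∈ Subgroup.center Δ, b = v * η (τ b) := ⟨_, hz b, by group⟩
      refine ⟨⁅τ a, τ b⁆, ?_⟩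
      rw [map_commutatorElement]
      conv_rhs => rw [hua, hvb]
      have cu := Subgroup.mem_center_iff.mp hu1
      have cv := Subgroup.mem_center_iff.mp hv1
      rw [commutatorElement_def, commutatorElement_def]
      symm
      calc u * η (τ a) * (v * η (τ b)) * (u * η (τ a))⁻¹ * (v * η (τ b))⁻¹
          = u * (η (τ a) * v) * η (τ b) * (η (τ a))⁻¹ * u⁻¹ * (η (τ b))⁻¹ * v⁻¹ := by group
        _ = u * (v * η (τ a)) * η (τ b) * (η (τ a))⁻¹ * u⁻¹ * (η (τ b))⁻¹ * v⁻¹ := by rw [cv]
        _ = (u * (v * (η (τ a) * η (τ b) * (η (τ a))⁻¹))) * u⁻¹ * (η (τ b))⁻¹ * v⁻¹ := by group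
        _ = ((v * (η (τ a) * η (τ b) * (η (τ a))⁻¹)) * u) * u⁻¹ * (η (τ b))⁻¹ * v⁻¹ := by rw [cu]
        _ = (v * (η (τ a) * η (τ b) * (η (τ a))⁻¹ * (η (τ b))⁻¹)) * v⁻¹ := by group
        _ = ((η (τ a) * η (τ b) * (η (τ a))⁻¹ * (η (τ b))⁻¹) * v) * v⁻¹ := by rw [cv (η (τ a) * η (τ b) * (η (τ a))⁻¹ * (η (τ b))⁻¹)]
        _ = η (τ a) * η (τ b) * (η (τ a))⁻¹ * (η (τ b))⁻¹ := by group
    rw [hΔ] at hηr
    haveI : Subsingleton τ.ker := by
      refine ⟨fun x y => Subtype.ext ?_⟩
      suffices h0 : ∀ d ∈ τ.ker, d = 1 by rw [h0 x x.2, h0 y y.2]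
      intro d hd
      obtain ⟨g, rfl⟩ := hηr (Subgroup.mem_top d)
      have := DFunLike.congr_fun hτη g
      rw [MonoidHom.comp_apply, MonoidHom.id_apply, MonoidHom.mem_ker.mp hd] at this
      rw [← this, map_one]
    exact e.toEquiv.symm.subsingleton
  · intro hM X _ ξ hξ hc
    obtain ⟨φ, hφ⟩ := exists_lift (id : G → G) π ξ hξ hc
    haveI := hasCyclic_one_iff.mp hM
    have hbij : Function.Bijective ((proj (id : G → G)).comp (commutator (Src (id : G → G))).subtype) := by
      constructor
      · rw [← MonoidHom.ker_eq_bot_iff, eq_bot_iff]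
        intro x hx
        have := Subsingleton.elim (⟨(x : Src (id : G → G)), hx, x.2⟩ : mult (id : G → G)) 1
        have h0 : (x : Src (id : G → G)) = 1 := Subtype.ext_iff.mp this
        exact Subgroup.mem_bot.mpr (Subtype.ext h0)
      · intro g
        have h1 : g ∈ (commutator (Src (id : G → G))).map (proj id) := by
          rw [commutator_def, Subgroup.map_commutator,
            Subgroup.map_top_of_surjective _ (proj_surjective id (closure_range_id G)), ← commutator_def,
            hG.commutator_eq_top]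
          exact Subgroup.mem_top _
        obtain ⟨e, he, hee⟩ := h1
        exact ⟨⟨e, he⟩, hee⟩
    refine ⟨(φ.comp (commutator (Src (id : G → G))).subtype).comp (MulEquiv.ofBijective _ hbij).symm.toMonoidHom, MonoidHom.ext fun g => ?_⟩
    obtain ⟨e, rfl⟩ := (MulEquiv.ofBijective _ hbij).surjective g
    show ξ (φ ((((MulEquiv.ofBijective _ hbij).symm) ((MulEquiv.ofBijective _ hbij) e) : _) : Src (id : G → G))) = _
    rw [MulEquiv.symm_apply_apply]
    exact DFunLike.congr_fun hφ (e : Src (id : G → G))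

end Cfsg.Agent.S3961
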