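import Cfsg.Statements.S3962

set_option autoImplicit false
open Cfsg

namespace Cfsg.Agent.S3962

/-- Let `G` be a perfect group and `π : G →* Q` a surjective homomorphism whose kernel is central. Then `π` maps the centre of `G` onto the centre of `Q`. Taking `π` to be the map to `G ⧸ Z(G)` shows that the central quotient of a perfect group has trivial centre. -/
theorem result {G Q : Type*} [Group G] [Group Q] (hG : Group.IsPerfect G) (π : G →* Q) (hπ : Function.Surjective π) (hker : π.ker ≤ Subgroup.center G) : (Subgroup.center G).map π = Subgroup.center Q := by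
  refine le_antisymm ?_ fun q hq => ?_
  · rintro _ ⟨z, hz, rfl⟩
    refine Subgroup.mem_center_iff.mpr fun y => ?_
    obtain ⟨w, rfl⟩ := hπ y
    rw [← map_mul, ← map_mul, Subgroup.mem_center_iff.mp hz w]
  · obtain ⟨x, rfl⟩ := hπ q
    have hc : ∀ g : G, x * g * x⁻¹ * g⁻¹ ∈ Subgroup.center G := fun g => hker (by
      rw [MonoidHom.mem_ker, map_mul, map_mul, map_mul, map_inv, map_inv,
        ← Subgroup.mem_center_iff.mp hq (π g)]
      group)
    let f : G →* G := MonoidHom.mk' (fun g => x * g * x⁻¹ * g⁻¹) (fun a b => by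
      have h := Subgroup.mem_center_iff.mp (hc b) a
      calc x * (a * b) * x⁻¹ * (a * b)⁻¹
          = x * a * x⁻¹ * ((x * b * x⁻¹ * b⁻¹) * a⁻¹) := by group
        _ = x * a * x⁻¹ * (a⁻¹ * (a * (x * b * x⁻¹ * b⁻¹)) * a⁻¹) := by group
        _ = (x * a * x⁻¹ * a⁻¹) * (x * b * x⁻¹ * b⁻¹) := by rw [h]; group)
    have hle : commutator G ≤ f.ker := by
      rw [commutator_def, Subgroup.commutator_le]
      intro a _ b _
      rw [MonoidHom.mem_ker, map_commutatorElement, commutatorElement_eq_one_iff_mul_comm]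
      exact (Subgroup.mem_center_iff.mp (hc a) (f b)).symm
    rw [hG.commutator_eq_top] at hle
    refine ⟨x, Subgroup.mem_center_iff.mpr fun g => ?_, rfl⟩
    have h1 : x * g * x⁻¹ * g⁻¹ = 1 := hle (Subgroup.mem_top g)
    rw [mul_inv_eq_one, mul_inv_eq_iff_eq_mul] at h1
    exact h1.symm

end Cfsg.Agent.S3962
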