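import Cfsg.Statements.S3963
import Cfsg.Agent.Lib.Schur.Basic

set_option autoImplicit false
open Cfsg

namespace Cfsg.Agent.S3963

/-- For every `n ≥ 1` the dicyclic (generalized quaternion) group of order `4 n` has trivial Schur multiplier. -/
theorem result (n : ℕ) [NeZero n] : Cfsg.HasCyclicSchurMultiplier (QuaternionGroup n) 1 := by
  rw [CfsgLib.Schur.hasCyclic_one_iff_card]
  open CfsgLib.Schur QuaternionGroup in
  have hgen : Subgroup.closure ({a 1, xa 0} : Set (QuaternionGroup n)) = ⊤ := by
    refine eq_top_iff.mpr fun g _ => ?_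
    have ha : ∀ i : ZMod (2 * n), (a i : QuaternionGroup n) ∈ Subgroup.closure ({a 1, xa 0} : Set (QuaternionGroup n)) := fun i => by
      rw [← ZMod.natCast_zmod_val i, ← a_one_pow]; exact pow_mem (Subgroup.subset_closure (by simp)) _
    cases g with
    | a i => exact ha i
    | xa i =>
      have h : (xa 0 * a i : QuaternionGroup n) = xa i := by rw [xa_mul_a, zero_add]
      rw [← h]; exact mul_mem (Subgroup.subset_closure (by simp)) (ha i)
  open QuaternionGroup in
  have h := CfsgLib.Schur.card_mult_dvd_of_inverting (id : QuaternionGroup n → QuaternionGroup n)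
    (CfsgLib.Schur.closure_range_id _) (a 1) (xa 0) hgen
    (by rw [mul_inv_eq_iff_eq_mul, eq_inv_mul_iff_mul_eq, xa_mul_a, a_mul_xa]; congr 1; ring)
    n
    (by rw [a_one_pow, xa_mul_a, a_mul_xa, xa.injEq, zero_add, zero_sub, eq_neg_iff_add_eq_zero, ← Nat.cast_add, ← two_mul, ZMod.natCast_self])
    a_one_pow_n (Or.inr (by rw [a_one_pow, xa_sq]))
  rw [orderOf_inv, orderOf_pow_of_dvd two_ne_zero (by rw [QuaternionGroup.orderOf_a_one]; exact dvd_mul_right 2 n),
    QuaternionGroup.orderOf_a_one, Nat.mul_div_cancel_left _ two_pos, Nat.div_self (NeZero.pos n)] at h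
  exact Nat.eq_one_of_dvd_one h

end Cfsg.Agent.S3963
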