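import Cfsg.Statements.S3964
import Cfsg.Agent.Lib.Schur.Basic

set_option autoImplicit false
open Cfsg

namespace Cfsg.Agent.S3964
open DihedralGroup in
theorem dihedral_bound (n : ℕ) [NeZero n] :
    Nat.card (CfsgLib.Schur.M (DihedralGroup n)) ∣ n / orderOf ((DihedralGroup.r 1 : DihedralGroup n) ^ 2)⁻¹ := by
  have hgen : Subgroup.closure ({r 1, sr 0} : Set (DihedralGroup n)) = ⊤ := by
    refine eq_top_iff.mpr fun g _ => ?_
    have ha : ∀ i : ZMod n, (r i : DihedralGroup n) ∈ Subgroup.closure ({r 1, sr 0} : Set (DihedralGroup n)) := fun i => by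
      rw [← ZMod.natCast_zmod_val i, ← r_one_pow]; exact pow_mem (Subgroup.subset_closure (by simp)) _
    cases g with
    | r i => exact ha i
    | sr i =>
      have h : (sr 0 * r i : DihedralGroup n) = sr i := by rw [sr_mul_r, zero_add]
      rw [← h]; exact mul_mem (Subgroup.subset_closure (by simp)) (ha i)
  exact CfsgLib.Schur.card_mult_dvd_of_inverting (id : DihedralGroup n → DihedralGroup n)
    (CfsgLib.Schur.closure_range_id _) (r 1) (sr 0) hgen
    (by rw [inv_r, inv_sr, sr_mul_r, sr_mul_sr]; simp) n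
    (by rw [r_one_pow_n, one_mul, mul_one]) (by rw [mul_comm, pow_mul, r_one_pow_n, one_pow]) (Or.inl r_one_pow_n)

/-- For odd `n` the dihedral group of order `2 n` has trivial Schur multiplier. -/
theorem result (n : ℕ) (hn : Odd n) : Cfsg.HasCyclicSchurMultiplier (DihedralGroup n) 1 := by
  haveI : NeZero n := ⟨fun h => by subst h; exact absurd hn (by decide)⟩
  rw [CfsgLib.Schur.hasCyclic_one_iff_card]
  have h := dihedral_bound n
  rw [orderOf_inv, orderOf_pow' _ two_ne_zero , DihedralGroup.orderOf_r_one, (Nat.coprime_two_right.mpr hn).gcd_eq_one, Nat.div_one, Nat.div_self hn.pos] at h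
  exact Nat.eq_one_of_dvd_one h

end Cfsg.Agent.S3964
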