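import Cfsg.Statements.S3966
import Cfsg.Agent.Lib.Schur.Core

set_option autoImplicit false
open Cfsg

namespace Cfsg.Agent.S3966
open scoped commutatorElement
open DihedralGroup QuaternionGroup in
theorem exists_stem (n : ℕ) [NeZero n] (hn : Even n) :
    ∃ σ : QuaternionGroup n →* DihedralGroup n, Cfsg.IsStemExtension σ ∧ Nat.card σ.ker = 2 := by
  let c : ZMod (2 * n) →+* ZMod n := ZMod.castHom (Dvd.intro_left 2 rfl) (ZMod n)
  let F : QuaternionGroup n → DihedralGroup n
    | QuaternionGroup.a i => DihedralGroup.r (c i)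
    | QuaternionGroup.xa i => DihedralGroup.sr (c i)
  let σ : QuaternionGroup n →* DihedralGroup n := MonoidHom.mk' F (by
    rintro (i | i) (j | j)
    · show F (QuaternionGroup.a i * QuaternionGroup.a j) = _
      rw [a_mul_a]; simp only [F, r_mul_r, map_add]
    · show F (QuaternionGroup.a i * QuaternionGroup.xa j) = _
      rw [a_mul_xa]; simp only [F, r_mul_sr, map_sub]
    · show F (QuaternionGroup.xa i * QuaternionGroup.a j) = _
      rw [xa_mul_a]; simp only [F, sr_mul_r, map_add]
    · show F (QuaternionGroup.xa i * QuaternionGroup.xa j) = _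
      rw [xa_mul_xa]; simp only [F, sr_mul_sr, map_add, map_sub, map_natCast, ZMod.natCast_self, zero_add])
  have hsurj : Function.Surjective σ := by
    have hc : Function.Surjective c := ZMod.castHom_surjective _
    rintro (i | i) <;> obtain ⟨j, rfl⟩ := hc i
    · exact ⟨QuaternionGroup.a j, rfl⟩
    · exact ⟨QuaternionGroup.xa j, rfl⟩
  have hker : ∀ q, q ∈ σ.ker → ∃ t : ℕ, q = QuaternionGroup.a ((n * t : ℕ) : ZMod (2 * n)) := by
    rintro (i | i) hq
    · have h1 : c i = 0 := DihedralGroup.r.inj hq
      rw [← ZMod.natCast_zmod_val i, map_natCast, ZMod.natCast_eq_zero_iff] at h1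
      obtain ⟨t, ht⟩ := h1
      exact ⟨t, by rw [← ht, ZMod.natCast_zmod_val]⟩
    · exact absurd (show DihedralGroup.sr (c i) = DihedralGroup.r 0 from hq) (by simp only [reduceCtorEq, not_false_eq_true])
  refine ⟨σ, ⟨hsurj, fun q hq => ?_, fun q hq => ?_⟩, ?_⟩
  · obtain ⟨t, rfl⟩ := hker q hq
    refine Subgroup.mem_center_iff.mpr ?_
    rintro (j | j)
    · rw [a_mul_a, a_mul_a, add_comm]
    · rw [xa_mul_a, a_mul_xa, QuaternionGroup.xa.injEq, eq_sub_iff_add_eq, add_assoc, ← Nat.cast_add, add_eq_left,
        ZMod.natCast_eq_zero_iff]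
      exact ⟨t, by ring⟩
  · obtain ⟨t, rfl⟩ := hker q hq
    obtain ⟨m, rfl⟩ := hn
    -- `[xa 0, a i] = a (-2 i)`
    have h1 : ∀ i : ZMod (2 * (m + m)), (QuaternionGroup.a (-(2 * i)) : QuaternionGroup (m + m)) ∈ commutator (QuaternionGroup (m + m)) := by
      intro i
      have e : (QuaternionGroup.xa 0 : QuaternionGroup (m + m)) * QuaternionGroup.a i = QuaternionGroup.a (-(2 * i)) * (QuaternionGroup.a i * QuaternionGroup.xa 0) := by
        rw [xa_mul_a, a_mul_xa, a_mul_xa, QuaternionGroup.xa.injEq]; ring
      rw [← mul_inv_eq_iff_eq_mul, mul_inv_rev, ← mul_assoc] at e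
      rw [← e, ← commutatorElement_def, commutator_def]
      exact Subgroup.commutator_mem_commutator (Subgroup.mem_top _) (Subgroup.mem_top _)
    have h2 := h1 (-((m * t : ℕ) : ZMod (2 * (m + m))))
    convert h2 using 2
    push_cast; ring
  · have hc := σ.ker.card_mul_index
    rw [Subgroup.index_ker, MonoidHom.range_eq_top.mpr hsurj, Subgroup.card_top, DihedralGroup.nat_card,
      Nat.card_eq_fintype_card (α := QuaternionGroup n), QuaternionGroup.card] at hc
    have := NeZero.pos n
    refine Nat.eq_of_mul_eq_mul_right (show 0 < 2 * n by omega) ?_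
    rw [hc]; ring

/-- For even `n ≥ 2` the dicyclic group of order `4 n` is a stem extension of the dihedral group of order `2 n` with kernel of order `2`: there is a surjective homomorphism `QuaternionGroup n →* DihedralGroup n` whose kernel is central, lies in the commutator subgroup and has two elements. Together with the order of the multiplier this exhibits the dicyclic group as a Schur covering group of the dihedral group. -/
theorem result (n : ℕ) [NeZero n] (hn : Even n) : ∃ σ : QuaternionGroup n →* DihedralGroup n, Cfsg.IsStemExtension σ ∧ Nat.card σ.ker = 2 := by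
  exact exists_stem n hn

end Cfsg.Agent.S3966
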