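import Cfsg.Statements.S3965
import Cfsg.Agent.Lib.Schur.Basic
import Cfsg.Agent.Lib.Schur.Heisenberg
import Cfsg.Agent.S3966

set_option autoImplicit false
open Cfsg

namespace Cfsg.Agent.S3965
open DihedralGroup in
theorem dihedral_bound (n : ℕ) [NeZero n] :
    Nat.card (CfsgLib.Schur.M (DihedralGroup n)) ∣ n / orderOf ((DihedralGroup.r 1 : DihedralGroup n) ^ 2)⁻¹ := by
  have hgen : Subgroup.closure ({r 1, sr 0} : Set (DihedralGroup n)) = ⊤ := by
    refine eq_top_iff.mpr fun g _ => ?_
    have ha : ∀ i : ZMod n, (r i : DihedralGroup n) ∈ Subgroup.closure ({r 1, sr 0} : Set (DihedralGroup n)) := fun i => by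
      rw [← ZMod.natCast_zmod_val i, ← r_one_pow]; exact pow_mem (Subgroup.subset_closure (by simp)) _
    cases g with
    | r i => exact ha i
    | sr i =>
      have h : (sr 0 * r i : DihedralGroup n) = sr i := by rw [sr_mul_r, zero_add]
      rw [← h]; exact mul_mem (Subgroup.subset_closure (by simp)) (ha i)
  exact CfsgLib.Schur.card_mult_dvd_of_inverting (id : DihedralGroup n → DihedralGroup n)
    (CfsgLib.Schur.closure_range_id _) (r 1) (sr 0) hgen
    (by rw [inv_r, inv_sr, sr_mul_r, sr_mul_sr]; simp) n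
    (by rw [r_one_pow_n, one_mul, mul_one]) (by rw [mul_comm, pow_mul, r_one_pow_n, one_pow]) (Or.inl r_one_pow_n)

/-- For even `n ≥ 2` the dihedral group of order `2 n` has Schur multiplier cyclic of order `2`. -/
theorem result (n : ℕ) [NeZero n] (hn : Even n) : Cfsg.HasCyclicSchurMultiplier (DihedralGroup n) 2 := by
  obtain ⟨σ, hσ, hcard⟩ := Cfsg.Agent.S3966.exists_stem n hn
  have h2 := CfsgLib.Schur.card_dvd_of_stem hσ
  rw [hcard] at h2
  have h := dihedral_bound n
  rw [orderOf_inv, orderOf_pow' _ two_ne_zero, DihedralGroup.orderOf_r_one, Nat.gcd_eq_right (even_iff_two_dvd.mp hn),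
    Nat.div_div_self (even_iff_two_dvd.mp hn) (NeZero.ne n)] at h
  have hM : Nat.card (CfsgLib.Schur.M (DihedralGroup n)) = 2 := Nat.dvd_antisymm h h2
  haveI : IsCyclic (CfsgLib.Schur.M (DihedralGroup n)) := isCyclic_of_prime_card (p := 2) hM
  refine (CfsgLib.Schur.hasSchurMultiplier_iff).mpr ⟨mulEquivOfCyclicCardEq ?_⟩
  rw [hM, Nat.card_congr Multiplicative.toAdd, Nat.card_zmod]

end Cfsg.Agent.S3965
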