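import Cfsg.Statements.S3968
import Cfsg.Agent.S0910
import Cfsg.Agent.Lib.Chars.Burnside
import Cfsg.Agent.Lib.Chars.Induced
import Cfsg.Agent.Lib.Chars.Misc

set_option autoImplicit false
open Cfsg

namespace Cfsg.Agent.S3968

open CfsgLib.Chars

open scoped ComplexConjugate
universe u

theorem list_sum_apply {G : Type u} [Group G] (l : List (IrrCharacter G)) (g : G) :
    (l.map Subtype.val).sum g = (l.map fun ψ : IrrCharacter G => (ψ : G → ℂ) g).sum := by
  induction l with
  | nil => rfl
  | cons a t ih => rw [List.map_cons, List.sum_cons, Pi.add_apply, ih, List.map_cons, List.sum_cons]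

theorem norm_center {G : Type u} [Group G] [Finite G] (χ : IrrCharacter G) {z : G}
    (hz : z ∈ Subgroup.center G) : (χ : G → ℂ) z ≠ 0 := by
  intro h0
  have h := mul_central χ hz z⁻¹
  rw [mul_inv_cancel, h0, zero_mul] at h
  exact irr_one_ne_zero χ (mul_self_eq_zero.mp h)

theorem cast_deg_sum {G : Type u} [Group G] [Finite G] (l : List (IrrCharacter G)) :
    (l.map Subtype.val).sum 1 = ((l.map fun ψ : IrrCharacter G => charDegree (ψ : G → ℂ)).sum : ℂ) := by
  induction l with
  | nil => simp
  | cons a t ih =>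
    rw [List.map_cons, List.sum_cons, Pi.add_apply, ih, irr_apply_one, List.map_cons, List.sum_cons, Nat.cast_add]

theorem eq_nil_of_deg_sum {G : Type u} [Group G] [Finite G] (l : List (IrrCharacter G))
    (h : (l.map fun ψ : IrrCharacter G => charDegree (ψ : G → ℂ)).sum = 0) : l = [] := by
  cases l with
  | nil => rfl
  | cons a t =>
    have := charDegree_pos a
    simp only [List.map_cons, List.sum_cons] at h
    omega

/-- A faithful character of prime degree `p` of a nonabelian `p`-group does not vanish on the centre. -/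
theorem ne_zero_of_center {P : Type u} [Group P] [Finite P] {p : ℕ} [hp : Fact p.Prime]
    (hP : IsPGroup p P) {φ : P → ℂ} (hφ : IsCharacter P φ) (h1 : φ 1 = p)
    (hf : ∀ g, φ g = φ 1 → g = 1) (hna : ∃ a b : P, a * b ≠ b * a)
    {z : P} (hz : z ∈ Subgroup.center P) : φ z ≠ 0 := by
  obtain ⟨l, rfl⟩ := exists_list_irr hφ
  have hsum : (l.map fun ψ : IrrCharacter P => charDegree (ψ : P → ℂ)).sum = p := by
    have := cast_deg_sum l
    rw [h1] at this
    exact_mod_cast this.symm
  by_cases hall : ∀ ψ ∈ l, charDegree (ψ : P → ℂ) = 1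
  · exfalso
    obtain ⟨a, b, hab⟩ := hna
    have hc : (l.map Subtype.val).sum (a * b * a⁻¹ * b⁻¹) = (l.map Subtype.val).sum 1 := by
      rw [list_sum_apply, list_sum_apply]
      refine congrArg List.sum (List.map_congr_left fun ψ hψ => ?_)
      obtain ⟨f, hff⟩ := IsCharacter.exists_hom (isCharacter_irr ψ)
        (by rw [irr_apply_one, hall ψ hψ, Nat.cast_one])
      rw [congrFun hff, congrFun hff, map_mul, map_mul, map_mul, map_inv, map_inv, map_one]
      congr 1
      rw [mul_comm (f a) (f b), mul_inv_cancel_right, mul_inv_cancel]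
    refine hab ?_
    have h := hf _ hc
    calc a * b = a * b * a⁻¹ * b⁻¹ * (b * a) := by group
      _ = b * a := by rw [h, one_mul]
  · push_neg at hall
    obtain ⟨ψ, hψ, hψ1⟩ := hall
    obtain ⟨k, hk⟩ := IsPGroup.iff_card.mp hP
    obtain ⟨j, -, hj⟩ := (Nat.dvd_prime_pow hp.out).mp (hk ▸ charDegree_dvd ψ)
    have hj0 : j ≠ 0 := by rintro rfl; exact hψ1 (by rw [hj, pow_zero])
    have hge : p ≤ charDegree (ψ : P → ℂ) := hj ▸ Nat.le_self_pow hj0 p
    obtain ⟨l₁, l₂, rfl⟩ := List.append_of_mem hψ
    simp only [List.map_append, List.map_cons, List.sum_append, List.sum_cons] at hsum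
    have e₁ := eq_nil_of_deg_sum l₁ (by omega)
    have e₂ := eq_nil_of_deg_sum l₂ (by omega)
    subst e₁ e₂
    simpa using norm_center ψ hz

/-- Let `p` be a prime and `G` a finite group with a faithful irreducible complex character of degree `p` (so `G` is an irreducible linear group in `p` variables). If `p ^ 2` divides the order of `G`, then the centre of `G` is nontrivial. -/
theorem result {G : Type*} [Group G] [Finite G] (p : ℕ) (hp : p.Prime) (χ : Cfsg.IrrCharacter G) (hdeg : χ.1 1 = p) (hfaith : ∀ g : G, χ.1 g = χ.1 1 → g = 1) (hdiv : p ^ 2 ∣ Nat.card G) : Subgroup.center G ≠ ⊥ := by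
  classical
  haveI := Fintype.ofFinite G
  haveI := Fact.mk hp
  intro hZ
  obtain ⟨P⟩ : Nonempty (Sylow p G) := inferInstance
  have hdeg' : charDegree (χ : G → ℂ) = p := by
    have h := hdeg; rw [irr_apply_one] at h; exact_mod_cast h
  have hvan : ∀ z : (P : Subgroup G), z ∈ Subgroup.center (P : Subgroup G) → z ≠ 1 →
      (χ : G → ℂ) z = 0 := by
    intro z hz hz1
    have hidx : ¬ p ∣ (Subgroup.centralizer ({(z : G)} : Set G)).index := fun h =>
      P.not_dvd_index (h.trans (Subgroup.index_dvd_of_le fun x hx =>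
        Subgroup.mem_centralizer_singleton_iff.mpr
          (congrArg Subtype.val (Subgroup.mem_center_iff.mp hz ⟨x, hx⟩))))
    refine (burnside_vanish χ (z : G) (hdeg' ▸ ((hp.coprime_iff_not_dvd).mpr hidx).symm)).resolve_right
      fun hn => hz1 (Subtype.ext ?_)
    have := Cfsg.Agent.S0910.mem_center_of_norm χ hfaith hn
    rw [hZ] at this
    simpa using this
  have hφ : IsCharacter (P : Subgroup G) (fun x => (χ : G → ℂ) x) :=
    IsCharacter.comp (isCharacter_irr χ) (P : Subgroup G).subtype
  have hψ : IsCharacter (Subgroup.center (P : Subgroup G))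
      (fun x => (χ : G → ℂ) (x : (P : Subgroup G))) :=
    IsCharacter.comp hφ (Subgroup.center (P : Subgroup G)).subtype
  let one : IrrCharacter (Subgroup.center (P : Subgroup G)) := ⟨_, isIrrCharacter_one _⟩
  haveI := Fintype.ofFinite (Subgroup.center (P : Subgroup G))
  obtain ⟨m, hm⟩ := exists_mult hψ one
  have hcard : Nat.card (Subgroup.center (P : Subgroup G)) ∣ p := by
    simp only [classInner, one, map_one, mul_one] at hm
    rw [Finset.sum_eq_single (1 : Subgroup.center (P : Subgroup G))
      (fun b _ hb => hvan b b.2 fun h => hb (Subtype.ext h))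
      (fun h => absurd (Finset.mem_univ _) h)] at hm
    refine ⟨m, ?_⟩
    have hC := natCast_card_ne_zero (Subgroup.center (P : Subgroup G))
    have h1 : (χ : G → ℂ) ((1 : Subgroup.center (P : Subgroup G)) : (P : Subgroup G)) = p := by
      simpa using hdeg
    rw [h1, inv_mul_eq_iff_eq_mul₀ hC] at hm
    exact_mod_cast hm
  have hP2 : p ^ 2 ∣ Nat.card (P : Subgroup G) := P.pow_dvd_card_of_pow_dvd_card hdiv
  have hna : ∃ a b : (P : Subgroup G), a * b ≠ b * a := by
    by_contra h
    push_neg at h
    have ht : Subgroup.center (P : Subgroup G) = ⊤ :=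
      eq_top_iff.mpr fun x _ => Subgroup.mem_center_iff.mpr fun g => h g x
    rw [ht, Subgroup.card_top] at hcard
    have := Nat.le_of_dvd hp.pos (hP2.trans hcard)
    nlinarith [hp.two_le]
  haveI : Nontrivial (P : Subgroup G) := by
    obtain ⟨a, b, hab⟩ := hna
    exact ⟨a, 1, fun h => hab (by rw [h, one_mul, mul_one])⟩
  haveI := P.isPGroup'.center_nontrivial
  obtain ⟨⟨z, hz⟩, hz1⟩ := exists_ne (1 : Subgroup.center (P : Subgroup G))
  refine ne_zero_of_center P.isPGroup' hφ (by simpa using hdeg)
    (fun g hg => Subtype.ext (by simpa using hfaith g (by simpa using hg))) hna hz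
    (hvan z hz fun h => hz1 (Subtype.ext h))

end Cfsg.Agent.S3968
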