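import Cfsg.Statements.S3969
import Cfsg.Agent.S0083
import Cfsg.Agent.S0012
import Cfsg.Agent.Lib.GroupB.AutPGroup
import Mathlib.GroupTheory.Schreier
import Mathlib.GroupTheory.SchurZassenhaus
import Mathlib.Tactic

set_option autoImplicit false
open Cfsg

namespace Cfsg.Agent.S3969

/-- Let `P` be an abelian Sylow `p`-subgroup of the finite group `G`, generated by `d` elements (`d` its minimal number of generators). If the order of `G` is coprime to `(p - 1)(p ^ 2 - 1) ⋯ (p ^ d - 1)`, then `G` has a normal `p`-complement. (The classical statement needs only the largest number of cyclic factors of `P` of equal order in place of `d`; the form here follows from it.) -/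
theorem result {G : Type*} [Group G] [Finite G] (p : ℕ) [Fact p.Prime] (P : Sylow p G) (hab : IsMulCommutative (P : Subgroup G)) (hcop : Nat.Coprime (Nat.card G) (∏ i ∈ Finset.Icc 1 (Group.rank (P : Subgroup G)), (p ^ i - 1))) : Cfsg.HasNormalPComplement p G := by
  classical
  have hp : p.Prime := Fact.out
  refine (Cfsg.Agent.S0083.result P hab).mpr ?_
  have hPC : (P : Subgroup G) ≤ Subgroup.centralizer ((P : Subgroup G) : Set G) := fun x hx y hy =>
    congrArg Subtype.val (hab.is_comm.comm (⟨y, hy⟩ : ↥(P : Subgroup G)) ⟨x, hx⟩)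
  set NP := Subgroup.normalizer ((P : Subgroup G) : Set G) with hNP
  set ρ := (P : Subgroup G).normalizerMonoidHom with hρ
  have htriv : NP ≤ Subgroup.centralizer ((P : Subgroup G) : Set G) := by
    intro g hg
    have hk : ρ ⟨g, hg⟩ = 1 := by
      set e := ρ ⟨g, hg⟩
      have h1 : orderOf e ∣ Nat.card G := (orderOf_map_dvd ρ _).trans
        ((orderOf_dvd_natCard _).trans (Subgroup.card_subgroup_dvd_card NP))
      have h2 : (orderOf e).Coprime p := by
        have h3 : orderOf e ∣ (P : Subgroup G).relIndex NP := by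
          have hle : ((P : Subgroup G).subgroupOf NP) ≤ ρ.ker := by
            intro x hx
            refine MonoidHom.mem_ker.mpr (MulEquiv.ext fun y => Subtype.ext ?_)
            show ((ρ x y : ↥(P : Subgroup G)) : G) = (y : G)
            simp only [hρ, Subgroup.normalizerMonoidHom_apply_apply_coe]
            have hxP : (x : G) ∈ (P : Subgroup G) := hx
            rw [← (hPC hxP (y : G) y.2), mul_inv_cancel_right]
          refine dvd_trans ?_ (Subgroup.index_dvd_of_le hle)
          rw [Subgroup.index_ker]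
          exact Subgroup.orderOf_dvd_natCard _ ⟨_, rfl⟩
        have h4 : ¬ p ∣ (P : Subgroup G).relIndex NP := fun hd => P.not_dvd_index
          (hd.trans ⟨_, (Subgroup.relIndex_mul_index Subgroup.le_normalizer).symm⟩)
        exact ((hp.coprime_iff_not_dvd.mpr h4).symm).coprime_dvd_left h3
      obtain ⟨r, hr⟩ : ∃ r, (frattini ↥(P : Subgroup G)).index = p ^ r := by
        obtain ⟨r, hr⟩ := P.isPGroup'.index (frattini ↥(P : Subgroup G))
        exact ⟨r, hr⟩
      have hrd : r ≤ Group.rank ↥(P : Subgroup G) := by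
        obtain ⟨hcm, hpow⟩ := Cfsg.Agent.S0012.result p P.isPGroup'
        haveI : IsMulCommutative (↥(P : Subgroup G) ⧸ frattini ↥(P : Subgroup G)) := ⟨⟨fun a b => by
          obtain ⟨a, rfl⟩ := QuotientGroup.mk_surjective a
          obtain ⟨b, rfl⟩ := QuotientGroup.mk_surjective b
          rw [← QuotientGroup.mk_mul, ← QuotientGroup.mk_mul, hab.is_comm.comm a b]⟩⟩
        letI : CommGroup (↥(P : Subgroup G) ⧸ frattini ↥(P : Subgroup G)) :=
          { (inferInstance : Group (↥(P : Subgroup G) ⧸ frattini ↥(P : Subgroup G))) with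
            mul_comm := fun a b => IsMulCommutative.is_comm.comm a b }
        haveI : Group.FG (↥(P : Subgroup G) ⧸ frattini ↥(P : Subgroup G)) := Group.fg_of_finite
        have h5 := card_dvd_exponent_pow_rank' (↥(P : Subgroup G) ⧸ frattini ↥(P : Subgroup G)) (n := p) fun q => by
          obtain ⟨q, rfl⟩ := QuotientGroup.mk_surjective q
          rw [← QuotientGroup.mk_pow, QuotientGroup.eq_one_iff]
          exact hpow q
        rw [← Subgroup.index_eq_card, hr] at h5
        exact ((Nat.pow_dvd_pow_iff_le_right hp.one_lt).mp h5).trans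
          (Group.rank_le_of_surjective (QuotientGroup.mk' _) (QuotientGroup.mk'_surjective _))
      obtain ⟨-, hdvd⟩ := CfsgLib.GroupB.AutPGroup.card_aut_dvd P.isPGroup' hr
      refine orderOf_eq_one_iff.mp (Nat.Coprime.eq_one_of_dvd ?_ ((orderOf_dvd_natCard e).trans hdvd))
      obtain ⟨s, hs⟩ := (P.isPGroup'.to_subgroup (frattini ↥(P : Subgroup G))).exists_card_eq
      refine Nat.Coprime.mul_right (by rw [hs, ← pow_mul]; exact h2.pow_right _) ?_
      refine Nat.Coprime.prod_right fun i hi => ?_
      rw [Finset.mem_range] at hi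
      rw [show p ^ r - p ^ i = p ^ i * (p ^ (r - i) - 1) by
        rw [Nat.mul_sub, mul_one, ← pow_add, Nat.add_sub_cancel' hi.le]]
      refine Nat.Coprime.mul_right (h2.pow_right _) ?_
      exact (hcop.coprime_dvd_left h1).coprime_dvd_right
        (Finset.dvd_prod_of_mem (fun j => p ^ j - 1) (show r - i ∈ Finset.Icc 1 (Group.rank ↥(P : Subgroup G)) from
          Finset.mem_Icc.mpr ⟨by omega, by omega⟩))
    refine Subgroup.mem_centralizer_iff.mpr fun y hy => ?_
    have := congrArg (fun f : MulAut ↥(P : Subgroup G) => (f ⟨y, hy⟩ : G)) hk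
    simp only [hρ, Subgroup.normalizerMonoidHom_apply_apply_coe, MulAut.one_apply] at this
    rw [mul_inv_eq_iff_eq_mul] at this
    exact this.symm
  -- split the normaliser by Schur–Zassenhaus
  have hcopN : (Nat.card ↥((P : Subgroup G).subgroupOf NP)).Coprime ((P : Subgroup G).subgroupOf NP).index := by
    obtain ⟨k, hk⟩ := P.isPGroup'.exists_card_eq
    rw [Nat.card_congr (Subgroup.subgroupOfEquivOfLe Subgroup.le_normalizer).toEquiv, hk]
    refine (hp.coprime_iff_not_dvd.mpr fun hd => P.not_dvd_index (hd.trans ?_)).pow_left k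
    exact ⟨_, (Subgroup.relIndex_mul_index Subgroup.le_normalizer).symm⟩
  haveI : ((P : Subgroup G).subgroupOf NP).Normal := Subgroup.normal_in_normalizer
  obtain ⟨Q, hQ⟩ := Subgroup.exists_left_complement'_of_coprime hcopN
  refine ⟨Q.map NP.subtype, (Subgroup.map_subtype_le Q).trans htriv, ?_, ?_⟩
  · rw [eq_bot_iff]
    rintro _ ⟨⟨q, hq, rfl⟩, hqP⟩
    have h6 : q ∈ Q ⊓ (P : Subgroup G).subgroupOf NP := ⟨hq, hqP⟩
    rw [disjoint_iff.mp hQ.disjoint, Subgroup.mem_bot] at h6
    rw [h6]; simp
  · have h7 := congrArg (Subgroup.map NP.subtype) hQ.sup_eq_top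
    rw [Subgroup.map_sup, Subgroup.map_subgroupOf_eq_of_le Subgroup.le_normalizer, ← MonoidHom.range_eq_map,
      Subgroup.range_subtype] at h7
    exact h7

end Cfsg.Agent.S3969
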