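import Cfsg.Agent.Lib.FocalTransfer
import Cfsg.Agent.Lib.GroupB.AutPGroup
import Cfsg.Agent.S0012
import Mathlib.GroupTheory.Schreier
import Mathlib.Tactic
-- import your own Cfsg.Agent.* helpers here

set_option autoImplicit false
open Cfsg

namespace Cfsg.Agent.S3970

lemma frattini_index_le_two {P : Type*} [Group P] [Finite P] {p : ℕ} [Fact p.Prime] (hP : IsPGroup p P)
    (hr : Group.rank P ≤ 2) : ∃ r, r ≤ 2 ∧ (frattini P).index = p ^ r := by
  obtain ⟨hcomm, hpow⟩ := Cfsg.Agent.S0012.result p hP
  haveI : (frattini P).Normal := inferInstance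
  haveI : IsMulCommutative (P ⧸ frattini P) :=
    Subgroup.Normal.quotient_commutative_iff_commutator_le.mpr hcomm
  letI : CommGroup (P ⧸ frattini P) := IsMulCommutative.instCommGroup
  have hd := card_dvd_exponent_pow_rank' (G := P ⧸ frattini P) (n := p) (fun g => by
    obtain ⟨x, rfl⟩ := QuotientGroup.mk'_surjective (frattini P) g
    rw [← map_pow]
    exact (QuotientGroup.eq_one_iff _).mpr (hpow x))
  have hle : Group.rank (P ⧸ frattini P) ≤ 2 :=
    (Group.rank_le_of_surjective (QuotientGroup.mk' (frattini P)) (QuotientGroup.mk'_surjective _)).trans hr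
  obtain ⟨r, hr2, hrc⟩ := (Nat.dvd_prime_pow (Fact.out : p.Prime)).mp
    (hd.trans (pow_dvd_pow p hle))
  exact ⟨r, hr2, by rw [Subgroup.index_eq_card]; exact hrc⟩

universe u

lemma aux (n : ℕ) : ∀ (G : Type u) [Group G] [Finite G], Nat.card G = n →
    (∀ p : ℕ, p.Prime → p ∣ Nat.card G → (∃ q : ℕ, q.Prime ∧ q ∣ Nat.card G ∧ p < q) →
      ∀ P : Sylow p G, IsMulCommutative (P : Subgroup G) ∧ Group.rank (P : Subgroup G) ≤ 2) →
    ¬ 12 ∣ Nat.card G → Group.IsSolvable G := by
  induction n using Nat.strong_induction_on with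
  | _ n ih =>
    intro G _ _ hn h h12
    classical
    rcases eq_or_ne (Nat.card G) 1 with h1 | h1
    · haveI := (Nat.card_eq_one_iff_unique.mp h1).1
      infer_instance
    set p := (Nat.card G).minFac with hp_def
    have hp : p.Prime := Nat.minFac_prime h1
    haveI := Fact.mk hp
    have hpG : p ∣ Nat.card G := Nat.minFac_dvd _
    obtain ⟨P⟩ : Nonempty (Sylow p G) := inferInstance
    by_cases hlarge : ∃ q : ℕ, q.Prime ∧ q ∣ Nat.card G ∧ p < q
    swap
    · -- only one prime
      have hG : IsPGroup p G := by
        obtain ⟨a, ha⟩ : ∃ a, Nat.card G = p ^ a := by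
          refine ⟨(Nat.card G).primeFactorsList.length, Nat.eq_prime_pow_of_unique_prime_dvd Nat.card_pos.ne' ?_⟩
          intro q hq hqd
          by_contra hne
          exact hlarge ⟨q, hq, hqd, lt_of_le_of_ne (Nat.minFac_le_of_dvd hq.two_le hqd) (Ne.symm hne)⟩
        exact IsPGroup.of_card ha
      haveI := hG.isNilpotent
      infer_instance
    obtain ⟨hcomm, hrank⟩ := h p hp hpG hlarge P
    set T := (P : Subgroup G) with hT
    have hle : Subgroup.normalizer (T : Set G) ≤ Subgroup.centralizer (T : Set G) := by
      by_contra hcon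
      obtain ⟨r, hr2, hri⟩ := frattini_index_le_two P.isPGroup' hrank
      let f : ↥(Subgroup.normalizer (T : Set G)) →* MulAut ↥T := T.normalizerMonoidHom
      have hTC : T ≤ Subgroup.centralizer (T : Set G) := P.le_centralizer
      have hcop : ¬ p ∣ Nat.card f.range := by
        intro hd
        rw [← Subgroup.index_ker, Subgroup.normalizerMonoidHom_ker] at hd
        exact P.not_dvd_index (hd.trans ((Subgroup.relIndex_dvd_of_le_left _ hTC).trans
          (Subgroup.relIndex_dvd_index_of_le Subgroup.le_normalizer)))
      have hne : Nat.card f.range ≠ 1 := by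
        intro e
        apply hcon
        rw [← Subgroup.index_ker, Subgroup.normalizerMonoidHom_ker, ← Subgroup.relIndex, Subgroup.relIndex_eq_one] at e
        exact e
      obtain ⟨q, hq, hqd⟩ := Nat.exists_prime_and_dvd hne
      have hqp : q ≠ p := fun e => hcop (e ▸ hqd)
      have hqG : q ∣ Nat.card G :=
        hqd.trans ((Subgroup.card_range_dvd f).trans (Subgroup.card_subgroup_dvd_card _))
      have hgt : p < q := lt_of_le_of_ne (Nat.minFac_le_of_dvd hq.two_le hqG) (Ne.symm hqp)
      have hqA := hqd.trans ((Subgroup.card_subgroup_dvd_card f.range).trans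
        (CfsgLib.GroupB.AutPGroup.card_aut_dvd P.isPGroup' hri).2)
      obtain ⟨s, hs⟩ := (P.isPGroup'.to_subgroup (frattini ↥T)).exists_card_eq
      have hnp : ¬ q ∣ p := fun e => hqp ((Nat.prime_dvd_prime_iff_eq hq hp).mp e)
      rcases hq.dvd_mul.mp hqA with hA | hA
      · rw [hs, ← pow_mul] at hA
        exact hnp (hq.dvd_of_dvd_pow hA)
      have hp2 := hp.two_le
      have hsmall : ¬ q ∣ p - 1 := fun e => by
        have := Nat.le_of_dvd (by omega) e; omega
      have e1 : p ^ 2 - p ^ 0 = (p + 1) * (p - 1) := by
        rw [pow_zero]; simpa using Nat.sq_sub_sq p 1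
      have e2 : p ^ 2 - p ^ 1 = p * (p - 1) := by rw [pow_one, pow_two, Nat.mul_sub_one]
      have hr : q ∣ p + 1 ∧ r = 2 := by
        interval_cases r
        · simp [hq.ne_one] at hA
        · simp at hA; exact absurd hA hsmall
        · rw [Finset.prod_range_succ, Finset.prod_range_one, e1, e2] at hA
          rcases hq.dvd_mul.mp hA with hA | hA
          · exact ⟨(hq.dvd_mul.mp hA).resolve_right hsmall, rfl⟩
          · exact absurd ((hq.dvd_mul.mp hA).resolve_left hnp) hsmall
      obtain ⟨hq1, rfl⟩ := hr
      have hqe : q = p + 1 := by have := Nat.le_of_dvd (by omega) hq1; omega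
      have hp22 : p = 2 := by
        rcases hp.eq_two_or_odd with e | e
        · exact e
        · exfalso
          have : q = 2 := ((hq.eq_one_or_self_of_dvd 2 (by omega)).resolve_left (by norm_num)).symm
          omega
      apply h12
      have h4 : p ^ 2 ∣ Nat.card G := by
        rw [← hri]
        exact (Subgroup.index_dvd_card _).trans (Subgroup.card_subgroup_dvd_card T)
      rw [hqe, hp22] at hqG
      rw [hp22] at h4
      exact Nat.Coprime.mul_dvd_of_dvd_of_dvd (by norm_num : Nat.Coprime 4 3) h4 hqG
    let φ := MonoidHom.transferSylow P hle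
    set N := φ.ker with hN
    have hc : N.IsComplement' T := MonoidHom.ker_transferSylow_isComplement' P hle
    have hcm : Nat.card N * Nat.card T = Nat.card G := hc.card_mul
    have hT1 : 1 < Nat.card T := by
      rw [Subgroup.one_lt_card_iff_ne_bot]
      exact P.ne_bot_of_dvd_card hpG
    have hNlt : Nat.card N < n := by
      rw [← hn, ← hcm]
      exact lt_mul_of_one_lt_right Nat.card_pos hT1
    haveI : Group.IsSolvable ↥N := by
      refine ih _ hNlt ↥N rfl ?_ (fun e => h12 (e.trans (Subgroup.card_subgroup_dvd_card _)))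
      intro r hr hrN hbig Q
      haveI := Fact.mk hr
      obtain ⟨t, ht, htN, hrt⟩ := hbig
      have hrG := hrN.trans (Subgroup.card_subgroup_dvd_card N)
      have hNp : ¬ p ∣ Nat.card N := by
        have hidx : T.index = Nat.card N := hc.index_eq_card
        rw [← hidx]; exact P.not_dvd_index
      have hrp : r ≠ p := fun e => hNp (e ▸ hrN)
      obtain ⟨a, ha⟩ := P.isPGroup'.exists_card_eq
      have hfac : (Nat.card G).factorization r = (Nat.card N).factorization r := by
        rw [← hcm, Nat.factorization_mul Nat.card_pos.ne' Nat.card_pos.ne', ha, hp.factorization_pow]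
        simp [hrp]
      have hQ : Nat.card ↥((Q : Subgroup ↥N).map N.subtype) = r ^ (Nat.card G).factorization r := by
        rw [Subgroup.card_map_of_injective N.subtype_injective, Q.card_eq_multiplicity, hfac]
      obtain ⟨hc', hr'⟩ := h r hr hrG ⟨t, ht, htN.trans (Subgroup.card_subgroup_dvd_card N), hrt⟩
        (Sylow.ofCard _ hQ)
      rw [Sylow.coe_ofCard] at hc' hr'
      let e := (Q : Subgroup ↥N).equivMapOfInjective N.subtype N.subtype_injective
      refine ⟨⟨⟨fun x y => e.injective (by rw [map_mul, map_mul]; exact hc'.is_comm.comm _ _)⟩⟩, ?_⟩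
      rw [Group.rank_congr e]
      exact hr'
    haveI : Group.IsNilpotent ↥T := P.isPGroup'.isNilpotent
    haveI : Group.IsSolvable ↥T := inferInstance
    exact Group.isSolvable_of_ker_le_range N.subtype φ (by rw [Subgroup.range_subtype])


/-- Let `G` be a finite group such that for every prime `p` dividing its order, other than the largest such prime, the Sylow `p`-subgroups are abelian and generated by at most two elements, and suppose `12` does not divide the order of `G`. Then `G` is solvable. In particular a group of cube-free order not divisible by `12` is solvable. -/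
theorem result {G : Type*} [Group G] [Finite G] (h : ∀ p : ℕ, p.Prime → p ∣ Nat.card G → (∃ q : ℕ, q.Prime ∧ q ∣ Nat.card G ∧ p < q) → ∀ P : Sylow p G, IsMulCommutative (P : Subgroup G) ∧ Group.rank (P : Subgroup G) ≤ 2) (h12 : ¬ 12 ∣ Nat.card G) : Group.IsSolvable G := by
  exact aux (Nat.card G) G rfl h h12

end Cfsg.Agent.S3970
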