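import Cfsg.Statements.S3971
import Cfsg.Agent.Lib.GroupB.AutPGroup
import Cfsg.Agent.Lib.FrobeniusCrit
import Cfsg.Agent.Lib.Thompson.PClosed
import Cfsg.Agent.Lib.ExtraIso

set_option autoImplicit false
open Cfsg

namespace Cfsg.Agent.S3971
/-- An element of order prime to 6 normalising a 2-group generated by two elements centralises it. -/
theorem centralize_of_two_gen {G : Type*} [Group G] [Finite G] (X : Subgroup G) (hX : IsPGroup 2 X) (u v : G) (hu : u ∈ X)
    (hv : v ∈ X) (hgen : Subgroup.closure ({u, v} : Set G) = X) (g : G) (hg : g ∈ Subgroup.normalizer (X : Set G))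
    (h6 : (orderOf g).Coprime 6) : g ∈ Subgroup.centralizer (X : Set G) := by
  classical
  haveI : Fact (Nat.Prime 2) := ⟨Nat.prime_two⟩
  set u' : X := ⟨u, hu⟩
  set v' : X := ⟨v, hv⟩
  have htop : Subgroup.closure ({u', v'} : Set X) = ⊤ := by
    apply Subgroup.map_injective X.subtype_injective
    rw [MonoidHom.map_closure, ← MonoidHom.range_eq_map, Subgroup.range_subtype, Set.image_pair]
    exact hgen
  have hsq : ∀ x : X, x ^ 2 ∈ frattini X := by
    intro x
    rw [frattini, Order.radical]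
    simp only [Subgroup.mem_iInf]
    intro M hM
    obtain ⟨hn, hi⟩ := CfsgLib.ExtraIso.index_coatom hX hM
    exact hi ▸ Subgroup.pow_index_mem M x
  obtain ⟨r, hr⟩ := hX.index (frattini X)
  have hr2 : r ≤ 2 := by
    set Q := X ⧸ frattini X
    have hQsq : ∀ q : Q, q ^ 2 = 1 := fun q => by
      obtain ⟨x, rfl⟩ := QuotientGroup.mk'_surjective (frattini X) q
      rw [← map_pow, ← MonoidHom.mem_ker, QuotientGroup.ker_mk']
      exact hsq x
    have hQcomm : ∀ a b : Q, a * b = b * a := fun a b => by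
      have h := hQsq (a * b)
      have ha := hQsq a
      have hb := hQsq b
      rw [pow_two] at h ha hb
      rw [← inv_eq_of_mul_eq_one_right h, mul_inv_rev, inv_eq_of_mul_eq_one_right ha, inv_eq_of_mul_eq_one_right hb]
    let q₁ : Q := QuotientGroup.mk' _ u'
    let q₂ : Q := QuotientGroup.mk' _ v'
    haveI : (Subgroup.zpowers q₁).Normal := ⟨fun a ha b => by rwa [hQcomm b a, mul_inv_cancel_right]⟩
    have hsup : Subgroup.zpowers q₁ ⊔ Subgroup.zpowers q₂ = ⊤ := by
      rw [Subgroup.zpowers_eq_closure, Subgroup.zpowers_eq_closure, ← Subgroup.closure_union, Set.singleton_union,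
        ← Set.image_pair, ← MonoidHom.map_closure, htop, ← MonoidHom.range_eq_map,
        MonoidHom.range_eq_top_of_surjective _ (QuotientGroup.mk'_surjective _)]
    have hsurj : Function.Surjective (fun z : Subgroup.zpowers q₁ × Subgroup.zpowers q₂ => (z.1 : Q) * z.2) := by
      intro q
      have hq : q ∈ (↑(Subgroup.zpowers q₁ ⊔ Subgroup.zpowers q₂) : Set Q) := by rw [hsup]; trivial
      rw [Subgroup.normal_mul] at hq
      obtain ⟨a, ha, b, hb, rfl⟩ := hq
      exact ⟨(⟨a, ha⟩, ⟨b, hb⟩), rfl⟩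
    have hle := Nat.card_le_card_of_surjective _ hsurj
    rw [Nat.card_prod, Nat.card_zpowers, Nat.card_zpowers, ← Subgroup.index_eq_card, hr] at hle
    have h1 := Nat.le_of_dvd two_pos (orderOf_dvd_of_pow_eq_one (hQsq q₁))
    have h2 := Nat.le_of_dvd two_pos (orderOf_dvd_of_pow_eq_one (hQsq q₂))
    by_contra h3
    have h4 : 2 ^ 3 ≤ 2 ^ r := Nat.pow_le_pow_right two_pos (by omega)
    have h5 := Nat.mul_le_mul h1 h2
    omega
  let φ : Subgroup.normalizer (X : Set G) →* MulAut X := Subgroup.normalizerMonoidHom X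
  have hdvd : orderOf (φ ⟨g, hg⟩) ∣ orderOf g := by
    rw [← Subgroup.orderOf_mk g hg]; exact orderOf_map_dvd φ _
  obtain ⟨n, hn⟩ := IsPGroup.iff_card.mp (hX.to_subgroup (frattini X))
  have h2 := (orderOf_dvd_natCard (φ ⟨g, hg⟩)).trans (CfsgLib.GroupB.AutPGroup.card_aut_dvd hX hr).2
  rw [hn] at h2
  have h3 : orderOf (φ ⟨g, hg⟩) ∣ 6 ^ (n * r + 1) := by
    refine h2.trans ?_
    rw [pow_succ, ← pow_mul]
    refine Nat.mul_dvd_mul (pow_dvd_pow_of_dvd (by norm_num) _) ?_
    interval_cases r <;> simp [Finset.prod_range_succ]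
  have h1 := orderOf_eq_one_iff.mp (Nat.eq_one_of_dvd_coprimes (h6.pow_right (n * r + 1)) hdvd h3)
  rw [Subgroup.mem_centralizer_iff]
  intro x hx
  have h4 := congrArg Subtype.val (DFunLike.congr_fun h1 (⟨x, hx⟩ : X))
  have h5 : g * x * g⁻¹ = x := h4
  exact (mul_inv_eq_iff_eq_mul.mp h5).symm


/-- Let `G` be a finite group of order `2 ^ a * n` with `n` odd and not divisible by `3`, and suppose `G` has an element of order `2 ^ (a - 1)` (so a Sylow `2`-subgroup has a cyclic subgroup of index at most `2`). Then `G` has a normal subgroup of order `n`. -/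
theorem result {G : Type*} [Group G] [Finite G] (a n : ℕ) (hG : Nat.card G = 2 ^ a * n) (hn : Odd n) (h3 : ¬ 3 ∣ n) (hx : ∃ x : G, orderOf x = 2 ^ (a - 1)) : ∃ N : Subgroup G, N.Normal ∧ Nat.card N = n := by
  classical
  haveI : Fact (Nat.Prime 2) := ⟨Nat.prime_two⟩
  obtain ⟨x, hx⟩ := hx
  have hn0 : n ≠ 0 := by rintro rfl; exact Nat.not_odd_zero hn
  have hfac : (Nat.card G).factorization 2 = a := by
    rw [hG, Nat.factorization_mul (by positivity) hn0, Nat.Prime.factorization_pow Nat.prime_two, Finsupp.add_apply,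
      Finsupp.single_eq_same, Nat.factorization_eq_zero_of_not_dvd (fun h => Nat.not_even_iff_odd.mpr hn (even_iff_two_dvd.mpr h)), add_zero]
  have key : CfsgLib.ThompsonNPC.PCOn 2 (⊤ : Subgroup G) := by
    refine CfsgLib.FrobeniusCrit.pcOn_top _ G le_rfl fun X hX g hg hgc => ?_
    obtain ⟨S₀, hS₀⟩ := (IsPGroup.of_card (n := a - 1) (G := Subgroup.zpowers x) (by rw [Nat.card_zpowers, hx])).exists_le_sylow
    obtain ⟨S, hS⟩ := hX.exists_le_sylow
    obtain ⟨c, hc⟩ := MulAction.exists_smul_eq G S₀ S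
    set C := Subgroup.zpowers (c * x * c⁻¹) with hC
    have hCS : C ≤ (S : Subgroup G) := Subgroup.zpowers_le.mpr (hc ▸ ⟨x, hS₀ (Subgroup.mem_zpowers x), rfl⟩)
    have hrel : C.relIndex (S : Subgroup G) ≤ 2 := by
      have h := Subgroup.relIndex_mul_index hCS
      have e1 := C.card_mul_index
      have e2 := (S : Subgroup G).card_mul_index
      have e3 : Nat.card C = 2 ^ (a - 1) := by
        rw [hC, Nat.card_zpowers, ← hx]; exact (MulAut.conj c).orderOf_eq x
      rw [S.card_eq_multiplicity, hfac, ← e1, ← h, e3] at e2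
      have hi : 0 < (S : Subgroup G).index := Nat.pos_of_ne_zero Subgroup.index_ne_zero_of_finite
      have e4 : 2 ^ a = 2 ^ (a - 1) * C.relIndex (S : Subgroup G) :=
        Nat.eq_of_mul_eq_mul_right hi (by rw [e2]; ring)
      rcases a with _ | a
      · simp at e4; omega
      · rw [Nat.add_sub_cancel, pow_succ] at e4
        exact (Nat.eq_of_mul_eq_mul_left (Nat.two_pow_pos a) e4).ge
    haveI : IsCyclic ↥(X ⊓ C) := Subgroup.isCyclic_of_le (H' := C) inf_le_right
    obtain ⟨⟨u, hu⟩, hugen⟩ := IsCyclic.exists_generator (α := ↥(X ⊓ C))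
    have hzu : X ⊓ C ≤ Subgroup.zpowers u := fun z hz => by
      obtain ⟨i, hi⟩ := Subgroup.mem_zpowers_iff.mp (hugen ⟨z, hz⟩)
      exact Subgroup.mem_zpowers_iff.mpr ⟨i, congrArg Subtype.val hi⟩
    have hXi : (X ⊓ C).relIndex X ≤ 2 := by
      rw [Subgroup.inf_relIndex_left]
      exact (Subgroup.relIndex_le_of_le_right hS Subgroup.index_ne_zero_of_finite).trans hrel
    obtain ⟨v, hv, hvgen⟩ : ∃ v ∈ X, X ≤ Subgroup.closure ({u, v} : Set G) := by
      by_cases hle : X ≤ C
      · exact ⟨u, hu.1, fun z hz => by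
          have hz' := hzu ⟨hz, hle hz⟩
          rw [Subgroup.zpowers_eq_closure] at hz'
          exact Subgroup.closure_mono (Set.singleton_subset_iff.mpr (Set.mem_insert u _)) hz'⟩
      · obtain ⟨v, hv, hvC⟩ := SetLike.not_le_iff_exists.mp hle
        have hi2 : ((X ⊓ C).subgroupOf X).index = 2 := by
          refine le_antisymm hXi ?_
          by_contra hlt
          have : ((X ⊓ C).subgroupOf X).index = 1 := by
            have := Subgroup.index_ne_zero_of_finite (H := (X ⊓ C).subgroupOf X); omega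
          exact hle fun z hz => ((Subgroup.subgroupOf_eq_top.mp (Subgroup.index_eq_one.mp this)) hz).2
        refine ⟨v, hv, fun z hz => ?_⟩
        have hcl : X ⊓ C ≤ Subgroup.closure ({u, v} : Set G) := fun w hw => by
          have hw' := hzu hw
          rw [Subgroup.zpowers_eq_closure] at hw'
          exact Subgroup.closure_mono (Set.singleton_subset_iff.mpr (Set.mem_insert u _)) hw'
        by_cases hzC : z ∈ C
        · exact hcl ⟨hz, hzC⟩
        · have h := (Subgroup.mul_mem_iff_of_index_two hi2 (a := ⟨z, hz⟩) (b := ⟨v, hv⟩)).mpr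
            ⟨fun h' => absurd h'.2 hzC, fun h' => absurd h'.2 hvC⟩
          have hvm : v ∈ Subgroup.closure ({u, v} : Set G) := Subgroup.subset_closure (Set.mem_insert_of_mem u rfl)
          exact (Subgroup.mul_mem_cancel_right _ hvm).mp (hcl h)
    have hgen : Subgroup.closure ({u, v} : Set G) = X :=
      le_antisymm ((Subgroup.closure_le _).mpr (Set.insert_subset hu.1 (Set.singleton_subset_iff.mpr hv))) hvgen
    refine centralize_of_two_gen X hX u v hu.1 hv hgen g hg ?_
    have hgn : orderOf g ∣ n := (Nat.Coprime.pow_right a hgc).dvd_of_dvd_mul_left (hG ▸ orderOf_dvd_natCard g)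
    exact (show (6 : ℕ) = 2 * 3 by norm_num) ▸ hgc.mul_right
      (((Nat.Prime.coprime_iff_not_dvd Nat.prime_three).mpr fun h => h3 (h.trans hgn)).symm)
  obtain ⟨P, N, hN, hc⟩ := CfsgLib.ThompsonNPC.hasNPC_iff.mpr key
  refine ⟨N, hN, ?_⟩
  have h := hc.card_mul
  rw [P.card_eq_multiplicity, hfac, hG, mul_comm (2 ^ a)] at h
  exact Nat.eq_of_mul_eq_mul_right (Nat.two_pow_pos a) h

end Cfsg.Agent.S3971
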