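import Cfsg.Statements.S3973
import Cfsg.Agent.Lib.Schur.Core
import Mathlib.GroupTheory.Rank
import Mathlib.LinearAlgebra.Dimension.RankNullity

set_option autoImplicit false
open Cfsg

namespace Cfsg.Agent.S3973
open CfsgLib.Schur

theorem rank_le (n : ℕ) (rels : Finset (FreeGroup (Fin n))) [Finite (PresentedGroup (rels : Set (FreeGroup (Fin n))))]
    {A : Type*} [CommGroup A] [Finite A] (hA : Cfsg.HasSchurMultiplier (PresentedGroup (rels : Set (FreeGroup (Fin n)))) A) :
    Group.rank A ≤ rels.card - n := by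
  classical
  let P := PresentedGroup (rels : Set (FreeGroup (Fin n)))
  let g : Fin n → P := PresentedGroup.of
  have hg : Subgroup.closure (Set.range g) = ⊤ := PresentedGroup.closure_range_of _
  have hlift : FreeGroup.lift g = PresentedGroup.mk (rels : Set (FreeGroup (Fin n))) :=
    FreeGroup.ext_hom _ _ fun i => by simp [g, PresentedGroup.of]
  set E := Src g
  let mkE : FreeGroup (Fin n) →* E := QuotientGroup.mk' _
  have hrelK : ∀ r : rels, mkE r ∈ (proj g).ker := fun r => by
    show FreeGroup.lift g (r : FreeGroup (Fin n)) = 1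
    rw [hlift]; exact PresentedGroup.one_of_mem r.2
  -- the kernel is generated by the relators
  have hgen : (proj g).ker ≤ Subgroup.closure (Set.range fun r : rels => mkE r) := by
    intro x hx
    obtain ⟨w, rfl⟩ := QuotientGroup.mk'_surjective _ x
    have hw : w ∈ Subgroup.normalClosure (rels : Set (FreeGroup (Fin n))) := by
      rw [← PresentedGroup.mk_eq_one_iff, ← hlift]; exact hx
    set S := Subgroup.closure (Set.range fun r : rels => mkE r)
    haveI : S.Normal := normal_of_le_ker g ((Subgroup.closure_le _).mpr (by rintro _ ⟨r, rfl⟩; exact hrelK r))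
    exact (Subgroup.normalClosure_le_normal (N := S.comap mkE) (fun r hr => Subgroup.subset_closure ⟨⟨r, hr⟩, rfl⟩)) hw
  let K := (proj g).ker
  letI : CommGroup K := { (inferInstance : Group K) with mul_comm := fun a b => (kerComm g).is_comm.comm a b }
  let Φ : (rels → ℤ) →ₗ[ℤ] Additive K :=
    ∑ r, (LinearMap.proj (R := ℤ) (φ := fun _ : rels => ℤ) r).smulRight (Additive.ofMul (⟨mkE r, hrelK r⟩ : K))
  have hΦ : ∀ v, Φ v = ∑ r, v r • Additive.ofMul (⟨mkE r, hrelK r⟩ : K) := fun v => by simp [Φ]
  have hΦs : Function.Surjective Φ := by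
    intro a
    obtain ⟨b, rfl⟩ : ∃ b : K, Additive.ofMul b = a := ⟨Additive.toMul a, rfl⟩
    obtain ⟨x, hx⟩ := b
    suffices H : ∀ y ∈ Subgroup.closure (Set.range fun r : rels => mkE r),
        ∃ hy : y ∈ K, ∃ v, Φ v = Additive.ofMul (⟨y, hy⟩ : K) by
      obtain ⟨hxK, v, hv⟩ := H x (hgen hx)
      exact ⟨v, hv⟩
    intro y hy
    induction hy using Subgroup.closure_induction with
    | mem y hy =>
      obtain ⟨r, rfl⟩ := hy
      refine ⟨hrelK r, Pi.single r 1, ?_⟩
      rw [hΦ, Finset.sum_eq_single r (fun b _ hb => by rw [Pi.single_eq_of_ne hb, zero_smul]) (by simp), Pi.single_eq_same, one_smul]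
    | one => exact ⟨K.one_mem, 0, by rw [map_zero]; rfl⟩
    | mul a b _ _ ha hb =>
      obtain ⟨hak, v, hv⟩ := ha
      obtain ⟨hbk, w, hw⟩ := hb
      exact ⟨K.mul_mem hak hbk, v + w, by rw [map_add, hv, hw]; rfl⟩
    | inv a _ ha =>
      obtain ⟨hak, v, hv⟩ := ha
      exact ⟨K.inv_mem hak, -v, by rw [map_neg, hv]; rfl⟩
  let ab : Additive K →ₗ[ℤ] (Fin n → ℤ) :=
    (AddMonoidHom.mk' (fun k => Multiplicative.toAdd (expVec g ((Additive.toMul k : K) : E)))
      (fun a b => by simp)).toIntLinearMap
  let T := ab.comp Φ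
  -- the range has full rank
  have hscale : ∀ v : Fin n → ℤ, (Nat.card P : ℤ) • v ∈ LinearMap.range T := by
    intro v
    rw [show (Nat.card P : ℤ) • v = ∑ i, v i • ((Nat.card P : ℤ) • Pi.single i (1 : ℤ)) by
      funext a; simp [Finset.sum_apply, Pi.single_apply, Finset.sum_ite_eq, mul_comm]]
    refine Submodule.sum_mem _ fun i _ => Submodule.smul_mem _ _ ?_
    have hk : (QuotientGroup.mk (FreeGroup.of i) : E) ^ Nat.card P ∈ K := by
      show proj g _ = 1
      rw [map_pow]; exact pow_card_eq_one'
    obtain ⟨u, hu⟩ := hΦs (Additive.ofMul ⟨_, hk⟩)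
    refine ⟨u, ?_⟩
    show ab (Φ u) = _
    rw [hu]
    show Multiplicative.toAdd (expVec g ((QuotientGroup.mk (FreeGroup.of i) : E) ^ Nat.card P)) = _
    rw [map_pow, toAdd_pow, ← natCast_zsmul]
    simp [expVec]
  have hrange : n ≤ Module.finrank ℤ (LinearMap.range T) := by
    have h1 := LinearMap.finrank_le_finrank_of_injective (R := ℤ)
      (f := LinearMap.codRestrict (LinearMap.range T) ((Nat.card P : ℤ) • LinearMap.id) hscale)
      (fun a b hab => by
        have h2 : (Nat.card P : ℤ) • a = (Nat.card P : ℤ) • b := congrArg Subtype.val hab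
        exact smul_right_injective _ (Int.natCast_ne_zero.mpr Nat.card_pos.ne') h2)
    simpa using h1
  have hker : Module.finrank ℤ (LinearMap.ker T) ≤ rels.card - n := by
    have h1 := (LinearMap.ker T).finrank_quotient_add_finrank
    rw [T.quotKerEquivRange.finrank_eq] at h1
    have h2 : Module.finrank ℤ (rels → ℤ) = rels.card := by simp
    omega
  let b := Module.Free.chooseBasis ℤ (LinearMap.ker T)
  haveI := Fintype.ofFinite (Module.Free.ChooseBasisIndex ℤ (LinearMap.ker T))
  obtain ⟨e₁⟩ := nonempty_equiv hA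
  obtain ⟨e₂⟩ := nonempty_equiv_mult g hg
  have hmem : ∀ v : LinearMap.ker T, ((Additive.toMul (Φ v.1) : K) : E) ∈ mult g := fun v =>
    ⟨(Additive.toMul (Φ v.1) : K).2, expVec_ker_le g (MonoidHom.mem_ker.mpr (Multiplicative.toAdd.injective (show ab (Φ v.1) = 0 from v.2)))⟩
  let e := (e₁.trans e₂).symm
  let Ψ : Multiplicative (LinearMap.ker T) →* A := e.toMonoidHom.comp
    { toFun := fun v => (⟨_, hmem (Multiplicative.toAdd v)⟩ : mult g)
      map_one' := Subtype.ext (by simp)
      map_mul' := fun v w => Subtype.ext (by simp) }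
  have hΨ : Function.Surjective Ψ := by
    intro a
    obtain ⟨m, rfl⟩ := e.surjective a
    obtain ⟨v, hv⟩ := hΦs (Additive.ofMul ⟨(m : E), mult_le_ker g m.2⟩)
    refine ⟨Multiplicative.ofAdd ⟨v, ?_⟩, ?_⟩
    · show ab (Φ v) = 0
      rw [hv]
      show Multiplicative.toAdd (expVec g (m : E)) = 0
      rw [MonoidHom.mem_ker.mp (commutator_le_expVec_ker g m.2.2), toAdd_one]
    · refine congrArg e (Subtype.ext ?_)
      show ((Additive.toMul (Φ v) : K) : E) = m
      rw [hv]; rfl
  have hS : Subgroup.closure ((Finset.univ.image fun i => Ψ (Multiplicative.ofAdd (b i)) : Finset A) : Set A) = ⊤ := by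
    refine eq_top_iff.mpr fun a _ => ?_
    obtain ⟨v, rfl⟩ := hΨ a
    rw [← ofAdd_toAdd v, ← b.sum_repr (Multiplicative.toAdd v), ofAdd_sum, map_prod]
    refine Subgroup.prod_mem _ fun i _ => ?_
    rw [ofAdd_zsmul, map_zpow]
    exact Subgroup.zpow_mem _ (Subgroup.subset_closure (Finset.mem_coe.mpr (Finset.mem_image_of_mem _ (Finset.mem_univ i)))) _
  refine (Group.rank_le hS).trans (Finset.card_image_le.trans ?_)
  rw [Finset.card_univ]
  exact (Module.finrank_eq_card_basis b).ge.trans hker

/-- If a finite group is presented by `n` generators and a finite set of `r` relators, then its Schur multiplier can be generated by `r - n` elements. In particular a finite group with a presentation having as many relators as generators has trivial Schur multiplier. -/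
theorem result (n : ℕ) (rels : Finset (FreeGroup (Fin n))) [Finite (PresentedGroup (rels : Set (FreeGroup (Fin n))))] {A : Type*} [CommGroup A] [Finite A] (hA : Cfsg.HasSchurMultiplier (PresentedGroup (rels : Set (FreeGroup (Fin n)))) A) : Group.rank A ≤ rels.card - n := by
  open CfsgLib.Schur in
  exact rank_le n rels hA

end Cfsg.Agent.S3973
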