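import Cfsg.Statements.S3974
import Cfsg.Agent.Lib.Schur.Basic

set_option autoImplicit false
universe u v
open Cfsg

namespace Cfsg.Agent.S3974
open Subgroup
open scoped commutatorElement
open CfsgLib.Schur

universe w

theorem card_eq {Q : Type u} [Group Q] [Finite Q] {A : Type v} [CommGroup A] (hA : Cfsg.HasSchurMultiplier Q A) :
    Nat.card A = Nat.card (M Q) := by
  obtain ⟨e⟩ := nonempty_equiv hA
  exact Nat.card_congr e.toEquiv

theorem cover_data {Q : Type u} [Group Q] [Finite Q] {Γ : Type w} [Group Γ] [Finite Γ] (σ : Γ →* Q)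
    (hσ : Cfsg.IsStemExtension σ) (hcard : Nat.card (M Q) ≤ Nat.card σ.ker) :
    ∃ φ : Src (id : Q → Q) →* Γ, σ.comp φ = proj id ∧ Function.Surjective φ ∧
      φ.ker ≤ (proj (id : Q → Q)).ker ∧ φ.ker ⊓ _root_.commutator (Src (id : Q → Q)) = ⊥ ∧
      φ.ker ⊔ mult (id : Q → Q) = (proj (id : Q → Q)).ker := by
  obtain ⟨φ, hφ⟩ := exists_lift (id : Q → Q) (MonoidHom.id Q) σ hσ.1 hσ.2.1
  rw [MonoidHom.id_comp] at hφ
  obtain ⟨hφs, hmap⟩ := lift_surjective id (closure_range_id Q) hσ hφ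
  let φM : mult (id : Q → Q) →* σ.ker :=
    MonoidHom.codRestrict (φ.comp (mult (id : Q → Q)).subtype) σ.ker fun m => hmap.le ⟨m, m.2, rfl⟩
  have hφMs : Function.Surjective φM := by
    rintro ⟨z, hz⟩
    obtain ⟨m, hm, rfl⟩ := hmap.ge hz
    exact ⟨⟨m, hm⟩, rfl⟩
  have hφMi : Function.Injective φM := (hφMs.bijective_of_nat_card_le hcard).1
  have hkerK : φ.ker ≤ (proj (id : Q → Q)).ker := fun x hx => by
    rw [MonoidHom.mem_ker, ← hφ, MonoidHom.comp_apply, MonoidHom.mem_ker.mp hx, map_one]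
  refine ⟨φ, hφ, hφs, hkerK, ?_, le_antisymm (sup_le hkerK (mult_le_ker _)) fun x hx => ?_⟩
  · rw [eq_bot_iff]
    rintro x ⟨hx, hxc⟩
    have := @hφMi ⟨x, hkerK hx, hxc⟩ 1 (Subtype.ext (by simpa [φM] using hx))
    exact mem_bot.mpr (congrArg Subtype.val this)
  · have h1 : φ x ∈ (mult (id : Q → Q)).map φ := hmap.ge (by
      rw [MonoidHom.mem_ker, ← MonoidHom.comp_apply, hφ]; exact hx)
    obtain ⟨m, hm, hmx⟩ := h1
    rw [show x = x * m⁻¹ * m by group]
    exact mul_mem (mem_sup_left (show φ (x * m⁻¹) = 1 by rw [map_mul, map_inv, hmx, mul_inv_cancel])) (mem_sup_right hm)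

theorem exists_iso {Q : Type u} [Group Q] [Finite Q] {A : Type v} [CommGroup A] (hA : Cfsg.HasSchurMultiplier Q A)
    (hcop : Nat.Coprime (Nat.card (Abelianization Q)) (Nat.card A)) {Γ₁ Γ₂ : Type u} [Group Γ₁] [Finite Γ₁]
    [Group Γ₂] [Finite Γ₂] (σ₁ : Γ₁ →* Q) (σ₂ : Γ₂ →* Q) (h₁ : Cfsg.IsStemExtension σ₁)
    (h₂ : Cfsg.IsStemExtension σ₂) (he₁ : Nonempty (σ₁.ker ≃* A)) (he₂ : Nonempty (σ₂.ker ≃* A)) :
    ∃ e : Γ₁ ≃* Γ₂, σ₂.comp e.toMonoidHom = σ₁ := by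
  obtain ⟨e₁⟩ := he₁
  obtain ⟨e₂⟩ := he₂
  have hc₁ : Nat.card σ₁.ker = Nat.card A := Nat.card_congr e₁.toEquiv
  have hc₂ : Nat.card σ₂.ker = Nat.card A := Nat.card_congr e₂.toEquiv
  haveI : Finite A := Finite.of_equiv _ e₁.toEquiv
  obtain ⟨φ₁, hφ₁, hs₁, hk₁, hd₁, hsup₁⟩ := cover_data σ₁ h₁ (by rw [hc₁, card_eq hA])
  obtain ⟨φ₂, hφ₂⟩ := exists_lift (id : Q → Q) (MonoidHom.id Q) σ₂ h₂.1 h₂.2.1
  rw [MonoidHom.id_comp] at hφ₂
  let j : φ₁.ker →* Abelianization (Src (id : Q → Q)) := Abelianization.of.comp φ₁.ker.subtype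
  have hj : Function.Injective j := by
    rw [← MonoidHom.ker_eq_bot_iff, eq_bot_iff]
    intro c hc
    have h : (c : Src (id : Q → Q)) ∈ φ₁.ker ⊓ _root_.commutator (Src (id : Q → Q)) :=
      ⟨c.2, by rw [← Abelianization.ker_of]; exact hc⟩
    rw [hd₁, mem_bot] at h
    exact mem_bot.mpr (Subtype.ext h)
  haveI : Finite (Abelianization Q) := inferInstanceAs (Finite (Q ⧸ _root_.commutator Q))
  set n := Nat.card (Abelianization Q) with hn
  have hpow : ∀ x : Src (id : Q → Q), Abelianization.of x ^ n ∈ j.range := by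
    intro x
    have h1 : Abelianization.of (proj id x ^ n) = 1 := by rw [map_pow]; exact pow_card_eq_one'
    have h2 : proj id x ^ n ∈ _root_.commutator Q := by rw [← Abelianization.ker_of]; exact h1
    rw [_root_.commutator_def, ← Subgroup.map_top_of_surjective _ (proj_surjective id (closure_range_id Q)),
      ← Subgroup.map_commutator, ← _root_.commutator_def] at h2
    obtain ⟨w, hw, hwx⟩ := h2
    have h3 : w⁻¹ * x ^ n ∈ φ₁.ker ⊔ mult (id : Q → Q) := by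
      rw [hsup₁, MonoidHom.mem_ker, map_mul, map_inv, map_pow, hwx, inv_mul_cancel]
    haveI := normal_of_le_ker (id : Q → Q) hk₁
    rw [Subgroup.mem_sup_of_normal_left] at h3
    obtain ⟨c, hc, m, hm, hcm⟩ := h3
    refine ⟨⟨c, hc⟩, ?_⟩
    show Abelianization.of c = _
    have hw1 : Abelianization.of w = 1 := by rw [← MonoidHom.mem_ker, Abelianization.ker_of]; exact hw
    have hm1 : Abelianization.of m = 1 := by rw [← MonoidHom.mem_ker, Abelianization.ker_of]; exact hm.2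
    have := congrArg Abelianization.of hcm
    rw [map_mul, map_mul, map_inv, hw1, hm1, inv_one, one_mul, mul_one, map_pow] at this
    exact this
  obtain ⟨k, hk⟩ : ∃ k : ℕ, ∀ z : σ₂.ker, (z ^ n) ^ k = z := by
    have hcop' : n.Coprime (Nat.card σ₂.ker) := by rw [hc₂]; exact hcop
    by_cases h1 : Nat.card σ₂.ker = 1
    · haveI := (Nat.card_eq_one_iff_unique.mp h1).1
      exact ⟨0, fun z => Subsingleton.elim _ _⟩
    · obtain ⟨k, -, hk⟩ := Nat.exists_mul_mod_eq_one_of_coprime hcop' (lt_of_le_of_ne Nat.card_pos (Ne.symm h1))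
      refine ⟨k, fun z => ?_⟩
      rw [← pow_mul, ← pow_mod_natCard, hk, pow_one]
  letI : CommGroup σ₂.ker :=
    { (inferInstance : Group σ₂.ker) with
      mul_comm := fun a b => Subtype.ext ((mem_center_iff.mp (h₂.2.1 a.2) b).symm) }
  let g : φ₁.ker →* σ₂.ker := MonoidHom.codRestrict (φ₂.comp φ₁.ker.subtype) _ fun c => by
    rw [MonoidHom.mem_ker]
    show (σ₂.comp φ₂) c = 1
    rw [hφ₂]; exact hk₁ c.2
  let χ : Src (id : Q → Q) →* σ₂.ker :=
    ((powMonoidHom k).comp (g.comp ((MonoidHom.ofInjective hj).symm.toMonoidHom))).comp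
      (MonoidHom.codRestrict ((powMonoidHom n).comp Abelianization.of) j.range hpow)
  have hχ : ∀ c : φ₁.ker, χ c = g c := by
    intro c
    have e : (MonoidHom.ofInjective hj).symm ⟨Abelianization.of (c : Src (id : Q → Q)) ^ n, hpow c⟩ = c ^ n := by
      rw [MulEquiv.symm_apply_eq]
      refine Subtype.ext ?_
      show _ = j (c ^ n)
      rw [map_pow]; rfl
    show (g ((MonoidHom.ofInjective hj).symm ⟨Abelianization.of (c : Src (id : Q → Q)) ^ n, hpow c⟩)) ^ k = g c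
    rw [e, map_pow, hk]
  let r : Src (id : Q → Q) →* Γ₂ := MonoidHom.mk' (fun x => φ₂ x * ((χ x : Γ₂))⁻¹) (fun x y => by
    rw [map_mul, map_mul, Subgroup.coe_mul, mul_inv_rev]
    have c := fun w => mem_center_iff.mp (inv_mem (h₂.2.1 (χ x).2)) w
    calc φ₂ x * φ₂ y * (((χ y : Γ₂))⁻¹ * ((χ x : Γ₂))⁻¹) = φ₂ x * ((φ₂ y * ((χ y : Γ₂))⁻¹) * ((χ x : Γ₂))⁻¹) := by group
      _ = φ₂ x * (((χ x : Γ₂))⁻¹ * (φ₂ y * ((χ y : Γ₂))⁻¹)) := by rw [c]
      _ = φ₂ x * ((χ x : Γ₂))⁻¹ * (φ₂ y * ((χ y : Γ₂))⁻¹) := by group)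
  have hrσ : σ₂.comp r = proj id := MonoidHom.ext fun x => by
    show σ₂ (φ₂ x * ((χ x : Γ₂))⁻¹) = _
    rw [map_mul, map_inv, MonoidHom.mem_ker.mp (χ x).2, inv_one, mul_one]
    exact DFunLike.congr_fun hφ₂ x
  obtain ⟨hrs, -⟩ := lift_surjective id (closure_range_id Q) h₂ hrσ
  have hrk : φ₁.ker ≤ r.ker := fun c hc => by
    show φ₂ c * ((χ c : Γ₂))⁻¹ = 1
    rw [hχ ⟨c, hc⟩]; exact mul_inv_cancel _
  let ε := φ₁.liftOfSurjective hs₁ ⟨r, hrk⟩
  have hεs : Function.Surjective ε := fun y => by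
    obtain ⟨x, rfl⟩ := hrs y
    exact ⟨φ₁ x, MonoidHom.liftOfRightInverse_comp_apply _ _ _ _ x⟩
  have hcard : Nat.card Γ₁ = Nat.card Γ₂ := by
    rw [← σ₁.ker.card_mul_index, ← σ₂.ker.card_mul_index, Subgroup.index_ker, Subgroup.index_ker, hc₁, hc₂,
      MonoidHom.range_eq_top.mpr h₁.1, MonoidHom.range_eq_top.mpr h₂.1]
  refine ⟨MulEquiv.ofBijective ε (hεs.bijective_of_nat_card_le hcard.le), MonoidHom.ext fun y => ?_⟩
  obtain ⟨x, rfl⟩ := hs₁ y
  show σ₂ (ε (φ₁ x)) = (σ₁.comp φ₁) x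
  rw [hφ₁, MonoidHom.liftOfRightInverse_comp_apply]
  exact DFunLike.congr_fun hrσ x

theorem not_unique {Q : Type u} [Group Q] [Finite Q] {A : Type v} [CommGroup A] (hA : Cfsg.HasSchurMultiplier Q A)
    (p : ℕ) (hp : p.Prime) (hpQ : p ∣ Nat.card (Abelianization Q)) (hpA : p ∣ Nat.card A)
    (huniq : ∀ (Γ₁ Γ₂ : Type u) [Group Γ₁] [Finite Γ₁] [Group Γ₂] [Finite Γ₂] (σ₁ : Γ₁ →* Q) (σ₂ : Γ₂ →* Q), Cfsg.IsStemExtension σ₁ → Cfsg.IsStemExtension σ₂ → Nonempty (σ₁.ker ≃* A) → Nonempty (σ₂.ker ≃* A) → ∃ e : Γ₁ ≃* Γ₂, σ₂.comp e.toMonoidHom = σ₁) : False := by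
  classical
  haveI := Fintype.ofFinite Q
  haveI : Fact p.Prime := ⟨hp⟩
  obtain ⟨eA⟩ := nonempty_equiv hA
  obtain ⟨C, hC, hd, hsup, -⟩ := exists_complement (id : Q → Q) (D := PUnit.{1}) 1 fun k => ⟨1, one_mem _, rfl⟩
  haveI hCn := normal_of_le_ker (id : Q → Q) hC
  have hdc : C ⊓ _root_.commutator (Src (id : Q → Q)) = ⊥ := by
    rw [eq_bot_iff]
    rintro x ⟨hx, hxc⟩
    exact hd.le ⟨hx, hC hx, hxc⟩
  let ab : Src (id : Q → Q) →* Multiplicative (Q → ℤ) := expVec id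
  let L : Submodule ℤ (Q → ℤ) := AddSubgroup.toIntSubmodule
    { carrier := {v | ∃ c ∈ C, Multiplicative.toAdd (ab c) = v}
      zero_mem' := ⟨1, C.one_mem, by rw [map_one]; rfl⟩
      add_mem' := by
        rintro _ _ ⟨a, ha, rfl⟩ ⟨b, hb, rfl⟩
        exact ⟨a * b, C.mul_mem ha hb, by rw [map_mul]; rfl⟩
      neg_mem' := by
        rintro _ ⟨a, ha, rfl⟩
        exact ⟨a⁻¹, C.inv_mem ha, by rw [map_inv]; rfl⟩ }
  have hmemL : ∀ v, v ∈ L ↔ ∃ c ∈ C, Multiplicative.toAdd (ab c) = v := fun v => Iff.rfl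
  have habinj : ∀ c ∈ C, ab c = 1 → c = 1 := fun c hc h1 => by
    have : c ∈ C ⊓ _root_.commutator (Src (id : Q → Q)) := ⟨hc, expVec_ker_le _ h1⟩
    rwa [hdc, mem_bot] at this
  -- the element `x`
  haveI : Finite (Abelianization Q) := inferInstanceAs (Finite (Q ⧸ _root_.commutator Q))
  obtain ⟨q, hq⟩ := exists_prime_orderOf_dvd_card' p hpQ
  obtain ⟨q₀, hq₀⟩ := QuotientGroup.mk_surjective q
  obtain ⟨x, hx⟩ := proj_surjective (id : Q → Q) (closure_range_id Q) q₀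
  have hsplit : ∀ y : Src (id : Q → Q), proj id y ∈ _root_.commutator Q →
      ∃ c ∈ C, ab y = ab c := by
    intro y hy
    rw [_root_.commutator_def, ← Subgroup.map_top_of_surjective _ (proj_surjective id (closure_range_id Q)),
      ← Subgroup.map_commutator, ← _root_.commutator_def] at hy
    obtain ⟨w, hw, hwy⟩ := hy
    have h3 : w⁻¹ * y ∈ C ⊔ mult (id : Q → Q) := by
      rw [hsup, MonoidHom.mem_ker, map_mul, map_inv, hwy, inv_mul_cancel]
    rw [Subgroup.mem_sup_of_normal_left] at h3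
    obtain ⟨c, hc, m, hm, hcm⟩ := h3
    refine ⟨c, hc, ?_⟩
    have h1 : ab w = 1 := commutator_le_expVec_ker _ hw
    have h2 : ab m = 1 := commutator_le_expVec_ker _ hm.2
    have := congrArg ab hcm
    rw [map_mul, map_mul, map_inv, h1, h2, inv_one, one_mul, mul_one] at this
    exact this.symm
  set v := Multiplicative.toAdd (ab x) with hv
  have hvL : v ∉ L := by
    rintro ⟨c, hc, hcv⟩
    have h1 : x * c⁻¹ ∈ _root_.commutator (Src (id : Q → Q)) := expVec_ker_le _ (by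
      rw [MonoidHom.mem_ker, map_mul, map_inv, mul_inv_eq_one]
      exact (Multiplicative.toAdd.injective hcv).symm)
    have h2 : Abelianization.of (proj id x) = 1 := by
      rw [← MonoidHom.mem_ker, Abelianization.ker_of]
      have := Subgroup.mem_map_of_mem (proj (id : Q → Q)) h1
      rw [map_mul, map_inv, MonoidHom.mem_ker.mp (hC hc), inv_one, mul_one, _root_.commutator_def, Subgroup.map_commutator] at this
      rw [_root_.commutator_def]
      exact Subgroup.commutator_mono le_top le_top this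
    rw [hx] at h2
    have : q = 1 := by rw [← hq₀]; exact h2
    rw [this, orderOf_one] at hq
    exact hp.ne_one hq.symm
  have hpv : (p : ℤ) • v ∈ L := by
    obtain ⟨c, hc, hcv⟩ := hsplit (x ^ p) (by
      rw [← Abelianization.ker_of, MonoidHom.mem_ker, map_pow, hx, map_pow,
        show Abelianization.of q₀ = q from hq₀, ← hq, pow_orderOf_eq_one])
    refine ⟨c, hc, ?_⟩
    rw [← hcv, map_pow, toAdd_pow, ← natCast_zsmul, hv]
  -- a functional not divisible by `p` there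
  let b := Module.Free.chooseBasis ℤ L
  obtain ⟨i, hi⟩ : ∃ i, ¬ (p : ℤ) ∣ b.repr ⟨_, hpv⟩ i := by
    by_contra hcon
    push Not at hcon
    choose d hd' using hcon
    haveI := Fintype.ofFinite (Module.Free.ChooseBasisIndex ℤ L)
    have h1 : (⟨_, hpv⟩ : L) = (p : ℤ) • ∑ i, d i • b i := by
      conv_lhs => rw [← b.sum_repr ⟨_, hpv⟩]
      rw [Finset.smul_sum]
      exact Finset.sum_congr rfl fun i _ => by rw [hd' i, smul_smul]
    have h2 := congrArg Subtype.val h1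
    refine hvL ?_
    have h3 : v = ((∑ i, d i • b i : L) : Q → ℤ) := funext fun a => by
      have := congrFun h2 a
      simp only [Pi.smul_apply, Submodule.coe_smul, smul_eq_mul] at this
      exact Int.eq_of_mul_eq_mul_left (Int.natCast_ne_zero.mpr hp.ne_zero) this
    rw [h3]; exact Submodule.coe_mem _
  -- an element of the multiplier that is not a `p`-th power
  haveI : Finite (M Q) := finite_mult _
  obtain ⟨z, hz⟩ : ∃ z : M Q, ∀ w : M Q, w ^ p ≠ z := by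
    by_contra hcon
    push Not at hcon
    have hinj : Function.Injective (powMonoidHom p : M Q →* M Q) :=
      Finite.injective_iff_surjective.mpr hcon
    have hd2 : p ∣ Nat.card (M Q) := by rw [← Nat.card_congr eA.toEquiv]; exact hpA
    obtain ⟨w, hw⟩ := exists_prime_orderOf_dvd_card' p hd2
    have : w = 1 := hinj (show w ^ p = 1 ^ p by rw [← hw, pow_orderOf_eq_one, one_pow])
    rw [this, orderOf_one] at hw
    exact hp.ne_one hw.symm
  let f : C →* M Q := MonoidHom.mk' (fun c => z ^ (b.repr ⟨_, c.1, c.2, rfl⟩ i)) (fun c d => by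
    rw [← zpow_add]
    congr 1
    rw [← Finsupp.add_apply, ← map_add]
    congr 2
    refine Subtype.ext ?_
    show Multiplicative.toAdd (ab ((c * d : C) : Src (id : Q → Q))) = _
    rw [Subgroup.coe_mul, map_mul]; rfl)
  -- the twisted complement
  let tw : C →* Src (id : Q → Q) := MonoidHom.mk' (fun c => (c : Src (id : Q → Q)) * (f c : M Q)) (fun c d => by
    rw [map_mul, Subgroup.coe_mul, Subgroup.coe_mul]
    have := mem_center_iff.mp (mult_le_center _ (f c).2) (d : Src (id : Q → Q))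
    calc (c : Src (id : Q → Q)) * d * ((f c : Src (id : Q → Q)) * (f d : Src (id : Q → Q)))
        = c * ((d : Src (id : Q → Q)) * (f c : Src (id : Q → Q))) * (f d : Src (id : Q → Q)) := by group
      _ = c * ((f c : Src (id : Q → Q)) * d) * (f d : Src (id : Q → Q)) := by rw [this]
      _ = _ := by group)
  have hC₂ : tw.range ≤ (proj (id : Q → Q)).ker := by
    rintro _ ⟨c, rfl⟩; exact mul_mem (hC c.2) (mult_le_ker _ (f c).2)
  have hd₂ : tw.range ⊓ mult (id : Q → Q) = ⊥ := by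
    rw [eq_bot_iff]
    rintro _ ⟨⟨c, rfl⟩, hm⟩
    have hc : (c : Src (id : Q → Q)) ∈ mult (id : Q → Q) := by
      have := (mult (id : Q → Q)).mul_mem hm ((mult (id : Q → Q)).inv_mem (f c).2)
      simpa [tw] using this
    have h1 : (c : Src (id : Q → Q)) ∈ C ⊓ mult (id : Q → Q) := ⟨c.2, hc⟩
    rw [hd, mem_bot] at h1
    have hc1 : c = 1 := Subtype.ext h1
    rw [hc1, map_one]; exact one_mem _
  have hsup₂ : tw.range ⊔ mult (id : Q → Q) = (proj (id : Q → Q)).ker := by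
    refine le_antisymm (sup_le hC₂ (mult_le_ker _)) ?_
    rw [← hsup]
    refine sup_le (fun c hc => ?_) le_sup_right
    rw [show c = tw ⟨c, hc⟩ * ((f ⟨c, hc⟩ : M Q) : Src (id : Q → Q))⁻¹ by simp [tw]]
    exact mul_mem (mem_sup_left ⟨_, rfl⟩) (mem_sup_right (inv_mem (f ⟨c, hc⟩).2))
  haveI := normal_of_le_ker (id : Q → Q) hC₂
  obtain ⟨σ₁, hσ₁, hf₁, hst₁, e₁, he₁⟩ := cover_of_complement (id : Q → Q) (closure_range_id Q) hC hd hsup
  obtain ⟨σ₂, hσ₂, hf₂, hst₂, e₂, he₂⟩ := cover_of_complement (id : Q → Q) (closure_range_id Q) hC₂ hd₂ hsup₂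
  obtain ⟨ε, hε⟩ := huniq _ _ σ₁ σ₂ hst₁ hst₂ ⟨e₁.symm.trans eA.symm⟩ ⟨e₂.symm.trans eA.symm⟩
  -- the difference of the two lifts
  let π₂ := QuotientGroup.mk' tw.range
  let π₁ := ε.toMonoidHom.comp (QuotientGroup.mk' C)
  have hz' : ∀ y, π₂ y * (π₁ y)⁻¹ ∈ σ₂.ker := fun y => by
    rw [MonoidHom.mem_ker, map_mul, map_inv]
    show (σ₂.comp (QuotientGroup.mk' tw.range)) y * ((σ₂.comp ε.toMonoidHom).comp (QuotientGroup.mk' C) y)⁻¹ = 1
    rw [hσ₂, hε, hσ₁, mul_inv_cancel]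
  let F : Src (id : Q → Q) → M Q := fun y => e₂.symm ⟨_, hz' y⟩
  have hFmul : ∀ y w, F (y * w) = F y * F w := fun y w => by
    show e₂.symm _ = e₂.symm _ * e₂.symm _
    rw [← map_mul]
    congr 1
    refine Subtype.ext ?_
    show π₂ (y * w) * (π₁ (y * w))⁻¹ = (π₂ y * (π₁ y)⁻¹) * (π₂ w * (π₁ w)⁻¹)
    have c := fun u => mem_center_iff.mp (hst₂.2.1 (hz' w)) u
    rw [map_mul, map_mul, mul_inv_rev]
    calc π₂ y * π₂ w * ((π₁ w)⁻¹ * (π₁ y)⁻¹) = π₂ y * ((π₂ w * (π₁ w)⁻¹) * (π₁ y)⁻¹) := by group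
      _ = π₂ y * ((π₁ y)⁻¹ * (π₂ w * (π₁ w)⁻¹)) := by rw [c]
      _ = π₂ y * (π₁ y)⁻¹ * (π₂ w * (π₁ w)⁻¹) := by group
  let Fh : Src (id : Q → Q) →* M Q := MonoidHom.mk' F hFmul
  have hFC : ∀ c : C, Fh c = (f c)⁻¹ := by
    intro c
    apply e₂.injective
    show e₂ (e₂.symm _) = _
    rw [MulEquiv.apply_symm_apply]
    refine Subtype.ext ?_
    rw [he₂, Subgroup.coe_inv, QuotientGroup.mk_inv]
    show π₂ (c : Src (id : Q → Q)) * (π₁ (c : Src (id : Q → Q)))⁻¹ = _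
    have h1 : π₁ (c : Src (id : Q → Q)) = 1 := by
      show ε (QuotientGroup.mk (c : Src (id : Q → Q))) = 1
      rw [(QuotientGroup.eq_one_iff _).mpr c.2, map_one]
    have h2 : π₂ ((c : Src (id : Q → Q)) * (f c : M Q)) = 1 := (QuotientGroup.eq_one_iff _).mpr ⟨c, rfl⟩
    rw [map_mul] at h2
    rw [h1, inv_one, mul_one]
    exact eq_inv_of_mul_eq_one_left h2
  obtain ⟨c, hc, hcv⟩ := hpv
  have hFx : Fh x ^ p = Fh c := by
    rw [← map_pow, ← mul_inv_eq_one, ← map_inv, ← map_mul]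
    have hle : _root_.commutator (Src (id : Q → Q)) ≤ Fh.ker := Abelianization.commutator_subset_ker Fh
    refine hle (expVec_ker_le _ ?_)
    rw [MonoidHom.mem_ker, map_mul, map_inv, map_pow, mul_inv_eq_one]
    refine Multiplicative.toAdd.injective ?_
    rw [toAdd_pow, ← natCast_zsmul]
    exact hcv.symm
  rw [hFC ⟨c, hc⟩] at hFx
  set k := b.repr ⟨_, c, hc, rfl⟩ i with hk
  have hk' : ¬ (p : ℤ) ∣ k := by
    have : (⟨Multiplicative.toAdd (ab c), c, hc, rfl⟩ : L) = ⟨(p : ℤ) • v, ⟨c, hc, hcv⟩⟩ := Subtype.ext hcv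
    rw [hk, this]; exact hi
  obtain ⟨u, w, huw⟩ := ((Nat.prime_iff_prime_int.mp hp).coprime_iff_not_dvd.mpr hk')
  refine hz (z ^ u * ((Fh x)⁻¹) ^ w) ?_
  have hfc : f ⟨c, hc⟩ = z ^ k := rfl
  rw [mul_pow, ← zpow_natCast ((Fh x)⁻¹ ^ w), ← zpow_mul, mul_comm w, zpow_mul, zpow_natCast, inv_pow, hFx,
    inv_inv, hfc, ← zpow_natCast (z ^ u), ← zpow_mul, ← zpow_mul, ← zpow_add, mul_comm k w, huw, zpow_one]

/-- Let `Q` be a finite group with Schur multiplier `A`. Any two Schur covering groups of `Q` (finite stem extensions `σ₁ : Γ₁ →* Q`, `σ₂ : Γ₂ →* Q` with kernels isomorphic to `A`, `Γ₁, Γ₂` in the universe of `Q`) are isomorphic over `Q` — there is a group isomorphism `e : Γ₁ ≃* Γ₂` with `σ₂ ∘ e = σ₁` — if and only if the order of the commutator quotient of `Q` is coprime to the order of `A`. In particular a finite perfect group has a unique Schur covering group up to isomorphism over it. -/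
theorem result {Q : Type u} [Group Q] [Finite Q] {A : Type v} [CommGroup A] (hA : Cfsg.HasSchurMultiplier Q A) : (∀ (Γ₁ Γ₂ : Type u) [Group Γ₁] [Finite Γ₁] [Group Γ₂] [Finite Γ₂] (σ₁ : Γ₁ →* Q) (σ₂ : Γ₂ →* Q), Cfsg.IsStemExtension σ₁ → Cfsg.IsStemExtension σ₂ → Nonempty (σ₁.ker ≃* A) → Nonempty (σ₂.ker ≃* A) → ∃ e : Γ₁ ≃* Γ₂, σ₂.comp e.toMonoidHom = σ₁) ↔ Nat.Coprime (Nat.card (Abelianization Q)) (Nat.card A) := by
  open CfsgLib.Schur in
  constructor
  · intro h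
    by_contra hnc
    obtain ⟨p, hp, hpQ, hpA⟩ := Nat.Prime.not_coprime_iff_dvd.mp hnc
    exact not_unique hA p hp hpQ hpA h
  · intro hcop Γ₁ Γ₂ _ _ _ _ σ₁ σ₂ h₁ h₂ e₁ e₂
    exact exists_iso hA hcop σ₁ σ₂ h₁ h₂ e₁ e₂

end Cfsg.Agent.S3974
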