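import Cfsg.Statements.S3976
import Cfsg.Agent.Lib.GroupB.SubgroupCount

set_option autoImplicit false
open Cfsg

namespace Cfsg.Agent.S3976

/-- Let `p` be a prime and `G` a group of order `p ^ m`. For every `s ≤ m` the number of normal subgroups of `G` of order `p ^ s` is congruent to `1` modulo `p`. -/
theorem result {G : Type*} [Group G] [Finite G] (p m s : ℕ) (hp : p.Prime) (hG : Nat.card G = p ^ m) (hs : s ≤ m) : Nat.card {H : Subgroup G // H.Normal ∧ Nat.card H = p ^ s} ≡ 1 [MOD p] := by
  classical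
  haveI := Fact.mk hp
  let X := {H : Subgroup G // Nat.card H = p ^ s}
  letI : MulAction G X :=
    { smul := fun g H => ⟨H.1.map (MulAut.conj g).toMonoidHom, by
        rw [← Nat.card_congr (H.1.equivMapOfInjective _ (MulAut.conj g).injective).toEquiv]; exact H.2⟩
      one_smul := fun H => Subtype.ext (by
        show H.1.map (MulAut.conj (1 : G)).toMonoidHom = H.1
        ext x; simp)
      mul_smul := fun a b H => Subtype.ext (by
        show H.1.map (MulAut.conj (a * b)).toMonoidHom =
          (H.1.map (MulAut.conj b).toMonoidHom).map (MulAut.conj a).toMonoidHom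
        rw [Subgroup.map_map]; congr 1; ext x; simp [mul_assoc]) }
  have h1 : Nat.card X ≡ Nat.card (MulAction.fixedPoints G X) [MOD p] :=
    (IsPGroup.of_card hG).card_modEq_card_fixedPoints X
  have h2 : Nat.card X ≡ 1 [MOD p] :=
    CfsgLib.GroupB.SubgroupCount.card_subgroups_modEq_one hp (hG ▸ pow_dvd_pow p hs)
  refine Nat.ModEq.trans (congrArg (· % p) ?_) (h1.symm.trans h2)
  refine Nat.card_congr ⟨fun H => ⟨⟨H.1, H.2.2⟩, fun g => Subtype.ext ?_⟩, fun H => ⟨H.1.1, ⟨fun x hx g => ?_⟩, H.1.2⟩,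
    fun H => rfl, fun H => rfl⟩
  · show H.1.map (MulAut.conj g).toMonoidHom = H.1
    refine Subgroup.eq_of_le_of_card_ge ?_ (Nat.card_congr (H.1.equivMapOfInjective _ (MulAut.conj g).injective).toEquiv).le
    rintro _ ⟨x, hx, rfl⟩
    exact H.2.1.conj_mem x hx g
  · exact (congrArg Subtype.val (H.2 g) : H.1.1.map (MulAut.conj g).toMonoidHom = H.1.1).le ⟨x, hx, rfl⟩

end Cfsg.Agent.S3976
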