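import Cfsg.Statements.S3977
import Cfsg.Agent.Lib.UniqueOrderP

set_option autoImplicit false
open Cfsg

namespace Cfsg.Agent.S3977

universe u

theorem zpowers_eq_of_le_cyclic {G : Type u} [Group G] [Finite G] {M : Subgroup G} (hM : IsCyclic M)
    {A B : Subgroup G} (hA : A ≤ M) (hB : B ≤ M) (h : Nat.card A = Nat.card B) : A = B := by
  classical
  haveI := hM
  haveI := Fintype.ofFinite M
  have key : ∀ L : Subgroup M, (Finset.univ.filter (· ∈ L)) =
      Finset.univ.filter (fun z : M => z ^ Nat.card L = 1) := by
    intro L
    refine Finset.eq_of_subset_of_card_le ?_ ?_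
    · intro z hz
      rw [Finset.mem_filter] at hz ⊢
      exact ⟨Finset.mem_univ z, orderOf_dvd_iff_pow_eq_one.mp (Subgroup.orderOf_dvd_natCard L hz.2)⟩
    · rw [← Fintype.card_subtype (fun z => z ∈ L), Fintype.card_eq_nat_card]
      exact (IsCyclic.card_pow_eq_one_le Nat.card_pos).trans le_rfl
  have e1 : Nat.card (A.subgroupOf M) = Nat.card (B.subgroupOf M) := by
    rw [Nat.card_congr (Subgroup.subgroupOfEquivOfLe hA).toEquiv, Nat.card_congr (Subgroup.subgroupOfEquivOfLe hB).toEquiv, h]
  have e2 : A.subgroupOf M = B.subgroupOf M := by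
    ext z
    have := congrArg (z ∈ ·) ((key (A.subgroupOf M)).trans ((e1 ▸ rfl : _ = Finset.univ.filter (fun z : M => z ^ Nat.card (B.subgroupOf M) = 1)).trans (key (B.subgroupOf M)).symm))
    simpa using this
  have := congrArg (Subgroup.map M.subtype) e2
  rwa [Subgroup.subgroupOf_map_subtype, Subgroup.subgroupOf_map_subtype, inf_eq_left.mpr hA, inf_eq_left.mpr hB] at this

theorem aux (m : ℕ) : ∀ (p : ℕ), p.Prime → ∀ (G : Type u) [Group G] [Finite G], Nat.card G = p ^ m →
    ∀ s, 1 ≤ s → s < m → (p ≠ 2 ∨ 2 ≤ s) →
    (∀ H K : Subgroup G, Nat.card H = p ^ s → Nat.card K = p ^ s → H = K) → IsCyclic G := by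
  induction m using Nat.strong_induction_on with
  | _ m ih =>
    intro p hp G _ _ hG s hs hsm h2 huniq
    haveI := Fact.mk hp
    classical
    by_contra hnc
    have hP : IsPGroup p G := IsPGroup.of_card hG
    -- every proper subgroup is cyclic
    have hsub : ∀ M : Subgroup G, M ≠ ⊤ → IsCyclic M := by
      intro M hM
      obtain ⟨j, hj⟩ := IsPGroup.iff_card.mp (hP.to_subgroup M)
      have hjm : j < m := by
        have := lt_of_le_of_ne (Subgroup.card_le_card_group M) fun e => hM (Subgroup.eq_top_of_card_eq M e)
        rw [hj, hG] at this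
        exact (Nat.pow_lt_pow_iff_right hp.one_lt).mp this
      by_cases hjs : j ≤ s
      · -- `M` lies in the unique subgroup of order `p^s`
        obtain ⟨K, hK, hMK⟩ := Sylow.exists_subgroup_card_pow_prime_le p (hG ▸ pow_dvd_pow p hsm.le) M hj hjs
        obtain ⟨T, hT, hKT⟩ := Sylow.exists_subgroup_card_pow_prime_le p (hG ▸ pow_dvd_pow p (by omega : s + 1 ≤ m)) K hK (by omega)
        -- every proper subgroup of `T` of order `p^s` is `K`, so `T` is cyclic
        have hTc : IsCyclic T := by
          by_cases hsm1 : s + 1 < m
          · exact ih (s + 1) hsm1 p hp T hT s hs (by omega) h2 fun A B hA hB => by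
              have := huniq (A.map T.subtype) (B.map T.subtype)
                (by rw [← hA]; exact (Nat.card_congr (A.equivMapOfInjective _ T.subtype_injective).toEquiv).symm)
                (by rw [← hB]; exact (Nat.card_congr (B.equivMapOfInjective _ T.subtype_injective).toEquiv).symm)
              exact Subgroup.map_injective T.subtype_injective this
          · refine absurd ?_ hnc
            obtain ⟨g, hg⟩ : ∃ g, g ∉ K := by
              by_contra hall; push Not at hall
              have : K = ⊤ := (Subgroup.eq_top_iff' K).mpr hall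
              rw [this, Subgroup.card_top, hG] at hK
              exact absurd (Nat.pow_right_injective hp.two_le hK) (by omega)
            refine isCyclic_iff_exists_zpowers_eq_top.mpr ⟨g, ?_⟩
            by_contra hz
            obtain ⟨i, hi⟩ := IsPGroup.iff_card.mp (hP.to_subgroup (Subgroup.zpowers g))
            have him : i < m := by
              have := lt_of_le_of_ne (Subgroup.card_le_card_group (Subgroup.zpowers g)) fun e => hz (Subgroup.eq_top_of_card_eq _ e)
              rw [hi, hG] at this
              exact (Nat.pow_lt_pow_iff_right hp.one_lt).mp this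
            obtain ⟨K', hK', hle⟩ := Sylow.exists_subgroup_card_pow_prime_le p (hG ▸ pow_dvd_pow p hsm.le) _ hi (by omega)
            exact hg (huniq K' K hK' hK ▸ hle (Subgroup.mem_zpowers g))
        haveI := hTc
        exact Subgroup.isCyclic_of_le (hMK.trans hKT)
      · exact ih j hjm p hp M hj s hs (by omega) h2 fun A B hA hB => by
          have := huniq (A.map M.subtype) (B.map M.subtype)
            (by rw [← hA]; exact (Nat.card_congr (A.equivMapOfInjective _ M.subtype_injective).toEquiv).symm)
            (by rw [← hB]; exact (Nat.card_congr (B.equivMapOfInjective _ M.subtype_injective).toEquiv).symm)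
          exact Subgroup.map_injective M.subtype_injective this
    by_cases hu : CfsgLib.UniqueOrderP.Uniq p G
    · rcases CfsgLib.UniqueOrderP.cyclic_or_quaternion hP hu with hc | ⟨hp2, n, ⟨e⟩⟩
      · exact hnc hc
      subst hp2
      have hs2 : 2 ≤ s := h2.resolve_left fun h => h rfl
      cases n with
      | zero =>
        haveI : IsCyclic (QuaternionGroup (2 ^ 0)) := by rw [pow_zero]; exact QuaternionGroup.quaternionGroup_one_isCyclic
        exact hnc (isCyclic_of_surjective e.symm e.symm.surjective)
      | succ k =>
        -- two cyclic subgroups of order four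
        haveI : NeZero (2 ^ (k + 1)) := ⟨(Nat.two_pow_pos _).ne'⟩
        let u : G := e.symm (QuaternionGroup.a (2 ^ k : ℕ))
        let v : G := e.symm (QuaternionGroup.xa 0)
        have hv : orderOf v = 4 := by
          rw [show v = e.symm (QuaternionGroup.xa 0) from rfl, MulEquiv.orderOf_eq, QuaternionGroup.orderOf_xa]
        have hu4 : orderOf u = 4 := by
          rw [show u = e.symm _ from rfl, MulEquiv.orderOf_eq, ← QuaternionGroup.a_one_pow, orderOf_pow' _ (Nat.two_pow_pos k).ne',
            QuaternionGroup.orderOf_a_one, show 2 * 2 ^ (k + 1) = 4 * 2 ^ k by ring, Nat.gcd_mul_left_left,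
            Nat.mul_div_cancel _ (Nat.two_pow_pos k)]
        have hne : Subgroup.zpowers u ≠ Subgroup.zpowers v := by
          intro he
          have : v ∈ Subgroup.zpowers u := he ▸ Subgroup.mem_zpowers v
          obtain ⟨i, hi⟩ := (mem_powers_iff_mem_zpowers.mpr this)
          have h5 : (e v : QuaternionGroup (2 ^ (k + 1))) = (e u) ^ i := by rw [← hi]; exact map_pow e u i
          simp only [u, v, MulEquiv.apply_symm_apply, ← QuaternionGroup.a_one_pow, ← pow_mul] at h5
          rw [QuaternionGroup.a_one_pow] at h5
          simp at h5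
        obtain ⟨K, hK, hle1⟩ := Sylow.exists_subgroup_card_pow_prime_le 2 (hG ▸ pow_dvd_pow 2 hsm.le) (Subgroup.zpowers u)
          (n := 2) (by rw [Nat.card_zpowers, hu4]; norm_num) hs2
        obtain ⟨K', hK', hle2⟩ := Sylow.exists_subgroup_card_pow_prime_le 2 (hG ▸ pow_dvd_pow 2 hsm.le) (Subgroup.zpowers v)
          (n := 2) (by rw [Nat.card_zpowers, hv]; norm_num) hs2
        obtain rfl := huniq K' K hK' hK
        have hKne : K' ≠ ⊤ := fun e' => by
          rw [e', Subgroup.card_top, hG] at hK'
          exact absurd (Nat.pow_right_injective le_rfl hK') (by omega)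
        exact hne (zpowers_eq_of_le_cyclic (hsub K' hKne) hle1 hle2 (by rw [Nat.card_zpowers, Nat.card_zpowers, hu4, hv]))
    · -- two commuting independent elements of order `p`
      unfold CfsgLib.UniqueOrderP.Uniq at hu
      push Not at hu
      obtain ⟨x, y, hx, hy, hxy⟩ := hu
      haveI : Nontrivial G := ⟨⟨x, 1, fun e => hp.ne_one (by rw [← hx, e, orderOf_one])⟩⟩
      haveI := hP.center_nontrivial
      obtain ⟨z, hz⟩ : ∃ z : Subgroup.center G, orderOf z = p := by
        obtain ⟨i, hi0, hi⟩ := (hP.to_subgroup (Subgroup.center G)).nontrivial_iff_card.mp inferInstance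
        exact exists_prime_orderOf_dvd_card' p (hi ▸ dvd_pow_self p hi0.ne')
      have hz' : orderOf (z : G) = p := by rw [Subgroup.orderOf_coe, hz]
      obtain ⟨w, hw, hwz⟩ : ∃ w, orderOf w = p ∧ w ∉ Subgroup.zpowers (z : G) := by
        by_contra hall
        push Not at hall
        have e1 : Subgroup.zpowers x = Subgroup.zpowers (z : G) := Subgroup.eq_of_le_of_card_ge
          (Subgroup.zpowers_le.mpr (hall x hx)) (by rw [Nat.card_zpowers, Nat.card_zpowers, hx, hz'])
        exact hxy (e1 ▸ hall y hy)
      let E : Subgroup G := Subgroup.closure {(z : G), w}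
      have hE : IsMulCommutative E := Subgroup.isMulCommutative_closure (by
        intro a ha b hb
        simp only [Set.mem_insert_iff, Set.mem_singleton_iff] at ha hb
        have hc : (z : G) * w = w * (z : G) := (Subgroup.mem_center_iff.mp z.2 w).symm
        rcases ha with rfl | rfl <;> rcases hb with rfl | rfl <;> first | rfl | exact hc | exact hc.symm)
      have hEne : E ≠ ⊤ → False := fun hne =>
        hwz (zpowers_eq_of_le_cyclic (hsub E hne)
          (Subgroup.zpowers_le.mpr (Subgroup.subset_closure (Set.mem_insert_of_mem _ rfl)))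
          (Subgroup.zpowers_le.mpr (Subgroup.subset_closure (Set.mem_insert _ _)))
          (by rw [Nat.card_zpowers, Nat.card_zpowers, hw, hz']) ▸ Subgroup.mem_zpowers w)
      have hEtop : E = ⊤ := by by_contra h'; exact hEne h'
      -- then every element has order dividing `p`
      have hexp : ∀ g : G, g ^ p = 1 := by
        intro g
        have hg : g ∈ E := hEtop ▸ Subgroup.mem_top g
        induction hg using Subgroup.closure_induction with
        | mem a ha =>
          rcases ha with rfl | rfl
          · rw [← hz']; exact pow_orderOf_eq_one _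
          · rw [← hw]; exact pow_orderOf_eq_one _
        | one => exact one_pow _
        | mul a b ha hb iha ihb =>
          have hc : Commute a b := congrArg Subtype.val (hE.is_comm.comm (⟨a, ha⟩ : E) ⟨b, hb⟩)
          rw [hc.mul_pow, iha, ihb, one_mul]
        | inv a _ iha => rw [inv_pow, iha, inv_one]
      -- two subgroups of order `p ^ s` containing `z` and `w`
      obtain ⟨K, hK, hle1⟩ := Sylow.exists_subgroup_card_pow_prime_le p (hG ▸ pow_dvd_pow p hsm.le) (Subgroup.zpowers (z : G))
        (n := 1) (by rw [Nat.card_zpowers, hz', pow_one]) hs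
      obtain ⟨K', hK', hle2⟩ := Sylow.exists_subgroup_card_pow_prime_le p (hG ▸ pow_dvd_pow p hsm.le) (Subgroup.zpowers w)
        (n := 1) (by rw [Nat.card_zpowers, hw, pow_one]) hs
      obtain rfl := huniq K' K hK' hK
      have hKne : K' ≠ ⊤ := fun e' => by
        rw [e', Subgroup.card_top, hG] at hK'
        exact absurd (Nat.pow_right_injective hp.two_le hK') (by omega)
      exact hwz (zpowers_eq_of_le_cyclic (hsub K' hKne) hle2 hle1
        (by rw [Nat.card_zpowers, Nat.card_zpowers, hw, hz']) ▸ Subgroup.mem_zpowers w)

/-- Let `p` be a prime and `G` a group of order `p ^ m` which has exactly one subgroup of order `p ^ s`, where `1 ≤ s < m`, and where `s ≥ 2` if `p = 2`. Then `G` is cyclic. (For `p = 2` and `s = 1` the generalized quaternion groups also occur; that case is the classical criterion for a unique involution.) -/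
theorem result {G : Type*} [Group G] [Finite G] (p m s : ℕ) (hp : p.Prime) (hG : Nat.card G = p ^ m) (hs : 1 ≤ s) (hsm : s < m) (h2 : p ≠ 2 ∨ 2 ≤ s) (huniq : ∀ H K : Subgroup G, Nat.card H = p ^ s → Nat.card K = p ^ s → H = K) : IsCyclic G := by
  exact aux m p hp G hG s hs hsm h2 huniq

end Cfsg.Agent.S3977
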