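import Cfsg.Statements.S3978
import Cfsg.Agent.Lib.Schur.Projective

set_option autoImplicit false
open Cfsg

namespace Cfsg.Agent.S3978

/-- A finite group `Q` has trivial Schur multiplier if and only if, for every `n`, every homomorphism from `Q` to the projective general linear group (the quotient of `GL n ℂ` by its centre) lifts to a homomorphism into `GL n ℂ`. -/
theorem result {Q : Type*} [Group Q] [Finite Q] : Cfsg.HasCyclicSchurMultiplier Q 1 ↔ ∀ (n : ℕ) (γ : Q →* (GL (Fin n) ℂ ⧸ Subgroup.center (GL (Fin n) ℂ))), ∃ ρ : Q →* GL (Fin n) ℂ, (QuotientGroup.mk' (Subgroup.center (GL (Fin n) ℂ))).comp ρ = γ := by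
  constructor
  · intro h n γ
    haveI := CfsgLib.Schur.hasCyclic_one_iff.mp h
    have hid : Cfsg.IsStemExtension (MonoidHom.id Q) :=
      ⟨Function.surjective_id, fun x hx => by rw [show x = 1 from hx]; exact one_mem _,
        fun x hx => by rw [show x = 1 from hx]; exact one_mem _⟩
    obtain ⟨ρ, hρ⟩ := CfsgLib.Schur.exists_projective_lift (MonoidHom.id Q) hid
      ((Nat.card_of_subsingleton (1 : CfsgLib.Schur.M Q)).le.trans Nat.card_pos) n γ
    exact ⟨ρ, hρ.trans (MonoidHom.comp_id _)⟩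
  · intro h
    rw [CfsgLib.Schur.hasCyclic_one_iff]
    obtain ⟨⟨Δ, _, _, τ, hτ, ⟨e⟩⟩, -⟩ := CfsgLib.Schur.hasSchurMultiplier Q
    have hid : Cfsg.IsStemExtension (MonoidHom.id Q) :=
      ⟨Function.surjective_id, fun x hx => by rw [show x = 1 from hx]; exact one_mem _,
        fun x hx => by rw [show x = 1 from hx]; exact one_mem _⟩
    obtain ⟨π, hπ⟩ := CfsgLib.Schur.ker_surjection_of_lifts (MonoidHom.id Q) hid
      (fun n γ => by obtain ⟨ρ, hρ⟩ := h n γ; exact ⟨ρ, hρ.trans (MonoidHom.comp_id _).symm⟩) τ hτ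
    haveI : Subsingleton (MonoidHom.id Q).ker := ⟨fun a b => Subtype.ext (a.2.trans b.2.symm)⟩
    haveI : Subsingleton τ.ker := hπ.subsingleton
    exact e.toEquiv.symm.subsingleton

end Cfsg.Agent.S3978
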