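import Cfsg.Statements.S3980
import Cfsg.Agent.Lib.Schur.Product

set_option autoImplicit false
universe u v w
open Cfsg

namespace Cfsg.Agent.S3980

/-- Let `Q₁` and `Q₂` be finite groups whose commutator quotients have coprime orders, with Schur multipliers `A` and `B`. Then the Schur multiplier of `Q₁ × Q₂` is isomorphic to `A × B`. -/
theorem result {Q₁ : Type u} {Q₂ : Type v} [Group Q₁] [Group Q₂] [Finite Q₁] [Finite Q₂] {A B : Type w} [CommGroup A] [CommGroup B] (hA : Cfsg.HasSchurMultiplier Q₁ A) (hB : Cfsg.HasSchurMultiplier Q₂ B) (hcop : Nat.Coprime (Nat.card (Abelianization Q₁)) (Nat.card (Abelianization Q₂))) : Cfsg.HasSchurMultiplier (Q₁ × Q₂) (A × B) := by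
  have hsub : Subsingleton (CfsgLib.Schur.Tens Q₁ Q₂) := by
    refine ⟨fun x y => ?_⟩
    suffices h : ∀ z : CfsgLib.Schur.Tens Q₁ Q₂, z = 0 by rw [h x, h y]
    intro z
    induction z using TensorProduct.induction_on with
    | zero => rfl
    | tmul a b =>
      have h1 : Nat.card (Abelianization Q₁) • a = 0 := congrArg Additive.ofMul (pow_card_eq_one' (x := Additive.toMul a))
      have h2 : Nat.card (Abelianization Q₂) • b = 0 := congrArg Additive.ofMul (pow_card_eq_one' (x := Additive.toMul b))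
      obtain ⟨s, t, hst⟩ := Nat.isCoprime_iff_coprime.mpr hcop
      calc TensorProduct.tmul ℤ a b = TensorProduct.tmul ℤ ((s * (Nat.card (Abelianization Q₁) : ℤ) + t * (Nat.card (Abelianization Q₂) : ℤ)) • a) b := by
            rw [hst, one_zsmul]
        _ = 0 := by
            rw [add_zsmul, mul_zsmul, natCast_zsmul, h1, zsmul_zero, zero_add, ← TensorProduct.smul_tmul', TensorProduct.smul_tmul', TensorProduct.smul_tmul,
              mul_zsmul, natCast_zsmul, h2, zsmul_zero, TensorProduct.tmul_zero]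
    | add a b ha hb => rw [ha, hb, add_zero]
  haveI := hsub
  haveI : Unique (Multiplicative (CfsgLib.Schur.Tens Q₁ Q₂)) := { default := 1, uniq := fun x => Multiplicative.toAdd.injective (Subsingleton.elim _ _) }
  let e : A × B × Multiplicative (CfsgLib.Schur.Tens Q₁ Q₂) ≃* A × B :=
    { toFun := fun x => (x.1, x.2.1)
      invFun := fun x => (x.1, x.2, 1)
      left_inv := fun x => Prod.ext rfl (Prod.ext rfl (Subsingleton.elim _ _))
      right_inv := fun x => rfl
      map_mul' := fun x y => rfl }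
  obtain ⟨⟨Γ, i, j, σ, hσ, ⟨f⟩⟩, h⟩ := CfsgLib.Schur.hasSchurMultiplier_prod hA hB
  refine ⟨⟨Γ, i, j, σ, hσ, ⟨f.trans e⟩⟩, fun Δ _ _ τ hτ => ?_⟩
  obtain ⟨π, hπ⟩ := h Δ τ hτ
  exact ⟨π.comp e.symm.toMonoidHom, hπ.comp e.symm.surjective⟩

end Cfsg.Agent.S3980
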