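import Cfsg.Statements.S3994
import Cfsg.Agent.Lib.GroupB.FrobDiv

set_option autoImplicit false
open Cfsg

namespace Cfsg.Agent.S3994

/-- Let G be a finite group and n a positive integer. The number of elements of G whose order is divisible by n is either 0 or divisible by the largest divisor of the order of G that is coprime to n. -/
theorem result {G : Type*} [Group G] [Finite G] (n : ℕ) (hn : 0 < n) :
    Nat.card {g : G // n ∣ orderOf g} = 0 ∨
      (Nat.card G / Nat.gcd (Nat.card G) (n ^ Nat.card G)) ∣ Nat.card {g : G // n ∣ orderOf g} := by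
  classical
  haveI := Fintype.ofFinite G
  right
  let g' := Nat.card G / Nat.gcd (Nat.card G) (n ^ Nat.card G)
  have hG : Nat.card G ≠ 0 := Nat.card_pos.ne'
  show g' ∣ _
  rw [Nat.dvd_iff_prime_pow_dvd_dvd]
  intro q k hq hqk
  rcases Nat.eq_zero_or_pos k with rfl | hk
  · simp
  have hg'dvd : g' ∣ Nat.card G := Nat.div_dvd_of_dvd (Nat.gcd_dvd_left _ _)
  have hqg : q ∣ g' := (dvd_pow_self q hk.ne').trans hqk
  have hqn : ¬ q ∣ n := by
    intro hd
    let v := (Nat.card G).factorization q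
    have h1 : q ^ v ∣ Nat.gcd (Nat.card G) (n ^ Nat.card G) :=
      Nat.dvd_gcd (Nat.ordProj_dvd _ _) ((pow_dvd_pow_of_dvd hd v).trans
        (Nat.pow_dvd_pow n ((Nat.factorization_lt q hG).le)))
    have h2 : q ^ v * q ∣ Nat.card G := by
      have := Nat.mul_dvd_mul h1 hqg
      rwa [Nat.mul_div_cancel' (Nat.gcd_dvd_left _ _)] at this
    rw [← pow_succ] at h2
    have := (hq.pow_dvd_iff_le_factorization hG).mp h2
    omega
  let v := (Nat.card G).factorization q
  have hkv : k ≤ v := (hq.pow_dvd_iff_le_factorization hG).mp (hqk.trans hg'dvd)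
  refine (Nat.pow_dvd_pow q hkv).trans ?_
  -- split along `x ↦ x ^ (q ^ v)`
  have hkey : ∀ x : G, n ∣ orderOf x ↔ n ∣ orderOf (x ^ q ^ v) := by
    intro x
    rw [orderOf_pow' x (pow_ne_zero v hq.ne_zero)]
    refine ⟨fun h => ?_, fun h => h.trans (Nat.div_dvd_of_dvd (Nat.gcd_dvd_left _ _))⟩
    have hc : n.Coprime (Nat.gcd (orderOf x) (q ^ v)) :=
      Nat.Coprime.coprime_dvd_right (Nat.gcd_dvd_right _ _) ((hq.coprime_iff_not_dvd.mpr hqn).symm.pow_right v)
    refine hc.dvd_of_dvd_mul_left ?_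
    rwa [Nat.mul_div_cancel' (Nat.gcd_dvd_left _ _)]
  rw [Nat.card_eq_fintype_card, Fintype.card_subtype, Finset.card_eq_sum_card_image (fun x => ConjClasses.mk (x ^ q ^ v))]
  refine Finset.dvd_sum fun C hC => ?_
  obtain ⟨x₀, hx₀, rfl⟩ := Finset.mem_image.mp hC
  have hfil : ((Finset.univ.filter fun x : G => n ∣ orderOf x).filter fun x => ConjClasses.mk (x ^ q ^ v) =
      ConjClasses.mk (x₀ ^ q ^ v)) = Finset.univ.filter fun x => IsConj (x₀ ^ q ^ v) (x ^ q ^ v) := by
    ext x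
    simp only [Finset.mem_filter, Finset.mem_univ, true_and, ConjClasses.mk_eq_mk_iff_isConj]
    refine ⟨fun h => h.2.symm, fun h => ⟨?_, h.symm⟩⟩
    obtain ⟨u, hu⟩ := isConj_iff.mp h
    rw [hkey, ← hu]
    have he : orderOf (u * x₀ ^ q ^ v * u⁻¹) = orderOf (x₀ ^ q ^ v) := (MulAut.conj u).orderOf_eq _
    rw [he, ← hkey]
    exact (Finset.mem_filter.mp hx₀).2
  rw [hfil, ← Fintype.card_subtype, ← Nat.card_eq_fintype_card]
  refine Nat.dvd_trans ?_ (CfsgLib.GroupB.FrobDiv.frobenius (x₀ ^ q ^ v) (q ^ v))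
  exact Nat.dvd_gcd (Dvd.intro_left _ rfl) (Nat.ordProj_dvd _ _)

end Cfsg.Agent.S3994
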