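import Cfsg.Statements.S3995
import Mathlib
import Cfsg.Agent.Lib.GroupB.FrobDiv
import Cfsg.Agent.Lib.UniqueOrderP

set_option autoImplicit false
open Cfsg

namespace Cfsg.Agent.S3995

/-- Let G be a finite group such that the numbers of elements of each order that occurs in G (the numbers #{g : o(g) = m}, m ranging over the element orders of G) take exactly two values, 1 and some n ≠ 1. Then either G is a p-group of exponent p and order at least 3 for some prime p, or G is the quaternion group of order 8, or G is cyclic of order 4, or G ≅ Z₂ × P for a p-group P of exponent p with p an odd prime. -/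
theorem result {G : Type*} [Group G] [Finite G] (n : ℕ) (hn : n ≠ 1) (h : ((fun m : ℕ => Nat.card {g : G // orderOf g = m}) '' Set.range (orderOf : G → ℕ)) = {1, n}) :
    (∃ p : ℕ, p.Prime ∧ IsPGroup p G ∧ 3 ≤ Nat.card G ∧ Monoid.exponent G = p) ∨
      Nonempty (G ≃* QuaternionGroup 2) ∨ (IsCyclic G ∧ Nat.card G = 4) ∨
      (∃ (p : ℕ) (P : Type) (_ : Group P) (_ : Finite P), p.Prime ∧ p ≠ 2 ∧ IsPGroup p P ∧ Monoid.exponent P = p ∧
        Nonempty (G ≃* Multiplicative (ZMod 2) × P)) := by
  classical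
  haveI := Fintype.ofFinite G
  haveI := Fact.mk Nat.prime_two
  let c : ℕ → ℕ := fun m => Nat.card {g : G // orderOf g = m}
  let S : ℕ → ℕ := fun m => Nat.card {g : G // g ^ m = 1}
  have hc : ∀ g : G, c (orderOf g) = 1 ∨ c (orderOf g) = n := fun g => by
    have h1 : c (orderOf g) ∈ ({1, n} : Set ℕ) := h ▸ ⟨orderOf g, Set.mem_range_self g, rfl⟩
    simpa using h1
  have hc0 : ∀ g : G, 0 < c (orderOf g) := fun g => by
    haveI : Nonempty {y : G // orderOf y = orderOf g} := ⟨⟨g, rfl⟩⟩
    exact Nat.card_pos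
  have hnone : ∀ m, (¬ ∃ g : G, orderOf g = m) → c m = 0 := fun m hm => by
    haveI : IsEmpty {y : G // orderOf y = m} := ⟨fun y => hm ⟨y.1, y.2⟩⟩
    exact Nat.card_of_isEmpty
  have hc1 : c 1 = 1 := by
    show Nat.card _ = 1
    rw [Nat.card_eq_one_iff_unique]
    exact ⟨⟨fun a b => Subtype.ext ((orderOf_eq_one_iff.mp a.2).trans (orderOf_eq_one_iff.mp b.2).symm)⟩,
      ⟨⟨1, orderOf_one⟩⟩⟩
  have hn0 : 0 < n := by
    have h1 : n ∈ ({1, n} : Set ℕ) := by simp
    rw [← h] at h1
    obtain ⟨_, ⟨g, rfl⟩, hg⟩ := h1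
    exact hg ▸ hc0 g
  have hbig : ∀ g : G, 3 ≤ orderOf g → c (orderOf g) = n ∧ 2 ∣ n := by
    intro g hg
    have hinv : ∀ y : G, orderOf y = orderOf g → y⁻¹ ≠ y := fun y hy e => by
      have h1 : y ^ 2 = 1 := by rw [pow_two]; nth_rewrite 1 [← e]; exact inv_mul_cancel y
      have := Nat.le_of_dvd two_pos (orderOf_dvd_of_pow_eq_one h1)
      omega
    have h2 : 1 < c (orderOf g) := by
      have hnt : Nontrivial {y : G // orderOf y = orderOf g} :=
        ⟨⟨⟨g⁻¹, orderOf_inv g⟩, ⟨g, rfl⟩, fun e => hinv g rfl (congrArg Subtype.val e)⟩⟩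
      exact Finite.one_lt_card
    have h3 : c (orderOf g) = n := (hc g).resolve_left (by omega)
    refine ⟨h3, ?_⟩
    by_contra hodd
    let π : Equiv.Perm {y : G // orderOf y = orderOf g} :=
      { toFun := fun y => ⟨y.1⁻¹, (orderOf_inv _).trans y.2⟩
        invFun := fun y => ⟨y.1⁻¹, (orderOf_inv _).trans y.2⟩
        left_inv := fun y => Subtype.ext (inv_inv _)
        right_inv := fun y => Subtype.ext (inv_inv _) }
    obtain ⟨y, hy⟩ := Equiv.Perm.exists_fixed_point_of_prime (p := 2) (n := 1)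
      (by rw [← Nat.card_eq_fintype_card]; show ¬ 2 ∣ c (orderOf g); rw [h3]; exact hodd : ¬ 2 ∣ Fintype.card {y : G // orderOf y = orderOf g})
      (σ := π) (Equiv.ext fun y => Subtype.ext (inv_inv _))
    exact hinv y.1 y.2 (congrArg Subtype.val hy)
  have hS : ∀ m, 0 < m → S m = ∑ d ∈ m.divisors, c d := by
    intro m hm
    show Nat.card {g : G // g ^ m = 1} = ∑ d ∈ m.divisors, Nat.card {g : G // orderOf g = d}
    simp only [Nat.card_eq_fintype_card, Fintype.card_subtype]
    rw [Finset.card_eq_sum_card_fiberwise (f := orderOf) (t := m.divisors) (fun g hg => by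
      simp only [Finset.coe_filter, Finset.mem_univ, true_and, Set.mem_setOf_eq] at hg
      exact Finset.mem_coe.mpr (Nat.mem_divisors.mpr ⟨orderOf_dvd_of_pow_eq_one hg, hm.ne'⟩))]
    refine Finset.sum_congr rfl fun d hd => congrArg Finset.card ?_
    ext g
    simp only [Finset.mem_filter, Finset.mem_univ, true_and]
    exact ⟨fun h => h.2, fun h => ⟨orderOf_dvd_iff_pow_eq_one.mp (h ▸ (Nat.mem_divisors.mp hd).1), h⟩⟩
  have hdvd : ∀ m, m ∣ Nat.card G → m ∣ S m := fun m hm => CfsgLib.GroupB.FrobDiv.dvd_card_pow_eq_one hm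
  have hex : ∀ q, q.Prime → q ∣ Nat.card G → ∃ g : G, orderOf g = q := fun q hq hqd => by
    haveI := Fact.mk hq; exact exists_prime_orderOf_dvd_card' q hqd
  -- odd primes
  have hp1 : ∀ p, p.Prime → p ≠ 2 → p ∣ Nat.card G → c p = n ∧ p ∣ 1 + n := by
    intro p hp hp2 hpd
    obtain ⟨g, hg⟩ := hex p hp hpd
    have h2 : c p = n := hg ▸ (hbig g (by have := hp.two_le; omega)).1
    refine ⟨h2, ?_⟩
    have h3 := hdvd p hpd
    rw [hS p hp.pos, hp.divisors, Finset.sum_pair hp.ne_one.symm, hc1, h2] at h3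
    exact h3
  have hndiv : ∀ p, p.Prime → p ≠ 2 → p ∣ 1 + n → ¬ p ∣ n := fun p hp _ h1 h2 =>
    hp.not_dvd_one ((Nat.dvd_add_left h2).mp h1)
  have hsq : ∀ p, p.Prime → p ≠ 2 → ∀ g : G, orderOf g ≠ p ^ 2 := by
    intro p hp hp2 g hg
    have hd : p ^ 2 ∣ Nat.card G := hg ▸ orderOf_dvd_natCard g
    obtain ⟨h1, h2⟩ := hp1 p hp hp2 ((dvd_pow_self p two_ne_zero).trans hd)
    have h3 : c (p ^ 2) = n := hg ▸ (hbig g (by have := hp.two_le; nlinarith)).1
    have h4 := hdvd _ hd
    rw [hS _ (pow_pos hp.pos 2), Nat.sum_divisors_prime_pow hp] at h4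
    simp only [Finset.sum_range_succ, Finset.sum_range_zero, pow_zero, pow_one, hc1, h1, h3, zero_add] at h4
    have h5 : p ∣ 1 + n + n := (dvd_pow_self p two_ne_zero).trans h4
    exact hndiv p hp hp2 h2 ((Nat.dvd_add_right h2).mp h5)
  have huniq : ∀ p q, p.Prime → q.Prime → p ≠ 2 → q ≠ 2 → p ∣ Nat.card G → q ∣ Nat.card G → p = q := by
    intro p q hp hq hp2 hq2 hpd hqd
    by_contra hne
    have hd : p * q ∣ Nat.card G := ((Nat.coprime_primes hp hq).mpr hne).mul_dvd_of_dvd_of_dvd hpd hqd
    obtain ⟨h1, h2⟩ := hp1 p hp hp2 hpd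
    obtain ⟨h3, h4⟩ := hp1 q hq hq2 hqd
    have hdiv : (p * q).divisors = {1, p, q, p * q} := by
      ext d
      simp only [Nat.mem_divisors, Finset.mem_insert, Finset.mem_singleton]
      constructor
      · rintro ⟨hd', -⟩
        obtain ⟨a, b, ha, hb, rfl⟩ := Nat.dvd_mul.mp hd'
        rcases (Nat.dvd_prime hp).mp ha with rfl | rfl <;>
          rcases (Nat.dvd_prime hq).mp hb with rfl | rfl <;> simp
      · rintro (rfl | rfl | rfl | rfl) <;> simp [hp.ne_zero, hq.ne_zero]
    have hpq : p * q ≠ p ∧ p * q ≠ q ∧ p * q ≠ 1 := by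
      refine ⟨?_, ?_, ?_⟩ <;> nlinarith [hp.two_le, hq.two_le]
    have h5 := hdvd _ hd
    rw [hS _ (Nat.mul_pos hp.pos hq.pos), hdiv, Finset.sum_insert (by simp [hp.ne_one.symm, hq.ne_one.symm, hpq.2.2.symm]),
      Finset.sum_insert (by simp [hne, hpq.1.symm]), Finset.sum_pair hpq.2.1.symm, hc1, h1, h3] at h5
    have h6 : p ∣ 1 + n + (n + c (p * q)) := by
      refine (dvd_mul_right p q).trans ?_
      rwa [show 1 + n + (n + c (p * q)) = 1 + (n + (n + c (p * q))) by ring]
    have h7 := (Nat.dvd_add_right h2).mp h6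
    by_cases hx : ∃ g : G, orderOf g = p * q
    · obtain ⟨g, hg⟩ := hx
      have h8 : c (p * q) = n := hg ▸ (hbig g (by have := hp.two_le; have := hq.two_le; nlinarith)).1
      rw [h8, ← two_mul] at h7
      exact hndiv p hp hp2 h2 ((hp.dvd_mul.mp h7).resolve_left fun e => hp2 ((Nat.prime_dvd_prime_iff_eq hp Nat.prime_two).mp e))
    · rw [hnone _ hx, add_zero] at h7
      exact hndiv p hp hp2 h2 h7
  -- orders are built from at most one odd prime
  have hexp : ∀ p, p.Prime → p ≠ 2 → ∀ g : G, ¬ p ^ 2 ∣ orderOf g := by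
    intro p hp hp2 g hd
    obtain ⟨k, hk⟩ := hd
    refine hsq p hp hp2 (g ^ k) ?_
    rw [orderOf_pow_of_dvd (fun e => by rw [e, mul_zero] at hk; exact (orderOf_pos g).ne' hk) ⟨p ^ 2, by rw [hk, mul_comm]⟩,
      hk, Nat.mul_div_cancel _ (Nat.pos_of_ne_zero fun e => by rw [e, mul_zero] at hk; exact (orderOf_pos g).ne' hk)]
  by_cases h2G : 2 ∣ Nat.card G
  swap
  · -- odd order
    left
    have hnt : Nat.card G ≠ 1 := fun e => by
      have h1 : n ∈ ({1, n} : Set ℕ) := by simp
      rw [← h] at h1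
      obtain ⟨_, ⟨g, rfl⟩, hg⟩ := h1
      haveI := (Nat.card_eq_one_iff_unique.mp e).1
      have hg1 : g = 1 := Subsingleton.elim _ _
      change c (orderOf g) = n at hg
      rw [hg1, orderOf_one, hc1] at hg
      exact hn hg.symm
    obtain ⟨p, hp, hpd⟩ := Nat.exists_prime_and_dvd hnt
    have hp2 : p ≠ 2 := fun e => h2G (e ▸ hpd)
    haveI := Fact.mk hp
    have hord : ∀ g : G, g ^ p = 1 := fun g => by
      rw [← orderOf_dvd_iff_pow_eq_one]
      have h1 : ∀ q, q.Prime → q ∣ orderOf g → q = p := fun q hq hqd =>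
        huniq q p hq hp (fun e => h2G (e ▸ hqd.trans (orderOf_dvd_natCard g))) hp2 (hqd.trans (orderOf_dvd_natCard g)) hpd
      have h2 := Nat.eq_prime_pow_of_unique_prime_dvd (orderOf_pos g).ne' (fun {q} hq hqd => h1 q hq hqd)
      have h3 := hexp p hp hp2 g
      rw [h2] at h3 ⊢
      exact (pow_dvd_pow p (Nat.lt_succ_iff.mp (Nat.lt_of_not_ge fun hle => h3 (pow_dvd_pow p hle)))).trans (pow_one p).dvd
    refine ⟨p, hp, fun g => ⟨1, by rw [pow_one]; exact hord g⟩, ?_, ?_⟩
    · have := Nat.le_of_dvd Nat.card_pos hpd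
      have := hp.two_le
      omega
    · haveI : Nontrivial G := Finite.one_lt_card_iff_nontrivial.mp (lt_of_le_of_ne Nat.card_pos (Ne.symm hnt))
      exact (Monoid.exponent_eq_prime_iff hp).mpr fun g hg => orderOf_eq_prime (hord g) hg
  by_cases hall : ∀ g : G, g ^ 2 = 1
  · left
    have h4 : 3 ≤ Nat.card G := by
      by_contra hlt
      have hc2 : ∀ g : G, orderOf g = 1 ∨ (orderOf g = 2 ∧ c 2 = 1) := fun g => by
        rcases (Nat.dvd_prime Nat.prime_two).mp (orderOf_dvd_of_pow_eq_one (hall g)) with e | e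
        · exact Or.inl e
        · refine Or.inr ⟨e, ?_⟩
          have h5 : c 2 ≤ 1 := by
            haveI : Subsingleton {y : G // orderOf y = 2} := ⟨fun a b => by
              by_contra hab
              have h3 : ({1, a.1, b.1} : Finset G).card = 3 := by
                refine Finset.card_eq_three.mpr ⟨1, a.1, b.1, ?_, ?_, fun e => hab (Subtype.ext e), rfl⟩
                · intro e1; exact absurd a.2 (by rw [← e1, orderOf_one]; norm_num)
                · intro e1; exact absurd b.2 (by rw [← e1, orderOf_one]; norm_num)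
              have h6 := Finset.card_le_univ ({1, a.1, b.1} : Finset G)
              rw [← Nat.card_eq_fintype_card] at h6
              omega⟩
            exact Finite.card_le_one_iff_subsingleton.mpr inferInstance
          have := hc0 g
          rw [e] at this
          omega
      have h1 : n ∈ ({1, n} : Set ℕ) := by simp
      rw [← h] at h1
      obtain ⟨_, ⟨g, rfl⟩, hg⟩ := h1
      change c (orderOf g) = n at hg
      rcases hc2 g with e | ⟨e, e'⟩
      · rw [e, hc1] at hg; exact hn hg.symm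
      · rw [e, e'] at hg; exact hn hg.symm
    refine ⟨2, Nat.prime_two, fun g => ⟨1, by rw [pow_one]; exact hall g⟩, h4, ?_⟩
    haveI : Nontrivial G := Finite.one_lt_card_iff_nontrivial.mp (by omega)
    exact (Monoid.exponent_eq_prime_iff Nat.prime_two).mpr fun g hg => orderOf_eq_prime (hall g) hg
  push Not at hall
  obtain ⟨w, hw⟩ := hall
  have hn2 : 2 ∣ n := (hbig w (by
    have := orderOf_pos w
    by_contra hlt
    exact hw (orderOf_dvd_iff_pow_eq_one.mp (by interval_cases (orderOf w) <;> norm_num)))).2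
  obtain ⟨z, hz⟩ := hex 2 Nat.prime_two h2G
  have hc2 : c 2 = 1 := by
    rcases hc z with e | e <;> rw [hz] at e
    · exact e
    · exfalso
      have h3 := hdvd 2 h2G
      rw [hS 2 two_pos, Nat.prime_two.divisors, Finset.sum_pair (by norm_num), hc1, e] at h3
      exact Nat.prime_two.not_dvd_one ((Nat.dvd_add_left hn2).mp h3)
  have hzu : ∀ y : G, orderOf y = 2 → y = z := fun y hy => by
    have hss : Subsingleton {g : G // orderOf g = 2} := (Nat.card_eq_one_iff_unique.mp hc2).1
    exact congrArg Subtype.val (hss.elim ⟨y, hy⟩ ⟨z, hz⟩)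
  have hzc : ∀ g : G, Commute z g := fun g => by
    have h1 := hzu (g * z * g⁻¹) ((orderOf_injective (MulAut.conj g).toMonoidHom (MulAut.conj g).injective z).trans hz)
    exact (mul_inv_eq_iff_eq_mul.mp h1).symm
  have hno8 : ∀ g : G, ¬ 8 ∣ orderOf g := by
    intro g hd
    obtain ⟨k, hk⟩ := hd
    have hk0 : 0 < k := Nat.pos_of_ne_zero fun e => by rw [e, mul_zero] at hk; exact (orderOf_pos g).ne' hk
    have h8 : orderOf (g ^ k) = 8 := by
      rw [orderOf_pow_of_dvd hk0.ne' ⟨8, by rw [hk, mul_comm]⟩, hk, Nat.mul_div_cancel _ hk0]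
    have h4 : orderOf ((g ^ k) ^ 2) = 4 := by
      rw [orderOf_pow_of_dvd two_ne_zero (by rw [h8]; norm_num), h8]
    have e8 : c 8 = n := h8 ▸ (hbig _ (by rw [h8]; norm_num)).1
    have e4 : c 4 = n := h4 ▸ (hbig _ (by rw [h4]; norm_num)).1
    have h3 := hdvd 8 (h8 ▸ orderOf_dvd_natCard (g ^ k))
    rw [hS 8 (by norm_num), show (8 : ℕ).divisors = {1, 2, 4, 8} by decide, Finset.sum_insert (by decide),
      Finset.sum_insert (by decide), Finset.sum_pair (by decide), hc1, hc2, e4, e8] at h3
    obtain ⟨i, hi⟩ := hn2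
    obtain ⟨j, hj⟩ := h3
    omega
  by_cases hodd : ∃ p, p.Prime ∧ p ≠ 2 ∧ p ∣ Nat.card G
  · -- `Z/2 × P`
    obtain ⟨p, hp, hp2, hpd⟩ := hodd
    haveI := Fact.mk hp
    obtain ⟨hcp, hpn⟩ := hp1 p hp hp2 hpd
    obtain ⟨u, hu⟩ := hex p hp hpd
    have h2p : c (2 * p) = n := by
      have h1 : orderOf (z * u) = 2 * p := by
        rw [(hzc u).orderOf_mul_eq_mul_orderOf_of_coprime (by rw [hz, hu]; exact (Nat.coprime_primes Nat.prime_two hp).mpr (Ne.symm hp2)), hz, hu]
      exact h1 ▸ (hbig _ (by rw [h1]; have := hp.two_le; omega)).1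
    have hdiv : (2 * p).divisors = {1, 2, p, 2 * p} := by
      ext d
      simp only [Nat.mem_divisors, Finset.mem_insert, Finset.mem_singleton]
      constructor
      · rintro ⟨hd', -⟩
        obtain ⟨a, b, ha, hb, rfl⟩ := Nat.dvd_mul.mp hd'
        rcases (Nat.dvd_prime Nat.prime_two).mp ha with rfl | rfl <;>
          rcases (Nat.dvd_prime hp).mp hb with rfl | rfl <;> simp
      · rintro (rfl | rfl | rfl | rfl) <;> simp [hp.ne_zero]
    have hp3 : 3 ≤ p := by have := hp.two_le; omega
    have hS2p : S (2 * p) = 2 + 2 * n := by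
      rw [hS _ (by omega), hdiv, Finset.sum_insert (by simp; omega), Finset.sum_insert (by simp; omega),
        Finset.sum_pair (by omega), hc1, hc2, hcp, h2p]
      ring
    have hno4 : ∀ g : G, ¬ 4 ∣ orderOf g := by
      intro g hd
      obtain ⟨k, hk⟩ := hd
      have hk0 : 0 < k := Nat.pos_of_ne_zero fun e => by rw [e, mul_zero] at hk; exact (orderOf_pos g).ne' hk
      have h4 : orderOf (g ^ k) = 4 := by
        rw [orderOf_pow_of_dvd hk0.ne' ⟨4, by rw [hk, mul_comm]⟩, hk, Nat.mul_div_cancel _ hk0]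
      have e4 : c 4 = n := h4 ▸ (hbig _ (by rw [h4]; norm_num)).1
      have h44 := h4 ▸ orderOf_dvd_natCard (g ^ k)
      have hS4 := hdvd 4 h44
      rw [hS 4 (by norm_num), show (4 : ℕ).divisors = {1, 2, 4} by decide, Finset.sum_insert (by decide),
        Finset.sum_pair (by decide), hc1, hc2, e4] at hS4
      have hcop : Nat.Coprime 4 p := by
        rw [show (4 : ℕ) = 2 ^ 2 by norm_num]
        exact ((Nat.coprime_primes Nat.prime_two hp).mpr (Ne.symm hp2)).pow_left 2
      have h4p := hdvd (4 * p) (hcop.mul_dvd_of_dvd_of_dvd h44 hpd)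
      have hdiv4 : (4 * p).divisors = {1, 2, 4, p, 2 * p, 4 * p} := by
        ext d
        simp only [Nat.mem_divisors, Finset.mem_insert, Finset.mem_singleton]
        constructor
        · rintro ⟨hd', -⟩
          obtain ⟨a, b, ha, hb, rfl⟩ := Nat.dvd_mul.mp hd'
          have ha4 : a ∈ (4 : ℕ).divisors := Nat.mem_divisors.mpr ⟨ha, by norm_num⟩
          rw [show (4 : ℕ).divisors = {1, 2, 4} by decide] at ha4
          simp only [Finset.mem_insert, Finset.mem_singleton] at ha4
          rcases ha4 with rfl | rfl | rfl <;> rcases (Nat.dvd_prime hp).mp hb with rfl | rfl <;> simp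
        · rintro (e | e | e | e | e | e) <;> rw [e]
          exacts [⟨one_dvd _, by omega⟩, ⟨⟨2 * p, by ring⟩, by omega⟩, ⟨dvd_mul_right 4 p, by omega⟩,
            ⟨dvd_mul_left p 4, by omega⟩, ⟨mul_dvd_mul_right (by norm_num) p, by omega⟩, ⟨dvd_rfl, by omega⟩]
      have hp4 : p ≠ 4 := fun e => by rw [e] at hp; norm_num at hp
      rw [hS _ (by omega), hdiv4, Finset.sum_insert (by simp; omega), Finset.sum_insert (by simp; omega),
        Finset.sum_insert (by simp; omega), Finset.sum_insert (by simp; omega), Finset.sum_pair (by omega),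
        hc1, hc2, e4, hcp, h2p] at h4p
      by_cases hx : ∃ y : G, orderOf y = 4 * p
      · obtain ⟨y, hy⟩ := hx
        rw [(hy ▸ (hbig y (by omega)).1 : c (4 * p) = n)] at h4p
        obtain ⟨j, hj⟩ := (dvd_mul_right 4 p).trans h4p
        obtain ⟨i, hi⟩ := hS4
        omega
      · rw [hnone _ hx] at h4p
        have h5 : p ∣ 3 * (1 + n) - 1 := by
          have := (dvd_mul_left p 4).trans h4p
          rwa [show 3 * (1 + n) - 1 = 1 + (1 + (n + (n + (n + 0)))) by omega]
        have h6 := Nat.dvd_sub (dvd_mul_of_dvd_right hpn 3) h5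
        rw [show 3 * (1 + n) - (3 * (1 + n) - 1) = 1 by omega] at h6
        exact hp.not_dvd_one h6
    have hord : ∀ g : G, g ^ (2 * p) = 1 := by
      intro g
      rw [← orderOf_dvd_iff_pow_eq_one]
      have hmem : ∀ q, q.Prime → q ∣ orderOf g → q = 2 ∨ q = p := fun q hq hqd => by
        by_cases e : q = 2
        · exact Or.inl e
        · exact Or.inr (huniq q p hq hp e hp2 (hqd.trans (orderOf_dvd_natCard g)) hpd)
      rw [Nat.dvd_iff_prime_pow_dvd_dvd]
      intro q k hq hqk
      rcases k with _ | k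
      · simp
      rcases hmem q hq ((dvd_pow_self q (Nat.succ_ne_zero k)).trans hqk) with rfl | rfl
      · rcases k with _ | k
        · simp
        · exact absurd ((pow_dvd_pow 2 (show 2 ≤ k + 1 + 1 by omega)).trans hqk) (hno4 g)
      · rcases k with _ | k
        · simp
        · exact absurd ((pow_dvd_pow q (show 2 ≤ k + 1 + 1 by omega)).trans hqk) (hexp q hp hp2 g)
    have hG : Nat.card G = 2 + 2 * n := by
      rw [← hS2p]
      exact (Nat.card_congr (Equiv.subtypeUnivEquiv hord)).symm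
    obtain ⟨P⟩ := (inferInstance : Nonempty (Sylow p G))
    have hPp : ∀ g ∈ (P : Subgroup G), g ^ p = 1 := fun g hg => by
      obtain ⟨k, hk⟩ := IsPGroup.iff_orderOf.mp P.2 ⟨g, hg⟩
      rw [Subgroup.orderOf_mk] at hk
      rw [← orderOf_dvd_iff_pow_eq_one, hk]
      rcases k with _ | _ | k
      · simp
      · simp
      · exact absurd (hk ▸ pow_dvd_pow p (by omega)) (hexp p hp hp2 g)
    have hnz : z ∉ (P : Subgroup G) := fun e => by
      have h1 := orderOf_dvd_of_pow_eq_one (hPp z e)
      rw [hz] at h1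
      exact hp2 ((Nat.prime_dvd_prime_iff_eq Nat.prime_two hp).mp h1).symm
    have hPc : Nat.card (P : Subgroup G) = 1 + n := by
      obtain ⟨m, hm⟩ : ∃ m, 1 + n = p ^ m := by
        refine ⟨_, Nat.eq_prime_pow_of_unique_prime_dvd (by omega) (fun {q} hq hqd => ?_)⟩
        have hqG : q ∣ Nat.card G := by rw [hG, show 2 + 2 * n = 2 * (1 + n) by ring]; exact dvd_mul_of_dvd_right hqd 2
        refine huniq q p hq hp (fun e => ?_) hp2 hqG hpd
        rw [e] at hqd
        exact Nat.prime_two.not_dvd_one ((Nat.dvd_add_left hn2).mp hqd)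
      rw [P.card_eq_multiplicity, hG, show 2 + 2 * n = 2 * (1 + n) by ring, hm,
        Nat.factorization_mul two_ne_zero (pow_ne_zero _ hp.ne_zero)]
      congr 1
      simp [Nat.Prime.factorization Nat.prime_two, hp.factorization, Finsupp.single_apply, Ne.symm hp2]
    haveI hPn : (P : Subgroup G).Normal := by
      have hset : ∀ g : G, g ^ p = 1 → g ∈ (P : Subgroup G) := by
        intro g hg
        have hinj : Function.Injective (fun a : (P : Subgroup G) => (⟨a.1, hPp a.1 a.2⟩ : {g : G // g ^ p = 1})) :=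
          fun a b e => Subtype.ext (Subtype.mk.inj e)
        have hle : Nat.card {g : G // g ^ p = 1} ≤ Nat.card (P : Subgroup G) := by
          show S p ≤ _
          rw [hS p hp.pos, hp.divisors, Finset.sum_pair hp.ne_one.symm, hc1, hcp, hPc]
        obtain ⟨a, ha⟩ := (hinj.bijective_of_nat_card_le hle).2 ⟨g, hg⟩
        have e : a.1 = g := congrArg Subtype.val ha
        exact e ▸ a.2
      exact ⟨fun a ha g => hset _ (by rw [conj_pow, hPp a ha]; group)⟩
    right; right; right
    haveI : Nontrivial (P : Subgroup G) := Finite.one_lt_card_iff_nontrivial.mp (by omega)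
    let e0 := Finite.equivFin (P : Subgroup G)
    let f : (P : Subgroup G) →* Equiv.Perm (Fin (Nat.card (P : Subgroup G))) :=
      e0.permCongrHom.toMonoidHom.comp (MulAction.toPermHom (P : Subgroup G) (P : Subgroup G))
    have hf : Function.Injective f := e0.permCongrHom.injective.comp MulAction.toPerm_injective
    let e1 : (P : Subgroup G) ≃* f.range := MonoidHom.ofInjective hf
    refine ⟨p, f.range, inferInstance, inferInstance, hp, hp2, P.2.of_equiv e1, ?_, ?_⟩
    · rw [← Monoid.exponent_eq_of_mulEquiv e1]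
      exact (Monoid.exponent_eq_prime_iff hp).mpr fun g hg => orderOf_eq_prime (Subtype.ext (hPp g.1 g.2)) hg
    let φ : Subgroup.zpowers z × (P : Subgroup G) →* G :=
      MonoidHom.noncommCoprod (Subgroup.zpowers z).subtype (P : Subgroup G).subtype fun a b => by
        obtain ⟨i, hi⟩ := Subgroup.mem_zpowers_iff.mp a.2
        show Commute (a : G) b
        rw [← hi]; exact (hzc b).zpow_left i
    have hinj : Function.Injective φ := by
      rw [← MonoidHom.ker_eq_bot_iff, Subgroup.eq_bot_iff_forall]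
      rintro ⟨⟨a, ha⟩, ⟨b, hb⟩⟩ hab
      have h1 : a * b = 1 := hab
      have ha1 : a = 1 := by
        by_contra hne
        have h3 : orderOf a ∣ 2 := hz ▸ orderOf_dvd_of_mem_zpowers ha
        have h4 : a = z := hzu a (((Nat.dvd_prime Nat.prime_two).mp h3).resolve_left fun e => hne (orderOf_eq_one_iff.mp e))
        exact hnz (h4 ▸ (eq_inv_of_mul_eq_one_left h1) ▸ Subgroup.inv_mem _ hb)
      subst ha1
      rw [one_mul] at h1
      subst h1
      rfl
    have hbij : Function.Bijective φ := hinj.bijective_of_nat_card_le (by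
      rw [Nat.card_prod, Nat.card_zpowers, hz, hPc, hG, Nat.mul_add, mul_one])
    have e2 : Subgroup.zpowers z ≃* Multiplicative (ZMod 2) := mulEquivOfPrimeCardEq (p := 2) (by rw [Nat.card_zpowers, hz]) (by simp)
    exact ⟨(MulEquiv.ofBijective φ hbij).symm.trans (e2.prodCongr e1)⟩
  · -- a 2-group with one involution
    push Not at hodd
    have h2pg : IsPGroup 2 G := IsPGroup.of_card (Nat.eq_prime_pow_of_unique_prime_dvd Nat.card_pos.ne'
      (fun {q} hq hqd => by by_contra e; exact hodd q hq e hqd))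
    have hle4 : ∀ g : G, orderOf g ≤ 4 := by
      intro g
      obtain ⟨k, hk⟩ := IsPGroup.iff_orderOf.mp h2pg g
      have hk2 : k ≤ 2 := by
        by_contra hk3
        exact hno8 g (by rw [hk, show (8 : ℕ) = 2 ^ 3 by norm_num]; exact pow_dvd_pow 2 (by omega))
      rw [hk]
      exact Nat.pow_le_pow_right two_pos hk2
    obtain ⟨k, hk⟩ := IsPGroup.iff_orderOf.mp h2pg w
    have hw4 : orderOf w = 4 := by
      have h5 := hle4 w
      rw [hk] at h5 ⊢
      have h6 : k ≤ 2 := (Nat.pow_le_pow_iff_right (by norm_num)).mp (show 2 ^ k ≤ 2 ^ 2 from h5)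
      interval_cases k
      · exact absurd (orderOf_dvd_iff_pow_eq_one.mp (by rw [hk]; norm_num)) hw
      · exact absurd (orderOf_dvd_iff_pow_eq_one.mp (by rw [hk]; norm_num)) hw
      · norm_num
    rcases CfsgLib.UniqueOrderP.cyclic_or_quaternion (p := 2) h2pg (fun a b ha hb => by
        rw [hzu a ha, hzu b hb]; exact Subgroup.mem_zpowers z) with hcy | ⟨-, j, ⟨e⟩⟩
    · refine Or.inr (Or.inr (Or.inl ⟨hcy, le_antisymm ?_ ?_⟩))
      · obtain ⟨g, hg⟩ := hcy.exists_generator
        rw [← orderOf_eq_card_of_forall_mem_zpowers hg]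
        exact hle4 g
      · rw [← hw4]; exact Nat.le_of_dvd Nat.card_pos (orderOf_dvd_natCard w)
    · haveI : NeZero (2 ^ j) := ⟨pow_ne_zero j two_ne_zero⟩
      have ha : orderOf (e.symm (QuaternionGroup.a 1)) = 2 * 2 ^ j :=
        (orderOf_injective e.symm.toMonoidHom e.symm.injective _).trans (QuaternionGroup.orderOf_a_one)
      have h5 := hle4 (e.symm (QuaternionGroup.a 1))
      rw [ha] at h5
      have hj : 2 ^ j ≤ 2 ^ 1 := by omega
      have hj1 : j ≤ 1 := (Nat.pow_le_pow_iff_right (by norm_num)).mp hj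
      interval_cases j
      · refine Or.inr (Or.inr (Or.inl ⟨?_, ?_⟩))
        · haveI : IsCyclic (QuaternionGroup (2 ^ 0)) := QuaternionGroup.quaternionGroup_one_isCyclic
          exact isCyclic_of_surjective e.symm.toMonoidHom e.symm.surjective
        · rw [Nat.card_congr e.toEquiv, Nat.card_eq_fintype_card, QuaternionGroup.card]; norm_num
      · exact Or.inr (Or.inl ⟨e.trans (by exact MulEquiv.refl _)⟩)

end Cfsg.Agent.S3995
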