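import Cfsg.Statements.S3997
import Cfsg.Agent.Lib.GroupB.OrderType

set_option autoImplicit false
open Cfsg

namespace Cfsg.Agent.S3997

/-- Let G and H be finite groups with the same order type: for every m they have the same number of elements of order m. If G is nilpotent then so is H. -/
theorem result {G H : Type*} [Group G] [Finite G] [Group H] [Finite H] (hT : (∀ m : ℕ, Nat.card {g : G // orderOf g = m} = Nat.card {h : H // orderOf h = m})) (hG : Group.IsNilpotent G) :
    Group.IsNilpotent H := by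
  obtain ⟨e, he⟩ := CfsgLib.GroupB.OrderType.exists_equiv_orderOf hT
  refine CfsgLib.Core.isNilpotent_of_pCore_sylow fun p hp P => ?_
  haveI := Fact.mk hp
  obtain ⟨Q⟩ := (inferInstance : Nonempty (Sylow p G))
  have hQn : (Q : Subgroup G).Normal := by
    have e : Group.IsNilpotent G ↔ ∀ (p : ℕ) (_hp : Fact p.Prime) (P : Sylow p G), (P : Subgroup G).Normal :=
      (Group.isNilpotent_of_finite_tfae (G := G)).out 0 3
    exact e.mp hG p ⟨hp⟩ Q
  have hQ : ∀ g : G, g ∈ (Q : Subgroup G) ↔ ∃ k : ℕ, orderOf g = p ^ k := fun g =>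
    ⟨fun hg => by
      obtain ⟨k, hk⟩ := Q.2 ⟨g, hg⟩
      have h1 : g ^ p ^ k = 1 := congrArg Subtype.val hk
      obtain ⟨i, _, hi⟩ := (Nat.dvd_prime_pow hp).mp (orderOf_dvd_iff_pow_eq_one.mpr h1)
      exact ⟨i, hi⟩,
    fun ⟨k, hk⟩ => by
      haveI := hQn
      have hz : IsPGroup p ↥(Subgroup.zpowers g) :=
        IsPGroup.of_card (n := k) (by rw [Nat.card_zpowers, hk])
      have := Q.is_maximal' (hz.to_sup_of_normal_right Q.2) le_sup_right
      exact this ▸ (le_sup_left : _ ≤ Subgroup.zpowers g ⊔ (Q : Subgroup G)) (Subgroup.mem_zpowers g)⟩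
  have hcard : Nat.card ↥(P : Subgroup H) = Nat.card ↥(Q : Subgroup G) := by
    rw [P.card_eq_multiplicity, Q.card_eq_multiplicity, Nat.card_congr e]
  have hP : (P : Set H) = {h : H | ∃ k : ℕ, orderOf h = p ^ k} := by
    refine Set.eq_of_subset_of_ncard_le (fun h hh => ?_) ?_ (Set.toFinite _)
    · obtain ⟨k, hk⟩ := P.2 ⟨h, hh⟩
      have h1 : h ^ p ^ k = 1 := congrArg Subtype.val hk
      obtain ⟨i, _, hi⟩ := (Nat.dvd_prime_pow hp).mp (orderOf_dvd_iff_pow_eq_one.mpr h1)
      exact ⟨i, hi⟩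
    · rw [← Nat.card_coe_set_eq, ← Nat.card_coe_set_eq]
      refine (le_of_eq (Nat.card_congr (Equiv.subtypeEquiv e.symm fun h => ?_))).trans hcard.ge
      show (∃ k, orderOf h = p ^ k) ↔ e.symm h ∈ (Q : Subgroup G)
      rw [hQ, ← he (e.symm h), e.apply_symm_apply]
  refine ⟨fun g hg b => ?_⟩
  have hg' : g ∈ (P : Set H) := hg
  rw [hP] at hg'
  show b * g * b⁻¹ ∈ (P : Set H)
  rw [hP]
  obtain ⟨k, hk⟩ := hg'
  exact ⟨k, by rw [← hk]; exact MulEquiv.orderOf_eq (MulAut.conj b) g⟩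

end Cfsg.Agent.S3997
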