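import Cfsg.Statements.S3999
import Cfsg.Agent.Lib.GroupB.FrobOrderType
import Cfsg.Agent.S0042

set_option autoImplicit false
open Cfsg

namespace Cfsg.Agent.S3999

/-- Let F be a finite Frobenius group (it has a Frobenius complement) and G a finite group with the same order type as F (for every m the same number of elements of order m). Then G is a Frobenius group; moreover G is solvable if and only if F is. -/
theorem result {F G : Type*} [Group F] [Finite F] [Group G] [Finite G] (hF : (∃ C : Subgroup F, Cfsg.IsFrobeniusComplement C)) (hT : (∀ m : ℕ, Nat.card {g : F // orderOf g = m} = Nat.card {h : G // orderOf h = m})) :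
    (∃ C : Subgroup G, Cfsg.IsFrobeniusComplement C) ∧ (Group.IsSolvable G ↔ Group.IsSolvable F) := by
  obtain ⟨H, hH⟩ := hF
  obtain ⟨K, hK, hKn, hcompl⟩ := CfsgLib.GroupB.Frobenius.exists_kernel_subgroup hH
  haveI := hKn
  haveI : Group.IsNilpotent K := by
    obtain ⟨N, hN, -, hnil⟩ := Cfsg.Agent.S0042.result H hH
    exact (SetLike.coe_injective (hN.trans hK.symm) : N = K) ▸ hnil
  exact CfsgLib.GroupB.FrobOrderType.result_aux hH K hcompl hT

end Cfsg.Agent.S3999
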