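import Cfsg.Statements.S4001
import Cfsg.Agent.Lib.GroupB.FrobBasic
import Cfsg.Agent.Lib.GroupB.FrobType
import Cfsg.Agent.Lib.Solvable.Basics
import Mathlib.GroupTheory.SpecificGroups.ZGroup

set_option autoImplicit false
open Cfsg

namespace Cfsg.Agent.S4001
universe u v

/-- A Frobenius group acting with fixed-point-free kernel on an abelian group: the complement fixes a point. -/
theorem fixed {F : Type u} {V : Type v} [Group F] [Finite F] [CommGroup V] [Finite V] (φ : F →* MulAut V)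
    (C : Subgroup F) [C.Normal] (hC : ∀ c ∈ C, c ≠ 1 → ∀ v, φ c v = v → v = 1)
    (hC1 : C ≠ ⊥) (y : F) {q : ℕ} (hq : q.Prime) (hyq : orderOf y = q)
    (hy : ∀ c ∈ C, y * c = c * y → c = 1) {v : V} (hv1 : v ≠ 1) (hcop : (Nat.card C).Coprime (orderOf v)) :
    ∃ w : V, w ≠ 1 ∧ φ y w = w := by
  classical
  by_contra hcon
  push Not at hcon
  haveI := Fintype.ofFinite C
  have hy0 : ∀ w, φ y w = w → w = 1 := fun w hw => by
    by_contra h
    exact hcon w h hw
  -- sums over the kernel vanish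
  have hN : ∀ w : V, ∏ c : C, φ c w = 1 := by
    intro w
    obtain ⟨c₀, hc₀, hc1⟩ := C.bot_or_exists_ne_one.resolve_left hC1
    refine hC c₀ hc₀ hc1 _ ?_
    rw [map_prod]
    exact Fintype.prod_equiv (Equiv.mulLeft (⟨c₀, hc₀⟩ : C)) _ _ fun c => by
      rw [← MulAut.mul_apply, ← map_mul]; rfl
  -- sums over the complement vanish
  have hY : ∀ w : V, ∏ i ∈ Finset.range q, φ (y ^ i) w = 1 := by
    intro w
    refine hy0 _ ?_
    rw [map_prod]
    have e : ∀ i, φ y (φ (y ^ i) w) = φ (y ^ (i + 1)) w := fun i => by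
      rw [← MulAut.mul_apply, ← map_mul, ← pow_succ']
    simp only [e]
    have h1 := Finset.prod_range_succ' (fun i => φ (y ^ i) w) q
    rw [Finset.prod_range_succ, show y ^ q = 1 by rw [← hyq, pow_orderOf_eq_one], pow_zero] at h1
    exact (mul_right_cancel h1).symm
  have hD : ∏ i ∈ Finset.range q, ∏ c : C, φ ((c : F) * y ^ i * (c : F)⁻¹) v = 1 := by
    rw [Finset.prod_comm]
    refine Finset.prod_eq_one fun c _ => ?_
    simp only [map_mul, MulAut.mul_apply]
    rw [← map_prod, hY, map_one]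
  have hzero : ∏ c : C, φ ((c : F) * y ^ 0 * (c : F)⁻¹) v = v ^ Nat.card C := by
    simp only [pow_zero, mul_one, mul_inv_cancel, map_one, MulAut.one_apply, Finset.prod_const, Finset.card_univ,
      Nat.card_eq_fintype_card]
  have hrest : ∀ i ∈ Finset.range q, i ≠ 0 → ∏ c : C, φ ((c : F) * y ^ i * (c : F)⁻¹) v = 1 := by
    intro i hi hi0
    have hyi : ∀ c ∈ C, y ^ i * c = c * y ^ i → c = 1 := by
      intro c hc hcm
      refine hy c hc ?_
      obtain ⟨j, hj⟩ : ∃ j, (y ^ i) ^ j = y := exists_pow_eq_self_of_coprime (by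
        rw [hyq]; exact (hq.coprime_iff_not_dvd.mpr (Nat.not_dvd_of_pos_of_lt (Nat.pos_of_ne_zero hi0) (Finset.mem_range.mp hi))).symm)
      rw [← hj]
      exact ((show Commute (y ^ i) c from hcm).pow_left j).eq
    let f : C → C := fun c => ⟨(c : F) * y ^ i * (c : F)⁻¹ * (y ^ i)⁻¹, by
      have h1 := (inferInstance : C.Normal).conj_mem _ (C.inv_mem c.2) (y ^ i)
      have e : (c : F) * y ^ i * (c : F)⁻¹ * (y ^ i)⁻¹ = (c : F) * (y ^ i * (c : F)⁻¹ * (y ^ i)⁻¹) := by group
      rw [e]; exact C.mul_mem c.2 h1⟩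
    have hf : Function.Injective f := by
      intro a b e
      have e' : (a : F) * y ^ i * (a : F)⁻¹ * (y ^ i)⁻¹ = (b : F) * y ^ i * (b : F)⁻¹ * (y ^ i)⁻¹ := congrArg Subtype.val e
      have e2 := mul_right_cancel e'
      have h1 := hyi _ (C.mul_mem (C.inv_mem b.2) a.2) (by
        calc y ^ i * ((b : F)⁻¹ * (a : F)) = (b : F)⁻¹ * ((b : F) * y ^ i * (b : F)⁻¹) * (a : F) := by group
          _ = (b : F)⁻¹ * ((a : F) * y ^ i * (a : F)⁻¹) * (a : F) := by rw [e2]
          _ = (b : F)⁻¹ * (a : F) * y ^ i := by group)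
      exact Subtype.ext (inv_mul_eq_one.mp h1).symm
    rw [← hN (φ (y ^ i) v)]
    refine Fintype.prod_equiv (Equiv.ofBijective f ⟨hf, Finite.injective_iff_surjective.mp hf⟩) _ _ fun c => ?_
    rw [← MulAut.mul_apply, ← map_mul]
    show _ = φ ((c : F) * y ^ i * (c : F)⁻¹ * (y ^ i)⁻¹ * y ^ i) v
    rw [inv_mul_cancel_right]
  rw [Finset.prod_eq_single_of_mem 0 (Finset.mem_range.mpr hq.pos) hrest, hzero] at hD
  exact hv1 (orderOf_eq_one_iff.mp (Nat.eq_one_of_dvd_coprimes hcop (orderOf_dvd_of_pow_eq_one hD) dvd_rfl))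

/-- A group that is both a Frobenius complement and a Frobenius kernel. -/
theorem both {K Q : Type u} [Group K] [Finite K] [Group Q] [Finite Q] {C : Subgroup K} (hC : Cfsg.IsFrobeniusComplement C)
    {D : Subgroup Q} (hD : Cfsg.IsFrobeniusComplement D) (N : Subgroup Q) [N.Normal] (hc : Subgroup.IsComplement' N D)
    (e : C ≃* N) : IsCyclic C ∧ Odd (Nat.card C) := by
  haveI : Group.IsNilpotent N := CfsgLib.GroupB.FrobBasic.isNilpotent_kernel hD N hc
  haveI : Group.IsNilpotent C := Group.nilpotent_of_mulEquiv e.symm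
  have hodd : Odd (Nat.card C) := by
    rw [← Nat.not_even_iff_odd, even_iff_two_dvd]
    intro h2
    haveI : Fact (Nat.Prime 2) := ⟨Nat.prime_two⟩
    obtain ⟨x, hx⟩ := exists_prime_orderOf_dvd_card' 2 h2
    obtain ⟨S⟩ : Nonempty (Sylow 2 C) := inferInstance
    haveI hSn : (S : Subgroup C).Normal := ((Group.isNilpotent_of_finite_tfae (G := C)).out 0 3 rfl rfl).mp ‹_› 2 inferInstance S
    have hmem : ∀ w : C, orderOf w = 2 → w ∈ (S : Subgroup C) := by
      intro w hw
      have h1 : orderOf ((w : C ⧸ (S : Subgroup C))) ∣ 2 := (orderOf_map_dvd (QuotientGroup.mk' _) w).trans hw.dvd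
      have h2 : orderOf ((w : C ⧸ (S : Subgroup C))) ∣ (S : Subgroup C).index := by
        rw [Subgroup.index_eq_card]; exact orderOf_dvd_natCard _
      exact (QuotientGroup.eq_one_iff w).mp (orderOf_eq_one_iff.mp (Nat.eq_one_of_dvd_coprimes
        ((Nat.Prime.coprime_iff_not_dvd Nat.prime_two).mpr S.not_dvd_index) h1 h2))
    have huniq : ∀ w : C, orderOf w = 2 → w = x := by
      intro w hw
      have h1 := CfsgLib.GroupB.FrobType.uniq_of_isPGroup hC (S : Subgroup C) S.2 ⟨x, hmem x hx⟩ ⟨w, hmem w hw⟩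
        (by rw [Subgroup.orderOf_mk, hx]) (by rw [Subgroup.orderOf_mk, hw])
      obtain ⟨i, hi⟩ := Subgroup.mem_zpowers_iff.mp h1
      have hi' : x ^ i = w := congrArg Subtype.val hi
      rw [← zpow_mod_orderOf, hx] at hi'
      rcases Int.emod_two_eq_zero_or_one i with h | h <;> rw [show ((2 : ℕ) : ℤ) = 2 from rfl, h] at hi'
      · rw [zpow_zero] at hi'; rw [← hi', orderOf_one] at hw; omega
      · rw [← hi', zpow_one]
    obtain ⟨d, hd, hd1⟩ := D.bot_or_exists_ne_one.resolve_left hD.1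
    have hxN : orderOf ((e x : N) : Q) = 2 := by rw [Subgroup.orderOf_coe, e.orderOf_eq, hx]
    have hmem' : d * ((e x : N) : Q) * d⁻¹ ∈ N := (inferInstance : N.Normal).conj_mem _ (e x).2 d
    have hfix : d * ((e x : N) : Q) * d⁻¹ = ((e x : N) : Q) := by
      have h1 := huniq (e.symm ⟨_, hmem'⟩) (by
        rw [e.symm.orderOf_eq, Subgroup.orderOf_mk, ← hxN]
        exact MulEquiv.orderOf_eq (MulAut.conj d) _)
      exact congrArg Subtype.val ((MulEquiv.symm_apply_eq e).mp h1)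
    have := CfsgLib.GroupB.Frobenius.eq_one_of_commute hD hc.disjoint.eq_bot hd hd1 (e x).2 (mul_inv_eq_iff_eq_mul.mp hfix)
    rw [this, orderOf_one] at hxN
    omega
  refine ⟨?_, hodd⟩
  haveI : IsZGroup C := ⟨fun p hp S => by
    by_cases hp2 : p = 2
    · subst hp2
      haveI : Fact (Nat.Prime 2) := ⟨Nat.prime_two⟩
      have : Nat.card S = 1 := by
        obtain ⟨n, hn⟩ := IsPGroup.iff_card.mp S.2
        rcases n with _ | n
        · simpa using hn
        · exact absurd ((dvd_pow_self 2 (Nat.succ_ne_zero n)).trans (hn ▸ Subgroup.card_subgroup_dvd_card _))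
            (by obtain ⟨j, hj⟩ := hodd; omega)
      haveI : Subsingleton S := (Nat.card_eq_one_iff_unique.mp this).1
      infer_instance
    · exact (CfsgLib.GroupB.FrobType.smallSylow hC).1 p S hp hp2 S.2⟩
  infer_instance

/-- The complement of a Frobenius group with cyclic kernel is cyclic. -/
theorem cyclic_complement {Q : Type u} [Group Q] [Finite Q] {D : Subgroup Q} (hD : Cfsg.IsFrobeniusComplement D)
    (N : Subgroup Q) [N.Normal] (hc : Subgroup.IsComplement' N D) [IsCyclic N] : IsCyclic D := by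
  obtain ⟨k, hk⟩ := IsCyclic.exists_generator (α := N)
  have hk1 : (k : Q) ≠ 1 := by
    intro e
    refine CfsgLib.GroupB.FrobBasic.kernel_ne_bot hD hc ((Subgroup.eq_bot_iff_forall _).mpr fun w hw => ?_)
    obtain ⟨i, hi⟩ := Subgroup.mem_zpowers_iff.mp (hk ⟨w, hw⟩)
    rw [← show (k : Q) ^ i = w from congrArg Subtype.val hi, e, one_zpow]
  refine CfsgLib.GroupB.FrobType.isCyclic_of_abelian hD le_rfl ⟨⟨fun a b => Subtype.ext ?_⟩⟩
  have hact : ∀ d : Q, ∃ i : ℤ, d * (k : Q) * d⁻¹ = (k : Q) ^ i := fun d => by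
    obtain ⟨i, hi⟩ := Subgroup.mem_zpowers_iff.mp (hk ⟨_, (inferInstance : N.Normal).conj_mem _ k.2 d⟩)
    exact ⟨i, (show (k : Q) ^ i = _ from congrArg Subtype.val hi).symm⟩
  obtain ⟨i, hi⟩ := hact (a : Q)
  obtain ⟨j, hj⟩ := hact (b : Q)
  have e1 : (a : Q) * b * k * ((a : Q) * b)⁻¹ = (k : Q) ^ (i * j) := by
    calc (a : Q) * b * k * ((a : Q) * b)⁻¹ = (a : Q) * ((b : Q) * k * (b : Q)⁻¹) * (a : Q)⁻¹ := by group
      _ = ((a : Q) * k * (a : Q)⁻¹) ^ j := by rw [hj, conj_zpow]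
      _ = (k : Q) ^ (i * j) := by rw [hi, zpow_mul]
  have e2 : (b : Q) * a * k * ((b : Q) * a)⁻¹ = (k : Q) ^ (i * j) := by
    calc (b : Q) * a * k * ((b : Q) * a)⁻¹ = (b : Q) * ((a : Q) * k * (a : Q)⁻¹) * (b : Q)⁻¹ := by group
      _ = ((b : Q) * k * (b : Q)⁻¹) ^ i := by rw [hi, conj_zpow]
      _ = (k : Q) ^ (i * j) := by rw [hj, ← zpow_mul, mul_comm j i]
  show (a : Q) * b = (b : Q) * a
  by_contra hne
  refine hk1 (CfsgLib.GroupB.Frobenius.eq_one_of_commute hD hc.disjoint.eq_bot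
    (h := ((b : Q) * a)⁻¹ * ((a : Q) * b)) (D.mul_mem (D.inv_mem (D.mul_mem b.2 a.2)) (D.mul_mem a.2 b.2))
    (fun e => hne (inv_mul_eq_one.mp e).symm) k.2 ?_)
  calc ((b : Q) * a)⁻¹ * ((a : Q) * b) * k = ((b : Q) * a)⁻¹ * ((a : Q) * b * k * ((a : Q) * b)⁻¹) * ((a : Q) * b) := by group
    _ = ((b : Q) * a)⁻¹ * ((b : Q) * a * k * ((b : Q) * a)⁻¹) * ((a : Q) * b) := by rw [e1, e2]
    _ = (k : Q) * (((b : Q) * a)⁻¹ * ((a : Q) * b)) := by group

theorem exists_orderOf {G : Type u} [Group G] [Finite G] {d : ℕ} {x : G} (h : d ∣ orderOf x) : ∃ g : G, orderOf g = d :=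
  ⟨x ^ (orderOf x / d), orderOf_pow_orderOf_div (orderOf_pos x).ne' h⟩

theorem main {G : Type u} [Group G] [Finite G] (H K : Subgroup G) [H.Normal] [K.Normal] (hlt : H < K)
    (hK : ∃ C : Subgroup ↥K, Cfsg.IsFrobeniusComplement C ∧ Cfsg.frobeniusKernel C = (H.subgroupOf K : Set ↥K))
    (hGH : ∃ C : Subgroup (G ⧸ H), Cfsg.IsFrobeniusComplement C ∧ Cfsg.frobeniusKernel C = (K.map (QuotientGroup.mk' H) : Set (G ⧸ H))) :
    Group.IsSolvable G ∧ Odd (Nat.card (↥K ⧸ H.subgroupOf K)) ∧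
      Nat.Coprime (Nat.card (↥K ⧸ H.subgroupOf K)) (Nat.card ↥H * Nat.card (G ⧸ K)) ∧ IsCyclic (G ⧸ K) ∧
      ∀ p q : ℕ, p.Prime → q.Prime → p ≠ q → p ∣ Nat.card G → q ∣ Nat.card G →
        ((∃ g : G, orderOf g = p * q) ↔ (p ∣ Nat.card (↥K ⧸ H.subgroupOf K) ↔ q ∣ Nat.card (↥K ⧸ H.subgroupOf K))) := by
  classical
  have hHK : H ≤ K := hlt.le
  obtain ⟨C, hC, hCk⟩ := hK
  obtain ⟨D, hD, hDk⟩ := hGH
  set π := QuotientGroup.mk' H with hπ
  have hπ1 : ∀ x : G, π x = 1 ↔ x ∈ H := fun x => QuotientGroup.eq_one_iff x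
  set N := K.map π with hN
  haveI hNn : N.Normal := (inferInstance : K.Normal).map π (QuotientGroup.mk'_surjective H)
  set Hs := H.subgroupOf K with hHs
  haveI : Hs.Normal := (inferInstance : H.Normal).subgroupOf K
  have hcK : Subgroup.IsComplement' Hs C := by
    obtain ⟨N', hN', -, hc'⟩ := CfsgLib.GroupB.Frobenius.exists_kernel_subgroup hC
    exact (SetLike.coe_injective (hN'.trans hCk) : N' = Hs) ▸ hc'
  have hcQ : Subgroup.IsComplement' N D := by
    obtain ⟨N', hN', -, hc'⟩ := CfsgLib.GroupB.Frobenius.exists_kernel_subgroup hD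
    exact (SetLike.coe_injective (hN'.trans hDk) : N' = N) ▸ hc'
  -- the complement maps isomorphically to the upper kernel
  let f : C →* N :=
    { toFun := fun c => ⟨π ((c : K) : G), Subgroup.mem_map_of_mem π (c : K).2⟩
      map_one' := Subtype.ext (map_one π)
      map_mul' := fun a b => Subtype.ext (map_mul π _ _) }
  have hfb : Function.Bijective f := by
    refine ⟨(injective_iff_map_eq_one f).mpr fun c hc => ?_, fun n => ?_⟩
    · have h1 : (c : K) ∈ Hs := Subgroup.mem_subgroupOf.mpr ((hπ1 _).mp (congrArg Subtype.val hc))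
      have h2 : (c : K) ∈ Hs ⊓ C := Subgroup.mem_inf.mpr ⟨h1, c.2⟩
      rw [hcK.disjoint.eq_bot, Subgroup.mem_bot] at h2
      exact Subtype.ext h2
    · obtain ⟨w, ⟨x, hx, rfl⟩⟩ := n
      obtain ⟨⟨⟨a, ha⟩, ⟨c, hc⟩⟩, hac⟩ := hcK.2 (⟨x, hx⟩ : K)
      change a * c = _ at hac
      refine ⟨⟨c, hc⟩, Subtype.ext ?_⟩
      show π (c : G) = π x
      rw [show x = (a : G) * (c : G) from (congrArg Subtype.val hac).symm, map_mul, (hπ1 _).mpr (Subgroup.mem_subgroupOf.mp ha), one_mul]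
  obtain ⟨hCcyc, hCodd⟩ := both hC hD N hcQ (MulEquiv.ofBijective f hfb)
  haveI := hCcyc
  haveI : IsCyclic N := isCyclic_of_surjective f hfb.2
  haveI : IsCyclic D := cyclic_complement hD N hcQ
  have hm : Nat.card (↥K ⧸ Hs) = Nat.card C := by rw [← Subgroup.index_eq_card, hcK.symm.index_eq_card]
  have hmN : Nat.card C = Nat.card N := Nat.card_congr (Equiv.ofBijective f hfb)
  have hHcard : Nat.card Hs = Nat.card H := Nat.card_congr (Subgroup.subgroupOfEquivOfLe hHK).toEquiv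
  -- the top factor
  let ρ : D →* G ⧸ K := (QuotientGroup.lift H (QuotientGroup.mk' K) (fun x hx => (QuotientGroup.eq_one_iff x).mpr (hHK hx))).comp D.subtype
  have hρ : Function.Bijective ρ := by
    refine ⟨(injective_iff_map_eq_one ρ).mpr fun d hd => ?_, fun w => ?_⟩
    · obtain ⟨x, hx⟩ := QuotientGroup.mk'_surjective H (d : G ⧸ H)
      have hxK : x ∈ K := by
        rw [← QuotientGroup.eq_one_iff (N := K)]
        rw [MonoidHom.comp_apply, Subgroup.coe_subtype, ← hx] at hd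
        exact hd
      have h2 : (d : G ⧸ H) ∈ N ⊓ D := Subgroup.mem_inf.mpr ⟨hx ▸ Subgroup.mem_map_of_mem π hxK, d.2⟩
      rw [hcQ.disjoint.eq_bot, Subgroup.mem_bot] at h2
      exact Subtype.ext h2
    · obtain ⟨x, rfl⟩ := QuotientGroup.mk'_surjective K w
      obtain ⟨⟨⟨a, ⟨k, hk, hka⟩⟩, ⟨d, hd⟩⟩, had⟩ := hcQ.2 (π x)
      change a * d = π x at had
      refine ⟨⟨d, hd⟩, ?_⟩
      simp only [ρ, MonoidHom.comp_apply, Subgroup.coe_subtype]
      rw [show d = a⁻¹ * π x by rw [← had]; group, ← hka, map_mul, map_inv]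
      show (QuotientGroup.mk' K k)⁻¹ * QuotientGroup.mk' K x = QuotientGroup.mk' K x
      rw [show QuotientGroup.mk' K k = 1 from (QuotientGroup.eq_one_iff k).mpr hk, inv_one, one_mul]
  haveI hGK : IsCyclic (G ⧸ K) := isCyclic_of_surjective ρ hρ.2
  have hnD : Nat.card (G ⧸ K) = Nat.card D := (Nat.card_congr (Equiv.ofBijective ρ hρ)).symm
  have hcop1 : (Nat.card C).Coprime (Nat.card H) := by
    have := CfsgLib.GroupB.FrobBasic.coprime_of_compl hC hcK
    rw [hcK.symm.index_eq_card, hHcard] at this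
    exact this.symm
  have hcop2 : (Nat.card C).Coprime (Nat.card (G ⧸ K)) := by
    have := CfsgLib.GroupB.FrobBasic.coprime_of_compl hD hcQ
    rw [hcQ.symm.index_eq_card, ← hmN, ← hnD] at this
    exact this
  haveI hHnil : Group.IsNilpotent Hs := CfsgLib.GroupB.FrobBasic.isNilpotent_kernel hC Hs hcK
  refine ⟨?_, hm ▸ hCodd, hm ▸ Nat.Coprime.mul_right hcop1 hcop2, hGK, ?_⟩
  · haveI : IsCyclic (K ⧸ Hs) := by
      refine isCyclic_of_surjective ((QuotientGroup.mk' Hs).comp C.subtype) fun w => ?_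
      obtain ⟨x, rfl⟩ := QuotientGroup.mk'_surjective Hs w
      obtain ⟨⟨⟨a, ha⟩, ⟨c, hc⟩⟩, hac⟩ := hcK.2 x
      change a * c = x at hac
      refine ⟨⟨c, hc⟩, ?_⟩
      rw [← hac, map_mul, show QuotientGroup.mk' Hs a = 1 from (QuotientGroup.eq_one_iff a).mpr ha, one_mul]; rfl
    letI : CommGroup (K ⧸ Hs) := IsCyclic.commGroup
    letI : CommGroup (G ⧸ K) := IsCyclic.commGroup
    haveI : Group.IsSolvable (K ⧸ Hs) := Group.isSolvable_of_comm mul_comm
    haveI : Group.IsSolvable (G ⧸ K) := Group.isSolvable_of_comm mul_comm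
    haveI : Group.IsSolvable K := Group.isSolvable_of_ker_le_range Hs.subtype (QuotientGroup.mk' Hs) (by simp)
    exact Group.isSolvable_of_ker_le_range K.subtype (QuotientGroup.mk' K) (by simp)
  intro p q hp hq hpq hpG hqG
  rw [hm]
  have hGcard : Nat.card G = Nat.card H * Nat.card C * Nat.card (G ⧸ K) := by
    rw [Subgroup.card_eq_card_quotient_mul_card_subgroup K, Subgroup.card_eq_card_quotient_mul_card_subgroup Hs, hm, hHcard]
    ring
  have hloc : ∀ r : ℕ, r.Prime → r ∣ Nat.card G → ¬ r ∣ Nat.card C → r ∣ Nat.card H ∨ r ∣ Nat.card (G ⧸ K) := by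
    intro r hr h1 h2
    rw [hGcard] at h1
    rcases hr.dvd_mul.mp h1 with h | h
    · exact Or.inl ((hr.dvd_mul.mp h).resolve_right h2)
    · exact Or.inr h
  constructor
  · rintro ⟨g, hg⟩
    have key : ∀ p q : ℕ, p.Prime → q.Prime → p ≠ q → orderOf g = p * q → p ∣ Nat.card C → q ∣ Nat.card C := by
      intro p q hp hq hpq hg hpC
      have hpH : ¬ p ∣ Nat.card H := fun h => hp.not_dvd_one (hcop1.gcd_eq_one ▸ Nat.dvd_gcd hpC h)
      have hd : orderOf (π g) ∣ p * q := hg ▸ orderOf_map_dvd π g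
      have hpd : p ∣ orderOf (π g) := by
        by_contra h
        have h1 : orderOf (π g) ∣ q := ((hp.coprime_iff_not_dvd.mpr h).symm).dvd_of_dvd_mul_left hd
        have h2 : g ^ q ∈ H := (hπ1 _).mp (by rw [map_pow]; exact orderOf_dvd_iff_pow_eq_one.mp h1)
        have h3 := Subgroup.orderOf_dvd_natCard H h2
        rw [orderOf_pow_of_dvd hq.ne_zero (hg ▸ dvd_mul_left q p), hg, Nat.mul_div_cancel _ hq.pos] at h3
        exact hpH h3
      have hgN : π g ∈ N := by
        refine CfsgLib.GroupB.FrobOrderType.mem_of_orderOf_dvd N (CfsgLib.GroupB.FrobBasic.coprime_of_compl hD hcQ) ?_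
        rcases CfsgLib.GroupB.FrobBasic.orderOf_dvd_or hD N hcQ (π g) with h | h
        · exact h
        · exfalso
          rw [hcQ.symm.index_eq_card, ← hnD] at h
          exact hp.not_dvd_one (hcop2.gcd_eq_one ▸ Nat.dvd_gcd hpC (hpd.trans h))
      obtain ⟨k, hk, hkg⟩ := hgN
      have hgK : g ∈ K := by
        have h1 : k⁻¹ * g ∈ H := (hπ1 _).mp (by rw [map_mul, map_inv, hkg, inv_mul_cancel])
        have := K.mul_mem hk (hHK h1)
        rwa [mul_inv_cancel_left] at this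
      have h1 : orderOf (⟨g, hgK⟩ : K) = p * q := by rw [Subgroup.orderOf_mk, hg]
      rcases CfsgLib.GroupB.FrobBasic.orderOf_dvd_or hC Hs hcK ⟨g, hgK⟩ with h | h <;> rw [h1] at h
      · rw [hHcard] at h; exact absurd ((dvd_mul_right p q).trans h) hpH
      · rw [hcK.symm.index_eq_card] at h; exact (dvd_mul_left q p).trans h
    exact ⟨key p q hp hq hpq hg, key q p hq hp hpq.symm (by rw [hg, mul_comm])⟩
  · intro hiff
    have hpqc : p.Coprime q := (Nat.coprime_primes hp hq).mpr hpq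
    by_cases hpC : p ∣ Nat.card C
    · obtain ⟨c, hc⟩ := IsCyclic.exists_ofOrder_eq_natCard (α := C)
      obtain ⟨g, hg⟩ := exists_orderOf (hc.symm ▸ hpqc.mul_dvd_of_dvd_of_dvd hpC (hiff.mp hpC) : p * q ∣ orderOf c)
      exact ⟨((g : K) : G), by rw [Subgroup.orderOf_coe, Subgroup.orderOf_coe, hg]⟩
    have hqC : ¬ q ∣ Nat.card C := fun h => hpC (hiff.mpr h)
    -- a prime of `H` and a prime of the top
    have mixed : ∀ p q : ℕ, p.Prime → q.Prime → p ≠ q → p ∣ Nat.card H → q ∣ Nat.card (G ⧸ K) → ∃ g : G, orderOf g = p * q := by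
      intro p q hp hq hpq hpH hqK
      haveI := Fact.mk hp
      haveI := Fact.mk hq
      haveI : Group.IsNilpotent H := Group.nilpotent_of_mulEquiv (Subgroup.subgroupOfEquivOfLe hHK)
      obtain ⟨S⟩ : Nonempty (Sylow p H) := inferInstance
      haveI : (S : Subgroup H).Normal := ((Group.isNilpotent_of_finite_tfae (G := H)).out 0 3 rfl rfl).mp ‹_› p inferInstance S
      obtain ⟨z, hzS, hz1⟩ := (((S : Subgroup H) ⊓ Subgroup.center H).bot_or_exists_ne_one).resolve_left
        (CfsgLib.Solvable.Basics.inf_center_ne_bot (S : Subgroup H) (Sylow.ne_bot_of_dvd_card S hpH))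
      obtain ⟨k, hk⟩ := IsPGroup.iff_orderOf.mp S.2 ⟨z, hzS.1⟩
      rw [Subgroup.orderOf_mk] at hk
      have hk0 : k ≠ 0 := fun e => hz1 (orderOf_eq_one_iff.mp (by rw [hk, e, pow_zero]))
      obtain ⟨v₀, hv₀, hvo⟩ : ∃ v ∈ Subgroup.center H, orderOf v = p :=
        ⟨z ^ (orderOf z / p), Subgroup.pow_mem _ hzS.2 _, orderOf_pow_orderOf_div (orderOf_pos z).ne' (hk ▸ dvd_pow_self p hk0)⟩
      -- the elements of exponent `p` in the centre of `H`
      let V : Subgroup G :=
        { carrier := {x | x ∈ H ∧ (∀ h ∈ H, h * x = x * h) ∧ x ^ p = 1}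
          one_mem' := ⟨one_mem _, fun h _ => by rw [mul_one, one_mul], one_pow p⟩
          mul_mem' := fun {a b} ha hb => ⟨H.mul_mem ha.1 hb.1, fun h hh => by rw [← mul_assoc, ha.2.1 h hh, mul_assoc, hb.2.1 h hh, ← mul_assoc],
            by rw [(show Commute a b from hb.2.1 a ha.1).mul_pow, ha.2.2, hb.2.2, one_mul]⟩
          inv_mem' := fun {a} ha => ⟨H.inv_mem ha.1, fun h hh => ((show Commute h a from ha.2.1 h hh).inv_right).eq, by rw [inv_pow, ha.2.2, inv_one]⟩ }
      haveI : V.Normal := ⟨fun x hx g => ⟨(inferInstance : H.Normal).conj_mem x hx.1 g, fun h hh => by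
          have h' := hx.2.1 (g⁻¹ * h * g⁻¹⁻¹) ((inferInstance : H.Normal).conj_mem h hh g⁻¹)
          calc h * (g * x * g⁻¹) = g * ((g⁻¹ * h * g⁻¹⁻¹) * x) * g⁻¹ := by group
            _ = g * (x * (g⁻¹ * h * g⁻¹⁻¹)) * g⁻¹ := by rw [h']
            _ = g * x * g⁻¹ * h := by group,
          by rw [conj_pow, hx.2.2, mul_one, mul_inv_cancel]⟩⟩
      letI : CommGroup V := { (inferInstance : Group V) with mul_comm := fun a b => Subtype.ext (b.2.2.1 a a.2.1) }
      let φ : G ⧸ H →* MulAut V := QuotientGroup.lift H MulAut.conjNormal fun h hh => MulEquiv.ext fun x => Subtype.ext (by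
        rw [MulAut.conjNormal_apply, x.2.2.1 h hh, mul_inv_cancel_right]; rfl)
      have hφ : ∀ g (x : V), ((φ (π g) x : V) : G) = g * x * g⁻¹ := fun g x => MulAut.conjNormal_apply g x
      obtain ⟨y, hy⟩ := exists_prime_orderOf_dvd_card' q (show q ∣ Nat.card D by rw [← hnD]; exact hqK)
      have hy' : orderOf (y : G ⧸ H) = q := by rw [Subgroup.orderOf_coe, hy]
      have hy1 : (y : G ⧸ H) ≠ 1 := fun e => hq.ne_one (by rw [← hy', e, orderOf_one])
      let v : V := ⟨(v₀ : G), v₀.2, fun h hh => congrArg Subtype.val (Subgroup.mem_center_iff.mp hv₀ ⟨h, hh⟩),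
        by rw [← hvo, ← Subgroup.orderOf_coe, pow_orderOf_eq_one]⟩
      have hvo' : orderOf v = p := by rw [← hvo, ← Subgroup.orderOf_coe v₀, ← Subgroup.orderOf_coe v]
      obtain ⟨w, hw1, hw⟩ := fixed φ N (fun c hc hc1 x hx => by
          obtain ⟨k, hk, rfl⟩ := hc
          have hkH : (⟨k, hk⟩ : K) ∉ Hs := fun h => hc1 ((hπ1 k).mpr (Subgroup.mem_subgroupOf.mp h))
          obtain ⟨a, ha⟩ := CfsgLib.GroupB.FrobBasic.exists_conj_mem hC Hs hcK hkH
          set xk : K := ⟨x, hHK x.2.1⟩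
          have hcomm : (⟨k, hk⟩ : K) * xk = xk * ⟨k, hk⟩ := Subtype.ext (by
            have := congrArg Subtype.val hx
            rw [hφ] at this
            exact mul_inv_eq_iff_eq_mul.mp this)
          have h1 := CfsgLib.GroupB.Frobenius.eq_one_of_commute hC hcK.disjoint.eq_bot ha
            (fun e => hkH (by
              have : (⟨k, hk⟩ : K) = 1 := by
                calc (⟨k, hk⟩ : K) = a * (a⁻¹ * ⟨k, hk⟩ * a) * a⁻¹ := by group
                  _ = 1 := by rw [e]; group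
              rw [this]; exact one_mem _))
            (v := a⁻¹ * xk * a⁻¹⁻¹) ((inferInstance : Hs.Normal).conj_mem xk (Subgroup.mem_subgroupOf.mpr x.2.1) a⁻¹) (by
            calc a⁻¹ * ⟨k, hk⟩ * a * (a⁻¹ * xk * a⁻¹⁻¹) = a⁻¹ * (⟨k, hk⟩ * xk) * a := by group
              _ = a⁻¹ * (xk * ⟨k, hk⟩) * a := by rw [hcomm]
              _ = a⁻¹ * xk * a⁻¹⁻¹ * (a⁻¹ * ⟨k, hk⟩ * a) := by group)
          have h2 : xk = 1 := conj_eq_one_iff.mp h1
          exact Subtype.ext (show (x : G) = 1 from congrArg Subtype.val h2))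
        (CfsgLib.GroupB.FrobBasic.kernel_ne_bot hD hcQ) (y : G ⧸ H) hq hy'
        (fun c hc hcm => CfsgLib.GroupB.Frobenius.eq_one_of_commute hD hcQ.disjoint.eq_bot y.2 hy1 hc hcm)
        (v := v) (fun e => hp.ne_one (by rw [← hvo', e, orderOf_one]))
        (by rw [hvo', ← hmN]; exact (hcop1.coprime_dvd_right hpH))
      obtain ⟨g, hg⟩ := QuotientGroup.mk'_surjective H (y : G ⧸ H)
      have hqg : q ∣ orderOf g := by rw [← hy', ← hg]; exact orderOf_map_dvd π g
      set t := g ^ (orderOf g / q)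
      have hto : orderOf t = q := orderOf_pow_orderOf_div (orderOf_pos g).ne' hqg
      have hgw : Commute g (w : G) := by
        rw [← hg] at hw
        have := congrArg Subtype.val hw
        rw [hφ] at this
        exact mul_inv_eq_iff_eq_mul.mp this
      have hwo : orderOf (w : G) = p := orderOf_eq_prime w.2.2.2 fun e => hw1 (Subtype.ext e)
      exact ⟨(w : G) * t, by
        rw [(hgw.symm.pow_right _).orderOf_mul_eq_mul_orderOf_of_coprime (by rw [hwo, hto]; exact (Nat.coprime_primes hp hq).mpr hpq), hwo, hto]⟩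
    rcases hloc p hp hpG hpC with hp' | hp' <;> rcases hloc q hq hqG hqC with hq' | hq'
    · haveI := Fact.mk hp
      haveI := Fact.mk hq
      haveI : Group.IsNilpotent H := Group.nilpotent_of_mulEquiv (Subgroup.subgroupOfEquivOfLe hHK)
      obtain ⟨a, ha⟩ := exists_prime_orderOf_dvd_card' p hp'
      obtain ⟨b, hb⟩ := exists_prime_orderOf_dvd_card' q hq'
      refine ⟨((a * b : H) : G), ?_⟩
      rw [Subgroup.orderOf_coe, (CfsgLib.GroupB.FrobBasic.commute_of_coprime (by rw [ha, hb]; exact hpqc)).orderOf_mul_eq_mul_orderOf_of_coprime (by rw [ha, hb]; exact hpqc), ha, hb]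
    · exact mixed p q hp hq hpq hp' hq'
    · obtain ⟨g, hg⟩ := mixed q p hq hp hpq.symm hq' hp'
      exact ⟨g, by rw [hg, mul_comm]⟩
    · obtain ⟨d, hd⟩ := IsCyclic.exists_ofOrder_eq_natCard (α := G ⧸ K)
      obtain ⟨x, rfl⟩ := QuotientGroup.mk'_surjective K d
      exact exists_orderOf ((hpqc.mul_dvd_of_dvd_of_dvd hp' hq').trans (hd ▸ orderOf_map_dvd (QuotientGroup.mk' K) x))

/-- Let G be a 2-Frobenius group: it has normal subgroups H < K with K a Frobenius group with kernel H and G/H a Frobenius group with kernel K/H. Then G is solvable; K/H has odd order coprime to the order of H and to the order of G/K (it is the image of an odd-order Hall subgroup); G/K is cyclic; and the prime graph of G has exactly two connected components, both complete: for distinct primes p, q dividing the order of G, G has an element of order pq exactly when p and q either both divide the order of K/H or both do not. -/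
theorem result {G : Type*} [Group G] [Finite G] (H K : Subgroup G) [H.Normal] [K.Normal] (hlt : H < K)
    (hK : ∃ C : Subgroup ↥K, Cfsg.IsFrobeniusComplement C ∧ Cfsg.frobeniusKernel C = (H.subgroupOf K : Set ↥K))
    (hGH : ∃ C : Subgroup (G ⧸ H), Cfsg.IsFrobeniusComplement C ∧ Cfsg.frobeniusKernel C = (K.map (QuotientGroup.mk' H) : Set (G ⧸ H))) :
    Group.IsSolvable G ∧ Odd (Nat.card (↥K ⧸ H.subgroupOf K)) ∧
      Nat.Coprime (Nat.card (↥K ⧸ H.subgroupOf K)) (Nat.card ↥H * Nat.card (G ⧸ K)) ∧ IsCyclic (G ⧸ K) ∧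
      ∀ p q : ℕ, p.Prime → q.Prime → p ≠ q → p ∣ Nat.card G → q ∣ Nat.card G →
        ((∃ g : G, orderOf g = p * q) ↔ (p ∣ Nat.card (↥K ⧸ H.subgroupOf K) ↔ q ∣ Nat.card (↥K ⧸ H.subgroupOf K))) := by
  exact main H K hlt hK hGH

end Cfsg.Agent.S4001
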