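import Cfsg.Statements.S4002
import Cfsg.Agent.Lib.PrimeGraph
import Mathlib.NumberTheory.Bertrand

set_option autoImplicit false
open Cfsg

namespace Cfsg.Agent.S4002
theorem three_large (n : ℕ) (hn : 7 ≤ n) :
    ∃ p q r : ℕ, p.Prime ∧ q.Prime ∧ r.Prime ∧ p < q ∧ q < r ∧ r ≤ n ∧ n < p * q := by
  by_cases h1 : n ≤ 14
  · exact ⟨3, 5, 7, by norm_num, by norm_num, by norm_num, by norm_num, by norm_num, hn, by omega⟩
  by_cases h2 : n ≤ 34
  · exact ⟨5, 7, 11, by norm_num, by norm_num, by norm_num, by norm_num, by norm_num, by omega, by omega⟩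
  obtain ⟨r, hr, hr1, hr2⟩ := Nat.exists_prime_lt_and_le_two_mul (n / 2) (by omega)
  obtain ⟨q, hq, hq1, hq2⟩ := Nat.exists_prime_lt_and_le_two_mul (n / 4) (by omega)
  obtain ⟨p, hp, hp1, hp2⟩ := Nat.exists_prime_lt_and_le_two_mul (n / 8) (by omega)
  refine ⟨p, q, r, hp, hq, hr, by omega, by omega, by omega, ?_⟩
  have e1 : n < 8 * p := by omega
  have e2 : n < 4 * q := by omega
  nlinarith [Nat.mul_lt_mul_of_lt_of_lt e1 e2]


/-- If the set of element orders of a finite group G is {1, 2, …, n} with n ≥ 7, then G is not solvable. -/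
theorem result {G : Type*} [Group G] [Finite G] (n : ℕ) (hn : 7 ≤ n) (h : Set.range (orderOf : G → ℕ) = {k : ℕ | 1 ≤ k ∧ k ≤ n}) : ¬ Group.IsSolvable G := by
  intro hsol
  haveI := hsol
  obtain ⟨p, q, r, hp, hq, hr, hpq, hqr, hrn, hlarge⟩ := three_large n hn
  have hd : ∀ s, 1 ≤ s → s ≤ n → s ∣ Nat.card G := fun s h1 h2 => by
    have : s ∈ Set.range (orderOf : G → ℕ) := by rw [h]; exact ⟨h1, h2⟩
    obtain ⟨g, rfl⟩ := this
    exact orderOf_dvd_natCard g
  have hno : ∀ s, n < s → ¬ ∃ x : G, orderOf x = s := fun s hs ⟨x, hx⟩ => by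
    have : s ∈ Set.range (orderOf : G → ℕ) := ⟨x, hx⟩
    rw [h] at this
    exact absurd this.2 (not_le.mpr hs)
  haveI : Group.IsSolvable (⊤ : Subgroup G) := inferInstance
  refine CfsgLib.PrimeGraph.solvable_normal_one (⊤ : Subgroup G) hp hq hr hpq.ne (hpq.trans hqr).ne hqr.ne
    (by rw [Subgroup.card_top]; exact hd p hp.one_le (by omega)) (by rw [Subgroup.card_top]; exact hd q hq.one_le (by omega))
    (hd r hr.one_le hrn) fun a ha b hb hab => ?_
  refine hno _ (lt_of_lt_of_le hlarge ?_)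
  simp only [Finset.mem_insert, Finset.mem_singleton] at ha hb
  have e1 := Nat.mul_le_mul_left p hqr.le
  have e2 := Nat.mul_le_mul hpq.le hqr.le
  have e3 := Nat.mul_comm p q
  have e4 := Nat.mul_comm p r
  have e5 := Nat.mul_comm q r
  rcases ha with rfl | rfl | rfl <;> rcases hb with rfl | rfl | rfl <;> first | exact absurd rfl hab | omega

end Cfsg.Agent.S4002
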