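import Cfsg.Statements.S4005
import Mathlib
import Cfsg.Agent.S0144

set_option autoImplicit false
open Cfsg

namespace Cfsg.Agent.S4005

/-- A finite group whose set of element orders is exactly {1, 2, 3} has either a normal elementary abelian 3-subgroup of index 2 or a normal elementary abelian 2-subgroup of index 3. -/
theorem result {G : Type*} [Group G] [Finite G] (h : Set.range (orderOf : G → ℕ) = {k : ℕ | 1 ≤ k ∧ k ≤ 3}) :
    (∃ N : Subgroup G, N.Normal ∧ Cfsg.IsElementaryAbelian 3 N ∧ N.index = 2) ∨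
      (∃ N : Subgroup G, N.Normal ∧ Cfsg.IsElementaryAbelian 2 N ∧ N.index = 3) := by
  classical
  haveI := Fact.mk Nat.prime_two
  haveI := Fact.mk Nat.prime_three
  have hord : ∀ g : G, orderOf g = 1 ∨ orderOf g = 2 ∨ orderOf g = 3 := by
    intro g
    have h1 : orderOf g ∈ {k : ℕ | 1 ≤ k ∧ k ≤ 3} := h ▸ Set.mem_range_self g
    have h2 := h1.1
    have h3 := h1.2
    omega
  obtain ⟨t, ht⟩ : ∃ t : G, orderOf t = 2 := by
    have h1 : (2 : ℕ) ∈ Set.range (orderOf : G → ℕ) := by rw [h]; exact ⟨by norm_num, by norm_num⟩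
    exact h1
  obtain ⟨x, hx⟩ : ∃ x : G, orderOf x = 3 := by
    have h1 : (3 : ℕ) ∈ Set.range (orderOf : G → ℕ) := by rw [h]; exact ⟨by norm_num, by norm_num⟩
    exact h1
  have hno : ∀ a b : G, orderOf a = 2 → orderOf b = 3 → a * b ≠ b * a := by
    intro a b ha hb hab
    have h6 := (show Commute a b from hab).orderOf_mul_eq_mul_orderOf_of_coprime (by rw [ha, hb]; norm_num)
    rw [ha, hb] at h6
    rcases hord (a * b) with e | e | e <;> omega
  obtain ⟨c, hc⟩ : ∃ c : ℕ × ℕ, Nat.card G = 2 ^ c.1 * 3 ^ c.2 := by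
    refine ⟨((Nat.card G).factorization 2, (Nat.card G / 2 ^ (Nat.card G).factorization 2).primeFactorsList.length), ?_⟩
    have h1 : ∀ q : ℕ, q.Prime → q ∣ Nat.card G / 2 ^ (Nat.card G).factorization 2 → q = 3 := by
      intro q hq hqd
      haveI := Fact.mk hq
      obtain ⟨g, hg⟩ := exists_prime_orderOf_dvd_card' q (hqd.trans (Nat.div_dvd_of_dvd (Nat.ordProj_dvd _ _)))
      rcases hord g with e | e | e
      · exact absurd (hg.symm.trans e) hq.ne_one
      · obtain rfl : q = 2 := hg.symm.trans e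
        exact absurd hqd (Nat.not_dvd_ordCompl Nat.prime_two Nat.card_pos.ne')
      · exact hg.symm.trans e
    rw [← Nat.eq_prime_pow_of_unique_prime_dvd (Nat.ordCompl_pos 2 Nat.card_pos.ne').ne' (fun {q} hq hqd => h1 q hq hqd)]
    exact (Nat.ordProj_mul_ordCompl_eq_self _ 2).symm
  haveI : Group.IsSolvable G := S0144.result 2 3 c.1 c.2 Nat.prime_two Nat.prime_three hc
  haveI : Nontrivial G := ⟨⟨t, 1, fun e => by rw [e, orderOf_one] at ht; exact absurd ht (by norm_num)⟩⟩
  obtain ⟨A, hAn, hA1, hAc⟩ : ∃ A : Subgroup G, A.Normal ∧ A ≠ ⊥ ∧ IsMulCommutative A := by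
    obtain ⟨k, hk, hk'⟩ : ∃ k, derivedSeries G k ≠ ⊥ ∧ derivedSeries G (k + 1) = ⊥ := by
      by_contra h
      push Not at h
      obtain ⟨m, hm⟩ := (inferInstance : Group.IsSolvable G).solvable
      have : ∀ k, derivedSeries G k ≠ ⊥ := fun k => by
        induction k with
        | zero => exact top_ne_bot
        | succ k ihk => exact h k ihk
      exact this m hm
    refine ⟨derivedSeries G k, derivedSeries_normal G k, hk, ⟨⟨fun a b => Subtype.ext ?_⟩⟩⟩
    rw [derivedSeries_succ] at hk'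
    exact Subgroup.mem_centralizer_iff.mp (Subgroup.commutator_eq_bot_iff_le_centralizer.mp hk' b.2) a a.2
  obtain ⟨p, hp, V, hVn, hV1, hVp⟩ : ∃ p : ℕ, (p = 2 ∨ p = 3) ∧ ∃ V : Subgroup G, V.Normal ∧ V ≠ ⊥ ∧ IsPGroup p V := by
    obtain ⟨p, hp, hpd⟩ := Nat.exists_prime_and_dvd ((Subgroup.one_lt_card_iff_ne_bot A).mpr hA1).ne'
    haveI := Fact.mk hp
    obtain ⟨a, ha⟩ := exists_prime_orderOf_dvd_card' p hpd
    rw [← Subgroup.orderOf_coe] at ha
    refine ⟨p, by rcases hord (a : G) with e | e | e <;> first | (exact absurd (ha.symm.trans e) hp.ne_one) | omega, ?_⟩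
    let V : Subgroup G :=
      { carrier := {y | y ∈ A ∧ y ^ p = 1}
        one_mem' := ⟨A.one_mem, one_pow _⟩
        mul_mem' := fun {u v} hu hv => ⟨A.mul_mem hu.1 hv.1, by
          have hc : Commute u v := congrArg Subtype.val (hAc.is_comm.comm (⟨u, hu.1⟩ : A) ⟨v, hv.1⟩)
          rw [hc.mul_pow, hu.2, hv.2, one_mul]⟩
        inv_mem' := fun {u} hu => ⟨A.inv_mem hu.1, by rw [inv_pow, hu.2, inv_one]⟩ }
    refine ⟨V, ⟨fun u hu g => ⟨hAn.conj_mem u hu.1 g, by rw [conj_pow, hu.2]; group⟩⟩, fun e => ?_,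
      fun u => ⟨1, Subtype.ext (by rw [pow_one]; exact u.2.2)⟩⟩
    have : (a : G) ∈ V := ⟨a.2, by rw [← ha, pow_orderOf_eq_one]⟩
    rw [e, Subgroup.mem_bot] at this
    rw [this, orderOf_one] at ha
    exact hp.ne_one ha.symm
  obtain ⟨N, hVN, ⟨hNn, hNp⟩, hmax⟩ := Finite.exists_le_maximal
    (p := fun K : Subgroup G => K.Normal ∧ IsPGroup p K) (a := V) ⟨hVn, hVp⟩
  haveI := hNn
  have hN1 : N ≠ ⊥ := fun e => hV1 (eq_bot_iff.mpr (e ▸ hVN))
  obtain ⟨v0, hv0, hv01⟩ := (Subgroup.bot_or_exists_ne_one N).resolve_left hN1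
  have hmem : ∀ g : G, g ∈ N → orderOf g = 1 ∨ orderOf g = p := by
    intro g hg
    haveI : Fact p.Prime := ⟨by rcases hp with rfl | rfl <;> norm_num⟩
    obtain ⟨k, hk⟩ := IsPGroup.iff_orderOf.mp hNp ⟨g, hg⟩
    rw [Subgroup.orderOf_mk] at hk
    rcases k with _ | k
    · exact Or.inl (by simpa using hk)
    · right
      have hd : p ∣ orderOf g := hk ▸ dvd_pow_self p (by omega)
      rcases hp with rfl | rfl <;> rcases hord g with e | e | e <;> rw [e] at hd ⊢ <;> omega
  have hexp : ∀ g : G, g ∈ N → g ^ p = 1 := fun g hg => by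
    rcases hmem g hg with e | e
    · rw [orderOf_eq_one_iff.mp e, one_pow]
    · rw [← e, pow_orderOf_eq_one]
  set C := Subgroup.centralizer (N : Set G) with hC
  have hCp : IsPGroup p C := by
    intro g
    refine ⟨1, Subtype.ext ?_⟩
    have hgv : (g : G) * v0 = v0 * g := (g.2 v0 hv0).symm
    rw [pow_one, Subgroup.coe_pow, Subgroup.coe_one]
    rcases hmem v0 hv0 with e | e
    · exact absurd (orderOf_eq_one_iff.mp e) hv01
    rcases hord (g : G) with e' | e' | e'
    · rw [orderOf_eq_one_iff.mp e', one_pow]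
    · rcases hp with rfl | rfl
      · rw [← e', pow_orderOf_eq_one]
      · exact absurd hgv (hno _ _ e' e)
    · rcases hp with rfl | rfl
      · exact absurd hgv.symm (hno _ _ e e')
      · rw [← e', pow_orderOf_eq_one]
  rcases hp with rfl | rfl
  · -- a normal 2-subgroup
    right
    have hNab : ∀ a ∈ N, ∀ b ∈ N, a * b = b * a := by
      intro a ha b hb
      have h1 := hexp _ (N.mul_mem ha hb)
      have h2 := hexp _ ha
      have h3 := hexp _ hb
      rw [pow_two] at h1 h2 h3
      calc a * b = (a * b)⁻¹ := eq_inv_of_mul_eq_one_left h1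
        _ = b⁻¹ * a⁻¹ := mul_inv_rev a b
        _ = b * a := by rw [inv_eq_of_mul_eq_one_left h2, inv_eq_of_mul_eq_one_left h3]
    have hCN : C ≤ N := hmax ⟨inferInstance, hCp⟩ (fun a ha b hb => hNab b hb a ha)
    refine ⟨N, hNn, ⟨⟨⟨fun a b => Subtype.ext (hNab a a.2 b b.2)⟩⟩, hexp⟩, ?_⟩
    -- the Sylow 2-subgroup is `N`
    obtain ⟨S, hS⟩ := hNp.exists_le_sylow
    have hSexp : ∀ s ∈ (S : Subgroup G), s * s = 1 := by
      intro s hs
      obtain ⟨k, hk⟩ := IsPGroup.iff_orderOf.mp S.2 ⟨s, hs⟩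
      rw [Subgroup.orderOf_mk] at hk
      rcases hord s with e | e | e
      · rw [orderOf_eq_one_iff.mp e, one_mul]
      · rw [← pow_two, ← e, pow_orderOf_eq_one]
      · exfalso
        have : 3 ∣ 2 ^ k := by rw [← hk, e]
        exact absurd (Nat.prime_three.dvd_of_dvd_pow this) (by norm_num)
    have hSN : (S : Subgroup G) = N := by
      refine le_antisymm (le_trans (show (S : Subgroup G) ≤ C from fun s hs a ha => ?_) hCN) hS
      have h1 := hSexp _ (Subgroup.mul_mem _ (hS ha) hs)
      calc a * s = (a * s)⁻¹ := eq_inv_of_mul_eq_one_left h1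
        _ = s⁻¹ * a⁻¹ := mul_inv_rev a s
        _ = s * a := by rw [inv_eq_of_mul_eq_one_left (hSexp s hs), inv_eq_of_mul_eq_one_left (hSexp a (hS ha))]
    -- a Sylow 3-subgroup has order 3
    have hfpf : ∀ g : G, orderOf g = 3 → ∀ v ∈ N, g * v * g⁻¹ = v → v = 1 := by
      intro g hg v hv hgv
      rcases hmem v hv with e | e
      · exact orderOf_eq_one_iff.mp e
      · exact absurd (mul_inv_eq_iff_eq_mul.mp hgv).symm (hno v g e hg)
    obtain ⟨P⟩ := (inferInstance : Nonempty (Sylow 3 G))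
    have hP3 : ∀ g ∈ (P : Subgroup G), g ≠ 1 → orderOf g = 3 := by
      intro g hg hg1
      obtain ⟨k, hk⟩ := IsPGroup.iff_orderOf.mp P.2 ⟨g, hg⟩
      rw [Subgroup.orderOf_mk] at hk
      rcases hord g with e | e | e
      · exact absurd (orderOf_eq_one_iff.mp e) hg1
      · exfalso
        have : 2 ∣ 3 ^ k := by rw [← hk, e]
        exact absurd (Nat.prime_two.dvd_of_dvd_pow this) (by norm_num)
      · exact e
    haveI : Nontrivial (P : Subgroup G) := by
      refine (Subgroup.nontrivial_iff_ne_bot _).mpr (P.ne_bot_of_dvd_card ?_)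
      rw [← hx]; exact orderOf_dvd_natCard x
    haveI := P.2.center_nontrivial
    obtain ⟨⟨⟨z, hzP⟩, hzc⟩, hz1⟩ := exists_ne (1 : Subgroup.center (P : Subgroup G))
    have hz1' : z ≠ 1 := fun e => hz1 (Subtype.ext (Subtype.ext e))
    have hzord := hP3 z hzP hz1'
    have hPz : (P : Subgroup G) ≤ Subgroup.zpowers z := by
      intro y hy
      by_contra hyz
      have hzy : Commute z y := (congrArg Subtype.val (Subgroup.mem_center_iff.mp hzc ⟨y, hy⟩)).symm
      have hy1 : y ≠ 1 := fun e => hyz (e ▸ Subgroup.one_mem _)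
      let nm : G → G → G := fun g v => v * (g * v * g⁻¹) * (g * g * v * (g * g)⁻¹)
      have hz3 : z * z * z = 1 := by rw [← pow_orderOf_eq_one z, hzord, pow_succ, pow_two]
      have hy3 : y * y * y = 1 := by rw [← pow_orderOf_eq_one y, hP3 y hy hy1, pow_succ, pow_two]
      have hnm : ∀ g : G, g ∈ (P : Subgroup G) → g ∉ (⊥ : Subgroup G) → ∀ v ∈ N, nm g v = 1 := by
        intro g hg hg1 v hv
        have hg3 : g * g * g = 1 := by
          rw [← pow_orderOf_eq_one g, hP3 g hg (fun e => hg1 (Subgroup.mem_bot.mpr e)), pow_succ, pow_two]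
        refine hfpf g (hP3 g hg (fun e => hg1 (Subgroup.mem_bot.mpr e))) _
          (N.mul_mem (N.mul_mem hv (hNn.conj_mem v hv g)) (hNn.conj_mem v hv (g * g))) ?_
        show g * nm g v * g⁻¹ = nm g v
        have e1 : g * nm g v * g⁻¹ = (g * v * g⁻¹) * (g * g * v * (g * g)⁻¹) * (g * g * g * v * (g * g * g)⁻¹) := by
          simp only [nm]; group
        rw [e1, hg3, one_mul, inv_one, mul_one]
        rw [mul_assoc, hNab _ (hNn.conj_mem v hv (g * g)) _ hv, ← mul_assoc,
          hNab _ (hNn.conj_mem v hv g) _ hv]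
      refine hv01 ?_
      set v := v0
      have hne : ∀ g : G, g ∉ Subgroup.zpowers z → g ∉ (⊥ : Subgroup G) := fun g hg e => hg (by
        rw [Subgroup.mem_bot.mp e]; exact Subgroup.one_mem _)
      have hzz : z ∈ Subgroup.zpowers z := Subgroup.mem_zpowers z
      have n1 := hnm z hzP (fun e => hz1' (Subgroup.mem_bot.mp e)) v hv0
      have n2 := hnm y hy (hne y hyz) v hv0
      have n3 := hnm (z * y) (Subgroup.mul_mem _ hzP hy)
        (hne _ fun e => hyz (by simpa using Subgroup.mul_mem _ (Subgroup.inv_mem _ hzz) e)) v hv0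
      have n4 := hnm (z * z * y) (Subgroup.mul_mem _ (Subgroup.mul_mem _ hzP hzP) hy)
        (hne _ fun e => hyz (by simpa [mul_assoc] using Subgroup.mul_mem _ (Subgroup.inv_mem _ (Subgroup.mul_mem _ hzz hzz)) e)) v hv0
      letI : CommGroup N := { (inferInstance : Group N) with mul_comm := fun a b => Subtype.ext (hNab a a.2 b b.2) }
      let c : G → N := fun g => ⟨g * v * g⁻¹, hNn.conj_mem v hv0 g⟩
      let w : N := ⟨v, hv0⟩
      have m1 : w * c z * c (z * z) = 1 := Subtype.ext n1
      have m2 : w * c y * c (y * y) = 1 := Subtype.ext n2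
      have m3 : w * c (z * y) * c (z * z * (y * y)) = 1 := by
        refine Subtype.ext ?_
        have e : z * y * (z * y) = z * z * (y * y) := hzy.symm.mul_mul_mul_comm z y
        rw [← e]; exact n3
      have m4 : w * c (z * z * y) * c (z * (y * y)) = 1 := by
        refine Subtype.ext ?_
        have e : z * z * y * (z * z * y) = z * (y * y) := by
          rw [(hzy.mul_left hzy).symm.mul_mul_mul_comm (z * z) y,
            show z * z * (z * z) = z * z * z * z by simp only [mul_assoc], hz3, one_mul]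
        rw [← e]; exact n4
      have h4 : ∀ g : G, c g * c (g * y) * c (g * (y * y)) = 1 := fun g => Subtype.ext (by
        show g * v * g⁻¹ * (g * y * v * (g * y)⁻¹) * (g * (y * y) * v * (g * (y * y))⁻¹) = 1
        have e : g * v * g⁻¹ * (g * y * v * (g * y)⁻¹) * (g * (y * y) * v * (g * (y * y))⁻¹) = g * nm y v * g⁻¹ := by
          simp only [nm]; group
        rw [e, n2, mul_one, mul_inv_cancel])
      have t1 := h4 z
      have t2 := h4 (z * z)
      have hw3 : w * w * w = 1 := by
        have key : ∀ a1 a2 b1 b2 c1 c2 d1 d2 : N, (w * a1 * a2) * (w * b1 * b2) * (w * c1 * c2) * (w * d1 * d2) =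
            (w * w * w) * (w * b1 * b2) * (a1 * c1 * d2) * (a2 * d1 * c2) := by
          intros; ac_rfl
        have e : (w * c z * c (z * z)) * (w * c y * c (y * y)) * (w * c (z * y) * c (z * z * (y * y))) *
            (w * c (z * z * y) * c (z * (y * y))) =
            (w * w * w) * (w * c y * c (y * y)) * (c z * c (z * y) * c (z * (y * y))) *
            (c (z * z) * c (z * z * y) * c (z * z * (y * y))) := by
          exact key _ _ _ _ _ _ _ _
        rw [m1, m2, m3, m4, t1, t2] at e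
        simpa using e.symm
      have hw2 : v * v = 1 := by rw [← pow_two]; exact hexp v hv0
      have hw3' : v * v * v = 1 := congrArg Subtype.val hw3
      rwa [hw2, one_mul] at hw3'
    have hPc : Nat.card (P : Subgroup G) = 3 := by
      refine Eq.trans ?_ hzord
      rw [← Nat.card_zpowers]
      exact congrArg (fun K : Subgroup G => Nat.card K) (le_antisymm hPz (Subgroup.zpowers_le.mpr hzP))
    rw [← hSN]
    have hi : (S : Subgroup G).index ∣ 3 := by
      rw [← hPc]
      have hcop : ((S : Subgroup G).index).Coprime 2 := ((Nat.Prime.coprime_iff_not_dvd Nat.prime_two).mpr S.not_dvd_index).symm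
      have h1 : (S : Subgroup G).index ∣ 3 ^ c.2 :=
        (hcop.pow_right c.1).dvd_of_dvd_mul_left (hc ▸ (S : Subgroup G).index_dvd_card)
      obtain ⟨i, -, hi⟩ := (Nat.dvd_prime_pow Nat.prime_three).mp h1
      rw [hi]
      exact P.pow_dvd_card_of_pow_dvd_card (hi ▸ (S : Subgroup G).index_dvd_card)
    refine ((Nat.dvd_prime Nat.prime_three).mp hi).resolve_left fun e => ?_
    have h1 : x ∈ (S : Subgroup G) := by rw [Subgroup.index_eq_one.mp e]; trivial
    have h2 := hSexp x h1
    rw [← pow_two] at h2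
    exact absurd (hx ▸ orderOf_dvd_of_pow_eq_one h2) (by norm_num)
  · -- a normal 3-subgroup, inverted by every involution
    left
    have hinvt : ∀ s : G, orderOf s = 2 → ∀ n ∈ N, s * n * s = n⁻¹ := by
      intro s hs n hn
      have hss : s * s = 1 := by rw [← pow_two, ← hs, pow_orderOf_eq_one]
      have hsi : s⁻¹ = s := inv_eq_of_mul_eq_one_left hss
      let f : N → N := fun a => ⟨(a : G)⁻¹ * (s * a * s⁻¹), N.mul_mem (N.inv_mem a.2) (hNn.conj_mem a a.2 s)⟩
      have hf : Function.Injective f := by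
        intro a b e
        have e' : (a : G)⁻¹ * (s * a * s⁻¹) = (b : G)⁻¹ * (s * b * s⁻¹) := congrArg Subtype.val e
        have h1 : s * ((b : G) * (a : G)⁻¹) * s⁻¹ = (b : G) * (a : G)⁻¹ := by
          calc s * ((b : G) * (a : G)⁻¹) * s⁻¹ = (b : G) * ((b : G)⁻¹ * (s * b * s⁻¹)) * ((a : G)⁻¹ * (s * a * s⁻¹))⁻¹ * (a : G)⁻¹ := by group
            _ = _ := by rw [← e']; group
        rcases hmem _ (N.mul_mem b.2 (N.inv_mem a.2)) with e2 | e2
        · exact Subtype.ext (mul_inv_eq_one.mp (orderOf_eq_one_iff.mp e2)).symm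
        · exact absurd (mul_inv_eq_iff_eq_mul.mp h1) (hno _ _ hs e2)
      obtain ⟨a, ha⟩ := Finite.injective_iff_surjective.mp hf ⟨n, hn⟩
      rw [← show (a : G)⁻¹ * (s * a * s⁻¹) = n from congrArg Subtype.val ha]
      rw [hsi, mul_inv_rev, inv_inv, mul_inv_rev, mul_inv_rev, hsi]
      calc s * ((a : G)⁻¹ * (s * a * s)) * s = s * (a : G)⁻¹ * s * a * (s * s) := by group
        _ = _ := by rw [hss, mul_one]; group
    have hNab : ∀ a ∈ N, ∀ b ∈ N, a * b = b * a := by
      intro a ha b hb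
      have h1 := hinvt t ht _ (N.mul_mem ha hb)
      have htt : t * t = 1 := by rw [← pow_two, ← ht, pow_orderOf_eq_one]
      have e : t * (a * b) * t = (t * a * t) * (t * b * t) := by
        calc t * (a * b) * t = t * a * (1 : G) * b * t := by group
          _ = t * a * (t * t) * b * t := by rw [htt]
          _ = _ := by group
      rw [e, hinvt t ht a ha, hinvt t ht b hb, ← mul_inv_rev] at h1
      exact (inv_injective h1).symm
    have hCN : C ≤ N := hmax ⟨inferInstance, hCp⟩ (fun a ha b hb => hNab b hb a ha)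
    refine ⟨N, hNn, ⟨⟨⟨fun a b => Subtype.ext (hNab a a.2 b b.2)⟩⟩, hexp⟩, ?_⟩
    have htinv : t⁻¹ = t := inv_eq_of_mul_eq_one_left (by rw [← pow_two, ← ht, pow_orderOf_eq_one])
    have hinvC : ∀ u w : G, (∀ n ∈ N, u * n * u⁻¹ = n⁻¹) → (∀ n ∈ N, w * n * w⁻¹ = n⁻¹) → u * w⁻¹ ∈ N := by
      intro u w hu hw
      refine hCN fun n hn => ?_
      have h1 : w⁻¹ * n * w = n⁻¹ := by
        conv_lhs => rw [← inv_inv n, ← hw n hn]
        group
      have h2 : u * w⁻¹ * n * (u * w⁻¹)⁻¹ = n := by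
        rw [show u * w⁻¹ * n * (u * w⁻¹)⁻¹ = u * (w⁻¹ * n * w) * u⁻¹ by group, h1, hu _ (N.inv_mem hn), inv_inv]
      exact (mul_inv_eq_iff_eq_mul.mp h2).symm
    have htN : ∀ n ∈ N, t * n * t⁻¹ = n⁻¹ := fun n hn => by rw [htinv]; exact hinvt t ht n hn
    have hall : ∀ g : G, g ∈ N ∨ g * t⁻¹ ∈ N := by
      intro g
      rcases hord g with e | e | e
      · exact Or.inl (orderOf_eq_one_iff.mp e ▸ N.one_mem)
      · refine Or.inr (hinvC g t (fun n hn => ?_) htN)
        rw [show g⁻¹ = g from inv_eq_of_mul_eq_one_left (by rw [← pow_two, ← e, pow_orderOf_eq_one])]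
        exact hinvt g e n hn
      · left
        by_contra hg
        have h1 : g * t * g⁻¹ * t⁻¹ ∈ N := by
          refine hinvC (g * t * g⁻¹) t (fun n hn => ?_) htN
          have hn' : g⁻¹ * n * g ∈ N := by simpa using hNn.conj_mem n hn g⁻¹
          rw [show g * t * g⁻¹ * n * (g * t * g⁻¹)⁻¹ = g * (t * (g⁻¹ * n * g) * t⁻¹) * g⁻¹ by group, htN _ hn']
          group
        set f := QuotientGroup.mk' N
        have hcomm : Commute (f t) (f g) := by
          have h2 : f (g * t * g⁻¹ * t⁻¹) = 1 := (QuotientGroup.eq_one_iff _).mpr h1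
          rw [map_mul, map_mul, map_mul, map_inv, map_inv, mul_inv_eq_one, mul_inv_eq_iff_eq_mul] at h2
          exact h2.symm
        have ht2 : orderOf (f t) = 2 := by
          refine orderOf_eq_prime (by rw [← map_pow, ← ht, pow_orderOf_eq_one, map_one]) fun e1 => ?_
          have := hexp t ((QuotientGroup.eq_one_iff t).mp e1)
          exact absurd (ht ▸ orderOf_dvd_of_pow_eq_one this) (by norm_num)
        have hg3 : orderOf (f g) = 3 := orderOf_eq_prime (by rw [← map_pow, ← e, pow_orderOf_eq_one, map_one])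
          fun e1 => hg ((QuotientGroup.eq_one_iff g).mp e1)
        have h6 := hcomm.orderOf_mul_eq_mul_orderOf_of_coprime (by rw [ht2, hg3]; norm_num)
        rw [ht2, hg3, ← map_mul] at h6
        have h7 : 2 * 3 ∣ orderOf (t * g) := h6 ▸ orderOf_map_dvd f (t * g)
        rcases hord (t * g) with e3 | e3 | e3 <;> rw [e3] at h7 <;> omega
    rw [Subgroup.index_eq_two_iff]
    refine ⟨t⁻¹, fun g => ?_⟩
    have htn : t ∉ N := fun e => by
      have := hexp t e
      exact absurd (ht ▸ orderOf_dvd_of_pow_eq_one this) (by norm_num)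
    rcases hall g with e | e
    · refine Or.inr ⟨e, fun e2 => htn ?_⟩
      simpa using N.inv_mem (N.mul_mem (N.inv_mem e) e2)
    · refine Or.inl ⟨e, fun e2 => htn ?_⟩
      simpa using N.mul_mem (N.inv_mem e) e2

end Cfsg.Agent.S4005
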