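import Cfsg.Statements.S4006
import Cfsg.Agent.S0144
import Cfsg.Agent.Lib.UniqueOrderP
import Cfsg.Agent.Lib.Core
import Cfsg.Agent.Lib.GroupB.FpfS3
import Cfsg.Agent.S4213

set_option autoImplicit false
open Cfsg

namespace Cfsg.Agent.S4006
open scoped commutatorElement
universe u

/-- Conjugates commute in a group with a fixed-point-free automorphism of order three. -/
theorem engel {W : Type u} [Group W] [Finite W] (σ : W →* W) (hσ : MonoidHom.FixedPointFree σ) (h3 : ∀ g, σ (σ (σ g)) = g)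
    (x g : W) : Commute x (g * x * g⁻¹) := by
  have hthree : ∀ y : W, y * σ y * σ (σ y) = 1 := CfsgLib.GroupB.FpfS3.prod_three σ hσ h3
  have hc : ∀ y : W, Commute y (σ y) := by
    intro y
    have h1 := hthree y
    have h2 := hthree y⁻¹
    rw [map_inv, map_inv] at h2
    have e1 : σ (σ y) = (y * σ y)⁻¹ := eq_inv_of_mul_eq_one_right h1
    have e2 : (σ (σ y))⁻¹ = (y⁻¹ * (σ y)⁻¹)⁻¹ := eq_inv_of_mul_eq_one_right h2
    rw [e1, inv_inv, mul_inv_rev, inv_inv, inv_inv] at e2
    exact e2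
  have hall : ∀ y h : W, Commute y (h * σ y * h⁻¹) := by
    intro y h
    obtain ⟨w, hw⟩ := hσ.commutatorMap_surjective h
    rw [MonoidHom.commutatorMap_apply, div_eq_mul_inv] at hw
    -- hw : w * (σ w)⁻¹ = h
    have h1 : Commute (w * (w⁻¹ * y * w) * w⁻¹) (w * σ (w⁻¹ * y * w) * w⁻¹) := (hc (w⁻¹ * y * w)).map (MulAut.conj w).toMonoidHom
    rw [map_mul, map_mul, map_inv, show w * (w⁻¹ * y * w) * w⁻¹ = y by group] at h1
    rw [← hw]
    have e : w * (σ w)⁻¹ * σ y * (w * (σ w)⁻¹)⁻¹ = w * ((σ w)⁻¹ * σ y * σ w) * w⁻¹ := by group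
    rw [e]
    exact h1
  have hall2 : Commute x (g * σ (σ x) * g⁻¹) := by
    have h1 := hall (g * σ (σ x) * g⁻¹) ((σ g)⁻¹ * 1)
    have e : (σ g)⁻¹ * 1 * σ (g * σ (σ x) * g⁻¹) * ((σ g)⁻¹ * 1)⁻¹ = x := by
      rw [map_mul, map_mul, map_inv, h3]; group
    rw [e] at h1
    exact h1.symm
  have hx : g * x * g⁻¹ = (g * σ (σ x) * g⁻¹)⁻¹ * (g * σ x * g⁻¹)⁻¹ := by
    have e1 : x * σ x * σ (σ x) = 1 := hthree x
    have e2 : x = (σ (σ x))⁻¹ * (σ x)⁻¹ := by
      calc x = (x * σ x * σ (σ x)) * (σ (σ x))⁻¹ * (σ x)⁻¹ := by group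
        _ = (σ (σ x))⁻¹ * (σ x)⁻¹ := by rw [e1, one_mul]
    conv_lhs => rw [e2]
    group
  rw [hx]
  exact hall2.inv_right.mul_right (hall x g).inv_right

theorem nil_step {A : Type u} [CommGroup A] (u v : A → A) (hum : ∀ m m', u (m * m') = u m * u m')
    (hvm : ∀ m m', v (m * m') = v m * v m') (hu1 : u 1 = 1) (hv1 : v 1 = 1) (huu : ∀ m, u (u m) = 1) (hvv : ∀ m, v (v m) = 1)
    (hw : ∀ m, u (u m * v m * v (u m)) * v (u m * v m * v (u m)) * v (u (u m * v m * v (u m))) = 1)
    (hinj : ∀ m, m * v m = 1 → m = 1) :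
    (∀ m, u (v (u m)) = 1) ∧ (∀ m, v (u (v m)) = 1) ∧ ∀ m, v (u m) * u (v m) = 1 := by
  have key : ∀ m, u (v m) * u (v (u m)) * v (u m) * v (u (v m)) * v (u (v (u m))) = 1 := fun m => by
    have := hw m
    simp only [hum, hvm, huu, hvv, hu1, hv1, one_mul, mul_one] at this
    rw [← this]
    ac_rfl
  have h1 : ∀ m, u (v (u m)) = 1 := fun m => hinj _ (by
    have := key (u m)
    simp only [huu, hvv, hu1, hv1, one_mul, mul_one] at this
    exact this)
  have h2 : ∀ m, v (u (v m)) = 1 := fun m => by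
    have := congrArg v (key m)
    simp only [hvm, h1, hvv, hu1, hv1, one_mul, mul_one] at this
    exact this
  refine ⟨h1, h2, fun m => ?_⟩
  have := key m
  simp only [h1, h2, hv1, one_mul, mul_one] at this
  rw [mul_comm]
  exact this

/-- Class at most two from the Engel condition without elements of order three. -/
theorem class_two {W : Type u} [Group W] (he : ∀ x g : W, Commute x (g * x * g⁻¹)) (h3 : ∀ x : W, x ^ 3 = 1 → x = 1)
    (a b c : W) : Commute (a⁻¹ * b⁻¹ * a * b) c := by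
  -- commutators
  let k : W → W → W := fun x y => x⁻¹ * y⁻¹ * x * y
  have hk1 : ∀ x y : W, Commute (k x y) x := by
    intro x y
    have e : k x y = x⁻¹ * (y⁻¹ * x * y⁻¹⁻¹) := by simp [k, mul_assoc]
    rw [e]
    exact (Commute.refl x).inv_left.mul_left (he x y⁻¹).symm
  have hk2 : ∀ x y : W, Commute (k x y) y := by
    intro x y
    have e : k x y = (x⁻¹ * y⁻¹ * x⁻¹⁻¹) * y := by simp [k, mul_assoc]
    rw [e, show x⁻¹ * y⁻¹ * x⁻¹⁻¹ = (x⁻¹ * y * x⁻¹⁻¹)⁻¹ by group]
    exact (he y x⁻¹).symm.inv_left.mul_left (Commute.refl y)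
  have hsymm : ∀ x y : W, k y x = (k x y)⁻¹ := fun x y => by simp [k, mul_assoc]
  -- the abelian normal closure of an element
  have main : ∀ a b c : W, k (k a b) c * k (k a c) b = 1 ∧ k (k (k a b) c) b = 1 := by
    intro a b c
    let A : Subgroup W := Subgroup.normalClosure {a}
    haveI : A.Normal := Subgroup.normalClosure_normal
    have hA : IsMulCommutative A := by
      refine Subgroup.isMulCommutative_closure ?_
      intro u hu v hv
      obtain ⟨a1, ha1, hu'⟩ := Group.mem_conjugatesOfSet_iff.mp hu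
      obtain ⟨a2, ha2, hv'⟩ := Group.mem_conjugatesOfSet_iff.mp hv
      rw [Set.mem_singleton_iff] at ha1 ha2
      rw [ha1] at hu'
      rw [ha2] at hv'
      obtain ⟨g1, rfl⟩ := isConj_iff.mp hu'
      obtain ⟨g2, rfl⟩ := isConj_iff.mp hv'
      have h1 := (he a (g1⁻¹ * g2)).map (MulAut.conj g1).toMonoidHom
      simp only [MulEquiv.coe_toMonoidHom, MulAut.conj_apply] at h1
      have e : g1 * (g1⁻¹ * g2 * a * (g1⁻¹ * g2)⁻¹) * g1⁻¹ = g2 * a * g2⁻¹ := by group
      rw [e] at h1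
      exact h1.eq
    letI : CommGroup A := { (inferInstance : Group A) with mul_comm := fun u v => hA.is_comm.comm u v }
    let d : W → A → A := fun g m => m⁻¹ * MulAut.conjNormal g⁻¹ m
    have hdm : ∀ g m m', d g (m * m') = d g m * d g m' := fun g m m' => by
      show (m * m')⁻¹ * MulAut.conjNormal g⁻¹ (m * m') = _
      rw [map_mul, mul_inv]; exact mul_mul_mul_comm _ _ _ _
    have hd1 : ∀ g, d g 1 = 1 := fun g => by simp [d]
    have hdk : ∀ g (m : A), ((d g m : A) : W) = k (m : W) g := fun g m => by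
      simp [d, k, MulAut.conjNormal_apply, mul_assoc]
    have hsq : ∀ g (m : A), d g (d g m) = 1 := fun g m => by
      refine Subtype.ext ?_
      rw [hdk, hdk, Subgroup.coe_one]
      show (k (m : W) g)⁻¹ * g⁻¹ * k (m : W) g * g = 1
      rw [mul_assoc _ (k (m : W) g) g, (hk2 (m : W) g).eq]; group
    obtain ⟨huvu, hvuv, key⟩ := nil_step (d b) (d c) (hdm b) (hdm c) (hd1 b) (hd1 c) (hsq b) (hsq c)
      (fun m => by
        have hbc : ∀ m, d (b * c) m = d b m * d c m * d c (d b m) := fun m => by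
          rw [mul_comm (d b m) (d c m)]
          refine Subtype.ext ?_
          simp only [d, Subgroup.coe_mul, Subgroup.coe_inv, MulAut.conjNormal_apply, mul_inv_rev, inv_inv]
          group
        have := hsq (b * c) m
        rw [hbc, hbc] at this
        exact this)
      (fun m h => by
        have h2 : MulAut.conjNormal c⁻¹ m = 1 := by
          rw [← mul_inv_cancel_left m (MulAut.conjNormal c⁻¹ m)]
          exact h
        exact (MulAut.conjNormal c⁻¹ : MulAut A).injective (h2.trans (map_one _).symm))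
    set m₀ : A := ⟨a, Subgroup.subset_normalClosure rfl⟩
    constructor
    · have h4 := congrArg Subtype.val (key m₀)
      rw [Subgroup.coe_mul, hdk, hdk, hdk, hdk, Subgroup.coe_one] at h4
      exact h4
    · have h2 := congrArg Subtype.val (huvu m₀)
      rw [hdk, hdk, hdk, Subgroup.coe_one] at h2
      exact h2
  -- the triple commutator is alternating, and its cube is trivial
  have hswap : ∀ x y z : W, k (k x z) y = (k (k x y) z)⁻¹ := fun x y z => eq_inv_of_mul_eq_one_right (main x y z).1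
  have hinv : ∀ x y z : W, k (k y x) z = (k (k x y) z)⁻¹ := by
    intro x y z
    have h1 := hk1 (k x y) z
    rw [hsymm x y]
    have e : k (k x y)⁻¹ z = k x y * (k (k x y) z)⁻¹ * (k x y)⁻¹ := by
      simp [k, mul_assoc]
    rw [e, ((h1.inv_left).symm).eq]; group
  have hT : k (k a b) c = 1 := by
    set T := k (k a b) c
    have t2 : k (k b c) a = T := by rw [hswap b a c, hinv a b c, inv_inv]
    have t3 : k (k c a) b = T := by rw [hinv a c b, hswap a b c, inv_inv]
    have hki : ∀ x y : W, k x y⁻¹ = (k x y)⁻¹ := by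
      intro x y
      have e : k x y⁻¹ = y * (k x y)⁻¹ * y⁻¹ := by simp [k, mul_assoc]
      rw [e, ((hk2 x y).inv_left.symm).eq, mul_inv_cancel_right]
    have hki2 : ∀ x y z : W, k (k x y⁻¹) z = (k (k x y) z)⁻¹ := by
      intro x y z
      rw [hki, ← hsymm, hinv x y z]
    -- Hall and Witt
    have hw : (y : W) → y⁻¹ * k (k a b⁻¹) c * y = y⁻¹ * T⁻¹ * y := fun y => by rw [hki2]
    have hall : b⁻¹ * k (k a b⁻¹) c * b * (c⁻¹ * k (k b c⁻¹) a * c) * (a⁻¹ * k (k c a⁻¹) b * a) = 1 := by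
      simp [k, mul_assoc]
    rw [hki2, hki2, hki2, t2, t3] at hall
    have hTb : Commute T b := by
      have := (main a b c).2
      rw [show k (k (k a b) c) b = T⁻¹ * b⁻¹ * T * b from rfl] at this
      calc T * b = b * T * (T⁻¹ * b⁻¹ * T * b) := by group
        _ = b * T := by rw [this, mul_one]
    have hTc : Commute T c := hk2 (k a b) c
    have hTa : Commute T a := by
      have := hk2 (k b c) a
      rwa [t2] at this
    rw [show b⁻¹ * T⁻¹ * b = T⁻¹ by rw [mul_assoc, hTb.inv_left.eq, inv_mul_cancel_left],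
      show c⁻¹ * T⁻¹ * c = T⁻¹ by rw [mul_assoc, hTc.inv_left.eq, inv_mul_cancel_left],
      show a⁻¹ * T⁻¹ * a = T⁻¹ by rw [mul_assoc, hTa.inv_left.eq, inv_mul_cancel_left]] at hall
    refine h3 T (inv_eq_one.mp ?_)
    rw [← inv_pow, pow_succ, pow_two]
    exact hall
  calc (a⁻¹ * b⁻¹ * a * b) * c = c * (k a b) * (k (k a b) c) := by simp [k, mul_assoc]
    _ = c * (a⁻¹ * b⁻¹ * a * b) := by rw [hT, mul_one]

variable {G : Type u} [Group G] [Finite G]

abbrev Ord (G : Type u) [Group G] : Prop := ∀ g : G, orderOf g = 1 ∨ orderOf g = 2 ∨ orderOf g = 3 ∨ orderOf g = 4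

theorem no_six (ho : Ord G) {x y : G} (hc : Commute x y) (hx : orderOf x = 2) (hy : orderOf y = 3) : False := by
  have h := hc.orderOf_mul_eq_mul_orderOf_of_coprime (by rw [hx, hy]; norm_num)
  rw [hx, hy] at h
  rcases ho (x * y) with e | e | e | e <;> omega

theorem ord_quotient (ho : Ord G) (N : Subgroup G) [N.Normal] : Ord (G ⧸ N) := by
  intro g
  obtain ⟨x, rfl⟩ := QuotientGroup.mk'_surjective N g
  have hd := orderOf_map_dvd (QuotientGroup.mk' N) x
  have hpos := orderOf_pos (QuotientGroup.mk' N x)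
  rcases ho x with e | e | e | e <;> rw [e] at hd <;> have := Nat.le_of_dvd (by omega) hd <;>
    interval_cases hh : orderOf (QuotientGroup.mk' N x) <;> omega

theorem eq_one_two (hW : ∀ g : G, g ^ 4 = 1) {x : G} (h : x ^ 3 = 1) : x = 1 := by
  calc x = x ^ 4 * (x ^ 3)⁻¹ := by rw [pow_succ' x 3]; group
    _ = 1 := by rw [hW, h, inv_one, mul_one]

/-- The Sylow two part when the core for three is nontrivial. -/
theorem case_three (ho : Ord G) (h2 : ∃ t : G, orderOf t = 2) (h4 : ∃ a : G, orderOf a = 4) (M : Subgroup G) [M.Normal]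
    (hM3 : IsPGroup 3 M) (hM1 : M ≠ ⊥) (hmax : ∀ K : Subgroup G, K.Normal → IsPGroup 3 K → K ≤ M) :
    Cfsg.IsElementaryAbelian 3 M ∧ ((IsCyclic (G ⧸ M) ∧ M.index = 4) ∨ Nonempty (G ⧸ M ≃* QuaternionGroup 2)) := by
  haveI : Fact (Nat.Prime 3) := ⟨Nat.prime_three⟩
  haveI : Fact (Nat.Prime 2) := ⟨Nat.prime_two⟩
  have hexp : ∀ x ∈ M, x ^ 3 = 1 := by
    intro x hx
    obtain ⟨k, hk⟩ := IsPGroup.iff_orderOf.mp hM3 ⟨x, hx⟩
    rw [Subgroup.orderOf_mk] at hk
    have h1 : orderOf x ∣ 3 := by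
      rcases ho x with e | e | e | e <;> rw [e] at hk ⊢
      · norm_num
      · exfalso
        rcases k with _ | k
        · simp at hk
        · have : 3 ∣ 2 := (dvd_pow_self 3 (Nat.succ_ne_zero k)).trans hk.symm.dvd
          omega
      · exfalso
        rcases k with _ | k
        · simp at hk
        · have : 3 ∣ 4 := (dvd_pow_self 3 (Nat.succ_ne_zero k)).trans hk.symm.dvd
          omega
    exact orderOf_dvd_iff_pow_eq_one.mp h1
  -- involutions invert `M`
  have hinv : ∀ t : G, orderOf t = 2 → ∀ x ∈ M, t * x * t⁻¹ = x⁻¹ := by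
    intro t ht x hx
    let φ : M →* M := (MulAut.conjNormal t : MulAut M).toMonoidHom
    have hf : MonoidHom.FixedPointFree φ := by
      intro y hy
      by_contra hy1
      have hy' : t * (y : G) * t⁻¹ = y := congrArg Subtype.val hy
      exact no_six ho (mul_inv_eq_iff_eq_mul.mp hy') ht (orderOf_eq_prime (hexp y y.2) fun e => hy1 (Subtype.ext e))
    have hi : Function.Involutive φ := by
      intro y
      refine Subtype.ext ?_
      show t * (t * (y : G) * t⁻¹) * t⁻¹ = y
      have : t * t = 1 := by rw [← sq, ← ht, pow_orderOf_eq_one]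
      calc t * (t * (y : G) * t⁻¹) * t⁻¹ = (t * t) * y * (t * t)⁻¹ := by group
        _ = y := by rw [this]; group
    exact congrArg Subtype.val (congrFun (hf.coe_eq_inv_of_involutive hi) ⟨x, hx⟩)
  obtain ⟨t₀, ht₀⟩ := h2
  have hab : ∀ a ∈ M, ∀ b ∈ M, a * b = b * a := by
    intro a ha b hb
    have h1 := hinv t₀ ht₀ (a * b) (M.mul_mem ha hb)
    rw [show t₀ * (a * b) * t₀⁻¹ = (t₀ * a * t₀⁻¹) * (t₀ * b * t₀⁻¹) by group, hinv t₀ ht₀ a ha, hinv t₀ ht₀ b hb] at h1
    have := congrArg Inv.inv h1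
    simp only [mul_inv_rev, inv_inv] at this
    exact this.symm
  refine ⟨⟨⟨⟨fun a b => Subtype.ext (hab a a.2 b b.2)⟩⟩, hexp⟩, ?_⟩
  -- the centralizer of `M`
  set C := Subgroup.centralizer (M : Set G)
  obtain ⟨z, hz, hz1⟩ := M.bot_or_exists_ne_one.resolve_left hM1
  have hzo := orderOf_eq_prime (hexp z hz) hz1
  have hC3 : IsPGroup 3 C := by
    intro c
    rcases ho (c : G) with e | e | e | e
    · exact ⟨0, by rw [pow_zero, pow_one]; exact Subtype.ext (orderOf_eq_one_iff.mp e)⟩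
    · exact (no_six ho (Subgroup.mem_centralizer_iff.mp c.2 z hz).symm e hzo).elim
    · exact ⟨1, by rw [pow_one]; exact Subtype.ext (by rw [Subgroup.coe_pow, ← e, pow_orderOf_eq_one]; rfl)⟩
    · have h2 : orderOf ((c : G) ^ 2) = 2 := by rw [orderOf_pow_of_dvd two_ne_zero (by rw [e]; norm_num), e]
      exact (no_six ho ((show Commute (c : G) z from (Subgroup.mem_centralizer_iff.mp c.2 z hz).symm).pow_left 2) h2 hzo).elim
  have hCM : C ≤ M := hmax C inferInstance hC3
  have hoQ := ord_quotient ho M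
  set π := QuotientGroup.mk' M
  have hone : ∀ t : G, orderOf t = 2 → π t = π t₀ := by
    intro t ht
    have h1 : t⁻¹ * t₀ ∈ C := Subgroup.mem_centralizer_iff.mpr fun x hx => by
      have e1 := hinv t₀ ht₀ x hx
      calc x * (t⁻¹ * t₀) = t⁻¹ * (t * x * t⁻¹) * t₀ := by group
        _ = t⁻¹ * x⁻¹ * t₀ := by rw [hinv t ht x hx]
        _ = t⁻¹ * (t₀ * x * t₀⁻¹) * t₀ := by rw [e1]
        _ = t⁻¹ * t₀ * x := by group
    exact (QuotientGroup.eq.mpr (hCM h1))
  have huniq : ∀ w : G ⧸ M, orderOf w = 2 → w = π t₀ := by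
    intro w hw
    obtain ⟨x, rfl⟩ := QuotientGroup.mk'_surjective M w
    have hd : 2 ∣ orderOf x := hw ▸ orderOf_map_dvd π x
    rcases ho x with e | e | e | e <;> rw [e] at hd
    · omega
    · exact hone x e
    · omega
    · exfalso
      have h2 : x ^ 2 ∈ M := (QuotientGroup.eq_one_iff _).mp (show π (x ^ 2) = 1 by rw [map_pow, ← hw, pow_orderOf_eq_one])
      have := orderOf_dvd_of_pow_eq_one (hexp _ h2)
      rw [orderOf_pow_of_dvd two_ne_zero (by rw [e]; norm_num), e] at this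
      norm_num at this
  have hz2 : orderOf (π t₀) = 2 := by
    have hd : orderOf (π t₀) ∣ 2 := ht₀ ▸ orderOf_map_dvd π t₀
    refine ((Nat.dvd_prime Nat.prime_two).mp hd).resolve_left fun e => ?_
    have := Subgroup.orderOf_mk t₀ ((QuotientGroup.eq_one_iff t₀).mp (orderOf_eq_one_iff.mp e))
    have h3 := orderOf_dvd_of_pow_eq_one (hexp t₀ ((QuotientGroup.eq_one_iff t₀).mp (orderOf_eq_one_iff.mp e)))
    rw [ht₀] at h3
    norm_num at h3
  have hzc : ∀ w : G ⧸ M, Commute (π t₀) w := by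
    intro w
    have h1 := huniq (w * π t₀ * w⁻¹) ((MulEquiv.orderOf_eq (MulAut.conj w) (π t₀)).trans hz2)
    exact (mul_inv_eq_iff_eq_mul.mp h1).symm
  have hQ2 : IsPGroup 2 (G ⧸ M) := by
    intro w
    rcases hoQ w with e | e | e | e
    · exact ⟨0, by rw [pow_zero, pow_one]; exact orderOf_eq_one_iff.mp e⟩
    · exact ⟨1, by rw [pow_one, ← e, pow_orderOf_eq_one]⟩
    · exact (no_six hoQ (hzc w) hz2 e).elim
    · exact ⟨2, by rw [show (2 : ℕ) ^ 2 = 4 by norm_num, ← e, pow_orderOf_eq_one]⟩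
  have hu : CfsgLib.UniqueOrderP.Uniq 2 (G ⧸ M) := fun x y hx hy => by rw [huniq x hx, huniq y hy]; exact Subgroup.mem_zpowers _
  obtain ⟨a, ha⟩ := h4
  have ha4 : orderOf (π a) = 4 := by
    have hd : orderOf (π a) ∣ 4 := ha ▸ orderOf_map_dvd π a
    have h2 : a ^ 2 ∉ M := fun hm => by
      have := orderOf_dvd_of_pow_eq_one (hexp _ hm)
      rw [orderOf_pow_of_dvd two_ne_zero (by rw [ha]; norm_num), ha] at this
      norm_num at this
    have hpos := orderOf_pos (π a)
    have := Nat.le_of_dvd (by norm_num) hd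
    have hn : ¬ orderOf (π a) ∣ 2 := fun hd2 => h2 ((QuotientGroup.eq_one_iff _).mp
      (show π (a ^ 2) = 1 by rw [map_pow]; exact orderOf_dvd_iff_pow_eq_one.mp hd2))
    interval_cases hh : orderOf (π a)
    all_goals first | rfl | (exfalso; revert hn hd; norm_num)
  by_cases hnc : IsCyclic (G ⧸ M)
  · left
    have hc := hnc
    haveI := hc
    obtain ⟨g, hg⟩ := IsCyclic.exists_ofOrder_eq_natCard (α := G ⧸ M)
    refine ⟨hc, ?_⟩
    rw [Subgroup.index_eq_card, ← hg]
    have hle : 4 ≤ orderOf g := by rw [hg, ← ha4]; exact Nat.le_of_dvd Nat.card_pos (orderOf_dvd_natCard _)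
    rcases hoQ g with h | h | h | h <;> omega
  · right
    obtain ⟨-, n, ⟨e⟩⟩ := (CfsgLib.UniqueOrderP.cyclic_or_quaternion hQ2 hu).resolve_left hnc
    have h1 : orderOf (e.symm (QuaternionGroup.a 1)) = 2 * 2 ^ n := by
      rw [e.symm.orderOf_eq, QuaternionGroup.orderOf_a_one]
    rcases n with _ | _ | n
    · exfalso
      refine absurd ?_ hnc
      have hcard : Nat.card (G ⧸ M) = 4 := by
        rw [Nat.card_congr e.toEquiv, Nat.card_eq_fintype_card, QuaternionGroup.card]; norm_num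
      exact isCyclic_of_orderOf_eq_card (π a) (ha4.trans hcard.symm)
    · exact ⟨e⟩
    · exfalso
      have : 8 ≤ orderOf (e.symm (QuaternionGroup.a (1 : ZMod (2 * 2 ^ (n + 1 + 1))))) := by
        rw [h1]
        have := Nat.one_le_two_pow (n := n)
        rw [pow_succ, pow_succ]; omega
      rcases hoQ (e.symm (QuaternionGroup.a (1 : ZMod (2 * 2 ^ (n + 1 + 1))))) with h | h | h | h <;> omega

/-- Two commuting elements of order three acting without fixed points on a four-group-like piece. -/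
theorem comm_three {H : Type u} [Group H] (f g v : H) (hfg : Commute f g) (hg3 : g ^ 3 = 1)
    (hline : ∀ h : H, (h = f ∨ h = g ∨ h = f * g ∨ h = f * g ^ 2) → ∀ w : H, (∃ i : ℕ, w = g ^ i * v * (g ^ i)⁻¹) →
      w * (h * w * h⁻¹) * (h * (h * w * h⁻¹) * h⁻¹) = 1)
    (hcomm : ∀ a b : H, Commute (a * v * a⁻¹) (b * v * b⁻¹)) : v ^ 3 = 1 := by
  let V := Subgroup.closure (Set.range fun a : H => a * v * a⁻¹)
  have hV : IsMulCommutative V := Subgroup.isMulCommutative_closure (by
    rintro _ ⟨a, rfl⟩ _ ⟨b, rfl⟩; exact (hcomm a b).eq)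
  letI : CommGroup V := { (inferInstance : Group V) with mul_comm := fun u w => hV.is_comm.comm u w }
  let c : H → V := fun a => ⟨a * v * a⁻¹, Subgroup.subset_closure ⟨a, rfl⟩⟩
  have hl : ∀ h : H, (h = f ∨ h = g ∨ h = f * g ∨ h = f * g ^ 2) → ∀ i : ℕ, c (g ^ i) * c (h * g ^ i) * c (h * (h * g ^ i)) = 1 := by
    intro h hh i
    refine Subtype.ext ?_
    rw [Subgroup.coe_mul, Subgroup.coe_mul, Subgroup.coe_one]
    refine Eq.trans ?_ (hline h hh _ ⟨i, rfl⟩)
    simp only [c]
    group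
  have h0 := hl f (Or.inl rfl) 0
  have h1 := hl g (Or.inr (Or.inl rfl)) 0
  have h2 := hl (f * g) (Or.inr (Or.inr (Or.inl rfl))) 0
  have h3 := hl (f * g ^ 2) (Or.inr (Or.inr (Or.inr rfl))) 0
  have h4 := hl f (Or.inl rfl) 1
  have h5 := hl f (Or.inl rfl) 2
  have e : ∀ a b : ℕ, f ^ a * g ^ b = g ^ b * f ^ a := fun a b => (hfg.pow_pow a b).eq
  have r0 : g ^ 0 = 1 := pow_zero g
  have r2 : (f * g) * (f * g) = f * f * g ^ 2 := by rw [sq]; rw [show f * g * (f * g) = f * (g * f) * g by group, ← hfg.eq]; group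
  have r3 : (f * g ^ 2) * (f * g ^ 2) = f * f * g := by
    rw [show f * g ^ 2 * (f * g ^ 2) = f * (g ^ 2 * f) * g ^ 2 by group, ← (hfg.pow_right 2).eq]
    calc f * (f * g ^ 2) * g ^ 2 = f * f * (g ^ 3 * g) := by group
      _ = f * f * g := by rw [hg3, one_mul]
  simp only [r0, mul_one, pow_one] at h0 h1 h2 h3 h4 h5
  rw [r2] at h2
  rw [r3] at h3
  rw [← mul_assoc f f g] at h4
  rw [← mul_assoc f f (g ^ 2)] at h5
  rw [show g * g = g ^ 2 from (sq g).symm] at h1
  have hprod : c 1 * c 1 * c 1 = (c 1 * c f * c (f * f)) * (c 1 * c g * c (g ^ 2)) * (c 1 * c (f * g) * c (f * f * g ^ 2)) *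
      (c 1 * c (f * g ^ 2) * c (f * f * g)) *
      ((c 1 * c f * c (f * f)) * (c g * c (f * g) * c (f * f * g)) * (c (g ^ 2) * c (f * g ^ 2) * c (f * f * g ^ 2)))⁻¹ := by
    rw [eq_mul_inv_iff_mul_eq]
    ac_rfl
  rw [h0, h1, h2, h3, h4, h5] at hprod
  simp only [one_mul, inv_one, mul_one] at hprod
  have h9 := congrArg Subtype.val hprod
  simp only [Subgroup.coe_mul, Subgroup.coe_one, c, one_mul, inv_one, mul_one] at h9
  rw [pow_succ, pow_two]
  exact h9

theorem case_two (ho : Ord G) (h3 : ∃ s : G, orderOf s = 3) (h4 : ∃ a : G, orderOf a = 4) [Group.IsSolvable G]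
    (N : Subgroup G) [hNn : N.Normal]
    (hN2 : IsPGroup 2 N) (hN1 : N ≠ ⊥) (hmax : ∀ K : Subgroup G, K.Normal → IsPGroup 2 K → K ≤ N) :
    (IsPGroup 2 ↥N ∧ Monoid.exponent ↥N = 4 ∧ Group.nilpotencyClass ↥N ≤ 2 ∧ N.index = 3) ∨
      (Cfsg.IsElementaryAbelian 2 N ∧ Nonempty (G ⧸ N ≃* Equiv.Perm (Fin 3))) := by
  classical
  haveI : Fact (Nat.Prime 3) := ⟨Nat.prime_three⟩
  haveI : Fact (Nat.Prime 2) := ⟨Nat.prime_two⟩
  have hord4 : ∀ x ∈ N, x ^ 4 = 1 := by
    intro x hx
    obtain ⟨k, hk⟩ := IsPGroup.iff_orderOf.mp hN2 ⟨x, hx⟩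
    rw [Subgroup.orderOf_mk] at hk
    apply orderOf_dvd_iff_pow_eq_one.mp
    rcases ho x with e | e | e | e <;> rw [e] <;> try norm_num
    exfalso
    rw [e] at hk
    rcases k with _ | k
    · simp at hk
    · have : 2 ∣ 3 := (dvd_pow_self 2 (Nat.succ_ne_zero k)).trans hk.symm.dvd
      omega
  have hW : ∀ g : N, g ^ 4 = 1 := fun g => Subtype.ext (by rw [Subgroup.coe_pow]; exact hord4 g g.2)
  haveI hnilN : Group.IsNilpotent N := hN2.isNilpotent
  -- elements of order three act without fixed points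
  have hfpf : ∀ s : G, orderOf s = 3 → ∀ v ∈ N, s * v * s⁻¹ = v → v = 1 := by
    intro s hs v hv hfix
    by_contra hv1
    have hcm : Commute v s := (mul_inv_eq_iff_eq_mul.mp hfix).symm
    by_cases hv2 : v ^ 2 = 1
    · exact no_six ho hcm (orderOf_eq_prime hv2 hv1) hs
    · exact no_six ho (hcm.pow_left 2) (orderOf_eq_prime (by rw [← pow_mul]; exact hord4 v hv) hv2) hs
  have hlift : ∀ w : G ⧸ N, orderOf w = 3 → ∃ s : G, orderOf s = 3 ∧ QuotientGroup.mk' N s = w := by
    intro w hw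
    obtain ⟨x, rfl⟩ := QuotientGroup.mk'_surjective N w
    have hd : 3 ∣ orderOf x := hw ▸ orderOf_map_dvd (QuotientGroup.mk' N) x
    rcases ho x with e | e | e | e <;> rw [e] at hd <;> try omega
    exact ⟨x, e, rfl⟩
  set π := QuotientGroup.mk' N
  have hπ1 : ∀ x, π x = 1 ↔ x ∈ N := fun x => QuotientGroup.eq_one_iff x
  have hoQ := ord_quotient ho N
  obtain ⟨s₀, hs₀⟩ := h3
  have hs₀N : s₀ ∉ N := by
    intro hm
    have := orderOf_dvd_of_pow_eq_one (hord4 s₀ hm)
    rw [hs₀] at this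
    omega
  haveI : Nontrivial (G ⧸ N) := ⟨π s₀, 1, fun e => hs₀N ((hπ1 _).mp e)⟩
  obtain ⟨p, L, hp, hLn, hL1, hpL, hLexp⟩ := Cfsg.Agent.S4213.exists_elem_normal (G := G ⧸ N)
  haveI := hLn
  haveI := Fact.mk hp
  have hp3 : p = 3 := by
    obtain ⟨l, hl, hl1⟩ := L.bot_or_exists_ne_one.resolve_left hL1
    have hlo := orderOf_eq_prime (hLexp l hl) hl1
    rcases hoQ l with e | e | e | e <;> rw [hlo] at e
    · exact absurd e hp.ne_one
    · exfalso
      subst e
      have hK : IsPGroup 2 (L.comap π) := by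
        intro x
        refine ⟨3, ?_⟩
        have h1 : ((x : G) ^ 2) ∈ N := (hπ1 _).mp (by rw [map_pow]; exact hLexp _ x.2)
        refine Subtype.ext ?_
        rw [Subgroup.coe_pow, show (2 : ℕ) ^ 3 = 2 * 4 by norm_num, pow_mul, hord4 _ h1]; rfl
      have hle := hmax (L.comap π) inferInstance hK
      refine hl1 ?_
      obtain ⟨x, rfl⟩ := QuotientGroup.mk'_surjective N l
      exact (hπ1 x).mpr (hle hl)
    · exact e
    · exfalso; rw [e] at hp; exact absurd hp (by norm_num)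
  subst hp3
  obtain ⟨z, hzL, hz1⟩ := L.bot_or_exists_ne_one.resolve_left hL1
  have hzo : orderOf z = 3 := orderOf_eq_prime (hLexp z hzL) hz1
  -- two commuting elements of order three generate the same group
  have hline : ∀ x y : G ⧸ N, orderOf x = 3 → orderOf y = 3 → Commute x y → x ∈ Subgroup.zpowers y := by
    intro x y hx hy hxy
    by_contra hnot
    obtain ⟨v₀, hv₀⟩ : ∃ v : Subgroup.center N, orderOf v = 2 := by
      haveI : Nontrivial N := N.nontrivial_iff_ne_bot.mpr hN1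
      haveI := hN2.center_nontrivial
      obtain ⟨j, hj0, hj⟩ := (hN2.to_subgroup (Subgroup.center N)).nontrivial_iff_card.mp inferInstance
      exact exists_prime_orderOf_dvd_card' 2 (hj ▸ dvd_pow_self 2 hj0.ne')
    -- the action on the centre of `N` factors through the quotient
    set Z := (Subgroup.center N).map N.subtype
    haveI : Z.Normal := inferInstance
    have hker : N ≤ (MulAut.conjNormal : G →* MulAut Z).ker := fun n hn => MulEquiv.ext fun w => Subtype.ext (by
      rw [MulAut.conjNormal_apply]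
      obtain ⟨u, hu, huw⟩ := w.2
      have := congrArg Subtype.val (Subgroup.mem_center_iff.mp hu ⟨n, hn⟩)
      show n * (w : G) * n⁻¹ = (w : G)
      rw [← huw]
      exact mul_inv_eq_iff_eq_mul.mpr this)
    let φ : G ⧸ N →* MulAut Z := QuotientGroup.lift N MulAut.conjNormal hker
    let Γ := Z ⋊[φ] (G ⧸ N)
    let f : Γ := SemidirectProduct.inr x
    let g : Γ := SemidirectProduct.inr y
    let v : Γ := SemidirectProduct.inl ⟨((v₀ : N) : G), ⟨(v₀ : N), v₀.2, rfl⟩⟩
    have hZc : ∀ a b : Z, Commute a b := fun a b => Subtype.ext (by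
      obtain ⟨u, hu, huw⟩ := a.2
      obtain ⟨u', hu', huw'⟩ := b.2
      show (a : G) * b = b * a
      rw [← huw, ← huw']
      exact congrArg Subtype.val (Subgroup.mem_center_iff.mp hu u').symm)
    have hcj : ∀ (a : Γ), ∃ w : Z, a * v * a⁻¹ = SemidirectProduct.inl w := by
      intro a
      refine ⟨(a * v * a⁻¹).left, ?_⟩
      refine SemidirectProduct.ext (by simp) ?_
      show SemidirectProduct.rightHom (a * v * a⁻¹) = (SemidirectProduct.inl (a * v * a⁻¹).left : Γ).right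
      rw [map_mul, map_mul, map_inv, SemidirectProduct.rightHom_inl, mul_one, mul_inv_cancel, SemidirectProduct.right_inl]
    have hinr : ∀ (q : G ⧸ N) (w : Z), (SemidirectProduct.inr q : Γ) * SemidirectProduct.inl w * (SemidirectProduct.inr q)⁻¹ =
        SemidirectProduct.inl (φ q w) := fun q w => by
      rw [← map_inv, SemidirectProduct.inl_aut, map_inv]
    have hv3 : v ^ 3 = 1 := by
      refine comm_three f g v (hxy.map SemidirectProduct.inr) (by
        show (SemidirectProduct.inr y : Γ) ^ 3 = 1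
        rw [← map_pow, ← hy, pow_orderOf_eq_one, map_one]) ?_ ?_
      · intro h hh w hw
        obtain ⟨i, rfl⟩ := hw
        obtain ⟨u, hu⟩ := hcj (g ^ i)
        rw [hu]
        obtain ⟨q, rfl, hq3⟩ : ∃ q : G ⧸ N, h = SemidirectProduct.inr q ∧ orderOf q = 3 := by
          have h9 : ∀ j : ℕ, orderOf (x * y ^ j) = 3 := by
            intro j
            refine orderOf_eq_prime ?_ ?_
            · rw [(hxy.pow_right j).mul_pow, ← pow_mul, mul_comm j, pow_mul, ← hy, pow_orderOf_eq_one, one_pow, hy, ← hx,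
                pow_orderOf_eq_one, one_mul]
            · intro e
              exact hnot (by rw [eq_inv_of_mul_eq_one_left e]; exact Subgroup.inv_mem _ (Subgroup.npow_mem_zpowers _ _))
          rcases hh with rfl | rfl | rfl | rfl
          · exact ⟨x, rfl, hx⟩
          · exact ⟨y, rfl, hy⟩
          · exact ⟨x * y, (map_mul _ _ _).symm, by simpa using h9 1⟩
          · exact ⟨x * y ^ 2, by simp [f, g, map_mul, map_pow], h9 2⟩
        rw [hinr, hinr, ← map_mul, ← map_mul]
        obtain ⟨s, hs, hsq⟩ := hlift q hq3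
        have hφs : ∀ r : Z, ((φ q r : Z) : G) = s * (r : G) * s⁻¹ := fun r => by
          rw [← hsq]; exact MulAut.conjNormal_apply s r
        let σ : Z →* Z := (φ q).toMonoidHom
        have hσ : MonoidHom.FixedPointFree σ := fun r hr => by
          refine Subtype.ext (hfpf s hs r (Subgroup.map_subtype_le _ r.2) ?_)
          rw [← hφs]; exact congrArg Subtype.val hr
        have hσ3 : ∀ r, σ (σ (σ r)) = r := fun r => Subtype.ext (by
          show ((φ q (φ q (φ q r)) : Z) : G) = r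
          rw [hφs, hφs, hφs]
          have h33 : s * s * s = 1 := by rw [← pow_three', ← hs, pow_orderOf_eq_one]
          calc s * (s * (s * (r : G) * s⁻¹) * s⁻¹) * s⁻¹ = (s * s * s) * r * (s * s * s)⁻¹ := by group
            _ = r := by rw [h33]; group)
        rw [show u * (φ q) u * (φ q) ((φ q) u) = u * σ u * σ (σ u) from rfl, CfsgLib.GroupB.FpfS3.prod_three σ hσ hσ3 u, map_one]
      · intro a b
        obtain ⟨u, hu⟩ := hcj a
        obtain ⟨u', hu'⟩ := hcj b
        rw [hu, hu']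
        exact (hZc u u').map SemidirectProduct.inl
    have h5 : ((⟨((v₀ : N) : G), ⟨(v₀ : N), v₀.2, rfl⟩⟩ : Z)) ^ 3 = 1 := by
      apply SemidirectProduct.inl_injective (φ := φ)
      rw [map_pow, map_one]; exact hv3
    have h6 : orderOf ((v₀ : N) : G) ∣ 3 := orderOf_dvd_of_pow_eq_one (congrArg Subtype.val h5)
    rw [Subgroup.orderOf_coe, Subgroup.orderOf_coe, hv₀] at h6
    omega
  -- the centralizer of `z`
  set Cz := Subgroup.centralizer ({z} : Set (G ⧸ N))
  have hCz : ∀ w ∈ Cz, w ∈ Subgroup.zpowers z := by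
    intro w hw
    have hc : Commute z w := Subgroup.mem_centralizer_iff.mp hw z rfl
    rcases hoQ w with e | e | e | e
    · rw [orderOf_eq_one_iff.mp e]; exact one_mem _
    · exact (no_six hoQ hc.symm e hzo).elim
    · exact hline w z e hzo hc.symm
    · exact (no_six hoQ (hc.symm.pow_left 2) (by rw [orderOf_pow_of_dvd two_ne_zero (by rw [e]; norm_num), e]) hzo).elim
  have hCzc : Nat.card Cz = 3 := by
    rw [← hzo, ← Nat.card_zpowers]
    refine le_antisymm (Subgroup.card_le_of_le hCz) (Subgroup.card_le_of_le (Subgroup.zpowers_le.mpr ?_))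
    exact Subgroup.mem_centralizer_iff.mpr fun w hw => by rw [Set.mem_singleton_iff.mp hw]
  have hnorm : ∀ w : G ⧸ N, w * z * w⁻¹ = z ∨ w * z * w⁻¹ = z⁻¹ := by
    intro w
    have hm : w * z * w⁻¹ ∈ L := hLn.conj_mem z hzL w
    have hLz : ∀ l ∈ L, l ∈ Subgroup.zpowers z := by
      intro l hl
      by_cases hl1 : l = 1
      · rw [hl1]; exact one_mem _
      have hlo := orderOf_eq_prime (hLexp l hl) hl1
      -- use a central element of the `3`-group `L`
      have hL3 : IsPGroup 3 L := fun u => ⟨1, Subtype.ext (by rw [pow_one, Subgroup.coe_pow]; exact hLexp u u.2)⟩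
      haveI : Nontrivial L := L.nontrivial_iff_ne_bot.mpr hL1
      haveI := hL3.center_nontrivial
      obtain ⟨c, hc⟩ := exists_ne (1 : Subgroup.center L)
      have hco : orderOf ((c : L) : G ⧸ N) = 3 := orderOf_eq_prime (hLexp _ (c : L).2) fun e => hc (Subtype.ext (Subtype.ext e))
      have hcl : ∀ u ∈ L, Commute ((c : L) : G ⧸ N) u := fun u hu =>
        (congrArg Subtype.val (Subgroup.mem_center_iff.mp c.2 ⟨u, hu⟩)).symm
      have h1 := hline l _ hlo hco (hcl l hl).symm
      have h2 := hline _ z hco hzo (hcl z hzL)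
      exact Subgroup.zpowers_le.mpr h2 h1
    obtain ⟨k, hk⟩ := Subgroup.mem_zpowers_iff.mp (hLz _ hm)
    rw [← zpow_mod_orderOf, hzo] at hk
    have h0 : k % 3 = 0 ∨ k % 3 = 1 ∨ k % 3 = 2 := by omega
    rcases h0 with h | h | h <;> rw [show ((3 : ℕ) : ℤ) = 3 from rfl, h] at hk
    · rw [zpow_zero] at hk
      exact absurd (conj_eq_one_iff.mp hk.symm) hz1
    · exact Or.inl (by rw [← hk, zpow_one])
    · refine Or.inr ?_
      rw [← hk, eq_inv_iff_mul_eq_one, zpow_ofNat, ← pow_succ]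
      show z ^ 3 = 1
      rw [← hzo, pow_orderOf_eq_one]
  -- the automorphism of order three
  obtain ⟨s, hs, hsz⟩ := hlift z hzo
  let σ : N →* N := (MulAut.conjNormal s : MulAut N).toMonoidHom
  have hσ : MonoidHom.FixedPointFree σ := fun r hr => Subtype.ext (hfpf s hs r r.2 (congrArg Subtype.val hr))
  have h33 : s * s * s = 1 := by rw [← pow_three', ← hs, pow_orderOf_eq_one]
  have hσ3 : ∀ r, σ (σ (σ r)) = r := fun r => Subtype.ext (by
    show s * (s * (s * (r : G) * s⁻¹) * s⁻¹) * s⁻¹ = r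
    calc s * (s * (s * (r : G) * s⁻¹) * s⁻¹) * s⁻¹ = (s * s * s) * r * (s * s * s)⁻¹ := by group
      _ = r := by rw [h33]; group)
  have hcl := class_two (W := N) (engel σ hσ hσ3) (fun x hx => eq_one_two hW hx)
  have hclass : Group.nilpotencyClass ↥N ≤ 2 := by
    rw [← Subgroup.upperCentralSeries_eq_top_iff_nilpotencyClass_le, eq_top_iff]
    intro a _
    rw [Subgroup.mem_upperCentralSeries_succ_iff]
    intro b
    rw [Subgroup.upperCentralSeries_one, Subgroup.mem_center_iff]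
    intro c
    first
    | exact ((by simpa [mul_assoc] using hcl a⁻¹ b⁻¹ c : Commute (a * b * a⁻¹ * b⁻¹) c)).symm.eq
    | (simp only [commutatorElement_def]; exact ((by simpa [mul_assoc] using hcl a⁻¹ b⁻¹ c : Commute (a * b * a⁻¹ * b⁻¹) c)).symm.eq)
  by_cases hall : ∀ w : G ⧸ N, w * z * w⁻¹ = z
  · left
    have htop : Cz = ⊤ := eq_top_iff.mpr fun w _ => Subgroup.mem_centralizer_iff.mpr fun u hu => by
      rw [Set.mem_singleton_iff.mp hu]; exact (mul_inv_eq_iff_eq_mul.mp (hall w)).symm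
    have hidx : N.index = 3 := by rw [Subgroup.index_eq_card, ← hCzc, htop, Subgroup.card_top]
    refine ⟨hN2, ?_, hclass, hidx⟩
    obtain ⟨a, ha⟩ := h4
    have haN : a ∈ N := by
      rw [← hπ1, ← orderOf_eq_one_iff]
      refine Nat.eq_one_of_dvd_coprimes (show Nat.Coprime 4 3 by norm_num) (ha ▸ orderOf_map_dvd π a) ?_
      rw [← hidx, Subgroup.index_eq_card]; exact orderOf_dvd_natCard _
    refine Nat.dvd_antisymm (Monoid.exponent_dvd_of_forall_pow_eq_one hW) ?_
    rw [← ha, ← Subgroup.orderOf_mk a haN]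
    exact Monoid.order_dvd_exponent _
  right
  push Not at hall
  obtain ⟨w₀, hw₀⟩ := hall
  have hw₀' := (hnorm w₀).resolve_left hw₀
  obtain ⟨y₀, hy₀⟩ := QuotientGroup.mk'_surjective N w₀
  -- correct `y₀` to invert `s` exactly
  have hn : s * (y₀ * s * y₀⁻¹) ∈ N := (hπ1 _).mp (by rw [map_mul, map_mul, map_mul, map_inv, hsz, hy₀, hw₀', mul_inv_cancel])
  obtain ⟨m, hm⟩ := hσ.commutatorMap_surjective (⟨_, hn⟩ : N)⁻¹
  rw [MonoidHom.commutatorMap_apply, div_eq_mul_inv] at hm
  have hm' : (m : G) * s⁻¹ * (m : G)⁻¹ = y₀ * s * y₀⁻¹ := by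
    have h1 : (m : G) * (s * (m : G) * s⁻¹)⁻¹ = (s * (y₀ * s * y₀⁻¹))⁻¹ := congrArg Subtype.val hm
    calc (m : G) * s⁻¹ * (m : G)⁻¹ = s⁻¹ * ((m : G) * (s * (m : G) * s⁻¹)⁻¹)⁻¹ := by group
      _ = y₀ * s * y₀⁻¹ := by rw [h1]; group
  set t := (m : G)⁻¹ * y₀ with ht
  have hts : t * s * t⁻¹ = s⁻¹ := by
    calc t * s * t⁻¹ = (m : G)⁻¹ * (y₀ * s * y₀⁻¹) * (m : G) := by rw [ht]; group
      _ = (m : G)⁻¹ * ((m : G) * s⁻¹ * (m : G)⁻¹) * (m : G) := by rw [hm']
      _ = s⁻¹ := by group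
  have htπ : π t = w₀ := by rw [ht, map_mul, map_inv, (hπ1 _).mpr m.2, inv_one, one_mul, hy₀]
  have hsq : ∀ u : G ⧸ N, u * z * u⁻¹ = z⁻¹ → u * u = 1 := by
    intro u hu
    have h1 : u * u ∈ Cz := Subgroup.mem_centralizer_iff.mpr fun r hr => by
      rw [Set.mem_singleton_iff.mp hr]
      refine (mul_inv_eq_iff_eq_mul.mp ?_).symm
      calc u * u * z * (u * u)⁻¹ = u * (u * z * u⁻¹) * u⁻¹ := by group
        _ = u * z⁻¹ * u⁻¹ := by rw [hu]
        _ = (u * z * u⁻¹)⁻¹ := by group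
        _ = z := by rw [hu, inv_inv]
    obtain ⟨k, hk⟩ := Subgroup.mem_zpowers_iff.mp (hCz _ h1)
    have h2 : (u * u)⁻¹ = u * u := by
      rw [← hk, ← inv_zpow, ← hu, conj_zpow, hk]; group
    rcases hoQ (u * u) with e | e | e | e
    · exact orderOf_eq_one_iff.mp e
    all_goals
      exfalso
      have h3' : orderOf (u * u) ∣ 3 := hzo ▸ (hk ▸ orderOf_dvd_of_pow_eq_one (by
        rw [← zpow_natCast, ← zpow_mul, mul_comm, zpow_mul, zpow_natCast, pow_orderOf_eq_one, one_zpow]))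
      have h2' : orderOf (u * u) ∣ 2 := orderOf_dvd_of_pow_eq_one (by rw [pow_two]; nth_rewrite 1 [← h2]; rw [inv_mul_cancel])
      have := Nat.eq_one_of_dvd_coprimes (show Nat.Coprime 3 2 by norm_num) h3' h2'
      omega
  have htt : t * t = 1 := by
    have h1 : t * t ∈ N := (hπ1 _).mp (by rw [map_mul, htπ]; exact hsq w₀ hw₀')
    refine hfpf s hs _ h1 ?_
    have e : t * t * s * (t * t)⁻¹ = s := by
      calc t * t * s * (t * t)⁻¹ = t * (t * s * t⁻¹) * t⁻¹ := by group
        _ = t * s⁻¹ * t⁻¹ := by rw [hts]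
        _ = (t * s * t⁻¹)⁻¹ := by group
        _ = s := by rw [hts, inv_inv]
    have e2 := mul_inv_eq_iff_eq_mul.mp e
    rw [← e2, mul_inv_cancel_right]
  -- the key estimate for each reflection
  have hinv2 : ∀ y : G, y * y = 1 → π y ≠ 1 → ∀ v : N, (v * (MulAut.conjNormal y v)) * (v * (MulAut.conjNormal y v)) = 1 := by
    intro y hy hy1 v
    refine Subtype.ext ?_
    show (v : G) * (y * (v : G) * y⁻¹) * ((v : G) * (y * (v : G) * y⁻¹)) = 1
    have hyi : y⁻¹ = y := inv_eq_of_mul_eq_one_right hy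
    have hπv : π ((v : G) * y) = π y := by rw [map_mul, (hπ1 _).mpr v.2, one_mul]
    have h4' : ((v : G) * y) ^ 4 = 1 := by
      apply orderOf_dvd_iff_pow_eq_one.mp
      rcases ho ((v : G) * y) with e | e | e | e <;> rw [e] <;> try norm_num
      exfalso
      have h1 : orderOf (π y) ∣ 3 := hπv ▸ e ▸ orderOf_map_dvd π _
      have h2 : orderOf (π y) ∣ 2 := orderOf_dvd_of_pow_eq_one (by rw [pow_two, ← map_mul, hy, map_one])
      exact hy1 (orderOf_eq_one_iff.mp (Nat.eq_one_of_dvd_coprimes (show Nat.Coprime 3 2 by norm_num) h1 h2))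
    rw [hyi]
    rw [show 4 = 3 + 1 from rfl, pow_succ, pow_succ, pow_succ, pow_one] at h4'
    rw [← h4']; group
  have hsi : ∀ i : ℕ, (t * s ^ i) * (t * s ^ i) = 1 ∧ π (t * s ^ i) ≠ 1 := by
    intro i
    constructor
    · have e : t * s ^ i * t⁻¹ = (s ^ i)⁻¹ := by rw [← conj_pow, hts, inv_pow]
      calc t * s ^ i * (t * s ^ i) = (t * s ^ i * t⁻¹) * (t * t) * s ^ i := by group
        _ = 1 := by rw [e, htt, mul_one, inv_mul_cancel]
    · intro e
      apply hw₀
      rw [map_mul, map_pow, htπ, hsz] at e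
      rw [eq_inv_of_mul_eq_one_left e]
      group
  set τ : ℕ → MulAut N := fun i => MulAut.conjNormal (t * s ^ i) with hτ
  have hprod : ∀ r : N, τ 0 r * τ 1 r * τ 2 r = 1 := by
    intro r
    have e : ∀ i, τ i r = MulAut.conjNormal t ((MulAut.conjNormal s : MulAut N)^[i] r) := by
      intro i
      rw [hτ]; simp only [map_mul, MulAut.mul_apply, map_pow]
      congr 1
      induction i with
      | zero => simp
      | succ i ih => rw [pow_succ', MulAut.mul_apply, ih, Function.iterate_succ_apply']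
    rw [e, e, e, ← map_mul, ← map_mul]
    show MulAut.conjNormal t (r * σ r * σ (σ r)) = 1
    rw [CfsgLib.GroupB.FpfS3.prod_three σ hσ hσ3 r, map_one]
  have hone : ∀ i, ∀ v : N, (v * τ i v) * (v * τ i v) = 1 := fun i v => hinv2 _ (hsi i).1 (hsi i).2 v
  -- modulo the centre
  set ρ := QuotientGroup.mk' (Subgroup.center N)
  have hQc : ∀ a b : N, Commute (ρ a) (ρ b) := by
    intro a b
    have hk : (a⁻¹ * b⁻¹ * a * b) ∈ Subgroup.center N := Subgroup.mem_center_iff.mpr fun c => (hcl a b c).symm.eq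
    have h1 : ρ (a⁻¹ * b⁻¹ * a * b) = 1 := (QuotientGroup.eq_one_iff _).mpr hk
    rw [map_mul, map_mul, map_mul, map_inv, map_inv] at h1
    calc ρ a * ρ b = ρ b * ρ a * ((ρ a)⁻¹ * (ρ b)⁻¹ * ρ a * ρ b) := by group
      _ = ρ b * ρ a := by rw [h1, mul_one]
  letI : CommGroup (N ⧸ Subgroup.center N) := { (inferInstance : Group (N ⧸ Subgroup.center N)) with
    mul_comm := fun a b => by
      obtain ⟨a, rfl⟩ := QuotientGroup.mk'_surjective _ a
      obtain ⟨b, rfl⟩ := QuotientGroup.mk'_surjective _ b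
      exact hQc a b }
  have hcentral : ∀ v : N, v * v ∈ Subgroup.center N := by
    intro v
    rw [← QuotientGroup.eq_one_iff]
    show ρ (v * v) = 1
    have key : ∀ i, ρ (v * v) * ρ (τ i (v * v)) = 1 := fun i => by
      have h1 := congrArg ρ (hone i v)
      rw [map_one, map_mul, map_mul] at h1
      rw [map_mul, map_mul, map_mul, ← h1]
      ac_rfl
    have h3v : ρ (v * v) * ρ (v * v) * ρ (v * v) * (ρ (τ 0 (v * v)) * ρ (τ 1 (v * v)) * ρ (τ 2 (v * v))) = 1 := by
      calc _ = (ρ (v * v) * ρ (τ 0 (v * v))) * (ρ (v * v) * ρ (τ 1 (v * v))) * (ρ (v * v) * ρ (τ 2 (v * v))) := by ac_rfl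
        _ = 1 := by rw [key, key, key, one_mul, one_mul]
    have hp : ρ (τ 0 (v * v)) * ρ (τ 1 (v * v)) * ρ (τ 2 (v * v)) = 1 := by rw [← map_mul, ← map_mul, hprod, map_one]
    rw [hp, mul_one] at h3v
    have h4v : ρ ((v * v) * (v * v)) = 1 := by rw [show v * v * (v * v) = v ^ 4 by rw [pow_succ, pow_succ, pow_succ, pow_one]; group, hW, map_one]
    rw [map_mul] at h4v
    rw [h4v, one_mul] at h3v
    exact h3v
  -- exponent two
  have hexp2 : ∀ v : N, v * v = 1 := by
    intro v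
    let c : N → N := fun a => v⁻¹ * a * v * a⁻¹
    have hcc : ∀ a, c a ∈ Subgroup.center N := fun a => by
      have e : c a = v⁻¹ * (a⁻¹)⁻¹ * v * a⁻¹ := by simp [c]
      rw [e]
      exact Subgroup.mem_center_iff.mpr fun x => (hcl v a⁻¹ x).symm.eq
    have hcm : ∀ a b, c (a * b) = c a * c b := fun a b => by
      calc c (a * b) = c a * (a * c b * a⁻¹) := by simp [c, mul_assoc]
        _ = c a * c b := by rw [Subgroup.mem_center_iff.mp (hcc b) a, mul_inv_cancel_right]
    have key : ∀ i, (v * v) * c (τ i v) * τ i (v * v) = 1 := fun i => by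
      rw [← hone i v, map_mul]
      simp [c, mul_assoc]
    have hz : ∀ a : N, a * a ∈ Subgroup.center N := hcentral
    have hcc1 : c (τ 0 v) * c (τ 1 v) * c (τ 2 v) = 1 := by
      rw [← hcm, ← hcm, hprod]; simp [c]
    have hmem : ∀ i, τ i (v * v) ∈ Subgroup.center N := fun i => by rw [map_mul]; exact hz _
    have h3v : (v * v) * (v * v) * (v * v) * (c (τ 0 v) * c (τ 1 v) * c (τ 2 v)) * (τ 0 (v * v) * τ 1 (v * v) * τ 2 (v * v)) = 1 := by
      let CC := Subgroup.center N
      letI : CommGroup CC := { (inferInstance : Group CC) with mul_comm := fun a b => Subtype.ext (Subgroup.mem_center_iff.mp b.2 a) }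
      let V : CC := ⟨v * v, hz v⟩
      let A : ℕ → CC := fun i => ⟨c (τ i v), hcc _⟩
      let B : ℕ → CC := fun i => ⟨τ i (v * v), hmem i⟩
      have hk : ∀ i, V * A i * B i = 1 := fun i => Subtype.ext (key i)
      have : V * V * V * (A 0 * A 1 * A 2) * (B 0 * B 1 * B 2) = 1 := by
        calc _ = (V * A 0 * B 0) * (V * A 1 * B 1) * (V * A 2 * B 2) := by ac_rfl
          _ = 1 := by rw [hk, hk, hk, one_mul, one_mul]
      exact congrArg Subtype.val this
    rw [hcc1, hprod, mul_one, mul_one] at h3v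
    have h4v : v * v * (v * v) = 1 := by rw [← hW v, pow_succ, pow_succ, pow_succ, pow_one]; group
    rwa [h4v, one_mul] at h3v
  have hcommN : IsMulCommutative N := ⟨⟨fun a b => by
    have hi : ∀ r : N, r⁻¹ = r := fun r => inv_eq_of_mul_eq_one_right (hexp2 r)
    calc a * b = (a * b)⁻¹ := (hi _).symm
      _ = b * a := by rw [mul_inv_rev, hi, hi]⟩⟩
  refine ⟨⟨hcommN, fun a ha => by rw [pow_two]; exact congrArg Subtype.val (hexp2 ⟨a, ha⟩)⟩, ?_⟩
  -- the quotient is the symmetric group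
  have hidx2 : Cz.index = 2 := by
    rw [Subgroup.index_eq_two_iff]
    refine ⟨w₀, fun b => ?_⟩
    have hmem : ∀ u : G ⧸ N, u ∈ Cz ↔ u * z * u⁻¹ = z := fun u =>
      ⟨fun hu => mul_inv_eq_iff_eq_mul.mpr (Subgroup.mem_centralizer_iff.mp hu z rfl).symm,
       fun hu => Subgroup.mem_centralizer_iff.mpr fun r hr => by rw [Set.mem_singleton_iff.mp hr]; exact (mul_inv_eq_iff_eq_mul.mp hu).symm⟩
    have hne : z⁻¹ ≠ z := fun e => by
      have := orderOf_dvd_of_pow_eq_one (show z ^ 2 = 1 by rw [pow_two]; nth_rewrite 1 [← e]; rw [inv_mul_cancel])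
      rw [hzo] at this; omega
    have e : b * w₀ * z * (b * w₀)⁻¹ = (b * z * b⁻¹)⁻¹ := by
      rw [show b * w₀ * z * (b * w₀)⁻¹ = b * (w₀ * z * w₀⁻¹) * b⁻¹ by group, hw₀']; group
    rw [hmem, hmem, e]
    rcases hnorm b with hb | hb <;> rw [hb]
    · exact Or.inr ⟨rfl, hne⟩
    · exact Or.inl ⟨inv_inv z, hne⟩
  have h6 : Nat.card (G ⧸ N) = 6 := by rw [← Cz.index_mul_card, hidx2, hCzc]
  set T := Subgroup.zpowers w₀
  have hw2 : orderOf w₀ = 2 := orderOf_eq_prime (by rw [pow_two]; exact hsq w₀ hw₀') fun e => hw₀ (by rw [e, one_mul, inv_one, mul_one])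
  have hTi : T.index = 3 := by
    have := T.index_mul_card
    rw [h6, Nat.card_zpowers, hw2] at this
    omega
  have e : (G ⧸ N) ⧸ T ≃ Fin 3 := Finite.equivFinOfCardEq (by rw [← T.index_eq_card, hTi])
  let f : G ⧸ N →* Equiv.Perm ((G ⧸ N) ⧸ T) := MulAction.toPermHom (G ⧸ N) ((G ⧸ N) ⧸ T)
  have hker : f.ker = T.normalCore := T.normalCore_eq_ker.symm
  have hf : Function.Injective f := by
    rw [← MonoidHom.ker_eq_bot_iff, hker, Subgroup.eq_bot_iff_forall]
    intro r hr
    by_contra hr1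
    have hrT := Subgroup.normalCore_le T hr
    obtain ⟨k, hk⟩ := Subgroup.mem_zpowers_iff.mp hrT
    rw [← zpow_mod_orderOf, hw2] at hk
    have hrw : r = w₀ := by
      rcases Int.emod_two_eq_zero_or_one k with h | h <;> rw [show ((2 : ℕ) : ℤ) = 2 from rfl, h] at hk
      · exact absurd (by rw [← hk, zpow_zero]) hr1
      · rw [← hk, zpow_one]
    subst hrw
    have h1 := Subgroup.normalCore_le T ((Subgroup.normalCore_normal T).conj_mem r hr z)
    obtain ⟨k, hk⟩ := Subgroup.mem_zpowers_iff.mp h1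
    rw [← zpow_mod_orderOf, hw2] at hk
    rcases Int.emod_two_eq_zero_or_one k with h | h <;> rw [show ((2 : ℕ) : ℤ) = 2 from rfl, h] at hk
    · rw [zpow_zero] at hk; exact hr1 (conj_eq_one_iff.mp hk.symm)
    · rw [zpow_one] at hk
      exact hw₀ (mul_inv_eq_iff_eq_mul.mpr (eq_mul_inv_iff_mul_eq.mp hk))
  let g : G ⧸ N →* Equiv.Perm (Fin 3) := e.permCongrHom.toMonoidHom.comp f
  exact ⟨MulEquiv.ofBijective g ((e.permCongrHom.injective.comp hf).bijective_of_nat_card_le (by
    rw [h6, Nat.card_eq_fintype_card, Fintype.card_perm, Fintype.card_fin]; rfl))⟩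

theorem main (h : Set.range (orderOf : G → ℕ) = {k : ℕ | 1 ≤ k ∧ k ≤ 4}) :
    ∃ (N : Subgroup G) (_ : N.Normal),
      (IsPGroup 2 ↥N ∧ Monoid.exponent ↥N = 4 ∧ Group.nilpotencyClass ↥N ≤ 2 ∧ N.index = 3) ∨
      (Cfsg.IsElementaryAbelian 2 N ∧ Nonempty (G ⧸ N ≃* Equiv.Perm (Fin 3))) ∨
      (Cfsg.IsElementaryAbelian 3 N ∧ ((IsCyclic (G ⧸ N) ∧ N.index = 4) ∨ Nonempty (G ⧸ N ≃* QuaternionGroup 2))) := by
  classical
  have ho : Ord G := fun g => by
    have : orderOf g ∈ {k : ℕ | 1 ≤ k ∧ k ≤ 4} := h ▸ Set.mem_range_self g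
    simp only [Set.mem_setOf_eq] at this
    omega
  have hex : ∀ n, 1 ≤ n → n ≤ 4 → ∃ g : G, orderOf g = n := fun n h1 h2 => by
    have : n ∈ Set.range (orderOf : G → ℕ) := by rw [h]; exact ⟨h1, h2⟩
    exact this
  have hdvd : ∀ q : ℕ, q.Prime → q ∣ Nat.card G → q = 2 ∨ q = 3 := by
    intro q hq hd
    haveI := Fact.mk hq
    obtain ⟨g, hg⟩ := exists_prime_orderOf_dvd_card' q hd
    rcases ho g with e | e | e | e <;> rw [hg] at e
    · exact absurd e hq.ne_one
    · exact Or.inl e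
    · exact Or.inr e
    · exfalso; rw [e] at hq; exact absurd hq (by norm_num)
  obtain ⟨a, b, hab⟩ : ∃ a b, Nat.card G = 2 ^ a * 3 ^ b := by
    refine ⟨(Nat.card G).factorization 2, (Nat.card G).factorization 3, ?_⟩
    have h0 : Nat.card G ≠ 0 := Nat.card_pos.ne'
    refine Nat.eq_of_factorization_eq h0 (by positivity) fun q => ?_
    rw [Nat.factorization_mul (by positivity) (by positivity), Finsupp.add_apply,
      Nat.prime_two.factorization_pow, Nat.prime_three.factorization_pow]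
    by_cases hq2 : q = 2
    · subst hq2; simp
    by_cases hq3 : q = 3
    · subst hq3; simp
    rw [Finsupp.single_eq_of_ne (by omega), Finsupp.single_eq_of_ne (by omega), add_zero]
    by_cases hq : q.Prime
    · exact Nat.factorization_eq_zero_of_not_dvd fun hd => by rcases hdvd q hq hd with e | e <;> omega
    · exact Nat.factorization_eq_zero_of_not_prime _ hq
  haveI : Group.IsSolvable G := Cfsg.Agent.S0144.result 2 3 a b Nat.prime_two Nat.prime_three hab
  obtain ⟨t₀, ht₀⟩ := hex 2 (by norm_num) (by norm_num)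
  by_cases hO3 : Cfsg.pCore 3 G = ⊥
  swap
  · haveI : (Cfsg.pCore 3 G).Normal := by
      have := CfsgLib.Core.pCore_characteristic (G := G) 3
      infer_instance
    haveI : Fact (Nat.Prime 3) := ⟨Nat.prime_three⟩
    exact ⟨Cfsg.pCore 3 G, inferInstance, Or.inr (Or.inr (case_three ho ⟨t₀, ht₀⟩ (hex 4 (by norm_num) le_rfl) _
      (CfsgLib.Core.isPGroup_pCore 3) hO3 fun K hK hK3 => CfsgLib.Core.le_pCore hK hK3))⟩
  haveI : Nontrivial G := ⟨t₀, 1, fun e => by rw [e, orderOf_one] at ht₀; omega⟩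
  obtain ⟨p, L, hp, hLn, hL1, hpL, hLexp⟩ := Cfsg.Agent.S4213.exists_elem_normal (G := G)
  have hLp : IsPGroup p L := fun u => ⟨1, Subtype.ext (by rw [pow_one, Subgroup.coe_pow]; exact hLexp u u.2)⟩
  have hp2 : p = 2 := by
    rcases hdvd p hp (hpL.trans (Subgroup.card_subgroup_dvd_card L)) with e | e
    · exact e
    · subst e
      haveI : Fact (Nat.Prime 3) := ⟨Nat.prime_three⟩
      exact absurd (le_bot_iff.mp (hO3 ▸ CfsgLib.Core.le_pCore hLn hLp)) hL1
  subst hp2
  haveI : Fact (Nat.Prime 2) := ⟨Nat.prime_two⟩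
  haveI : (Cfsg.pCore 2 G).Normal := by
    have := CfsgLib.Core.pCore_characteristic (G := G) 2
    infer_instance
  have hO2 : Cfsg.pCore 2 G ≠ ⊥ := fun e => hL1 (le_bot_iff.mp (e ▸ CfsgLib.Core.le_pCore hLn hLp))
  refine ⟨Cfsg.pCore 2 G, inferInstance, ?_⟩
  rcases case_two ho (hex 3 (by norm_num) (by norm_num)) (hex 4 (by norm_num) le_rfl) _ (CfsgLib.Core.isPGroup_pCore 2) hO2
    (fun K hK hK2 => CfsgLib.Core.le_pCore hK hK2) with h | h
  · exact Or.inl h
  · exact Or.inr (Or.inl h)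

/-- A finite group whose set of element orders is exactly {1, 2, 3, 4} has a normal subgroup N such that either N is a 2-group of exponent 4 and nilpotency class at most 2 with G/N of order 3, or N is an elementary abelian 2-group with G/N isomorphic to the symmetric group of degree 3, or N is an elementary abelian 3-group with G/N cyclic of order 4 or quaternion of order 8. -/
theorem result {G : Type*} [Group G] [Finite G] (h : Set.range (orderOf : G → ℕ) = {k : ℕ | 1 ≤ k ∧ k ≤ 4}) :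
    ∃ (N : Subgroup G) (_ : N.Normal),
      (IsPGroup 2 ↥N ∧ Monoid.exponent ↥N = 4 ∧ Group.nilpotencyClass ↥N ≤ 2 ∧ N.index = 3) ∨
      (Cfsg.IsElementaryAbelian 2 N ∧ Nonempty (G ⧸ N ≃* Equiv.Perm (Fin 3))) ∨
      (Cfsg.IsElementaryAbelian 3 N ∧ ((IsCyclic (G ⧸ N) ∧ N.index = 4) ∨ Nonempty (G ⧸ N ≃* QuaternionGroup 2))) := by
  exact main h

end Cfsg.Agent.S4006
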