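import Cfsg.Statements.S4200
import Mathlib

set_option autoImplicit false
open Cfsg

namespace Cfsg.Agent.S4200
attribute [local instance] Classical.propDecidable
theorem pairs_eq (G : Type*) [Group G] [Fintype G] :
    Nat.card (ConjClasses G) * Nat.card G = ∑ x : G, Nat.card (Subgroup.centralizer ({x} : Set G)) := by
  classical
  rw [← card_comm_eq_card_conjClasses_mul_card, Nat.card_congr (Equiv.subtypeProdEquivSigmaSubtype fun a b : G => Commute a b),
    Nat.card_sigma]
  refine Finset.sum_congr rfl fun x _ => Nat.card_congr (Equiv.subtypeEquivRight fun b => ?_)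
  rw [Subgroup.mem_centralizer_singleton_iff]
  exact ⟨fun h => h.eq.symm, fun h => h.symm⟩

/-- Swap the two counts of commuting pairs. -/
theorem swap_count {G : Type*} [Group G] [Fintype G] (A B : Finset G) :
    ∑ a ∈ A, (B.filter fun b => Commute a b).card = ∑ b ∈ B, (A.filter fun a => Commute b a).card := by
  classical
  simp only [Finset.card_filter]
  rw [Finset.sum_comm]
  exact Finset.sum_congr rfl fun b _ => Finset.sum_congr rfl fun a _ => if_congr ⟨Commute.symm, Commute.symm⟩ rfl rfl

theorem card_inf_centralizer {G : Type*} [Group G] [Fintype G] (Y : Subgroup G) [DecidablePred (· ∈ Y)] (x : G) :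
    Nat.card (Y ⊓ Subgroup.centralizer ({x} : Set G) : Subgroup G) =
      (((Finset.univ : Finset G).filter (· ∈ Y)).filter fun b => Commute x b).card := by
  classical
  rw [Nat.card_eq_fintype_card, Fintype.card_subtype, Finset.filter_filter]
  refine congrArg Finset.card (Finset.filter_congr fun b _ => ?_)
  rw [Subgroup.mem_inf, Subgroup.mem_centralizer_singleton_iff]
  exact and_congr_right fun _ => ⟨fun h => h.symm, fun h => h.eq.symm⟩

/-- Let Y be a subgroup of the finite group X, of index m. Then the numbers of conjugacy classes satisfy k(Y) ≤ m·k(X) and k(X) ≤ m·k(Y), and the second inequality is strict unless Y is normal in X. -/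
theorem result {X : Type*} [Group X] [Finite X] (Y : Subgroup X) : Nat.card (ConjClasses Y) ≤ Y.index * Nat.card (ConjClasses X) ∧ Nat.card (ConjClasses X) ≤ Y.index * Nat.card (ConjClasses Y) ∧ (¬ Y.Normal → Nat.card (ConjClasses X) < Y.index * Nat.card (ConjClasses Y)) := by
  classical
  haveI := Fintype.ofFinite X
  set m := Y.index
  set c : X → ℕ := fun x => Nat.card (Subgroup.centralizer ({x} : Set X)) with hc
  set d : X → ℕ := fun x => Nat.card (Y ⊓ Subgroup.centralizer ({x} : Set X) : Subgroup X) with hd
  set Ys := (Finset.univ : Finset X).filter (· ∈ Y) with hYs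
  have hX : Nat.card (ConjClasses X) * Nat.card X = ∑ x : X, c x := pairs_eq X
  have hY : Nat.card (ConjClasses Y) * Nat.card Y = ∑ y ∈ Ys, d y := by
    rw [pairs_eq Y, hYs, Finset.sum_subtype _ (p := (· ∈ Y)) (fun x => by simp)]
    refine Finset.sum_congr rfl fun y _ => Nat.card_congr
      { toFun := fun b => ⟨(b.1 : X), b.1.2, Subgroup.mem_centralizer_singleton_iff.mpr
          (congrArg Subtype.val (Subgroup.mem_centralizer_singleton_iff.mp b.2))⟩
        invFun := fun b => ⟨⟨b.1, b.2.1⟩, Subgroup.mem_centralizer_singleton_iff.mpr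
          (Subtype.ext (Subgroup.mem_centralizer_singleton_iff.mp b.2.2))⟩
        left_inv := fun b => rfl
        right_inv := fun b => rfl }
  have hswap : ∑ x : X, d x = ∑ y ∈ Ys, c y := by
    have h1 : ∀ x, d x = (Ys.filter fun b => Commute x b).card := fun x => card_inf_centralizer Y x
    have h2 : ∀ y, c y = ((Finset.univ : Finset X).filter fun b => Commute y b).card := by
      intro y
      have h := card_inf_centralizer (⊤ : Subgroup X) y
      rw [top_inf_eq] at h
      simpa [hc] using h
    simp only [h1, h2]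
    exact swap_count Finset.univ Ys
  have hstep : ∀ x, c x ≤ m * d x := by
    intro x
    have h1 := Subgroup.card_mul_index (Y.subgroupOf (Subgroup.centralizer ({x} : Set X)))
    have h2 : Nat.card (Y.subgroupOf (Subgroup.centralizer ({x} : Set X))) = d x := by
      rw [← Subgroup.inf_subgroupOf_right]
      exact Nat.card_congr (Subgroup.subgroupOfEquivOfLe inf_le_right).toEquiv
    rw [h2] at h1
    show Nat.card _ ≤ _
    rw [← h1, mul_comm]
    refine Nat.mul_le_mul_right _ ?_
    show Y.relIndex (Subgroup.centralizer ({x} : Set X)) ≤ Y.index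
    rw [← Subgroup.relIndex_top_right Y]
    exact Subgroup.relIndex_le_of_le_right le_top (by rw [Subgroup.relIndex_top_right]; exact Subgroup.index_ne_zero_of_finite (H := Y))
  have hdc : ∀ x, d x ≤ c x := fun x => Nat.le_of_dvd Nat.card_pos (Subgroup.card_dvd_of_le inf_le_right)
  have hm : 0 < m := Nat.pos_of_ne_zero Subgroup.index_ne_zero_of_finite
  have hcard : Nat.card X = m * Nat.card Y := (Subgroup.index_mul_card Y).symm
  have hmain : ∑ x : X, c x ≤ m * (m * ∑ y ∈ Ys, d y) := by
    calc ∑ x : X, c x ≤ ∑ x : X, m * d x := Finset.sum_le_sum fun x _ => hstep x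
      _ = m * ∑ y ∈ Ys, c y := by rw [← Finset.mul_sum, hswap]
      _ ≤ m * ∑ y ∈ Ys, m * d y := Nat.mul_le_mul_left m (Finset.sum_le_sum fun y _ => hstep y)
      _ = _ := by rw [← Finset.mul_sum]
  have hpos : 0 < Nat.card Y := Nat.card_pos
  refine ⟨?_, ?_, ?_⟩
  · refine Nat.le_of_mul_le_mul_right ?_ hpos
    have h1 : ∑ y ∈ Ys, d y ≤ ∑ x : X, c x :=
      (Finset.sum_le_sum fun y _ => hdc y).trans (Finset.sum_le_sum_of_subset (Finset.subset_univ _))
    rw [hY, show m * Nat.card (ConjClasses X) * Nat.card Y = Nat.card (ConjClasses X) * Nat.card X by rw [hcard]; ring, hX]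
    exact h1
  · refine Nat.le_of_mul_le_mul_right ?_ (show 0 < m * Nat.card Y by positivity)
    rw [← hcard, hX, hcard]
    calc _ ≤ m * (m * ∑ y ∈ Ys, d y) := hmain
      _ = _ := by rw [← hY]; ring
  · intro hn
    refine Nat.lt_of_mul_lt_mul_right (a := m * Nat.card Y) ?_
    rw [← hcard, hX, hcard]
    obtain ⟨y, hy, g, hg⟩ : ∃ y ∈ Y, ∃ g : X, g * y * g⁻¹ ∉ Y := by
      by_contra hc'
      push Not at hc'
      exact hn ⟨fun y hy g => hc' y hy g⟩
    have hlt : c y < m * d y := by
      refine lt_of_le_of_ne (hstep y) fun heq => hg ?_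
      set C := Subgroup.centralizer ({y} : Set X)
      have h2 : Nat.card (Y.subgroupOf C) = d y := by
        rw [← Subgroup.inf_subgroupOf_right]
        exact Nat.card_congr (Subgroup.subgroupOfEquivOfLe inf_le_right).toEquiv
      have h1 := Subgroup.card_mul_index (Y.subgroupOf C)
      rw [h2] at h1
      have hidx : Nat.card (C ⧸ Y.subgroupOf C) = Nat.card (X ⧸ Y) := by
        show (Y.subgroupOf C).index = m
        refine Nat.eq_of_mul_eq_mul_left (show 0 < d y from Nat.card_pos) ?_
        rw [h1, mul_comm]
        exact heq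
      let φ : C ⧸ Y.subgroupOf C → X ⧸ Y := Quotient.map' Subtype.val fun a b h => by
        rw [QuotientGroup.leftRel_apply] at h ⊢
        exact h
      have hinj : Function.Injective φ := by
        intro a b
        induction a using Quotient.inductionOn' with
        | h a =>
          induction b using Quotient.inductionOn' with
          | h b =>
            intro h
            simp only [φ, Quotient.map'_mk''] at h
            rw [Quotient.eq'', QuotientGroup.leftRel_apply] at h ⊢
            exact h
      have hbij := hinj.bijective_of_nat_card_le hidx.ge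
      obtain ⟨q, hq⟩ := hbij.2 (QuotientGroup.mk g⁻¹)
      induction q using Quotient.inductionOn' with
      | h a =>
        simp only [φ, Quotient.map'_mk''] at hq
        have h3 : (a : X)⁻¹ * g⁻¹ ∈ Y := QuotientGroup.eq.mp hq
        have hac := Subgroup.mem_centralizer_singleton_iff.mp a.2
        have h4 := Y.mul_mem (Y.mul_mem (Y.inv_mem h3) hy) h3
        have e : ((a : X)⁻¹ * g⁻¹)⁻¹ * y * ((a : X)⁻¹ * g⁻¹) = g * y * g⁻¹ := by
          rw [show ((a : X)⁻¹ * g⁻¹)⁻¹ * y * ((a : X)⁻¹ * g⁻¹) = g * ((a : X) * y) * (a : X)⁻¹ * g⁻¹ by group, hac]; group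
        rwa [e] at h4
    calc ∑ x : X, c x ≤ ∑ x : X, m * d x := Finset.sum_le_sum fun x _ => hstep x
      _ = m * ∑ z ∈ Ys, c z := by rw [← Finset.mul_sum, hswap]
      _ < m * ∑ z ∈ Ys, m * d z := Nat.mul_lt_mul_of_pos_left
          (Finset.sum_lt_sum (fun z _ => hstep z) ⟨y, by simp [hYs, hy], hlt⟩) hm
      _ = _ := by rw [← Finset.mul_sum, ← hY]; ring


end Cfsg.Agent.S4200
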