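import Cfsg.Statements.S4201
import Mathlib
import Cfsg.Agent.S4200

set_option autoImplicit false
open Cfsg

namespace Cfsg.Agent.S4201

/-- If N is a normal subgroup of the finite group X then k(X) ≤ k(N)·k(X ⧸ N), where k denotes the number of conjugacy classes. -/
theorem result {X : Type*} [Group X] [Finite X] (N : Subgroup X) [N.Normal] : Nat.card (ConjClasses X) ≤ Nat.card (ConjClasses N) * Nat.card (ConjClasses (X ⧸ N)) := by
  classical
  haveI := Fintype.ofFinite X
  haveI := Fintype.ofFinite (X ⧸ N)
  set d : X → ℕ := fun x => Nat.card (N ⊓ Subgroup.centralizer ({x} : Set X) : Subgroup X) with hd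
  set cb : X ⧸ N → ℕ := fun q => Nat.card (Subgroup.centralizer ({q} : Set (X ⧸ N))) with hcb
  set Ns := (Finset.univ : Finset X).filter (· ∈ N) with hNs
  have hN : Nat.card (ConjClasses N) * Nat.card N = ∑ y ∈ Ns, d y := by
    rw [S4200.pairs_eq N, hNs, Finset.sum_subtype _ (p := (· ∈ N)) (fun x => by simp)]
    refine Finset.sum_congr rfl fun y _ => Nat.card_congr
      { toFun := fun b => ⟨(b.1 : X), b.1.2, Subgroup.mem_centralizer_singleton_iff.mpr
          (congrArg Subtype.val (Subgroup.mem_centralizer_singleton_iff.mp b.2))⟩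
        invFun := fun b => ⟨⟨b.1, b.2.1⟩, Subgroup.mem_centralizer_singleton_iff.mpr
          (Subtype.ext (Subgroup.mem_centralizer_singleton_iff.mp b.2.2))⟩
        left_inv := fun b => rfl
        right_inv := fun b => rfl }
  have hd' : ∀ x, d x = (Ns.filter fun b => Commute x b).card := fun x => S4200.card_inf_centralizer N x
  have hfib : ∀ q : X ⧸ N, ∑ x ∈ (Finset.univ : Finset X).filter (fun x : X => (x : X ⧸ N) = q), d x ≤
      Nat.card (ConjClasses N) * Nat.card N := by
    intro q
    simp only [hd']
    rw [S4200.swap_count, hN]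
    refine Finset.sum_le_sum fun n _ => ?_
    rw [hd']
    set T := ((Finset.univ : Finset X).filter (fun x : X => (x : X ⧸ N) = q)).filter fun x => Commute n x with hT
    rcases T.eq_empty_or_nonempty with he | ⟨x0, hx0⟩
    · rw [he]; simp
    · simp only [hT, Finset.mem_filter, Finset.mem_univ, true_and] at hx0
      refine Finset.card_le_card_of_injOn (fun b => x0⁻¹ * b) (fun b hb => ?_) ((mul_right_injective x0⁻¹).injOn)
      simp only [hT, Finset.coe_filter, Finset.mem_filter, Finset.mem_univ, true_and, Set.mem_setOf_eq] at hb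
      simp only [hNs, Finset.coe_filter, Finset.mem_filter, Finset.mem_univ, true_and, Set.mem_setOf_eq]
      exact ⟨QuotientGroup.eq.mp (hx0.1.trans hb.1.symm), (hx0.2.inv_right).mul_right hb.2⟩
  have hstep : ∀ x : X, Nat.card (Subgroup.centralizer ({x} : Set X)) ≤ d x * cb (x : X ⧸ N) := by
    intro x
    set C := Subgroup.centralizer ({x} : Set X) with hC
    set φ := (QuotientGroup.mk' N).comp C.subtype with hφ
    have h1 := Subgroup.card_mul_index φ.ker
    have h2 : Nat.card φ.ker = d x := by
      have : φ.ker = N.subgroupOf C := by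
        rw [hφ, ← MonoidHom.comap_ker, QuotientGroup.ker_mk']; rfl
      rw [this, ← Subgroup.inf_subgroupOf_right]
      exact Nat.card_congr (Subgroup.subgroupOfEquivOfLe inf_le_right).toEquiv
    rw [h2, Subgroup.index_ker] at h1
    rw [← h1]
    refine Nat.mul_le_mul_left _ (Nat.le_of_dvd Nat.card_pos (Subgroup.card_dvd_of_le ?_))
    rintro _ ⟨b, rfl⟩
    exact Subgroup.mem_centralizer_singleton_iff.mpr
      (congrArg (QuotientGroup.mk' N) (Subgroup.mem_centralizer_singleton_iff.mp b.2))
  refine Nat.le_of_mul_le_mul_right ?_ (Nat.card_pos (α := X))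
  rw [S4200.pairs_eq X]
  calc ∑ x : X, Nat.card (Subgroup.centralizer ({x} : Set X)) ≤ ∑ x : X, d x * cb (x : X ⧸ N) :=
        Finset.sum_le_sum fun x _ => hstep x
    _ = ∑ q : X ⧸ N, ∑ x ∈ (Finset.univ : Finset X).filter (fun x : X => (x : X ⧸ N) = q), d x * cb q := by
        rw [← Finset.sum_fiberwise (Finset.univ : Finset X) (fun x : X => (x : X ⧸ N))]
        exact Finset.sum_congr rfl fun q _ => Finset.sum_congr rfl fun x hx => by rw [(Finset.mem_filter.mp hx).2]
    _ ≤ ∑ q : X ⧸ N, Nat.card (ConjClasses N) * Nat.card N * cb q :=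
        Finset.sum_le_sum fun q _ => by rw [← Finset.sum_mul]; exact Nat.mul_le_mul_right _ (hfib q)
    _ = _ := by
        rw [← Finset.mul_sum, hcb, ← S4200.pairs_eq (X ⧸ N), Subgroup.card_eq_card_quotient_mul_card_subgroup N]; ring

end Cfsg.Agent.S4201
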