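import Cfsg.Statements.S4203
import Cfsg.Agent.S0144

set_option autoImplicit false
open Cfsg

namespace Cfsg.Agent.S4203

universe u

theorem aux (n : ℕ) : ∀ (G : Type u) [Group G] [Finite G], Nat.card G = n →
    (∀ M : Subgroup G, IsCoatom M → ∃ p : ℕ, p.Prime ∧ (M.index = p ∨ M.index = p ^ 2)) → Group.IsSolvable G := by
  induction n using Nat.strong_induction_on with
  | _ n ih =>
    intro G _ _ hn h
    classical
    by_cases h23 : ∀ r : ℕ, r.Prime → r ∣ Nat.card G → r = 2 ∨ r = 3
    · refine Cfsg.Agent.S0144.result 2 3 ((Nat.card G).factorization 2) ((Nat.card G).factorization 3)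
        Nat.prime_two Nat.prime_three ?_
      refine Nat.eq_of_factorization_eq Nat.card_pos.ne' (by positivity) fun r => ?_
      rw [Nat.factorization_mul (by positivity) (by positivity), Finsupp.add_apply,
        Nat.Prime.factorization_pow Nat.prime_two, Nat.Prime.factorization_pow Nat.prime_three]
      by_cases h2 : r = 2
      · subst h2; simp
      by_cases h3 : r = 3
      · subst h3; simp
      rw [Finsupp.single_apply, Finsupp.single_apply, if_neg (Ne.symm h2), if_neg (Ne.symm h3)]
      by_cases hr : r.Prime
      · exact Nat.factorization_eq_zero_of_not_dvd fun hd => (h23 r hr hd).elim h2 h3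
      · exact Nat.factorization_eq_zero_of_not_prime _ hr
    push Not at h23
    obtain ⟨r, hr, hrd, hr2, hr3⟩ := h23
    have hrmem : r ∈ (Nat.card G).primeFactors := Nat.mem_primeFactors.mpr ⟨hr, hrd, Nat.card_pos.ne'⟩
    set p := (Nat.card G).primeFactors.max' ⟨r, hrmem⟩ with hpdef
    have hp : p.Prime := Nat.prime_of_mem_primeFactors (Finset.max'_mem _ _)
    have hpd : p ∣ Nat.card G := Nat.dvd_of_mem_primeFactors (Finset.max'_mem _ _)
    have hrp : r ≤ p := Finset.le_max' _ r hrmem
    have hp5 : 5 ≤ p := by
      have := hr.two_le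
      have : r ≠ 4 := by rintro rfl; norm_num at hr
      omega
    haveI := Fact.mk hp
    let P : Sylow p G := default
    have hPn : (P : Subgroup G).Normal := by
      by_contra hnn
      have hne : Subgroup.normalizer ((P : Subgroup G) : Set G) ≠ ⊤ := fun e => hnn (Subgroup.normalizer_eq_top_iff.mp e)
      obtain ⟨M, hM, hle⟩ := (eq_top_or_exists_le_coatom _).resolve_left hne
      obtain ⟨q, hq, hidx⟩ := h M hM
      have hPM : (P : Subgroup G) ≤ M := Subgroup.le_normalizer.trans hle
      have hmod : M.index ≡ 1 [MOD p] := by
        have h1 := card_sylow_modEq_one p G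
        have h2 := card_sylow_modEq_one p M
        rw [P.card_eq_index_normalizer, ← Sylow.coe_coe, ← Subgroup.relIndex_mul_index hle] at h1
        rw [(P.subtype hPM).card_eq_index_normalizer] at h2
        have e : (Subgroup.normalizer ((P.subtype hPM : Sylow p M) : Set M)).index =
            (Subgroup.normalizer ((P : Subgroup G) : Set G)).relIndex M := by
          rw [Subgroup.relIndex, Subgroup.subgroupOf_normalizer_eq hPM]; rfl
        rw [e] at h2
        have h3 : (Subgroup.normalizer ((P : Subgroup G) : Set G)).relIndex M * M.index ≡ 1 * M.index [MOD p] :=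
          h2.mul_right _
        rw [one_mul] at h3
        exact h3.symm.trans h1
      have hqd : q ∣ M.index := by rcases hidx with e | e <;> rw [e]; exact dvd_pow_self q two_ne_zero
      have hqp : q ≤ p := Finset.le_max' _ q (Nat.mem_primeFactors.mpr ⟨hq, hqd.trans M.index_dvd_card, Nat.card_pos.ne'⟩)
      have hq' : q ≠ p := by
        rintro rfl
        have h4 := Nat.ModEq.symm hmod
        rw [Nat.ModEq, Nat.one_mod_eq_one.mpr (by omega), Nat.dvd_iff_mod_eq_zero.mp hqd] at h4
        exact one_ne_zero h4
      have hdvd : p ∣ M.index - 1 := (Nat.modEq_iff_dvd' (Nat.pos_of_ne_zero Subgroup.index_ne_zero_of_finite)).mp hmod.symm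
      have := hq.two_le
      rcases hidx with e | e <;> rw [e] at hdvd
      · have := Nat.le_of_dvd (by omega) hdvd
        omega
      · rw [show q ^ 2 - 1 = (q - 1) * (q + 1) by rw [mul_comm, ← Nat.sq_sub_sq, one_pow]] at hdvd
        rcases (Nat.Prime.dvd_mul hp).mp hdvd with h5 | h5
        · have := Nat.le_of_dvd (by omega) h5; omega
        · have h6 := Nat.le_of_dvd (by omega) h5
          have h7 : q + 1 = p := by omega
          rcases hq.eq_two_or_odd with e2 | e2
          · omega
          · rcases hp.eq_two_or_odd with e3 | e3 <;> omega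
    haveI := hPn
    haveI := P.isPGroup'.isNilpotent
    haveI : Group.IsSolvable (G ⧸ (P : Subgroup G)) := by
      have hlt : Nat.card (G ⧸ (P : Subgroup G)) < n := by
        rw [← hn, Subgroup.card_eq_card_quotient_mul_card_subgroup (P : Subgroup G)]
        exact lt_mul_of_one_lt_right Nat.card_pos ((Subgroup.one_lt_card_iff_ne_bot _).mpr (P.ne_bot_of_dvd_card hpd))
      refine ih _ hlt _ rfl fun M hM => ?_
      rw [← Subgroup.index_comap_of_surjective M (QuotientGroup.mk'_surjective (P : Subgroup G))]
      refine h _ ⟨fun e => hM.1 ?_, fun K hK => ?_⟩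
      · rw [← Subgroup.map_comap_eq_self_of_surjective (QuotientGroup.mk'_surjective (P : Subgroup G)) M, e,
          Subgroup.map_top_of_surjective _ (QuotientGroup.mk'_surjective _)]
      · have hker : (P : Subgroup G) ≤ K := (QuotientGroup.ker_mk' (P : Subgroup G)).symm.le.trans ((Subgroup.ker_le_comap _ _).trans hK.le)
        have hlt2 : M < K.map (QuotientGroup.mk' (P : Subgroup G)) := by
          refine lt_of_le_of_ne ?_ fun e => hK.not_ge ?_
          · rw [← Subgroup.map_comap_eq_self_of_surjective (QuotientGroup.mk'_surjective (P : Subgroup G)) M]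
            exact Subgroup.map_mono hK.le
          · intro x hx
            rw [Subgroup.mem_comap, e]
            exact ⟨x, hx, rfl⟩
        have h8 := congrArg (Subgroup.comap (QuotientGroup.mk' (P : Subgroup G))) (hM.2 _ hlt2)
        rwa [Subgroup.comap_map_eq_self (by rw [QuotientGroup.ker_mk']; exact hker), Subgroup.comap_top] at h8
    exact Group.isSolvable_of_ker_le_range (P : Subgroup G).subtype (QuotientGroup.mk' (P : Subgroup G)) (by
      rw [QuotientGroup.ker_mk', Subgroup.range_subtype])

/-- A finite group in which every maximal subgroup has index a prime or the square of a prime is solvable. -/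
theorem result {G : Type*} [Group G] [Finite G] (h : ∀ M : Subgroup G, IsCoatom M → ∃ p : ℕ, p.Prime ∧ (M.index = p ∨ M.index = p ^ 2)) : Group.IsSolvable G := by
  exact aux _ G rfl h

end Cfsg.Agent.S4203
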