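import Cfsg.Statements.S4204
import Mathlib.GroupTheory.Nilpotent

set_option autoImplicit false
open Cfsg

namespace Cfsg.Agent.S4204

theorem commutator_iSup_le {G : Type*} [Group G] {ι : Sort*} (N : Subgroup G) [N.Normal] {A : ι → Subgroup G}
    {C : Subgroup G} (h : ∀ i, ⁅C, A i⁆ ≤ N) : ⁅C, ⨆ i, A i⁆ ≤ N := by
  rw [Subgroup.commutator_le]
  intro c hc x hx
  have hle : (⨆ i, A i) ≤ (Subgroup.centralizer {QuotientGroup.mk' N c}).comap (QuotientGroup.mk' N) := by
    refine iSup_le fun i a ha => ?_
    rw [Subgroup.mem_comap, Subgroup.mem_centralizer_singleton_iff]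
    symm
    rw [← commutatorElement_eq_one_iff_mul_comm, ← map_commutatorElement]
    exact (QuotientGroup.eq_one_iff _).mpr (h i (Subgroup.commutator_mem_commutator hc ha))
  have h2 := hle hx
  rw [Subgroup.mem_comap, Subgroup.mem_centralizer_singleton_iff] at h2
  rw [← QuotientGroup.eq_one_iff, ← QuotientGroup.mk'_apply, map_commutatorElement,
    commutatorElement_eq_one_iff_mul_comm]
  exact h2.symm

theorem commutator_sup_le {G : Type*} [Group G] (N : Subgroup G) [N.Normal] {A B C : Subgroup G}
    (hA : ⁅C, A⁆ ≤ N) (hB : ⁅C, B⁆ ≤ N) : ⁅C, A ⊔ B⁆ ≤ N := by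
  rw [sup_eq_iSup]
  exact commutator_iSup_le N (fun b => by cases b <;> assumption)

/-- If `H` and `K` are normal subgroups of a finite group with `H` nilpotent of class at most `c` and `K` nilpotent of class at most `d` (the terms with index `c`, respectively `d`, of their lower central series are trivial, indices starting at `0`), then `HK` is nilpotent of class at most `c + d`. -/
theorem result {G : Type*} [Group G] [Finite G] (H K : Subgroup G) [H.Normal] [K.Normal] (c d : ℕ) (hH : H.lowerCentralSeries c = ⊥) (hK : K.lowerCentralSeries d = ⊥) : (H ⊔ K).lowerCentralSeries (c + d) = ⊥ := by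
  classical
  let D : (Subgroup G) → ℕ → Subgroup G := fun S i =>
    match i with
    | 0 => ⊤
    | i + 1 => S.lowerCentralSeries i
  have hDn : ∀ S : Subgroup G, S.Normal → ∀ i, (D S i).Normal := by
    intro S hS i
    cases i with
    | zero => exact (inferInstance : (⊤ : Subgroup G).Normal)
    | succ i =>
      show (S.lowerCentralSeries i).Normal
      induction i with
      | zero => exact hS
      | succ i ih => haveI := ih; rw [Subgroup.lowerCentralSeries_succ]; infer_instance
  have hDstep : ∀ S : Subgroup G, S.Normal → ∀ i, ⁅D S i, S⁆ ≤ D S (i + 1) := by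
    intro S hS i
    cases i with
    | zero => exact @Subgroup.commutator_le_right _ _ ⊤ S hS
    | succ i => exact le_of_eq (Subgroup.lowerCentralSeries_succ S i).symm
  let W : ℕ → Subgroup G := fun n => ⨆ i : Fin (n + 2), D H i.val ⊓ D K (n + 1 - i.val)
  have hWn : ∀ n, (W n).Normal := fun n => by
    refine Subgroup.sSup_normal _ ?_
    rintro _ ⟨i, rfl⟩
    haveI := hDn H inferInstance i.val; haveI := hDn K inferInstance (n + 1 - i.val)
    infer_instance
  have key : ∀ n, (H ⊔ K).lowerCentralSeries n ≤ W n := by
    intro n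
    induction n with
    | zero =>
      refine sup_le ?_ ?_
      · exact le_iSup_of_le ⟨1, by omega⟩ (le_inf le_rfl le_top)
      · exact le_iSup_of_le ⟨0, by omega⟩ (le_inf le_top le_rfl)
    | succ n ih =>
      haveI := hWn (n + 1)
      rw [Subgroup.lowerCentralSeries_succ]
      refine le_trans (Subgroup.commutator_mono ih le_rfl) ?_
      have hl : ∀ i : Fin (n + 2), ⁅D H i.val ⊓ D K (n + 1 - i.val), H ⊔ K⁆ ≤ W (n + 1) := by
        intro i
        refine commutator_sup_le (W (n + 1)) (le_trans ?_ (le_iSup_of_le ⟨i.val + 1, by omega⟩ le_rfl))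
          (le_trans ?_ (le_iSup_of_le ⟨i.val, by omega⟩ le_rfl))
        · refine le_inf ((Subgroup.commutator_mono inf_le_left le_rfl).trans (hDstep H inferInstance i.val)) ?_
          haveI := hDn K inferInstance (n + 1 - i.val)
          show _ ≤ D K (n + 1 + 1 - (i.val + 1))
          rw [show n + 1 + 1 - (i.val + 1) = n + 1 - i.val by omega]
          exact (Subgroup.commutator_mono inf_le_right le_rfl).trans (Subgroup.commutator_le_left _ _)
        · haveI := hDn H inferInstance i.val
          refine le_inf ((Subgroup.commutator_mono inf_le_left le_rfl).trans (Subgroup.commutator_le_left _ _)) ?_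
          show _ ≤ D K (n + 1 + 1 - i.val)
          rw [show n + 1 + 1 - i.val = (n + 1 - i.val) + 1 by omega]
          exact (Subgroup.commutator_mono inf_le_right le_rfl).trans (hDstep K inferInstance _)
      rw [Subgroup.commutator_comm]
      refine commutator_iSup_le (W (n + 1)) fun i => ?_
      rw [Subgroup.commutator_comm]
      exact hl i
  refine le_bot_iff.mp ((key (c + d)).trans (iSup_le fun i => ?_))
  by_cases hi : c + 1 ≤ i.val
  · refine inf_le_left.trans ?_
    obtain ⟨j, hj⟩ := Nat.exists_eq_add_of_le hi
    rw [hj, show c + 1 + j = (c + j) + 1 by omega]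
    exact (Subgroup.lowerCentralSeries_antitone H (Nat.le_add_right c j)).trans hH.le
  · refine inf_le_right.trans ?_
    obtain ⟨j, hj⟩ := Nat.exists_eq_add_of_le (show d + 1 ≤ c + d + 1 - i.val by omega)
    rw [hj, show d + 1 + j = (d + j) + 1 by omega]
    exact (Subgroup.lowerCentralSeries_antitone K (Nat.le_add_right d j)).trans hK.le

end Cfsg.Agent.S4204
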