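import Cfsg.Statements.S4205

set_option autoImplicit false
open Cfsg

namespace Cfsg.Agent.S4205

/-- In a finite group whose upper central series reaches the whole group at step `c` (nilpotent of class at most `c`), starting from any subgroup and taking normalizers `c` times reaches the whole group. -/
theorem result {G : Type*} [Group G] [Finite G] (c : ℕ) (hG : Subgroup.upperCentralSeries G c = ⊤) (H : Subgroup G) : (fun K : Subgroup G => Subgroup.normalizer (K : Set G))^[c] H = ⊤ := by
  suffices key : ∀ i, Subgroup.upperCentralSeries G i ≤ (fun K : Subgroup G => Subgroup.normalizer (K : Set G))^[i] H by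
    exact top_le_iff.mp (hG ▸ key c)
  intro i
  induction i with
  | zero => rw [Subgroup.upperCentralSeries_zero]; exact bot_le
  | succ i ih =>
    intro z hz
    rw [Function.iterate_succ_apply']
    set K := (fun K : Subgroup G => Subgroup.normalizer (K : Set G))^[i] H
    rw [Subgroup.mem_upperCentralSeries_succ_iff] at hz
    refine Subgroup.mem_normalizer_iff.mpr fun y => ⟨fun hy => ?_, fun hy => ?_⟩
    · have h1 := K.mul_mem (ih (hz y)) hy
      simpa [commutatorElement_def, mul_assoc] using h1
    · have h1 := K.mul_mem (K.inv_mem (ih (hz y))) hy
      simpa [commutatorElement_def, mul_assoc] using h1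

end Cfsg.Agent.S4205
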