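import Cfsg.Statements.S4206

set_option autoImplicit false
open Cfsg

namespace Cfsg.Agent.S4206

/-- Let `H 0 ≥ H 1 ≥ H 2 ≥ ⋯` be normal subgroups of a finite group and `L` a subgroup with `⁅H i, L⁆ ≤ H (i+1)` for all `i`. Then `⁅H i, γ⁆ ≤ H (i + j + 1)` where `γ` is the `j`-th term of the lower central series of `L` (indexed from `0`, so the term with index `j` is the `(j+1)`-fold commutator). -/
theorem result {G : Type*} [Group G] [Finite G] (H : ℕ → Subgroup G) (hN : ∀ i, (H i).Normal) (hdesc : ∀ i, H (i + 1) ≤ H i) (L : Subgroup G) (hL : ∀ i, ⁅H i, L⁆ ≤ H (i + 1)) (i j : ℕ) : ⁅H i, L.lowerCentralSeries j⁆ ≤ H (i + j + 1) := by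
  induction j generalizing i with
  | zero => rw [Subgroup.lowerCentralSeries_zero, Nat.add_zero]; exact hL i
  | succ j ih =>
    haveI := hN (i + (j + 1) + 1)
    set N := H (i + (j + 1) + 1) with hNdef
    have key : ∀ A B : Subgroup G, ⁅A, B⁆ ≤ N → ⁅A.map (QuotientGroup.mk' N), B.map (QuotientGroup.mk' N)⁆ = ⊥ := by
      intro A B h
      rw [← Subgroup.map_commutator, Subgroup.map_eq_bot_iff, QuotientGroup.ker_mk']; exact h
    have h1 : ⁅⁅H i, L.lowerCentralSeries j⁆, L⁆ ≤ N :=
      (Subgroup.commutator_mono (ih i) le_rfl).trans ((hL (i + j + 1)).trans (le_of_eq (by rw [hNdef]; congr 1)))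
    have h2 : ⁅⁅L, H i⁆, L.lowerCentralSeries j⁆ ≤ N :=
      (Subgroup.commutator_mono ((Subgroup.commutator_comm L (H i)).le.trans (hL i)) le_rfl).trans
        ((ih (i + 1)).trans (le_of_eq (by rw [hNdef]; congr 1; omega)))
    have h3 : ⁅⁅L.lowerCentralSeries j, L⁆, H i⁆ ≤ N := by
      have := Subgroup.commutator_commutator_eq_bot_of_rotate
        (H₁ := (L.lowerCentralSeries j).map (QuotientGroup.mk' N)) (H₂ := L.map (QuotientGroup.mk' N))
        (H₃ := (H i).map (QuotientGroup.mk' N))
        (by rw [← Subgroup.map_commutator]; exact key _ _ h2)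
        (by rw [← Subgroup.map_commutator]; exact key _ _ h1)
      rw [← Subgroup.map_commutator, ← Subgroup.map_commutator, Subgroup.map_eq_bot_iff, QuotientGroup.ker_mk'] at this
      exact this
    rw [Subgroup.lowerCentralSeries_succ, Subgroup.commutator_comm]
    exact h3

end Cfsg.Agent.S4206
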