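import Cfsg.Statements.S4208
import Cfsg.Agent.Lib.GroupB.AutPGroup

set_option autoImplicit false
open Cfsg

namespace Cfsg.Agent.S4208

/-- Let `P` be a group of order `p^n` whose Frattini subgroup has index `p^r`. Then the order of the automorphism group of `P` divides `p^(r(n-r)) · (p^r - 1)(p^r - p) ⋯ (p^r - p^(r-1))`. -/
theorem result {P : Type*} [Group P] [Finite P] {p n r : ℕ} [Fact p.Prime] (hP : Nat.card P = p ^ n) (hr : (frattini P).index = p ^ r) : Nat.card (MulAut P) ∣ p ^ (r * (n - r)) * ∏ i ∈ Finset.range r, (p ^ r - p ^ i) := by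
  obtain ⟨hc, hp⟩ := CfsgLib.GroupB.AutPGroup.card_frattini hP hr
  have h := (CfsgLib.GroupB.AutPGroup.card_aut_dvd hp hr).2
  rwa [hc, ← pow_mul, mul_comm (n - r)] at h

end Cfsg.Agent.S4208
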