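import Cfsg.Statements.S4214
import Cfsg.Agent.S4213
import Cfsg.Agent.Lib.Solvable.HallBasic

set_option autoImplicit false
open Cfsg

namespace Cfsg.Agent.S4214
open CfsgLib.Solvable
open scoped Pointwise

universe u

theorem relIndex_sup_normal {G : Type*} [Group G] [Finite G] (K N : Subgroup G) [N.Normal] :
    K.relIndex (K ⊔ N) = K.relIndex N := by
  have h1 := Subgroup.relIndex_mul_relIndex ⊥ K (K ⊔ N) bot_le le_sup_left
  have h2 := Subgroup.relIndex_mul_relIndex ⊥ N (K ⊔ N) bot_le le_sup_right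
  have h3 := Subgroup.relIndex_mul_relIndex ⊥ (K ⊓ N) N bot_le inf_le_right
  have h4 := Subgroup.relIndex_mul_relIndex ⊥ (K ⊓ N) K bot_le inf_le_left
  rw [Subgroup.relIndex_bot_left, Subgroup.relIndex_bot_left] at h1 h2 h3 h4
  rw [Subgroup.inf_relIndex_right] at h3
  rw [Subgroup.inf_relIndex_left] at h4
  rw [Subgroup.relIndex_sup_right, ← h3, ← h1] at h2
  rw [mul_right_comm, h4] at h2
  exact (Nat.eq_of_mul_eq_mul_left Nat.card_pos h2).symm

/-- The numerical condition on one factor. -/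
def Good (G : Type u) [Group G] (m f : ℕ) : Prop :=
  (∃ q e : ℕ, q.Prime ∧ f = q ^ e) ∧
  (∃ K L : Subgroup G, K.Normal ∧ L.Normal ∧ K < L ∧ (∀ M : Subgroup G, M.Normal → K ≤ M → M ≤ L → M = K ∨ M = L) ∧ f ∣ K.relIndex L) ∧
  (∃ q : ℕ, q.Prime ∧ q ∣ m ∧ f ≡ 1 [MOD q])

/-- The fixed-point index of a coprime solvable operator group. -/
theorem fixed_index {q : ℕ} [hq : Fact q.Prime] (m : ℕ) : ∀ (n : ℕ) (V : Type u) [Group V] [Finite V], Nat.card V = n →
    IsPGroup q V → ∀ R : Subgroup (MulAut V), Group.IsSolvable R → ¬ q ∣ Nat.card R → (∀ p : ℕ, p.Prime → p ∣ Nat.card R → p ∣ m) →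
    ∃ l : List ℕ, Nat.card V = l.prod * Nat.card {v : V // ∀ a ∈ R, a v = v} ∧
      ∀ f ∈ l, (∃ e, f = q ^ e) ∧ f ∣ Nat.card V ∧ ∃ p : ℕ, p.Prime ∧ p ∣ m ∧ f ≡ 1 [MOD p] := by
  intro n
  induction n using Nat.strong_induction_on with
  | _ n IH =>
  intro V _ _ hn hV R hsol hcop hm
  classical
  rcases subsingleton_or_nontrivial R with hR | hR
  · refine ⟨[], ?_, fun f hf => absurd hf (by simp)⟩
    rw [List.prod_nil, one_mul]
    exact (Nat.card_congr (Equiv.subtypeUnivEquiv fun v a ha => by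
      rw [show a = 1 from congrArg Subtype.val (Subsingleton.elim (⟨a, ha⟩ : R) 1)]; rfl)).symm
  haveI := hsol
  obtain ⟨p, A, hp, hAn, hA1, hpA, hAexp⟩ := Cfsg.Agent.S4213.exists_elem_normal (G := R)
  haveI := Fact.mk hp
  have hpR : p ∣ Nat.card R := hpA.trans (Subgroup.card_subgroup_dvd_card A)
  have hpq : p ≠ q := fun e => hcop (e ▸ hpR)
  let W : Subgroup V :=
    { carrier := {v | ∀ a ∈ A, (a : MulAut V) v = v}
      one_mem' := fun a _ => map_one _
      mul_mem' := fun {x y} hx hy a ha => by rw [map_mul, hx a ha, hy a ha]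
      inv_mem' := fun {x} hx a ha => by rw [map_inv, hx a ha] }
  have hAp : IsPGroup p A := fun a => ⟨1, Subtype.ext (by rw [pow_one, Subgroup.coe_pow]; exact hAexp a a.2)⟩
  have hmod : Nat.card V ≡ Nat.card W [MOD p] := by
    refine (hAp.card_modEq_card_fixedPoints V).trans (Eq.subst (motive := fun x => Nat.card (MulAction.fixedPoints A V) ≡ x [MOD p]) (Nat.card_congr ?_) rfl)
    exact Equiv.subtypeEquivRight fun v => ⟨fun h a ha => h ⟨a, ha⟩, fun h a => h a a.2⟩
  obtain ⟨w, hw⟩ := IsPGroup.iff_card.mp (hV.to_subgroup W)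
  obtain ⟨e, he⟩ := hV.index W
  have hWne : W ≠ ⊤ := fun h => hA1 ((Subgroup.eq_bot_iff_forall A).mpr fun a ha => Subtype.ext (MulEquiv.ext fun v =>
    (h ▸ Subgroup.mem_top v : v ∈ W) a ha))
  have hlt : Nat.card W < n := hn ▸ lt_of_le_of_ne (Subgroup.card_le_card_group W) fun e => hWne (Subgroup.eq_top_of_card_eq W e)
  have hinv : ∀ b ∈ R, ∀ v ∈ W, (b : MulAut V) v ∈ W := by
    intro b hb v hv a ha
    have h1 := hAn.conj_mem a ha (⟨b, hb⟩ : R)⁻¹
    have h2 := hv _ h1
    simp only [inv_inv, Subgroup.coe_mul, Subgroup.coe_inv, MulAut.mul_apply] at h2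
    have h3 := congrArg b h2
    rwa [MulAut.apply_inv_self] at h3
  let ψ : R →* MulAut W := MonoidHom.mk' (fun b =>
    { toFun := fun v => ⟨(b : MulAut V) v, hinv b b.2 v v.2⟩
      invFun := fun v => ⟨((b⁻¹ : R) : MulAut V) v, hinv _ (b⁻¹).2 v v.2⟩
      left_inv := fun v => Subtype.ext (MulEquiv.symm_apply_apply (b : MulAut V) v)
      right_inv := fun v => Subtype.ext (MulEquiv.apply_symm_apply (b : MulAut V) v)
      map_mul' := fun x y => Subtype.ext (map_mul (b : MulAut V) _ _) }) fun a b => by ext v; rfl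
  have hcard : Nat.card ψ.range ∣ Nat.card R := Subgroup.card_range_dvd ψ
  obtain ⟨l, hl, hgood⟩ := IH _ hlt W rfl (hV.to_subgroup W) ψ.range (Group.isSolvable_of_surjective ψ.rangeRestrict_surjective)
    (fun h => hcop (h.trans hcard)) (fun r hr hd => hm r hr (hd.trans hcard))
  have hfix : Nat.card {v : W // ∀ a ∈ ψ.range, a v = v} = Nat.card {v : V // ∀ a ∈ R, a v = v} := by
    refine Nat.card_congr ⟨fun v => ⟨(v.1 : V), fun a ha => congrArg Subtype.val (v.2 _ ⟨⟨a, ha⟩, rfl⟩)⟩,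
      fun v => ⟨⟨v.1, fun a ha => v.2 _ a.2⟩, ?_⟩, fun _ => rfl, fun _ => rfl⟩
    rintro a ⟨b, rfl⟩
    exact Subtype.ext (v.2 _ b.2)
  refine ⟨W.index :: l, ?_, ?_⟩
  · rw [List.prod_cons, mul_assoc, ← hfix, ← hl, W.index_mul_card]
  intro f hf
  rcases List.mem_cons.mp hf with rfl | hf
  · refine ⟨⟨e, he⟩, Subgroup.index_dvd_card W, p, hp, hm p hp hpR, ?_⟩
    refine Nat.ModEq.cancel_right_of_coprime (c := Nat.card W) ?_ (by rwa [W.index_mul_card, one_mul])
    rw [hw]
    exact Nat.Coprime.pow_right _ ((Nat.coprime_primes hp hq.out).mpr hpq)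
  · obtain ⟨h1, h2, h3⟩ := hgood f hf
    exact ⟨h1, h2.trans (Subgroup.card_subgroup_dvd_card W), h3⟩

theorem card_hall {G : Type u} [Group G] [Finite G] [Group.IsSolvable G] {m n : ℕ} (hG : Nat.card G = m * n) (hmn : m.Coprime n)
    {H : Subgroup G} (hH : Nat.card H = m) :
    Nat.card {K : Subgroup G // Nat.card K = m} = (Subgroup.normalizer (H : Set G)).index := by
  have hcardc : ∀ g : G, Nat.card (H.map (MulAut.conj g).toMonoidHom : Subgroup G) = m := fun g => by
    rw [Subgroup.card_map_of_injective (MulAut.conj g).injective, hH]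
  have hiff : ∀ a b : G, H.map (MulAut.conj a).toMonoidHom = H.map (MulAut.conj b).toMonoidHom ↔ a⁻¹ * b ∈ Subgroup.normalizer (H : Set G) := by
    intro a b
    rw [Subgroup.mem_normalizer_iff]
    simp only [SetLike.ext_iff, Subgroup.mem_map, MulEquiv.coe_toMonoidHom, MulAut.conj_apply]
    constructor
    · intro h y
      constructor
      · intro hy
        obtain ⟨z, hz, e⟩ := (h (b * y * b⁻¹)).mpr ⟨y, hy, rfl⟩
        have e' : a⁻¹ * b * y * (a⁻¹ * b)⁻¹ = z := by
          calc a⁻¹ * b * y * (a⁻¹ * b)⁻¹ = a⁻¹ * (b * y * b⁻¹) * a := by group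
            _ = z := by rw [← e]; group
        rw [e']; exact hz
      · intro hy
        obtain ⟨z, hz, e⟩ := (h _).mp ⟨_, hy, rfl⟩
        have e' : y = z := by
          calc y = b⁻¹ * (a * (a⁻¹ * b * y * (a⁻¹ * b)⁻¹) * a⁻¹) * b := by group
            _ = z := by rw [← e]; group
        rw [e']; exact hz
    · intro h z
      constructor
      · rintro ⟨y, hy, rfl⟩
        refine ⟨(a⁻¹ * b)⁻¹ * y * (a⁻¹ * b), (h _).mpr ?_, by group⟩
        convert hy using 1; group
      · rintro ⟨y, hy, rfl⟩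
        exact ⟨_, (h y).mp hy, by group⟩
  refine (Nat.card_congr (Equiv.ofBijective (fun c : G ⧸ Subgroup.normalizer (H : Set G) => Quotient.liftOn' c
    (fun g => (⟨H.map (MulAut.conj g).toMonoidHom, hcardc g⟩ : {K : Subgroup G // Nat.card K = m}))
    (fun a b h => Subtype.ext ((hiff a b).mpr (QuotientGroup.leftRel_apply.mp h)))) ⟨?_, ?_⟩)).symm
  · intro a b
    induction a using Quotient.inductionOn' with
    | h a => induction b using Quotient.inductionOn' with
      | h b => exact fun h => Quotient.sound' (QuotientGroup.leftRel_apply.mpr ((hiff a b).mp (congrArg Subtype.val h)))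
  · rintro ⟨K, hK⟩
    obtain ⟨g, hg⟩ := HallBasic.exists_conj hG hmn hH hK
    exact ⟨Quotient.mk'' g, Subtype.ext hg⟩

theorem good_lift {G : Type u} [Group G] (N : Subgroup G) [N.Normal] {m m' f : ℕ} (hm : m' ∣ m) (h : Good (G ⧸ N) m' f) :
    Good G m f := by
  obtain ⟨h1, ⟨K, L, hK, hL, hKL, hmin, hd⟩, q, hq, hqm, hq1⟩ := h
  have hπ := QuotientGroup.mk'_surjective N
  refine ⟨h1, ⟨K.comap (QuotientGroup.mk' N), L.comap (QuotientGroup.mk' N), inferInstance, inferInstance,
    (Subgroup.comap_lt_comap_of_surjective hπ).mpr hKL, ?_, ?_⟩, q, hq, hqm.trans hm, hq1⟩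
  · intro M hM hKM hML
    have hNM : N ≤ M := (QuotientGroup.ker_mk' N).ge.trans ((Subgroup.ker_le_comap (QuotientGroup.mk' N) K).trans hKM)
    have hMc : M = (M.map (QuotientGroup.mk' N)).comap (QuotientGroup.mk' N) := by
      rw [Subgroup.comap_map_eq, QuotientGroup.ker_mk', sup_eq_left.mpr hNM]
    rw [hMc] at hKM hML ⊢
    refine (hmin (M.map (QuotientGroup.mk' N)) (hM.map _ hπ) ((Subgroup.comap_le_comap_of_surjective hπ).mp hKM)
      ((Subgroup.comap_le_comap_of_surjective hπ).mp hML)).imp (fun e => by rw [e]) (fun e => by rw [e])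
  · rwa [Subgroup.relIndex_comap, Subgroup.map_comap_eq_self_of_surjective hπ]

theorem aux : ∀ (c : ℕ) (G : Type u) [Group G] [Finite G] [Group.IsSolvable G], Nat.card G = c → ∀ m n : ℕ, Nat.card G = m * n → m.Coprime n →
    ∃ l : List ℕ, Nat.card {H : Subgroup G // Nat.card H = m} = l.prod ∧ ∀ f ∈ l, Good G m f := by
  intro c
  induction c using Nat.strong_induction_on with
  | _ c IH =>
  intro G _ _ _ hc m n hG hmn
  classical
  obtain ⟨H, hH⟩ := HallBasic.exists_card hG hmn
  rcases subsingleton_or_nontrivial G with hs | hs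
  · refine ⟨[], ?_, fun f hf => absurd hf (by simp)⟩
    rw [List.prod_nil, Nat.card_eq_one_iff_unique]
    exact ⟨⟨fun a b => Subtype.ext (Subsingleton.elim _ _)⟩, ⟨⟨H, hH⟩⟩⟩
  obtain ⟨q, N₀, hq, hN₀, hN₁, -, hexp⟩ := Cfsg.Agent.S4213.exists_elem_normal (G := G)
  obtain ⟨N, ⟨hNn, hN1, hNN₀⟩, hNmin⟩ := Set.Finite.exists_minimalFor id {N : Subgroup G | N.Normal ∧ N ≠ ⊥ ∧ N ≤ N₀}
    (Set.toFinite _) ⟨N₀, hN₀, hN₁, le_rfl⟩
  haveI := hNn
  haveI := Fact.mk hq
  have hNp : IsPGroup q N := fun x => ⟨1, Subtype.ext (by rw [pow_one, Subgroup.coe_pow]; exact hexp x (hNN₀ x.2))⟩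
  have hmin : ∀ M : Subgroup G, M.Normal → ⊥ ≤ M → M ≤ N → M = ⊥ ∨ M = N := fun M hM _ hle =>
    or_iff_not_imp_left.mpr fun hne => le_antisymm hle (hNmin (j := M) ⟨hM, hne, hle.trans hNN₀⟩ hle)
  obtain ⟨k, hk⟩ := IsPGroup.iff_card.mp hNp
  have hk0 : k ≠ 0 := by rintro rfl; exact hN1 (Subgroup.eq_bot_of_card_eq _ (by simpa using hk))
  have hlt : Nat.card (G ⧸ N) < c := by
    rw [← hc, N.card_eq_card_quotient_mul_card_subgroup]
    exact lt_mul_of_one_lt_right Nat.card_pos (by rw [hk]; exact Nat.one_lt_pow hk0 hq.one_lt)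
  set π := QuotientGroup.mk' N with hπdef
  have hπ : Function.Surjective π := QuotientGroup.mk'_surjective N
  have hqd : q ∣ m * n := by
    rw [← hG]; exact ((dvd_pow_self q hk0).trans hk.symm.dvd).trans (Subgroup.card_subgroup_dvd_card N)
  rcases hq.dvd_mul.mp hqd with hqm | hqn
  · -- `N` lies in every Hall subgroup
    have hqn : ¬ q ∣ n := fun h => hq.ne_one (Nat.eq_one_of_dvd_coprimes hmn hqm h)
    have hNm : Nat.card N ∣ m := by
      refine (Nat.Coprime.dvd_of_dvd_mul_right ?_ (hG ▸ Subgroup.card_subgroup_dvd_card N))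
      rw [hk]; exact Nat.Coprime.pow_left _ ((Nat.Prime.coprime_iff_not_dvd hq).mpr hqn)
    obtain ⟨m', hm'⟩ := hNm
    have hG' : Nat.card (G ⧸ N) = m' * n := by
      refine Nat.eq_of_mul_eq_mul_right (Nat.card_pos (α := N)) ?_
      rw [← N.card_eq_card_quotient_mul_card_subgroup, hG, hm']; ring
    obtain ⟨l, hl, hgood⟩ := IH _ hlt (G ⧸ N) rfl m' n hG' (Nat.Coprime.coprime_dvd_left (Dvd.intro_left _ hm'.symm) hmn)
    refine ⟨l, ?_, fun f hf => good_lift N (Dvd.intro_left _ hm'.symm) (hgood f hf)⟩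
    rw [← hl]
    have hle : ∀ K : Subgroup G, Nat.card K = m → N ≤ K := by
      intro K hK
      have hKn : K.index = n := by
        have := K.card_mul_index
        rw [hG, hK] at this
        exact Nat.eq_of_mul_eq_mul_left (hK ▸ Nat.card_pos) this
      rw [← Subgroup.relIndex_eq_one]
      obtain ⟨j, -, hj⟩ := (Nat.dvd_prime_pow hq).mp (show K.relIndex N ∣ q ^ k from hk ▸ Subgroup.relIndex_dvd_card K N)
      have h2 : K.relIndex N ∣ n := by
        rw [← relIndex_sup_normal, ← hKn]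
        exact Dvd.intro _ (Subgroup.relIndex_mul_index le_sup_left)
      rw [hj] at h2 ⊢
      rcases j with _ | j
      · exact pow_zero q
      · exact absurd ((dvd_pow_self q (Nat.succ_ne_zero j)).trans h2) hqn
    have hcardc : ∀ T : Subgroup (G ⧸ N), Nat.card (T.comap π) = Nat.card N * Nat.card T := fun T => by
      refine Nat.eq_of_mul_eq_mul_left (Nat.pos_of_ne_zero T.index_ne_zero_of_finite) ?_
      rw [mul_comm (Nat.card N), ← mul_assoc, T.index_mul_card, ← N.card_eq_card_quotient_mul_card_subgroup, ← (T.comap π).index_mul_card,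
        T.index_comap_of_surjective hπ]
    have hback : ∀ K : Subgroup G, N ≤ K → (K.map π).comap π = K := fun K h => by
      rw [Subgroup.comap_map_eq, hπdef, QuotientGroup.ker_mk', sup_eq_left.mpr h]
    refine Nat.card_congr ⟨fun K => ⟨K.1.map π, ?_⟩, fun T => ⟨T.1.comap π, by rw [hcardc, T.2, ← hm']⟩,
      fun K => Subtype.ext (hback _ (hle _ K.2)), fun T => Subtype.ext (Subgroup.map_comap_eq_self_of_surjective hπ _)⟩
    have h1 := hcardc (K.1.map π)
    rw [hback _ (hle _ K.2)] at h1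
    exact (Nat.eq_of_mul_eq_mul_left Nat.card_pos (hm'.symm.trans (K.2.symm.trans h1))).symm
  · -- `N` is coprime to `m`
    have hqm : ¬ q ∣ m := fun h => hq.ne_one (Nat.eq_one_of_dvd_coprimes hmn h hqn)
    have hdis : H ⊓ N = ⊥ := Subgroup.inf_eq_bot_of_coprime (by
      rw [hH, hk]; exact Nat.Coprime.pow_right _ (Nat.coprime_comm.mp ((Nat.Prime.coprime_iff_not_dvd hq).mpr hqm)))
    set X := H ⊔ N with hX
    set T := H.map π with hT
    have hTc : Nat.card T = m := by
      rw [← hH]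
      refine (Nat.card_congr (Equiv.ofBijective (fun h : H => (⟨π h, h, h.2, rfl⟩ : T)) ⟨?_, ?_⟩)).symm
      · intro a b hab
        have h1 : (a : G)⁻¹ * b ∈ N := QuotientGroup.eq.mp (congrArg Subtype.val hab)
        have h2 : (a : G)⁻¹ * b ∈ H ⊓ N := ⟨H.mul_mem (H.inv_mem a.2) b.2, h1⟩
        rw [hdis, Subgroup.mem_bot] at h2
        exact Subtype.ext (inv_mul_eq_one.mp h2)
      · rintro ⟨_, h, hh, rfl⟩; exact ⟨⟨h, hh⟩, rfl⟩
    obtain ⟨n', hn'⟩ : Nat.card N ∣ n := by
      refine (Nat.Coprime.dvd_of_dvd_mul_left ?_ (hG ▸ Subgroup.card_subgroup_dvd_card N))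
      rw [hk]; exact Nat.Coprime.pow_left _ ((Nat.Prime.coprime_iff_not_dvd hq).mpr hqm)
    have hG' : Nat.card (G ⧸ N) = m * n' := by
      refine Nat.eq_of_mul_eq_mul_right (Nat.card_pos (α := N)) ?_
      rw [← N.card_eq_card_quotient_mul_card_subgroup, hG, hn']; ring
    have hmn' : m.Coprime n' := Nat.Coprime.coprime_dvd_right (Dvd.intro_left _ hn'.symm) hmn
    obtain ⟨l, hl, hgood⟩ := IH _ hlt (G ⧸ N) rfl m n' hG' hmn'
    let φ : H →* MulAut N := MulAut.conjNormal.comp H.subtype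
    have hφc : Nat.card φ.range ∣ m := hH ▸ Subgroup.card_range_dvd φ
    obtain ⟨l', hl', hgood'⟩ := fixed_index m _ N rfl hNp φ.range (Group.isSolvable_of_surjective φ.rangeRestrict_surjective)
      (fun h => hqm (h.trans hφc)) (fun p _ hd => hd.trans hφc)
    refine ⟨l ++ l', ?_, fun f hf => ?_⟩
    rotate_left
    · rcases List.mem_append.mp hf with hf | hf
      · exact good_lift N dvd_rfl (hgood f hf)
      · obtain ⟨⟨e, he⟩, hfd, p, hp, hpm, hp1⟩ := hgood' f hf
        exact ⟨⟨q, e, hq, he⟩, ⟨⊥, N, inferInstance, hNn, bot_lt_iff_ne_bot.mpr hN1, hmin, by rw [Subgroup.relIndex_bot_left]; exact hfd⟩,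
          p, hp, hpm, hp1⟩
    set NH := Subgroup.normalizer (H : Set G) with hNH
    rw [List.prod_append, ← hl, card_hall hG hmn hH, card_hall hG' hmn' hTc]
    have hTX : T.comap π = X := by rw [hT, Subgroup.comap_map_eq, hπdef, QuotientGroup.ker_mk']
    have hNX : (Subgroup.normalizer (T : Set (G ⧸ N))).comap π = NH ⊔ N := by
      rw [Subgroup.comap_normalizer_eq_of_surjective T hπ, hTX]
      refine le_antisymm (fun g hg => ?_) (sup_le ?_ (le_sup_right.trans Subgroup.le_normalizer))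
      · -- Frattini argument inside `X`
        have hmem : ∀ y ∈ H, g * y * g⁻¹ ∈ X := fun y hy => (Subgroup.mem_normalizer_iff.mp hg y).mp (le_sup_left (b := N) hy)
        set H' := H.map (MulAut.conj g).toMonoidHom with hH'
        have hH'X : H' ≤ X := by rintro _ ⟨y, hy, rfl⟩; exact hmem y hy
        have hXc : Nat.card X = m * Nat.card N := by
          have h1 := (T.comap π).index_mul_card
          rw [T.index_comap_of_surjective hπ, hTX, N.card_eq_card_quotient_mul_card_subgroup, ← T.index_mul_card, mul_assoc, hTc] at h1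
          exact Nat.eq_of_mul_eq_mul_left (Nat.pos_of_ne_zero T.index_ne_zero_of_finite) h1
        obtain ⟨x, hx⟩ := HallBasic.exists_conj (G := X) hXc (by
          rw [hk]; exact Nat.Coprime.pow_right _ (Nat.coprime_comm.mp ((Nat.Prime.coprime_iff_not_dvd hq).mpr hqm)))
          (H := H.subgroupOf X) (K := H'.subgroupOf X)
          (by rw [Nat.card_congr (Subgroup.subgroupOfEquivOfLe (le_sup_left : H ≤ X)).toEquiv, hH])
          (by rw [Nat.card_congr (Subgroup.subgroupOfEquivOfLe hH'X).toEquiv, hH', Subgroup.card_map_of_injective (MulAut.conj g).injective, hH])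
        have hle : ∀ y ∈ H, ((x : G)⁻¹ * g) * y * ((x : G)⁻¹ * g)⁻¹ ∈ H := by
          intro y hy
          have h1 : (⟨g * y * g⁻¹, hmem y hy⟩ : X) ∈ MulAut.conj x • H.subgroupOf X := by
            rw [hx]; exact ⟨y, hy, rfl⟩
          rw [HallBasic.smul_eq_map] at h1
          obtain ⟨z, hz, e⟩ := h1
          have e1 : (x : G) * z * (x : G)⁻¹ = g * y * g⁻¹ := congrArg Subtype.val e
          have e2 : (x : G)⁻¹ * g * y * ((x : G)⁻¹ * g)⁻¹ = z := by
            calc (x : G)⁻¹ * g * y * ((x : G)⁻¹ * g)⁻¹ = (x : G)⁻¹ * (g * y * g⁻¹) * x := by group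
              _ = z := by rw [← e1]; group
          rw [e2]; exact hz
        have hmemN : (x : G)⁻¹ * g ∈ NH := by
          have heq := Subgroup.eq_of_le_of_card_ge (show H.map (MulAut.conj ((x : G)⁻¹ * g)).toMonoidHom ≤ H by
            rintro _ ⟨y, hy, rfl⟩; exact hle y hy) (Subgroup.card_map_of_injective (MulAut.conj _).injective).ge
          rw [hNH, Subgroup.mem_normalizer_iff]
          intro y
          refine ⟨hle y, fun hy => ?_⟩
          rw [← heq] at hy
          obtain ⟨w, hw, e⟩ := hy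
          exact (MulAut.conj _).injective e ▸ hw
        have h1 : (x : G) ∈ NH ⊔ N := (sup_le (Subgroup.le_normalizer.trans le_sup_left) le_sup_right : X ≤ NH ⊔ N) x.2
        simpa using mul_mem h1 (Subgroup.mem_sup_left hmemN)
      · intro g hg
        rw [Subgroup.mem_normalizer_iff]
        intro y
        have e : (MulAut.conj g).toMonoidHom = (MulAut.conj g : G →* G) := rfl
        have hXmap : X.map (MulAut.conj g).toMonoidHom = X := by
          rw [hX, Subgroup.map_sup]
          congr 1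
          · exact (Subgroup.mem_normalizer_iff_map_conj_eq).mp hg
          · exact (Subgroup.mem_normalizer_iff_map_conj_eq).mp (by rw [Subgroup.normalizer_eq_top]; exact Subgroup.mem_top g)
        exact Subgroup.mem_normalizer_iff.mp ((Subgroup.mem_normalizer_iff_map_conj_eq).mpr hXmap) y
    rw [← (Subgroup.normalizer (T : Set (G ⧸ N))).index_comap_of_surjective hπ, hNX,
      ← Subgroup.relIndex_mul_index (le_sup_left : NH ≤ NH ⊔ N), mul_comm, relIndex_sup_normal]
    congr 1
    have h1 := Subgroup.relIndex_mul_relIndex ⊥ (NH ⊓ N) N bot_le inf_le_right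
    rw [Subgroup.relIndex_bot_left, Subgroup.relIndex_bot_left, Subgroup.inf_relIndex_right] at h1
    have h2 : Nat.card {v : N // ∀ a ∈ φ.range, a v = v} = Nat.card (NH ⊓ N : Subgroup G) := by
      refine Nat.card_congr ⟨fun v => ⟨(v.1 : G), ?_, v.1.2⟩, fun v => ⟨⟨v.1, v.2.2⟩, ?_⟩, fun _ => rfl, fun _ => rfl⟩
      · have hc : ∀ h : H, (h : G) * v.1 * (h : G)⁻¹ = v.1 := fun h => congrArg Subtype.val (v.2 _ ⟨h, rfl⟩)
        rw [hNH]
        refine Subgroup.centralizer_le_normalizer _ (Subgroup.mem_centralizer_iff.mpr fun y hy => ?_)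
        calc y * (v.1 : G) = (y * v.1 * y⁻¹) * y := by group
          _ = v.1 * y := by rw [hc ⟨y, hy⟩]
      · rintro a ⟨h, rfl⟩
        refine Subtype.ext ?_
        show (h : G) * v.1 * (h : G)⁻¹ = v.1
        have hA : (v.1 : G) * h * (v.1 : G)⁻¹ * (h : G)⁻¹ ∈ H ⊓ N := by
          refine ⟨H.mul_mem ((Subgroup.mem_normalizer_iff.mp v.2.1 h).mp h.2) (H.inv_mem h.2), ?_⟩
          rw [mul_assoc, mul_assoc]
          exact mul_mem v.2.2 (by rw [← mul_assoc]; exact hNn.conj_mem _ (inv_mem v.2.2) h)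
        rw [hdis, Subgroup.mem_bot, mul_inv_eq_one, mul_inv_eq_iff_eq_mul] at hA
        rw [mul_inv_eq_iff_eq_mul]; exact hA.symm
    rw [h2, ← h1, mul_comm (Nat.card (NH ⊓ N : Subgroup G))] at hl'
    exact Nat.eq_of_mul_eq_mul_right Nat.card_pos hl'


/-- Let `G` be a finite solvable group of order `mn` with `gcd(m, n) = 1`. Then the number of subgroups of order `m` is a product of natural numbers each of which is a power of a prime, divides the order of some chief factor of `G` (a quotient `L/K` of normal subgroups `K < L` of `G` with no normal subgroup of `G` strictly between them), and is congruent to `1` modulo some prime divisor of `m`. -/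
theorem result {G : Type*} [Group G] [Finite G] [Group.IsSolvable G] (m n : ℕ) (hG : Nat.card G = m * n) (hmn : Nat.Coprime m n) : ∃ (k : ℕ) (f : Fin k → ℕ), Nat.card {H : Subgroup G // Nat.card H = m} = ∏ i, f i ∧ ∀ i, (∃ q e : ℕ, q.Prime ∧ f i = q ^ e) ∧ (∃ K L : Subgroup G, K.Normal ∧ L.Normal ∧ K < L ∧ (∀ M : Subgroup G, M.Normal → K ≤ M → M ≤ L → M = K ∨ M = L) ∧ f i ∣ K.relIndex L) ∧ (∃ q : ℕ, q.Prime ∧ q ∣ m ∧ f i ≡ 1 [MOD q]) := by
  classical
  obtain ⟨l, hl, hgood⟩ := aux _ G rfl m n hG hmn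
  exact ⟨l.length, l.get, by rw [hl, ← List.prod_ofFn, List.ofFn_get], fun i => hgood _ (List.get_mem l i)⟩

end Cfsg.Agent.S4214
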