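import Cfsg.Statements.S4216
import Mathlib

set_option autoImplicit false
open Cfsg

namespace Cfsg.Agent.S4216
open scoped commutatorElement

/-- Grün's first Theorem: if `P` is a Sylow `p`-subgroup of the finite group `G`, then `P ∩ G'` is the subgroup generated by `P ∩ N_G(P)'` together with the subgroups `P ∩ z P' z⁻¹` for all `z ∈ G`, where `'` denotes the derived subgroup and `N_G(P)` the normalizer of `P`. -/
theorem result {G : Type*} [Group G] [Finite G] {p : ℕ} [Fact p.Prime] (P : Sylow p G) : (P : Subgroup G) ⊓ commutator G = ((P : Subgroup G) ⊓ ⁅Subgroup.normalizer ((P : Subgroup G) : Set G), Subgroup.normalizer ((P : Subgroup G) : Set G)⁆) ⊔ ⨆ z : G, (P : Subgroup G) ⊓ (⁅(P : Subgroup G), (P : Subgroup G)⁆).map (MulAut.conj z).toMonoidHom := by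
  classical
  have hp : p.Prime := Fact.out
  set N := Subgroup.normalizer ((P : Subgroup G) : Set G) with hN
  set D := ((P : Subgroup G) ⊓ ⁅N, N⁆) ⊔ ⨆ z : G, (P : Subgroup G) ⊓ (⁅(P : Subgroup G), (P : Subgroup G)⁆).map (MulAut.conj z).toMonoidHom with hD
  have hPN : (P : Subgroup G) ≤ N := Subgroup.le_normalizer
  have hDP : D ≤ (P : Subgroup G) := sup_le inf_le_left (iSup_le fun z => inf_le_left)
  have hcom : commutator G = ⁅(⊤ : Subgroup G), (⊤ : Subgroup G)⁆ := rfl
  have hDG : D ≤ commutator G := by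
    refine sup_le (inf_le_right.trans ?_) (iSup_le fun z => inf_le_right.trans ?_)
    · rw [hcom]; exact Subgroup.commutator_mono le_top le_top
    · rintro _ ⟨x, hx, rfl⟩
      refine (inferInstance : (commutator G).Normal).conj_mem x ?_ z
      rw [hcom]; exact Subgroup.commutator_mono le_top le_top hx
  refine le_antisymm ?_ (le_inf hDP hDG)
  -- `D` contains `P'` and is normal in `P`
  have hP'N : ⁅(P : Subgroup G), (P : Subgroup G)⁆ ≤ ⁅N, N⁆ := Subgroup.commutator_mono hPN hPN
  have hP'D : ⁅(P : Subgroup G), (P : Subgroup G)⁆ ≤ D := fun x hx =>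
    Subgroup.mem_sup_left ⟨Subgroup.commutator_le_self (P : Subgroup G) hx, hP'N hx⟩
  haveI hDn : (D.subgroupOf (P : Subgroup G)).Normal := ⟨fun x hx g => by
    rw [Subgroup.mem_subgroupOf] at hx ⊢
    have h1 : ⁅(g : G), (x : G)⁆ ∈ D := hP'D (Subgroup.commutator_mem_commutator g.2 (hDP hx))
    have := D.mul_mem h1 hx
    rw [commutatorElement_def, inv_mul_cancel_right] at this
    exact this⟩
  letI : CommGroup ((P : Subgroup G) ⧸ D.subgroupOf (P : Subgroup G)) :=
    { (inferInstance : Group ((P : Subgroup G) ⧸ D.subgroupOf (P : Subgroup G))) with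
      mul_comm := fun a b => by
        induction a using QuotientGroup.induction_on with
        | H a =>
          induction b using QuotientGroup.induction_on with
          | H b =>
            rw [← QuotientGroup.mk_mul, ← QuotientGroup.mk_mul, QuotientGroup.eq, Subgroup.mem_subgroupOf]
            have h1 := hP'D (Subgroup.commutator_mem_commutator (Subgroup.inv_mem _ b.2) (Subgroup.inv_mem _ a.2))
            rw [commutatorElement_def, inv_inv, inv_inv] at h1
            simpa [mul_assoc] using h1 }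
  set φ : (P : Subgroup G) →* (P : Subgroup G) ⧸ D.subgroupOf (P : Subgroup G) := QuotientGroup.mk' _ with hφ
  have hφ1 : ∀ x : (P : Subgroup G), φ x = 1 ↔ (x : G) ∈ D := fun x => by
    rw [hφ, QuotientGroup.mk'_apply, QuotientGroup.eq_one_iff, Subgroup.mem_subgroupOf]
  suffices h : ∀ (k : ℕ) (u : G), orderOf u = k → u ∈ (P : Subgroup G) → u ∈ commutator G → u ∈ D from
    fun u hu => h _ u rfl hu.1 hu.2
  intro k
  induction k using Nat.strong_induction_on with
  | _ k ih =>
  intro u hk huP huG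
  by_cases hu1 : u = 1
  · rw [hu1]; exact D.one_mem
  have hpu : ∃ a, orderOf u = p ^ (a + 1) := by
    obtain ⟨a, ha⟩ := IsPGroup.iff_orderOf.mp P.2 ⟨u, huP⟩
    rw [Subgroup.orderOf_mk] at ha
    rcases a with _ | a
    · exact absurd (orderOf_eq_one_iff.mp (by simpa using ha)) hu1
    · exact ⟨a, ha⟩
  obtain ⟨a, ha⟩ := hpu
  -- smaller conjugated powers die
  have hsmall : ∀ (x : G) (r : ℕ), p ∣ r → (hm : x⁻¹ * u ^ r * x ∈ (P : Subgroup G)) → φ ⟨_, hm⟩ = 1 := by
    intro x r hr hm
    rw [hφ1]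
    refine ih (orderOf (x⁻¹ * u ^ r * x)) ?_ _ rfl hm ?_
    · rw [← hk, show x⁻¹ * u ^ r * x = (MulAut.conj x⁻¹).toMonoidHom (u ^ r) by simp [MulAut.conj_apply],
        orderOf_injective _ (MulAut.conj x⁻¹).injective, ha]
      obtain ⟨s, rfl⟩ := hr
      refine lt_of_le_of_lt (Nat.le_of_dvd (pow_pos hp.pos a) (orderOf_dvd_of_pow_eq_one ?_)) (Nat.pow_lt_pow_right hp.one_lt (by omega))
      rw [← pow_mul, show p * s * p ^ a = p ^ (a + 1) * s by ring, pow_mul, ← ha, pow_orderOf_eq_one, one_pow]
    · have := (inferInstance : (commutator G).Normal).conj_mem _ (Subgroup.pow_mem _ huG r) x⁻¹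
      simpa using this
  -- the value at a coset fixed by `u`
  haveI := Fintype.ofFinite (G ⧸ (P : Subgroup G))
  let F := (Finset.univ : Finset (G ⧸ (P : Subgroup G))).filter (fun q => u • q = q)
  let val : G ⧸ (P : Subgroup G) → (P : Subgroup G) ⧸ D.subgroupOf (P : Subgroup G) := fun q =>
    if h : q.out⁻¹ * u * q.out ∈ (P : Subgroup G) then φ ⟨_, h⟩ else 1
  have hrep : ∀ x : G, (hm : x⁻¹ * u * x ∈ (P : Subgroup G)) → val (QuotientGroup.mk x) = φ ⟨_, hm⟩ := by
    intro x hm
    obtain ⟨y, hy⟩ := QuotientGroup.mk_out_eq_mul (P : Subgroup G) x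
    have hm' : (QuotientGroup.mk x : G ⧸ (P : Subgroup G)).out⁻¹ * u * (QuotientGroup.mk x : G ⧸ (P : Subgroup G)).out ∈ (P : Subgroup G) := by
      rw [hy, show (x * (y : G))⁻¹ * u * (x * (y : G)) = (y : G)⁻¹ * (x⁻¹ * u * x) * y by group]
      exact Subgroup.mul_mem _ (Subgroup.mul_mem _ (Subgroup.inv_mem _ y.2) hm) y.2
    simp only [val, dif_pos hm']
    have e : (⟨_, hm'⟩ : (P : Subgroup G)) = y⁻¹ * ⟨_, hm⟩ * y := Subtype.ext (by
      show (QuotientGroup.mk x : G ⧸ (P : Subgroup G)).out⁻¹ * u * (QuotientGroup.mk x : G ⧸ (P : Subgroup G)).out = (y : G)⁻¹ * (x⁻¹ * u * x) * y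
      rw [hy]; group)
    rw [e, map_mul, map_mul, map_inv, mul_comm (φ y)⁻¹, inv_mul_cancel_right]
  have hfixmem : ∀ x : G, u • (QuotientGroup.mk x : G ⧸ (P : Subgroup G)) = QuotientGroup.mk x →
      x⁻¹ * u * x ∈ (P : Subgroup G) := by
    intro x hx
    rw [MulAction.Quotient.smul_mk, smul_eq_mul, eq_comm, QuotientGroup.eq] at hx
    rwa [mul_assoc]
  -- the transfer is the product over the fixed cosets
  have hV : MonoidHom.transfer φ u = ∏ q ∈ F, val q := by
    haveI := Fintype.ofFinite (Quotient (MulAction.orbitRel (Subgroup.zpowers u) (G ⧸ (P : Subgroup G))))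
    rw [MonoidHom.transfer_eq_prod_quotient_orbitRel_zpowers_quot]
    symm
    refine Finset.prod_of_injOn (fun q => (Quotient.mk'' q : Quotient (MulAction.orbitRel (Subgroup.zpowers u) (G ⧸ (P : Subgroup G))))) ?_ ?_ ?_ ?_
    · intro q1 h1 q2 h2 e
      simp only [F, Finset.coe_filter, Finset.mem_univ, true_and, Set.mem_setOf_eq] at h1 h2
      obtain ⟨⟨w, hw⟩, hw2⟩ := Quotient.eq''.mp e
      have : Subgroup.zpowers u ≤ MulAction.stabilizer G q2 := Subgroup.zpowers_le.mpr h2
      have e2 : w • q2 = q1 := hw2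
      rw [← e2, this hw]
    · intro q _; exact Finset.mem_coe.mpr (Finset.mem_univ _)
    · intro Q _ hQ
      set q := Q.out
      have hne : u • q ≠ q := fun e => hQ ⟨q, by simp only [F, Finset.coe_filter, Finset.mem_univ, true_and, Set.mem_setOf_eq]; exact e, Q.out_eq'⟩
      refine hsmall _ _ ?_ _
      have hd : Function.minimalPeriod (u • ·) q ∣ p ^ (a + 1) := by
        rw [← ha]
        refine (MulAction.pow_smul_eq_iff_minimalPeriod_dvd).mp ?_
        rw [pow_orderOf_eq_one, one_smul]
      obtain ⟨i, -, hi⟩ := (Nat.dvd_prime_pow hp).mp hd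
      rcases i with _ | i
      · exfalso
        refine hne ?_
        have h1 : u ^ (1 : ℕ) • q = q := MulAction.pow_smul_eq_iff_minimalPeriod_dvd.mpr (by rw [hi]; simp)
        rwa [pow_one] at h1
      · rw [hi, pow_succ]; exact dvd_mul_left p _
    · intro q hq
      simp only [F, Finset.mem_filter, Finset.mem_univ, true_and] at hq
      set Q : Quotient (MulAction.orbitRel (Subgroup.zpowers u) (G ⧸ (P : Subgroup G))) := Quotient.mk'' q
      have hout : Q.out = q := by
        obtain ⟨⟨w, hw⟩, hw2⟩ := Quotient.eq''.mp (Q.out_eq' : Quotient.mk'' Q.out = Quotient.mk'' q)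
        have : Subgroup.zpowers u ≤ MulAction.stabilizer G q := Subgroup.zpowers_le.mpr hq
        have e2 : w • q = Q.out := hw2
        rw [← e2, this hw]
      have hper : Function.minimalPeriod (u • ·) Q.out = 1 := by
        rw [hout]; exact Function.minimalPeriod_eq_one_iff_isFixedPt.mpr hq
      have hm : q.out⁻¹ * u * q.out ∈ (P : Subgroup G) := hfixmem _ (by rw [QuotientGroup.out_eq']; exact hq)
      have := hrep _ hm
      rw [QuotientGroup.out_eq'] at this
      rw [this]
      congr 1
      refine Subtype.ext ?_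
      show q.out⁻¹ * u * q.out = Q.out.out⁻¹ * u ^ Function.minimalPeriod (u • ·) Q.out * Q.out.out
      rw [hper, pow_one, hout]
  -- cosets moved by `P` cancel
  letI : MulAction (P : Subgroup G) (G ⧸ (P : Subgroup G)) := inferInstance
  let W := (Finset.univ : Finset (G ⧸ (P : Subgroup G))).filter (fun q => ∀ y : (P : Subgroup G), y • q = q)
  have hWF : W ⊆ F := fun q hq => by
    simp only [W, F, Finset.mem_filter, Finset.mem_univ, true_and] at hq ⊢
    exact hq ⟨u, huP⟩
  have hrest : ∏ q ∈ F \ W, val q = 1 := by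
    haveI := Fintype.ofFinite (MulAction.orbitRel.Quotient (P : Subgroup G) (G ⧸ (P : Subgroup G)))
    let π : G ⧸ (P : Subgroup G) → MulAction.orbitRel.Quotient (P : Subgroup G) (G ⧸ (P : Subgroup G)) := Quotient.mk''
    rw [← Finset.prod_fiberwise (F \ W) π]
    refine Finset.prod_eq_one fun Ω _ => ?_
    rcases ((F \ W).filter fun q => π q = Ω).eq_empty_or_nonempty with he | ⟨q0, hq0⟩
    · rw [he, Finset.prod_empty]
    simp only [Finset.mem_filter, Finset.mem_sdiff, F, W, Finset.mem_univ, true_and] at hq0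
    obtain ⟨⟨hq0F, hq0W⟩, hq0Ω⟩ := hq0
    have hq0m := hfixmem q0.out (by rw [QuotientGroup.out_eq']; exact hq0F)
    have hval : ∀ q ∈ (F \ W).filter fun q => π q = Ω, val q = φ ⟨_, hq0m⟩ := by
      intro q hq
      simp only [Finset.mem_filter, Finset.mem_sdiff, F, W, Finset.mem_univ, true_and] at hq
      obtain ⟨y, hy⟩ := Quotient.eq''.mp (hq.2.trans hq0Ω.symm)
      have hy' : (QuotientGroup.mk ((y : G) * q0.out) : G ⧸ (P : Subgroup G)) = q := by
        have e2 : y • q0 = q := hy
        rw [← e2]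
        conv_rhs => rw [← QuotientGroup.out_eq' q0]
        rfl
      have hm := hfixmem ((y : G) * q0.out) (by rw [hy']; exact hq.1.1)
      rw [← hy', hrep _ hm]
      refine mul_inv_eq_one.mp ?_
      rw [← map_inv, ← map_mul, hφ1]
      refine Subgroup.mem_sup_right (Subgroup.mem_iSup_of_mem q0.out⁻¹ ⟨(_ * _ : (P : Subgroup G)).2, ⟨(y : G)⁻¹ * u * y * u⁻¹, ?_, ?_⟩⟩)
      · have h1 := Subgroup.commutator_mem_commutator (Subgroup.inv_mem _ y.2) huP
        rwa [commutatorElement_def, inv_inv] at h1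
      · show q0.out⁻¹ * ((y : G)⁻¹ * u * y * u⁻¹) * q0.out⁻¹⁻¹ =
          ((y : G) * q0.out)⁻¹ * u * ((y : G) * q0.out) * (q0.out⁻¹ * u * q0.out)⁻¹
        group
    rw [Finset.prod_congr rfl hval, Finset.prod_const]
    have hdvd : p ∣ ((F \ W).filter fun q => π q = Ω).card := by
      -- fixed points of `u` on the orbit
      let O := MulAction.orbit (P : Subgroup G) q0
      let U : Subgroup (P : Subgroup G) := Subgroup.zpowers ⟨u, huP⟩
      obtain ⟨i, hi⟩ := P.2.index (MulAction.stabilizer (P : Subgroup G) q0)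
      have hOc : Nat.card O = p ^ i := by rw [Nat.card_coe_set_eq, ← MulAction.index_stabilizer, hi]
      have hi0 : i ≠ 0 := fun e => hq0W fun y => by
        rw [e, pow_zero] at hi
        exact MulAction.mem_stabilizer_iff.mp ((Subgroup.index_eq_one.mp hi).symm ▸ Subgroup.mem_top y)
      letI : MulAction U O :=
        { smul := fun s x => ⟨(s : (P : Subgroup G)) • x.1, MulAction.mem_orbit_of_mem_orbit (s : (P : Subgroup G)) x.2⟩
          one_smul := fun x => Subtype.ext (one_smul _ x.1)
          mul_smul := fun s t x => Subtype.ext (mul_smul _ _ x.1) }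
      have hmod := (P.2.to_subgroup U).card_modEq_card_fixedPoints O
      have hfc : Nat.card (MulAction.fixedPoints U O) = ((F \ W).filter fun q => π q = Ω).card := by
        rw [← Nat.card_eq_finsetCard]
        refine Nat.card_congr
          { toFun := fun x => ⟨x.1.1, ?_⟩
            invFun := fun x => ⟨⟨x.1, ?_⟩, ?_⟩
            left_inv := fun x => rfl
            right_inv := fun x => rfl }
        · simp only [Finset.mem_filter, Finset.mem_sdiff, F, W, Finset.mem_univ, true_and]
          refine ⟨⟨congrArg Subtype.val (x.2 ⟨⟨u, huP⟩, Subgroup.mem_zpowers _⟩), fun hall => hq0W fun y => ?_⟩, ?_⟩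
          · obtain ⟨s, hs⟩ := x.1.2
            have e : (x.1.1 : G ⧸ (P : Subgroup G)) = q0 := by
              have h2 := hall s⁻¹
              have hs' : s • q0 = x.1.1 := hs
              rw [← hs', inv_smul_smul] at h2
              rw [← hs']; exact h2.symm
            rw [← e]; exact hall y
          · rw [← hq0Ω]; exact Quotient.eq''.mpr x.1.2
        · have := x.2
          simp only [Finset.mem_filter, Finset.mem_sdiff, F, W, Finset.mem_univ, true_and] at this
          exact Quotient.eq''.mp (this.2.trans hq0Ω.symm)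
        · have := x.2
          simp only [Finset.mem_filter, Finset.mem_sdiff, F, W, Finset.mem_univ, true_and] at this
          rintro ⟨s, hs⟩
          refine Subtype.ext ?_
          have hle : U ≤ MulAction.stabilizer (P : Subgroup G) x.1 := Subgroup.zpowers_le.mpr this.1.1
          exact hle hs
      rw [← hfc]
      exact Nat.modEq_zero_iff_dvd.mp (hmod.symm.trans (Nat.modEq_zero_iff_dvd.mpr (hOc ▸ dvd_pow_self p hi0)))
    obtain ⟨s, hs⟩ := hdvd
    rw [hs, pow_mul, ← map_pow]
    have hvp : φ ((⟨_, hq0m⟩ : (P : Subgroup G)) ^ p) = 1 := by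
      have hm : q0.out⁻¹ * u ^ p * q0.out ∈ (P : Subgroup G) := by
        have := Subgroup.pow_mem _ hq0m p
        rwa [show (q0.out⁻¹ * u * q0.out) = q0.out⁻¹ * u * q0.out⁻¹⁻¹ by rw [inv_inv], conj_pow, inv_inv] at this
      rw [← hsmall _ p dvd_rfl hm]
      congr 1
      refine Subtype.ext ?_
      show (q0.out⁻¹ * u * q0.out) ^ p = _
      rw [show (q0.out⁻¹ * u * q0.out) = q0.out⁻¹ * u * q0.out⁻¹⁻¹ by rw [inv_inv], conj_pow, inv_inv]
    rw [hvp, one_pow]
  have hWval : ∀ q ∈ W, val q = φ ⟨u, huP⟩ := by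
    intro q hq
    simp only [W, Finset.mem_filter, Finset.mem_univ, true_and] at hq
    have hgN : q.out ∈ N := by
      rw [hN, ← Subgroup.inv_mem_iff, Subgroup.mem_normalizer_iff_map_conj_eq]
      refine Subgroup.eq_of_le_of_card_ge ?_ (Nat.card_congr ((P : Subgroup G).equivMapOfInjective _ (MulAut.conj q.out⁻¹).injective).toEquiv).le
      rintro _ ⟨y, hy, rfl⟩
      show q.out⁻¹ * y * q.out⁻¹⁻¹ ∈ (P : Subgroup G)
      rw [inv_inv]
      have h1 : y • (QuotientGroup.mk q.out : G ⧸ (P : Subgroup G)) = QuotientGroup.mk q.out := by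
        rw [QuotientGroup.out_eq']; exact hq ⟨y, hy⟩
      rw [MulAction.Quotient.smul_mk, smul_eq_mul, eq_comm, QuotientGroup.eq] at h1
      rwa [mul_assoc]
    have hm := hfixmem q.out (by rw [QuotientGroup.out_eq']; exact hq ⟨u, huP⟩)
    have h2 := hrep q.out hm
    rw [QuotientGroup.out_eq'] at h2
    rw [h2]
    refine mul_inv_eq_one.mp ?_
    rw [← map_inv, ← map_mul, hφ1]
    refine Subgroup.mem_sup_left ⟨(_ * _ : (P : Subgroup G)).2, ?_⟩
    show q.out⁻¹ * u * q.out * u⁻¹ ∈ ⁅N, N⁆
    have h1 := Subgroup.commutator_mem_commutator (Subgroup.inv_mem _ hgN) (hPN huP)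
    rwa [commutatorElement_def, inv_inv] at h1
  have hone : MonoidHom.transfer φ u = 1 :=
    MonoidHom.mem_ker.mp (Abelianization.commutator_subset_ker (MonoidHom.transfer φ) huG)
  rw [hV, ← Finset.prod_sdiff hWF, hrest, one_mul, Finset.prod_congr rfl hWval, Finset.prod_const] at hone
  have hWc : (W.card).Coprime p := by
    have h1 : Nat.card (MulAction.fixedPoints (P : Subgroup G) (G ⧸ (P : Subgroup G))) = W.card := by
      rw [← Nat.card_eq_finsetCard]
      exact Nat.card_congr (Equiv.subtypeEquivRight fun q => by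
        simp [W, MulAction.mem_fixedPoints])
    have h2 := P.2.card_modEq_card_fixedPoints (G ⧸ (P : Subgroup G))
    rw [h1] at h2
    refine ((Nat.Prime.coprime_iff_not_dvd hp).mpr fun hd => P.not_dvd_index ?_).symm
    rw [Subgroup.index_eq_card]
    exact Nat.modEq_zero_iff_dvd.mp (h2.trans (Nat.modEq_zero_iff_dvd.mpr hd))
  rw [← hφ1 ⟨u, huP⟩]
  refine orderOf_eq_one_iff.mp (Nat.eq_one_of_dvd_coprimes (hWc.symm.pow_left (a + 1)) ?_ (orderOf_dvd_of_pow_eq_one hone))
  refine (orderOf_map_dvd φ _).trans ?_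
  rw [Subgroup.orderOf_mk, ha]

end Cfsg.Agent.S4216
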