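import Cfsg.Statements.S4217
import Mathlib
import Cfsg.Agent.Lib.GroupB.Gaschutz

set_option autoImplicit false
open Cfsg

namespace Cfsg.Agent.S4217

/-- Let `A` be an abelian normal subgroup of the finite group `G`. Then `A` has a complement in `G` if and only if, for every prime `p` dividing the index of `A`, there are a Sylow `p`-subgroup `S` of `G/A` and a subgroup `K` of `G` with `K ∩ A = 1` and `KA` equal to the preimage of `S` (that is, `A` has a complement in the preimage of a Sylow `p`-subgroup of `G/A`). -/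
theorem result {G : Type*} [Group G] [Finite G] (A : Subgroup G) [A.Normal] (hA : IsMulCommutative A) : (∃ K : Subgroup G, K.IsComplement' A) ↔ ∀ p : ℕ, p.Prime → p ∣ A.index → ∃ (S : Sylow p (G ⧸ A)) (K : Subgroup G), K ⊓ A = ⊥ ∧ K ⊔ A = (S : Subgroup (G ⧸ A)).comap (QuotientGroup.mk' A) := by
  classical
  constructor
  · rintro ⟨K, hK⟩ p hp -
    haveI := Fact.mk hp
    obtain ⟨S⟩ := (inferInstance : Nonempty (Sylow p (G ⧸ A)))
    refine ⟨S, K ⊓ (S : Subgroup (G ⧸ A)).comap (QuotientGroup.mk' A), ?_, ?_⟩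
    · exact eq_bot_iff.mpr fun x hx => Subgroup.disjoint_def.mp hK.disjoint hx.1.1 hx.2
    · have hA' : A ≤ (S : Subgroup (G ⧸ A)).comap (QuotientGroup.mk' A) := fun a ha => by
        rw [Subgroup.mem_comap, show QuotientGroup.mk' A a = 1 from (QuotientGroup.eq_one_iff a).mpr ha]
        exact Subgroup.one_mem _
      refine le_antisymm (sup_le inf_le_right hA') fun x hx => ?_
      obtain ⟨⟨⟨k, hk⟩, ⟨a, ha⟩⟩, hka⟩ := hK.2 x
      have e : k * a = x := hka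
      rw [← e] at hx ⊢
      refine Subgroup.mul_mem_sup ⟨hk, ?_⟩ ha
      have := Subgroup.mul_mem _ hx (Subgroup.inv_mem _ (hA' ha))
      rwa [mul_inv_cancel_right] at this
  intro hloc
  -- descend from `A` to `⊥`, one prime part at a time
  suffices h : ∀ (n : ℕ) (D : Subgroup G), D.Normal → D ≤ A → Nat.card D = n →
      (∀ a ∈ A, ∀ r : ℕ, r.Prime → r ∣ Nat.card D → (∃ j, a ^ r ^ j = 1) → a ∈ D) →
      (∃ X : Subgroup G, X ⊓ A = D ∧ ∀ g : G, ∃ x ∈ X, ∃ a ∈ A, x * a = g) → ∃ K : Subgroup G, K.IsComplement' A from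
    h _ A inferInstance le_rfl rfl (fun a ha _ _ _ _ => ha) ⟨⊤, top_inf_eq A, fun g => ⟨g, trivial, 1, A.one_mem, mul_one g⟩⟩
  intro n
  induction n using Nat.strong_induction_on with
  | _ n ih =>
  intro D hD hDA hn hfull ⟨X, hXA, hXgen⟩
  by_cases hD1 : D = ⊥
  · exact ⟨X, Subgroup.isComplement'_of_disjoint_and_mul_eq_univ (disjoint_iff.mpr (hXA.trans hD1))
      (Set.eq_univ_iff_forall.mpr fun g => by
        obtain ⟨x, hx, a, ha, e⟩ := hXgen g
        exact ⟨x, hx, a, ha, e⟩)⟩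
  obtain ⟨q, hq, hqd⟩ := Nat.exists_prime_and_dvd ((Subgroup.one_lt_card_iff_ne_bot D).mpr hD1).ne'
  haveI := Fact.mk hq
  have hAc : ∀ a ∈ A, ∀ b ∈ A, a * b = b * a := fun a ha b hb =>
    congrArg Subtype.val (hA.is_comm.comm (⟨a, ha⟩ : A) ⟨b, hb⟩)
  -- `q`-parts and `q'`-parts
  obtain ⟨C, hC⟩ : ∃ C : Subgroup G, ∀ x, x ∈ C ↔ x ∈ D ∧ ∃ k, x ^ q ^ k = 1 :=
    ⟨{ carrier := {x | x ∈ D ∧ ∃ k, x ^ q ^ k = 1}
       one_mem' := ⟨D.one_mem, 0, one_pow _⟩
       mul_mem' := fun {a b} ha hb => ⟨D.mul_mem ha.1 hb.1, by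
         obtain ⟨k, hk⟩ := ha.2
         obtain ⟨l, hl⟩ := hb.2
         refine ⟨k + l, ?_⟩
         rw [(show Commute a b from hAc a (hDA ha.1) b (hDA hb.1)).mul_pow, pow_add, pow_mul, hk, one_pow, one_mul,
           mul_comm, pow_mul, hl, one_pow]⟩
       inv_mem' := fun {a} ha => ⟨D.inv_mem ha.1, ha.2.imp fun k hk => by rw [inv_pow, hk, inv_one]⟩ }, fun x => Iff.rfl⟩
  have mkB : ∀ E : Subgroup G, E ≤ A → ∃ B : Subgroup G, ∀ x, x ∈ B ↔ x ∈ E ∧ (orderOf x).Coprime q := by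
    intro E hE
    refine ⟨{ carrier := {x | x ∈ E ∧ (orderOf x).Coprime q}
              one_mem' := ⟨E.one_mem, by rw [orderOf_one]; exact Nat.coprime_one_left q⟩
              mul_mem' := fun {a b} ha hb => ⟨E.mul_mem ha.1 hb.1, Nat.Coprime.coprime_dvd_left
                (show Commute a b from hAc a (hE ha.1) b (hE hb.1)).orderOf_mul_dvd_mul_orderOf (ha.2.mul_left hb.2)⟩
              inv_mem' := fun {a} ha => ⟨E.inv_mem ha.1, by rw [orderOf_inv]; exact ha.2⟩ }, fun x => Iff.rfl⟩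
  obtain ⟨B, hB⟩ := mkB D hDA
  obtain ⟨A', hA'⟩ := mkB A le_rfl
  have hsplit : ∀ E : Subgroup G, ∀ x ∈ E, ∃ c b : G, c * b = x ∧ c ∈ E ∧ b ∈ E ∧ (∃ k, c ^ q ^ k = 1) ∧ (orderOf b).Coprime q := by
    intro E x hx
    obtain ⟨k, m, hm, hkm⟩ := Nat.exists_eq_pow_mul_and_not_dvd (orderOf_pos x).ne' q hq.ne_one
    have hcop : Nat.Coprime m (q ^ k) := ((Nat.Prime.coprime_iff_not_dvd hq).mpr hm).symm.pow_right k
    have h1 : (Int.gcd m (q ^ k : ℕ) : ℤ) = 1 := by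
      rw [show Int.gcd (m : ℤ) ((q ^ k : ℕ) : ℤ) = 1 from hcop]; rfl
    rw [Int.gcd_eq_gcd_ab] at h1
    refine ⟨x ^ ((m : ℤ) * Int.gcdA m (q ^ k : ℕ)), x ^ (((q ^ k : ℕ) : ℤ) * Int.gcdB m (q ^ k : ℕ)), ?_,
      E.zpow_mem hx _, E.zpow_mem hx _, ⟨k, ?_⟩, ?_⟩
    · rw [← zpow_add, h1, zpow_one]
    · rw [← zpow_natCast (x ^ _), ← zpow_mul, mul_comm, ← mul_assoc, ← Nat.cast_mul, ← hkm, zpow_mul, zpow_natCast,
        pow_orderOf_eq_one, one_zpow]
    · have h2 : orderOf (x ^ (((q ^ k : ℕ) : ℤ) * Int.gcdB m (q ^ k : ℕ))) ∣ orderOf (x ^ (q ^ k)) := by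
        rw [zpow_mul, zpow_natCast]
        exact orderOf_dvd_of_mem_zpowers (Subgroup.zpow_mem_zpowers _ _)
      refine Nat.Coprime.coprime_dvd_left h2 ?_
      rw [orderOf_pow_of_dvd (pow_ne_zero k hq.ne_zero) ⟨m, hkm⟩, hkm, Nat.mul_div_cancel_left _ (pow_pos hq.pos k)]
      exact ((Nat.Prime.coprime_iff_not_dvd hq).mpr hm).symm
  have hBn : B.Normal := ⟨fun b hb g => by
    rw [hB] at hb ⊢
    exact ⟨hD.conj_mem b hb.1 g, by rw [show g * b * g⁻¹ = (MulAut.conj g).toMonoidHom b from rfl, orderOf_injective _ (MulAut.conj g).injective]; exact hb.2⟩⟩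
  have hA'n : A'.Normal := ⟨fun b hb g => by
    rw [hA'] at hb ⊢
    exact ⟨(inferInstance : A.Normal).conj_mem b hb.1 g, by rw [show g * b * g⁻¹ = (MulAut.conj g).toMonoidHom b from rfl, orderOf_injective _ (MulAut.conj g).injective]; exact hb.2⟩⟩
  have hBD : B ≤ D := fun x hx => ((hB x).mp hx).1
  have hCD : C ≤ D := fun x hx => ((hC x).mp hx).1
  have hDX : D ≤ X := hXA ▸ inf_le_left
  have hCB : ∀ x, x ∈ C → (orderOf x).Coprime q → x = 1 := by
    intro x hx hxq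
    obtain ⟨k, hk⟩ := ((hC x).mp hx).2
    exact orderOf_eq_one_iff.mp (Nat.eq_one_of_dvd_coprimes (hxq.symm.pow_left k) (orderOf_dvd_of_pow_eq_one hk) dvd_rfl)
  have hBlt : Nat.card B < n := by
    rw [← hn]
    refine lt_of_le_of_ne (Nat.le_of_dvd Nat.card_pos (Subgroup.card_dvd_of_le hBD)) fun e => ?_
    have hBD' := Subgroup.eq_of_le_of_card_ge hBD e.ge
    obtain ⟨d, hd⟩ := exists_prime_orderOf_dvd_card' q hqd
    have := ((hB d).mp (hBD' ▸ d.2)).2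
    rw [Subgroup.orderOf_coe, hd, Nat.coprime_self] at this
    exact hq.ne_one this
  -- the local complement
  obtain ⟨U₀, K₀, hAU₀, hK₀, hU₀, hU₀i⟩ : ∃ U₀ K₀ : Subgroup G, A ≤ U₀ ∧ K₀ ⊓ A = ⊥ ∧ K₀ ⊔ A = U₀ ∧ ¬ q ∣ U₀.index := by
    by_cases hqA : q ∣ A.index
    · obtain ⟨S, K₀, h1, h2⟩ := hloc q hq hqA
      refine ⟨_, K₀, h2 ▸ le_sup_right, h1, h2, ?_⟩
      rw [Subgroup.index_comap_of_surjective _ (QuotientGroup.mk'_surjective A)]
      exact S.not_dvd_index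
    · exact ⟨A, ⊥, le_rfl, bot_inf_eq A, bot_sup_eq A, hqA⟩
  haveI := hBn
  haveI := hA'n
  let S : CfsgLib.GroupB.Gaschutz.Setting X :=
    { K := C.subgroupOf X, U := U₀.subgroupOf X, A := (K₀ ⊔ A').subgroupOf X
      normal := ⟨fun c hc g => by
        rw [Subgroup.mem_subgroupOf, hC] at hc ⊢
        refine ⟨hD.conj_mem _ hc.1 g, hc.2.imp fun k hk => ?_⟩
        show ((g : G) * (c : G) * (g : G)⁻¹) ^ q ^ k = 1
        rw [conj_pow, hk]; group⟩
      comm := fun a ha b hb => Subtype.ext (hAc _ (hDA (hCD ha)) _ (hDA (hCD hb)))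
      hKU := fun c hc => Subgroup.mem_subgroupOf.mpr (hAU₀ (hDA (hCD hc)))
      hAU := fun c hc => by
        rw [Subgroup.mem_subgroupOf] at hc ⊢
        exact (sup_le (hU₀ ▸ le_sup_left) ((show A' ≤ A from fun a ha => ((hA' a).mp ha).1).trans hAU₀)) hc
      disj := by
        rw [eq_bot_iff]
        rintro x ⟨hx1, hx2⟩
        have hx1' : (x : G) ∈ K₀ ⊔ A' := Subgroup.mem_subgroupOf.mp hx1
        have hx2' : (x : G) ∈ C := Subgroup.mem_subgroupOf.mp hx2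
        obtain ⟨k, hk, a, ha, e⟩ := Subgroup.mem_sup_of_normal_right.mp hx1'
        have hk1 : k ∈ K₀ ⊓ A := ⟨hk, by
          rw [show k = (x : G) * a⁻¹ by rw [← e, mul_inv_cancel_right]]
          exact A.mul_mem (hDA (hCD hx2')) (A.inv_mem ((hA' a).mp ha).1)⟩
        rw [hK₀, Subgroup.mem_bot] at hk1
        rw [hk1, one_mul] at e
        exact Subgroup.mem_bot.mpr (Subtype.ext (hCB _ hx2' (e ▸ ((hA' a).mp ha).2)))
      gen := fun u hu => by
        have hu' : (u : G) ∈ K₀ ⊔ A := hU₀.symm ▸ Subgroup.mem_subgroupOf.mp hu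
        obtain ⟨k, hk, a, ha, e⟩ := Subgroup.mem_sup_of_normal_right.mp hu'
        obtain ⟨c, b, hcb, hcA, hbA, hc, hb⟩ := hsplit A a ha
        have hcA' : k * c * k⁻¹ ∈ A := (inferInstance : A.Normal).conj_mem c hcA k
        -- the `q`-component lies in `X`
        obtain ⟨j, hj⟩ := hc
        have hc' : ∃ j, (k * c * k⁻¹) ^ q ^ j = 1 := ⟨j, by rw [conj_pow, hj]; group⟩
        obtain ⟨z, hz⟩ : ∃ z : G, z = k * c * k⁻¹ := ⟨_, rfl⟩
        have hzD : z ∈ D := hfull z (hz ▸ hcA') q hq hqd (hz ▸ hc')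
        refine ⟨⟨z, hDX hzD⟩, Subgroup.mem_subgroupOf.mpr ((hC z).mpr ⟨hzD, hz ▸ hc'⟩),
          ⟨z⁻¹ * u, X.mul_mem (X.inv_mem (hDX hzD)) u.2⟩, Subgroup.mem_subgroupOf.mpr ?_, Subtype.ext (by simp)⟩
        show z⁻¹ * (u : G) ∈ K₀ ⊔ A'
        rw [hz, ← e, ← hcb, show (k * c * k⁻¹)⁻¹ * (k * (c * b)) = k * b by group]
        exact Subgroup.mul_mem_sup hk ((hA' b).mpr ⟨hbA, hb⟩) }
  have hidx : (Nat.card S.K).Coprime S.U.index := by
    have hCp : IsPGroup q C := fun c => ((hC c).mp c.2).2.imp fun k hk => Subtype.ext hk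
    obtain ⟨m, hm⟩ := hCp.exists_card_eq
    show (Nat.card (C.subgroupOf X)).Coprime (U₀.relIndex X)
    rw [Nat.card_congr (Subgroup.subgroupOfEquivOfLe (hCD.trans hDX)).toEquiv, hm]
    refine Nat.Coprime.pow_left m ((Nat.Prime.coprime_iff_not_dvd hq).mpr fun hd => hU₀i ?_)
    have h1 : U₀.relIndex X = U₀.index := by
      refine le_antisymm ?_ ?_
      · rw [← Subgroup.relIndex_top_right U₀]
        exact Subgroup.relIndex_le_of_le_right le_top (by rw [Subgroup.relIndex_top_right]; exact Subgroup.index_ne_zero_of_finite)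
      · refine Nat.card_le_card_of_surjective
          (Quotient.map' (Subtype.val : X → G) fun a b h => by rw [QuotientGroup.leftRel_apply] at h ⊢; exact h) ?_
        intro x
        induction x using Quotient.inductionOn' with
        | h g =>
          obtain ⟨x, hx, a, ha, e⟩ := hXgen g
          refine ⟨Quotient.mk'' ⟨x, hx⟩, Quotient.sound' ?_⟩
          rw [QuotientGroup.leftRel_apply]
          show x⁻¹ * g ∈ U₀
          rw [← e, inv_mul_cancel_left]; exact hAU₀ ha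
    exact h1 ▸ hd
  obtain ⟨H, hH, hHB⟩ := CfsgLib.GroupB.Gaschutz.exists_complement S hidx
  have hBH : B.subgroupOf X ≤ H := hHB _ inferInstance fun b hb => Subgroup.mem_subgroupOf.mpr
    (Subgroup.mem_sup_right ((hA' _).mpr ⟨hDA (hBD hb), ((hB _).mp hb).2⟩))
  refine ih _ hBlt B hBn (hBD.trans hDA) rfl (fun a ha r hr hrB hra => ?_) ⟨H.map X.subtype, ?_, ?_⟩
  · have haD := hfull a ha r hr (hrB.trans (Subgroup.card_dvd_of_le hBD)) hra
    refine (hB a).mpr ⟨haD, ?_⟩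
    obtain ⟨j, hj⟩ := hra
    refine Nat.Coprime.coprime_dvd_left (orderOf_dvd_of_pow_eq_one hj) (Nat.Coprime.pow_left j ?_)
    refine (Nat.coprime_primes hr hq).mpr fun e => ?_
    haveI := Fact.mk hr
    obtain ⟨y, hy⟩ := exists_prime_orderOf_dvd_card' r hrB
    have h5 := ((hB y).mp y.2).2
    rw [Subgroup.orderOf_coe, hy, e, Nat.coprime_self] at h5
    exact hq.ne_one h5
  · refine le_antisymm ?_ fun b hb => ⟨⟨⟨b, hDX (hBD hb)⟩, hBH (Subgroup.mem_subgroupOf.mpr hb), rfl⟩, hDA (hBD hb)⟩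
    rintro _ ⟨⟨x, hxH, rfl⟩, hxA⟩
    have hxD : (x : G) ∈ D := hXA ▸ ⟨x.2, hxA⟩
    obtain ⟨c, b, hcb, hcD, hbD, hc, hb⟩ := hsplit D _ hxD
    have hbB : b ∈ B := (hB b).mpr ⟨hbD, hb⟩
    have hcH : (⟨c, hDX hcD⟩ : X) ∈ H := by
      have e : (⟨c, hDX hcD⟩ : X) = x * (⟨b, hDX hbD⟩ : X)⁻¹ := Subtype.ext (by
        show c = (x : G) * b⁻¹
        rw [← hcb, mul_inv_cancel_right])
      rw [e]
      exact H.mul_mem hxH (H.inv_mem (hBH (Subgroup.mem_subgroupOf.mpr hbB)))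
    have h1 := Subgroup.disjoint_def.mp hH.disjoint (Subgroup.mem_subgroupOf.mpr ((hC c).mpr ⟨hcD, hc⟩)) hcH
    have hc1 : c = 1 := congrArg Subtype.val h1
    show (x : G) ∈ B
    rw [← hcb, hc1, one_mul]
    exact hbB
  · intro g
    obtain ⟨x, hx, a, ha, e⟩ := hXgen g
    obtain ⟨⟨⟨c, hc⟩, ⟨y, hy⟩⟩, hcy⟩ := hH.2 ⟨x, hx⟩
    have e' : (c : G) * (y : G) = x := congrArg Subtype.val hcy
    have hcA : (c : G) ∈ A := hDA (hCD hc)
    refine ⟨(y : G), ⟨y, hy, rfl⟩, (y : G)⁻¹ * c * y * a, A.mul_mem ?_ ha, ?_⟩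
    · simpa using (inferInstance : A.Normal).conj_mem _ hcA (y : G)⁻¹
    · rw [← e, ← e']; group

end Cfsg.Agent.S4217
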