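import Cfsg.Statements.S4218
import Cfsg.Agent.Lib.GroupB.AutPGroup
import Cfsg.Agent.Lib.PSolvable

set_option autoImplicit false
open Cfsg

namespace Cfsg.Agent.S4218
open scoped commutatorElement

theorem frattini_equiv {A B : Type*} [Group A] [Group B] (e : A ≃* B) (a : A) : e a ∈ frattini B ↔ a ∈ frattini A := by
  constructor
  · intro h
    have := frattini_le_comap_frattini_of_surjective (φ := e.symm.toMonoidHom) e.symm.surjective h
    simpa using this
  · exact fun h => frattini_le_comap_frattini_of_surjective (φ := e.toMonoidHom) e.surjective h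


/-- Let `G` be a finite `p`-solvable group, `N₀ = O_{p'}(G)`, `P₁ = O_{p',p}(G)`, and let `F ≤ P₁` be the preimage of the Frattini subgroup of `P₁/N₀`. Then an element `g` of `G` induces the identity on `P₁/F` by conjugation (that is, `g x g⁻¹ x⁻¹ ∈ F` for all `x ∈ P₁`) if and only if `g ∈ P₁`: the group `G/P₁` acts faithfully on `P₁/F`. -/
theorem result {G : Type*} [Group G] [Finite G] {p : ℕ} [Fact p.Prime] (hG : Cfsg.IsPSolvable p G) (g : G) : (∀ x ∈ Cfsg.pPrimePCore p G, g * x * g⁻¹ * x⁻¹ ∈ ((frattini (↥(Cfsg.pPrimePCore p G) ⧸ (Cfsg.pPrimeCore p G).subgroupOf (Cfsg.pPrimePCore p G))).comap (QuotientGroup.mk' ((Cfsg.pPrimeCore p G).subgroupOf (Cfsg.pPrimePCore p G)))).map (Cfsg.pPrimePCore p G).subtype) ↔ g ∈ Cfsg.pPrimePCore p G := by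
  classical
  haveI hKn := CfsgLib.PConstrained.pPrimeCore_normal (G := G) (p := p)
  set O := Cfsg.pPrimeCore p G with hO
  set π := QuotientGroup.mk' O with hπ
  have hπs : Function.Surjective π := QuotientGroup.mk'_surjective O
  set K := Cfsg.pPrimePCore p G with hK
  haveI := CfsgLib.Core.pCore_characteristic (G := G ⧸ O) p
  haveI hKnorm : K.Normal := by
    show ((Cfsg.pCore p (G ⧸ O)).comap π).Normal
    infer_instance
  set R := Cfsg.pCore p (G ⧸ O) with hR
  have hRp : IsPGroup p R := CfsgLib.Core.isPGroup_pCore p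
  haveI hRn : R.Normal := inferInstance
  let φ : K →* R := π.subgroupComap R
  have hφs : Function.Surjective φ := by
    rintro ⟨r, hr⟩
    obtain ⟨x, rfl⟩ := hπs r
    exact ⟨⟨x, hr⟩, rfl⟩
  have hφk : φ.ker = O.subgroupOf K := by
    ext x
    rw [MonoidHom.mem_ker, Subgroup.mem_subgroupOf, ← Subtype.coe_inj]
    exact QuotientGroup.eq_one_iff (x : G)
  haveI : (O.subgroupOf K).Normal := hKn.subgroupOf K
  let e : K ⧸ O.subgroupOf K ≃* R :=
    (QuotientGroup.quotientMulEquivOfEq hφk.symm).trans (QuotientGroup.quotientKerEquivOfSurjective φ hφs)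
  have key : ∀ x : K, ((x : G) ∈ (((frattini (↥K ⧸ O.subgroupOf K)).comap (QuotientGroup.mk' (O.subgroupOf K)))).map K.subtype) ↔ φ x ∈ frattini R := by
    intro x
    rw [← Subgroup.coe_subtype, Subgroup.mem_map_iff_mem K.subtype_injective, Subgroup.mem_comap, ← frattini_equiv e]
    exact Iff.rfl
  obtain ⟨hcomm, -⟩ := Cfsg.Agent.S0012.result p hRp
  constructor
  · intro hg
    let ρ : G ⧸ O →* MulAut R := MulAut.conjNormal
    let B : Subgroup (MulAut R) :=
      { carrier := {α | ∀ x : R, α x * x⁻¹ ∈ frattini R}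
        one_mem' := fun x => by simp
        mul_mem' := fun {α β} ha hb x => by
          show α (β x) * x⁻¹ ∈ frattini R
          have := Subgroup.mul_mem _ (ha (β x)) (hb x)
          simpa [mul_assoc] using this
        inv_mem' := fun {α} ha x => by
          have := Subgroup.inv_mem _ (ha (α.symm x))
          simpa using this }
    haveI hBn : B.Normal := ⟨fun α ha β x => by
      show β (α (β.symm x)) * x⁻¹ ∈ frattini R
      have h := frattini_le_comap_frattini_of_surjective (φ := β.toMonoidHom) β.surjective (ha (β.symm x))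
      simpa using h⟩
    haveI : Fintype R := Fintype.ofFinite R
    have hBp : IsPGroup p B := by
      obtain ⟨j, hj⟩ := (hRp.to_subgroup (frattini R)).exists_card_eq
      have hd := CfsgLib.GroupB.AutPGroup.card_dvd_of_trivial (b := (Fintype.equivFin R).symm) hRp (by
        rw [Equiv.range_eq_univ, Subgroup.closure_univ, top_sup_eq]) B fun α ha => ha
      rw [hj, ← pow_mul] at hd
      obtain ⟨i, -, hi⟩ := (Nat.dvd_prime_pow (Fact.out : p.Prime)).mp hd
      exact IsPGroup.of_card hi
    have hker : ρ.ker ≤ R := fun c hc => by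
      refine CfsgLib.PSolvable.charP (CfsgLib.PSolvable.map π hπs hG) (CfsgLib.Core.pPrimeCore_quotient_eq_bot p) ?_
      rw [Subgroup.mem_centralizer_iff]
      intro r hr
      have h := congrArg (fun α : MulAut R => ((α ⟨r, hr⟩ : R) : G ⧸ O)) (MonoidHom.mem_ker.mp hc)
      simp only [ρ, MulAut.conjNormal_apply, MulAut.one_apply] at h
      exact (mul_inv_eq_iff_eq_mul.mp h).symm
    have hA : IsPGroup p (B.comap ρ) := hBp.comap_of_ker_isPGroup ρ (hRp.to_le hker)
    have hgA : π g ∈ B.comap ρ := by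
      intro x
      obtain ⟨y, rfl⟩ := hφs x
      have hy : g * (y : G) * g⁻¹ * (y : G)⁻¹ ∈ K := K.mul_mem (hKnorm.conj_mem _ y.2 g) (K.inv_mem y.2)
      have h := (key ⟨_, hy⟩).mp (hg y y.2)
      convert h using 1
      refine Subtype.ext ?_
      show π g * π y * (π g)⁻¹ * (π y)⁻¹ = π (g * y * g⁻¹ * (y : G)⁻¹)
      simp [map_mul, map_inv]
    exact CfsgLib.Core.le_pCore inferInstance hA hgA
  · intro hg x hx
    have hy : g * x * g⁻¹ * x⁻¹ ∈ K := K.mul_mem (K.mul_mem (K.mul_mem hg hx) (K.inv_mem hg)) (K.inv_mem hx)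
    refine (key ⟨_, hy⟩).mpr (hcomm ?_)
    have : φ ⟨_, hy⟩ = ⁅φ ⟨g, hg⟩, φ ⟨x, hx⟩⁆ := by
      rw [← map_commutatorElement]; rfl
    rw [this, commutator_def]
    exact Subgroup.commutator_mem_commutator (Subgroup.mem_top _) (Subgroup.mem_top _)

end Cfsg.Agent.S4218
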