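import Cfsg.Statements.S4219
import Mathlib

set_option autoImplicit false
open Cfsg

namespace Cfsg.Agent.S4219

/-- Let a finite group `G` act `t`-fold transitively on a finite set, let `H` be the stabilizer of `t` distinct points and `P` a Sylow `p`-subgroup of `H`. Then the normalizer of `P` in `G` is `t`-fold transitive on the fixed points of `P`: any `t` distinct fixed points of `P` can be carried to any other `t` distinct fixed points of `P` by an element normalizing `P`. -/
theorem result {G : Type*} [Group G] [Finite G] {α : Type*} [Fintype α] [MulAction G α] {t : ℕ} (hG : MulAction.IsMultiplyPretransitive G α t) (x : Fin t ↪ α) {p : ℕ} [Fact p.Prime] (P : Sylow p (MulAction.stabilizer G x)) (a b : Fin t ↪ α) (ha : ∀ i, a i ∈ MulAction.fixedPoints ((P : Subgroup (MulAction.stabilizer G x)).map (MulAction.stabilizer G x).subtype) α) (hb : ∀ i, b i ∈ MulAction.fixedPoints ((P : Subgroup (MulAction.stabilizer G x)).map (MulAction.stabilizer G x).subtype) α) : ∃ g ∈ Subgroup.normalizer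 ((((P : Subgroup (MulAction.stabilizer G x)).map (MulAction.stabilizer G x).subtype) : Subgroup G) : Set G), g • a = b := by
  classical
  set P' : Subgroup G := (P : Subgroup (MulAction.stabilizer G x)).map (MulAction.stabilizer G x).subtype with hP'
  haveI : MulAction.IsPretransitive G (Fin t ↪ α) := hG
  obtain ⟨g, hg⟩ := MulAction.exists_smul_eq G a b
  obtain ⟨u, hu⟩ := MulAction.exists_smul_eq G x b
  set Hb := MulAction.stabilizer G b with hHb
  have h1 : P' ≤ Hb := by
    intro s hs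
    rw [hHb, MulAction.mem_stabilizer_iff]
    ext i
    exact hb i ⟨s, (show s ∈ P' from hs)⟩
  have h2 : P'.map (MulAut.conj g).toMonoidHom ≤ Hb := by
    rintro _ ⟨s, hs, rfl⟩
    show g * s * g⁻¹ ∈ Hb
    rw [hHb, MulAction.mem_stabilizer_iff, mul_smul, mul_smul, ← hg, inv_smul_smul]
    congr 1
    ext i
    exact ha i ⟨s, (show s ∈ P' from hs)⟩
  have hcard : ∀ K : Subgroup G, K ≤ Hb → Nat.card K = Nat.card P' → ∀ (R : Sylow p Hb), Nat.card (R : Subgroup Hb) = Nat.card (K.subgroupOf Hb) := by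
    intro K hK hKc R
    have e : Nat.card Hb = Nat.card (MulAction.stabilizer G x) := by
      rw [hHb, ← hu, MulAction.stabilizer_smul_eq_stabilizer_map_conj]
      exact (Nat.card_congr ((MulAction.stabilizer G x).equivMapOfInjective _ (MulAut.conj u).injective).toEquiv).symm
    rw [R.card_eq_multiplicity, Nat.card_congr (Subgroup.subgroupOfEquivOfLe hK).toEquiv, hKc, hP',
      ← Nat.card_congr ((P : Subgroup (MulAction.stabilizer G x)).equivMapOfInjective _ (MulAction.stabilizer G x).subtype_injective).toEquiv, P.card_eq_multiplicity, e]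
  have hp : ∀ K : Subgroup G, K ≤ Hb → Nat.card K = Nat.card P' → ∃ R : Sylow p Hb, (R : Subgroup Hb) = K.subgroupOf Hb := by
    intro K hK hKc
    have hKp : IsPGroup p (K.subgroupOf Hb) := by
      obtain ⟨n, hn⟩ := (P.2.map (MulAction.stabilizer G x).subtype).exists_card_eq
      exact IsPGroup.of_card (n := n) (by rw [Nat.card_congr (Subgroup.subgroupOfEquivOfLe hK).toEquiv, hKc, hP', hn])
    obtain ⟨R, hR⟩ := hKp.exists_le_sylow
    exact ⟨R, (Subgroup.eq_of_le_of_card_ge hR (hcard K hK hKc R).le).symm⟩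
  obtain ⟨R1, hR1⟩ := hp P' h1 rfl
  obtain ⟨R2, hR2⟩ := hp _ h2 (Nat.card_congr (P'.equivMapOfInjective _ (MulAut.conj g).injective).toEquiv).symm
  obtain ⟨k, hk⟩ := MulAction.exists_smul_eq Hb R2 R1
  refine ⟨(k : G) * g, ?_, ?_⟩
  · rw [Subgroup.mem_normalizer_iff_map_conj_eq]
    refine Subgroup.eq_of_le_of_card_ge ?_ (Nat.card_congr (P'.equivMapOfInjective _ (MulAut.conj ((k : G) * g)).injective).toEquiv).le
    rintro _ ⟨s, hs, rfl⟩
    have h3 : (⟨g * s * g⁻¹, h2 ⟨s, hs, rfl⟩⟩ : Hb) ∈ (R2 : Subgroup Hb) := by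
      rw [hR2]; exact Subgroup.mem_subgroupOf.mpr ⟨s, hs, rfl⟩
    have h4 : k * ⟨g * s * g⁻¹, h2 ⟨s, hs, rfl⟩⟩ * k⁻¹ ∈ (R1 : Subgroup Hb) := hk ▸ ⟨_, h3, rfl⟩
    rw [hR1, Subgroup.mem_subgroupOf] at h4
    show (k : G) * g * s * ((k : G) * g)⁻¹ ∈ P'
    have e : (k : G) * g * s * ((k : G) * g)⁻¹ = (k : G) * (g * s * g⁻¹) * (k : G)⁻¹ := by group
    rw [e]
    exact h4
  · rw [mul_smul, hg]
    exact MulAction.mem_stabilizer_iff.mp k.2

end Cfsg.Agent.S4219
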