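import Cfsg.Statements.S4222

set_option autoImplicit false
open Cfsg

namespace Cfsg.Agent.S4222

/-- If a normal subgroup `N` of a finite group is complete (its centre is trivial and every automorphism of `N` is inner), then the group is the internal direct product of `N` and the centralizer of `N`: the centralizer is a complement to `N`. -/
theorem result {T : Type*} [Group T] [Finite T] (N : Subgroup T) [N.Normal] (hz : Subgroup.center ↥N = ⊥) (ha : Function.Surjective (MulAut.conj : ↥N →* MulAut ↥N)) : (Subgroup.centralizer (N : Set T)).IsComplement' N := by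
  haveI : (Subgroup.centralizer (N : Set T)).Normal := by
    refine ⟨fun c hc g => Subgroup.mem_centralizer_iff.mpr fun n hn => ?_⟩
    have h := Subgroup.mem_centralizer_iff.mp hc (g⁻¹ * n * g⁻¹⁻¹) (Subgroup.Normal.conj_mem ‹N.Normal› n hn g⁻¹)
    calc n * (g * c * g⁻¹) = g * ((g⁻¹ * n * g⁻¹⁻¹) * c) * g⁻¹ := by group
      _ = g * (c * (g⁻¹ * n * g⁻¹⁻¹)) * g⁻¹ := by rw [h]
      _ = g * c * g⁻¹ * n := by group
  have hd : Disjoint (Subgroup.centralizer (N : Set T)) N := by
    rw [Subgroup.disjoint_def]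
    intro x hxC hxN
    have : (⟨x, hxN⟩ : N) ∈ Subgroup.center ↥N :=
      Subgroup.mem_center_iff.mpr fun y => Subtype.ext (Subgroup.mem_centralizer_iff.mp hxC y y.2)
    rw [hz, Subgroup.mem_bot] at this
    exact congrArg Subtype.val this
  refine Subgroup.isComplement'_of_disjoint_and_mul_eq_univ hd ?_
  refine Set.eq_univ_of_forall fun t => ?_
  obtain ⟨n, hn⟩ := ha (MulAut.conjNormal t)
  refine ⟨t * (n : T)⁻¹, Subgroup.mem_centralizer_iff.mpr fun y hy => ?_, n, n.2, by simp⟩
  have h := congrArg (fun f : MulAut N => ((f (n⁻¹ * ⟨y, hy⟩ * n) : N) : T)) hn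
  simp only [MulAut.conj_apply, MulAut.conjNormal_apply, Subgroup.coe_mul, Subgroup.coe_inv] at h
  calc y * (t * (n : T)⁻¹) = ((n : T) * ((n : T)⁻¹ * y * n) * (n : T)⁻¹) * (t * (n : T)⁻¹) := by group
    _ = (t * ((n : T)⁻¹ * y * n) * t⁻¹) * (t * (n : T)⁻¹) := by rw [h]
    _ = t * (n : T)⁻¹ * y := by group

end Cfsg.Agent.S4222
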