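import Cfsg.Statements.S4223
import Mathlib.GroupTheory.QuotientGroup.Basic
import Mathlib.Algebra.Group.Pi.Lemmas
import Mathlib.Logic.Equiv.Fin.Basic
import Mathlib.Tactic

set_option autoImplicit false
open Cfsg

namespace Cfsg.Agent.S4223
universe u v

/-- Indecomposable: no nontrivial decomposition into two normal subgroups. -/
abbrev Indec (A : Type u) [Group A] : Prop :=
  Nontrivial A ∧ ∀ H K : Subgroup A, H.Normal → K.Normal → H ⊓ K = ⊥ → H ⊔ K = ⊤ → H = ⊥ ∨ K = ⊥

def IsNormalEnd {A : Type u} [Group A] (θ : A → A) : Prop := ∀ a x, θ (a * x * a⁻¹) = a * θ x * a⁻¹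

theorem fitting {A : Type u} [Group A] [Finite A] (hA : Indec A) (θ : A →* A) (hθ : IsNormalEnd θ) :
    Function.Bijective θ ∨ ∃ n : ℕ, ∀ x, (θ^[n]) x = 1 := by
  classical
  let pw : ℕ → (A →* A) := fun n => Nat.rec (MonoidHom.id A) (fun _ h => θ.comp h) n
  have hpw : ∀ n x, pw n x = (θ^[n]) x := by
    intro n
    induction n with
    | zero => intro x; rfl
    | succ n ih => intro x; rw [Function.iterate_succ_apply', ← ih]; rfl
  have hadd : ∀ m n x, pw (m + n) x = pw m (pw n x) := fun m n x => by
    rw [hpw, hpw, hpw, Function.iterate_add_apply]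
  have hnorm : ∀ n, IsNormalEnd (pw n) := by
    intro n
    induction n with
    | zero => intro a x; rfl
    | succ n ih => intro a x; show θ (pw n _) = a * θ (pw n x) * a⁻¹; rw [ih, hθ]
  obtain ⟨n, hn⟩ : ∃ n, ∀ k, Nat.card (pw n).range ≤ Nat.card (pw k).range := by
    have hs : (Set.range fun k => Nat.card (pw k).range).Nonempty := ⟨_, 0, rfl⟩
    obtain ⟨n, hn⟩ := Nat.sInf_mem hs
    exact ⟨n, fun k => hn.trans_le (Nat.sInf_le ⟨k, rfl⟩)⟩
  have hstab : ∀ y, y ∈ (pw n).range → y ∈ (pw (n + n)).range := by
    have hle : (pw (n + n)).range ≤ (pw n).range := by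
      rintro _ ⟨x, rfl⟩; exact ⟨pw n x, (hadd n n x).symm⟩
    rw [Subgroup.eq_of_le_of_card_ge hle (hn _)]
    exact fun y hy => hy
  haveI : (pw n).range.Normal := ⟨by rintro _ ⟨x, rfl⟩ a; exact ⟨a * x * a⁻¹, hnorm n a x⟩⟩
  let g : (pw n).range → (pw n).range := fun y => ⟨pw n y, _, rfl⟩
  have hg : Function.Injective g := by
    refine (Finite.injective_iff_surjective).mpr fun y => ?_
    obtain ⟨x, hx⟩ := hstab _ y.2
    exact ⟨⟨pw n x, x, rfl⟩, Subtype.ext ((hadd n n x).symm.trans hx)⟩
  refine (hA.2 (pw n).ker (pw n).range (MonoidHom.normal_ker _) ‹(pw n).range.Normal› ?_ ?_).elim (fun h => ?_) (fun h => ?_)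
  rotate_left 2
  · rcases n with _ | n
    · left
      refine Finite.surjective_iff_bijective.mp fun y => ?_
      have h0 : (pw 0).range = ⊤ := MonoidHom.range_eq_top.mpr Function.surjective_id
      have h1 : (pw 1).range = ⊤ := Subgroup.eq_top_of_le_card _ (by
        have := hn 1
        rwa [h0, Subgroup.card_top] at this)
      exact MonoidHom.range_eq_top.mp h1 y
    · left
      refine Finite.injective_iff_bijective.mp ((injective_iff_map_eq_one θ).mpr fun x hx => ?_)
      refine Subgroup.mem_bot.mp (h ▸ ?_)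
      show pw (n + 1) x = 1
      rw [hadd n 1]
      show pw n (θ x) = 1
      rw [hx, map_one]
  · exact Or.inr ⟨n, fun x => by rw [← hpw]; exact Subgroup.mem_bot.mp (h ▸ ⟨x, rfl⟩)⟩
  · rw [Subgroup.eq_bot_iff_forall]
    rintro y ⟨hy, hy'⟩
    have := @hg ⟨y, hy'⟩ 1 (Subtype.ext (by show pw n y = pw n 1; rw [map_one]; exact hy))
    exact congrArg Subtype.val this
  · rw [eq_top_iff]
    intro x _
    obtain ⟨y, hy⟩ := hstab _ ⟨x, rfl⟩
    rw [show x = x * (pw n y)⁻¹ * pw n y by group]
    refine Subgroup.mul_mem _ (Subgroup.mem_sup_left ?_) (Subgroup.mem_sup_right ⟨y, rfl⟩)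
    show pw n (x * (pw n y)⁻¹) = 1
    rw [map_mul, map_inv, ← hadd, hy, mul_inv_cancel]

theorem bijective_or {A : Type u} [Group A] [Finite A] (hA : Indec A) (θ ψ : A →* A) (hθ : IsNormalEnd θ)
    (hψ : IsNormalEnd ψ) (α : A ≃* A) (hα : ∀ x, α x = θ x * ψ x) (hαn : IsNormalEnd α) :
    Function.Bijective θ ∨ Function.Bijective ψ := by
  have hαs : IsNormalEnd α.symm := fun a x => α.injective (by rw [hαn, α.apply_symm_apply, α.apply_symm_apply])
  let θ' : A →* A := θ.comp α.symm.toMonoidHom
  let ψ' : A →* A := ψ.comp α.symm.toMonoidHom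
  have hsum : ∀ x, θ' x * ψ' x = x := fun x => by
    show θ (α.symm x) * ψ (α.symm x) = x
    rw [← hα, α.apply_symm_apply]
  have hθ' : IsNormalEnd θ' := fun a x => by show θ (α.symm _) = _; rw [hαs, hθ]; rfl
  have hψ' : IsNormalEnd ψ' := fun a x => by show ψ (α.symm _) = _; rw [hαs, hψ]; rfl
  rcases fitting hA θ' hθ' with h | ⟨n, hn⟩
  · left
    have h2 := h.comp α.bijective
    convert h2 using 1
    funext x
    show θ x = θ (α.symm (α x))
    rw [α.symm_apply_apply]
  rcases fitting hA ψ' hψ' with h | ⟨k, hk⟩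
  · right
    have h2 := h.comp α.bijective
    convert h2 using 1
    funext x
    show ψ x = ψ (α.symm (α x))
    rw [α.symm_apply_apply]
  exfalso
  haveI := hA.1
  obtain ⟨x, hx⟩ := exists_ne (1 : A)
  -- the last nontrivial iterate of `x` is killed by `θ'`
  classical
  have hex : ∃ n, (θ'^[n]) x = 1 := ⟨n, hn x⟩
  obtain ⟨l, hl⟩ : ∃ l, Nat.find hex = l + 1 := by
    rcases h : Nat.find hex with _ | l
    · have := Nat.find_spec hex
      rw [h] at this
      exact absurd this hx
    · exact ⟨l, rfl⟩
  set z := (θ'^[l]) x with hz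
  have hz1 : z ≠ 1 := Nat.find_min hex (by omega)
  have hθz : θ' z = 1 := by
    show θ' ((θ'^[l]) x) = 1
    rw [← Function.iterate_succ_apply' (f := ⇑θ'), Nat.succ_eq_add_one, ← hl]
    exact Nat.find_spec hex
  have hψz : ψ' z = z := by
    have := hsum z
    rwa [hθz, one_mul] at this
  exact hz1 ((Function.iterate_fixed hψz k).symm.trans (hk z))

theorem aux : ∀ (m : ℕ) {n : ℕ} {A : Fin m → Type u} {B : Fin n → Type v} [∀ i, Group (A i)] [∀ j, Group (B j)]
    [∀ i, Finite (A i)] [∀ j, Finite (B j)] (_ : ∀ i, Indec (A i)) (_ : ∀ j, Indec (B j))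
    (_ : ((i : Fin m) → A i) ≃* ((j : Fin n) → B j)), ∃ σ : Fin m ≃ Fin n, ∀ i, Nonempty (A i ≃* B (σ i))
  | 0, n, A, B, _, _, _, _, _, hB, e => by
    rcases n with _ | n
    · exact ⟨Equiv.refl _, fun i => i.elim0⟩
    · exfalso
      haveI := (hB 0).1
      obtain ⟨b, hb⟩ := exists_ne (1 : B 0)
      obtain ⟨t, ht⟩ := e.surjective (Pi.mulSingle 0 b)
      have : t = 1 := funext fun i => i.elim0
      rw [this, map_one] at ht
      exact hb (by have := congrFun ht 0; simpa using this.symm)
  | m + 1, n, A, B, _, _, _, _, hA, hB, e => by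
    classical
    haveI := (hA 0).1
    let f : A 0 →* ((j : Fin n) → B j) := e.toMonoidHom.comp (MonoidHom.mulSingle A 0)
    let g : ((j : Fin n) → B j) →* A 0 := (Pi.evalMonoidHom A 0).comp e.symm.toMonoidHom
    have hgf : ∀ x, g (f x) = x := fun x => by
      show (e.symm (e (Pi.mulSingle 0 x))) 0 = x
      rw [e.symm_apply_apply, Pi.mulSingle_eq_same]
    let P : Finset (Fin n) → (((j : Fin n) → B j) →* ((j : Fin n) → B j)) := fun S =>
      { toFun := fun t j => if j ∈ S then t j else 1
        map_one' := by funext j; simp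
        map_mul' := fun t u => by funext j; by_cases h : j ∈ S <;> simp [h] }
    let φ : Finset (Fin n) → (A 0 →* A 0) := fun S => g.comp ((P S).comp f)
    have hnorm : ∀ S, IsNormalEnd (φ S) := fun S a x => by
      show g (P S (f (a * x * a⁻¹))) = a * g (P S (f x)) * a⁻¹
      have : P S (f (a * x * a⁻¹)) = f a * P S (f x) * (f a)⁻¹ := by
        rw [map_mul f, map_mul f, map_inv f]
        funext j
        show (if j ∈ S then (f a * f x * (f a)⁻¹) j else 1) = f a j * (if j ∈ S then f x j else 1) * ((f a)⁻¹) j
        by_cases h : j ∈ S <;> simp [h]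
      rw [this, map_mul, map_mul, map_inv, hgf]
    have key : ∀ S, Function.Bijective (φ S) → ∃ j, Function.Bijective (φ {j}) := by
      intro S
      induction S using Finset.induction_on with
      | empty =>
        intro h
        exfalso
        obtain ⟨x, hx⟩ := exists_ne (1 : A 0)
        refine hx (h.1 ?_)
        have : ∀ y, φ ∅ y = 1 := fun y => by
          show g (P ∅ (f y)) = 1
          rw [show P ∅ (f y) = 1 from funext fun j => by simp [P], map_one]
        rw [this, this]
      | insert j S hj ih =>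
        intro h
        have hαeq : ∀ x, φ (insert j S) x = φ {j} x * φ S x := fun x => by
          show g (P _ (f x)) = g (P {j} (f x)) * g (P S (f x))
          rw [← map_mul]
          congr 1
          funext k
          show (if k ∈ insert j S then f x k else 1) = (if k ∈ ({j} : Finset (Fin n)) then f x k else 1) * (if k ∈ S then f x k else 1)
          by_cases hk : k = j
          · subst hk; simp [hj]
          · simp [hk]
        rcases bijective_or (hA 0) (φ {j}) (φ S) (hnorm _) (hnorm _) (MulEquiv.ofBijective (φ (insert j S)) h) hαeq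
          (hnorm _) with h' | h'
        · exact ⟨j, h'⟩
        · exact ih h'
    obtain ⟨j, hj⟩ := key Finset.univ (by
      have : ∀ y, φ Finset.univ y = y := fun y => by
        show g (P Finset.univ (f y)) = y
        rw [show P Finset.univ (f y) = f y from funext fun k => by simp [P], hgf]
      exact ⟨fun x y h => by rwa [this, this] at h, fun y => ⟨y, this y⟩⟩)
    let q : A 0 →* B j := (Pi.evalMonoidHom B j).comp f
    let r : B j →* A 0 := g.comp (MonoidHom.mulSingle B j)
    have hrq : ∀ x, r (q x) = φ {j} x := fun x => by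
      show g (Pi.mulSingle j (f x j)) = g (P {j} (f x))
      congr 1
      funext k
      show _ = if k ∈ ({j} : Finset (Fin n)) then f x k else 1
      by_cases hk : k = j
      · subst hk; simp
      · simp [hk, Pi.mulSingle_eq_of_ne hk]
    have hqi : Function.Injective q := fun x y h => hj.1 (by rw [← hrq, ← hrq, h])
    haveI : q.range.Normal := ⟨by
      rintro _ ⟨x, rfl⟩ b
      let t := e.symm (Pi.mulSingle j b)
      refine ⟨t 0 * x * (t 0)⁻¹, ?_⟩
      have h1 : (Pi.mulSingle 0 (t 0 * x * (t 0)⁻¹) : (i : Fin (m + 1)) → A i) = t * Pi.mulSingle 0 x * t⁻¹ := by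
        funext i
        by_cases hi : i = 0
        · subst hi; simp
        · simp [Pi.mulSingle_eq_of_ne hi]
      show (e (Pi.mulSingle 0 (t 0 * x * (t 0)⁻¹))) j = b * (e (Pi.mulSingle 0 x)) j * b⁻¹
      rw [h1, map_mul, map_mul, map_inv, e.apply_symm_apply]
      simp⟩
    have hqs : Function.Surjective q := by
      refine ((hB j).2 q.range r.ker inferInstance inferInstance ?_ ?_).elim (fun h => ?_) (fun h => ?_)
      rotate_left 2
      · exfalso
        obtain ⟨x, hx⟩ := exists_ne (1 : A 0)
        exact hx (hqi (by rw [map_one]; exact Subgroup.mem_bot.mp (h ▸ ⟨x, rfl⟩)))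
      · intro b
        obtain ⟨x, hx⟩ := hj.2 (r b)
        refine ⟨x, ?_⟩
        have : b * (q x)⁻¹ ∈ r.ker := by
          rw [MonoidHom.mem_ker, map_mul, map_inv, hrq, hx, mul_inv_cancel]
        rw [h, Subgroup.mem_bot, mul_inv_eq_one] at this
        exact this.symm
      · rw [Subgroup.eq_bot_iff_forall]
        rintro _ ⟨⟨x, rfl⟩, hx⟩
        have : φ {j} x = φ {j} 1 := by rw [← hrq, map_one]; exact hx
        rw [hj.1 this, map_one]
      · rw [eq_top_iff]
        intro b _
        obtain ⟨x, hx⟩ := hj.2 (r b)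
        rw [show b = b * (q x)⁻¹ * q x by group]
        refine Subgroup.mul_mem _ (Subgroup.mem_sup_right ?_) (Subgroup.mem_sup_left ⟨x, rfl⟩)
        rw [MonoidHom.mem_ker, map_mul, map_inv, hrq, hx, mul_inv_cancel]
    rcases n with _ | n
    · exact j.elim0
    -- the remaining factors
    let ins : ((k : Fin n) → B (j.succAbove k)) →* ((k : Fin (n + 1)) → B k) :=
      { toFun := fun u => j.insertNth (α := B) 1 u
        map_one' := funext fun k => by
          induction k using Fin.succAboveCases j with
          | x => simp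
          | p i => simp
        map_mul' := fun u w => funext fun k => by
          induction k using Fin.succAboveCases j with
          | x => simp
          | p i => simp }
    let ρ : ((i : Fin (m + 1)) → A i) →* ((i : Fin m) → A i.succ) :=
      { toFun := fun t i => t i.succ
        map_one' := rfl
        map_mul' := fun _ _ => rfl }
    let Λ : ((k : Fin n) → B (j.succAbove k)) →* ((i : Fin m) → A i.succ) := ρ.comp (e.symm.toMonoidHom.comp ins)
    have hsingle : ∀ t : (i : Fin (m + 1)) → A i, ρ t = 1 → t = Pi.mulSingle 0 (t 0) := fun t ht => funext fun i => by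
      induction i using Fin.cases with
      | zero => simp
      | succ i => rw [Pi.mulSingle_eq_of_ne (Fin.succ_ne_zero i)]; exact congrFun ht i
    have hΛ : Function.Bijective Λ := by
      constructor
      · refine (injective_iff_map_eq_one Λ).mpr fun u hu => ?_
        have h1 : e.symm (ins u) = Pi.mulSingle 0 ((e.symm (ins u)) 0) := hsingle _ hu
        have h2 : ins u = f ((e.symm (ins u)) 0) := by
          show ins u = e (Pi.mulSingle 0 ((e.symm (ins u)) 0))
          rw [← h1, e.apply_symm_apply]
        have h3 : (e.symm (ins u)) 0 = 1 := hqi (by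
          rw [map_one]
          show f _ j = 1
          rw [← h2]
          show j.insertNth (α := B) 1 u j = 1
          simp)
        rw [h3, map_one] at h2
        funext k
        have := congrFun h2 (j.succAbove k)
        simpa [ins] using this
      · intro w
        let t := e (Fin.cons (α := A) 1 w)
        obtain ⟨a, ha⟩ := hqs (t j)
        let t' := t * (f a)⁻¹
        refine ⟨fun k => t' (j.succAbove k), ?_⟩
        have hins : ins (fun k => t' (j.succAbove k)) = t' := funext fun k => by
          show j.insertNth (α := B) 1 (fun k => t' (j.succAbove k)) k = t' k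
          induction k using Fin.succAboveCases j with
          | x =>
            simp only [Fin.insertNth_apply_same]
            show 1 = t j * ((f a) j)⁻¹
            rw [show f a j = t j from ha, mul_inv_cancel]
          | p i => simp
        show ρ (e.symm (ins _)) = w
        rw [hins]
        show ρ (e.symm (e (Fin.cons (α := A) 1 w) * (e (Pi.mulSingle 0 a))⁻¹)) = w
        rw [map_mul, map_inv, e.symm_apply_apply, e.symm_apply_apply]
        funext i
        show Fin.cons (α := A) 1 w i.succ * ((Pi.mulSingle 0 a : (i : Fin (m + 1)) → A i) i.succ)⁻¹ = w i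
        rw [Pi.mulSingle_eq_of_ne (Fin.succ_ne_zero i), inv_one, mul_one, Fin.cons_succ]
    obtain ⟨σ, hσ⟩ := aux m (A := fun i => A i.succ) (B := fun k => B (j.succAbove k)) (fun i => hA _) (fun k => hB _)
      (MulEquiv.ofBijective Λ hΛ).symm
    refine ⟨(finSuccEquiv m).trans ((Equiv.optionCongr σ).trans (finSuccEquiv' j).symm), fun i => ?_⟩
    induction i using Fin.cases with
    | zero =>
      rw [show ((finSuccEquiv m).trans ((Equiv.optionCongr σ).trans (finSuccEquiv' j).symm)) 0 = j by simp]
      exact ⟨MulEquiv.ofBijective q ⟨hqi, hqs⟩⟩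
    | succ i =>
      rw [show ((finSuccEquiv m).trans ((Equiv.optionCongr σ).trans (finSuccEquiv' j).symm)) i.succ = j.succAbove (σ i) by simp]
      exact hσ i


/-- If a finite group is isomorphic both to a direct product of `m` directly indecomposable nontrivial groups and to a direct product of `n` such groups (a group is directly indecomposable when it is not the internal direct product of two nontrivial normal subgroups), then `m = n` and the factors are isomorphic in pairs after a suitable matching. -/
theorem result {m n : ℕ} {A : Fin m → Type*} {B : Fin n → Type*} [∀ i, Group (A i)] [∀ j, Group (B j)] [∀ i, Finite (A i)] [∀ j, Finite (B j)] (hA : ∀ i, Nontrivial (A i) ∧ ∀ H K : Subgroup (A i), H.Normal → K.Normal → H ⊓ K = ⊥ → H ⊔ K = ⊤ → H = ⊥ ∨ K = ⊥) (hB : ∀ j, Nontrivial (B j) ∧ ∀ H K : Subgroup (B j), H.Normal → K.Normal → H ⊓ K = ⊥ → H ⊔ K = ⊤ → H = ⊥ ∨ K = ⊥) (e : ((i : Fin m) → A i) ≃* ((j : Fin n) → B j)) : ∃ σ : Fin m ≃ Fin n, ∀ i, Nonempty (A i ≃* B (σ i)) := by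
  exact aux m hA hB e

end Cfsg.Agent.S4223
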