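import Cfsg.Statements.S4226
import Cfsg.Agent.S2807
import Cfsg.Agent.S5093
import Cfsg.Agent.Lib.Fusion.Tate
import Cfsg.Agent.Lib.Fusion.YoshidaWreath

set_option autoImplicit false
set_option linter.style.haveILetI false
open Cfsg

namespace Cfsg.Agent.S4226

open scoped commutatorElement

variable {p : ℕ} [hp : Fact p.Prime]

/-- A translation of the fibres followed by a shift of the base. -/
def move (f : ZMod p → ZMod p) (c : ZMod p) : Equiv.Perm (ZMod p × ZMod p) where
  toFun x := (x.1 + f x.2, x.2 + c)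
  invFun x := (x.1 - f (x.2 - c), x.2 - c)
  left_inv x := by simp
  right_inv x := by simp

theorem move_mul (f g : ZMod p → ZMod p) (c d : ZMod p) :
    move f c * move g d = move (fun y => g y + f (y + d)) (d + c) := by
  refine Equiv.ext fun x => ?_
  simp [move, Prod.ext_iff, add_assoc]

theorem move_zero : move (0 : ZMod p → ZMod p) 0 = 1 := by
  refine Equiv.ext fun x => ?_
  simp [move]

theorem move_inv (f : ZMod p → ZMod p) (c : ZMod p) :
    (move f c)⁻¹ = move (fun y => -f (y - c)) (-c) := by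
  refine (eq_inv_of_mul_eq_one_left ?_).symm
  rw [move_mul]
  convert move_zero (p := p) using 2
  · funext y; simp
  · simp

variable (p) in
/-- The wreath product of two groups of order `p`, acting on `p²` points. -/
def wreath : Subgroup (Equiv.Perm (ZMod p × ZMod p)) where
  carrier := {e | ∃ f c, e = move f c}
  one_mem' := ⟨0, 0, move_zero.symm⟩
  mul_mem' := by rintro _ _ ⟨f, c, rfl⟩ ⟨g, d, rfl⟩; exact ⟨_, _, move_mul f g c d⟩
  inv_mem' := by rintro _ ⟨f, c, rfl⟩; exact ⟨_, _, move_inv f c⟩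

theorem pow_move (f : ZMod p → ZMod p) (c : ZMod p) :
    ∀ n : ℕ, ∃ g, (move f c) ^ n = move g (n • c) := by
  intro n
  induction n with
  | zero => exact ⟨0, by rw [pow_zero, zero_smul, move_zero]⟩
  | succ n ih =>
    obtain ⟨g, hg⟩ := ih
    refine ⟨fun y => f y + g (y + c), ?_⟩
    rw [pow_succ, hg, move_mul, succ_nsmul']

theorem pow_fibre (f : ZMod p → ZMod p) : ∀ n : ℕ, (move f 0) ^ n = move (n • f) 0 := by
  intro n
  induction n with
  | zero => rw [pow_zero, zero_smul, move_zero]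
  | succ n ih =>
    rw [pow_succ, ih, move_mul]
    congr 1
    · funext y; simp [succ_nsmul, add_comm]; ring
    · simp

theorem wreath_isPGroup : IsPGroup p ↥(wreath p) := by
  rintro ⟨_, f, c, rfl⟩
  refine ⟨2, Subtype.ext ?_⟩
  obtain ⟨g, hg⟩ := pow_move f c p
  show (move f c) ^ p ^ 2 = 1
  rw [pow_two, pow_mul, hg, show p • c = 0 by simp, pow_fibre]
  convert move_zero (p := p) using 2
  funext y
  simp

theorem wreath_class : (wreath p).lowerCentralSeries (p - 1) ≠ ⊥ := by
  classical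
  intro h
  let φ : Module.End (ZMod p) (ZMod p → ZMod p) := 1 - CfsgLib.Fusion.Yoshida.shiftL
  have key : ∀ n (v : ZMod p → ZMod p), move ((φ ^ n) v) 0 ∈ (wreath p).lowerCentralSeries n := by
    intro n
    induction n with
    | zero => exact fun v => ⟨v, 0, rfl⟩
    | succ n ih =>
      intro v
      rw [pow_succ', Module.End.mul_apply, Subgroup.lowerCentralSeries_succ]
      have h1 : move (φ ((φ ^ n) v)) 0 = ⁅move ((φ ^ n) v) 0, move (0 : ZMod p → ZMod p) (-1)⁆ := by
        rw [commutatorElement_def, move_inv, move_inv, move_mul, move_mul, move_mul]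
        congr 1
        · funext y
          simp [φ, CfsgLib.Fusion.Yoshida.shiftL]
          ring
        · simp
      rw [h1]
      exact Subgroup.commutator_mem_commutator (ih v) ⟨0, -1, rfl⟩
  have h1 := key (p - 1) (fun y => if y = 0 then 1 else 0)
  rw [h, Subgroup.mem_bot, ← move_zero] at h1
  have h2 := congrArg (fun e : Equiv.Perm (ZMod p × ZMod p) => (e (0, 0)).1) h1
  simp only [move, Equiv.coe_fn_mk, zero_add, Pi.zero_apply] at h2
  rw [show (φ ^ (p - 1)) = ((1 : Module.End (ZMod p) (ZMod p → ZMod p)) - CfsgLib.Fusion.Yoshida.shiftL) ^ (p - 1) from rfl,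
    CfsgLib.Fusion.Yoshida.one_sub_shift_pow_pred] at h2
  rw [Finset.sum_eq_single 0 (fun k hk hk0 => if_neg fun e => hk0 ?_) (fun h0 => absurd (Finset.mem_range.mpr hp.out.pos) h0)] at h2
  · simp at h2
  · have := Nat.eq_zero_of_dvd_of_lt ((ZMod.natCast_eq_zero_iff k p).mp e) (Finset.mem_range.mp hk)
    exact this

theorem no_wreath_image {G : Type*} [Group G] {S : Subgroup G} (hcl : S.lowerCentralSeries (p - 1) = ⊥)
    (W : Sylow p (Equiv.Perm (Fin (p ^ 2)))) (f : ↥S →* ↥(W : Subgroup (Equiv.Perm (Fin (p ^ 2))))) :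
    ¬ Function.Surjective f := by
  intro hf
  have e : ZMod p × ZMod p ≃ Fin (p ^ 2) :=
    (Fintype.equivFinOfCardEq (by rw [Fintype.card_prod, ZMod.card, pow_two]))
  let ψ := e.permCongrHom.toMonoidHom
  obtain ⟨W', hW'⟩ := ((wreath_isPGroup (p := p)).map ψ).exists_le_sylow
  obtain ⟨g, hg⟩ := MulAction.exists_smul_eq (Equiv.Perm (Fin (p ^ 2))) W W'
  -- the class of `W` is at least `p`
  refine wreath_class (p := p) ?_
  have hS : (⊤ : Subgroup ↥S).lowerCentralSeries (p - 1) = ⊥ :=
    Subgroup.map_injective S.subtype_injective (by rw [Subgroup.top_subtype_lowerCentralSeries, hcl, Subgroup.map_bot])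
  have hW : (W : Subgroup (Equiv.Perm (Fin (p ^ 2)))).lowerCentralSeries (p - 1) = ⊥ := by
    have h1 := congrArg (Subgroup.map ((W : Subgroup (Equiv.Perm (Fin (p ^ 2)))).subtype.comp f)) hS
    rwa [Subgroup.map_lowerCentralSeries, Subgroup.map_bot, ← Subgroup.map_map, Subgroup.map_top_of_surjective f hf,
      ← MonoidHom.range_eq_map, Subgroup.range_subtype] at h1
  have hW2 : (W' : Subgroup (Equiv.Perm (Fin (p ^ 2)))).lowerCentralSeries (p - 1) = ⊥ := by
    have hmap : (W' : Subgroup (Equiv.Perm (Fin (p ^ 2)))) =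
        (W : Subgroup (Equiv.Perm (Fin (p ^ 2)))).map (MulAut.conj g).toMonoidHom := by rw [← hg]; rfl
    rw [hmap, ← Subgroup.map_lowerCentralSeries, hW, Subgroup.map_bot]
  refine Subgroup.map_injective (f := ψ) e.permCongrHom.injective ?_
  rw [Subgroup.map_lowerCentralSeries, Subgroup.map_bot, eq_bot_iff, ← hW2]
  exact Subgroup.lowerCentralSeries_mono _ hW'

/-- Let `P` be a Sylow `p`-subgroup of the finite group `G` with nilpotency class less than `p` (the term of index `p - 1` of the lower central series of `P`, indexed from `0`, is trivial), and let `N` be its normalizer. Then `O^p(N) = O^p(G) ∩ N`, where `O^p` denotes the subgroup generated by the elements of order prime to `p`; so the largest `p`-factor groups of `G` and of `N` are isomorphic. -/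
theorem result {G : Type*} [Group G] [Finite G] {p : ℕ} [Fact p.Prime] (P : Sylow p G) (hcl : (P : Subgroup G).lowerCentralSeries (p - 1) = ⊥) : Cfsg.pResidualOf p (Subgroup.normalizer ((P : Subgroup G) : Set G)) = Cfsg.pResidual p G ⊓ Subgroup.normalizer ((P : Subgroup G) : Set G) := by
  classical
  set N := Subgroup.normalizer ((P : Subgroup G) : Set G)
  have hfoc : (P : Subgroup G) ⊓ commutator G = (P : Subgroup G) ⊓ ⁅N, N⁆ := by
    by_contra hne
    obtain ⟨W, f, hf⟩ := Cfsg.Agent.S2807.result P hne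
    exact no_wreath_image hcl W f hf
  set F := Cfsg.groupFusionSystem (P : Subgroup G)
  have hhyp : F.hyperfocalSubgroup p = (P : Subgroup G) ⊓ Cfsg.pResidual p G := Cfsg.Agent.S5093.result p P
  set R := Cfsg.pResidualOf p N
  have hRN : R ≤ N := Subgroup.map_subtype_le _
  have hRG : R ≤ Cfsg.pResidual p G := by
    rintro _ ⟨x, hx, rfl⟩
    exact CfsgLib.PResidual.map_pResidual N.subtype ⟨x, hx, rfl⟩
  have hPN : (P : Subgroup G) ≤ N := Subgroup.le_normalizer
  let PN : Sylow p ↥N := P.subtype hPN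
  haveI : (Cfsg.pResidual p ↥N).Characteristic := CfsgLib.PResidual.pResidual_characteristic
  have hdec : ∀ a ∈ N, ∃ y ∈ (P : Subgroup G), ∃ r ∈ R, a = y * r := by
    intro a ha
    obtain ⟨y, hy, r, hr, e⟩ := Subgroup.mem_sup_of_normal_right.mp
      ((CfsgLib.PResidual.sup_pResidual_eq_top PN).symm ▸ Subgroup.mem_top (⟨a, ha⟩ : ↥N))
    exact ⟨y, hy, r, ⟨r, hr, rfl⟩, (congrArg Subtype.val e).symm⟩
  set B := R.subgroupOf (P : Subgroup G)
  haveI : B.Normal := ⟨fun b hb y => by
    obtain ⟨r, hr, e⟩ := Subgroup.mem_subgroupOf.mp hb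
    refine Subgroup.mem_subgroupOf.mpr ⟨⟨y, hPN y.2⟩ * r * ⟨y, hPN y.2⟩⁻¹,
      (inferInstance : (Cfsg.pResidual p ↥N).Normal).conj_mem r hr _, ?_⟩
    show (y : G) * (r : G) * (y : G)⁻¹ = _
    rw [show (r : G) = (b : G) from e]
    rfl⟩
  have hB : B ≤ CfsgLib.Biset.hypS p F := fun x hx =>
    Subgroup.mem_subgroupOf.mpr (hhyp ▸ ⟨x.2, hRG hx⟩)
  have hab : ∀ x ∈ Cfsg.pResidual p G, x ∈ (P : Subgroup G) → x ∈ commutator G := by
    intro x hx hxP
    have h1 : (orderOf (Abelianization.of x)).Coprime p := by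
      clear hxP
      induction hx using Subgroup.closure_induction with
      | mem y hy => exact Nat.Coprime.coprime_dvd_left (orderOf_map_dvd _ _) hy
      | one => simp
      | mul a b _ _ iha ihb =>
        rw [map_mul]
        exact Nat.Coprime.coprime_dvd_left (Commute.orderOf_mul_dvd_mul_orderOf (mul_comm _ _)) (Nat.Coprime.mul_left iha ihb)
      | inv a _ iha => rwa [map_inv, orderOf_inv]
    obtain ⟨k, hk⟩ := P.2 ⟨x, hxP⟩
    have h2 : orderOf (Abelianization.of x) ∣ p ^ k :=
      (orderOf_map_dvd _ _).trans (orderOf_dvd_of_pow_eq_one (congrArg Subtype.val hk))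
    rw [← Abelianization.ker_of, MonoidHom.mem_ker, ← orderOf_eq_one_iff]
    exact Nat.eq_one_of_dvd_coprimes (h1.pow_right k) dvd_rfl h2
  have hX : CfsgLib.Biset.hypS p F ≤ B ⊔ commutator ↥(P : Subgroup G) := by
    intro x hx
    have hx' : (x : G) ∈ (P : Subgroup G) ⊓ Cfsg.pResidual p G := hhyp ▸ Subgroup.mem_subgroupOf.mp hx
    have h1 : (x : G) ∈ ⁅N, N⁆ := (hfoc.le (⟨x.2, hab _ hx'.2 x.2⟩ : (x : G) ∈ (P : Subgroup G) ⊓ commutator G)).2
    rw [← Subgroup.map_subtype_commutator] at h1
    obtain ⟨z, hz, hzx⟩ := h1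
    let π := QuotientGroup.mk' (Cfsg.pResidual p ↥N)
    have hπ : (PN : Subgroup ↥N).map π = ⊤ := by
      have h2 := congrArg (Subgroup.map π) (CfsgLib.PResidual.sup_pResidual_eq_top PN)
      rwa [Subgroup.map_sup, Subgroup.map_top_of_surjective π (QuotientGroup.mk'_surjective _),
        QuotientGroup.map_mk'_self, sup_bot_eq] at h2
    have h3 : π z ∈ ⁅(PN : Subgroup ↥N), (PN : Subgroup ↥N)⁆.map π := by
      rw [Subgroup.map_commutator, hπ, ← commutator_def]
      have h4 := Subgroup.mem_map_of_mem π hz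
      rw [commutator_def, Subgroup.map_commutator, Subgroup.map_top_of_surjective π (QuotientGroup.mk'_surjective _)] at h4
      rwa [commutator_def]
    obtain ⟨c, hc, hcz⟩ := h3
    have hr : z * c⁻¹ ∈ Cfsg.pResidual p ↥N := by
      rw [← QuotientGroup.eq_one_iff, QuotientGroup.mk_mul, QuotientGroup.mk_inv, mul_inv_eq_one]
      exact hcz.symm
    have hc' : (c : G) ∈ (commutator ↥(P : Subgroup G)).map (P : Subgroup G).subtype := by
      rw [Subgroup.map_subtype_commutator]
      have h4 := Subgroup.mem_map_of_mem N.subtype hc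
      rw [Subgroup.map_commutator] at h4
      refine Subgroup.commutator_mono ?_ ?_ h4 <;>
      · rintro _ ⟨y, hy, rfl⟩
        exact hy
    obtain ⟨c', hc'', hcc⟩ := hc'
    have hb : x * c'⁻¹ ∈ B := Subgroup.mem_subgroupOf.mpr ⟨z * c⁻¹, hr, by
      show (z : G) * (c : G)⁻¹ = (x : G) * (c' : G)⁻¹
      rw [show (z : G) = (x : G) from hzx, show (c' : G) = (c : G) from hcc]⟩
    simpa using Subgroup.mul_mem_sup hb hc''
  have key := CfsgLib.Biset.hyp_le_of_focal_le p P.isPGroup' (CfsgLib.Fusion.group_isSaturated (S := P)) hB hX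
  refine le_antisymm (le_inf hRG hRN) fun a ha => ?_
  obtain ⟨y, hy, r, hr, rfl⟩ := hdec a ha.2
  have hy' : y ∈ Cfsg.pResidual p G := by simpa using (Cfsg.pResidual p G).mul_mem ha.1 ((Cfsg.pResidual p G).inv_mem (hRG hr))
  exact R.mul_mem (key (x := ⟨y, hy⟩) (Subgroup.mem_subgroupOf.mpr (hhyp ▸ ⟨hy, hy'⟩))) hr

end Cfsg.Agent.S4226
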