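import Cfsg.Statements.S4275
import Mathlib

set_option autoImplicit false
open Cfsg

namespace Cfsg.Agent.S4275

/-- Let G be a transitive group of permutations of a finite set Ω, let o ∈ Ω, and let α be an automorphism of G. Then α is induced by conjugation by a permutation of Ω normalizing G if and only if the image under α of the stabilizer of o fixes some point of Ω. -/
theorem result {Ω : Type*} [Fintype Ω] (G : Subgroup (Equiv.Perm Ω)) (htr : MulAction.IsPretransitive G Ω) (o : Ω) (α : G ≃* G) : (∃ σ : Equiv.Perm Ω, σ ∈ Subgroup.normalizer (G : Set (Equiv.Perm Ω)) ∧ ∀ g : G, ((α g : G) : Equiv.Perm Ω) = σ * (g : Equiv.Perm Ω) * σ⁻¹) ↔ ∃ ω : Ω, ∀ g ∈ (MulAction.stabilizer G o).map α.toMonoidHom, g • ω = ω := by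
  classical
  haveI := htr
  constructor
  · rintro ⟨σ, -, hσ⟩
    refine ⟨σ o, ?_⟩
    rintro _ ⟨g, hg, rfl⟩
    show ((α g : G) : Equiv.Perm Ω) (σ o) = σ o
    rw [hσ g]
    show σ ((g : Equiv.Perm Ω) (σ.symm (σ o))) = σ o
    rw [Equiv.symm_apply_apply, show (g : Equiv.Perm Ω) o = o from MulAction.mem_stabilizer_iff.mp hg]
  · rintro ⟨ω, hω⟩
    choose r hr using fun x : Ω => MulAction.exists_smul_eq G o x
    let f : Ω → Ω := fun x => α (r x) • ω
    have hf : ∀ g : G, f (g • o) = α g • ω := by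
      intro g
      have h1 : g⁻¹ * r (g • o) ∈ MulAction.stabilizer G o := by
        rw [MulAction.mem_stabilizer_iff, mul_smul, hr, inv_smul_smul]
      have h2 := hω _ ⟨_, h1, rfl⟩
      rw [show α.toMonoidHom (g⁻¹ * r (g • o)) = (α g)⁻¹ * α (r (g • o)) by simp, mul_smul, inv_smul_eq_iff] at h2
      exact h2
    have hsurj : Function.Surjective f := fun y => by
      obtain ⟨g, hg⟩ := MulAction.exists_smul_eq G ω y
      exact ⟨α.symm g • o, by rw [hf, MulEquiv.apply_symm_apply, hg]⟩
    let σ : Equiv.Perm Ω := Equiv.ofBijective f ⟨Finite.injective_iff_surjective.mpr hsurj, hsurj⟩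
    have hσ : ∀ g : G, ((α g : G) : Equiv.Perm Ω) * σ = σ * (g : Equiv.Perm Ω) := by
      intro g
      ext x
      obtain ⟨k, rfl⟩ := MulAction.exists_smul_eq G o x
      show α g • f (k • o) = f (g • k • o)
      rw [hf, ← mul_smul g k o, hf, map_mul, mul_smul]
    have hσ' : ∀ g : G, ((α g : G) : Equiv.Perm Ω) = σ * (g : Equiv.Perm Ω) * σ⁻¹ := fun g => by
      rw [← hσ g, mul_inv_cancel_right]
    refine ⟨σ, ?_, hσ'⟩
    rw [Subgroup.mem_normalizer_iff]
    intro x
    constructor
    · intro hx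
      rw [← hσ' ⟨x, hx⟩]; exact SetLike.coe_mem _
    · intro hx
      have h3 := hσ' (α.symm ⟨_, hx⟩)
      rw [MulEquiv.apply_symm_apply] at h3
      have : x = ((α.symm ⟨_, hx⟩ : G) : Equiv.Perm Ω) := mul_left_cancel (mul_right_cancel h3)
      rw [this]; exact SetLike.coe_mem _

end Cfsg.Agent.S4275
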