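import Cfsg.Statements.S4283
import Cfsg.Agent.Lib.GroupB.Frobenius

set_option autoImplicit false
open Cfsg

namespace Cfsg.Agent.S4283

/-- Let G be a finite group with centre Z and let K, H be abelian subgroups of G containing Z such that G/Z is a Frobenius group with complement H/Z and kernel K/Z. Then the conjugacy class sizes of G are exactly 1, [G : K] and [G : H], and these two indices are coprime. (This is the converse half of the characterization of finite groups whose conjugacy class sizes are exactly 1, m and n with m and n coprime.) -/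
theorem result {G : Type*} [Group G] [Finite G] (K H : Subgroup G) (hZK : Subgroup.center G ≤ K) (hZH : Subgroup.center G ≤ H) (hK : IsMulCommutative K) (hH : IsMulCommutative H) (hFrob : Cfsg.IsFrobeniusComplement (H.map (QuotientGroup.mk' (Subgroup.center G)))) (hker : Cfsg.frobeniusKernel (H.map (QuotientGroup.mk' (Subgroup.center G))) = (K.map (QuotientGroup.mk' (Subgroup.center G)) : Set (G ⧸ Subgroup.center G))) : Set.range (fun x : G => (Subgroup.centralizer ({x} : Set G)).index) = ({1, K.index, H.index} : Set ℕ) ∧ K.index.Coprime H.index := by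
  classical
  set Z := Subgroup.center G
  set π := QuotientGroup.mk' Z
  set Hb := H.map π
  have hπ := QuotientGroup.mk'_surjective Z
  have hkerπ : π.ker = Z := QuotientGroup.ker_mk' Z
  have hHmem : ∀ g : G, π g ∈ Hb ↔ g ∈ H := fun g => by
    refine ⟨fun ⟨h, hh, he⟩ => ?_, fun h => Subgroup.mem_map_of_mem π h⟩
    have : h⁻¹ * g ∈ Z := by rw [← hkerπ, MonoidHom.mem_ker, map_mul, map_inv, he, inv_mul_cancel]
    exact (H.mul_mem_cancel_left (H.inv_mem hh)).mp (hZH this)
  have hKmem : ∀ g : G, π g ∈ frobeniusKernel Hb ↔ g ∈ K := fun g => by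
    rw [hker]
    refine ⟨fun ⟨h, hh, he⟩ => ?_, fun h => Subgroup.mem_map_of_mem π h⟩
    have : h⁻¹ * g ∈ Z := by rw [← hkerπ, MonoidHom.mem_ker, map_mul, map_inv, he, inv_mul_cancel]
    exact (K.mul_mem_cancel_left (K.inv_mem hh)).mp (hZK this)
  have hdich : ∀ g : G, g ∉ K → ∃ c : G, c⁻¹ * g * c ∈ H ∧ c⁻¹ * g * c ∉ Z := fun g hg => by
    have h : π g ∉ frobeniusKernel Hb := fun h => hg ((hKmem g).mp h)
    rw [CfsgLib.GroupB.Frobenius.mem_kernel_iff, not_or, not_forall_not] at h
    obtain ⟨h1, c, hc⟩ := h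
    obtain ⟨c, rfl⟩ := hπ c
    refine ⟨c, (hHmem _).mp (by rw [map_mul, map_mul, map_inv]; exact hc), fun hz => h1 ?_⟩
    have h2 := Subgroup.Normal.conj_mem (inferInstance : Z.Normal) _ hz c
    rw [show c * (c⁻¹ * g * c) * c⁻¹ = g by group, ← hkerπ] at h2
    exact h2
  have hHZ : ∀ h ∈ H, h ∉ Z → Subgroup.centralizer ({h} : Set G) = H := fun h hh hhZ => by
    refine le_antisymm (fun g hg => (hHmem g).mp ?_) (fun g hg => Subgroup.mem_centralizer_singleton_iff.mpr
      (congrArg Subtype.val (hH.is_comm.comm (⟨g, hg⟩ : H) ⟨h, hh⟩)))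
    refine CfsgLib.GroupB.Frobenius.mem_of_conj_mem hFrob (Subgroup.mem_map_of_mem π hh) (fun e => hhZ (hkerπ ▸ e)) ?_
    rw [← map_inv, ← map_mul, ← map_mul, mul_assoc, ← Subgroup.mem_centralizer_singleton_iff.mp hg, inv_mul_cancel_left]
    exact Subgroup.mem_map_of_mem π hh
  have hKH : ∀ g ∈ K, g ∈ H → g ∈ Z := fun g hgK hgH => by
    rcases CfsgLib.GroupB.Frobenius.mem_kernel_iff.mp ((hKmem g).mpr hgK) with h | h
    · exact hkerπ ▸ h
    · exact absurd ((hHmem g).mpr hgH) (by simpa using h 1)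
  have hKZ : ∀ k ∈ K, k ∉ Z → Subgroup.centralizer ({k} : Set G) = K := fun k hk hkZ => by
    refine le_antisymm (fun g hg => ?_) (fun g hg => Subgroup.mem_centralizer_singleton_iff.mpr
      (congrArg Subtype.val (hK.is_comm.comm (⟨g, hg⟩ : K) ⟨k, hk⟩)))
    by_contra hgK
    obtain ⟨c, hc, hcZ⟩ := hdich g hgK
    have hg' := Subgroup.mem_centralizer_singleton_iff.mp hg
    have h1 : c⁻¹ * k * c ∈ Subgroup.centralizer ({c⁻¹ * g * c} : Set G) := Subgroup.mem_centralizer_singleton_iff.mpr (by
      calc c⁻¹ * k * c * (c⁻¹ * g * c) = c⁻¹ * (k * g) * c := by group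
        _ = _ := by rw [← hg']; group)
    rw [hHZ _ hc hcZ] at h1
    have hK' : c⁻¹ * k * c ∈ K := (hKmem _).mp (by
      rw [CfsgLib.GroupB.Frobenius.mem_kernel_iff]
      rcases CfsgLib.GroupB.Frobenius.mem_kernel_iff.mp ((hKmem k).mpr hk) with h | h
      · left; rw [map_mul, map_mul, h, mul_one, ← map_mul, inv_mul_cancel, map_one]
      · right
        intro d
        have h2 := h (π c * d)
        simpa [mul_assoc] using h2)
    have h3 := Subgroup.Normal.conj_mem (inferInstance : Z.Normal) _ (hKH _ hK' h1) c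
    rw [show c * (c⁻¹ * k * c) * c⁻¹ = k by group] at h3
    exact hkZ h3
  have hconj : ∀ c g : G, (Subgroup.centralizer ({c⁻¹ * g * c} : Set G)).index = (Subgroup.centralizer ({g} : Set G)).index := by
    intro c g
    have e : Subgroup.centralizer ({g} : Set G) = (Subgroup.centralizer ({c⁻¹ * g * c} : Set G)).comap (MulAut.conj c⁻¹).toMonoidHom := by
      ext u
      rw [Subgroup.mem_comap, Subgroup.mem_centralizer_singleton_iff, Subgroup.mem_centralizer_singleton_iff]
      show _ ↔ c⁻¹ * u * c⁻¹⁻¹ * (c⁻¹ * g * c) = c⁻¹ * g * c * (c⁻¹ * u * c⁻¹⁻¹)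
      constructor
      · intro h
        calc _ = c⁻¹ * (u * g) * c := by group
          _ = _ := by rw [h]; group
      · intro h
        calc u * g = c * (c⁻¹ * u * c⁻¹⁻¹ * (c⁻¹ * g * c)) * c⁻¹ := by group
          _ = _ := by rw [h]; group
    rw [e, Subgroup.index_comap_of_surjective _ (MulAut.conj c⁻¹).surjective]
  obtain ⟨N, hN, hNn, hc⟩ := CfsgLib.GroupB.Frobenius.exists_kernel_subgroup hFrob
  have hNK : N = K.map π := SetLike.coe_injective (hN.trans hker)
  have hcomapK : (K.map π).comap π = K := Subgroup.comap_map_eq_self (hkerπ.le.trans hZK)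
  have hcomapH : Hb.comap π = H := Subgroup.comap_map_eq_self (hkerπ.le.trans hZH)
  have hKi : K.index = Nat.card Hb := by
    rw [← hcomapK, Subgroup.index_comap_of_surjective _ hπ, ← hNK]; exact hc.symm.index_eq_card
  have hHi : H.index = Hb.index := by rw [← hcomapH, Subgroup.index_comap_of_surjective _ hπ]
  refine ⟨Set.ext fun n => ⟨?_, ?_⟩, by rw [hKi, hHi]; exact (CfsgLib.GroupB.Frobenius.coprime_index hFrob).symm⟩
  · rintro ⟨g, rfl⟩
    by_cases hgZ : g ∈ Z
    · left
      show (Subgroup.centralizer ({g} : Set G)).index = 1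
      rw [Subgroup.index_eq_one, eq_top_iff]
      exact fun u _ => Subgroup.mem_centralizer_singleton_iff.mpr (Subgroup.mem_center_iff.mp hgZ u)
    right
    by_cases hgK : g ∈ K
    · left; show (Subgroup.centralizer ({g} : Set G)).index = K.index; rw [hKZ g hgK hgZ]
    · right
      obtain ⟨c, hc', hcZ⟩ := hdich g hgK
      show (Subgroup.centralizer ({g} : Set G)).index = H.index
      rw [← hconj c g, hHZ _ hc' hcZ]
  · rintro (rfl | rfl | rfl)
    · refine ⟨1, ?_⟩
      show (Subgroup.centralizer ({1} : Set G)).index = 1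
      rw [Subgroup.index_eq_one, eq_top_iff]
      exact fun u _ => Subgroup.mem_centralizer_singleton_iff.mpr (by rw [mul_one, one_mul])
    · obtain ⟨k, hk, hkZ⟩ : ∃ k ∈ K, k ∉ Z := by
        by_contra h
        push Not at h
        have hbot : N = ⊥ := by rw [hNK, Subgroup.map_eq_bot_iff, hkerπ]; exact h
        exact hFrob.2.1 (Subgroup.index_eq_one.mp (by rw [hc.index_eq_card, hbot, Subgroup.card_bot]))
      exact ⟨k, by show (Subgroup.centralizer ({k} : Set G)).index = K.index; rw [hKZ k hk hkZ]⟩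
    · obtain ⟨h, hh, hhZ⟩ : ∃ h ∈ H, h ∉ Z := by
        by_contra h
        push Not at h
        exact hFrob.1 (by rw [Subgroup.map_eq_bot_iff, hkerπ]; exact h)
      exact ⟨h, by show (Subgroup.centralizer ({h} : Set G)).index = H.index; rw [hHZ h hh hhZ]⟩

end Cfsg.Agent.S4283
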