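import Cfsg.Statements.S4292
import Cfsg.Agent.S3357
import Cfsg.Agent.Lib.GroupB.FrobExamples
import Cfsg.Agent.Lib.GroupB.FrobType

set_option autoImplicit false
open Cfsg

namespace Cfsg.Agent.S4292
open Matrix

abbrev IsFC (A : Type*) [Group A] : Prop :=
  ∃ (L : Type) (_ : Group L) (_ : Finite L) (H : Subgroup L), Cfsg.IsFrobeniusComplement H ∧ Nonempty (A ≃* H)

/-- The defining equations of a fixed-point-free function. -/
def Good {G R : Type*} [Group G] [AddCommMonoid R] (f : G → R) : Prop :=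
  ∀ a x b : G, (orderOf x).Prime → ∑ j ∈ Finset.range (orderOf x), f (a * x ^ j * b) = 0

theorem exists_good {A : Type*} [Group A] [Finite A] (h : IsFC A) : ∃ μ : A → ℚ, μ 1 ≠ 0 ∧ Good μ := by
  obtain ⟨L, hL, hLf, H, hH, ⟨e⟩⟩ := h
  obtain ⟨q, n₀, hqf, ρ₀, hn₀, hq, hfpf⟩ := Cfsg.Agent.S3357.exists_modular H hH
  exact Cfsg.Agent.S3357.exists_functional hn₀ (H := A) (by rwa [Nat.card_congr e.toEquiv]) (ρ₀.comp e.toMonoidHom)
    fun g hg v hv => hfpf (e g) (fun h => hg (e.injective (h.trans (map_one e).symm))) v hv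

theorem isFC_of_good {G : Type*} [Group G] [Finite G] [Nontrivial G] {μ : G → ℚ} (h1 : μ 1 ≠ 0) (hμ : Good μ) :
    IsFC G := by
  classical
  obtain ⟨⟨b, hb⟩, hbi⟩ := IsLocalization.exist_integer_multiples_of_finite (nonZeroDivisors ℤ) μ
  choose z hz using hbi
  have hb0 : b ≠ 0 := nonZeroDivisors.ne_zero hb
  have hzμ : ∀ g, (z g : ℚ) = (b : ℚ) * μ g := fun g => by
    have := hz g
    simpa [zsmul_eq_mul] using this
  have hz1 : z 1 ≠ 0 := fun h => mul_ne_zero (Int.cast_ne_zero.mpr hb0) h1 (by rw [← hzμ, h, Int.cast_zero])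
  obtain ⟨q, hqle, hq⟩ := Nat.exists_infinite_primes (Nat.card G + (z 1).natAbs + 1)
  haveI := Fact.mk hq
  let U : Submodule (ZMod q) (G → ZMod q) :=
    { carrier := {f | Good f}
      zero_mem' := fun a x b _ => Finset.sum_const_zero
      add_mem' := fun {f g} hf hg a x b hx => by
        show ∑ j ∈ Finset.range (orderOf x), (f _ + g _) = 0
        rw [Finset.sum_add_distrib, hf a x b hx, hg a x b hx, add_zero]
      smul_mem' := fun r f hf a x b hx => by
        show ∑ j ∈ Finset.range (orderOf x), r • f _ = 0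
        rw [← Finset.smul_sum, hf a x b hx, smul_zero] }
  have hzU : (fun g => ((z g : ℤ) : ZMod q)) ∈ U := fun a x c hx => by
    show ∑ j ∈ Finset.range (orderOf x), ((z (a * x ^ j * c) : ℤ) : ZMod q) = 0
    rw [← Int.cast_sum]
    have : ∑ j ∈ Finset.range (orderOf x), z (a * x ^ j * c) = 0 := Int.cast_injective (α := ℚ) (by
      rw [Int.cast_sum, Finset.sum_congr rfl fun j _ => hzμ _, ← Finset.mul_sum, hμ a x c hx, mul_zero, Int.cast_zero])
    rw [this, Int.cast_zero]
  have hne : (fun g => ((z g : ℤ) : ZMod q)) ≠ (0 : G → ZMod q) := fun h => by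
    have h2 := Nat.le_of_dvd (Int.natAbs_pos.mpr hz1) (Int.natCast_dvd.mp ((ZMod.intCast_zmod_eq_zero_iff_dvd _ q).mp (congrFun h 1)))
    omega
  haveI : Nontrivial U := ⟨⟨⟨_, hzU⟩, 0, fun h => hne (congrArg Subtype.val h)⟩⟩
  refine CfsgLib.GroupB.FrobExamples.exists_complement_of_fpf (V := U)
    (fun h f => ⟨fun y => (f : G → ZMod q) (y * h), fun a x c hx => by
      show ∑ j ∈ Finset.range (orderOf x), (f : G → ZMod q) (a * x ^ j * c * h) = 0
      simpa [mul_assoc] using f.2 a x (c * h) hx⟩)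
    (fun h v w => rfl) (fun v => Subtype.ext (funext fun y => by simp))
    (fun g h v => Subtype.ext (funext fun y => by simp [mul_assoc])) (fun g hg f hv => ?_)
  have hfy : ∀ y, (f : G → ZMod q) (y * g) = (f : G → ZMod q) y := fun y => congrFun (congrArg Subtype.val hv) y
  obtain ⟨p, hp, hpd⟩ := Nat.exists_prime_and_dvd (fun h => hg (orderOf_eq_one_iff.mp h))
  have hxp : orderOf (g ^ (orderOf g / p)) = p := orderOf_pow_orderOf_div (orderOf_pos g).ne' hpd
  have hpow : ∀ (i : ℕ) y, (f : G → ZMod q) (y * g ^ i) = (f : G → ZMod q) y := by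
    intro i
    induction i with
    | zero => intro y; rw [pow_zero, mul_one]
    | succ i ih => intro y; rw [pow_succ, ← mul_assoc, hfy, ih]
  refine Subtype.ext (funext fun y => ?_)
  have h := f.2 y (g ^ (orderOf g / p)) 1 (by rw [hxp]; exact hp)
  simp only [mul_one, ← pow_mul, hpow, Finset.sum_const, Finset.card_range, nsmul_eq_mul] at h
  refine (mul_eq_zero.mp h).resolve_left fun h0 => ?_
  rw [hxp, ZMod.natCast_eq_zero_iff _ q] at h0
  have h3 : p ∣ Nat.card G := hpd.trans (orderOf_dvd_natCard g)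
  have h4 := Nat.le_of_dvd Nat.card_pos h3
  have h5 := Nat.le_of_dvd hp.pos h0
  omega

theorem isFC_of_injective {A X : Type*} [Group A] [Finite A] [Nontrivial A] [Group X] (h : IsFC X) (f : A →* X)
    (hf : Function.Injective f) : IsFC A := by
  obtain ⟨L, hL, hLf, H, hH, ⟨e⟩⟩ := h
  obtain ⟨q, n₀, hqf, ρ₀, hn₀, hq, hfpf⟩ := Cfsg.Agent.S3357.exists_modular H hH
  refine CfsgLib.GroupB.FrobExamples.exists_complement_of_matrix hn₀ (ρ₀.comp (e.toMonoidHom.comp f)) fun a ha => ?_
  rw [isUnit_iff_ne_zero]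
  intro h0
  obtain ⟨v, hv, hv0⟩ := Matrix.exists_mulVec_eq_zero_iff.mpr h0
  rw [Matrix.sub_mulVec, Matrix.one_mulVec, sub_eq_zero] at hv0
  exact hv (hfpf (e (f a)) (fun h => ha (hf (by rw [map_one]; exact e.injective (h.trans (map_one e).symm)))) v hv0)


/-- Let A and B be nontrivial finite groups. Then the direct product A × B occurs as a Frobenius complement if and only if A and B both occur as Frobenius complements and the orders of A and B are coprime. -/
theorem result {A B : Type*} [Group A] [Finite A] [Nontrivial A] [Group B] [Finite B] [Nontrivial B] :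
    (∃ (L : Type) (_ : Group L) (_ : Finite L) (H : Subgroup L), Cfsg.IsFrobeniusComplement H ∧ Nonempty ((A × B) ≃* H)) ↔
    ((∃ (L : Type) (_ : Group L) (_ : Finite L) (H : Subgroup L), Cfsg.IsFrobeniusComplement H ∧ Nonempty (A ≃* H)) ∧
     (∃ (L : Type) (_ : Group L) (_ : Finite L) (H : Subgroup L), Cfsg.IsFrobeniusComplement H ∧ Nonempty (B ≃* H)) ∧
     (Nat.card A).Coprime (Nat.card B)) := by
  constructor
  · intro h
    refine ⟨isFC_of_injective h (MonoidHom.inl A B) (fun x y h => congrArg Prod.fst h),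
      isFC_of_injective h (MonoidHom.inr A B) (fun x y h => congrArg Prod.snd h), Nat.coprime_of_dvd fun p hp hpA hpB => ?_⟩
    haveI := Fact.mk hp
    obtain ⟨x, hx⟩ := exists_prime_orderOf_dvd_card' p hpA
    obtain ⟨y, hy⟩ := exists_prime_orderOf_dvd_card' p hpB
    obtain ⟨L, hL, hLf, H, hH, ⟨e⟩⟩ := h
    let ι : (Subgroup.zpowers x × Subgroup.zpowers y) →* L :=
      H.subtype.comp (e.toMonoidHom.comp ((Subgroup.zpowers x).subtype.prodMap (Subgroup.zpowers y).subtype))
    have hι : Function.Injective ι := H.subtype_injective.comp (e.injective.comp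
      ((Subgroup.zpowers x).subtype_injective.prodMap (Subgroup.zpowers y).subtype_injective))
    have hc := CfsgLib.GroupB.FrobType.isCyclic_of_abelian hH (A := ι.range)
      (by rintro _ ⟨z, rfl⟩; exact (e _).2) ⟨⟨fun a b => by
        obtain ⟨_, u, rfl⟩ := a
        obtain ⟨_, v, rfl⟩ := b
        exact Subtype.ext (show ι u * ι v = ι v * ι u by
          rw [← map_mul, ← map_mul]
          exact congrArg ι (Prod.ext (IsMulCommutative.is_comm.comm u.1 v.1) (IsMulCommutative.is_comm.comm u.2 v.2)))⟩⟩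
    haveI : IsCyclic (Subgroup.zpowers x × Subgroup.zpowers y) :=
      (MulEquiv.isCyclic (MonoidHom.ofInjective hι)).mpr hc
    have hexp : Monoid.exponent (Subgroup.zpowers x × Subgroup.zpowers y) ∣ p := Monoid.exponent_dvd_of_forall_pow_eq_one fun ⟨⟨a, i, ha⟩, ⟨b, j, hb⟩⟩ => by
      refine Prod.ext (Subtype.ext ?_) (Subtype.ext ?_)
      · show a ^ p = 1
        rw [← ha, ← zpow_natCast, ← _root_.zpow_mul, mul_comm, _root_.zpow_mul, zpow_natCast, ← hx, pow_orderOf_eq_one, _root_.one_zpow]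
      · show b ^ p = 1
        rw [← hb, ← zpow_natCast, ← _root_.zpow_mul, mul_comm, _root_.zpow_mul, zpow_natCast, ← hy, pow_orderOf_eq_one, _root_.one_zpow]
    rw [IsCyclic.exponent_eq_card, Nat.card_prod, Nat.card_zpowers, Nat.card_zpowers, hx, hy] at hexp
    have := Nat.le_of_dvd hp.pos hexp
    nlinarith [hp.two_le]
  · rintro ⟨hA, hB, hcop⟩
    obtain ⟨μ, hμ1, hμ⟩ := exists_good hA
    obtain ⟨ν, hν1, hν⟩ := exists_good hB
    refine isFC_of_good (μ := fun g : A × B => μ g.1 * ν g.2) (mul_ne_zero hμ1 hν1) ?_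
    rintro ⟨a, a'⟩ ⟨x, x'⟩ ⟨c, c'⟩ hx
    rw [Prod.orderOf] at hx ⊢
    simp only [Prod.pow_mk, Prod.mk_mul_mk]
    by_cases h1 : x = 1
    · subst h1
      rw [orderOf_one, Nat.lcm_one_left] at hx ⊢
      simp only [one_pow, mul_one, ← Finset.mul_sum]
      rw [hν a' x' c' hx, mul_zero]
    · have h2 : x' = 1 := orderOf_eq_one_iff.mp (by
        have e1 : orderOf x = Nat.lcm (orderOf x) (orderOf x') :=
          ((Nat.dvd_prime hx).mp (Nat.dvd_lcm_left _ _)).resolve_left fun h => h1 (orderOf_eq_one_iff.mp h)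
        refine Nat.eq_one_of_dvd_coprimes hcop ?_ (orderOf_dvd_natCard x')
        exact ((Nat.dvd_lcm_right _ _).trans (dvd_of_eq e1.symm)).trans (orderOf_dvd_natCard x))
      subst h2
      rw [orderOf_one, Nat.lcm_one_right] at hx ⊢
      simp only [one_pow, mul_one, ← Finset.sum_mul]
      rw [hμ a x c hx, zero_mul]

end Cfsg.Agent.S4292
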