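import Cfsg.Statements.S4293
import Cfsg.Agent.Lib.GroupB.FrobExamples
import Mathlib.GroupTheory.FiniteAbelian.Basic
import Mathlib.LinearAlgebra.FreeModule.PID
import Mathlib.RingTheory.Finiteness.Basic
import Mathlib.Algebra.CharP.Basic

set_option autoImplicit false
open Cfsg

namespace Cfsg.Agent.S4293

/-- A nontrivial finite subgroup of the multiplicative group of a division ring occurs as a Frobenius complement of some finite Frobenius group. -/
theorem result {D : Type*} [DivisionRing D] (H : Subgroup Dˣ) [Finite H] (hH : H ≠ ⊥) :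
    ∃ (L : Type) (_ : Group L) (_ : Finite L) (C : Subgroup L), Cfsg.IsFrobeniusComplement C ∧ Nonempty (H ≃* C) := by
  haveI : Nontrivial H := (Subgroup.nontrivial_iff_ne_bot H).mpr hH
  haveI := Fintype.ofFinite H
  let M : Submodule ℤ D := Submodule.span ℤ (Set.range fun h : H => ((h : Dˣ) : D))
  haveI : Module.Finite ℤ M := Module.Finite.span_of_finite ℤ (Set.finite_range _)
  have hone : (1 : D) ∈ M := Submodule.subset_span ⟨1, rfl⟩
  have hmem : ∀ (h : H) (v : D), v ∈ M → ((h : Dˣ) : D) * v ∈ M := by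
    intro h v hv
    induction hv using Submodule.span_induction with
    | mem x hx => obtain ⟨g, rfl⟩ := hx; exact Submodule.subset_span ⟨h * g, by simp⟩
    | zero => rw [mul_zero]; exact M.zero_mem
    | add x y _ _ hx hy => rw [mul_add]; exact M.add_mem hx hy
    | smul a x _ hx => rw [mul_smul_comm]; exact M.smul_mem a hx
  let act : H → M →ₗ[ℤ] M := fun h =>
    { toFun := fun v => ⟨((h : Dˣ) : D) * v, hmem h v v.2⟩
      map_add' := fun v w => Subtype.ext (mul_add _ _ _)
      map_smul' := fun a v => Subtype.ext (mul_smul_comm a _ _) }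
  have hne : ∀ h : H, h ≠ 1 → ((h : Dˣ) : D) - 1 ≠ 0 := fun h hh e =>
    hh (Subtype.ext (Units.ext (sub_eq_zero.mp e)))
  obtain ⟨p, hp⟩ := CharP.exists D
  rcases Nat.eq_zero_or_pos p with rfl | hpos
  · haveI := CharP.charP_to_charZero D
    obtain ⟨q, hqle, hq⟩ := Nat.exists_infinite_primes (Nat.card H + 1)
    haveI : NoZeroSMulDivisors ℤ M := ⟨fun {a v} h => by
      rcases smul_eq_zero.mp (show a • (v : D) = 0 from congrArg Subtype.val h) with h | h
      · exact Or.inl h
      · exact Or.inr (Subtype.ext h)⟩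
    haveI : Module.Free ℤ M := Module.free_of_finite_type_torsion_free'
    let qM : Submodule ℤ M := LinearMap.range ((q : ℤ) • LinearMap.id : M →ₗ[ℤ] M)
    have hq_mem : ∀ v : M, v ∈ qM ↔ ∃ w : M, (q : ℤ) • w = v := fun v => by simp [qM]
    have hstab : ∀ (h : H) (v : M), v ∈ qM → act h v ∈ qM := by
      intro h v hv
      obtain ⟨w, rfl⟩ := (hq_mem v).mp hv
      exact (hq_mem _).mpr ⟨act h w, (map_smul (act h) _ _).symm⟩
    let ρ : H → (M ⧸ qM) →ₗ[ℤ] (M ⧸ qM) := fun h => qM.mapQ qM (act h) (fun v hv => hstab h v hv)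
    haveI : AddGroup.FG (M ⧸ qM) := Module.Finite.iff_addGroup_fg.mp inferInstance
    haveI : Finite (M ⧸ qM) := by
      refine AddCommGroup.finite_of_fg_torsion _ fun x => ?_
      obtain ⟨v, rfl⟩ := qM.mkQ_surjective x
      rw [isOfFinAddOrder_iff_nsmul_eq_zero]
      refine ⟨q, hq.pos, ?_⟩
      rw [← map_nsmul, Submodule.mkQ_apply, Submodule.Quotient.mk_eq_zero]
      exact (hq_mem _).mpr ⟨v, by simp⟩
    haveI : Nontrivial (M ⧸ qM) := by
      rw [Submodule.Quotient.nontrivial_iff]
      intro htop
      let b := Module.Free.chooseBasis ℤ M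
      haveI : Nontrivial M := ⟨⟨⟨1, hone⟩, 0, fun e => one_ne_zero (congrArg Subtype.val e)⟩⟩
      obtain ⟨i⟩ := b.index_nonempty
      obtain ⟨w, hw⟩ := (hq_mem (b i)).mp (htop ▸ Submodule.mem_top)
      have h1 := congrArg (fun v => b.repr v i) hw
      simp at h1
      exact hq.one_lt.ne' (by exact_mod_cast Int.eq_one_of_mul_eq_one_right (Int.natCast_nonneg q) h1)
    refine CfsgLib.GroupB.FrobExamples.exists_complement_of_fpf (V := M ⧸ qM) (fun h v => ρ h v)
      (fun h v w => map_add _ _ _) (fun v => ?_) (fun g h v => ?_) (fun h hh v hv => ?_)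
    · obtain ⟨v, rfl⟩ := qM.mkQ_surjective v
      show Submodule.Quotient.mk (act 1 v) = Submodule.Quotient.mk v
      congr 1; exact Subtype.ext (by simp [act])
    · obtain ⟨v, rfl⟩ := qM.mkQ_surjective v
      show Submodule.Quotient.mk (act (g * h) v) = Submodule.Quotient.mk (act g (act h v))
      congr 1; exact Subtype.ext (by simp [act, mul_assoc])
    · obtain ⟨v, rfl⟩ := qM.mkQ_surjective v
      have hpow : ∀ i : ℕ, (Submodule.Quotient.mk (act (h ^ i) v) : M ⧸ qM) = Submodule.Quotient.mk v := by
        intro i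
        induction i with
        | zero => congr 1; exact Subtype.ext (by simp [act])
        | succ i ih =>
          have e : act (h ^ (i + 1)) v = act h (act (h ^ i) v) := Subtype.ext (by simp [act, pow_succ', mul_assoc])
          rw [e, show (Submodule.Quotient.mk (act h (act (h ^ i) v)) : M ⧸ qM) =
            ρ h (Submodule.Quotient.mk (act (h ^ i) v)) from rfl, ih]
          exact hv
      have hsum : (∑ i ∈ Finset.range (orderOf h), act (h ^ i) v) = 0 := by
        apply Subtype.ext
        rw [Submodule.coe_sum, Submodule.coe_zero]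
        refine mul_left_cancel₀ (hne h hh) ?_
        rw [mul_zero, Finset.mul_sum]
        have e : ∀ i, (((h : Dˣ) : D) - 1) * ((act (h ^ i) v : M) : D) =
            ((act (h ^ (i + 1)) v : M) : D) - ((act (h ^ i) v : M) : D) := fun i => by
          simp [act, pow_succ', sub_mul, mul_assoc]
        rw [Finset.sum_congr rfl fun i _ => e i,
          Finset.sum_range_sub (fun i => ((act (h ^ i) v : M) : D)), pow_orderOf_eq_one, pow_zero, sub_self]
      have h0 : (orderOf h : ℤ) • (Submodule.Quotient.mk v : M ⧸ qM) = 0 := by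
        have := congrArg qM.mkQ hsum
        rw [map_sum, map_zero] at this
        simp only [Submodule.mkQ_apply] at this
        rw [natCast_zsmul, ← this, Finset.sum_congr rfl fun i _ => hpow i]
        simp
      have hq0 : (q : ℤ) • (Submodule.Quotient.mk v : M ⧸ qM) = 0 := by
        rw [← Submodule.Quotient.mk_smul, Submodule.Quotient.mk_eq_zero]
        exact (hq_mem _).mpr ⟨v, rfl⟩
      obtain ⟨a, b, hab⟩ := Int.isCoprime_iff_gcd_eq_one.mpr (show Int.gcd (orderOf h : ℤ) q = 1 by
        rw [Int.gcd_natCast_natCast]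
        refine (Nat.Coprime.gcd_eq_one (hq.coprime_iff_not_dvd.mpr fun hd => ?_).symm)
        have := Nat.le_of_dvd Nat.card_pos (hd.trans (orderOf_dvd_natCard h))
        omega)
      show (Submodule.Quotient.mk v : M ⧸ qM) = 0
      rw [← one_smul ℤ (Submodule.Quotient.mk v : M ⧸ qM), ← hab, add_smul, mul_smul, mul_smul, h0, hq0]
      simp
  · haveI : NeZero p := ⟨hpos.ne'⟩
    haveI : AddGroup.FG M := Module.Finite.iff_addGroup_fg.mp inferInstance
    haveI : Finite M := AddCommGroup.finite_of_fg_torsion _ fun v => by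
      rw [isOfFinAddOrder_iff_nsmul_eq_zero]
      exact ⟨p, hpos, Subtype.ext (by simp [nsmul_eq_mul, CharP.cast_eq_zero])⟩
    haveI : Nontrivial M := ⟨⟨⟨1, hone⟩, 0, fun e => one_ne_zero (congrArg Subtype.val e)⟩⟩
    refine CfsgLib.GroupB.FrobExamples.exists_complement_of_fpf (V := M) (fun h v => act h v)
      (fun h v w => map_add _ _ _) (fun v => Subtype.ext (by simp [act]))
      (fun g h v => Subtype.ext (by simp [act, mul_assoc])) (fun h hh v hv => Subtype.ext ?_)
    have h1 : ((h : Dˣ) : D) * v = v := congrArg Subtype.val hv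
    have h2 : (((h : Dˣ) : D) - 1) * v = 0 := by rw [sub_mul, one_mul, h1, sub_self]
    exact (mul_eq_zero.mp h2).resolve_left (hne h hh)

end Cfsg.Agent.S4293
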