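import Cfsg.Statements.S4295
import Cfsg.Agent.Lib.GroupB.FrobSquare
import Cfsg.Agent.Lib.GroupB.Small
import Mathlib.FieldTheory.Finite.Basic

set_option autoImplicit false
open Cfsg

namespace Cfsg.Agent.S4295

open Matrix in
theorem construct_aux {R : Type} [CommRing R] [Finite R] [Nontrivial R] (h2 : ∀ r : R, r + r = 0 → r = 0)
    (x y : R) (hsq : x * x + y * y = -1) :
    ∃ (L : Type) (_ : Group L) (_ : Finite L) (H : Subgroup L), Cfsg.IsFrobeniusComplement H ∧
      Nonempty (H ≃* QuaternionGroup 2) ∧ Nat.card (Cfsg.frobeniusKernel H) = Nat.card R * Nat.card R := by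
  let A : Matrix (Fin 2) (Fin 2) R := !![0, -1; 1, 0]
  let B : Matrix (Fin 2) (Fin 2) R := !![x, y; y, -x]
  have hA2 : A * A = -1 := by
    refine Matrix.ext fun i j => ?_
    fin_cases i <;> fin_cases j <;> simp [A, Matrix.mul_apply, Fin.sum_univ_two]
  have hB2 : B * B = -1 := by
    refine Matrix.ext fun i j => ?_
    fin_cases i <;> fin_cases j <;>
      simp only [Fin.zero_eta, Fin.mk_one, Fin.isValue, B, Matrix.mul_apply, Fin.sum_univ_two, Matrix.of_apply,
        Matrix.cons_val', Matrix.cons_val_zero, Matrix.cons_val_one, Matrix.cons_val_fin_one, Matrix.neg_apply,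
        Matrix.one_apply_eq, ne_eq, zero_ne_one, one_ne_zero, not_false_eq_true, Matrix.one_apply_ne, neg_zero]
    · exact hsq
    · ring
    · ring
    · rw [← hsq]; ring
  have hAB : A * B = B * A ^ 3 := by
    rw [show A ^ 3 = -A by rw [pow_succ, pow_two, hA2, neg_one_mul]]
    refine Matrix.ext fun i j => ?_
    fin_cases i <;> fin_cases j <;> simp [A, B, Matrix.mul_apply, Fin.sum_univ_two] <;> ring
  have hA4 : A ^ 4 = 1 := by rw [pow_succ, pow_succ, pow_two, mul_assoc, hA2, neg_mul_neg, one_mul]
  have hmod : ∀ k : ℕ, A ^ k = A ^ ((k : ZMod 4)).val := fun k => by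
    rw [ZMod.val_natCast]
    exact pow_eq_pow_mod k hA4
  have hAB' : ∀ k : ℕ, A ^ k * B = B * A ^ (3 * k) := by
    intro k
    induction k with
    | zero => simp
    | succ k ih =>
      rw [pow_succ, mul_assoc, hAB, ← mul_assoc, ih, mul_assoc, ← pow_add]
      ring_nf
  have hpow : ∀ k l : ℕ, ((k : ZMod 4)) = (l : ZMod 4) → A ^ k = A ^ l := fun k l h => by rw [hmod k, hmod l, h]
  let f : QuaternionGroup 2 → Matrix (Fin 2) (Fin 2) R := fun q =>
    match q with
    | QuaternionGroup.a i => A ^ (ZMod.val (n := 4) i)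
    | QuaternionGroup.xa i => B * A ^ (ZMod.val (n := 4) i)
  have hf1 : f 1 = 1 := by rw [QuaternionGroup.one_def]; show A ^ (ZMod.val (n := 4) 0) = 1; simp
  have hfm : ∀ p q, f (p * q) = f p * f q := by
    rintro (i | i) (j | j)
    · rw [QuaternionGroup.a_mul_a]
      show A ^ _ = A ^ _ * A ^ _
      rw [← pow_add]; exact hpow _ _ (by revert i j; decide)
    · rw [QuaternionGroup.a_mul_xa]
      show B * A ^ _ = A ^ _ * (B * A ^ _)
      rw [← mul_assoc, hAB', mul_assoc, ← pow_add]
      exact congrArg (B * ·) (hpow _ _ (by revert i j; decide))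
    · rw [QuaternionGroup.xa_mul_a]
      show B * A ^ _ = B * A ^ _ * A ^ _
      rw [mul_assoc, ← pow_add]
      exact congrArg (B * ·) (hpow _ _ (by revert i j; decide))
    · rw [QuaternionGroup.xa_mul_xa]
      show A ^ _ = B * A ^ _ * (B * A ^ _)
      rw [mul_assoc, ← mul_assoc (A ^ _) B, hAB', mul_assoc B (A ^ _), ← pow_add, ← mul_assoc, hB2,
        show (-1 : Matrix (Fin 2) (Fin 2) R) = A ^ 2 by rw [pow_two, hA2], ← pow_add]
      exact hpow _ _ (by revert i j; decide)
  have hfix : ∀ q : QuaternionGroup 2, q ≠ 1 → ∀ v : Fin 2 → R, f q *ᵥ v = v → v = 0 := by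
    intro q hq v hv
    have hz : f (QuaternionGroup.a 2) *ᵥ v = v := by
      have key : ∀ p : QuaternionGroup 2, p ≠ 1 → p = QuaternionGroup.a 2 ∨ p * p = QuaternionGroup.a 2 := by decide
      rcases key q hq with e | e
      · rwa [← e]
      · rw [← e, hfm, ← mulVec_mulVec, hv, hv]
    have h : f (QuaternionGroup.a 2) = -1 := by
      show A ^ (ZMod.val (n := 4) 2) = -1
      rw [show ZMod.val (n := 4) 2 = 2 from rfl, pow_two, hA2]
    rw [h, neg_mulVec, one_mulVec] at hz
    funext i
    exact h2 _ (by have := congrFun hz i; rw [Pi.neg_apply] at this; exact neg_eq_iff_add_eq_zero.mp this)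
  let φ : QuaternionGroup 2 →* MulAut (Multiplicative (Fin 2 → R)) := MonoidHom.mk' (fun q =>
    { toFun := fun v => Multiplicative.ofAdd (f q *ᵥ v.toAdd)
      invFun := fun v => Multiplicative.ofAdd (f q⁻¹ *ᵥ v.toAdd)
      left_inv := fun v => by
        show Multiplicative.ofAdd (f q⁻¹ *ᵥ (f q *ᵥ v.toAdd)) = v
        rw [mulVec_mulVec, ← hfm, inv_mul_cancel, hf1, one_mulVec]
        rfl
      right_inv := fun v => by
        show Multiplicative.ofAdd (f q *ᵥ (f q⁻¹ *ᵥ v.toAdd)) = v
        rw [mulVec_mulVec, ← hfm, mul_inv_cancel, hf1, one_mulVec]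
        rfl
      map_mul' := fun v w => by
        show Multiplicative.ofAdd (f q *ᵥ (v.toAdd + w.toAdd)) = _
        rw [mulVec_add]; rfl })
    (fun p q => MulEquiv.ext fun v => by
      show Multiplicative.ofAdd (f (p * q) *ᵥ v.toAdd) = Multiplicative.ofAdd (f p *ᵥ (f q *ᵥ v.toAdd))
      rw [hfm, mulVec_mulVec])
  haveI : Finite (SemidirectProduct (Multiplicative (Fin 2 → R)) (QuaternionGroup 2) φ) :=
    Finite.of_equiv _ SemidirectProduct.equivProd.symm
  have hF := CfsgLib.GroupB.Small.isFrobeniusComplement_inr φ fun q hq v hv =>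
    Multiplicative.toAdd.injective (hfix q hq v.toAdd (congrArg Multiplicative.toAdd hv))
  refine ⟨_, inferInstance, inferInstance, _, hF,
    ⟨(MonoidHom.ofInjective SemidirectProduct.inr_injective).symm⟩, ?_⟩
  rw [CfsgLib.GroupB.Frobenius.card_kernel hF]
  have h := Subgroup.index_mul_card (SemidirectProduct.inr (φ := φ) : QuaternionGroup 2 →* _).range
  rw [← Nat.card_congr (MonoidHom.ofInjective (SemidirectProduct.inr_injective (φ := φ))).toEquiv,
    SemidirectProduct.card, Nat.card_congr (Multiplicative.toAdd : Multiplicative (Fin 2 → R) ≃ _),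
    Nat.card_fun, Nat.card_fin, pow_two] at h
  exact Nat.eq_of_mul_eq_mul_right Nat.card_pos h

theorem construct (n : ℕ) (hn : Odd n) (h1 : 1 < n) :
    ∃ (L : Type) (_ : Group L) (_ : Finite L) (H : Subgroup L), Cfsg.IsFrobeniusComplement H ∧
      Nonempty (H ≃* QuaternionGroup 2) ∧ Nat.card (Cfsg.frobeniusKernel H) = n * n := by
  have hl : ∀ i : Fin n.primeFactorsList.length, (n.primeFactorsList.get i).Prime := fun i =>
    Nat.prime_of_mem_primeFactorsList (List.get_mem _ i)
  let R := ∀ i : Fin n.primeFactorsList.length, ZMod (n.primeFactorsList.get i)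
  haveI : ∀ i, Fact (n.primeFactorsList.get i).Prime := fun i => ⟨hl i⟩
  have hR : Nat.card R = n := by
    rw [Nat.card_pi]
    simp only [Nat.card_zmod]
    rw [← List.prod_ofFn, List.ofFn_get, Nat.prod_primeFactorsList (by omega)]
  haveI : Nontrivial R := Finite.one_lt_card_iff_nontrivial.mp (hR ▸ h1)
  have h2 : ∀ r : R, r + r = 0 → r = 0 := by
    intro r hr
    funext i
    have h := congrFun hr i
    rw [Pi.add_apply, Pi.zero_apply, ← two_mul] at h
    refine (mul_eq_zero.mp h).resolve_left ?_
    rw [show (2 : ZMod (n.primeFactorsList.get i)) = ((2 : ℕ) : ZMod _) from by norm_num,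
      ZMod.natCast_eq_zero_iff, Nat.prime_dvd_prime_iff_eq (hl i) Nat.prime_two]
    intro e
    exact (Nat.not_even_iff_odd.mpr hn) (even_iff_two_dvd.mpr
      (e ▸ Nat.dvd_of_mem_primeFactorsList (List.get_mem _ i)))
  choose x y hxy using fun i => ZMod.sq_add_sq (n.primeFactorsList.get i) (-1)
  have hsq : (x : R) * x + (y : R) * y = -1 := funext fun i => by
    have := hxy i; simp only [pow_two] at this; simpa using this
  exact hR ▸ construct_aux (R := R) h2 x y hsq

/-- For a natural number m the following are equivalent: (a) some finite group has a Frobenius complement isomorphic to the quaternion group of order 8 whose Frobenius kernel (the identity together with the elements lying in no conjugate of the complement) has exactly m elements; (b) m is an odd perfect square greater than 1. -/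
theorem result (m : ℕ) :
    (∃ (L : Type) (_ : Group L) (_ : Finite L) (H : Subgroup L), Cfsg.IsFrobeniusComplement H ∧
        Nonempty (H ≃* QuaternionGroup 2) ∧ Nat.card (Cfsg.frobeniusKernel H) = m) ↔
    (Odd m ∧ IsSquare m ∧ 1 < m) := by
  constructor
  · rintro ⟨L, _, _, H, hH, ⟨e⟩, rfl⟩
    obtain ⟨N, hN, hNn, hc⟩ := CfsgLib.GroupB.Frobenius.exists_kernel_subgroup hH
    haveI := hNn
    let ι : QuaternionGroup 2 →* L := H.subtype.comp e.symm.toMonoidHom
    have hι : Function.Injective ι := H.subtype_injective.comp e.symm.injective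
    obtain ⟨h1, h2⟩ := CfsgLib.GroupB.FrobSquare.odd_and_square hH
      (x := ι (QuaternionGroup.a 1)) (y := ι (QuaternionGroup.xa 0)) (z := ι (QuaternionGroup.a 2))
      (show ι _ ∈ H from (e.symm (QuaternionGroup.a 2)).2)
      (fun h => absurd (hι (h.trans (map_one ι).symm)) (by decide))
      (by rw [← map_mul, ← map_one ι]; exact congrArg ι (by decide))
      (by rw [← map_mul, ← map_mul, ← map_mul]; exact congrArg ι (by decide))
    refine ⟨h1, h2, ?_⟩
    rw [← hN]
    exact (Subgroup.one_lt_card_iff_ne_bot N).mpr (CfsgLib.GroupB.FrobBasic.kernel_ne_bot hH hc)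
  · rintro ⟨hodd, ⟨n, rfl⟩, h1⟩
    exact construct n (Nat.odd_mul.mp hodd).1 (by nlinarith)

end Cfsg.Agent.S4295
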