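import Cfsg.Statements.S4296
import Cfsg.Agent.Lib.GroupB.FrobSquare
import Cfsg.Agent.Lib.GroupB.FrobType

set_option autoImplicit false
open Cfsg

namespace Cfsg.Agent.S4296

theorem quat_facts (m : ℕ) :
    (QuaternionGroup.a (2 ^ (m + 1) : ℕ) : QuaternionGroup (2 ^ (m + 1))) * QuaternionGroup.a (2 ^ (m + 1) : ℕ) = 1 ∧
    (QuaternionGroup.a (2 ^ (m + 1) : ℕ) : QuaternionGroup (2 ^ (m + 1))) ≠ 1 ∧
    (QuaternionGroup.a (2 ^ m : ℕ) : QuaternionGroup (2 ^ (m + 1))) * QuaternionGroup.xa 0 =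
      QuaternionGroup.a (2 ^ (m + 1) : ℕ) * (QuaternionGroup.xa 0 * QuaternionGroup.a (2 ^ m : ℕ)) := by
  have hp := Nat.two_pow_pos m
  refine ⟨?_, ?_, ?_⟩
  · rw [QuaternionGroup.a_mul_a, QuaternionGroup.one_def, QuaternionGroup.a.injEq, ← Nat.cast_add,
      ZMod.natCast_eq_zero_iff]
    exact ⟨1, by ring⟩
  · rw [QuaternionGroup.one_def, ne_eq, QuaternionGroup.a.injEq, ZMod.natCast_eq_zero_iff]
    exact fun h => absurd (Nat.le_of_dvd (Nat.two_pow_pos (m + 1)) h) (by rw [pow_succ]; omega)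
  · rw [QuaternionGroup.xa_mul_a, QuaternionGroup.a_mul_xa, QuaternionGroup.a_mul_xa, QuaternionGroup.xa.injEq,
      pow_succ, Nat.cast_mul]
    push_cast
    ring

/-- Let H be a Frobenius complement in a finite group, and suppose some Sylow subgroup of H is not cyclic. Then the number of elements of the Frobenius kernel (the identity together with the elements lying in no conjugate of H) is an odd perfect square. -/
theorem result {L : Type*} [Group L] [Finite L] (H : Subgroup L) (hF : Cfsg.IsFrobeniusComplement H)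
    (hZ : ∃ (p : ℕ) (_ : Fact p.Prime) (P : Sylow p H), ¬ IsCyclic P) :
    Odd (Nat.card (Cfsg.frobeniusKernel H)) ∧ IsSquare (Nat.card (Cfsg.frobeniusKernel H)) := by
  obtain ⟨p, hp, P, hP⟩ := hZ
  haveI := hp
  rcases CfsgLib.UniqueOrderP.cyclic_or_quaternion P.isPGroup' (CfsgLib.GroupB.FrobType.uniq_of_isPGroup hF _ P.isPGroup') with h | ⟨-, n, ⟨e⟩⟩
  · exact absurd h hP
  haveI : NeZero (2 ^ n) := ⟨(Nat.two_pow_pos n).ne'⟩
  cases n with
  | zero =>
    haveI : IsCyclic (QuaternionGroup (2 ^ 0)) := by rw [pow_zero]; exact QuaternionGroup.quaternionGroup_one_isCyclic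
    exact absurd (isCyclic_of_surjective e.symm e.symm.surjective) hP
  | succ m =>
    let ι : QuaternionGroup (2 ^ (m + 1)) →* L :=
      H.subtype.comp ((P : Subgroup H).subtype.comp e.symm.toMonoidHom)
    have hι : Function.Injective ι :=
      H.subtype_injective.comp ((P : Subgroup H).subtype_injective.comp e.symm.injective)
    have hmem : ∀ q, ι q ∈ H := fun q => ((e.symm q : P) : H).2
    obtain ⟨hz2, hz1, hxy⟩ := quat_facts m
    refine CfsgLib.GroupB.FrobSquare.odd_and_square hF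
      (x := ι (QuaternionGroup.a (2 ^ m : ℕ))) (y := ι (QuaternionGroup.xa 0))
      (z := ι (QuaternionGroup.a (2 ^ (m + 1) : ℕ))) (hmem _)
      (fun h => hz1 (hι (h.trans (map_one ι).symm))) ?_ ?_
    · rw [← map_mul, hz2, map_one]
    · rw [← map_mul, ← map_mul, ← map_mul, hxy]

end Cfsg.Agent.S4296
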