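import Cfsg.Statements.S4297
import Cfsg.Agent.Lib.GroupB.FrobExamples
import Mathlib.NumberTheory.PrimesCongruentOne
import Mathlib.RingTheory.IntegralDomain

set_option autoImplicit false
open Cfsg

namespace Cfsg.Agent.S4297

/-- A prime field containing an element of order `m`. -/
theorem exists_prime_root (m : ℕ) (hm : m ≠ 0) :
    ∃ (p : ℕ) (_ : Fact p.Prime) (ζ : (ZMod p)ˣ), orderOf ζ = m ∧ 2 < p := by
  obtain ⟨p, hp, hgt, hmod⟩ := Nat.exists_prime_gt_modEq_one 2 hm
  haveI := Fact.mk hp
  obtain ⟨g, hg⟩ := IsCyclic.exists_generator (α := (ZMod p)ˣ)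
  have hcard : orderOf g = p - 1 := by
    rw [orderOf_eq_card_of_forall_mem_zpowers hg, Nat.card_units, Nat.card_zmod]
  have hd : m ∣ p - 1 := (Nat.modEq_iff_dvd' hp.one_lt.le).mp hmod.symm
  refine ⟨p, inferInstance, g ^ ((p - 1) / m), ?_, hgt⟩
  rw [orderOf_pow' _ (Nat.div_ne_zero_iff.mpr ⟨hm, Nat.le_of_dvd (by omega) hd⟩), hcard,
    Nat.gcd_eq_right (Nat.div_dvd_of_dvd hd), Nat.div_div_self hd (by omega)]

/-- For every n ≥ 2 the dicyclic group of order 4n (generated by an element a of order 2n and an element x with x² = aⁿ and x a x⁻¹ = a⁻¹) occurs as a Frobenius complement of some finite Frobenius group. -/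
theorem result (n : ℕ) (hn : 2 ≤ n) :
    ∃ (L : Type) (_ : Group L) (_ : Finite L) (H : Subgroup L), Cfsg.IsFrobeniusComplement H ∧ Nonempty (H ≃* QuaternionGroup n) := by
  haveI : NeZero n := ⟨by omega⟩
  haveI : NeZero (2 * n) := ⟨by omega⟩
  obtain ⟨p, hp, ζ, hζ, hp2⟩ := exists_prime_root (2 * n) (by omega)
  let e : ZMod (2 * n) → ZMod p := fun i => (ζ : ZMod p) ^ i.val
  have hpow : ∀ k : ℕ, (ζ : ZMod p) ^ k = e (k : ZMod (2 * n)) := by
    intro k
    show _ = (ζ : ZMod p) ^ (k : ZMod (2 * n)).val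
    rw [ZMod.val_natCast, ← Units.val_pow_eq_pow_val, ← Units.val_pow_eq_pow_val, ← hζ, pow_mod_orderOf]
  have headd : ∀ i j, e (i + j) = e i * e j := by
    intro i j
    show _ = (ζ : ZMod p) ^ i.val * (ζ : ZMod p) ^ j.val
    rw [← pow_add, hpow, Nat.cast_add, ZMod.natCast_zmod_val, ZMod.natCast_zmod_val]
  have he0 : e 0 = 1 := by simp [e]
  have hneg1 : e (n : ZMod (2 * n)) = -1 := by
    have h2 : e n * e n = 1 := by
      rw [← headd, ← Nat.cast_add, show n + n = 2 * n by omega, ZMod.natCast_self, he0]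
    rcases mul_self_eq_one_iff.mp h2 with h | h
    · rw [← hpow, ← Units.val_pow_eq_pow_val, Units.val_eq_one] at h
      exact absurd (Nat.le_of_dvd (by omega) (hζ ▸ orderOf_dvd_of_pow_eq_one h)) (by omega)
    · exact h
  have hinj : ∀ i, e i = 1 → i = 0 := by
    intro i h
    change (ζ : ZMod p) ^ i.val = 1 at h
    rw [← Units.val_pow_eq_pow_val, Units.val_eq_one] at h
    have hd := orderOf_dvd_of_pow_eq_one h
    rw [hζ] at hd
    rw [← ZMod.natCast_zmod_val i, Nat.eq_zero_of_dvd_of_lt hd (ZMod.val_lt i), Nat.cast_zero]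
  let M : QuaternionGroup n → Matrix (Fin 2) (Fin 2) (ZMod p) := fun x => match x with
    | .a i => !![e i, 0; 0, e (-i)]
    | .xa i => !![0, e (-i); -e i, 0]
  obtain ⟨L, hL, hLf, H, hH, ⟨iso⟩⟩ :=
    CfsgLib.GroupB.FrobExamples.exists_complement_of_matrix (R := ZMod p) (n := 2) two_pos
    { toFun := M
      map_one' := by
        show M (QuaternionGroup.a 0) = 1
        ext a b; fin_cases a <;> fin_cases b <;> simp [M, he0, -QuaternionGroup.a_zero]
      map_mul' := by
        rintro (i | i) (j | j)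
        · ext a b; fin_cases a <;> fin_cases b <;> simp [M, headd, neg_add, Matrix.mul_apply] <;> ring
        · ext a b; fin_cases a <;> fin_cases b <;>
            simp [M, sub_eq_add_neg, headd, neg_add, Matrix.mul_apply] <;> ring
        · ext a b; fin_cases a <;> fin_cases b <;>
            simp [M, headd, neg_add, Matrix.mul_apply] <;> ring
        · have hn' : e (-(n : ZMod (2 * n))) = -1 := by
            rw [show -(n : ZMod (2 * n)) = n from by
              rw [neg_eq_iff_add_eq_zero, ← Nat.cast_add, show n + n = 2 * n by omega, ZMod.natCast_self]]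
            exact hneg1
          ext a b; fin_cases a <;> fin_cases b <;>
            simp [M, sub_eq_add_neg, headd, neg_add, hn', hneg1, Matrix.mul_apply] <;> ring }
    (fun x hx => by
      rcases x with i | i
      · have hi : i ≠ 0 := fun h => hx (by rw [h]; exact QuaternionGroup.a_zero)
        simp only [MonoidHom.coe_mk, OneHom.coe_mk, M, Matrix.det_fin_two, isUnit_iff_ne_zero, Matrix.sub_apply]
        simp only [Matrix.of_apply, Matrix.cons_val', Matrix.cons_val_zero, Matrix.cons_val_one,
          Matrix.empty_val', Matrix.cons_val_fin_one, Matrix.one_apply_eq, ne_eq,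
          Matrix.one_apply_ne (show (0 : Fin 2) ≠ 1 by decide), Matrix.one_apply_ne (show (1 : Fin 2) ≠ 0 by decide),
          sub_self, mul_zero, sub_zero, mul_eq_zero, sub_eq_zero, not_or]
        exact ⟨fun h => hi (hinj i h), fun h => hi (neg_eq_zero.mp (hinj _ h))⟩
      · simp only [MonoidHom.coe_mk, OneHom.coe_mk, M, Matrix.det_fin_two, isUnit_iff_ne_zero, Matrix.sub_apply]
        simp only [Matrix.of_apply, Matrix.cons_val', Matrix.cons_val_zero, Matrix.cons_val_one,
          Matrix.empty_val', Matrix.cons_val_fin_one, Matrix.one_apply_eq,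
          Matrix.one_apply_ne (show (0 : Fin 2) ≠ 1 by decide), Matrix.one_apply_ne (show (1 : Fin 2) ≠ 0 by decide)]
        have h1 : e (-i) * e i = 1 := by rw [← headd, neg_add_cancel, he0]
        rw [show ((0 : ZMod p) - 1) * (0 - 1) - (e (-i) - 0) * (-e i - 0) = 2 by linear_combination h1]
        intro h
        have h' : ((2 : ℕ) : ZMod p) = 0 := by simpa using h
        rw [ZMod.natCast_eq_zero_iff] at h'
        exact absurd (Nat.le_of_dvd (by omega) h') (by omega))
  exact ⟨L, hL, hLf, H, hH, ⟨iso.symm⟩⟩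

end Cfsg.Agent.S4297
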