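import Cfsg.Statements.S4298
import Cfsg.Agent.Lib.GroupB.FrobExamples

set_option autoImplicit false
open Cfsg

namespace Cfsg.Agent.S4298

abbrev Q3 := ZMod 3 × ZMod 3 × ZMod 3 × ZMod 3
abbrev Q5 := ZMod 5 × ZMod 5 × ZMod 5 × ZMod 5

/-- The embedding of `SL(2,3)` in `SL(2,5)`, as a table. -/
def tbl : List (Q3 × Q5) :=
  [((1, 0, 0, 1), (1, 0, 0, 1)),
   ((0, 2, 1, 0), (0, 1, 4, 0)),
   ((1, 1, 0, 1), (1, 1, 2, 3)),
   ((2, 0, 0, 2), (4, 0, 0, 4)),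
   ((0, 2, 1, 1), (2, 3, 4, 4)),
   ((1, 2, 1, 0), (4, 1, 2, 2)),
   ((1, 2, 0, 1), (3, 4, 3, 1)),
   ((0, 1, 2, 0), (0, 4, 1, 0)),
   ((2, 2, 0, 2), (4, 4, 3, 2)),
   ((2, 0, 1, 2), (2, 2, 1, 4)),
   ((0, 2, 1, 2), (3, 1, 2, 1)),
   ((1, 0, 1, 1), (1, 2, 1, 3)),
   ((2, 2, 1, 0), (1, 3, 4, 3)),
   ((0, 1, 2, 2), (3, 2, 1, 1)),
   ((2, 1, 2, 0), (1, 4, 3, 3)),
   ((2, 1, 0, 2), (2, 1, 2, 4)),
   ((2, 0, 2, 2), (4, 3, 4, 2)),
   ((1, 1, 1, 2), (0, 2, 2, 0)),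
   ((2, 1, 1, 1), (2, 0, 0, 3)),
   ((1, 0, 2, 1), (3, 3, 4, 1)),
   ((0, 1, 2, 1), (2, 4, 3, 4)),
   ((1, 1, 2, 0), (4, 2, 1, 2)),
   ((2, 2, 2, 1), (0, 3, 3, 0)),
   ((1, 2, 2, 2), (3, 0, 0, 2))]

def mul3 (x y : Q3) : Q3 :=
  (x.1 * y.1 + x.2.1 * y.2.2.1, x.1 * y.2.1 + x.2.1 * y.2.2.2,
   x.2.2.1 * y.1 + x.2.2.2 * y.2.2.1, x.2.2.1 * y.2.1 + x.2.2.2 * y.2.2.2)

def mul5 (x y : Q5) : Q5 :=
  (x.1 * y.1 + x.2.1 * y.2.2.1, x.1 * y.2.1 + x.2.1 * y.2.2.2,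
   x.2.2.1 * y.1 + x.2.2.2 * y.2.2.1, x.2.2.1 * y.2.1 + x.2.2.2 * y.2.2.2)

def look (x : Q3) : Q5 := ((tbl.find? fun e => e.1 == x).map Prod.snd).getD (0, 0, 0, 0)

theorem complete : ∀ a b c d : ZMod 3, a * d - b * c = 1 → (a, b, c, d) ∈ tbl.map Prod.fst := by
  decide +kernel

theorem look_mul : ∀ x ∈ tbl.map Prod.fst, ∀ y ∈ tbl.map Prod.fst, look (mul3 x y) = mul5 (look x) (look y) := by
  decide +kernel

theorem look_fpf : ∀ x ∈ tbl.map Prod.fst, x = (1, 0, 0, 1) ∨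
    ((look x).1 - 1) * ((look x).2.2.2 - 1) - (look x).2.1 * (look x).2.2.1 ≠ 0 := by
  decide +kernel

theorem look_one : look (1, 0, 0, 1) = (1, 0, 0, 1) := by decide +kernel

def enc (A : Matrix.SpecialLinearGroup (Fin 2) (ZMod 3)) : Q3 := (A 0 0, A 0 1, A 1 0, A 1 1)

theorem enc_mem (A : Matrix.SpecialLinearGroup (Fin 2) (ZMod 3)) : enc A ∈ tbl.map Prod.fst :=
  complete _ _ _ _ (by rw [← Matrix.det_fin_two]; exact A.2)

theorem enc_mul (A B : Matrix.SpecialLinearGroup (Fin 2) (ZMod 3)) : enc (A * B) = mul3 (enc A) (enc B) := by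
  simp [enc, mul3, Matrix.mul_apply, Fin.sum_univ_two]

def dec (x : Q5) : Matrix (Fin 2) (Fin 2) (ZMod 5) := !![x.1, x.2.1; x.2.2.1, x.2.2.2]

theorem dec_mul (x y : Q5) : dec (mul5 x y) = dec x * dec y := by
  simp [dec, mul5, Matrix.mul_fin_two]

/-- The group SL(2,3) of order 24 (the binary tetrahedral group) occurs as a Frobenius complement of some finite Frobenius group. -/
theorem result :
    ∃ (L : Type) (_ : Group L) (_ : Finite L) (H : Subgroup L), Cfsg.IsFrobeniusComplement H ∧ Nonempty (H ≃* Matrix.SpecialLinearGroup (Fin 2) (ZMod 3)) := by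
  haveI : Nontrivial (Matrix.SpecialLinearGroup (Fin 2) (ZMod 3)) := by
    refine ⟨⟨1, ⟨!![1, 1; 0, 1], by simp [Matrix.det_fin_two]⟩, fun h => ?_⟩⟩
    have := congrArg (fun A : Matrix.SpecialLinearGroup (Fin 2) (ZMod 3) => A 0 1) h
    simp at this
  haveI : Fact (Nat.Prime 5) := ⟨by norm_num⟩
  obtain ⟨L, hL, hLf, H, hH, ⟨iso⟩⟩ := CfsgLib.GroupB.FrobExamples.exists_complement_of_matrix
    (R := ZMod 5) (n := 2) two_pos
    { toFun := fun A : Matrix.SpecialLinearGroup (Fin 2) (ZMod 3) => dec (look (enc A))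
      map_one' := by
        rw [show enc 1 = (1, 0, 0, 1) by simp [enc], look_one]
        ext a b; fin_cases a <;> fin_cases b <;> simp [dec]
      map_mul' := fun A B => by rw [enc_mul, look_mul _ (enc_mem A) _ (enc_mem B), dec_mul] }
    (fun A hA => by
      rw [isUnit_iff_ne_zero]
      rcases look_fpf _ (enc_mem A) with h | h
      · refine absurd ?_ hA
        simp only [enc, Prod.mk.injEq] at h
        refine Matrix.SpecialLinearGroup.ext _ _ fun i j => ?_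
        fin_cases i <;> fin_cases j <;> simp [h]
      · simpa [Matrix.det_fin_two, dec] using h)
  exact ⟨L, hL, hLf, H, hH, ⟨iso.symm⟩⟩

end Cfsg.Agent.S4298
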