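import Cfsg.Statements.S4299
import Cfsg.Agent.Lib.GroupB.FrobExamples
import Mathlib.NumberTheory.PrimesCongruentOne
import Mathlib.RingTheory.IntegralDomain

set_option autoImplicit false
open Cfsg

namespace Cfsg.Agent.S4299

/-- A prime field containing an element of order `m`. -/
theorem exists_prime_root (m : ℕ) (hm : m ≠ 0) :
    ∃ (p : ℕ) (_ : Fact p.Prime) (ζ : (ZMod p)ˣ), orderOf ζ = m ∧ 2 < p := by
  obtain ⟨p, hp, hgt, hmod⟩ := Nat.exists_prime_gt_modEq_one 2 hm
  haveI := Fact.mk hp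
  obtain ⟨g, hg⟩ := IsCyclic.exists_generator (α := (ZMod p)ˣ)
  have hcard : orderOf g = p - 1 := by
    rw [orderOf_eq_card_of_forall_mem_zpowers hg, Nat.card_units, Nat.card_zmod]
  have hd : m ∣ p - 1 := (Nat.modEq_iff_dvd' hp.one_lt.le).mp hmod.symm
  refine ⟨p, inferInstance, g ^ ((p - 1) / m), ?_, hgt⟩
  rw [orderOf_pow' _ (Nat.div_ne_zero_iff.mpr ⟨hm, Nat.le_of_dvd (by omega) hd⟩), hcard,
    Nat.gcd_eq_right (Nat.div_dvd_of_dvd hd), Nat.div_div_self hd (by omega)]

/-- Every nontrivial finite cyclic group occurs as a Frobenius complement of some finite Frobenius group. -/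
theorem result {C : Type*} [Group C] [Finite C] [IsCyclic C] [Nontrivial C] :
    ∃ (L : Type) (_ : Group L) (_ : Finite L) (H : Subgroup L), Cfsg.IsFrobeniusComplement H ∧ Nonempty (C ≃* H) := by
  obtain ⟨p, hp, ζ, hζ, -⟩ := exists_prime_root (Nat.card C) Nat.card_pos.ne'
  obtain ⟨c, hc⟩ := IsCyclic.exists_generator (α := C)
  have hoc : orderOf c = orderOf ζ := by rw [hζ, orderOf_eq_card_of_forall_mem_zpowers hc]
  let f : C →* (ZMod p)ˣ := monoidHomOfForallMemZpowers hc (by rw [hoc] : orderOf ζ ∣ orderOf c)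
  have hinj : Function.Injective f := by
    rw [injective_iff_map_eq_one]
    intro x hx
    obtain ⟨k, rfl⟩ := Subgroup.mem_zpowers_iff.mp (hc x)
    rw [map_zpow, monoidHomOfForallMemZpowers_apply_gen, ← orderOf_dvd_iff_zpow_eq_one, ← hoc,
      orderOf_dvd_iff_zpow_eq_one] at hx
    exact hx
  refine CfsgLib.GroupB.FrobExamples.exists_complement_of_matrix (R := ZMod p) one_pos
    { toFun := fun x => Matrix.diagonal fun _ => (f x : ZMod p), map_one' := by simp, map_mul' := fun x y => by simp [Matrix.diagonal_mul_diagonal] } fun x hx => ?_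
  rw [isUnit_iff_ne_zero, Matrix.det_fin_one]
  simp only [MonoidHom.coe_mk, OneHom.coe_mk, Matrix.sub_apply, Matrix.diagonal_apply_eq, Matrix.one_apply_eq,
    ne_eq, sub_eq_zero, Units.val_eq_one]
  exact fun h => hx (hinj (h.trans (map_one f).symm))

end Cfsg.Agent.S4299
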