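import Cfsg.Statements.S4300
import Mathlib

set_option autoImplicit false
open Cfsg

namespace Cfsg.Agent.S4300

/-- Let G act faithfully and primitively on a set X, and suppose the stabilizer of some point is a simple group. Then either G is simple, or G has a normal subgroup, neither trivial nor the whole group, that acts regularly on X (transitively with trivial point stabilizers). -/
theorem result {G : Type*} [Group G] {X : Type*} [MulAction G X] [FaithfulSMul G X]
    (hprim : MulAction.IsPreprimitive G X) (x : X) (hsimple : IsSimpleGroup (MulAction.stabilizer G x)) :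
    IsSimpleGroup G ∨ ∃ N : Subgroup G, N.Normal ∧ N ≠ ⊥ ∧ N ≠ ⊤ ∧
      MulAction.IsPretransitive N X ∧ ∀ y : X, MulAction.stabilizer N y = ⊥ := by
  classical
  refine or_iff_not_imp_left.mpr fun hns => ?_
  haveI := hprim
  haveI hnt : Nontrivial G := by
    haveI := hsimple
    obtain ⟨a, b, hab⟩ := exists_pair_ne (MulAction.stabilizer G x)
    exact ⟨⟨a, b, fun h => hab (Subtype.ext h)⟩⟩
  obtain ⟨N, hN, hN1, hN2⟩ : ∃ N : Subgroup G, N.Normal ∧ N ≠ ⊥ ∧ N ≠ ⊤ := by
    by_contra h
    refine hns ⟨fun N hN => ?_⟩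
    by_contra h'
    push Not at h'
    exact h ⟨N, hN, h'.1, h'.2⟩
  haveI := hN
  have hfix : MulAction.fixedPoints N X ≠ Set.univ := fun h => hN1 <| by
    rw [Subgroup.eq_bot_iff_forall]
    intro n hn
    exact FaithfulSMul.eq_of_smul_eq_smul (α := X) fun z => by
      rw [one_smul]; exact (show z ∈ MulAction.fixedPoints N X by rw [h]; trivial) ⟨n, hn⟩
  haveI htr : MulAction.IsPretransitive N X := MulAction.IsQuasiPreprimitive.isPretransitive_of_normal hfix
  haveI := hsimple
  have hx : (N.subgroupOf (MulAction.stabilizer G x)) = ⊥ := by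
    refine ((Subgroup.Normal.eq_bot_or_eq_top inferInstance)).resolve_right fun h => hN2 (top_unique fun g _ => ?_)
    obtain ⟨n, hn⟩ := MulAction.exists_smul_eq N x (g • x)
    have h1 : (n : G)⁻¹ * g ∈ MulAction.stabilizer G x := by
      rw [MulAction.mem_stabilizer_iff, mul_smul, ← hn]
      exact inv_smul_smul (n : G) x
    have := N.mul_mem n.2 (Subgroup.subgroupOf_eq_top.mp h h1)
    simpa using this
  refine ⟨N, hN, hN1, hN2, htr, fun y => ?_⟩
  obtain ⟨m, hm⟩ := MulAction.exists_smul_eq N x y
  rw [Subgroup.eq_bot_iff_forall]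
  intro n hn
  have h1 : ((m⁻¹ * n * m : N) : G) ∈ MulAction.stabilizer G x := by
    rw [MulAction.mem_stabilizer_iff]
    show (m⁻¹ * n * m) • x = x
    rw [mul_smul, mul_smul, hm, MulAction.mem_stabilizer_iff.mp hn, ← hm, inv_smul_smul]
  have h2 : (⟨_, h1⟩ : MulAction.stabilizer G x) ∈ N.subgroupOf (MulAction.stabilizer G x) :=
    Subgroup.mem_subgroupOf.mpr (m⁻¹ * n * m).2
  rw [hx, Subgroup.mem_bot] at h2
  have h3 : m⁻¹ * n * m = 1 := Subtype.ext (show ((m⁻¹ * n * m : N) : G) = 1 from congrArg Subtype.val h2)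
  simpa [mul_assoc] using congrArg (fun t => m * t * m⁻¹) h3

end Cfsg.Agent.S4300
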