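import Cfsg.Statements.S4301

set_option autoImplicit false
open Cfsg

namespace Cfsg.Agent.S4301

/-- One-point extension of a multiply transitive group. Let X be a set and G a group of permutations of Option X (the set X with one extra point ∗ = none) all of whose elements fix ∗, such that G is k-transitive on the points of X for some k ≥ 2, X having at least k points. Suppose a permutation h of Option X and an element g of G satisfy: h interchanges ∗ with a point x of X and fixes a point y of X; g interchanges x and y; (g h)³ and h² lie in G; and for every f in G fixing x, the product h f h lies in G and fixes x. Then an element of the group generated by G and h fixes ∗ exactly when it lies in G, and that group acts (k+1)-transitively on Option X. -/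
theorem result {X : Type*} (G : Subgroup (Equiv.Perm (Option X))) (hfix : ∀ f ∈ G, f none = none)
    (k : ℕ) (hk : 2 ≤ k) (hkX : Nonempty (Fin k ↪ X))
    (htrans : ∀ a b : Fin k ↪ X, ∃ f ∈ G, ∀ i, f (some (a i)) = some (b i))
    (h g : Equiv.Perm (Option X)) (hg : g ∈ G) (x y : X)
    (h1 : h none = some x) (h2 : h (some x) = none) (h3 : h (some y) = some y)
    (h4 : g (some x) = some y) (h5 : g (some y) = some x)
    (h6 : (g * h) ^ 3 ∈ G) (h7 : h ^ 2 ∈ G)
    (h8 : ∀ f ∈ G, f (some x) = some x → h * f * h ∈ G ∧ (h * f * h) (some x) = some x) :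
    (∀ f ∈ Subgroup.closure ((G : Set (Equiv.Perm (Option X))) ∪ {h}), f none = none ↔ f ∈ G) ∧
      MulAction.IsMultiplyPretransitive (Subgroup.closure ((G : Set (Equiv.Perm (Option X))) ∪ {h})) (Option X) (k + 1) := by
  classical
  have i0 : 0 < k := by omega
  have i1 : 1 < k := by omega
  set j0 : Fin k := ⟨0, i0⟩
  set j1 : Fin k := ⟨1, i1⟩
  have hj : j0 ≠ j1 := by simp [j0, j1, Fin.ext_iff]
  obtain ⟨e₀⟩ := hkX
  have hemb : ∀ u v : X, u ≠ v → ∃ a : Fin k ↪ X, a j0 = u ∧ a j1 = v := by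
    intro u v huv
    let a := e₀.trans (Equiv.swap (e₀ j0) u).toEmbedding
    have ha : a j0 = u := by simp [a]
    refine ⟨a.trans (Equiv.swap (a j1) v).toEmbedding, ?_, by simp⟩
    show Equiv.swap (a j1) v (a j0) = u
    rw [Equiv.swap_apply_of_ne_of_ne (a.injective.ne hj) (by rw [ha]; exact huv), ha]
  have hxy : x ≠ y := fun e => by
    rw [e] at h2
    rw [h3] at h2
    exact Option.some_ne_none _ h2
  have hone : ∀ u v : X, ∃ f ∈ G, f (some u) = some v := fun u v => by
    obtain ⟨f, hf, hfe⟩ := htrans (e₀.trans (Equiv.swap (e₀ j0) u).toEmbedding) (e₀.trans (Equiv.swap (e₀ j0) v).toEmbedding)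
    exact ⟨f, hf, by simpa using hfe j0⟩
  have h22 : (h ^ 2)⁻¹ ∈ G := G.inv_mem h7
  -- the double coset
  let D : Set (Equiv.Perm (Option X)) := {w | ∃ u ∈ G, ∃ v ∈ G, w = u * h * v}
  have hghD : h * g * h ∈ D := by
    refine ⟨g⁻¹ * (g * h) ^ 3 * (h ^ 2)⁻¹, G.mul_mem (G.mul_mem (G.inv_mem hg) h6) h22, g⁻¹, G.inv_mem hg, ?_⟩
    rw [pow_succ (g * h) 2, pow_two, pow_two]
    group
  have hfh : ∀ f ∈ G, h * f * h ∈ G ∨ h * f * h ∈ D := by
    intro f hf
    rcases eq_or_ne (f (some x)) (some x) with hx | hx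
    · exact Or.inl (h8 f hf hx).1
    right
    obtain ⟨z, hz⟩ : ∃ z, f (some x) = some z := by
      rcases hfz : f (some x) with _ | z
      · exact absurd (f.injective (hfz.trans (hfix f hf).symm)) (Option.some_ne_none _)
      · exact ⟨z, rfl⟩
    obtain ⟨a₁, ha₁, ha₁'⟩ := hemb x y hxy
    obtain ⟨a₂, ha₂, ha₂'⟩ := hemb x z (fun e => hx (by rw [hz, e]))
    obtain ⟨a, haG, hae⟩ := htrans a₁ a₂
    have hax : a (some x) = some x := by simpa [ha₁, ha₂] using hae j0
    have hay : a (some y) = some z := by simpa [ha₁', ha₂'] using hae j1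
    set b := g⁻¹ * a⁻¹ * f with hb
    have hbG : b ∈ G := G.mul_mem (G.mul_mem (G.inv_mem hg) (G.inv_mem haG)) hf
    have hbx : b (some x) = some x := by
      rw [hb, Equiv.Perm.mul_apply, Equiv.Perm.mul_apply, hz, ← hay, Equiv.Perm.coe_inv, Equiv.Perm.coe_inv, Equiv.symm_apply_apply, ← h4, Equiv.symm_apply_apply]
    obtain ⟨u, hu, v, hv, huv⟩ := hghD
    refine ⟨(h * a * h) * (h ^ 2)⁻¹ * u, G.mul_mem (G.mul_mem (h8 a haG hax).1 h22) hu,
      v * (h ^ 2)⁻¹ * (h * b * h), G.mul_mem (G.mul_mem hv h22) (h8 b hbG hbx).1, ?_⟩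
    calc h * f * h = (h * a * h) * (h ^ 2)⁻¹ * (h * g * h) * (h ^ 2)⁻¹ * (h * b * h) := by rw [hb, pow_two]; group
      _ = _ := by rw [huv]; group
  have hhinv : h⁻¹ = (h ^ 2)⁻¹ * h := by rw [pow_two]; group
  let S : Subgroup (Equiv.Perm (Option X)) :=
    { carrier := (G : Set (Equiv.Perm (Option X))) ∪ D
      one_mem' := Or.inl G.one_mem
      mul_mem' := by
        rintro p q (hp | ⟨u, hu, v, hv, rfl⟩) (hq | ⟨u', hu', v', hv', rfl⟩)
        · exact Or.inl (G.mul_mem hp hq)
        · exact Or.inr ⟨p * u', G.mul_mem hp hu', v', hv', by group⟩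
        · exact Or.inr ⟨u, hu, v * q, G.mul_mem hv hq, by group⟩
        · rcases hfh (v * u') (G.mul_mem hv hu') with hw | ⟨s, hs, t, ht, hst⟩
          · exact Or.inl (by
              rw [show u * h * v * (u' * h * v') = u * (h * (v * u') * h) * v' by group]
              exact G.mul_mem (G.mul_mem hu hw) hv')
          · exact Or.inr ⟨u * s, G.mul_mem hu hs, t * v', G.mul_mem ht hv', by
              rw [show u * h * v * (u' * h * v') = u * (h * (v * u') * h) * v' by group, hst]; group⟩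
      inv_mem' := by
        rintro p (hp | ⟨u, hu, v, hv, rfl⟩)
        · exact Or.inl (G.inv_mem hp)
        · exact Or.inr ⟨v⁻¹ * (h ^ 2)⁻¹, G.mul_mem (G.inv_mem hv) h22, u⁻¹, G.inv_mem hu, by
            rw [mul_inv_rev, mul_inv_rev, hhinv]; group⟩ }
  have hGS : G ≤ S := fun f hf => Or.inl hf
  have hhS : h ∈ S := Or.inr ⟨1, G.one_mem, 1, G.one_mem, by simp⟩
  have hcl : Subgroup.closure ((G : Set (Equiv.Perm (Option X))) ∪ {h}) = S := by
    refine le_antisymm ((Subgroup.closure_le _).mpr (Set.union_subset hGS (Set.singleton_subset_iff.mpr hhS))) ?_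
    rintro p (hp | ⟨u, hu, v, hv, rfl⟩)
    · exact Subgroup.subset_closure (Or.inl hp)
    · exact Subgroup.mul_mem _ (Subgroup.mul_mem _ (Subgroup.subset_closure (Or.inl hu)) (Subgroup.subset_closure (Or.inr rfl)))
        (Subgroup.subset_closure (Or.inl hv))
  rw [hcl]
  refine ⟨fun f hf => ⟨fun he => ?_, hfix f⟩, ⟨fun e e' => ?_⟩⟩
  · rcases hf with hf | ⟨u, hu, v, hv, rfl⟩
    · exact hf
    · rw [Equiv.Perm.mul_apply, Equiv.Perm.mul_apply, hfix v hv, h1, ← hfix u hu] at he
      exact absurd (u.injective he) (Option.some_ne_none x)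
  · -- move the first point to none
    have move : ∀ e : Fin (k + 1) ↪ Option X, ∃ s : S, ∃ a : Fin k ↪ X,
        (s : Equiv.Perm (Option X)) (e 0) = none ∧ ∀ i, (s : Equiv.Perm (Option X)) (e i.succ) = some (a i) := by
      intro e
      obtain ⟨s, hs, hs0⟩ : ∃ s ∈ S, s (e 0) = none := by
        rcases he : e 0 with _ | z
        · exact ⟨1, S.one_mem, rfl⟩
        · obtain ⟨f, hf, hfz⟩ := hone z x
          exact ⟨h * f, S.mul_mem hhS (hGS hf), by rw [Equiv.Perm.mul_apply, hfz, h2]⟩
      have hex : ∀ i : Fin k, ∃ z, s (e i.succ) = some z := fun i => by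
        rcases hz : s (e i.succ) with _ | z
        · exact absurd (e.injective (s.injective (hz.trans hs0.symm))) (Fin.succ_ne_zero i)
        · exact ⟨z, rfl⟩
      choose a ha using hex
      refine ⟨⟨s, hs⟩, ⟨a, fun i j hij => ?_⟩, hs0, ha⟩
      exact Fin.succ_injective _ (e.injective (s.injective (by rw [ha, ha, hij])))
    obtain ⟨s, a, hs0, hsa⟩ := move e
    obtain ⟨t, b, ht0, htb⟩ := move e'
    obtain ⟨f, hf, hfe⟩ := htrans a b
    refine ⟨t⁻¹ * ⟨f, hGS hf⟩ * s, ?_⟩
    ext i : 1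
    show (t : Equiv.Perm (Option X))⁻¹ (f ((s : Equiv.Perm (Option X)) (e i))) = e' i
    rw [Equiv.Perm.inv_eq_iff_eq]
    refine Fin.cases ?_ (fun j => ?_) i
    · rw [hs0, hfix f hf, ht0]
    · rw [hsa, hfe, htb]

end Cfsg.Agent.S4301
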