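import Cfsg.Statements.S4303
import Mathlib
import Cfsg.Agent.Lib.GroupB.Coprime
import Cfsg.Agent.Lib.GroupB.SylowQuot

set_option autoImplicit false
universe u
open Cfsg

namespace Cfsg.Agent.S4303
open CfsgLib.GroupB in
/-- For a `p`-group `A` acting on the `p'`-group `K`, each prime part of `|K : C_K(A)|` is `≡ 1 (mod p)`. -/
theorem part_mod {X : Type*} [Group X] [Finite X] {p : ℕ} [Fact p.Prime] (K A : Subgroup X)
    (hAK : A ≤ Subgroup.normalizer (K : Set X)) (hA : IsPGroup p A) (hK : (Nat.card K).Coprime p)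
    (ℓ : ℕ) [Fact ℓ.Prime] :
    ℓ ^ ((K ⊓ Subgroup.centralizer (A : Set X)).relIndex K).factorization ℓ ≡ 1 [MOD p] := by
  classical
  obtain ⟨m, hm⟩ := hA.exists_card_eq
  have hcop : (Nat.card A).Coprime (Nat.card K) := hm ▸ (hK.pow_right m).symm
  haveI : Group.IsNilpotent A := hA.isNilpotent
  set C := K ⊓ Subgroup.centralizer (A : Set X) with hC
  obtain ⟨S⟩ := (inferInstance : Nonempty (Sylow ℓ C))
  set U := (S : Subgroup C).map C.subtype with hU
  have hUC : U ≤ C := Subgroup.map_subtype_le _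
  have hUA : A ≤ Subgroup.normalizer (U : Set X) := fun a ha => by
    rw [Subgroup.mem_normalizer_iff]
    intro x
    constructor
    · intro hx
      rwa [(hUC hx).2 a ha, mul_inv_cancel_right]
    · intro hx
      have h1 : a * (a * x * a⁻¹) = a * x * a⁻¹ * a := (hUC hx).2 a ha
      have e : a * x * a⁻¹ = x := by
        calc a * x * a⁻¹ = a⁻¹ * (a * (a * x * a⁻¹)) := by group
          _ = x := by rw [h1]; group
      rwa [e] at hx
  obtain ⟨L, hUL, hL, hLA⟩ := Coprime.exists_invariant_sylow_ge hAK hcop (Or.inr inferInstance) ℓ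
    (hUC.trans inf_le_left) (S.2.map _) hUA
  have hLC : L ⊓ C = U := by
    refine le_antisymm ?_ (le_inf hUL hUC)
    have h1 : IsPGroup ℓ ((L ⊓ C).subgroupOf C) :=
      (hL.isPGroup.to_le inf_le_left).comap_subtype
    have h2 := S.3 h1 (fun x hx => Subgroup.mem_subgroupOf.mpr ⟨hUL ⟨x, hx, rfl⟩, x.2⟩)
    intro x hx
    exact ⟨⟨x, hx.2⟩, h2.le (Subgroup.mem_subgroupOf.mpr hx), rfl⟩
  letI act : MulAction A L :=
    { smul := fun x v => ⟨(x : X) * v * (x : X)⁻¹, (Subgroup.mem_normalizer_iff.mp (hLA x.2) v).mp v.2⟩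
      one_smul := fun v => Subtype.ext (by show ((1 : A) : X) * v * ((1 : A) : X)⁻¹ = v; simp)
      mul_smul := fun x y v => Subtype.ext (by
        show ((x * y : A) : X) * v * ((x * y : A) : X)⁻¹ = (x : X) * ((y : X) * v * (y : X)⁻¹) * (x : X)⁻¹
        simp [mul_assoc]) }
  have hfix : Nat.card (MulAction.fixedPoints A L) = Nat.card U := by
    refine Nat.card_congr
      { toFun := fun v => ⟨v.1.1, hLC.le ⟨v.1.2, hL.1 v.1.2, fun x hx => mul_inv_eq_iff_eq_mul.mp (congrArg Subtype.val (v.2 ⟨x, hx⟩))⟩⟩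
        invFun := fun v => ⟨⟨v.1, hUL v.2⟩, fun x => Subtype.ext (mul_inv_eq_iff_eq_mul.mpr ((hUC v.2).2 x x.2))⟩
        left_inv := fun v => rfl
        right_inv := fun v => rfl }
  have hmod : Nat.card L ≡ Nat.card U [MOD p] := hfix ▸ hA.card_modEq_card_fixedPoints L
  have hKC : Nat.card C * C.relIndex K = Nat.card K := by
    have h1 := Subgroup.card_mul_index (C.subgroupOf K)
    rwa [Nat.card_congr (Subgroup.subgroupOfEquivOfLe (inf_le_left : C ≤ K)).toEquiv] at h1
  have hUc : Nat.card U = ℓ ^ (Nat.card C).factorization ℓ := by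
    rw [hU, Subgroup.card_map_of_injective C.subtype_injective, S.card_eq_multiplicity]
  have hne : C.relIndex K ≠ 0 := Subgroup.index_ne_zero_of_finite
  rw [hL.2, ← hKC, Nat.factorization_mul Nat.card_pos.ne' hne, Finsupp.add_apply, pow_add, hUc] at hmod
  have hcop2 : Nat.Coprime p (ℓ ^ (Nat.card C).factorization ℓ) := by
    refine (Nat.Coprime.coprime_dvd_left ?_ hK).symm
    rw [← hUc]
    exact (Subgroup.card_dvd_of_le (hUC.trans inf_le_left))
  exact Nat.ModEq.cancel_left_of_coprime hcop2 (by rw [mul_one]; exact hmod)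

theorem main (p : ℕ) [Fact p.Prime] : ∀ (n : ℕ) (G : Type u) [Group G] [Finite G], Nat.card G = n →
    ∃ l : List ℕ, l.prod = Nat.card (Sylow p G) ∧
      ∀ m ∈ l, (IsPrimePow m ∧ m % p = 1) ∨
        ∃ (S : Type u) (_ : Group S) (_ : Finite S), IsSimpleGroup S ∧ m = Nat.card (Sylow p S) := by
  classical
  intro n
  induction n using Nat.strong_induction_on with
  | _ n ih =>
  intro G _ _ hn
  rcases subsingleton_or_nontrivial G with hs | hnt
  · haveI : Subsingleton (Sylow p G) := ⟨fun A B => Sylow.ext (Subsingleton.elim _ _)⟩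
    exact ⟨[], by rw [Nat.card_of_subsingleton (Classical.arbitrary (Sylow p G))]; rfl, by simp⟩
  by_cases hsimp : IsSimpleGroup G
  · exact ⟨[Nat.card (Sylow p G)], by simp, fun m hm => Or.inr ⟨G, inferInstance, inferInstance, hsimp, by simpa using hm⟩⟩
  obtain ⟨N, hN, hN1, hN2⟩ : ∃ N : Subgroup G, N.Normal ∧ N ≠ ⊥ ∧ N ≠ ⊤ := by
    by_contra h
    refine hsimp ⟨fun N hN => ?_⟩
    by_contra h'
    push Not at h'
    exact h ⟨N, hN, h'.1, h'.2⟩
  haveI := hN
  have hlt1 : Nat.card (G ⧸ N) < n := by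
    rw [← hn, Subgroup.card_eq_card_quotient_mul_card_subgroup N]
    exact lt_mul_of_one_lt_right Nat.card_pos ((Subgroup.one_lt_card_iff_ne_bot N).mpr hN1)
  have hlt2 : Nat.card N < n := by
    rw [← hn]
    exact lt_of_le_of_ne (Subgroup.card_le_card_group N) fun e => hN2 (Subgroup.eq_top_of_card_eq N e)
  obtain ⟨l1, hl1, hl1'⟩ := ih _ hlt1 (G ⧸ N) rfl
  obtain ⟨l2, hl2, hl2'⟩ := ih _ hlt2 N rfl
  obtain ⟨P⟩ := (inferInstance : Nonempty (Sylow p G))
  set R := Subgroup.normalizer ((P : Subgroup G) : Set G) with hR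
  set Q := (P : Subgroup G) ⊓ N with hQ
  set H := Subgroup.normalizer (Q : Set G) with hH
  set M := N ⊓ H with hM
  have hRH : R ≤ H := by
    intro r hr
    rw [hH, Subgroup.mem_normalizer_iff]
    intro x
    rw [hR, Subgroup.mem_normalizer_iff] at hr
    exact and_congr (hr x) ⟨fun hx => hN.conj_mem x hx r, fun hx => by simpa [mul_assoc] using hN.conj_mem _ hx r⁻¹⟩
  have hRM : R ⊓ N ≤ M := fun x hx => ⟨hx.2, hRH hx.1⟩
  -- `Q` is a Sylow subgroup of `N`
  have hQp : IsPGroup p (Q.subgroupOf N) := (P.2.to_le (inf_le_left : Q ≤ (P : Subgroup G))).comap_subtype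
  obtain ⟨T, hT⟩ := hQp.exists_le_sylow
  have hTQ : (T : Subgroup N) = Q.subgroupOf N := by
    refine le_antisymm ?_ hT
    have hT' : IsPGroup p ((T : Subgroup N).map N.subtype) := T.2.map _
    obtain ⟨P', hP'⟩ := hT'.exists_le_sylow
    obtain ⟨g, hg⟩ := MulAction.exists_smul_eq G P' P
    refine (Subgroup.eq_of_le_of_card_ge hT ?_).ge
    rw [Nat.card_congr (Subgroup.subgroupOfEquivOfLe (inf_le_right : Q ≤ N)).toEquiv,
      ← Subgroup.card_map_of_injective N.subtype_injective]
    refine Nat.card_le_card_of_injective (fun x => (⟨g * x.1 * g⁻¹, ?_, hN.conj_mem _ (Subgroup.map_subtype_le _ x.2) g⟩ : Q)) ?_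
    · rw [← hg]; exact ⟨x.1, hP' x.2, rfl⟩
    · intro a b e
      exact Subtype.ext (mul_left_cancel (mul_right_cancel (congrArg Subtype.val e)))
  have hnN : Nat.card (Sylow p N) = M.relIndex N := by
    rw [Sylow.card_eq_index_normalizer T]
    show (Subgroup.normalizer ((T : Subgroup N) : Set N)).index = (M.subgroupOf N).index
    congr 1
    ext x
    rw [hTQ, Subgroup.mem_normalizer_iff, Subgroup.mem_subgroupOf, hM, Subgroup.mem_inf, hH, Subgroup.mem_normalizer_iff]
    constructor
    · intro h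
      refine ⟨x.2, fun y => ⟨fun hy => ?_, fun hy => ?_⟩⟩
      · exact (h ⟨y, hy.2⟩).mp hy
      · have hyN : y ∈ N := by
          have := N.mul_mem (N.mul_mem (N.inv_mem x.2) hy.2) x.2
          simpa [mul_assoc] using this
        exact (h ⟨y, hyN⟩).mpr hy
    · intro h y
      exact h.2 y
  -- the quotient of `H` by `Q`
  have hQH : Q ≤ H := Subgroup.le_normalizer
  haveI : (Q.subgroupOf H).Normal := Subgroup.normal_subgroupOf_of_le_normalizer le_rfl
  set f : H →* H ⧸ Q.subgroupOf H := QuotientGroup.mk' (Q.subgroupOf H) with hf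
  set K := (M.subgroupOf H).map f with hK
  set A := ((P : Subgroup G).subgroupOf H).map f with hA
  have hPH : (P : Subgroup G) ≤ H := Subgroup.le_normalizer.trans hRH
  have hMH : M ≤ H := inf_le_right
  have hAK : A ≤ Subgroup.normalizer (K : Set (H ⧸ Q.subgroupOf H)) := by
    haveI : (M.subgroupOf H).Normal := ⟨fun x hx g => by
      rw [Subgroup.mem_subgroupOf] at hx ⊢
      exact ⟨hN.conj_mem _ hx.1 g, (g * x * g⁻¹).2⟩⟩
    haveI : K.Normal := Subgroup.Normal.map inferInstance f (QuotientGroup.mk'_surjective _)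
    rw [Subgroup.normalizer_eq_top_iff.mpr inferInstance]
    exact le_top
  have hAp : IsPGroup p A := (P.2.comap_subtype (K := H)).map f
  have hKc : (Nat.card K).Coprime p := by
    refine ((Nat.Prime.coprime_iff_not_dvd (Fact.out : p.Prime)).mpr fun hd => ?_).symm
    have h1 : Nat.card K * Nat.card Q = Nat.card M := by
      set φ := f.comp (M.subgroupOf H).subtype with hφ
      have h2 := Subgroup.card_mul_index φ.ker
      rw [Subgroup.index_ker, MonoidHom.range_comp, Subgroup.range_subtype] at h2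
      rw [hK, ← Nat.card_congr (Subgroup.subgroupOfEquivOfLe hMH).toEquiv, ← h2, mul_comm]
      congr 1
      refine (Nat.card_congr
        { toFun := fun a => ⟨a.1.1.1, Subgroup.mem_subgroupOf.mp ((QuotientGroup.eq_one_iff _).mp a.2)⟩
          invFun := fun a => ⟨⟨⟨a.1, hQH a.2⟩, Subgroup.mem_subgroupOf.mpr ⟨a.2.2, hQH a.2⟩⟩,
            (QuotientGroup.eq_one_iff _).mpr (Subgroup.mem_subgroupOf.mpr a.2)⟩
          left_inv := fun a => rfl
          right_inv := fun a => rfl }).symm
    have h3 : p * Nat.card Q ∣ Nat.card N := (Nat.mul_dvd_mul_right hd _).trans (h1 ▸ Subgroup.card_dvd_of_le inf_le_left)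
    have h4 := T.card_eq_multiplicity
    rw [hTQ, Nat.card_congr (Subgroup.subgroupOfEquivOfLe (inf_le_right : Q ≤ N)).toEquiv] at h4
    rw [h4, ← pow_succ'] at h3
    have := ((Fact.out : p.Prime).pow_dvd_iff_le_factorization Nat.card_pos.ne').mp h3
    omega
  -- the last factor is `|K : C_K(A)|`
  have hlast : (R ⊓ N).relIndex M = (K ⊓ Subgroup.centralizer (A : Set (H ⧸ Q.subgroupOf H))).relIndex K := by
    let φ : M →* K := (f.comp (Subgroup.inclusion hMH)).codRestrict K (fun m =>
      ⟨Subgroup.inclusion hMH m, Subgroup.mem_subgroupOf.mpr m.2, rfl⟩)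
    have hφ : Function.Surjective φ := by
      rintro ⟨_, x, hx, rfl⟩
      exact ⟨⟨x.1, Subgroup.mem_subgroupOf.mp hx⟩, rfl⟩
    show ((R ⊓ N).subgroupOf M).index = ((K ⊓ Subgroup.centralizer (A : Set (H ⧸ Q.subgroupOf H))).subgroupOf K).index
    rw [← Subgroup.index_comap_of_surjective _ hφ]
    congr 1
    ext m
    rw [Subgroup.mem_comap, Subgroup.mem_subgroupOf, Subgroup.mem_subgroupOf]
    have hcomm : ∀ a : H, (f a * φ m = φ m * f a) ↔ (m : G)⁻¹ * (a : G)⁻¹ * (m : G) * (a : G) ∈ Q := by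
      intro a
      show f a * f (Subgroup.inclusion hMH m) = f (Subgroup.inclusion hMH m) * f a ↔ _
      rw [← map_mul, ← map_mul, hf, QuotientGroup.mk'_apply, QuotientGroup.mk'_apply, QuotientGroup.eq,
        Subgroup.mem_subgroupOf]
      simp [mul_assoc]
    constructor
    · intro hm
      refine ⟨(φ m).2, ?_⟩
      rintro _ ⟨a, ha, rfl⟩
      refine (hcomm a).mpr ⟨?_, ?_⟩
      · have h1 := (Subgroup.mem_normalizer_iff.mp (R.inv_mem hm.1) (a : G)⁻¹).mp (Subgroup.inv_mem _ (Subgroup.mem_subgroupOf.mp ha))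
        have := Subgroup.mul_mem _ h1 (Subgroup.mem_subgroupOf.mp ha)
        show _ ∈ (P : Subgroup G)
        simpa [mul_assoc] using this
      · have h1 := N.mul_mem (N.inv_mem m.2.1) (hN.conj_mem _ m.2.1 (a : G)⁻¹)
        simpa [mul_assoc] using h1
    · intro hm
      refine ⟨?_, m.2.1⟩
      have h2 : ∀ a ∈ (P : Subgroup G), (m : G)⁻¹ * a⁻¹ * (m : G) * a ∈ Q := fun a ha =>
        (hcomm ⟨a, hPH ha⟩).mp (hm.2 _ ⟨⟨a, hPH ha⟩, Subgroup.mem_subgroupOf.mpr ha, rfl⟩)
      refine (Subgroup.inv_mem_iff _).mp ?_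
      rw [hR, Subgroup.mem_normalizer_iff_map_conj_eq]
      refine Subgroup.eq_of_le_of_card_ge ?_ (Nat.card_congr ((P : Subgroup G).equivMapOfInjective _ (MulAut.conj (m : G)⁻¹).injective).toEquiv).le
      rintro _ ⟨a, ha, rfl⟩
      show (m : G)⁻¹ * a * (m : G)⁻¹⁻¹ ∈ (P : Subgroup G)
      have := Subgroup.mul_mem _ (h2 a⁻¹ (Subgroup.inv_mem _ ha)).1 ha
      simpa [mul_assoc] using this
  set d := (R ⊓ N).relIndex M with hd
  have hprod : Nat.card (Sylow p G) = Nat.card (Sylow p (G ⧸ N)) * (Nat.card (Sylow p N) * d) := by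
    rw [CfsgLib.GroupB.SylowQuot.card_sylow_quotient_eq_index P N, Sylow.card_eq_index_normalizer P, hnN]
    show R.index = _
    rw [← Subgroup.relIndex_mul_index (le_sup_left : R ≤ R ⊔ N), mul_comm]
    congr 1
    have key : R.relIndex (R ⊔ N) * Nat.card (R ⊓ N : Subgroup G) = Nat.card N := by
      have a1 := Subgroup.card_mul_index (R.subgroupOf (R ⊔ N))
      rw [Nat.card_congr (Subgroup.subgroupOfEquivOfLe (le_sup_left : R ≤ R ⊔ N)).toEquiv] at a1
      have a2 := Subgroup.card_mul_index (N.subgroupOf (R ⊔ N))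
      rw [Nat.card_congr (Subgroup.subgroupOfEquivOfLe (le_sup_right : N ≤ R ⊔ N)).toEquiv] at a2
      have a3 := Subgroup.card_mul_index (N.subgroupOf R)
      rw [← Subgroup.inf_subgroupOf_left, Nat.card_congr (Subgroup.subgroupOfEquivOfLe (inf_le_left : R ⊓ N ≤ R)).toEquiv] at a3
      rw [Subgroup.inf_subgroupOf_left] at a3
      change _ * N.relIndex (R ⊔ N) = _ at a2
      change _ * R.relIndex (R ⊔ N) = _ at a1
      change _ * N.relIndex R = _ at a3
      rw [Subgroup.relIndex_sup_right] at a2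
      refine Nat.eq_of_mul_eq_mul_left (show 0 < N.relIndex R from Nat.pos_of_ne_zero Subgroup.index_ne_zero_of_finite) ?_
      calc N.relIndex R * (R.relIndex (R ⊔ N) * Nat.card (R ⊓ N : Subgroup G))
          = (Nat.card (R ⊓ N : Subgroup G) * N.relIndex R) * R.relIndex (R ⊔ N) := by ring
        _ = Nat.card (R ⊔ N : Subgroup G) := by rw [a3, a1]
        _ = _ := by rw [← a2]; ring
    refine Nat.eq_of_mul_eq_mul_right (Nat.card_pos (α := (R ⊓ N : Subgroup G))) ?_
    rw [key, hd, mul_comm (M.relIndex N), Subgroup.relIndex_mul_relIndex (R ⊓ N) M N hRM inf_le_left]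
    have h1 := Subgroup.card_mul_index ((R ⊓ N).subgroupOf N)
    rw [Nat.card_congr (Subgroup.subgroupOfEquivOfLe (inf_le_right : R ⊓ N ≤ N)).toEquiv] at h1
    rw [mul_comm]; exact h1.symm
  have hd0 : d ≠ 0 := Subgroup.index_ne_zero_of_finite
  refine ⟨l1 ++ (l2 ++ d.factorization.support.toList.map (fun q => q ^ d.factorization q)), ?_, ?_⟩
  · rw [List.prod_append, List.prod_append, hl1, hl2, Finset.prod_map_toList]
    have e : d.factorization.support.prod (fun q => q ^ d.factorization q) = d := Nat.prod_factorization_pow_eq_self hd0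
    rw [e]
    exact hprod.symm
  · intro m hm
    rcases List.mem_append.mp hm with h | h
    · exact hl1' m h
    rcases List.mem_append.mp h with h | h
    · exact hl2' m h
    obtain ⟨q, hq, rfl⟩ := List.mem_map.mp h
    have hq' := Finset.mem_toList.mp hq
    have hqp : q.Prime := Nat.prime_of_mem_primeFactors (by rwa [← Nat.support_factorization])
    haveI := Fact.mk hqp
    refine Or.inl ⟨hqp.isPrimePow.pow (Finsupp.mem_support_iff.mp hq'), ?_⟩
    have h := part_mod K A hAK hAp hKc q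
    rw [← hlast] at h
    exact Eq.trans h (Nat.mod_eq_of_lt (Fact.out : p.Prime).one_lt)

/-- For a finite group `G` and a prime `p`, the number of Sylow `p`-subgroups of `G` is a product of natural numbers each of which is either a prime power congruent to 1 modulo `p` or the number of Sylow `p`-subgroups of some finite simple group. -/
theorem result {G : Type u} [Group G] [Finite G]
    (p : ℕ) [Fact p.Prime] :
    ∃ l : List ℕ, l.prod = Nat.card (Sylow p G) ∧
      ∀ m ∈ l, (IsPrimePow m ∧ m % p = 1) ∨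
        ∃ (S : Type u) (_ : Group S) (_ : Finite S), IsSimpleGroup S ∧ m = Nat.card (Sylow p S) := by
  exact main p _ G rfl

end Cfsg.Agent.S4303
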