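import Cfsg.Statements.S4309
import Cfsg.Agent.Lib.GroupB.Hall
import Mathlib.Tactic

set_option autoImplicit false
open Cfsg

namespace Cfsg.Agent.S4309

/-- Let `π` be a set of primes, `G` a finite group with a Hall `π`-subgroup `H` (every prime divisor of the order of `H` lies in `π` and no prime of `π` divides its index), and `A` a normal subgroup of `G`. Then `H ∩ A` is a Hall `π`-subgroup of `A` and the image of `H` in `G/A` is a Hall `π`-subgroup of `G/A`. -/
theorem result {G : Type*} [Group G] [Finite G] (π : Set ℕ)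
    (H A : Subgroup G) [A.Normal] (hH : Cfsg.IsPiHall π H) :
    Cfsg.IsPiHall π ((H ⊓ A).subgroupOf A) ∧ Cfsg.IsPiHall π (H.map (QuotientGroup.mk' A)) := by
  refine ⟨⟨fun p hp hd => hH.1 p hp ?_, fun p hp hpi hd => hH.2 p hp hpi ?_⟩,
    CfsgLib.GroupB.Hall.isPiHall_map (QuotientGroup.mk'_surjective A) hH⟩
  · rw [Nat.card_congr (Subgroup.subgroupOfEquivOfLe (inf_le_right : H ⊓ A ≤ A)).toEquiv] at hd
    exact hd.trans (Subgroup.card_dvd_of_le inf_le_left)
  · have h1 : (H ⊓ A).relIndex A = H.relIndex A := Subgroup.inf_relIndex_right _ _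
    rw [← Subgroup.relIndex, h1] at hd
    exact hd.trans (by
      have h2 := Subgroup.relIndex_mul_index (le_sup_right : A ≤ H ⊔ A)
      have h3 : H.relIndex A = H.relIndex (H ⊔ A) := by
        have a1 := Subgroup.relIndex_mul_relIndex ⊥ H (H ⊔ A) bot_le le_sup_left
        have a2 := Subgroup.relIndex_mul_relIndex ⊥ A (H ⊔ A) bot_le le_sup_right
        have b1 := Subgroup.relIndex_mul_relIndex ⊥ (H ⊓ A) H bot_le inf_le_left
        have b2 := Subgroup.relIndex_mul_relIndex ⊥ (H ⊓ A) A bot_le inf_le_right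
        rw [Subgroup.relIndex_bot_left, Subgroup.relIndex_bot_left] at a1 a2 b1 b2
        rw [Subgroup.inf_relIndex_left] at b1
        rw [Subgroup.inf_relIndex_right] at b2
        rw [Subgroup.relIndex_sup_right] at a2
        refine Nat.eq_of_mul_eq_mul_left (Nat.card_pos (α := H)) ?_
        rw [a1, ← a2, ← b1, ← b2]; ring
      rw [h3]
      exact Subgroup.relIndex_dvd_index_of_le le_sup_left)

end Cfsg.Agent.S4309
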