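import Mathlib
-- Template for statement S4314 (row 4314; see /opt/grader/pristine/manifest.json for weights).
-- Copy to Cfsg/Agent/S4314.lean and replace the sorry. The statement below is byte-identical to the frozen
-- statement Cfsg.CfsgFrozen.S4314 (Cfsg/Statements/S4314.lean; the theorem Cfsg.fg16_class_sizes_one_or_prime);
-- the grader kernel-checks Cfsg.Agent.S4314.result against that frozen type. Keep the theorem IN THIS FILE
-- (a `result` declared elsewhere and merely imported here is not credited); helpers may live anywhere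
-- under Cfsg/Agent/.
-- import your own Cfsg.Agent.* helpers here

set_option autoImplicit false

namespace Cfsg.Agent.S4314

/-- Let `G` be a finite group every conjugacy class of which has size 1 or a prime. Then either `G` is nilpotent of class at most 2, or `G/Z(G)` is a non-abelian group of order `pq` for distinct primes `p, q` (a Frobenius group of order `pq`). -/
theorem result {G : Type*} [Group G] [Finite G]
    (h : ∀ x : G, (Subgroup.centralizer ({x} : Set G)).index = 1 ∨ ((Subgroup.centralizer ({x} : Set G)).index).Prime) :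
    Subgroup.upperCentralSeries G 2 = ⊤ ∨
      ∃ p q : ℕ, p.Prime ∧ q.Prime ∧ p ≠ q ∧ Nat.card (G ⧸ Subgroup.center G) = p * q ∧ ¬ IsMulCommutative (G ⧸ Subgroup.center G) := by
  classical
  by_cases hall : ∀ x : G, (Subgroup.centralizer ({x} : Set G)).Normal
  · left
    have hder : ∀ a b : G, a * b * a⁻¹ * b⁻¹ ∈ Subgroup.center G := by
      intro a b
      refine Subgroup.mem_center_iff.mpr fun x => ?_
      rcases h x with h1 | h1
      · rw [Subgroup.index_eq_one] at h1
        exact (Subgroup.mem_centralizer_singleton_iff.mp (h1 ▸ Subgroup.mem_top _ : a * b * a⁻¹ * b⁻¹ ∈ Subgroup.centralizer ({x} : Set G))).symm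
      · haveI := hall x
        set C := Subgroup.centralizer ({x} : Set G)
        haveI := Fact.mk h1
        haveI : IsCyclic (G ⧸ C) := isCyclic_of_prime_card (p := C.index) (Subgroup.index_eq_card C).symm
        have h2 : ((a * b * a⁻¹ * b⁻¹ : G) : G ⧸ C) = 1 := by
          simp only [QuotientGroup.mk_mul, QuotientGroup.mk_inv]
          rw [(IsCyclic.commutative (α := G ⧸ C)).is_comm.comm (a : G ⧸ C) (b : G ⧸ C)]
          group
        exact (Subgroup.mem_centralizer_singleton_iff.mp ((QuotientGroup.eq_one_iff _).mp h2)).symm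
    rw [Subgroup.eq_top_iff']
    intro a
    rw [Subgroup.mem_upperCentralSeries_succ_iff]
    intro b
    rw [Subgroup.upperCentralSeries_one]
    exact hder a b
  · right
    push Not at hall
    obtain ⟨x, hx⟩ := hall
    set M := Subgroup.centralizer ({x} : Set G) with hM
    have hp : M.index.Prime := by
      rcases h x with h1 | h1
      · refine absurd ?_ hx
        rw [hM, Subgroup.index_eq_one.mp h1]
        infer_instance
      · exact h1
    set p := M.index with hpdef
    haveI := Fact.mk hp
    set K := M.normalCore with hK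
    haveI hKn : K.Normal := Subgroup.normalCore_normal M
    have hKM : K ≤ M := Subgroup.normalCore_le M
    have hcardK : K.index ∣ p.factorial := by
      rw [hK, Subgroup.normalCore_eq_ker, Subgroup.index_ker]
      refine (Subgroup.card_subgroup_dvd_card _).trans (dvd_of_eq ?_)
      rw [Nat.card_perm, ← Subgroup.index_eq_card]
    have hmul : K.relIndex M * p = K.index := Subgroup.relIndex_mul_index hKM
    have hpnd : ¬ p ∣ K.relIndex M := by
      intro hd
      have h1 : p * p ∣ p.factorial := (Nat.mul_dvd_mul_right hd p).trans (hmul ▸ hcardK)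
      rw [← Nat.mul_factorial_pred hp.ne_zero] at h1
      have h2 := Nat.dvd_of_mul_dvd_mul_left hp.pos h1
      have h3 := (hp.dvd_factorial).mp h2
      have := hp.pos
      omega
    obtain ⟨yq, hyq⟩ := exists_prime_orderOf_dvd_card' (G := G ⧸ K) p ⟨K.relIndex M, by rw [← Subgroup.index_eq_card, ← hmul, mul_comm]⟩
    obtain ⟨y, rfl⟩ := QuotientGroup.mk_surjective yq
    have hyK : y ∉ K := fun hy => by
      rw [(QuotientGroup.eq_one_iff y).mpr hy, orderOf_one] at hyq; exact hp.ne_one hyq.symm
    have hypK : y ^ p ∈ K := by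
      rw [← QuotientGroup.eq_one_iff, QuotientGroup.mk_pow, ← hyq, pow_orderOf_eq_one]
    have hyM : y ∉ M := by
      intro hy
      apply hpnd
      have h1 : orderOf ((⟨y, hy⟩ : M) : M ⧸ K.subgroupOf M) = p := by
        refine orderOf_eq_prime ?_ (fun e => hyK ((QuotientGroup.eq_one_iff (⟨y, hy⟩ : M)).mp e))
        rw [← QuotientGroup.mk_pow, QuotientGroup.eq_one_iff]
        exact hypK
      exact h1 ▸ orderOf_dvd_natCard _
    -- the powers of `y` reach every coset of `M`
    have horb : ∀ q : G ⧸ M, ∃ i : ℕ, q = ((y ^ i : G) : G ⧸ M) := by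
      have hinj : Function.Injective (fun i : Fin p => ((y ^ (i : ℕ) : G) : G ⧸ M)) := by
        intro i j hij
        by_contra hne
        have key : ∀ a b : ℕ, a < b → b < p → ((y ^ a : G) : G ⧸ M) ≠ ((y ^ b : G) : G ⧸ M) := by
          intro a b hab hb e
          have h1 : y ^ (b - a) ∈ M := by
            have h0 := QuotientGroup.eq.mp e
            rwa [← Nat.add_sub_cancel' hab.le, pow_add, inv_mul_cancel_left] at h0
          have hco : Nat.Coprime (b - a) p := ((hp.coprime_iff_not_dvd).mpr fun hd => by
            have := Nat.le_of_dvd (by omega) hd; omega).symm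
          obtain ⟨u, v, huv⟩ := Nat.Coprime.isCoprime hco
          apply hyM
          have h2 : y = (y ^ (b - a)) ^ u * (y ^ p) ^ v := by
            rw [← zpow_natCast, ← zpow_natCast y p, ← zpow_mul, ← zpow_mul, ← zpow_add, mul_comm _ u, mul_comm _ v, huv, zpow_one]
          rw [h2]
          exact mul_mem (zpow_mem h1 u) (zpow_mem (hKM hypK) v)
        rcases Nat.lt_or_ge i j with hlt | hge
        · exact key i j hlt j.2 hij
        · exact key j i (lt_of_le_of_ne hge (fun e => hne (Fin.ext e.symm))) i.2 hij.symm
      intro q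
      have hb := (Nat.bijective_iff_injective_and_card _).mpr ⟨hinj, by rw [Nat.card_fin, ← Subgroup.index_eq_card]⟩
      obtain ⟨i, hi⟩ := hb.2 q
      exact ⟨i, hi.symm⟩
    -- the centralizer of `y * l` for `l ∈ K`
    set Y := Subgroup.zpowers y ⊔ K with hY
    have hCY : ∀ l ∈ K, Subgroup.centralizer ({y * l} : Set G) ≤ Y := by
      intro l hl g hg
      have hg' : Commute (g : G ⧸ K) (y : G ⧸ K) := by
        have h1 : g * (y * l) = y * l * g := Subgroup.mem_centralizer_singleton_iff.mp hg
        have h2 := congrArg (fun u : G => (u : G ⧸ K)) h1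
        simp only [QuotientGroup.mk_mul, (QuotientGroup.eq_one_iff l).mpr hl, mul_one] at h2
        exact h2
      obtain ⟨j, hj⟩ := horb (g : G ⧸ M)
      have hgK : (y ^ j)⁻¹ * g ∈ K := by
        intro a
        obtain ⟨i, hi⟩ := horb ((a : G)⁻¹ : G)
        have hm : a * y ^ i ∈ M := by
          have := QuotientGroup.eq.mp hi
          rwa [inv_inv] at this
        have hc : Commute (((y ^ j)⁻¹ * g : G) : G ⧸ K) ((y ^ i : G) : G ⧸ K) := by
          simp only [QuotientGroup.mk_mul, QuotientGroup.mk_inv, QuotientGroup.mk_pow]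
          exact ((Commute.pow_pow_self _ j i).inv_left).mul_left (hg'.pow_right i)
        have h1 : (y ^ j)⁻¹ * g ∈ M := QuotientGroup.eq.mp hj.symm
        set c := (y ^ j)⁻¹ * g
        have h4 : (y ^ i)⁻¹ * c * (y ^ i) * c⁻¹ ∈ K := by
          rw [← QuotientGroup.eq_one_iff]
          simp only [QuotientGroup.mk_mul, QuotientGroup.mk_inv]
          rw [mul_assoc ((y ^ i : G) : G ⧸ K)⁻¹, hc.eq]; group
        have h6 := mul_mem (hKM h4) h1
        rw [inv_mul_cancel_right] at h6
        have h7 := mul_mem (mul_mem hm h6) (inv_mem hm)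
        have h8 : a * y ^ i * ((y ^ i)⁻¹ * c * y ^ i) * (a * y ^ i)⁻¹ = a * c * a⁻¹ := by group
        exact h8 ▸ h7
      have := mul_mem (Subgroup.mem_sup_left (T := K) (Subgroup.pow_mem _ (Subgroup.mem_zpowers y) j)) (Subgroup.mem_sup_right (S := Subgroup.zpowers y) hgK)
      rwa [mul_inv_cancel_left] at this
    have hYcard : Y.index * p = K.index := by
      have h1 : Y = (Subgroup.zpowers (y : G ⧸ K)).comap (QuotientGroup.mk' K) := by
        rw [show Subgroup.zpowers (y : G ⧸ K) = (Subgroup.zpowers y).map (QuotientGroup.mk' K) from ((QuotientGroup.mk' K).map_zpowers y).symm,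
          Subgroup.comap_map_eq, QuotientGroup.ker_mk']
      rw [h1, Subgroup.index_comap_of_surjective _ (QuotientGroup.mk'_surjective K), ← hyq, ← Nat.card_zpowers,
        mul_comm, Subgroup.card_mul_index, ← Subgroup.index_eq_card]
    have hYind : Y.index = K.relIndex M := Nat.eq_of_mul_eq_mul_right hp.pos (hYcard.trans hmul.symm)
    have hY1 : Y.index ≠ 1 := by
      rw [hYind]
      intro e
      exact hx ((le_antisymm hKM (Subgroup.relIndex_eq_one.mp e)) ▸ hKn)
    set r := Y.index with hr
    have hrp : ∀ l ∈ K, r.Prime ∧ Subgroup.centralizer ({y * l} : Set G) = Y := by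
      intro l hl
      have hd : r ∣ (Subgroup.centralizer ({y * l} : Set G)).index := Subgroup.index_dvd_of_le (hCY l hl)
      rcases h (y * l) with h1 | h1
      · rw [h1] at hd; exact absurd (Nat.dvd_one.mp hd) hY1
      · have he := ((Nat.dvd_prime h1).mp hd).resolve_left hY1
        refine ⟨he.symm ▸ h1, le_antisymm (hCY l hl) ?_⟩
        have h2 := Subgroup.relIndex_mul_index (hCY l hl)
        rw [← he, hr] at h2
        exact Subgroup.relIndex_eq_one.mp (Nat.eq_of_mul_eq_mul_right (Nat.pos_of_ne_zero (fun e => h1.ne_zero (he.symm.trans (hr.trans e)))) (h2.trans (one_mul Y.index).symm))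
    obtain ⟨hr', hCy⟩ := hrp 1 (one_mem K)
    rw [mul_one] at hCy
    have hKy : ∀ k ∈ K, k * y = y * k := fun k hk =>
      Subgroup.mem_centralizer_singleton_iff.mp (hCy ▸ Subgroup.mem_sup_right hk)
    have hKK : ∀ k ∈ K, ∀ l ∈ K, k * l = l * k := by
      intro k hk l hl
      have h1 : k * (y * l) = y * l * k :=
        Subgroup.mem_centralizer_singleton_iff.mp ((hrp l hl).2 ▸ Subgroup.mem_sup_right hk)
      rw [← mul_assoc, hKy k hk, mul_assoc, mul_assoc] at h1
      exact mul_left_cancel h1
    have hKZ : K ≤ Subgroup.center G := by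
      intro k hk
      rcases h k with h1 | h1
      · rw [Subgroup.index_eq_one] at h1
        exact Subgroup.mem_center_iff.mpr fun g => Subgroup.mem_centralizer_singleton_iff.mp (h1 ▸ Subgroup.mem_top g)
      exfalso
      have hYk : Y ≤ Subgroup.centralizer ({k} : Set G) := sup_le
        (Subgroup.zpowers_le.mpr (Subgroup.mem_centralizer_singleton_iff.mpr (hKy k hk).symm))
        (fun l hl => Subgroup.mem_centralizer_singleton_iff.mpr (hKK l hl k hk))
      have hYeq : Subgroup.centralizer ({k} : Set G) = Y := by
        have hd := Subgroup.index_dvd_of_le hYk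
        have he := ((Nat.dvd_prime hr').mp hd).resolve_left h1.ne_one
        have h2 := Subgroup.relIndex_mul_index hYk
        rw [he] at h2
        exact le_antisymm (Subgroup.relIndex_eq_one.mp (Nat.eq_of_mul_eq_mul_right hr'.pos (h2.trans (one_mul r).symm))) hYk
      have hxK : x ∈ K := by
        have hxM : x ∈ M := Subgroup.mem_centralizer_singleton_iff.mpr rfl
        have hxk : x ∈ Subgroup.centralizer ({k} : Set G) :=
          Subgroup.mem_centralizer_singleton_iff.mpr (Subgroup.mem_centralizer_singleton_iff.mp (hKM hk)).symm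
        rw [hYeq, hY, Subgroup.mem_sup_of_normal_right] at hxk
        obtain ⟨w, hw, l, hl, hwl⟩ := hxk
        have hwM : w ∈ M := by rw [eq_mul_inv_of_mul_eq hwl]; exact mul_mem hxM (inv_mem (hKM hl))
        obtain ⟨i, hi⟩ := Subgroup.mem_zpowers_iff.mp hw
        have hwK : w ∈ K := by
          by_cases hd : (p : ℤ) ∣ i
          · obtain ⟨c, rfl⟩ := hd
            rw [← hi, zpow_mul, zpow_natCast]
            exact zpow_mem hypK c
          · exfalso
            obtain ⟨u, v, huv⟩ := ((Nat.prime_iff_prime_int.mp hp).coprime_iff_not_dvd.mpr hd)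
            apply hyM
            have : y = (y ^ p) ^ u * w ^ v := by
              rw [← hi, ← zpow_natCast, ← zpow_mul, ← zpow_mul, ← zpow_add, mul_comm (p : ℤ), mul_comm i, huv, zpow_one]
            rw [this]
            exact mul_mem (zpow_mem (hKM hypK) u) (zpow_mem hwM v)
        exact hwl ▸ mul_mem hwK hl
      apply hyM
      exact Subgroup.mem_centralizer_singleton_iff.mpr (hKy x hxK).symm
    have hKeq : K = Subgroup.center G :=
      le_antisymm hKZ (Subgroup.normal_le_normalCore.mpr (fun g hg => Subgroup.mem_centralizer_singleton_iff.mpr (Subgroup.mem_center_iff.mp hg x).symm))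
    refine ⟨p, r, hp, hr', fun e => hpnd (by rw [← hYind, ← e]), ?_, fun hab => hx ⟨fun m hm g => ?_⟩⟩
    · rw [← Subgroup.index_eq_card, ← hKeq, ← hmul, ← hYind, mul_comm]
    · have h1 : g * m * g⁻¹ * m⁻¹ ∈ Subgroup.center G := by
        rw [← QuotientGroup.eq_one_iff]
        simp only [QuotientGroup.mk_mul, QuotientGroup.mk_inv]
        rw [hab.is_comm.comm (g : G ⧸ Subgroup.center G) (m : G ⧸ Subgroup.center G)]
        group
      have := mul_mem (hKM (hKeq ▸ h1)) hm
      simpa [mul_assoc] using this
end Cfsg.Agent.S4314
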