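import Cfsg.Statements.S4320
import Mathlib.GroupTheory.Transfer
import Mathlib.LinearAlgebra.FreeModule.Finite.CardQuotient
import Mathlib.LinearAlgebra.Matrix.Adjugate
import Mathlib.Algebra.MonoidAlgebra.Basic

set_option autoImplicit false
open Cfsg

namespace Cfsg.Agent.S4320
open Module

universe u

variable {G : Type u} [Group G]

abbrev FF (G : Type u) [Group G] := Abelianization G → Additive (Abelianization ↥(commutator G))

abbrev RR (G : Type u) [Group G] := MonoidAlgebra ℤ (Abelianization G)

noncomputable def sec (q : Abelianization G) : G := (QuotientGroup.mk'_surjective (commutator G) q).choose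

noncomputable abbrev aug (G : Type u) [Group G] : RR G →ₐ[ℤ] ℤ :=
  MonoidAlgebra.lift ℤ ℤ (Abelianization G) (1 : Abelianization G →* ℤ)

theorem of_sec (q : Abelianization G) : Abelianization.of (sec q) = q :=
  (QuotientGroup.mk'_surjective (commutator G) q).choose_spec

theorem mem_comm {x : G} (h : Abelianization.of x = 1) : x ∈ commutator G :=
  (QuotientGroup.eq_one_iff x).mp h

/-- Kaloujnine-Krasner coordinates. -/
noncomputable def uu (g : G) : FF G := fun r =>
  Additive.ofMul (Abelianization.of ⟨sec r * g * (sec (r * Abelianization.of g))⁻¹,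
    mem_comm (by rw [map_mul, map_mul, map_inv, of_sec, of_sec, mul_inv_cancel])⟩)

def rho : Abelianization G →* AddMonoid.End (FF G) where
  toFun q := { toFun := fun f r => f (r * q), map_zero' := rfl, map_add' := fun _ _ => rfl }
  map_one' := by
    ext f r
    show f (r * 1) = f r
    rw [mul_one]
  map_mul' q1 q2 := by
    ext f r
    show f (r * (q1 * q2)) = f (r * q1 * q2)
    rw [mul_assoc]

noncomputable instance modF : Module (RR G) (FF G) :=
  Module.compHom _ ((MonoidAlgebra.lift ℤ (AddMonoid.End (FF G)) (Abelianization G)) rho).toRingHom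

theorem of_smul_apply (q r : Abelianization G) (f : FF G) : (MonoidAlgebra.of ℤ _ q • f) r = f (r * q) := by
  show ((MonoidAlgebra.lift ℤ (AddMonoid.End (FF G)) (Abelianization G)) rho (MonoidAlgebra.of ℤ _ q)) f r = _
  rw [MonoidAlgebra.lift_of]
  rfl

noncomputable def dd (g : G) : RR G × FF G := (MonoidAlgebra.of ℤ _ (Abelianization.of g) - 1, uu g)

theorem dd_mul (g h : G) : dd (g * h) = dd g + MonoidAlgebra.of ℤ _ (Abelianization.of g) • dd h := by
  refine Prod.ext ?_ ?_
  · simp only [dd, Prod.fst_add, Prod.smul_fst, smul_eq_mul, map_mul]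
    ring
  · funext r
    show uu (g * h) r = uu g r + (MonoidAlgebra.of ℤ _ (Abelianization.of g) • uu h) r
    rw [of_smul_apply]
    show Additive.ofMul _ = Additive.ofMul _ + Additive.ofMul _
    rw [← ofMul_mul, ← map_mul]
    refine congrArg Additive.ofMul ?_
    refine congrArg _ (Subtype.ext ?_)
    show sec r * (g * h) * _ = sec r * g * _ * (sec (r * Abelianization.of g) * h * _)
    rw [map_mul, ← mul_assoc r]
    group

theorem sum_uu_eq_zero [Fintype G] [Fintype (Abelianization G)] (g₀ : G) :
    ∑ q, uu g₀ q = (0 : Additive (Abelianization ↥(commutator G))) := by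
  classical
  -- the ideal-multiples submodule
  set K : Submodule (RR G) (RR G × FF G) :=
    Submodule.span (RR G) (Set.range fun p : Abelianization G × G => (MonoidAlgebra.of ℤ _ p.1 - 1) • dd p.2) with hK
  have hgen : ∀ (q : Abelianization G) (g : G), (MonoidAlgebra.of ℤ _ q - 1) • dd g ∈ K := fun q g => Submodule.subset_span ⟨(q, g), rfl⟩
  let D : G →* Multiplicative ((RR G × FF G) ⧸ K) :=
    MonoidHom.mk' (fun g => Multiplicative.ofAdd (Submodule.Quotient.mk (dd g))) fun g h => by
      rw [← ofAdd_add, ← Submodule.Quotient.mk_add]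
      refine congrArg _ ((Submodule.Quotient.eq K).mpr ?_)
      convert hgen (Abelianization.of g) h using 1
      rw [dd_mul, sub_smul, one_smul]; abel
  let Φ : (G → ℤ) →ₗ[ℤ] Additive (Abelianization G) := Fintype.linearCombination ℤ fun g => Additive.ofMul (Abelianization.of g)
  have hΦ : Function.Surjective Φ := fun q => by
    refine ⟨Pi.single (sec q.toMul) 1, ?_⟩
    simp only [Φ, Fintype.linearCombination_apply_single, one_smul, of_sec]
    rfl
  set L := LinearMap.ker Φ with hL
  let eL := Φ.quotKerEquivOfSurjective hΦ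
  haveI hfin : Finite ((G → ℤ) ⧸ L) := Finite.of_equiv _ eL.symm.toEquiv
  have hrank := (Submodule.finiteQuotient_iff L).mp hfin
  rw [Module.finrank_fintype_fun_eq_card] at hrank
  let b : Basis G ℤ L := (Module.finBasisOfFinrankEq ℤ L hrank).reindex (Fintype.equivFin G).symm
  have hrow : ∀ i : G, ∃ r : G → RR G, (∀ g, aug G (r g) = (b i : G → ℤ) g) ∧
      ∑ g, r g • dd g = 0 := by
    intro i
    set e : G → ℤ := (b i : G → ℤ) with he
    have hmem : ∑ g, (e g : RR G) • dd g ∈ K := by
      rw [← Submodule.Quotient.mk_eq_zero, ← Submodule.mkQ_apply, map_sum]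
      have h0 : Φ e = 0 := LinearMap.mem_ker.mp (b i).2
      let Db : Additive (Abelianization G) →+ (RR G × FF G) ⧸ K := MonoidHom.toAdditiveLeft (Abelianization.lift D)
      have h1 := congrArg Db h0
      rw [map_zero, Fintype.linearCombination_apply, map_sum] at h1
      refine Eq.trans (Finset.sum_congr rfl fun g _ => ?_) h1
      rw [map_zsmul, map_smul, Submodule.mkQ_apply, Int.cast_smul_eq_zsmul]
      rfl
    obtain ⟨a, ha⟩ := (Submodule.mem_span_range_iff_exists_fun _).mp hmem
    refine ⟨fun g => (e g : RR G) - ∑ q, a (q, g) * (MonoidAlgebra.of ℤ _ q - 1), fun g => ?_, ?_⟩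
    · have : ∀ q, aug G (MonoidAlgebra.of ℤ _ q - 1) = 0 := fun q => by
        rw [map_sub, MonoidAlgebra.lift_of, MonoidHom.one_apply, map_one, sub_self]
      rw [map_sub, map_sum, Finset.sum_eq_zero fun q _ => by rw [map_mul, this, mul_zero], sub_zero, map_intCast]
      rfl
    · simp only [sub_smul (R := RR G), Finset.sum_sub_distrib, Finset.sum_smul, mul_smul]
      rw [sub_eq_zero, ← ha, Fintype.sum_prod_type, Finset.sum_comm]
      simp only [sub_smul, one_smul]
  choose E hE1 hE2 using hrow
  set μ := (Matrix.of E).det with hμ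
  have hann : ∀ g : G, μ • dd g = 0 := by
    intro g
    have h1 : ∑ i, (Matrix.of E).adjugate g i • ∑ j, E i j • dd j = 0 :=
      Finset.sum_eq_zero fun i _ => by rw [hE2, smul_zero]
    simp only [Finset.smul_sum, smul_smul] at h1
    rw [Finset.sum_comm] at h1
    simp only [← Finset.sum_smul] at h1
    refine Eq.trans ?_ h1
    have h2 : ∀ j, ∑ i, (Matrix.of E).adjugate g i * E i j = if g = j then μ else 0 := fun j => by
      have := congrFun (congrFun (Matrix.adjugate_mul (Matrix.of E)) g) j
      rw [Matrix.mul_apply, Matrix.smul_apply, Matrix.one_apply, smul_eq_mul, mul_ite, mul_one, mul_zero] at this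
      exact this
    simp only [h2, ite_smul, zero_smul, Finset.sum_ite_eq, Finset.mem_univ, if_true]
  have haug : (aug G μ).natAbs = Nat.card (Abelianization G) := by
    rw [hμ, AlgHom.map_det, show Nat.card (Abelianization G) = Nat.card ((G → ℤ) ⧸ L) from
      (Nat.card_congr eL.toEquiv).symm, ← Submodule.natAbs_det_basis_change (Pi.basisFun ℤ G) L b,
      Basis.det_apply, ← Matrix.det_transpose (Basis.toMatrix _ _)]
    congr 2
    ext i j
    exact hE1 i j
  set S : RR G := ∑ q : Abelianization G, MonoidAlgebra.of ℤ _ q with hS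
  have hSq : ∀ x : RR G, S * x = (aug G x) • S := by
    intro x
    induction x using MonoidAlgebra.induction_on with
    | of q =>
      rw [MonoidAlgebra.lift_of, MonoidHom.one_apply, one_smul, hS, Finset.sum_mul]
      exact Fintype.sum_equiv (Equiv.mulRight q) _ _ fun r => (map_mul _ r q).symm
    | add x y hx hy => rw [mul_add, map_add, add_smul, hx, hy]
    | smul c x hx => rw [mul_smul_comm, map_smul, hx, smul_assoc]
  have hμq : ∀ q, μ * MonoidAlgebra.of ℤ _ q = μ := fun q => by
    have h := congrArg Prod.fst (hann (sec q))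
    simp only [dd, Prod.smul_fst, of_sec, smul_eq_mul, Prod.fst_zero, mul_sub, mul_one, sub_eq_zero] at h
    exact h
  have hμS : (Nat.card (Abelianization G) : ℤ) • μ = (aug G μ) • S := by
    rw [← hSq, mul_comm, hS, Finset.mul_sum, Finset.sum_congr rfl fun q _ => hμq q, Finset.sum_const,
      Finset.card_univ, ← Nat.card_eq_fintype_card, natCast_zsmul]
  have hn : (Nat.card (Abelianization G) : ℤ) ≠ 0 := Int.natCast_ne_zero.mpr Nat.card_pos.ne'
  have hS0 : S • dd g₀ = 0 := by
    rcases Int.natAbs_eq (aug G μ) with e | e <;> rw [e, haug] at hμS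
    · rw [← smul_right_injective _ hn hμS, hann]
    · rw [neg_smul, ← smul_neg] at hμS
      have := hann g₀
      rwa [smul_right_injective _ hn hμS, neg_smul, neg_eq_zero] at this
  have h := congrFun (congrArg Prod.snd hS0) 1
  simp only [dd, hS, Finset.sum_smul, Prod.snd_sum, Finset.sum_apply, Prod.smul_snd, of_smul_apply, one_mul, Prod.snd_zero, Pi.zero_apply] at h
  exact h


/-- The Principal Ideal Theorem of class field theory in its group-theoretic form: for every finite group `G`, the transfer homomorphism from `G` into the abelianization `G'/G''` of its derived subgroup `G'` is the trivial homomorphism. -/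
theorem result {G : Type*} [Group G] [Finite G] :
    MonoidHom.transfer (Abelianization.of : ↥(commutator G) →* Abelianization ↥(commutator G)) =
      (1 : G →* Abelianization ↥(commutator G)) := by
  classical
  ext g
  haveI := Fintype.ofFinite G
  letI : Fintype (G ⧸ commutator G) := Subgroup.fintypeQuotientOfFiniteIndex
  letI : Fintype (Abelianization G) := (Subgroup.fintypeQuotientOfFiniteIndex : Fintype (G ⧸ commutator G))
  let f : G ⧸ commutator G → G := fun q => (sec (G := G) q⁻¹)⁻¹
  have hf : ∀ q, ((f q : G) : G ⧸ commutator G) = q := fun q => by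
    show Abelianization.of (sec (G := G) q⁻¹)⁻¹ = q
    rw [map_inv, of_sec]
    exact inv_inv q
  let T : (commutator G).LeftTransversal := ⟨Set.range f, Subgroup.isComplement_range_left hf⟩
  have h1 : ∀ q, (T.2.leftQuotientEquiv q : G) = f q := fun q => Subgroup.IsComplement.leftQuotientEquiv_apply hf q
  have h2 : ∀ q : G ⧸ commutator G, ((g • T).2.leftQuotientEquiv q : G) = g * f (g⁻¹ • q) := fun q => by
    rw [Subgroup.smul_apply_eq_smul_apply_inv_smul, h1]; rfl
  rw [MonoidHom.transfer_def _ T, MonoidHom.one_apply]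
  refine Additive.ofMul.injective ?_
  rw [ofMul_one, Subgroup.leftTransversals.diff, ofMul_prod]
  refine Eq.trans (Fintype.sum_equiv (Equiv.inv (Abelianization G)) _ _ fun q => ?_) (sum_uu_eq_zero g)
  refine congrArg Additive.ofMul (congrArg _ (Subtype.ext ?_))
  refine Eq.trans (congrArg₂ (fun a b => a⁻¹ * b) (h1 q) (h2 q)) ?_
  show (f q)⁻¹ * (g * f _) = sec (q⁻¹ : Abelianization G) * g * (sec (q⁻¹ * Abelianization.of g))⁻¹
  rw [inv_inv, ← mul_assoc]
  congr 3
  obtain ⟨x, rfl⟩ := QuotientGroup.mk_surjective q
  refine congrArg (fun r => (sec (G := G) r)⁻¹) ?_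
  show (Abelianization.of (g⁻¹ * x))⁻¹ = (Abelianization.of x)⁻¹ * Abelianization.of g
  rw [map_mul, map_inv, mul_inv, inv_inv, mul_comm]

end Cfsg.Agent.S4320
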