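import Cfsg.Statements.S4421
import Cfsg.Agent.Lib.GroupB.SchurZassenhaus

set_option autoImplicit false
open Cfsg

namespace Cfsg.Agent.S4421

/-- A factorization of a normalizer from two-step control of fusion. Let `G` be a finite group and `A ≤ S ≤ H` subgroups of `G` such that: (i) `S` controls the `G`-fusion of `A` in the sense that every `G`-conjugate of `A` lying in `S` is an `S`-conjugate of `A`; (ii) `H` controls the `G`-fusion of `S` in the same sense; (iii) every conjugate of `S` by an element of the normalizer of `A` lies in `H`. Then `N_G(A) = N_H(A) · (N_G(S) ∩ N_G(A))`: every element of the normalizer of `A` is a product of an element of `H` normalizing `A` and an element normalizing both `S` and `A`. -/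
theorem result {G : Type*} [Group G] [Finite G] (A S H : Subgroup G)
    (hAS : A ≤ S) (hSH : S ≤ H)
    (h1 : ∀ g : G, A.map (MulAut.conj g).toMonoidHom ≤ S → ∃ s ∈ S, A.map (MulAut.conj g).toMonoidHom = A.map (MulAut.conj s).toMonoidHom)
    (h2 : ∀ g : G, S.map (MulAut.conj g).toMonoidHom ≤ H → ∃ y ∈ H, S.map (MulAut.conj g).toMonoidHom = S.map (MulAut.conj y).toMonoidHom)
    (h3 : ∀ x ∈ Subgroup.normalizer (A : Set G), S.map (MulAut.conj x).toMonoidHom ≤ H) :
    ∀ x ∈ Subgroup.normalizer (A : Set G), ∃ y ∈ H ⊓ Subgroup.normalizer (A : Set G),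
      ∃ z ∈ Subgroup.normalizer (S : Set G) ⊓ Subgroup.normalizer (A : Set G), x = y * z := by
  intro x hx
  have hmem : ∀ (K : Subgroup G) (a b : G), K.map (MulAut.conj a).toMonoidHom = K.map (MulAut.conj b).toMonoidHom →
      b⁻¹ * a ∈ Subgroup.normalizer (K : Set G) := by
    intro K a b h
    rw [Subgroup.mem_normalizer_iff]
    intro y
    have e1 : ∀ z, a * z * a⁻¹ ∈ K.map (MulAut.conj a).toMonoidHom ↔ z ∈ K := fun z =>
      Subgroup.mem_map_iff_mem (f := (MulAut.conj a).toMonoidHom) (MulAut.conj a).injective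
    have e2 : ∀ z, b * z * b⁻¹ ∈ K.map (MulAut.conj b).toMonoidHom ↔ z ∈ K := fun z =>
      Subgroup.mem_map_iff_mem (f := (MulAut.conj b).toMonoidHom) (MulAut.conj b).injective
    show y ∈ K ↔ b⁻¹ * a * y * (b⁻¹ * a)⁻¹ ∈ K
    rw [← e2 (b⁻¹ * a * y * (b⁻¹ * a)⁻¹), ← e1 y, h,
      show b * (b⁻¹ * a * y * (b⁻¹ * a)⁻¹) * b⁻¹ = a * y * a⁻¹ by group]
  obtain ⟨y, hy, hyEq⟩ := h2 x (h3 x hx)
  have hz0 : y⁻¹ * x ∈ Subgroup.normalizer (S : Set G) := hmem S x y hyEq
  obtain ⟨s, hs, hsEq⟩ := h1 (y⁻¹ * x) (by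
    rintro _ ⟨a, ha, rfl⟩
    exact (Subgroup.mem_normalizer_iff.mp hz0 a).mp (hAS ha))
  have hzA : s⁻¹ * (y⁻¹ * x) ∈ Subgroup.normalizer (A : Set G) := hmem A _ s hsEq
  refine ⟨y * s, ⟨H.mul_mem hy (hSH hs), ?_⟩, s⁻¹ * (y⁻¹ * x),
    ⟨Subgroup.mul_mem _ (Subgroup.inv_mem _ (Subgroup.le_normalizer hs)) hz0, hzA⟩, by group⟩
  have := Subgroup.mul_mem _ hx (Subgroup.inv_mem _ hzA)
  rw [show x * (s⁻¹ * (y⁻¹ * x))⁻¹ = y * s by group] at this
  exact this


end Cfsg.Agent.S4421
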