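import Cfsg.Statements.S4422

set_option autoImplicit false
open Cfsg

namespace Cfsg.Agent.S4422

/-- Primitive divisors of `q^e - 1` are congruent to 1 modulo `e`. Let `q ≥ 2` and `e ≥ 1` be natural numbers and let `m` be a divisor of `q^e - 1` that is coprime to `q^i - 1` for every `1 ≤ i < e` (so `m` divides the primitive part of `q^e - 1`, the largest such divisor). Then `m ≡ 1 (mod e)`. -/
theorem result (q e m : ℕ) (hq : 2 ≤ q) (he : 1 ≤ e)
    (hm : m ∣ q ^ e - 1) (hcop : ∀ i : ℕ, 1 ≤ i → i < e → Nat.Coprime m (q ^ i - 1)) :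
    m % e = 1 % e := by
  induction m using Nat.strong_induction_on with
  | _ m ih =>
  rcases Nat.lt_or_ge m 2 with h | h
  · interval_cases m
    · exfalso
      have h0 := Nat.eq_zero_of_zero_dvd hm
      have : 2 ≤ q ^ e := le_trans hq (Nat.le_self_pow (by omega) q)
      omega
    · rfl
  · obtain ⟨r, hr, hrm⟩ := Nat.exists_prime_and_dvd (show m ≠ 1 by omega)
    haveI := Fact.mk hr
    obtain ⟨m', rfl⟩ := hrm
    have hm' : 0 < m' := by rcases Nat.eq_zero_or_pos m' with rfl | h' <;> simp_all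
    have hlt : m' < r * m' := lt_mul_of_one_lt_left hm' hr.one_lt
    have h1 := ih m' hlt ((Dvd.intro_left r rfl).trans hm) fun i hi hie => (hcop i hi hie).coprime_dvd_left (Dvd.intro_left r rfl)
    have hq1 : ∀ i, 1 ≤ q ^ i := fun i => Nat.one_le_pow _ _ (by omega)
    have key : ∀ i, (q : ZMod r) ^ i = 1 ↔ r ∣ q ^ i - 1 := by
      intro i
      rw [← ZMod.natCast_eq_zero_iff, Nat.cast_sub (hq1 i), Nat.cast_pow, Nat.cast_one, sub_eq_zero]
    have hqe : (q : ZMod r) ^ e = 1 := (key e).mpr ((dvd_mul_right r m').trans hm)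
    have hne : (q : ZMod r) ≠ 0 := by
      intro h0; rw [h0, zero_pow (by omega)] at hqe; exact zero_ne_one hqe
    have hord : orderOf (q : ZMod r) = e := by
      refine (orderOf_eq_iff (by omega)).mpr ⟨hqe, fun i hie hi h => ?_⟩
      exact hr.ne_one (Nat.eq_one_of_dvd_coprimes (hcop i hi hie) (dvd_mul_right r m') ((key i).mp h))
    have hd : e ∣ r - 1 := hord ▸ orderOf_dvd_of_pow_eq_one (ZMod.pow_card_sub_one_eq_one hne)
    have hre : r % e = 1 % e := ((Nat.modEq_iff_dvd' hr.one_lt.le).mpr hd).symm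
    rw [Nat.mul_mod, hre, h1, ← Nat.mul_mod, mul_one]


end Cfsg.Agent.S4422
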