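import Cfsg.Statements.S4426
import Cfsg.Agent.Lib.Blocks.BrauerFeit

set_option autoImplicit false
open Cfsg

namespace Cfsg.Agent.S4426

open CfsgLib.Chars CfsgLib.Blocks

/-- Let χ be an irreducible character in the p-block B of the finite group G (relative to a maximal ideal M of the algebraic integers containing p), let p^a be the p-part of the order of G, and let χ̃ be the class function equal to p^a · χ on p-regular elements and zero elsewhere. For ξ ∈ B the inner product [χ̃, ξ] is an integer. The following are equivalent: (a) χ has height zero in B; (b) for some ξ ∈ B the integer [χ̃, ξ] is nonzero and the exact power of p dividing it equals the exact power of p dividing ξ(1); (c) the same holds for every ξ ∈ B. -/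
theorem result {G : Type*} [Group G] [Fintype G] (p : ℕ) [Fact p.Prime] (M : Ideal Cfsg.AlgInt) (hM : Cfsg.IsPModular p M) (B : Set (Cfsg.IrrCharacter G)) (hB : Cfsg.IsPBlock M B) (χ : Cfsg.IrrCharacter G) (hχ : χ ∈ B) : (Cfsg.blockHeight p B (χ : G → ℂ) = 0 ↔ ∃ ξ ∈ B, ∃ n : ℤ, Cfsg.classInner (fun x : G => if p ∣ orderOf x then (0 : ℂ) else ((p ^ (Nat.card G).factorization p : ℕ) : ℂ) * (χ : G → ℂ) x) (ξ : G → ℂ) = (n : ℂ) ∧ n ≠ 0 ∧ padicValInt p n = (Cfsg.charDegree (ξ : G → ℂ)).factorization p) ∧ (Cfsg.blockHeight p B (χ : G → ℂ) = 0 ↔ ∀ ξ ∈ B, ∃ n : ℤ, Cfsg.classInner (fun x : G => if p ∣ orderOf x then (0 : ℂ) else ((p ^ (Nat.card G).factorization p : ℕ) : ℂ) * (χ : G → ℂ) x) (ξ : G → ℂ) = (n : ℂ) ∧ n ≠ 0 ∧ padicValInt p n = (Cfsg.charDegree (ξ : G → ℂ)).factorization p) := by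
  classical
  haveI : Fact p.Prime := ⟨hM.1⟩
  have hp := hM.1
  have hin : ∀ ξ : Cfsg.IrrCharacter G, Cfsg.classInner (fun x : G => if p ∣ orderOf x then (0 : ℂ)
      else ((p ^ (Nat.card G).factorization p : ℕ) : ℂ) * (χ : G → ℂ) x) (ξ : G → ℂ) =
      (regMat hp χ ξ : ℂ) := by
    intro ξ
    rw [← regMat_spec hp χ ξ]
    simp only [regInner, classInner, Finset.mul_sum]
    refine Finset.sum_congr rfl fun x _ => ?_
    split_ifs with hx
    · rw [pRegularPart_of_singular hx]; ring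
    · rw [pRegularPart_of_regular hx]; ring
  have hex : blockHeight p B (χ : G → ℂ) = 0 → ∀ ξ ∈ B, ∃ n : ℤ,
      Cfsg.classInner (fun x : G => if p ∣ orderOf x then (0 : ℂ) else
        ((p ^ (Nat.card G).factorization p : ℕ) : ℂ) * (χ : G → ℂ) x) (ξ : G → ℂ) = (n : ℂ) ∧
      n ≠ 0 ∧ padicValInt p n = (Cfsg.charDegree (ξ : G → ℂ)).factorization p := by
    intro h0 ξ hξ
    have h1 := regMat_not_dvd hM hB hχ h0 hξ
    have h2 := ppow_dvd_regMat hp ξ χ
    rw [regMat_symm hp] at h1 h2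
    have hne : regMat hp χ ξ ≠ 0 := fun e => h1 (e ▸ dvd_zero _)
    refine ⟨_, hin ξ, hne, ?_⟩
    rw [padicValInt_dvd_iff] at h1 h2
    rcases h2 with h | h
    · exact absurd h hne
    · push Not at h1
      omega
  have hrev : ∀ ξ ∈ B, ∀ n : ℤ,
      Cfsg.classInner (fun x : G => if p ∣ orderOf x then (0 : ℂ) else
        ((p ^ (Nat.card G).factorization p : ℕ) : ℂ) * (χ : G → ℂ) x) (ξ : G → ℂ) = (n : ℂ) →
      n ≠ 0 → padicValInt p n = (Cfsg.charDegree (ξ : G → ℂ)).factorization p →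
      blockHeight p B (χ : G → ℂ) = 0 := by
    intro ξ hξ n hn hne hv
    rw [hin ξ, Int.cast_inj] at hn
    subst hn
    have h1 : ¬ (p : ℤ) ^ ((charDegree (ξ : G → ℂ)).factorization p + 1) ∣ regMat hp ξ χ := by
      rw [regMat_symm hp, padicValInt_dvd_iff]
      push Not
      exact ⟨hne, by omega⟩
    obtain ⟨ψ, hψ, hψ0⟩ := exists_minExp hM hB
    rw [regMat_dvd_iff hM (IsPBlock.sameBlock hM hB hξ hψ), regMat_symm hp] at h1
    by_contra hh
    refine h1 (dvd_trans (pow_dvd_pow _ ?_) (ppow_dvd_regMat hp χ ψ))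
    have := minExp_add_height (p := p) hχ
    omega
  obtain ⟨ξ₀, hξ₀⟩ := IsPBlock.nonempty hM hB
  refine ⟨⟨fun h => ⟨ξ₀, hξ₀, hex h ξ₀ hξ₀⟩, ?_⟩, ⟨hex, fun h => ?_⟩⟩
  · rintro ⟨ξ, hξ, n, h1, h2, h3⟩
    exact hrev ξ hξ n h1 h2 h3
  · obtain ⟨n, h1, h2, h3⟩ := h ξ₀ hξ₀
    exact hrev ξ₀ hξ₀ n h1 h2 h3

end Cfsg.Agent.S4426
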