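import Cfsg.Statements.S4430
import Cfsg.Agent.Lib.Blocks.SecondVanish
import Cfsg.Agent.Lib.Chars.Induced
import Cfsg.Agent.Lib.Blocks.Section

set_option autoImplicit false
open Cfsg

namespace Cfsg.Agent.S4430

open CfsgLib.Chars CfsgLib.Blocks

/-- Valuations in a relation between natural numbers with a local factor. -/
theorem factorization_of_eq_mul {p : ℕ} {M : Ideal Cfsg.AlgInt} (hM : Cfsg.IsPModular p M)
    {n D : ℕ} (hD : D ≠ 0) {w : ℂ} (hw : Cfsg.MemLocalRing M w) (h : (n : ℂ) = (D : ℂ) * w) :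
    (¬ Cfsg.MemLocalIdeal M w → n ≠ 0 ∧ n.factorization p = D.factorization p) ∧
      (Cfsg.MemLocalIdeal M w → n = 0 ∨ D.factorization p < n.factorization p) := by
  have hD0 : (D : ℂ) ≠ 0 := Nat.cast_ne_zero.mpr hD
  rcases eq_or_ne n 0 with rfl | hn
  · rw [Nat.cast_zero, eq_comm, mul_eq_zero] at h
    exact ⟨fun hu => absurd (h.resolve_left hD0 ▸ mli_zero hM) hu, fun _ => Or.inl rfl⟩
  have hn' := Nat.not_dvd_ordCompl hM.1 hn
  have hD' := Nat.not_dvd_ordCompl hM.1 hD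
  obtain ⟨e, he⟩ : ∃ e, D.factorization p = e := ⟨_, rfl⟩
  obtain ⟨f, hfn⟩ : ∃ f, n.factorization p = f := ⟨_, rfl⟩
  rw [he] at hD' ⊢
  rw [hfn] at hn' ⊢
  have hu : ¬ Cfsg.MemLocalIdeal M ((((n / p ^ f : ℕ)) : ℂ) * (((D / p ^ e : ℕ)) : ℂ)⁻¹) := fun hm =>
    (mli_mul_cases hM (mlr_natCast hM _) (mlr_natCast_inv hM hD') hm).elim
      (fun h1 => hn' ((mli_natCast_iff hM _).mp h1)) fun h1 => by
        have h2 := mli_mul_left hM (mlr_natCast hM (D / p ^ e)) h1
        rw [mul_inv_cancel₀ (Nat.cast_ne_zero.mpr fun h0 : D / p ^ e = 0 => hD' (h0 ▸ dvd_zero p))] at h2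
        exact not_mli_one hM h2
  have hpe : ∀ j : ℕ, ((p : ℂ) ^ j) ≠ 0 := fun j => pow_ne_zero _ (Nat.cast_ne_zero.mpr hM.1.ne_zero)
  have hDz : ((D / p ^ e : ℕ) : ℂ) ≠ 0 := Nat.cast_ne_zero.mpr fun h0 => hD' (h0 ▸ dvd_zero p)
  have key : (p : ℂ) ^ e * w = (p : ℂ) ^ f *
      ((((n / p ^ f : ℕ)) : ℂ) * (((D / p ^ e : ℕ)) : ℂ)⁻¹) := by
    have h' := h
    rw [← Nat.ordProj_mul_ordCompl_eq_self n p, ← Nat.ordProj_mul_ordCompl_eq_self D p] at h'
    rw [he, hfn] at h'
    push_cast at h'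
    rw [← mul_assoc ((p : ℂ) ^ f), h']
    field_simp
  have hp1 : ∀ j : ℕ, 0 < j → Cfsg.MemLocalIdeal M ((p : ℂ) ^ j) := fun j hj => by
    rw [← Nat.cast_pow, mli_natCast_iff hM]
    exact dvd_pow_self p hj.ne'
  have hnl : ¬ f < e := fun hlt => hu (by
    obtain ⟨j, hj⟩ := Nat.exists_eq_add_of_lt hlt
    rw [hj, add_assoc, pow_add, mul_assoc] at key
    rw [hj, add_assoc, ← mul_left_cancel₀ (hpe f) key]
    exact mli_mul_right hM (hp1 _ (Nat.succ_pos j)) hw)
  refine ⟨fun hwu => ⟨hn, ?_⟩, fun hwi => Or.inr ?_⟩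
  · rcases (not_lt.mp hnl).lt_or_eq with hlt | heq
    · refine absurd ?_ hwu
      obtain ⟨j, hj⟩ := Nat.exists_eq_add_of_lt hlt
      rw [hj, add_assoc, pow_add, mul_assoc] at key
      rw [mul_left_cancel₀ (hpe e) key]
      exact mli_mul_right hM (hp1 _ (Nat.succ_pos j))
        (mlr_mul hM (mlr_natCast hM _) (mlr_natCast_inv hM hD'))
    · exact heq.symm
  · refine lt_of_le_of_ne (not_lt.mp hnl) fun heq => hu ?_
    rw [← heq] at key ⊢
    rw [← mul_left_cancel₀ (hpe e) key]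
    exact hwi

/-- Let H be a subgroup of the finite group G, b a block of H whose induced block B₀ in G is defined (relative to a maximal ideal M of the algebraic integers containing p), and ξ ∈ b. For a block B of G let n_B be the value at 1 of the B-part of the induced character ξ^G (a natural number: the sum over χ ∈ B of the multiplicity of χ in ξ^G times χ(1)). Then for B = B₀ the exact power of p dividing n_B equals the exact power of p dividing ξ^G(1), while for every other block B either n_B = 0 or n_B is divisible by a strictly higher power of p than ξ^G(1). -/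
theorem result {G : Type*} [Group G] [Fintype G] (p : ℕ) [Fact p.Prime] (M : Ideal Cfsg.AlgInt) (hM : Cfsg.IsPModular p M) (H : Subgroup G) [Fintype H] (b : Set (Cfsg.IrrCharacter H)) (B₀ : Set (Cfsg.IrrCharacter G)) (hind : Cfsg.IsInducedBlock M H b B₀) (ξ : Cfsg.IrrCharacter H) (hξ : ξ ∈ b) : (∃ n : ℕ, Cfsg.blockPart B₀ (Cfsg.indFun H (ξ : H → ℂ)) 1 = (n : ℂ) ∧ n ≠ 0 ∧ n.factorization p = (Cfsg.charDegree (Cfsg.indFun H (ξ : H → ℂ))).factorization p) ∧ ∀ B : Set (Cfsg.IrrCharacter G), Cfsg.IsPBlock M B → B ≠ B₀ → ∃ n : ℕ, Cfsg.blockPart B (Cfsg.indFun H (ξ : H → ℂ)) 1 = (n : ℂ) ∧ (n = 0 ∨ (Cfsg.charDegree (Cfsg.indFun H (ξ : H → ℂ))).factorization p < n.factorization p) := by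
  classical
  have hc : Cfsg.IsCharacter G (Cfsg.indFun H (ξ : H → ℂ)) := IsCharacter.indFun H (isCharacter_irr ξ)
  have hcl := IsCharacter.isClassFunction hc
  have hD1 : (Cfsg.charDegree (Cfsg.indFun H (ξ : H → ℂ)) : ℂ) = (H.index : ℂ) * (ξ : H → ℂ) 1 := by
    rw [← IsCharacter.apply_one hc, indFun_one]
  have hD : Cfsg.charDegree (Cfsg.indFun H (ξ : H → ℂ)) ≠ 0 := fun h => by
    rw [h, Nat.cast_zero, eq_comm] at hD1
    exact mul_ne_zero (Nat.cast_ne_zero.mpr H.index_ne_zero_of_finite) (irr_one_ne_zero ξ) hD1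
  obtain ⟨χ₀, hχ₀⟩ := IsPBlock.nonempty hM hind.2.1
  have key : ∀ B : Set (Cfsg.IrrCharacter G), Cfsg.IsPBlock M B → ∃ (n : ℕ) (w : ℂ),
      Cfsg.blockPart B (Cfsg.indFun H (ξ : H → ℂ)) 1 = (n : ℂ) ∧ Cfsg.MemLocalRing M w ∧
      (n : ℂ) = (Cfsg.charDegree (Cfsg.indFun H (ξ : H → ℂ)) : ℂ) * w ∧
      Cfsg.MemLocalIdeal M (w - indic B χ₀) := by
    intro B hB
    obtain ⟨n, hn⟩ : ∃ n : ℕ, Cfsg.blockPart B (Cfsg.indFun H (ξ : H → ℂ)) 1 = (n : ℂ) := by
      choose m hm using fun χ : Cfsg.IrrCharacter G => exists_mult hc χ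
      refine ⟨∑ χ ∈ Finset.univ.filter (· ∈ B), m χ * Cfsg.charDegree (χ : G → ℂ), ?_⟩
      rw [blockPart_eq_filter, Nat.cast_sum]
      exact Finset.sum_congr rfl fun χ _ => by rw [hm, irr_apply_one, Nat.cast_mul]
    have hf : Cfsg.IsClassFunction H (fun h : H => Cfsg.blockCoeff B (h : G)) := fun a q => by
      simp only [Subgroup.coe_mul, InvMemClass.coe_inv]
      exact blockCoeff_isClassFunction B (a : G) (q : G)
    refine ⟨n, omega (ξ : H → ℂ) (fun h : H => Cfsg.blockCoeff B (h : G)), hn,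
      mlr_omega hM ξ hf (fun h => mlr_blockCoeff hM hB _), ?_, ?_⟩
    · rw [← hn, blockPart_eq_sum B hcl, hD1, omega]
      simp only [mul_one]
      have h1 := frobenius H (ξ : H → ℂ) (f := fun g => (starRingEnd ℂ) (Cfsg.blockCoeff B g))
        (fun a q => by simp only [blockCoeff_isClassFunction B a q])
      simp only [Cfsg.classInner, Complex.conj_conj] at h1
      have hG := natCast_card_ne_zero G
      have hH := natCast_card_ne_zero H
      have e : (Nat.card G : ℂ) = (H.index : ℂ) * (Nat.card H : ℂ) := by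
        rw [← Nat.cast_mul, H.index_mul_card]
      have hi : (H.index : ℂ) ≠ 0 := Nat.cast_ne_zero.mpr H.index_ne_zero_of_finite
      have hx1 := irr_one_ne_zero ξ
      simp only [mul_comm (Cfsg.blockCoeff B _)]
      rw [e] at h1
      field_simp at h1
      field_simp
      linear_combination h1
    · rw [← omega_blockCoeff B χ₀]
      exact mli_omega_res_of_induced hM hind hξ hχ₀ (blockCoeff_isClassFunction B) (mlr_blockCoeff hM hB)
  constructor
  · obtain ⟨n, w, hn, hw, he, hwi⟩ := key B₀ hind.2.1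
    rw [indic_of_mem hχ₀] at hwi
    refine ⟨n, hn, (factorization_of_eq_mul hM hD hw he).1 fun h => not_mli_one hM ?_⟩
    have := mli_sub hM h hwi
    rwa [sub_sub_cancel] at this
  · intro B hB hne
    obtain ⟨n, w, hn, hw, he, hwi⟩ := key B hB
    rw [indic_of_notMem fun h => hne (IsPBlock.eq_of_mem hM hB hind.2.1 h hχ₀), sub_zero] at hwi
    exact ⟨n, hn, (factorization_of_eq_mul hM hD hw he).2 hwi⟩

end Cfsg.Agent.S4430
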