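import Cfsg.Statements.S4431
import Cfsg.Agent.Lib.Blocks.SecondVanish
import Cfsg.Agent.Lib.Blocks.RegMatrix
import Cfsg.Agent.Lib.Blocks.BrauerFeit

set_option autoImplicit false
open Cfsg

namespace Cfsg.Agent.S4431

open CfsgLib.Chars CfsgLib.Blocks

/-- Let H be a subgroup of the finite group G and b a block of H whose induced block B₀ in G is defined (relative to a maximal ideal M of the algebraic integers containing p). Let χ be an irreducible character of G, ψ ∈ b, and let η be the class function on H equal to p^a · χ on the p-regular elements of H and zero elsewhere, p^a being the p-part of the order of H. Then (a) if χ ∉ B₀, the number [η, ψ]/ψ(1) lies in the local ideal at M; (b) if χ ∈ B₀ has height zero, it does not. -/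
theorem result {G : Type*} [Group G] [Fintype G] (p : ℕ) [Fact p.Prime] (M : Ideal Cfsg.AlgInt) (hM : Cfsg.IsPModular p M) (H : Subgroup G) [Fintype H] (b : Set (Cfsg.IrrCharacter H)) (B₀ : Set (Cfsg.IrrCharacter G)) (hind : Cfsg.IsInducedBlock M H b B₀) (χ : Cfsg.IrrCharacter G) (ψ : Cfsg.IrrCharacter H) (hψ : ψ ∈ b) : (χ ∉ B₀ → Cfsg.MemLocalIdeal M (Cfsg.classInner (fun h : H => if p ∣ orderOf h then (0 : ℂ) else ((p ^ (Nat.card H).factorization p : ℕ) : ℂ) * (χ : G → ℂ) h) (ψ : H → ℂ) / (ψ : H → ℂ) 1)) ∧ (χ ∈ B₀ → Cfsg.blockHeight p B₀ (χ : G → ℂ) = 0 → ¬ Cfsg.MemLocalIdeal M (Cfsg.classInner (fun h : H => if p ∣ orderOf h then (0 : ℂ) else ((p ^ (Nat.card H).factorization p : ℕ) : ℂ) * (χ : G → ℂ) h) (ψ : H → ℂ) / (ψ : H → ℂ) 1)) := by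
  classical
  set q : ℕ := regCard p H with hq
  have hq0 : ¬ p ∣ q := not_dvd_regCard hM.1 H
  have hcard : (Nat.card H : ℂ) = ((p ^ (Nat.card H).factorization p : ℕ) : ℂ) * (q : ℂ) := by
    rw [← Nat.cast_mul, hq, regCard_mul]
  have hval : Cfsg.classInner (fun h : H => if p ∣ orderOf h then (0 : ℂ) else
      ((p ^ (Nat.card H).factorization p : ℕ) : ℂ) * (χ : G → ℂ) h) (ψ : H → ℂ) / (ψ : H → ℂ) 1 =
      (q : ℂ)⁻¹ * omega (ψ : H → ℂ) (fun h : H => regTest p χ (h : G)) := by
    rw [Cfsg.classInner, omega, ← Equiv.sum_comp (Equiv.inv H), Finset.mul_sum, Finset.sum_div,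
      Finset.sum_div, Finset.mul_sum]
    refine Finset.sum_congr rfl fun h _ => ?_
    simp only [Equiv.inv_apply, orderOf_inv, InvMemClass.coe_inv]
    rw [IsCharacter.map_inv (isCharacter_irr ψ), Complex.conj_conj]
    by_cases hh : p ∣ orderOf h
    · rw [regTest, pRegularPart_of_singular (by rwa [Subgroup.orderOf_coe]), if_pos hh]
      simp
    · rw [regTest, pRegularPart_of_regular (by rwa [Subgroup.orderOf_coe]), if_neg hh,
        IsCharacter.map_inv (isCharacter_irr χ), hcard]
      have h0 : ((p ^ (Nat.card H).factorization p : ℕ) : ℂ) ≠ 0 := ppow_cast_ne_zero hM.1 _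
      push_cast at h0 ⊢
      field_simp
  have hl : ∀ g, Cfsg.MemLocalRing M (regTest p χ g) := fun g =>
    mlr_of_isIntegral hM (regTest_isIntegral χ g)
  rw [hval]
  constructor
  · intro hχ
    obtain ⟨χ₀, hχ₀⟩ := IsPBlock.nonempty hM hind.2.1
    refine mli_mul_left hM (mlr_natCast_inv hM hq0) ?_
    have h1 := mli_omega_res_of_induced hM hind hψ hχ₀ (regTest_isClassFunction χ) hl
    have h2 : Cfsg.MemLocalIdeal M (omega (χ₀ : G → ℂ) (regTest p χ)) := by
      rw [mli_omega_regTest_iff hM, regMat_eq_zero hM fun hs =>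
        hχ (IsPBlock.mem_of_sameBlock hM hind.2.1 hχ₀ hs)]
      exact dvd_zero _
    have := mli_add hM h1 h2
    rwa [sub_add_cancel] at this
  · intro hχ h0 hbad
    have h1 := mli_omega_res_of_induced hM hind hψ hχ (regTest_isClassFunction χ) hl
    refine regMat_not_dvd hM hind.2.1 hχ h0 hχ ((mli_omega_regTest_iff hM χ χ).mp ?_)
    have h2 := mli_mul_left hM (mlr_natCast hM q) hbad
    rw [mul_inv_cancel_left₀ (Nat.cast_ne_zero.mpr fun h => hq0 (by rw [h]; exact dvd_zero p))] at h2
    have := mli_sub hM h2 h1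
    rwa [sub_sub_cancel] at this

end Cfsg.Agent.S4431
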