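import Cfsg.Statements.S4435
import Cfsg.Agent.Lib.Blocks.FongReynolds

set_option autoImplicit false
open Cfsg

namespace Cfsg.Agent.S4435

set_option linter.style.haveILetI false
open CfsgLib.Chars CfsgLib.Blocks CfsgLib.Blocks.FR

/-- Let N be a normal subgroup of the finite group G, b a block of N (relative to a maximal ideal M of the algebraic integers containing p), and T the stabilizer of b in G (the elements g such that conjugating any member of b by g gives a member of b); N ≤ T. Say that a block of T (or of G) covers b when some member has a constituent in b on restriction to N. Then: (i) every block B′ of T covering b induces a block B of G, B covers b, every ψ ∈ B′ induces to an irreducible character of G, and B consists exactly of the characters induced from members of B′; (ii) distinct blocks of T covering b induce distinct blocks of G; (iii) every block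 of G covering b is induced by some block of T covering b. -/
theorem result {G : Type*} [Group G] [Fintype G] (p : ℕ) [Fact p.Prime] (M : Ideal Cfsg.AlgInt) (hM : Cfsg.IsPModular p M) (N : Subgroup G) [hN : N.Normal] [Fintype N] (b : Set (Cfsg.IrrCharacter N)) (hb : Cfsg.IsPBlock M b) (T : Subgroup G) [Fintype T] (hT : ∀ g : G, g ∈ T ↔ ∀ θ ∈ b, ∀ θ' : Cfsg.IrrCharacter N, (∀ n : N, (θ' : N → ℂ) n = (θ : N → ℂ) ⟨g * n * g⁻¹, hN.conj_mem n n.2 g⟩) → θ' ∈ b) (hNT : N ≤ T) : (∀ B' : Set (Cfsg.IrrCharacter T), Cfsg.IsPBlock M B' → (∃ ψ ∈ B', ∃ θ ∈ b, Cfsg.classInner (fun n : N => (ψ : T → ℂ) ⟨(n : G), hNT n.2⟩) (θ : N → ℂ) ≠ 0) → ∃ B : Set (Cfsg.IrrCharacter G), Cfsg.IsInducedBlock M T B' B ∧ (∃ χ ∈ B, ∃ θ ∈ b, Cfsg.classInner (fun n : N => (χ : G → ℂ) n) (θ : N → ℂ) ≠ 0) ∧ (∀ ψ ∈ B', Cfsg.IsIrrCharacter G (Cfsg.indFun T (ψ : T → ℂ))) ∧ ∀ χ : Cfsg.IrrCharacter G, χ ∈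 B ↔ ∃ ψ ∈ B', (χ : G → ℂ) = Cfsg.indFun T (ψ : T → ℂ)) ∧ (∀ B'₁ B'₂ : Set (Cfsg.IrrCharacter T), Cfsg.IsPBlock M B'₁ → Cfsg.IsPBlock M B'₂ → (∃ ψ ∈ B'₁, ∃ θ ∈ b, Cfsg.classInner (fun n : N => (ψ : T → ℂ) ⟨(n : G), hNT n.2⟩) (θ : N → ℂ) ≠ 0) → (∃ ψ ∈ B'₂, ∃ θ ∈ b, Cfsg.classInner (fun n : N => (ψ : T → ℂ) ⟨(n : G), hNT n.2⟩) (θ : N → ℂ) ≠ 0) → ∀ B : Set (Cfsg.IrrCharacter G), Cfsg.IsInducedBlock M T B'₁ B → Cfsg.IsInducedBlock M T B'₂ B → B'₁ = B'₂) ∧ (∀ B : Set (Cfsg.IrrCharacter G), Cfsg.IsPBlock M B → (∃ χ ∈ B, ∃ θ ∈ b, Cfsg.classInner (fun n : N => (χ : G → ℂ) n) (θ : N → ℂ) ≠ 0) → ∃ B' : Set (Cfsg.IrrCharacter T), Cfsg.IsPBlock M B' ∧ (∃ ψ ∈ B', ∃ θ ∈ b, Cfsg.classInner (fun n : N => (ψ : T → ℂ) ⟨(n : G), hNT n.2⟩) (θ : N → ℂ) ≠ 0) ∧ Cfsg.IsInducedBlock M T B' B) := by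
  classical
  have hst : IsStab N b T := isStab_of_hT N hT
  refine ⟨fun B' hB' hcov => ?_, fun B₁ B₂ hB₁ hB₂ hc₁ hc₂ B h₁ h₂ => ?_, fun B hB hcov => ?_⟩
  · obtain ⟨ψ₀, hψ₀, hc₀'⟩ := hcov
    have hc₀ : Cov hNT b ψ₀ := hc₀'
    have hind := (isInducedBlock_iff hM hb hst hNT hB' hψ₀ hc₀).mpr rfl
    refine ⟨_, hind, ⟨_, self_mem_blockOf hM (indIrr hM hb hst hNT hc₀),
      indIrr_over hM hb hst hNT hc₀⟩, fun ψ hψ => isIrr_indFun hM hb hst hNT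
        (cov_of_sameBlock hM hb hst hNT (IsPBlock.sameBlock hM hB' hψ₀ hψ) hc₀),
      block_iff hM hb hst hNT hB' hind hψ₀ hc₀⟩
  · obtain ⟨ψ₁, hψ₁, hc₁⟩ := hc₁
    obtain ⟨ψ₂, hψ₂, hc₂⟩ := hc₂
    have e₁ := (isInducedBlock_iff hM hb hst hNT hB₁ hψ₁ hc₁).mp h₁
    have e₂ := (isInducedBlock_iff hM hb hst hNT hB₂ hψ₂ hc₂).mp h₂
    have hs : Cfsg.SameBlock M (indIrr hM hb hst hNT hc₁ : G → ℂ)
        (indIrr hM hb hst hNT hc₂ : G → ℂ) := by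
      have := self_mem_blockOf hM (indIrr hM hb hst hNT hc₂)
      rw [← e₂, e₁] at this
      exact this
    exact IsPBlock.eq_of_mem hM hB₁ hB₂ (IsPBlock.mem_of_sameBlock hM hB₁ hψ₁
      ((sameBlock_indIrr_iff hM hb hst hNT hc₁ hc₂).mp hs)) hψ₂
  · obtain ⟨χ, hχ, θ, hθ, h⟩ := hcov
    obtain ⟨ψ, hc, rfl⟩ := exists_eq_indFun hM hb hst hNT hθ h
    refine ⟨_, isPBlock_blockOf ψ, ⟨ψ, self_mem_blockOf hM ψ, hc⟩, ?_⟩
    exact (isInducedBlock_iff hM hb hst hNT (isPBlock_blockOf ψ) (self_mem_blockOf hM ψ) hc).mpr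
      (IsPBlock.eq_blockOf hM hB hχ)

end Cfsg.Agent.S4435
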