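import Cfsg.Statements.S4437
import Cfsg.Agent.Lib.Blocks.PCBlocks

set_option autoImplicit false
open Cfsg

namespace Cfsg.Agent.S4437

set_option linter.style.haveILetI false
open CfsgLib.Chars CfsgLib.Blocks

/-- Let P be a p-subgroup of the finite group G, H = P·C_G(P), and b a block of H (relative to a maximal ideal M of the algebraic integers containing p) having P as a defect group; let B be the block of G induced by b. Let T be the stabilizer of b in N_G(P): the elements g of N_G(P) such that the g-conjugate of every member of b is again a member of b. Then B has defect group P if and only if p does not divide the index of H in T. -/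
theorem result {G : Type*} [Group G] [Fintype G] (p : ℕ) [Fact p.Prime] (M : Ideal Cfsg.AlgInt) (hM : Cfsg.IsPModular p M) (P : Subgroup G) (hP : IsPGroup p P) (H : Subgroup G) [Fintype H] (hH : H = P ⊔ Subgroup.centralizer (P : Set G)) (b : Set (Cfsg.IrrCharacter H)) (hb : Cfsg.IsPBlock M b) (hbP : Cfsg.IsDefectGroup p M b (P.subgroupOf H)) (B : Set (Cfsg.IrrCharacter G)) (hind : Cfsg.IsInducedBlock M H b B) (T : Subgroup G) (hT : ∀ g : G, g ∈ T ↔ (g ∈ Subgroup.normalizer (P : Set G) ∧ ∀ θ ∈ b, ∀ θ' : Cfsg.IrrCharacter H, (∀ h h' : H, (h' : G) = g * h * g⁻¹ → (θ' : H → ℂ) h' = (θ : H → ℂ) h) → θ' ∈ b)) : Cfsg.IsDefectGroup p M B P ↔ ¬ p ∣ H.relIndex T := by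
  classical
  obtain ⟨e, he, hcoef⟩ := pc_block_cover hM hP hH hb
  have hpair := (pc_induced_iff hM hP hH he hb hcoef hind.2.1).mp hind
  refine pc_defect_iff hM hP hH he hb hcoef hbP hpair fun y => ?_
  rw [hT]
  constructor
  · rintro ⟨hyN, hst⟩
    have hyH : y ∈ Subgroup.normalizer (H : Set G) := mem_normalizer_pc hH hyN
    have hbb : mapBlock (normConj H hyH) b = b := by
      obtain ⟨θ, hθ⟩ := IsPBlock.nonempty hM hb
      refine IsPBlock.eq_of_mem hM (isPBlock_mapBlock hM _ hb) hb
        (χ := pullIrr (normConj H hyH).symm θ) ?_ ?_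
      · show pullIrr _ (pullIrr _ θ) ∈ b
        rwa [pullIrr_symm_apply]
      · refine hst θ hθ _ fun h h' hh => ?_
        rw [pullIrr_apply, show h' = normConj H hyH h from Subtype.ext hh,
          MulEquiv.symm_apply_apply]
    refine ⟨hyN, (stabilizesBlock_iff hM _ he).mpr ⟨mem_normalizer_centralizer hyN, ?_⟩⟩
    refine block_ext hM (isPBlock_mapBlock hM _ he) he fun t => ?_
    obtain ⟨s, rfl⟩ := (normConj _ (mem_normalizer_centralizer hyN)).surjective t
    have hsH : (s : G) ∈ H := hH ▸ (le_sup_right (a := P) s.2)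
    rw [blockCoeff_mapBlock, ← sbc_apply (Subgroup.centralizer (P : Set G)) e s,
      ← sbc_apply (Subgroup.centralizer (P : Set G)) e (normConj _ (mem_normalizer_centralizer hyN) s)]
    show _ = subgroupBlockCoeff _ e ((normConj H hyH ⟨(s : G), hsH⟩ : H) : G)
    rw [← hcoef, ← hcoef ⟨(s : G), hsH⟩]
    conv_rhs => rw [← hbb]
    rw [blockCoeff_mapBlock]
  · rintro ⟨hyN, hye⟩
    refine ⟨hyN, fun θ hθ θ' hθ' => ?_⟩
    have hyH : y ∈ Subgroup.normalizer (H : Set G) := mem_normalizer_pc hH hyN
    have hbb := pc_block_conj hM hb hb hcoef hcoef hyN hyH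
      ((stabilizesBlock_iff_pairConj hM he hyN).mp hye)
    rw [hbb]
    show pullIrr (normConj H hyH) θ' ∈ b
    rwa [show pullIrr (normConj H hyH) θ' = θ from Subtype.ext (funext fun h => hθ' h _ rfl)]

end Cfsg.Agent.S4437
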