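import Cfsg.Statements.S4444
import Cfsg.Agent.Lib.Chars.GlaubermanCorr

set_option autoImplicit false
open Cfsg

namespace Cfsg.Agent.S4444

open CfsgLib.Chars CfsgLib.Blocks

/-- The Glauberman correspondence for a p-group of operators. Inside a finite group Γ let S normalise G with the orders of G and S coprime, S a p-group, and let C = G ⊓ C(S) be the fixed points. Call an irreducible character χ of G S-invariant when χ(s g s⁻¹) = χ(g) for s ∈ S, g ∈ G. Then: (i) for every S-invariant χ there is exactly one irreducible character β of C whose multiplicity [χ_C, β] in the restriction of χ is not divisible by p; (ii) that multiplicity is ≡ 1 or ≡ −1 (mod p); (iii) distinct S-invariant χ give distinct β; (iv) every irreducible character of C arises in this way. So χ ↦ β is a bijection from the S-invariant irreducible characters of G onto the irreducible characters of C. -/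
theorem result {Γ : Type*} [Group Γ] [Fintype Γ] (G S : Subgroup Γ) [Fintype G] (hnorm : ∀ s ∈ S, ∀ g ∈ G, s * g * s⁻¹ ∈ G) (hcop : (Nat.card G).Coprime (Nat.card S)) (p : ℕ) (hp : p.Prime) (hS : IsPGroup p S) (C : Subgroup Γ) [Fintype C] (hC : C = G ⊓ Subgroup.centralizer (S : Set Γ)) (hCG : C ≤ G) : (∀ χ : Cfsg.IrrCharacter G, (∀ s ∈ S, ∀ g g' : G, (g' : Γ) = s * g * s⁻¹ → (χ : G → ℂ) g' = (χ : G → ℂ) g) → ∃! β : Cfsg.IrrCharacter C, ∃ m : ℕ, Cfsg.classInner (fun c : C => (χ : G → ℂ) ⟨c, hCG c.2⟩) (β : C → ℂ) = (m : ℂ) ∧ ¬ p ∣ m) ∧ (∀ χ : Cfsg.IrrCharacter G, (∀ s ∈ S, ∀ g g' : G, (g' : Γ) = s * g * s⁻¹ → (χ : G → ℂ) g' = (χ : G → ℂ) g) → ∀ β : Cfsg.IrrCharacter C, ∀ m : ℕ, Cfsg.classInner (fun c : C => (χ : G → ℂ) ⟨c, hCG c.2⟩) (β : C → ℂ) = (m : ℂ) → ¬ p ∣ m → ((m : ℤ) ≡ 1 [ZMOD p] ∨ (m : ℤ) ≡ -1 [ZMOD p])) ∧ (∀ χ χ' : Cfsg.IrrCharacter G, (∀ s ∈ S, ∀ g g' : G, (g' : Γ) = s * g * s⁻¹ → (χ : G → ℂ) g' = (χ : G → ℂ) g) → (∀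 s ∈ S, ∀ g g' : G, (g' : Γ) = s * g * s⁻¹ → (χ' : G → ℂ) g' = (χ' : G → ℂ) g) → ∀ β : Cfsg.IrrCharacter C, ∀ m m' : ℕ, Cfsg.classInner (fun c : C => (χ : G → ℂ) ⟨c, hCG c.2⟩) (β : C → ℂ) = (m : ℂ) → ¬ p ∣ m → Cfsg.classInner (fun c : C => (χ' : G → ℂ) ⟨c, hCG c.2⟩) (β : C → ℂ) = (m' : ℂ) → ¬ p ∣ m' → χ = χ') ∧ (∀ β : Cfsg.IrrCharacter C, ∃ χ : Cfsg.IrrCharacter G, (∀ s ∈ S, ∀ g g' : G, (g' : Γ) = s * g * s⁻¹ → (χ : G → ℂ) g' = (χ : G → ℂ) g) ∧ ∃ m : ℕ, Cfsg.classInner (fun c : C => (χ : G → ℂ) ⟨c, hCG c.2⟩) (β : C → ℂ) = (m : ℂ) ∧ ¬ p ∣ m) := by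
  classical
  have hp' : Fact p.Prime := ⟨hp⟩
  have hCm : ∀ x : Γ, x ∈ C ↔ x ∈ G ∧ x ∈ Subgroup.centralizer (S : Set Γ) := fun x => by
    rw [hC]; exact Subgroup.mem_inf
  set ι : C →* G := Subgroup.inclusion hCG with hιdef
  by_cases hd : p ∣ Nat.card G
  · -- the acting group is trivial
    have hS1 : S = ⊥ := by
      obtain ⟨n, hn⟩ := IsPGroup.iff_card.mp hS
      rcases Nat.eq_zero_or_pos n with rfl | hn0
      · exact Subgroup.card_eq_one.mp (by rw [hn, pow_zero])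
      · rw [hn] at hcop
        exact absurd (Nat.Coprime.coprime_dvd_left hd (Nat.Coprime.of_dvd_right (dvd_pow_self p hn0.ne') hcop))
          (fun h => hp.ne_one (by simpa using h))
    have hsurj : Function.Surjective ι := fun g => by
      refine ⟨⟨(g : Γ), (hCm _).mpr ⟨g.2, ?_⟩⟩, Subtype.ext rfl⟩
      rw [hS1]
      exact Subgroup.mem_centralizer_iff.mpr fun x hx => by
        rw [SetLike.mem_coe, Subgroup.mem_bot] at hx; subst hx; rw [one_mul, mul_one]
    let res : IrrCharacter G → IrrCharacter C := fun χ =>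
      ⟨fun c => (χ : G → ℂ) (ι c), IsIrrCharacter.comp χ.2 ι hsurj⟩
    have hinner : ∀ (χ : IrrCharacter G) (β : IrrCharacter C),
        classInner (fun c : C => (χ : G → ℂ) ⟨c, hCG c.2⟩) (β : C → ℂ) =
          if res χ = β then 1 else 0 := fun χ β => classInner_irr (res χ) β
    have hsel : ∀ (χ : IrrCharacter G) (β : IrrCharacter C) (m : ℕ),
        classInner (fun c : C => (χ : G → ℂ) ⟨c, hCG c.2⟩) (β : C → ℂ) = (m : ℂ) → ¬ p ∣ m →
          res χ = β ∧ m = 1 := by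
      intro χ β m he hm
      rw [hinner] at he
      by_cases h : res χ = β
      · rw [if_pos h] at he
        exact ⟨h, by exact_mod_cast he.symm⟩
      · rw [if_neg h] at he
        have : m = 0 := by exact_mod_cast he.symm
        exact absurd (this ▸ dvd_zero p) hm
    refine ⟨fun χ _ => ⟨res χ, ⟨1, by rw [hinner, if_pos rfl, Nat.cast_one], hp.not_dvd_one⟩,
      fun β ⟨m, hm, hm'⟩ => ((hsel χ β m hm hm').1).symm⟩, fun χ _ β m hm hm' => ?_,
      fun χ χ' _ _ β m m' hm hm' hn hn' => ?_, fun β => ?_⟩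
    · rw [(hsel χ β m hm hm').2]
      exact Or.inl rfl
    · refine Subtype.ext (funext fun g => ?_)
      obtain ⟨c, rfl⟩ := hsurj g
      exact congrFun (congrArg Subtype.val ((hsel χ β m hm hm').1.trans (hsel χ' β m' hn hn').1.symm)) c
    · let e : C ≃* G := MulEquiv.ofBijective ι ⟨Subgroup.inclusion_injective hCG, hsurj⟩
      let χ : IrrCharacter G := ⟨fun g => (β : C → ℂ) (e.symm g),
        IsIrrCharacter.comp β.2 e.symm.toMonoidHom e.symm.surjective⟩
      refine ⟨χ, fun s hs g g' hgg => ?_, 1, ?_, hp.not_dvd_one⟩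
      · rw [hS1, Subgroup.mem_bot] at hs
        subst hs
        rw [show g' = g from Subtype.ext (by simpa using hgg)]
      · rw [hinner, if_pos (Subtype.ext (funext fun c => congrArg _ (e.symm_apply_apply c))),
          Nat.cast_one]
  -- the main case
  obtain ⟨M, hM⟩ := exists_isPModular hp
  let act : S →* MulAut G :=
    { toFun := fun s =>
        { toFun := fun g => ⟨s * g * (s : Γ)⁻¹, hnorm s s.2 g g.2⟩
          invFun := fun g => ⟨(s : Γ)⁻¹ * g * s, by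
            simpa using hnorm _ (inv_mem s.2) g g.2⟩
          left_inv := fun g => Subtype.ext (by simp [mul_assoc])
          right_inv := fun g => Subtype.ext (by simp [mul_assoc])
          map_mul' := fun a b => Subtype.ext (by simp [mul_assoc]) }
      map_one' := MulEquiv.ext fun g => Subtype.ext (by simp)
      map_mul' := fun s t => MulEquiv.ext fun g => Subtype.ext (by simp [mul_assoc]) }
  let h : Glauberman.Setting G C S p :=
    { φ := act
      ι := ι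
      inj := Subgroup.inclusion_injective hCG
      mem := fun g => ⟨fun hg => ⟨⟨(g : Γ), (hCm _).mpr ⟨g.2,
          Subgroup.mem_centralizer_iff.mpr fun s hs => by
            have h1 : s * (g : Γ) * s⁻¹ = g := congrArg Subtype.val (hg ⟨s, hs⟩)
            exact mul_inv_eq_iff_eq_mul.mp h1⟩⟩, Subtype.ext rfl⟩,
        fun ⟨c, hc⟩ s => by
          subst hc
          exact Subtype.ext (mul_inv_eq_iff_eq_mul.mpr
            (Subgroup.mem_centralizer_iff.mp ((hCm _).mp c.2).2 (s : Γ) s.2))⟩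
      pgroup := hS
      prime := hp
      ndvd := hd }
  have hinv : ∀ χ : IrrCharacter G, (∀ s ∈ S, ∀ g g' : G, (g' : Γ) = s * g * s⁻¹ →
      (χ : G → ℂ) g' = (χ : G → ℂ) g) ↔ Glauberman.IsInv h.φ (χ : G → ℂ) := fun χ =>
    ⟨fun hχ s g => hχ s s.2 g (act s g) rfl, fun hχ s hs g g' hgg => by
      rw [show g' = act ⟨s, hs⟩ g from Subtype.ext hgg]
      exact hχ ⟨s, hs⟩ g⟩
  have hm : ∀ (χ : IrrCharacter G) (β : IrrCharacter C) (m : ℕ),
      classInner (fun c : C => (χ : G → ℂ) ⟨c, hCG c.2⟩) (β : C → ℂ) = (m : ℂ) →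
        m = Glauberman.mult h χ β := fun χ β m he => by
    have := Glauberman.mult_spec h χ β
    exact Nat.cast_injective (R := ℂ) (he.symm.trans this)
  obtain ⟨h1, h2, h3, h4⟩ := Glauberman.corr h hM
  refine ⟨fun χ hχ => ?_, fun χ hχ β m he hnd => ?_, fun χ χ' hχ hχ' β m m' he hnd he' hnd' => ?_,
    fun β => ?_⟩
  · obtain ⟨β, hβ, huniq⟩ := h1 χ ((hinv χ).mp hχ)
    exact ⟨β, ⟨_, Glauberman.mult_spec h χ β, hβ⟩,
      fun β' ⟨m, he, hnd⟩ => huniq β' (by show ¬ p ∣ Glauberman.mult h χ β'; rw [← hm χ β' m he]; exact hnd)⟩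
  · rw [hm χ β m he] at hnd ⊢
    exact h2 χ ((hinv χ).mp hχ) β hnd
  · exact h3 χ χ' ((hinv χ).mp hχ) ((hinv χ').mp hχ') β (hm χ β m he ▸ hnd) (hm χ' β m' he' ▸ hnd')
  · obtain ⟨χ, hχ, hnd⟩ := h4 β
    exact ⟨χ, (hinv χ).mpr hχ, _, Glauberman.mult_spec h χ β, hnd⟩

end Cfsg.Agent.S4444
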