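import Cfsg.Statements.S4445
import Cfsg.Agent.Lib.Chars.GlaubermanCount

set_option autoImplicit false
open Cfsg

namespace Cfsg.Agent.S4445

open CfsgLib.Chars

/-- Inside a finite group Γ let the solvable subgroup S normalise G with the orders of G and S coprime. Then the number of S-invariant irreducible characters of G (χ(s g s⁻¹) = χ(g) for all s ∈ S, g ∈ G) equals the number of conjugacy classes of G mapped to themselves by conjugation by every element of S. -/
theorem result {Γ : Type*} [Group Γ] [Fintype Γ] (G S : Subgroup Γ) [Fintype G] (hnorm : ∀ s ∈ S, ∀ g ∈ G, s * g * s⁻¹ ∈ G) (hcop : (Nat.card G).Coprime (Nat.card S)) (hsolv : Group.IsSolvable S) : Nat.card {χ : Cfsg.IrrCharacter G // (∀ s ∈ S, ∀ g g' : G, (g' : Γ) = s * g * s⁻¹ → (χ : G → ℂ) g' = (χ : G → ℂ) g)} = Nat.card {K : ConjClasses G // ∀ s ∈ S, ∀ g g' : G, (g' : Γ) = s * g * s⁻¹ → ConjClasses.mk g = K → ConjClasses.mk g' = K} := by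
  classical
  let act : S →* MulAut G :=
    { toFun := fun s =>
        { toFun := fun g => ⟨s * g * (s : Γ)⁻¹, hnorm s s.2 g g.2⟩
          invFun := fun g => ⟨(s : Γ)⁻¹ * g * s, by
            simpa using hnorm _ (inv_mem s.2) g g.2⟩
          left_inv := fun g => Subtype.ext (by simp [mul_assoc])
          right_inv := fun g => Subtype.ext (by simp [mul_assoc])
          map_mul' := fun a b => Subtype.ext (by simp [mul_assoc]) }
      map_one' := MulEquiv.ext fun g => Subtype.ext (by simp)
      map_mul' := fun s t => MulEquiv.ext fun g => Subtype.ext (by simp [mul_assoc]) }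
  refine ((Nat.card_congr (Equiv.subtypeEquivRight fun χ => ?_)).trans
    (Glauberman.card_inv_eq (Nat.card S) G S act le_rfl hcop)).trans
    (Nat.card_congr (Equiv.subtypeEquivRight fun K => ?_))
  · exact ⟨fun hχ s g => hχ s s.2 g (act s g) rfl, fun hχ s hs g g' hgg => by
      rw [show g' = act ⟨s, hs⟩ g from Subtype.ext hgg]
      exact hχ ⟨s, hs⟩ g⟩
  · exact ⟨fun hK s hs g g' hgg hg => by
      rw [show g' = act ⟨s, hs⟩ g from Subtype.ext hgg, ← hg]
      exact (ConjClasses.mk_eq_mk_iff_isConj.mpr (hK g hg ⟨s, hs⟩)).symm,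
      fun hK g hg s => ConjClasses.mk_eq_mk_iff_isConj.mp
        (hg.trans (hK s s.2 g (act s g) rfl hg).symm)⟩

end Cfsg.Agent.S4445
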