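import Cfsg.Statements.S4447
import Cfsg.Agent.Lib.GroupB.Coprime
import Cfsg.Agent.Lib.Chars.Clifford
import Cfsg.Agent.Lib.CliffordCorr
import Cfsg.Agent.Lib.Chars.Misc
import Mathlib.GroupTheory.Solvable

set_option autoImplicit false
open Cfsg

namespace Cfsg.Agent.S4447

open CfsgLib.Chars
open scoped ComplexConjugate

/-- Inside a finite group Γ let S normalise G and also normalise a normal subgroup N of G, with the order of S coprime to the index of N in G and S or G/N solvable. Then for every S-invariant irreducible character χ of G, the restriction of χ to N has an S-invariant irreducible constituent. -/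
theorem result {Γ : Type*} [Group Γ] [Fintype Γ] (G S N : Subgroup Γ) [Fintype G] [Fintype N] (hnorm : ∀ s ∈ S, ∀ g ∈ G, s * g * s⁻¹ ∈ G) (hNG : N ≤ G) [hNn : (N.subgroupOf G).Normal] (hNS : ∀ s ∈ S, ∀ n ∈ N, s * n * s⁻¹ ∈ N) (hcop : (N.relIndex G).Coprime (Nat.card S)) (hsolv : Group.IsSolvable S ∨ Group.IsSolvable (G ⧸ N.subgroupOf G)) (χ : Cfsg.IrrCharacter G) (hinv : (∀ s ∈ S, ∀ g g' : G, (g' : Γ) = s * g * s⁻¹ → (χ : G → ℂ) g' = (χ : G → ℂ) g)) : ∃ θ : Cfsg.IrrCharacter N, Cfsg.classInner (fun n : N => (χ : G → ℂ) ⟨n, hNG n.2⟩) (θ : N → ℂ) ≠ 0 ∧ (∀ s ∈ S, ∀ g g' : N, (g' : Γ) = s * g * s⁻¹ → (θ : N → ℂ) g' = (θ : N → ℂ) g) := by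
  classical
  set H : Subgroup Γ := Subgroup.normalizer (N : Set Γ) with hH
  have hmemH : ∀ x : Γ, (∀ n ∈ N, x * n * x⁻¹ ∈ N) → x ∈ H := by
    intro x hx
    rw [Subgroup.mem_normalizer_iff_map_conj_eq]
    refine Subgroup.eq_of_le_of_card_ge ?_ (Subgroup.card_map_of_injective (MulEquiv.injective _)).ge
    rintro _ ⟨n, hn, rfl⟩
    exact hx n hn
  have hGH : G ≤ H := fun g hg => hmemH g fun n hn =>
    Subgroup.mem_subgroupOf.mp (hNn.conj_mem ⟨n, hNG hn⟩ (Subgroup.mem_subgroupOf.mpr hn) ⟨g, hg⟩)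
  have hSH : S ≤ H := fun s hs => hmemH s (hNS s hs)
  let φ : H →* MulAut N := N.normalizerMonoidHom
  have hφ : ∀ (h : H) (n : N), ((φ h n : N) : Γ) = (h : Γ) * n * (h : Γ)⁻¹ := fun _ _ => rfl
  let act : H →* Equiv.Perm (Cfsg.IrrCharacter N) :=
    { toFun := fun h =>
        { toFun := fun θ => ⟨fun n => (θ : N → ℂ) (φ h⁻¹ n),
            IsIrrCharacter.comp θ.2 (φ h⁻¹).toMonoidHom (φ h⁻¹).surjective⟩
          invFun := fun θ => ⟨fun n => (θ : N → ℂ) (φ h n),
            IsIrrCharacter.comp θ.2 (φ h).toMonoidHom (φ h).surjective⟩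
          left_inv := fun θ => Subtype.ext (funext fun n => congrArg (θ : N → ℂ) (by
            rw [← MulAut.mul_apply, ← map_mul, inv_mul_cancel, map_one]; rfl))
          right_inv := fun θ => Subtype.ext (funext fun n => congrArg (θ : N → ℂ) (by
            rw [← MulAut.mul_apply, ← map_mul, mul_inv_cancel, map_one]; rfl)) }
      map_one' := Equiv.ext fun θ => Subtype.ext (funext fun n => congrArg (θ : N → ℂ) (by
        rw [inv_one, map_one]; rfl))
      map_mul' := fun a b => Equiv.ext fun θ => Subtype.ext (funext fun n => congrArg (θ : N → ℂ) (by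
        rw [mul_inv_rev, map_mul]; rfl)) }
  haveI hM : (N.subgroupOf H).Normal := Subgroup.normal_in_normalizer
  have hker : N.subgroupOf H ≤ act.ker := by
    intro m hm
    rw [MonoidHom.mem_ker]
    refine Equiv.ext fun θ => Subtype.ext (funext fun n => ?_)
    show (θ : N → ℂ) (φ m⁻¹ n) = (θ : N → ℂ) n
    rw [← IsCharacter.isClassFunction (isCharacter_irr θ) n (⟨(m : Γ), Subgroup.mem_subgroupOf.mp hm⟩⁻¹ : N)]
    refine congrArg (θ : N → ℂ) (Subtype.ext ?_)
    rw [hφ]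
    simp
  let actQ : H ⧸ N.subgroupOf H →* Equiv.Perm (Cfsg.IrrCharacter N) := QuotientGroup.lift _ act hker
  letI : MulAction (H ⧸ N.subgroupOf H) (Cfsg.IrrCharacter N) := MulAction.compHom _ actQ
  let π := QuotientGroup.mk' (N.subgroupOf H)
  have hsmul : ∀ (h : H) (θ : Cfsg.IrrCharacter N) (n : N),
      ((π h • θ : Cfsg.IrrCharacter N) : N → ℂ) n = (θ : N → ℂ) (φ h⁻¹ n) := fun _ _ _ => rfl
  let Gb := (G.subgroupOf H).map π
  let Sb := (S.subgroupOf H).map π
  have hnor : Sb ≤ Subgroup.normalizer (Gb : Set (H ⧸ N.subgroupOf H)) := by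
    rintro _ ⟨s, hs, rfl⟩
    rw [Subgroup.mem_normalizer_iff_map_conj_eq]
    refine Subgroup.eq_of_le_of_card_ge ?_ (Subgroup.card_map_of_injective (MulEquiv.injective _)).ge
    rintro _ ⟨_, ⟨g, hg, rfl⟩, rfl⟩
    refine ⟨s * g * s⁻¹, Subgroup.mem_subgroupOf.mpr ?_, ?_⟩
    · exact hnorm s (Subgroup.mem_subgroupOf.mp hs) g (Subgroup.mem_subgroupOf.mp hg)
    · simp [π, map_mul, MulAut.conj_apply]
  have hcG : Nat.card Gb = N.relIndex G := by
    show Nat.card ↥((G.subgroupOf H).map π) = _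
    rw [← Subgroup.relIndex_subgroupOf hGH]
    conv_rhs => rw [← QuotientGroup.ker_mk' (N.subgroupOf H)]
    rw [Subgroup.relIndex_ker]
  have hcS : Nat.card Sb ∣ Nat.card S := by
    refine ((S.subgroupOf H).card_map_dvd π).trans ?_
    rw [Nat.card_congr (Subgroup.subgroupOfEquivOfLe hSH).toEquiv]
  have hcop' : (Nat.card Sb).Coprime (Nat.card Gb) := by
    rw [hcG]
    exact (hcop.symm).coprime_dvd_left hcS
  have hsol' : Group.IsSolvable Gb ∨ Group.IsSolvable Sb := by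
    rcases hsolv with hs | hs
    · haveI := hs
      refine Or.inr (Group.isSolvable_of_surjective
        (f := (π.subgroupMap (S.subgroupOf H)).comp (Subgroup.subgroupOfEquivOfLe hSH).symm.toMonoidHom) ?_)
      exact (π.subgroupMap_surjective _).comp (Subgroup.subgroupOfEquivOfLe hSH).symm.surjective
    · haveI := hs
      let f₀ : G →* Gb := (π.subgroupMap (G.subgroupOf H)).comp (Subgroup.subgroupOfEquivOfLe hGH).symm.toMonoidHom
      refine Or.inl (Group.isSolvable_of_surjective (f := QuotientGroup.lift (N.subgroupOf G) f₀ fun x hx => ?_) ?_)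
      · rw [MonoidHom.mem_ker]
        apply Subtype.ext
        exact (QuotientGroup.eq_one_iff _).mpr (Subgroup.mem_subgroupOf.mpr (Subgroup.mem_subgroupOf.mp hx))
      · intro y
        obtain ⟨x, hx⟩ := ((π.subgroupMap_surjective (G.subgroupOf H)).comp (Subgroup.subgroupOfEquivOfLe hGH).symm.surjective) y
        exact ⟨QuotientGroup.mk x, hx⟩
  let c : Cfsg.IrrCharacter N → ℂ := fun θ => Cfsg.classInner (fun n : N => (χ : G → ℂ) ⟨n, hNG n.2⟩) (θ : N → ℂ)
  have hinvc : ∀ (h : H) (θ : Cfsg.IrrCharacter N),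
      (∀ n : N, (χ : G → ℂ) ⟨(φ h⁻¹ n : N), hNG (φ h⁻¹ n).2⟩ = (χ : G → ℂ) ⟨n, hNG n.2⟩) →
      c (π h • θ) = c θ := by
    intro h θ hh
    simp only [c, Cfsg.classInner, hsmul]
    congr 1
    refine Fintype.sum_equiv (φ h⁻¹).toEquiv _ _ fun n => ?_
    show (χ : G → ℂ) ⟨n, hNG n.2⟩ * conj ((θ : N → ℂ) (φ h⁻¹ n)) =
      (χ : G → ℂ) ⟨(φ h⁻¹ n : N), hNG (φ h⁻¹ n).2⟩ * conj ((θ : N → ℂ) (φ h⁻¹ n))
    rw [hh]
  have hχres : Cfsg.IsCharacter N (fun n : N => (χ : G → ℂ) ⟨n, hNG n.2⟩) :=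
    IsCharacter.comp (isCharacter_irr χ) (Subgroup.inclusion hNG)
  obtain ⟨⟨θ, hθ, hfix⟩, -⟩ := CfsgLib.GroupB.Coprime.glauberman hnor hcop' hsol'
    {θ : Cfsg.IrrCharacter N | c θ ≠ 0} (CfsgLib.CliffordCorr.exists_irr_constituent hχres (irr_one_ne_zero χ))
    (by
      rintro _ ⟨g, hg, rfl⟩ θ hθ
      show c (π g • θ) ≠ 0
      rw [hinvc g θ fun n => ?_]
      · exact hθ
      · conv_rhs => rw [← IsCharacter.isClassFunction (isCharacter_irr χ) ⟨n, hNG n.2⟩
          (⟨(g : Γ), Subgroup.mem_subgroupOf.mp hg⟩⁻¹ : G)]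
        refine congrArg (χ : G → ℂ) (Subtype.ext ?_)
        show ((φ g⁻¹ n : N) : Γ) = _
        rw [hφ]
        simp)
    (by
      rintro _ ⟨s, hs, rfl⟩ θ hθ
      show c (π s • θ) ≠ 0
      rw [hinvc s θ fun n => ?_]
      · exact hθ
      · refine hinv _ (inv_mem (Subgroup.mem_subgroupOf.mp hs)) ⟨n, hNG n.2⟩ _ ?_
        show ((φ s⁻¹ n : N) : Γ) = _
        rw [hφ]
        simp)
    (by
      intro θ₁ h₁ θ₂ h₂
      haveI : Fintype (N.subgroupOf G) := Fintype.ofFinite _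
      let e : N.subgroupOf G ≃* N := Subgroup.subgroupOfEquivOfLe hNG
      let tr : Cfsg.IrrCharacter N → Cfsg.IrrCharacter (N.subgroupOf G) := fun θ =>
        ⟨fun x => (θ : N → ℂ) (e x), IsIrrCharacter.comp θ.2 e.toMonoidHom e.surjective⟩
      have hc : ∀ θ, Cfsg.classInner (fun x : N.subgroupOf G => (χ : G → ℂ) x) (tr θ : N.subgroupOf G → ℂ) = c θ := by
        intro θ
        simp only [c, Cfsg.classInner, Nat.card_congr e.toEquiv]
        congr 1
        exact Fintype.sum_equiv e.toEquiv _ _ fun x => rfl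
      obtain ⟨g, hg⟩ := clifford_conjugate (N.subgroupOf G) χ (tr θ₁) (tr θ₂) (by rw [hc]; exact h₁) (by rw [hc]; exact h₂)
      refine ⟨π ⟨(g : Γ)⁻¹, hGH (inv_mem g.2)⟩, ⟨_, Subgroup.mem_subgroupOf.mpr (inv_mem g.2), rfl⟩, ?_⟩
      apply Subtype.ext
      funext n
      rw [hsmul]
      have h := congrFun (congrArg Subtype.val hg) (e.symm n)
      rw [conjIrr_apply] at h
      change (θ₂ : N → ℂ) (e (e.symm n)) = (θ₁ : N → ℂ) (e (conjN (N.subgroupOf G) g (e.symm n))) at h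
      rw [MulEquiv.apply_symm_apply] at h
      rw [h]
      refine congrArg (θ₁ : N → ℂ) (Subtype.ext ?_)
      rw [hφ]
      show _ = ((conjN (N.subgroupOf G) g (e.symm n) : G) : Γ)
      rw [conjN_coe]
      simp [e])
  refine ⟨θ, hθ, fun s hs a b hb => ?_⟩
  have h := congrFun (congrArg Subtype.val (hfix (π ⟨s⁻¹, hSH (inv_mem hs)⟩)
    ⟨_, Subgroup.mem_subgroupOf.mpr (inv_mem hs), rfl⟩)) a
  rw [hsmul] at h
  rw [← h]
  refine congrArg (θ : N → ℂ) (Subtype.ext ?_)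
  rw [hb, hφ]
  simp

end Cfsg.Agent.S4447
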