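import Cfsg.Statements.S4448
import Cfsg.Agent.Lib.CliffordCorr
import Cfsg.Agent.Lib.Blocks.Cover
import Cfsg.Agent.Lib.Chars.Misc
import Mathlib.GroupTheory.Solvable

set_option autoImplicit false
open Cfsg

namespace Cfsg.Agent.S4448

open CfsgLib.Chars
open scoped ComplexConjugate commutatorElement

universe u w

theorem classInner_res_ne {X : Type u} [Group X] [Fintype X] (M : Subgroup X) [Fintype M] (θ : Cfsg.IrrCharacter M)
    (χ χ' : Cfsg.IrrCharacter X) (h : Cfsg.classInner (fun n : M => (χ : X → ℂ) n) (θ : M → ℂ) ≠ 0)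
    (h' : Cfsg.classInner (fun n : M => (χ' : X → ℂ) n) (θ : M → ℂ) ≠ 0) :
    ∑ n : M, (χ' : X → ℂ) n * conj ((χ : X → ℂ) n) ≠ 0 := by
  classical
  have hr := IsCharacter.restrict (isCharacter_irr χ) M
  have hr' := IsCharacter.restrict (isCharacter_irr χ') M
  choose a ha using exists_mult hr
  choose b hb using exists_mult hr'
  have hexp : ∀ n : M, (χ' : X → ℂ) n = ∑ ψ : Cfsg.IrrCharacter M, (b ψ : ℂ) * (ψ : M → ℂ) n := fun n => by
    rw [classFunction_expand (IsCharacter.isClassFunction hr') n]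
    simp only [hb]
  have key : ∀ ψ : Cfsg.IrrCharacter M,
      ∑ n : M, (ψ : M → ℂ) n * conj ((χ : X → ℂ) n) = (Nat.card M : ℂ) * (a ψ : ℂ) := by
    intro ψ
    rw [← ha ψ, classInner_character_comm hr (isCharacter_irr ψ), Cfsg.classInner, ← mul_assoc,
      mul_inv_cancel₀ (natCast_card_ne_zero M), one_mul]
  simp only [hexp, Finset.sum_mul]
  rw [Finset.sum_comm]
  simp only [mul_assoc, ← Finset.mul_sum, key]
  intro hz
  have hz' : ∑ ψ : Cfsg.IrrCharacter M, b ψ * (Nat.card M * a ψ) = 0 := by exact_mod_cast hz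
  have h0 := Finset.sum_eq_zero_iff.mp hz' θ (Finset.mem_univ θ)
  rcases Nat.mul_eq_zero.mp h0 with e | e
  · exact h' (by rw [hb, e, Nat.cast_zero])
  · rcases Nat.mul_eq_zero.mp e with e' | e'
    · exact Nat.card_pos.ne' e'
    · exact h (by rw [ha, e', Nat.cast_zero])

/-- The abelian step. -/
theorem step {X : Type u} [Group X] [Finite X] {S : Type w} [Group S] [Finite S] (α : S →* MulAut X)
    (M : Subgroup X) [M.Normal] [Fintype M] (hab : ∀ x y : X, x * y * x⁻¹ * y⁻¹ ∈ M)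
    (hαM : ∀ s, ∀ m ∈ M, α s m ∈ M) (hcop : M.index.Coprime (Nat.card S))
    (θ : Cfsg.IrrCharacter M) (hθ : ∀ s (m : M), (θ : M → ℂ) ⟨α s m, hαM s m m.2⟩ = (θ : M → ℂ) m) :
    ∃ χ : Cfsg.IrrCharacter X, Cfsg.classInner (fun n : M => (χ : X → ℂ) n) (θ : M → ℂ) ≠ 0 ∧
      ∀ s x, (χ : X → ℂ) (α s x) = (χ : X → ℂ) x := by
  classical
  haveI := Fintype.ofFinite X
  haveI := Fintype.ofFinite S
  obtain ⟨χ, hχ⟩ := CfsgLib.Blocks.exists_over M θ
  let A : Subgroup (X →* ℂˣ) :=
    { carrier := {f | ∀ m ∈ M, f m = 1}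
      one_mem' := fun m _ => rfl
      mul_mem' := fun {a b} ha hb m hm => by rw [MonoidHom.mul_apply, ha m hm, hb m hm, one_mul]
      inv_mem' := fun {a} ha m hm => by rw [MonoidHom.inv_apply, ha m hm, inv_one] }
  let B : Subgroup A :=
    { carrier := {f | ∀ x, (((f : X →* ℂˣ) x : ℂˣ) : ℂ) * (χ : X → ℂ) x = (χ : X → ℂ) x}
      one_mem' := fun x => by simp
      mul_mem' := fun {a b} ha hb x => by
        rw [Subgroup.coe_mul, MonoidHom.mul_apply, Units.val_mul, mul_assoc, hb x, ha x]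
      inv_mem' := fun {a} ha x => by
        rw [InvMemClass.coe_inv, MonoidHom.inv_apply]
        conv_lhs => rw [← ha x]
        rw [← mul_assoc, ← Units.val_mul, inv_mul_cancel, Units.val_one, one_mul] }
  have hBeq : ∀ a b : A, (∀ x, (((a : X →* ℂˣ) x : ℂˣ) : ℂ) * (χ : X → ℂ) x =
      (((b : X →* ℂˣ) x : ℂˣ) : ℂ) * (χ : X → ℂ) x) ↔ (QuotientGroup.mk a : A ⧸ B) = QuotientGroup.mk b := by
    intro a b
    rw [QuotientGroup.eq]
    refine forall_congr' fun x => ?_
    rw [Subgroup.coe_mul, InvMemClass.coe_inv, MonoidHom.mul_apply, MonoidHom.inv_apply, Units.val_mul,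
      mul_assoc, Units.inv_mul_eq_iff_eq_mul]
    exact eq_comm
  -- the action on `A`
  let σ : S → A →* A := fun s =>
    { toFun := fun f => ⟨(f : X →* ℂˣ).comp (α s⁻¹).toMonoidHom, fun m hm => f.2 _ (hαM s⁻¹ m hm)⟩
      map_one' := rfl
      map_mul' := fun a b => rfl }
  have hχs : ∀ s, ∃ f : A, ∀ x, (χ : X → ℂ) (α s⁻¹ x) = (((f : X →* ℂˣ) x : ℂˣ) : ℂ) * (χ : X → ℂ) x := by
    intro s
    let χs : Cfsg.IrrCharacter X :=
      ⟨fun x => (χ : X → ℂ) (α s⁻¹ x), IsIrrCharacter.comp χ.2 (α s⁻¹).toMonoidHom (α s⁻¹).surjective⟩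
    have hs : Cfsg.classInner (fun n : M => (χs : X → ℂ) n) (θ : M → ℂ) ≠ 0 := by
      let e : M ≃ M :=
        { toFun := fun m => ⟨α s⁻¹ m, hαM _ m m.2⟩
          invFun := fun m => ⟨α s m, hαM _ m m.2⟩
          left_inv := fun m => Subtype.ext (by
            show α s (α s⁻¹ m) = m
            rw [← MulAut.mul_apply, ← map_mul, mul_inv_cancel, map_one]; rfl)
          right_inv := fun m => Subtype.ext (by
            show α s⁻¹ (α s m) = m
            rw [← MulAut.mul_apply, ← map_mul, inv_mul_cancel, map_one]; rfl) }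
      have he : Cfsg.classInner (fun n : M => (χs : X → ℂ) n) (θ : M → ℂ) =
          Cfsg.classInner (fun n : M => (χ : X → ℂ) n) (θ : M → ℂ) := by
        simp only [Cfsg.classInner]
        congr 1
        refine Fintype.sum_equiv e _ _ fun m => ?_
        show (χ : X → ℂ) (α s⁻¹ m) * conj ((θ : M → ℂ) m) =
          (χ : X → ℂ) (α s⁻¹ m) * conj ((θ : M → ℂ) ⟨α s⁻¹ m, hαM _ m m.2⟩)
        rw [hθ]
      rw [he]; exact hχ
    obtain ⟨f, hf1, hf2⟩ := CfsgLib.CliffordCorr.exists_linear_twist M hab χ χs (classInner_res_ne M θ χ χs hχ hs)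
    exact ⟨⟨f, fun m hm => hf1 ⟨m, hm⟩⟩, hf2⟩
  choose f hf using hχs
  have hco : ∀ s t, (QuotientGroup.mk (σ s (f t) * f s) : A ⧸ B) = QuotientGroup.mk (f (s * t)) := by
    intro s t
    rw [← hBeq]
    intro x
    have e : α (s * t)⁻¹ x = α t⁻¹ (α s⁻¹ x) := by rw [mul_inv_rev, map_mul]; rfl
    rw [← hf (s * t) x, e, hf t, hf s, Subgroup.coe_mul, MonoidHom.mul_apply, Units.val_mul, mul_assoc]
    rfl
  have hexpA : ∀ a : A, a ^ M.index = 1 := fun a => by
    apply Subtype.ext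
    refine MonoidHom.ext fun x => ?_
    rw [Subgroup.coe_pow, MonoidHom.pow_apply, ← map_pow]
    exact a.2 _ (by simpa [Subgroup.index] using Subgroup.pow_index_mem M x)
  set u := ∏ t, f t with hu
  have hprod : ∀ s, (QuotientGroup.mk (σ s u * f s ^ Nat.card S) : A ⧸ B) = QuotientGroup.mk u := by
    intro s
    have e : σ s u * f s ^ Nat.card S = ∏ t, (σ s (f t) * f s) := by
      rw [Finset.prod_mul_distrib, ← map_prod, Finset.prod_const, Finset.card_univ, Nat.card_eq_fintype_card]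
    rw [e, hu]
    change QuotientGroup.mk' B (∏ t, (σ s (f t) * f s)) = QuotientGroup.mk' B (∏ t, f t)
    rw [map_prod, map_prod, ← Equiv.prod_comp (Equiv.mulLeft s) (fun t => QuotientGroup.mk' B (f t))]
    exact Finset.prod_congr rfl fun t _ => hco s t
  obtain ⟨r, hr⟩ : ∃ r, Nat.card S * r ≡ 1 [MOD M.index] := by
    have h := (Nat.chineseRemainder (hcop.symm) 0 1).2
    obtain ⟨c, hc⟩ : Nat.card S ∣ (Nat.chineseRemainder (hcop.symm) 0 1).1 := Nat.modEq_zero_iff_dvd.mp h.1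
    exact ⟨c, hc ▸ h.2⟩
  set v := u ^ r with hv
  have hvs : ∀ s, (QuotientGroup.mk (σ s v * f s) : A ⧸ B) = QuotientGroup.mk v := by
    intro s
    have e1 : f s = (f s ^ Nat.card S) ^ r := by
      rw [← pow_mul]
      conv_lhs => rw [← pow_one (f s)]
      rw [pow_eq_pow_iff_modEq]
      exact hr.symm.of_dvd (orderOf_dvd_of_pow_eq_one (hexpA _))
    rw [e1, hv, map_pow, ← mul_pow]
    change QuotientGroup.mk' B ((σ s u * f s ^ Nat.card S) ^ r) = QuotientGroup.mk' B (u ^ r)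
    rw [map_pow, map_pow]
    exact congrArg (· ^ r) (hprod s)
  refine ⟨⟨_, isIrrCharacter_hom_mul (v : X →* ℂˣ) χ⟩, ?_, fun s x => ?_⟩
  · have e : (fun n : M => (((v : X →* ℂˣ) (n : X) : ℂˣ) : ℂ) * (χ : X → ℂ) n) = fun n : M => (χ : X → ℂ) n :=
      funext fun n => by rw [v.2 n n.2, Units.val_one, one_mul]
    show Cfsg.classInner (fun n : M => (((v : X →* ℂˣ) (n : X) : ℂˣ) : ℂ) * (χ : X → ℂ) n) _ ≠ 0
    rw [e]; exact hχ
  · have h := (hBeq _ _).mpr (hvs s) (α s x)
    have e : α s⁻¹ (α s x) = x := by rw [← MulAut.mul_apply, ← map_mul, inv_mul_cancel, map_one]; rfl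
    rw [Subgroup.coe_mul, MonoidHom.mul_apply, Units.val_mul, mul_assoc, ← hf, e] at h
    show (((v : X →* ℂˣ) (α s x) : ℂˣ) : ℂ) * (χ : X → ℂ) (α s x) = (((v : X →* ℂˣ) x : ℂˣ) : ℂ) * (χ : X → ℂ) x
    rw [← h]
    show (((v : X →* ℂˣ) (α s⁻¹ (α s x)) : ℂˣ) : ℂ) * _ = _
    rw [e]

theorem trans_over {X : Type u} [Group X] [Fintype X] {Y M : Subgroup X} [Fintype Y] [Fintype M] (h : M ≤ Y)
    (χ : Cfsg.IrrCharacter X) (ψ : Cfsg.IrrCharacter Y) (θ : Cfsg.IrrCharacter M)
    (h1 : Cfsg.classInner (fun y : Y => (χ : X → ℂ) y) (ψ : Y → ℂ) ≠ 0)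
    (h2 : Cfsg.classInner (fun n : M => (ψ : Y → ℂ) ⟨n, h n.2⟩) (θ : M → ℂ) ≠ 0) :
    Cfsg.classInner (fun n : M => (χ : X → ℂ) n) (θ : M → ℂ) ≠ 0 := by
  classical
  have hres : Cfsg.IsCharacter Y (fun y : Y => (χ : X → ℂ) y) := IsCharacter.restrict (isCharacter_irr χ) Y
  choose c hc using exists_mult hres
  choose d hd using fun η : Cfsg.IrrCharacter Y =>
    exists_mult (IsCharacter.comp (isCharacter_irr η) (Subgroup.inclusion h)) θ
  have e : (fun n : M => (χ : X → ℂ) n) = fun n : M =>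
      ∑ η : Cfsg.IrrCharacter Y, (c η : ℂ) * (η : Y → ℂ) ⟨n, h n.2⟩ := funext fun n => by
    refine (classFunction_expand (IsCharacter.isClassFunction hres) ⟨n, h n.2⟩).trans ?_
    simp only [hc]
  rw [e, classInner_sum]
  intro hz
  have hz' : ∑ η : Cfsg.IrrCharacter Y, c η * d η = 0 := by
    have : ((∑ η : Cfsg.IrrCharacter Y, c η * d η : ℕ) : ℂ) = 0 := by
      rw [← hz]; push_cast
      exact Finset.sum_congr rfl fun η _ => congrArg _ (hd η).symm
    exact_mod_cast this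
  rcases Nat.mul_eq_zero.mp (Finset.sum_eq_zero_iff.mp hz' ψ (Finset.mem_univ _)) with e' | e'
  · exact h1 (by rw [hc, e', Nat.cast_zero])
  · exact h2 ((hd ψ).trans (by rw [e', Nat.cast_zero]))

theorem main {X : Type u} [Group X] [Fintype X] {S : Type w} [Group S] [Finite S] (α : S →* MulAut X)
    (N : Subgroup X) [N.Normal] [Fintype N] (hsolv : Group.IsSolvable (X ⧸ N))
    (hαN : ∀ s, ∀ m ∈ N, α s m ∈ N) (hcop : N.index.Coprime (Nat.card S))
    (θ : Cfsg.IrrCharacter N) (hθ : ∀ s (m : N), (θ : N → ℂ) ⟨α s m, hαN s m m.2⟩ = (θ : N → ℂ) m) :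
    ∃ χ : Cfsg.IrrCharacter X, Cfsg.classInner (fun n : N => (χ : X → ℂ) n) (θ : N → ℂ) ≠ 0 ∧
      ∀ s x, (χ : X → ℂ) (α s x) = (χ : X → ℂ) x := by
  classical
  obtain ⟨m, hm⟩ := hsolv.solvable
  let W : ℕ → Subgroup X := fun j => N ⊔ derivedSeries X j
  have hWm : W m ≤ N := by
    refine sup_le le_rfl fun x hx => ?_
    rw [← QuotientGroup.eq_one_iff]
    have := map_derivedSeries_le_derivedSeries (QuotientGroup.mk' N) m (Subgroup.mem_map_of_mem _ hx)
    rw [hm, Subgroup.mem_bot] at this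
    exact this
  have hαW : ∀ j s, ∀ x ∈ W j, α s x ∈ W j := by
    intro j s
    have hle : (W j).map (α s).toMonoidHom ≤ W j := by
      rw [Subgroup.map_sup]
      exact sup_le_sup (by rintro _ ⟨x, hx, rfl⟩; exact hαN s x hx) (map_derivedSeries_le_derivedSeries _ j)
    exact fun x hx => hle (Subgroup.mem_map_of_mem _ hx)
  have hNW : ∀ j, N ≤ W j := fun j => le_sup_left
  have key : ∀ d j, j + d = m → ∃ χ : Cfsg.IrrCharacter (W j),
      Cfsg.classInner (fun n : N => (χ : W j → ℂ) ⟨n, hNW j n.2⟩) (θ : N → ℂ) ≠ 0 ∧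
      ∀ s (x : W j), (χ : W j → ℂ) ⟨α s x, hαW j s x x.2⟩ = (χ : W j → ℂ) x := by
    intro d
    induction d with
    | zero =>
      intro j hj
      rw [Nat.add_zero] at hj
      subst hj
      let e : W j →* N := Subgroup.inclusion hWm
      have hsur : Function.Surjective e := fun n => ⟨⟨n, hNW j n.2⟩, rfl⟩
      refine ⟨⟨_, IsIrrCharacter.comp θ.2 e hsur⟩, ?_, fun s x => ?_⟩
      · have h := classInner_irr θ θ
        rw [if_pos rfl] at h
        show Cfsg.classInner (fun n : N => (θ : N → ℂ) (e ⟨n, hNW j n.2⟩)) (θ : N → ℂ) ≠ 0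
        change Cfsg.classInner (θ : N → ℂ) (θ : N → ℂ) ≠ 0
        rw [h]; exact one_ne_zero
      · exact hθ s (e x)
    | succ d ih =>
      intro j hj
      obtain ⟨ψ, hψ, hψi⟩ := ih (j + 1) (by omega)
      have hle : W (j + 1) ≤ W j := sup_le_sup_left (derivedSeries_antitone X (Nat.le_succ j)) N
      haveI hn1 : (W (j + 1)).Normal := by
        haveI := derivedSeries_normal X (j + 1)
        exact Subgroup.sup_normal _ _
      haveI : ((W (j + 1)).subgroupOf (W j)).Normal := hn1.subgroupOf _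
      haveI : Fintype ((W (j + 1)).subgroupOf (W j)) := Fintype.ofFinite _
      let αj : S →* MulAut (W j) :=
        { toFun := fun s =>
            { toFun := fun x => ⟨α s x, hαW j s x x.2⟩
              invFun := fun x => ⟨α s⁻¹ x, hαW j _ x x.2⟩
              left_inv := fun x => Subtype.ext (by
                show α s⁻¹ (α s x) = x
                rw [← MulAut.mul_apply, ← map_mul, inv_mul_cancel, map_one]; rfl)
              right_inv := fun x => Subtype.ext (by
                show α s (α s⁻¹ x) = x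
                rw [← MulAut.mul_apply, ← map_mul, mul_inv_cancel, map_one]; rfl)
              map_mul' := fun x y => Subtype.ext (map_mul (α s) _ _) }
          map_one' := MulEquiv.ext fun x => Subtype.ext (by show α 1 x = x; rw [map_one]; rfl)
          map_mul' := fun s t => MulEquiv.ext fun x => Subtype.ext (by
            show α (s * t) x = α s (α t x); rw [map_mul]; rfl) }
      have hab : ∀ x y : W j, x * y * x⁻¹ * y⁻¹ ∈ (W (j + 1)).subgroupOf (W j) := by
        rintro ⟨x, hx⟩ ⟨y, hy⟩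
        rw [Subgroup.mem_subgroupOf]
        show x * y * x⁻¹ * y⁻¹ ∈ W (j + 1)
        obtain ⟨a, ha, b, hb, rfl⟩ := Subgroup.mem_sup_of_normal_left.mp hx
        obtain ⟨c, hc, e, he, rfl⟩ := Subgroup.mem_sup_of_normal_left.mp hy
        rw [← QuotientGroup.eq_one_iff]
        have hq : ∀ z ∈ N, ((z : X) : X ⧸ W (j + 1)) = 1 := fun z hz =>
          (QuotientGroup.eq_one_iff z).mpr (hNW _ hz)
        simp only [QuotientGroup.mk_mul, QuotientGroup.mk_inv, hq a ha, hq c hc, one_mul]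
        rw [← QuotientGroup.mk_inv, ← QuotientGroup.mk_inv, ← QuotientGroup.mk_mul, ← QuotientGroup.mk_mul,
          ← QuotientGroup.mk_mul, QuotientGroup.eq_one_iff]
        refine Subgroup.mem_sup_right ?_
        rw [derivedSeries_succ]
        exact Subgroup.commutator_mem_commutator hb he
      have hidx : ((W (j + 1)).subgroupOf (W j)).index.Coprime (Nat.card S) := by
        refine hcop.coprime_dvd_left ?_
        show (W (j + 1)).relIndex (W j) ∣ _
        exact (Subgroup.relIndex_dvd_of_le_left _ (hNW (j + 1))).trans (Subgroup.relIndex_dvd_index_of_normal N _)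
      let em : (W (j + 1)).subgroupOf (W j) ≃* W (j + 1) := Subgroup.subgroupOfEquivOfLe hle
      obtain ⟨χ, hχ, hχi⟩ := step αj ((W (j + 1)).subgroupOf (W j)) hab
        (fun s x hx => Subgroup.mem_subgroupOf.mpr (hαW (j + 1) s _ (Subgroup.mem_subgroupOf.mp hx))) hidx
        ⟨fun x => (ψ : W (j + 1) → ℂ) (em x), IsIrrCharacter.comp ψ.2 em.toMonoidHom em.surjective⟩
        (fun s x => hψi s (em x))
      refine ⟨χ, ?_, fun s x => hχi s x⟩
      haveI : Fintype (N.subgroupOf (W j)) := Fintype.ofFinite _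
      let en : N.subgroupOf (W j) ≃* N := Subgroup.subgroupOfEquivOfLe (hNW j)
      have hNle : N.subgroupOf (W j) ≤ (W (j + 1)).subgroupOf (W j) := fun x hx => hNW (j + 1) hx
      have h2 := trans_over hNle χ _ ⟨fun x => (θ : N → ℂ) (en x), IsIrrCharacter.comp θ.2 en.toMonoidHom en.surjective⟩ hχ (by
        have e' : Cfsg.classInner (fun n : N.subgroupOf (W j) => (ψ : W (j + 1) → ℂ) (em ⟨n, hNle n.2⟩))
            (fun x => (θ : N → ℂ) (en x)) =
            Cfsg.classInner (fun n : N => (ψ : W (j + 1) → ℂ) ⟨n, hNW (j + 1) n.2⟩) (θ : N → ℂ) := by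
          simp only [Cfsg.classInner, Nat.card_congr en.toEquiv]
          congr 1
          exact Fintype.sum_equiv en.toEquiv _ _ fun x => rfl
        rw [e']; exact hψ)
      have e' : Cfsg.classInner (fun n : N.subgroupOf (W j) => (χ : W j → ℂ) n) (fun x => (θ : N → ℂ) (en x)) =
          Cfsg.classInner (fun n : N => (χ : W j → ℂ) ⟨n, hNW j n.2⟩) (θ : N → ℂ) := by
        simp only [Cfsg.classInner, Nat.card_congr en.toEquiv]
        congr 1
        exact Fintype.sum_equiv en.toEquiv _ _ fun x => rfl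
      rw [← e']; exact h2
  obtain ⟨χ, hχ, hχi⟩ := key m 0 (Nat.zero_add m)
  have hW0 : W 0 = ⊤ := by show N ⊔ derivedSeries X 0 = ⊤; rw [derivedSeries_zero, sup_top_eq]
  let e : X →* W 0 := (MonoidHom.id X).codRestrict (W 0) fun x => hW0 ▸ Subgroup.mem_top x
  exact ⟨⟨_, IsIrrCharacter.comp χ.2 e fun y => ⟨y, rfl⟩⟩, hχ, fun s x => hχi s (e x)⟩

/-- Inside a finite group Γ let S normalise G and also normalise a normal subgroup N of G, with the order of S coprime to the index of N in G and G/N solvable. Then for every S-invariant irreducible character ϑ of N, the induced character ϑ^G has an S-invariant irreducible constituent. -/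
theorem result {Γ : Type*} [Group Γ] [Fintype Γ] (G S N : Subgroup Γ) [Fintype G] [Fintype N] (hnorm : ∀ s ∈ S, ∀ g ∈ G, s * g * s⁻¹ ∈ G) (hNG : N ≤ G) [hNn : (N.subgroupOf G).Normal] (hNS : ∀ s ∈ S, ∀ n ∈ N, s * n * s⁻¹ ∈ N) (hcop : (N.relIndex G).Coprime (Nat.card S)) (hsolv : Group.IsSolvable (G ⧸ N.subgroupOf G)) (θ : Cfsg.IrrCharacter N) (hinv : (∀ s ∈ S, ∀ g g' : N, (g' : Γ) = s * g * s⁻¹ → (θ : N → ℂ) g' = (θ : N → ℂ) g)) : ∃ χ : Cfsg.IrrCharacter G, Cfsg.classInner (fun n : N => (χ : G → ℂ) ⟨n, hNG n.2⟩) (θ : N → ℂ) ≠ 0 ∧ (∀ s ∈ S, ∀ g g' : G, (g' : Γ) = s * g * s⁻¹ → (χ : G → ℂ) g' = (χ : G → ℂ) g) := by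
  classical
  have hle : S ≤ Subgroup.normalizer (G : Set Γ) := by
    intro s hs
    rw [Subgroup.mem_normalizer_iff_map_conj_eq]
    refine Subgroup.eq_of_le_of_card_ge ?_ (Subgroup.card_map_of_injective (MulEquiv.injective _)).ge
    rintro _ ⟨g, hg, rfl⟩
    exact hnorm s hs g hg
  let α : S →* MulAut G := G.normalizerMonoidHom.comp (Subgroup.inclusion hle)
  haveI : Fintype (N.subgroupOf G) := Fintype.ofFinite _
  let e : N.subgroupOf G ≃* N := Subgroup.subgroupOfEquivOfLe hNG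
  obtain ⟨χ, hχ, hχi⟩ := main α (N.subgroupOf G) hsolv
    (fun s m hm => Subgroup.mem_subgroupOf.mpr (hNS s s.2 m (Subgroup.mem_subgroupOf.mp hm))) hcop
    ⟨fun x => (θ : N → ℂ) (e x), IsIrrCharacter.comp θ.2 e.toMonoidHom e.surjective⟩
    (fun s m => hinv s s.2 (e m) _ rfl)
  refine ⟨χ, ?_, fun s hs a b hb => ?_⟩
  · have e' : Cfsg.classInner (fun n : N.subgroupOf G => (χ : G → ℂ) n) (fun x => (θ : N → ℂ) (e x)) =
        Cfsg.classInner (fun n : N => (χ : G → ℂ) ⟨n, hNG n.2⟩) (θ : N → ℂ) := by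
      simp only [Cfsg.classInner, Nat.card_congr e.toEquiv]
      congr 1
      exact Fintype.sum_equiv e.toEquiv _ _ fun x => rfl
    rw [← e']; exact hχ
  · rw [← hχi ⟨s, hs⟩ a]
    exact congrArg (χ : G → ℂ) (Subtype.ext hb)

end Cfsg.Agent.S4448
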