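import Cfsg.Statements.S4449
import Cfsg.Agent.Lib.Chars.GlaubermanOver

set_option autoImplicit false
open Cfsg

namespace Cfsg.Agent.S4449

open CfsgLib.Chars

/-- Inside a finite group Γ let the solvable subgroup S normalise G with the orders of G and S coprime, and let N be a normal subgroup of G normalised by S. Then for every S-invariant irreducible character ϑ of N, the induced character ϑ^G has an S-invariant irreducible constituent. -/
theorem result {Γ : Type*} [Group Γ] [Fintype Γ] (G S N : Subgroup Γ) [Fintype G] [Fintype N] (hnorm : ∀ s ∈ S, ∀ g ∈ G, s * g * s⁻¹ ∈ G) (hNG : N ≤ G) (hNnormal : ∀ g ∈ G, ∀ n ∈ N, g * n * g⁻¹ ∈ N) (hNS : ∀ s ∈ S, ∀ n ∈ N, s * n * s⁻¹ ∈ N) (hcop : (Nat.card G).Coprime (Nat.card S)) (hsolv : Group.IsSolvable S) (θ : Cfsg.IrrCharacter N) (hinv : (∀ s ∈ S, ∀ g g' : N, (g' : Γ) = s * g * s⁻¹ → (θ : N → ℂ) g' = (θ : N → ℂ) g)) : ∃ χ : Cfsg.IrrCharacter G, Cfsg.classInner (fun n : N => (χ : G → ℂ) ⟨n, hNG n.2⟩) (θ : N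 → ℂ) ≠ 0 ∧ (∀ s ∈ S, ∀ g g' : G, (g' : Γ) = s * g * s⁻¹ → (χ : G → ℂ) g' = (χ : G → ℂ) g) := by
  classical
  let act : S →* MulAut G :=
    { toFun := fun s =>
        { toFun := fun g => ⟨s * g * (s : Γ)⁻¹, hnorm s s.2 g g.2⟩
          invFun := fun g => ⟨(s : Γ)⁻¹ * g * s, by
            simpa using hnorm _ (inv_mem s.2) g g.2⟩
          left_inv := fun g => Subtype.ext (by simp [mul_assoc])
          right_inv := fun g => Subtype.ext (by simp [mul_assoc])
          map_mul' := fun a b => Subtype.ext (by simp [mul_assoc]) }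
      map_one' := MulEquiv.ext fun g => Subtype.ext (by simp)
      map_mul' := fun s t => MulEquiv.ext fun g => Subtype.ext (by simp [mul_assoc]) }
  haveI : (N.subgroupOf G).Normal := ⟨fun n hn g => hNnormal g g.2 n hn⟩
  haveI : Fintype (N.subgroupOf G) := Fintype.ofFinite _
  let e : N.subgroupOf G ≃* N := Subgroup.subgroupOfEquivOfLe hNG
  let θ₀ : IrrCharacter (N.subgroupOf G) :=
    ⟨fun x => (θ : N → ℂ) (e x), IsIrrCharacter.comp θ.2 e.toMonoidHom e.surjective⟩
  obtain ⟨χ, hχ, hne⟩ := Glauberman.exists_inv_over (Nat.card S) G S act le_rfl hcop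
    (N.subgroupOf G) (fun s x => hNS s s.2 _ x.2) θ₀ (fun s x y h => by
      refine hinv s s.2 (e x) (e y) ?_
      exact congrArg Subtype.val h)
  refine ⟨χ, ?_, fun s hs g g' hgg => ?_⟩
  · have heq : classInner (fun x : N.subgroupOf G => (χ : G → ℂ) x) (θ₀ : N.subgroupOf G → ℂ) =
        classInner (fun n : N => (χ : G → ℂ) ⟨n, hNG n.2⟩) (θ : N → ℂ) := by
      rw [classInner, classInner, Nat.card_congr e.toEquiv]
      congr 1
      exact Fintype.sum_equiv e.toEquiv _ _ fun x => rfl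
    rwa [heq] at hne
  · rw [show g' = act ⟨s, hs⟩ g from Subtype.ext hgg]
    exact hχ ⟨s, hs⟩ g

end Cfsg.Agent.S4449
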