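import Cfsg.Statements.S4451
import Cfsg.Agent.Lib.CharExtend
import Cfsg.Agent.Lib.CharAbelian
import Cfsg.Agent.Lib.Chars.Induced
import Cfsg.Agent.Lib.Chars.Misc
import Cfsg.Agent.Lib.Chars.Linear

set_option autoImplicit false
open Cfsg

namespace Cfsg.Agent.S4451

open CfsgLib.Chars
open scoped ComplexConjugate

/-- The variance of natural numbers is zero or at least `m - 1`, with equality for one deviation. -/
theorem int_lemma {ι : Type*} [Fintype ι] (m : ℕ) (hm : 2 ≤ m) (hs : Fintype.card ι = m) (a : ι → ℕ) :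
    (∃ q : ℕ, ∀ i, a i = q) ∨
      ((m : ℤ) - 1 ≤ (m : ℤ) * ∑ i, (a i : ℤ) ^ 2 - (∑ i, (a i : ℤ)) ^ 2 ∧
        ((m : ℤ) * ∑ i, (a i : ℤ) ^ 2 - (∑ i, (a i : ℤ)) ^ 2 = (m : ℤ) - 1 →
          ∃ (i₀ : ι) (δ : ℤ) (q : ℕ), (δ = 1 ∨ δ = -1) ∧ (a i₀ : ℤ) = q + δ ∧ ∀ i, i ≠ i₀ → a i = q)) := by
  classical
  set e : ℤ := ∑ i, (a i : ℤ) with he
  obtain ⟨q, r, hqr, hr0, hrm⟩ : ∃ q r : ℤ, e = m * q + r ∧ 0 ≤ r ∧ r < m :=
    ⟨e / m, e % m, (Int.mul_ediv_add_emod e m).symm, Int.emod_nonneg _ (by omega), Int.emod_lt_of_pos _ (by omega)⟩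
  set b : ι → ℤ := fun i => (a i : ℤ) - q with hb
  have hb1 : ∑ i, b i = r := by
    simp only [hb, Finset.sum_sub_distrib, Finset.sum_const, nsmul_eq_mul, Finset.card_univ, hs, ← he, hqr]
    ring
  have hD : (m : ℤ) * ∑ i, (a i : ℤ) ^ 2 - e ^ 2 = (m : ℤ) * ∑ i, b i ^ 2 - r ^ 2 := by
    have e1 : ∑ i, b i ^ 2 = ∑ i, (a i : ℤ) ^ 2 - 2 * q * e + m * q ^ 2 := by
      simp only [hb, sub_sq, Finset.sum_add_distrib, Finset.sum_sub_distrib, Finset.sum_const, nsmul_eq_mul,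
        Finset.card_univ, hs]
      rw [← Finset.sum_mul, ← Finset.mul_sum, ← he]
      ring
    rw [e1, hqr]
    ring
  rw [hD]
  have hge : r ≤ ∑ i, b i ^ 2 := hb1 ▸ Finset.sum_le_sum fun i _ => Int.le_self_sq (b i)
  have hm' : (2 : ℤ) ≤ m := by exact_mod_cast hm
  by_cases hzero : ∑ i, b i ^ 2 = 0
  · left
    have hbz : ∀ i, b i = 0 := fun i =>
      pow_eq_zero_iff two_ne_zero |>.mp ((Finset.sum_eq_zero_iff_of_nonneg fun i _ => sq_nonneg (b i)).mp hzero i (Finset.mem_univ i))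
    haveI : Nonempty ι := Fintype.card_pos_iff.mp (by omega)
    refine ⟨a (Classical.arbitrary ι), fun i => ?_⟩
    have h1 := hbz i
    have h2 := hbz (Classical.arbitrary ι)
    simp only [hb] at h1 h2
    omega
  right
  have hpos : 1 ≤ ∑ i, b i ^ 2 := by
    have : 0 ≤ ∑ i, b i ^ 2 := Finset.sum_nonneg fun i _ => sq_nonneg (b i)
    omega
  refine ⟨by nlinarith [mul_le_mul_of_nonneg_left hge (by omega : (0 : ℤ) ≤ m)], fun heq => ?_⟩
  -- a single unit among the deviations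
  have single : ∀ c : ι → ℤ, ∑ i, c i ^ 2 = 1 → ∃ i₀, (c i₀ = 1 ∨ c i₀ = -1) ∧ ∀ i, i ≠ i₀ → c i = 0 := by
    intro c hc
    obtain ⟨i₀, hi₀⟩ : ∃ i₀, c i₀ ≠ 0 := by
      by_contra h
      push Not at h
      simp [h] at hc
    rw [← Finset.add_sum_erase _ _ (Finset.mem_univ i₀)] at hc
    have h0 : 0 ≤ ∑ i ∈ Finset.univ.erase i₀, c i ^ 2 := Finset.sum_nonneg fun i _ => sq_nonneg _
    have h1 : 1 ≤ c i₀ ^ 2 := by
      have := sq_pos_of_ne_zero hi₀
      omega
    have h2 : c i₀ ^ 2 = 1 := by omega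
    refine ⟨i₀, sq_eq_one_iff.mp h2, fun i hi => ?_⟩
    exact pow_eq_zero_iff two_ne_zero |>.mp ((Finset.sum_eq_zero_iff_of_nonneg fun i _ => sq_nonneg (c i)).mp
      (by omega : ∑ i ∈ Finset.univ.erase i₀, c i ^ 2 = 0) i (Finset.mem_erase.mpr ⟨hi, Finset.mem_univ _⟩))
  have hrr : r = 0 ∨ r = 1 ∨ r = (m : ℤ) - 1 := by
    by_contra hc
    push Not at hc
    obtain ⟨h0, h1, h2⟩ := hc
    have h3 : 2 ≤ r := by omega
    have h4 : r ≤ (m : ℤ) - 2 := by omega
    nlinarith [mul_le_mul_of_nonneg_left hge (by omega : (0 : ℤ) ≤ m), mul_nonneg (by omega : (0 : ℤ) ≤ r - 1) (by omega : (0 : ℤ) ≤ (m : ℤ) - 1 - r)]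
  rcases hrr with h | h | h
  · exfalso; rw [h] at heq; nlinarith
  · have hc : ∑ i, b i ^ 2 = 1 := by
      rw [h] at heq
      have : (m : ℤ) * ∑ i, b i ^ 2 = (m : ℤ) * 1 := by linarith
      exact mul_left_cancel₀ (by omega) this
    obtain ⟨i₀, h1, h2⟩ := single b hc
    obtain ⟨j, hj⟩ := Fintype.exists_ne_of_one_lt_card (by omega : 1 < Fintype.card ι) i₀
    refine ⟨i₀, b i₀, a j, h1, ?_, fun i hi => ?_⟩
    · have := h2 j hj; simp only [hb] at this ⊢; omega
    · have := h2 j hj; have := h2 i hi; simp only [hb] at *; omega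
  · have hc : ∑ i, (b i - 1) ^ 2 = 1 := by
      have hS : (m : ℤ) * ∑ i, b i ^ 2 = (m : ℤ) * ((m : ℤ) - 1) := by rw [h] at heq; linarith
      have hS' := mul_left_cancel₀ (by omega : (m : ℤ) ≠ 0) hS
      simp only [sub_sq, mul_one, one_pow, Finset.sum_add_distrib, Finset.sum_sub_distrib, Finset.sum_const,
        nsmul_eq_mul, Finset.card_univ, hs]
      rw [← Finset.mul_sum, hb1, hS', h]
      ring
    obtain ⟨i₀, h1, h2⟩ := single (fun i => b i - 1) hc
    obtain ⟨j, hj⟩ := Fintype.exists_ne_of_one_lt_card (by omega : 1 < Fintype.card ι) i₀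
    refine ⟨i₀, b i₀ - 1, a j, h1, ?_, fun i hi => ?_⟩
    · have := h2 j hj; simp only [hb] at this ⊢; omega
    · have := h2 j hj; have := h2 i hi; simp only [hb] at *; omega

/-- Let the finite group Γ be generated by a normal subgroup G and a cyclic subgroup S of coprime orders such that every non-identity element of S has the same centraliser C = G ⊓ C(S) in G. Let χ be an S-invariant irreducible character of G, χ̂ its canonical extension to Γ (determinantal order coprime to the order of S), and β the irreducible character of C with χ̂(c s) = ε₀ β(c) for c ∈ C and generators s of S (ε₀ = ±1). Then there are a sign ε = ±1, which may differ from ε₀, and a linear character μ of S with μ² = 1, such that: (a) χ̂(c x) = ε β(c) μ(x) for all c ∈ C and all x ∈ S other than 1; (b) the restriction of χ to C equals |S|·ϑ + ε β for some character ϑ of C or ϑ = 0; (c) |S| divides χ(1) − ε β(1). -/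
theorem result {Γ : Type*} [Group Γ] [Fintype Γ] (G S : Subgroup Γ) [Fintype G] (hnorm : ∀ s ∈ S, ∀ g ∈ G, s * g * s⁻¹ ∈ G) (hcop : (Nat.card G).Coprime (Nat.card S)) (htop : G ⊔ S = ⊤) (hcyc : IsCyclic S) (C : Subgroup Γ) [Fintype C] (hC : C = G ⊓ Subgroup.centralizer (S : Set Γ)) (hCG : C ≤ G) (hfpf : ∀ x ∈ S, x ≠ 1 → G ⊓ Subgroup.centralizer ({x} : Set Γ) = C) (χ : Cfsg.IrrCharacter G) (hinv : (∀ s ∈ S, ∀ g g' : G, (g' : Γ) = s * g * s⁻¹ → (χ : G → ℂ) g' = (χ : G → ℂ) g)) (χh : Cfsg.IrrCharacter Γ) (hext : (∀ g : G, (χh : Γ → ℂ) g = (χ : G → ℂ) g)) (hdet : (Cfsg.detOrder (χh : Γ → ℂ)).Coprime (Nat.card S)) (β : Cfsg.IrrCharacter C) (ε₀ : ℤ) (hε₀ : ε₀ = 1 ∨ ε₀ = -1) (hβ : ∀ c : C, ∀ s : Γ, Subgroup.zpowers s = S → (χh : Γ → ℂ) ((c : Γ) * s) = (ε₀ : ℂ) * (β : C → ℂ) c) : ∃ ε : ℤ, (ε = 1 ∨ ε = -1) ∧ (∃ μ : S → ℂ, Cfsg.IsCharacter S μ ∧ μ 1 = 1 ∧ (∀ x : S, μ x * μ x = 1) ∧ ∀ c : C, ∀ x : S, x ≠ 1 → (χh : Γ → ℂ) ((c : Γ) * x)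 = (ε : ℂ) * (β : C → ℂ) c * μ x) ∧ (∃ ϑ : C → ℂ, Cfsg.IsCharacter C ϑ ∧ (fun c : C => (χ : G → ℂ) ⟨c, hCG c.2⟩) = fun c => (Nat.card S : ℂ) * ϑ c + (ε : ℂ) * (β : C → ℂ) c) ∧ (Nat.card S : ℤ) ∣ (Cfsg.charDegree (χ : G → ℂ) : ℤ) - ε * (Cfsg.charDegree (β : C → ℂ) : ℤ) := by
  classical
  have hGn : G.Normal := by
    rw [← Subgroup.normalizer_eq_top_iff, eq_top_iff, ← htop]
    refine sup_le Subgroup.le_normalizer fun s hs => ?_
    rw [Subgroup.mem_normalizer_iff_map_conj_eq]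
    refine Subgroup.eq_of_le_of_card_ge ?_ (Subgroup.card_map_of_injective (MulEquiv.injective _)).ge
    rintro _ ⟨g, hg, rfl⟩
    exact hnorm s hs g hg
  haveI := hGn
  haveI : Fintype S := Fintype.ofFinite S
  have hcC : ∀ c : C, ∀ x ∈ S, x * (c : Γ) = (c : Γ) * x := fun c x hx => by
    have h : (c : Γ) ∈ G ⊓ Subgroup.centralizer (S : Set Γ) := hC ▸ c.2
    exact Subgroup.mem_centralizer_iff.mp h.2 x hx
  obtain ⟨gen, hgenmem⟩ := hcyc.exists_generator
  have hgen : Subgroup.zpowers (gen : Γ) = S := by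
    apply le_antisymm (Subgroup.zpowers_le.mpr gen.2)
    intro y hy
    obtain ⟨k, hk⟩ := Subgroup.mem_zpowers_iff.mp (hgenmem ⟨y, hy⟩)
    exact Subgroup.mem_zpowers_iff.mpr ⟨k, by simpa using congrArg Subtype.val hk⟩
  have hone : (χh : Γ → ℂ) ((1 : C) : Γ) = (χ : G → ℂ) 1 := hext 1
  have hsplit : Nat.card S = 1 ∨ 2 ≤ Nat.card S := by
    have := Nat.card_pos (α := S); omega
  rcases hsplit with hn1 | hn
  · have hbot : S = ⊥ := Subgroup.card_eq_one.mp hn1
    have hχC : ∀ c : C, (χ : G → ℂ) ⟨c, hCG c.2⟩ = (ε₀ : ℂ) * (β : C → ℂ) c := fun c => by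
      have h := hβ c 1 (by rw [hbot, Subgroup.zpowers_one_eq_bot])
      rw [mul_one] at h
      exact (hext ⟨c, hCG c.2⟩).symm.trans h
    refine ⟨ε₀, hε₀, ⟨fun _ => 1, IsIrrCharacter.isCharacter (isIrrCharacter_one S), rfl, fun x => one_mul 1,
      fun c x hx => absurd (Subtype.ext (by
        have hx' := x.2
        simpa [hbot] using hx')) hx⟩, ⟨fun _ => 0, ?_, funext fun c => by rw [hχC, mul_zero, zero_add]⟩, ?_⟩
    · have h0 := IsCharacter.finset_sum (G := C) (s := (∅ : Finset ℕ)) (f := fun _ => fun _ => (0 : ℂ)) (by simp)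
      have e0 : (∑ i ∈ (∅ : Finset ℕ), fun _ : C => (0 : ℂ)) = fun _ => 0 := by rw [Finset.sum_empty]; rfl
      exact e0 ▸ h0
    · rw [hn1]; exact ⟨_, (one_mul _).symm⟩
  set n := Nat.card S with hndef
  -- sums over a coset of `G`
  have hnorm1 : ∀ x : S, x ≠ 1 →
      ∑ c : C, (χh : Γ → ℂ) ((c : Γ) * x) * conj ((χh : Γ → ℂ) ((c : Γ) * x)) = (Nat.card C : ℂ) := by
    intro x hx
    set F : Γ → ℂ := fun y => (χh : Γ → ℂ) y * conj ((χh : Γ → ℂ) y) with hF
    have hFc : ∀ y z : Γ, F (z * y * z⁻¹) = F y := fun y z => by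
      simp only [hF, IsCharacter.isClassFunction (isCharacter_irr χh) y z]
    have hxC : G ⊓ Subgroup.centralizer ({(x : Γ)} : Set Γ) = C :=
      hfpf x x.2 fun h => hx (Subtype.ext h)
    haveI : Fintype (G ⧸ C.subgroupOf G) := Fintype.ofFinite _
    let f : (G ⧸ C.subgroupOf G) × C → G := fun q =>
      ⟨(q.1.out : Γ) * ((q.2 : Γ) * x) * (q.1.out : Γ)⁻¹ * (x : Γ)⁻¹, by
        rw [mul_assoc, mul_assoc]
        refine mul_mem q.1.out.2 ?_
        rw [mul_assoc]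
        refine mul_mem (hCG q.2.2) ?_
        rw [← mul_assoc]
        exact hGn.conj_mem _ (inv_mem q.1.out.2) _⟩
    obtain ⟨k, hk1, hk2⟩ : ∃ k : ℕ, k ≡ 0 [MOD Nat.card G] ∧ k ≡ 1 [MOD Nat.card S] :=
      ⟨(Nat.chineseRemainder hcop 0 1).1, (Nat.chineseRemainder hcop 0 1).2.1, (Nat.chineseRemainder hcop 0 1).2.2⟩
    have hpow : ∀ c : C, ((c : Γ) * x) ^ k = (x : Γ) := by
      intro c
      have hc : Commute (c : Γ) (x : Γ) := (hcC c x x.2).symm
      rw [hc.mul_pow]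
      have h1 : (⟨c, hCG c.2⟩ : G) ^ k = 1 := by
        rw [← pow_zero (⟨c, hCG c.2⟩ : G), pow_eq_pow_iff_modEq]
        exact hk1.of_dvd (orderOf_dvd_natCard _)
      have h2 : x ^ k = x := by
        conv_rhs => rw [← pow_one x]
        rw [pow_eq_pow_iff_modEq]
        exact hk2.of_dvd (orderOf_dvd_natCard _)
      have h1' : (c : Γ) ^ k = 1 := by simpa using congrArg Subtype.val h1
      have h2' : (x : Γ) ^ k = x := by simpa using congrArg Subtype.val h2
      rw [h1', h2', one_mul]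
    have hfinj : Function.Injective f := by
      intro a b hab
      have h : (a.1.out : Γ) * ((a.2 : Γ) * x) * (a.1.out : Γ)⁻¹ = (b.1.out : Γ) * ((b.2 : Γ) * x) * (b.1.out : Γ)⁻¹ :=
        mul_right_cancel (congrArg Subtype.val hab : (_ : Γ) = _)
      have h' := congrArg (· ^ k) h
      simp only [conj_pow, hpow] at h'
      have hmem : (a.1.out : Γ)⁻¹ * b.1.out ∈ C := by
        refine hxC.le (Subgroup.mem_inf.mpr ⟨mul_mem (inv_mem a.1.out.2) b.1.out.2, ?_⟩)
        rw [Subgroup.mem_centralizer_singleton_iff]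
        calc (a.1.out : Γ)⁻¹ * b.1.out * x = (a.1.out : Γ)⁻¹ * ((b.1.out : Γ) * x * (b.1.out : Γ)⁻¹) * b.1.out := by group
          _ = (x : Γ) * ((a.1.out : Γ)⁻¹ * b.1.out) := by rw [← h']; group
      have h1 : a.1 = b.1 := by
        rw [← QuotientGroup.out_eq' a.1, ← QuotientGroup.out_eq' b.1, QuotientGroup.eq]
        exact Subgroup.mem_subgroupOf.mpr hmem
      refine Prod.ext h1 (Subtype.ext ?_)
      rw [h1] at h
      exact mul_right_cancel (mul_left_cancel (mul_right_cancel h))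
    have hbij : Function.Bijective f := by
      refine (Nat.bijective_iff_injective_and_card f).mpr ⟨hfinj, ?_⟩
      rw [Nat.card_prod, ← Nat.card_congr (Subgroup.subgroupOfEquivOfLe hCG).toEquiv, ← Subgroup.card_eq_card_quotient_mul_card_subgroup]
    have htot : ∑ g : G, F ((g : Γ) * x) = ((C.subgroupOf G).index : ℂ) * ∑ c : C, F ((c : Γ) * x) := by
      rw [← Fintype.sum_bijective f hbij (fun q => F ((q.2 : Γ) * x)) (fun g => F ((g : Γ) * x)) fun q => ?_,
        Fintype.sum_prod_type]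
      · dsimp only
        rw [Finset.sum_const, nsmul_eq_mul, Finset.card_univ, ← Nat.card_eq_fintype_card]
        rfl
      · show F ((q.2 : Γ) * x) = F ((q.1.out : Γ) * ((q.2 : Γ) * x) * (q.1.out : Γ)⁻¹ * (x : Γ)⁻¹ * x)
        rw [inv_mul_cancel_right, hFc]
    have h1 : ∑ g : G, F ((g : Γ) * x) = (Nat.card G : ℂ) :=
      CfsgLib.CharExtend.sum_coset_norm G χh χ hext (x : Γ)
    rw [h1, ← Subgroup.index_mul_card (C.subgroupOf G),
      Nat.card_congr (Subgroup.subgroupOfEquivOfLe hCG).toEquiv, Nat.cast_mul] at htot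
    exact (mul_left_cancel₀ (Nat.cast_ne_zero.mpr Subgroup.index_ne_zero_of_finite) htot).symm
  -- coefficients on `C × S`
  have hScomm : ∀ a b : S, a * b = b * a := fun a b => Subtype.ext (by
    obtain ⟨i, hi⟩ := Subgroup.mem_zpowers_iff.mp (hgen.symm ▸ a.2 : (a : Γ) ∈ Subgroup.zpowers (gen : Γ))
    obtain ⟨j, hj⟩ := Subgroup.mem_zpowers_iff.mp (hgen.symm ▸ b.2 : (b : Γ) ∈ Subgroup.zpowers (gen : Γ))
    show (a : Γ) * b = b * a
    rw [← hi, ← hj, ← zpow_add, ← zpow_add, add_comm])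
  let ι : C × S →* Γ :=
    { toFun := fun q => (q.1 : Γ) * q.2
      map_one' := by simp
      map_mul' := fun a b => by
        show ((a.1 * b.1 : C) : Γ) * ((a.2 * b.2 : S) : Γ) = (a.1 : Γ) * a.2 * ((b.1 : Γ) * b.2)
        simp only [Subgroup.coe_mul]
        calc (a.1 : Γ) * b.1 * ((a.2 : Γ) * b.2) = (a.1 : Γ) * ((b.1 : Γ) * a.2) * b.2 := by group
          _ = (a.1 : Γ) * ((a.2 : Γ) * b.1) * b.2 := by rw [← hcC b.1 a.2 a.2.2]
          _ = _ := by group }
  let Φ : C × S → ℂ := fun q => (χh : Γ → ℂ) ((q.1 : Γ) * q.2)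
  have hΦ : Cfsg.IsCharacter (C × S) Φ := IsCharacter.comp (isCharacter_irr χh) ι
  choose a ha using fun (η : Cfsg.IrrCharacter C) (l : Cfsg.IrrCharacter S) =>
    exists_mult_character hΦ (IsCharacter.mul (IsCharacter.comp (isCharacter_irr η) (MonoidHom.fst C S))
      (IsCharacter.comp (isCharacter_irr l) (MonoidHom.snd C S)))
  let f : Cfsg.IrrCharacter C → S → ℂ := fun η x =>
    Cfsg.classInner (fun c : C => Φ (c, x)) (η : C → ℂ)
  have hfa : ∀ (η : Cfsg.IrrCharacter C) (l : Cfsg.IrrCharacter S), Cfsg.classInner (f η) (l : S → ℂ) = (a η l : ℂ) := by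
    intro η l
    rw [← ha η l]
    simp only [f, Cfsg.classInner, Pi.mul_apply, MonoidHom.coe_fst, MonoidHom.coe_snd, map_mul]
    rw [Fintype.sum_prod_type, Finset.sum_comm, Nat.card_prod, Nat.cast_mul, mul_inv,
      mul_comm (Nat.card C : ℂ)⁻¹, mul_assoc]
    congr 1
    rw [Finset.mul_sum]
    refine Finset.sum_congr rfl fun x _ => ?_
    rw [mul_assoc, Finset.sum_mul]
    congr 1
    exact Finset.sum_congr rfl fun c _ => by ring
  have hfexp : ∀ η x, f η x = ∑ l : Cfsg.IrrCharacter S, (a η l : ℂ) * (l : S → ℂ) x := by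
    intro η x
    rw [classFunction_expand (f := f η) (fun g h => by
      show f η (h * g * h⁻¹) = f η g
      rw [hScomm h g, mul_inv_cancel_right]) x]
    simp only [hfa]
  have hΦexp : ∀ c x, Φ (c, x) = ∑ η : Cfsg.IrrCharacter C, f η x * (η : C → ℂ) c := by
    intro c x
    refine classFunction_expand (f := fun c : C => Φ (c, x)) (fun g h => ?_) c
    show Φ (h * g * h⁻¹, x) = Φ (g, x)
    have := IsCharacter.isClassFunction hΦ (g, x) (h, (1 : S))
    simpa using this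
  have hnormf : ∀ x : S, x ≠ 1 → ∑ η : Cfsg.IrrCharacter C, f η x * conj (f η x) = 1 := by
    intro x hx
    have h := hnorm1 x hx
    rw [Finset.sum_congr rfl (fun c _ => by
      show Φ (c, x) * conj (Φ (c, x)) = ∑ η : Cfsg.IrrCharacter C, conj (f η x) * (Φ (c, x) * conj ((η : C → ℂ) c))
      conv_lhs => arg 2; rw [hΦexp]
      rw [map_sum, Finset.mul_sum]
      exact Finset.sum_congr rfl fun η _ => by rw [map_mul]; ring), Finset.sum_comm] at h
    simp only [← Finset.mul_sum] at h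
    have hC0 : (Nat.card C : ℂ) ≠ 0 := natCast_card_ne_zero C
    refine mul_left_cancel₀ hC0 ?_
    rw [mul_one, Finset.mul_sum]
    refine Eq.trans (Finset.sum_congr rfl fun η _ => ?_) h
    have hfe : (Nat.card C : ℂ) * f η x = ∑ c : C, Φ (c, x) * conj ((η : C → ℂ) c) := by
      simp only [f, Cfsg.classInner]
      rw [← mul_assoc, mul_inv_cancel₀ hC0, one_mul]
    rw [← hfe]
    ring
  have hlin : ∀ l : Cfsg.IrrCharacter S, (l : S → ℂ) 1 = 1 := fun l => by
    rw [irr_apply_one, charDegree_eq_one_of_comm hScomm l, Nat.cast_one]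
  have hcardS : Fintype.card (Cfsg.IrrCharacter S) = n := by
    have h := sum_deg_sq (G := S)
    simpa [charDegree_eq_one_of_comm hScomm, hndef, Nat.card_eq_fintype_card] using h
  have hconst0 : ∀ x : S, x ≠ 1 → ∑ l : Cfsg.IrrCharacter S, (l : S → ℂ) x = 0 := fun x hx => by
    have h := sum_deg_mul x
    rw [if_neg hx] at h
    simpa [hlin] using h
  have hpars : ∀ η, ∑ x : S, f η x * conj (f η x) = (n : ℂ) * ∑ l : Cfsg.IrrCharacter S, (a η l : ℂ) ^ 2 := by
    intro η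
    rw [Finset.sum_congr rfl (fun x _ => by
      show f η x * conj (f η x) = ∑ l : Cfsg.IrrCharacter S, (a η l : ℂ) * (f η x * conj ((l : S → ℂ) x))
      conv_lhs => arg 2; rw [hfexp]
      rw [map_sum, Finset.mul_sum]
      exact Finset.sum_congr rfl fun l _ => by rw [map_mul, map_natCast]; ring), Finset.sum_comm, Finset.mul_sum]
    refine Finset.sum_congr rfl fun l _ => ?_
    rw [← Finset.mul_sum]
    have h := hfa η l
    rw [Cfsg.classInner, inv_mul_eq_iff_eq_mul₀ (natCast_card_ne_zero S)] at h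
    rw [h]; ring
  have hf1 : ∀ η, f η 1 = ((∑ l : Cfsg.IrrCharacter S, (a η l : ℤ) : ℤ) : ℂ) := fun η => by
    rw [hfexp]; simp [hlin]
  let D : Cfsg.IrrCharacter C → ℤ := fun η =>
    (n : ℤ) * ∑ l, (a η l : ℤ) ^ 2 - (∑ l, (a η l : ℤ)) ^ 2
  have hDsum : ∑ η, D η = (n : ℤ) - 1 := by
    have h : ((∑ η, D η : ℤ) : ℂ) = (((n : ℤ) - 1 : ℤ) : ℂ) := by
      have e1 : ∀ η, ((D η : ℤ) : ℂ) = ∑ x ∈ Finset.univ.erase (1 : S), f η x * conj (f η x) := by
        intro η
        have h := hpars η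
        rw [← Finset.add_sum_erase _ _ (Finset.mem_univ (1 : S)), hf1, map_intCast] at h
        simp only [D]
        push_cast
        push_cast at h
        linear_combination -h
      rw [Int.cast_sum, Finset.sum_congr rfl (fun η _ => e1 η), Finset.sum_comm,
        Finset.sum_congr rfl (fun x hx => hnormf x (Finset.ne_of_mem_erase hx)), Finset.sum_const,
        Finset.card_erase_of_mem (Finset.mem_univ _), Finset.card_univ, ← Nat.card_eq_fintype_card, ← hndef,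
        nsmul_eq_mul, mul_one, Nat.cast_sub (by omega)]
      push_cast
      ring
    exact_mod_cast h
  have hDcase : ∀ η, (∃ q : ℕ, ∀ l, a η l = q) ∨ ((n : ℤ) - 1 ≤ D η ∧ (D η = (n : ℤ) - 1 →
      ∃ (l₀ : Cfsg.IrrCharacter S) (δ : ℤ) (q : ℕ), (δ = 1 ∨ δ = -1) ∧ (a η l₀ : ℤ) = q + δ ∧ ∀ l, l ≠ l₀ → a η l = q)) :=
    fun η => int_lemma n hn hcardS (a η)
  have hD0 : ∀ η, (∃ q : ℕ, ∀ l, a η l = q) → D η = 0 := by
    rintro η ⟨q, hq⟩
    simp only [D, hq, Finset.sum_const, Finset.card_univ, hcardS, nsmul_eq_mul]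
    ring
  have hDnn : ∀ η, 0 ≤ D η := fun η => by
    rcases hDcase η with h | h
    · exact (hD0 η h).ge
    · omega
  have hgen1 : gen ≠ 1 := by
    intro h
    have h' : S = ⊥ := by rw [← hgen, h, OneMemClass.coe_one, Subgroup.zpowers_one_eq_bot]
    have h1 : n = 1 := Subgroup.card_eq_one.mpr h'
    omega
  have hfgen : ∀ η : Cfsg.IrrCharacter C, f η gen = (ε₀ : ℂ) * if β = η then 1 else 0 := by
    intro η
    rw [← classInner_irr β η]
    show Cfsg.classInner (fun c : C => Φ (c, gen)) (η : C → ℂ) = _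
    simp only [Φ, Cfsg.classInner, hβ _ _ hgen, mul_assoc, ← Finset.mul_sum]
    ring
  have hβne : ¬ ∃ q : ℕ, ∀ l, a β l = q := by
    rintro ⟨q, hq⟩
    have h := hfgen β
    rw [if_pos rfl, mul_one, hfexp] at h
    simp only [hq, ← Finset.mul_sum, hconst0 gen hgen1, mul_zero] at h
    rcases hε₀ with e | e <;> rw [e] at h <;> simp at h
  have hβD := (hDcase β).resolve_left hβne
  have hrest : ∀ η, η ≠ β → ∃ q : ℕ, ∀ l, a η l = q := by
    intro η hη
    refine (hDcase η).resolve_right fun h => ?_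
    have := Finset.add_le_sum (fun i _ => hDnn i) (Finset.mem_univ η) (Finset.mem_univ β) hη
    omega
  have hDβ : D β = (n : ℤ) - 1 := by
    rw [← hDsum, Finset.sum_eq_single β (fun η _ hη => hD0 η (hrest η hη)) (fun h => absurd (Finset.mem_univ β) h)]
  obtain ⟨l₀, δ, qβ, hδ, hl₀, hother⟩ := hβD.2 hDβ
  have hfβ : ∀ x, f β x = (qβ : ℂ) * (∑ l : Cfsg.IrrCharacter S, (l : S → ℂ) x) + (δ : ℂ) * (l₀ : S → ℂ) x := by
    intro x
    rw [hfexp, ← Finset.add_sum_erase _ _ (Finset.mem_univ l₀), ← Finset.add_sum_erase _ (fun l : Cfsg.IrrCharacter S => (l : S → ℂ) x) (Finset.mem_univ l₀),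
      Finset.sum_congr rfl (fun l hl => by rw [hother l (Finset.ne_of_mem_erase hl)]), ← Finset.mul_sum]
    have : ((a β l₀ : ℕ) : ℂ) = (qβ : ℂ) + (δ : ℂ) := by exact_mod_cast hl₀
    rw [this]; ring
  choose! q hq using hrest
  have hfη : ∀ η, η ≠ β → ∀ x, f η x = (q η : ℂ) * ∑ l : Cfsg.IrrCharacter S, (l : S → ℂ) x := fun η hη x => by
    rw [hfexp, Finset.mul_sum]
    exact Finset.sum_congr rfl fun l _ => by rw [hq η hη l]
  obtain ⟨μh, hμ⟩ := exists_homIrr l₀ (charDegree_eq_one_of_comm hScomm l₀)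
  have hμv : ∀ x, (l₀ : S → ℂ) x = ((μh x : ℂˣ) : ℂ) := fun x => by rw [← hμ]; rfl
  have hμgen : μh gen * μh gen = 1 := by
    apply Units.ext
    have h := hfgen β
    rw [if_pos rfl, mul_one, hfβ, hconst0 gen hgen1, mul_zero, zero_add, hμv] at h
    rw [Units.val_mul, Units.val_one]
    rcases hε₀ with e | e <;> rcases hδ with d | d <;> rw [e, d] at h <;> push_cast at h
    · rw [one_mul] at h; rw [h, one_mul]
    · rw [show ((μh gen : ℂˣ) : ℂ) = -1 by linear_combination -h]; norm_num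
    · rw [one_mul] at h; rw [h]; norm_num
    · rw [show ((μh gen : ℂˣ) : ℂ) = 1 by linear_combination -h]; norm_num
  let qq : Cfsg.IrrCharacter C → ℕ := fun η => if η = β then qβ else q η
  have hθval : ∀ c : C, (χ : G → ℂ) ⟨c, hCG c.2⟩ =
      (n : ℂ) * (∑ η : Cfsg.IrrCharacter C, (qq η : ℂ) * (η : C → ℂ) c) + (δ : ℂ) * (β : C → ℂ) c := by
    intro c
    have h : (χ : G → ℂ) ⟨c, hCG c.2⟩ = Φ (c, 1) := by
      rw [← hext ⟨c, hCG c.2⟩]
      simp [Φ]
    rw [h, hΦexp, Finset.mul_sum, ← Finset.add_sum_erase _ _ (Finset.mem_univ β),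
      ← Finset.add_sum_erase _ (fun η : Cfsg.IrrCharacter C => (n : ℂ) * ((qq η : ℂ) * (η : C → ℂ) c)) (Finset.mem_univ β)]
    have hsum1 : ∑ l : Cfsg.IrrCharacter S, (l : S → ℂ) 1 = (n : ℂ) := by
      simp [hlin, hcardS]
    rw [Finset.sum_congr rfl (fun η hη => by
      show f η 1 * (η : C → ℂ) c = (n : ℂ) * ((qq η : ℂ) * (η : C → ℂ) c)
      rw [hfη η (Finset.ne_of_mem_erase hη), hsum1]
      simp only [qq, if_neg (Finset.ne_of_mem_erase hη)]
      ring), hfβ, hsum1, hlin, show qq β = qβ from if_pos rfl]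
    ring
  refine ⟨δ, hδ, ⟨fun x => ((μh x : ℂˣ) : ℂ), isCharacter_hom μh, by simp, fun x => ?_, fun c x hx => ?_⟩,
    ⟨fun c => ∑ η : Cfsg.IrrCharacter C, (qq η : ℂ) * (η : C → ℂ) c, ?_, funext hθval⟩, ?_⟩
  · have hx : μh x * μh x = 1 := by
      obtain ⟨k, rfl⟩ := Subgroup.mem_zpowers_iff.mp (hgenmem x)
      rw [map_zpow, ← mul_zpow, hμgen, one_zpow]
    rw [← Units.val_mul, hx, Units.val_one]
  · show Φ (c, x) = _
    rw [hΦexp, Finset.sum_eq_single β (fun η _ hη => by rw [hfη η hη, hconst0 x hx, mul_zero, zero_mul])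
      (fun h => absurd (Finset.mem_univ β) h), hfβ, hconst0 x hx, mul_zero, zero_add, hμv]
    ring
  · have h := IsCharacter.finset_sum (s := Finset.univ) (f := fun η : Cfsg.IrrCharacter C => qq η • (η : C → ℂ))
      fun η _ => IsCharacter.nsmul (isCharacter_irr η) _
    have e : (∑ η : Cfsg.IrrCharacter C, qq η • (η : C → ℂ)) = fun c => ∑ η : Cfsg.IrrCharacter C, (qq η : ℂ) * (η : C → ℂ) c := by
      funext c
      simp [Finset.sum_apply]
    rw [← e]; exact h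
  · have h := hθval 1
    rw [show (⟨((1 : C) : Γ), hCG (1 : C).2⟩ : G) = 1 from rfl, irr_apply_one, irr_apply_one] at h
    simp only [irr_apply_one] at h
    refine ⟨((∑ η : Cfsg.IrrCharacter C, qq η * Cfsg.charDegree (η : C → ℂ) : ℕ) : ℤ), ?_⟩
    have h' : (Cfsg.charDegree (χ : G → ℂ) : ℤ) = (n : ℤ) * ((∑ η : Cfsg.IrrCharacter C, qq η * Cfsg.charDegree (η : C → ℂ) : ℕ) : ℤ) + δ * (Cfsg.charDegree (β : C → ℂ) : ℤ) := by
      exact_mod_cast h
    linarith

end Cfsg.Agent.S4451
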