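import Cfsg.Statements.S4452
import Cfsg.Agent.Lib.Chars.GlaubermanFixed
import Cfsg.Agent.Lib.DetChar
import Cfsg.Agent.Lib.CliffordCorr

set_option autoImplicit false
open Cfsg

namespace Cfsg.Agent.S4452

open CfsgLib CfsgLib.Chars

section

variable {G : Type*} [Group G] [Finite G] (K H : Subgroup G)

/-- Precomposition with an isomorphism. -/
def homCongr {A B : Type*} [Group A] [Group B] (e : A ≃* B) : (A →* ℂˣ) ≃ (B →* ℂˣ) where
  toFun f := f.comp e.symm.toMonoidHom
  invFun f := f.comp e.toMonoidHom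
  left_inv f := MonoidHom.ext fun x => congrArg f (e.symm_apply_apply x)
  right_inv f := MonoidHom.ext fun x => congrArg f (e.apply_symm_apply x)

theorem eq_one_of_mem (hcop : (Nat.card K).Coprime (Nat.card H)) {x : G} (hK : x ∈ K) (hH : x ∈ H) :
    x = 1 := by
  rw [← orderOf_eq_one_iff]
  refine Nat.eq_one_of_dvd_coprimes hcop ?_ ?_
  · rw [← Subgroup.orderOf_mk x hK]; exact orderOf_dvd_natCard _
  · rw [← Subgroup.orderOf_mk x hH]; exact orderOf_dvd_natCard _

theorem commute_of_mem [K.Normal] (hcop : (Nat.card K).Coprime (Nat.card H)) {k h : G} (hk : k ∈ K)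
    (hh : h ∈ H) (hkN : k ∈ Subgroup.normalizer (H : Set G)) : k * h = h * k := by
  have h1 : k * h * k⁻¹ * h⁻¹ ∈ K := by
    rw [show k * h * k⁻¹ * h⁻¹ = k * (h * k⁻¹ * h⁻¹) by group]
    exact mul_mem hk (Subgroup.Normal.conj_mem inferInstance _ (inv_mem hk) h)
  have h2 : k * h * k⁻¹ * h⁻¹ ∈ H :=
    mul_mem ((Subgroup.mem_normalizer_iff.mp hkN h).mp hh) (inv_mem hh)
  calc k * h = k * h * k⁻¹ * h⁻¹ * (h * k) := by group
    _ = h * k := by rw [eq_one_of_mem K H hcop h1 h2, one_mul]

theorem fixed_mem_normalizer [K.Normal] (k : K) (hk : ∀ h : H, MulAut.conjNormal (h : G) k = k) :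
    (k : G) ∈ Subgroup.normalizer (H : Set G) := by
  refine Subgroup.mem_normalizer_iff.mpr fun x => ?_
  have hc : ∀ y ∈ H, (k : G) * y * (k : G)⁻¹ = y := fun y hy => by
    have h1 : y * (k : G) * y⁻¹ = k := by
      have := congrArg (fun z : K => (z : G)) (hk ⟨y, hy⟩)
      simpa [MulAut.conjNormal_apply] using this
    refine mul_inv_eq_iff_eq_mul.mpr ?_
    nth_rewrite 1 [← h1]
    group
  constructor
  · intro hx
    rw [hc x hx]
    exact hx
  · intro hx
    have h1 := hc _ hx
    have h2 : (k : G) * x * (k : G)⁻¹ = x :=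
      mul_left_cancel (mul_right_cancel (h1 : (k : G) * ((k : G) * x * (k : G)⁻¹) * (k : G)⁻¹ = _))
    rwa [h2] at hx

/-- The decomposition extends an invariant homomorphism. -/
theorem exists_hom_extend [K.Normal] (hdec : ∀ g : G, ∃ k ∈ K, ∃ h ∈ H, g = k * h)
    (hcop : (Nat.card K).Coprime (Nat.card H)) (f : K →* ℂˣ)
    (hf : ∀ (g : G) (k : K), f (MulAut.conjNormal g k) = f k) (l : H →* ℂˣ) :
    ∃ μ : G →* ℂˣ, (∀ k : K, μ k = f k) ∧ ∀ h : H, μ h = l h := by
  choose k hk h hh e using hdec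
  have huniq : ∀ (a : K) (b : H) (g : G), g = a * b → k g = a ∧ h g = b := by
    intro a b g hg
    have h1 : (a : G)⁻¹ * k g = (b : G) * (h g)⁻¹ := by
      have := (e g).symm.trans hg
      calc (a : G)⁻¹ * k g = (a : G)⁻¹ * (k g * h g) * (h g)⁻¹ := by group
        _ = (b : G) * (h g)⁻¹ := by rw [this]; group
    have h2 := eq_one_of_mem K H hcop (mul_mem (inv_mem a.2) (hk g))
      (h1 ▸ mul_mem b.2 (inv_mem (hh g)))
    have h3 : k g = a := by rwa [inv_mul_eq_one, eq_comm] at h2
    refine ⟨h3, ?_⟩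
    have := (e g).symm.trans hg
    rw [h3] at this
    exact mul_left_cancel this
  let μ : G →* ℂˣ :=
    { toFun := fun g => f ⟨k g, hk g⟩ * l ⟨h g, hh g⟩
      map_one' := by
        obtain ⟨h1, h2⟩ := huniq 1 1 1 (by simp)
        have e1 : (⟨k 1, hk 1⟩ : K) = 1 := Subtype.ext h1
        have e2 : (⟨h 1, hh 1⟩ : H) = 1 := Subtype.ext h2
        rw [e1, e2, map_one, map_one, one_mul]
      map_mul' := fun x y => by
        obtain ⟨h1, h2⟩ := huniq (⟨k x, hk x⟩ * MulAut.conjNormal (h x) ⟨k y, hk y⟩)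
          (⟨h x, hh x⟩ * ⟨h y, hh y⟩) (x * y) (by
            rw [Subgroup.coe_mul, Subgroup.coe_mul, MulAut.conjNormal_apply]
            nth_rewrite 1 [e x, e y]
            group)
        have e1 : (⟨k (x * y), hk _⟩ : K) = ⟨k x, hk x⟩ * MulAut.conjNormal (h x) ⟨k y, hk y⟩ :=
          Subtype.ext h1
        have e2 : (⟨h (x * y), hh _⟩ : H) = ⟨h x, hh x⟩ * ⟨h y, hh y⟩ := Subtype.ext h2
        rw [e1, e2, map_mul, map_mul, hf, mul_mul_mul_comm] }
  refine ⟨μ, fun a => ?_, fun b => ?_⟩
  · obtain ⟨h1, h2⟩ := huniq a 1 (a : G) (by simp)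
    change f _ * l _ = _
    rw [show (⟨k a, hk _⟩ : K) = a from Subtype.ext h1, show (⟨h a, hh _⟩ : H) = 1 from Subtype.ext h2,
      map_one, mul_one]
  · obtain ⟨h1, h2⟩ := huniq 1 b (b : G) (by simp)
    change f _ * l _ = _
    rw [show (⟨k b, hk _⟩ : K) = 1 from Subtype.ext h1, show (⟨h b, hh _⟩ : H) = b from Subtype.ext h2,
      map_one, one_mul]

/-- Characters of degree prime to the order of the complement. -/
theorem count [K.Normal] (hdec : ∀ g : G, ∃ k ∈ K, ∃ h ∈ H, g = k * h)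
    (hcop : (Nat.card K).Coprime (Nat.card H)) :
    Nat.card {χ : IrrCharacter G // (charDegree (χ : G → ℂ)).Coprime (Nat.card H)} =
      Nat.card {θ : IrrCharacter K //
        Glauberman.IsInv ((MulAut.conjNormal : G →* MulAut K).comp H.subtype) (θ : K → ℂ)} *
        Nat.card (H →* ℂˣ) := by
  classical
  haveI : Fintype G := Fintype.ofFinite G
  haveI : Fintype K := Fintype.ofFinite K
  have hidx : K.index = Nat.card H := by
    have hbij : Function.Bijective (fun x : K × H => (x.1 : G) * x.2) := by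
      refine ⟨fun x y e => ?_, fun g => ?_⟩
      · have h1 : ((y.1 : G)⁻¹ * x.1) = (y.2 : G) * (x.2 : G)⁻¹ := by
          calc (y.1 : G)⁻¹ * x.1 = (y.1 : G)⁻¹ * ((x.1 : G) * x.2) * (x.2 : G)⁻¹ := by group
            _ = (y.2 : G) * (x.2 : G)⁻¹ := by
              rw [show (x.1 : G) * x.2 = (y.1 : G) * y.2 from e]; group
        have h2 := eq_one_of_mem K H hcop (mul_mem (inv_mem y.1.2) x.1.2)
          (h1 ▸ mul_mem y.2.2 (inv_mem x.2.2))
        rw [h2, eq_comm, mul_inv_eq_one] at h1
        rw [inv_mul_eq_one] at h2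
        exact Prod.ext (Subtype.ext h2.symm) (Subtype.ext h1.symm)
      · obtain ⟨k, hk, h, hh, rfl⟩ := hdec g
        exact ⟨(⟨k, hk⟩, ⟨h, hh⟩), rfl⟩
    have h3 := Nat.card_congr (Equiv.ofBijective _ hbij)
    rw [Nat.card_prod, ← K.card_mul_index] at h3
    exact (Nat.eq_of_mul_eq_mul_left Nat.card_pos h3).symm
  have hconj : ∀ θ : IrrCharacter K,
      Glauberman.IsInv ((MulAut.conjNormal : G →* MulAut K).comp H.subtype) (θ : K → ℂ) →
        ∀ g, conjIrr K θ g = θ := by
    intro θ hθ g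
    obtain ⟨k, hk, h, hh, rfl⟩ := hdec g
    have hh' : conjIrr K θ h = θ := by
      refine Subtype.ext (funext fun n => ?_)
      rw [conjIrr_apply' K]
      exact hθ ⟨h, hh⟩ n
    have hk' : conjIrr K θ k = θ := Subtype.ext (funext fun n => by
      rw [conjIrr_apply' K]
      exact IsCharacter.isClassFunction (isCharacter_irr θ) n ⟨k, hk⟩)
    rw [conjIrr_mul, hk', hh']
  have hext : ∀ θ : {θ : IrrCharacter K //
      Glauberman.IsInv ((MulAut.conjNormal : G →* MulAut K).comp H.subtype) (θ : K → ℂ)},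
      ∃ α : IrrCharacter G, ∀ n : K, (α : G → ℂ) n = (θ.1 : K → ℂ) n := by
    intro θ
    refine Extendible.extends_of_local K θ.1 (hconj θ.1 θ.2) fun p hp => ?_
    by_cases hpd : p ∣ charDegree (θ.1 : K → ℂ)
    · refine Or.inl ⟨K, le_rfl, (θ.1 : K → ℂ), ?_, θ.1.2, fun n => rfl⟩
      rw [hidx]
      exact (hcop.coprime_dvd_left (hpd.trans (charDegree_dvd θ.1))).symm
    · obtain ⟨f, hf⟩ := Extendible.exists_detHom θ.1
      obtain ⟨μ, hμ, -⟩ := exists_hom_extend K H hdec hcop f (fun g k => by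
        apply Units.ext
        rw [hf, hf]
        obtain ⟨d, ρ, hρ, hc⟩ := θ.1.2
        have hρ' : Representation.IsIrreducible (ρ.comp (MulAut.conjNormal g : K ≃* K).toMonoidHom) := by
          rw [isIrreducible_iff] at hρ ⊢
          refine ⟨hρ.1, fun W hW => hρ.2 W fun x v hv => ?_⟩
          have := hW ((MulAut.conjNormal g : K ≃* K).symm x) v hv
          simpa using this
        have hc' : Representation.character (ρ.comp (MulAut.conjNormal g : K ≃* K).toMonoidHom) =
            (θ.1 : K → ℂ) := by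
          funext x
          have h1 := congrFun (congrArg Subtype.val (hconj θ.1 θ.2 g)) x
          rw [conjIrr_apply' K] at h1
          change ρ.character (MulAut.conjNormal g x) = _
          rw [hc]
          exact h1
        rw [Extendible.detChar_eq ρ hρ hc, Extendible.detChar_eq _ hρ' hc']
        rfl) 1
      exact Or.inr ⟨1, μ, by rw [mul_one]; exact ((hp.coprime_iff_not_dvd).mpr hpd).symm,
        fun n => by rw [hμ, hf, pow_one]⟩
  choose α hα using hext
  have hl : ∀ l : H →* ℂˣ, ∃ μ : G →* ℂˣ, (∀ k : K, μ k = 1) ∧ ∀ h : H, μ h = l h := fun l => by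
    obtain ⟨μ, h1, h2⟩ := exists_hom_extend K H hdec hcop 1 (fun _ _ => rfl) l
    exact ⟨μ, h1, h2⟩
  choose μ hμ1 hμ2 using hl
  let tw : {θ : IrrCharacter K //
      Glauberman.IsInv ((MulAut.conjNormal : G →* MulAut K).comp H.subtype) (θ : K → ℂ)} × (H →* ℂˣ) →
      {χ : IrrCharacter G // (charDegree (χ : G → ℂ)).Coprime (Nat.card H)} := fun x =>
    ⟨⟨fun g => (μ x.2 g : ℂ) * (α x.1 : G → ℂ) g, isIrrCharacter_hom_mul (μ x.2) (α x.1)⟩, by
      have h1 : charDegree (fun g => (μ x.2 g : ℂ) * (α x.1 : G → ℂ) g) =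
          charDegree (x.1.1 : K → ℂ) := by
        have := hα x.1 1
        rw [OneMemClass.coe_one] at this
        simp only [charDegree, map_one, Units.val_one, one_mul, this]
      rw [h1]
      exact hcop.coprime_dvd_left (charDegree_dvd x.1.1)⟩
  rw [← Nat.card_prod]
  refine (Nat.card_congr (Equiv.ofBijective tw ⟨fun x y e => ?_, fun χ => ?_⟩)).symm
  · have he : ∀ g, (μ x.2 g : ℂ) * (α x.1 : G → ℂ) g = (μ y.2 g : ℂ) * (α y.1 : G → ℂ) g := fun g =>
      congrFun (congrArg (fun z : {χ : IrrCharacter G // (charDegree (χ : G → ℂ)).Coprime (Nat.card H)} =>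
        (z.1 : G → ℂ)) e) g
    have h1 : x.1 = y.1 := by
      refine Subtype.ext (Subtype.ext (funext fun n => ?_))
      have := he n
      rwa [hμ1, hμ1, Units.val_one, one_mul, one_mul, hα, hα] at this
    refine Prod.ext h1 (MonoidHom.ext fun b => Units.ext ?_)
    obtain ⟨n, hn⟩ : ∃ n : K, (α y.1 : G → ℂ) ((n : G) * (b : G)) ≠ 0 := by
      by_contra hc
      push Not at hc
      have h2 := CharExtend.sum_coset_norm K (α y.1) y.1.1 (hα y.1) (b : G)
      simp only [hc, zero_mul, Finset.sum_const_zero] at h2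
      exact natCast_card_ne_zero K h2.symm
    have h3 := he ((n : G) * (b : G))
    rw [h1, map_mul, map_mul, hμ1, hμ1, one_mul, one_mul, hμ2, hμ2] at h3
    exact mul_right_cancel₀ hn h3
  · obtain ⟨θ, hθ⟩ := exists_res_constituent K χ.1
    obtain ⟨T, e, hKT, hT, hdeg, hed⟩ := CharDegree.exists_inertia K θ χ.1 hθ
    have h1 : ∀ a, a ∣ charDegree (χ.1 : G → ℂ) → a ∣ Nat.card H → a = 1 := fun a h h' =>
      Nat.eq_one_of_dvd_coprimes χ.2 h h'
    have hTi : T.index = 1 := h1 _ (hdeg ▸ Dvd.intro (e * charDegree (θ : K → ℂ)) (by ring))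
      (hidx ▸ Subgroup.index_dvd_of_le hKT)
    have he1 : e = 1 := h1 _ (hdeg ▸ Dvd.intro (T.index * charDegree (θ : K → ℂ)) (by ring))
      (hidx ▸ hed.trans (Dvd.intro _ (Subgroup.relIndex_mul_index hKT)))
    rw [hTi, he1, one_mul, one_mul] at hdeg
    have hres : (fun n : K => (χ.1 : G → ℂ) n) = (θ : K → ℂ) := by
      refine CliffordCorr.eq_of_constituent_degree (IsCharacter.restrict (isCharacter_irr χ.1) K) θ hθ ?_
      rw [OneMemClass.coe_one, irr_apply_one, irr_apply_one, hdeg]
    have hθi : Glauberman.IsInv ((MulAut.conjNormal : G →* MulAut K).comp H.subtype) (θ : K → ℂ) := by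
      intro h n
      rw [← hres]
      change (χ.1 : G → ℂ) ((h : G) * (n : G) * (h : G)⁻¹) = _
      exact IsCharacter.isClassFunction (isCharacter_irr χ.1) (n : G) (h : G)
    obtain ⟨f, hf1, hf⟩ := DetChar.exists_twist K θ (α ⟨θ, hθi⟩) χ.1 (hα ⟨θ, hθi⟩)
      (fun n => congrFun hres n)
    refine ⟨(⟨θ, hθi⟩, f.comp H.subtype), Subtype.ext (Subtype.ext (funext fun g => ?_))⟩
    obtain ⟨k, hk, h, hh, rfl⟩ := hdec g
    change (μ (f.comp H.subtype) (k * h) : ℂ) * _ = _
    rw [hf, map_mul, map_mul, hμ1 _ ⟨k, hk⟩, hμ2 _ ⟨h, hh⟩, hf1 ⟨k, hk⟩]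
    rfl

end

/-- Let the finite group G be the product of a normal subgroup K and a solvable subgroup H of coprime orders, and let N = N_G(H). Then the number of irreducible characters of G of degree coprime to the order of H equals the number of irreducible characters of N of degree coprime to the order of H. (The two sets are in fact in a canonical bijection; only the equality of their sizes is stated here.) -/
theorem result {G : Type*} [Group G] [Finite G] (K H : Subgroup G) [K.Normal] (hKH : K ⊔ H = ⊤) (hcop : (Nat.card K).Coprime (Nat.card H)) (hsolv : Group.IsSolvable H) : Nat.card {χ : Cfsg.IrrCharacter G // (Cfsg.charDegree (χ : G → ℂ)).Coprime (Nat.card H)} = Nat.card {η : Cfsg.IrrCharacter (Subgroup.normalizer (H : Set G)) // (Cfsg.charDegree (η : Subgroup.normalizer (H : Set G) → ℂ)).Coprime (Nat.card H)} := by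
  classical
  haveI : Fintype G := Fintype.ofFinite G
  have hdec : ∀ g : G, ∃ k ∈ K, ∃ h ∈ H, g = k * h := fun g => by
    have hg : g ∈ ((K ⊔ H : Subgroup G) : Set G) := by rw [hKH]; trivial
    rw [Subgroup.normal_mul] at hg
    obtain ⟨k, hk, h, hh, rfl⟩ := Set.mem_mul.mp hg
    exact ⟨k, hk, h, hh, rfl⟩
  rw [count K H hdec hcop]
  set Nn := Subgroup.normalizer (H : Set G) with hNn
  have hle : H ≤ Nn := Subgroup.le_normalizer
  set K' := K.subgroupOf Nn
  set H' := H.subgroupOf Nn
  have eH : H' ≃* H := Subgroup.subgroupOfEquivOfLe hle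
  have hdec' : ∀ g : Nn, ∃ k ∈ K', ∃ h ∈ H', g = k * h := fun g => by
    obtain ⟨k, hk, h, hh, e⟩ := hdec (g : G)
    have hkN : k ∈ Nn := by
      have := mul_mem g.2 (inv_mem (hle hh))
      rwa [e, mul_inv_cancel_right] at this
    exact ⟨⟨k, hkN⟩, hk, ⟨h, hle hh⟩, hh, Subtype.ext e⟩
  have hcop' : (Nat.card K').Coprime (Nat.card H') := by
    rw [Nat.card_congr eH.toEquiv]
    refine hcop.coprime_dvd_left ?_
    exact Subgroup.card_dvd_of_injective
      ({ toFun := fun x => ⟨((x : Nn) : G), x.2⟩, map_one' := rfl, map_mul' := fun _ _ => rfl } : K' →* K)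
      (fun a b e => Subtype.ext (Subtype.ext (congrArg (fun z : K => (z : G)) e)))
  rw [show Nat.card H = Nat.card H' from (Nat.card_congr eH.toEquiv).symm, count K' H' hdec' hcop',
    Nat.card_congr (homCongr eH)]
  congr 1
  -- the fixed points
  let F : Subgroup K :=
    { carrier := {k | ∀ h : H, MulAut.conjNormal (h : G) k = k}
      one_mem' := fun h => map_one _
      mul_mem' := fun {a b} ha hb h => by rw [map_mul, ha h, hb h]
      inv_mem' := fun {a} ha h => by rw [map_inv, ha h] }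
  rw [Glauberman.card_inv_eq_fixed (Nat.card H) K H ((MulAut.conjNormal : G →* MulAut K).comp H.subtype)
    le_rfl hcop F (fun k => Iff.rfl)]
  have hfix : ∀ (k : K') (h : H'), MulAut.conjNormal (h : Nn) k = k := by
    intro k h
    apply Subtype.ext
    apply Subtype.ext
    rw [MulAut.conjNormal_apply]
    simp only [Subgroup.coe_mul, InvMemClass.coe_inv]
    exact mul_inv_eq_iff_eq_mul.mpr (commute_of_mem K H hcop k.2 h.2 (k : Nn).2).symm
  rw [show Nat.card {θ : IrrCharacter K' //
      Glauberman.IsInv ((MulAut.conjNormal : Nn →* MulAut K').comp H'.subtype) (θ : K' → ℂ)} =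
        Nat.card (IrrCharacter K') from
    Nat.card_congr (Equiv.subtypeUnivEquiv fun θ h k => congrArg _ (hfix k h))]
  refine Glauberman.card_irr_congr
    { toFun := fun k => ⟨⟨((k : K) : G), fixed_mem_normalizer K H k.1 k.2⟩, (k : K).2⟩
      invFun := fun k => ⟨⟨((k : Nn) : G), k.2⟩, fun h => Subtype.ext (by
        rw [MulAut.conjNormal_apply]
        exact mul_inv_eq_iff_eq_mul.mpr (commute_of_mem K H hcop k.2 h.2 (k : Nn).2).symm)⟩
      left_inv := fun _ => rfl
      right_inv := fun _ => rfl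
      map_mul' := fun _ _ => rfl }

end Cfsg.Agent.S4452
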