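import Cfsg.Statements.S4454
import Cfsg.Agent.Lib.CharCover
import Cfsg.Agent.Lib.CharAbelian
import Cfsg.Agent.Lib.Blocks.Cover
import Cfsg.Agent.Lib.Chars.Misc
import Cfsg.Agent.Lib.Chars.Kernel

set_option autoImplicit false
open Cfsg

namespace Cfsg.Agent.S4454

open CfsgLib.Chars
open scoped ComplexConjugate

universe u

/-- An invariant character extends along a cyclic quotient: every character over it is an extension. -/
theorem ext_cyclic {X : Type u} [Group X] [Fintype X] (N : Subgroup X) [N.Normal] [Fintype N]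
    (hc : IsCyclic (X ⧸ N)) (θ : Cfsg.IrrCharacter N) (hinv : ∀ g, conjIrr N θ g = θ)
    (ψ : Cfsg.IrrCharacter X) (h : Cfsg.classInner (fun n : N => (ψ : X → ℂ) n) (θ : N → ℂ) ≠ 0) :
    ∀ n : N, (ψ : X → ℂ) n = (θ : N → ℂ) n := by
  classical
  obtain ⟨E, _, _, π, ι, α, hsurj, hπι, hR, hker, hα⟩ := CfsgLib.CharCover.exists_cover N θ hinv
  haveI := Fintype.ofFinite E
  haveI := hR
  haveI := Fintype.ofFinite ι.range
  have hinj : Function.Injective ι := fun a b hab =>
    Subtype.ext (by rw [← hπι a, ← hπι b, hab])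
  let eR : N ≃* ι.range := MonoidHom.ofInjective hinj
  have heR : ∀ n, ((eR n : ι.range) : E) = ι n := fun n => rfl
  let θR : Cfsg.IrrCharacter ι.range :=
    ⟨fun r => (θ : N → ℂ) (eR.symm r), IsIrrCharacter.comp θ.2 eR.symm.toMonoidHom eR.symm.surjective⟩
  let ψE : Cfsg.IrrCharacter E := ⟨fun e => (ψ : X → ℂ) (π e), IsIrrCharacter.comp ψ.2 π hsurj⟩
  have hψE : Cfsg.classInner (fun r : ι.range => (ψE : E → ℂ) r) (θR : ι.range → ℂ) ≠ 0 := by
    have e : Cfsg.classInner (fun r : ι.range => (ψE : E → ℂ) r) (θR : ι.range → ℂ) =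
        Cfsg.classInner (fun n : N => (ψ : X → ℂ) n) (θ : N → ℂ) := by
      simp only [Cfsg.classInner, Nat.card_congr eR.toEquiv]
      congr 1
      refine (Fintype.sum_equiv eR.toEquiv _ _ fun n => ?_).symm
      show (ψ : X → ℂ) n * conj ((θ : N → ℂ) n) =
        (ψ : X → ℂ) (π (eR n : E)) * conj ((θ : N → ℂ) (eR.symm (eR n)))
      rw [heR, hπι, MulEquiv.symm_apply_apply]
    rw [e]; exact h
  have hres : ∀ r : ι.range, (α : E → ℂ) r = (θR : ι.range → ℂ) r := fun r => by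
    show (α : E → ℂ) r = (θ : N → ℂ) (eR.symm r)
    rw [← hα, ← heR, MulEquiv.apply_symm_apply]
  obtain ⟨β, hβk, hβ⟩ := CfsgLib.CharExtend.gallagher ι.range α θR hres ψE hψE
  obtain ⟨β', hβ'⟩ := exists_deflate ι.range β hβk
  have hcomm : ∀ a b : E ⧸ ι.range, a * b = b * a := by
    haveI := hc
    let f : E ⧸ ι.range →* X ⧸ N := QuotientGroup.map ι.range N π (by
      rintro _ ⟨n, rfl⟩
      rw [Subgroup.mem_comap, hπι]; exact n.2)
    refine commutative_of_cyclic_center_quotient f ?_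
    intro q hq
    obtain ⟨e, rfl⟩ := QuotientGroup.mk_surjective q
    have hN : π e ∈ N := (QuotientGroup.eq_one_iff _).mp hq
    have hk : e * (ι ⟨π e, hN⟩)⁻¹ ∈ π.ker := by
      rw [MonoidHom.mem_ker, map_mul, map_inv, hπι, mul_inv_cancel]
    have he : (QuotientGroup.mk e : E ⧸ ι.range) = QuotientGroup.mk (e * (ι ⟨π e, hN⟩)⁻¹) := by
      rw [QuotientGroup.eq]
      exact ⟨⟨π e, hN⟩⁻¹, by rw [map_inv]; group⟩
    rw [he, Subgroup.mem_center_iff]
    intro g
    obtain ⟨g, rfl⟩ := QuotientGroup.mk_surjective g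
    rw [← QuotientGroup.mk_mul, ← QuotientGroup.mk_mul, Subgroup.mem_center_iff.mp (hker hk) g]
  haveI := Fintype.ofFinite (E ⧸ ι.range)
  have hβ1 : (β : E → ℂ) 1 = 1 := by
    rw [hβ', Function.comp_apply, QuotientGroup.mk_one, irr_apply_one, charDegree_eq_one_of_comm hcomm β', Nat.cast_one]
  have hdeg : (ψ : X → ℂ) 1 = (θ : N → ℂ) 1 := by
    have := hβ 1
    rw [hβ1, mul_one] at this
    rw [← map_one π]
    refine this.trans ?_
    rw [← hα 1, map_one]
  obtain ⟨b, -, -, hval, -⟩ := clifford N ψ θ h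
  have horb : orbit N θ = {θ} := by
    refine Finset.eq_singleton_iff_unique_mem.2 ⟨(mem_orbit _).2 ⟨1, (conjIrr_one _ _).symm⟩, fun x hx => ?_⟩
    obtain ⟨g, rfl⟩ := (mem_orbit _).1 hx
    exact hinv g
  simp only [horb, Finset.sum_singleton] at hval
  have hb : (b : ℂ) = 1 := by
    have h1 := hval 1
    rw [OneMemClass.coe_one, hdeg] at h1
    exact mul_right_cancel₀ (irr_one_ne_zero θ) (h1.symm.trans (one_mul _).symm)
  intro n
  rw [hval n, hb, one_mul]

theorem int_lemma (m e : ℕ) (hm : 2 ≤ m) {ι : Type*} (s : Finset ι) (hs : s.card = m) (a : ι → ℕ)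
    (h1 : ∑ i ∈ s, a i = e) (h2 : m * ∑ i ∈ s, a i ^ 2 + 1 = e ^ 2 + m) :
    (m : ℤ) ∣ (e : ℤ) - 1 ∨ (m : ℤ) ∣ (e : ℤ) + 1 := by
  have hdm := Nat.div_add_mod e m
  have hr := Nat.mod_lt e (by omega : m > 0)
  obtain ⟨q, r, hqr, hrm⟩ : ∃ q r : ℤ, (e : ℤ) = m * q + r ∧ (0 ≤ r ∧ r < m) :=
    ⟨(e / m : ℕ), (e % m : ℕ), by exact_mod_cast hdm.symm, Int.natCast_nonneg _, by exact_mod_cast hr⟩
  set b : ι → ℤ := fun i => (a i : ℤ) - q with hb
  have hb1 : ∑ i ∈ s, b i = r := by
    simp only [hb, Finset.sum_sub_distrib, Finset.sum_const, nsmul_eq_mul, hs]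
    rw [← Nat.cast_sum, h1, hqr]
    ring
  have hb2 : (m : ℤ) * ∑ i ∈ s, b i ^ 2 = r ^ 2 + m - 1 := by
    have h2' : (m : ℤ) * ∑ i ∈ s, (a i : ℤ) ^ 2 + 1 = (e : ℤ) ^ 2 + m := by exact_mod_cast h2
    have e1 : ∑ i ∈ s, b i ^ 2 = ∑ i ∈ s, (a i : ℤ) ^ 2 - 2 * q * (e : ℤ) + m * q ^ 2 := by
      simp only [hb, sub_sq, Finset.sum_add_distrib, Finset.sum_sub_distrib, Finset.sum_const, nsmul_eq_mul, hs]
      rw [← Finset.sum_mul, ← Finset.mul_sum, ← Nat.cast_sum, h1]
      ring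
    rw [e1, hqr] at *
    linear_combination h2'
  have hge : r ≤ ∑ i ∈ s, b i ^ 2 := hb1 ▸ Finset.sum_le_sum fun i _ => Int.le_self_sq (b i)
  have hr1 : r ≤ 1 ∨ (m : ℤ) - 1 ≤ r := by
    by_contra hc
    push Not at hc
    nlinarith [mul_le_mul_of_nonneg_left hge (Int.natCast_nonneg m)]
  rcases hr1 with h | h
  · have hr0 : r ≠ 0 := by
      intro h0
      rw [h0] at hb2
      have hm' : (2 : ℤ) ≤ m := by exact_mod_cast hm
      rcases le_or_gt (∑ i ∈ s, b i ^ 2) 0 with hx | hx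
      · nlinarith
      · nlinarith
    exact Or.inl ⟨q, by omega⟩
  · exact Or.inr ⟨q + 1, by rw [mul_add, mul_one]; omega⟩

/-- Let N ≤ G be normal subgroups of the finite group Γ with Γ/G cyclic and Γ/N a Frobenius group with kernel G/N: G ≠ Γ, N ≠ G, and no element of Γ outside G fixes a non-identity coset of N in G under conjugation. Let ϑ be an irreducible character of N invariant under conjugation by Γ and suppose ϑ is fully ramified in G: the character of G induced from ϑ equals e·χ for an irreducible character χ of G and a natural number e. Then the index of G in Γ divides e − 1 or e + 1. -/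
theorem result {Γ : Type*} [Group Γ] [Fintype Γ] (G N : Subgroup Γ) [hG : G.Normal] [hN : N.Normal] [Fintype G] [Fintype N] (hNG : N ≤ G) (hGlt : G ≠ ⊤) (hNlt : N ≠ G) (hcyc : IsCyclic (Γ ⧸ G)) (hfrob : ∀ x : Γ, x ∉ G → ∀ g : Γ, g ∈ G → x * g * x⁻¹ * g⁻¹ ∈ N → g ∈ N) (θ : Cfsg.IrrCharacter N) (hinv : ∀ (x : Γ) (n : N), (θ : N → ℂ) ⟨x * n * x⁻¹, hN.conj_mem n n.2 x⟩ = (θ : N → ℂ) n) (χ : Cfsg.IrrCharacter G) (e : ℕ) (hram : Cfsg.indFun (N.subgroupOf G) (fun n : N.subgroupOf G => (θ : N → ℂ) ⟨(n : G), n.2⟩) = fun g => (e : ℂ) * (χ : G → ℂ) g) : (G.index : ℤ) ∣ (e : ℤ) - 1 ∨ (G.index : ℤ) ∣ (e : ℤ) + 1 := by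
  classical
  set m := G.index with hmdef
  have hm1 : m ≠ 1 := fun h => hGlt (Subgroup.index_eq_one.mp h)
  have hm0 : m ≠ 0 := G.index_ne_zero_of_finite
  haveI : (N.subgroupOf G).Normal := hN.subgroupOf G
  haveI : Fintype (N.subgroupOf G) := Fintype.ofFinite _
  let eG : N.subgroupOf G ≃* N := Subgroup.subgroupOfEquivOfLe hNG
  let θG : Cfsg.IrrCharacter (N.subgroupOf G) :=
    ⟨fun n => (θ : N → ℂ) (eG n), IsIrrCharacter.comp θ.2 eG.toMonoidHom eG.surjective⟩
  have hθinv : ∀ g : Γ, conjIrr N θ g = θ := fun g => Subtype.ext (funext fun n => by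
    rw [conjIrr_apply', hinv])
  have hθGinv : ∀ g : G, conjIrr (N.subgroupOf G) θG g = θG := fun g => Subtype.ext (funext fun n => by
    rw [conjIrr_apply']
    show (θ : N → ℂ) (eG _) = (θ : N → ℂ) (eG n)
    rw [← hinv (g : Γ) (eG n)]
    rfl)
  have hram' : Cfsg.indFun (N.subgroupOf G) (θG : N.subgroupOf G → ℂ) = fun g => (e : ℂ) * (χ : G → ℂ) g := hram
  have hresN : ∀ η : Cfsg.IrrCharacter G, Cfsg.classInner (fun n : N.subgroupOf G => (η : G → ℂ) n) (θG : N.subgroupOf G → ℂ) =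
      if χ = η then (e : ℂ) else 0 := by
    intro η
    rw [classInner_character_comm (IsCharacter.restrict (isCharacter_irr η) _) (isCharacter_irr θG),
      ← frobenius (N.subgroupOf G) _ (IsCharacter.isClassFunction (isCharacter_irr η)), hram']
    have h := classInner_irr χ η
    simp only [Cfsg.classInner] at h ⊢
    simp only [mul_assoc, ← Finset.mul_sum]
    rw [mul_left_comm, h, mul_ite, mul_one, mul_zero]
  have he0 : (e : ℂ) ≠ 0 := by
    intro h
    have := congrFun hram' 1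
    rw [h, zero_mul, indFun_one] at this
    exact mul_ne_zero (Nat.cast_ne_zero.mpr Subgroup.index_ne_zero_of_finite) (irr_one_ne_zero θG) this
  obtain ⟨e', -, he', hval, -⟩ := clifford (N.subgroupOf G) χ θG (by rw [hresN, if_pos rfl]; exact he0)
  have horb : orbit (N.subgroupOf G) θG = {θG} := by
    refine Finset.eq_singleton_iff_unique_mem.2 ⟨(mem_orbit _).2 ⟨1, (conjIrr_one _ _).symm⟩, fun x hx => ?_⟩
    obtain ⟨g, rfl⟩ := (mem_orbit _).1 hx
    exact hθGinv g
  simp only [horb, Finset.sum_singleton] at hval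
  rw [hresN, if_pos rfl] at he'
  rw [← he'] at hval
  have hχN : ∀ n : N, (χ : G → ℂ) ⟨n, hNG n.2⟩ = (e : ℂ) * (θ : N → ℂ) n := fun n => hval ⟨⟨n, hNG n.2⟩, n.2⟩
  have hχinv : ∀ x : Γ, conjIrr G χ x = χ := by
    intro x
    by_contra hne
    have h := hresN (conjIrr G χ x)
    rw [if_neg (Ne.symm hne)] at h
    apply he0
    have e1 : (fun n : N.subgroupOf G => (conjIrr G χ x : G → ℂ) n) =
        fun n : N.subgroupOf G => (e : ℂ) * (θG : N.subgroupOf G → ℂ) n := funext fun n => by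
      rw [conjIrr_apply']
      refine (hχN ⟨x * ((n : G) : Γ) * x⁻¹, hN.conj_mem _ n.2 x⟩).trans ?_
      exact congrArg _ (hinv x (eG n))
    have h1 := classInner_irr θG θG
    rw [if_pos rfl] at h1
    rw [e1] at h
    simp only [Cfsg.classInner, mul_assoc, ← Finset.mul_sum] at h h1
    rw [mul_left_comm, h1, mul_one] at h
    exact h
  obtain ⟨χh, hχh⟩ := CfsgLib.Blocks.exists_over G χ
  have hext := ext_cyclic G hcyc χ hχinv χh hχh
  -- a generator
  obtain ⟨q, hq⟩ := hcyc.exists_generator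
  obtain ⟨x, rfl⟩ := QuotientGroup.mk_surjective q
  have hord : orderOf (x : Γ ⧸ G) = m := by
    rw [orderOf_eq_card_of_forall_mem_zpowers hq]; rfl
  have hxG : x ∉ G := fun h => hm1 (by rw [← hord, (QuotientGroup.eq_one_iff x).mpr h, orderOf_one])
  have hxm : x ^ m ∈ N := by
    have hG' : x ^ m ∈ G := by
      rw [← QuotientGroup.eq_one_iff, QuotientGroup.mk_pow, ← hord, pow_orderOf_eq_one]
    refine hfrob x hxG _ hG' ?_
    rw [show x * x ^ m * x⁻¹ * (x ^ m)⁻¹ = 1 by group]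
    exact one_mem N
  set U : Subgroup Γ := N ⊔ Subgroup.zpowers x with hU
  have hNU : N ≤ U := le_sup_left
  have hUG : ∀ y ∈ U, y ∈ G → y ∈ N := by
    intro y hy hyG
    obtain ⟨n, hn, z, hz, rfl⟩ := Subgroup.mem_sup_of_normal_left.mp hy
    obtain ⟨k, rfl⟩ := Subgroup.mem_zpowers_iff.mp hz
    have hk : x ^ k ∈ G := (Subgroup.mul_mem_cancel_left G (hNG hn)).mp hyG
    rw [← QuotientGroup.eq_one_iff, QuotientGroup.mk_zpow, ← orderOf_dvd_iff_zpow_eq_one, hord] at hk
    obtain ⟨c, rfl⟩ := hk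
    refine mul_mem hn ?_
    rw [zpow_mul, zpow_natCast]
    exact zpow_mem hxm c
  haveI : Fintype U := Fintype.ofFinite U
  haveI : (N.subgroupOf U).Normal := hN.subgroupOf U
  haveI : Fintype (N.subgroupOf U) := Fintype.ofFinite _
  have hxU : x ∈ U := Subgroup.mem_sup_right (Subgroup.mem_zpowers x)
  have hidx : (N.subgroupOf U).index = m := by
    let f : U ⧸ N.subgroupOf U →* Γ ⧸ G := QuotientGroup.map _ G U.subtype (fun y hy => hNG hy)
    refine Nat.card_congr (Equiv.ofBijective f ⟨?_, ?_⟩)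
    · rw [injective_iff_map_eq_one]
      intro y hy
      obtain ⟨y, rfl⟩ := QuotientGroup.mk_surjective y
      exact (QuotientGroup.eq_one_iff y).mpr (hUG _ y.2 ((QuotientGroup.eq_one_iff _).mp hy))
    · intro z
      obtain ⟨k, rfl⟩ := Subgroup.mem_zpowers_iff.mp (hq z)
      exact ⟨QuotientGroup.mk (⟨x, hxU⟩ ^ k : U), by rw [QuotientGroup.mk_zpow, map_zpow]; rfl⟩
  have hcycU : IsCyclic (U ⧸ N.subgroupOf U) := by
    refine isCyclic_of_surjective ((QuotientGroup.mk' (N.subgroupOf U)).comp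
      (Subgroup.inclusion (le_sup_right : Subgroup.zpowers x ≤ U))) ?_
    intro y
    obtain ⟨⟨y, hy⟩, rfl⟩ := QuotientGroup.mk_surjective y
    obtain ⟨n, hn, z, hz, rfl⟩ := Subgroup.mem_sup_of_normal_left.mp hy
    refine ⟨⟨z, hz⟩, ?_⟩
    rw [MonoidHom.comp_apply, QuotientGroup.mk'_apply, QuotientGroup.eq, Subgroup.mem_subgroupOf]
    show z⁻¹ * (n * z) ∈ N
    simpa [mul_assoc] using hN.conj_mem n hn z⁻¹
  let eU : N.subgroupOf U ≃* N := Subgroup.subgroupOfEquivOfLe hNU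
  let θU : Cfsg.IrrCharacter (N.subgroupOf U) :=
    ⟨fun n => (θ : N → ℂ) (eU n), IsIrrCharacter.comp θ.2 eU.toMonoidHom eU.surjective⟩
  have hθUinv : ∀ g : U, conjIrr (N.subgroupOf U) θU g = θU := fun g => Subtype.ext (funext fun n => by
    rw [conjIrr_apply']
    show (θ : N → ℂ) (eU _) = (θ : N → ℂ) (eU n)
    rw [← hinv (g : Γ) (eU n)]
    rfl)
  -- the characters of `U` over `θ`
  set s := Finset.univ.filter fun η : Cfsg.IrrCharacter U =>
    Cfsg.classInner (fun n : N.subgroupOf U => (η : U → ℂ) n) (θU : N.subgroupOf U → ℂ) ≠ 0 with hs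
  have hmult : ∀ η : Cfsg.IrrCharacter U,
      Cfsg.classInner (fun n : N.subgroupOf U => (η : U → ℂ) n) (θU : N.subgroupOf U → ℂ) = if η ∈ s then 1 else 0 := by
    intro η
    split_ifs with h
    · rw [funext (ext_cyclic _ hcycU θU hθUinv η (Finset.mem_filter.mp h).2), classInner_irr, if_pos rfl]
    · simpa [hs] using h
  have hscard : s.card = m := by
    have hI := IsCharacter.indFun (N.subgroupOf U) (isCharacter_irr θU)
    have h1 := classFunction_expand (IsCharacter.isClassFunction hI) 1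
    rw [indFun_one, hidx, Finset.sum_congr rfl (fun η _ => by
      rw [frobenius (N.subgroupOf U) _ (IsCharacter.isClassFunction (isCharacter_irr η)),
        classInner_character_comm (isCharacter_irr θU) (IsCharacter.restrict (isCharacter_irr η) _),
        hmult η, ite_mul, one_mul, zero_mul]), ← Finset.sum_filter, Finset.filter_mem_eq_inter, Finset.univ_inter,
      ] at h1
    have h2 : ∑ η ∈ s, (η : U → ℂ) 1 = (s.card : ℂ) * (θU : N.subgroupOf U → ℂ) 1 := by
      rw [← nsmul_eq_mul, ← Finset.sum_const]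
      refine Finset.sum_congr rfl (fun η hη => ?_)
      have h := ext_cyclic _ hcycU θU hθUinv η (Finset.mem_filter.mp hη).2 1
      rw [OneMemClass.coe_one] at h
      exact h
    rw [h2] at h1
    exact_mod_cast (mul_right_cancel₀ (irr_one_ne_zero θU) h1).symm
  let φU : U → ℂ := fun u => (χh : Γ → ℂ) u
  have hφ : Cfsg.IsCharacter U φU := IsCharacter.restrict (isCharacter_irr χh) U
  choose a ha using exists_mult hφ
  have hexp : ∀ u, φU u = ∑ η : Cfsg.IrrCharacter U, (a η : ℂ) * (η : U → ℂ) u := fun u => by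
    rw [classFunction_expand (IsCharacter.isClassFunction hφ) u]
    simp only [ha]
  have hφN : ∀ n : N.subgroupOf U, φU n = (e : ℂ) * (θU : N.subgroupOf U → ℂ) n := fun n =>
    (hext ⟨((n : U) : Γ), hNG n.2⟩).trans (hχN (eU n))
  have hsum : ∑ η ∈ s, a η = e := by
    have h1 : Cfsg.classInner (fun n : N.subgroupOf U => φU n) (θU : N.subgroupOf U → ℂ) = (e : ℂ) := by
      have h1 := classInner_irr θU θU
      rw [if_pos rfl] at h1
      simp only [Cfsg.classInner, hφN, mul_assoc, ← Finset.mul_sum] at h1 ⊢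
      rw [mul_left_comm, h1, mul_one]
    rw [show (fun n : N.subgroupOf U => φU n) = fun n : N.subgroupOf U =>
      ∑ η : Cfsg.IrrCharacter U, (a η : ℂ) * (η : U → ℂ) n from funext fun n => hexp n, classInner_sum] at h1
    simp only [hmult, mul_ite, mul_one, mul_zero] at h1
    rw [← Finset.sum_filter, Finset.filter_mem_eq_inter, Finset.univ_inter] at h1
    exact_mod_cast h1
  have hout : ∀ η, η ∉ s → a η = 0 := by
    intro η hη
    have h1 := hexp 1
    rw [show φU 1 = (e : ℂ) * (θ : N → ℂ) 1 from by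
      have := hφN 1; simpa [θU] using this] at h1
    rw [← Finset.sum_add_sum_compl s] at h1
    rw [show ∑ η ∈ s, (a η : ℂ) * (η : U → ℂ) 1 = (e : ℂ) * (θ : N → ℂ) 1 from by
      rw [← hsum, Nat.cast_sum, Finset.sum_mul]
      refine Finset.sum_congr rfl fun η hη => congrArg _ ?_
      have h := ext_cyclic _ hcycU θU hθUinv η (Finset.mem_filter.mp hη).2 1
      rw [OneMemClass.coe_one] at h
      rw [h]
      show (θ : N → ℂ) (eU 1) = _
      rw [map_one]] at h1
    have h2 : ∑ η ∈ sᶜ, (a η : ℂ) * (η : U → ℂ) 1 = 0 := by linear_combination -h1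
    simp only [irr_apply_one] at h2
    have h3 : ∑ η ∈ sᶜ, a η * Cfsg.charDegree (η : U → ℂ) = 0 := by exact_mod_cast h2
    exact (Nat.mul_eq_zero.mp (Finset.sum_eq_zero_iff.mp h3 η (Finset.mem_compl.mpr hη))).resolve_right
      (charDegree_pos η).ne'
  -- the norm
  set F : Γ → ℂ := fun y => (χh : Γ → ℂ) y * conj ((χh : Γ → ℂ) y) with hF
  have hFc : ∀ y z : Γ, F (z * y * z⁻¹) = F y := fun y z => by
    simp only [hF, IsCharacter.isClassFunction (isCharacter_irr χh) y z]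
  have hcoset : ∀ u : U, (u : Γ) ∉ G → ∑ n : N, F ((n : Γ) * u) = (Nat.card N : ℂ) := by
    intro u hu
    set Φ : Γ → ℂ := fun g => ∑ n : N, F ((n : Γ) * g) with hΦ
    have hΦN : ∀ (n' : N) (g : Γ), Φ ((n' : Γ) * g) = Φ g := fun n' g => by
      simp only [hΦ, ← mul_assoc]
      exact Fintype.sum_equiv (Equiv.mulRight n') _ _ fun n => rfl
    have hΦc : ∀ (z g : Γ), Φ (z * g * z⁻¹) = Φ g := fun z g => by
      simp only [hΦ]
      refine (Fintype.sum_equiv (conjN N z).toEquiv _ _ fun n => ?_).symm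
      show F ((n : Γ) * g) = F (((conjN N z n : N) : Γ) * (z * g * z⁻¹))
      rw [← hFc ((n : Γ) * g) z, conjN_coe]
      congr 1
      group
    let c : G ⧸ N.subgroupOf G → G ⧸ N.subgroupOf G := fun g => QuotientGroup.mk
      (⟨(g.out : Γ) * u * (g.out : Γ)⁻¹ * (u : Γ)⁻¹, by
        rw [mul_assoc, mul_assoc]
        refine mul_mem g.out.2 ?_
        rw [← mul_assoc]
        exact hG.conj_mem _ (inv_mem g.out.2) _⟩ : G)
    have hcinj : Function.Injective c := by
      intro a b hab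
      have h := QuotientGroup.eq.mp hab
      rw [Subgroup.mem_subgroupOf] at h
      simp only [Subgroup.coe_mul, InvMemClass.coe_inv] at h
      have key : (u : Γ) * ((a.out : Γ)⁻¹ * b.out) * (u : Γ)⁻¹ * ((a.out : Γ)⁻¹ * b.out)⁻¹ ∈ N := by
        convert inv_mem (hN.conj_mem _ h ((u : Γ) * (a.out : Γ)⁻¹ * (u : Γ)⁻¹)) using 1
        group
      have := hfrob u hu _ (mul_mem (inv_mem a.out.2) b.out.2) key
      rw [← QuotientGroup.out_eq' a, ← QuotientGroup.out_eq' b, QuotientGroup.eq, Subgroup.mem_subgroupOf]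
      exact this
    have hconst : ∀ g : G, Φ ((g : Γ) * u) = Φ u := by
      intro g
      obtain ⟨a, ha⟩ := (Finite.injective_iff_surjective.mp hcinj) (QuotientGroup.mk g)
      have hr := Subgroup.mem_subgroupOf.mp (QuotientGroup.eq.mp ha)
      set w : Γ := (a.out : Γ) * u * (a.out : Γ)⁻¹ * (u : Γ)⁻¹
      change w⁻¹ * (g : Γ) ∈ N at hr
      have : (g : Γ) * u = ((⟨w * (w⁻¹ * (g : Γ)) * w⁻¹, hN.conj_mem _ hr w⟩ : N) : Γ) *
          ((a.out : Γ) * u * (a.out : Γ)⁻¹) := by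
        show _ = w * (w⁻¹ * (g : Γ)) * w⁻¹ * ((a.out : Γ) * u * (a.out : Γ)⁻¹)
        simp only [w]; group
      rw [this, hΦN, hΦc]
    have htot : ∑ g : G, Φ ((g : Γ) * u) = (Nat.card N : ℂ) * (Nat.card G : ℂ) := by
      simp only [hΦ]
      rw [Finset.sum_comm]
      have : ∀ n : N, ∑ g : G, F ((n : Γ) * ((g : Γ) * u)) = (Nat.card G : ℂ) := fun n => by
        rw [← CfsgLib.CharExtend.sum_coset_norm G χh χ hext (u : Γ)]
        refine Fintype.sum_equiv (Equiv.mulLeft (⟨(n : Γ), hNG n.2⟩ : G)) _ _ fun g => ?_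
        show F ((n : Γ) * ((g : Γ) * u)) = F ((n : Γ) * g * u)
        rw [mul_assoc]
      rw [Finset.sum_congr rfl (fun n _ => this n), Finset.sum_const, nsmul_eq_mul, Finset.card_univ, Nat.card_eq_fintype_card (α := N)]
    rw [Finset.sum_congr rfl (fun g _ => hconst g), Finset.sum_const, nsmul_eq_mul, Finset.card_univ,
      ← Nat.card_eq_fintype_card, mul_comm (Nat.card N : ℂ)] at htot
    exact mul_left_cancel₀ (natCast_card_ne_zero G) htot
  have hnormU : ∑ u : U, F u = (Nat.card N : ℂ) * ((e : ℂ) ^ 2 + (m : ℂ) - 1) := by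
    have hN0 : (Nat.card N : ℂ) ≠ 0 := natCast_card_ne_zero N
    apply mul_left_cancel₀ hN0
    have hl : (Nat.card N : ℂ) * ∑ u : U, F u = ∑ u : U, ∑ n : N, F ((n : Γ) * u) := by
      rw [Finset.sum_comm]
      have : ∀ n : N, ∑ u : U, F ((n : Γ) * u) = ∑ u : U, F u := fun n =>
        Fintype.sum_equiv (Equiv.mulLeft (⟨(n : Γ), hNU n.2⟩ : U)) _ _ fun u => rfl
      rw [Finset.sum_congr rfl (fun n _ => this n), Finset.sum_const, nsmul_eq_mul, Finset.card_univ,
        Nat.card_eq_fintype_card]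
    have hpt : ∀ u : U, ∑ n : N, F ((n : Γ) * u) =
        (Nat.card N : ℂ) + if u ∈ N.subgroupOf U then (Nat.card N : ℂ) * ((e : ℂ) ^ 2 - 1) else 0 := by
      intro u
      split_ifs with h
      · have hu : (u : Γ) ∈ N := h
        have h1 := sum_mul_conj_irr θ θ
        rw [if_pos rfl] at h1
        have : ∀ n : N, F ((n : Γ) * u) = (e : ℂ) ^ 2 *
            ((θ : N → ℂ) (n * ⟨u, hu⟩) * conj ((θ : N → ℂ) (n * ⟨u, hu⟩))) := fun n => by
          have h2 : (χh : Γ → ℂ) ((n : Γ) * u) = (e : ℂ) * (θ : N → ℂ) (n * ⟨u, hu⟩) :=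
            (hext ⟨_, hNG (mul_mem n.2 hu)⟩).trans (hχN (n * ⟨u, hu⟩))
          simp only [hF, h2, map_mul, map_natCast]
          ring
        rw [Finset.sum_congr rfl (fun n _ => this n), ← Finset.mul_sum,
          show ∑ n : N, (θ : N → ℂ) (n * ⟨u, hu⟩) * conj ((θ : N → ℂ) (n * ⟨u, hu⟩)) = (Nat.card N : ℂ) from
            (Equiv.sum_comp (Equiv.mulRight (⟨u, hu⟩ : N)) (fun n => (θ : N → ℂ) n * conj ((θ : N → ℂ) n))).trans h1]
        ring
      · rw [add_zero]
        exact hcoset u fun hG' => h (hUG _ u.2 hG')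
    have hcU : Nat.card U = m * Nat.card N := by
      rw [← hidx, ← Nat.card_congr eU.toEquiv, Subgroup.index_mul_card]
    rw [hl, Finset.sum_congr rfl (fun u _ => hpt u), Finset.sum_add_distrib, Finset.sum_const, nsmul_eq_mul,
      Finset.card_univ, ← Nat.card_eq_fintype_card, hcU, ← Finset.sum_filter, Finset.sum_const, nsmul_eq_mul]
    have hcM : (Finset.univ.filter fun u : U => u ∈ N.subgroupOf U).card = Nat.card N := by
      rw [← Nat.card_congr eU.toEquiv, Nat.card_eq_fintype_card, ← Fintype.card_subtype]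
    rw [hcM]
    push_cast
    ring
  have hsq : ∑ u : U, F u = (Nat.card U : ℂ) * ((∑ η ∈ s, a η ^ 2 : ℕ) : ℂ) := by
    have h1 : Cfsg.classInner φU φU = ((∑ η ∈ s, a η ^ 2 : ℕ) : ℂ) := by
      conv_lhs => arg 1; rw [show φU = fun u => ∑ η : Cfsg.IrrCharacter U, (a η : ℂ) * (η : U → ℂ) u from funext hexp]
      rw [classInner_sum, Nat.cast_sum, Finset.sum_subset (Finset.subset_univ s) (fun η _ hη => by
        rw [hout η hη]; simp)]
      refine Finset.sum_congr rfl fun η _ => ?_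
      rw [classInner_character_comm (isCharacter_irr η) hφ, ha]
      push_cast
      ring
    rw [← h1, Cfsg.classInner, ← mul_assoc, mul_inv_cancel₀ (natCast_card_ne_zero U), one_mul]
  refine int_lemma m e (by omega) s hscard a hsum ?_
  rw [hsq] at hnormU
  have hcU : (Nat.card U : ℂ) = (m : ℂ) * (Nat.card N : ℂ) := by
    rw [← hidx, ← Nat.card_congr eU.toEquiv, ← Nat.cast_mul, Subgroup.index_mul_card]
  rw [hcU] at hnormU
  have h : (m : ℂ) * ((∑ η ∈ s, a η ^ 2 : ℕ) : ℂ) + 1 = (e : ℂ) ^ 2 + (m : ℂ) := by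
    have := mul_left_cancel₀ (natCast_card_ne_zero N)
      (show (Nat.card N : ℂ) * ((m : ℂ) * ((∑ η ∈ s, a η ^ 2 : ℕ) : ℂ)) = (Nat.card N : ℂ) * ((e : ℂ) ^ 2 + (m : ℂ) - 1) by
        rw [← hnormU]; ring)
    linear_combination this
  exact_mod_cast h

end Cfsg.Agent.S4454
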