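import Cfsg.Statements.S4464
import Cfsg.Agent.Lib.Blocks.TIFixed
import Cfsg.Agent.Lib.Chars.Linear
import Cfsg.Agent.Lib.Chars.Kernel
import Cfsg.Agent.Lib.Chars.Central

set_option autoImplicit false
open Cfsg

namespace Cfsg.Agent.S4464

open scoped Pointwise ComplexConjugate
open CfsgLib.Chars CfsgLib.Blocks

universe u

theorem deg_le_sub {G : Type u} [Group G] [Finite G] (H : Subgroup G) {p : ℕ}
    (hb : ∀ χ : IrrCharacter G, charDegree (χ : G → ℂ) < p) (θ : IrrCharacter H) :
    charDegree (θ : H → ℂ) < p := by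
  classical
  haveI := Fintype.ofFinite G
  by_contra hlt
  push Not at hlt
  have hc := IsCharacter.indFun H (isCharacter_irr θ)
  have h0 : ∀ χ : IrrCharacter G, classInner (indFun H (θ : H → ℂ)) (χ : G → ℂ) = 0 := fun χ => by
    have hr := IsCharacter.restrict (isCharacter_irr χ) H
    rw [frobenius H (θ : H → ℂ) (IsCharacter.isClassFunction (isCharacter_irr χ)),
      classInner_character_comm (isCharacter_irr θ) hr]
    by_contra hne
    have h := charDegree_le_of_constituent hr θ hne
    have e : charDegree (fun x : H => (χ : G → ℂ) x) = charDegree (χ : G → ℂ) := by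
      simp [charDegree]
    have := hb χ
    omega
  have h1 : indFun H (θ : H → ℂ) 1 = 0 := by
    rw [classFunction_expand (IsCharacter.isClassFunction hc) 1]
    exact Finset.sum_eq_zero fun χ _ => by rw [h0 χ, zero_mul]
  rw [indFun_one] at h1
  exact mul_ne_zero (Nat.cast_ne_zero.mpr H.index_ne_zero_of_finite) (irr_one_ne_zero θ) h1

theorem comm_of_small {Q : Type u} [Group Q] [Finite Q] {p : ℕ} [Fact p.Prime] (hQ : IsPGroup p Q)
    (hb : ∀ χ : IrrCharacter Q, charDegree (χ : Q → ℂ) < p) : ∀ a b : Q, a * b = b * a := by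
  classical
  haveI := Fintype.ofFinite Q
  obtain ⟨k, hk⟩ := IsPGroup.iff_card.mp hQ
  have h1 : ∀ χ : IrrCharacter Q, charDegree (χ : Q → ℂ) = 1 := by
    intro χ
    obtain ⟨i, -, hi⟩ := (Nat.dvd_prime_pow (Fact.out : p.Prime)).mp (hk ▸ charDegree_dvd χ)
    rcases i with _ | i
    · simpa using hi
    · have := hb χ
      have h2 : p ≤ p ^ (i + 1) := Nat.le_self_pow (by omega) p
      omega
  have h2 := sum_deg_sq (G := Q)
  simp only [h1, Nat.cast_one, one_pow, Finset.sum_const, Finset.card_univ, smul_eq_mul,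
    nsmul_eq_mul, mul_one] at h2
  have h3 : Nat.card {χ : IrrCharacter Q // charDegree (χ : Q → ℂ) = 1} = Nat.card Q := by
    rw [Nat.card_congr (Equiv.subtypeUnivEquiv h1), Nat.card_eq_fintype_card]
    exact_mod_cast h2
  rw [card_linear] at h3
  have h4 := (commutator Q).card_mul_index
  rw [h3] at h4
  have h5 : commutator Q = ⊥ := Subgroup.card_eq_one.mp
    (Nat.eq_of_mul_eq_mul_right Nat.card_pos (h4.trans (one_mul _).symm))
  intro a b
  rw [← commutatorElement_eq_one_iff_mul_comm, ← Subgroup.mem_bot, ← h5]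
  exact Subgroup.commutator_mem_commutator (Subgroup.mem_top _) (Subgroup.mem_top _)

theorem normal_sylow (p : ℕ) [hp : Fact p.Prime] : ∀ (n : ℕ) (G : Type u) [Group G] [Finite G],
    Nat.card G = n → (∀ χ : IrrCharacter G, charDegree (χ : G → ℂ) < p) →
    ∀ P : Sylow p G, (P : Subgroup G).Normal := by
  classical
  intro n
  induction n using Nat.strong_induction_on with
  | _ n ih =>
    intro G _ _ hn hb P
    haveI := Fintype.ofFinite G
    have hab := comm_of_small P.2 (deg_le_sub (P : Subgroup G) hb)
    by_cases hz : ∃ x ∈ (P : Subgroup G), x ≠ 1 ∧ x ∈ Subgroup.center G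
    · obtain ⟨x, hxP, hx1, hxZ⟩ := hz
      set Z := Subgroup.zpowers x
      have hZP : Z ≤ (P : Subgroup G) := Subgroup.zpowers_le.mpr hxP
      have hZc : Z ≤ Subgroup.center G := Subgroup.zpowers_le.mpr hxZ
      haveI : Z.Normal := ⟨fun z hz g => by
        rwa [Subgroup.mem_center_iff.mp (hZc hz) g, mul_inv_cancel_right]⟩
      have hsurj := QuotientGroup.mk'_surjective Z
      have hlt : Nat.card (G ⧸ Z) < n := by
        rw [← hn, Subgroup.card_eq_card_quotient_mul_card_subgroup Z]
        exact lt_mul_of_one_lt_right Nat.card_pos (Z.one_lt_card_iff_ne_bot.mpr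
          (fun h => hx1 (Subgroup.zpowers_eq_bot.mp h)))
      have hN := ih _ hlt (G ⧸ Z) rfl (fun χ => by
        have h := hb ⟨_, isIrrCharacter_inflate Z χ⟩
        exact h) (P.mapSurjective hsurj)
      have e : (P : Subgroup G) = Subgroup.comap (QuotientGroup.mk' Z)
          (Subgroup.map (QuotientGroup.mk' Z) (P : Subgroup G)) := by
        rw [Subgroup.comap_map_eq_self]
        rwa [QuotientGroup.ker_mk']
      rw [Sylow.coe_mapSurjective] at hN
      rw [e]
      exact hN.comap _
    push Not at hz
    have hTI : ∀ g : G, g ∉ Subgroup.normalizer ((P : Subgroup G) : Set G) →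
        (P : Subgroup G) ⊓ (MulAut.conj g • (P : Subgroup G)) = ⊥ := by
      intro g hg
      by_contra hne
      obtain ⟨x, hx, hx1⟩ := (Subgroup.bot_or_exists_ne_one _).resolve_left hne
      obtain ⟨hxP, hxQ⟩ := Subgroup.mem_inf.mp hx
      set C := Subgroup.centralizer ({x} : Set G)
      have hlt : Nat.card C < n := by
        rw [← hn]
        refine lt_of_le_of_ne (Subgroup.card_le_card_group C) fun e => hz x hxP hx1 ?_
        have hC : C = ⊤ := Subgroup.eq_top_of_card_eq C e
        rw [Subgroup.mem_center_iff]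
        intro y
        exact Subgroup.mem_centralizer_singleton_iff.mp ((show y ∈ C by rw [hC]; exact Subgroup.mem_top y))
      have h1 : (P : Subgroup G) ≤ C := fun y hy =>
        Subgroup.mem_centralizer_singleton_iff.mpr
          (congrArg Subtype.val (hab ⟨y, hy⟩ ⟨x, hxP⟩))
      have hcoe : MulAut.conj g • (P : Subgroup G) = ((g • P : Sylow p G) : Subgroup G) :=
        Sylow.coe_subgroup_smul.symm
      have h2 : ((g • P : Sylow p G) : Subgroup G) ≤ C := by
        intro y hy
        rw [hcoe] at hxQ
        exact Subgroup.mem_centralizer_singleton_iff.mpr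
          (congrArg Subtype.val (comm_of_small (g • P).2
            (deg_le_sub ((g • P : Sylow p G) : Subgroup G) hb) ⟨y, hy⟩ ⟨x, hxQ⟩))
      have hN := ih _ hlt C rfl (deg_le_sub C hb)
      haveI := Sylow.unique_of_normal (P.subtype h1) (hN _)
      have := Sylow.subtype_injective (hP := h1) (hQ := h2)
        (Subsingleton.elim _ _)
      exact hg (Sylow.smul_eq_iff_mem_normalizer.mp this.symm)
    set N := Subgroup.normalizer ((P : Subgroup G) : Set G) with hN
    haveI : Fintype N := Fintype.ofFinite _
    by_cases hbot : Nat.card (P : Subgroup G) = 1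
    · rw [Subgroup.card_eq_one.mp hbot]; infer_instance
    obtain ⟨k, hk⟩ := IsPGroup.iff_card.mp P.2
    have hpP : p ≤ Nat.card (P : Subgroup G) := by
      rcases k with _ | k
      · exact absurd (by simpa using hk) hbot
      · rw [hk]; exact Nat.le_self_pow (by omega) p
    have hz0 : ∀ η : IrrCharacter G, η ≠ trivIrr G →
        classInner (indFun N (fun _ => (1 : ℂ))) (η : G → ℂ) = 0 := by
      intro η hη
      rw [frobenius N _ (IsCharacter.isClassFunction (isCharacter_irr η)), classInner_symm,
        CfsgLib.Blocks.TIFix.classInner_res_eq_zero P hTI N le_rfl η hη ((hb η).trans_le hpP),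
        map_zero]
    have h1 := classFunction_expand (indFun_isClassFunction N (fun _ => (1 : ℂ))) 1
    rw [Finset.sum_eq_single (trivIrr G)] at h1
    rotate_left
    · intro η _ hη
      rw [hz0 η hη, zero_mul]
    · simp
    rw [indFun_one, frobenius N _ (IsCharacter.isClassFunction (isCharacter_irr _))] at h1
    simp only [classInner, trivIrr, map_one, mul_one, Finset.sum_const, Finset.card_univ,
      nsmul_eq_mul, ← Nat.card_eq_fintype_card, inv_mul_cancel₀ (natCast_card_ne_zero N),
      Nat.cast_eq_one] at h1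
    exact Subgroup.normalizer_eq_top_iff.mp (Subgroup.index_eq_one.mp h1)

/-- Let p be a prime and G a finite group all of whose irreducible character degrees are less than p. Then G has a normal abelian Sylow p-subgroup. -/
theorem result {G : Type*} [Group G] [Finite G] (p : ℕ) (hp : p.Prime) (hb : ∀ χ : Cfsg.IrrCharacter G, Cfsg.charDegree (χ : G → ℂ) < p) : ∃ P : Subgroup G, P.Normal ∧ (∀ x ∈ P, ∀ y ∈ P, x * y = y * x) ∧ IsPGroup p P ∧ ¬ p ∣ P.index := by
  haveI := Fact.mk hp
  obtain ⟨P⟩ : Nonempty (Sylow p G) := inferInstance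
  haveI := normal_sylow p _ G rfl hb P
  refine ⟨P, inferInstance, fun x hx y hy => ?_, P.2, P.not_dvd_index⟩
  exact congrArg Subtype.val (comm_of_small P.2 (deg_le_sub (P : Subgroup G) hb) ⟨x, hx⟩ ⟨y, hy⟩)

end Cfsg.Agent.S4464
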