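import Cfsg.Statements.S4470
import Cfsg.Agent.Lib.Chars.Linear
import Cfsg.Agent.Lib.Chars.Kernel
import Cfsg.Agent.Lib.Chars.Induced

set_option autoImplicit false
open Cfsg

namespace Cfsg.Agent.S4470

open CfsgLib.Chars

open scoped ComplexConjugate

universe u

variable {G : Type u} [Group G] [Fintype G] {m : ℕ}

section Form

variable (ρ : Representation ℂ G (Fin m → ℂ))

/-- An invariant inner product. -/
noncomputable def hB (v w : Fin m → ℂ) : ℂ := ∑ g : G, ∑ i, conj (ρ g v i) * ρ g w i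

/-- The squared length. -/
noncomputable def hN (v : Fin m → ℂ) : ℝ := ∑ g : G, ∑ i, Complex.normSq (ρ g v i)

theorem hB_self (v : Fin m → ℂ) : hB ρ v v = (hN ρ v : ℂ) := by
  simp only [hB, hN, Complex.ofReal_sum, Complex.normSq_eq_conj_mul_self]

theorem hB_apply (x : G) (v w : Fin m → ℂ) : hB ρ (ρ x v) (ρ x w) = hB ρ v w := by
  refine Fintype.sum_equiv (Equiv.mulRight x) _ _ fun g => ?_
  simp only [Equiv.coe_mulRight, map_mul, Module.End.mul_apply]

theorem hN_apply (x : G) (v : Fin m → ℂ) : hN ρ (ρ x v) = hN ρ v := by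
  have h := hB_apply ρ x v v
  rw [hB_self, hB_self] at h
  exact_mod_cast h

theorem hB_smul (c d : ℂ) (v w : Fin m → ℂ) : hB ρ (c • v) (d • w) = conj c * d * hB ρ v w := by
  simp only [hB, map_smul, Pi.smul_apply, smul_eq_mul, map_mul, Finset.mul_sum]
  exact Finset.sum_congr rfl fun g _ => Finset.sum_congr rfl fun i _ => by ring

theorem hN_smul (c : ℂ) (v : Fin m → ℂ) : hN ρ (c • v) = Complex.normSq c * hN ρ v := by
  simp only [hN, map_smul, Pi.smul_apply, smul_eq_mul, map_mul, Finset.mul_sum]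

theorem hN_sub_le (v w : Fin m → ℂ) : hN ρ (v - w) ≤ 2 * hN ρ v + 2 * hN ρ w := by
  simp only [hN, map_sub, Pi.sub_apply, Finset.mul_sum, ← Finset.sum_add_distrib]
  refine Finset.sum_le_sum fun g _ => Finset.sum_le_sum fun i _ => ?_
  simp only [Complex.normSq_apply, Complex.sub_re, Complex.sub_im]
  nlinarith [sq_nonneg ((ρ g v i).re + (ρ g w i).re), sq_nonneg ((ρ g v i).im + (ρ g w i).im)]

theorem hN_nonneg (v : Fin m → ℂ) : 0 ≤ hN ρ v :=
  Finset.sum_nonneg fun _ _ => Finset.sum_nonneg fun _ _ => Complex.normSq_nonneg _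

theorem hN_pos {v : Fin m → ℂ} (hv : v ≠ 0) : 0 < hN ρ v := by
  refine lt_of_le_of_ne (hN_nonneg ρ v) fun h => hv ?_
  funext i
  have h1 := (Finset.sum_eq_zero_iff_of_nonneg
    fun _ _ => Finset.sum_nonneg fun _ _ => Complex.normSq_nonneg _).mp h.symm 1 (Finset.mem_univ _)
  have h2 := (Finset.sum_eq_zero_iff_of_nonneg fun _ _ => Complex.normSq_nonneg _).mp h1 i
    (Finset.mem_univ _)
  simpa using Complex.normSq_eq_zero.mp h2

theorem hN_sum {ι : Type*} (s : Finset ι) (f : ι → Fin m → ℂ)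
    (h : ∀ i ∈ s, ∀ j ∈ s, i ≠ j → hB ρ (f i) (f j) = 0) :
    hN ρ (∑ i ∈ s, f i) = ∑ i ∈ s, hN ρ (f i) := by
  apply Complex.ofReal_injective
  rw [Complex.ofReal_sum, ← hB_self]
  have e : hB ρ (∑ i ∈ s, f i) (∑ i ∈ s, f i) = ∑ i ∈ s, ∑ j ∈ s, hB ρ (f i) (f j) := by
    conv_rhs => rw [Finset.sum_comm]
    simp only [hB, map_sum, Finset.sum_apply, Finset.sum_mul, Finset.mul_sum]
    refine (Finset.sum_congr rfl fun g _ => Finset.sum_comm).trans (Finset.sum_comm.trans ?_)
    refine Finset.sum_congr rfl fun i _ => ?_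
    refine (Finset.sum_congr rfl fun g _ => Finset.sum_comm).trans Finset.sum_comm
  rw [e]
  refine Finset.sum_congr rfl fun i hi => ?_
  rw [Finset.sum_eq_single i (fun j hj hne => h i hi j hj (Ne.symm hne)) (fun h' => absurd hi h'),
    hB_self]

/-- Eigenvectors for different eigenvalues are orthogonal. -/
theorem hB_eigen {a : G} {v w : Fin m → ℂ} {μ ν : ℂ} (hv : ρ a v = μ • v) (hw : ρ a w = ν • w)
    (hμ : ‖μ‖ = 1) (hne : μ ≠ ν) : hB ρ v w = 0 := by
  by_contra h
  have e := hB_apply ρ a v w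
  rw [hv, hw, hB_smul] at e
  have h1 : conj μ * ν = 1 := mul_right_cancel₀ h (by rw [e, one_mul])
  have h2 : μ * conj μ = 1 := by
    rw [Complex.mul_conj, Complex.normSq_eq_norm_sq, hμ]
    simp
  apply hne
  calc μ = μ * (conj μ * ν) := by rw [h1, mul_one]
    _ = ν := by rw [← mul_assoc, h2, one_mul]

/-- Averaging projection on an eigenspace. -/
noncomputable def proj (a : G) (z : ℂ) (v : Fin m → ℂ) : Fin m → ℂ :=
  ((orderOf a : ℂ))⁻¹ • ∑ k ∈ Finset.range (orderOf a), (z⁻¹) ^ k • ρ (a ^ k) v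

theorem apply_proj {a : G} {z : ℂ} (hz : z ^ orderOf a = 1) (v : Fin m → ℂ) :
    ρ a (proj ρ a z v) = z • proj ρ a z v := by
  have hz0 : z ≠ 0 := by
    rintro rfl
    rw [zero_pow (orderOf_pos a).ne'] at hz
    exact zero_ne_one hz
  rw [proj, map_smul, map_sum, smul_comm]
  congr 1
  rw [Finset.smul_sum]
  have e : ∀ k, ρ a ((z⁻¹) ^ k • ρ (a ^ k) v) = z • ((z⁻¹) ^ (k + 1) • ρ (a ^ (k + 1)) v) := by
    intro k
    rw [map_smul, smul_smul, pow_succ', pow_succ' a, ← mul_assoc, mul_inv_cancel₀ hz0, one_mul,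
      map_mul]
    rfl
  rw [Finset.sum_congr rfl fun k _ => e k, ← Finset.smul_sum, ← Finset.smul_sum]
  congr 1
  have h1 := Finset.sum_range_succ' (fun k => (z⁻¹) ^ k • ρ (a ^ k) v) (orderOf a)
  have h2 := Finset.sum_range_succ (fun k => (z⁻¹) ^ k • ρ (a ^ k) v) (orderOf a)
  rw [h1] at h2
  simp only [inv_pow, hz, inv_one, pow_orderOf_eq_one, pow_zero, map_one, Module.End.one_apply,
    one_smul] at h2 ⊢
  exact add_right_cancel h2

theorem apply_pow_proj {a : G} {z : ℂ} {v : Fin m → ℂ} (h : ρ a v = z • v) (k : ℕ) :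
    ρ (a ^ k) v = z ^ k • v := by
  induction k with
  | zero => simp
  | succ k ih => rw [pow_succ, map_mul, Module.End.mul_apply, h, map_smul, ih, smul_smul, pow_succ,
      mul_comm]

theorem sum_proj {a : G} {ζ : ℂ} (hζ : IsPrimitiveRoot ζ (orderOf a)) (v : Fin m → ℂ) :
    ∑ j ∈ Finset.range (orderOf a), proj ρ a (ζ ^ j) v = v := by
  simp only [proj]
  rw [← Finset.smul_sum, Finset.sum_comm]
  have e : ∀ k ∈ Finset.range (orderOf a),
      ∑ j ∈ Finset.range (orderOf a), ((ζ ^ j)⁻¹) ^ k • ρ (a ^ k) v =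
        if k = 0 then (orderOf a : ℂ) • v else 0 := by
    intro k hk
    rw [← Finset.sum_smul]
    have e2 : ∀ j, ((ζ ^ j)⁻¹) ^ k = (ζ⁻¹ ^ k) ^ j := fun j => by
      rw [← inv_pow, ← pow_mul, ← pow_mul, mul_comm]
    simp only [e2]
    split_ifs with h0
    · subst h0; simp
    · rw [geom_sum_eq, ← pow_mul, mul_comm, pow_mul, inv_pow ζ (orderOf a), hζ.pow_eq_one]
      · simp
      · rw [inv_pow]
        intro h
        exact h0 (Nat.eq_zero_of_dvd_of_lt ((hζ.pow_eq_one_iff_dvd k).mp (inv_eq_one.mp h))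
          (Finset.mem_range.mp hk))
  rw [Finset.sum_congr rfl e, Finset.sum_ite_eq', if_pos (Finset.mem_range.mpr (orderOf_pos a)),
    smul_smul, inv_mul_cancel₀ (Nat.cast_ne_zero.mpr (orderOf_pos a).ne'), one_smul]

theorem proj_idem {a : G} {z : ℂ} (hz : z ^ orderOf a = 1) (v : Fin m → ℂ) :
    proj ρ a z (proj ρ a z v) = proj ρ a z v := by
  have hz0 : z ≠ 0 := by
    rintro rfl
    rw [zero_pow (orderOf_pos a).ne'] at hz
    exact zero_ne_one hz
  conv_lhs => rw [proj]
  rw [Finset.sum_congr rfl fun k _ => by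
    rw [apply_pow_proj ρ (apply_proj ρ hz v) k, smul_smul, ← mul_pow, inv_mul_cancel₀ hz0, one_pow,
      one_smul]]
  rw [Finset.sum_const, Finset.card_range, ← Nat.cast_smul_eq_nsmul ℂ, smul_smul,
    inv_mul_cancel₀ (Nat.cast_ne_zero.mpr (orderOf_pos a).ne'), one_smul]

/-- An element close to a scalar. -/
def Small (g : G) : Prop :=
  ∃ (c : ℂ) (r : ℝ), r < 1 / 4 ∧ 0 ≤ r ∧ ∀ v, hN ρ (ρ g v - c • v) ≤ r * hN ρ v

theorem small_conj {g : G} (h : Small ρ g) (x : G) : Small ρ (x * g * x⁻¹) := by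
  obtain ⟨c, r, hr, hr0, h⟩ := h
  refine ⟨c, r, hr, hr0, fun v => ?_⟩
  have hv : ρ x (ρ x⁻¹ v) = v := by rw [← Module.End.mul_apply, ← map_mul, mul_inv_cancel, map_one]; rfl
  have e : ρ (x * g * x⁻¹) v - c • v = ρ x (ρ g (ρ x⁻¹ v) - c • ρ x⁻¹ v) := by
    rw [map_sub, map_smul, hv]
    simp only [map_mul, Module.End.mul_apply]
  rw [e, hN_apply]
  exact (h _).trans (by rw [hN_apply])

/-- A conjugate commuting with `a` equals `a` for conjugation by a near scalar element. -/
theorem commute_step {a b : G} (hab : Commute a (b * a * b⁻¹)) {c : ℂ} {s : ℝ} (hs : s < 1)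
    (hb : ∀ v, hN ρ (ρ b v - c • v) ≤ s * hN ρ v) : ρ (a * b) = ρ (b * a) := by
  classical
  obtain ⟨ζ, hζ⟩ : ∃ ζ : ℂ, IsPrimitiveRoot ζ (orderOf a) :=
    ⟨_, Complex.isPrimitiveRoot_exp _ (orderOf_pos a).ne'⟩
  have hroot : ∀ j : ℕ, (ζ ^ j) ^ orderOf a = 1 := fun j => by
    rw [← pow_mul, mul_comm, pow_mul, hζ.pow_eq_one, one_pow]
  have hnorm : ∀ j : ℕ, ‖ζ ^ j‖ = 1 := fun j =>
    norm_eq_one_of_pow_eq_one (orderOf_pos a).ne' (hroot j)
  refine LinearMap.ext fun v => ?_
  rw [← sum_proj ρ hζ v, map_sum, map_sum]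
  refine Finset.sum_congr rfl fun i _ => ?_
  set w := proj ρ a (ζ ^ i) v
  have hw : ρ a w = (ζ ^ i) • w := apply_proj ρ (hroot i) v
  simp only [map_mul, Module.End.mul_apply]
  rw [hw, map_smul, ← sum_proj ρ hζ (ρ b w), map_sum, Finset.smul_sum]
  refine Finset.sum_congr rfl fun j _ => ?_
  set u := proj ρ a (ζ ^ j) (ρ b w) with hu
  have hua : ρ a u = (ζ ^ j) • u := apply_proj ρ (hroot j) _
  rw [hua]
  by_cases hij : ζ ^ j = ζ ^ i
  · rw [hij]
  suffices u = 0 by rw [this, smul_zero, smul_zero]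
  -- `u` stays in the eigenspace of the conjugate
  have hub : ρ (b * a * b⁻¹) u = (ζ ^ i) • u := by
    rw [hu, proj, map_smul, map_sum, smul_comm, Finset.smul_sum (r := ζ ^ i)]
    congr 1
    refine Finset.sum_congr rfl fun k _ => ?_
    rw [map_smul, smul_comm]
    congr 1
    have e1 : ρ (b * a * b⁻¹) (ρ b w) = (ζ ^ i) • ρ b w := by
      rw [← Module.End.mul_apply, ← map_mul, inv_mul_cancel_right, map_mul, Module.End.mul_apply, hw,
        map_smul]
    rw [← Module.End.mul_apply, ← map_mul, ((hab.pow_left k).symm).eq, map_mul, Module.End.mul_apply,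
      e1, map_smul]
  set v' := ρ b⁻¹ u
  have hbv : ρ b v' = u := by rw [← Module.End.mul_apply, ← map_mul, mul_inv_cancel, map_one]; rfl
  have hv' : ρ a v' = (ζ ^ i) • v' := by
    calc ρ a v' = ρ b⁻¹ (ρ (b * a * b⁻¹) u) := by
          simp only [v', ← Module.End.mul_apply, ← map_mul]
          congr 2
          group
      _ = _ := by rw [hub, map_smul]
  have horth : hB ρ v' u = 0 := hB_eigen ρ hv' hua (hnorm i) (Ne.symm hij)
  by_contra hune
  have hv'0 : v' ≠ 0 := fun e => hune (by rw [← hbv, e, map_zero])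
  have h1 := hb v'
  rw [hbv] at h1
  have h2 : hN ρ (u - c • v') = hN ρ u + Complex.normSq c * hN ρ v' := by
    have := hN_sum ρ (Finset.univ : Finset Bool) (fun t => if t then u else (-c) • v') (by
      have h3 : hB ρ v' u = 0 := horth
      have h4 : hB ρ u v' = 0 := by
        have : hB ρ u v' = conj (hB ρ v' u) := by
          simp only [hB, map_sum, map_mul, Complex.conj_conj]
          exact Finset.sum_congr rfl fun g _ => Finset.sum_congr rfl fun i _ => mul_comm _ _
        rw [this, h3, map_zero]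
      have h5 : hB ρ (1 • u) ((-c) • v') = 0 := by rw [one_smul, ← one_smul ℂ u, hB_smul, h4, mul_zero]
      have h6 : hB ρ ((-c) • v') (1 • u) = 0 := by rw [one_smul, ← one_smul ℂ u, hB_smul, h3, mul_zero]
      rw [one_smul] at h5 h6
      rintro (_|_) _ (_|_) _ h
      all_goals first | exact absurd rfl h | simpa using h5 | simpa using h6)
    simp only [Fintype.sum_bool, if_true, Bool.false_eq_true, if_false, neg_smul, ← sub_eq_add_neg]
      at this
    rw [this, ← neg_smul, hN_smul, Complex.normSq_neg]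
  rw [h2] at h1
  have h3 : hN ρ u = hN ρ v' := by rw [← hbv, hN_apply]
  have h4 := hN_pos ρ hv'0
  nlinarith [Complex.normSq_nonneg c]

/-- The commutator contracts. -/
theorem contract {a b : G} {c d : ℂ} {r s : ℝ} (hr : 0 ≤ r) (hs : 0 ≤ s)
    (ha : ∀ v, hN ρ (ρ a v - c • v) ≤ r * hN ρ v) (hb : ∀ v, hN ρ (ρ b v - d • v) ≤ s * hN ρ v)
    (v : Fin m → ℂ) :
    hN ρ (ρ (a * b * a⁻¹ * b⁻¹) v - (1 : ℂ) • v) ≤ 4 * r * s * hN ρ v := by
  set w := ρ (a⁻¹ * b⁻¹) v
  have e : ρ (a * b * a⁻¹ * b⁻¹) v - (1 : ℂ) • v =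
      (ρ a (ρ b w - d • w) - c • (ρ b w - d • w)) - (ρ b (ρ a w - c • w) - d • (ρ a w - c • w)) := by
    have h1 : ρ a (ρ b w) = ρ (a * b * a⁻¹ * b⁻¹) v := by
      simp only [w, ← Module.End.mul_apply, ← map_mul]
      congr 2
      group
    have h2 : ρ b (ρ a w) = v := by
      simp only [w, ← Module.End.mul_apply, ← map_mul]
      rw [show b * (a * (a⁻¹ * b⁻¹)) = 1 by group, map_one]
      rfl
    simp only [map_sub, map_smul, smul_sub, h1, h2, one_smul, smul_comm c d]
    abel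
  rw [e]
  refine (hN_sub_le ρ _ _).trans ?_
  have hw : hN ρ w = hN ρ v := hN_apply ρ _ v
  have h3 := (ha (ρ b w - d • w)).trans (mul_le_mul_of_nonneg_left (hb w) hr)
  have h4 := (hb (ρ a w - c • w)).trans (mul_le_mul_of_nonneg_left (ha w) hs)
  rw [hw] at h3 h4
  nlinarith

/-- Near scalar elements commute. -/
theorem small_commute (hker : ∀ g, ρ g = 1 → g = 1) {a b : G} (ha : Small ρ a) (hb : Small ρ b) :
    Commute a b := by
  classical
  obtain ⟨c, r, hr, hr0, ha⟩ := ha
  obtain ⟨d, s, hs, hs0, hb⟩ := hb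
  have main : ∀ (k : ℕ), ∀ (x : G) (e : ℂ) (t : ℝ), 0 ≤ t → t < 1 →
      (∀ v, hN ρ (ρ x v - e • v) ≤ t * hN ρ v) →
      (∀ y : G, (∀ v, hN ρ (ρ y v - (1 : ℂ) • v) ≤ (4 * r) ^ k * t * hN ρ v) → Commute a y) →
      Commute a x ∨ k = 0 := by
    intro k
    induction k with
    | zero => exact fun _ _ _ _ _ _ _ => Or.inr rfl
    | succ k ih =>
      intro x e t ht ht1 hx hend
      left
      have hy := contract ρ hr0 ht ha hx
      set y := a * x * a⁻¹ * x⁻¹
      have ht' : 4 * r * t < 1 := by nlinarith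
      have hay : Commute a y := by
        rcases Nat.eq_zero_or_pos k with rfl | hk
        · exact hend y fun v => by simpa using hy v
        · exact (ih y 1 (4 * r * t) (by positivity) ht' hy fun z hz => hend z fun v => by
            rw [pow_succ, mul_assoc ((4 * r) ^ k)]; exact hz v).resolve_right hk.ne'
      have h1 : Commute a (x * a * x⁻¹) := by
        have h2 : Commute a (y⁻¹ * a) := hay.inv_right.mul_right (Commute.refl a)
        rwa [show y⁻¹ * a = x * a * x⁻¹ by simp [y]; group] at h2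
      exact (commute_iff_eq _ _).mpr (by
        by_contra hne
        have h3 := commute_step ρ h1 ht1 hx
        refine hne (mul_inv_eq_one.mp (hker (a * x * (x * a)⁻¹) ?_))
        rw [map_mul, h3, ← map_mul, mul_inv_cancel, map_one])
  -- only the identity is close to the identity
  have hsmall : ∃ ε : ℝ, 0 < ε ∧ ∀ y : G, (∀ v, hN ρ (ρ y v - (1 : ℂ) • v) ≤ ε * hN ρ v) → y = 1 := by
    have hy : ∀ y : G, ∃ ε : ℝ, 0 < ε ∧
        ((∀ v, hN ρ (ρ y v - (1 : ℂ) • v) ≤ ε * hN ρ v) → y = 1) := by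
      intro y
      by_cases h1 : y = 1
      · exact ⟨1, one_pos, fun _ => h1⟩
      obtain ⟨v, hv⟩ : ∃ v, ρ y v ≠ v := by
        by_contra h
        push Not at h
        exact h1 (hker y (LinearMap.ext h))
      have hv0 : v ≠ 0 := fun e => hv (by rw [e, map_zero])
      have hp : 0 < hN ρ (ρ y v - (1 : ℂ) • v) := hN_pos ρ (by rwa [one_smul, sub_ne_zero])
      refine ⟨hN ρ (ρ y v - (1 : ℂ) • v) / (2 * hN ρ v), by have := hN_pos ρ hv0; positivity,
        fun h => absurd (h v) (not_le.mpr ?_)⟩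
      rw [div_mul_eq_mul_div, div_lt_iff₀ (by have := hN_pos ρ hv0; positivity)]
      nlinarith [hN_pos ρ hv0]
    choose ε hε hεy using hy
    refine ⟨Finset.univ.inf' Finset.univ_nonempty ε, (Finset.lt_inf'_iff _).mpr fun y _ => hε y,
      fun y h => hεy y fun v => (h v).trans ?_⟩
    exact mul_le_mul_of_nonneg_right (Finset.inf'_le _ (Finset.mem_univ y)) (hN_nonneg ρ v)
  obtain ⟨ε, hε, hone⟩ := hsmall
  obtain ⟨k, hk⟩ := exists_pow_lt_of_lt_one hε (show 4 * r < 1 by linarith)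
  refine (main (k + 1) b d s hs0 (by linarith) hb fun y hy => ?_).resolve_right (Nat.succ_ne_zero k)
  rw [hone y fun v => (hy v).trans (mul_le_mul_of_nonneg_right ?_ (hN_nonneg ρ v))]
  · exact Commute.one_right a
  · have h1 : (4 * r) ^ (k + 1) ≤ (4 * r) ^ k := by
      rw [pow_succ]; exact mul_le_of_le_one_right (by positivity) (by linarith)
    have h2 : (0 : ℝ) ≤ (4 * r) ^ (k + 1) := by positivity
    nlinarith

/-- Eigenvalues in a small disc give a small element. -/
theorem small_of_roots (g : G)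
    (h : ∀ ν : ℂ, ν ^ orderOf g = 1 → (∃ v, proj ρ g ν v ≠ 0) →
      Complex.normSq (ν - (Real.sqrt 3 / 2 : ℝ)) < 1 / 4) : Small ρ g := by
  classical
  obtain ⟨ζ, hζ⟩ : ∃ ζ : ℂ, IsPrimitiveRoot ζ (orderOf g) :=
    ⟨_, Complex.isPrimitiveRoot_exp _ (orderOf_pos g).ne'⟩
  have hroot : ∀ j : ℕ, (ζ ^ j) ^ orderOf g = 1 := fun j => by
    rw [← pow_mul, mul_comm, pow_mul, hζ.pow_eq_one, one_pow]
  set c : ℂ := ((Real.sqrt 3 / 2 : ℝ) : ℂ)
  set T := insert (0 : ℝ) (((Finset.range (orderOf g)).filter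
    (fun j => ∃ v, proj ρ g (ζ ^ j) v ≠ 0)).image fun j => Complex.normSq (ζ ^ j - c))
  have hT : T.Nonempty := Finset.insert_nonempty _ _
  refine ⟨c, T.max' hT, (Finset.max'_lt_iff _ _).mpr fun x hx => ?_,
    Finset.le_max' _ _ (Finset.mem_insert_self _ _), fun v => ?_⟩
  · rcases Finset.mem_insert.mp hx with rfl | hx
    · norm_num
    · obtain ⟨j, hj, rfl⟩ := Finset.mem_image.mp hx
      exact h _ (hroot j) (Finset.mem_filter.mp hj).2
  set f := fun j => proj ρ g (ζ ^ j) v
  have horth : ∀ i ∈ Finset.range (orderOf g), ∀ j ∈ Finset.range (orderOf g), i ≠ j →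
      hB ρ (f i) (f j) = 0 := fun i hi j hj hij =>
    hB_eigen ρ (apply_proj ρ (hroot i) v) (apply_proj ρ (hroot j) v)
      (norm_eq_one_of_pow_eq_one (orderOf_pos g).ne' (hroot i))
      fun e => hij (hζ.pow_inj (Finset.mem_range.mp hi) (Finset.mem_range.mp hj) e)
  have hsum : v = ∑ j ∈ Finset.range (orderOf g), f j := (sum_proj ρ hζ v).symm
  have e : ρ g v - c • v = ∑ j ∈ Finset.range (orderOf g), (ζ ^ j - c) • f j := by
    rw [hsum, map_sum, Finset.smul_sum, ← Finset.sum_sub_distrib]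
    exact Finset.sum_congr rfl fun j _ => by rw [apply_proj ρ (hroot j) v, sub_smul]
  rw [e, hN_sum ρ _ _ (fun i hi j hj hij => by rw [hB_smul, horth i hi j hj hij, mul_zero])]
  conv_rhs => rw [hsum, hN_sum ρ _ _ horth, Finset.mul_sum]
  refine Finset.sum_le_sum fun j hj => ?_
  rw [hN_smul]
  by_cases hj0 : f j = 0
  · rw [hj0]; simp [hN]
  refine mul_le_mul_of_nonneg_right (Finset.le_max' _ _ (Finset.mem_insert_of_mem ?_)) (hN_nonneg ρ _)
  exact Finset.mem_image.mpr ⟨j, Finset.mem_filter.mpr ⟨hj, v, hj0⟩, rfl⟩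

end Form

/-- Characters of abelian groups are sums of homomorphisms. -/
theorem exists_hom_list {H : Type u} [Group H] [Finite H] (hcomm : ∀ a b : H, a * b = b * a)
    {φ : H → ℂ} (hφ : IsCharacter H φ) :
    ∃ l : List (H →* ℂˣ), ∀ h, φ h = (l.map (fun f => ((f h : ℂˣ) : ℂ))).sum := by
  obtain ⟨l, rfl⟩ := exists_list_irr hφ
  clear hφ
  induction l with
  | nil => exact ⟨[], fun h => by simp⟩
  | cons θ t ih =>
    obtain ⟨l', hl'⟩ := ih
    haveI : IsMulCommutative H := ⟨⟨hcomm⟩⟩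
    obtain ⟨f, hf⟩ := IsCharacter.exists_hom (isCharacter_irr θ) (by
      obtain ⟨k, σ, hσ, e⟩ := θ.2
      haveI := hσ
      rw [← e, Representation.char_one,
        Representation.IsIrreducible.finrank_eq_one_of_isMulCommutative σ]
      simp)
    exact ⟨f :: l', fun h => by rw [List.map_cons, List.sum_cons, Pi.add_apply, hl' h, hf]; simp⟩

/-- An eigenvalue is a value of one of the homomorphisms. -/
theorem exists_root_mem (ρ : Representation ℂ G (Fin m → ℂ)) {H : Subgroup G}
    {l : List (H →* ℂˣ)} (hl : ∀ h : H, ρ.character h = (l.map (fun f => ((f h : ℂˣ) : ℂ))).sum)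
    (h : H) (ν : ℂ) (hν : ν ^ orderOf (h : G) = 1) (hne : ∃ v, proj ρ (h : G) ν v ≠ 0) :
    ∃ f ∈ l, ((f h : ℂˣ) : ℂ) = ν := by
  classical
  by_contra hno
  push Not at hno
  set n := orderOf (h : G)
  have hn0 : ν ≠ 0 := by
    rintro rfl
    rw [zero_pow (orderOf_pos (h : G)).ne'] at hν
    exact zero_ne_one hν
  let P : (Fin m → ℂ) →ₗ[ℂ] (Fin m → ℂ) :=
    ((n : ℂ))⁻¹ • ∑ k ∈ Finset.range n, (ν⁻¹) ^ k • ρ ((h : G) ^ k)
  have hP : ∀ v, P v = proj ρ (h : G) ν v := fun v => by simp [P, proj, n]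
  have hproj : LinearMap.IsProj (LinearMap.range P) P :=
    ⟨fun v => LinearMap.mem_range_self P v, by
      rintro _ ⟨v, rfl⟩; rw [hP, hP, proj_idem ρ hν]⟩
  have htr : LinearMap.trace ℂ (Fin m → ℂ) P = 0 := by
    simp only [P, map_smul, map_sum]
    refine smul_eq_zero_of_right _ ?_
    have e : ∀ k, LinearMap.trace ℂ (Fin m → ℂ) (ρ ((h : G) ^ k)) =
        (l.map (fun f => ((f h : ℂˣ) : ℂ) ^ k)).sum := fun k => by
      have := hl (h ^ k)
      simpa [Representation.character, map_pow] using this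
    simp only [e, smul_eq_mul]
    clear e hl hP hproj
    induction l with
    | nil => simp
    | cons f t ih =>
      simp only [List.map_cons, List.sum_cons, mul_add, Finset.sum_add_distrib]
      rw [ih (fun g hg => hno g (List.mem_cons_of_mem _ hg)), add_zero]
      simp only [← mul_pow]
      have hx : ν⁻¹ * ((f h : ℂˣ) : ℂ) ≠ 1 := fun e => hno f List.mem_cons_self (by
        rw [← mul_one ν, ← e, mul_inv_cancel_left₀ hn0])
      rw [geom_sum_eq hx, mul_pow, inv_pow, hν, inv_one, one_mul, ← Units.val_pow_eq_pow_val,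
        ← map_pow]
      rw [show h ^ n = 1 from Subtype.ext (by rw [Subgroup.coe_pow]; exact pow_orderOf_eq_one _),
        map_one]
      simp
  rw [hproj.trace, Nat.cast_eq_zero, Submodule.finrank_eq_zero, LinearMap.range_eq_bot] at htr
  obtain ⟨v, hv⟩ := hne
  exact hv (by rw [← hP, htr]; rfl)

/-- Twelve sectors. -/
noncomputable def sector (z : ℂ) : Fin 12 :=
  ⟨(⌈(z.arg + Real.pi) / (Real.pi / 6)⌉.toNat - 1) % 12, Nat.mod_lt _ (by norm_num)⟩

theorem sector_close {a b : ℂ} (ha : ‖a‖ = 1) (hb : ‖b‖ = 1) (h : sector a = sector b) :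
    Complex.normSq (a⁻¹ * b - (Real.sqrt 3 / 2 : ℝ)) < 1 / 4 := by
  have hπ := Real.pi_pos
  have hceil : ∀ z : ℂ, 1 ≤ ⌈(z.arg + Real.pi) / (Real.pi / 6)⌉ ∧
      ⌈(z.arg + Real.pi) / (Real.pi / 6)⌉ ≤ 12 := fun z => by
    have h1 := Complex.neg_pi_lt_arg z
    have h2 := Complex.arg_le_pi z
    constructor
    · exact Int.one_le_ceil_iff.mpr (div_pos (by linarith) (by positivity))
    · rw [Int.ceil_le, div_le_iff₀ (by positivity)]
      push_cast
      linarith
  have hk : ⌈(a.arg + Real.pi) / (Real.pi / 6)⌉ = ⌈(b.arg + Real.pi) / (Real.pi / 6)⌉ := by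
    have := congrArg Fin.val h
    simp only [sector] at this
    have := hceil a
    have := hceil b
    omega
  have habs : |b.arg - a.arg| < Real.pi / 6 := by
    have h1 := Int.le_ceil ((a.arg + Real.pi) / (Real.pi / 6))
    have h2 := Int.ceil_lt_add_one ((a.arg + Real.pi) / (Real.pi / 6))
    have h3 := Int.le_ceil ((b.arg + Real.pi) / (Real.pi / 6))
    have h4 := Int.ceil_lt_add_one ((b.arg + Real.pi) / (Real.pi / 6))
    rw [hk] at h1 h2
    set K : ℝ := (⌈(b.arg + Real.pi) / (Real.pi / 6)⌉ : ℝ)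
    have hp6 : 0 < Real.pi / 6 := by positivity
    rw [div_le_iff₀ hp6] at h1 h3
    rw [← sub_lt_iff_lt_add, lt_div_iff₀ hp6] at h2 h4
    rw [abs_lt]
    constructor <;> nlinarith
  have hcos : Real.sqrt 3 / 2 < Real.cos (b.arg - a.arg) := by
    rw [← Real.cos_pi_div_six, ← Real.cos_abs (b.arg - a.arg)]
    exact Real.cos_lt_cos_of_nonneg_of_le_pi (abs_nonneg _) (by linarith) habs
  have ha0 : a ≠ 0 := fun e => by simp [e] at ha
  have hb0 : b ≠ 0 := fun e => by simp [e] at hb
  rw [Real.cos_sub, Complex.cos_arg ha0, Complex.cos_arg hb0, Complex.sin_arg, Complex.sin_arg, ha,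
    hb] at hcos
  simp only [div_one] at hcos
  rw [Complex.inv_eq_conj ha]
  have hna : a.re * a.re + a.im * a.im = 1 := by
    rw [← Complex.normSq_apply, Complex.normSq_eq_norm_sq, ha, one_pow]
  have hnb : b.re * b.re + b.im * b.im = 1 := by
    rw [← Complex.normSq_apply, Complex.normSq_eq_norm_sq, hb, one_pow]
  have hs : Real.sqrt 3 * Real.sqrt 3 = 3 := Real.mul_self_sqrt (by norm_num)
  have hs0 : 0 < Real.sqrt 3 := by positivity
  simp only [Complex.normSq_apply, Complex.sub_re, Complex.sub_im, Complex.mul_re, Complex.mul_im,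
    Complex.conj_re, Complex.conj_im, Complex.ofReal_re, Complex.ofReal_im]
  have key : (a.re * b.re + a.im * b.im) ^ 2 + (a.re * b.im - a.im * b.re) ^ 2 = 1 := by
    calc _ = (a.re * a.re + a.im * a.im) * (b.re * b.re + b.im * b.im) := by ring
      _ = 1 := by rw [hna, hnb, one_mul]
  nlinarith [mul_pos hs0 (show 0 < b.re * a.re + b.im * a.im - Real.sqrt 3 / 2 by linarith)]

/-- Let the finite group G have a faithful character of degree n. Then G has an abelian normal subgroup A such that every abelian subgroup H of G satisfies [H : H ⊓ A] ≤ 12^n. -/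
theorem result {G : Type*} [Group G] [Finite G] (χ : G → ℂ) (hχ : Cfsg.IsCharacter G χ) (hfaith : ∀ g : G, χ g = χ 1 → g = 1) (n : ℕ) (hn : Cfsg.charDegree χ = n) : ∃ A : Subgroup G, A.Normal ∧ (∀ x ∈ A, ∀ y ∈ A, x * y = y * x) ∧ ∀ H : Subgroup G, (∀ x ∈ H, ∀ y ∈ H, x * y = y * x) → (A.subgroupOf H).index ≤ 12 ^ n := by
  classical
  haveI : Fintype G := Fintype.ofFinite G
  obtain ⟨m, ρ, rfl⟩ := hχ
  set T : Set G := {g | Small ρ g}
  set A := Subgroup.closure T
  have hTn : ∀ g ∈ T, ∀ x : G, x * g * x⁻¹ ∈ T := fun g hg x => small_conj ρ hg x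
  have hTc : ∀ a ∈ T, ∀ b ∈ T, Commute a b := by
    intro a ha b hb
    refine small_commute ρ (fun g hg => ?_) ha hb
    exact hfaith g ((character_eq_degree_iff ρ g).mpr hg)
  refine ⟨A, ?_, ?_, ?_⟩
  · refine ⟨fun a ha x => ?_⟩
    induction ha using Subgroup.closure_induction with
    | mem g hg => exact Subgroup.subset_closure (hTn g hg x)
    | one => simp
    | mul a b _ _ h₁ h₂ =>
      rw [show x * (a * b) * x⁻¹ = (x * a * x⁻¹) * (x * b * x⁻¹) by group]
      exact mul_mem h₁ h₂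
    | inv a _ h =>
      rw [show x * a⁻¹ * x⁻¹ = (x * a * x⁻¹)⁻¹ by group]
      exact inv_mem h
  · intro a ha b hb
    have h1 : ∀ s ∈ T, ∀ b ∈ A, Commute s b := fun s hs b hb => by
      induction hb using Subgroup.closure_induction with
      | mem g hg => exact hTc s hs g hg
      | one => exact Commute.one_right _
      | mul a b _ _ h₁ h₂ => exact h₁.mul_right h₂
      | inv a _ h => exact h.inv_right
    induction ha using Subgroup.closure_induction with
    | mem g hg => exact h1 g hg b hb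
    | one => simp
    | mul a c _ _ h₁ h₂ => exact (Commute.mul_left (h₁ : Commute a b) (h₂ : Commute c b)).eq
    | inv a _ h => exact (Commute.inv_left (h : Commute a b)).eq
  · intro H hH
    haveI : Fintype H := Fintype.ofFinite H
    obtain ⟨l, hl⟩ := exists_hom_list (H := H) (fun a b => Subtype.ext (hH a a.2 b b.2))
      (IsCharacter.restrict (isCharacter_character ρ) H)
    have hlen : l.length = n := by
      have h := hl 1
      simp only [Subgroup.coe_one, map_one, Units.val_one, List.map_const', List.sum_replicate,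
        nsmul_eq_mul, mul_one] at h
      have h2 : charDegree ρ.character = l.length := by
        rw [charDegree, h]
        simp
      omega
    let F : H → (Fin l.length → Fin 12) := fun h i => sector ((l[i] h : ℂˣ) : ℂ)
    have key : ∀ a b : H, F a = F b → a⁻¹ * b ∈ A.subgroupOf H := by
      intro a b hab
      refine Subgroup.subset_closure (small_of_roots ρ _ fun ν hν hne => ?_)
      obtain ⟨f, hf, hfν⟩ := exists_root_mem ρ hl (a⁻¹ * b) ν hν hne
      obtain ⟨i, hi, rfl⟩ := List.getElem_of_mem hf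
      rw [← hfν, map_mul, map_inv, Units.val_mul, Units.val_inv_eq_inv_val]
      refine sector_close ?_ ?_ (congrFun hab ⟨i, hi⟩)
      · exact norm_eq_one_of_pow_eq_one (orderOf_pos a).ne'
          (by rw [← Units.val_pow_eq_pow_val, ← map_pow, pow_orderOf_eq_one, map_one, Units.val_one])
      · exact norm_eq_one_of_pow_eq_one (orderOf_pos b).ne'
          (by rw [← Units.val_pow_eq_pow_val, ← map_pow, pow_orderOf_eq_one, map_one, Units.val_one])
    have hinj : Function.Injective fun q : H ⧸ A.subgroupOf H => F q.out := by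
      intro q q' h
      rw [← Quotient.out_eq q, ← Quotient.out_eq q']
      exact (QuotientGroup.eq.mpr (key _ _ h))
    have := Nat.card_le_card_of_injective _ hinj
    rw [Subgroup.index_eq_card]
    simpa [Nat.card_eq_fintype_card, hlen] using this

end Cfsg.Agent.S4470
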