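import Cfsg.Statements.S4474
import Cfsg.Agent.Lib.Chars.RealRep
import Cfsg.Agent.Lib.Chars.IndicatorBound

set_option autoImplicit false
open Cfsg

namespace Cfsg.Agent.S4474

open CfsgLib.Chars CfsgLib.Chars.RealRep
open scoped ComplexConjugate
open Matrix

/-- Let χ be an irreducible character of the finite group G. Then the Frobenius–Schur indicator of χ (the average over s ∈ G of χ(s²)) equals 1 if and only if χ is afforded by a real representation: there is a representation of G on a real coordinate space whose trace function, viewed in ℂ, is χ. -/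
theorem result {G : Type*} [Group G] [Fintype G] (χ : Cfsg.IrrCharacter G) : ((Nat.card G : ℂ)⁻¹ * ∑ s : G, (χ : G → ℂ) (s * s)) = 1 ↔ ∃ (n : ℕ) (ρ : Representation ℝ G (Fin n → ℝ)), ∀ g : G, ((LinearMap.trace ℝ (Fin n → ℝ) (ρ g) : ℝ) : ℂ) = (χ : G → ℂ) g := by
  classical
  constructor
  · intro hν
    obtain ⟨n, ρ, hirr, hc⟩ := χ.2
    have hn : n ≠ 0 := by
      intro h0
      haveI := ((isIrreducible_iff ρ).mp hirr).1
      subst h0
      exact not_subsingleton (Fin 0 → ℂ) inferInstance
    obtain ⟨ν, h1, -, h3⟩ := CfsgLib.GroupB.Indicator.indicator_cases χ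
    simp only [pow_two] at h1
    rw [hν] at h1
    have hreal := h3 (fun h => one_ne_zero (by rw [h1, h, Int.cast_zero]))
    obtain ⟨M, hM0, hM⟩ := exists_invariant (mat ρ) (by
      simp only [trace_mat, hc]
      have h := sum_mul_conj_irr χ χ
      rw [if_pos rfl, Finset.sum_congr rfl (g := fun g => (χ : G → ℂ) g * (χ : G → ℂ) g)
        (fun g _ => by rw [Complex.conj_eq_iff_im.mpr (hreal g)])] at h
      rw [h]
      exact natCast_card_ne_zero G)
    have hsym := transpose_eq_indicator (mat ρ) (scalars_of_irreducible ρ hirr) hM hn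
    simp only [trace_mat, hc] at hsym
    rw [hν, one_smul] at hsym
    obtain ⟨B, hB⟩ := exists_real (mat ρ) (scalars_of_irreducible ρ hirr) hM hM0 hsym
    refine ⟨n, (Matrix.toLinAlgEquiv' (R := ℝ) (n := Fin n)).toMonoidHom.comp B, fun g => ?_⟩
    have e : ((Matrix.toLinAlgEquiv' (R := ℝ) (n := Fin n)).toMonoidHom.comp B) g =
        Matrix.toLin' (B g) := rfl
    rw [e, LinearMap.trace_eq_matrix_trace ℝ (Pi.basisFun ℝ (Fin n)),
      LinearMap.toMatrix_eq_toMatrix', LinearMap.toMatrix'_toLin', hB, trace_mat, hc]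
  · rintro ⟨n, ρ, hρ⟩
    let B : G →* Matrix (Fin n) (Fin n) ℝ :=
      { toFun := fun g => LinearMap.toMatrix' (ρ g)
        map_one' := by rw [map_one]; exact LinearMap.toMatrix'_one
        map_mul' := fun g h => by rw [map_mul]; exact LinearMap.toMatrix'_mul _ _ }
    let A : G →* Matrix (Fin n) (Fin n) ℂ := Complex.ofRealHom.mapMatrix.toMonoidHom.comp B
    have htr : ∀ g, (A g).trace = (χ : G → ℂ) g := by
      intro g
      rw [← hρ g, LinearMap.trace_eq_matrix_trace ℝ (Pi.basisFun ℝ (Fin n)),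
        LinearMap.toMatrix_eq_toMatrix']
      simp [A, B, Matrix.trace, Complex.ofReal_sum]
    let σ : Representation ℂ G (Fin n → ℂ) :=
      (Matrix.toLinAlgEquiv' (R := ℂ) (n := Fin n)).toMonoidHom.comp A
    have hσA : ∀ g, mat σ g = A g := fun g => by
      show LinearMap.toMatrix' (Matrix.toLin' (A g)) = _
      rw [LinearMap.toMatrix'_toLin']
    have hσ : σ.character = (χ : G → ℂ) := by
      funext g
      rw [← trace_mat, hσA, htr]
    have hirr : σ.IsIrreducible := isIrreducible_of_character (hσ ▸ χ.2)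
    have hn : n ≠ 0 := by
      intro h0
      haveI := ((isIrreducible_iff σ).mp hirr).1
      subst h0
      exact not_subsingleton (Fin 0 → ℂ) inferInstance
    -- the averaged real form
    set S : Matrix (Fin n) (Fin n) ℝ := ∑ g : G, (B g)ᵀ * B g with hS
    have hSinv : ∀ g, (B g)ᵀ * S * B g = S := by
      intro g
      rw [hS, Finset.mul_sum, Finset.sum_mul]
      refine Fintype.sum_equiv (Equiv.mulRight g) _ _ fun h => ?_
      rw [Equiv.coe_mulRight, map_mul, transpose_mul]
      simp only [Matrix.mul_assoc]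
    have hS0 : S ≠ 0 := by
      intro h0
      have hz : ∑ g : G, ∑ i, (B g i ⟨0, Nat.pos_of_ne_zero hn⟩) ^ 2 = 0 := by
        have := congrArg (fun X : Matrix (Fin n) (Fin n) ℝ =>
          X ⟨0, Nat.pos_of_ne_zero hn⟩ ⟨0, Nat.pos_of_ne_zero hn⟩) h0
        simpa [hS, Matrix.sum_apply, Matrix.mul_apply, sq] using this
      rw [Finset.sum_eq_zero_iff_of_nonneg
        (fun g _ => Finset.sum_nonneg fun i _ => sq_nonneg _)] at hz
      have h1 := hz 1 (Finset.mem_univ _)
      rw [Finset.sum_eq_zero_iff_of_nonneg (fun i _ => sq_nonneg _)] at h1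
      have h2 := h1 ⟨0, Nat.pos_of_ne_zero hn⟩ (Finset.mem_univ _)
      rw [map_one] at h2
      simp at h2
    set Mc : Matrix (Fin n) (Fin n) ℂ := Complex.ofRealHom.mapMatrix S with hMc
    have hMinv : ∀ g, (mat σ g)ᵀ * Mc * mat σ g = Mc := by
      intro g
      rw [hσA]
      have e : (A g)ᵀ = Complex.ofRealHom.mapMatrix (B g)ᵀ := rfl
      rw [e, hMc, show A g = Complex.ofRealHom.mapMatrix (B g) from rfl, ← map_mul, ← map_mul, hSinv]
    have hsym : Mcᵀ = Mc := by
      rw [hMc, show (Complex.ofRealHom.mapMatrix S)ᵀ = Complex.ofRealHom.mapMatrix Sᵀ from rfl]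
      congr 1
      simp [hS, Matrix.transpose_sum]
    have hMc0 : Mc ≠ 0 := fun h => hS0 (Matrix.map_injective Complex.ofReal_injective
      (h.trans (map_zero Complex.ofRealHom.mapMatrix).symm))
    have h := transpose_eq_indicator (mat σ) (scalars_of_irreducible σ hirr) hMinv hn
    simp only [trace_mat, hσ] at h
    rw [hsym] at h
    by_contra hne
    apply hMc0
    have h' : (((Nat.card G : ℂ)⁻¹ * ∑ s : G, (χ : G → ℂ) (s * s)) - 1) • Mc = 0 := by
      rw [sub_smul, one_smul, ← h, sub_self]
    exact (smul_eq_zero.mp h').resolve_left (sub_ne_zero.mpr hne)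

end Cfsg.Agent.S4474
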