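import Cfsg.Statements.S4475
import Cfsg.Agent.Lib.Chars.RealRep

set_option autoImplicit false
open Cfsg

namespace Cfsg.Agent.S4475

open CfsgLib.Chars CfsgLib.Chars.RealRep
open scoped ComplexConjugate
open Matrix

/-- Let ρ be an irreducible representation of the finite group G on the coordinate space Fin n → ℂ whose character χ is real-valued, and let ν be the Frobenius–Schur indicator of χ (the average of χ(s²)). Writing X(g) for the matrix of ρ(g), there is a nonzero matrix M with X(g)ᵀ M X(g) = M for all g ∈ G; and every such M (zero or not) satisfies Mᵀ = ν·M. -/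
theorem result {G : Type*} [Group G] [Fintype G] (n : ℕ) (ρ : Representation ℂ G (Fin n → ℂ)) (hirr : ρ.IsIrreducible) (hreal : ∀ g : G, (ρ.character g).im = 0) : (∃ M : Matrix (Fin n) (Fin n) ℂ, M ≠ 0 ∧ ∀ g : G, (LinearMap.toMatrix' (ρ g)).transpose * M * LinearMap.toMatrix' (ρ g) = M) ∧ ∀ M : Matrix (Fin n) (Fin n) ℂ, (∀ g : G, (LinearMap.toMatrix' (ρ g)).transpose * M * LinearMap.toMatrix' (ρ g) = M) → M.transpose = ((Nat.card G : ℂ)⁻¹ * ∑ s : G, ρ.character (s * s)) • M := by
  classical
  have hn : n ≠ 0 := by
    intro h0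
    haveI := ((isIrreducible_iff ρ).mp hirr).1
    subst h0
    exact not_subsingleton (Fin 0 → ℂ) inferInstance
  let χ : IrrCharacter G := ⟨_, isIrrCharacter_character ρ hirr⟩
  refine ⟨?_, fun M hM => ?_⟩
  · refine exists_invariant (mat ρ) ?_
    simp only [trace_mat]
    have h := sum_mul_conj_irr χ χ
    rw [if_pos rfl, Finset.sum_congr rfl (g := fun g => ρ.character g * ρ.character g)
      (fun g _ => by rw [show conj ((χ : G → ℂ) g) = ρ.character g from
        Complex.conj_eq_iff_im.mpr (hreal g)])] at h
    rw [h]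
    exact natCast_card_ne_zero G
  · have h := transpose_eq_indicator (mat ρ) (scalars_of_irreducible ρ hirr) hM hn
    simp only [trace_mat] at h
    exact h

end Cfsg.Agent.S4475
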