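import Cfsg.Statements.S4476
import Cfsg.Agent.Lib.Chars.IndicatorBound
import Cfsg.Agent.Lib.Blocks.Core
import Mathlib.Algebra.Order.Chebyshev

set_option autoImplicit false
open Cfsg

namespace Cfsg.Agent.S4476

open CfsgLib.Chars CfsgLib.Blocks

/-- Let G be a finite group of even order g with exactly t involutions, and put α = (g − 1)/t (a rational number). Then (a) some non-identity element x of G has at most α² conjugates; and (b) some non-principal real-valued irreducible character of G has degree at most α. -/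
theorem result {G : Type*} [Group G] [Fintype G] (heven : Even (Nat.card G)) (t : ℕ) (ht : Nat.card {x : G // orderOf x = 2} = t) : (∃ x : G, x ≠ 1 ∧ ((Subgroup.centralizer ({x} : Set G)).index : ℚ) ≤ (((Nat.card G : ℚ) - 1) / t) ^ 2) ∧ ∃ χ : Cfsg.IrrCharacter G, (χ : G → ℂ) ≠ (fun _ => 1) ∧ (∀ g : G, ((χ : G → ℂ) g).im = 0) ∧ (Cfsg.charDegree (χ : G → ℂ) : ℚ) ≤ ((Nat.card G : ℚ) - 1) / t := by
  classical
  set g : ℕ := Nat.card G with hg
  have hdvd : 2 ∣ Nat.card G := heven.two_dvd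
  obtain ⟨y, hy⟩ := exists_prime_orderOf_dvd_card' 2 hdvd
  have htpos : 0 < t := by
    rw [← ht]
    haveI : Nonempty {x : G // orderOf x = 2} := ⟨⟨y, hy⟩⟩
    exact Nat.card_pos
  have hg2 : (1 : ℚ) < (Nat.card G : ℚ) := by
    exact_mod_cast Nat.lt_of_lt_of_le Nat.one_lt_two (Nat.le_of_dvd Nat.card_pos hdvd)
  obtain ⟨ν, hν, hsum⟩ := CfsgLib.GroupB.Indicator.exists_indicator_sum (G := G)
  have hνb : ∀ χ : Cfsg.IrrCharacter G, |ν χ| ≤ 1 ∧
      (ν χ ≠ 0 → ∀ x : G, ((χ : G → ℂ) x).im = 0) := by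
    intro χ
    obtain ⟨z, hz, h1, h2⟩ := CfsgLib.GroupB.Indicator.indicator_cases χ
    rw [show ν χ = z from Int.cast_injective (α := ℂ) ((hν χ).trans hz)]
    exact ⟨h1, h2⟩
  set one : Cfsg.IrrCharacter G := trivIrr G with hone
  have hν1 : ν one = 1 := Int.cast_injective (α := ℂ) (by
    rw [hν, hone]
    simp [trivIrr])
  have hd1 : Cfsg.charDegree (one : G → ℂ) = 1 := by simp [hone, trivIrr, Cfsg.charDegree]
  have hcount : Nat.card {x : G // x ^ 2 = 1} = t + 1 := by
    rw [← ht, Nat.card_eq_fintype_card, Nat.card_eq_fintype_card, Fintype.card_subtype,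
      Fintype.card_subtype]
    have e : (Finset.univ.filter fun x : G => x ^ 2 = 1) =
        insert 1 (Finset.univ.filter fun x : G => orderOf x = 2) := by
      ext x
      simp only [Finset.mem_insert, Finset.mem_filter, Finset.mem_univ, true_and]
      constructor
      · intro h
        rcases (Nat.dvd_prime Nat.prime_two).mp (orderOf_dvd_of_pow_eq_one h) with h' | h'
        · exact Or.inl (orderOf_eq_one_iff.mp h')
        · exact Or.inr h'
      · rintro (rfl | h)
        · simp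
        · rw [← h]; exact pow_orderOf_eq_one x
    rw [e, Finset.card_insert_of_notMem (by simp)]
  set R := Finset.univ.filter (fun χ : Cfsg.IrrCharacter G => χ ≠ one ∧ ν χ ≠ 0) with hR
  have ht' : (t : ℤ) = ∑ χ ∈ R, ν χ * (Cfsg.charDegree (χ : G → ℂ) : ℤ) := by
    have h1 := hsum
    rw [hcount, ← Finset.add_sum_erase _ _ (Finset.mem_univ one), hν1, hd1] at h1
    have h2 : ∑ χ ∈ R, ν χ * (Cfsg.charDegree (χ : G → ℂ) : ℤ) =
        ∑ χ ∈ Finset.univ.erase one, ν χ * (Cfsg.charDegree (χ : G → ℂ) : ℤ) := by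
      refine Finset.sum_subset (fun χ hχ => Finset.mem_erase.mpr
        ⟨(Finset.mem_filter.mp hχ).2.1, Finset.mem_univ _⟩) fun χ hχ hn => ?_
      have : ν χ = 0 := by
        by_contra h0
        exact hn (Finset.mem_filter.mpr ⟨Finset.mem_univ _, (Finset.mem_erase.mp hχ).1, h0⟩)
      rw [this, zero_mul]
    rw [h2]
    push_cast at h1
    linarith
  set d : Cfsg.IrrCharacter G → ℚ := fun χ => (Cfsg.charDegree (χ : G → ℂ) : ℚ) with hd
  have hle : (t : ℚ) ≤ ∑ χ ∈ R, d χ := by
    have h1 : (t : ℤ) ≤ ∑ χ ∈ R, (Cfsg.charDegree (χ : G → ℂ) : ℤ) := by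
      rw [ht']
      refine Finset.sum_le_sum fun χ _ => ?_
      exact mul_le_of_le_one_left (Int.natCast_nonneg _) (abs_le.mp (hνb χ).1).2
    have h2 : ((t : ℤ) : ℚ) ≤ ((∑ χ ∈ R, (Cfsg.charDegree (χ : G → ℂ) : ℤ) : ℤ) : ℚ) := by
      exact_mod_cast h1
    push_cast at h2
    exact h2
  have hsq : ∑ χ : Cfsg.IrrCharacter G, d χ ^ 2 = (Nat.card G : ℚ) := by
    have h := col_orth (1 : G) (1 : G)
    rw [if_pos (IsConj.refl _)] at h
    simp only [irr_apply_one, map_natCast] at h
    rw [show Subgroup.centralizer ({(1 : G)} : Set G) = ⊤ by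
      ext x; simp [Subgroup.mem_centralizer_singleton_iff], Subgroup.card_top] at h
    have h' : ((∑ χ : Cfsg.IrrCharacter G, Cfsg.charDegree (χ : G → ℂ) ^ 2 : ℕ) : ℂ) = (Nat.card G : ℂ) := by
      push_cast; rw [← h]; exact Finset.sum_congr rfl fun χ _ => sq _
    simp only [hd]
    exact_mod_cast h'
  have hsqR : ∑ χ ∈ R, d χ ^ 2 ≤ (Nat.card G : ℚ) - 1 := by
    rw [← hsq, ← Finset.add_sum_erase _ _ (Finset.mem_univ one)]
    have : d one ^ 2 = 1 := by rw [hd]; simp [hd1]
    rw [this]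
    have := Finset.sum_le_sum_of_subset_of_nonneg (f := fun χ => d χ ^ 2)
      (fun χ hχ => Finset.mem_erase.mpr ⟨(Finset.mem_filter.mp hχ).2.1, Finset.mem_univ _⟩ :
        R ⊆ Finset.univ.erase one) (fun χ _ _ => sq_nonneg _)
    linarith
  set α : ℚ := ((Nat.card G : ℚ) - 1) / t with hα
  have htq : (0 : ℚ) < t := by exact_mod_cast htpos
  have hαpos : 0 < α := div_pos (by linarith) htq
  constructor
  · by_contra hn
    push Not at hn
    -- the number of classes
    set k := Fintype.card (Cfsg.IrrCharacter G) with hk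
    have hcs : (∑ χ ∈ R, d χ) ^ 2 ≤ (R.card : ℚ) * ∑ χ ∈ R, d χ ^ 2 := sq_sum_le_card_mul_sum_sq
    have hRk : (R.card : ℚ) + 1 ≤ k := by
      have : R.card + 1 ≤ k := by
        have h1 := Finset.card_lt_univ_of_notMem (s := R) (x := one) (by simp [hR])
        omega
      exact_mod_cast this
    have hcent : ∑ x : G, (Nat.card (Subgroup.centralizer ({x} : Set G)) : ℚ) = k * (Nat.card G : ℚ) := by
      have h : ((∑ x : G, Nat.card (Subgroup.centralizer ({x} : Set G)) : ℕ) : ℂ) = ((k * Nat.card G : ℕ) : ℂ) := by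
        push_cast
        rw [Finset.sum_congr rfl (g := fun x : G => ∑ χ : Cfsg.IrrCharacter G,
          (χ : G → ℂ) x * (starRingEnd ℂ) ((χ : G → ℂ) x)) fun x _ => by rw [col_orth, if_pos (IsConj.refl _)],
          Finset.sum_comm, Finset.sum_congr rfl (g := fun _ => (Nat.card G : ℂ)) fun χ _ => ?_]
        · rw [Finset.sum_const, Finset.card_univ, nsmul_eq_mul]
        · have h2 := classInner_irr χ χ
          rw [if_pos rfl, Cfsg.classInner, inv_mul_eq_one₀ (natCast_card_ne_zero G)] at h2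
          exact h2.symm
      exact_mod_cast h
    have hlt : ∑ x ∈ Finset.univ.erase (1 : G), (Nat.card (Subgroup.centralizer ({x} : Set G)) : ℚ) * α ^ 2 <
        ∑ x ∈ Finset.univ.erase (1 : G), (Nat.card G : ℚ) := by
      refine Finset.sum_lt_sum_of_nonempty ⟨y, Finset.mem_erase.mpr ⟨fun h => ?_, Finset.mem_univ _⟩⟩ fun x hx => ?_
      · rw [h, orderOf_one] at hy; omega
      · have h1 := hn x (Finset.mem_erase.mp hx).1
        have h2 : ((Subgroup.centralizer ({x} : Set G)).index : ℚ) *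
            (Nat.card (Subgroup.centralizer ({x} : Set G)) : ℚ) = (Nat.card G : ℚ) := by
          rw [← Nat.cast_mul, Subgroup.index_mul_card]
        have h3 : (0 : ℚ) < (Nat.card (Subgroup.centralizer ({x} : Set G)) : ℚ) := by exact_mod_cast Nat.card_pos
        rw [← h2, mul_comm]
        exact mul_lt_mul_of_pos_right h1 h3
    rw [← Finset.sum_mul, Finset.sum_erase_eq_sub (Finset.mem_univ _), hcent, Finset.sum_const,
      nsmul_eq_mul, Finset.card_erase_of_mem (Finset.mem_univ _), Finset.card_univ,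
      ← Nat.card_eq_fintype_card, Nat.cast_sub Nat.card_pos, show Subgroup.centralizer ({(1 : G)} : Set G) = ⊤ by
        ext x; simp [Subgroup.mem_centralizer_singleton_iff], Subgroup.card_top] at hlt
    push_cast at hlt
    have h4 : ((k : ℚ) - 1) * α ^ 2 < (Nat.card G : ℚ) - 1 := by
      have hgp : (0 : ℚ) < (Nat.card G : ℚ) := by linarith
      have : (((k : ℚ) - 1) * α ^ 2) * (Nat.card G : ℚ) < ((Nat.card G : ℚ) - 1) * (Nat.card G : ℚ) := by
        linarith
      exact lt_of_mul_lt_mul_right this hgp.le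
    have h5 : (t : ℚ) ^ 2 ≤ ((k : ℚ) - 1) * ((Nat.card G : ℚ) - 1) :=
      calc (t : ℚ) ^ 2 ≤ (∑ χ ∈ R, d χ) ^ 2 := pow_le_pow_left₀ htq.le hle 2
        _ ≤ (R.card : ℚ) * ∑ χ ∈ R, d χ ^ 2 := hcs
        _ ≤ ((k : ℚ) - 1) * ((Nat.card G : ℚ) - 1) :=
          mul_le_mul (by linarith) hsqR (Finset.sum_nonneg fun χ _ => sq_nonneg _) (by linarith)
    have h6 : (Nat.card G : ℚ) - 1 = α * t := by rw [hα, div_mul_cancel₀ _ htq.ne']
    rw [h6] at h4 h5
    nlinarith [mul_le_mul_of_nonneg_right h5 hαpos.le]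
  · by_contra hn
    push Not at hn
    have h1 : ∀ χ ∈ R, α < d χ := fun χ hχ => by
      obtain ⟨-, hne, hnz⟩ := Finset.mem_filter.mp hχ
      exact hn χ (fun h => hne (Subtype.ext h)) ((hνb χ).2 hnz)
    have hRne : R.Nonempty := by
      by_contra h
      rw [Finset.not_nonempty_iff_eq_empty.mp h, Finset.sum_empty] at hle
      linarith
    have h2 : α * ∑ χ ∈ R, d χ < ∑ χ ∈ R, d χ ^ 2 := by
      rw [Finset.mul_sum]
      refine Finset.sum_lt_sum_of_nonempty hRne fun χ hχ => ?_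
      rw [sq]
      exact mul_lt_mul_of_pos_right (h1 χ hχ) (hαpos.trans (h1 χ hχ))
    have h6 : (Nat.card G : ℚ) - 1 = α * t := by rw [hα, div_mul_cancel₀ _ htq.ne']
    nlinarith [mul_le_mul_of_nonneg_left hle hαpos.le]

end Cfsg.Agent.S4476
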