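import Cfsg.Statements.S4477
import Cfsg.Agent.Lib.Chars.IndicatorBound
import Mathlib.GroupTheory.Nilpotent
import Mathlib.Algebra.Group.Subgroup.Order
import Cfsg.Agent.Lib.Chars.Linear
import Cfsg.Agent.Lib.Chars.Central
import Mathlib.Algebra.CharP.Two
import Mathlib.Tactic.IntervalCases

set_option autoImplicit false
open Cfsg

namespace Cfsg.Agent.S4477

open CfsgLib CfsgLib.Chars
open scoped ComplexConjugate

variable {G : Type*} [Group G] [Finite G]

theorem coatom_index_two (hG : IsPGroup 2 G) {M : Subgroup G} (hM : IsCoatom M) : M.index = 2 := by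
  haveI : Fact (Nat.Prime 2) := ⟨Nat.prime_two⟩
  haveI := IsPGroup.isNilpotent hG
  haveI : M.Normal := Subgroup.NormalizerCondition.normal_of_coatom M Group.normalizerCondition_of_isNilpotent hM
  have hd : 2 ∣ Nat.card (G ⧸ M) := by
    obtain ⟨k, hk⟩ := IsPGroup.iff_card.mp (hG.to_quotient M)
    rcases k with _ | k
    · exact absurd (Subgroup.index_eq_one.mp (by simpa [Subgroup.index] using hk)) hM.1
    · rw [hk]; exact dvd_pow_self 2 (by omega)
  obtain ⟨y, hy⟩ := exists_prime_orderOf_dvd_card' 2 hd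
  set K := (Subgroup.zpowers y).comap (QuotientGroup.mk' M)
  have hMK : M ≤ K := fun m hm => by
    change (m : G ⧸ M) ∈ Subgroup.zpowers y
    rw [(QuotientGroup.eq_one_iff m).mpr hm]
    exact one_mem _
  rcases hMK.eq_or_lt with h | h
  · exfalso
    obtain ⟨g, rfl⟩ := QuotientGroup.mk_surjective y
    have : g ∈ M := by rw [h]; exact Subgroup.mem_zpowers _
    rw [(QuotientGroup.eq_one_iff g).mpr this, orderOf_one] at hy
    omega
  · have htop : Subgroup.zpowers y = ⊤ := by
      rw [← Subgroup.map_comap_eq_self_of_surjective (QuotientGroup.mk'_surjective M) (Subgroup.zpowers y)]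
      show K.map _ = ⊤
      rw [hM.2 K h, Subgroup.map_top_of_surjective _ (QuotientGroup.mk'_surjective M)]
    rw [Subgroup.index, ← Subgroup.card_top (G := G ⧸ M), ← htop, Nat.card_zpowers, hy]

open Classical in
theorem four_le_real (hG : IsPGroup 2 G) (hnc : ¬ IsCyclic G) :
    4 ∣ Nat.card {f : G →* ℂˣ // f ^ 2 = 1} := by
  haveI : Fact (Nat.Prime 2) := ⟨Nat.prime_two⟩
  haveI : Finite (G →* ℂˣ) := Finite.of_injective homIrr homIrr_injective
  obtain ⟨M₁, hM₁⟩ : ∃ M : Subgroup G, IsCoatom M := by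
    rcases eq_top_or_exists_le_coatom (⊥ : Subgroup G) with h | ⟨M, hM, -⟩
    · exact absurd (isCyclic_iff_exists_zpowers_eq_top.mpr ⟨1, top_le_iff.mp (h ▸ bot_le)⟩) hnc
    · exact ⟨M, hM⟩
  obtain ⟨x, -, hx⟩ := SetLike.exists_of_lt (lt_top_iff_ne_top.mpr hM₁.1)
  obtain ⟨M₂, hM₂, hxM₂⟩ : ∃ M : Subgroup G, IsCoatom M ∧ x ∈ M := by
    rcases eq_top_or_exists_le_coatom (Subgroup.zpowers x) with h | ⟨M, hM, hle⟩
    · exact absurd (isCyclic_iff_exists_zpowers_eq_top.mpr ⟨x, h⟩) hnc
    · exact ⟨M, hM, hle (Subgroup.mem_zpowers x)⟩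
  let sgn : ∀ (M : Subgroup G), M.index = 2 → (G →* ℂˣ) := fun M h =>
    { toFun := fun g => if g ∈ M then 1 else -1
      map_one' := if_pos M.one_mem
      map_mul' := fun a b => by
        simp only [Subgroup.mul_mem_iff_of_index_two h]
        by_cases ha : a ∈ M <;> by_cases hb : b ∈ M <;> simp [ha, hb] }
  set l₁ := sgn M₁ (coatom_index_two hG hM₁)
  set l₂ := sgn M₂ (coatom_index_two hG hM₂)
  have hsq : ∀ (M : Subgroup G) (h : M.index = 2), sgn M h ^ 2 = 1 := fun M h => MonoidHom.ext fun g => by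
    show (sgn M h g) ^ 2 = 1
    simp only [sgn, MonoidHom.coe_mk, OneHom.coe_mk]
    split_ifs <;> simp
  have hne1 : ∀ (M : Subgroup G) (h : M.index = 2), sgn M h ≠ 1 := fun M h e => by
    obtain ⟨y, -, hy⟩ := SetLike.exists_of_lt (lt_top_iff_ne_top.mpr (fun e' : M = ⊤ => by
      rw [e', Subgroup.index_top] at h; omega))
    have := DFunLike.congr_fun e y
    simp only [sgn, MonoidHom.coe_mk, OneHom.coe_mk, if_neg hy, MonoidHom.one_apply] at this
    exact absurd (congrArg Units.val this) (by norm_num)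
  have h12 : l₁ ≠ l₂ := fun e => by
    have := DFunLike.congr_fun e x
    simp only [l₁, l₂, sgn, MonoidHom.coe_mk, OneHom.coe_mk, if_neg hx, if_pos hxM₂] at this
    exact absurd (congrArg Units.val this) (by norm_num)
  let K : Subgroup (G →* ℂˣ) :=
    { carrier := {f | f ^ 2 = 1}
      one_mem' := one_pow 2
      mul_mem' := fun {a b} ha hb => by
        show (a * b) ^ 2 = 1
        rw [show (a * b) ^ 2 = a ^ 2 * b ^ 2 from mul_pow a b 2, show a ^ 2 = 1 from ha, show b ^ 2 = 1 from hb]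
        exact one_mul (1 : G →* ℂˣ)
      inv_mem' := fun {a} ha => by
        show a⁻¹ ^ 2 = 1
        rw [show a⁻¹ ^ 2 = (a ^ 2)⁻¹ from inv_pow a 2, show a ^ 2 = 1 from ha]
        exact inv_one (G := G →* ℂˣ) }
  have hK : IsPGroup 2 K := fun f => ⟨1, Subtype.ext f.2⟩
  obtain ⟨r, hr⟩ := IsPGroup.iff_card.mp hK
  have h3 : 3 ≤ Nat.card K := by
    have hinj : Function.Injective (![(1 : K), ⟨l₁, hsq M₁ (coatom_index_two hG hM₁)⟩, ⟨l₂, hsq M₂ (coatom_index_two hG hM₂)⟩]) := by
      intro i j hij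
      have e := congrArg Subtype.val hij
      fin_cases i <;> fin_cases j <;> simp at e ⊢
      · exact hne1 M₁ (coatom_index_two hG hM₁) e.symm
      · exact hne1 M₂ (coatom_index_two hG hM₂) e.symm
      · exact hne1 M₁ (coatom_index_two hG hM₁) e
      · exact h12 e
      · exact hne1 M₂ (coatom_index_two hG hM₂) e
      · exact h12 e.symm
    simpa using Nat.card_le_card_of_injective _ hinj
  change 4 ∣ Nat.card K
  rcases r with _ | _ | r
  · rw [hr] at h3; norm_num at h3
  · rw [hr] at h3; norm_num at h3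
  · rw [hr, pow_succ, pow_succ, mul_assoc]; exact Dvd.intro_left _ rfl

theorem main [Fintype G] (hG : IsPGroup 2 G) (ht : Nat.card {x : G // orderOf x = 2} % 4 = 1)
    (hnc : ¬ IsCyclic G) : (commutator G).index = 4 := by
  classical
  haveI : Fact (Nat.Prime 2) := ⟨Nat.prime_two⟩
  have hI : Nat.card {x : G // x ^ 2 = 1} = Nat.card {x : G // orderOf x = 2} + 1 := by
    have hp : ∀ x : G, x ^ 2 = 1 ↔ x = 1 ∨ orderOf x = 2 := fun x => by
      constructor
      · intro h
        rcases (Nat.dvd_prime Nat.prime_two).mp (orderOf_dvd_of_pow_eq_one h) with h' | h'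
        · exact Or.inl (orderOf_eq_one_iff.mp h')
        · exact Or.inr h'
      · rintro (rfl | h)
        · exact one_pow 2
        · exact h ▸ pow_orderOf_eq_one x
    rw [Nat.card_eq_fintype_card, Fintype.card_subtype, Nat.card_eq_fintype_card, Fintype.card_subtype,
      show Finset.univ.filter (fun x : G => x ^ 2 = 1) =
        insert 1 (Finset.univ.filter fun x : G => orderOf x = 2) by ext x; simp [hp],
      Finset.card_insert_of_notMem (by simp)]
  obtain ⟨ν, hν, hcount⟩ := GroupB.Indicator.exists_indicator_sum (G := G)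
  obtain ⟨k, hk⟩ := IsPGroup.iff_card.mp hG
  have hdeg : ∀ χ : IrrCharacter G, charDegree (χ : G → ℂ) = 1 ∨ charDegree (χ : G → ℂ) = 2 ∨
      4 ∣ charDegree (χ : G → ℂ) := by
    intro χ
    obtain ⟨i, -, hi⟩ := (Nat.dvd_prime_pow Nat.prime_two).mp (hk ▸ charDegree_dvd χ)
    rcases i with _ | _ | i
    · exact Or.inl hi
    · exact Or.inr (Or.inl hi)
    · exact Or.inr (Or.inr ⟨2 ^ i, by rw [hi, pow_succ, pow_succ]; ring⟩)
  set S1 := Finset.univ.filter fun χ : IrrCharacter G => charDegree (χ : G → ℂ) = 1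
  set S2 := Finset.univ.filter fun χ : IrrCharacter G => charDegree (χ : G → ℂ) = 2
  have hlin : ∀ f : G →* ℂˣ, ν (homIrr f) = if f ^ 2 = 1 then 1 else 0 := by
    intro f
    have h := hν (homIrr f)
    have e := classInner_irr (homIrr f) (homIrr f⁻¹)
    have e2 : (Nat.card G : ℂ)⁻¹ * ∑ g : G, (homIrr f : G → ℂ) (g ^ 2) =
        classInner (homIrr f : G → ℂ) (homIrr f⁻¹ : G → ℂ) := by
      rw [classInner]
      congr 1
      refine Finset.sum_congr rfl fun g _ => ?_
      change (f (g ^ 2) : ℂ) = (f g : ℂ) * conj ((f⁻¹ g : ℂˣ) : ℂ)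
      rw [MonoidHom.inv_apply, Units.val_inv_eq_inv_val, map_inv₀,
        inv_eq_of_mul_eq_one_left (hom_mul_conj f g), map_pow, Units.val_pow_eq_pow_val, sq]
    rw [e2, e] at h
    have hiff : homIrr f = homIrr f⁻¹ ↔ f ^ 2 = 1 :=
      ⟨fun e => (sq f).trans ((congrArg (fun x => f * x) (homIrr_injective e)).trans (mul_inv_cancel f)),
        fun e => congrArg homIrr (eq_inv_of_mul_eq_one_left (a := f) (b := f) ((sq f).symm.trans e))⟩
    by_cases hf : f ^ 2 = 1
    · rw [if_pos (hiff.mpr hf)] at h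
      rw [if_pos hf]
      exact_mod_cast h
    · rw [if_neg fun e => hf (hiff.mp e)] at h
      rw [if_neg hf]
      exact_mod_cast h
  have hsum1 : ∑ χ ∈ S1, ν χ * (charDegree (χ : G → ℂ) : ℤ) = Nat.card {f : G →* ℂˣ // f ^ 2 = 1} := by
    haveI : Finite (G →* ℂˣ) := Finite.of_injective homIrr homIrr_injective
    haveI : Fintype (G →* ℂˣ) := Fintype.ofFinite _
    rw [show S1 = Finset.univ.image (homIrr (G := G)) from ?_, Finset.sum_image
      fun a _ b _ e => homIrr_injective e]
    · simp only [hlin, charDegree_hom, Nat.cast_one, mul_one]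
      rw [Finset.sum_boole, Nat.card_eq_fintype_card, Fintype.card_subtype]
    · ext χ
      simp only [S1, Finset.mem_filter, Finset.mem_univ, true_and, Finset.mem_image]
      exact ⟨fun h => exists_homIrr χ h, fun ⟨f, hf⟩ => hf ▸ charDegree_hom f⟩
  have hreal : ∀ χ : IrrCharacter G, (ν χ : ZMod 2) =
      if (∀ g : G, ((χ : G → ℂ) g).im = 0) then 1 else 0 := by
    intro χ
    obtain ⟨r, s, h1, h2⟩ := GroupB.Indicator.exists_split_indicator (isCharacter_irr χ)
    let χb : IrrCharacter G := ⟨fun g => conj ((χ : G → ℂ) g), isIrrCharacter_conj χ⟩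
    have h3 : classInner (χ : G → ℂ) (χb : G → ℂ) = (r : ℂ) + (s : ℂ) := by
      rw [← h2, classInner]
      simp only [χb, Complex.conj_conj]
    rw [classInner_irr] at h3
    have h4 : ν χ = (r : ℤ) - s := by
      have h := hν χ
      rw [h1] at h
      exact_mod_cast h
    have hiff : χ = χb ↔ ∀ g : G, ((χ : G → ℂ) g).im = 0 :=
      ⟨fun e g => Complex.conj_eq_iff_im.mp (congrFun (congrArg Subtype.val e) g).symm,
        fun e => Subtype.ext (funext fun g => (Complex.conj_eq_iff_im.mpr (e g)).symm)⟩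
    rw [h4, Int.cast_sub, CharTwo.sub_eq_add,
      ← Int.cast_add]
    by_cases hr : ∀ g : G, ((χ : G → ℂ) g).im = 0
    · rw [if_pos (hiff.mpr hr)] at h3
      have : (r : ℤ) + s = 1 := by exact_mod_cast h3.symm
      rw [this, if_pos hr, Int.cast_one]
    · rw [if_neg fun e => hr (hiff.mp e)] at h3
      have : (r : ℤ) + s = 0 := by exact_mod_cast h3.symm
      rw [this, if_neg hr, Int.cast_zero]
  have hparity : ((∑ χ ∈ S2, ν χ : ℤ) : ZMod 2) = (S2.card : ZMod 2) := by
    rw [Int.cast_sum, Finset.card_eq_sum_ones, Nat.cast_sum, ← sub_eq_zero, ← Finset.sum_sub_distrib]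
    simp only [hreal, Nat.cast_one]
    refine Finset.sum_involution (fun χ _ =>
      (⟨fun g => conj ((χ : G → ℂ) g), isIrrCharacter_conj χ⟩ : IrrCharacter G)) ?_ ?_ ?_ ?_
    · intro χ _
      have : (∀ g : G, (conj ((χ : G → ℂ) g)).im = 0) ↔ ∀ g : G, ((χ : G → ℂ) g).im = 0 := by
        simp
      simp only [this]
      exact CharTwo.add_self_eq_zero _
    · intro χ _ hne he
      apply hne
      rw [if_pos fun g => Complex.conj_eq_iff_im.mp (congrFun (congrArg Subtype.val he) g), sub_self]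
    · intro χ hχ
      simp only [S2, Finset.mem_filter, Finset.mem_univ, true_and] at hχ ⊢
      simpa [charDegree] using hχ
    · intro χ _
      exact Subtype.ext (funext fun g => Complex.conj_conj _)
  set R := Finset.univ.filter fun χ : IrrCharacter G =>
    ¬ charDegree (χ : G → ℂ) = 1 ∧ ¬ charDegree (χ : G → ℂ) = 2
  have hsplit : ∀ {α : Type} [AddCommMonoid α] (F : IrrCharacter G → α), ∑ χ, F χ =
      ∑ χ ∈ S1, F χ + ∑ χ ∈ S2, F χ + ∑ χ ∈ R, F χ := by
    intro α _ F
    rw [← Finset.sum_filter_add_sum_filter_not Finset.univ (fun χ : IrrCharacter G => charDegree (χ : G → ℂ) = 1),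
      ← Finset.sum_filter_add_sum_filter_not (Finset.univ.filter fun χ : IrrCharacter G =>
        ¬ charDegree (χ : G → ℂ) = 1) (fun χ : IrrCharacter G => charDegree (χ : G → ℂ) = 2),
      Finset.filter_filter, Finset.filter_filter, add_assoc]
    congr 2
    refine Finset.sum_congr ?_ fun _ _ => rfl
    ext χ
    simp only [S2, Finset.mem_filter, Finset.mem_univ, true_and]
    exact ⟨fun h => h.2, fun h => ⟨by omega, h⟩⟩
  have hR4 : ∀ χ ∈ R, 4 ∣ charDegree (χ : G → ℂ) := fun χ hχ => by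
    obtain ⟨h1, h2⟩ := (Finset.mem_filter.mp hχ).2
    rcases hdeg χ with h | h | h
    · exact absurd h h1
    · exact absurd h h2
    · exact h
  rw [hsplit] at hcount
  have hS2 : ∑ χ ∈ S2, ν χ * (charDegree (χ : G → ℂ) : ℤ) = 2 * ∑ χ ∈ S2, ν χ := by
    rw [Finset.mul_sum]
    refine Finset.sum_congr rfl fun χ hχ => ?_
    rw [(Finset.mem_filter.mp hχ).2]; ring
  obtain ⟨c, hc⟩ := Finset.dvd_sum (s := R) (f := fun χ => ν χ * (charDegree (χ : G → ℂ) : ℤ))
    (a := 4) fun χ hχ => Dvd.dvd.mul_left (by exact_mod_cast hR4 χ hχ) _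
  obtain ⟨a, ha⟩ := four_le_real hG hnc
  rw [hsum1, hS2, hc, hI, ha] at hcount
  push_cast at hcount
  have hodd : (∑ χ ∈ S2, ν χ) % 2 = 1 := by omega
  have hsq := sum_deg_sq (G := G)
  rw [hsplit] at hsq
  have hS1 : ∑ χ ∈ S1, charDegree (χ : G → ℂ) ^ 2 = (commutator G).index := by
    rw [← card_linear, Nat.card_eq_fintype_card, Fintype.card_subtype, Finset.card_eq_sum_ones]
    refine Finset.sum_congr rfl fun χ hχ => ?_
    rw [(Finset.mem_filter.mp hχ).2, one_pow]
  have hS2' : ∑ χ ∈ S2, charDegree (χ : G → ℂ) ^ 2 = 4 * S2.card := by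
    rw [Finset.card_eq_sum_ones, Finset.mul_sum]
    refine Finset.sum_congr rfl fun χ hχ => ?_
    rw [(Finset.mem_filter.mp hχ).2]
    norm_num
  obtain ⟨c', hc'⟩ := Finset.dvd_sum (s := R) (f := fun χ => charDegree (χ : G → ℂ) ^ 2) (a := 8)
    fun χ hχ => (show 8 ∣ 4 ^ 2 by norm_num).trans (pow_dvd_pow_of_dvd (hR4 χ hχ) 2)
  rw [hS1, hS2', hc', hk] at hsq
  have hodd2 : S2.card % 2 = 1 := by
    have h := hparity
    rw [← Int.cast_natCast (R := ZMod 2) S2.card, ZMod.intCast_eq_intCast_iff'] at h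
    push_cast at h
    omega
  obtain ⟨j, hjk, hj⟩ := (Nat.dvd_prime_pow Nat.prime_two).mp (hk ▸ (commutator G).index_dvd_card)
  have hidx4 : ∀ n : ℕ, 3 ≤ n → 8 ∣ 2 ^ n := fun n hn => (pow_dvd_pow 2 hn : 2 ^ 3 ∣ 2 ^ n)
  rcases Nat.lt_or_ge j 2 with hj2 | hj2
  · exfalso
    obtain ⟨b, hb⟩ := four_le_real hG hnc
    haveI : Finite (G →* ℂˣ) := Finite.of_injective homIrr homIrr_injective
    have h1 : Nat.card {f : G →* ℂˣ // f ^ 2 = 1} ≤ (commutator G).index := by
      rw [← card_linear]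
      exact Nat.card_le_card_of_injective (fun f => ⟨homIrr f.1, charDegree_hom f.1⟩)
        fun f g e => Subtype.ext (homIrr_injective (congrArg Subtype.val e))
    have h0 : 0 < Nat.card {f : G →* ℂˣ // f ^ 2 = 1} :=
      Nat.card_pos_iff.mpr ⟨⟨1, one_pow (M := G →* ℂˣ) 2⟩, inferInstance⟩
    interval_cases j <;> simp only [pow_zero, pow_one] at hj <;> omega
  rcases Nat.lt_or_ge j 3 with hj3 | hj3
  · rw [hj, show j = 2 by omega]; norm_num
  · exfalso
    obtain ⟨u, hu⟩ := hidx4 j hj3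
    obtain ⟨w, hw⟩ := hidx4 k (hj3.trans hjk)
    rw [hj, hu, hw] at hsq
    omega

/-- Let G be a finite 2-group whose number of involutions is congruent to 1 modulo 4. Then G is cyclic or its commutator subgroup has index 4. -/
theorem result {G : Type*} [Group G] [Finite G] (hG : IsPGroup 2 G) (ht : Nat.card {x : G // orderOf x = 2} % 4 = 1) : IsCyclic G ∨ (commutator G).index = 4 := by
  classical
  haveI := Fintype.ofFinite G
  exact or_iff_not_imp_left.mpr (main hG ht)

end Cfsg.Agent.S4477
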