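import Cfsg.Statements.S4478
import Cfsg.Agent.Lib.Blocks.KleinReal
import Cfsg.Agent.Lib.Chars.IndicatorBound
import Cfsg.Agent.Lib.Blocks.Orth
import Cfsg.Agent.Lib.Blocks.Local
import Cfsg.Agent.Lib.Chars.Central
import Mathlib.GroupTheory.Perm.Cycle.Type

set_option autoImplicit false
open Cfsg

namespace Cfsg.Agent.S4478

open CfsgLib.Chars CfsgLib.Blocks
open CfsgLib.Blocks.KP

theorem main {G : Type*} [Group G] [Fintype G] (heven : Even (Nat.card G)) (χ : IrrCharacter G)
    (h2 : 2 ^ (Nat.card G).factorization 2 ∣ charDegree (χ : G → ℂ))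
    (hp : ∀ p : ℕ, p.Prime → p ≠ 2 → (∃ g : G, orderOf g = 2 * p) →
      p ^ (Nat.card G).factorization p ∣ charDegree (χ : G → ℂ)) :
    (∀ s t : G, orderOf s = 2 → orderOf t = 2 → IsConj s t) ∧
    (∀ s : G, orderOf s = 2 →
      Nat.card (Subgroup.centralizer ({s} : Set G)) = charDegree (χ : G → ℂ) ∧
      (Nat.card (Subgroup.centralizer ({s} : Set G))).Coprime
        (Subgroup.centralizer ({s} : Set G)).index) ∧
    (Nat.card G : ℂ)⁻¹ * ∑ g : G, (χ : G → ℂ) (g * g) = 1 := by
  classical
  have hG0 : Nat.card G ≠ 0 := Nat.card_pos.ne'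
  have hd0 : charDegree (χ : G → ℂ) ≠ 0 := (charDegree_pos χ).ne'
  -- the primes
  have hprime : ∀ (u s : G) (q : ℕ), q.Prime → orderOf s = 2 → Commute u s → q ∣ orderOf u →
      q ^ (Nat.card G).factorization q ∣ charDegree (χ : G → ℂ) := by
    intro u s q hq hs hc hd
    by_cases hq2 : q = 2
    · exact hq2 ▸ h2
    refine hp q hq hq2 ⟨u ^ (orderOf u / q) * s, ?_⟩
    have hu0 := orderOf_pos u
    have ho : orderOf (u ^ (orderOf u / q)) = q := by
      rw [orderOf_pow' u (Nat.div_pos (Nat.le_of_dvd hu0 hd) hq.pos).ne',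
        Nat.gcd_eq_right (Nat.div_dvd_of_dvd hd), Nat.div_div_self hd hu0.ne']
    rw [(hc.pow_left _).orderOf_mul_eq_mul_orderOf_of_coprime (by
      rw [ho, hs]; exact (Nat.coprime_primes hq Nat.prime_two).mpr hq2), ho, hs, mul_comm]
  have hvan : ∀ (u : G) (q : ℕ), q.Prime →
      q ^ (Nat.card G).factorization q ∣ charDegree (χ : G → ℂ) → q ∣ orderOf u →
      (χ : G → ℂ) u = 0 := by
    intro u q hq hd hu
    obtain ⟨M, hM⟩ := exists_isPModular hq
    exact (defect_zero_tfae hM χ).2.mp hd u hu
  have hodd : ∀ u : G, (χ : G → ℂ) u ≠ 0 → Odd (orderOf u) := by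
    intro u hu
    rw [← Nat.not_even_iff_odd, even_iff_two_dvd]
    exact fun h => hu (hvan u 2 Nat.prime_two h2 h)
  have hfree : ∀ u : G, (χ : G → ℂ) u ≠ 0 → u ≠ 1 → ∀ s : G, s ^ 2 = 1 → Commute u s → s = 1 := by
    intro u hu hu1 s hs hc
    by_contra hs1
    obtain ⟨q, hq, hd⟩ := Nat.exists_prime_and_dvd (mt orderOf_eq_one_iff.mp hu1)
    exact hu (hvan u q hq (hprime u s q hq (orderOf_eq_prime hs hs1) hc hd) hd)
  -- the sum of the values at the squares
  set I := (Finset.univ.filter (fun s : G => orderOf s = 2)).card with hI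
  have hone : sqrtNum (1 : G) = (I : ℂ) + 1 := by
    have e : Finset.univ.filter (fun x : G => x ^ 2 = 1) =
        insert 1 (Finset.univ.filter (fun s : G => orderOf s = 2)) := by
      ext x
      simp only [Finset.mem_filter, Finset.mem_univ, true_and, Finset.mem_insert]
      constructor
      · intro hx
        exact (em (x = 1)).imp id (orderOf_eq_prime hx)
      · rintro (rfl | hx)
        · simp
        · rw [← hx, pow_orderOf_eq_one]
    simp only [sqrtNum]
    rw [show (Finset.univ.filter (fun x : G => x ^ 2 = 1)).card = I + 1 by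
      rw [hI, e, Finset.card_insert_of_notMem (by simp)]]
    push_cast; ring
  have hterm : ∀ u : G, sqrtNum u * (χ : G → ℂ) u =
      (χ : G → ℂ) u + if u = 1 then (I : ℂ) * (χ : G → ℂ) u else 0 := by
    intro u
    by_cases hu : (χ : G → ℂ) u = 0
    · simp [hu]
    by_cases hu1 : u = 1
    · rw [if_pos hu1, hu1, hone]; ring
    · rw [if_neg hu1, add_zero, sqrtNum_eq_fixNum (hodd u hu)]
      have e : Finset.univ.filter (fun s : G => s ^ 2 = 1 ∧ Commute u s) = {1} := by
        ext s
        simp only [Finset.mem_filter, Finset.mem_univ, true_and, Finset.mem_singleton]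
        exact ⟨fun h => hfree u hu hu1 s h.1 h.2, fun h => by subst h; simp⟩
      simp only [fixNum]
      rw [e]
      simp
  have hne : χ ≠ trivIrr G := by
    intro h
    have h2' : 2 ∣ charDegree (χ : G → ℂ) := (dvd_pow_self 2 (Nat.one_le_iff_ne_zero.mp
      ((Nat.prime_two.dvd_iff_one_le_factorization hG0).mp heven.two_dvd))).trans h2
    have h1 : (charDegree (χ : G → ℂ) : ℂ) = 1 := by rw [← irr_apply_one, h]; rfl
    rw [Nat.cast_eq_one] at h1
    omega
  have hsum : ∑ g : G, (χ : G → ℂ) (g * g) = (I : ℂ) * (charDegree (χ : G → ℂ) : ℂ) := by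
    have h0 : ∑ g : G, (χ : G → ℂ) g = 0 := by
      have h := sum_mul_conj_irr χ (trivIrr G)
      rw [if_neg hne] at h
      simpa [trivIrr] using h
    have e : ∑ g : G, (χ : G → ℂ) (g * g) = ∑ u : G, sqrtNum u * (χ : G → ℂ) u := by
      rw [← Finset.sum_fiberwise_of_maps_to (s := Finset.univ) (t := Finset.univ)
        (g := fun g : G => g ^ 2) (fun _ _ => Finset.mem_univ _)]
      refine Finset.sum_congr rfl fun y _ => ?_
      rw [Finset.sum_congr rfl (fun x hx => by
        rw [show x * x = y from (pow_two x).symm.trans (Finset.mem_filter.mp hx).2]), Finset.sum_const,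
        nsmul_eq_mul]
      rfl
    rw [e, Finset.sum_congr rfl fun u _ => hterm u, Finset.sum_add_distrib, h0, zero_add,
      Finset.sum_ite_eq', if_pos (Finset.mem_univ _), irr_apply_one]
  -- the indicator is one
  haveI : Fact (Nat.Prime 2) := ⟨Nat.prime_two⟩
  obtain ⟨s₀, hs₀⟩ := exists_prime_orderOf_dvd_card' (G := G) 2 heven.two_dvd
  have hI0 : 0 < I := Finset.card_pos.mpr ⟨s₀, by simp [hs₀]⟩
  obtain ⟨ν, hν, hνle, -⟩ := CfsgLib.GroupB.Indicator.indicator_cases χ
  have hν' : (Nat.card G : ℂ)⁻¹ * ((I : ℂ) * (charDegree (χ : G → ℂ) : ℂ)) = (ν : ℂ) := by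
    rw [← hsum, ← hν]; simp only [pow_two]
  have hmul : ((I * charDegree (χ : G → ℂ) : ℕ) : ℤ) = (Nat.card G : ℤ) * ν := by
    have : (((I * charDegree (χ : G → ℂ) : ℕ) : ℤ) : ℂ) = (((Nat.card G : ℤ) * ν : ℤ) : ℂ) := by
      push_cast
      rw [← hν', ← mul_assoc (Nat.card G : ℂ), mul_inv_cancel₀ (Nat.cast_ne_zero.mpr hG0), one_mul]
    exact_mod_cast this
  have hν1 : ν = 1 := by
    obtain ⟨l, u⟩ := abs_le.mp hνle
    have hpos : (0 : ℤ) < ((I * charDegree (χ : G → ℂ) : ℕ) : ℤ) := by
      exact_mod_cast Nat.mul_pos hI0 (charDegree_pos χ)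
    interval_cases ν
    · omega
    · simp only [mul_zero] at hmul; omega
    · rfl
  rw [hν1, mul_one, Nat.cast_inj] at hmul
  have key : ∀ s : G, orderOf s = 2 →
      Nat.card (Subgroup.centralizer ({s} : Set G)) = charDegree (χ : G → ℂ) ∧
      ∀ t : G, orderOf t = 2 → IsConj s t := by
    intro s hs
    set C := Subgroup.centralizer ({s} : Set G)
    have hdvd : Nat.card C ∣ charDegree (χ : G → ℂ) := by
      rw [← Nat.factorization_le_iff_dvd Nat.card_pos.ne' hd0]
      intro q
      by_cases hq : q.Prime ∧ q ∣ Nat.card C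
      · haveI : Fact q.Prime := ⟨hq.1⟩
        obtain ⟨u, hu⟩ := exists_prime_orderOf_dvd_card' (G := C) q hq.2
        have h := hprime (u : G) s q hq.1 hs (Subgroup.mem_centralizer_singleton_iff.mp u.2)
          (by rw [Subgroup.orderOf_coe, hu])
        exact ((Nat.factorization_le_iff_dvd Nat.card_pos.ne' hG0).mpr
          (Subgroup.card_subgroup_dvd_card C) q).trans
          ((hq.1.pow_dvd_iff_le_factorization hd0).mp h)
      · have : (Nat.card C).factorization q = 0 := by
          rcases not_and_or.mp hq with h | h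
          · exact Nat.factorization_eq_zero_of_not_prime _ h
          · exact Nat.factorization_eq_zero_of_not_dvd h
        rw [this]; exact Nat.zero_le _
    have hsub : Finset.univ.filter (fun t : G => IsConj s t) ⊆
        Finset.univ.filter (fun t : G => orderOf t = 2) := by
      intro t ht
      simp only [Finset.mem_filter, Finset.mem_univ, true_and] at ht ⊢
      obtain ⟨c, rfl⟩ := isConj_iff.mp ht
      rw [← hs]
      exact orderOf_injective (MulAut.conj c).toMonoidHom (MulEquiv.injective _) s
    have hidx : (Finset.univ.filter (fun t : G => IsConj s t)).card = C.index := by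
      rw [← card_isConj_eq_index, Nat.card_eq_fintype_card, Fintype.card_subtype]
    have hle : C.index ≤ I := hidx ▸ Finset.card_le_card hsub
    have hCI := C.card_mul_index
    rw [← hmul] at hCI
    have hge : I ≤ C.index := by
      have := Nat.le_of_dvd (charDegree_pos χ) hdvd
      by_contra hlt
      push Not at hlt
      have : Nat.card C * C.index < I * charDegree (χ : G → ℂ) := by
        rw [mul_comm (Nat.card C)]
        exact Nat.mul_lt_mul_of_lt_of_le hlt this (charDegree_pos χ)
      omega
    have heq : C.index = I := le_antisymm hle hge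
    refine ⟨Nat.eq_of_mul_eq_mul_right hI0 ?_, fun t ht => ?_⟩
    · rw [mul_comm (charDegree _), ← hCI, heq]
    · have := Finset.eq_of_subset_of_card_le hsub (by rw [hidx, heq])
      have ht' : t ∈ Finset.univ.filter (fun t : G => orderOf t = 2) := by simp [ht]
      rw [← this] at ht'
      exact (Finset.mem_filter.mp ht').2
  refine ⟨fun s t hs ht => (key s hs).2 t ht, fun s hs => ⟨(key s hs).1, ?_⟩, ?_⟩
  · refine Nat.coprime_of_dvd fun q hq h1 h2' => ?_
    haveI : Fact q.Prime := ⟨hq⟩
    set C := Subgroup.centralizer ({s} : Set G)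
    obtain ⟨u, hu⟩ := exists_prime_orderOf_dvd_card' (G := C) q h1
    have h := hprime (u : G) s q hq hs (Subgroup.mem_centralizer_singleton_iff.mp u.2)
      (by rw [Subgroup.orderOf_coe, hu])
    rw [← (key s hs).1] at h
    have h3 : q ^ ((Nat.card G).factorization q + 1) ∣ Nat.card G := by
      conv_rhs => rw [← C.card_mul_index]
      rw [pow_succ]
      exact mul_dvd_mul h h2'
    have := (hq.pow_dvd_iff_le_factorization hG0).mp h3
    omega
  · rw [hsum, hν', hν1, Int.cast_one]

/-- Let G be a finite group of even order and χ an irreducible character of G whose degree x is divisible by the full power of 2 dividing the order of G and, for every odd prime p such that G has an element of order 2p, by the full power of p dividing the order of G. Then all involutions of G are conjugate, the centralizer of every involution has order exactly x with x coprime to its index, and the Frobenius–Schur indicator of χ equals 1. -/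
theorem result {G : Type*} [Group G] [Fintype G] (heven : Even (Nat.card G)) (χ : Cfsg.IrrCharacter G) (h2 : 2 ^ (Nat.card G).factorization 2 ∣ Cfsg.charDegree (χ : G → ℂ)) (hp : ∀ p : ℕ, p.Prime → p ≠ 2 → (∃ g : G, orderOf g = 2 * p) → p ^ (Nat.card G).factorization p ∣ Cfsg.charDegree (χ : G → ℂ)) : (∀ s t : G, orderOf s = 2 → orderOf t = 2 → IsConj s t) ∧ (∀ s : G, orderOf s = 2 → Nat.card (Subgroup.centralizer ({s} : Set G)) = Cfsg.charDegree (χ : G → ℂ) ∧ (Nat.card (Subgroup.centralizer ({s} : Set G))).Coprime (Subgroup.centralizer ({s} : Set G)).index) ∧ (Nat.card G : ℂ)⁻¹ * ∑ g : G, (χ : G → ℂ) (g * g) = 1 := by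
  classical
  exact main heven χ h2 hp

end Cfsg.Agent.S4478
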