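import Cfsg.Statements.S4479
import Cfsg.Agent.Lib.Blocks.KleinFormula

set_option autoImplicit false
open Cfsg

namespace Cfsg.Agent.S4479

set_option linter.style.haveILetI false
open CfsgLib.Chars CfsgLib.Blocks

open Classical in
theorem block_sum {G : Type*} [Group G] [Fintype G] {M : Ideal Cfsg.AlgInt} {χ₁ χ₂ χ₃ : Cfsg.IrrCharacter G}
    (hB : Cfsg.principalBlock M G = {χ : Cfsg.IrrCharacter G | (χ : G → ℂ) = (fun _ => 1) ∨ χ = χ₁ ∨ χ = χ₂ ∨ χ = χ₃})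
    (hdist : (χ₁ : G → ℂ) ≠ (fun _ => 1) ∧ (χ₂ : G → ℂ) ≠ (fun _ => 1) ∧ (χ₃ : G → ℂ) ≠ (fun _ => 1) ∧
      χ₁ ≠ χ₂ ∧ χ₁ ≠ χ₃ ∧ χ₂ ≠ χ₃) (F : Cfsg.IrrCharacter G → ℂ) :
    ∑ χ ∈ Finset.univ.filter (· ∈ Cfsg.principalBlock M G), F χ =
      F (trivIrr G) + F χ₁ + F χ₂ + F χ₃ := by
  obtain ⟨n1, n2, n3, n12, n13, n23⟩ := hdist
  have ne : ∀ χ : Cfsg.IrrCharacter G, (χ : G → ℂ) ≠ (fun _ => 1) → trivIrr G ≠ χ :=
    fun χ h e => h (by rw [← e]; rfl)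
  have hS : Finset.univ.filter (· ∈ Cfsg.principalBlock M G) = {trivIrr G, χ₁, χ₂, χ₃} := by
    ext χ
    simp only [hB, Finset.mem_filter, Finset.mem_univ, true_and, Set.mem_ofPred_eq,
      Finset.mem_insert, Finset.mem_singleton]
    exact or_congr_left ⟨fun h => Subtype.ext h, fun h => by rw [h]; rfl⟩
  rw [hS, Finset.sum_insert (by simp [ne _ n1, ne _ n2, ne _ n3]),
    Finset.sum_insert (by simp [n12, n13]), Finset.sum_pair n23]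
  ring

/-- An order formula from the principal 2-block. Let G be a finite group of order 4·g₀ with g₀ odd having no normal 2-complement (no normal subgroup of order g₀); let P be a Sylow 2-subgroup, J an involution of P, and fix a maximal ideal M of the algebraic integers containing 2. Suppose the principal 2-block consists of the principal character and three further distinct characters χ₁, χ₂, χ₃ of degrees x₁, x₂, x₃, with χ_i(J) = ε_i = ±1. Then, writing c(J) and c(P) for the orders of the centralizers of J and of P, the order of G equals 8·α·c(J)³/c(P)² with α = x₁x₂x₃ / ((x₁ + ε₁)(x₂ + ε₂)(x₃ + ε₃)). -/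
theorem result {G : Type*} [Group G] [Finite G] (M : Ideal Cfsg.AlgInt) (hM : Cfsg.IsPModular 2 M) (g₀ : ℕ) (hg₀ : Odd g₀) (hG : Nat.card G = 4 * g₀) (hnc : ¬ ∃ N : Subgroup G, N.Normal ∧ Nat.card N = g₀) (P : Sylow 2 G) (J : G) (hJ : J ∈ (P : Subgroup G)) (hJ2 : orderOf J = 2) (χ₁ χ₂ χ₃ : Cfsg.IrrCharacter G) (ε₁ ε₂ ε₃ : ℤ) (hB : Cfsg.principalBlock M G = {χ : Cfsg.IrrCharacter G | (χ : G → ℂ) = (fun _ => 1) ∨ χ = χ₁ ∨ χ = χ₂ ∨ χ = χ₃}) (hdist : (χ₁ : G → ℂ) ≠ (fun _ => 1) ∧ (χ₂ : G → ℂ) ≠ (fun _ => 1) ∧ (χ₃ : G → ℂ) ≠ (fun _ => 1) ∧ χ₁ ≠ χ₂ ∧ χ₁ ≠ χ₃ ∧ χ₂ ≠ χ₃) (hε : (ε₁ = 1 ∨ ε₁ = -1) ∧ (ε₂ = 1 ∨ ε₂ = -1) ∧ (ε₃ = 1 ∨ ε₃ = -1)) (hval : (χ₁ : G → ℂ) J = ε₁ ∧ (χ₂ : G → ℂ) J = ε₂ ∧ (χ₃ : G → ℂ) J = ε₃) : (Nat.card G : ℚ) = 8 * (((Cfsg.charDegree (χ₁ : G → ℂ) : ℚ) * Cfsg.charDegree (χ₂ : G → ℂ) * Cfsg.charDegree (χ₃ : G → ℂ)) / ((Cfsg.charDegree (χ₁ : G → ℂ) + ε₁)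 * (Cfsg.charDegree (χ₂ : G → ℂ) + ε₂) * (Cfsg.charDegree (χ₃ : G → ℂ) + ε₃))) * (Nat.card (Subgroup.centralizer ({J} : Set G)) : ℚ) ^ 3 / (Nat.card (Subgroup.centralizer ((P : Subgroup G) : Set G)) : ℚ) ^ 2 := by
  classical
  haveI : Fintype G := Fintype.ofFinite G
  obtain ⟨hP, hone⟩ := KP.klein_of_no_complement hg₀ hG hnc P
  obtain ⟨v1, v2, v3⟩ := hval
  have hrel := KP.orth P hM hP hone hJ2 (y := (1 : G)) (not_dvd_orderOf_one hM)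
  rw [block_sum hB hdist, irr_apply_one, irr_apply_one, irr_apply_one, irr_apply_one, v1, v2, v3] at hrel
  have hf := KP.order_eq P hM hP hone hJ hJ2
  rw [block_sum hB hdist, irr_apply_one, irr_apply_one, irr_apply_one, irr_apply_one, v1, v2, v3,
    show (trivIrr G : G → ℂ) J = 1 from rfl] at hf
  rw [show (trivIrr G : G → ℂ) J = 1 from rfl] at hrel
  have ht : (Cfsg.charDegree (trivIrr G : G → ℂ) : ℂ) = 1 := by rw [← irr_apply_one]; rfl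
  rw [ht] at hf hrel
  simp only [mul_one, div_one] at hf hrel
  have hd1 : (Cfsg.charDegree (χ₁ : G → ℂ) : ℚ) ≠ 0 := by exact_mod_cast (charDegree_pos χ₁).ne'
  have hd2 : (Cfsg.charDegree (χ₂ : G → ℂ) : ℚ) ≠ 0 := by exact_mod_cast (charDegree_pos χ₂).ne'
  have hd3 : (Cfsg.charDegree (χ₃ : G → ℂ) : ℚ) ≠ 0 := by exact_mod_cast (charDegree_pos χ₃).ne'
  set d1 : ℚ := (Cfsg.charDegree (χ₁ : G → ℂ) : ℚ) with e1
  set d2 : ℚ := (Cfsg.charDegree (χ₂ : G → ℂ) : ℚ) with e2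
  set d3 : ℚ := (Cfsg.charDegree (χ₃ : G → ℂ) : ℚ) with e3
  set c : ℚ := (Nat.card (Subgroup.centralizer ({J} : Set G)) : ℚ) with ec
  set q : ℚ := (Nat.card (Subgroup.centralizer ((P : Subgroup G) : Set G)) : ℚ) with eq
  set g : ℚ := (Nat.card G : ℚ) with eg
  set S : ℚ := 1 + ε₁ / d1 + ε₂ / d2 + ε₃ / d3 with eS
  have hf' : g * S * q ^ 2 = 8 * c ^ 3 := by
    refine Rat.cast_injective (α := ℂ) ?_
    simp only [eS, e1, e2, e3, ec, eq, eg]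
    push_cast
    exact hf
  have hrel' : 1 + d1 * ε₁ + d2 * ε₂ + d3 * ε₃ = 0 := by
    refine Rat.cast_injective (α := ℂ) ?_
    simp only [e1, e2, e3]
    push_cast
    exact hrel
  have hq : q ≠ 0 := by
    rw [eq]
    exact_mod_cast (Nat.card_pos (α := Subgroup.centralizer ((P : Subgroup G) : Set G))).ne'
  have hc : c ≠ 0 := by
    rw [ec]
    exact_mod_cast (Nat.card_pos (α := Subgroup.centralizer ({J} : Set G))).ne'
  have hS : S ≠ 0 := fun h => by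
    rw [h, mul_zero, zero_mul] at hf'
    exact (mul_ne_zero (by norm_num) (pow_ne_zero 3 hc)) hf'.symm
  obtain ⟨s1, s2, s3⟩ := hε
  have key : (d1 + ε₁) * (d2 + ε₂) * (d3 + ε₃) = S * (d1 * d2 * d3) := by
    have q1 : (ε₁ : ℚ) * ε₁ = 1 := by rcases s1 with h | h <;> simp [h]
    have q2 : (ε₂ : ℚ) * ε₂ = 1 := by rcases s2 with h | h <;> simp [h]
    have q3 : (ε₃ : ℚ) * ε₃ = 1 := by rcases s3 with h | h <;> simp [h]
    have e : S * (d1 * d2 * d3) = d1 * d2 * d3 + ε₁ * (d2 * d3) + ε₂ * (d1 * d3) + ε₃ * (d1 * d2) := by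
      rw [eS]; field_simp
    rw [e]
    linear_combination (ε₁ : ℚ) * ε₂ * ε₃ * hrel' - d1 * ε₂ * ε₃ * q1 - d2 * ε₁ * ε₃ * q2 - d3 * ε₁ * ε₂ * q3
  rw [key]
  field_simp
  linear_combination hf' 

end Cfsg.Agent.S4479
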