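import Cfsg.Statements.S4480
import Cfsg.Agent.Lib.Blocks.KleinReal
import Cfsg.Agent.S4479

set_option autoImplicit false
open Cfsg

namespace Cfsg.Agent.S4480

set_option linter.style.haveILetI false
open CfsgLib.Chars CfsgLib.Blocks

/-- Same setting as the Klein-four order formula: G of order 4·g₀ (g₀ odd) with no normal 2-complement, P a Sylow 2-subgroup, J an involution of P, M over 2, principal 2-block {1, χ₁, χ₂, χ₃} with χ_i(J) = ε_i = ±1. Suppose ε₁ε₂ε₃ = −1 and ε₃ = −1, and put q = x₃ = χ₃(1). Then there is a natural number m with 4·c(J) = m·c(P)·(q + 1), and the order of G equals (m³·c(P)/4)·(q³ − q)/2, that is 8·#G = m³·c(P)·(q³ − q). -/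
theorem result {G : Type*} [Group G] [Finite G] (M : Ideal Cfsg.AlgInt) (hM : Cfsg.IsPModular 2 M) (g₀ : ℕ) (hg₀ : Odd g₀) (hG : Nat.card G = 4 * g₀) (hnc : ¬ ∃ N : Subgroup G, N.Normal ∧ Nat.card N = g₀) (P : Sylow 2 G) (J : G) (hJ : J ∈ (P : Subgroup G)) (hJ2 : orderOf J = 2) (χ₁ χ₂ χ₃ : Cfsg.IrrCharacter G) (ε₁ ε₂ ε₃ : ℤ) (hB : Cfsg.principalBlock M G = {χ : Cfsg.IrrCharacter G | (χ : G → ℂ) = (fun _ => 1) ∨ χ = χ₁ ∨ χ = χ₂ ∨ χ = χ₃}) (hdist : (χ₁ : G → ℂ) ≠ (fun _ => 1) ∧ (χ₂ : G → ℂ) ≠ (fun _ => 1) ∧ (χ₃ : G → ℂ) ≠ (fun _ => 1) ∧ χ₁ ≠ χ₂ ∧ χ₁ ≠ χ₃ ∧ χ₂ ≠ χ₃) (hε : (ε₁ = 1 ∨ ε₁ = -1) ∧ (ε₂ = 1 ∨ ε₂ = -1) ∧ (ε₃ = 1 ∨ ε₃ = -1)) (hval : (χ₁ : G → ℂ) J = ε₁ ∧ (χ₂ : G → ℂ) J = ε₂ ∧ (χ₃ : G → ℂ) J = ε₃) (hprod : ε₁ * ε₂ * ε₃ = -1) (hε₃ : ε₃ = -1) : ∃ m : ℕ, 4 * Nat.card (Subgroup.centralizer ({J} : Set G)) = m * Nat.card (Subgroup.centralizer ((P : Subgroup G) : Set G)) * (Cfsg.charDegree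 (χ₃ : G → ℂ) + 1) ∧ 8 * Nat.card G = m ^ 3 * Nat.card (Subgroup.centralizer ((P : Subgroup G) : Set G)) * (Cfsg.charDegree (χ₃ : G → ℂ) ^ 3 - Cfsg.charDegree (χ₃ : G → ℂ)) := by
  classical
  haveI : Fintype G := Fintype.ofFinite G
  obtain ⟨hP, hone⟩ := KP.klein_of_no_complement hg₀ hG hnc P
  have hsum := Cfsg.Agent.S4479.block_sum hB hdist
  obtain ⟨n1, n2, n3, n12, n13, n23⟩ := hdist
  obtain ⟨v1, v2, v3⟩ := hval
  obtain ⟨s1, s2, s3⟩ := hε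
  subst hε₃
  have h12 : ε₁ = ε₂ := by rcases s1 with h | h <;> rcases s2 with h' | h' <;> simp [h, h'] at hprod ⊢
  have hrel := KP.orth P hM hP hone hJ2 (y := (1 : G)) (not_dvd_orderOf_one hM)
  rw [hsum, irr_apply_one, irr_apply_one, irr_apply_one, irr_apply_one, v1, v2, v3,
    show (trivIrr G : G → ℂ) J = 1 from rfl,
    show ((Cfsg.charDegree (trivIrr G : G → ℂ) : ℕ) : ℂ) = 1 by rw [← irr_apply_one]; rfl] at hrel
  have p1 := charDegree_pos χ₁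
  have p2 := charDegree_pos χ₂
  have p3 := charDegree_pos χ₃
  have hε1 : ε₁ = 1 := by
    rcases s1 with h | h
    · exact h
    · exfalso
      rw [← h12, h] at hrel
      have : ((1 - (Cfsg.charDegree (χ₁ : G → ℂ) : ℤ) - Cfsg.charDegree (χ₂ : G → ℂ) -
          Cfsg.charDegree (χ₃ : G → ℂ) : ℤ) : ℂ) = ((0 : ℤ) : ℂ) := by
        push_cast at hrel ⊢; linear_combination hrel
      have h' : (1 - (Cfsg.charDegree (χ₁ : G → ℂ) : ℤ) - Cfsg.charDegree (χ₂ : G → ℂ) -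
          Cfsg.charDegree (χ₃ : G → ℂ) : ℤ) = 0 := by exact_mod_cast this
      omega
  rw [hε1] at v1 h12
  rw [← h12] at v2
  rw [Int.cast_one] at v1 v2
  have v3' : (χ₃ : G → ℂ) J = -1 := by rw [v3]; norm_num
  have ne : ∀ χ : Cfsg.IrrCharacter G, (χ : G → ℂ) ≠ (fun _ => 1) → χ ≠ trivIrr G :=
    fun χ h e => h (by rw [e]; rfl)
  have hdeg : Cfsg.charDegree (χ₁ : G → ℂ) = Cfsg.charDegree (χ₂ : G → ℂ) :=
    KP.degree_eq P hM hP hone hJ hJ2 hsum (fun χ hχ => by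
      rw [hB] at hχ
      rcases hχ with h | h
      · exact Or.inl (Subtype.ext h)
      · exact Or.inr h)
      ⟨by rw [hB]; exact Or.inr (Or.inl rfl), by rw [hB]; exact Or.inr (Or.inr (Or.inl rfl)),
        by rw [hB]; exact Or.inr (Or.inr (Or.inr rfl))⟩
      (ne _ n1) (ne _ n2) (ne _ n3) v1 v2 v3'
  -- arithmetic
  set d := Cfsg.charDegree (χ₁ : G → ℂ) with hd
  have hd3 : Cfsg.charDegree (χ₃ : G → ℂ) = 2 * d + 1 := by
    have : ((Cfsg.charDegree (χ₃ : G → ℂ) : ℕ) : ℂ) = ((2 * d + 1 : ℕ) : ℂ) := by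
      rw [hε1, ← h12, ← hdeg] at hrel
      push_cast at hrel ⊢
      linear_combination -hrel
    exact_mod_cast this
  have hf := KP.order_eq P hM hP hone hJ hJ2
  rw [hsum, irr_apply_one, irr_apply_one, irr_apply_one, irr_apply_one, v1, v2, v3',
    show (trivIrr G : G → ℂ) J = 1 from rfl,
    show ((Cfsg.charDegree (trivIrr G : G → ℂ) : ℕ) : ℂ) = 1 by rw [← irr_apply_one]; rfl,
    ← hdeg, ← hd, hd3] at hf
  set c := Nat.card (Subgroup.centralizer ({J} : Set G)) with hc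
  set q := Nat.card (Subgroup.centralizer ((P : Subgroup G) : Set G)) with hq
  -- `q` divides `c`
  have hqc : q ∣ c := Subgroup.card_dvd_of_le (Subgroup.centralizer_le (Set.singleton_subset_iff.mpr hJ))
  obtain ⟨n, hn⟩ := hqc
  have hk : (Subgroup.centralizer ({J} : Set G)).index * c = Nat.card G := Subgroup.index_mul_card _
  set k := (Subgroup.centralizer ({J} : Set G)).index
  have hq0 : 0 < q := Nat.card_pos
  have hc0 : 0 < c := Nat.card_pos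
  have hd0 : (d : ℂ) ≠ 0 := Nat.cast_ne_zero.mpr p1.ne'
  have hd1 : ((d : ℂ) * 2 + 1) ≠ 0 := by exact_mod_cast (show d * 2 + 1 ≠ 0 by omega)
  have key : k * (d + 1) ^ 2 = 4 * n ^ 2 * (d * (2 * d + 1)) := by
    have h1 : (Nat.card G : ℂ) * (2 * ((d : ℂ) + 1) ^ 2) * (q : ℂ) ^ 2 =
        8 * (c : ℂ) ^ 3 * ((d : ℂ) * (2 * d + 1)) := by
      push_cast at hf
      field_simp at hf
      linear_combination hf
    have h2 : Nat.card G * (2 * (d + 1) ^ 2) * q ^ 2 = 8 * c ^ 3 * (d * (2 * d + 1)) := by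
      exact_mod_cast h1
    rw [← hk, hn] at h2
    refine Nat.eq_of_mul_eq_mul_left (show 0 < q ^ 3 * n * 2 from ?_) ?_
    · have : 0 < n := Nat.pos_of_ne_zero fun h => by rw [hn, h, mul_zero] at hc0; omega
      positivity
    · linarith [h2]
  have hdvd : d + 1 ∣ 2 * n := by
    have h1 : (d + 1) ^ 2 ∣ 4 * n ^ 2 * (d * (2 * d + 1)) := ⟨k, by rw [← key]; ring⟩
    have h2 : Nat.Coprime (d + 1) (d * (2 * d + 1)) := by
      refine Nat.Coprime.mul_right (Nat.coprime_self_add_left.mpr (Nat.coprime_one_left d)) ?_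
      refine Nat.Coprime.symm ?_
      rw [show 2 * d + 1 = d + (d + 1) by omega, Nat.coprime_add_self_left]
      exact Nat.coprime_self_add_right.mpr (Nat.coprime_one_right d)
    have h3 := (h2.pow_left 2).dvd_of_dvd_mul_right h1
    rw [show 4 * n ^ 2 = (2 * n) ^ 2 by ring] at h3
    exact (Nat.pow_dvd_pow_iff two_ne_zero).mp h3
  obtain ⟨m, hm⟩ := hdvd
  refine ⟨m, ?_, ?_⟩
  · rw [hd3, hn]
    calc 4 * (q * n) = 2 * q * (2 * n) := by ring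
      _ = _ := by rw [hm]; ring
  · rw [hd3]
    refine Nat.eq_of_mul_eq_mul_left (show 0 < (d + 1) ^ 2 from by positivity) ?_
    have e : (2 * d + 1) ^ 3 - (2 * d + 1) = 4 * d * (d + 1) * (2 * d + 1) := by
      rw [Nat.sub_eq_iff_eq_add (Nat.le_self_pow (by norm_num) _)]
      ring
    rw [e, ← hk, hn]
    calc (d + 1) ^ 2 * (8 * (k * (q * n))) = 8 * q * n * (k * (d + 1) ^ 2) := by ring
      _ = 4 * q * d * (2 * d + 1) * (2 * n) ^ 3 := by rw [key]; ring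
      _ = _ := by rw [hm]; ring

end Cfsg.Agent.S4480
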