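import Cfsg.Statements.S4481
import Cfsg.Agent.Lib.Blocks.DihedralValues

set_option autoImplicit false
open Cfsg

namespace Cfsg.Agent.S4481

/-- The principal 2-block of a group with dihedral Sylow 2-subgroups. Let G be a finite group whose Sylow 2-subgroup P is dihedral of order 2^n ≥ 8, let σ be an element of P of order 2^(n−1), ζ a primitive 2^(n−1)-th root of unity, and M a maximal ideal of the algebraic integers containing 2. Then the principal 2-block consists of exactly 3 + 2^(n−2) irreducible characters, which can be labelled 1, χ₁, χ₂, χ₃ and χ^(j) for 1 ≤ j ≤ 2^(n−2) − 1 (all distinct), with signs δ₁, δ₂, δ₃ such that for 0 < λ < 2^(n−1): χ₁(σ^λ) = δ₁, χ₂(σ^λ) = δ₂(−1)^(λ+1), χ₃(σ^λ) = δ₃(−1)^(λ+1) and χ^(j)(σ^λ) = δ₁(ζ^(jλ) + ζ^(−jλ));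 and for every element ρ of odd order and every j: 1 + δ₁χ₁(ρ) = −δ₂χ₂(ρ) − δ₃χ₃(ρ) = δ₁χ^(j)(ρ). -/
theorem result {G : Type*} [Group G] [Finite G] (M : Ideal Cfsg.AlgInt) (hM : Cfsg.IsPModular 2 M) (n : ℕ) (hn : 3 ≤ n) (P : Sylow 2 G) (hP : Nonempty ((P : Subgroup G) ≃* DihedralGroup (2 ^ (n - 1)))) (σ : G) (hσ : σ ∈ (P : Subgroup G)) (hσo : orderOf σ = 2 ^ (n - 1)) (ζ : ℂ) (hζ : IsPrimitiveRoot ζ (2 ^ (n - 1))) : Nat.card (Cfsg.principalBlock M G) = 3 + 2 ^ (n - 2) ∧ ∃ (χ₁ χ₂ χ₃ : Cfsg.IrrCharacter G) (χ' : Fin (2 ^ (n - 2) - 1) → Cfsg.IrrCharacter G) (δ₁ δ₂ δ₃ : ℤ), (δ₁ = 1 ∨ δ₁ = -1) ∧ (δ₂ = 1 ∨ δ₂ = -1) ∧ (δ₃ = 1 ∨ δ₃ = -1) ∧ Function.Injective χ' ∧ (χ₁ : G → ℂ) ≠ (fun _ => 1) ∧ (χ₂ : G → ℂ) ≠ (fun _ => 1) ∧ (χ₃ : G → ℂ) ≠ (fun _ => 1) ∧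 χ₁ ≠ χ₂ ∧ χ₁ ≠ χ₃ ∧ χ₂ ≠ χ₃ ∧ (∀ j, χ' j ≠ χ₁ ∧ χ' j ≠ χ₂ ∧ χ' j ≠ χ₃ ∧ (χ' j : G → ℂ) ≠ (fun _ => 1)) ∧ Cfsg.principalBlock M G = {χ : Cfsg.IrrCharacter G | (χ : G → ℂ) = (fun _ => 1) ∨ χ = χ₁ ∨ χ = χ₂ ∨ χ = χ₃ ∨ ∃ j, χ = χ' j} ∧ (∀ l : ℕ, 0 < l → l < 2 ^ (n - 1) → (χ₁ : G → ℂ) (σ ^ l) = δ₁ ∧ (χ₂ : G → ℂ) (σ ^ l) = δ₂ * (-1) ^ (l + 1) ∧ (χ₃ : G → ℂ) (σ ^ l) = δ₃ * (-1) ^ (l + 1) ∧ ∀ j : Fin (2 ^ (n - 2) - 1), (χ' j : G → ℂ) (σ ^ l) = δ₁ * (ζ ^ (((j : ℕ) + 1) * l) + (ζ ^ (((j : ℕ) + 1) * l))⁻¹)) ∧ ∀ ρ : G, Odd (orderOf ρ) → ∀ j : Fin (2 ^ (n - 2) - 1), 1 + δ₁ * (χ₁ : G → ℂ) ρ = -δ₂ * (χ₂ : G → ℂ) ρ - δ₃ * (χ₃ : G → ℂ) ρ ∧ 1 + δ₁ * (χ₁ : G → ℂ) ρ = δ₁ * (χ' j : G → ℂ) ρ := by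
  haveI : Fintype G := Fintype.ofFinite G
  obtain ⟨e⟩ := hP
  obtain ⟨τ, D⟩ := CfsgLib.Blocks.DH.isDih_of_iso hn hσ hσo e
  obtain ⟨S⟩ := CfsgLib.Blocks.DH.nonempty_shape D hζ hM
  have hne : ∀ χ : Cfsg.IrrCharacter G, χ ≠ CfsgLib.Blocks.trivIrr G → (χ : G → ℂ) ≠ fun _ => 1 :=
    fun χ h e => h (Subtype.ext e)
  refine ⟨S.card_block, S.χ₁, S.χ₂, S.χ₃, S.η, S.δ₁, S.δ₂, S.δ₃, S.sign₁, S.sign₂, S.sign₃, S.η_inj,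
    hne _ S.ne₁, hne _ S.ne₂, hne _ S.ne₃, S.ne₁₂, S.ne₁₃, S.ne₂₃,
    fun j => ⟨(S.η_ne j).1, (S.η_ne j).2.1, (S.η_ne j).2.2.1, hne _ (S.η_ne j).2.2.2⟩, ?_, ?_,
    fun ρ hρ j => S.regular hM (Nat.two_dvd_ne_zero.mpr (Nat.odd_iff.mp hρ)) j⟩
  · ext χ
    rw [S.block, Set.mem_ofPred_eq]
    exact or_congr ⟨fun h => h ▸ rfl, fun h => Subtype.ext h⟩ Iff.rfl
  · intro l h0 hl
    refine ⟨S.value₁ h0 hl, ?_, ?_, fun j => S.valueη j h0 hl⟩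
    · rw [CfsgLib.Blocks.DH.value_sign D hζ S.U₂ h0 hl, S.Us₂, Int.cast_neg, pow_succ]; ring
    · rw [CfsgLib.Blocks.DH.value_sign D hζ S.U₃ h0 hl, S.Us₃, Int.cast_neg, pow_succ]; ring


end Cfsg.Agent.S4481
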