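import Cfsg.Statements.S4483
import Cfsg.Agent.Lib.Blocks.RealBlock
import Cfsg.Agent.Lib.Blocks.BrauerFeit

set_option autoImplicit false
open Cfsg

namespace Cfsg.Agent.S4483

open CfsgLib.Chars CfsgLib.Blocks

/-- Let G be a finite group of order 2^n·g₀ with g₀ odd, and M a maximal ideal of the algebraic integers containing 2. Every real-valued irreducible character of G of odd degree lies in the principal 2-block; consequently G has at most 2^(2n) real-valued irreducible characters of odd degree. -/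
theorem result {G : Type*} [Group G] [Finite G] (M : Ideal Cfsg.AlgInt) (hM : Cfsg.IsPModular 2 M) : (∀ χ : Cfsg.IrrCharacter G, (∀ g : G, ((χ : G → ℂ) g).im = 0) → Odd (Cfsg.charDegree (χ : G → ℂ)) → χ ∈ Cfsg.principalBlock M G) ∧ Nat.card {χ : Cfsg.IrrCharacter G // (∀ g : G, ((χ : G → ℂ) g).im = 0) ∧ Odd (Cfsg.charDegree (χ : G → ℂ))} ≤ 2 ^ (2 * (Nat.card G).factorization 2) := by
  haveI := Fintype.ofFinite G
  classical
  have hmain : ∀ χ : Cfsg.IrrCharacter G, (∀ g : G, ((χ : G → ℂ) g).im = 0) →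
      Odd (Cfsg.charDegree (χ : G → ℂ)) → χ ∈ Cfsg.principalBlock M G := by
    intro χ hr ho
    refine mem_principal_of_real hM (fun h => Nat.not_even_iff_odd.mpr ho (even_iff_two_dvd.mpr h)) ?_
    have e : conjChar χ = χ :=
      Subtype.ext (funext fun g => Complex.conj_eq_iff_im.mpr (hr g))
    rw [e]
    exact sameBlock_refl hM _
  refine ⟨hmain, ?_⟩
  have h1 := four_mul_sum_height_le hM (isPBlock_principalBlock (M := M) (G := G))
  set S := Finset.univ.filter (· ∈ Cfsg.principalBlock M G)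
  have h2 : Nat.card {χ : Cfsg.IrrCharacter G // (∀ g : G, ((χ : G → ℂ) g).im = 0) ∧
      Odd (Cfsg.charDegree (χ : G → ℂ))} ≤ S.card := by
    rw [Nat.card_eq_fintype_card, Fintype.card_subtype]
    exact Finset.card_le_card fun χ hχ => Finset.mem_filter.mpr ⟨Finset.mem_univ _,
      hmain χ (Finset.mem_filter.mp hχ).2.1 (Finset.mem_filter.mp hχ).2.2⟩
  have h3 : S.card ≤ ∑ χ ∈ S, 2 ^ (2 * blockHeight 2 (Cfsg.principalBlock M G) (χ : G → ℂ)) := by
    rw [Finset.card_eq_sum_ones]
    exact Finset.sum_le_sum fun χ _ => Nat.one_le_pow _ _ two_pos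
  have h4 : (2 : ℕ) ^ (2 * blockDefect 2 (Cfsg.principalBlock M G)) ≤
      2 ^ (2 * (Nat.card G).factorization 2) :=
    Nat.pow_le_pow_right two_pos (Nat.mul_le_mul_left 2 (Nat.sub_le _ _))
  have h5 : 1 ≤ 2 ^ (2 * (Nat.card G).factorization 2) := Nat.one_le_two_pow
  omega

end Cfsg.Agent.S4483
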