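import Cfsg.Statements.S4485
import Cfsg.Agent.Lib.Blocks.SmallDegree

set_option autoImplicit false
open Cfsg

namespace Cfsg.Agent.S4485
open CfsgLib.Chars CfsgLib.Blocks
/-- Let G be a finite group and p a prime dividing its order such that every non-identity element of a Sylow p-subgroup P has the same centralizer as P itself (so P is abelian); let p^n be the order of P. If G has a faithful character of degree x with x² < p^n − 1, then P is normal in G. -/
theorem result {G : Type*} [Group G] [Finite G] (p : ℕ) (hp : p.Prime) (hpG : p ∣ Nat.card G) (P : Sylow p G) (hstar : ∀ x ∈ (P : Subgroup G), x ≠ 1 → Subgroup.centralizer ({x} : Set G) = Subgroup.centralizer ((P : Subgroup G) : Set G)) (n : ℕ) (hn : Nat.card P = p ^ n) (χ : G → ℂ) (hχ : Cfsg.IsCharacter G χ) (hfaith : ∀ g : G, χ g = χ 1 → g = 1) (hdeg : Cfsg.charDegree χ ^ 2 + 1 < p ^ n) : (P : Subgroup G).Normal := by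
  classical
  haveI : Fact p.Prime := ⟨hp⟩
  haveI : Fintype G := Fintype.ofFinite G
  set G₀ := Subgroup.normalClosure ((P : Subgroup G) : Set G) with hG₀
  haveI : G₀.Normal := Subgroup.normalClosure_normal
  have hle : (P : Subgroup G) ≤ G₀ := fun x hx => Subgroup.subset_normalClosure hx
  set P₀ : Sylow p G₀ := P.subtype hle with hP₀
  have hcard : Nat.card (P₀ : Subgroup G₀) = p ^ n := by
    rw [← hn]; exact Nat.card_congr (Subgroup.subgroupOfEquivOfLe hle).toEquiv
  have hU : SD.Uniform P₀ := by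
    intro x hx hx1
    have h := hstar (x : G) hx (fun e => hx1 (Subtype.ext e))
    ext g
    rw [Subgroup.mem_centralizer_singleton_iff, Subgroup.mem_centralizer_iff]
    constructor
    · intro hg y hy
      have hg' : (g : G) ∈ Subgroup.centralizer ({(x : G)} : Set G) :=
        Subgroup.mem_centralizer_singleton_iff.mpr (congrArg Subtype.val hg)
      rw [h] at hg'
      exact Subtype.ext (Subgroup.mem_centralizer_iff.mp hg' (y : G) hy)
    · intro hg
      exact (hg x hx).symm
  have hgen : Subgroup.normalClosure ((P₀ : Subgroup G₀) : Set G₀) = ⊤ := by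
    set K := Subgroup.normalClosure ((P₀ : Subgroup G₀) : Set G₀)
    haveI : K.Normal := Subgroup.normalClosure_normal
    have hall : ∀ Q : Sylow p G₀, (Q : Subgroup G₀) ≤ K := by
      intro Q
      obtain ⟨a, ha⟩ := MulAction.exists_smul_eq G₀ P₀ Q
      rw [← ha, Sylow.coe_subgroup_smul]
      intro y hy
      rw [Subgroup.mem_pointwise_smul_iff_inv_smul_mem] at hy
      have := ‹K.Normal›.conj_mem _ (Subgroup.subset_normalClosure hy) a
      simpa [MulAut.smul_def, mul_assoc] using this
    have hle' : G₀ ≤ K.map G₀.subtype := by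
      conv_lhs => rw [hG₀, Subgroup.normalClosure]
      rw [Subgroup.closure_le]
      intro y hy
      obtain ⟨x, hx, hxy⟩ := Group.mem_conjugatesOfSet_iff.mp hy
      have hyG : y ∈ G₀ := Subgroup.conjugatesOfSet_subset_normalClosure hy
      obtain ⟨k, hk⟩ := IsPGroup.iff_orderOf.mp P.2 (⟨x, hx⟩ : (P : Subgroup G))
      obtain ⟨c, hc⟩ := isConj_iff.mp hxy
      have ho : orderOf (⟨y, hyG⟩ : G₀) = p ^ k := by
        rw [Subgroup.orderOf_mk, ← hc, show c * x * c⁻¹ = MulAut.conj c x from rfl, MulEquiv.orderOf_eq,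
          ← hk, Subgroup.orderOf_mk]
      obtain ⟨Q, hQ⟩ := (IsPGroup.of_card (G := Subgroup.zpowers (⟨y, hyG⟩ : G₀)) (n := k)
        (by rw [Nat.card_zpowers, ho])).exists_le_sylow
      exact ⟨⟨y, hyG⟩, hall Q (hQ (Subgroup.mem_zpowers _)), rfl⟩
    refine eq_top_iff.mpr fun g _ => ?_
    obtain ⟨k, hk, hkg⟩ := hle' g.2
    rwa [← Subtype.ext hkg]
  obtain ⟨l, hl⟩ := exists_list_irr (IsCharacter.restrict hχ G₀)
  have hsum : ∀ (l : List (Cfsg.IrrCharacter G₀)) (x : G₀),
      (l.map Subtype.val).sum x = (l.map fun θ : Cfsg.IrrCharacter G₀ => (θ : G₀ → ℂ) x).sum := by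
    intro l x
    induction l with
    | nil => rfl
    | cons a l ih => rw [List.map_cons, List.sum_cons, List.map_cons, List.sum_cons, Pi.add_apply, ih]
  have hlin : ∀ θ ∈ l, Cfsg.charDegree (θ : G₀ → ℂ) = 1 := by
    intro θ hθ
    refine SD.degree_eq_one hU hgen θ ?_
    rw [hcard]
    refine lt_of_le_of_lt (Nat.add_le_add_right (Nat.pow_le_pow_left ?_ 2) 1) hdeg
    have h1 : ((l.map Subtype.val).sum : G₀ → ℂ) 1 = ((l.map fun θ : Cfsg.IrrCharacter G₀ =>
        Cfsg.charDegree (θ : G₀ → ℂ)).sum : ℂ) := by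
      rw [hsum, Nat.cast_list_sum, List.map_map]
      exact congrArg List.sum (List.map_congr_left fun θ _ => irr_apply_one θ)
    have h2 : (Cfsg.charDegree χ : ℂ) = ((l.map fun θ : Cfsg.IrrCharacter G₀ =>
        Cfsg.charDegree (θ : G₀ → ℂ)).sum : ℂ) := by
      rw [← h1, ← IsCharacter.apply_one hχ]
      exact congrFun hl 1
    rw [Nat.cast_inj.mp h2]
    exact List.le_sum_of_mem (List.mem_map_of_mem hθ)
  have hab : ∀ a b : G₀, a * b = b * a := by
    intro a b
    have hval : χ ((a * b * (b * a)⁻¹ : G₀) : G) = χ 1 := by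
      have e1 := congrFun hl (a * b * (b * a)⁻¹)
      have e2 := congrFun hl 1
      change χ ((a * b * (b * a)⁻¹ : G₀) : G) = _ at e1
      change χ ((1 : G₀) : G) = _ at e2
      rw [OneMemClass.coe_one] at e2
      rw [e1, e2, hsum, hsum]
      refine congrArg List.sum (List.map_congr_left fun θ hθ => ?_)
      have h1 : (θ : G₀ → ℂ) 1 = 1 := by rw [irr_apply_one, hlin θ hθ, Nat.cast_one]
      obtain ⟨f, hf⟩ := exists_homIrr θ (hlin θ hθ)
      rw [← hf]
      change ((f (a * b * (b * a)⁻¹) : ℂˣ) : ℂ) = ((f 1 : ℂˣ) : ℂ)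
      rw [map_mul, map_inv, map_mul, map_mul, mul_comm (f b), mul_inv_cancel, map_one]
    exact mul_inv_eq_one.mp (Subtype.ext (hfaith _ hval))
  have hP₀n : (P₀ : Subgroup G₀).Normal := ⟨fun y hy g => by
    rwa [hab g y, mul_inv_cancel_right]⟩
  haveI := P₀.characteristic_of_normal hP₀n
  have : ((P₀ : Subgroup G₀).map G₀.subtype).Normal := inferInstance
  rwa [hP₀, Sylow.coe_subtype, Subgroup.map_subgroupOf_eq_of_le hle] at this


end Cfsg.Agent.S4485
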