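import Cfsg.Statements.S4486
import Cfsg.Agent.Lib.Blocks.SmallDegree

set_option autoImplicit false
open Cfsg

namespace Cfsg.Agent.S4486
open CfsgLib.Chars CfsgLib.Blocks
/-- Let G be a finite group and p a prime dividing its order such that every non-identity element of a Sylow p-subgroup P has the same centralizer as P; let p^n be the order of P. If G has a non-principal irreducible character χ of degree x with x² < p^n − 1, then either G has a proper normal subgroup containing P, or G has a normal subgroup of index p^n and x = 1. -/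
theorem result {G : Type*} [Group G] [Finite G] (p : ℕ) (hp : p.Prime) (hpG : p ∣ Nat.card G) (P : Sylow p G) (hstar : ∀ x ∈ (P : Subgroup G), x ≠ 1 → Subgroup.centralizer ({x} : Set G) = Subgroup.centralizer ((P : Subgroup G) : Set G)) (n : ℕ) (hn : Nat.card P = p ^ n) (χ : Cfsg.IrrCharacter G) (h1 : (χ : G → ℂ) ≠ fun _ => 1) (hdeg : Cfsg.charDegree (χ : G → ℂ) ^ 2 + 1 < p ^ n) : (∃ K : Subgroup G, K.Normal ∧ K ≠ ⊤ ∧ (P : Subgroup G) ≤ K) ∨ ((∃ N : Subgroup G, N.Normal ∧ N.index = p ^ n) ∧ Cfsg.charDegree (χ : G → ℂ) = 1) := by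
  classical
  haveI : Fact p.Prime := ⟨hp⟩
  haveI : Fintype G := Fintype.ofFinite G
  by_cases hgen : Subgroup.normalClosure ((P : Subgroup G) : Set G) = ⊤
  swap
  · exact Or.inl ⟨_, Subgroup.normalClosure_normal, hgen, fun x hx => Subgroup.subset_normalClosure hx⟩
  have hd1 := SD.degree_eq_one hstar hgen χ (by rw [hn]; exact hdeg)
  refine Or.inr ⟨?_, hd1⟩
  obtain ⟨f, hf⟩ := exists_homIrr χ hd1
  haveI := SD.comm_of_uniform (P := P) hstar
  have hF := SD.frob_of_uniform (P := P) hstar
  let f₀ : (P : Subgroup G) →* ℂˣ := f.comp (P : Subgroup G).subtype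
  have hf₀ : f₀ ≠ 1 := by
    intro e
    refine h1 ?_
    have hK : Subgroup.normalClosure ((P : Subgroup G) : Set G) ≤ f.ker :=
      Subgroup.normalClosure_le_normal fun x hx => MonoidHom.mem_ker.mpr
        (DFunLike.congr_fun e ⟨x, hx⟩)
    rw [← hf]
    funext g
    change ((f g : ℂˣ) : ℂ) = 1
    rw [MonoidHom.mem_ker.mp (hK (hgen ▸ Subgroup.mem_top g)), Units.val_one]
  have htriv : ∀ α ∈ FS.autGroup P, α = 1 := by
    intro α hα
    by_contra hne
    refine hf₀ (FS.free_dual hF hα hne (MonoidHom.ext fun x => ?_))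
    obtain ⟨k, -, hk⟩ := FS.mem_autGroup.mp hα
    change f ((α x : (P : Subgroup G)) : G) = f (x : G)
    rw [hk x, map_mul, map_mul, map_inv, mul_comm (f k), mul_inv_cancel_right]
  have hnorm : Subgroup.normalizer ((P : Subgroup G) : Set G) ≤
      Subgroup.centralizer ((P : Subgroup G) : Set G) := by
    intro k hk
    rw [Subgroup.mem_centralizer_iff]
    intro y hy
    have h := htriv _ ⟨⟨k, hk⟩, rfl⟩
    have h2 := congrArg Subtype.val (DFunLike.congr_fun h ⟨y, hy⟩)
    change k * y * k⁻¹ = y at h2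
    exact (mul_inv_eq_iff_eq_mul.mp h2).symm
  obtain ⟨R, N, hN, hNc⟩ := CfsgLib.FocalTransfer.npc_of_normalizer_le P hnorm
  refine ⟨N, hN, ?_⟩
  rw [hNc.symm.index_eq_card, R.card_eq_multiplicity, ← P.card_eq_multiplicity, hn]


end Cfsg.Agent.S4486
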