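import Cfsg.Statements.S4487
import Cfsg.Agent.Lib.Blocks.BrauerInduce
import Cfsg.Agent.Lib.Blocks.Orth
import Cfsg.Agent.Lib.Core

set_option autoImplicit false
open Cfsg

namespace Cfsg.Agent.S4487

open CfsgLib.Chars CfsgLib.Blocks

/-- Let G be a finite group and p a prime such that G has no non-trivial normal subgroup of order prime to p and C_G(O_p(G)) ≤ O_p(G). Then G has a single p-block: any two irreducible characters lie in the same block relative to every maximal ideal M of the algebraic integers containing p. -/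
theorem result {G : Type*} [Group G] [Finite G] (p : ℕ) [Fact p.Prime] (M : Ideal Cfsg.AlgInt) (hM : Cfsg.IsPModular p M) (hcore : Cfsg.pPrimeCore p G = ⊥) (hconstr : Subgroup.centralizer ((Cfsg.pCore p G) : Set G) ≤ Cfsg.pCore p G) (χ ψ : Cfsg.IrrCharacter G) : Cfsg.SameBlock M (χ : G → ℂ) (ψ : G → ℂ) := by
  classical
  haveI : Fintype G := Fintype.ofFinite G
  haveI : Fact p.Prime := ⟨hM.1⟩
  haveI : (pCore p G).Normal := by
    haveI := CfsgLib.Core.pCore_characteristic (G := G) p
    infer_instance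
  obtain ⟨B, hB, hχB⟩ : ∃ B, IsPBlock M B ∧ χ ∈ B :=
    ⟨_, isPBlock_blockOf χ, self_mem_blockOf hM χ⟩
  have hsupp : ∀ y : G, y ≠ 1 → blockCoeff B y = 0 := by
    intro y hy
    by_cases hC : y ∈ Subgroup.centralizer (pCore p G : Set G)
    · obtain ⟨k, hk⟩ := IsPGroup.iff_orderOf.mp (CfsgLib.Core.isPGroup_pCore p) ⟨y, hconstr hC⟩
      refine blockCoeff_eq_zero_of_singular hM hB ?_
      rw [Subgroup.orderOf_mk] at hk
      rw [hk]
      rcases Nat.eq_zero_or_pos k with rfl | hk0
      · exact absurd (orderOf_eq_one_iff.mp (by simpa using hk)) hy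
      · exact dvd_pow_self p hk0.ne'
    · exact blockCoeff_eq_zero_of_notMem hM (pCore p G) (CfsgLib.Core.isPGroup_pCore p) hB hC
  have hω : ∀ φ : IrrCharacter G, omega (φ : G → ℂ) (blockCoeff B) = blockCoeff B 1 := by
    intro φ
    rw [omega, Finset.sum_eq_single (1 : G) (fun y _ hy => by rw [hsupp y hy, zero_mul])
      (fun h => absurd (Finset.mem_univ _) h), mul_div_cancel_right₀ _ (irr_one_ne_zero φ)]
  have h1 := hω χ
  have h2 := hω ψ
  rw [omega_blockCoeff, indic_of_mem hχB] at h1
  rw [omega_blockCoeff, ← h1] at h2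
  have hψB : ψ ∈ B := by
    by_contra h
    rw [indic_of_notMem h] at h2
    exact zero_ne_one h2
  exact IsPBlock.sameBlock hM hB hχB hψB

end Cfsg.Agent.S4487
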