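import Cfsg.Statements.S4490
import Cfsg.Agent.Lib.Blocks.RealBlock
import Cfsg.Agent.Lib.Blocks.HeightZero

set_option autoImplicit false
open Cfsg

namespace Cfsg.Agent.S4490

open CfsgLib.Chars CfsgLib.Blocks

/-- Let G be a finite group and M a maximal ideal of the algebraic integers containing 2. Every 2-block B of G whose defect groups are the Sylow 2-subgroups of G (a block of full defect) and which is not the principal block is different from its complex-conjugate block, the block formed by the complex conjugates of the members of B. -/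
theorem result {G : Type*} [Group G] [Finite G] (M : Ideal Cfsg.AlgInt) (hM : Cfsg.IsPModular 2 M) (B : Set (Cfsg.IrrCharacter G)) (hB : Cfsg.IsPBlock M B) (P : Sylow 2 G) (hfull : Cfsg.IsDefectGroup 2 M B (P : Subgroup G)) (hnp : B ≠ Cfsg.principalBlock M G) : {ψ : Cfsg.IrrCharacter G | ∃ χ ∈ B, (ψ : G → ℂ) = fun g => (starRingEnd ℂ) ((χ : G → ℂ) g)} ≠ B := by
  classical
  haveI := Fintype.ofFinite G
  intro hreal
  obtain ⟨χ, hχ, h0⟩ := exists_height_zero hM hB
  have hd := card_defectGroup hM hB hfull
  haveI : Fact (Nat.Prime 2) := ⟨hM.1⟩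
  rw [P.card_eq_multiplicity] at hd
  have hd' := Nat.pow_right_injective le_rfl hd
  have h1 := minExp_add_defect (p := 2) hχ
  have h2 := minExp_add_height (p := 2) hχ
  have hodd : ¬ 2 ∣ charDegree (χ : G → ℂ) := by
    intro h
    have := hM.1.factorization_pos_of_dvd (charDegree_pos χ).ne' h
    omega
  have hc : conjChar χ ∈ B := hreal ▸ ⟨χ, hχ, rfl⟩
  have hp := mem_principal_of_real hM hodd (IsPBlock.sameBlock hM hB hχ hc)
  exact hnp (IsPBlock.eq_of_mem hM hB isPBlock_principalBlock hχ hp)

end Cfsg.Agent.S4490
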