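import Cfsg.Statements.S4493
import Cfsg.Agent.Lib.Chars.Clifford
import Cfsg.Agent.Lib.CliffordCorr
import Cfsg.Agent.Lib.CharAbelian
import Cfsg.Agent.Lib.Chars.Kernel
import Cfsg.Agent.Lib.Blocks.Cover
import Cfsg.Agent.Lib.GroupB.SylowNumber
import Cfsg.Agent.S0169

set_option autoImplicit false
open Cfsg

namespace Cfsg.Agent.S4493

set_option linter.style.haveILetI false
open scoped commutatorElement
open CfsgLib.Chars CfsgLib.Blocks

universe v

theorem exists_normal_abelian {G : Type v} [Group G] [Finite G] [Nontrivial G] (hs : Group.IsSolvable G) :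
    ∃ (q : ℕ) (N : Subgroup G), q.Prime ∧ N.Normal ∧ N ≠ ⊥ ∧ IsPGroup q N ∧ ∀ a ∈ N, ∀ b ∈ N, a * b = b * a := by
  classical
  obtain ⟨n, hn⟩ := hs.solvable
  have h1 : ∃ m, derivedSeries G m = ⊥ := ⟨n, hn⟩
  have hk : Nat.find h1 ≠ 0 := fun h => by
    have h2 := Nat.find_spec h1
    rw [h, derivedSeries_zero] at h2
    exact top_ne_bot h2
  obtain ⟨k, hk'⟩ := Nat.exists_eq_succ_of_ne_zero hk
  set A := derivedSeries G k with hA
  have hAne : A ≠ ⊥ := Nat.find_min h1 (by omega)
  have hAc : ∀ a ∈ A, ∀ b ∈ A, a * b = b * a := by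
    have h2 := Nat.find_spec h1
    rw [hk', derivedSeries_succ, Subgroup.commutator_eq_bot_iff_le_centralizer] at h2
    intro a ha b hb
    exact (Subgroup.mem_centralizer_iff.mp (h2 ha) b hb).symm
  haveI : A.Normal := derivedSeries_normal G k
  have hq1 : Nat.card A ≠ 1 := fun h => hAne (Subgroup.eq_bot_of_card_eq _ h)
  obtain ⟨q, hq, hqd⟩ := Nat.exists_prime_and_dvd hq1
  haveI := Fact.mk hq
  obtain ⟨Q⟩ := (inferInstance : Nonempty (Sylow q A))
  haveI hQn : (Q : Subgroup A).Normal :=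
    ⟨fun x hx g => by
      have : g * x * g⁻¹ = x := by
        rw [show g * x = x * g from Subtype.ext (hAc g g.2 x x.2), mul_inv_cancel_right]
      rwa [this]⟩
  haveI : (Q : Subgroup A).Characteristic := Q.characteristic_of_normal hQn
  refine ⟨q, (Q : Subgroup A).map A.subtype, hq, inferInstance, ?_, Q.2.map _, ?_⟩
  · rw [Ne, Subgroup.map_eq_bot_iff_of_injective _ A.subtype_injective]
    exact Q.ne_bot_of_dvd_card hqd
  · rintro _ ⟨a, -, rfl⟩ _ ⟨b, -, rfl⟩
    exact hAc a a.2 b b.2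

/-- A normal abelian subgroup meets every character in linear constituents. -/
theorem linear_of_abelian {G : Type v} [Group G] [Finite G] (P : Subgroup G) (hP : ∀ a ∈ P, ∀ b ∈ P, a * b = b * a)
    (θ : IrrCharacter P) : charDegree (θ : P → ℂ) = 1 :=
  charDegree_eq_one_of_comm (fun a b => Subtype.ext (hP a a.2 b b.2)) θ

theorem abelian_of_linear {P : Type v} [Group P] [Finite P] (h : ∀ θ : IrrCharacter P, charDegree (θ : P → ℂ) = 1) :
    ∀ a b : P, a * b = b * a := by
  have h1 := card_linear (G := P)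
  rw [Nat.card_congr (Equiv.subtypeUnivEquiv h), card_irr] at h1
  haveI := Fintype.ofFinite P
  classical
  have h2 : ∑ χ : IrrCharacter P, charDegree (χ : P → ℂ) ^ 2 = Nat.card P := sum_deg_sq
  simp only [h, one_pow, Finset.sum_const, smul_eq_mul, mul_one, Finset.card_univ,
    ← Nat.card_eq_fintype_card, card_irr, h1] at h2
  have hb : commutator P = ⊥ := Subgroup.card_eq_one.mp (by
    have h5 := (commutator P).card_mul_index
    rw [← h2] at h5
    exact (Nat.mul_eq_right (Subgroup.index_ne_zero_of_finite)).mp h5)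
  intro a b
  have h3 : a * b * a⁻¹ * b⁻¹ ∈ commutator P := Subgroup.commutator_mem_commutator (Subgroup.mem_top a) (Subgroup.mem_top b)
  rw [hb, Subgroup.mem_bot] at h3
  rwa [mul_inv_eq_one, mul_inv_eq_iff_eq_mul] at h3

theorem deg_dvd_over {G : Type v} [Group G] [Fintype G] (M : Subgroup G) [M.Normal] [Fintype M] (θ : IrrCharacter M) :
    ∃ χ : IrrCharacter G, classInner (fun n : M => (χ : G → ℂ) n) (θ : M → ℂ) ≠ 0 ∧
      (orbit M θ).card * charDegree (θ : M → ℂ) ∣ charDegree (χ : G → ℂ) := by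
  obtain ⟨χ, hχ⟩ := exists_over M θ
  obtain ⟨e, -, -, -, hd⟩ := clifford M χ θ hχ
  exact ⟨χ, hχ, ⟨e, by rw [hd]; ring⟩⟩

theorem hard (n : ℕ) : ∀ (G : Type v) [Group G] [Finite G], Nat.card G = n → Group.IsSolvable G →
    ∀ p : ℕ, p.Prime → (∀ χ : IrrCharacter G, ¬ p ∣ charDegree (χ : G → ℂ)) →
    ∃ P : Subgroup G, P.Normal ∧ (∀ x ∈ P, ∀ y ∈ P, x * y = y * x) ∧ IsPGroup p P ∧ ¬ p ∣ P.index := by
  induction n using Nat.strong_induction_on with
  | _ n ih =>
  intro G _ _ hn hs p hp hdeg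
  classical
  haveI := Fintype.ofFinite G
  haveI := Fact.mk hp
  by_cases hpG : p ∣ Nat.card G
  swap
  · exact ⟨⊥, inferInstance, fun x hx y hy => by rw [Subgroup.mem_bot.mp hx, Subgroup.mem_bot.mp hy],
      IsPGroup.of_bot, by rwa [Subgroup.index_bot]⟩
  obtain ⟨S⟩ := (inferInstance : Nonempty (Sylow p G))
  suffices hSn : (S : Subgroup G).Normal by
    haveI := hSn
    haveI := Fintype.ofFinite (S : Subgroup G)
    refine ⟨S, hSn, ?_, S.2, S.not_dvd_index⟩
    have hlin : ∀ θ : IrrCharacter (S : Subgroup G), charDegree (θ : ↥(S : Subgroup G) → ℂ) = 1 := by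
      intro θ
      obtain ⟨χ, -, hd⟩ := deg_dvd_over (S : Subgroup G) θ
      obtain ⟨k, hk⟩ := IsPGroup.iff_card.mp S.2
      obtain ⟨j, -, hj⟩ := (Nat.dvd_prime_pow hp).mp (hk ▸ charDegree_dvd θ)
      rcases Nat.eq_zero_or_pos j with rfl | hjp
      · simpa using hj
      · exact absurd ((dvd_pow_self p hjp.ne').trans (hj ▸ (dvd_mul_left _ _).trans hd)) (hdeg χ)
    intro x hx y hy
    exact congrArg Subtype.val (abelian_of_linear hlin ⟨x, hx⟩ ⟨y, hy⟩)
  haveI : Nontrivial G := by
    rw [← Finite.one_lt_card_iff_nontrivial]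
    exact lt_of_lt_of_le hp.one_lt (Nat.le_of_dvd Nat.card_pos hpG)
  obtain ⟨q, N, hq, hN, hNne, hNq, hNc⟩ := exists_normal_abelian hs
  haveI := hN
  have hlt : Nat.card (G ⧸ N) < n := by
    rw [← hn, Subgroup.card_eq_card_quotient_mul_card_subgroup N]
    have h1 : 1 < Nat.card N := Subgroup.one_lt_card_iff_ne_bot N |>.mpr hNne
    exact lt_mul_of_one_lt_right Nat.card_pos h1
  obtain ⟨Q, hQn, -, hQp, hQi⟩ := ih _ hlt (G ⧸ N) rfl inferInstance p hp fun χ => by
    have h1 := hdeg ⟨_, isIrrCharacter_inflate N χ⟩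
    simpa [charDegree] using h1
  haveI := hQn
  let M : Subgroup G := Q.comap (QuotientGroup.mk' N)
  haveI hMn : M.Normal := inferInstance
  have hMi : ¬ p ∣ M.index := by
    rwa [Subgroup.index_comap_of_surjective _ (QuotientGroup.mk'_surjective N)]
  have hSM : (S : Subgroup G) ≤ M := CfsgLib.GroupB.SylowNumber.sylow_le_of_normal_of_not_dvd_index M hMi S
  -- a characteristic Sylow subgroup of M is normal in G
  have hchar : ((S.subtype hSM : Sylow p M) : Subgroup M).Normal → (S : Subgroup G).Normal := by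
    intro h
    haveI := (S.subtype hSM).characteristic_of_normal h
    have h2 : (((S.subtype hSM : Sylow p M) : Subgroup M).map M.subtype).Normal := inferInstance
    rwa [Sylow.coe_subtype, Subgroup.map_subgroupOf_eq_of_le hSM] at h2
  by_cases hMt : M = ⊤
  swap
  · apply hchar
    have hMlt : Nat.card M < n := by
      rw [← hn]
      exact lt_of_le_of_ne (Nat.le_of_dvd Nat.card_pos (Subgroup.card_subgroup_dvd_card M))
        fun h => hMt (Subgroup.eq_top_of_card_eq M h)
    haveI := Fintype.ofFinite M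
    obtain ⟨P, hPn, -, hPp, hPi⟩ := ih _ hMlt M rfl inferInstance p hp fun θ h => by
      obtain ⟨χ, -, hd⟩ := deg_dvd_over M θ
      exact hdeg χ (h.trans ((dvd_mul_left _ _).trans hd))
    haveI := hPn
    haveI : Subsingleton (Sylow p M) :=
      (Sylow.unique_of_normal (hPp.toSylow hPi) (by simpa using hPn)).instSubsingleton
    have : (S.subtype hSM : Sylow p M) = hPp.toSylow hPi := Subsingleton.elim _ _
    rw [this]
    simpa using hPn
  -- now G/N is a p-group
  have hGN : IsPGroup p (G ⧸ N) := by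
    have hQt : Q = ⊤ := by
      rw [eq_top_iff]
      intro x _
      obtain ⟨g, rfl⟩ := QuotientGroup.mk'_surjective N x
      exact (show g ∈ M from hMt ▸ Subgroup.mem_top g)
    exact (hQt ▸ hQp).of_equiv Subgroup.topEquiv
  by_cases hqp : q = p
  · subst hqp
    have hG : IsPGroup q G := by
      intro x
      obtain ⟨a, ha⟩ := hGN x
      rw [← QuotientGroup.mk_pow, QuotientGroup.eq_one_iff] at ha
      obtain ⟨b, hb⟩ := hNq ⟨_, ha⟩
      exact ⟨a + b, by rw [pow_add, pow_mul]; exact congrArg Subtype.val hb⟩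
    have : (S : Subgroup G) = ⊤ := by
      have h2 := S.3 (Q := ⊤) (hG.to_subgroup ⊤) le_top
      exact h2.symm
    rw [this]; infer_instance
  -- N is a q-group, q ≠ p: S centralizes N
  haveI := Fintype.ofFinite N
  have hcent : ∀ s ∈ (S : Subgroup G), ∀ v ∈ N, s * v * s⁻¹ = v := by
    intro s hs' v hv
    have hfix : ∀ θ : IrrCharacter N, conjIrr N θ s = θ := by
      intro θ
      let T : Subgroup G :=
        { carrier := {g | conjIrr N θ g = θ}
          mul_mem' := fun {a b} ha hb => by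
            show conjIrr N θ (a * b) = θ
            rw [conjIrr_mul, show conjIrr N θ a = θ from ha, show conjIrr N θ b = θ from hb]
          one_mem' := conjIrr_one N θ
          inv_mem' := fun {a} ha => by
            show conjIrr N θ a⁻¹ = θ
            nth_rewrite 1 [← show conjIrr N θ a = θ from ha]
            rw [← conjIrr_mul, mul_inv_cancel, conjIrr_one] }
      have hmem : ∀ g, g ∈ T ↔ conjIrr N θ g = θ := fun g => Iff.rfl
      have hcard := CfsgLib.CliffordCorr.card_orbit N θ hmem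
      obtain ⟨k, hk⟩ := IsPGroup.iff_card.mp hGN
      have hNT := CfsgLib.CliffordCorr.le_inertia N θ hmem
      obtain ⟨j, -, hj⟩ := (Nat.dvd_prime_pow hp).mp
        ((Subgroup.index_dvd_of_le hNT).trans (dvd_of_eq (show N.index = p ^ k from hk)))
      obtain ⟨χ, -, hd⟩ := deg_dvd_over N θ
      rcases Nat.eq_zero_or_pos j with rfl | hjp
      · rw [pow_zero, Subgroup.index_eq_one] at hj
        exact (hmem s).mp (hj ▸ Subgroup.mem_top s)
      · exact absurd (((dvd_pow_self p hjp.ne').trans (dvd_of_eq (hj.symm.trans hcard.symm))).trans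
          ((dvd_mul_right _ _).trans hd)) (hdeg χ)
    have hsep : ∀ θ : IrrCharacter N, (θ : N → ℂ) (conjN N s ⟨v, hv⟩) = (θ : N → ℂ) ⟨v, hv⟩ := fun θ =>
      congrFun (congrArg Subtype.val (hfix θ)) _
    have hconj : IsConj (conjN N s ⟨v, hv⟩) (⟨v, hv⟩ : N) := by
      by_contra hne
      have h0 := col_orth (conjN N s ⟨v, hv⟩) (⟨v, hv⟩ : N)
      rw [if_neg fun h => hne h.symm] at h0
      simp_rw [hsep] at h0
      have h1 := col_orth (⟨v, hv⟩ : N) (⟨v, hv⟩ : N)
      rw [if_pos (IsConj.refl _), h0] at h1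
      exact Nat.cast_ne_zero.mpr Nat.card_pos.ne' h1.symm
    obtain ⟨c, hc⟩ := isConj_iff.mp hconj
    have hc' : conjN N s ⟨v, hv⟩ = (⟨v, hv⟩ : N) := by
      rw [show c * conjN N s ⟨v, hv⟩ = conjN N s ⟨v, hv⟩ * c from
        Subtype.ext (hNc _ c.2 _ (conjN N s ⟨v, hv⟩).2), mul_inv_cancel_right] at hc
      exact hc
    have := congrArg Subtype.val hc'
    rwa [conjN_coe] at this
  have hsup : N ⊔ (S : Subgroup G) = ⊤ := by
    rw [← Subgroup.index_eq_one]
    by_contra h
    obtain ⟨r, hr, hrd⟩ := Nat.exists_prime_and_dvd h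
    obtain ⟨k, hk⟩ := IsPGroup.iff_card.mp hGN
    have : r ∣ p := hr.dvd_of_dvd_pow ((hrd.trans (Subgroup.index_dvd_of_le le_sup_left)).trans
      (dvd_of_eq (show N.index = p ^ k from hk)))
    rw [(Nat.prime_dvd_prime_iff_eq hr hp).mp this] at hrd
    exact S.not_dvd_index (hrd.trans (Subgroup.index_dvd_of_le le_sup_right))
  rw [← Subgroup.normalizer_eq_top_iff, eq_top_iff, ← hsup]
  refine sup_le (fun v hv => ?_) Subgroup.le_normalizer
  have hfix : ∀ s ∈ (S : Subgroup G), v * s * v⁻¹ = s := fun s hs' => by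
    have := hcent s hs' v hv
    rw [mul_inv_eq_iff_eq_mul] at this ⊢
    exact this.symm
  refine Subgroup.mem_normalizer_iff.mpr fun x => ⟨fun hx => by rw [hfix x hx]; exact hx, fun hx => ?_⟩
  have h2 := hfix _ hx
  rwa [show v * x * v⁻¹ = x from (MulAut.conj v).injective h2] at hx
/-- Let G be a finite solvable group and p a prime. Then G has a normal abelian Sylow p-subgroup if and only if no irreducible character degree of G is divisible by p. -/
theorem result {G : Type*} [Group G] [Finite G] (hsolv : Group.IsSolvable G) (p : ℕ) (hp : p.Prime) : (∃ P : Subgroup G, P.Normal ∧ (∀ x ∈ P, ∀ y ∈ P, x * y = y * x) ∧ IsPGroup p P ∧ ¬ p ∣ P.index) ↔ ∀ χ : Cfsg.IrrCharacter G, ¬ p ∣ Cfsg.charDegree (χ : G → ℂ) := by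
  constructor
  · rintro ⟨P, hPn, hPc, -, hPi⟩ χ h
    obtain ⟨d, ρ, hρ, hc⟩ := χ.2
    haveI := hPn
    haveI := hρ
    have hd := Cfsg.Agent.S0169.result ρ P hPc
    have : Cfsg.charDegree (χ : G → ℂ) = Module.finrank ℂ (Fin d → ℂ) := by
      rw [← hc]; simp [Cfsg.charDegree, Representation.char_one]
    exact hPi (h.trans (this ▸ hd))
  · exact hard _ G rfl hsolv p hp

end Cfsg.Agent.S4493
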