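import Cfsg.Statements.S4495
import Mathlib

set_option autoImplicit false
open Cfsg

namespace Cfsg.Agent.S4495

/-- Let the finite group G contain an element x of prime order p with C_G(x) = ⟨x⟩, and let t be the number of conjugacy classes of elements of order p. If t ≠ p − 1 then the commutator subgroup has index at most (p − 1)/t; if t = p − 1 it has index exactly p. -/
theorem result {G : Type*} [Group G] [Finite G] (p : ℕ) (hp : p.Prime) (x : G) (hx : orderOf x = p) (hC : Subgroup.centralizer ({x} : Set G) = Subgroup.zpowers x) (t : ℕ) (ht : Nat.card {C : ConjClasses G // ∃ g ∈ C.carrier, orderOf g = p} = t) : (t ≠ p - 1 → (commutator G).index * t ≤ p - 1) ∧ (t = p - 1 → (commutator G).index = p) := by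
  classical
  haveI := Fact.mk hp
  have hX : Nat.card (Subgroup.zpowers x) = p := by rw [Nat.card_zpowers, hx]
  have hprimeX : ∀ H : Subgroup G, H ⊓ Subgroup.zpowers x ≠ ⊥ → Subgroup.zpowers x ≤ H := by
    intro H hH
    have h1 : Nat.card (H ⊓ Subgroup.zpowers x : Subgroup G) ∣ p := hX ▸ Subgroup.card_dvd_of_le inf_le_right
    rcases (Nat.dvd_prime hp).mp h1 with h | h
    · exact absurd (Subgroup.eq_bot_of_card_eq _ h) hH
    · exact inf_eq_right.mp (Subgroup.eq_of_le_of_card_ge inf_le_right (by rw [h, hX]))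
  have hgenX : ∀ g ∈ Subgroup.zpowers x, g ≠ 1 → orderOf g = p ∧ Subgroup.zpowers g = Subgroup.zpowers x := by
    intro g hg hg1
    have hle : Subgroup.zpowers g ≤ Subgroup.zpowers x := Subgroup.zpowers_le.mpr hg
    have h1 : orderOf g ∣ p := by rw [← Nat.card_zpowers, ← hX]; exact Subgroup.card_dvd_of_le hle
    have h2 : orderOf g = p := ((Nat.dvd_prime hp).mp h1).resolve_left (fun h => hg1 (orderOf_eq_one_iff.mp h))
    exact ⟨h2, Subgroup.eq_of_le_of_card_ge hle (by rw [hX, Nat.card_zpowers, h2])⟩
  obtain ⟨P, hP⟩ := (IsPGroup.of_card (n := 1) (by rw [hX, pow_one]) : IsPGroup p (Subgroup.zpowers x)).exists_le_sylow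
  have hPX : (P : Subgroup G) = Subgroup.zpowers x := by
    refine le_antisymm (fun g hg => ?_) hP
    haveI : Nontrivial (P : Subgroup G) := ⟨⟨x, hP (Subgroup.mem_zpowers x)⟩, 1, fun h => by
      have h2 : x = 1 := congrArg Subtype.val h
      rw [h2, orderOf_one] at hx; exact hp.ne_one hx.symm⟩
    haveI := P.isPGroup'.center_nontrivial
    obtain ⟨⟨z, hz⟩, hz1⟩ := exists_ne (1 : Subgroup.center (P : Subgroup G))
    have hzX : (z : G) ∈ Subgroup.zpowers x := by
      rw [← hC, Subgroup.mem_centralizer_singleton_iff]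
      exact (congrArg Subtype.val (Subgroup.mem_center_iff.mp hz ⟨x, hP (Subgroup.mem_zpowers x)⟩)).symm
    have hz1' : (z : G) ≠ 1 := fun h => hz1 (Subtype.ext (Subtype.ext h))
    have hxz : x ∈ Subgroup.zpowers (z : G) := (hgenX _ hzX hz1').2.symm ▸ Subgroup.mem_zpowers x
    obtain ⟨i, hi⟩ := Subgroup.mem_zpowers_iff.mp hxz
    have hcomm : g * (z : G) = (z : G) * g := congrArg Subtype.val (Subgroup.mem_center_iff.mp hz ⟨g, hg⟩)
    rw [← hC, Subgroup.mem_centralizer_singleton_iff, ← hi]
    exact (Commute.zpow_right hcomm i)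
  set N := Subgroup.normalizer ((Subgroup.zpowers x : Subgroup G) : Set G) with hN
  set e := ((Subgroup.zpowers x).subgroupOf N).index with he
  have hXN : Subgroup.zpowers x ≤ N := Subgroup.le_normalizer
  have hNcard : Nat.card N = e * p := by
    have h := Subgroup.card_mul_index ((Subgroup.zpowers x).subgroupOf N)
    rw [Nat.card_congr (Subgroup.subgroupOfEquivOfLe hXN).toEquiv, hX] at h
    rw [← h, mul_comm]
  have hcount : p - 1 = t * e := by
    let S := {g : G // g ∈ Subgroup.zpowers x ∧ g ≠ 1}
    let T := {C : ConjClasses G // ∃ g ∈ C.carrier, orderOf g = p}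
    let f : S → T := fun g => ⟨ConjClasses.mk g.1, g.1, ConjClasses.mem_carrier_mk, (hgenX _ g.2.1 g.2.2).1⟩
    have hfib : ∀ C : T, Nat.card {g : S // f g = C} = e := by
      rintro ⟨C, g₁, hg₁, hord⟩
      obtain ⟨h, hh⟩ := (IsPGroup.of_card (n := 1) (by rw [Nat.card_zpowers, hord, pow_one]) :
        IsPGroup p (Subgroup.zpowers g₁)).exists_le_sylow
      obtain ⟨c, hc⟩ := MulAction.exists_smul_eq G h P
      have hg₀X : c * g₁ * c⁻¹ ∈ Subgroup.zpowers x := by
        rw [← hPX, ← hc, Sylow.coe_subgroup_smul]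
        exact Subgroup.smul_mem_pointwise_smul g₁ (MulAut.conj c) _ (hh (Subgroup.mem_zpowers g₁))
      set g₀ := c * g₁ * c⁻¹ with hg₀
      have hg₀1 : g₀ ≠ 1 := fun h0 => by
        rw [hg₀, conj_eq_one_iff] at h0; rw [h0, orderOf_one] at hord; exact hp.ne_one hord.symm
      have hmk : ConjClasses.mk g₀ = C := by
        rw [ConjClasses.mem_carrier_iff_mk_eq] at hg₁
        rw [← hg₁]; exact ConjClasses.mk_eq_mk_iff_isConj.mpr (isConj_iff.mpr ⟨c⁻¹, by rw [hg₀]; group⟩)
      let φ : N → {g : S // f g = ⟨C, g₁, hg₁, hord⟩} := fun n =>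
        ⟨⟨n.1 * g₀ * n.1⁻¹, (Subgroup.mem_normalizer_iff.mp n.2 g₀).mp hg₀X, fun h0 => hg₀1 (conj_eq_one_iff.mp h0)⟩,
          Subtype.ext (by
            show ConjClasses.mk (n.1 * g₀ * n.1⁻¹) = C
            rw [← hmk]
            exact ConjClasses.mk_eq_mk_iff_isConj.mpr (isConj_iff.mpr ⟨n.1⁻¹, by group⟩))⟩
      have hsurj : ∀ b, Nat.card {n : N // φ n = b} = p := by
        rintro ⟨⟨g, hgX, hg1⟩, hfg⟩
        obtain ⟨d, hd⟩ := isConj_iff.mp (ConjClasses.mk_eq_mk_iff_isConj.mp
          (hmk.trans (congrArg Subtype.val hfg).symm : ConjClasses.mk g₀ = ConjClasses.mk g))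
        have hdN : d ∈ N := by
          show d ∈ Subgroup.normalizer ((Subgroup.zpowers x : Subgroup G) : Set G)
          have hmap : (Subgroup.zpowers g₀).map (MulAut.conj d).toMonoidHom = Subgroup.zpowers g := by
            rw [MonoidHom.map_zpowers]; congr 1
          rw [(hgenX _ hg₀X hg₀1).2, (hgenX _ hgX hg1).2] at hmap
          rw [Subgroup.mem_normalizer_iff]
          intro y
          conv_rhs => rw [← hmap]
          constructor
          · intro hy; exact ⟨y, hy, rfl⟩
          · rintro ⟨z, hz, hze⟩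
            have : z = y := (MulAut.conj d).injective (by simpa using hze)
            exact this ▸ hz
        refine (Nat.card_congr ?_).trans hX
        refine
          { toFun := fun n => ⟨d⁻¹ * n.1.1, ?_⟩
            invFun := fun z => ⟨⟨d * z.1, mul_mem hdN (hXN z.2)⟩, ?_⟩
            left_inv := fun n => by ext; simp
            right_inv := fun z => by ext; simp }
        · have h0 : n.1.1 * g₀ * n.1.1⁻¹ = d * g₀ * d⁻¹ := by
            rw [hd]; exact congrArg (fun b : {g : S // f g = ⟨C, g₁, hg₁, hord⟩} => b.1.1) n.2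
          have hmem : d⁻¹ * n.1.1 ∈ Subgroup.centralizer ({g₀} : Set G) := by
            rw [Subgroup.mem_centralizer_singleton_iff]
            calc d⁻¹ * n.1.1 * g₀ = d⁻¹ * (n.1.1 * g₀ * n.1.1⁻¹) * n.1.1 := by group
              _ = g₀ * (d⁻¹ * n.1.1) := by rw [h0]; group
          obtain ⟨i, hi⟩ := Subgroup.mem_zpowers_iff.mp
            ((hgenX _ hg₀X hg₀1).2.symm ▸ Subgroup.mem_zpowers x : x ∈ Subgroup.zpowers g₀)
          refine hC.le (Subgroup.mem_centralizer_singleton_iff.mpr ?_)
          exact hi ▸ (Commute.zpow_right (Subgroup.mem_centralizer_singleton_iff.mp hmem) i).eq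
        · apply Subtype.ext; apply Subtype.ext
          show d * z.1 * g₀ * (d * z.1)⁻¹ = g
          have hzc : z.1 * g₀ = g₀ * z.1 := by
            obtain ⟨i, hi⟩ := Subgroup.mem_zpowers_iff.mp z.2
            obtain ⟨j, hj⟩ := Subgroup.mem_zpowers_iff.mp hg₀X
            rw [← hi, ← hj, ← zpow_add, ← zpow_add, add_comm]
          rw [← hd, mul_inv_rev, mul_assoc d, hzc]; group
      have h := Nat.card_congr (Equiv.sigmaFiberEquiv φ).symm
      haveI := Fintype.ofFinite {g : S // f g = ⟨C, g₁, hg₁, hord⟩}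
      rw [Nat.card_sigma, Finset.sum_congr rfl (fun b _ => hsurj b), Finset.sum_const, Finset.card_univ,
        smul_eq_mul, hNcard, ← Nat.card_eq_fintype_card] at h
      exact (Nat.eq_of_mul_eq_mul_right hp.pos h).symm
    have hS : Nat.card S = p - 1 := by
      have e1 : Nat.card S = Nat.card {g : Subgroup.zpowers x // g ≠ 1} := Nat.card_congr
        { toFun := fun g => ⟨⟨g.1, g.2.1⟩, fun h => g.2.2 (congrArg Subtype.val h)⟩
          invFun := fun g => ⟨g.1.1, g.1.2, fun h => g.2 (Subtype.ext h)⟩
          left_inv := fun g => rfl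
          right_inv := fun g => rfl }
      haveI := Fintype.ofFinite (Subgroup.zpowers x)
      rw [e1, ← hX, Nat.card_eq_fintype_card, Nat.card_eq_fintype_card, Fintype.card_subtype_compl,
        Fintype.card_subtype_eq]
    have h := Nat.card_congr (Equiv.sigmaFiberEquiv f).symm
    haveI := Fintype.ofFinite T
    rw [Nat.card_sigma, Finset.sum_congr rfl (fun b _ => hfib b), Finset.sum_const, Finset.card_univ,
      smul_eq_mul, hS, ← Nat.card_eq_fintype_card] at h
    rw [h]; exact congrArg (· * e) ht
  have hp1 : 0 < p - 1 := Nat.sub_pos_of_lt hp.one_lt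
  have ht0 : 0 < t := Nat.pos_of_ne_zero fun h => by rw [h, zero_mul] at hcount; omega
  constructor
  · intro htne
    have hnot : ¬ N ≤ Subgroup.zpowers x := by
      intro hle
      have : e = 1 := Subgroup.index_eq_one.mpr (Subgroup.subgroupOf_eq_top.mpr hle)
      rw [this, mul_one] at hcount; exact htne hcount.symm
    obtain ⟨n, hn, hnX⟩ := SetLike.not_le_iff_exists.mp hnot
    have hinv : x⁻¹ ∈ Subgroup.zpowers x := Subgroup.inv_mem _ (Subgroup.mem_zpowers x)
    have hXc : Subgroup.zpowers x ≤ commutator G := by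
      apply hprimeX
      intro hbot
      have hmem : n * x * n⁻¹ * x⁻¹ ∈ commutator G ⊓ Subgroup.zpowers x := by
        refine ⟨?_, Subgroup.mul_mem _ ((Subgroup.mem_normalizer_iff.mp hn x).mp (Subgroup.mem_zpowers x)) hinv⟩
        rw [commutator_def]
        exact Subgroup.commutator_mem_commutator (Subgroup.mem_top n) (Subgroup.mem_top x)
      rw [hbot, Subgroup.mem_bot, mul_inv_eq_one, mul_inv_eq_iff_eq_mul] at hmem
      exact hnX (hC ▸ Subgroup.mem_centralizer_singleton_iff.mpr hmem)
    have htop : N ⊔ commutator G = ⊤ := by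
      have hle : (P : Subgroup G) ≤ commutator G := hPX.le.trans hXc
      have h := Sylow.normalizer_sup_eq_top (P.subtype hle)
      rw [Sylow.coe_subtype, Subgroup.map_subgroupOf_eq_of_le hle, hPX] at h
      exact h
    let f : N →* G ⧸ commutator G := (QuotientGroup.mk' _).comp N.subtype
    have hf : Function.Surjective f := by
      rw [← MonoidHom.range_eq_top, MonoidHom.range_comp, Subgroup.range_subtype]
      have h := congrArg (Subgroup.map (QuotientGroup.mk' (commutator G))) htop
      rw [Subgroup.map_sup, QuotientGroup.map_mk'_self, sup_bot_eq,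
        Subgroup.map_top_of_surjective _ (QuotientGroup.mk'_surjective _)] at h
      exact h
    have hker : (Subgroup.zpowers x).subgroupOf N ≤ f.ker := fun g hg => by
      rw [MonoidHom.mem_ker]
      exact (QuotientGroup.eq_one_iff _).mpr (hXc hg)
    have hidx : f.ker.index = (commutator G).index := by
      rw [Subgroup.index_ker, MonoidHom.range_eq_top.mpr hf, Subgroup.card_top, ← Subgroup.index_eq_card]
    have hdvd := Subgroup.index_dvd_of_le hker
    rw [hidx] at hdvd
    have he0 : 0 < e := Nat.pos_of_ne_zero fun h => by rw [h, mul_zero] at hcount; omega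
    calc (commutator G).index * t ≤ e * t := Nat.mul_le_mul_right t (Nat.le_of_dvd he0 hdvd)
      _ = p - 1 := by rw [hcount, mul_comm]
  · intro hteq
    have he1 : e = 1 := by
      rw [hteq] at hcount
      exact (Nat.eq_of_mul_eq_mul_left hp1 ((mul_one _).trans hcount)).symm
    have hNle : N ≤ Subgroup.zpowers x := Subgroup.subgroupOf_eq_top.mp (Subgroup.index_eq_one.mp he1)
    have hNC : Subgroup.normalizer ((P : Subgroup G) : Set G) ≤ Subgroup.centralizer ((P : Subgroup G) : Set G) := by
      rw [hPX]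
      refine hNle.trans fun g hg => Subgroup.mem_centralizer_iff.mpr fun y hy => ?_
      obtain ⟨i, hi⟩ := Subgroup.mem_zpowers_iff.mp hg
      obtain ⟨j, hj⟩ := Subgroup.mem_zpowers_iff.mp hy
      rw [← hi, ← hj, ← zpow_add, ← zpow_add, add_comm]
    have hcompl := MonoidHom.ker_transferSylow_isComplement' P hNC
    set K := (MonoidHom.transferSylow P hNC).ker with hK
    have hKidx : K.index = p := by rw [hcompl.symm.index_eq_card, hPX, hX]
    have hle : commutator G ≤ K := by
      haveI : K.Normal := MonoidHom.normal_ker _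
      haveI : IsCyclic (G ⧸ K) := isCyclic_of_prime_card (p := p) (by rw [← Subgroup.index_eq_card, hKidx])
      letI := IsCyclic.commGroup (α := G ⧸ K)
      exact (Subgroup.Normal.quotient_commutative_iff_commutator_le (N := K)).mp inferInstance
    have hge : K ≤ commutator G := by
      let φ : K → K := fun k => ⟨k.1 * x * k.1⁻¹ * x⁻¹, by
        rw [mul_assoc, mul_assoc, ← mul_assoc x]
        exact K.mul_mem k.2 ((MonoidHom.normal_ker _).conj_mem _ (K.inv_mem k.2) x)⟩
      have hinj : Function.Injective φ := by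
        intro k l hkl
        have h0 : k.1 * x * k.1⁻¹ = l.1 * x * l.1⁻¹ := mul_right_cancel (congrArg Subtype.val hkl)
        have hmem : l.1⁻¹ * k.1 ∈ Subgroup.zpowers x := by
          rw [← hC, Subgroup.mem_centralizer_singleton_iff]
          calc l.1⁻¹ * k.1 * x = l.1⁻¹ * (k.1 * x * k.1⁻¹) * k.1 := by group
            _ = x * (l.1⁻¹ * k.1) := by rw [h0]; group
        have h1 : l.1⁻¹ * k.1 = 1 := by
          have := hcompl.disjoint.le_bot ⟨K.mul_mem (K.inv_mem l.2) k.2, hPX.ge hmem⟩
          exact Subgroup.mem_bot.mp this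
        exact Subtype.ext (inv_mul_eq_one.mp h1).symm
      intro g hg
      obtain ⟨k, hk⟩ := (Finite.injective_iff_surjective.mp hinj) ⟨g, hg⟩
      have : g = k.1 * x * k.1⁻¹ * x⁻¹ := (congrArg Subtype.val hk).symm
      rw [this, commutator_def]
      exact Subgroup.commutator_mem_commutator (Subgroup.mem_top _) (Subgroup.mem_top x)
    rw [le_antisymm hle hge, hKidx]

end Cfsg.Agent.S4495
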