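import Cfsg.Statements.S4497
import Cfsg.Agent.S4495
import Cfsg.Agent.Lib.Core

set_option autoImplicit false
open Cfsg

namespace Cfsg.Agent.S4497

/-- Let the finite group G contain an element x of prime order p with C_G(x) = ⟨x⟩, let t be the number of conjugacy classes of elements of order p, and let S* = O_{p′}(G) be the largest normal subgroup of order prime to p. Then S* ≤ G′; if t ≠ p − 1 the quotient G′/S* is simple (in particular non-trivial); if t = p − 1 then G′ = S*. -/
theorem result {G : Type*} [Group G] [Finite G] (p : ℕ) (hp : p.Prime) (x : G) (hx : orderOf x = p) (hC : Subgroup.centralizer ({x} : Set G) = Subgroup.zpowers x) (t : ℕ) (ht : Nat.card {C : ConjClasses G // ∃ g ∈ C.carrier, orderOf g = p} = t) : Cfsg.pPrimeCore p G ≤ commutator G ∧ (t ≠ p - 1 → ∀ h : ((Cfsg.pPrimeCore p G).subgroupOf (commutator G)).Normal, IsSimpleGroup (↥(commutator G) ⧸ (Cfsg.pPrimeCore p G).subgroupOf (commutator G))) ∧ (t = p - 1 → commutator G = Cfsg.pPrimeCore p G) := by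
  classical
  haveI := Fact.mk hp
  have hidx := Cfsg.Agent.S4495.result p hp x hx hC t ht
  set X := Subgroup.zpowers x with hXdef
  have hX : Nat.card X = p := by rw [hXdef, Nat.card_zpowers, hx]
  obtain ⟨P, hP⟩ := (IsPGroup.of_card (n := 1) (by rw [hX, pow_one]) : IsPGroup p X).exists_le_sylow
  have hPX : (P : Subgroup G) = X := by
    refine le_antisymm (fun g hg => ?_) hP
    haveI : Nontrivial (P : Subgroup G) := ⟨⟨x, hP (Subgroup.mem_zpowers x)⟩, 1, fun h => by
      have h2 : x = 1 := congrArg Subtype.val h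
      rw [h2, orderOf_one] at hx; exact hp.ne_one hx.symm⟩
    haveI := P.isPGroup'.center_nontrivial
    obtain ⟨⟨z, hz⟩, hz1⟩ := exists_ne (1 : Subgroup.center (P : Subgroup G))
    have hzX : (z : G) ∈ X := by
      refine hC.le (Subgroup.mem_centralizer_singleton_iff.mpr ?_)
      exact (congrArg Subtype.val (Subgroup.mem_center_iff.mp hz ⟨x, hP (Subgroup.mem_zpowers x)⟩)).symm
    have hz1' : (z : G) ≠ 1 := fun h => hz1 (Subtype.ext (Subtype.ext h))
    have hle : Subgroup.zpowers (z : G) ≤ X := Subgroup.zpowers_le.mpr hzX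
    have h1 : orderOf (z : G) ∣ p := by rw [← Nat.card_zpowers]; exact (Subgroup.card_dvd_of_le hle).trans (dvd_of_eq hX)
    have h2 : orderOf (z : G) = p := ((Nat.dvd_prime hp).mp h1).resolve_left (fun h => hz1' (orderOf_eq_one_iff.mp h))
    have hxz : x ∈ Subgroup.zpowers (z : G) := (Subgroup.eq_of_le_of_card_ge hle (by rw [hX, Nat.card_zpowers, h2])).symm ▸
      (Subgroup.mem_zpowers x : x ∈ X)
    obtain ⟨i, hi⟩ := Subgroup.mem_zpowers_iff.mp hxz
    have hcomm : g * (z : G) = (z : G) * g := congrArg Subtype.val (Subgroup.mem_center_iff.mp hz ⟨g, hg⟩)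
    refine hC.le (Subgroup.mem_centralizer_singleton_iff.mpr ?_)
    exact hi ▸ (Commute.zpow_right hcomm i).eq
  have hxp : ∀ H : Subgroup G, x ∈ H → p ∣ Nat.card H := fun H hH => by
    rw [← hX]; exact Subgroup.card_dvd_of_le (Subgroup.zpowers_le.mpr hH)
  set S := Cfsg.pPrimeCore p G with hS
  haveI hSn : S.Normal := (inferInstance : (Cfsg.pPrimeCore p G).Normal)
  have hScop := CfsgLib.Core.card_pPrimeCore_coprime (G := G) p
  have hxS : x ∉ S := fun h => by
    have := hxp _ h
    exact hp.one_lt.ne' (Nat.dvd_one.mp (hScop ▸ Nat.dvd_gcd this dvd_rfl))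
  have hSG : S ≤ commutator G := by
    let φ : S → S := fun k => ⟨k.1 * x * k.1⁻¹ * x⁻¹, by
      rw [mul_assoc, mul_assoc, ← mul_assoc x]
      exact S.mul_mem k.2 (hSn.conj_mem _ (S.inv_mem k.2) x)⟩
    have hinj : Function.Injective φ := by
      intro k l hkl
      have h0 : k.1 * x * k.1⁻¹ = l.1 * x * l.1⁻¹ := mul_right_cancel (congrArg Subtype.val hkl)
      have hmem : l.1⁻¹ * k.1 ∈ X := by
        refine hC.le (Subgroup.mem_centralizer_singleton_iff.mpr ?_)
        calc l.1⁻¹ * k.1 * x = l.1⁻¹ * (k.1 * x * k.1⁻¹) * k.1 := by group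
          _ = x * (l.1⁻¹ * k.1) := by rw [h0]; group
      have h1 : Nat.card (S ⊓ X : Subgroup G) ∣ 1 := by
        rw [← hScop.gcd_eq_one]
        exact Nat.dvd_gcd (Subgroup.card_dvd_of_le inf_le_left) (hX ▸ Subgroup.card_dvd_of_le inf_le_right)
      have h2 : l.1⁻¹ * k.1 ∈ (⊥ : Subgroup G) :=
        Subgroup.eq_bot_of_card_eq _ (Nat.dvd_one.mp h1) ▸ ⟨S.mul_mem (S.inv_mem l.2) k.2, hmem⟩
      exact Subtype.ext (inv_mul_eq_one.mp (Subgroup.mem_bot.mp h2)).symm
    intro g hg
    obtain ⟨k, hk⟩ := (Finite.injective_iff_surjective.mp hinj) ⟨g, hg⟩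
    have : g = k.1 * x * k.1⁻¹ * x⁻¹ := (congrArg Subtype.val hk).symm
    rw [this, commutator_def]
    exact Subgroup.commutator_mem_commutator (Subgroup.mem_top _) (Subgroup.mem_top x)
  refine ⟨hSG, ?_, ?_⟩
  · intro htne hnorm
    have hxG : x ∈ commutator G := by
      have h1 := hidx.1 htne
      have ht0 : 0 < t := by
        rw [← ht]
        haveI : Nonempty {C : ConjClasses G // ∃ g ∈ C.carrier, orderOf g = p} :=
          ⟨⟨ConjClasses.mk x, x, ConjClasses.mem_carrier_mk, hx⟩⟩
        exact Nat.card_pos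
      have h2 : (commutator G).index < p := by
        have := Nat.le_mul_of_pos_right (commutator G).index ht0
        have := hp.pos
        omega
      have h3 : orderOf (QuotientGroup.mk' (commutator G) x) ∣ p := hx ▸ orderOf_map_dvd _ x
      have h4 : orderOf (QuotientGroup.mk' (commutator G) x) ∣ (commutator G).index := by
        rw [Subgroup.index_eq_card]; exact orderOf_dvd_natCard _
      rcases (Nat.dvd_prime hp).mp h3 with h5 | h5
      · exact (QuotientGroup.eq_one_iff x).mp (orderOf_eq_one_iff.mp h5)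
      · rw [h5] at h4
        have := Nat.le_of_dvd (Nat.pos_of_ne_zero Subgroup.index_ne_zero_of_finite) h4
        omega
    haveI : Nontrivial (↥(commutator G) ⧸ S.subgroupOf (commutator G)) :=
      ⟨QuotientGroup.mk (⟨x, hxG⟩ : commutator G), 1, fun h => hxS (Subgroup.mem_subgroupOf.mp ((QuotientGroup.eq_one_iff (⟨x, hxG⟩ : commutator G)).mp h))⟩
    refine ⟨fun M hM => ?_⟩
    set T := M.comap (QuotientGroup.mk' (S.subgroupOf (commutator G))) with hT
    haveI : T.Normal := hM.comap _
    by_cases hpT : p ∣ Nat.card T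
    · right
      obtain ⟨⟨y, hy⟩, hyo⟩ := exists_prime_orderOf_dvd_card' p hpT
      have hyo' : orderOf ((y : G)) = p := by
        rw [Subgroup.orderOf_coe, ← Subgroup.orderOf_coe (⟨y, hy⟩ : T)] at *
        exact hyo
      have hle : (P : Subgroup G) ≤ commutator G := hPX.le.trans (Subgroup.zpowers_le.mpr hxG)
      have hallT : ∀ g : G, ∀ hg : g ∈ commutator G, orderOf g = p → (⟨g, hg⟩ : commutator G) ∈ T := by
        have hconj : ∀ g : commutator G, orderOf g = p →
            ∃ c : commutator G, c * g * c⁻¹ ∈ Subgroup.zpowers (⟨x, hxG⟩ : commutator G) := by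
          intro g hg
          obtain ⟨Q, hQ⟩ := (IsPGroup.of_card (n := 1) (by rw [Nat.card_zpowers, hg, pow_one]) :
            IsPGroup p (Subgroup.zpowers g)).exists_le_sylow
          obtain ⟨c, hc⟩ := MulAction.exists_smul_eq (commutator G) Q (P.subtype hle)
          refine ⟨c, ?_⟩
          have h1 : c * g * c⁻¹ ∈ (P.subtype hle : Subgroup (commutator G)) := by
            rw [← hc, Sylow.coe_subgroup_smul]
            exact Subgroup.smul_mem_pointwise_smul g (MulAut.conj c) _ (hQ (Subgroup.mem_zpowers g))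
          rw [Sylow.coe_subtype, Subgroup.mem_subgroupOf, hPX] at h1
          obtain ⟨i, hi⟩ := Subgroup.mem_zpowers_iff.mp h1
          exact Subgroup.mem_zpowers_iff.mpr ⟨i, Subtype.ext (by rw [SubgroupClass.coe_zpow]; exact hi)⟩
        have hxT : (⟨x, hxG⟩ : commutator G) ∈ T := by
          obtain ⟨c, hc⟩ := hconj y (by rw [← Subgroup.orderOf_coe]; exact hyo')
          have hcy : c * y * c⁻¹ ∈ T := (inferInstance : T.Normal).conj_mem _ hy c
          have hle' : Subgroup.zpowers (c * y * c⁻¹) ≤ Subgroup.zpowers (⟨x, hxG⟩ : commutator G) :=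
            Subgroup.zpowers_le.mpr hc
          have ho : orderOf (c * y * c⁻¹) = p := by
            rw [← MulAut.conj_apply, MulEquiv.orderOf_eq, ← Subgroup.orderOf_coe]; exact hyo'
          have := Subgroup.eq_of_le_of_card_ge hle'
            (by rw [Nat.card_zpowers, Nat.card_zpowers, ho, ← Subgroup.orderOf_coe, hx])
          exact Subgroup.zpowers_le.mpr hcy (this ▸ Subgroup.mem_zpowers _)
        intro g hg hgo
        obtain ⟨c, hc⟩ := hconj ⟨g, hg⟩ (by rw [← Subgroup.orderOf_coe]; exact hgo)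
        have h1 : c * ⟨g, hg⟩ * c⁻¹ ∈ T := Subgroup.zpowers_le.mpr hxT hc
        have h2 := (inferInstance : T.Normal).conj_mem _ h1 c⁻¹
        rwa [show c⁻¹ * (c * ⟨g, hg⟩ * c⁻¹) * c⁻¹⁻¹ = (⟨g, hg⟩ : commutator G) by group] at h2
      -- the subgroup generated by elements of order p
      set Y := Subgroup.normalClosure ({x} : Set G) with hY
      have hYG : Y ≤ commutator G := Subgroup.normalClosure_le_normal (Set.singleton_subset_iff.mpr hxG)
      have hXY : X ≤ Y := Subgroup.zpowers_le.mpr (Subgroup.subset_normalClosure rfl)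
      have hYT : ∀ g : G, ∀ hg : g ∈ Y, (⟨g, hYG hg⟩ : commutator G) ∈ T := by
        have hsub : Y ≤ T.map (commutator G).subtype := by
          rw [hY, Subgroup.normalClosure, Subgroup.closure_le]
          intro g hg
          obtain ⟨z, hz, hzg⟩ := Group.mem_conjugatesOfSet_iff.mp hg
          rw [Set.mem_singleton_iff] at hz
          subst hz
          obtain ⟨d, hd⟩ := isConj_iff.mp hzg
          have hgG : g ∈ commutator G := hd ▸ (inferInstance : (commutator G).Normal).conj_mem _ hxG d
          refine ⟨⟨g, hgG⟩, hallT g hgG ?_, rfl⟩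
          rw [← hd, ← MulAut.conj_apply, MulEquiv.orderOf_eq, hx]
        intro g hg
        obtain ⟨g', hg', e⟩ := hsub hg
        have : g' = ⟨g, hYG hg⟩ := Subtype.ext e
        exact this ▸ hg'
      set N := Subgroup.normalizer ((X : Subgroup G) : Set G) with hN
      have htop : N ⊔ Y = ⊤ := by
        have hleY : (P : Subgroup G) ≤ Y := hPX.le.trans hXY
        have h := Sylow.normalizer_sup_eq_top (P.subtype hleY)
        rw [Sylow.coe_subtype, Subgroup.map_subgroupOf_eq_of_le hleY, hPX] at h
        exact h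
      have hNcomm : ∀ a ∈ N, ∀ b ∈ N, (a * b)⁻¹ * (b * a) ∈ X := by
        intro a ha b hb
        obtain ⟨i, hi⟩ := Subgroup.mem_zpowers_iff.mp ((Subgroup.mem_normalizer_iff.mp ha x).mp (Subgroup.mem_zpowers x))
        obtain ⟨j, hj⟩ := Subgroup.mem_zpowers_iff.mp ((Subgroup.mem_normalizer_iff.mp hb x).mp (Subgroup.mem_zpowers x))
        have e1 : (a * b) * x * (a * b)⁻¹ = x ^ (i * j) := by
          rw [zpow_mul, hi]
          rw [show (a * x * a⁻¹) ^ j = a * x ^ j * a⁻¹ from conj_zpow]
          rw [hj]; group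
        have e2 : (b * a) * x * (b * a)⁻¹ = x ^ (i * j) := by
          rw [mul_comm i j, zpow_mul, hj]
          rw [show (b * x * b⁻¹) ^ i = b * x ^ i * b⁻¹ from conj_zpow]
          rw [hi]; group
        refine hC.le (Subgroup.mem_centralizer_singleton_iff.mpr ?_)
        calc (a * b)⁻¹ * (b * a) * x = (a * b)⁻¹ * ((b * a) * x * (b * a)⁻¹) * (b * a) := by group
          _ = x * ((a * b)⁻¹ * (b * a)) := by rw [e2, ← e1]; group
      have hGY : commutator G ≤ Y := by
        haveI : Y.Normal := Subgroup.normalClosure_normal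
        refine (Subgroup.Normal.quotient_commutative_iff_commutator_le (N := Y)).mp ⟨⟨fun q r => ?_⟩⟩
        have hsurj : ∀ q : G ⧸ Y, ∃ a ∈ N, QuotientGroup.mk' Y a = q := by
          have h := congrArg (Subgroup.map (QuotientGroup.mk' Y)) htop
          rw [Subgroup.map_sup, QuotientGroup.map_mk'_self, sup_bot_eq,
            Subgroup.map_top_of_surjective _ (QuotientGroup.mk'_surjective _)] at h
          intro q
          obtain ⟨a, ha, e⟩ := (h.symm ▸ Subgroup.mem_top q : q ∈ N.map (QuotientGroup.mk' Y))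
          exact ⟨a, ha, e⟩
        obtain ⟨a, ha, rfl⟩ := hsurj q
        obtain ⟨b, hb, rfl⟩ := hsurj r
        rw [← map_mul, ← map_mul, QuotientGroup.mk'_apply, QuotientGroup.mk'_apply, QuotientGroup.eq]
        exact hXY (hNcomm a ha b hb)
      rw [eq_top_iff]
      rintro q -
      obtain ⟨⟨g, hg⟩, rfl⟩ := QuotientGroup.mk'_surjective _ q
      exact hYT g (hGY hg)
    · left
      have hTS : T.map (commutator G).subtype ≤ S := by
        refine le_trans (Subgroup.map_mono ?_) (CfsgLib.Core.pPrimeCore_subgroup_map_le p (commutator G))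
        exact CfsgLib.Core.le_pPrimeCore inferInstance ((hp.coprime_iff_not_dvd.mpr hpT).symm)
      rw [eq_bot_iff]
      intro q hq
      obtain ⟨g, rfl⟩ := QuotientGroup.mk'_surjective _ q
      exact (QuotientGroup.eq_one_iff g).mpr (hTS ⟨g, hq, rfl⟩)
  · intro hteq
    refine le_antisymm (CfsgLib.Core.le_pPrimeCore inferInstance ?_) hSG
    have h1 := Subgroup.card_mul_index (commutator G)
    rw [hidx.2 hteq] at h1
    have h2 : ¬ p ^ 2 ∣ Nat.card G := by
      intro h
      obtain ⟨Q, hQ⟩ := Sylow.exists_subgroup_card_pow_prime p h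
      obtain ⟨Q', hQ'⟩ := (IsPGroup.of_card hQ).exists_le_sylow
      have h3 := Subgroup.card_dvd_of_le hQ'
      rw [hQ, Sylow.card_eq_multiplicity, ← Sylow.card_eq_multiplicity P, hPX, hX] at h3
      have h4 := Nat.le_of_dvd hp.pos h3
      nlinarith [hp.two_le]
    refine (hp.coprime_iff_not_dvd.mpr fun h => h2 ?_).symm
    rw [← h1, sq]
    exact Nat.mul_dvd_mul_right h p

end Cfsg.Agent.S4497
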