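import Cfsg.Statements.S4498
import Cfsg.Agent.Lib.Blocks.WeakOrth
import Cfsg.Agent.Lib.Blocks.Core

set_option autoImplicit false
open Cfsg

namespace Cfsg.Agent.S4498

set_option linter.style.haveILetI false
open CfsgLib.Chars CfsgLib.Blocks

/-- Let p and q be distinct primes dividing the order of the finite group G, and suppose G has no element of order p·q. Fix maximal ideals M_p over p and M_q over q of the algebraic integers. Then the principal p-block and the principal q-block of G have a non-principal irreducible character in common. -/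
theorem result {G : Type*} [Group G] [Finite G] (p q : ℕ) [Fact p.Prime] [Fact q.Prime] (hpq : p ≠ q) (hp : p ∣ Nat.card G) (hq : q ∣ Nat.card G) (hno : ∀ g : G, orderOf g ≠ p * q) (Mp Mq : Ideal Cfsg.AlgInt) (hMp : Cfsg.IsPModular p Mp) (hMq : Cfsg.IsPModular q Mq) : ∃ χ : Cfsg.IrrCharacter G, (χ : G → ℂ) ≠ (fun _ => 1) ∧ χ ∈ Cfsg.principalBlock Mp G ∧ χ ∈ Cfsg.principalBlock Mq G := by
  classical
  haveI := Fintype.ofFinite G
  obtain ⟨x, hx⟩ := exists_prime_orderOf_dvd_card' p hp
  obtain ⟨y, hy⟩ := exists_prime_orderOf_dvd_card' q hq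
  have hpp := (Fact.out : p.Prime)
  have hqq := (Fact.out : q.Prime)
  by_contra hno'
  push Not at hno'
  set Sp := Finset.univ.filter (fun χ : IrrCharacter G => χ ∈ principalBlock Mp G) with hSp
  set Sq := Finset.univ.filter (fun χ : IrrCharacter G => χ ∈ principalBlock Mq G) with hSq
  -- no element is singular for both primes
  have hsep : ∀ u : G, p ∣ orderOf u → ¬ q ∣ orderOf u := by
    intro u h1 h2
    obtain ⟨c, hc⟩ := ((Nat.coprime_primes hpp hqq).mpr hpq).mul_dvd_of_dvd_of_dvd h1 h2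
    refine hno (u ^ c) ?_
    rw [orderOf_pow_of_dvd (by intro h; rw [h, mul_zero] at hc; exact (orderOf_pos u).ne' hc) ⟨p * q, by rw [hc, mul_comm]⟩,
      hc, Nat.mul_div_cancel _ (Nat.pos_of_ne_zero (by intro h; rw [h, mul_zero] at hc; exact (orderOf_pos u).ne' hc))]
  have h0 : ∑ u : G, (∑ χ ∈ Sp, (χ : G → ℂ) u * (starRingEnd ℂ) ((χ : G → ℂ) x)) *
      (∑ φ ∈ Sq, (starRingEnd ℂ) ((φ : G → ℂ) u) * (φ : G → ℂ) y) = 0 := by
    refine Finset.sum_eq_zero fun u _ => ?_
    by_cases hu : p ∣ orderOf u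
    · have h1 := congrArg (starRingEnd ℂ) (weak_orthogonality hMq (isPBlock_principalBlock (M := Mq)) (hsep u hu)
        (show q ∣ orderOf y from dvd_of_eq hy.symm))
      rw [map_sum, map_zero] at h1
      simp only [map_mul, Complex.conj_conj] at h1
      rw [h1, mul_zero]
    · rw [weak_orthogonality hMp (isPBlock_principalBlock (M := Mp)) hu
        (show p ∣ orderOf x from dvd_of_eq hx.symm), zero_mul]
  have hcomm : Sp ∩ Sq = {trivIrr G} := by
    refine Finset.eq_singleton_iff_unique_mem.mpr ⟨Finset.mem_inter.mpr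
      ⟨Finset.mem_filter.mpr ⟨Finset.mem_univ _, self_mem_blockOf hMp (trivIrr G)⟩,
        Finset.mem_filter.mpr ⟨Finset.mem_univ _, self_mem_blockOf hMq (trivIrr G)⟩⟩, fun χ hχ => ?_⟩
    obtain ⟨h1, h2⟩ := Finset.mem_inter.mp hχ
    by_contra hne
    exact hno' χ (fun h => hne (Subtype.ext h)) (Finset.mem_filter.mp h1).2 (Finset.mem_filter.mp h2).2
  have h1 : ∑ u : G, (∑ χ ∈ Sp, (χ : G → ℂ) u * (starRingEnd ℂ) ((χ : G → ℂ) x)) *
      (∑ φ ∈ Sq, (starRingEnd ℂ) ((φ : G → ℂ) u) * (φ : G → ℂ) y) =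
      ∑ χ ∈ Sp, ∑ φ ∈ Sq, (starRingEnd ℂ) ((χ : G → ℂ) x) * (φ : G → ℂ) y *
        (if χ = φ then (Nat.card G : ℂ) else 0) := by
    simp only [Finset.sum_mul_sum]
    rw [Finset.sum_comm]
    refine Finset.sum_congr rfl fun χ _ => ?_
    rw [Finset.sum_comm]
    refine Finset.sum_congr rfl fun φ _ => ?_
    rw [← sum_mul_conj_irr χ φ, Finset.mul_sum]
    exact Finset.sum_congr rfl fun u _ => by ring
  rw [h1] at h0
  simp only [mul_ite, mul_zero, Finset.sum_ite_eq] at h0
  rw [← Finset.sum_filter, Finset.filter_mem_eq_inter, hcomm, Finset.sum_singleton] at h0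
  simp only [trivIrr, map_one, one_mul] at h0
  exact natCast_card_ne_zero G h0

end Cfsg.Agent.S4498
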