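import Cfsg.Statements.S4500
import Cfsg.Agent.Lib.Blocks.BrauerFeit
import Cfsg.Agent.Lib.Blocks.Orth
import Cfsg.Agent.Lib.Chars.Linear
import Cfsg.Agent.Lib.Chars.Central
import Cfsg.Agent.S0144
import Mathlib.GroupTheory.Perm.Cycle.Type

set_option autoImplicit false
open Cfsg

namespace Cfsg.Agent.S4500

open scoped ComplexConjugate
open CfsgLib.Chars CfsgLib.Blocks

universe u

theorem one_side {G : Type u} [Group G] [Finite G] (p q r a b c : ℕ) (hp : p.Prime) (hq : q.Prime)
    (hr : r.Prime) (hperf : commutator G = ⊤) [Nontrivial G] (hpr : p ≠ r) (hqr : q ≠ r) (hpq : p ≠ q) (ha : a ≤ 2)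
    (hG : Nat.card G = p ^ a * q ^ b * r ^ c) :
    ∃ χ : IrrCharacter G, (χ : G → ℂ) ≠ (fun _ => 1) ∧ ∃ k : ℕ, charDegree (χ : G → ℂ) = q ^ k := by
  classical
  haveI := Fintype.ofFinite G
  haveI := Fact.mk hp
  have hpd : p ∣ Nat.card G := by
    rcases Nat.eq_zero_or_pos a with rfl | h
    · exfalso
      haveI : Group.IsSolvable G := Cfsg.Agent.S0144.result q r b c hq hr (by simpa using hG)
      exact (Group.IsSolvable.commutator_lt_top_of_nontrivial G).ne hperf
    · exact hG ▸ ((dvd_pow_self p h.ne').mul_right _).mul_right _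
  obtain ⟨x, hx⟩ := exists_prime_orderOf_dvd_card' p hpd
  obtain ⟨M, hM⟩ := exists_isPModular hp
  set B := principalBlock M G with hBdef
  have hB : IsPBlock M B := ⟨trivIrr G, rfl⟩
  have h1B : trivIrr G ∈ B := self_mem_blockOf hM (trivIrr G)
  have hcast : ∀ d : ℕ, (Nat.card G).factorization p = d → d = a := by
    intro d hd
    rw [← hd, hG, Nat.factorization_mul (mul_ne_zero (pow_ne_zero _ hp.ne_zero) (pow_ne_zero _ hq.ne_zero))
      (pow_ne_zero _ hr.ne_zero), Nat.factorization_mul (pow_ne_zero _ hp.ne_zero) (pow_ne_zero _ hq.ne_zero),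
      Finsupp.add_apply, Finsupp.add_apply, hp.factorization_pow, hq.factorization_pow, hr.factorization_pow]
    simp [hpq, hpr]
  have hh : ∀ χ ∈ B, ¬ p ∣ charDegree ((χ : IrrCharacter G) : G → ℂ) := by
    intro χ hχ hd
    have hmin : minExp p B = 0 := by
      have := minExp_le (p := p) h1B
      have h1 : charDegree (trivIrr G : G → ℂ) = 1 := by
        have h := irr_apply_one (trivIrr G)
        rw [show (trivIrr G : G → ℂ) 1 = 1 from rfl] at h
        exact_mod_cast h.symm
      rw [h1, Nat.factorization_one] at this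
      simpa using this
    have hdef : blockDefect p B ≤ 2 := by
      rw [blockDefect_eq, hmin, Nat.sub_zero, hcast _ rfl]
      exact ha
    have hh := minExp_add_height (p := p) hχ
    rw [hmin, zero_add] at hh
    have hpos : 0 < blockHeight p B (χ : G → ℂ) := by
      rw [hh]; exact hp.factorization_pos_of_dvd (charDegree_pos χ).ne' hd
    have := (positive_height hM hB hχ hpos).1
    omega
  have hsum : ∑ χ ∈ Finset.univ.filter (· ∈ B), (charDegree (χ : G → ℂ) : ℂ) * (χ : G → ℂ) x = 0 := by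
    have h := blockCoeff_eq_zero_of_singular hM hB (y := x⁻¹) (by rw [orderOf_inv, hx])
    rw [blockCoeff_eq_sum, mul_eq_zero] at h
    rw [← h.resolve_left (inv_ne_zero (natCast_card_ne_zero G))]
    refine Finset.sum_congr rfl fun χ _ => ?_
    rw [irr_apply_one, IsCharacter.map_inv (isCharacter_irr χ), Complex.conj_conj]
  obtain ⟨χ, hχB, hχ1, hχr⟩ : ∃ χ : IrrCharacter G, χ ∈ B ∧ χ ≠ trivIrr G ∧ ¬ r ∣ charDegree (χ : G → ℂ) := by
    by_contra hne
    push Not at hne
    rw [← Finset.add_sum_erase _ _ (Finset.mem_filter.mpr ⟨Finset.mem_univ _, h1B⟩)] at hsum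
    have h1 : (charDegree (trivIrr G : G → ℂ) : ℂ) * (trivIrr G : G → ℂ) x = 1 := by
      rw [← irr_apply_one]; exact one_mul _
    rw [h1] at hsum
    set A : ℂ := ∑ χ ∈ (Finset.univ.filter (· ∈ B)).erase (trivIrr G),
      ((charDegree (χ : G → ℂ) / r : ℕ) : ℂ) * (χ : G → ℂ) x with hA
    have hAi : IsIntegral ℤ A := IsIntegral.sum _ fun χ _ => (by
      rw [← map_natCast (algebraMap ℤ ℂ)]; exact isIntegral_algebraMap : IsIntegral ℤ
        ((charDegree (χ : G → ℂ) / r : ℕ) : ℂ)).mul (IsCharacter.isIntegral (isCharacter_irr χ) x)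
    have he : (r : ℂ) * A = -1 := by
      rw [← eq_neg_of_add_eq_zero_right hsum, hA, Finset.mul_sum]
      refine Finset.sum_congr rfl fun χ hχ => ?_
      obtain ⟨h2, h3⟩ := Finset.mem_erase.mp hχ
      rw [← mul_assoc, ← Nat.cast_mul, Nat.mul_div_cancel' (hne χ (Finset.mem_filter.mp h3).2 h2)]
    refine hr.not_dvd_one (exists_int_of_isIntegral_div hr.ne_zero ?_)
    have e : ((1 : ℕ) : ℂ) / (r : ℂ) = -A := by
      rw [Nat.cast_one, div_eq_iff (Nat.cast_ne_zero.mpr hr.ne_zero)]
      linear_combination he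
    rw [e]
    exact hAi.neg
  refine ⟨χ, fun h => hχ1 (Subtype.ext h), ?_⟩
  have hd : charDegree (χ : G → ℂ) ∣ q ^ b := by
    have h := charDegree_dvd χ
    rw [hG] at h
    have h1 : Nat.Coprime (charDegree (χ : G → ℂ)) (r ^ c) :=
      Nat.Coprime.pow_right c ((hr.coprime_iff_not_dvd.mpr hχr).symm)
    have h2 : Nat.Coprime (charDegree (χ : G → ℂ)) (p ^ a) :=
      Nat.Coprime.pow_right a ((hp.coprime_iff_not_dvd.mpr (hh χ hχB)).symm)
    exact h2.dvd_of_dvd_mul_left (h1.dvd_of_dvd_mul_right h)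
  obtain ⟨k, -, hk⟩ := (Nat.dvd_prime_pow hq).mp hd
  exact ⟨k, hk⟩

/-- Let G be a non-trivial finite group of order p^a · q^b · r^c with p, q, r distinct primes and a ≤ 2. Then G has a non-principal irreducible character whose degree is a power of q, and a non-principal irreducible character whose degree is a power of r; the power may be the zeroth, so a non-principal linear character serves for both. -/
theorem result {G : Type*} [Group G] [Finite G] [Nontrivial G] (p q r a b c : ℕ) (hp : p.Prime) (hq : q.Prime) (hr : r.Prime) (hpq : p ≠ q) (hpr : p ≠ r) (hqr : q ≠ r) (ha : a ≤ 2) (hG : Nat.card G = p ^ a * q ^ b * r ^ c) : (∃ χ : Cfsg.IrrCharacter G, (χ : G → ℂ) ≠ (fun _ => 1) ∧ ∃ k : ℕ, Cfsg.charDegree (χ : G → ℂ) = q ^ k) ∧ ∃ χ : Cfsg.IrrCharacter G, (χ : G → ℂ) ≠ (fun _ => 1) ∧ ∃ k : ℕ, Cfsg.charDegree (χ : G → ℂ) = r ^ k := by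
  classical
  haveI := Fintype.ofFinite G
  by_cases hperf : commutator G = ⊤
  · exact ⟨one_side p q r a b c hp hq hr hperf hpr hqr hpq ha hG,
      one_side p r q a c b hp hr hq hperf hpq hqr.symm hpr ha (by rw [hG]; ring)⟩
  · obtain ⟨χ, hχ, hne⟩ : ∃ χ : IrrCharacter G, charDegree (χ : G → ℂ) = 1 ∧ (χ : G → ℂ) ≠ fun _ => 1 := by
      by_contra hne
      push Not at hne
      refine hperf (Subgroup.index_eq_one.mp ?_)
      rw [← card_linear]
      haveI : Subsingleton {χ : IrrCharacter G // charDegree (χ : G → ℂ) = 1} :=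
        ⟨fun x y => Subtype.ext (Subtype.ext ((hne x.1 x.2).trans (hne y.1 y.2).symm))⟩
      haveI : Nonempty {χ : IrrCharacter G // charDegree (χ : G → ℂ) = 1} :=
        ⟨⟨trivIrr G, by
          have h := irr_apply_one (trivIrr G)
          rw [show (trivIrr G : G → ℂ) 1 = 1 from rfl] at h
          exact_mod_cast h.symm⟩⟩
      exact Nat.card_eq_one_iff_unique.mpr ⟨inferInstance, inferInstance⟩
    exact ⟨⟨χ, hne, 0, by rw [hχ, pow_zero]⟩, χ, hne, 0, by rw [hχ, pow_zero]⟩

end Cfsg.Agent.S4500
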