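import Cfsg.Statements.S4505
import Cfsg.Agent.Lib.Blocks.DefectCount

set_option autoImplicit false
open Cfsg

namespace Cfsg.Agent.S4505

open CfsgLib.Chars CfsgLib.Blocks

/-- Let G be a finite group, p a prime and M a maximal ideal of the algebraic integers containing p. For every σ, the number of p-blocks of defect exactly σ is at most the number of conjugacy classes of p-regular elements whose centralizer has order divisible by p^σ but not by p^(σ+1). -/
theorem result {G : Type*} [Group G] [Finite G] (p : ℕ) [Fact p.Prime] (M : Ideal Cfsg.AlgInt) (hM : Cfsg.IsPModular p M) (σ : ℕ) : Nat.card {B : Set (Cfsg.IrrCharacter G) // Cfsg.IsPBlock M B ∧ Cfsg.blockDefect p B = σ} ≤ Nat.card {C : ConjClasses G // ∃ g : G, ConjClasses.mk g = C ∧ ¬ p ∣ orderOf g ∧ (Nat.card (Subgroup.centralizer ({g} : Set G))).factorization p = σ} := by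
  haveI : Fintype G := Fintype.ofFinite G
  exact card_blocks_le_classes hM (fun n => n = σ) fun a b c ha hb hac hcb => by omega

end Cfsg.Agent.S4505
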