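import Cfsg.Statements.S4510
import Cfsg.Agent.Lib.Blocks.DefectClass

set_option autoImplicit false
open Cfsg

namespace Cfsg.Agent.S4510

open CfsgLib.Chars CfsgLib.Blocks

/-- Let G be a finite group, p a prime, M a maximal ideal of the algebraic integers containing p, and call the defect of a conjugacy class the exponent of p in the order of the centralizer of its elements. Two irreducible characters lying in p-blocks of defect exactly d lie in the same block if and only if their central characters (class size times χ(x)/χ(1)) agree modulo the local ideal at M at every p-regular element x whose class has defect exactly d. -/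
theorem result {G : Type*} [Group G] [Finite G] (p : ℕ) [Fact p.Prime] (M : Ideal Cfsg.AlgInt) (hM : Cfsg.IsPModular p M) (d : ℕ) (χ ψ : Cfsg.IrrCharacter G) (hχ : Cfsg.blockDefect p (Cfsg.blockOf M (χ : G → ℂ)) = d) (hψ : Cfsg.blockDefect p (Cfsg.blockOf M (ψ : G → ℂ)) = d) : Cfsg.SameBlock M (χ : G → ℂ) (ψ : G → ℂ) ↔ ∀ x : G, ¬ p ∣ orderOf x → (Nat.card (Subgroup.centralizer ({x} : Set G))).factorization p = d → Cfsg.MemLocalIdeal M (Cfsg.centralChar (χ : G → ℂ) x - Cfsg.centralChar (ψ : G → ℂ) x) := by
  classical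
  haveI : Fintype G := Fintype.ofFinite G
  refine ⟨fun h x _ _ => h x, fun h => ?_⟩
  set B := Cfsg.blockOf M (χ : G → ℂ) with hBd
  have hB : Cfsg.IsPBlock M B := isPBlock_blockOf χ
  have hB2 : Cfsg.IsPBlock M (Cfsg.blockOf M (ψ : G → ℂ)) := isPBlock_blockOf ψ
  obtain ⟨D, hD⟩ := exists_isDefectGroup hM hB
  obtain ⟨D2, hD2⟩ := exists_isDefectGroup hM hB2
  haveI : Finite (ConjClasses G) := Finite.of_surjective _ ConjClasses.mk_surjective
  haveI : Fintype (ConjClasses G) := Fintype.ofFinite _
  have hterm : ∀ c : G, Cfsg.MemLocalIdeal M (Cfsg.blockCoeff B c * Cfsg.centralChar (χ : G → ℂ) c -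
      Cfsg.blockCoeff B c * Cfsg.centralChar (ψ : G → ℂ) c) := by
    intro c
    by_cases ha : Cfsg.MemLocalIdeal M (Cfsg.blockCoeff B c)
    · exact mli_sub hM (mli_mul_right hM ha (mlr_centralChar hM χ _))
        (mli_mul_right hM ha (mlr_centralChar hM ψ _))
    have hreg : ¬ p ∣ orderOf c := fun hd =>
      ha (by rw [blockCoeff_eq_zero_of_singular hM hB hd]; exact mli_zero hM)
    obtain ⟨S⟩ : Nonempty (Sylow p (Subgroup.centralizer ({c} : Set G))) := inferInstance
    obtain ⟨x, hx⟩ := pGroup_le_defectGroup hM hB hD ha (S.2.map _) (Subgroup.map_subtype_le _)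
    have hle : (Nat.card (Subgroup.centralizer ({c} : Set G))).factorization p ≤ d := by
      have h1 := Subgroup.card_le_of_le hx
      rw [card_map_conj, Subgroup.card_map_of_injective (Subgroup.subtype_injective _),
        S.card_eq_multiplicity, card_defectGroup hM hB hD, hχ] at h1
      exact (Nat.pow_le_pow_iff_right hM.1.one_lt).mp h1
    rcases hle.eq_or_lt with he | hlt
    · rw [← mul_sub]
      exact mli_mul_left hM (mlr_blockCoeff hM hB _) (h c hreg he)
    have hge : ∀ {E : Set (Cfsg.IrrCharacter G)} {φ : Cfsg.IrrCharacter G} {T : Subgroup G},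
        Cfsg.IsPBlock M E → Cfsg.IsDefectGroup p M E T → φ ∈ E → Cfsg.blockDefect p E = d →
        Cfsg.MemLocalIdeal M (Cfsg.centralChar (φ : G → ℂ) c) := by
      intro E φ T hE hT hφ hd
      by_contra hn
      obtain ⟨y, hy⟩ := defectGroup_le_centralizer hM hE hT hφ hn
      have h1 := Subgroup.card_dvd_of_le hy
      rw [card_map_conj, card_defectGroup hM hE hT, hd,
        hM.1.pow_dvd_iff_le_factorization Nat.card_pos.ne'] at h1
      omega
    exact mli_sub hM (mli_mul_left hM (mlr_blockCoeff hM hB _) (hge hB hD (self_mem_blockOf hM χ) hχ))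
      (mli_mul_left hM (mlr_blockCoeff hM hB _) (hge hB2 hD2 (self_mem_blockOf hM ψ) hψ))
  have h1 := mli_sum hM Finset.univ (f := fun q : ConjClasses G =>
      Cfsg.blockCoeff B q.out * Cfsg.centralChar (χ : G → ℂ) q.out -
        Cfsg.blockCoeff B q.out * Cfsg.centralChar (ψ : G → ℂ) q.out) fun q _ => hterm _
  rw [Finset.sum_sub_distrib,
    ← omega_eq_sum_centralChar (IsCharacter.isClassFunction (isCharacter_irr χ))
      (blockCoeff_isClassFunction B),
    ← omega_eq_sum_centralChar (IsCharacter.isClassFunction (isCharacter_irr ψ))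
      (blockCoeff_isClassFunction B),
    omega_blockCoeff, omega_blockCoeff, indic_of_mem (self_mem_blockOf hM χ)] at h1
  by_contra hne
  have hnot : ψ ∉ B := hne
  rw [indic_of_notMem hnot, sub_zero] at h1
  exact not_mli_one hM h1

end Cfsg.Agent.S4510
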