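import Cfsg.Statements.S4511
import Cfsg.Agent.Lib.Blocks.Section
import Cfsg.Agent.Lib.Blocks.PPart

set_option autoImplicit false
open Cfsg

namespace Cfsg.Agent.S4511

open CfsgLib.Chars CfsgLib.Blocks

/-- Sums of class functions by the classes of the parts. -/
theorem partition_sum {G : Type*} [Group G] [Fintype G] {p : ℕ} (hp : p.Prime) (X : Finset G)
    (hX : ∀ x ∈ X, ∃ k : ℕ, orderOf x = p ^ k)
    (hXrep : ∀ g : G, (∃ k : ℕ, orderOf g = p ^ k) → ∃! x, x ∈ X ∧ IsConj g x)
    (F : G → ℂ) (hF : ∀ g w : G, F (w * g * w⁻¹) = F g)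
    [∀ x : G, Fintype (Subgroup.centralizer ({x} : Set G))]
    [∀ x : G, DecidablePred fun y : Subgroup.centralizer ({x} : Set G) => ¬ p ∣ orderOf y] :
    ∑ g : G, F g = ∑ x ∈ X, ((Subgroup.centralizer ({x} : Set G)).index : ℂ) *
        ∑ y ∈ Finset.univ.filter (fun y : Subgroup.centralizer ({x} : Set G) => ¬ p ∣ orderOf y),
          F (x * (y : G)) := by
  classical
  choose pp hpp using fun g : G => exists_isPPart hp g
  choose ρ hρ hρu using fun g : G => hXrep (pp g) (by
    obtain ⟨v, -, -, h, -⟩ := hpp g; exact h)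
  rw [← Finset.sum_fiberwise_of_maps_to (s := Finset.univ) (t := X) (g := ρ) fun g _ => (hρ g).1]
  refine Finset.sum_congr rfl fun x hx => ?_
  have e1 : Finset.univ.filter (fun g => ρ g = x) = Finset.univ.filter (fun g => IsConj x (pp g)) := by
    ext g
    simp only [Finset.mem_filter, Finset.mem_univ, true_and]
    exact ⟨fun h => h ▸ (hρ g).2.symm, fun h => (hρu g x ⟨hx, h.symm⟩).symm⟩
  rw [e1, ← Finset.sum_fiberwise_of_maps_to (s := Finset.univ.filter (fun g => IsConj x (pp g)))
    (t := Finset.univ.filter (fun z => IsConj x z)) (g := pp) (fun g hg => by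
      simpa using (Finset.mem_filter.mp hg).2)]
  have e2 : ∀ z ∈ Finset.univ.filter (fun z => IsConj x z),
      ∑ g ∈ (Finset.univ.filter (fun g => IsConj x (pp g))).filter (fun g => pp g = z), F g =
        ∑ y ∈ Finset.univ.filter (fun y : Subgroup.centralizer ({x} : Set G) => ¬ p ∣ orderOf y),
          F (x * (y : G)) := by
    intro z hz
    obtain ⟨w, rfl⟩ := isConj_iff.mp (Finset.mem_filter.mp hz).2
    symm
    refine Finset.sum_bij (fun y _ => w * (x * (y : G)) * w⁻¹) ?_ ?_ ?_ ?_
    · intro y hy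
      have h1 : IsPPart p (x * (y : G)) x := ⟨(y : G), rfl,
        (Subgroup.mem_centralizer_singleton_iff.mp y.2).symm, hX x hx, by
          rw [Subgroup.orderOf_coe]; exact (Finset.mem_filter.mp hy).2⟩
      have h2 := isPPart_unique hp (hpp _) (IsPPart.conj h1 w)
      simp only [Finset.mem_filter, Finset.mem_univ, true_and]
      rw [h2]
      exact ⟨isConj_iff.mpr ⟨w, rfl⟩, rfl⟩
    · intro a _ b _ hab
      exact Subtype.ext (mul_left_cancel (mul_left_cancel (mul_right_cancel hab)))
    · intro g hg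
      obtain ⟨v, hv, hcomm, -, hvo⟩ := hpp g
      have hgz : pp g = w * x * w⁻¹ := (Finset.mem_filter.mp hg).2
      rw [hgz] at hv hcomm
      have hvC : w⁻¹ * v * w ∈ Subgroup.centralizer ({x} : Set G) := by
        rw [Subgroup.mem_centralizer_singleton_iff]
        calc w⁻¹ * v * w * x = w⁻¹ * (v * (w * x * w⁻¹)) * w := by group
          _ = w⁻¹ * ((w * x * w⁻¹) * v) * w := by rw [hcomm.symm.eq]
          _ = _ := by group
      refine ⟨⟨_, hvC⟩, Finset.mem_filter.mpr ⟨Finset.mem_univ _, ?_⟩, ?_⟩
      · rw [← Subgroup.orderOf_coe]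
        change ¬ p ∣ orderOf (w⁻¹ * v * w)
        rwa [show orderOf (w⁻¹ * v * w) = orderOf v by
          simpa using orderOf_injective (MulAut.conj w⁻¹).toMonoidHom (MulEquiv.injective _) v]
      · rw [← hv]; group
    · intro y _
      rw [hF]
  rw [Finset.sum_congr rfl e2, Finset.sum_const, nsmul_eq_mul, ← card_isConj_eq_index x,
    Nat.card_eq_fintype_card, Fintype.card_subtype]


/-- Brauer's count of the irreducible characters in a block by subsections. Let M be a maximal ideal of the algebraic integers containing the prime p, B a p-block of the finite group G, and X a set of representatives of the conjugacy classes of p-elements of G (elements of p-power order, the identity included: every p-element is conjugate to exactly one member of X). Then the number of irreducible characters in B is the sum, over x ∈ X and over the blocks b of C_G(x) that induce B, of the p-regular rank of b (the number of irreducible Brauer characters of b, here the dimension of the span of the restrictions of the members of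 b to the p-regular elements of C_G(x)). -/
theorem result {G : Type*} [Group G] [Finite G] (p : ℕ) (M : Ideal Cfsg.AlgInt) (hM : Cfsg.IsPModular p M)
    (B : Set (Cfsg.IrrCharacter G)) (hB : Cfsg.IsPBlock M B) (X : Finset G)
    (hX : ∀ x ∈ X, ∃ k : ℕ, orderOf x = p ^ k)
    (hXrep : ∀ g : G, (∃ k : ℕ, orderOf g = p ^ k) → ∃! x, x ∈ X ∧ IsConj g x) :
    Nat.card B = ∑ x ∈ X, ∑ᶠ b ∈ {b : Set (Cfsg.IrrCharacter ↥(Subgroup.centralizer ({x} : Set G))) | Cfsg.IsInducedBlock M (Subgroup.centralizer ({x} : Set G)) b B},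
      Cfsg.blockRank p b := by
  classical
  haveI : Fintype G := Fintype.ofFinite G
  have hp := hM.1
  set S := Finset.univ.filter (· ∈ B)
  have h1 : ((Nat.card B : ℕ) : ℂ) = (Nat.card G : ℂ)⁻¹ *
      ∑ g : G, ∑ χ ∈ S, (χ : G → ℂ) g * (starRingEnd ℂ) ((χ : G → ℂ) g) := by
    rw [Finset.sum_comm, Finset.sum_congr rfl fun χ _ => sum_mul_conj_irr χ χ]
    simp only [if_true, Finset.sum_const, nsmul_eq_mul]
    rw [mul_left_comm, inv_mul_cancel₀ (natCast_card_ne_zero G), mul_one, Nat.card_eq_fintype_card,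
      Fintype.card_subtype]
  set F : G → ℂ := fun g => ∑ χ ∈ S, (χ : G → ℂ) g * (starRingEnd ℂ) ((χ : G → ℂ) g)
  have hF : ∀ g w : G, F (w * g * w⁻¹) = F g := fun g w => Finset.sum_congr rfl fun χ _ => by
    rw [IsCharacter.isClassFunction (isCharacter_irr χ) g w]
  have hpartition : ∑ g : G, F g = ∑ x ∈ X,
      ((Subgroup.centralizer ({x} : Set G)).index : ℂ) *
        ∑ y ∈ Finset.univ.filter (fun y : Subgroup.centralizer ({x} : Set G) => ¬ p ∣ orderOf y),
          F (x * (y : G)) := partition_sum hp X hX hXrep F hF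
  apply Nat.cast_injective (R := ℂ)
  rw [h1, hpartition, Nat.cast_sum, Finset.mul_sum]
  refine Finset.sum_congr rfl fun x hx => ?_
  obtain ⟨k, hk⟩ := hX x hx
  have hC : ∀ g, g ∈ Subgroup.centralizer ({x} : Set G) ↔ Commute g x := fun g =>
    Subgroup.mem_centralizer_singleton_iff
  haveI : Fintype (Set (IrrCharacter (Subgroup.centralizer ({x} : Set G)))) := Fintype.ofFinite _
  rw [finsum_mem_eq_toFinset_sum, Nat.cast_sum]
  have hsum : ∑ y ∈ Finset.univ.filter
      (fun y : Subgroup.centralizer ({x} : Set G) => ¬ p ∣ orderOf y), F (x * (y : G)) =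
      ∑ b ∈ Finset.univ.filter
        (fun b => IsInducedBlock M (Subgroup.centralizer ({x} : Set G)) b B),
        (Nat.card (Subgroup.centralizer ({x} : Set G)) : ℂ) * (blockRank p b : ℂ) := by
    have e3 : ∀ b ∈ Finset.univ.filter
        (fun b => IsInducedBlock M (Subgroup.centralizer ({x} : Set G)) b B),
        (Nat.card (Subgroup.centralizer ({x} : Set G)) : ℂ) * (blockRank p b : ℂ) =
          ∑ y ∈ Finset.univ.filter (fun y : Subgroup.centralizer ({x} : Set G) => ¬ p ∣ orderOf y),
            ∑ φ ∈ Finset.univ.filter (· ∈ b), (φ : Subgroup.centralizer ({x} : Set G) → ℂ) y *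
              (starRingEnd ℂ) ((φ : Subgroup.centralizer ({x} : Set G) → ℂ) y) :=
      fun b hb => (sum_regular_sq hM (Finset.mem_filter.mp hb).2.1).symm
    rw [Finset.sum_congr (M := ℂ) rfl e3]
    conv_rhs => rw [Finset.sum_comm]
    refine Finset.sum_congr rfl fun y hy => ?_
    have hyr := (Finset.mem_filter.mp hy).2
    have e4 : ∀ b ∈ Finset.univ.filter
        (fun b => IsInducedBlock M (Subgroup.centralizer ({x} : Set G)) b B),
        (∑ φ ∈ Finset.univ.filter (· ∈ b), (φ : Subgroup.centralizer ({x} : Set G) → ℂ) y *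
              (starRingEnd ℂ) ((φ : Subgroup.centralizer ({x} : Set G) → ℂ) y)) =
          ∑ χ ∈ S, blockPart b (secFun (Subgroup.centralizer ({x} : Set G)) x (χ : G → ℂ)) y *
            (starRingEnd ℂ) ((χ : G → ℂ) (x * (y : G))) :=
      fun b hb => (sec_orth_left hM hk hC (Finset.mem_filter.mp hb).2 hyr hyr).symm
    rw [Finset.sum_congr (M := ℂ) rfl e4]
    conv_rhs => rw [Finset.sum_comm]
    refine Finset.sum_congr rfl fun χ hχ => ?_
    rw [← Finset.sum_mul, ← sec_decomp hM hk hC hB (Finset.mem_filter.mp hχ).2 hyr]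
  rw [hsum, Finset.mul_sum, Finset.mul_sum]
  refine Finset.sum_congr (by ext; simp) fun b _ => ?_
  have hcard : ((Subgroup.centralizer ({x} : Set G)).index : ℂ) *
      (Nat.card (Subgroup.centralizer ({x} : Set G)) : ℂ) = (Nat.card G : ℂ) := by
    rw [← Nat.cast_mul, Subgroup.index_mul_card]
  rw [← mul_assoc _ _ (blockRank p b : ℂ), hcard, ← mul_assoc,
    inv_mul_cancel₀ (natCast_card_ne_zero G), one_mul]

end Cfsg.Agent.S4511
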