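import Cfsg.Statements.S4513
import Cfsg.Agent.Lib.Blocks.Section
import Cfsg.Agent.Lib.Blocks.DCentralizer
import Cfsg.Agent.S4717
import Cfsg.Agent.S0920
import Cfsg.Agent.S0924

set_option autoImplicit false
open Cfsg

namespace Cfsg.Agent.S4513
open CfsgLib.Chars CfsgLib.Blocks
open scoped ComplexConjugate
universe v

variable {G : Type v} [Group G] [Fintype G] {M : Ideal Cfsg.AlgInt}

theorem commute_iff_norm {x : G} (hx : orderOf x = 2) (g : G) :
    g ∈ Subgroup.normalizer ((Subgroup.zpowers x : Subgroup G) : Set G) ↔ Commute g x := by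
  constructor
  · intro hg
    have h1 : g * x * g⁻¹ ∈ Subgroup.zpowers x :=
      (Subgroup.mem_normalizer_iff.mp hg x).mp (Subgroup.mem_zpowers x)
    classical
    rw [mem_zpowers_iff_mem_range_orderOf, hx] at h1
    simp only [Finset.mem_image, Finset.mem_range] at h1
    obtain ⟨i, hi, he⟩ := h1
    interval_cases i
    · rw [pow_zero] at he
      have : x = 1 := by
        have := congrArg (fun t => g⁻¹ * t * g) he.symm
        simpa [mul_assoc] using this
      rw [this, orderOf_one] at hx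
      omega
    · rw [pow_one] at he
      exact mul_inv_eq_iff_eq_mul.mp he.symm
  · intro h
    refine Subgroup.mem_normalizer_iff.mpr fun y => ?_
    constructor
    · intro hy
      obtain ⟨n, rfl⟩ := Subgroup.mem_zpowers_iff.mp hy
      rw [(h.zpow_right n).eq, mul_inv_cancel_right]
      exact hy
    · intro hy
      obtain ⟨n, hn⟩ := Subgroup.mem_zpowers_iff.mp hy
      have e : y = g⁻¹ * x ^ n * g := by rw [hn]; group
      rw [e, (h.inv_left.zpow_right n).eq, inv_mul_cancel_right]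
      exact Subgroup.zpow_mem _ (Subgroup.mem_zpowers x) n

variable {C : Subgroup G} [Fintype C] {x : G} {B : Set (Cfsg.IrrCharacter G)}

theorem block_defect (hM : Cfsg.IsPModular 2 M) (hx : orderOf x = 2)
    (hC : ∀ g, g ∈ C ↔ Commute g x) (hB : Cfsg.IsPBlock M B)
    (hBD : Cfsg.IsDefectGroup 2 M B (Subgroup.zpowers x)) {b : Set (Cfsg.IrrCharacter C)}
    (hind : Cfsg.IsInducedBlock M C b B) :
    Cfsg.IsDefectGroup 2 M b ((Subgroup.zpowers x).subgroupOf C) := by
  obtain ⟨D, hD⟩ := exists_isDefectGroup hM hind.1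
  have hle : Subgroup.zpowers x ≤ C := Subgroup.zpowers_le.mpr ((hC x).mpr (Commute.refl x))
  haveI : ((Subgroup.zpowers x).subgroupOf C).Normal := ⟨fun q hq c => by
    rw [Subgroup.mem_subgroupOf] at hq ⊢
    obtain ⟨n, hn⟩ := Subgroup.mem_zpowers_iff.mp hq
    simp only [Subgroup.coe_mul, InvMemClass.coe_inv]
    rw [← hn, (((hC _).mp c.2).zpow_right n).eq, mul_inv_cancel_right]
    exact Subgroup.zpow_mem _ (Subgroup.mem_zpowers x) n⟩
  have hQ : Nat.card ((Subgroup.zpowers x).subgroupOf C) = 2 := by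
    rw [Nat.card_congr (Subgroup.subgroupOfEquivOfLe hle).toEquiv, Nat.card_zpowers, hx]
  have hQD := normal_pGroup_le_defectGroup hM ((Subgroup.zpowers x).subgroupOf C)
    (IsPGroup.of_card (n := 1) (by rw [hQ, pow_one])) hind.1 hD
  have h2 : Nat.card D ≤ 2 := by
    calc Nat.card D = 2 ^ Cfsg.blockDefect 2 b := card_defectGroup hM hind.1 hD
      _ ≤ 2 ^ Cfsg.blockDefect 2 B :=
        Nat.pow_le_pow_right (by norm_num) (Cfsg.Agent.S4717.defect_le_of_induced hM hind)
      _ = Nat.card (Subgroup.zpowers x) := (card_defectGroup hM hB hBD).symm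
      _ = 2 := by rw [Nat.card_zpowers, hx]
  rwa [Subgroup.eq_of_le_of_card_ge hQD (h2.trans hQ.ge)]

theorem block_unique (hM : Cfsg.IsPModular 2 M) (hx : orderOf x = 2)
    (hC : ∀ g, g ∈ C ↔ Commute g x) (hB : Cfsg.IsPBlock M B)
    (hBD : Cfsg.IsDefectGroup 2 M B (Subgroup.zpowers x))
    (e : C = Subgroup.normalizer ((Subgroup.zpowers x : Subgroup G) : Set G))
    {b b' : Set (Cfsg.IrrCharacter C)}
    (hind : Cfsg.IsInducedBlock M C b B) (hind' : Cfsg.IsInducedBlock M C b' B) : b = b' := by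
  haveI : Fact (Nat.Prime 2) := ⟨Nat.prime_two⟩
  subst e
  exact ((Cfsg.Agent.S0920.result 2 M hM (Subgroup.zpowers x)
    (IsPGroup.of_card (n := 1) (by rw [Nat.card_zpowers, hx, pow_one]))).2 B hB hBD).unique
    ⟨hind.1, block_defect hM hx hC hB hBD hind, hind⟩
    ⟨hind'.1, block_defect hM hx hC hB hBD hind', hind'⟩

open Classical in
theorem main (hM : Cfsg.IsPModular 2 M) (hx : orderOf x = 2)
    (hC : ∀ g, g ∈ C ↔ Commute g x) (hB : Cfsg.IsPBlock M B)
    (hBD : Cfsg.IsDefectGroup 2 M B (Subgroup.zpowers x))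
    {b : Set (Cfsg.IrrCharacter C)} (hind : Cfsg.IsInducedBlock M C b B)
    {θ : Cfsg.IrrCharacter C} (hθ : θ ∈ b)
    (hθx : ∀ z : C, (z : G) = x → (θ : C → ℂ) z = (θ : C → ℂ) 1) :
    Nat.card B = 2 ∧
      (∀ χ ∈ B, ∀ ψ ∈ B, ∀ g : G, ¬ 2 ∣ orderOf g → (χ : G → ℂ) g = (ψ : G → ℂ) g) ∧
      ∃ χ₁ ∈ B, ∃ χ₂ ∈ B, χ₁ ≠ χ₂ ∧ ∃ ε₁ ε₂ : ℤ, (ε₁ = 1 ∨ ε₁ = -1) ∧ (ε₂ = 1 ∨ ε₂ = -1) ∧
        ε₁ * ε₂ = -1 ∧ ∀ y : C, ¬ 2 ∣ orderOf y →
          (χ₁ : G → ℂ) (x * y) = (ε₁ : ℂ) * (θ : C → ℂ) y ∧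
          (χ₂ : G → ℂ) (x * y) = (ε₂ : ℂ) * (θ : C → ℂ) y := by
  haveI : Fact (Nat.Prime 2) := ⟨Nat.prime_two⟩
  have hxk : orderOf x = 2 ^ 1 := by rw [hx, pow_one]
  have eCN : C = Subgroup.normalizer ((Subgroup.zpowers x : Subgroup G) : Set G) := by
    ext g; rw [hC, commute_iff_norm hx]
  have huniq : ∀ b' : Set (Cfsg.IrrCharacter C), Cfsg.IsInducedBlock M C b' B → b' = b :=
    fun b' h => block_unique hM hx hC hB hBD eCN h hind
  have hxC : x ∈ C := (hC x).mpr (Commute.refl x)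
  let x' : C := ⟨x, hxC⟩
  have hx'Z : x' ∈ Subgroup.center C :=
    Subgroup.mem_center_iff.mpr fun c => Subtype.ext ((hC _).mp c.2).eq
  have hbd := block_defect hM hx hC hB hBD hind
  set Q := (Subgroup.zpowers x).subgroupOf C with hQdef
  have hle : Subgroup.zpowers x ≤ C := Subgroup.zpowers_le.mpr hxC
  have hQ : Nat.card Q = 2 := by
    rw [hQdef, Nat.card_congr (Subgroup.subgroupOfEquivOfLe hle).toEquiv, Nat.card_zpowers, hx]
  have hQp : IsPGroup 2 Q := IsPGroup.of_card (n := 1) (by rw [hQ, pow_one])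
  have hQmem : ∀ q ∈ Q, q = 1 ∨ q = x' := by
    intro q hq
    rw [hQdef, Subgroup.mem_subgroupOf, mem_zpowers_iff_mem_range_orderOf, hx] at hq
    simp only [Finset.mem_image, Finset.mem_range] at hq
    obtain ⟨i, hi, he⟩ := hq
    interval_cases i
    · left; exact Subtype.ext (by rw [← he, pow_zero]; rfl)
    · right; exact Subtype.ext (by rw [← he, pow_one])
  have hDC : DC.IsDC Q := by
    rw [DC.IsDC, eq_top_iff]
    intro c _
    refine Subgroup.mem_sup_right (Subgroup.mem_centralizer_iff.mpr fun q hq => ?_)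
    rcases hQmem q hq with rfl | rfl
    · simp
    · exact (Subgroup.mem_center_iff.mp hx'Z c).symm
  have hker : ∀ q ∈ Q, (θ : C → ℂ) q = (θ : C → ℂ) 1 := by
    intro q hq
    rcases hQmem q hq with rfl | rfl
    · rfl
    · exact hθx x' rfl
  have hd := card_defectGroup hM hind.1 hbd
  haveI : Fintype Q := Fintype.ofFinite _
  have hdeg := DC.canonical_degree hM hDC hQp hd hθ hker
  have hiff := DC.mem_block_iff hM hDC hQp hker hdeg hind.1 hd hθ
  have hdeg1 : ∀ ζ : Cfsg.IrrCharacter Q, Cfsg.charDegree (ζ : Q → ℂ) = 1 := by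
    intro ζ
    have h := sum_deg_sq (G := Q)
    rw [hQ] at h
    have h1 := Finset.single_le_sum (f := fun ζ : Cfsg.IrrCharacter Q => Cfsg.charDegree (ζ : Q → ℂ) ^ 2)
      (fun _ _ => Nat.zero_le _) (Finset.mem_univ ζ)
    rw [h] at h1
    have h2 := charDegree_pos ζ
    by_contra hne
    have h3 : 2 ^ 2 ≤ Cfsg.charDegree (ζ : Q → ℂ) ^ 2 :=
      Nat.pow_le_pow_left (by omega) 2
    omega
  have hreg : ∀ φ ∈ b, ∀ y : C, ¬ 2 ∣ orderOf y → (φ : C → ℂ) y = (θ : C → ℂ) y := by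
    intro φ hφ y hy
    obtain ⟨ζ, rfl⟩ := (hiff φ).mp hφ
    have h := DC.starChar_apply hDC hQp hM.1 (θ : C → ℂ) (ζ : Q → ℂ) 1 hy
    rw [OneMemClass.coe_one, one_mul, irr_apply_one, hdeg1, Nat.cast_one, one_mul] at h
    exact h
  have hθ1 : (θ : C → ℂ) 1 ≠ 0 := irr_one_ne_zero θ
  have hbsum : ∑ φ ∈ Finset.univ.filter (· ∈ b), (φ : C → ℂ) 1 * conj ((φ : C → ℂ) 1) =
      2 * ((θ : C → ℂ) 1 * conj ((θ : C → ℂ) 1)) := by
    have e : Finset.univ.filter (· ∈ b) =
        Finset.univ.image (DC.starIrr hM hDC hQp hker hdeg) := by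
      ext φ
      simp only [Finset.mem_filter, Finset.mem_univ, true_and, Finset.mem_image, hiff φ, eq_comm]
    have hcard : Fintype.card (Cfsg.IrrCharacter Q) = 2 := by
      have h := sum_deg_sq (G := Q)
      simp only [hdeg1, one_pow, Finset.sum_const, Finset.card_univ, smul_eq_mul, mul_one] at h
      rw [h, hQ]
    have hone : ∀ ζ : Cfsg.IrrCharacter Q,
        (DC.starIrr hM hDC hQp hker hdeg ζ : C → ℂ) 1 = (θ : C → ℂ) 1 := fun ζ =>
      hreg _ ((hiff _).mpr ⟨ζ, rfl⟩) 1 (not_dvd_orderOf_one hM)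
    rw [e, Finset.sum_image fun a _ c _ h => DC.starIrr_injective hM hDC hQp hker hdeg h]
    simp only [hone, Finset.sum_const, Finset.card_univ, hcard]
    simp
  -- the integral decomposition numbers at the section
  have hdec : ∀ χ : Cfsg.IrrCharacter G, ∃ d : ℤ, χ ∈ B → ∀ y : C, ¬ 2 ∣ orderOf y →
      blockPart b (secFun C x (χ : G → ℂ)) y = (d : ℂ) * (θ : C → ℂ) y := by
    intro χ
    have hterm : ∀ φ : Cfsg.IrrCharacter C, ∃ n : ℤ,
        Cfsg.classInner (secFun C x (χ : G → ℂ)) (φ : C → ℂ) = (n : ℂ) := by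
      intro φ
      obtain ⟨m, hm⟩ := exists_mult (IsCharacter.restrict (isCharacter_irr χ) C) φ
      have hφ1 : (φ : C → ℂ) 1 ≠ 0 := irr_one_ne_zero φ
      have hxx : x' * x' = 1 := Subtype.ext (by
        have := pow_orderOf_eq_one x
        rw [hx, pow_two] at this
        exact this)
      have hsq := mul_central φ hx'Z x'
      rw [hxx] at hsq
      obtain ⟨s, hs, hs'⟩ : ∃ s : ℤ, (φ : C → ℂ) x' = (s : ℂ) * (φ : C → ℂ) 1 ∧
          (s = 1 ∨ s = -1) := by
        rcases mul_self_eq_mul_self_iff.mp hsq.symm with h | h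
        · exact ⟨1, by simp [h], Or.inl rfl⟩
        · exact ⟨-1, by simp [h], Or.inr rfl⟩
      refine ⟨s * m, ?_⟩
      have hmul : ∀ c : C, (φ : C → ℂ) (x' * c) = (s : ℂ) * (φ : C → ℂ) c := by
        intro c
        have := mul_central φ hx'Z c
        rw [hs] at this
        apply mul_right_cancel₀ hφ1
        rw [this]; ring
      rw [Int.cast_mul, Int.cast_natCast, ← hm]
      simp only [Cfsg.classInner, secFun]
      rw [mul_left_comm, Finset.mul_sum (a := (s : ℂ))]
      congr 1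
      refine Fintype.sum_equiv (Equiv.mulLeft x') _ _ fun c => ?_
      simp only [Equiv.coe_mulLeft, hmul, map_mul, map_intCast]
      rw [show (((x' * c : C)) : G) = x * (c : G) from rfl]
      have hss : (s : ℂ) * (s : ℂ) = 1 := by rcases hs' with rfl | rfl <;> simp
      linear_combination (-(χ : G → ℂ) (x * (c : G)) * conj ((φ : C → ℂ) c)) * hss
    choose n hn using hterm
    refine ⟨∑ φ ∈ Finset.univ.filter (· ∈ b), n φ, fun _ y hy => ?_⟩
    rw [blockPart_eq_filter, Int.cast_sum, Finset.sum_mul]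
    exact Finset.sum_congr rfl fun φ hφ => by rw [hn, hreg φ (Finset.mem_filter.mp hφ).2 y hy]
  choose d hd' using hdec
  have hval : ∀ χ ∈ B, ∀ y : C, ¬ 2 ∣ orderOf y →
      (χ : G → ℂ) (x * (y : G)) = (d χ : ℂ) * (θ : C → ℂ) y := by
    intro χ hχ y hy
    rw [sec_decomp hM hxk hC hB hχ hy, Finset.sum_eq_single b]
    · exact hd' χ hχ y hy
    · exact fun b' hb' hne => absurd (huniq b' (Finset.mem_filter.mp hb').2) hne
    · exact fun h => absurd (Finset.mem_filter.mpr ⟨Finset.mem_univ b, hind⟩) h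
  have hvalx : ∀ χ ∈ B, (χ : G → ℂ) x = (d χ : ℂ) * (θ : C → ℂ) 1 := fun χ hχ => by
    simpa using hval χ hχ 1 (not_dvd_orderOf_one hM)
  have hcol : ∑ χ ∈ Finset.univ.filter (· ∈ B), d χ ^ 2 = (2 : ℤ) := by
    have h := sec_orth_left hM hxk hC hind (y := (1 : C)) (y' := 1) (not_dvd_orderOf_one hM)
      (not_dvd_orderOf_one hM)
    rw [hbsum] at h
    have hne : (θ : C → ℂ) 1 * conj ((θ : C → ℂ) 1) ≠ 0 := by simpa using hθ1
    apply Int.cast_injective (α := ℂ)
    apply mul_right_cancel₀ hne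
    push_cast
    rw [← h, Finset.sum_mul]
    refine Finset.sum_congr rfl fun χ hχ => ?_
    have hχB := (Finset.mem_filter.mp hχ).2
    rw [hd' χ hχB 1 (not_dvd_orderOf_one hM), OneMemClass.coe_one, mul_one, hvalx χ hχB, map_mul,
      map_intCast]
    ring
  -- no member vanishes on the section
  have hd0 : ∀ χ ∈ B, d χ ≠ 0 := by
    intro χ hχ h0
    have hBe : B = Cfsg.blockOf M (χ : G → ℂ) := IsPBlock.eq_of_mem hM hB (isPBlock_blockOf χ) hχ
      (self_mem_blockOf hM χ)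
    have hvan : ∀ g : G, 2 ∣ orderOf g → (χ : G → ℂ) g = 0 := by
      intro g hg
      obtain ⟨z, hz⟩ := exists_isPPart hM.1 g
      by_cases hD : ∃ D : Subgroup G, Cfsg.IsDefectGroup 2 M (Cfsg.blockOf M (χ : G → ℂ)) D ∧ z ∈ D
      · obtain ⟨D, hD, hzD⟩ := hD
        rw [← hBe] at hD
        obtain ⟨w, rfl⟩ := defectGroup_conj hM hB hBD hD
        obtain ⟨q, hq, rfl⟩ := hzD
        obtain ⟨v, hv, hcomm, ⟨k, hk⟩, hvo⟩ := hz
        have hq' : q = 1 ∨ q = x := by
          rcases hQmem ⟨q, hle hq⟩ hq with h | h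
          · left; exact congrArg Subtype.val h
          · right; exact congrArg Subtype.val h
        rcases hq' with hq' | hq'
        · subst q
          rw [map_one, one_mul] at hv
          exact absurd (hv ▸ hg) hvo
        · subst q
          have e1 : g = w * (x * (w⁻¹ * v * w)) * w⁻¹ := by
            rw [← hv]
            change w * x * w⁻¹ * v = _
            group
          have hc' : Commute (w⁻¹ * v * w) x := by
            have hc : w * x * w⁻¹ * v = v * (w * x * w⁻¹) := hcomm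
            have := congrArg (fun t => w⁻¹ * t * w) hc
            simp only [mul_assoc, inv_mul_cancel_left, inv_mul_cancel, mul_one] at this
            rw [Commute, SemiconjBy]
            simp only [mul_assoc]
            exact this.symm
          let y : C := ⟨w⁻¹ * v * w, (hC _).mpr hc'⟩
          have hy : ¬ 2 ∣ orderOf y := by
            rw [← Subgroup.orderOf_coe]
            change ¬ 2 ∣ orderOf (w⁻¹ * v * w)
            rwa [show w⁻¹ * v * w = MulAut.conj w⁻¹ v by simp [MulAut.conj_apply],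
              MulEquiv.orderOf_eq]
          rw [e1, IsCharacter.isClassFunction (isCharacter_irr χ)]
          have := hval χ hχ y hy
          rw [h0, Int.cast_zero, zero_mul] at this
          exact this
      · push Not at hD
        exact Cfsg.Agent.S0924.result 2 M hM χ g z hz hD
    have h1 : Cfsg.blockDefect 2 B = 0 := by
      rw [blockDefect_eq_zero_iff hM hB]
      intro ψ hψ
      have hs := blockOf_eq_singleton hM ((defect_zero_tfae hM χ).2.mpr hvan)
      rw [hBe, hs, Set.mem_singleton_iff] at hψ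
      rw [hψ]
      exact (defect_zero_tfae hM χ).2.mpr hvan
    have := card_defectGroup hM hB hBD
    rw [h1, Nat.card_zpowers, hx] at this
    omega
  have hd1 : ∀ χ ∈ B, d χ = 1 ∨ d χ = -1 := by
    intro χ hχ
    have h1 : d χ ^ 2 ≤ 2 := hcol ▸ Finset.single_le_sum (f := fun χ => d χ ^ 2)
      (fun _ _ => sq_nonneg _) (Finset.mem_filter.mpr ⟨Finset.mem_univ _, hχ⟩)
    have h2 := hd0 χ hχ
    have h3 : -2 < d χ := by nlinarith
    have h4 : d χ < 2 := by nlinarith
    omega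
  have hcard : (Finset.univ.filter (· ∈ B)).card = 2 := by
    have : ∑ χ ∈ Finset.univ.filter (· ∈ B), d χ ^ 2 =
        ∑ χ ∈ Finset.univ.filter (· ∈ B), (1 : ℤ) := Finset.sum_congr rfl fun χ hχ => by
      rcases hd1 χ (Finset.mem_filter.mp hχ).2 with h | h <;> simp [h]
    rw [hcol, Finset.sum_const, nsmul_eq_mul, mul_one] at this
    exact_mod_cast this.symm
  obtain ⟨χ₁, χ₂, hne, hpair⟩ := Finset.card_eq_two.mp hcard
  have hmem : ∀ χ, χ ∈ B ↔ χ = χ₁ ∨ χ = χ₂ := fun χ => by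
    have := Finset.ext_iff.mp hpair χ
    simpa using this
  have h1B := (hmem χ₁).mpr (Or.inl rfl)
  have h2B := (hmem χ₂).mpr (Or.inr rfl)
  have horth : ∀ g : G, ¬ 2 ∣ orderOf g →
      (d χ₁ : ℂ) * (χ₁ : G → ℂ) g + (d χ₂ : ℂ) * (χ₂ : G → ℂ) g = 0 := by
    intro g hg
    have h := weak_orth_finsum hM hB hg (y := x) (by rw [hx])
    rw [show B = ((({χ₁, χ₂} : Finset (Cfsg.IrrCharacter G))) : Set (Cfsg.IrrCharacter G)) by
      ext χ; simp [hmem χ], finsum_mem_coe_finset, Finset.sum_pair hne] at h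
    rw [hvalx χ₁ h1B, hvalx χ₂ h2B, map_mul, map_mul, map_intCast, map_intCast] at h
    have hne' : conj ((θ : C → ℂ) 1) ≠ 0 := by simpa using hθ1
    apply mul_right_cancel₀ hne'
    linear_combination h
  have hsign : d χ₁ * d χ₂ = -1 := by
    have h := horth 1 (not_dvd_orderOf_one hM)
    rw [irr_apply_one, irr_apply_one] at h
    have h' : d χ₁ * (Cfsg.charDegree (χ₁ : G → ℂ) : ℤ) +
        d χ₂ * (Cfsg.charDegree (χ₂ : G → ℂ) : ℤ) = 0 := by exact_mod_cast h
    have p1 := charDegree_pos χ₁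
    have p2 := charDegree_pos χ₂
    rcases hd1 χ₁ h1B with e1 | e1 <;> rcases hd1 χ₂ h2B with e2 | e2 <;>
      rw [e1, e2] at h' ⊢ <;> omega
  have heq : ∀ g : G, ¬ 2 ∣ orderOf g → (χ₁ : G → ℂ) g = (χ₂ : G → ℂ) g := by
    intro g hg
    have h := horth g hg
    rcases hd1 χ₁ h1B with e1 | e1 <;> rcases hd1 χ₂ h2B with e2 | e2 <;>
      rw [e1, e2] at h hsign <;> simp at hsign h ⊢ <;>
      first
        | linear_combination h
        | linear_combination -h
  refine ⟨?_, ?_, χ₁, h1B, χ₂, h2B, hne, d χ₁, d χ₂, hd1 χ₁ h1B, hd1 χ₂ h2B, hsign,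
    fun y hy => ⟨hval χ₁ h1B y hy, hval χ₂ h2B y hy⟩⟩
  · rw [← hcard, Nat.card_eq_fintype_card]
    exact Fintype.card_of_subtype _ (fun χ => by simp)
  · intro χ hχ ψ hψ g hg
    rcases (hmem χ).mp hχ with rfl | rfl <;> rcases (hmem ψ).mp hψ with rfl | rfl
    · rfl
    · exact heq g hg
    · exact (heq g hg).symm
    · rfl


/-- Blocks of defect one for p = 2. Let M be a maximal ideal of the algebraic integers containing 2, B a 2-block of the finite group G whose defect group is the subgroup generated by an involution x, C = C_G(x), b a block of C inducing B and θ a member of b taking the same value at x as at 1 (there is exactly one). Then B consists of exactly two irreducible characters, which agree on every element of odd order, and they can be labelled χ₁, χ₂ with signs ε₁, ε₂ = ±1, ε₁ε₂ = −1, such that χᵢ(x y) = εᵢ θ(y) for every element y of C of odd order. -/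
theorem result {G : Type*} [Group G] [Finite G] (M : Ideal Cfsg.AlgInt) (hM : Cfsg.IsPModular 2 M) (x : G) (hx : orderOf x = 2)
    (B : Set (Cfsg.IrrCharacter G)) (hB : Cfsg.IsPBlock M B) (hBD : Cfsg.IsDefectGroup 2 M B (Subgroup.zpowers x))
    (b : Set (Cfsg.IrrCharacter ↥(Subgroup.centralizer ({x} : Set G)))) (hb : Cfsg.IsInducedBlock M (Subgroup.centralizer ({x} : Set G)) b B)
    (θ : Cfsg.IrrCharacter ↥(Subgroup.centralizer ({x} : Set G))) (hθ : θ ∈ b)
    (hθx : ∀ z : ↥(Subgroup.centralizer ({x} : Set G)), (z : G) = x → (θ : ↥(Subgroup.centralizer ({x} : Set G)) → ℂ) z = (θ : ↥(Subgroup.centralizer ({x} : Set G)) → ℂ) 1) :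
    Nat.card B = 2 ∧ (∀ χ ∈ B, ∀ ψ ∈ B, ∀ g : G, ¬ 2 ∣ orderOf g → (χ : G → ℂ) g = (ψ : G → ℂ) g) ∧
      ∃ χ₁ ∈ B, ∃ χ₂ ∈ B, χ₁ ≠ χ₂ ∧ ∃ ε₁ ε₂ : ℤ, (ε₁ = 1 ∨ ε₁ = -1) ∧ (ε₂ = 1 ∨ ε₂ = -1) ∧ ε₁ * ε₂ = -1 ∧
        ∀ y : ↥(Subgroup.centralizer ({x} : Set G)), ¬ 2 ∣ orderOf y →
          (χ₁ : G → ℂ) (x * y) = (ε₁ : ℂ) * (θ : ↥(Subgroup.centralizer ({x} : Set G)) → ℂ) y ∧ (χ₂ : G → ℂ) (x * y) = (ε₂ : ℂ) * (θ : ↥(Subgroup.centralizer ({x} : Set G)) → ℂ) y := by
  haveI : Fintype G := Fintype.ofFinite G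
  haveI : Fintype (Subgroup.centralizer ({x} : Set G)) := Fintype.ofFinite _
  exact main hM hx (fun g => Subgroup.mem_centralizer_singleton_iff) hB hBD hb hθ hθx


end Cfsg.Agent.S4513
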