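import Cfsg.Statements.S4636
import Mathlib.GroupTheory.SpecificGroups.Cyclic
import Mathlib.GroupTheory.PGroup

set_option autoImplicit false
open scoped Pointwise
open Cfsg

namespace Cfsg.Agent.S4636

/-- Let P be a nontrivial cyclic p-subgroup of the finite group G and Z its subgroup of order p. For every x outside N_G(Z), P meets its conjugate xPx⁻¹ trivially; consequently N_G(Q) ≤ N_G(Z) for every nontrivial subgroup Q of P. -/
theorem result {G : Type*} [Group G] [Finite G] (p : ℕ) [Fact p.Prime] (P : Subgroup G) (hP : IsPGroup p P) (hP1 : P ≠ ⊥) (hcyc : IsCyclic P) (Z : Subgroup G) (hZ : Z ≤ P) (hZcard : Nat.card Z = p) : (∀ x : G, x ∉ Subgroup.normalizer (Z : Set G) → P ⊓ MulAut.conj x • P = ⊥) ∧ ∀ Q : Subgroup G, Q ≤ P → Q ≠ ⊥ → Subgroup.normalizer (Q : Set G) ≤ Subgroup.normalizer (Z : Set G) := by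
  classical
  haveI : Fintype P := Fintype.ofFinite P
  have hp : p.Prime := Fact.out
  have key : ∀ a ∈ P, a ^ p = 1 → a ∈ Z := by
    intro a ha hap
    have h1 : (Finset.univ.filter fun b : P => b ^ p = 1).card ≤ p :=
      IsCyclic.card_pow_eq_one_le hp.pos
    have h2 : (Finset.univ.filter fun b : P => (b : G) ∈ Z) ⊆
        Finset.univ.filter fun b : P => b ^ p = 1 := fun b hb => by
      refine Finset.mem_filter.mpr ⟨Finset.mem_univ _, Subtype.ext ?_⟩
      have h : (⟨(b : G), (Finset.mem_filter.mp hb).2⟩ : Z) ^ p = 1 := by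
        rw [← hZcard]; exact pow_card_eq_one'
      simpa using congrArg Subtype.val h
    have h3 : (Finset.univ.filter fun b : P => (b : G) ∈ Z).card = p := by
      rw [← Fintype.card_subtype, ← Nat.card_eq_fintype_card]
      exact (Nat.card_congr (Subgroup.subgroupOfEquivOfLe hZ).toEquiv).trans hZcard
    have h4 := Finset.eq_of_subset_of_card_le h2 (h1.trans_eq h3.symm)
    have h5 : (⟨a, ha⟩ : P) ∈ Finset.univ.filter fun b : P => b ^ p = 1 :=
      Finset.mem_filter.mpr ⟨Finset.mem_univ _, Subtype.ext (by simpa using hap)⟩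
    rw [← h4] at h5
    exact (Finset.mem_filter.mp h5).2
  have hfix : ∀ (x z : G), z ∈ Z → z ≠ 1 → x * z * x⁻¹ ∈ Z → x ∈ Subgroup.normalizer (Z : Set G) := by
    intro x z hz hz1 hxz
    haveI : Fact (Nat.card Z).Prime := ⟨hZcard ▸ hp⟩
    haveI : Finite Z := inferInstance
    have hgen : ∀ w ∈ Z, ∃ i : ℤ, z ^ i = w := fun w hw => by
      have : (⟨w, hw⟩ : Z) ∈ Subgroup.zpowers (⟨z, hz⟩ : Z) :=
        mem_zpowers_of_prime_card hZcard (fun h => hz1 (congrArg Subtype.val h))
      obtain ⟨i, hi⟩ := this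
      exact ⟨i, by simpa using congrArg Subtype.val hi⟩
    have hmap : Z.map (MulAut.conj x).toMonoidHom = Z := by
      refine Subgroup.eq_of_le_of_card_ge ?_ ?_
      · rintro _ ⟨w, hw, rfl⟩
        obtain ⟨i, rfl⟩ := hgen w hw
        simpa using zpow_mem hxz i
      · rw [Subgroup.card_map_of_injective (MulEquiv.injective _)]
    refine Subgroup.mem_normalizer_iff.mpr fun w => ⟨fun hw => ?_, fun hw => ?_⟩
    · rw [← hmap]; exact ⟨w, hw, rfl⟩
    · rw [← hmap] at hw
      obtain ⟨u, hu, he⟩ := hw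
      have : u = w := (MulAut.conj x).injective he
      exact this ▸ hu
  have hone : ∀ R : Subgroup G, R ≤ P → R ≠ ⊥ → ∃ a ∈ R, a ^ p = 1 ∧ a ≠ 1 := by
    intro R hR hR1
    haveI : Nontrivial R := (Subgroup.nontrivial_iff_ne_bot R).mpr hR1
    obtain ⟨n, hn⟩ := IsPGroup.iff_card.mp (hP.to_le hR)
    have hd : p ∣ Nat.card R := by
      rw [hn]
      refine dvd_pow_self p ?_
      rintro rfl
      exact absurd hn (Finite.one_lt_card).ne'
    obtain ⟨a, ha⟩ := exists_prime_orderOf_dvd_card' p hd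
    refine ⟨a, a.2, ?_, ?_⟩
    · rw [← ha, ← Subgroup.coe_pow, pow_orderOf_eq_one]; rfl
    · intro h
      rw [show a = 1 from Subtype.ext h, orderOf_one] at ha
      exact hp.ne_one ha.symm
  constructor
  · intro x hx
    by_contra hne
    obtain ⟨a, ⟨haP, haX⟩, hap, ha1⟩ := hone _ inf_le_left hne
    obtain ⟨b, hb, rfl⟩ := haX
    have hbp : b ^ p = 1 := (MulAut.conj x).injective (by
      change (MulAut.conj x) b ^ p = 1 at hap
      rw [map_pow, map_one]; exact hap)
    refine hx (hfix x b (key b hb hbp) (fun h => ha1 ?_) (key _ haP hap))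
    rw [h]; exact map_one _
  · intro Q hQ hQ1 n hn
    obtain ⟨a, ha, hap, ha1⟩ := hone Q hQ hQ1
    refine hfix n a (key a (hQ ha) hap) ha1 (key _ (hQ ((Subgroup.mem_normalizer_iff.mp hn a).mp ha)) ?_)
    rw [conj_pow, hap, mul_one, mul_inv_cancel]

end Cfsg.Agent.S4636
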