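import Cfsg.Statements.S4642
import Cfsg.Agent.Lib.Blocks.ConstrainedCore
import Cfsg.Agent.Lib.Blocks.BrauerInduce

set_option autoImplicit false
open Cfsg

namespace Cfsg.Agent.S4642

open scoped ComplexConjugate
open CfsgLib.Chars CfsgLib.Blocks

universe u

variable {G : Type u} [Group G] [Fintype G] {p : ℕ} [Fact p.Prime] {M : Ideal AlgInt}

theorem isPConstrained_of_one (L : Subgroup G) [L.Normal] (hL : L = Cfsg.pPrimePCore p G)
    (Q : Subgroup G) (hQL : Q ≤ L) (hQp : IsPGroup p Q) (hQS : ¬ p ∣ Q.relIndex L)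
    (hCQ : Subgroup.centralizer (Q : Set G) ≤ L) : Cfsg.IsPConstrained p G := by
  subst hL
  intro P
  obtain ⟨S, hS⟩ :=
    (hQp.comap_of_injective (Cfsg.pPrimePCore p G).subtype (Cfsg.pPrimePCore p G).subtype_injective : IsPGroup p (Q.subgroupOf (Cfsg.pPrimePCore p G))).exists_le_sylow
  have hp : p.Prime := Fact.out
  have e : (Q.subgroupOf (Cfsg.pPrimePCore p G)).relIndex (S : Subgroup (Cfsg.pPrimePCore p G)) = 1 := by
    obtain ⟨k, hk⟩ := IsPGroup.iff_card.mp S.isPGroup'
    have h1 : (Q.subgroupOf (Cfsg.pPrimePCore p G)).relIndex (S : Subgroup (Cfsg.pPrimePCore p G)) ∣ p ^ k :=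
      hk ▸ Subgroup.relIndex_dvd_card _ _
    obtain ⟨j, -, hj⟩ := (Nat.dvd_prime_pow hp).mp h1
    rcases Nat.eq_zero_or_pos j with rfl | hj0
    · simpa using hj
    · refine absurd ?_ hQS
      refine (dvd_pow_self p hj0.ne').trans (hj ▸ ?_)
      exact Dvd.intro _ (Subgroup.relIndex_mul_index hS)
  have eQ : (S : Subgroup (Cfsg.pPrimePCore p G)) = Q.subgroupOf (Cfsg.pPrimePCore p G) := le_antisymm (Subgroup.relIndex_eq_one.mp e) hS
  obtain ⟨l, hl⟩ := MulAction.exists_smul_eq (Cfsg.pPrimePCore p G) S P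
  intro x hx
  have hx' : (l : G)⁻¹ * x * (l : G) ∈ Subgroup.centralizer (Q : Set G) := by
    rw [Subgroup.mem_centralizer_iff]
    intro q hq
    have hmem : (l : G) * q * (l : G)⁻¹ ∈
        (((P : Subgroup (Cfsg.pPrimePCore p G)).map (Cfsg.pPrimePCore p G).subtype : Subgroup G) : Set G) := by
      refine ⟨l * ⟨q, hQL hq⟩ * l⁻¹, ?_, rfl⟩
      rw [← hl]
      exact Subgroup.smul_mem_pointwise_smul (⟨q, hQL hq⟩ : (Cfsg.pPrimePCore p G)) (MulAut.conj l) (S : Subgroup (Cfsg.pPrimePCore p G))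
        (eQ.symm ▸ (show (⟨q, hQL hq⟩ : (Cfsg.pPrimePCore p G)) ∈ Q.subgroupOf (Cfsg.pPrimePCore p G) from hq))
    have h := Subgroup.mem_centralizer_iff.mp hx _ hmem
    calc q * ((l : G)⁻¹ * x * (l : G)) = (l : G)⁻¹ * ((l : G) * q * (l : G)⁻¹ * x) * (l : G) := by group
      _ = (l : G)⁻¹ * (x * ((l : G) * q * (l : G)⁻¹)) * (l : G) := by rw [h]
      _ = _ := by group
  have := mul_mem (mul_mem l.2 (hCQ hx')) (inv_mem l.2)
  simpa [mul_assoc] using this

theorem pPrimeCore_centralizer [(Cfsg.pPrimeCore p G).Normal] (hG : Cfsg.IsPConstrained p G)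
    {U : Subgroup G} (hU : IsPGroup p U) :
    Cfsg.pPrimeCore p ↥(Subgroup.centralizer (U : Set G)) =
      (Cfsg.pPrimeCore p G).subgroupOf (Subgroup.centralizer (U : Set G)) := by
  set C := Subgroup.centralizer (U : Set G)
  set K := Cfsg.pPrimeCore p G
  set π := QuotientGroup.mk' K
  have hker : (Nat.card π.ker).Coprime p := by
    rw [QuotientGroup.ker_mk']; exact CfsgLib.Core.card_pPrimeCore_coprime p
  have hker' : (π.subgroupMap C).ker = K.subgroupOf C := by
    ext x
    rw [Subgroup.mem_subgroupOf, MonoidHom.mem_ker]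
    exact ⟨fun h => (QuotientGroup.eq_one_iff (x : G)).mp (congrArg Subtype.val h),
      fun h => Subtype.ext ((QuotientGroup.eq_one_iff (x : G)).mpr h)⟩
  refine le_antisymm (fun x hx => ?_) (CfsgLib.Core.le_pPrimeCore inferInstance ?_)
  · rw [← hker', MonoidHom.mem_ker]
    have h := CfsgLib.Core.pPrimeCore_map_le (π.subgroupMap C) (π.subgroupMap_surjective _) p
      (Subgroup.mem_map_of_mem _ hx)
    have h0 : Cfsg.pPrimeCore p ↥(C.map π) = ⊥ :=
      CfsgLib.PConstrained.charP_pPrimeCore_eq_bot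
        (CfsgLib.CharP.charP_congr (MulEquiv.subgroupCongr
          (CfsgLib.PConstrained.centralizer_map_eq π (QuotientGroup.mk'_surjective _) hker hU)).symm
          (CfsgLib.PConstrained.charP_centralizer (CfsgLib.PConstrained.isPConstrained_iff.1 hG)
            (hU.map π)))
    rw [h0, Subgroup.mem_bot] at h
    exact h
  · rw [← hker']
    exact CfsgLib.PConstrained.ker_subgroupMap_coprime π hker C

theorem constrained_block {H : Type u} [Group H] [Fintype H] (hM : IsPModular p M)
    (hH : Cfsg.IsPConstrained p H) (K : Subgroup H) (hK : K = Cfsg.pPrimeCore p H) [hKn : K.Normal]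
    [Fintype K] (θ : IrrCharacter K) (hinv : ∀ g : H, conjIrr K θ g = θ) :
    ∃ B : Set (IrrCharacter H), IsPBlock M B ∧
      (∀ χ : IrrCharacter H, χ ∈ B ↔ classInner (fun n : K => (χ : H → ℂ) n) (θ : K → ℂ) ≠ 0) ∧
      ∀ P : Sylow p H, IsDefectGroup p M B (P : Subgroup H) := by
  subst hK
  obtain ⟨-, hLn, hKL, hKp, hLK⟩ := CfsgLib.ConstrainedBlock.pPrimePCore_facts (G := H) p
  haveI := hLn
  exact CfsgLib.ConstrainedBlock.single_block hM _ _ hKL hKp hLK hH θ hinv

theorem exists_fixed_conj (K : Subgroup G) [hKn : K.Normal] (hK : ¬ p ∣ Nat.card K) {R : Subgroup G}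
    (hR : IsPGroup p R) {c c' : G} (hc : c ∈ Subgroup.centralizer (R : Set G))
    (hc' : c' ∈ Subgroup.centralizer (R : Set G)) {n : G} (hn : n ∈ K) (h : n * c * n⁻¹ = c') :
    ∃ m ∈ K, m ∈ Subgroup.centralizer (R : Set G) ∧ m * c * m⁻¹ = c' := by
  classical
  let X := {m : G // m ∈ K ∧ m * c * m⁻¹ = c'}
  have hfixc : ∀ q ∈ R, ∀ z ∈ Subgroup.centralizer (R : Set G), q * z * q⁻¹ = z := fun q hq z hz => by
    rw [Subgroup.mem_centralizer_iff.mp hz q hq, mul_inv_cancel_right]
  letI act : MulAction R X :=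
    { smul := fun q m => ⟨(q : G) * m.1 * (q : G)⁻¹, hKn.conj_mem _ m.2.1 _, by
        have h1 := hfixc q q.2 c hc
        have h2 := hfixc q q.2 c' hc'
        calc (q : G) * m.1 * (q : G)⁻¹ * c * ((q : G) * m.1 * (q : G)⁻¹)⁻¹ =
              (q : G) * m.1 * (q : G)⁻¹ * ((q : G) * c * (q : G)⁻¹) *
                ((q : G) * m.1 * (q : G)⁻¹)⁻¹ := by rw [h1]
          _ = (q : G) * (m.1 * c * m.1⁻¹) * (q : G)⁻¹ := by group
          _ = c' := by rw [m.2.2, h2]⟩
      one_smul := fun m => Subtype.ext (by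
        show ((1 : R) : G) * m.1 * ((1 : R) : G)⁻¹ = m.1
        simp)
      mul_smul := fun q q' m => Subtype.ext (by
        show ((q * q' : R) : G) * m.1 * ((q * q' : R) : G)⁻¹ =
          (q : G) * ((q' : G) * m.1 * (q' : G)⁻¹) * (q : G)⁻¹
        simp [mul_assoc]) }
  have hcard : Nat.card X = Nat.card ↥(K ⊓ Subgroup.centralizer ({c} : Set G)) := by
    refine Nat.card_congr
      { toFun := fun m => ⟨n⁻¹ * m.1, K.mul_mem (K.inv_mem hn) m.2.1,
          Subgroup.mem_centralizer_singleton_iff.mpr ?_⟩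
        invFun := fun z => ⟨n * z.1, K.mul_mem hn z.2.1, ?_⟩
        left_inv := fun m => Subtype.ext (by simp)
        right_inv := fun z => Subtype.ext (by simp) }
    · have e : m.1 * c = n * c * n⁻¹ * m.1 := by
        rw [h]
        calc m.1 * c = m.1 * c * m.1⁻¹ * m.1 := by group
          _ = c' * m.1 := by rw [m.2.2]
      calc n⁻¹ * m.1 * c = n⁻¹ * (m.1 * c) := by group
        _ = n⁻¹ * (n * c * n⁻¹ * m.1) := by rw [e]
        _ = c * (n⁻¹ * m.1) := by group
    · have e := Subgroup.mem_centralizer_singleton_iff.mp z.2.2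
      calc n * z.1 * c * (n * z.1)⁻¹ = n * (z.1 * c) * z.1⁻¹ * n⁻¹ := by group
        _ = n * (c * z.1) * z.1⁻¹ * n⁻¹ := by rw [e]
        _ = n * c * n⁻¹ := by group
        _ = c' := h
  obtain ⟨m, hm⟩ := hR.nonempty_fixed_point_of_prime_not_dvd_card X (hcard ▸ fun hd =>
    hK (hd.trans (Subgroup.card_dvd_of_le inf_le_left)))
  refine ⟨m.1, m.2.1, Subgroup.mem_centralizer_iff.mpr fun q hq => ?_, m.2.2⟩
  have h1 : q * m.1 * q⁻¹ = m.1 := congrArg Subtype.val (hm ⟨q, hq⟩)
  calc q * m.1 = q * m.1 * q⁻¹ * q := by group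
    _ = m.1 * q := by rw [h1]

/-- The unique induced block. -/
theorem induced_unique (hM : IsPModular p M) (hG : Cfsg.IsPConstrained p G) (K : Subgroup G)
    (hKdef : K = Cfsg.pPrimeCore p G) [hKn : K.Normal] [Fintype K] (hK : ¬ p ∣ Nat.card K)
    (θ : IrrCharacter K) (hinv : ∀ g : G, conjIrr K θ g = θ) {B : Set (IrrCharacter G)}
    (hB : IsPBlock M B)
    (hmem : ∀ χ : IrrCharacter G, χ ∈ B ↔ classInner (fun n : K => (χ : G → ℂ) n) (θ : K → ℂ) ≠ 0)
    (R : Subgroup G) (hR : IsPGroup p R) [Fintype (Subgroup.centralizer (R : Set G))] :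
    ∃! f : Set (IrrCharacter (Subgroup.centralizer (R : Set G))),
      IsInducedBlock M (Subgroup.centralizer (R : Set G)) f B := by
  classical
  set C := Subgroup.centralizer (R : Set G) with hC
  have hRN : C ≤ Subgroup.normalizer (R : Set G) := Subgroup.centralizer_le_normalizer _
  set cK := blockOf M (θ : K → ℂ)
  have hcKs : cK = {θ} := CfsgLib.ConstrainedBlock.blockOf_eq_singleton hM hK θ
  have hcKB : IsPBlock M cK := isPBlock_blockOf θ
  have hst : ∀ φ ∈ cK, ∀ g : G, conjIrr K φ g ∈ cK := fun φ hφ g => by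
    rw [hcKs, Set.mem_singleton_iff] at hφ ⊢
    rw [hφ, hinv]
  set E : G → ℂ := ext0 K (blockCoeff cK) with hE
  have hEc : IsClassFunction G E := ext0_blockCoeff_isClassFunction K hst
  have hEN : ∀ g, g ∉ K → E g = 0 := fun g hg => by rw [hE, ext0, dif_neg hg]
  have hEl : ∀ g, MemLocalRing M (E g) := fun g => by
    rw [hE, ext0]
    split_ifs
    · exact mlr_blockCoeff hM hcKB _
    · exact mlr_zero hM
  have hEr : (fun n : K => E (n : G)) = blockCoeff cK := funext fun n => by
    rw [hE, ext0, dif_pos n.2]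
  have hEB : E = blockCoeff B := by
    rw [← coeffFun_omega hEc]
    refine Eq.trans ?_ (funext (blockCoeff_eq_coeffFun B)).symm
    congr 1
    funext χ
    obtain ⟨φ, hφ⟩ := exists_res_constituent K χ
    rw [omega_res_constituent K hφ hEc hEN, hEr, omega_blockCoeff]
    by_cases hc : φ ∈ cK
    · rw [indic_of_mem hc, indic_of_mem]
      rw [hcKs, Set.mem_singleton_iff] at hc
      exact (hmem χ).mpr (hc ▸ hφ)
    · rw [indic_of_notMem hc, indic_of_notMem]
      intro hχ
      obtain ⟨g, hg⟩ := clifford_conjugate K χ θ φ ((hmem χ).mp hχ) hφ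
      exact hc (hg ▸ hst θ (self_mem_blockOf hM θ) g)
  set K2 : Subgroup C := K.subgroupOf C with hK2
  haveI : K2.Normal := hKn.subgroupOf C
  haveI : Fintype K2 := Fintype.ofFinite _
  have hK2p : ¬ p ∣ Nat.card K2 := fun h =>
    hK (h.trans (Subgroup.card_comap_dvd_of_injective K C.subtype C.subtype_injective))
  set eC : K2 → ℂ := fun k => E ((k : C) : G) with heC
  have heCc : IsClassFunction K2 eC := fun k m => hEc ((k : C) : G) ((m : C) : G)
  have heCl : ∀ k, MemLocalRing M (eC k) := fun k => hEl _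
  -- some value on the centraliser is a unit
  obtain ⟨k₀, hk₀⟩ : ∃ k : K2, ¬ MemLocalIdeal M (eC k) := by
    by_contra hne
    push Not at hne
    have h1 : ∑ n : K, E (n : G) * (θ : K → ℂ) n = (θ : K → ℂ) 1 := by
      have h := omega_blockCoeff cK θ
      rw [← hEr, omega, div_eq_iff (irr_one_ne_zero θ), indic_of_mem (self_mem_blockOf hM θ),
        one_mul] at h
      exact h
    letI act : MulAction R K := MulAction.compHom K ((MulAut.conjNormal : G →* MulAut K).comp R.subtype)
    have h2 : MemLocalIdeal M (∑ n : K, E (n : G) * (θ : K → ℂ) n) := by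
      refine mli_sum_of_no_fixed hM hR ?_ (fun n => mlr_mul hM (hEl _)
        (mlr_of_isIntegral hM (IsCharacter.isIntegral (isCharacter_irr θ) n))) ?_
      · intro q n
        change E ((conjN K (q : G) n : K) : G) * (θ : K → ℂ) (conjN K (q : G) n) = _
        rw [conjN_coe, hEc, ← conjIrr_apply, hinv]
      · intro n hn
        refine mli_mul_right hM ?_ (mlr_of_isIntegral hM (IsCharacter.isIntegral (isCharacter_irr θ) n))
        have hnC : (n : G) ∈ C := Subgroup.mem_centralizer_iff.mpr fun q hq => by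
          have h : (conjN K q n : K) = n := hn ⟨q, hq⟩
          have := congrArg Subtype.val h
          rw [conjN_coe] at this
          calc q * (n : G) = q * (n : G) * q⁻¹ * q := by group
            _ = (n : G) * q := by rw [this]
        exact hne ⟨⟨(n : G), hnC⟩, n.2⟩
    rw [h1, irr_apply_one, mli_natCast_iff hM] at h2
    exact hK (h2.trans (charDegree_dvd θ))
  have hexρ : ∃ ρ : IrrCharacter K2, ¬ MemLocalIdeal M (omega (ρ : K2 → ℂ) eC) := by
    by_contra hne
    push Not at hne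
    refine hk₀ ?_
    rw [← congrFun (coeffFun_omega heCc) k₀]
    simp only [coeffFun]
    refine mli_mul_left hM (mlr_natCast_inv hM hK2p) (mli_sum hM _ fun ρ _ => ?_)
    refine mli_mul_right hM (mli_mul_right hM (hne ρ) ?_) ?_
    · exact mlr_of_isIntegral hM (IsCharacter.isIntegral (isCharacter_irr ρ) 1)
    · rw [← IsCharacter.map_inv (isCharacter_irr ρ)]
      exact mlr_of_isIntegral hM (IsCharacter.isIntegral (isCharacter_irr ρ) _)
  obtain ⟨ρ, hρ⟩ := hexρ
  have huniq : ∀ ρ' : IrrCharacter K2, ¬ MemLocalIdeal M (omega (ρ' : K2 → ℂ) eC) → ρ' = ρ := by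
    intro ρ' hρ'
    by_contra hne
    set f := blockCoeff (blockOf M (ρ : K2 → ℂ)) with hf
    have hfc : IsClassFunction K2 f := blockCoeff_isClassFunction _
    have hfl : ∀ k, MemLocalRing M (f k) := mlr_blockCoeff hM (isPBlock_blockOf ρ)
    let F : K → ℂ := fun k =>
      if h : ∃ c : K2, ∃ n : K, (n : G) * ((c : C) : G) * (n : G)⁻¹ = (k : G) then f h.choose else 0
    have hFv : ∀ (c : K2) (k n : K), (n : G) * ((c : C) : G) * (n : G)⁻¹ = (k : G) → F k = f c := by
      intro c k n hn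
      have h : ∃ c : K2, ∃ n : K, (n : G) * ((c : C) : G) * (n : G)⁻¹ = (k : G) := ⟨c, n, hn⟩
      simp only [F, dif_pos h]
      obtain ⟨m, hm⟩ := h.choose_spec
      have hconj : ((n⁻¹ * m : K) : G) * ((h.choose : C) : G) * ((n⁻¹ * m : K) : G)⁻¹ =
          ((c : C) : G) := by
        calc ((n⁻¹ * m : K) : G) * ((h.choose : C) : G) * ((n⁻¹ * m : K) : G)⁻¹ =
              (n : G)⁻¹ * ((m : G) * ((h.choose : C) : G) * (m : G)⁻¹) * (n : G) := by
              simp only [Subgroup.coe_mul, InvMemClass.coe_inv]; group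
          _ = (n : G)⁻¹ * ((n : G) * ((c : C) : G) * (n : G)⁻¹) * (n : G) := by rw [hm, hn]
          _ = _ := by group
      obtain ⟨z, hzK, hzC, hz⟩ := exists_fixed_conj (p := p) K hK hR (h.choose : C).2 (c : C).2
        (n⁻¹ * m : K).2 hconj
      rw [← hfc h.choose ⟨⟨z, hzC⟩, hzK⟩]
      congr 1
      exact Subtype.ext (Subtype.ext hz)
    have hFc : IsClassFunction K F := by
      intro k x
      by_cases h : ∃ c : K2, ∃ n : K, (n : G) * ((c : C) : G) * (n : G)⁻¹ = (k : G)
      · obtain ⟨c, n, hn⟩ := h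
        rw [hFv c k n hn, hFv c (x * k * x⁻¹) (x * n) (by
          simp only [Subgroup.coe_mul, InvMemClass.coe_inv, ← hn]; group)]
      · simp only [F, dif_neg h]
        rw [dif_neg]
        rintro ⟨c, n, hn⟩
        refine h ⟨c, x⁻¹ * n, ?_⟩
        simp only [Subgroup.coe_mul, InvMemClass.coe_inv] at hn ⊢
        calc (x : G)⁻¹ * (n : G) * ((c : C) : G) * ((x : G)⁻¹ * (n : G))⁻¹ =
              (x : G)⁻¹ * ((n : G) * ((c : C) : G) * (n : G)⁻¹) * (x : G) := by group
          _ = _ := by rw [hn]; group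
    have hFl : ∀ k, MemLocalRing M (F k) := fun k => by
      simp only [F]
      split_ifs
      · exact hfl _
      · exact mlr_zero hM
    have hFR : ∀ q ∈ R, ∀ g, ext0 K F (q * g * q⁻¹) = ext0 K F g := by
      intro q hq g
      by_cases hg : g ∈ K
      swap
      · rw [ext0, ext0, dif_neg hg, dif_neg]
        intro h
        refine hg ?_
        have := hKn.conj_mem _ h q⁻¹
        simpa [mul_assoc] using this
      rw [ext0, ext0, dif_pos hg, dif_pos (hKn.conj_mem g hg q)]
      have hfix : ∀ c : K2, q * ((c : C) : G) * q⁻¹ = ((c : C) : G) := fun c => by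
        rw [Subgroup.mem_centralizer_iff.mp (c : C).2 q hq, mul_inv_cancel_right]
      by_cases h : ∃ c : K2, ∃ n : K, (n : G) * ((c : C) : G) * (n : G)⁻¹ = g
      · obtain ⟨c, n, hn⟩ := h
        rw [hFv c ⟨g, hg⟩ n hn, hFv c ⟨q * g * q⁻¹, hKn.conj_mem g hg q⟩ (conjN K q n) (by
          rw [conjN_coe]
          calc q * (n : G) * q⁻¹ * ((c : C) : G) * (q * (n : G) * q⁻¹)⁻¹ =
                q * (n : G) * q⁻¹ * (q * ((c : C) : G) * q⁻¹) * (q * (n : G) * q⁻¹)⁻¹ := by
                rw [hfix c]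
            _ = q * ((n : G) * ((c : C) : G) * (n : G)⁻¹) * q⁻¹ := by group
            _ = q * g * q⁻¹ := by rw [hn])]
      · simp only [F]
        rw [dif_neg h, dif_neg]
        rintro ⟨c, n, hn⟩
        refine h ⟨c, conjN K q⁻¹ n, ?_⟩
        rw [conjN_coe]
        change q⁻¹ * (n : G) * q⁻¹⁻¹ * ((c : C) : G) * (q⁻¹ * (n : G) * q⁻¹⁻¹)⁻¹ = g
        calc q⁻¹ * (n : G) * q⁻¹⁻¹ * ((c : C) : G) * (q⁻¹ * (n : G) * q⁻¹⁻¹)⁻¹ =
              q⁻¹ * ((n : G) * (q * ((c : C) : G) * q⁻¹) * (n : G)⁻¹) * q := by group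
          _ = q⁻¹ * (q * g * q⁻¹) * q := by rw [hfix c, hn]
          _ = g := by group
    set a := omega (θ : K → ℂ) F with ha
    have hFe : CfsgLib.Chars.conv F (blockCoeff cK) = fun n => a * blockCoeff cK n := by
      rw [← coeffFun_omega (IsClassFunction.conv hFc (blockCoeff_isClassFunction cK))]
      funext n
      have hv : (fun φ : IrrCharacter K => omega (φ : K → ℂ) (CfsgLib.Chars.conv F (blockCoeff cK))) =
          fun φ => a * indic cK φ := by
        funext φ
        rw [omega_conv φ hFc (blockCoeff_isClassFunction cK), omega_blockCoeff]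
        by_cases hφ : φ ∈ cK
        · rw [hcKs, Set.mem_singleton_iff] at hφ
          rw [hφ]
        · rw [indic_of_notMem hφ, mul_zero, mul_zero]
      rw [hv, blockCoeff_eq_coeffFun]
      simp only [coeffFun, Finset.mul_sum]
      exact Finset.sum_congr rfl fun φ _ => by ring
    have hpt : ∀ c : K2, MemLocalIdeal M (CfsgLib.Chars.conv f eC c - a * eC c) := by
      intro c
      have h := mli_conv_sub_trunc hM hR (f := ext0 K F) (f' := E) hFR (fun q _ g => hEc g q)
        (fun g => by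
          rw [ext0]; split_ifs
          · exact hFl _
          · exact mlr_zero hM) hEl (c : C).2
      have e1 : CfsgLib.Chars.conv (ext0 K F) E ((c : C) : G) = a * eC c := by
        rw [hE, ← CfsgLib.KnorrLower.ext0_conv, hFe, ext0, dif_pos (show ((c : C) : G) ∈ K from c.2)]
        simp only [heC, hE, ext0, dif_pos (show ((c : C) : G) ∈ K from c.2)]
      have e2 : (∑ g : G, if g ∈ C then ext0 K F g * E (g⁻¹ * ((c : C) : G)) else 0) =
          CfsgLib.Chars.conv f eC c := by
        rw [← Finset.sum_filter, Finset.sum_subtype (Finset.univ.filter (· ∈ C)) (p := (· ∈ C))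
          (fun g => by simp) (fun g => ext0 K F g * E (g⁻¹ * ((c : C) : G)))]
        refine (conv_rest K2 (a := fun x : C => ext0 K F (x : G)) (fun x hx => by
          show ext0 K F (x : G) = 0
          rw [ext0, dif_neg]; exact hx) (fun x : C => E (x : G)) c).trans ?_
        congr 1
        funext k
        rw [ext0, dif_pos (show ((k : C) : G) ∈ K from k.2)]
        exact hFv k _ 1 (by simp)
      rw [e1, e2] at h
      have := mli_neg h
      rwa [neg_sub] at this
    have hω : ∀ φ : IrrCharacter K2,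
        MemLocalIdeal M ((omega (φ : K2 → ℂ) f - a) * omega (φ : K2 → ℂ) eC) := by
      intro φ
      have h := mli_omega hM φ (f := CfsgLib.Chars.conv f eC - fun c => a * eC c)
        (fun k m => by
          simp only [Pi.sub_apply, IsClassFunction.conv hfc heCc k m, heCc k m]) hpt
      rw [omega_sub, omega_const_mul, omega_conv φ hfc heCc] at h
      rwa [sub_mul]
    have hal : MemLocalRing M a := mlr_omega hM θ hFc hFl
    have h1 := hω ρ
    have h2 := hω ρ'
    rw [hf, omega_blockCoeff, indic_of_mem (self_mem_blockOf hM ρ)] at h1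
    rw [hf, omega_blockCoeff, indic_of_notMem (by
      rw [CfsgLib.ConstrainedBlock.blockOf_eq_singleton hM hK2p ρ]; exact hne)] at h2
    have h3 := (mli_mul_cases hM (mlr_sub hM (mlr_one hM) hal) (mlr_omega hM ρ heCc heCl) h1).resolve_right hρ
    have h4 := (mli_mul_cases hM (mlr_sub hM (mlr_zero hM) hal) (mlr_omega hM ρ' heCc heCl) h2).resolve_right hρ'
    apply not_mli_one hM
    have := mli_sub hM h3 h4
    simpa using this
  have hρinv : ∀ x : C, conjIrr K2 ρ x = ρ := by
    intro x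
    apply huniq
    rwa [show omega (conjIrr K2 ρ x : K2 → ℂ) eC = omega (ρ : K2 → ℂ) eC from ?_]
    rw [← inv_inv x, ← CfsgLib.KnorrLower.omega_conjN]
    congr 1
    funext k
    simp only [heC, conjN_coe, Subgroup.coe_mul, InvMemClass.coe_inv]
    exact hEc _ _
  have hCcons : Cfsg.IsPConstrained p C := CfsgLib.PConstrained.centralizer hG hR
  have hK2core : K2 = Cfsg.pPrimeCore p C := by
    subst hKdef
    rw [hK2, hC]
    exact (pPrimeCore_centralizer hG hR).symm
  obtain ⟨Bc, hBc, hBcmem, -⟩ := constrained_block hM hCcons K2 hK2core ρ hρinv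
  set EC : C → ℂ := fun x => E (x : G) with hEC
  have hECω : ∀ (ξ : IrrCharacter C) (ρ' : IrrCharacter K2),
      classInner (fun n : K2 => (ξ : C → ℂ) n) (ρ' : K2 → ℂ) ≠ 0 →
      omega (ξ : C → ℂ) EC = omega (ρ' : K2 → ℂ) eC := fun ξ ρ' h =>
    omega_res_constituent K2 h (fun x y => hEc (x : G) (y : G)) fun x hx => hEN _ hx
  have hbr : ∀ (ξ : IrrCharacter C) (F : G → ℂ),
      brVal R C (ξ : C → ℂ) F = omega (ξ : C → ℂ) (fun x : C => F (x : G)) := fun ξ F => by
    rw [brVal]
    congr 1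
    funext x
    rw [brTrunc, if_pos]
    exact x.2
  refine ⟨Bc, ⟨hBc, hB, fun ξ hξ χ hχ g => ?_⟩, ?_⟩
  · have hne : ¬ MemLocalIdeal M (brVal R C (ξ : C → ℂ) (blockCoeff B)) := by
      rw [hbr, ← hEB, ← hEC, hECω ξ ρ ((hBcmem ξ).mp hξ)]
      exact hρ
    have h := mli_brVal_sub_omega hM hR le_rfl hRN ξ hB hχ hne (classInd_isClassFunction g)
      (mlr_classInd hM g)
    rwa [hbr, omega_classInd (IsCharacter.isClassFunction (isCharacter_irr χ)),
      ← inducedCentralChar_eq] at h
  · rintro f ⟨hf, -, hind⟩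
    obtain ⟨ξ, hξ⟩ := IsPBlock.nonempty hM hf
    obtain ⟨χ, hχ⟩ := IsPBlock.nonempty hM hB
    obtain ⟨ρ', hρ'⟩ := exists_res_constituent K2 ξ
    have h := mli_brVal_of_classes hM (P := R) (H := C) (ξ : C → ℂ) χ (fun g => by
      rw [hbr, ← inducedCentralChar_eq]
      exact hind ξ hξ χ hχ g) (blockCoeff_isClassFunction B) (mlr_blockCoeff hM hB)
    rw [omega_blockCoeff, indic_of_mem hχ, hbr, ← hEB, ← hEC, hECω ξ ρ' hρ'] at h
    obtain rfl := huniq ρ' fun h0 => not_mli_one hM (by
      have := mli_sub hM h0 h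
      rwa [sub_sub_cancel] at this)
    exact IsPBlock.eq_of_mem hM hf hBc hξ ((hBcmem ξ).mpr hρ')

/-- Let G be a finite group, p a prime, M a maximal ideal of the algebraic integers containing p, K the largest normal subgroup of G of order prime to p, and L the preimage in G of the largest normal p-subgroup of G/K. Let Q be a Sylow p-subgroup of L and suppose C_G(Q) ≤ L. Let θ be an irreducible character of K invariant under conjugation by every element of G, and let B be the set of irreducible characters of G whose restriction to K contains θ. Then B is a block of G, every Sylow p-subgroup of G is a defect group of B, and B is of principal type: for every p-subgroup R of G exactly one block of C_G(R) induces B. -/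
theorem result {G : Type*} [Group G] [Fintype G] (p : ℕ) [Fact p.Prime] (M : Ideal Cfsg.AlgInt) (hM : Cfsg.IsPModular p M) (K : Subgroup G) (hK : K = Cfsg.pPrimeCore p G) [Fintype K] (L : Subgroup G) (hL : L = Cfsg.pPrimePCore p G) (Q : Subgroup G) (hQL : Q ≤ L) (hQp : IsPGroup p Q) (hQS : ¬ p ∣ Q.relIndex L) (hCQ : Subgroup.centralizer (Q : Set G) ≤ L) (θ : Cfsg.IrrCharacter K) (hθ : ∀ g : G, Cfsg.IsConjCharOf K g (θ : K → ℂ) (θ : K → ℂ)) (B : Set (Cfsg.IrrCharacter G)) (hBdef : ∀ χ : Cfsg.IrrCharacter G, χ ∈ B ↔ Cfsg.classInner (fun k : K => (χ : G → ℂ) k) (θ : K → ℂ) ≠ 0) : Cfsg.IsPBlock M B ∧ (∀ S : Sylow p G, Cfsg.IsDefectGroup p M B S) ∧ ∀ R : Subgroup G, IsPGroup p R → ∃! f : Set (Cfsg.IrrCharacter (Subgroup.centralizer (R : Set G))), Cfsg.IsInducedBlock M (Subgroup.centralizer (R : Set G)) f B := by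
  classical
  obtain ⟨hKn, hLn, -, hKp, -⟩ := CfsgLib.ConstrainedBlock.pPrimePCore_facts (G := G) p
  subst hK
  haveI := hKn
  haveI : L.Normal := hL ▸ hLn
  have hG := isPConstrained_of_one L hL Q hQL hQp hQS hCQ
  have hinv : ∀ g : G, CfsgLib.Chars.conjIrr (Cfsg.pPrimeCore p G) θ g = θ := fun g =>
    Subtype.ext (funext fun k => by
      rw [CfsgLib.Chars.conjIrr_apply']
      exact hθ g k _ rfl)
  obtain ⟨B', hB', hmem, hdef⟩ := constrained_block hM hG _ rfl θ hinv
  obtain rfl : B = B' := Set.ext fun χ => (hBdef χ).trans (hmem χ).symm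
  refine ⟨hB', hdef, fun R hR => ?_⟩
  haveI : Fintype (Subgroup.centralizer (R : Set G)) := Fintype.ofFinite _
  exact induced_unique hM hG _ rfl hKp θ hinv hB' hmem R hR

end Cfsg.Agent.S4642
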