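import Cfsg.Statements.S4646
import Cfsg.Agent.Lib.Blocks.PrincipalPairs
import Cfsg.Agent.Lib.Blocks.PrincipalSection
import Cfsg.Agent.Lib.Blocks.Orth
import Cfsg.Agent.Lib.Chars.Kernel
import Cfsg.Agent.Lib.FrobeniusCrit
import Cfsg.Agent.Lib.Core

set_option autoImplicit false
open Cfsg

namespace Cfsg.Agent.S4646

open CfsgLib CfsgLib.Chars CfsgLib.Blocks

section

variable {G : Type*} [Group G] [Fintype G] {p : ℕ} [Fact p.Prime] {M : Ideal Cfsg.AlgInt}

/-- Elements normalizing a subgroup fix the principal block of its centralizer. -/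
theorem stabilizes (hM : Cfsg.IsPModular p M) (Q : Subgroup G) {x : G}
    (hx : x ∈ Subgroup.normalizer (Q : Set G)) :
    Cfsg.StabilizesBlock (Subgroup.centralizer (Q : Set G))
      (Cfsg.principalBlock M (Subgroup.centralizer (Q : Set G))) x := by
  classical
  haveI : Fintype (Subgroup.centralizer (Q : Set G)) := Fintype.ofFinite _
  refine ⟨normalizer_le_normalizer_centralizer Q hx, fun χ hχ => ?_⟩
  let e : Subgroup.centralizer (Q : Set G) ≃* Subgroup.centralizer (Q : Set G) :=
    { toFun := fun c => ⟨x * c * x⁻¹, (conj_mem_centralizer_iff hx _).mpr c.2⟩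
      invFun := fun c => ⟨x⁻¹ * c * x, by
        simpa using (conj_mem_centralizer_iff (inv_mem hx) _).mpr c.2⟩
      left_inv := fun c => Subtype.ext (by simp [mul_assoc])
      right_inv := fun c => Subtype.ext (by simp [mul_assoc])
      map_mul' := fun a b => Subtype.ext (by simp [mul_assoc]) }
  let χ' : Cfsg.IrrCharacter (Subgroup.centralizer (Q : Set G)) :=
    ⟨(χ : Subgroup.centralizer (Q : Set G) → ℂ) ∘ e.symm.toMonoidHom,
      IsIrrCharacter.comp χ.2 e.symm.toMonoidHom e.symm.surjective⟩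
  have happ : ∀ a, (χ' : Subgroup.centralizer (Q : Set G) → ℂ) (e a) =
      (χ : Subgroup.centralizer (Q : Set G) → ℂ) a := fun a => congrArg _ (e.symm_apply_apply a)
  refine ⟨χ', principalBlock_comp_equiv e hχ happ, fun k k' hk => ?_⟩
  rw [show k' = e k from Subtype.ext hk, happ]

/-- The principal block has rank one exactly when the p-regular elements form a subgroup. -/
theorem rank_one_iff (hM : Cfsg.IsPModular p M) :
    Cfsg.blockRank p (Cfsg.principalBlock M G) = 1 ↔ ThompsonNPC.PCOn p (⊤ : Subgroup G) := by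
  classical
  have hcop : ∀ z : G, (orderOf z).Coprime p ↔ ¬ p ∣ orderOf z := fun z => by
    rw [Nat.coprime_comm]; exact hM.1.coprime_iff_not_dvd
  have htriv : trivIrr G ∈ Cfsg.principalBlock M G := self_mem_blockOf hM (trivIrr G)
  set u : G → ℂ := Cfsg.pRegularPart p (trivIrr G : G → ℂ) with hu
  have hu1 : u 1 = 1 := by
    rw [hu, pRegularPart_of_regular (not_dvd_orderOf_one hM)]
    rfl
  set S := Submodule.span ℂ ((fun χ : Cfsg.IrrCharacter G =>
    Cfsg.pRegularPart p (χ : G → ℂ)) '' Cfsg.principalBlock M G) with hS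
  have hne : u ≠ 0 := fun h => one_ne_zero (α := ℂ) (by rw [← hu1, h, Pi.zero_apply])
  constructor
  · intro h1
    have huS : u ∈ S := Submodule.subset_span ⟨trivIrr G, htriv, rfl⟩
    have hconst : ∀ χ ∈ Cfsg.principalBlock M G, ∀ y : G, ¬ p ∣ orderOf y →
        (χ : G → ℂ) y = (χ : G → ℂ) 1 := by
      intro χ hχ y hy
      obtain ⟨c, hc⟩ := (finrank_eq_one_iff_of_nonzero' (⟨u, huS⟩ : S)
        (fun h => hne (congrArg Subtype.val h))).mp h1
          ⟨_, Submodule.subset_span ⟨χ, hχ, rfl⟩⟩
      have hc' : c • u = Cfsg.pRegularPart p (χ : G → ℂ) := congrArg Subtype.val hc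
      have ey := congrFun hc' y
      have e1 := congrFun hc' 1
      rw [Pi.smul_apply, pRegularPart_of_regular hy, hu, pRegularPart_of_regular hy] at ey
      rw [Pi.smul_apply, pRegularPart_of_regular (not_dvd_orderOf_one hM), hu,
        pRegularPart_of_regular (not_dvd_orderOf_one hM)] at e1
      rw [← ey, ← e1]
      rfl
    intro x _ y _ hx hy
    rw [hcop] at hx hy ⊢
    intro hxy
    have hval : ∀ χ ∈ Cfsg.principalBlock M G, (χ : G → ℂ) (x * y) = (χ : G → ℂ) 1 :=
      fun χ hχ => by
        rw [IsCharacter.mul_kernel (isCharacter_irr χ) (hconst χ hχ x hx), hconst χ hχ y hy]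
    have h0 := weak_orthogonality hM (B := Cfsg.principalBlock M G) isPBlock_principalBlock
      (not_dvd_orderOf_one hM) hxy
    have h2 : ∀ χ ∈ Finset.univ.filter (· ∈ Cfsg.principalBlock M G),
        (χ : G → ℂ) 1 * (starRingEnd ℂ) ((χ : G → ℂ) (x * y)) =
          ((Cfsg.charDegree (χ : G → ℂ) ^ 2 : ℕ) : ℂ) := fun χ hχ => by
      rw [hval χ (Finset.mem_filter.mp hχ).2, irr_apply_one, map_natCast, Nat.cast_pow, sq]
    rw [Finset.sum_congr rfl h2, ← Nat.cast_sum, Nat.cast_eq_zero, Finset.sum_eq_zero_iff] at h0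
    have := h0 (trivIrr G) (Finset.mem_filter.mpr ⟨Finset.mem_univ _, htriv⟩)
    exact (pow_ne_zero 2 (charDegree_pos (trivIrr G)).ne') this
  · intro h
    have hN : (ThompsonNPC.pcore' h).Normal := ⟨fun n hn z => ⟨trivial, by
      rw [ThompsonNPC.orderOf_conj_eq]; exact hn.2⟩⟩
    have hSu : S = Submodule.span ℂ {u} := by
      refine le_antisymm (Submodule.span_le.mpr ?_) ((Submodule.span_singleton_le_iff_mem _ _).mpr
        (Submodule.subset_span ⟨trivIrr G, htriv, rfl⟩))
      rintro _ ⟨χ, hχ, rfl⟩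
      refine Submodule.mem_span_singleton.mpr ⟨(χ : G → ℂ) 1, funext fun y => ?_⟩
      change (χ : G → ℂ) 1 * u y = Cfsg.pRegularPart p (χ : G → ℂ) y
      by_cases hy : p ∣ orderOf y
      · rw [hu, pRegularPart_of_singular hy, pRegularPart_of_singular hy, mul_zero]
      · rw [hu, pRegularPart_of_regular hy, pRegularPart_of_regular hy]
        have hv := principal_apply_mul hM hχ _ (ThompsonNPC.card_pcore'_coprime h)
          (show y ∈ ThompsonNPC.pcore' h from ⟨trivial, (hcop y).mpr hy⟩) 1
        rw [mul_one] at hv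
        rw [hv]
        exact mul_one _
    change Module.finrank ℂ S = 1
    rw [hSu, finrank_span_singleton hne]

end

/-- For a finite group G, a prime p and a maximal ideal M of the algebraic integers containing p: the principal block of G is nilpotent if and only if its p-regular rank is 1 (the trivial Brauer character is its only irreducible Brauer character). -/
theorem result {G : Type*} [Group G] [Finite G] (p : ℕ) [Fact p.Prime] (M : Ideal Cfsg.AlgInt) (hM : Cfsg.IsPModular p M) : Cfsg.IsNilpotentBlock p M (Cfsg.principalBlock M G) ↔ Cfsg.blockRank p (Cfsg.principalBlock M G) = 1 := by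
  classical
  haveI : Fintype G := Fintype.ofFinite G
  rw [rank_one_iff hM]
  have hcop : ∀ z : G, (orderOf z).Coprime p ↔ ¬ p ∣ orderOf z := fun z => by
    rw [Nat.coprime_comm]; exact hM.1.coprime_iff_not_dvd
  constructor
  · intro h
    refine FrobeniusCrit.pcOn_top (Nat.card G) G le_rfl fun X hX g hg hgc => ?_
    exact h.2 X _ (isBrauerPairOf_principal hM hX) g hg (stabilizes hM X hg) ((hcop g).mp hgc)
  · intro h
    refine ⟨isPBlock_principalBlock, fun Q e he x hx _ hreg => ?_⟩
    refine Subgroup.mem_centralizer_iff.mpr fun q hq => ?_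
    have hN : (ThompsonNPC.pcore' h).Normal := ⟨fun n hn z => ⟨trivial, by
      rw [ThompsonNPC.orderOf_conj_eq]; exact hn.2⟩⟩
    have hxK : x ∈ ThompsonNPC.pcore' h := ⟨trivial, (hcop x).mpr hreg⟩
    have h1 : q * x * q⁻¹ * x⁻¹ ∈ ThompsonNPC.pcore' h :=
      mul_mem (hN.conj_mem x hxK q) (inv_mem hxK)
    have h2 : q * x * q⁻¹ * x⁻¹ ∈ Q := by
      rw [show q * x * q⁻¹ * x⁻¹ = q * (x * q⁻¹ * x⁻¹) by group]
      exact mul_mem hq ((Subgroup.mem_normalizer_iff.mp hx _).mp (inv_mem hq))
    have h3 : q * x * q⁻¹ * x⁻¹ = 1 :=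
      ThompsonNPC.eq_one_of_coprime_of_mem he.1.1 h2 h1.2
    calc q * x = q * x * q⁻¹ * x⁻¹ * (x * q) := by group
      _ = x * q := by rw [h3, one_mul]

end Cfsg.Agent.S4646
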