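import Cfsg.Statements.S4652
import Cfsg.Agent.Lib.Blocks.DefectClass

set_option autoImplicit false
open Cfsg

namespace Cfsg.Agent.S4652

open CfsgLib.Chars CfsgLib.Blocks

/-- Fix a prime p and a maximal ideal M of the algebraic integers containing p. The defect groups of the principal p-block of a finite group G are exactly the Sylow p-subgroups of G: a subgroup D is a defect group of the principal block if and only if D is a Sylow p-subgroup. -/
theorem result {G : Type*} [Group G] [Fintype G] (p : ℕ) [Fact p.Prime] (M : Ideal Cfsg.AlgInt) (hM : Cfsg.IsPModular p M) (D : Subgroup G) : Cfsg.IsDefectGroup p M (Cfsg.principalBlock M G) D ↔ ∃ S : Sylow p G, (S : Subgroup G) = D := by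
  classical
  have hB : Cfsg.IsPBlock M (Cfsg.principalBlock M G) := isPBlock_principalBlock
  have hd : blockDefect p (Cfsg.principalBlock M G) = (Nat.card G).factorization p := by
    have h1 : trivIrr G ∈ Cfsg.principalBlock M G := self_mem_blockOf hM (trivIrr G)
    have h2 := minExp_le (p := p) h1
    have h3 : (charDegree (trivIrr G : G → ℂ)).factorization p = 0 := by
      simp [charDegree, trivIrr]
    rw [blockDefect_eq]
    omega
  constructor
  · intro hD
    have hc := card_defectGroup hM hB hD
    rw [hd] at hc
    exact ⟨Sylow.ofCard D hc, Sylow.coe_ofCard D hc⟩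
  · rintro ⟨S, rfl⟩
    obtain ⟨D, hD⟩ := exists_isDefectGroup hM hB
    have hc := card_defectGroup hM hB hD
    rw [hd] at hc
    obtain ⟨x, hx⟩ := MulAction.exists_smul_eq G (Sylow.ofCard D hc) S
    have := isDefectGroup_map_conj hM hD x
    rw [← hx, Sylow.coe_subgroup_smul, Sylow.coe_ofCard]
    exact this

end Cfsg.Agent.S4652
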