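import Cfsg.Statements.S4657
import Cfsg.Agent.Lib.Blocks.BrauerInduce

set_option autoImplicit false
open Cfsg

namespace Cfsg.Agent.S4657

open CfsgLib.Chars CfsgLib.Blocks

/-- Fix a prime p and a maximal ideal M of the algebraic integers containing p. Every Brauer pair (P, e) of the finite group G is a Brauer pair of exactly one p-block B of G. -/
theorem result {G : Type*} [Group G] [Fintype G] (p : ℕ) [Fact p.Prime] (M : Ideal Cfsg.AlgInt) (hM : Cfsg.IsPModular p M) (P : Subgroup G) (e : Set (Cfsg.IrrCharacter (Subgroup.centralizer (P : Set G)))) (hPe : Cfsg.IsBrauerPair p M P e) : ∃! B : Set (Cfsg.IrrCharacter G), Cfsg.IsBrauerPairOf p M B P e := by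
  classical
  obtain ⟨hP, he⟩ := hPe
  set C := Subgroup.centralizer (P : Set G)
  haveI : Fintype C := Fintype.ofFinite _
  have hCN : C ≤ Subgroup.normalizer (P : Set G) := by
    intro c hc
    rw [Subgroup.mem_normalizer_iff]
    intro q
    constructor
    · intro hq
      have : c * q * c⁻¹ = q := by
        rw [← Subgroup.mem_centralizer_iff.mp hc q hq]; group
      rwa [this]
    · intro hq
      have h1 := Subgroup.mem_centralizer_iff.mp hc _ hq
      have : q = c * q * c⁻¹ := by
        calc q = c⁻¹ * (c * q * c⁻¹ * c) := by group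
          _ = c⁻¹ * (c * (c * q * c⁻¹)) := by rw [h1]
          _ = _ := by group
      rwa [this]
  have hom : ∀ (B : Set (IrrCharacter G)) (ξ : C → ℂ),
      brauerOmega P (blockCoeff B) ξ = brVal P C ξ (blockCoeff B) := by
    intro B ξ
    rw [brauerOmega, finsum_eq_sum_of_fintype, brVal, omega, Finset.sum_div]
    refine Finset.sum_congr rfl fun x _ => ?_
    simp [brTrunc, show (x : G) ∈ Subgroup.centralizer (P : Set G) from x.2]
  obtain ⟨ξ₀, hξ₀⟩ := IsPBlock.nonempty hM he
  obtain ⟨B, hB, hne⟩ := exists_block_brVal hM hCN ξ₀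
  refine ⟨B, ⟨⟨hP, he⟩, hB, fun ξ hξ => ?_⟩, ?_⟩
  · rw [hom]
    rcases brVal_block_cases hM hP le_rfl hCN ξ hB with h | h
    · exfalso
      apply hne
      have := mli_add hM (brVal_sameBlock hM hCN (P := P) (IsPBlock.sameBlock hM he hξ₀ hξ)
        (blockCoeff_isClassFunction B) (mlr_blockCoeff hM hB)) h
      rwa [sub_add_cancel] at this
    · exact h
  · rintro B' ⟨-, hB', h'⟩
    have h1 := h' ξ₀ hξ₀
    rw [hom] at h1
    exact block_brVal_unique hM hP le_rfl hCN ξ₀ hB' hB (not_mli_of_sub_one hM h1) hne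

end Cfsg.Agent.S4657
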