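import Cfsg.Statements.S4663
import Cfsg.Agent.Lib.Blocks.PrincipalIdem

set_option autoImplicit false
open Cfsg

namespace Cfsg.Agent.S4663

open CfsgLib.Chars CfsgLib.Blocks

/-- Fix a prime p and a maximal ideal M of the algebraic integers containing p. Brauer's Third Main Theorem in the language of Brauer pairs: for the principal p-block B₀ of the finite group G and any p-subgroup Q, a p-block e of C_G(Q) makes (Q, e) a Brauer pair of B₀ if and only if e is the principal p-block of C_G(Q). Equivalently, modulo M the truncation to C_G(Q) of the idempotent of B₀ is the idempotent of the principal block of C_G(Q). -/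
theorem result {G : Type*} [Group G] [Fintype G] (p : ℕ) [Fact p.Prime] (M : Ideal Cfsg.AlgInt) (hM : Cfsg.IsPModular p M) (Q : Subgroup G) (hQ : IsPGroup p Q) (e : Set (Cfsg.IrrCharacter (Subgroup.centralizer (Q : Set G)))) (he : Cfsg.IsPBlock M e) : Cfsg.IsBrauerPairOf p M (Cfsg.principalBlock M G) Q e ↔ e = Cfsg.principalBlock M (Subgroup.centralizer (Q : Set G)) := by
  classical
  haveI : Fintype (Subgroup.centralizer (Q : Set G)) := Fintype.ofFinite _
  have key : ∀ ξ : IrrCharacter (Subgroup.centralizer (Q : Set G)),
      MemLocalIdeal M (brauerOmega Q (blockCoeff (principalBlock M G))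
          (ξ : Subgroup.centralizer (Q : Set G) → ℂ) -
        indic (principalBlock M (Subgroup.centralizer (Q : Set G))) ξ) := by
    intro ξ
    rw [← omega_blockCoeff, brauerOmega, finsum_eq_sum_of_fintype, omega, ← Finset.sum_div,
      ← sub_div, ← Finset.sum_sub_distrib]
    have := mli_omega hM ξ (f := (fun c : Subgroup.centralizer (Q : Set G) =>
      blockCoeff (principalBlock M G) (c : G)) -
        blockCoeff (principalBlock M (Subgroup.centralizer (Q : Set G)))) (fun g z => by
      simp only [Pi.sub_apply, Subgroup.coe_mul, InvMemClass.coe_inv,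
        blockCoeff_isClassFunction _ (g : G) (z : G), blockCoeff_isClassFunction _ g z])
      (fun c => mli_principal_res hM Q hQ c)
    rw [omega] at this
    simpa only [Pi.sub_apply, sub_mul] using this
  constructor
  · rintro ⟨-, -, h⟩
    obtain ⟨ξ, hξ⟩ := IsPBlock.nonempty hM he
    have h2 := mli_sub hM (h ξ hξ) (key ξ)
    rw [sub_sub_sub_cancel_left] at h2
    by_cases hb : ξ ∈ principalBlock M (Subgroup.centralizer (Q : Set G))
    · exact IsPBlock.eq_of_mem hM he isPBlock_principalBlock hξ hb
    · rw [indic_of_notMem hb, zero_sub] at h2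
      exact absurd (by simpa using mli_neg h2) (not_mli_one hM)
  · intro h
    refine ⟨⟨hQ, he⟩, isPBlock_principalBlock, fun ξ hξ => ?_⟩
    have := key ξ
    rwa [indic_of_mem (h ▸ hξ)] at this

end Cfsg.Agent.S4663
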