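import Cfsg.Statements.S4664
import Cfsg.Agent.Lib.Blocks.Orth
import Cfsg.Agent.Lib.Chars.CycloAvg

set_option autoImplicit false
open Cfsg

namespace Cfsg.Agent.S4664

open CfsgLib.Chars CfsgLib.Blocks

/-- Fix a prime p and a maximal ideal M of the algebraic integers containing p, and let B be a p-block of the finite group G. Let m be the p'-part of the order of G and η = exp(2πi/m). Then every coefficient of the idempotent of B lies in the cyclotomic field ℚ(η). -/
theorem result {G : Type*} [Group G] [Fintype G] (p : ℕ) [Fact p.Prime] (M : Ideal Cfsg.AlgInt) (hM : Cfsg.IsPModular p M) (B : Set (Cfsg.IrrCharacter G)) (hB : Cfsg.IsPBlock M B) (g : G) : Cfsg.blockCoeff B g ∈ IntermediateField.adjoin ℚ ({Complex.exp (2 * Real.pi * Complex.I / ((Nat.card G / p ^ (Nat.card G).factorization p : ℕ) : ℂ))} : Set ℂ) := by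
  classical
  set n := Nat.card G / p ^ (Nat.card G).factorization p with hn
  by_cases hg : p ∣ orderOf g
  · rw [blockCoeff_eq_zero_of_singular hM hB hg]
    exact zero_mem _
  have hdvd : orderOf g ∣ n := by
    refine Nat.Coprime.dvd_of_dvd_mul_left
      (((hM.1.coprime_iff_not_dvd.mpr hg).symm).pow_right ((Nat.card G).factorization p)) ?_
    rw [hn, Nat.ordProj_mul_ordCompl_eq_self]
    exact orderOf_dvd_natCard g
  have hpos : n ≠ 0 := fun h => Nat.not_dvd_ordCompl hM.1 (n := Nat.card G) Nat.card_pos.ne'
    (by rw [← hn, h]; exact dvd_zero p)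
  haveI : NeZero n := ⟨hpos⟩
  have hle : cycField n ≤ IntermediateField.adjoin ℚ
      ({Complex.exp (2 * Real.pi * Complex.I / (n : ℂ))} : Set ℂ) := by
    rw [cycField, IntermediateField.adjoin_le_iff]
    intro z hz
    obtain ⟨i, -, rfl⟩ := (Complex.isPrimitiveRoot_exp n hpos).eq_pow_of_pow_eq_one hz
    exact pow_mem (IntermediateField.subset_adjoin ℚ _ (Set.mem_singleton _)) i
  apply hle
  rw [blockCoeff_eq_sum]
  refine mul_mem (inv_mem (by simpa using (natCast_mem (cycField n) (Nat.card G)))) ?_
  refine sum_mem fun χ _ => mul_mem ?_ (conj_mem_cycField (char_mem_cycField (isCharacter_irr χ) hdvd))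
  rw [irr_apply_one]
  exact natCast_mem _ _

end Cfsg.Agent.S4664
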