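import Cfsg.Statements.S4665
import Cfsg.Agent.Lib.Blocks.RegGenChar

set_option autoImplicit false
open Cfsg

namespace Cfsg.Agent.S4665

open CfsgLib.Chars CfsgLib.Blocks

/-- Fix a prime p, a maximal ideal M of the algebraic integers containing p, and a p-block B of the finite group G, and let p^a be the p-part of the order of G. Let χ be an integer combination of the irreducible characters in B. If the function that agrees with χ on p-regular elements and vanishes on p-singular elements is again an integer combination of the irreducible characters in B, then p^a divides χ(1). -/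
theorem result {G : Type*} [Group G] [Fintype G] (p : ℕ) [Fact p.Prime] (M : Ideal Cfsg.AlgInt) (hM : Cfsg.IsPModular p M) (B : Set (Cfsg.IrrCharacter G)) (hB : Cfsg.IsPBlock M B) (χ : G → ℂ) (hχ : (∃ n : Cfsg.IrrCharacter G → ℤ, ∀ g : G, χ g = ∑ᶠ ψ ∈ B, (n ψ : ℂ) * (ψ : G → ℂ) g)) (h0 : (∃ n : Cfsg.IrrCharacter G → ℤ, ∀ g : G, Cfsg.pRegularPart p χ g = ∑ᶠ ψ ∈ B, (n ψ : ℂ) * (ψ : G → ℂ) g)) : ∃ k : ℤ, χ 1 = (p ^ (Nat.card G).factorization p : ℂ) * k := by
  classical
  have hp := hM.1
  obtain ⟨n, hn⟩ := h0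
  simp only [finsum_block_eq_sum] at hn
  obtain ⟨P⟩ : Nonempty (Sylow p G) := inferInstance
  have hPcard : Nat.card (P : Subgroup G) = p ^ (Nat.card G).factorization p :=
    P.card_eq_multiplicity
  haveI : Fintype (P : Subgroup G) := Fintype.ofFinite _
  choose μ hμ using fun ψ : IrrCharacter G =>
    exists_mult (IsCharacter.restrict (isCharacter_irr ψ) (P : Subgroup G))
      (trivIrr (P : Subgroup G))
  have hreg : ∀ x : (P : Subgroup G), x ≠ 1 → p ∣ orderOf (x : G) := by
    intro x hx
    obtain ⟨k, hk⟩ := IsPGroup.iff_orderOf.mp P.isPGroup' x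
    rw [Subgroup.orderOf_coe, hk]
    refine dvd_pow_self p fun h => hx ?_
    rw [h, pow_zero] at hk
    exact orderOf_eq_one_iff.mp hk
  have hsum : ∑ x : (P : Subgroup G), pRegularPart p χ (x : G) = χ 1 := by
    rw [Finset.sum_eq_single (1 : (P : Subgroup G))]
    · rw [OneMemClass.coe_one, pRegularPart_of_regular (not_dvd_orderOf_one hM)]
    · intro x _ hx
      exact pRegularPart_of_singular (hreg x hx)
    · simp
  refine ⟨∑ ψ : IrrCharacter G, (if ψ ∈ B then n ψ else 0) * μ ψ, ?_⟩
  rw [← hsum]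
  simp only [hn]
  rw [Finset.sum_comm, Int.cast_sum, Finset.mul_sum]
  refine Finset.sum_congr rfl fun ψ _ => ?_
  have h := hμ ψ
  simp only [classInner, trivIrr, map_one, mul_one, hPcard] at h
  rw [inv_mul_eq_iff_eq_mul₀ (ppow_cast_ne_zero hp _)] at h
  rw [← Finset.mul_sum, h]
  push_cast
  split_ifs <;> ring

end Cfsg.Agent.S4665
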