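import Cfsg.Statements.S4666
import Cfsg.Agent.Lib.Blocks.RegGenChar

set_option autoImplicit false
open Cfsg

namespace Cfsg.Agent.S4666

open CfsgLib.Chars CfsgLib.Blocks

/-- Fix a prime p and a maximal ideal M of the algebraic integers containing p, and a p-block B of the finite group G of defect d. For every integer combination χ of the irreducible characters in B, p^d times the function that agrees with χ on p-regular elements and vanishes elsewhere is again an integer combination of the irreducible characters in B. -/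
theorem result {G : Type*} [Group G] [Fintype G] (p : ℕ) [Fact p.Prime] (M : Ideal Cfsg.AlgInt) (hM : Cfsg.IsPModular p M) (B : Set (Cfsg.IrrCharacter G)) (hB : Cfsg.IsPBlock M B) (χ : G → ℂ) (hχ : (∃ n : Cfsg.IrrCharacter G → ℤ, ∀ g : G, χ g = ∑ᶠ ψ ∈ B, (n ψ : ℂ) * (ψ : G → ℂ) g)) : (∃ n : Cfsg.IrrCharacter G → ℤ, ∀ g : G, (p ^ Cfsg.blockDefect p B : ℂ) * Cfsg.pRegularPart p χ g = ∑ᶠ ψ ∈ B, (n ψ : ℂ) * (ψ : G → ℂ) g) := by
  classical
  obtain ⟨c, hc⟩ := hχ
  simp only [finsum_block_eq_sum] at hc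
  choose n hn0 hn using fun φ : {φ // φ ∈ B} =>
    regPart_block_combination hM hB φ.2 (e := minExp p B) (minExp_le φ.2)
  refine ⟨fun ψ => ∑ φ : {φ // φ ∈ B}, c φ.1 * n φ ψ, fun g => ?_⟩
  have hd : blockDefect p B = (Nat.card G).factorization p - minExp p B := blockDefect_eq B
  rw [finsum_block_eq_sum, hd]
  have hreg : pRegularPart p χ g =
      ∑ φ : {φ // φ ∈ B}, (c φ.1 : ℂ) * pRegularPart p (φ.1 : G → ℂ) g := by
    by_cases hg : p ∣ orderOf g
    · simp [pRegularPart_of_singular hg]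
    · simp only [pRegularPart_of_regular hg, hc g, ite_mul, zero_mul]
      rw [← Finset.sum_filter]
      exact Finset.sum_subtype _ (by simp) fun ψ => (c ψ : ℂ) * (ψ : G → ℂ) g
  rw [hreg, Finset.mul_sum]
  have : ∀ φ : {φ // φ ∈ B}, (p ^ ((Nat.card G).factorization p - minExp p B) : ℂ) *
      ((c φ.1 : ℂ) * pRegularPart p (φ.1 : G → ℂ) g) =
      ∑ ψ : IrrCharacter G, (if ψ ∈ B then ((c φ.1 * n φ ψ : ℤ) : ℂ) else 0) * (ψ : G → ℂ) g := by
    intro φ
    rw [mul_left_comm, ← Nat.cast_pow, hn φ g, Finset.mul_sum]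
    refine Finset.sum_congr rfl fun ψ _ => ?_
    split_ifs with h
    · push_cast; ring
    · rw [hn0 φ ψ h, Int.cast_zero]; ring
  rw [Finset.sum_congr rfl fun φ _ => this φ, Finset.sum_comm]
  refine Finset.sum_congr rfl fun ψ _ => ?_
  rw [← Finset.sum_mul]
  congr 1
  split_ifs with h
  · push_cast; rfl
  · exact Finset.sum_const_zero

end Cfsg.Agent.S4666
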