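import Cfsg.Statements.S4668
import Cfsg.Agent.Lib.Blocks.BrauerInduce
import Cfsg.Agent.Lib.Blocks.Orth
import Mathlib.GroupTheory.Nilpotent

set_option autoImplicit false
open Cfsg

namespace Cfsg.Agent.S4668

open CfsgLib.Chars CfsgLib.Blocks

/-- A coprime automorphism fixing a self-centralizing subgroup of a p-group fixes the group. -/
theorem centralizes_of_selfcentralizing {G : Type*} [Group G] [Finite G] {p : ℕ} [Fact p.Prime]
    {X Y : Subgroup G} (hX : IsPGroup p X) (hYX : Y ≤ X) {n : G} (hn : ¬ p ∣ orderOf n)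
    (hnX : ∀ x ∈ X, n * x * n⁻¹ ∈ X) (hY : ∀ y ∈ Y, n * y = y * n)
    (hC : ∀ x ∈ X, (∀ y ∈ Y, x * y = y * x) → x ∈ Y) : ∀ x ∈ X, n * x = x * n := by
  by_contra hcon
  push Not at hcon
  obtain ⟨x1, hx1, hx1n⟩ := hcon
  set F := X ⊓ Subgroup.centralizer ({n} : Set G) with hF
  have hFmem : ∀ f, f ∈ F ↔ f ∈ X ∧ f * n = n * f := fun f => by
    rw [hF, Subgroup.mem_inf, Subgroup.mem_centralizer_singleton_iff]
  haveI : Group.IsNilpotent X := IsPGroup.isNilpotent hX
  have hlt : F.subgroupOf X < ⊤ := lt_top_iff_ne_top.mpr fun h =>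
    hx1n (((hFmem x1).mp (Subgroup.subgroupOf_eq_top.mp h hx1)).2).symm
  obtain ⟨x, hxN, hxF⟩ := SetLike.exists_of_lt (Group.normalizerCondition_of_isNilpotent _ hlt)
  have hxX : (x : G) ∈ X := x.2
  have hxF' : (x : G) ∉ F := fun h => hxF h
  have hnorm : ∀ f ∈ F, (x : G) * f * (x : G)⁻¹ ∈ F := fun f hf => by
    have hfX : f ∈ X := ((hFmem f).mp hf).1
    have := (Subgroup.mem_normalizer_iff.mp hxN ⟨f, hfX⟩).mp hf
    simpa [Subgroup.mem_subgroupOf] using this
  set y0 := (x : G)⁻¹ * (n * x * n⁻¹) with hy0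
  have hy0X : y0 ∈ X := mul_mem (inv_mem hxX) (hnX _ hxX)
  have hy0Y : y0 ∈ Y := hC _ hy0X fun y hy => by
    have hyF : y ∈ F := (hFmem y).mpr ⟨hYX hy, (hY y hy).symm⟩
    have e1 : Commute y n := ((hFmem y).mp hyF).2
    have e2 : Commute ((x : G) * y * (x : G)⁻¹) n := ((hFmem _).mp (hnorm y hyF)).2
    calc y0 * y = (x : G)⁻¹ * (n * x * (n⁻¹ * y)) := by rw [hy0]; group
      _ = (x : G)⁻¹ * (n * x * (y * n⁻¹)) := by rw [(e1.inv_right).eq]
      _ = (x : G)⁻¹ * (n * ((x : G) * y * (x : G)⁻¹) * x * n⁻¹) := by group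
      _ = (x : G)⁻¹ * ((x : G) * y * (x : G)⁻¹ * n * x * n⁻¹) := by rw [e2.eq]
      _ = y * y0 := by rw [hy0]; group
  have hnx : n * x * n⁻¹ = (x : G) * y0 := by rw [hy0]; group
  have hny : Commute n y0 := hY y0 hy0Y
  have hpow : ∀ j : ℕ, n ^ j * x * (n ^ j)⁻¹ = (x : G) * y0 ^ j := by
    intro j
    induction j with
    | zero => simp
    | succ j ih =>
      calc n ^ (j + 1) * x * (n ^ (j + 1))⁻¹ = n * (n ^ j * x * (n ^ j)⁻¹) * n⁻¹ := by
            rw [pow_succ']; group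
        _ = n * x * n⁻¹ * (n * y0 ^ j * n⁻¹) := by rw [ih]; group
        _ = (x : G) * y0 ^ (j + 1) := by
            rw [hnx, (hny.pow_right j).eq, mul_inv_cancel_right, pow_succ', mul_assoc]
  have h1 := hpow (orderOf n)
  rw [pow_orderOf_eq_one, one_mul, inv_one, mul_one] at h1
  have h2 : y0 ^ orderOf n = 1 := mul_left_cancel (h1.symm.trans (mul_one (x : G)).symm)
  have h3 : y0 = 1 := by
    obtain ⟨k, hk⟩ := IsPGroup.iff_orderOf.mp hX ⟨y0, hy0X⟩
    rw [← Subgroup.orderOf_coe] at hk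
    refine orderOf_eq_one_iff.mp (Nat.eq_one_of_dvd_coprimes ?_ (dvd_of_eq hk) (orderOf_dvd_of_pow_eq_one h2))
    exact Nat.Coprime.pow_left _ (((Fact.out : p.Prime).coprime_iff_not_dvd).mpr hn)
  rw [h3, mul_one, mul_inv_eq_iff_eq_mul] at hnx
  exact hxF' ((hFmem _).mpr ⟨hxX, hnx.symm⟩)

/-- Fix a prime p and a maximal ideal M of the algebraic integers containing p. Let Q₀ < Q₁ < ⋯ < Q_m be a strictly increasing chain of p-subgroups of the finite group G and N the intersection of their normalizers. Then every block idempotent of N is supported on C_G(Q_m): for every p-block E of N, the idempotent coefficient of E vanishes at every element of N outside C_G(Q_m). -/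
theorem result {G : Type*} [Group G] [Fintype G] (p : ℕ) [Fact p.Prime] (M : Ideal Cfsg.AlgInt) (hM : Cfsg.IsPModular p M) (m : ℕ) (Q : Fin (m + 1) → Subgroup G) (hQ : StrictMono Q) (hQp : ∀ i, IsPGroup p (Q i)) (N : Subgroup G) (hN : ∀ g : G, g ∈ N ↔ ∀ i, g ∈ Subgroup.normalizer (Q i : Set G)) (E : Set (Cfsg.IrrCharacter N)) (hE : Cfsg.IsPBlock M E) (n : N) (hn : (n : G) ∉ Subgroup.centralizer (Q (Fin.last m) : Set G)) : Cfsg.blockCoeff E n = 0 := by
  classical
  haveI : Fintype N := Fintype.ofFinite N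
  have hle : ∀ i, Q i ≤ Q (Fin.last m) := fun i => hQ.monotone (Fin.le_last i)
  have hnorm : ∀ (b : N) i (a : G), a ∈ Q i ↔ (b : G) * a * (b : G)⁻¹ ∈ Q i :=
    fun b i a => Subgroup.mem_normalizer_iff.mp ((hN b).mp b.2 i) a
  set Q' := (Q (Fin.last m)).subgroupOf N with hQ'
  haveI : Q'.Normal := ⟨fun a ha b => (hnorm b (Fin.last m) a).mp ha⟩
  have hQ'p : IsPGroup p Q' := fun a => by
    obtain ⟨k, hk⟩ := hQp (Fin.last m) ⟨((a : N) : G), a.2⟩
    exact ⟨k, Subtype.ext (Subtype.ext (by simpa using congrArg Subtype.val hk))⟩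
  by_contra hne
  have hreg : ¬ p ∣ orderOf (n : G) := by
    rw [Subgroup.orderOf_coe]
    exact fun h => hne (blockCoeff_eq_zero_of_singular hM hE h)
  have hmem : n ∈ Subgroup.centralizer (Q' : Set N) := by
    by_contra h
    exact hne (blockCoeff_eq_zero_of_notMem hM Q' hQ'p hE h)
  let Y : ℕ → Subgroup G := fun k =>
    Q (Fin.last m) ⊓ ⨅ (i : Fin (m + 1)) (_ : k ≤ (i : ℕ)), Subgroup.normalizer (Q i : Set G)
  have hYmem : ∀ (k : ℕ) (a : G), a ∈ Y k ↔
      a ∈ Q (Fin.last m) ∧ ∀ i : Fin (m + 1), k ≤ (i : ℕ) → a ∈ Subgroup.normalizer (Q i : Set G) :=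
    fun k a => by simp [Y, Subgroup.mem_iInf]
  have key : ∀ k, k ≤ m → ∀ a ∈ Y k, (n : G) * a = a * n := by
    intro k
    induction k with
    | zero =>
      intro _ a ha
      obtain ⟨h1, h2⟩ := (hYmem 0 a).mp ha
      have haN : a ∈ N := (hN a).mpr fun i => h2 i (Nat.zero_le _)
      exact (congrArg Subtype.val (Subgroup.mem_centralizer_iff.mp hmem ⟨a, haN⟩ h1)).symm
    | succ k ih =>
      intro hk
      have hkm : k ≤ m := (Nat.le_succ k).trans hk
      refine centralizes_of_selfcentralizing (Y := Y k)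
        ((hQp (Fin.last m)).to_le inf_le_left) ?_ hreg ?_ (ih hkm) ?_
      · intro a ha
        obtain ⟨h1, h2⟩ := (hYmem k a).mp ha
        exact (hYmem _ a).mpr ⟨h1, fun i hi => h2 i ((Nat.le_succ k).trans hi)⟩
      · intro a ha
        obtain ⟨h1, h2⟩ := (hYmem _ a).mp ha
        refine (hYmem _ _).mpr ⟨(hnorm n _ a).mp h1, fun i hi => ?_⟩
        exact mul_mem (mul_mem ((hN n).mp n.2 i) (h2 i hi)) (inv_mem ((hN n).mp n.2 i))
      · intro a ha hca
        obtain ⟨h1, h2⟩ := (hYmem _ a).mp ha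
        refine (hYmem _ a).mpr ⟨h1, fun i hi => ?_⟩
        rcases hi.eq_or_lt with he | hlt
        · have hQY : ∀ b ∈ Q i, b ∈ Y k := fun b hb => (hYmem k b).mpr ⟨hle i hb, fun j hj =>
            Subgroup.le_normalizer (hQ.monotone (Fin.le_def.mpr (he ▸ hj)) hb)⟩
          refine Subgroup.centralizer_le_normalizer _ (Subgroup.mem_centralizer_iff.mpr fun b hb => ?_)
          exact (hca b (hQY b hb)).symm
        · exact h2 i hlt
  refine hn (Subgroup.mem_centralizer_iff.mpr fun z hz => ?_)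
  refine (key m le_rfl z ((hYmem m z).mpr ⟨hz, fun i hi => ?_⟩)).symm
  have hi' : i = Fin.last m := Fin.ext (le_antisymm (Nat.le_of_lt_succ i.2) hi)
  rw [hi']
  exact Subgroup.le_normalizer hz

end Cfsg.Agent.S4668
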