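import Cfsg.Statements.S4669
import Cfsg.Agent.Lib.Blocks.CentralDefect
import Cfsg.Agent.Lib.Blocks.HeightZero

set_option autoImplicit false
open Cfsg

namespace Cfsg.Agent.S4669

open CfsgLib.Chars CfsgLib.Blocks

/-- Fix a prime p and a maximal ideal M of the algebraic integers containing p. If the p-block B of the finite group G has a defect group P contained in the centre of G, then B has p-regular rank one (a single irreducible Brauer character). -/
theorem result {G : Type*} [Group G] [Fintype G] (p : ℕ) [Fact p.Prime] (M : Ideal Cfsg.AlgInt) (hM : Cfsg.IsPModular p M) (B : Set (Cfsg.IrrCharacter G)) (hB : Cfsg.IsPBlock M B) (P : Subgroup G) (hD : Cfsg.IsDefectGroup p M B P) (hPZ : P ≤ Subgroup.center G) : Cfsg.blockRank p B = 1 := by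
  classical
  have hPp := defectGroup_isPGroup hD
  obtain ⟨χ, hχ, h0⟩ := exists_height_zero hM hB
  have hdeg : (Cfsg.charDegree (χ : G → ℂ)).factorization p = P.index.factorization p := by
    have h1 := minExp_add_defect (p := p) hχ
    have h2 := minExp_add_height (p := p) hχ
    rw [h0] at h2
    rw [← P.index_mul_card, Nat.factorization_mul P.index_ne_zero_of_finite Nat.card_pos.ne',
      Finsupp.add_apply, card_defectGroup hM hB hD, hM.1.factorization_pow,
      Finsupp.single_eq_same] at h1
    omega
  have hS : Submodule.span ℂ ((fun φ : Cfsg.IrrCharacter G => Cfsg.pRegularPart p (φ : G → ℂ)) '' B) =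
      Submodule.span ℂ {Cfsg.pRegularPart p (χ : G → ℂ)} := by
    refine le_antisymm (Submodule.span_le.mpr ?_) ((Submodule.span_singleton_le_iff_mem _ _).mpr
      (Submodule.subset_span ⟨χ, hχ, rfl⟩))
    rintro _ ⟨φ, hφ, rfl⟩
    have hne : regMat hM.1 χ φ ≠ 0 := fun h =>
      regMat_not_dvd hM hB hχ h0 hφ (by rw [regMat_symm hM.1 φ χ, h]; exact dvd_zero _)
    obtain ⟨-, -, c, hc⟩ := linked_of_max hM hPp hPZ hdeg hne
    exact Submodule.mem_span_singleton.mpr ⟨c, (funext fun g => hc g).symm⟩
  rw [Cfsg.blockRank, hS, finrank_span_singleton]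
  intro h
  have h1 := congrFun h 1
  rw [pRegularPart_of_regular (not_dvd_orderOf_one hM)] at h1
  exact irr_one_ne_zero χ h1

end Cfsg.Agent.S4669
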