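import Cfsg.Statements.S4723
import Cfsg.Agent.S0966
import Cfsg.Agent.Lib.Blocks.Cover
import Cfsg.Agent.Lib.Blocks.SquareSum
import Cfsg.Agent.Lib.Blocks.Orth
import Cfsg.Agent.Lib.Blocks.PrincipalPairs
import Cfsg.Agent.Lib.CliffordCorr
import Cfsg.Agent.Lib.Chars.Induced

set_option autoImplicit false
open Cfsg

namespace Cfsg.Agent.S4723

open CfsgLib.Chars CfsgLib.Blocks

open scoped ComplexConjugate
set_option maxHeartbeats 400000
universe u

variable {p : ℕ} [Fact p.Prime] {M : Ideal AlgInt}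

theorem exists_invariant {X : Type u} [Group X] [Fintype X] (hM : IsPModular p M) (N : Subgroup X)
    [N.Normal] [Fintype N] {k : ℕ} (hk : N.index = p ^ k) {b : Set (IrrCharacter N)}
    (hb : IsPBlock M b) (hstab : ∀ g, ∀ θ ∈ b, conjIrr N θ g ∈ b) :
    ∃ θ ∈ b, blockHeight p b (θ : N → ℂ) = 0 ∧ ∀ g, conjIrr N θ g = θ := by
  classical
  have hp : p.Prime := Fact.out
  obtain ⟨B, ⟨hB, χ₁, hχ₁, θ₁, hθ₁, hne₁⟩, huniq⟩ := Cfsg.Agent.S0966.result p M hM N ⟨k, hk⟩ b hb
  choose m hm using fun (χ : IrrCharacter X) (θ : IrrCharacter N) =>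
    exists_mult (IsCharacter.restrict (isCharacter_irr χ) N) θ
  have hmem : ∀ χ, ∀ θ ∈ b, m χ θ ≠ 0 → χ ∈ B := fun χ θ hθ h => by
    have := huniq (blockOf M (χ : X → ℂ)) ⟨isPBlock_blockOf χ, χ, self_mem_blockOf hM χ, θ, hθ,
      by rw [hm]; exact_mod_cast h⟩
    rw [← this]
    exact self_mem_blockOf hM χ
  have hcons : ∀ χ ∈ B, ∀ η, m χ η ≠ 0 → η ∈ b := fun χ hχ η h => by
    obtain ⟨g, hg⟩ := constituent_mem_blockOrbit N hM hb hθ₁ (χ := χ)
      (mli_centralChar_of_cover N hM hB hb hχ₁ hθ₁ hne₁ hχ hθ₁) (ψ := η)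
      (by rw [hm]; exact_mod_cast h)
    have := hstab g⁻¹ _ hg
    rwa [conjIrr_inv_cancel] at this
  set bF := Finset.univ.filter (· ∈ b)
  set BF := Finset.univ.filter (· ∈ B)
  have hres : ∀ χ ∈ BF, charDegree (χ : X → ℂ) = ∑ η ∈ bF, m χ η * charDegree (η : N → ℂ) := by
    intro χ hχ
    have h := classFunction_expand (IsCharacter.isClassFunction
      (IsCharacter.restrict (isCharacter_irr χ) N)) (1 : N)
    simp only [hm, OneMemClass.coe_one, irr_apply_one] at h
    have h' : charDegree (χ : X → ℂ) = ∑ η : IrrCharacter N, m χ η * charDegree (η : N → ℂ) := by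
      exact_mod_cast h
    rw [h']
    refine (Finset.sum_subset (Finset.subset_univ _) fun η _ hη => ?_).symm
    by_contra hne
    exact hη (Finset.mem_filter.mpr ⟨Finset.mem_univ _,
      hcons χ (Finset.mem_filter.mp hχ).2 η (left_ne_zero_of_mul hne)⟩)
  have hind : ∀ θ ∈ bF, ∑ χ ∈ BF, m χ θ * charDegree (χ : X → ℂ) =
      N.index * charDegree (θ : N → ℂ) := by
    intro θ hθ
    have hc := IsCharacter.indFun N (isCharacter_irr θ)
    have h := classFunction_expand (IsCharacter.isClassFunction hc) (1 : X)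
    have e : ∀ χ : IrrCharacter X, classInner (indFun N (θ : N → ℂ)) (χ : X → ℂ) = (m χ θ : ℂ) := by
      intro χ
      rw [frobenius N (θ : N → ℂ) (IsCharacter.isClassFunction (isCharacter_irr χ)), classInner_symm]
      exact (congrArg conj (hm χ θ)).trans (Complex.conj_natCast _)
    simp only [e, indFun_one, irr_apply_one] at h
    have h' : N.index * charDegree (θ : N → ℂ) =
        ∑ χ : IrrCharacter X, m χ θ * charDegree (χ : X → ℂ) := by exact_mod_cast h
    rw [h']
    refine Finset.sum_subset (Finset.subset_univ _) fun χ _ hχ => ?_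
    by_contra hne
    exact hχ (Finset.mem_filter.mpr ⟨Finset.mem_univ _,
      hmem χ θ (Finset.mem_filter.mp hθ).2 (left_ne_zero_of_mul hne)⟩)
  have hsq : ∑ χ ∈ BF, charDegree (χ : X → ℂ) ^ 2 =
      N.index * ∑ θ ∈ bF, charDegree (θ : N → ℂ) ^ 2 := by
    rw [Finset.mul_sum]
    calc ∑ χ ∈ BF, charDegree (χ : X → ℂ) ^ 2
        = ∑ χ ∈ BF, ∑ θ ∈ bF, m χ θ * charDegree (θ : N → ℂ) * charDegree (χ : X → ℂ) :=
          Finset.sum_congr rfl fun χ hχ => by rw [sq, ← Finset.sum_mul, ← hres χ hχ]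
      _ = ∑ θ ∈ bF, ∑ χ ∈ BF, m χ θ * charDegree (θ : N → ℂ) * charDegree (χ : X → ℂ) :=
          Finset.sum_comm
      _ = ∑ θ ∈ bF, N.index * charDegree (θ : N → ℂ) ^ 2 :=
          Finset.sum_congr rfl fun θ hθ => by
            rw [Finset.sum_congr rfl (g := fun χ => charDegree (θ : N → ℂ) *
              (m χ θ * charDegree (χ : X → ℂ))) (fun χ _ => by ring), ← Finset.mul_sum, hind θ hθ]
            ring
  have hb2 := factorization_squareSum hM hb
  have hB2 := factorization_squareSum hM hB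
  rw [finsum_mem_eq_toFinset_sum, ← Set.filter_mem_univ_eq_toFinset] at hb2 hB2
  obtain ⟨θm, hθm, hθm'⟩ := Nat.sInf_mem (s := (fun θ : IrrCharacter N =>
    (charDegree (θ : N → ℂ)).factorization p) '' b) ⟨_, Set.mem_image_of_mem _ hθ₁⟩
  obtain ⟨χm, hχm, hχm'⟩ := Nat.sInf_mem (s := (fun χ : IrrCharacter X =>
    (charDegree (χ : X → ℂ)).factorization p) '' B) ⟨_, Set.mem_image_of_mem _ hχ₁⟩
  have hbd : blockDefect p b = (Nat.card N).factorization p - minExp p b := rfl
  have hBd : blockDefect p B = (Nat.card X).factorization p - minExp p B := rfl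
  have hba : minExp p b = (charDegree (θm : N → ℂ)).factorization p := hθm'.symm
  have hBa : minExp p B = (charDegree (χm : X → ℂ)).factorization p := hχm'.symm
  have hle1 := factorization_charDegree_le θm p
  have hle2 := factorization_charDegree_le χm p
  have hX : (Nat.card X).factorization p = (Nat.card N).factorization p + k := by
    rw [← N.card_mul_index, hk, Nat.factorization_mul Nat.card_pos.ne' (pow_ne_zero _ hp.ne_zero)]
    simp [hp.factorization_self]
  have hpos : ∑ θ ∈ bF, charDegree (θ : N → ℂ) ^ 2 ≠ 0 := fun h =>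
    (pow_ne_zero 2 (charDegree_pos θ₁).ne') (Finset.sum_eq_zero_iff.mp h θ₁
      (Finset.mem_filter.mpr ⟨Finset.mem_univ _, hθ₁⟩))
  have heq : (∑ χ ∈ BF, charDegree (χ : X → ℂ) ^ 2).factorization p =
      k + (∑ θ ∈ bF, charDegree (θ : N → ℂ) ^ 2).factorization p := by
    rw [hsq, hk, Nat.factorization_mul (pow_ne_zero _ hp.ne_zero) hpos]
    simp [hp.factorization_self]
  obtain ⟨θ, hθc⟩ := exists_res_constituent N χm
  have hθb : θ ∈ b := hcons χm hχm θ fun h => hθc (by rw [hm, h, Nat.cast_zero])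
  obtain ⟨a, -, -, -, hdeg⟩ := clifford N χm θ hθc
  have hθge : minExp p b ≤ (charDegree (θ : N → ℂ)).factorization p :=
    Nat.sInf_le (Set.mem_image_of_mem _ hθb)
  have hχν : (charDegree (χm : X → ℂ)).factorization p = a.factorization p +
      (orbit N θ).card.factorization p + (charDegree (θ : N → ℂ)).factorization p := by
    have hne := (charDegree_pos χm).ne'
    rw [hdeg] at hne
    obtain ⟨hao, hθ0⟩ := Nat.mul_ne_zero_iff.mp hne
    obtain ⟨ha0, ho0⟩ := Nat.mul_ne_zero_iff.mp hao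
    rw [hdeg, Nat.factorization_mul hao hθ0, Nat.factorization_mul ha0 ho0]
    rfl
  have horb0 : (orbit N θ).card.factorization p = 0 := by
    rw [heq, hb2, hbd, hBd, hX] at hB2
    omega
  refine ⟨θ, hθb, ?_, ?_⟩
  · show (charDegree (θ : N → ℂ)).factorization p - minExp p b = 0
    rw [heq, hb2, hbd, hBd, hX] at hB2
    omega
  · let T : Subgroup X :=
      { carrier := {g | conjIrr N θ g = θ}
        mul_mem' := fun {a b} ha hb => by
          show conjIrr N θ (a * b) = θ
          rw [conjIrr_mul, show conjIrr N θ a = θ from ha, show conjIrr N θ b = θ from hb]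
        one_mem' := conjIrr_one N θ
        inv_mem' := fun {a} ha => by
          show conjIrr N θ a⁻¹ = θ
          nth_rewrite 1 [← show conjIrr N θ a = θ from ha]
          rw [← conjIrr_mul, mul_inv_cancel, conjIrr_one] }
    have hmemT : ∀ g, g ∈ T ↔ conjIrr N θ g = θ := fun g => Iff.rfl
    have hcard := CfsgLib.CliffordCorr.card_orbit N θ hmemT
    have hdvd : T.index ∣ p ^ k := hk ▸ Subgroup.index_dvd_of_le
      (CfsgLib.CliffordCorr.le_inertia N θ hmemT)
    obtain ⟨j, -, hj⟩ := (Nat.dvd_prime_pow hp).mp hdvd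
    rw [hcard, hj, Nat.Prime.factorization_pow hp, Finsupp.single_eq_same] at horb0
    subst horb0
    rw [pow_zero, Subgroup.index_eq_one] at hj
    exact fun g => (hmemT g).mp (hj ▸ Subgroup.mem_top g)

/-- Let p be a prime, M a maximal ideal of the algebraic integers containing p, H a normal subgroup of the finite group G and b a p-block of H. Let T be the stabilizer of b in G. Then b contains a character θ of height zero whose own stabilizer in G (the elements g with θ(g h g⁻¹) = θ(h) for all h ∈ H) has index prime to p in T, i.e. contains a Sylow p-subgroup of T. -/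
theorem result {G : Type*} [Group G] [Finite G] (p : ℕ) [Fact p.Prime] (M : Ideal Cfsg.AlgInt) (hM : Cfsg.IsPModular p M) (H : Subgroup G) [H.Normal] (b : Set (Cfsg.IrrCharacter ↥H)) (hb : Cfsg.IsPBlock M b) (T : Subgroup G) (hT : (∀ g : G, g ∈ T ↔ ∀ θ ∈ b, ∀ θ' : Cfsg.IrrCharacter ↥H, (∀ h h' : ↥H, (h' : G) = g * h * g⁻¹ → (θ' : ↥H → ℂ) h' = (θ : ↥H → ℂ) h) → θ' ∈ b)) : ∃ θ ∈ b, Cfsg.blockHeight p b (θ : ↥H → ℂ) = 0 ∧ ∃ S : Subgroup G, S ≤ T ∧ (∀ g : G, g ∈ S ↔ (g ∈ T ∧ ∀ h h' : ↥H, (h' : G) = g * h * g⁻¹ → (θ : ↥H → ℂ) h' = (θ : ↥H → ℂ) h)) ∧ ¬ p ∣ S.relIndex T := by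
  classical
  haveI := Fintype.ofFinite G
  haveI := Fintype.ofFinite H
  have hp : p.Prime := Fact.out
  have hHT : H ≤ T := fun g hg => (hT g).mpr fun θ hθ θ' h => by
    have e : θ' = θ := Subtype.ext (funext fun x => by
      have hh := h x (⟨g, hg⟩ * x * ⟨g, hg⟩⁻¹) (by simp)
      rw [← IsCharacter.isClassFunction (isCharacter_irr θ) x ⟨g, hg⟩] at *
      rw [← IsCharacter.isClassFunction (isCharacter_irr θ') x ⟨g, hg⟩]
      rw [hh, IsCharacter.isClassFunction (isCharacter_irr θ) x ⟨g, hg⟩])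
    rw [e]; exact hθ
  obtain ⟨Q⟩ : Nonempty (Sylow p T) := inferInstance
  set Q' : Subgroup G := (Q : Subgroup T).map T.subtype
  have hQT : Q' ≤ T := Subgroup.map_subtype_le _
  set X : Subgroup G := H ⊔ Q'
  have hXT : X ≤ T := sup_le hHT hQT
  set N : Subgroup X := H.subgroupOf X
  haveI : N.Normal := Subgroup.normal_subgroupOf
  haveI := Fintype.ofFinite X
  haveI := Fintype.ofFinite N
  let e : N ≃* H := Subgroup.subgroupOfEquivOfLe le_sup_left
  let pull : Cfsg.IrrCharacter H → Cfsg.IrrCharacter N := fun θ =>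
    ⟨fun n => (θ : H → ℂ) (e n), IsIrrCharacter.comp θ.2 e.toMonoidHom e.surjective⟩
  let push : Cfsg.IrrCharacter N → Cfsg.IrrCharacter H := fun θ =>
    ⟨fun n => (θ : N → ℂ) (e.symm n), IsIrrCharacter.comp θ.2 e.symm.toMonoidHom e.symm.surjective⟩
  have hpp : ∀ θ, pull (push θ) = θ := fun θ =>
    Subtype.ext (funext fun n => congrArg (θ : N → ℂ) (e.symm_apply_apply n))
  have hpp' : ∀ θ, push (pull θ) = θ := fun θ =>
    Subtype.ext (funext fun n => congrArg (θ : H → ℂ) (e.apply_symm_apply n))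
  obtain ⟨θ₀, hb0⟩ := hb
  have hsame : ∀ φ ψ : Cfsg.IrrCharacter H, Cfsg.SameBlock M (φ : H → ℂ) (ψ : H → ℂ) ↔
      Cfsg.SameBlock M (pull φ : N → ℂ) (pull ψ : N → ℂ) := by
    intro φ ψ
    have e1 : ∀ θ : Cfsg.IrrCharacter H, ∀ n : N,
        Cfsg.centralChar (pull θ : N → ℂ) n = Cfsg.centralChar (θ : H → ℂ) (e n) := fun θ n => by
      have := centralChar_comp_equiv (H := H) (H' := N) e.symm θ n
      exact this
    constructor
    · intro h n; rw [e1, e1]; exact h _
    · intro h x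
      have := h (e.symm x)
      rwa [e1, e1, e.apply_symm_apply] at this
  set b' : Set (Cfsg.IrrCharacter N) := Cfsg.blockOf M (pull θ₀ : N → ℂ)
  have hbb : ∀ θ, θ ∈ b ↔ pull θ ∈ b' := fun θ => by
    rw [hb0]; exact hsame θ₀ θ
  have hstab : ∀ g : X, ∀ θ ∈ b', conjIrr N θ g ∈ b' := by
    intro g θ hθ
    have hg := (hT _).mp (hXT (g⁻¹).2) (push θ) ((hbb _).mpr (by rw [hpp]; exact hθ))
      (push (conjIrr N θ g)) (fun h h' hh => by
        show (conjIrr N θ g : N → ℂ) (e.symm h') = (θ : N → ℂ) (e.symm h)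
        rw [conjIrr_apply]
        refine congrArg _ (Subtype.ext (Subtype.ext ?_))
        rw [conjN_coe, Subgroup.coe_mul, Subgroup.coe_mul, InvMemClass.coe_inv]
        show (g : G) * (h' : G) * (g : G)⁻¹ = (h : G)
        rw [hh, InvMemClass.coe_inv]
        group)
    rw [hbb, hpp] at hg
    exact hg
  obtain ⟨k, hk⟩ : ∃ k, N.index = p ^ k := by
    obtain ⟨n, hn⟩ := IsPGroup.iff_card.mp (Q.isPGroup'.map T.subtype)
    have hdvd : H.relIndex X ∣ Nat.card Q' := by
      rw [show H.relIndex X = H.relIndex Q' by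
        rw [show X = Q' ⊔ H from sup_comm _ _]; exact Subgroup.relIndex_sup_right Q' H]
      exact Subgroup.relIndex_dvd_card _ _
    rw [hn] at hdvd
    obtain ⟨j, -, hj⟩ := (Nat.dvd_prime_pow hp).mp hdvd
    exact ⟨j, hj⟩
  obtain ⟨θ, hθb, hθh, hθinv⟩ := exists_invariant hM N hk ⟨_, rfl⟩ hstab
  let S : Subgroup G :=
    { carrier := {g | g ∈ T ∧ conjIrr H (push θ) g = push θ}
      mul_mem' := fun {a b} ha hb => ⟨T.mul_mem ha.1 hb.1, by rw [conjIrr_mul, ha.2, hb.2]⟩
      one_mem' := ⟨T.one_mem, conjIrr_one H _⟩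
      inv_mem' := fun {a} ha => ⟨T.inv_mem ha.1, by
        nth_rewrite 1 [← ha.2]
        rw [← conjIrr_mul, mul_inv_cancel, conjIrr_one]⟩ }
  refine ⟨push θ, (hbb _).mpr (by rw [hpp]; exact hθb), ?_, S, fun g hg => hg.1, fun g => ?_, ?_⟩
  · have hd : ∀ φ, Cfsg.charDegree (pull φ : N → ℂ) = Cfsg.charDegree (φ : H → ℂ) := fun φ => by
      simp [Cfsg.charDegree, pull]
    have himg : (fun θ : Cfsg.IrrCharacter H => (Cfsg.charDegree (θ : H → ℂ)).factorization p) '' b =
        (fun θ : Cfsg.IrrCharacter N => (Cfsg.charDegree (θ : N → ℂ)).factorization p) '' b' := by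
      ext v
      constructor
      · rintro ⟨φ, hφ, rfl⟩
        exact ⟨pull φ, (hbb φ).mp hφ, by simp only [hd]⟩
      · rintro ⟨φ, hφ, rfl⟩
        refine ⟨push φ, (hbb _).mpr (by rw [hpp]; exact hφ), ?_⟩
        simp only [← hd (push φ), hpp]
    have h1 := hd (push θ)
    rw [hpp] at h1
    simp only [Cfsg.blockHeight] at hθh ⊢
    rw [himg, ← h1]
    exact hθh
  · constructor
    · rintro ⟨h1, h2⟩
      refine ⟨h1, fun h h' hh => ?_⟩
      have := congrFun (congrArg Subtype.val h2) h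
      rw [conjIrr_apply] at this
      rw [show h' = conjN H g h from Subtype.ext (hh.trans (conjN_coe H g h).symm)]
      exact this
    · rintro ⟨h1, h2⟩
      exact ⟨h1, Subtype.ext (funext fun h => by
        rw [conjIrr_apply]; exact h2 h _ (conjN_coe H g h))⟩
  · have hQS : Q' ≤ S := by
      intro g hg
      refine ⟨hQT hg, Subtype.ext (funext fun h => ?_)⟩
      have := congrFun (congrArg Subtype.val (hθinv ⟨g, Subgroup.mem_sup_right hg⟩)) (e.symm h)
      rw [conjIrr_apply] at this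
      rw [conjIrr_apply]
      show (θ : N → ℂ) (e.symm (conjN H g h)) = (θ : N → ℂ) (e.symm h)
      rw [← this]
      refine congrArg _ (Subtype.ext (Subtype.ext ?_))
      rw [conjN_coe, Subgroup.coe_mul, Subgroup.coe_mul, InvMemClass.coe_inv]
      exact conjN_coe H g h
    intro hd
    refine Q.not_dvd_index (hd.trans (Subgroup.index_dvd_of_le ?_))
    intro q hq
    exact hQS (Subgroup.mem_map_of_mem _ hq)

end Cfsg.Agent.S4723
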