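import Cfsg.Statements.S4673
import Cfsg.Agent.S0966
import Cfsg.Agent.S4438
import Cfsg.Agent.S4723
import Cfsg.Agent.Lib.Blocks.Cover
import Cfsg.Agent.Lib.Blocks.DefectClass
import Cfsg.Agent.Lib.Blocks.PrincipalPairs
import Cfsg.Agent.Lib.CliffordCorr
import Cfsg.Agent.Lib.Chars.Induced

set_option autoImplicit false
open Cfsg

namespace Cfsg.Agent.S4673

open CfsgLib.Chars CfsgLib.Blocks

open scoped ComplexConjugate
set_option maxHeartbeats 400000
universe u

variable {p : ℕ} [Fact p.Prime] {M : Ideal AlgInt}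

theorem minExp_eq_of_card {X : Type u} [Group X] [Fintype X] (hM : IsPModular p M) {B : Set (IrrCharacter X)}
    (hB : IsPBlock M B) {D : Subgroup X} (hD : IsDefectGroup p M B D) :
    Nat.card D = p ^ ((Nat.card X).factorization p - minExp p B) := card_defectGroup hM hB hD

/-- Fix a prime p and a maximal ideal M of the algebraic integers containing p. Let N ≤ L be normal subgroups of the finite group G with L/N a p-group, let B be a p-block of G covering the p-block c of N (some member of B has a constituent in c on restriction to N), and suppose that N contains a defect group of B. Then the stabilizer T of c in G satisfies T ∩ L = N. -/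
theorem result {G : Type*} [Group G] [Fintype G] (p : ℕ) [Fact p.Prime] (M : Ideal Cfsg.AlgInt) (hM : Cfsg.IsPModular p M) (N L : Subgroup G) [N.Normal] [L.Normal] [Fintype N] (hNL : N ≤ L) (hLN : ∃ k : ℕ, (N.subgroupOf L).index = p ^ k) (B : Set (Cfsg.IrrCharacter G)) (hB : Cfsg.IsPBlock M B) (c : Set (Cfsg.IrrCharacter N)) (hc : Cfsg.IsPBlock M c) (hcov : (∃ χ ∈ B, ∃ θ ∈ c, Cfsg.classInner (fun n : N => (χ : G → ℂ) n) (θ : N → ℂ) ≠ 0)) (hD : ∃ D : Subgroup G, Cfsg.IsDefectGroup p M B D ∧ D ≤ N) (T : Subgroup G) (hT : ∀ x : G, x ∈ T ↔ Cfsg.StabilizesBlock N c x) : T ⊓ L = N := by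
  classical
  have hp : p.Prime := Fact.out
  obtain ⟨D, hD, hDN⟩ := hD
  obtain ⟨χ, hχ, θ₀, hθ₀, hne₀⟩ := hcov
  haveI := Fintype.ofFinite L
  set N' : Subgroup L := N.subgroupOf L
  haveI : N'.Normal := Subgroup.normal_subgroupOf
  haveI := Fintype.ofFinite N'
  obtain ⟨k, hk⟩ := hLN
  let e : N' ≃* N := Subgroup.subgroupOfEquivOfLe hNL
  let pull : Cfsg.IrrCharacter N → Cfsg.IrrCharacter N' := fun θ =>
    ⟨fun n => (θ : N → ℂ) (e n), IsIrrCharacter.comp θ.2 e.toMonoidHom e.surjective⟩
  let push : Cfsg.IrrCharacter N' → Cfsg.IrrCharacter N := fun θ =>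
    ⟨fun n => (θ : N' → ℂ) (e.symm n), IsIrrCharacter.comp θ.2 e.symm.toMonoidHom e.symm.surjective⟩
  have hpp : ∀ θ, pull (push θ) = θ := fun θ =>
    Subtype.ext (funext fun n => congrArg (θ : N' → ℂ) (e.symm_apply_apply n))
  have hpp' : ∀ θ, push (pull θ) = θ := fun θ =>
    Subtype.ext (funext fun n => congrArg (θ : N → ℂ) (e.apply_symm_apply n))
  have hd : ∀ φ, Cfsg.charDegree (pull φ : N' → ℂ) = Cfsg.charDegree (φ : N → ℂ) := fun φ => by
    simp [Cfsg.charDegree, pull]
  set c' : Set (Cfsg.IrrCharacter N') := Cfsg.blockOf M (pull θ₀ : N' → ℂ)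
  have hc' : Cfsg.IsPBlock M c' := isPBlock_blockOf (pull θ₀)
  have hsame : ∀ φ, φ ∈ c ↔ pull φ ∈ c' := by
    intro φ
    have e1 : ∀ θ : Cfsg.IrrCharacter N, ∀ n : N',
        Cfsg.centralChar (pull θ : N' → ℂ) n = Cfsg.centralChar (θ : N → ℂ) (e n) := fun θ n =>
      centralChar_comp_equiv (H := N) (H' := N') e.symm θ n
    constructor
    · intro h n
      obtain ⟨θ₁, rfl⟩ := hc
      rw [e1, e1]
      have := mli_add hM (mli_neg (hθ₀ (e n))) (h (e n))
      convert this using 1; ring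
    · intro h
      refine IsPBlock.mem_of_sameBlock hM hc hθ₀ fun x => ?_
      have := h (e.symm x)
      rwa [e1, e1, e.apply_symm_apply] at this
  -- stabiliser in the form of S4723
  have hT' : ∀ g : G, g ∈ T ↔ ∀ θ ∈ c, ∀ θ' : Cfsg.IrrCharacter N,
      (∀ h h' : N, (h' : G) = g * h * g⁻¹ → (θ' : N → ℂ) h' = (θ : N → ℂ) h) → θ' ∈ c := by
    intro g
    rw [hT]
    constructor
    · rintro ⟨-, h⟩ θ hθ θ' hθ'
      obtain ⟨θ'', h1, h2⟩ := h θ hθ
      convert h1 using 1
      refine Subtype.ext (funext fun x => ?_)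
      have hx : (x : G) = g * (conjN N g⁻¹ x : N) * g⁻¹ := by rw [conjN_coe]; group
      exact (hθ' _ x hx).trans (h2 _ x hx).symm
    · intro h
      refine ⟨by rw [Subgroup.normalizer_eq_top_iff.mpr inferInstance]; exact Subgroup.mem_top g, fun θ hθ => ?_⟩
      have hc2 : ∀ a b : N, (b : G) = g * a * g⁻¹ → (conjIrr N θ g⁻¹ : N → ℂ) b = (θ : N → ℂ) a := by
        intro a b hab
        rw [conjIrr_apply]
        refine congrArg _ (Subtype.ext ?_)
        rw [conjN_coe, hab]
        group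
      exact ⟨conjIrr N θ g⁻¹, h θ hθ _ hc2, hc2⟩
  obtain ⟨θ, hθ, hθ0, S, hST, hSmem, hSdvd⟩ :=
    Cfsg.Agent.S4723.result p M hM N c hc T hT'
  have hNS : N ≤ S := by
    intro x hx
    refine (hSmem x).mpr ⟨?_, fun h h' hh => ?_⟩
    · refine (hT' x).mpr fun φ hφ φ' h => ?_
      convert hφ using 1
      refine Subtype.ext (funext fun y => ?_)
      have hy : (y : G) = x * (conjN N x⁻¹ y : N) * x⁻¹ := by rw [conjN_coe]; group
      rw [h _ y hy]
      refine (?_ : _ = (φ : N → ℂ) (⟨x, hx⟩⁻¹ * y * ⟨x, hx⟩⁻¹⁻¹)).trans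
        (IsCharacter.isClassFunction (isCharacter_irr φ) y ⟨x, hx⟩⁻¹)
      refine congrArg _ (Subtype.ext ?_)
      simp [conjN_coe]
    · rw [show h' = ⟨x, hx⟩ * h * ⟨x, hx⟩⁻¹ from Subtype.ext (by simpa using hh)]
      exact IsCharacter.isClassFunction (isCharacter_irr θ) h ⟨x, hx⟩
  have hXS : T ⊓ L ≤ S := by
    set A := (T ⊓ L).subgroupOf T
    haveI : A.Normal := by
      refine ⟨fun a ha t => ⟨(t * a * t⁻¹).2, ?_⟩⟩
      exact (inferInstance : L.Normal).conj_mem _ ha.2 t
    have h1 : S.relIndex (T ⊓ L) ∣ S.relIndex T := by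
      have h2 : (S.subgroupOf T).relIndex A ∣ (S.subgroupOf T).index := by
        set S' := S.subgroupOf T
        have e1 := Subgroup.relIndex_mul_relIndex (S' ⊓ A) A (S' ⊔ A) inf_le_right le_sup_right
        have e2 := Subgroup.relIndex_mul_relIndex (S' ⊓ A) S' (S' ⊔ A) inf_le_left le_sup_left
        rw [Subgroup.inf_relIndex_right, Subgroup.relIndex_sup_right, inf_comm S' A] at e1
        rw [inf_comm S' A, Subgroup.inf_relIndex_right, mul_comm] at e2
        have e3 : S'.relIndex (S' ⊔ A) = S'.relIndex A :=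
          Nat.eq_of_mul_eq_mul_right (Nat.pos_of_ne_zero (Subgroup.index_ne_zero_of_finite (H := A.subgroupOf S') : A.relIndex S' ≠ 0)) (e2.trans e1.symm)
        rw [← e3, ← Subgroup.relIndex_mul_index (show S' ≤ S' ⊔ A from le_sup_left)]
        exact dvd_mul_right _ _
      rwa [Subgroup.relIndex_subgroupOf inf_le_left] at h2
    have h3 : S.relIndex (T ⊓ L) ∣ N.relIndex L := by
      refine (Subgroup.relIndex_dvd_of_le_left (T ⊓ L) hNS).trans ?_
      rw [← Subgroup.relIndex_mul_relIndex N (T ⊓ L) L (le_inf (hNS.trans hST) hNL) inf_le_right]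
      exact dvd_mul_right _ _
    rw [show N.relIndex L = p ^ k from hk] at h3
    obtain ⟨j, -, hj⟩ := (Nat.dvd_prime_pow hp).mp h3
    rcases Nat.eq_zero_or_pos j with h | h
    · subst h; exact Subgroup.relIndex_eq_one.mp (hj.trans (pow_zero p))
    · exact absurd ((dvd_pow_self p (by omega)).trans (hj ▸ h1)) hSdvd
  refine le_antisymm ?_ (le_inf (hNS.trans hST) hNL)
  -- a block of L between B and c
  have hresL := IsCharacter.restrict (isCharacter_irr χ) L
  obtain ⟨ξ, hξ1, hξ2⟩ : ∃ ξ : Cfsg.IrrCharacter L,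
      Cfsg.classInner (fun l : L => (χ : G → ℂ) l) (ξ : L → ℂ) ≠ 0 ∧
      Cfsg.classInner (fun n : N' => (ξ : L → ℂ) n) (pull θ₀ : N' → ℂ) ≠ 0 := by
    by_contra hno
    push Not at hno
    apply hne₀
    have hz : Cfsg.classInner (fun n : N' => (χ : G → ℂ) ((n : L) : G)) (pull θ₀ : N' → ℂ) = 0 := by
      have hx : (fun n : N' => (χ : G → ℂ) ((n : L) : G)) = fun n : N' => ∑ ξ : Cfsg.IrrCharacter L,
          Cfsg.classInner (fun l : L => (χ : G → ℂ) l) (ξ : L → ℂ) * (ξ : L → ℂ) n :=
        funext fun n => classFunction_expand (IsCharacter.isClassFunction hresL) (n : L)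
      rw [hx]
      unfold Cfsg.classInner
      refine mul_eq_zero_of_right _ ?_
      simp only [Finset.sum_mul]
      rw [Finset.sum_comm]
      refine Finset.sum_eq_zero fun ξ _ => ?_
      by_cases hξ : Cfsg.classInner (fun l : L => (χ : G → ℂ) l) (ξ : L → ℂ) = 0
      · simp only [Cfsg.classInner] at hξ
        simp only [hξ, zero_mul, Finset.sum_const_zero]
      · have := hno ξ hξ
        unfold Cfsg.classInner at this
        rw [mul_eq_zero, inv_eq_zero, Nat.cast_eq_zero] at this
        simp only [mul_assoc, ← Finset.mul_sum]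
        rw [this.resolve_left Nat.card_pos.ne', mul_zero, mul_zero]
    unfold Cfsg.classInner at hz ⊢
    rw [← hz, Nat.card_congr e.toEquiv]
    congr 1
    exact (Fintype.sum_equiv e.toEquiv (fun n : N' => (χ : G → ℂ) ((n : L) : G) * conj ((pull θ₀ : N' → ℂ) n))
      (fun n : N => (χ : G → ℂ) n * conj ((θ₀ : N → ℂ) n)) fun n => rfl).symm
  set C := Cfsg.blockOf M (ξ : L → ℂ)
  have hC : Cfsg.IsPBlock M C := isPBlock_blockOf ξ
  -- defect groups
  obtain ⟨Qc, hQc⟩ := exists_isDefectGroup hM hc'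
  obtain ⟨Q', hQ'⟩ := exists_isDefectGroup hM hC
  obtain ⟨P, hP, hPL⟩ := Cfsg.Agent.S4438.result p M hM L C hC (Q'.map L.subtype)
    (Subgroup.map_subtype_le _) (by
      show Cfsg.IsDefectGroup p M C ((Q'.map L.subtype).comap L.subtype)
      rw [Subgroup.comap_map_eq_self_of_injective L.subtype_injective]; exact hQ') B hB
    ⟨χ, hχ, ξ, self_mem_blockOf hM ξ, hξ1⟩
  have hQN : Q' ≤ N' := by
    intro q hq
    obtain ⟨x, hx⟩ := defectGroup_conj hM hB hD hP
    have h1 : (q : G) ∈ P ⊓ L := hPL ▸ Subgroup.mem_map_of_mem _ hq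
    obtain ⟨y, hy, hye⟩ := (hx ▸ h1.1 : (q : G) ∈ D.map (MulAut.conj x).toMonoidHom)
    show (q : G) ∈ N
    rw [← hye]
    exact (inferInstance : N.Normal).conj_mem y (hDN hy) x
  obtain ⟨P', hP', hPN⟩ := Cfsg.Agent.S4438.result p M hM N' c' hc' (Qc.map N'.subtype)
    (Subgroup.map_subtype_le _) (by
      show Cfsg.IsDefectGroup p M c' ((Qc.map N'.subtype).comap N'.subtype)
      rw [Subgroup.comap_map_eq_self_of_injective N'.subtype_injective]; exact hQc) C hC
    ⟨ξ, self_mem_blockOf hM ξ, pull θ₀, self_mem_blockOf hM (pull θ₀), hξ2⟩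
  have hP'N : P' ≤ N' := by
    intro q hq
    obtain ⟨x, hx⟩ := defectGroup_conj hM hC hQ' hP'
    obtain ⟨y, hy, hye⟩ := (hx ▸ hq : q ∈ Q'.map (MulAut.conj x).toMonoidHom)
    rw [← hye]
    exact (inferInstance : N'.Normal).conj_mem y (hQN hy) x
  rw [inf_eq_left.mpr hP'N] at hPN
  have hcard : Nat.card P' = Nat.card Qc := by
    rw [hPN, Subgroup.card_map_of_injective N'.subtype_injective]
  rw [minExp_eq_of_card hM hC hP', minExp_eq_of_card hM hc' hQc] at hcard
  have hdef := Nat.pow_right_injective hp.two_le hcard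
  have hidx : N'.index = p ^ k := hk
  have hL : (Nat.card L).factorization p = (Nat.card N').factorization p + k := by
    rw [← N'.card_mul_index, hidx, Nat.factorization_mul Nat.card_pos.ne' (pow_ne_zero _ hp.ne_zero)]
    simp [hp.factorization_self]
  have hCle : minExp p C ≤ (Nat.card L).factorization p :=
    (Nat.sInf_le (Set.mem_image_of_mem _ (self_mem_blockOf hM ξ))).trans (factorization_charDegree_le ξ p)
  have hcle : minExp p c' ≤ (Nat.card N').factorization p :=
    (Nat.sInf_le (Set.mem_image_of_mem _ (self_mem_blockOf hM (pull θ₀)))).trans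
      (factorization_charDegree_le (pull θ₀) p)
  -- a character of L over θ
  obtain ⟨η, hη⟩ := exists_over N' (pull θ)
  have hηC : η ∈ C := by
    obtain ⟨B₁, -, huniq⟩ := Cfsg.Agent.S0966.result p M hM N' ⟨k, hidx⟩ c' hc'
    have h1 := huniq C ⟨hC, ξ, self_mem_blockOf hM ξ, pull θ₀, self_mem_blockOf hM (pull θ₀), hξ2⟩
    have h2 := huniq (Cfsg.blockOf M (η : L → ℂ)) ⟨isPBlock_blockOf η, η, self_mem_blockOf hM η,
      pull θ, (hsame θ).mp hθ, hη⟩
    rw [h1, ← h2]; exact self_mem_blockOf hM η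
  obtain ⟨a, ha0, ham, -, hdeg⟩ := clifford N' η (pull θ) hη
  have hind : a * Cfsg.charDegree (η : L → ℂ) ≤ N'.index * Cfsg.charDegree (pull θ : N' → ℂ) := by
    have hcI := IsCharacter.indFun N' (isCharacter_irr (pull θ))
    choose m hm using fun ψ : Cfsg.IrrCharacter L => exists_mult hcI ψ
    have h := classFunction_expand (IsCharacter.isClassFunction hcI) (1 : L)
    simp only [hm, indFun_one, irr_apply_one] at h
    have h' : N'.index * Cfsg.charDegree (pull θ : N' → ℂ) =
        ∑ ψ : Cfsg.IrrCharacter L, m ψ * Cfsg.charDegree (ψ : L → ℂ) := by exact_mod_cast h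
    have hma : m η = a := by
      have h2 := hm η
      rw [CfsgLib.Chars.frobenius N' _ (IsCharacter.isClassFunction (isCharacter_irr η)), classInner_symm,
        ham, Complex.conj_natCast] at h2
      exact_mod_cast h2.symm
    rw [h', ← hma]
    exact Finset.single_le_sum (f := fun ψ : Cfsg.IrrCharacter L => m ψ * Cfsg.charDegree (ψ : L → ℂ))
      (fun _ _ => Nat.zero_le _) (Finset.mem_univ η)
  set o := (orbit N' (pull θ)).card
  rw [hdeg, hidx] at hind
  have hao : a * (a * o) ≤ p ^ k := Nat.le_of_mul_le_mul_right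
    (by rw [← mul_assoc] at hind; exact hind.trans' (le_of_eq (by ring))) (charDegree_pos (pull θ))
  let I : Subgroup L :=
    { carrier := {g | conjIrr N' (pull θ) g = pull θ}
      mul_mem' := fun {a b} ha hb => by
        show conjIrr N' (pull θ) (a * b) = pull θ
        rw [conjIrr_mul, show conjIrr N' (pull θ) a = _ from ha, show conjIrr N' (pull θ) b = _ from hb]
      one_mem' := conjIrr_one N' _
      inv_mem' := fun {a} ha => by
        show conjIrr N' (pull θ) a⁻¹ = pull θ
        nth_rewrite 1 [← show conjIrr N' (pull θ) a = pull θ from ha]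
        rw [← conjIrr_mul, mul_inv_cancel, conjIrr_one] }
  have hImem : ∀ g, g ∈ I ↔ conjIrr N' (pull θ) g = pull θ := fun g => Iff.rfl
  have ho : o = I.index := CfsgLib.CliffordCorr.card_orbit N' _ hImem
  have hoI : o ≤ p ^ k := (Nat.le_mul_of_pos_left o (Nat.mul_pos ha0 ha0)).trans (by rw [mul_assoc]; exact hao)
  by_cases hlt : a * o < p ^ k
  · exfalso
    have hao0 : a * o ≠ 0 := Nat.mul_ne_zero ha0.ne' (ho ▸ Subgroup.index_ne_zero_of_finite)
    have h1 : minExp p C ≤ (Cfsg.charDegree (η : L → ℂ)).factorization p :=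
      Nat.sInf_le (Set.mem_image_of_mem _ hηC)
    have h2 : (a * o).factorization p < k := by
      by_contra hge
      have h' : p ^ k ∣ a * o := (pow_dvd_pow p (not_lt.mp hge)).trans (Nat.ordProj_dvd _ _)
      exact absurd (Nat.le_of_dvd (Nat.pos_of_ne_zero hao0) h') (not_le.mpr hlt)
    rw [hdeg, Nat.factorization_mul hao0 (charDegree_pos (pull θ)).ne', Finsupp.add_apply] at h1
    have hmin : minExp p c' = minExp p c := by
      simp only [minExp]
      congr 1
      ext v
      constructor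
      · rintro ⟨φ, hφ, rfl⟩
        refine ⟨push φ, (hsame _).mpr (by rw [hpp]; exact hφ), ?_⟩
        simp only [← hd (push φ), hpp]
      · rintro ⟨φ, hφ, rfl⟩
        exact ⟨pull φ, (hsame φ).mp hφ, by simp only [hd]⟩
    have h3 : (Cfsg.charDegree (pull θ : N' → ℂ)).factorization p ≤ minExp p c' := by
      rw [hd, hmin]
      exact Nat.sub_eq_zero_iff_le.mp hθ0
    omega
  · intro x hx
    have hge := not_lt.mp hlt
    have ha1 : a = 1 := by
      have : a * (a * o) ≤ 1 * (a * o) := by rw [one_mul]; exact hao.trans hge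
      have hpos : 0 < a * o := lt_of_lt_of_le (pow_pos hp.pos k) hge
      have := Nat.le_of_mul_le_mul_right this hpos
      omega
    have hNI : N' ≤ I := CfsgLib.CliffordCorr.le_inertia N' _ hImem
    have hrel : N'.relIndex I = 1 := by
      have h4 := Subgroup.relIndex_mul_index hNI
      rw [hidx, ← ho] at h4
      have : o = p ^ k := le_antisymm hoI (by rw [ha1, one_mul] at hge; exact hge)
      rw [this] at h4
      exact (mul_eq_right₀ (pow_ne_zero k hp.ne_zero)).mp h4
    have hxI : (⟨x, hx.2⟩ : L) ∈ I := by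
      refine (hImem _).mpr (Subtype.ext (funext fun n => ?_))
      rw [conjIrr_apply]
      refine ((hSmem x).mp (hXS hx)).2 (e n) (e (conjN N' _ n)) ?_
      show (((conjN N' (⟨x, hx.2⟩ : L) n : N') : L) : G) = _
      rw [conjN_coe]
      rfl
    exact (Subgroup.relIndex_eq_one.mp hrel hxI : (⟨x, hx.2⟩ : L) ∈ N')

end Cfsg.Agent.S4673
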