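import Cfsg.Statements.S4674
import Cfsg.Agent.Lib.Blocks.KnorrBound
import Cfsg.Agent.Lib.Blocks.ConstrainedBlock
import Cfsg.Agent.Lib.Blocks.FirstMainTheorem
import Cfsg.Agent.Lib.Blocks.BrauerInduce
import Cfsg.Agent.Lib.Blocks.StabBlock
import Cfsg.Agent.S0956

set_option autoImplicit false
open Cfsg

namespace Cfsg.Agent.S4674

open scoped ComplexConjugate
open CfsgLib.Chars CfsgLib.Blocks CfsgLib.KnorrBound

universe u

variable {G : Type u} [Group G]

/-- The part of the normalizer inside `N`, seen in the normalizer and in the intersection. -/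
def eJ (H N : Subgroup G) : ↥(N.subgroupOf H) ≃* ↥(H ⊓ N) where
  toFun x := ⟨((x : H) : G), (x : H).2, x.2⟩
  invFun x := ⟨⟨(x : G), x.2.1⟩, x.2.2⟩
  left_inv _ := rfl
  right_inv _ := rfl
  map_mul' _ _ := rfl

/-- The part of the normalizer inside `N`, seen in the intersection and in `N`. -/
def eX (Q N : Subgroup G) (hQN : Q ≤ N) :
    ↥(Subgroup.normalizer (Q : Set G) ⊓ N) ≃*
      ↥(Subgroup.normalizer ((Q.subgroupOf N : Subgroup N) : Set N)) where
  toFun x := ⟨⟨(x : G), x.2.2⟩, Subgroup.mem_normalizer_iff.mpr fun y =>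
    (Subgroup.mem_normalizer_iff.mp x.2.1 (y : G))⟩
  invFun x := ⟨((x : N) : G), Subgroup.mem_normalizer_iff.mpr fun y => by
    constructor
    · intro hy
      exact (Subgroup.mem_normalizer_iff.mp x.2 ⟨y, hQN hy⟩).mp hy
    · intro hy
      have hyN : y ∈ N := by
        have := N.mul_mem (N.mul_mem (N.inv_mem (x : N).2) (hQN hy)) (x : N).2
        simpa [mul_assoc] using this
      exact (Subgroup.mem_normalizer_iff.mp x.2 ⟨y, hyN⟩).mpr hy, (x : N).2⟩
  left_inv _ := rfl
  right_inv _ := rfl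
  map_mul' _ _ := rfl

variable [Fintype G] {p : ℕ} [Fact p.Prime] {M : Ideal AlgInt}

theorem conjIrr_of_mem (N : Subgroup G) [N.Normal] (θ : IrrCharacter N) {n : G} (hn : n ∈ N) :
    conjIrr N θ n = θ := by
  refine Subtype.ext (funext fun k => ?_)
  rw [conjIrr_apply, ← IsCharacter.isClassFunction (isCharacter_irr θ) k ⟨n, hn⟩]
  exact congrArg _ (Subtype.ext (by rw [conjN_coe]; rfl))

theorem le_map_subtype {H : Type u} [Group H] {Q C : Subgroup H} (hQC : Q ≤ C) {T : Subgroup C}
    (h : Q.subgroupOf C ≤ T) : Q ≤ T.map C.subtype := fun q hq =>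
  ⟨⟨q, hQC hq⟩, h hq, rfl⟩

/-- Harris and Knörr: uniqueness of the block of the normalizer. -/
theorem unique_below (hM : IsPModular p M) (N : Subgroup G) [hN : N.Normal] (Q : Subgroup G)
    (hQ : IsPGroup p Q) (hQN : Q ≤ N) {H : Subgroup G}
    (hH : H = Subgroup.normalizer (Q : Set G))
    [Fintype ↥H]
    [Fintype ↥(N.subgroupOf H)]
    {e1 : Set (IrrCharacter ↥(N.subgroupOf H))}
    (he1 : IsPBlock M e1) (hd1 : p ^ blockDefect p e1 = Nat.card Q)
    {c c' : Set (IrrCharacter ↥H)}
    (hc : IsPBlock M c) (hc' : IsPBlock M c')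
    (hcov : ∃ ψ ∈ c, ∃ η ∈ e1, classInner
      (fun n : ↥(N.subgroupOf H) =>
        (ψ : ↥H → ℂ) n) (η : _ → ℂ) ≠ 0)
    {B : Set (IrrCharacter G)} (hB : IsPBlock M B)
    {ξ ξ' : IrrCharacter ↥H} (hξ : ξ ∈ c) (hξ' : ξ' ∈ c')
    (h : ¬ MemLocalIdeal M
      (brVal Q H (ξ : _ → ℂ) (blockCoeff B)))
    (h' : ¬ MemLocalIdeal M
      (brVal Q H (ξ' : _ → ℂ) (blockCoeff B))) :
    c = c' := by
  classical
  have hp := hM.1
  have hCH : Subgroup.centralizer (Q : Set G) ≤ H := hH ▸ Subgroup.centralizer_le_normalizer _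
  have hQH : Q ≤ H := hH ▸ Subgroup.le_normalizer
  have hHN : H ≤ Subgroup.normalizer (Q : Set G) := hH.le
  set a := blockCoeff c with ha
  have hal : ∀ x, MemLocalRing M (a x) := mlr_blockCoeff hM hc
  have hac : IsClassFunction H a := blockCoeff_isClassFunction c
  -- p-subgroups centralising a unit point
  have hS : ∀ k : H, ¬ MemLocalIdeal M (a k) → (k : G) ∈ Subgroup.centralizer (Q : Set G) ∧
      ∀ S : Subgroup G, IsPGroup p S → S ≤ N → S ≤ Subgroup.centralizer ({(k : G)} : Set G) →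
        Nat.card S ≤ Nat.card Q := by
    intro k hk
    have hkC := mem_centralizer_of_blockCoeff hM hQ hQH hHN hc
      (n := k) fun h0 => hk (by rw [ha, h0]; exact mli_zero hM)
    refine ⟨hkC, ?_⟩
    have hsmall : ∀ S : Subgroup G, IsPGroup p S → S ≤ N → S ≤ H →
        S ≤ Subgroup.centralizer ({(k : G)} : Set G) → Nat.card S ≤ Nat.card Q := by
      intro S hSp hSN hSH hSk
      set S' : Subgroup H := S.subgroupOf H with hS'
      have hS'p : IsPGroup p S' := hSp.comap_of_injective H.subtype H.subtype_injective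
      have hkS : k ∈ Subgroup.centralizer (S' : Set H) := Subgroup.mem_centralizer_iff.mpr
        fun q hq => Subtype.ext (Subgroup.mem_centralizer_singleton_iff.mp (hSk hq))
      set O := blockOrbit (N.subgroupOf H) e1
      set E : H → ℂ := ext0 (N.subgroupOf H) (blockCoeff O) with hE
      have hEl : ∀ g, MemLocalRing M (E g) := fun g => by
        rw [hE, ext0]
        split_ifs
        · exact mlr_blockCoeff_union hM (blockOrbit_union (N.subgroupOf H) hM he1) _
        · exact mlr_zero hM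
      obtain ⟨y, hyC, hyE⟩ : ∃ y ∈ Subgroup.centralizer (S' : Set H), ¬ MemLocalIdeal M (E y) := by
        by_contra hne
        push Not at hne
        refine hk ?_
        have h := mli_conv_sub_trunc hM hS'p (f := E) (f' := a)
          (fun q _ g => ext0_orbit_class (N.subgroupOf H) e1 g q) (fun q _ g => hac g q) hEl hal hkS
        rw [hE, ha, CfsgLib.KnorrLower.orbit_absorb (N.subgroupOf H) hM he1 hc hcov, ← hE, ← ha] at h
        have h2 := mli_sum hM (Finset.univ : Finset H) (f := fun g =>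
          if g ∈ Subgroup.centralizer (S' : Set H) then E g * a (g⁻¹ * k) else 0)
          fun g _ => by
            split_ifs with hg
            · exact mli_mul_right hM (hne g hg) (hal _)
            · exact mli_zero hM
        have h3 := mli_add hM h h2
        rwa [sub_add_cancel] at h3
      have hyJ : y ∈ (N.subgroupOf H) := by
        by_contra h
        exact hyE (by rw [hE, ext0, dif_neg h]; exact mli_zero hM)
      haveI : Fintype {b' : Set (IrrCharacter (N.subgroupOf H)) // IsPBlock M b' ∧ b' ⊆ blockOrbit (N.subgroupOf H) e1} :=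
        Fintype.ofFinite _
      obtain ⟨b', hb'⟩ : ∃ b' : {b' : Set (IrrCharacter (N.subgroupOf H)) // IsPBlock M b' ∧ b' ⊆ blockOrbit (N.subgroupOf H) e1},
          ¬ MemLocalIdeal M (blockCoeff b'.1 ⟨y, hyJ⟩) := by
        by_contra hne
        push Not at hne
        refine hyE ?_
        rw [hE, ext0, dif_pos hyJ, orbit_coeff_sum (N.subgroupOf H) hM he1]
        exact mli_sum hM _ fun b' _ => hne b'
      obtain ⟨D, hD⟩ := exists_isDefectGroup hM b'.2.1
      have hSJ : S' ≤ (N.subgroupOf H) := fun q hq => hSN hq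
      obtain ⟨z, hz⟩ := pGroup_le_defectGroup hM b'.2.1 hD hb' (Q := S'.subgroupOf (N.subgroupOf H))
        (hS'p.comap_of_injective (N.subgroupOf H).subtype (N.subgroupOf H).subtype_injective : IsPGroup p (S'.subgroupOf (N.subgroupOf H)))
        fun q hq => Subgroup.mem_centralizer_singleton_iff.mpr
          (Subtype.ext (Subgroup.mem_centralizer_iff.mp hyC _ hq))
      have h := Subgroup.card_le_of_le hz
      rw [card_map_conj, Nat.card_congr (Subgroup.subgroupOfEquivOfLe hSJ).toEquiv,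
        Nat.card_congr (Subgroup.subgroupOfEquivOfLe hSH).toEquiv,
        card_defectGroup hM b'.2.1 hD] at h
      obtain ⟨g, hg⟩ := exists_eq_cb (N.subgroupOf H) hM he1 b'.2.1 b'.2.2
      rwa [hg, blockDefect_cb, hd1] at h
    intro S hSp hSN hSk
    set CN := N ⊓ Subgroup.centralizer ({(k : G)} : Set G)
    have hQCN : Q ≤ CN := le_inf hQN fun q hq =>
      Subgroup.mem_centralizer_singleton_iff.mpr (Subgroup.mem_centralizer_iff.mp hkC q hq)
    obtain ⟨T, hT⟩ := (hQ.comap_of_injective CN.subtype CN.subtype_injective :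
      IsPGroup p (Q.subgroupOf CN)).exists_le_sylow
    have hTQ : (T : Subgroup CN).map CN.subtype = Q := by
      refine Cfsg.Agent.S0956.eq_of_normalizer_inf_le (p := p) (T.isPGroup'.map _)
        (le_map_subtype hQCN hT) ?_
      have hle : ((T : Subgroup CN).map CN.subtype) ≤ CN := Subgroup.map_subtype_le _
      have hcard := hsmall ((T : Subgroup CN).map CN.subtype ⊓ H)
        ((T.isPGroup'.map _).to_le inf_le_left) (inf_le_left.trans (hle.trans inf_le_left))
        inf_le_right (inf_le_left.trans (hle.trans inf_le_right))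
      rw [← hH]
      exact (Subgroup.eq_of_le_of_card_ge
        (le_inf (le_map_subtype hQCN hT) hQH) hcard).symm.le
    obtain ⟨T', hT'⟩ := (hSp.comap_of_injective CN.subtype CN.subtype_injective :
      IsPGroup p (S.subgroupOf CN)).exists_le_sylow
    have hc1 := Subgroup.card_le_of_le hT'
    change Nat.card (S.subgroupOf CN) ≤ _ at hc1
    rw [Nat.card_congr (Subgroup.subgroupOfEquivOfLe (le_inf hSN hSk : S ≤ CN)).toEquiv,
      T'.card_eq_multiplicity, ← T.card_eq_multiplicity] at hc1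
    rwa [← hTQ, Subgroup.card_map_of_injective CN.subtype_injective]
  have hval : ∀ k k' : H, ¬ MemLocalIdeal M (a k) →
      (k' : G) ∈ Subgroup.centralizer (Q : Set G) → IsConj (k : G) (k' : G) → a k = a k' := by
    intro k k' hk hk' hconj
    obtain ⟨g, hg⟩ := isConj_iff.mp hconj
    obtain ⟨hkC, hmax⟩ := hS k hk
    set CN' := N ⊓ Subgroup.centralizer ({(k' : G)} : Set G)
    have hQ1 : Q ≤ CN' := le_inf hQN fun q hq =>
      Subgroup.mem_centralizer_singleton_iff.mpr (Subgroup.mem_centralizer_iff.mp hk' q hq)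
    have hQ2 : Q.map (MulAut.conj g).toMonoidHom ≤ CN' := by
      rintro _ ⟨q, hq, rfl⟩
      refine ⟨hN.conj_mem q (hQN hq) g, Subgroup.mem_centralizer_singleton_iff.mpr ?_⟩
      change g * q * g⁻¹ * (k' : G) = (k' : G) * (g * q * g⁻¹)
      rw [← hg]
      calc g * q * g⁻¹ * (g * (k : G) * g⁻¹) = g * (q * (k : G)) * g⁻¹ := by group
        _ = g * ((k : G) * q) * g⁻¹ := by rw [Subgroup.mem_centralizer_iff.mp hkC q hq]
        _ = _ := by group
    have hmax' : ∀ S : Subgroup G, IsPGroup p S → S ≤ CN' → Nat.card S ≤ Nat.card Q := by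
      intro S hSp hS'
      rw [← card_map_conj S g⁻¹]
      refine hmax _ (hSp.map _) ?_ ?_
      · rintro _ ⟨q, hq, rfl⟩
        exact hN.conj_mem q (hS' hq).1 g⁻¹
      · rintro _ ⟨q, hq, rfl⟩
        have h := Subgroup.mem_centralizer_singleton_iff.mp (hS' hq).2
        rw [← hg] at h
        refine Subgroup.mem_centralizer_singleton_iff.mpr ?_
        change g⁻¹ * q * g⁻¹⁻¹ * (k : G) = (k : G) * (g⁻¹ * q * g⁻¹⁻¹)
        calc g⁻¹ * q * g⁻¹⁻¹ * (k : G) = g⁻¹ * (q * (g * (k : G) * g⁻¹)) * g := by group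
          _ = g⁻¹ * (g * (k : G) * g⁻¹ * q) * g := by rw [h]
          _ = _ := by group
    have key : ∀ R : Subgroup G, IsPGroup p R → R ≤ CN' → Nat.card R = Nat.card Q →
        ∃ T : Sylow p CN', (T : Subgroup CN').map CN'.subtype = R := by
      intro R hR hRle hRc
      obtain ⟨T, hT⟩ := (hR.comap_of_injective CN'.subtype CN'.subtype_injective :
        IsPGroup p (R.subgroupOf CN')).exists_le_sylow
      refine ⟨T, (Subgroup.eq_of_le_of_card_ge (le_map_subtype hRle hT) ?_).symm⟩
      rw [hRc]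
      exact hmax' _ (T.isPGroup'.map _) (Subgroup.map_subtype_le _)
    obtain ⟨T1, hT1⟩ := key Q hQ hQ1 rfl
    obtain ⟨T2, hT2⟩ := key _ (hQ.map (MulAut.conj g).toMonoidHom) hQ2 (card_map_conj Q g)
    obtain ⟨m, hm⟩ := MulAction.exists_smul_eq CN' T2 T1
    have hmg : (m : G) * g ∈ H := by
      rw [hH, Subgroup.mem_normalizer_iff_map_conj_eq]
      refine Subgroup.eq_of_le_of_card_ge ?_ (card_map_conj Q _).ge
      rintro _ ⟨q, hq, rfl⟩
      have hq2 : g * q * g⁻¹ ∈ (T2 : Subgroup CN').map CN'.subtype := by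
        rw [hT2]; exact ⟨q, hq, rfl⟩
      obtain ⟨z, hz, hze⟩ := hq2
      rw [← hT1]
      refine ⟨m * z * m⁻¹, ?_, ?_⟩
      · rw [← hm]
        exact Subgroup.smul_mem_pointwise_smul z (MulAut.conj m) (T2 : Subgroup CN') hz
      · change (m : G) * (z : G) * (m : G)⁻¹ = (m : G) * g * q * ((m : G) * g)⁻¹
        rw [show (z : G) = g * q * g⁻¹ from hze]
        group
    rw [← hac k ⟨_, hmg⟩]
    congr 1
    apply Subtype.ext
    have hmk := Subgroup.mem_centralizer_singleton_iff.mp m.2.2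
    change (m : G) * g * (k : G) * ((m : G) * g)⁻¹ = (k' : G)
    calc (m : G) * g * (k : G) * ((m : G) * g)⁻¹ = (m : G) * (g * (k : G) * g⁻¹) * (m : G)⁻¹ := by group
      _ = (k' : G) * (m : G) * (m : G)⁻¹ := by rw [hg, hmk]
      _ = (k' : G) := by group
  let F : G → ℂ := fun x =>
    if h : ∃ k : H, ¬ MemLocalIdeal M (a k) ∧ IsConj (k : G) x then a h.choose else 0
  have hFc : IsClassFunction G F := by
    intro x g
    have hconj : IsConj x (g * x * g⁻¹) := isConj_iff.mpr ⟨g, rfl⟩
    simp only [F]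
    by_cases hx : ∃ k : H, ¬ MemLocalIdeal M (a k) ∧ IsConj (k : G) x
    · have hx' : ∃ k : H, ¬ MemLocalIdeal M (a k) ∧ IsConj (k : G) (g * x * g⁻¹) :=
        ⟨hx.choose, hx.choose_spec.1, hx.choose_spec.2.trans hconj⟩
      rw [dif_pos hx, dif_pos hx']
      exact hval _ _ hx'.choose_spec.1 (hS _ hx.choose_spec.1).1
        (hx'.choose_spec.2.trans (hx.choose_spec.2.trans hconj).symm)
    · rw [dif_neg hx, dif_neg fun hx' => hx ⟨hx'.choose, hx'.choose_spec.1,
        hx'.choose_spec.2.trans hconj.symm⟩]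
  have hFl : ∀ x, MemLocalRing M (F x) := fun x => by
    simp only [F]
    split_ifs
    · exact hal _
    · exact mlr_zero hM
  have hFt : ∀ k : H, MemLocalIdeal M (brTrunc Q H F k - a k) := by
    intro k
    rw [brTrunc]
    split_ifs with hkC
    · simp only [F]
      by_cases hx : ∃ k' : H, ¬ MemLocalIdeal M (a k') ∧ IsConj (k' : G) (k : G)
      · rw [dif_pos hx, hval _ k hx.choose_spec.1 hkC hx.choose_spec.2, sub_self]
        exact mli_zero hM
      · rw [dif_neg hx, zero_sub]
        refine mli_neg ?_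
        by_contra hu
        exact hx ⟨k, hu, IsConj.refl _⟩
    · rw [zero_sub]
      refine mli_neg ?_
      by_contra hu
      exact hkC (hS k hu).1
  have key : ∀ φ : IrrCharacter H, MemLocalIdeal M (brVal Q H (φ : H → ℂ) F - indic c φ) := by
    intro φ
    rw [← omega_blockCoeff c φ, brVal, ← omega_sub]
    exact mli_omega hM φ (fun x y => by
      simp only [Pi.sub_apply, brTrunc_isClassFunction hHN hFc x y, hac x y, ← ha]) hFt
  obtain ⟨χ, hχ⟩ := IsPBlock.nonempty hM hB
  have k1 := mli_brVal_sub_omega hM hQ hCH hHN ξ hB hχ h hFc hFl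
  have k2 := mli_brVal_sub_omega hM hQ hCH hHN ξ' hB hχ h' hFc hFl
  by_contra hne
  apply not_mli_one hM
  have k3 := key ξ
  have k4 := key ξ'
  rw [indic_of_mem hξ] at k3
  rw [indic_of_notMem fun hm => hne (IsPBlock.eq_of_mem hM hc hc' hm hξ')] at k4
  have := mli_sub hM (mli_sub hM k4 k3) (mli_sub hM k2 k1)
  convert this using 1
  ring

theorem core {M : Ideal Cfsg.AlgInt} (hM : Cfsg.IsPModular p M) (N : Subgroup G) [N.Normal] [Fintype N] (Q : Subgroup G) (hQ : IsPGroup p Q) (hQN : Q ≤ N) {H : Subgroup G} (hH : H = Subgroup.normalizer (Q : Set G)) [Fintype ↥(H ⊓ N)] (d : Set (Cfsg.IrrCharacter N)) (hd : Cfsg.IsPBlock M d) (hdQ : Cfsg.IsDefectGroup p M d (Q.subgroupOf N)) (e : Set (Cfsg.IrrCharacter ↥(H ⊓ N))) (he : Cfsg.IsPBlock M e) (heQ : Cfsg.IsDefectGroup p M e (Q.subgroupOf (H ⊓ N))) (hed : Cfsg.IsInducedBlockIn M N (H ⊓ N) e d) : (∀ c : Set (Cfsg.IrrCharacter ↥H), Cfsg.IsPBlock M c → (∃ ψ ∈ c, ∃ ξ ∈ e, Cfsg.classInner (fun l : ↥(H ⊓ N) => (ψ : ↥H → ℂ) (Subgroup.inclusion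 inf_le_left l)) (ξ : ↥(H ⊓ N) → ℂ) ≠ 0) → ∃! B : Set (Cfsg.IrrCharacter G), Cfsg.IsInducedBlock M H c B ∧ (∃ χ ∈ B, ∃ θ ∈ d, Cfsg.classInner (fun n : N => (χ : G → ℂ) n) (θ : N → ℂ) ≠ 0)) ∧ (∀ B : Set (Cfsg.IrrCharacter G), Cfsg.IsPBlock M B → (∃ χ ∈ B, ∃ θ ∈ d, Cfsg.classInner (fun n : N => (χ : G → ℂ) n) (θ : N → ℂ) ≠ 0) → ∃! c : Set (Cfsg.IrrCharacter ↥H), (Cfsg.IsPBlock M c ∧ ∃ ψ ∈ c, ∃ ξ ∈ e, Cfsg.classInner (fun l : ↥(H ⊓ N) => (ψ : ↥H → ℂ) (Subgroup.inclusion inf_le_left l)) (ξ : ↥(H ⊓ N) → ℂ) ≠ 0) ∧ Cfsg.IsInducedBlock M H c B) := by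
  classical
  haveI : Fintype H := Fintype.ofFinite _
  set J := N.subgroupOf H with hJdef
  haveI : Fintype J := Fintype.ofFinite _
  haveI : J.Normal := (inferInstance : N.Normal).subgroupOf H
  have hCH : Subgroup.centralizer (Q : Set G) ≤ H := hH ▸ Subgroup.centralizer_le_normalizer _
  have hQH : Q ≤ H := hH ▸ Subgroup.le_normalizer
  have hHN : H ≤ Subgroup.normalizer (Q : Set G) := hH.le
  -- transports of the block of the intersection
  let φJ : ↥J ≃* ↥(H ⊓ N) := eJ H N
  set e1 := mapBlock φJ.symm e with he1def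
  have he1 : IsPBlock M e1 := isPBlock_mapBlock hM _ he
  have hd1 : p ^ blockDefect p e1 = Nat.card Q := by
    obtain ⟨D, hD⟩ : ∃ D, IsDefectGroup p M e1 D ∧ Nat.card D = Nat.card Q :=
      ⟨_, isDefectGroup_mapBlock φJ.symm heQ, by
        rw [Subgroup.card_map_of_injective φJ.symm.injective]
        exact Nat.card_congr (Subgroup.subgroupOfEquivOfLe (le_inf hQH hQN)).toEquiv⟩
    rw [← hD.2, card_defectGroup hM he1 hD.1]
  have hcovJ : ∀ (ψ : IrrCharacter H) (η : IrrCharacter ↥(H ⊓ N)),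
      classInner (fun l : ↥(H ⊓ N) => (ψ : H → ℂ) (Subgroup.inclusion inf_le_left l))
        (η : ↥(H ⊓ N) → ℂ) =
      classInner (fun n : J => (ψ : H → ℂ) n) (pullIrr φJ η : J → ℂ) := by
    intro ψ η
    rw [← CfsgLib.ConstrainedBlock.classInner_equiv φJ
      (fun l : ↥(H ⊓ N) => (ψ : H → ℂ) (Subgroup.inclusion inf_le_left l)) (η : ↥(H ⊓ N) → ℂ)]
    rfl
  -- inside N
  set Qx := Q.subgroupOf N with hQx
  set Hx := Subgroup.normalizer (Qx : Set N) with hHx
  haveI : Fintype Hx := Fintype.ofFinite _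
  let φX : ↥(H ⊓ N) ≃* ↥Hx :=
    (MulEquiv.subgroupCongr (by rw [hH])).trans (eX Q N hQN)
  have hQxp : IsPGroup p Qx := hQ.comap_of_injective N.subtype N.subtype_injective
  have hCx : Subgroup.centralizer (Qx : Set N) ≤ Hx := Subgroup.centralizer_le_normalizer _
  set ex := mapBlock φX e with hexdef
  have hex : IsPBlock M ex := isPBlock_mapBlock hM _ he
  have hexQ : IsDefectGroup p M ex (Qx.subgroupOf Hx) := by
    have h := isDefectGroup_mapBlock φX heQ
    convert h using 2
    ext x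
    simp only [Subgroup.mem_subgroupOf, Subgroup.mem_map, hQx]
    constructor
    · intro hx
      exact ⟨φX.symm x, hx, φX.apply_symm_apply x⟩
    · rintro ⟨y, hy, rfl⟩
      exact hy
  have hexind : IsInducedBlock M Hx ex d := by
    refine ⟨hex, hd, fun ξ hξ χ hχ g => ?_⟩
    have hξ' : pullIrr φX ξ ∈ e := hξ
    convert hed.2.2 _ hξ' χ hχ g using 2
    rw [inducedCentralChar, inducedCentralCharIn]
    refine (finsum_mem_eq_of_bijOn φX ⟨?_, φX.injective.injOn, ?_⟩ ?_).symm
    · rintro k ⟨x, hx⟩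
      show IsConj g (φX k : N)
      refine IsConj.symm (isConj_iff.mpr ⟨x, ?_⟩)
      exact Subtype.ext hx
    · intro k hk
      obtain ⟨x, hx⟩ := isConj_iff.mp (hk : IsConj g (k : N)).symm
      exact ⟨φX.symm k, ⟨x, congrArg Subtype.val hx⟩, φX.apply_symm_apply k⟩
    · intro k _
      show (pullIrr φX ξ : ↥(H ⊓ N) → ℂ) k / (pullIrr φX ξ : ↥(H ⊓ N) → ℂ) 1 = _
      rw [pullIrr_apply, pullIrr_apply, map_one]
  -- the idempotents seen in `J`
  have hJr : ∀ (η : IrrCharacter ↥(H ⊓ N)) (f : N → ℂ), IsClassFunction N f →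
      (∀ n, MemLocalRing M (f n)) →
      MemLocalIdeal M (omega (pullIrr φJ η : J → ℂ) (fun j : J => f ⟨((j : H) : G), j.2⟩) -
        brVal Qx Hx (pullIrr φX.symm η : Hx → ℂ) f) := by
    intro η f hf hl
    have e1 : omega (pullIrr φJ η : J → ℂ) (fun j : J => f ⟨((j : H) : G), j.2⟩) =
        omega (pullIrr φX.symm η : Hx → ℂ) (fun x : Hx => f (x : N)) := by
      simp only [omega, pullIrr_apply, map_one]
      congr 1
      refine Fintype.sum_equiv (φJ.trans φX).toEquiv _ _ fun j => ?_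
      simp only [MulEquiv.toEquiv_eq_coe, EquivLike.coe_coe, MulEquiv.trans_apply,
        MulEquiv.symm_apply_apply]
      rfl
    rw [e1, brVal, ← omega_sub]
    haveI : (Qx.subgroupOf Hx).Normal :=
      (Subgroup.normal_subgroupOf_iff_le_normalizer Subgroup.le_normalizer).mpr le_rfl
    refine mli_omega_trunc hM (Qx.subgroupOf Hx)
      (hQxp.comap_of_injective Hx.subtype Hx.subtype_injective) _ ?_ ?_ ?_
    · intro x y
      simp only [Pi.sub_apply]
      rw [brTrunc_isClassFunction le_rfl hf x y]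
      exact congrArg (· - _) (hf (x : N) (y : N))
    · intro x
      exact mlr_sub hM (hl _) (mlr_brTrunc hM Qx Hx hl x)
    · intro x hx
      simp only [Pi.sub_apply, brTrunc]
      rw [if_pos, sub_self]
      rw [Subgroup.mem_centralizer_iff]
      intro q hq
      exact congrArg Subtype.val (Subgroup.mem_centralizer_iff.mp hx
        ⟨q, Subgroup.le_normalizer hq⟩ hq)
  -- the orbit idempotent
  set O := blockOrbit N d with hOdef
  set E : G → ℂ := ext0 N (blockCoeff O) with hEdef
  have hEc : IsClassFunction G E := ext0_orbit_class N d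
  have hEN : ∀ g, g ∉ N → E g = 0 := fun g hg => by rw [hEdef, ext0, dif_neg hg]
  have hEl : ∀ g, MemLocalRing M (E g) := fun g => by
    rw [hEdef, ext0]
    split_ifs
    · exact mlr_blockCoeff_union hM (blockOrbit_union N hM hd) _
    · exact mlr_zero hM
  have hEr : (fun n : N => E (n : G)) = blockCoeff O := funext fun n => by
    rw [hEdef, ext0, dif_pos n.2]
  have hEHJ : ∀ (ξ : IrrCharacter H) (η : IrrCharacter J),
      classInner (fun n : J => (ξ : H → ℂ) n) (η : J → ℂ) ≠ 0 →
      MemLocalIdeal M (omega (η : J → ℂ) (fun j : J => E ((j : H) : G)) -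
        brVal Q H (ξ : H → ℂ) E) := by
    intro ξ η hη
    have e : omega (ξ : H → ℂ) (fun x : H => E (x : G)) =
        omega (η : J → ℂ) (fun j : J => E ((j : H) : G)) :=
      omega_res_constituent J hη (f := fun x : H => E (x : G))
        (fun x y => hEc (x : G) (y : G)) fun x hx => hEN _ hx
    rw [← e, brVal, ← omega_sub]
    haveI : (Q.subgroupOf H).Normal :=
      (Subgroup.normal_subgroupOf_iff_le_normalizer hQH).mpr hHN
    refine mli_omega_trunc hM (Q.subgroupOf H)
      (hQ.comap_of_injective H.subtype H.subtype_injective) _ ?_ ?_ ?_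
    · intro x y
      simp only [Pi.sub_apply, brTrunc_isClassFunction hHN hEc x y, Subgroup.coe_mul,
        InvMemClass.coe_inv, hEc (x : G) (y : G)]
    · intro x
      exact mlr_sub hM (hEl _) (mlr_brTrunc hM Q H hEl x)
    · intro x hx
      simp only [Pi.sub_apply, brTrunc]
      rw [if_pos, sub_self]
      rw [Subgroup.mem_centralizer_iff]
      intro q hq
      exact congrArg Subtype.val (Subgroup.mem_centralizer_iff.mp hx ⟨q, hQH hq⟩ hq)
  refine ⟨fun c hc ⟨ψ, hψ, ξe, hξe, hne⟩ => ?_, fun B hB hcov => ?_⟩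
  · -- induction
    rw [hcovJ] at hne
    obtain ⟨B, hB, hbr⟩ := exists_block_brVal hM hHN ψ
    have hind : IsInducedBlock M H c B :=
      (isInducedBlock_iff_brVal hM hQ hQH hCH hHN hc hB hψ).mpr hbr
    obtain ⟨χ, hχ⟩ := IsPBlock.nonempty hM hB
    refine ⟨B, ⟨hind, χ, hχ, ?_⟩, ?_⟩
    · obtain ⟨θ₀, hθ₀⟩ := IsPBlock.nonempty hM hd
      have h1 := hEHJ ψ _ hne
      have h2 := mli_brVal_sub_omega hM hQ hCH hHN ψ hB hχ hbr hEc hEl
      have h3 := hJr ξe (blockCoeff O) (blockCoeff_isClassFunction O)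
        (mlr_blockCoeff_union hM (blockOrbit_union N hM hd))
      have hξx : pullIrr φX.symm ξe ∈ ex := by
        show pullIrr φX (pullIrr φX.symm ξe) ∈ e
        rwa [pullIrr_symm_apply]
      have h4 := mli_brVal_sub_omega hM hQxp hCx le_rfl (pullIrr φX.symm ξe) hd hθ₀
        ((isInducedBlock_iff_brVal hM hQxp Subgroup.le_normalizer hCx le_rfl hex hd hξx).mp hexind)
        (blockCoeff_isClassFunction O) (mlr_blockCoeff_union hM (blockOrbit_union N hM hd))
      rw [show (fun j : J => blockCoeff O ⟨((j : H) : G), j.2⟩) = fun j : J => E ((j : H) : G) from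
        funext fun j => by
          rw [hEdef, ext0, dif_pos (show ((j : H) : G) ∈ N from j.2)]] at h3
      rw [omega_blockCoeff, indic_of_mem (show θ₀ ∈ O from ⟨1, by rwa [conjIrr_one]⟩)] at h4
      obtain ⟨φ, hφ⟩ := exists_res_constituent N χ
      rw [omega_res_constituent N hφ hEc hEN, hEr, omega_blockCoeff] at h2
      by_cases hφO : φ ∈ O
      · obtain ⟨g, hg⟩ := hφO
        exact ⟨conjIrr N φ g, hg, by
          rwa [classInner_res_conjIrr N _ (IsCharacter.isClassFunction (isCharacter_irr χ))]⟩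
      · rw [indic_of_notMem hφO] at h2
        exfalso
        apply not_mli_one hM
        have := mli_sub hM (mli_add hM h1 h2) (mli_add hM h3 h4)
        convert this using 1
        ring
    · rintro B' ⟨⟨-, hB', hind'⟩, -⟩
      obtain ⟨χ', hχ'⟩ := IsPBlock.nonempty hM hB'
      refine IsPBlock.eq_of_mem hM hB' hB hχ' (IsPBlock.mem_of_sameBlock hM hB hχ fun g => ?_)
      have := mli_sub hM (hind' ψ hψ χ' hχ' g) (hind.2.2 ψ hψ χ hχ g)
      convert this using 1
      ring
  · -- the blocks of the normalizer below B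
    obtain ⟨x, hxC, hxu⟩ := CfsgLib.KnorrLower.exists_unit N hM hd hQN hdQ hB hcov
    set s := blockCoeff B with hsdef
    have hsl := mlr_blockCoeff hM hB
    have hsc : IsClassFunction G s := blockCoeff_isClassFunction B
    have htc := brTrunc_isClassFunction (P := Q) hHN hsc
    obtain ⟨ξ, hξ⟩ : ∃ ξ : IrrCharacter H, ¬ MemLocalIdeal M (brVal Q H (ξ : H → ℂ) s) := by
      by_contra hne
      push Not at hne
      refine hxu ?_
      have hv : CoeffMli M (fun ξ : IrrCharacter H => omega (ξ : H → ℂ) (brTrunc Q H s)) := by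
        refine coeffMli_of_idem hM (omega_mem_centerRing hM htc (mlr_brTrunc hM Q H hsl))
          hne (fun g => ?_)
        have h := mli_brTrunc_conv hM hQ hCH hsc hsc hsl hsl g
        rw [hsdef, conv_blockCoeff_self, ← hsdef] at h
        have h' := mli_neg h
        rw [neg_sub] at h'
        have e : coeffFun ((fun ξ : IrrCharacter H => omega (ξ : H → ℂ) (brTrunc Q H s)) *
            (fun ξ : IrrCharacter H => omega (ξ : H → ℂ) (brTrunc Q H s)) -
            fun ξ : IrrCharacter H => omega (ξ : H → ℂ) (brTrunc Q H s)) g =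
            CfsgLib.Chars.conv (brTrunc Q H s) (brTrunc Q H s) g - brTrunc Q H s g := by
          have e2 : ∀ u v : IrrCharacter H → ℂ, coeffFun (u - v) g = coeffFun u g - coeffFun v g :=
            fun u v => by simp [coeffFun, sub_mul, Finset.sum_sub_distrib, mul_sub]
          rw [e2, coeffFun_mul, coeffFun_omega htc]
        rw [e]
        exact h'
      have := hv ⟨x, hCH hxC⟩
      rw [coeffFun_omega htc, brTrunc, if_pos hxC] at this
      exact this
    have hc := isPBlock_blockOf (M := M) ξ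
    set c := blockOf M (ξ : H → ℂ) with hcdef
    have hξc : ξ ∈ c := self_mem_blockOf hM ξ
    have hind : IsInducedBlock M H c B :=
      (isInducedBlock_iff_brVal hM hQ hQH hCH hHN hc hB hξc).mpr hξ
    obtain ⟨χ, hχ, θ₀, hθ₀, hχθ⟩ := id hcov
    obtain ⟨η, hη⟩ := exists_res_constituent J ξ
    have h1 : ¬ MemLocalIdeal M (omega (η : J → ℂ) (fun j : J => E ((j : H) : G))) := by
      intro h0
      apply not_mli_one hM
      have h2 := mli_brVal_sub_omega hM hQ hCH hHN ξ hB hχ hξ hEc hEl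
      rw [omega_res_constituent N hχθ hEc hEN, hEr, omega_blockCoeff,
        indic_of_mem (show θ₀ ∈ O from ⟨1, by rwa [conjIrr_one]⟩)] at h2
      have := mli_sub hM h0 (mli_add hM (hEHJ ξ η hη) h2)
      convert this using 1
      ring
    haveI : Fintype {b' : Set (IrrCharacter N) // IsPBlock M b' ∧ b' ⊆ blockOrbit N d} :=
      Fintype.ofFinite _
    obtain ⟨b', hb'⟩ : ∃ b' : {b' : Set (IrrCharacter N) // IsPBlock M b' ∧ b' ⊆ blockOrbit N d},
        ¬ MemLocalIdeal M (omega (η : J → ℂ) (fun j : J => blockCoeff b'.1 ⟨((j : H) : G), j.2⟩)) := by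
      by_contra hne
      push Not at hne
      refine h1 ?_
      have e : (fun j : J => E ((j : H) : G)) = fun j : J =>
          ∑ b' ∈ (Finset.univ : Finset {b' : Set (IrrCharacter N) //
            IsPBlock M b' ∧ b' ⊆ blockOrbit N d}), (1 : ℂ) * blockCoeff b'.1 ⟨((j : H) : G), j.2⟩ := by
        funext j
        rw [hEdef, ext0, dif_pos (show ((j : H) : G) ∈ N from j.2), orbit_coeff_sum N hM hd]
        simp
      rw [e, omega_sum]
      exact mli_sum hM _ fun b' _ => by rw [one_mul]; exact hne b'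
    -- a unit point of the conjugate block in the centralizer of Q
    obtain ⟨w, hwC, hwu⟩ : ∃ w : N, (w : G) ∈ Subgroup.centralizer (Q : Set G) ∧
        ¬ MemLocalIdeal M (blockCoeff b'.1 w) := by
      by_contra hne
      push Not at hne
      refine hb' ?_
      haveI : (Q.subgroupOf H |>.subgroupOf J).Normal :=
        Subgroup.Normal.subgroupOf ((Subgroup.normal_subgroupOf_iff_le_normalizer hQH).mpr hHN) J
      have hz := mli_omega_trunc hM ((Q.subgroupOf H).subgroupOf J)
        ((hQ.comap_of_injective H.subtype H.subtype_injective).comap_of_injective J.subtype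
          J.subtype_injective) η
        (f := fun j : J => if ((j : H) : G) ∈ Subgroup.centralizer (Q : Set G) then 0
          else blockCoeff b'.1 ⟨((j : H) : G), j.2⟩)
        (fun a b => by
          have hcc := blockCoeff_isClassFunction b'.1 (⟨((a : H) : G), a.2⟩ : N) ⟨((b : H) : G), b.2⟩
          refine if_congr ⟨fun h => ?_, fun h =>
            conj_mem_centralizer_of_normalizer (hHN (b : H).2) h⟩ rfl hcc
          have := conj_mem_centralizer_of_normalizer (inv_mem (hHN (b : H).2)) h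
          simpa [mul_assoc] using this)
        (fun a => by
          split_ifs
          · exact mlr_zero hM
          · exact mlr_blockCoeff hM b'.2.1 _)
        (fun a ha => by
          rw [if_pos]
          rw [Subgroup.mem_centralizer_iff]
          intro q hq
          exact congrArg (fun z : J => ((z : H) : G)) (Subgroup.mem_centralizer_iff.mp ha
            ⟨⟨q, hQH hq⟩, hQN hq⟩ hq))
      have hrest := mli_omega hM η (f := (fun j : J => blockCoeff b'.1 ⟨((j : H) : G), j.2⟩) -
          fun j : J => if ((j : H) : G) ∈ Subgroup.centralizer (Q : Set G) then 0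
            else blockCoeff b'.1 ⟨((j : H) : G), j.2⟩)
        (fun a b => by
          have hcc : blockCoeff b'.1 ⟨((b * a * b⁻¹ : J) : H), (b * a * b⁻¹).2⟩ =
              blockCoeff b'.1 ⟨((a : H) : G), a.2⟩ :=
            blockCoeff_isClassFunction b'.1 (⟨((a : H) : G), a.2⟩ : N) ⟨((b : H) : G), b.2⟩
          simp only [Pi.sub_apply]
          rw [hcc]
          congr 1
          refine if_congr ⟨fun h => ?_, fun h =>
            conj_mem_centralizer_of_normalizer (hHN (b : H).2) h⟩ rfl rfl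
          have := conj_mem_centralizer_of_normalizer (inv_mem (hHN (b : H).2)) h
          simpa [mul_assoc] using this)
        (fun a => by
          simp only [Pi.sub_apply]
          split_ifs with ha
          · rw [sub_zero]; exact hne _ ha
          · rw [sub_self]; exact mli_zero hM)
      rw [omega_sub] at hrest
      have := mli_add hM hrest hz
      rwa [sub_add_cancel] at this
    obtain ⟨g, hg⟩ := exists_eq_cb N hM hd b'.2.1 b'.2.2
    obtain ⟨Di, hDi⟩ := exists_isDefectGroup hM b'.2.1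
    obtain ⟨z, hz⟩ := pGroup_le_defectGroup hM b'.2.1 hDi hwu hQxp fun q hq =>
      Subgroup.mem_centralizer_singleton_iff.mpr
        (Subtype.ext (Subgroup.mem_centralizer_iff.mp hwC _ hq))
    have hzeq : Qx.map (MulAut.conj z).toMonoidHom = Di := Subgroup.eq_of_le_of_card_ge hz (by
      rw [card_map_conj, card_defectGroup hM b'.2.1 hDi, hg, blockDefect_cb,
        ← card_defectGroup hM hd hdQ])
    have hDg : IsDefectGroup p M b'.1 (Qx.map (conjN N g).toMonoidHom) := by
      rw [hg]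
      exact isDefectGroup_mapBlock (conjN N g) hdQ
    obtain ⟨n, hn⟩ := defectGroup_conj hM b'.2.1 hDg hDi
    rw [← hzeq] at hn
    set h : G := (z : G)⁻¹ * (n : G) * g with hh
    have hhH : h ∈ H := by
      rw [hH, Subgroup.mem_normalizer_iff_map_conj_eq]
      refine Subgroup.eq_of_le_of_card_ge ?_ (card_map_conj Q _).ge
      rintro _ ⟨q, hq, rfl⟩
      have hm : n * conjN N g ⟨q, hQN hq⟩ * n⁻¹ ∈ Qx.map (MulAut.conj z).toMonoidHom := by
        rw [hn]
        exact ⟨_, ⟨⟨q, hQN hq⟩, hq, rfl⟩, rfl⟩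
      obtain ⟨y, hy, hye⟩ := hm
      have hye' : (z : G) * (y : G) * (z : G)⁻¹ = (n : G) * (g * q * g⁻¹) * (n : G)⁻¹ := by
        have := congrArg Subtype.val hye
        simpa [conjN_coe] using this
      change h * q * h⁻¹ ∈ Q
      rw [show h * q * h⁻¹ = (z : G)⁻¹ * ((n : G) * (g * q * g⁻¹) * (n : G)⁻¹) * (z : G) by
        rw [hh]; group, ← hye', show (z : G)⁻¹ * ((z : G) * (y : G) * (z : G)⁻¹) * (z : G) = (y : G) by
        group]
      exact hy
    have hb'h : b'.1 = cb N d h := by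
      rw [hg, hh, ← cb_cb]
      ext φ
      show _ ↔ conjIrr N φ _ ∈ cb N d g
      rw [conjIrr_of_mem N φ (mul_mem (inv_mem z.2) n.2)]
    set η' := conjIrr J η ⟨h, hhH⟩ with hη'def
    have hη' : classInner (fun n : J => (ξ : H → ℂ) n) (η' : J → ℂ) ≠ 0 := by
      rw [hη'def, classInner_res_conjIrr J _ (IsCharacter.isClassFunction (isCharacter_irr ξ))]
      exact hη
    have hu : ¬ MemLocalIdeal M
        (omega (η' : J → ℂ) (fun j : J => blockCoeff d ⟨((j : H) : G), j.2⟩)) := by
      rw [hη'def, show (⟨h, hhH⟩ : H) = (⟨h, hhH⟩ : H)⁻¹⁻¹ from (inv_inv _).symm,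
        ← CfsgLib.KnorrLower.omega_conjN]
      convert hb' using 4
      rw [hb'h, blockCoeff_cb]
      congr 1
    set η2 := pullIrr φJ.symm η' with hη2
    have hu2 : ¬ MemLocalIdeal M (brVal Qx Hx (pullIrr φX.symm η2 : Hx → ℂ) (blockCoeff d)) := by
      intro h0
      refine hu ?_
      have := hJr η2 (blockCoeff d) (blockCoeff_isClassFunction d) (mlr_blockCoeff hM hd)
      rw [hη2, pullIrr_symm_apply] at this
      have := mli_add hM this h0
      rwa [sub_add_cancel] at this
    obtain ⟨ξx, hξx⟩ := IsPBlock.nonempty hM hex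
    have heq := firstMain_injective hM hQxp (isPBlock_blockOf (M := M) (pullIrr φX.symm η2)) hex hexQ
      (self_mem_blockOf hM _) hξx hd hu2
      ((isInducedBlock_iff_brVal hM hQxp Subgroup.le_normalizer hCx le_rfl hex hd hξx).mp hexind)
    have hη2e : η2 ∈ e := by
      have : pullIrr φX.symm η2 ∈ ex := heq ▸ self_mem_blockOf hM _
      have h' : pullIrr φX (pullIrr φX.symm η2) ∈ e := this
      rwa [pullIrr_symm_apply] at h'
    have hcovc : ∃ ψ ∈ c, ∃ ξ ∈ e, Cfsg.classInner
        (fun l : ↥(H ⊓ N) => (ψ : H → ℂ) (Subgroup.inclusion inf_le_left l))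
        (ξ : ↥(H ⊓ N) → ℂ) ≠ 0 := by
      refine ⟨ξ, hξc, η2, hη2e, ?_⟩
      rw [hcovJ, hη2, pullIrr_symm_apply]
      exact hη'
    refine ⟨c, ⟨⟨hc, hcovc⟩, hind⟩, ?_⟩
    rintro c' ⟨⟨hc', ψ', hψ', ξ', hξ', hne'⟩, hind'⟩
    rw [hcovJ] at hne'
    refine unique_below hM N Q hQ hQN hH he1 hd1 hc' hc ⟨ψ', hψ', pullIrr φJ ξ', ?_, hne'⟩ hB
      hψ' hξc ((isInducedBlock_iff_brVal hM hQ hQH hCH hHN hc' hB hψ').mp hind') hξ
    show pullIrr φJ.symm (pullIrr φJ ξ') ∈ e
    rwa [pullIrr_apply_symm]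

/-- Fix a prime p and a maximal ideal M of the algebraic integers containing p. Let N be a normal subgroup of the finite group G, Q a p-subgroup of N, H = N_G(Q) and L = H ∩ N = N_N(Q). Let d be a p-block of N with defect group Q and e the p-block of L with defect group Q that induces d inside N (its Brauer correspondent). Then block induction from H to G is a bijection from the p-blocks of H covering e onto the p-blocks of G covering d: every block of H covering e induces exactly one block of G, and that block covers d; and every block of G covering d is induced by exactly one block of H covering e. -/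
theorem result {G : Type*} [Group G] [Fintype G] (p : ℕ) [Fact p.Prime] (M : Ideal Cfsg.AlgInt) (hM : Cfsg.IsPModular p M) (N : Subgroup G) [N.Normal] [Fintype N] (Q : Subgroup G) (hQ : IsPGroup p Q) (hQN : Q ≤ N) [Fintype ↥(Subgroup.normalizer (Q : Set G) ⊓ N)] (d : Set (Cfsg.IrrCharacter N)) (hd : Cfsg.IsPBlock M d) (hdQ : Cfsg.IsDefectGroup p M d (Q.subgroupOf N)) (e : Set (Cfsg.IrrCharacter ↥(Subgroup.normalizer (Q : Set G) ⊓ N))) (he : Cfsg.IsPBlock M e) (heQ : Cfsg.IsDefectGroup p M e (Q.subgroupOf (Subgroup.normalizer (Q : Set G) ⊓ N))) (hed : Cfsg.IsInducedBlockIn M N (Subgroup.normalizer (Q : Set G) ⊓ N) e d) : (∀ c : Set (Cfsg.IrrCharacter ↥(Subgroup.normalizer (Q : Set G))), Cfsg.IsPBlock M c → (∃ ψ ∈ c, ∃ ξ ∈ e, Cfsg.classInner (fun l : ↥(Subgroup.normalizer (Q : Set G) ⊓ N) => (ψ : ↥(Subgroup.normalizer (Q : Set G)) → ℂ) (Subgroup.inclusion inf_le_left l)) (ξ : ↥(Subgroup.normalizer (Q : Set G) ⊓ N) → ℂ) ≠ 0) → ∃! B : Set (Cfsg.IrrCharacter G), Cfsg.IsInducedBlock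 M (Subgroup.normalizer (Q : Set G)) c B ∧ (∃ χ ∈ B, ∃ θ ∈ d, Cfsg.classInner (fun n : N => (χ : G → ℂ) n) (θ : N → ℂ) ≠ 0)) ∧ (∀ B : Set (Cfsg.IrrCharacter G), Cfsg.IsPBlock M B → (∃ χ ∈ B, ∃ θ ∈ d, Cfsg.classInner (fun n : N => (χ : G → ℂ) n) (θ : N → ℂ) ≠ 0) → ∃! c : Set (Cfsg.IrrCharacter ↥(Subgroup.normalizer (Q : Set G))), (Cfsg.IsPBlock M c ∧ ∃ ψ ∈ c, ∃ ξ ∈ e, Cfsg.classInner (fun l : ↥(Subgroup.normalizer (Q : Set G) ⊓ N) => (ψ : ↥(Subgroup.normalizer (Q : Set G)) → ℂ) (Subgroup.inclusion inf_le_left l)) (ξ : ↥(Subgroup.normalizer (Q : Set G) ⊓ N) → ℂ) ≠ 0) ∧ Cfsg.IsInducedBlock M (Subgroup.normalizer (Q : Set G)) c B) := by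
  exact core hM N Q hQ hQN rfl d hd hdQ e he heQ hed

end Cfsg.Agent.S4674
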