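import Cfsg.Statements.S4675
import Cfsg.Agent.Lib.Blocks.SquareSum
import Cfsg.Agent.Lib.Blocks.DefectClass
import Cfsg.Agent.Lib.Blocks.BrauerFeit
import Mathlib.LinearAlgebra.FiniteDimensional.Basic

set_option autoImplicit false
open Cfsg

namespace Cfsg.Agent.S4675

open scoped ComplexConjugate
open CfsgLib.Chars CfsgLib.Blocks

universe u

theorem bezout {ι : Type*} [DecidableEq ι] (s : Finset ι) (f : ι → ℕ) :
    ∃ c : ι → ℤ, ∑ i ∈ s, c i * (f i : ℤ) = ((s.gcd f : ℕ) : ℤ) := by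
  induction s using Finset.induction_on with
  | empty => exact ⟨0, by simp⟩
  | @insert a s ha ih =>
    obtain ⟨c, hc⟩ := ih
    refine ⟨fun i => if i = a then Nat.gcdA (f a) (s.gcd f) else Nat.gcdB (f a) (s.gcd f) * c i, ?_⟩
    rw [Finset.sum_insert ha, Finset.gcd_insert]
    show _ = ((Nat.gcd (f a) (s.gcd f) : ℕ) : ℤ)
    have e : ∑ i ∈ s, (if i = a then Nat.gcdA (f a) (s.gcd f) else Nat.gcdB (f a) (s.gcd f) * c i) * (f i : ℤ) =
        Nat.gcdB (f a) (s.gcd f) * ((s.gcd f : ℕ) : ℤ) := by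
      rw [← hc, Finset.mul_sum]
      refine Finset.sum_congr rfl fun i hi => ?_
      rw [if_neg (fun h : i = a => ha (h ▸ hi)), mul_assoc]
    beta_reduce
    rw [e, if_pos rfl, Nat.gcd_eq_gcd_ab]
    ring

/-- Fix a prime p and a maximal ideal M of the algebraic integers containing p. Let B be a p-block of the finite group G with defect group P and p-regular rank one (a single irreducible Brauer character). Then there are a function φ on G that is, on the p-regular elements, an integer combination of the members of B, and natural numbers d_χ (χ ∈ B), such that every χ ∈ B agrees with d_χ·φ on the p-regular elements and Σ_{χ ∈ B} d_χ² equals the order of P (the single Cartan invariant of B is the order of P). -/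
theorem result {G : Type*} [Group G] [Fintype G] (p : ℕ) [Fact p.Prime] (M : Ideal Cfsg.AlgInt) (hM : Cfsg.IsPModular p M) (B : Set (Cfsg.IrrCharacter G)) (hB : Cfsg.IsPBlock M B) (P : Subgroup G) (hP : Cfsg.IsDefectGroup p M B P) (hl : Cfsg.blockRank p B = 1) : ∃ φ : G → ℂ, ∃ d : Cfsg.IrrCharacter G → ℕ, (∃ n : Cfsg.IrrCharacter G → ℤ, ∀ x : G, Cfsg.IsPRegular p x → φ x = ∑ᶠ ψ ∈ B, (n ψ : ℂ) * (ψ : G → ℂ) x) ∧ (∀ χ ∈ B, ∀ x : G, Cfsg.IsPRegular p x → (χ : G → ℂ) x = (d χ : ℂ) * φ x) ∧ ∑ᶠ χ ∈ B, d χ ^ 2 = Nat.card P := by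
  classical
  have hp := hM.1
  set S := Finset.univ.filter (· ∈ B) with hS
  have hmem : ∀ {χ : IrrCharacter G}, χ ∈ S ↔ χ ∈ B := by intro χ; simp [hS]
  set deg : IrrCharacter G → ℕ := fun χ => charDegree (χ : G → ℂ) with hdeg
  set g := S.gcd deg with hg
  obtain ⟨ψ₀, hψ₀⟩ := IsPBlock.nonempty hM hB
  have hgpos : 0 < g := Nat.pos_of_ne_zero fun h => by
    have := Finset.gcd_eq_zero_iff.mp h ψ₀ (hmem.mpr hψ₀)
    exact (charDegree_pos ψ₀).ne' this
  have hgC : (g : ℂ) ≠ 0 := Nat.cast_ne_zero.mpr hgpos.ne'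
  set d : IrrCharacter G → ℕ := fun χ => deg χ / g with hd
  have hdm : ∀ χ ∈ B, deg χ = g * d χ := fun χ hχ =>
    (Nat.mul_div_cancel' (Finset.gcd_dvd (hmem.mpr hχ))).symm
  -- proportionality
  set V := Submodule.span ℂ ((fun χ : IrrCharacter G => pRegularPart p (χ : G → ℂ)) '' B) with hV
  have hv0 : ∀ χ : IrrCharacter G, pRegularPart p (χ : G → ℂ) 1 = (deg χ : ℂ) := fun χ => by
    rw [pRegularPart_of_regular (not_dvd_orderOf_one hM), irr_apply_one]
  have hprop : ∀ χ ∈ B, ∀ x : G, (d ψ₀ : ℂ) * pRegularPart p (χ : G → ℂ) x =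
      (d χ : ℂ) * pRegularPart p (ψ₀ : G → ℂ) x := by
    intro χ hχ x
    obtain ⟨c, hc⟩ := exists_smul_eq_of_finrank_eq_one (K := ℂ) (V := V) hl
      (x := ⟨pRegularPart p (ψ₀ : G → ℂ), Submodule.subset_span ⟨ψ₀, hψ₀, rfl⟩⟩)
      (fun h => by
        have h1 := congrFun (congrArg Subtype.val h) 1
        change pRegularPart p (ψ₀ : G → ℂ) 1 = 0 at h1
        rw [hv0, Nat.cast_eq_zero] at h1
        exact (charDegree_pos ψ₀).ne' h1)
      ⟨pRegularPart p (χ : G → ℂ), Submodule.subset_span ⟨χ, hχ, rfl⟩⟩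
    have hcx : ∀ y, c * pRegularPart p (ψ₀ : G → ℂ) y = pRegularPart p (χ : G → ℂ) y := fun y =>
      congrFun (congrArg Subtype.val hc) y
    have h1 := hcx 1
    rw [hv0, hv0, hdm χ hχ, hdm ψ₀ hψ₀, Nat.cast_mul, Nat.cast_mul] at h1
    have h2 : c * (d ψ₀ : ℂ) = (d χ : ℂ) := mul_left_cancel₀ hgC (by linear_combination h1)
    rw [← hcx x, ← h2]
    ring
  have hd0 : (d ψ₀ : ℂ) ≠ 0 := by
    refine Nat.cast_ne_zero.mpr fun h => (charDegree_pos ψ₀).ne' ?_
    have := hdm ψ₀ hψ₀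
    rw [h, mul_zero] at this
    exact this
  set φ : G → ℂ := fun x => pRegularPart p (ψ₀ : G → ℂ) x / (d ψ₀ : ℂ) with hφ
  have hφd : ∀ χ ∈ B, ∀ x, pRegularPart p (χ : G → ℂ) x = (d χ : ℂ) * φ x := fun χ hχ x => by
    rw [hφ, mul_div, eq_div_iff hd0, ← hprop χ hχ x, mul_comm]
  obtain ⟨cb, hcb⟩ := bezout S d
  have hgcd1 : S.gcd d = 1 := by
    have hdd : ∀ χ ∈ S, g * S.gcd d ∣ deg χ := fun χ hχ => by
      rw [hdm χ (hmem.mp hχ)]; exact mul_dvd_mul_left g (Finset.gcd_dvd hχ)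
    have := Finset.dvd_gcd hdd
    rw [← hg] at this
    exact Nat.dvd_one.mp (Nat.dvd_of_mul_dvd_mul_left hgpos (by rwa [mul_one]))
  rw [hgcd1, Nat.cast_one] at hcb
  refine ⟨φ, d, ⟨cb, fun x hx => ?_⟩, fun χ hχ x hx => ?_, ?_⟩
  · rw [finsum_mem_eq_toFinset_sum, ← Set.filter_mem_univ_eq_toFinset, ← hS]
    have e : ∀ ψ ∈ S, (cb ψ : ℂ) * (ψ : G → ℂ) x = ((cb ψ * (d ψ : ℤ) : ℤ) : ℂ) * φ x := fun ψ hψ => by
      rw [← pRegularPart_of_regular (f := (ψ : G → ℂ)) hx, hφd ψ (hmem.mp hψ)]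
      push_cast; ring
    rw [Finset.sum_congr rfl e, ← Finset.sum_mul, ← Int.cast_sum, hcb, Int.cast_one, one_mul]
  · rw [← pRegularPart_of_regular (f := (χ : G → ℂ)) hx, hφd χ hχ]
  · rw [finsum_mem_eq_toFinset_sum, ← Set.filter_mem_univ_eq_toFinset, ← hS]
    set D2 := ∑ χ ∈ S, d χ ^ 2 with hD2
    set K := classInner φ φ with hK
    have hfi : ∀ χ ∈ B, pRegularPart p (χ : G → ℂ) = fun x => (d χ : ℂ) * φ x := fun χ hχ => funext (hφd χ hχ)
    have hR : ∀ χ ∈ B, ∀ θ ∈ B, regInner p (χ : G → ℂ) (θ : G → ℂ) = (d χ : ℂ) * (d θ : ℂ) * K := by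
      intro χ hχ θ hθ
      have e : regInner p (χ : G → ℂ) (θ : G → ℂ) =
          classInner (pRegularPart p (χ : G → ℂ)) (pRegularPart p (θ : G → ℂ)) := by
        rw [regInner, classInner, classInner]
        congr 1
        refine Finset.sum_congr rfl fun x _ => ?_
        by_cases hx : p ∣ orderOf x
        · rw [pRegularPart_of_singular hx, zero_mul, zero_mul]
        · rw [pRegularPart_of_regular (f := (θ : G → ℂ)) hx]
      rw [e, hfi χ hχ, hfi θ hθ, hK, classInner, classInner, Finset.mul_sum, Finset.mul_sum, Finset.mul_sum]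
      refine Finset.sum_congr rfl fun x _ => ?_
      rw [map_mul, map_natCast]
      ring
    have hKD : K * (D2 : ℂ) = 1 := by
      have h := classFunction_expand (pRegularPart_isClassFunction (p := p)
        (IsCharacter.isClassFunction (isCharacter_irr ψ₀))) 1
      rw [← Finset.sum_subset (Finset.subset_univ S) (fun θ _ hθ => by
        rw [show classInner (pRegularPart p (ψ₀ : G → ℂ)) (θ : G → ℂ) = 0 from regInner_eq_zero hM
          (fun h => hθ (hmem.mpr (IsPBlock.mem_of_sameBlock hM hB hψ₀ h))), zero_mul]),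
        hv0, hdm ψ₀ hψ₀] at h
      rw [Finset.sum_congr rfl (fun θ hθ => by
        rw [show classInner (pRegularPart p (ψ₀ : G → ℂ)) (θ : G → ℂ) = _ from hR ψ₀ hψ₀ θ (hmem.mp hθ),
          irr_apply_one, show charDegree (θ : G → ℂ) = g * d θ from hdm θ (hmem.mp hθ)])] at h
      have h2 : (g : ℂ) * (d ψ₀ : ℂ) * (K * (D2 : ℂ)) = (g : ℂ) * (d ψ₀ : ℂ) * 1 := by
        conv_rhs => rw [mul_one, ← Nat.cast_mul, h]
        rw [hD2]
        push_cast
        simp only [Finset.mul_sum]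
        exact Finset.sum_congr rfl fun θ _ => by ring
      exact mul_left_cancel₀ (mul_ne_zero hgC hd0) h2
    have hdvd : D2 ∣ p ^ (Nat.card G).factorization p := by
      have hall : ∀ χ ∈ B, ∀ θ ∈ B, (D2 : ℤ) ∣ (p ^ (Nat.card G).factorization p : ℕ) * ((d χ : ℤ) * d θ) := by
        intro χ hχ θ hθ
        refine ⟨regMat hp χ θ, ?_⟩
        have h := regMat_spec hp χ θ
        rw [hR χ hχ θ hθ] at h
        have h2 : (((p ^ (Nat.card G).factorization p : ℕ) : ℤ) * ((d χ : ℤ) * d θ) : ℂ) =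
            (D2 : ℂ) * (regMat hp χ θ : ℂ) := by
          rw [← h]
          push_cast
          linear_combination (-((p : ℂ) ^ (Nat.card G).factorization p * (d χ : ℂ) * (d θ : ℂ))) * hKD
        exact_mod_cast h2
      have h2 : (D2 : ℤ) ∣ ((p ^ (Nat.card G).factorization p : ℕ) : ℤ) := by
        have e : ((p ^ (Nat.card G).factorization p : ℕ) : ℤ) = ∑ χ ∈ S, ∑ θ ∈ S,
            cb χ * cb θ * (((p ^ (Nat.card G).factorization p : ℕ) : ℤ) * ((d χ : ℤ) * d θ)) := by
          calc ((p ^ (Nat.card G).factorization p : ℕ) : ℤ) =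
              ((p ^ (Nat.card G).factorization p : ℕ) : ℤ) * ((∑ χ ∈ S, cb χ * (d χ : ℤ)) * (∑ θ ∈ S, cb θ * (d θ : ℤ))) := by
                rw [hcb, one_mul, mul_one]
            _ = _ := by
                rw [Finset.sum_mul_sum, Finset.mul_sum]
                refine Finset.sum_congr rfl fun χ _ => ?_
                rw [Finset.mul_sum]
                exact Finset.sum_congr rfl fun θ _ => by ring
        rw [e]
        exact Finset.dvd_sum fun χ hχ => Finset.dvd_sum fun θ hθ =>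
          (hall χ (hmem.mp hχ) θ (hmem.mp hθ)).mul_left _
      exact_mod_cast h2
    obtain ⟨j, -, hj⟩ := (Nat.dvd_prime_pow hp).mp hdvd
    have hsq : ∑ᶠ χ ∈ B, charDegree (χ : G → ℂ) ^ 2 = g ^ 2 * D2 := by
      rw [finsum_mem_eq_toFinset_sum, ← Set.filter_mem_univ_eq_toFinset, ← hS, hD2, Finset.mul_sum]
      exact Finset.sum_congr rfl fun χ hχ => by
        rw [show charDegree (χ : G → ℂ) = g * d χ from hdm χ (hmem.mp hχ), mul_pow]
    have hf := factorization_squareSum hM hB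
    rw [hsq, hj, Nat.factorization_mul (pow_ne_zero _ hgpos.ne') (pow_ne_zero _ hp.ne_zero),
      Finsupp.add_apply, Nat.factorization_pow, Finsupp.smul_apply, smul_eq_mul,
      hp.factorization_pow, Finsupp.single_eq_same] at hf
    have hge : g.factorization p = minExp p B := by
      refine le_antisymm ?_ ((hp.pow_dvd_iff_le_factorization hgpos.ne').mp (Finset.dvd_gcd fun χ hχ =>
        (hp.pow_dvd_iff_le_factorization (charDegree_pos χ).ne').mpr (minExp_le (hmem.mp hχ))))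
      obtain ⟨ψ, hψ, he⟩ := exists_minExp hM hB
      rw [← he]
      exact (Nat.factorization_le_iff_dvd hgpos.ne' (charDegree_pos ψ).ne').mpr
        (Finset.gcd_dvd (hmem.mpr hψ)) p
    rw [hj, card_defectGroup hM hB hP]
    congr 1
    omega

end Cfsg.Agent.S4675
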