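import Cfsg.Statements.S4681
import Cfsg.Agent.Lib.Blocks.PrincipalPairs

set_option autoImplicit false
open Cfsg

namespace Cfsg.Agent.S4681

open CfsgLib.Chars CfsgLib.Blocks

/-- Fix a prime p and a maximal ideal M of the algebraic integers containing p. Let B₀ be the principal p-block of the finite group G, P a Sylow p-subgroup and e₀ the principal p-block of C_G(P). Then (P, e₀) is a maximal Brauer pair of B₀, and the fusion system of B₀ on (P, e₀) is the fusion system of G on P: its maps from each subgroup of P are exactly the conjugation maps into P by elements of G. -/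
theorem result {G : Type*} [Group G] [Fintype G] (p : ℕ) [Fact p.Prime] (M : Ideal Cfsg.AlgInt) (hM : Cfsg.IsPModular p M) (S : Sylow p G) : Cfsg.IsMaximalBrauerPair p M (Cfsg.principalBlock M G) (S : Subgroup G) (Cfsg.principalBlock M (Subgroup.centralizer ((S : Subgroup G) : Set G))) ∧ ∀ F : Cfsg.FusionSystem (S : Subgroup G), Cfsg.IsBlockFusionSystemOn p M (Cfsg.principalBlock M G) (S : Subgroup G) (Cfsg.principalBlock M (Subgroup.centralizer ((S : Subgroup G) : Set G))) F → ∀ Q : Subgroup G, F.Hom Q = (Cfsg.groupFusionSystem (S : Subgroup G)).Hom Q := by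
  have hS := S.isPGroup'
  refine ⟨⟨isBrauerPairOf_principal hM hS, fun R g hR hle => ?_⟩, fun F hF Q => ?_⟩
  · exact S.is_maximal' hR.1.1 (CfsgLib.Blocks.SubpairLE.le hle)
  · ext φ
    rw [hF.2 Q φ]
    constructor
    · rintro ⟨hQS, g, hφ, hmap, -⟩
      refine ⟨hQS, fun x => ?_, g, hφ⟩
      rw [hφ]
      exact hmap ⟨x, x.2, rfl⟩
    · rintro ⟨hQS, hmem, g, hφ⟩
      have hmap : Q.map (MulAut.conj g).toMonoidHom ≤ (S : Subgroup G) := by
        rintro _ ⟨q, hq, rfl⟩
        have := hmem ⟨q, hq⟩
        rwa [hφ] at this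
      refine ⟨hQS, g, hφ, hmap, _, subpairLE_principal hM hS Q hQS, ?_⟩
      rw [conjBlock_principal]
      exact subpairLE_principal hM hS _ hmap

end Cfsg.Agent.S4681
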