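import Cfsg.Statements.S4682
import Cfsg.Agent.Lib.Blocks.SubgroupPairs

set_option autoImplicit false
open Cfsg

namespace Cfsg.Agent.S4682

set_option linter.style.haveILetI false
open CfsgLib.Chars CfsgLib.Blocks

/-- Fix a prime p and a maximal ideal M of the algebraic integers containing p, a p-block B of the finite group G with maximal Brauer pair (P, e), P abelian, and a Brauer pair (Q, f) ≤ (P, e). Let T_Q be the stabilizer of f in N_G(Q) and T_P the stabilizer of e in N_G(P). Then every element of T_Q is a product of an element of T_P and an element of C_G(Q); and the index of C_G(Q) in T_Q equals the index of T_P ∩ C_G(Q) in T_P ∩ N_G(Q). -/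
theorem result {G : Type*} [Group G] [Fintype G] (p : ℕ) [Fact p.Prime] (M : Ideal Cfsg.AlgInt) (hM : Cfsg.IsPModular p M) (B : Set (Cfsg.IrrCharacter G)) (P : Subgroup G) (e : Set (Cfsg.IrrCharacter (Subgroup.centralizer (P : Set G)))) (hmax : Cfsg.IsMaximalBrauerPair p M B P e) (hab : ∀ x ∈ P, ∀ y ∈ P, x * y = y * x) (Q : Subgroup G) (f : Set (Cfsg.IrrCharacter (Subgroup.centralizer (Q : Set G)))) (hQP : Q ≤ P) (hf : Cfsg.IsPBlock M f) (hle : Cfsg.SubpairLE p M Q f P e) (TQ : Subgroup G) (hTQ : ∀ y : G, y ∈ TQ ↔ y ∈ Subgroup.normalizer (Q : Set G) ∧ Cfsg.StabilizesBlock (Subgroup.centralizer (Q : Set G)) f y) (TP : Subgroup G) (hTP : ∀ y : G, y ∈ TP ↔ y ∈ Subgroup.normalizer (P : Set G) ∧ Cfsg.StabilizesBlock (Subgroup.centralizer (P : Set G)) e y) : (∀ x ∈ TQ, ∃ y ∈ TP, ∃ c ∈ Subgroup.centralizer (Q : Set G), x = y * c) ∧ ((Subgroup.centralizer (Q : Set G)).subgroupOf TQ).index = ((TP ⊓ Subgroup.centralizer (Q : Set G)).subgroupOf (TP ⊓ Subgroup.normalizer (Q : Set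 G))).index := by
  classical
  have hpart : ∀ x ∈ TQ, ∃ y ∈ TP, ∃ c ∈ Subgroup.centralizer (Q : Set G), x = y * c := by
    intro x hx
    obtain ⟨y, hy, c, hc, e⟩ := abelian_fusion hM hmax hab hle ((hTQ x).mp hx).1 ((hTQ x).mp hx).2
    exact ⟨y, (hTP y).mpr hy, c, hc, e⟩
  refine ⟨hpart, ?_⟩
  have hPN : P ≤ Subgroup.normalizer (Q : Set G) := by
    refine le_trans (fun a ha => ?_) (Subgroup.centralizer_le_normalizer (Q : Set G))
    exact Subgroup.mem_centralizer_iff.mpr fun q hq => hab q (hQP hq) a ha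
  have hN := normalSubpair_of_le hM hmax.1.1 hle Relation.ReflTransGen.refl hQP hPN
  have hA : TP ⊓ Subgroup.normalizer (Q : Set G) ≤ TQ := by
    rintro y ⟨hyP, hyN⟩
    obtain ⟨hy1, hy2⟩ := (hTP y).mp hyP
    refine (hTQ y).mpr ((mem_pairStab_iff hM hf).mpr ?_)
    have hQ' : Q.map (MulAut.conj y).toMonoidHom = Q := by
      ext g
      constructor
      · rintro ⟨q, hq, rfl⟩; exact (Subgroup.mem_normalizer_iff.mp hyN q).mp hq
      · intro hg
        refine ⟨y⁻¹ * g * y, ?_, by simp [mul_assoc]⟩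
        have := (Subgroup.mem_normalizer_iff.mp (inv_mem hyN) g).mp hg
        simpa using this
    have key : ∀ a b : BrauerPairIdx G, a = b → NormalSubpairRel p M (pairConj y ⟨Q, f⟩) a →
        NormalSubpairRel p M (pairConj y ⟨Q, f⟩) b := fun a b h => h ▸ id
    have h' := key _ _ ((stabilizesBlock_iff_pairConj hM hmax.1.1.2 hy1).mp hy2)
      (isNormalSubpair_conj hM hN y)
    rw [pairConj_normalizer Q hyN] at h' ⊢
    exact congrArg (Sigma.mk Q) ((existsUnique_normal_below hM hmax.1.1 hQP hPN).unique h' hN)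
  have hCT : Subgroup.centralizer (Q : Set G) ≤ TQ := fun c hc =>
    (hTQ c).mpr (centralizer_le_pairStab hM hf hc)
  haveI : ((Subgroup.centralizer (Q : Set G)).subgroupOf TQ).Normal :=
    (Subgroup.normal_subgroupOf_iff_le_normalizer hCT).mpr fun y hy =>
      mem_normalizer_centralizer ((hTQ y).mp hy).1
  let π := (QuotientGroup.mk' ((Subgroup.centralizer (Q : Set G)).subgroupOf TQ)).comp
    (Subgroup.inclusion hA)
  have hker : π.ker = (TP ⊓ Subgroup.centralizer (Q : Set G)).subgroupOf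
      (TP ⊓ Subgroup.normalizer (Q : Set G)) := by
    ext a
    rw [MonoidHom.mem_ker, MonoidHom.comp_apply, QuotientGroup.mk'_apply,
      QuotientGroup.eq_one_iff]
    simp only [Subgroup.mem_subgroupOf, Subgroup.coe_inclusion, Subgroup.mem_inf]
    exact ⟨fun h => ⟨a.2.1, h⟩, fun h => h.2⟩
  have hsurj : Function.Surjective π := by
    intro q
    obtain ⟨⟨x, hx⟩, rfl⟩ := QuotientGroup.mk'_surjective _ q
    obtain ⟨y, hy, c, hc, rfl⟩ := hpart x hx
    have hyN : y ∈ Subgroup.normalizer (Q : Set G) := by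
      have := mul_mem ((hTQ _).mp hx).1
        (inv_mem (Subgroup.centralizer_le_normalizer (Q : Set G) hc))
      rwa [mul_inv_cancel_right] at this
    refine ⟨⟨y, hy, hyN⟩, ?_⟩
    refine (QuotientGroup.eq (s := (Subgroup.centralizer (Q : Set G)).subgroupOf TQ)).mpr ?_
    show y⁻¹ * (y * c) ∈ Subgroup.centralizer (Q : Set G)
    rwa [inv_mul_cancel_left]
  rw [← hker, Subgroup.index_ker, MonoidHom.range_eq_top.mpr hsurj, Subgroup.card_top]
  rfl

end Cfsg.Agent.S4682
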