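import Cfsg.Statements.S4683
import Cfsg.Agent.Lib.Blocks.Section

set_option autoImplicit false
open Cfsg

namespace Cfsg.Agent.S4683

open CfsgLib.Chars CfsgLib.Blocks

/-- Fix a prime p and a maximal ideal M of the algebraic integers containing p, a p-block B of the finite group G, a p-element u and a p-block e of C = C_G(u) such that (⟨u⟩, e) is a Brauer pair of B (a Brauer element of B). For χ ∈ B let χ_u be the e-part of the class function c ↦ χ(u c) on C and χ_u' the e-part of c ↦ χ(u⁻¹ c). Then the sum over χ ∈ B and over the p-regular elements s of C of χ_u(s)·χ_u'(s⁻¹) equals the order of C times the p-regular rank of e (the number of irreducible Brauer characters of e). -/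
theorem result {G : Type*} [Group G] [Fintype G] (p : ℕ) [Fact p.Prime] (M : Ideal Cfsg.AlgInt) (hM : Cfsg.IsPModular p M) (B : Set (Cfsg.IrrCharacter G)) (u : G) (hu : ∃ k : ℕ, orderOf u = p ^ k) (e : Set (Cfsg.IrrCharacter (Subgroup.centralizer (Subgroup.zpowers u : Set G)))) (hBe : Cfsg.IsBrauerPairOf p M B (Subgroup.zpowers u) e) : ∑ᶠ χ ∈ B, ∑ᶠ s : Subgroup.centralizer (Subgroup.zpowers u : Set G), Cfsg.pRegularPart p (Cfsg.blockPart e (fun c : Subgroup.centralizer (Subgroup.zpowers u : Set G) => (χ : G → ℂ) (u * c))) s * Cfsg.blockPart e (fun c : Subgroup.centralizer (Subgroup.zpowers u : Set G) => (χ : G → ℂ) (u⁻¹ * c)) s⁻¹ = (Nat.card (Subgroup.centralizer (Subgroup.zpowers u : Set G)) : ℂ) * (Cfsg.blockRank p e : ℂ) := by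
  classical
  obtain ⟨k, hk⟩ := hu
  haveI : Fintype (Subgroup.centralizer (Subgroup.zpowers u : Set G)) := Fintype.ofFinite _
  have hC : ∀ g, g ∈ (Subgroup.centralizer (Subgroup.zpowers u : Set G)) ↔ Commute g u := by
    intro g
    rw [Subgroup.mem_centralizer_iff]
    exact ⟨fun h => (h u (Subgroup.mem_zpowers u)).symm, fun h q hq => by
      obtain ⟨n, rfl⟩ := Subgroup.mem_zpowers_iff.mp hq
      exact ((h.zpow_right n).symm).eq⟩
  obtain ⟨⟨hP, he⟩, hB, hω⟩ := hBe
  obtain ⟨ξ, hξ⟩ := IsPBlock.nonempty hM he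
  have hind : IsInducedBlock M (Subgroup.centralizer (Subgroup.zpowers u : Set G)) e B := by
    refine (sec_induced_iff hM hk hC he hB hξ).mpr (not_mli_of_sub_one hM ?_)
    have h := hω ξ hξ
    rw [brauerOmega, finsum_eq_sum_of_fintype] at h
    rw [omega, Finset.sum_div]
    exact h
  rw [finsum_mem_eq_toFinset_sum, ← Set.filter_mem_univ_eq_toFinset]
  have hconj : ∀ χ : IrrCharacter G, ∀ s : (Subgroup.centralizer (Subgroup.zpowers u : Set G)),
      blockPart e (fun c : (Subgroup.centralizer (Subgroup.zpowers u : Set G)) => (χ : G → ℂ) (u⁻¹ * c)) s⁻¹ =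
        (starRingEnd ℂ) (blockPart e (secFun (Subgroup.centralizer (Subgroup.zpowers u : Set G)) u (χ : G → ℂ)) s) := by
    intro χ s
    have hcl := secFun_isClassFunction hC χ
    have hcl' : IsClassFunction (Subgroup.centralizer (Subgroup.zpowers u : Set G)) (fun c : (Subgroup.centralizer (Subgroup.zpowers u : Set G)) => (χ : G → ℂ) (u⁻¹ * c)) :=
      secFun_isClassFunction (x := u⁻¹) (fun g => (hC g).trans Commute.inv_right_iff.symm) χ
    rw [blockPart_eq_sum e hcl', blockPart_eq_sum e hcl, map_sum]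
    refine Fintype.sum_equiv (Equiv.inv (Subgroup.centralizer (Subgroup.zpowers u : Set G))) _ _ fun g => ?_
    simp only [Equiv.inv_apply, map_mul, secFun]
    congr 1
    · rw [blockCoeff_eq_sum, blockCoeff_eq_sum, map_mul, map_inv₀, map_natCast, map_sum]
      congr 1
      refine Finset.sum_congr rfl fun φ _ => ?_
      rw [map_mul, conj_irr_one, Complex.conj_conj, IsCharacter.map_inv (isCharacter_irr φ)]
    · rw [← IsCharacter.map_inv (isCharacter_irr χ)]
      have hg : Commute (g : G) u := (hC _).mp g.2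
      rw [← IsCharacter.isClassFunction (isCharacter_irr χ)
        (u⁻¹ * ((g * s⁻¹ : (Subgroup.centralizer (Subgroup.zpowers u : Set G))) : G)) ((s : G)⁻¹)]
      congr 1
      simp only [Subgroup.coe_mul, InvMemClass.coe_inv, mul_inv_rev, inv_inv]
      rw [mul_assoc (s : G)⁻¹ (g : G) u⁻¹, hg.inv_right.eq]
      group
  rw [← sum_regular_sq hM he]
  simp only [finsum_eq_sum_of_fintype, hconj]
  rw [Finset.sum_comm, Finset.sum_filter]
  refine Finset.sum_congr rfl fun s _ => ?_
  by_cases hs : p ∣ orderOf s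
  swap
  · rw [if_pos hs, ← sec_orth hM hk hC hind hs hs]
    refine Finset.sum_congr (by ext; simp) fun χ _ => ?_
    rw [pRegularPart_of_regular hs]
    rfl
  · rw [if_neg (not_not.mpr hs)]
    refine Finset.sum_eq_zero fun χ _ => ?_
    rw [pRegularPart_of_singular hs, zero_mul]

end Cfsg.Agent.S4683
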