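import Cfsg.Statements.S4694
import Cfsg.Agent.Lib.Blocks.MaximalCriterion
import Cfsg.Agent.Lib.CharDegree

set_option autoImplicit false
open Cfsg

namespace Cfsg.Agent.S4694

open CfsgLib CfsgLib.Chars CfsgLib.Blocks
open scoped ComplexConjugate

/-- Constituents of a restriction to a normal subgroup are trivial where the character is. -/
theorem constituent_kernel {X : Type*} [Group X] [Fintype X] (K : Subgroup X) [K.Normal] [Fintype K]
    {χ : IrrCharacter X} {θ : IrrCharacter K}
    (hθ : classInner (fun n : K => (χ : X → ℂ) n) (θ : K → ℂ) ≠ 0) {k : K}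
    (hk : (χ : X → ℂ) k = (χ : X → ℂ) 1) : (θ : K → ℂ) k = (θ : K → ℂ) 1 := by
  classical
  obtain ⟨a, ha, -, hval, -⟩ := clifford K χ θ hθ
  have h := hk
  have h1 := hval 1
  rw [OneMemClass.coe_one] at h1
  rw [hval k, h1] at h
  have h' := mul_left_cancel₀ (Nat.cast_ne_zero.mpr ha.ne') h
  have hle : ∀ ψ : IrrCharacter K, ((ψ : K → ℂ) k).re ≤ ((ψ : K → ℂ) 1).re := fun ψ => by
    refine (Complex.re_le_norm _).trans ((IsCharacter.norm_le (isCharacter_irr ψ) k).trans ?_)
    rw [irr_apply_one, Complex.natCast_re]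
  have hsum : ∑ ψ ∈ orbit K θ, (((ψ : K → ℂ) 1).re - ((ψ : K → ℂ) k).re) = 0 := by
    rw [Finset.sum_sub_distrib, ← Complex.re_sum, ← Complex.re_sum, h', sub_self]
  have hz := (Finset.sum_eq_zero_iff_of_nonneg
    (fun ψ _ => sub_nonneg.mpr (hle ψ))).mp hsum θ
    ((mem_orbit K).mpr ⟨1, (conjIrr_one K θ).symm⟩)
  have hre : ((θ : K → ℂ) k).re = (charDegree (θ : K → ℂ) : ℝ) := by
    rw [sub_eq_zero] at hz
    rw [← hz, irr_apply_one, Complex.natCast_re]
  have hn := IsCharacter.norm_le (isCharacter_irr θ) k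
  rw [irr_apply_one]
  have hn' : ‖(θ : K → ℂ) k‖ ≤ (charDegree (θ : K → ℂ) : ℝ) := by
    simpa [irr_apply_one] using hn
  have hsq : ‖(θ : K → ℂ) k‖ ^ 2 = ((θ : K → ℂ) k).re ^ 2 + ((θ : K → ℂ) k).im ^ 2 := by
    rw [Complex.sq_norm, Complex.normSq_apply]; ring
  have him : ((θ : K → ℂ) k).im = 0 := by
    nlinarith [mul_self_le_mul_self (norm_nonneg _) hn', sq_nonneg ((θ : K → ℂ) k).im]
  exact Complex.ext (by rw [hre, Complex.natCast_re]) (by rw [him, Complex.natCast_im])

/-- Fix a prime p and a maximal ideal M of the algebraic integers containing p, a p-block B of the finite group G and a Brauer pair (Q, e) of B. Let T be the stabilizer of e in N_G(Q) and suppose that (Q, e) carries a weight: the block of T whose idempotent is that of e contains an irreducible character χ that is constant on the cosets of Q and whose degree has p-part equal to the p-part of the index of Q in T. Then Z(Q) is a defect group of e as a block of C_G(Q), and Q is the largest normal p-subgroup of T: every p-subgroup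 of T normalized by T lies in Q. -/
theorem result {G : Type*} [Group G] [Fintype G] (p : ℕ) [Fact p.Prime] (M : Ideal Cfsg.AlgInt) (hM : Cfsg.IsPModular p M) (B : Set (Cfsg.IrrCharacter G)) (Q : Subgroup G) (e : Set (Cfsg.IrrCharacter (Subgroup.centralizer (Q : Set G)))) (hQe : Cfsg.IsBrauerPairOf p M B Q e) (T : Subgroup G) (hT : ∀ y : G, y ∈ T ↔ y ∈ Subgroup.normalizer (Q : Set G) ∧ Cfsg.StabilizesBlock (Subgroup.centralizer (Q : Set G)) e y) (F' : Set (Cfsg.IrrCharacter T)) (hF' : Cfsg.IsPBlock M F') (hF'e : ∀ t : T, Cfsg.blockCoeff F' t = Cfsg.subgroupBlockCoeff (Subgroup.centralizer (Q : Set G)) e (t : G)) (χ : Cfsg.IrrCharacter T) (hχ : χ ∈ F') (hχQ : ∀ q : G, q ∈ Q → ∀ t : T, ∀ t' : T, (t' : G) = q * (t : G) → (χ : T → ℂ) t' = (χ : T → ℂ) t) (hdeg : (Cfsg.charDegree (χ : T → ℂ)).factorization p + (Nat.card Q).factorization p = (Nat.card T).factorization p) : Cfsg.IsDefectGroup p M e ((Q ⊓ Subgroup.centralizer (Q : Set G)).subgroupOf (Subgroup.centralizer (Q : Set G))) ∧ ∀ R : Subgroup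 G, R ≤ T → IsPGroup p R → (∀ t ∈ T, t ∈ Subgroup.normalizer (R : Set G)) → R ≤ Q := by
  classical
  haveI : Fact p.Prime := ⟨hM.1⟩
  haveI : Fintype T := Fintype.ofFinite T
  obtain ⟨hQp, he⟩ := hQe.1
  have hQT : Q ≤ T := fun q hq => (hT q).mpr
    ⟨Subgroup.le_normalizer hq, ((le_pairStab hM he) hq).2⟩
  have hCT : (Subgroup.centralizer (Q : Set G)) ≤ T := fun c hc => (hT c).mpr
    ⟨Subgroup.centralizer_le_normalizer (Q : Set G) hc, ((centralizer_le_pairStab hM he) hc).2⟩
  have hTN : T ≤ Subgroup.normalizer (Q : Set G) := fun y hy => ((hT y).mp hy).1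
  set Q' := Q.subgroupOf T with hQ'
  set C' := (Subgroup.centralizer (Q : Set G)).subgroupOf T with hC'
  haveI : Q'.Normal := (Subgroup.normal_subgroupOf_iff_le_normalizer hQT).mpr hTN
  haveI : C'.Normal := (Subgroup.normal_subgroupOf_iff_le_normalizer hCT).mpr
    (hTN.trans (normalizer_le_normalizer_centralizer Q))
  have hQker : ∀ q ∈ Q', (χ : T → ℂ) q = (χ : T → ℂ) 1 := fun q hq =>
    hχQ (q : G) hq 1 q (by rw [OneMemClass.coe_one, mul_one])
  have hQ'p : IsPGroup p Q' := hQp.of_equiv (Subgroup.subgroupOfEquivOfLe hQT).symm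
  have hQ'card : Nat.card Q' = Nat.card Q := Nat.card_congr (Subgroup.subgroupOfEquivOfLe hQT).toEquiv
  set K := Q' ⊔ C' with hK
  haveI : Fintype K := Fintype.ofFinite K
  let ι : (Subgroup.centralizer (Q : Set G)) →* K :=
    { toFun := fun c => ⟨⟨(c : G), hCT c.2⟩,
        Subgroup.mem_sup_right (show (⟨(c : G), hCT c.2⟩ : T) ∈ C' from c.2)⟩
      map_one' := rfl
      map_mul' := fun _ _ => rfl }
  set QK := Q'.subgroupOf K with hQK
  haveI : QK.Normal := Subgroup.Normal.subgroupOf inferInstance K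
  let π : (Subgroup.centralizer (Q : Set G)) →* K ⧸ QK := (QuotientGroup.mk' QK).comp ι
  have hπ : Function.Surjective π := by
    intro x
    obtain ⟨k, rfl⟩ := QuotientGroup.mk_surjective x
    obtain ⟨q, hq, c, hc, hqc⟩ := Subgroup.mem_sup_of_normal_left.mp k.2
    refine ⟨⟨(c : G), hc⟩, QuotientGroup.eq.mpr ?_⟩
    show ((ι ⟨(c : G), hc⟩)⁻¹ * k : K).1 ∈ Q'
    have hnq := Subgroup.Normal.conj_mem (H := Q') inferInstance q hq c⁻¹
    show c⁻¹ * (k : T) ∈ Q'
    rw [← hqc]
    simpa [mul_assoc] using hnq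
  have hker : π.ker = (Q ⊓ (Subgroup.centralizer (Q : Set G))).subgroupOf (Subgroup.centralizer (Q : Set G)) := by
    ext c
    rw [MonoidHom.mem_ker, Subgroup.mem_subgroupOf, Subgroup.mem_inf]
    show ((ι c : K) : K ⧸ QK) = 1 ↔ _
    rw [QuotientGroup.eq_one_iff]
    exact ⟨fun h => ⟨h, c.2⟩, fun h => h.1⟩
  -- cardinalities
  have hcardC : Nat.card (K ⧸ QK) = ((Q ⊓ (Subgroup.centralizer (Q : Set G))).subgroupOf (Subgroup.centralizer (Q : Set G))).index := by
    rw [← hker, Subgroup.index_ker, MonoidHom.range_eq_top.mpr hπ, Subgroup.card_top]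
  have hQKcard : Nat.card QK = Nat.card Q := by
    rw [← hQ'card]
    exact Nat.card_congr (Subgroup.subgroupOfEquivOfLe le_sup_left).toEquiv
  have hcardT : Nat.card T = K.index * (((Q ⊓ (Subgroup.centralizer (Q : Set G))).subgroupOf (Subgroup.centralizer (Q : Set G))).index * Nat.card Q) := by
    rw [← hcardC, ← hQKcard, ← Subgroup.index_eq_card, Subgroup.index_mul_card,
      Subgroup.index_mul_card]
  -- constituents on `K` restrict irreducibly to `(Subgroup.centralizer (Q : Set G))`
  have hcons : ∀ ψ : IrrCharacter K, classInner (fun n : K => (χ : T → ℂ) n) (ψ : K → ℂ) ≠ 0 →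
      ∃ θ : IrrCharacter (Subgroup.centralizer (Q : Set G)), (∀ c : (Subgroup.centralizer (Q : Set G)), (θ : (Subgroup.centralizer (Q : Set G)) → ℂ) c = (ψ : K → ℂ) (ι c)) ∧
        (charDegree (θ : (Subgroup.centralizer (Q : Set G)) → ℂ)).factorization p =
          ((Q ⊓ (Subgroup.centralizer (Q : Set G))).subgroupOf (Subgroup.centralizer (Q : Set G))).index.factorization p := by
    intro ψ hψ
    obtain ⟨φ, hφ⟩ := exists_deflate QK ψ fun q hq => constituent_kernel K hψ (hQker q hq)
    refine ⟨⟨_, IsIrrCharacter.comp φ.2 π hπ⟩, fun c => ?_, ?_⟩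
    · rw [hφ]; rfl
    · have hdeq : charDegree ((φ : K ⧸ QK → ℂ) ∘ π) = charDegree (ψ : K → ℂ) := by
        simp only [charDegree, hφ, Function.comp_apply, map_one, QuotientGroup.mk_one]
      have hdeq' : charDegree (ψ : K → ℂ) = charDegree (φ : K ⧸ QK → ℂ) := by
        simp only [charDegree, hφ, Function.comp_apply, QuotientGroup.mk_one]
      show (charDegree ((φ : K ⧸ QK → ℂ) ∘ π)).factorization p = _
      rw [hdeq]
      apply le_antisymm
      · rw [hdeq', ← hcardC]
        exact (Nat.factorization_le_iff_dvd (charDegree_pos φ).ne' Nat.card_pos.ne').mpr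
          (charDegree_dvd φ) p
      · obtain ⟨T₁, a, hKT, -, hd, hadvd⟩ := CfsgLib.CharDegree.exists_inertia K ψ χ hψ
        have hdvd : charDegree (χ : T → ℂ) ∣ K.index * charDegree (ψ : K → ℂ) := by
          rw [hd, ← Subgroup.relIndex_mul_index hKT, mul_comm T₁.index a]
          exact mul_dvd_mul_right (mul_dvd_mul_right hadvd _) _
        have hKi : K.index ≠ 0 := Subgroup.index_ne_zero_of_finite
        have hle := (Nat.factorization_le_iff_dvd (charDegree_pos χ).ne'
          (mul_ne_zero hKi (charDegree_pos ψ).ne')).mpr hdvd p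
        rw [Nat.factorization_mul hKi (charDegree_pos ψ).ne'] at hle
        rw [hcardT, Nat.factorization_mul hKi (mul_ne_zero Subgroup.index_ne_zero_of_finite
          Nat.card_pos.ne'), Nat.factorization_mul Subgroup.index_ne_zero_of_finite
          Nat.card_pos.ne'] at hdeg
        simp only [Finsupp.coe_add, Pi.add_apply] at hle hdeg
        omega
  refine ⟨?_, ?_⟩
  · obtain ⟨θ, hθe, hθd⟩ : ∃ θ ∈ e, (charDegree (θ : (Subgroup.centralizer (Q : Set G)) → ℂ)).factorization p =
        ((Q ⊓ (Subgroup.centralizer (Q : Set G))).subgroupOf (Subgroup.centralizer (Q : Set G))).index.factorization p := by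
      by_contra hno
      push Not at hno
      have h1 : omega (χ : T → ℂ) (blockCoeff F') = 1 := by
        rw [omega_blockCoeff, indic_of_mem hχ]
      have h2 : omega (χ : T → ℂ) (blockCoeff F') = 0 := by
        rw [omega]
        simp only [hF'e]
        have hsum : ∑ t : T, subgroupBlockCoeff (Subgroup.centralizer (Q : Set G)) e (t : G) * (χ : T → ℂ) t =
            ∑ c : (Subgroup.centralizer (Q : Set G)), blockCoeff e c * (χ : T → ℂ) (ι c : K) := by
          rw [← Finset.sum_subset (Finset.subset_univ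
            (Finset.univ.map ⟨fun c : (Subgroup.centralizer (Q : Set G)) => ((ι c : K) : T), fun a b h => Subtype.ext
              (congrArg (fun t : T => (t : G)) h)⟩)), Finset.sum_map]
          · refine Finset.sum_congr rfl fun c _ => ?_
            exact congrArg (fun z => z * _) (sbc_apply (Subgroup.centralizer (Q : Set G)) e c)
          · intro t _ ht
            rw [sbc_of_notMem, zero_mul]
            intro htC
            exact ht (Finset.mem_map.mpr ⟨⟨(t : G), htC⟩, Finset.mem_univ _, Subtype.ext rfl⟩)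
        rw [hsum]
        obtain ⟨θ', hθ'⟩ := exists_res_constituent K χ
        obtain ⟨a, -, -, hval, -⟩ := clifford K χ θ' hθ'
        simp only [hval, Finset.mul_sum]
        rw [Finset.sum_comm, Finset.sum_eq_zero, zero_div]
        intro ψ hψ
        obtain ⟨x, rfl⟩ := (mem_orbit K).mp hψ
        obtain ⟨θ, hθ, hθd⟩ := hcons (conjIrr K θ' x) (by
          rwa [classInner_res_conjIrr K _ (IsCharacter.isClassFunction (isCharacter_irr χ))])
        have hom : omega (θ : (Subgroup.centralizer (Q : Set G)) → ℂ) (blockCoeff e) = 0 := by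
          rw [omega_blockCoeff, indic_of_notMem fun h => hno θ h hθd]
        rw [omega, div_eq_zero_iff] at hom
        have h0 := hom.resolve_right (irr_one_ne_zero θ)
        calc ∑ c : (Subgroup.centralizer (Q : Set G)), blockCoeff e c * ((a : ℂ) * (conjIrr K θ' x : K → ℂ) (ι c))
            = (a : ℂ) * ∑ c : (Subgroup.centralizer (Q : Set G)), blockCoeff e c * (θ : (Subgroup.centralizer (Q : Set G)) → ℂ) c := by
              rw [Finset.mul_sum]
              exact Finset.sum_congr rfl fun c _ => by rw [hθ c]; ring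
          _ = 0 := by rw [h0, mul_zero]
      exact one_ne_zero (h1.symm.trans h2)
    refine central_defectGroup hM
      ((hQp.to_le inf_le_left).of_equiv (Subgroup.subgroupOfEquivOfLe inf_le_right).symm)
      ?_ he hθe hθd
    intro z hz
    rw [Subgroup.mem_center_iff]
    intro c
    exact Subtype.ext (Subgroup.mem_centralizer_iff.mp c.2 (z : G) hz.1).symm
  · intro R hRT hRp hRN r hr
    by_contra hrQ
    set R' := R.subgroupOf T with hR'
    haveI : R'.Normal := (Subgroup.normal_subgroupOf_iff_le_normalizer hRT).mpr hRN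
    set S := R' ⊔ Q' with hS
    have hSp : IsPGroup p S :=
      (hRp.of_equiv (Subgroup.subgroupOfEquivOfLe hRT).symm).to_sup_of_normal_left' hQ'p
        (by rw [Subgroup.normalizer_eq_top]; exact le_top)
    haveI : Fintype S := Fintype.ofFinite S
    haveI : Fintype (T ⧸ Q') := Fintype.ofFinite _
    obtain ⟨φ, hφ⟩ := exists_deflate Q' χ hQker
    have hfull : p ^ (Nat.card (T ⧸ Q')).factorization p ∣ charDegree (φ : T ⧸ Q' → ℂ) := by
      rw [ppow_dvd_iff hM.1]
      have e1 : charDegree (χ : T → ℂ) = charDegree (φ : T ⧸ Q' → ℂ) := by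
        simp only [charDegree, hφ, Function.comp_apply, QuotientGroup.mk_one]
      have e2 := Subgroup.card_eq_card_quotient_mul_card_subgroup Q'
      rw [e1, e2, hQ'card, Nat.factorization_mul Nat.card_pos.ne' Nat.card_pos.ne',
        Finsupp.coe_add, Pi.add_apply] at hdeg
      omega
    have hvan : ∀ s : S, (s : T) ∉ Q' → (χ : T → ℂ) s = 0 := fun s hs => by
      rw [hφ]
      refine (defect_zero_tfae hM φ).2.mp hfull _ ?_
      obtain ⟨k, hk⟩ := IsPGroup.iff_orderOf.mp hSp s
      have hd : orderOf ((s : T) : T ⧸ Q') ∣ p ^ k := by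
        rw [← hk, ← Subgroup.orderOf_coe]
        exact orderOf_map_dvd (QuotientGroup.mk' Q') (s : T)
      obtain ⟨j, -, hj⟩ := (Nat.dvd_prime_pow hM.1).mp hd
      rcases Nat.eq_zero_or_pos j with rfl | hj0
      · rw [pow_zero, orderOf_eq_one_iff, QuotientGroup.eq_one_iff] at hj
        exact absurd hj hs
      · rw [hj]
        exact dvd_pow_self p hj0.ne'
    have hne : classInner (fun s : S => (χ : T → ℂ) s) (homIrr (1 : S →* ℂˣ) : S → ℂ) ≠ 0 := by
      rw [classInner]
      refine mul_ne_zero (inv_ne_zero (natCast_card_ne_zero S)) ?_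
      have : ∀ s : S, (χ : T → ℂ) s * conj ((homIrr (1 : S →* ℂˣ) : S → ℂ) s) =
          if (s : T) ∈ Q' then (χ : T → ℂ) 1 else 0 := fun s => by
        rw [show ((homIrr (1 : S →* ℂˣ) : S → ℂ) s) = 1 from Units.val_one, map_one, mul_one]
        split_ifs with h
        · exact hQker _ h
        · exact hvan s h
      simp only [this]
      rw [← Finset.sum_filter, Finset.sum_const, nsmul_eq_mul]
      refine mul_ne_zero (Nat.cast_ne_zero.mpr ?_) (irr_one_ne_zero χ)
      exact (Finset.card_pos.mpr ⟨(1 : S), Finset.mem_filter.mpr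
        ⟨Finset.mem_univ _, show ((1 : S) : T) ∈ Q' from one_mem Q'⟩⟩).ne'
    obtain ⟨a, -, -, hval, -⟩ := clifford S χ _ hne
    have horb : ∀ ψ ∈ orbit S (homIrr (1 : S →* ℂˣ)), ∀ n : S, (ψ : S → ℂ) n = 1 := by
      intro ψ hψ n
      obtain ⟨x, rfl⟩ := (mem_orbit S).mp hψ
      exact Units.val_one
    let s : S := ⟨⟨r, hRT hr⟩, Subgroup.mem_sup_left (show (⟨r, hRT hr⟩ : T) ∈ R' from hr)⟩
    have h1 : (χ : T → ℂ) s = (χ : T → ℂ) 1 := by
      rw [hval s, show (χ : T → ℂ) 1 = (χ : T → ℂ) ((1 : S) : T) from rfl, hval 1]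
      congr 1
      exact Finset.sum_congr rfl fun ψ hψ => by rw [horb ψ hψ, horb ψ hψ]
    rw [hvan s hrQ] at h1
    exact irr_one_ne_zero χ h1.symm

end Cfsg.Agent.S4694
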