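import Cfsg.Statements.S4708
import Cfsg.Agent.Lib.Blocks.Cover
import Cfsg.Agent.Lib.Blocks.BrauerFeit

set_option autoImplicit false
open Cfsg

namespace Cfsg.Agent.S4708

set_option linter.style.haveILetI false
open CfsgLib.Chars CfsgLib.Blocks

universe v

variable {G : Type v} [Group G] [Fintype G] {p : ℕ} {M : Ideal AlgInt} (N : Subgroup G) [N.Normal] [Fintype N]

/-- Constituents of principal-block characters lie in the principal block. -/
theorem mem_principal_of_constituent (hM : IsPModular p M) {χ : IrrCharacter G}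
    (hχ : χ ∈ principalBlock M G) {θ : IrrCharacter N}
    (h : classInner (fun n : N => (χ : G → ℂ) n) (θ : N → ℂ) ≠ 0) : θ ∈ principalBlock M N := by
  have hB : IsPBlock M (principalBlock M G) := isPBlock_principalBlock
  have hb : IsPBlock M (principalBlock M N) := isPBlock_principalBlock
  have h0 : classInner (fun n : N => (trivIrr G : G → ℂ) n) (trivIrr N : N → ℂ) ≠ 0 := by
    simp [trivIrr, classInner]
  obtain ⟨g, hg⟩ := constituent_mem_blockOrbit N hM hb (self_mem_blockOf hM (trivIrr N))
    (fun n => mli_centralChar_of_cover N hM hB hb (self_mem_blockOf hM (trivIrr G))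
      (self_mem_blockOf hM (trivIrr N)) h0 hχ (self_mem_blockOf hM (trivIrr N)) n) h
  have h2 := sameBlock_conjIrr N (show SameBlock M (trivIrr N : N → ℂ) (conjIrr N θ g : N → ℂ) from hg) g⁻¹
  rwa [← conjIrr_mul, mul_inv_cancel, conjIrr_one,
    show conjIrr N (trivIrr N) g⁻¹ = trivIrr N from Subtype.ext rfl] at h2

/-- Every principal-block character of `N` lies under the principal block of `G`. -/
theorem exists_principal_over (hM : IsPModular p M) {θ : IrrCharacter N} (hθ : θ ∈ principalBlock M N) :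
    ∃ χ ∈ principalBlock M G, classInner (fun n : N => (χ : G → ℂ) n) (θ : N → ℂ) ≠ 0 := by
  classical
  by_contra hno
  push Not at hno
  have hbN : IsPBlock M (principalBlock M N) := isPBlock_principalBlock
  have hh0 : blockHeight p (principalBlock M N) (trivIrr N : N → ℂ) = 0 := by
    refine Nat.sub_eq_zero_iff_le.mpr ?_
    rw [show charDegree (trivIrr N : N → ℂ) = 1 by simp [charDegree, trivIrr], Nat.factorization_one]
    exact Nat.zero_le _
  refine regMat_not_dvd hM hbN (self_mem_blockOf hM (trivIrr N)) hh0 hθ ?_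
  suffices h0 : regMat hM.1 θ (trivIrr N) = 0 by rw [h0]; exact dvd_zero _
  have hspec := regMat_spec hM.1 θ (trivIrr N)
  suffices h0 : regInner p (θ : N → ℂ) (trivIrr N : N → ℂ) = 0 by
    rw [h0, mul_zero] at hspec; exact_mod_cast hspec.symm
  set f : G → ℂ := pRegularPart p (trivIrr G : G → ℂ) with hf
  have hfc : IsClassFunction G f := pRegularPart_isClassFunction (IsCharacter.isClassFunction (isCharacter_irr _))
  have hres : regInner p (θ : N → ℂ) (trivIrr N : N → ℂ) = classInner (indFun N (θ : N → ℂ)) f := by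
    rw [CfsgLib.Chars.frobenius N _ hfc, regInner, classInner, classInner]
    congr 1
    refine Finset.sum_congr rfl fun n _ => ?_
    by_cases h : p ∣ orderOf n
    · rw [pRegularPart_of_singular h, hf, pRegularPart_of_singular (by rwa [Subgroup.orderOf_coe])]
      simp
    · rw [pRegularPart_of_regular h, hf, pRegularPart_of_regular (by rwa [Subgroup.orderOf_coe])]
      simp [trivIrr]
  rw [hres, show indFun N (θ : N → ℂ) = fun x => ∑ χ : IrrCharacter G, classInner (indFun N (θ : N → ℂ)) (χ : G → ℂ) * (χ : G → ℂ) x from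
    funext fun x => classFunction_expand (IsCharacter.isClassFunction (IsCharacter.indFun N (isCharacter_irr θ))) x,
    classInner_sum]
  refine Finset.sum_eq_zero fun χ _ => ?_
  by_cases hχ : χ ∈ principalBlock M G
  · rw [CfsgLib.Chars.frobenius N _ (IsCharacter.isClassFunction (isCharacter_irr χ)), classInner_symm, hno χ hχ,
      map_zero, zero_mul]
  · have h1 := regInner_eq_zero hM (χ := χ) (ψ := trivIrr G) fun h => hχ (sameBlock_symm h)
    rw [show classInner (χ : G → ℂ) f = 0 from ?_, mul_zero]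
    rw [← h1, regInner, classInner, classInner]
    congr 1
    refine Finset.sum_congr rfl fun x _ => ?_
    by_cases hx : p ∣ orderOf x
    · rw [hf, pRegularPart_of_singular hx, pRegularPart_of_singular hx]; simp
    · rw [hf, pRegularPart_of_regular hx, pRegularPart_of_regular hx]

/-- Let p be a prime, M a maximal ideal of the algebraic integers containing p, G a finite group and H a normal subgroup. Write λ(X) for the sum of the squares of the degrees of the irreducible characters in the principal p-block of a group X. Then λ(H) ≤ λ(G) ≤ [G : H]·λ(H). -/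
theorem result {G : Type*} [Group G] [Finite G] (p : ℕ) [Fact p.Prime] (M : Ideal Cfsg.AlgInt) (hM : Cfsg.IsPModular p M) (H : Subgroup G) [H.Normal] : (∑ᶠ θ ∈ Cfsg.principalBlock M H, Cfsg.charDegree (θ : H → ℂ) ^ 2) ≤ (∑ᶠ χ ∈ Cfsg.principalBlock M G, Cfsg.charDegree (χ : G → ℂ) ^ 2) ∧ (∑ᶠ χ ∈ Cfsg.principalBlock M G, Cfsg.charDegree (χ : G → ℂ) ^ 2) ≤ H.index * ∑ᶠ θ ∈ Cfsg.principalBlock M H, Cfsg.charDegree (θ : H → ℂ) ^ 2 := by
  classical
  haveI := Fintype.ofFinite G
  haveI := Fintype.ofFinite H
  set S := Finset.univ.filter (fun χ : IrrCharacter G => χ ∈ principalBlock M G) with hS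
  set T := Finset.univ.filter (fun θ : IrrCharacter H => θ ∈ principalBlock M H) with hT
  rw [show (∑ᶠ θ ∈ principalBlock M H, charDegree (θ : H → ℂ) ^ 2) = ∑ θ ∈ T, charDegree (θ : H → ℂ) ^ 2 by
      rw [← finsum_mem_coe_finset]; simp [hT],
    show (∑ᶠ χ ∈ principalBlock M G, charDegree (χ : G → ℂ) ^ 2) = ∑ χ ∈ S, charDegree (χ : G → ℂ) ^ 2 by
      rw [← finsum_mem_coe_finset]; simp [hS]]
  choose m hm using fun (χ : IrrCharacter G) (θ : IrrCharacter H) =>
    exists_mult (IsCharacter.restrict (isCharacter_irr χ) H) θ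
  have hdeg : ∀ χ ∈ S, charDegree (χ : G → ℂ) = ∑ θ ∈ T, m χ θ * charDegree (θ : H → ℂ) := by
    intro χ hχ
    have h1 := classFunction_expand (IsCharacter.isClassFunction (IsCharacter.restrict (isCharacter_irr χ) H)) 1
    simp only [hm, OneMemClass.coe_one, irr_apply_one] at h1
    have h2 : charDegree (χ : G → ℂ) = ∑ θ : IrrCharacter H, m χ θ * charDegree (θ : H → ℂ) := by exact_mod_cast h1
    rw [h2]
    refine (Finset.sum_subset (Finset.subset_univ _) fun θ _ hθ => ?_).symm
    have : m χ θ = 0 := by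
      by_contra h
      exact hθ (Finset.mem_filter.mpr ⟨Finset.mem_univ _, mem_principal_of_constituent H hM
        (Finset.mem_filter.mp hχ).2 (by rw [hm]; exact Nat.cast_ne_zero.mpr h)⟩)
    rw [this, zero_mul]
  have hsq : ∑ χ ∈ S, charDegree (χ : G → ℂ) ^ 2 =
      ∑ θ ∈ T, charDegree (θ : H → ℂ) * ∑ χ ∈ S, m χ θ * charDegree (χ : G → ℂ) := by
    have e : ∀ χ ∈ S, charDegree (χ : G → ℂ) ^ 2 =
        ∑ θ ∈ T, charDegree (θ : H → ℂ) * (m χ θ * charDegree (χ : G → ℂ)) := fun χ hχ => by
      rw [sq]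
      nth_rewrite 1 [hdeg χ hχ]
      rw [Finset.sum_mul]
      exact Finset.sum_congr rfl fun θ _ => by ring
    rw [Finset.sum_congr rfl e, Finset.sum_comm]
    simp only [Finset.mul_sum]
  rw [hsq, Finset.mul_sum]
  refine ⟨Finset.sum_le_sum fun θ hθ => ?_, Finset.sum_le_sum fun θ hθ => ?_⟩
  · rw [sq]
    refine Nat.mul_le_mul_left _ ?_
    obtain ⟨χ, hχ, hne⟩ := exists_principal_over H hM (Finset.mem_filter.mp hθ).2
    have hχS : χ ∈ S := Finset.mem_filter.mpr ⟨Finset.mem_univ _, hχ⟩
    have hm1 : 1 ≤ m χ θ := Nat.one_le_iff_ne_zero.mpr fun h => hne (by rw [hm, h, Nat.cast_zero])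
    refine le_trans ?_ (Finset.single_le_sum (fun χ _ => Nat.zero_le _) hχS)
    refine le_trans ?_ (Nat.le_mul_of_pos_left _ hm1)
    rw [hdeg χ hχS]
    exact le_trans (Nat.le_mul_of_pos_left _ hm1) (Finset.single_le_sum (f := fun θ => m χ θ * charDegree (θ : H → ℂ))
      (fun θ _ => Nat.zero_le _) hθ)
  · rw [show H.index * charDegree (θ : H → ℂ) ^ 2 = charDegree (θ : H → ℂ) * (H.index * charDegree (θ : H → ℂ)) by ring]
    refine Nat.mul_le_mul_left _ ?_
    refine le_trans (Finset.sum_le_sum_of_subset (Finset.subset_univ _)) (le_of_eq ?_)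
    have h1 := classFunction_expand (indFun_isClassFunction H (θ : H → ℂ)) 1
    rw [indFun_one, irr_apply_one] at h1
    have e : ∀ χ : IrrCharacter G, classInner (indFun H (θ : H → ℂ)) (χ : G → ℂ) = (m χ θ : ℂ) := fun χ => by
      rw [CfsgLib.Chars.frobenius H _ (IsCharacter.isClassFunction (isCharacter_irr χ)), classInner_symm, hm, map_natCast]
    simp only [e, irr_apply_one] at h1
    exact_mod_cast h1.symm

end Cfsg.Agent.S4708
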