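import Cfsg.Statements.S4714
import Cfsg.Agent.Lib.Blocks.DCentralizer

set_option autoImplicit false
open Cfsg

namespace Cfsg.Agent.S4714

set_option linter.style.haveILetI false
open CfsgLib.Chars CfsgLib.Blocks CfsgLib.Blocks.DC

/-- Let p be a prime, M a maximal ideal of the algebraic integers containing p, D a p-subgroup of the finite group G with G = D·C_G(D), and B a p-block with defect group D. Let χ be a member of B having D in its kernel (there is exactly one, the canonical character of B). Then the irreducible characters in B are exactly the functions θ on G for which there is an irreducible character ζ of D such that θ(yx) = ζ(y)χ(x) whenever y ∈ D, x has order prime to p and x commutes with y, and θ(z) = 0 whenever the p-part of z does not lie in D. -/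
theorem result {G : Type*} [Group G] [Finite G] (p : ℕ) [Fact p.Prime] (M : Ideal Cfsg.AlgInt) (hM : Cfsg.IsPModular p M) (D : Subgroup G) (hD : IsPGroup p D) (hG : D ⊔ Subgroup.centralizer (D : Set G) = ⊤) (B : Set (Cfsg.IrrCharacter G)) (hB : Cfsg.IsPBlock M B) (hBD : Cfsg.IsDefectGroup p M B D) (χ : Cfsg.IrrCharacter G) (hχ : χ ∈ B) (hχD : ∀ y ∈ D, (χ : G → ℂ) y = (χ : G → ℂ) 1) : (∀ θ : Cfsg.IrrCharacter G, θ ∈ B ↔ ∃ ζ : Cfsg.IrrCharacter D, (∀ (y : D) (x : G), ¬ p ∣ orderOf x → Commute (y : G) x → (θ : G → ℂ) ((y : G) * x) = (ζ : D → ℂ) y * (χ : G → ℂ) x) ∧ (∀ z : G, (∀ y : G, Cfsg.IsPPart p z y → y ∉ D) → (θ : G → ℂ) z = 0)) ∧ ∀ ζ : Cfsg.IrrCharacter D, ∃ θ ∈ B, (∀ (y : D) (x : G), ¬ p ∣ orderOf x → Commute (y : G) x → (θ : G → ℂ) ((y : G) * x) = (ζ : D → ℂ) y * (χ : G → ℂ) x) ∧ (∀ z : G, (∀ y : G, Cfsg.IsPPart p z y → y ∉ D) → (θ : G → ℂ) z = 0) := by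
  classical
  haveI := Fintype.ofFinite G
  haveI := Fintype.ofFinite D
  have hd := card_defectGroup hM hB hBD
  have hdeg := canonical_degree hM hG hD hd hχ hχD
  have hiff := mem_block_iff hM hG hD hχD hdeg hB hd hχ
  refine ⟨fun θ => ⟨fun hθ => ?_, fun ⟨ζ, h1, h2⟩ => (hiff θ).mpr ⟨ζ, Subtype.ext (funext ?_)⟩⟩,
    fun ζ => ⟨starIrr hM hG hD hχD hdeg ζ, (hiff _).mpr ⟨ζ, rfl⟩,
      fun y x hx _ => starChar_apply hG hD hM.1 _ _ y hx,
      fun z hz => starChar_zero hM.1 _ _ hG hD hz⟩⟩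
  · obtain ⟨ζ, rfl⟩ := (hiff θ).mp hθ
    exact ⟨ζ, fun y x hx _ => starChar_apply hG hD hM.1 _ _ y hx,
      fun z hz => starChar_zero hM.1 _ _ hG hD hz⟩
  · intro g
    change (θ : G → ℂ) g = starChar p D (χ : G → ℂ) (ζ : D → ℂ) g
    by_cases hz : ∀ y : G, Cfsg.IsPPart p g y → y ∉ D
    · rw [h2 g hz, starChar_zero hM.1 _ _ hG hD hz]
    · push Not at hz
      obtain ⟨y, ⟨x, hg, hc, -, hx⟩, hy⟩ := hz
      rw [← hg, starChar_apply hG hD hM.1 _ _ ⟨y, hy⟩ hx]
      exact h1 ⟨y, hy⟩ x hx hc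

end Cfsg.Agent.S4714
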