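import Cfsg.Statements.S4716
import Cfsg.Agent.Lib.Blocks.Contribution
import Cfsg.Agent.Lib.Chars.CycloAvg

set_option autoImplicit false
open Cfsg

namespace Cfsg.Agent.S4716

open CfsgLib.Chars CfsgLib.Blocks

open scoped ComplexConjugate

universe u

variable {G : Type u} [Group G] [Fintype G] {p : ℕ} {M : Ideal AlgInt} {C : Subgroup G} [Fintype C]
  {x : G} {k : ℕ}

theorem sum_contribution (hM : IsPModular p M) (hx : orderOf x = p ^ k)
    (hC : ∀ g, g ∈ C ↔ Commute g x) {b : Set (IrrCharacter C)} {B : Set (IrrCharacter G)}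
    (hind : IsInducedBlock M C b B) [DecidablePred (· ∈ B)] :
    ∑ χ ∈ Finset.univ.filter (· ∈ B), ∑ ψ ∈ Finset.univ.filter (· ∈ B),
      regInner p (secPart C x b (χ : G → ℂ)) (secPart C x b (ψ : G → ℂ)) *
        conj (regInner p (secPart C x b (χ : G → ℂ)) (secPart C x b (ψ : G → ℂ))) =
      (blockRank p b : ℂ) := by
  classical
  set S := Finset.univ.filter (· ∈ B)
  set T := Finset.univ.filter (· ∈ b) with hT
  set D := Finset.univ.filter (fun a : C => ¬ p ∣ orderOf a) with hD
  set n := (Nat.card C : ℂ)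
  have hb := hind.1
  -- both sides as sums of the block kernel
  have hK : ∀ a ∈ D, ∀ a' ∈ D, ∑ χ ∈ S, secPart C x b (χ : G → ℂ) a *
      conj (secPart C x b (χ : G → ℂ) a') = ∑ η ∈ T, (η : C → ℂ) a * conj ((η : C → ℂ) a') :=
    fun a ha a' ha' => by
      simpa only [secPart] using
        sec_orth hM hx hC hind (Finset.mem_filter.mp ha).2 (Finset.mem_filter.mp ha').2
  have e1 : ∀ (ι : Type u) (s : Finset ι) (F : ι → C → ℂ),
      ∑ i ∈ s, ∑ j ∈ s, regInner p (F i) (F j) * conj (regInner p (F i) (F j)) =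
        n⁻¹ * n⁻¹ * ∑ a ∈ D, ∑ a' ∈ D, (∑ i ∈ s, F i a * conj (F i a')) *
          (∑ j ∈ s, F j a' * conj (F j a)) := by
    intro ι s F
    have hterm : ∀ i j : ι, regInner p (F i) (F j) * conj (regInner p (F i) (F j)) =
        ∑ a ∈ D, ∑ a' ∈ D, n⁻¹ * n⁻¹ * ((F i a * conj (F i a')) * (F j a' * conj (F j a))) := by
      intro i j
      rw [regInner_comm, regInner_eq, regInner_eq, mul_mul_mul_comm, Finset.sum_mul_sum,
        Finset.mul_sum]
      refine Finset.sum_congr rfl fun a _ => ?_
      rw [Finset.mul_sum]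
      exact Finset.sum_congr rfl fun a' _ => by ring
    rw [Finset.sum_congr rfl fun i _ => Finset.sum_congr rfl fun j _ => hterm i j,
      Finset.sum_congr rfl fun i _ => Finset.sum_comm, Finset.sum_comm, Finset.mul_sum]
    refine Finset.sum_congr rfl fun a _ => ?_
    rw [Finset.sum_congr rfl fun i _ => Finset.sum_comm, Finset.sum_comm, Finset.mul_sum]
    refine Finset.sum_congr rfl fun a' _ => ?_
    rw [Finset.sum_mul_sum, Finset.mul_sum]
    refine Finset.sum_congr rfl fun i _ => ?_
    rw [Finset.mul_sum]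
  rw [e1 _ S (fun χ => secPart C x b (χ : G → ℂ))]
  rw [Finset.sum_congr rfl fun a ha => Finset.sum_congr rfl fun a' ha' => by
    rw [hK a ha a' ha', hK a' ha' a ha], ← e1 _ T (fun η => (η : C → ℂ))]
  have e2 : ∀ η ∈ T, ∑ η' ∈ T, regInner p (η : C → ℂ) (η' : C → ℂ) *
      conj (regInner p (η : C → ℂ) (η' : C → ℂ)) = regInner p (η : C → ℂ) (η : C → ℂ) := by
    intro η hη
    have he : regInner p (η : C → ℂ) (η : C → ℂ) = n⁻¹ * ∑ a ∈ D,
        (∑ η' : IrrCharacter C, regInner p (η : C → ℂ) (η' : C → ℂ) * (η' : C → ℂ) a) *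
          conj ((η : C → ℂ) a) := by
      rw [regInner_eq]
      congr 1
      refine Finset.sum_congr rfl fun a ha => ?_
      rw [← regPart_expand, pRegularPart_of_regular (Finset.mem_filter.mp ha).2]
    rw [he, hT, Finset.sum_filter]
    simp only [Finset.sum_mul, Finset.mul_sum]
    rw [Finset.sum_comm]
    refine Finset.sum_congr rfl fun η' _ => ?_
    split_ifs with hη'
    · conv_lhs => rw [regInner_comm, regInner_eq (η' : C → ℂ), Finset.mul_sum, Finset.mul_sum]
      exact Finset.sum_congr rfl fun a _ => by ring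
    · rw [regInner_eq_zero hM fun hs => hη'
        (IsPBlock.mem_of_sameBlock hM hb (Finset.mem_filter.mp hη).2 hs)]
      simp
  rw [Finset.sum_congr rfl e2]
  simp only [regInner_eq]
  rw [← Finset.mul_sum, Finset.sum_comm, sum_regular_sq hM hb, ← mul_assoc,
    inv_mul_cancel₀ (natCast_card_ne_zero C), one_mul]

theorem isIntegral_contribution (hM : IsPModular p M) (hx : orderOf x = p ^ k)
    (hC : ∀ g, g ∈ C ↔ Commute g x) {b : Set (IrrCharacter C)} (χ ψ : IrrCharacter G) :
    IsIntegral ℤ (((p ^ blockDefect p b : ℕ) : ℂ) *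
      regInner p (secPart C x b (χ : G → ℂ)) (secPart C x b (ψ : G → ℂ))) := by
  classical
  rw [secPart, regInner_blockPart_left, Finset.mul_sum]
  refine IsIntegral.sum _ fun η hη => ?_
  rw [mul_left_comm]
  refine IsIntegral.mul (isIntegral_classInner_sec hM hx hC χ η) ?_
  rw [← regInner_comm, secPart, regInner_blockPart_left, map_sum, Finset.mul_sum]
  refine IsIntegral.sum _ fun η' hη' => ?_
  rw [map_mul, regInner_comm, mul_left_comm]
  exact IsIntegral.mul (map_isIntegral_int (starRingEnd ℂ) (isIntegral_classInner_sec hM hx hC ψ η'))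
    (isIntegral_ppow_regInner hM (Finset.mem_filter.mp hη).2)

theorem secPart_mem (hC : ∀ g, g ∈ C ↔ Commute g x) (b : Set (IrrCharacter C))
    (χ : IrrCharacter G) (a : C) : secPart C x b (χ : G → ℂ) a ∈ cycField (Nat.card G) := by
  classical
  have hdvd : ∀ c : C, orderOf c ∣ Nat.card G := fun c => by
    rw [← Subgroup.orderOf_coe]; exact orderOf_dvd_natCard _
  rw [secPart, blockPart_eq_filter]
  refine sum_mem fun φ _ => mul_mem ?_ (char_mem_cycField (isCharacter_irr φ) (hdvd a))
  rw [classInner]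
  exact mul_mem (inv_mem (natCast_mem _ _)) (sum_mem fun c _ => mul_mem
    (char_mem_cycField (isCharacter_irr χ) (orderOf_dvd_natCard _))
    (conj_mem_cycField (char_mem_cycField (isCharacter_irr φ) (hdvd c))))

theorem regInner_secPart_mem (hC : ∀ g, g ∈ C ↔ Commute g x) (b : Set (IrrCharacter C))
    (χ ψ : IrrCharacter G) :
    regInner p (secPart C x b (χ : G → ℂ)) (secPart C x b (ψ : G → ℂ)) ∈ cycField (Nat.card G) := by
  classical
  rw [regInner_eq]
  exact mul_mem (inv_mem (natCast_mem _ _)) (sum_mem fun a _ => mul_mem (secPart_mem hC b χ a)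
    (conj_mem_cycField (secPart_mem hC b ψ a)))

theorem card_sq_le (hM : IsPModular p M) (hx : orderOf x = p ^ k)
    (hC : ∀ g, g ∈ C ↔ Commute g x) {b : Set (IrrCharacter C)} {B : Set (IrrCharacter G)}
    (hind : IsInducedBlock M C b B) {d : ℕ}
    (hh : ∀ χ ∈ B, blockHeight p B (χ : G → ℂ) = 0) (hbd : blockDefect p b = d) :
    Nat.card B ^ 2 ≤ p ^ (2 * d) * blockRank p b := by
  classical
  set S := Finset.univ.filter (· ∈ B)
  set T := Finset.univ.filter (· ∈ b)
  set R : IrrCharacter G → IrrCharacter G → ℂ := fun χ ψ =>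
    regInner p (secPart C x b (χ : G → ℂ)) (secPart C x b (ψ : G → ℂ)) with hR
  have hsum : ∑ e ∈ S ×ˢ S, R e.1 e.2 * conj (R e.1 e.2) = (blockRank p b : ℂ) := by
    rw [Finset.sum_product]
    exact sum_contribution hM hx hC hind
  have key := card_le_of_sum_normSq (n := Nat.card G) Nat.card_pos (S ×ˢ S)
    (fun e => ((p ^ d : ℕ) : ℂ) * R e.1 e.2) (q := ((p ^ (2 * d) * blockRank p b : ℕ) : ℚ)) ?_ ?_ ?_ ?_
  · have hcard : Nat.card B = S.card := by
      rw [Nat.card_eq_fintype_card, Fintype.card_subtype]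
    rw [Finset.card_product, Rat.cast_natCast] at key
    rw [hcard, sq]
    exact_mod_cast key
  · intro e _
    exact mul_mem (natCast_mem _ _) (regInner_secPart_mem hC b e.1 e.2)
  · intro e _
    rw [← hbd]
    exact isIntegral_contribution hM hx hC e.1 e.2
  · intro e he
    obtain ⟨h1, h2⟩ := Finset.mem_product.mp he
    exact mul_ne_zero (ppow_cast_ne_zero hM.1 d) (contribution_ne_zero hM hx hC hind
      (Finset.mem_filter.mp h2).2 (Finset.mem_filter.mp h1).2
      (hh _ (Finset.mem_filter.mp h2).2) (hh _ (Finset.mem_filter.mp h1).2))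
  · rw [Rat.cast_natCast, Nat.cast_mul, two_mul, pow_add, Nat.cast_mul, ← hsum, Finset.mul_sum]
    refine Finset.sum_congr rfl fun e _ => ?_
    rw [map_mul, map_natCast]
    ring

/-- Let p be a prime, M a maximal ideal of the algebraic integers containing p, and B a p-block of defect d of the finite group G all of whose irreducible characters have height zero. Let y be a p-element, C = C_G(y), and b a block of C inducing B and having the same defect d (a major subsection). Then k(B)^2 ≤ p^(2d)·l(b), where k(B) is the number of irreducible characters in B and l(b) the p-regular rank of b (its number of irreducible Brauer characters); in particular (y = 1) k(B)^2 ≤ p^(2d)·l(B). -/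
theorem result {G : Type*} [Group G] [Finite G] (p : ℕ) [Fact p.Prime] (M : Ideal Cfsg.AlgInt) (hM : Cfsg.IsPModular p M) (B : Set (Cfsg.IrrCharacter G)) (hB : Cfsg.IsPBlock M B) (d : ℕ) (hd : Cfsg.blockDefect p B = d) (hh : ∀ χ ∈ B, Cfsg.blockHeight p B (χ : G → ℂ) = 0) (y : G) (hy : ∃ k : ℕ, orderOf y = p ^ k) (b : Set (Cfsg.IrrCharacter ↥(Subgroup.centralizer ({y} : Set G)))) (hind : Cfsg.IsInducedBlock M (Subgroup.centralizer ({y} : Set G)) b B) (hbd : Cfsg.blockDefect p b = d) : Nat.card B ^ 2 ≤ p ^ (2 * d) * Cfsg.blockRank p b := by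
  classical
  haveI : Fintype G := Fintype.ofFinite G
  haveI : Fintype (Subgroup.centralizer ({y} : Set G)) := Fintype.ofFinite _
  obtain ⟨k, hk⟩ := hy
  exact card_sq_le hM hk (fun g => Subgroup.mem_centralizer_singleton_iff) hind hh hbd

end Cfsg.Agent.S4716
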