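import Cfsg.Statements.S4718
import Cfsg.Agent.Lib.Blocks.BrauerFeit
import Cfsg.Agent.Lib.GroupB.Landau

set_option autoImplicit false
universe u
open Cfsg CfsgLib.Chars CfsgLib.Blocks

namespace Cfsg.Agent.S4718

/-- Let p be a prime and a a natural number. There is a bound N such that every finite group whose Sylow p-subgroups have order p^a and whose only p-block (relative to a maximal ideal of the algebraic integers containing p) is the principal block has order at most N. -/
theorem result (p : ℕ) [Fact p.Prime] (a : ℕ) : ∃ N : ℕ, ∀ (G : Type u) [Group G] [Finite G] (M : Ideal Cfsg.AlgInt), Cfsg.IsPModular p M → (Nat.card G).factorization p = a → (∀ B : Set (Cfsg.IrrCharacter G), Cfsg.IsPBlock M B → B = Cfsg.principalBlock M G) → Nat.card G ≤ N := by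
  obtain ⟨N, hN⟩ := CfsgLib.GroupB.Landau.landau.{u} (p ^ (2 * a) + 4)
  refine ⟨N, fun G _ _ M hM hpa hone => hN G ?_⟩
  classical
  haveI := Fintype.ofFinite G
  rw [← card_irr, Nat.card_eq_fintype_card]
  rcases isEmpty_or_nonempty (IrrCharacter G) with h | ⟨⟨χ0⟩⟩
  · simp
  have hB : IsPBlock M (principalBlock M G) := by
    have := hone _ (isPBlock_blockOf (M := M) χ0)
    rw [← this]; exact isPBlock_blockOf χ0
  have := four_mul_sum_height_le hM hB
  have hmem : ∀ χ : IrrCharacter G, χ ∈ principalBlock M G := fun χ => by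
    rw [← hone _ (isPBlock_blockOf (M := M) χ)]
    exact self_mem_blockOf hM χ
  rw [Finset.filter_true_of_mem (fun χ _ => hmem χ)] at this
  have h1 : Fintype.card (IrrCharacter G) ≤ ∑ χ : IrrCharacter G, p ^ (2 * blockHeight p (principalBlock M G) (χ : G → ℂ)) := by
    rw [← Finset.card_univ, Finset.card_eq_sum_ones]
    exact Finset.sum_le_sum fun χ _ => Nat.one_le_pow _ _ hM.1.pos
  have h2 : p ^ (2 * blockDefect p (principalBlock M G)) ≤ p ^ (2 * a) :=
    Nat.pow_le_pow_right hM.1.pos (Nat.mul_le_mul_left 2 (by unfold Cfsg.blockDefect; omega))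
  omega

end Cfsg.Agent.S4718
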