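import Cfsg.Statements.S4719
import Cfsg.Agent.Lib.Blocks.InvolutionBound
import Cfsg.Agent.Lib.Blocks.PInflate
import Cfsg.Agent.Lib.Blocks.BrauerFeit
import Cfsg.Agent.S4717
import Cfsg.Agent.S4718

set_option autoImplicit false
universe u
open Cfsg

namespace Cfsg.Agent.S4719
open CfsgLib.Chars CfsgLib.Blocks

/-- The blocks of defect at least `r` reduce to the principal one. -/
def Deficient {G : Type u} [Group G] (M : Ideal Cfsg.AlgInt) (r : ℕ) : Prop :=
  ∀ B : Set (Cfsg.IrrCharacter G), Cfsg.IsPBlock M B → B ≠ Cfsg.principalBlock M G →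
    Cfsg.blockDefect 2 B < r

def HasElem (G : Type u) [Group G] (r : ℕ) : Prop :=
  ∃ E : Subgroup G, IsMulCommutative E ∧ (∀ x ∈ E, x * x = 1) ∧ Nat.card E = 2 ^ (r + 1)

theorem quotient_deficient {C : Type u} [Group C] [Fintype C] {M : Ideal Cfsg.AlgInt}
    (hM : Cfsg.IsPModular 2 M) (Z : Subgroup C) [Z.Normal] (hZ : Z ≤ Subgroup.center C)
    (hZc : Nat.card Z = 2) {r : ℕ} (h : Deficient (G := C) M (r + 1)) :
    Deficient (G := C ⧸ Z) M r := by
  classical
  haveI : Fact (Nat.Prime 2) := ⟨Nat.prime_two⟩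
  haveI : Fintype (C ⧸ Z) := Fintype.ofFinite _
  intro B hB hne
  obtain ⟨φ, hφ, hφ0⟩ := exists_minExp hM hB
  let θ : Cfsg.IrrCharacter C := ⟨_, isIrrCharacter_inflate Z φ⟩
  have hBθ := isPBlock_blockOf (M := M) θ
  have hdeg : Cfsg.charDegree (θ : C → ℂ) = Cfsg.charDegree (φ : C ⧸ Z → ℂ) := rfl
  have h1 : Cfsg.blockOf M (θ : C → ℂ) ≠ Cfsg.principalBlock M C := by
    intro e
    apply hne
    refine IsPBlock.eq_of_mem hM hB isPBlock_principalBlock hφ ?_
    have hs : θ ∈ Cfsg.principalBlock M C := e ▸ self_mem_blockOf hM θ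
    change Cfsg.SameBlock M (fun _ : C ⧸ Z => (1 : ℂ)) (φ : C ⧸ Z → ℂ)
    refine sameBlock_deflate_of_lift hM Z (φ := trivIrr (C ⧸ Z)) hs fun q hq => Or.inl ?_
    obtain ⟨g, rfl, hg⟩ := exists_regular_lift Nat.prime_two Z hq
    refine ⟨g, rfl, ?_⟩
    have hle : (Subgroup.centralizer ({(g : C ⧸ Z)} : Set (C ⧸ Z))).comap (QuotientGroup.mk' Z) ≤
        Subgroup.centralizer ({g} : Set C) := by
      intro c hc
      rw [Subgroup.mem_comap, Subgroup.mem_centralizer_singleton_iff] at hc
      rw [Subgroup.mem_centralizer_singleton_iff]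
      set z := g⁻¹ * (c * g * c⁻¹)
      have hz : z ∈ Z := by
        rw [← QuotientGroup.eq_one_iff]
        simp only [z, QuotientGroup.mk_mul, QuotientGroup.mk_inv]
        change _ * (QuotientGroup.mk' Z c * _ * _) = 1
        rw [hc]
        simp
      have hzg : Commute g z := (Subgroup.mem_center_iff.mp (hZ hz) g)
      have hz2 : orderOf z ∣ 2 := by
        rw [← Subgroup.orderOf_mk _ hz, ← hZc]
        exact orderOf_dvd_natCard _
      have he : g * z = MulAut.conj c g := by simp [z, MulAut.conj_apply]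
      have ho : orderOf (g * z) = orderOf g := by rw [he, MulEquiv.orderOf_eq]
      rcases (Nat.dvd_prime Nat.prime_two).mp hz2 with h0 | h0
      · rw [orderOf_eq_one_iff, inv_mul_eq_one] at h0
        exact (mul_inv_eq_iff_eq_mul.mp h0.symm)
      · exfalso
        rw [hzg.orderOf_mul_eq_mul_orderOf_of_coprime (by
          rw [h0]; exact (Nat.coprime_comm.mp (Nat.prime_two.coprime_iff_not_dvd.mpr hg))), h0] at ho
        have := orderOf_pos g
        omega
    rw [Subgroup.relIndex_eq_one.mpr hle]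
    norm_num
  have h2 := h _ hBθ h1
  rw [blockDefect_eq] at h2 ⊢
  have h3 := minExp_le (p := 2) (self_mem_blockOf hM θ)
  rw [hdeg, hφ0] at h3
  have h4 : (Nat.card C).factorization 2 = (Nat.card (C ⧸ Z)).factorization 2 + 1 := by
    rw [Subgroup.card_eq_card_quotient_mul_card_subgroup Z, hZc,
      Nat.factorization_mul Nat.card_pos.ne' two_ne_zero, Finsupp.add_apply,
      Nat.prime_two.factorization_self]
  have h5 := (factorization_charDegree_le φ 2)
  rw [hφ0] at h5
  omega

theorem key : ∀ r a : ℕ, ∃ N : ℕ, ∀ (G : Type u) [Group G] [Finite G] (M : Ideal Cfsg.AlgInt),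
    Cfsg.IsPModular 2 M → (Nat.card G).factorization 2 ≤ a → Deficient (G := G) M r → HasElem G r →
    Nat.card G ≤ N := by
  haveI : Fact (Nat.Prime 2) := ⟨Nat.prime_two⟩
  intro r
  induction r with
  | zero =>
    intro a
    choose N hN using fun b => Cfsg.Agent.S4718.result.{u} 2 b
    refine ⟨(Finset.range (a + 1)).sup N, fun G _ _ M hM ha hdef _ => ?_⟩
    refine (hN _ G M hM rfl fun B hB => by_contra fun hne => Nat.not_lt_zero _ (hdef B hB hne)).trans ?_
    exact Finset.le_sup (Finset.mem_range.mpr (Nat.lt_succ_of_le ha))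
  | succ r ih =>
    intro a
    obtain ⟨N₀, hN₀⟩ := ih a
    set n := 2 * N₀ with hn
    obtain ⟨N₁, hN₁⟩ := CfsgLib.InvolutionBound.bound.{u} a (n * n ^ 4)
    refine ⟨n ^ 4 * N₁, fun G _ _ M hM ha hdef ⟨E, hEc, hE2, hEcard⟩ => ?_⟩
    classical
    haveI := Fintype.ofFinite G
    have hcent : ∀ y ∈ E, y ≠ 1 → Nat.card (Subgroup.centralizer ({y} : Set G)) ≤ n := by
      intro y hy hy1
      have ho : orderOf y = 2 := orderOf_eq_prime (by rw [pow_two]; exact hE2 y hy) hy1
      set C := Subgroup.centralizer ({y} : Set G)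
      have hdefC : Deficient (G := C) M (r + 1) :=
        (Cfsg.Agent.S4717.result 2 M hM (r + 1)).1 hdef y ⟨1, by rw [ho, pow_one]⟩
      have hEC : E ≤ C := fun e he => Subgroup.mem_centralizer_singleton_iff.mpr
        (congrArg Subtype.val (hEc.is_comm.comm (⟨e, he⟩ : E) ⟨y, hy⟩))
      let y' : C := ⟨y, hEC hy⟩
      have hy'o : orderOf y' = 2 := by rw [← Subgroup.orderOf_coe]; exact ho
      set Z := Subgroup.zpowers y'
      have hZ : Z ≤ Subgroup.center C := Subgroup.zpowers_le.mpr (Subgroup.mem_center_iff.mpr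
        fun c => Subtype.ext (Subgroup.mem_centralizer_singleton_iff.mp c.2))
      haveI : Z.Normal := ⟨fun z hz c => by
        rwa [(Subgroup.mem_center_iff.mp (hZ hz) c), mul_inv_cancel_right]⟩
      have hZc : Nat.card Z = 2 := by rw [Nat.card_zpowers, hy'o]
      haveI : Fintype C := Fintype.ofFinite _
      have hq := quotient_deficient hM Z hZ hZc hdefC
      have hfa : (Nat.card (C ⧸ Z)).factorization 2 ≤ a := by
        refine le_trans ?_ ha
        refine (Nat.factorization_le_iff_dvd Nat.card_pos.ne' Nat.card_pos.ne').mpr ?_ 2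
        exact (Subgroup.card_quotient_dvd_card Z).trans (Subgroup.card_subgroup_dvd_card C)
      let π := QuotientGroup.mk' Z
      set E' := E.subgroupOf C
      have hel : HasElem (C ⧸ Z) r := by
        refine ⟨E'.map π, ⟨⟨?_⟩⟩, ?_, ?_⟩
        · rintro ⟨u, hu⟩ ⟨v, hv⟩
          obtain ⟨u', hu', rfl⟩ := hu
          obtain ⟨v', hv', rfl⟩ := hv
          refine Subtype.ext ?_
          change π u' * π v' = π v' * π u'
          rw [← map_mul, ← map_mul]
          refine congrArg π (Subtype.ext ?_)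
          have := congrArg Subtype.val (hEc.is_comm.comm (⟨(u' : G), hu'⟩ : E) ⟨(v' : G), hv'⟩)
          exact this
        · rintro _ ⟨u, hu, rfl⟩
          rw [← map_mul, show u * u = 1 from Subtype.ext (hE2 _ hu), map_one]
        · have hZE : Z ≤ E' := Subgroup.zpowers_le.mpr hy
          have h1 : Nat.card E' = Nat.card (E'.map π) * Nat.card Z := by
            rw [← Subgroup.relIndex_ker, QuotientGroup.ker_mk',
              ← Subgroup.relIndex_bot_left, ← Subgroup.relIndex_bot_left Z, mul_comm,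
              Subgroup.relIndex_mul_relIndex _ _ _ bot_le hZE]
          rw [Nat.card_congr (Subgroup.subgroupOfEquivOfLe hEC).toEquiv, hEcard, hZc, pow_succ] at h1
          exact (Nat.eq_of_mul_eq_mul_right two_pos h1).symm
      have h := hN₀ (C ⧸ Z) M hM hfa hq hel
      rw [Subgroup.card_eq_card_quotient_mul_card_subgroup Z, hZc, hn, mul_comm]
      exact Nat.mul_le_mul_left 2 h
    -- a four subgroup of E
    have hE1 : 1 < Nat.card E := by rw [hEcard]; exact Nat.one_lt_two_pow (by omega)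
    obtain ⟨⟨y₁, hy₁⟩, hne₁⟩ := Finite.one_lt_card_iff_nontrivial.mp hE1 |>.exists_pair_ne |>
      fun ⟨u, v, huv⟩ => (show ∃ w : E, w ≠ 1 by
        by_cases hu : u = 1
        · exact ⟨v, fun hv => huv (hu.trans hv.symm)⟩
        · exact ⟨u, hu⟩)
    have hy1ne : y₁ ≠ 1 := fun e => hne₁ (Subtype.ext e)
    obtain ⟨⟨y₂, hy₂⟩, hy21, hy22⟩ : ∃ w : E, w ≠ 1 ∧ w ≠ ⟨y₁, hy₁⟩ := by
      by_contra hn'
      push Not at hn'
      have hle : Nat.card E ≤ 2 := by
        haveI := Fintype.ofFinite E
        rw [Nat.card_eq_fintype_card, ← Finset.card_univ]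
        refine le_trans (Finset.card_le_card (t := {1, ⟨y₁, hy₁⟩}) fun w _ => ?_) Finset.card_le_two
        by_cases hw : w = 1
        · simp [hw]
        · simp [hn' w hw]
      rw [hEcard] at hle
      have : 4 ≤ 2 ^ (r + 1 + 1) := le_trans (by norm_num : 4 ≤ 2 ^ 2)
        (Nat.pow_le_pow_right (by norm_num) (by omega))
      omega
    have hy2ne : y₂ ≠ 1 := fun e => hy21 (Subtype.ext e)
    have hy12 : y₁ * y₂ ≠ 1 := fun e => hy22 (Subtype.ext
      (mul_left_cancel (e.trans (hE2 y₁ hy₁).symm)))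
    set K := Cfsg.pPrimeCore 2 G
    haveI : K.Normal := CfsgLib.Core.pPrimeCore_characteristic (G := G) 2 |>.recOn fun _ =>
      Subgroup.sSup_normal _ fun _ h => h.1
    have hKodd : Odd (Nat.card K) := by
      rw [← Nat.not_even_iff_odd, even_iff_two_dvd, ← Nat.prime_two.coprime_iff_not_dvd,
        Nat.coprime_comm]
      exact CfsgLib.Core.card_pPrimeCore_coprime 2
    have hn1 : 1 ≤ n := le_trans Nat.card_pos (hcent y₁ hy₁ hy1ne)
    have hKle := CfsgLib.InvolutionBound.card_odd_normal_le K hKodd (hE2 y₁ hy₁) (hE2 y₂ hy₂)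
      (congrArg Subtype.val (hEc.is_comm.comm (⟨y₁, hy₁⟩ : E) ⟨y₂, hy₂⟩)) (n := n) (by
        rintro y (rfl | rfl | rfl)
        · exact hcent _ hy₁ hy1ne
        · exact hcent _ hy₂ hy2ne
        · exact hcent _ (E.mul_mem hy₁ hy₂) hy12)
    let σ : MulAut (G ⧸ K) := MulAut.conj (QuotientGroup.mk y₁)
    have hσ : ∀ l, σ (σ l) = l := fun l => by
      simp only [σ]
      rw [← MulAut.mul_apply, ← map_mul, ← QuotientGroup.mk_mul, hE2 y₁ hy₁, QuotientGroup.mk_one,
        map_one, MulAut.one_apply]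
    have hfix : Nat.card {l : G ⧸ K // σ l = l} ≤ n * n ^ 4 := by
      have h1 : Nat.card {g : G // MulAut.conj y₁ g = g} ≤ n := by
        refine le_trans (le_of_eq (Nat.card_congr (Equiv.subtypeEquivRight fun g => ?_))) (hcent y₁ hy₁ hy1ne)
        rw [Subgroup.mem_centralizer_singleton_iff, MulAut.conj_apply, mul_inv_eq_iff_eq_mul]
        exact eq_comm
      refine le_trans ?_ ((CfsgLib.InvolutionBound.card_almost_fixed (MulAut.conj y₁) h1 K).trans
        (Nat.mul_le_mul_left n hKle))
      refine Nat.card_le_card_of_injective (fun q => ⟨q.1.out, ?_⟩) fun u v h => ?_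
      · rw [← QuotientGroup.eq, QuotientGroup.out_eq']
        have hq : (y₁ : G ⧸ K) * q.1 * (y₁ : G ⧸ K)⁻¹ = q.1 := q.2
        rw [MulAut.conj_apply, QuotientGroup.mk_mul, QuotientGroup.mk_mul, QuotientGroup.mk_inv,
          QuotientGroup.out_eq', hq]
      · have h' := congrArg (fun v => QuotientGroup.mk (s := K) (Subtype.val v)) h
        simp only [QuotientGroup.out_eq'] at h'
        exact Subtype.ext h'
    have hfG : (Nat.card (G ⧸ K)).factorization 2 ≤ a := ((Nat.factorization_le_iff_dvd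
      Nat.card_pos.ne' Nat.card_pos.ne').mpr (Subgroup.card_quotient_dvd_card K) 2).trans ha
    rw [Subgroup.card_eq_card_quotient_mul_card_subgroup K, mul_comm]
    exact Nat.mul_le_mul hKle (hN₁ (G ⧸ K) σ hσ hfix hfG (CfsgLib.Core.pPrimeCore_quotient_eq_bot 2))


/-- For every natural number a there is a bound N with the following property. Let G be a finite group with Sylow 2-subgroups of order 2^a and r ≥ 0 such that G has no non-principal 2-block (relative to a maximal ideal of the algebraic integers containing 2) of defect ≥ r, and suppose a Sylow 2-subgroup of G contains an elementary abelian subgroup of order 2^(r+1). Then the order of G is at most N. -/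
theorem result (a : ℕ) : ∃ N : ℕ, ∀ (G : Type u) [Group G] [Finite G] (M : Ideal Cfsg.AlgInt) (r : ℕ) (P : Sylow 2 G), Cfsg.IsPModular 2 M → Nat.card P = 2 ^ a → (∀ B : Set (Cfsg.IrrCharacter G), Cfsg.IsPBlock M B → B ≠ Cfsg.principalBlock M G → Cfsg.blockDefect 2 B < r) → (∃ E : Subgroup G, E ≤ (P : Subgroup G) ∧ IsMulCommutative E ∧ (∀ x ∈ E, x * x = 1) ∧ Nat.card E = 2 ^ (r + 1)) → Nat.card G ≤ N := by
  haveI : Fact (Nat.Prime 2) := ⟨Nat.prime_two⟩
  choose N hN using fun r => key.{u} r a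
  refine ⟨(Finset.range (a + 1)).sup N, fun G _ _ M r P hM hP hdef hE => ?_⟩
  obtain ⟨E, hEP, hEc, hE2, hEcard⟩ := hE
  have hr : r < a + 1 := by
    have h := Subgroup.card_le_of_le hEP
    rw [hEcard, hP] at h
    have := (Nat.pow_le_pow_iff_right (by norm_num : 1 < 2)).mp h
    omega
  refine (hN r G M hM ?_ hdef ⟨E, hEc, hE2, hEcard⟩).trans (Finset.le_sup (Finset.mem_range.mpr hr))
  exact le_of_eq (Nat.pow_right_injective le_rfl (P.card_eq_multiplicity.symm.trans hP))


end Cfsg.Agent.S4719
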