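import Cfsg.Statements.S4720
import Cfsg.Agent.Lib.Blocks.PrincipalOrth
import Cfsg.Agent.Lib.Blocks.SecondMain

set_option autoImplicit false
open Cfsg

namespace Cfsg.Agent.S4720

open CfsgLib.Chars CfsgLib.Blocks

open scoped ComplexConjugate

/-- Let p be a prime, M a maximal ideal of the algebraic integers containing p, P a p-subgroup of the finite group G, N a subgroup with P ≤ N ≤ N_G(P), and U a nonempty subset of P normalized by N such that an element of U and an element of P that are conjugate in G are already conjugate in N, and such that λ(C_G(y)) = w·#C_N(y) for every y ∈ U with one rational number w, where λ(X) denotes the sum of the squares of the degrees of the irreducible characters in the principal p-block of X. For a complex function θ on P and χ in the principal block of G put a_χ(θ) = #P⁻¹ Σ_{y ∈ P} χ(y) θ(y⁻¹). Then for generalized characters θ, η of P with θ vanishing outside U, Σ_χ a_χ(θ)·conj(a_χ(η)) = (w/#P²)·Σ_{y ∈ P} θ(y)·conj(Σ_{x ∈ N} η(x y x⁻¹)) (η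 extended by zero off P; the conjugates lie in P), the first sum over the principal p-block of G. -/
theorem result {G : Type*} [Group G] [Finite G] (p : ℕ) [Fact p.Prime] (M : Ideal Cfsg.AlgInt) (hM : Cfsg.IsPModular p M) (P : Subgroup G) (hP : IsPGroup p P) (N : Subgroup G) (hPN : P ≤ N) (hNN : N ≤ Subgroup.normalizer (P : Set G)) (U : Set G) (hUne : U.Nonempty) (hUP : U ⊆ (P : Set G)) (hUN : ∀ n ∈ N, ∀ u ∈ U, n * u * n⁻¹ ∈ U) (hfus : ∀ u ∈ U, ∀ g : G, g * u * g⁻¹ ∈ (P : Set G) → ∃ n ∈ N, n * u * n⁻¹ = g * u * g⁻¹) (w : ℚ) (hw : ∀ y ∈ U, ((∑ᶠ ψ ∈ Cfsg.principalBlock M ↥(Subgroup.centralizer ({y} : Set G)), Cfsg.charDegree (ψ : ↥(Subgroup.centralizer ({y} : Set G)) → ℂ) ^ 2) : ℚ) = w * Nat.card ↥(N ⊓ Subgroup.centralizer ({y} : Set G))) (θ η : ↥P → ℂ) (hθ : Cfsg.IsGeneralizedCharacter ↥P θ) (hη : Cfsg.IsGeneralizedCharacter ↥P η) (hθU : ∀ y : ↥P, (y : G) ∉ U → θ y = 0) : ∑ᶠ χ ∈ Cfsg.principalBlock M G, ((Nat.card ↥P : ℂ)⁻¹ * ∑ᶠ y : ↥P, (χ : G → ℂ) (y : G) * θ y⁻¹) * (starRingEnd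 ℂ) ((Nat.card ↥P : ℂ)⁻¹ * ∑ᶠ y : ↥P, (χ : G → ℂ) (y : G) * η y⁻¹) = ((w : ℂ) / ((Nat.card ↥P : ℂ) ^ 2)) * ∑ᶠ y : ↥P, θ y * (starRingEnd ℂ) (∑ᶠ x : ↥N, Cfsg.extendByZero P η ((x : G) * (y : G) * (x : G)⁻¹)) := by
  classical
  haveI : Fintype G := Fintype.ofFinite G
  haveI : Fintype P := Fintype.ofFinite P
  haveI : Fintype N := Fintype.ofFinite N
  have hord : ∀ y : P, ∃ k : ℕ, orderOf (y : G) = p ^ k := fun y => by
    obtain ⟨k, hk⟩ := IsPGroup.iff_orderOf.mp hP y
    exact ⟨k, by rw [Subgroup.orderOf_coe, hk]⟩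
  have hpart : ∀ y : P, IsPPart p (y : G) (y : G) := fun y =>
    ⟨1, mul_one _, Commute.one_right _, hord y, not_dvd_orderOf_one hM⟩
  set S := Finset.univ.filter (· ∈ principalBlock M G) with hS
  -- the kernel
  have hK : ∀ y z : P, (y : G) ∈ U → ∑ χ ∈ S, (χ : G → ℂ) (y : G) * conj ((χ : G → ℂ) (z : G)) =
      if IsConj (y : G) (z : G) then
        ((w : ℂ) * (Nat.card ↥(N ⊓ Subgroup.centralizer ({(y : G)} : Set G)) : ℂ)) else 0 := by
    intro y z hy
    split_ifs with hc
    · obtain ⟨k, hk⟩ := hord y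
      haveI : Fintype (Subgroup.centralizer ({(y : G)} : Set G)) := Fintype.ofFinite _
      have h := principal_sec_sq hM hk (C := Subgroup.centralizer ({(y : G)} : Set G))
        (fun g => Subgroup.mem_centralizer_singleton_iff) (y := 1) (not_dvd_orderOf_one hM)
      simp only [Subgroup.coe_one, mul_one] at h
      have hz : ∀ χ : IrrCharacter G, (χ : G → ℂ) (z : G) = (χ : G → ℂ) (y : G) := fun χ => by
        obtain ⟨g, hg⟩ := isConj_iff.mp hc
        rw [← hg, IsCharacter.isClassFunction (isCharacter_irr χ)]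
      simp only [hz]
      refine h.trans ?_
      have hw' := congrArg (fun r : ℚ => (r : ℂ)) (hw _ hy)
      simp only [Rat.cast_mul, Rat.cast_natCast] at hw'
      rw [← hw', finsum_mem_eq_toFinset_sum, ← Set.filter_mem_univ_eq_toFinset, Rat.cast_sum]
      refine Finset.sum_congr (by ext; simp) fun φ _ => ?_
      rw [Rat.cast_pow, Rat.cast_natCast, sq, conj_irr_one, irr_apply_one]
    · rw [← block_orthogonality hM (isPBlock_principalBlock (M := M) (G := G)) (hpart y) (hpart z) hc,
        finsum_mem_eq_toFinset_sum, ← Set.filter_mem_univ_eq_toFinset]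
  -- the orbit sums
  have hN : ∀ y : P, (y : G) ∈ U →
      ∑ᶠ x : N, extendByZero P η ((x : G) * (y : G) * (x : G)⁻¹) = ∑ z : P,
        if IsConj (y : G) (z : G) then
          η z * (Nat.card ↥(N ⊓ Subgroup.centralizer ({(y : G)} : Set G)) : ℂ) else 0 := by
    intro y hy
    let g : N → P := fun x => ⟨(x : G) * (y : G) * (x : G)⁻¹, hUP (hUN _ x.2 _ hy)⟩
    rw [finsum_eq_sum_of_fintype]
    have e : ∀ x : N, extendByZero P η ((x : G) * (y : G) * (x : G)⁻¹) = η (g x) := fun x =>
      extendByZero_coe P η (g x)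
    rw [Finset.sum_congr rfl fun x _ => e x, ← Finset.sum_fiberwise_of_maps_to
      (t := Finset.univ) (g := g) (fun _ _ => Finset.mem_univ _)]
    refine Finset.sum_congr rfl fun z _ => ?_
    rw [Finset.sum_congr rfl fun x hx => congrArg η (Finset.mem_filter.mp hx).2, Finset.sum_const,
      nsmul_eq_mul, mul_comm, ← Fintype.card_subtype, ← Nat.card_eq_fintype_card]
    split_ifs with hc
    · congr 2
      obtain ⟨a, ha⟩ := isConj_iff.mp hc
      obtain ⟨n, hn, hn'⟩ := hfus _ hy a (ha ▸ z.2)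
      rw [ha] at hn'
      refine Nat.card_congr
        { toFun := fun x => ⟨n⁻¹ * (x.1 : G), N.mul_mem (N.inv_mem hn) x.1.2, ?_⟩
          invFun := fun c => ⟨⟨n * (c : G), N.mul_mem hn c.2.1⟩, ?_⟩
          left_inv := fun x => Subtype.ext (Subtype.ext (mul_inv_cancel_left _ _))
          right_inv := fun c => Subtype.ext (inv_mul_cancel_left _ _) }
      · refine Subgroup.mem_centralizer_singleton_iff.mpr ?_
        have h1 : (x.1 : G) * (y : G) * (x.1 : G)⁻¹ = (z : G) := congrArg Subtype.val x.2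
        rw [← hn'] at h1
        calc n⁻¹ * (x.1 : G) * (y : G) = n⁻¹ * ((x.1 : G) * (y : G) * (x.1 : G)⁻¹) * (x.1 : G) := by
              group
          _ = _ := by rw [h1]; group
      · refine Subtype.ext ?_
        change n * (c : G) * (y : G) * (n * (c : G))⁻¹ = (z : G)
        rw [← hn']
        have h1 : (c : G) * (y : G) = (y : G) * (c : G) :=
          Subgroup.mem_centralizer_singleton_iff.mp c.2.2
        rw [mul_assoc n, h1]
        group
    · haveI : IsEmpty {x : N // g x = z} :=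
        ⟨fun x => hc (isConj_iff.mpr ⟨(x.1 : G), congrArg Subtype.val x.2⟩)⟩
      rw [Nat.card_of_isEmpty]
      simp
  -- assemble
  rw [finsum_mem_eq_toFinset_sum, ← Set.filter_mem_univ_eq_toFinset, finsum_eq_sum_of_fintype]
  have hSS : ∀ f : IrrCharacter G → ℂ,
      ∑ χ ∈ Finset.univ.filter (· ∈ principalBlock M G), f χ = ∑ χ ∈ S, f χ := fun f =>
    Finset.sum_congr (by ext; simp [S]) fun _ _ => rfl
  refine (hSS _).trans ?_
  calc _ = ((Nat.card P : ℂ) ^ 2)⁻¹ * ∑ y : P, ∑ z : P, θ y⁻¹ * conj (η z⁻¹) *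
        ∑ χ ∈ S, (χ : G → ℂ) (y : G) * conj ((χ : G → ℂ) (z : G)) := by
        simp only [finsum_eq_sum_of_fintype, map_mul, map_inv₀, map_natCast, map_sum,
          Finset.mul_sum, Finset.sum_mul]
        rw [Finset.sum_comm]
        refine (Finset.sum_congr rfl fun _ _ => Finset.sum_comm).trans (Finset.sum_comm.trans ?_)
        exact Finset.sum_congr rfl fun y _ => Finset.sum_congr rfl fun z _ =>
          Finset.sum_congr rfl fun χ _ => by ring
    _ = _ := by
        rw [div_eq_mul_inv, mul_comm (w : ℂ), mul_assoc]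
        congr 1
        rw [Finset.mul_sum]
        refine Fintype.sum_equiv (Equiv.inv P) _ _ fun y => ?_
        simp only [Equiv.inv_apply]
        by_cases hy : ((y⁻¹ : P) : G) ∈ U
        · rw [hN _ hy, map_sum, Finset.mul_sum, Finset.mul_sum]
          refine Fintype.sum_equiv (Equiv.inv P) _ _ fun z => ?_
          simp only [Equiv.inv_apply]
          have e : ∑ χ ∈ S, (χ : G → ℂ) (y : G) * conj ((χ : G → ℂ) (z : G)) =
              conj (∑ χ ∈ S, (χ : G → ℂ) ((y⁻¹ : P) : G) * conj ((χ : G → ℂ) ((z⁻¹ : P) : G))) := by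
            rw [map_sum]
            refine Finset.sum_congr rfl fun χ _ => ?_
            rw [map_mul, Subgroup.coe_inv, Subgroup.coe_inv, IsCharacter.map_inv (isCharacter_irr χ),
              IsCharacter.map_inv (isCharacter_irr χ), Complex.conj_conj, Complex.conj_conj]
          rw [e, hK _ _ hy]
          split_ifs
          · rw [map_mul, map_mul, map_natCast, map_ratCast]; ring
          · simp
        · rw [hθU _ hy]
          simp

end Cfsg.Agent.S4720
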