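import Cfsg.Statements.S4721
import Cfsg.Agent.Lib.Blocks.FrobeniusInvolution

set_option autoImplicit false
open Cfsg

namespace Cfsg.Agent.S4721

/-- Let p be a prime, M a maximal ideal of the algebraic integers containing p, and G a finite group with a nontrivial abelian Sylow p-subgroup P, N = N_G(P), C = C_G(P), such that N/C is cyclic of order 3, #P > 4, and C_G(y) ∩ N = C for every non-identity y ∈ P. Then the principal p-block is the disjoint union of a set X of exactly 3 characters containing the principal character and a set Y of (#P − 1)/3 characters, with signs a_χ = ±1 (χ ∈ X, a = 1 at the principal character) and δ = ±1 such that every χ ∈ X takes the value a_χ at every element whose p-part is a non-identity element of P, and there is a map ζ from the non-principal linear characters of P onto Y, constant on N-conjugacy classes, with ζ_ψ(z) = δ·Σ ψ'(y) over the N-orbit of ψ, for z with p-part y ≠ 1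 in P. If moreover G has an involution lying in no proper normal subgroup of G, then exactly two of the three numbers −δ and a_χ (χ ∈ X non-principal) equal −1, and the product of the degrees of the two non-principal members of X and of any member of Y is a perfect square. -/
theorem result {G : Type*} [Group G] [Finite G] (p : ℕ) [Fact p.Prime] (M : Ideal Cfsg.AlgInt) (hM : Cfsg.IsPModular p M) (P : Sylow p G) (hab : IsMulCommutative P) (hP1 : Nat.card P ≠ 1) (hCN : (Subgroup.centralizer ((P : Subgroup G) : Set G)).relIndex (Subgroup.normalizer ((P : Subgroup G) : Set G)) = 3) (hcyc : ∃ g : G, g ∈ Subgroup.normalizer ((P : Subgroup G) : Set G) ∧ Subgroup.centralizer ((P : Subgroup G) : Set G) ⊔ Subgroup.zpowers g = Subgroup.normalizer ((P : Subgroup G) : Set G)) (hm2 : 3 + 1 < Nat.card P) (hfrob : ∀ y : G, y ∈ (P : Subgroup G) → y ≠ 1 → Subgroup.centralizer ({y} : Set G) ⊓ Subgroup.normalizer ((P : Subgroup G)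 : Set G) = Subgroup.centralizer ((P : Subgroup G) : Set G)) : ∃ (X Y : Set (Cfsg.IrrCharacter G)), Cfsg.principalBlock M G = X ∪ Y ∧ Disjoint X Y ∧ Nat.card X = 3 ∧ Nat.card Y = (Nat.card P - 1) / 3 ∧ (∃ χ₁ ∈ X, (χ₁ : G → ℂ) = fun _ => 1) ∧ ∃ (a : Cfsg.IrrCharacter G → ℤ) (δ : ℤ) (ζ : (↥(P : Subgroup G) →* ℂˣ) → Cfsg.IrrCharacter G), (δ = 1 ∨ δ = -1) ∧ (∀ χ ∈ X, (a χ = 1 ∨ a χ = -1) ∧ ∀ z y : G, Cfsg.IsPPart p z y → y ∈ (P : Subgroup G) → y ≠ 1 → (χ : G → ℂ) z = (a χ : ℂ)) ∧ (∀ ψ : ↥(P : Subgroup G) →* ℂˣ, ψ ≠ 1 → ζ ψ ∈ Y) ∧ (∀ η ∈ Y, ∃ ψ : ↥(P : Subgroup G) →* ℂˣ, ψ ≠ 1 ∧ ζ ψ = η) ∧ (∀ ψ ψ' : ↥(P : Subgroup G) →* ℂˣ, ψ ≠ 1 → (∃ n : G, n ∈ Subgroup.normalizer ((P : Subgroup G) : Set G) ∧ ∀ w w' : ↥(P : Subgroup G), (w' : G) = n * w * n⁻¹ → ψ' w' = ψ w) → ζ ψ' = ζ ψ) ∧ (∀ ψ : ↥(P : Subgroup G) →* ℂˣ, ψ ≠ 1 → ∀ (z : G) (y : ↥(P : Subgroup G)), Cfsg.IsPPart p z (y : G) → (y : G) ≠ 1 → (ζ ψ : G → ℂ) z = (δ : ℂ) *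 ∑ᶠ ψ' ∈ {ψ' : ↥(P : Subgroup G) →* ℂˣ | ∃ n : G, n ∈ Subgroup.normalizer ((P : Subgroup G) : Set G) ∧ ∀ w w' : ↥(P : Subgroup G), (w' : G) = n * w * n⁻¹ → ψ' w' = ψ w}, ((ψ' y : ℂˣ) : ℂ)) ∧ ((∃ t : G, orderOf t = 2 ∧ ∀ K : Subgroup G, K.Normal → t ∈ K → K = ⊤) → Nat.card {χ : Cfsg.IrrCharacter G // χ ∈ X ∧ (χ : G → ℂ) ≠ (fun _ => 1) ∧ a χ = -1} + (if δ = 1 then 1 else 0) = 2 ∧ ∀ η ∈ Y, IsSquare (Cfsg.charDegree (η : G → ℂ) * ∏ᶠ χ ∈ {χ : Cfsg.IrrCharacter G | χ ∈ X ∧ (χ : G → ℂ) ≠ fun _ => 1}, Cfsg.charDegree (χ : G → ℂ))) := by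
  classical
  haveI : Fintype G := Fintype.ofFinite G
  haveI : IsMulCommutative (P : Subgroup G) := hab
  have hm := CfsgLib.Blocks.FS.card_autGroup.trans hCN
  obtain ⟨D⟩ := CfsgLib.Blocks.FS.nonempty_shape hM hab hfrob hP1 hm hm2
  obtain ⟨hd0, hsgn, hX3⟩ := CfsgLib.Blocks.FS.three_shape D hM
  have ht : (Nat.card P - 1) / 3 = Nat.card D.Y := by
    rw [show Nat.card P = _ from D.card_mul, Nat.add_sub_cancel, Nat.mul_div_cancel_left _ (by omega)]
  refine ⟨D.X, D.Y, D.union_eq, D.disjoint, hX3, ht.symm,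
    ⟨_, D.triv_mem, rfl⟩, D.a, D.δ, D.ζ, D.sign, fun χ hχ => ⟨hsgn χ hχ, D.valueX χ hχ⟩,
    D.ζ_mem, D.ζ_surj, D.ζ_orbit, ?_, ?_⟩
  · intro ψ hψ z y hz hy
    rw [D.valueY ψ hψ z y hz hy, hd0, Int.cast_zero, zero_add]
    rfl
  · rintro ⟨t, ht2, hgen⟩
    obtain ⟨χ₁, χ₂, h12, hn1, hn2, hmem, hcount, hsq⟩ :=
      CfsgLib.Blocks.FS.three_involution D hM hfrob hm (by omega) ht2 hgen
    have hne : ∀ χ : Cfsg.IrrCharacter G,
        (χ : G → ℂ) ≠ (fun _ => 1) ↔ χ ≠ CfsgLib.Blocks.trivIrr G := fun χ =>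
      not_congr ⟨fun h => Subtype.ext h, fun h => by rw [h]; rfl⟩
    have hset : {χ : Cfsg.IrrCharacter G | χ ∈ D.X ∧ (χ : G → ℂ) ≠ fun _ => 1} = {χ₁, χ₂} := by
      ext χ
      simp only [Set.mem_ofPred_eq, hmem, hne, Set.mem_insert_iff, Set.mem_singleton_iff]
      constructor
      · rintro ⟨h | h, hχ⟩
        · exact absurd h hχ
        · exact h
      · rintro (rfl | rfl)
        · exact ⟨Or.inr (Or.inl rfl), hn1⟩
        · exact ⟨Or.inr (Or.inr rfl), hn2⟩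
    refine ⟨?_, fun η hη => ?_⟩
    · convert hcount using 2
      rw [Nat.card_eq_fintype_card, Fintype.card_subtype]
      rw [show Finset.univ.filter (fun χ : Cfsg.IrrCharacter G =>
          χ ∈ D.X ∧ (χ : G → ℂ) ≠ (fun _ => 1) ∧ D.a χ = -1) =
          ({χ₁, χ₂} : Finset _).filter (fun χ => D.a χ = -1) from ?_]
      · rw [Finset.card_filter, Finset.sum_pair h12]
      · ext χ
        have := Set.ext_iff.mp hset χ
        simp only [Set.mem_ofPred_eq, Set.mem_insert_iff, Set.mem_singleton_iff] at this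
        simp only [Finset.mem_filter, Finset.mem_univ, true_and, Finset.mem_insert, Finset.mem_singleton,
          ← this, and_assoc]
    · rw [hset, finprod_mem_pair h12]
      exact hsq η hη


end Cfsg.Agent.S4721
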