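import Cfsg.Statements.S4722
import Cfsg.Agent.Lib.Blocks.PrincipalOrth
import Cfsg.Agent.Lib.Blocks.SecondMain
import Cfsg.Agent.Lib.Chars.Kernel
import Cfsg.Agent.Lib.Chars.Induced

set_option autoImplicit false
open Cfsg

namespace Cfsg.Agent.S4722

open CfsgLib.Chars CfsgLib.Blocks

open scoped ComplexConjugate

universe u

variable {G : Type u} [Group G] {M : Ideal AlgInt}

/-- No conjugate of `t` inverts `u`. -/
def NotInverted (t u : G) : Prop := ∀ g : G, (g * t * g⁻¹) * u * (g * t * g⁻¹)⁻¹ ≠ u⁻¹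

variable [Fintype G]

/-- Vanishing of the square sum on a section free of inverting involutions. -/
theorem sum_sq_all_eq_zero {t : G} (ht : orderOf t = 2) {v : G} (hv : NotInverted t v) :
    ∑ χ : IrrCharacter G, (χ : G → ℂ) t ^ 2 / (χ : G → ℂ) 1 * (χ : G → ℂ) v = 0 := by
  classical
  have hconv : CfsgLib.Chars.conv (classInd t) (classInd t) v⁻¹ = 0 := by
    refine Finset.sum_eq_zero fun y _ => ?_
    by_cases h1 : IsConj t y
    swap
    · simp only [classInd, if_neg h1, zero_mul]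
    by_cases h2 : IsConj t (y⁻¹ * v⁻¹)
    swap
    · simp only [classInd, if_neg h2, mul_zero]
    exfalso
    obtain ⟨g, hg⟩ := isConj_iff.mp h1
    obtain ⟨g', hg'⟩ := isConj_iff.mp h2
    have htt : t * t = 1 := by rw [← sq, ← ht, pow_orderOf_eq_one]
    have hy : y⁻¹ = y := inv_eq_of_mul_eq_one_right (by rw [← hg]; simp [mul_assoc, ← mul_assoc t t, htt])
    have hz : (y⁻¹ * v⁻¹)⁻¹ = y⁻¹ * v⁻¹ :=
      inv_eq_of_mul_eq_one_right (by rw [← hg']; simp [mul_assoc, ← mul_assoc t t, htt])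
    apply hv g
    rw [hg, hy]
    rw [mul_inv_rev, inv_inv, inv_inv] at hz
    calc y * v * y = y * (v * y) := mul_assoc _ _ _
      _ = v⁻¹ := by rw [hz, mul_inv_cancel_left]
  have e : classInd t = coeffFun (fun χ : IrrCharacter G => centralChar (χ : G → ℂ) t) := by
    refine Eq.trans (coeffFun_omega (classInd_isClassFunction t)).symm ?_
    congr 1
    funext χ
    exact omega_classInd (IsCharacter.isClassFunction (isCharacter_irr χ)) t
  rw [e, ← coeffFun_mul, coeffFun, mul_eq_zero] at hconv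
  have h := hconv.resolve_left (inv_ne_zero (natCast_card_ne_zero G))
  set i := ((Subgroup.centralizer ({t} : Set G)).index : ℂ)
  have hi : i ≠ 0 := Nat.cast_ne_zero.mpr Subgroup.index_ne_zero_of_finite
  refine (mul_eq_zero.mp ?_).resolve_left (pow_ne_zero 2 hi)
  rw [← h, Finset.mul_sum]
  refine Finset.sum_congr rfl fun χ _ => ?_
  rw [IsCharacter.map_inv (isCharacter_irr χ), Complex.conj_conj]
  simp only [Pi.mul_apply, centralChar, i]
  field_simp [irr_one_ne_zero χ]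

theorem isPPart_self {P : Subgroup G} (hM : IsPModular 2 M) (hP : IsPGroup 2 P) (y : P) :
    ∃ k : ℕ, orderOf (y : G) = 2 ^ k ∧ IsPPart 2 (y : G) (y : G) := by
  obtain ⟨k, hk⟩ := IsPGroup.iff_orderOf.mp hP y
  have hk' : orderOf (y : G) = 2 ^ k := by rw [Subgroup.orderOf_coe, hk]
  exact ⟨k, hk', 1, mul_one _, Commute.one_right _, ⟨k, hk'⟩, not_dvd_orderOf_one hM⟩

theorem orth_one {P : Subgroup G} (hM : IsPModular 2 M) (hP : IsPGroup 2 P) {t : G}
    (ht : orderOf t = 2) {y : P} (hy : NotInverted t (y : G))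
    [DecidablePred (· ∈ principalBlock M G)] :
    (∑ χ ∈ Finset.univ.filter (· ∈ principalBlock M G),
      (χ : G → ℂ) (y : G) * (χ : G → ℂ) 1 = 0) ∧
    ∑ χ ∈ Finset.univ.filter (· ∈ principalBlock M G),
      (χ : G → ℂ) (y : G) * (χ : G → ℂ) t = 0 := by
  classical
  obtain ⟨k, -, hyp⟩ := isPPart_self hM hP y
  constructor
  · have hne : ¬ IsConj (y : G) 1 := fun h => hy 1 (by
      obtain ⟨g, hg⟩ := isConj_iff.mp h
      have : (y : G) = 1 := by simpa using hg
      simp [this])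
    have h := block_orthogonality hM (isPBlock_principalBlock (M := M) (G := G)) hyp
      (⟨1, mul_one _, Commute.one_right _, ⟨0, by simp⟩, not_dvd_orderOf_one hM⟩ :
        IsPPart 2 (1 : G) 1) hne
    rw [finsum_mem_eq_toFinset_sum, ← Set.filter_mem_univ_eq_toFinset] at h
    rw [← h]
    exact Finset.sum_congr (by ext; simp) fun χ _ => by rw [conj_irr_one]
  · have hne : ¬ IsConj (y : G) t := by
      intro h
      obtain ⟨g, hg⟩ := isConj_iff.mp h.symm
      apply hy g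
      have htt : t * t = 1 := by rw [← sq, ← ht, pow_orderOf_eq_one]
      rw [hg, ← hg]
      simp [mul_assoc, inv_eq_self_of_orderOf_eq_two ht, ← mul_assoc t t, htt]
    have h := block_orthogonality hM (isPBlock_principalBlock (M := M) (G := G)) hyp
      (⟨1, mul_one _, Commute.one_right _, ⟨1, by simpa using ht⟩, not_dvd_orderOf_one hM⟩ :
        IsPPart 2 t t) hne
    rw [finsum_mem_eq_toFinset_sum, ← Set.filter_mem_univ_eq_toFinset] at h
    rw [← h]
    refine Finset.sum_congr (by ext; simp) fun χ _ => ?_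
    congr 1
    rw [← IsCharacter.map_inv (isCharacter_irr χ), inv_eq_self_of_orderOf_eq_two ht]

theorem sum_sq_eq_zero {P : Subgroup G} (hM : IsPModular 2 M) (hP : IsPGroup 2 P) {t : G}
    (ht : orderOf t = 2) {y : P} (hy : NotInverted t (y : G))
    [DecidablePred (· ∈ principalBlock M G)] :
    ∑ χ ∈ Finset.univ.filter (· ∈ principalBlock M G),
      (χ : G → ℂ) t ^ 2 / (χ : G → ℂ) 1 * (χ : G → ℂ) (y : G) = 0 := by
  classical
  obtain ⟨k, hk, -⟩ := isPPart_self hM hP y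
  set C := Subgroup.centralizer ({(y : G)} : Set G)
  haveI : Fintype C := Fintype.ofFinite C
  haveI : Fintype (Set (IrrCharacter C)) := Fintype.ofFinite _
  have hC : ∀ g, g ∈ C ↔ Commute g (y : G) := fun g => Subgroup.mem_centralizer_singleton_iff
  set h : C → ℂ := fun c =>
    ∑ χ : IrrCharacter G, (χ : G → ℂ) t ^ 2 / (χ : G → ℂ) 1 * secFun C (y : G) (χ : G → ℂ) c
  have hh : IsClassFunction C h := fun a b => Finset.sum_congr rfl fun χ _ => by
    rw [secFun_isClassFunction hC χ a b]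
  have h0 : ∀ c, ¬ 2 ∣ orderOf c → h c = 0 := by
    intro c hc
    refine sum_sq_all_eq_zero ht fun g he => hy g ?_
    obtain ⟨j, hj⟩ := pPart_eq_pow hM.1 (g := (y : G) * (c : G)) rfl ((hC _).mp c.2).symm ⟨k, hk⟩
      (by rwa [Subgroup.orderOf_coe])
    conv_lhs => rw [hj, ← conj_pow, he, inv_pow, ← hj]
  have h1 := blockPart_eq_zero_of_regular hM (isPBlock_principalBlock (M := M)) hh h0
    (y := (1 : C)) (not_dvd_orderOf_one hM)
  simp only [h] at h1
  rw [blockPart_sum] at h1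
  rw [← h1, Finset.sum_filter]
  refine Finset.sum_congr rfl fun χ _ => ?_
  have hind := principal_induced (M := M) hM hk hC
  split_ifs with hχ
  · congr 1
    have hdec := sec_decomp hM hk hC (B := principalBlock M G) isPBlock_principalBlock hχ
      (y := (1 : C)) (not_dvd_orderOf_one hM)
    rw [Subgroup.coe_one, mul_one] at hdec
    rw [hdec, Finset.sum_eq_single (principalBlock M C)]
    · intro b hb hne
      exact absurd ((induced_principal_iff hM (Finset.mem_filter.mp hb).2).mp rfl) hne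
    · intro h'
      exact absurd (Finset.mem_filter.mpr ⟨Finset.mem_univ (principalBlock M C), hind⟩) h'
  · rw [secPart_eq_zero hM hk hC isPBlock_principalBlock (isPBlock_blockOf χ) (fun hi => hχ ?_)
      (self_mem_blockOf hM χ) (not_dvd_orderOf_one hM), mul_zero]
    have h2 := self_mem_blockOf hM χ
    rwa [(induced_principal_iff hM hi).mpr rfl] at h2

/-- The coefficients are rational integers. -/
theorem exists_int_coeff {P : Subgroup G} [Fintype P] {θ : P → ℂ}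
    (hθ : IsGeneralizedCharacter P θ) (χ : IrrCharacter G) :
    ∃ z : ℤ, (Nat.card P : ℂ)⁻¹ * ∑ y : P, (χ : G → ℂ) (y : G) * θ y⁻¹ = (z : ℂ) := by
  obtain ⟨ψ₁, ψ₂, h₁, h₂, rfl⟩ := hθ
  have hres : IsCharacter P (fun y : P => (χ : G → ℂ) (y : G)) :=
    IsCharacter.restrict (isCharacter_irr χ) P
  obtain ⟨m₁, e₁⟩ := exists_mult_character hres h₁
  obtain ⟨m₂, e₂⟩ := exists_mult_character hres h₂
  refine ⟨(m₁ : ℤ) - m₂, ?_⟩
  push_cast
  rw [← e₁, ← e₂, classInner, classInner, ← mul_sub, ← Finset.sum_sub_distrib]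
  congr 1
  refine Finset.sum_congr rfl fun y _ => ?_
  rw [Pi.sub_apply, IsCharacter.map_inv h₁, IsCharacter.map_inv h₂, mul_sub]

/-- Equality in the Cauchy-Schwarz inequality with one positive term. -/
theorem ratio_const {ι : Type*} (S : Finset ι) (d v w : ι → ℝ) (hd : ∀ i ∈ S, 0 < d i)
    (h1 : ∑ i ∈ S, w i * d i = 0) (h2 : ∑ i ∈ S, w i * v i = 0)
    (h3 : ∑ i ∈ S, w i * (v i ^ 2 / d i) = 0)
    (hS : (S.filter fun i => 0 < w i).card ≤ 1) :
    ∀ i ∈ S, w i ≠ 0 → ∀ j ∈ S, w j ≠ 0 → v i * d j = v j * d i := by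
  classical
  intro i hi hwi j hj hwj
  obtain ⟨φ, hφ, hφw⟩ : ∃ φ ∈ S, 0 < w φ := by
    by_contra hno
    push Not at hno
    exact mul_ne_zero hwi (hd i hi).ne' ((Finset.sum_eq_zero_iff_of_nonpos fun k hk =>
      mul_nonpos_of_nonpos_of_nonneg (hno k hk) (hd k hk).le).mp h1 i hi)
  set r := v φ / d φ
  have hzero : ∑ k ∈ S, w k * ((v k - r * d k) ^ 2 / d k) = 0 := by
    have e : ∀ k ∈ S, w k * ((v k - r * d k) ^ 2 / d k) =
        w k * (v k ^ 2 / d k) - 2 * r * (w k * v k) + r ^ 2 * (w k * d k) := fun k hk => by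
      have := (hd k hk).ne'
      field_simp
      ring
    rw [Finset.sum_congr rfl e, Finset.sum_add_distrib, Finset.sum_sub_distrib, ← Finset.mul_sum,
      ← Finset.mul_sum, h1, h2, h3]
    ring
  have hnp : ∀ k ∈ S, w k * ((v k - r * d k) ^ 2 / d k) ≤ 0 := by
    intro k hk
    rcases le_or_gt (w k) 0 with h | h
    · exact mul_nonpos_of_nonpos_of_nonneg h (div_nonneg (sq_nonneg _) (hd k hk).le)
    · obtain rfl : k = φ := Finset.card_le_one.mp hS k (Finset.mem_filter.mpr ⟨hk, h⟩) φ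
        (Finset.mem_filter.mpr ⟨hφ, hφw⟩)
      have : v k - r * d k = 0 := by simp only [r]; field_simp [(hd k hk).ne']; ring
      rw [this]
      simp
  have hall := (Finset.sum_eq_zero_iff_of_nonpos hnp).mp hzero
  have key : ∀ k ∈ S, w k ≠ 0 → v k = r * d k := by
    intro k hk hwk
    have h := (mul_eq_zero.mp (hall k hk)).resolve_left hwk
    rw [div_eq_zero_iff] at h
    exact sub_eq_zero.mp (sq_eq_zero_iff.mp (h.resolve_right (hd k hk).ne'))
  rw [key i hi hwi, key j hj hwj]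
  ring

/-- Let M be a maximal ideal of the algebraic integers containing 2, P a 2-subgroup of the finite group G, U a subset of P, and t an involution of G such that no element of U is inverted by any conjugate of t. Let θ be a generalized character of P vanishing outside U, and for χ in the principal 2-block B₀ put a_χ = #P⁻¹ Σ_{y ∈ P} χ(y) θ(y⁻¹). Then Σ_{χ ∈ B₀} a_χ χ(t)^2/χ(1) = 0, Σ_{χ ∈ B₀} a_χ χ(1) = 0 and Σ_{χ ∈ B₀} a_χ χ(t) = 0. If moreover #P⁻¹ Σ_{y ∈ P} θ(y) ≠ 0, then either at least two of the a_χ have positive real part and at least two have negative real part, or G has a proper normal subgroup containing O_2'(G) and t. -/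
theorem result {G : Type*} [Group G] [Finite G] (M : Ideal Cfsg.AlgInt) (hM : Cfsg.IsPModular 2 M) (P : Subgroup G) (hP : IsPGroup 2 P) (U : Set G) (hUP : U ⊆ (P : Set G)) (t : G) (ht : orderOf t = 2) (hinv : ∀ u ∈ U, ∀ g : G, (g * t * g⁻¹) * u * (g * t * g⁻¹)⁻¹ ≠ u⁻¹) (θ : ↥P → ℂ) (hθ : Cfsg.IsGeneralizedCharacter ↥P θ) (hθU : ∀ y : ↥P, (y : G) ∉ U → θ y = 0) : (∑ᶠ χ ∈ Cfsg.principalBlock M G, ((Nat.card ↥P : ℂ)⁻¹ * ∑ᶠ y : ↥P, (χ : G → ℂ) (y : G) * θ y⁻¹) * (χ : G → ℂ) t ^ 2 / (χ : G → ℂ) 1 = 0) ∧ (∑ᶠ χ ∈ Cfsg.principalBlock M G, ((Nat.card ↥P : ℂ)⁻¹ * ∑ᶠ y : ↥P, (χ : G → ℂ) (y : G) * θ y⁻¹) * (χ : G → ℂ) 1 = 0) ∧ (∑ᶠ χ ∈ Cfsg.principalBlock M G, ((Nat.card ↥P : ℂ)⁻¹ * ∑ᶠ y : ↥P, (χ : G → ℂ) (y : G) * θ y⁻¹) * (χ : G → ℂ) t = 0) ∧ ((Nat.card ↥P : ℂ)⁻¹ * ∑ᶠ y : ↥P, θ y ≠ 0 → (2 ≤ Nat.card {χ : Cfsg.IrrCharacter G // χ ∈ Cfsg.principalBlock M G ∧ 0 < (((Nat.card ↥P : ℂ)⁻¹ * ∑ᶠ y : ↥P, (χ : G → ℂ) (y : G) * θ y⁻¹)).re} ∧ 2 ≤ Nat.card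 {χ : Cfsg.IrrCharacter G // χ ∈ Cfsg.principalBlock M G ∧ (((Nat.card ↥P : ℂ)⁻¹ * ∑ᶠ y : ↥P, (χ : G → ℂ) (y : G) * θ y⁻¹)).re < 0}) ∨ ∃ K : Subgroup G, K.Normal ∧ K ≠ ⊤ ∧ Cfsg.pPrimeCore 2 G ≤ K ∧ t ∈ K) := by
  classical
  haveI : Fintype G := Fintype.ofFinite G
  haveI : Fintype P := Fintype.ofFinite P
  set S := Finset.univ.filter (· ∈ principalBlock M G) with hS
  set a : IrrCharacter G → ℂ := fun χ => (Nat.card P : ℂ)⁻¹ * ∑ y : P, (χ : G → ℂ) (y : G) * θ y⁻¹
    with ha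
  have hinv2 : ∀ y : P, θ y⁻¹ ≠ 0 → NotInverted t (y : G) := by
    intro y hy g he
    by_cases hU : ((y⁻¹ : P) : G) ∈ U
    · refine hinv _ hU g ?_
      simp only [Subgroup.coe_inv, inv_inv]
      have h := congrArg (·⁻¹) he
      simpa [mul_assoc] using h
    · exact hy (hθU _ hU)
  have hsum : ∀ f : IrrCharacter G → ℂ,
      (∀ y : P, θ y⁻¹ ≠ 0 → ∑ χ ∈ S, (χ : G → ℂ) (y : G) * f χ = 0) →
      ∑ χ ∈ S, a χ * f χ = 0 := by
    intro f hf
    simp only [ha, Finset.mul_sum, Finset.sum_mul]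
    rw [Finset.sum_comm]
    refine Finset.sum_eq_zero fun y _ => ?_
    by_cases hy : θ y⁻¹ = 0
    · exact Finset.sum_eq_zero fun χ _ => by rw [hy]; ring
    · have h := congrArg (fun z => (Nat.card P : ℂ)⁻¹ * θ y⁻¹ * z) (hf y hy)
      simp only [Finset.mul_sum, mul_zero] at h
      rw [← h]
      exact Finset.sum_congr rfl fun χ _ => by ring
  have horth := fun y hy => orth_one hM hP ht (y := y) (hinv2 y hy)
  have h1 : ∑ χ ∈ S, a χ * (χ : G → ℂ) 1 = 0 := hsum _ fun y hy => (horth y hy).1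
  have h2 : ∑ χ ∈ S, a χ * (χ : G → ℂ) t = 0 := hsum _ fun y hy => (horth y hy).2
  have h3 : ∑ χ ∈ S, a χ * ((χ : G → ℂ) t ^ 2 / (χ : G → ℂ) 1) = 0 := hsum _ fun y hy => by
    refine (Finset.sum_congr rfl fun χ _ => ?_).trans (sum_sq_eq_zero hM hP ht (hinv2 y hy))
    ring
  have hfin : ∀ χ : IrrCharacter G,
      (Nat.card P : ℂ)⁻¹ * ∑ᶠ y : P, (χ : G → ℂ) (y : G) * θ y⁻¹ = a χ := fun χ => by
    rw [finsum_eq_sum_of_fintype]
  simp only [hfin]
  rw [finsum_mem_eq_toFinset_sum, finsum_mem_eq_toFinset_sum, finsum_mem_eq_toFinset_sum,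
    ← Set.filter_mem_univ_eq_toFinset]
  have hSS : Finset.univ.filter (· ∈ principalBlock M G) = S := by ext; simp [hS]
  simp only [hSS]
  refine ⟨?_, h1, h2, fun hne => ?_⟩
  · rw [← h3]
    exact Finset.sum_congr rfl fun χ _ => by ring
  have hint := exists_int_coeff hθ
  choose z hz using hint
  have haz : ∀ χ : IrrCharacter G, a χ = (z χ : ℂ) := fun χ => hz χ
  have hz1 : z (trivIrr G) ≠ 0 := by
    intro h
    apply hne
    have h4 := haz (trivIrr G)
    rw [h, Int.cast_zero] at h4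
    rw [← h4, ha, finsum_eq_sum_of_fintype]
    congr 1
    refine Fintype.sum_equiv (Equiv.inv P) _ _ fun y => ?_
    simp [trivIrr]
  have hT := (self_mem_blockOf hM (trivIrr G) : trivIrr G ∈ principalBlock M G)
  -- real versions
  set d : IrrCharacter G → ℝ := fun χ => (charDegree (χ : G → ℂ) : ℝ)
  set v : IrrCharacter G → ℝ := fun χ => ((χ : G → ℂ) t).re
  have hv : ∀ χ : IrrCharacter G, (χ : G → ℂ) t = (v χ : ℂ) := fun χ => by
    have h := IsCharacter.map_inv (isCharacter_irr χ) t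
    rw [inv_eq_self_of_orderOf_eq_two ht] at h
    exact (Complex.conj_eq_iff_re.mp h.symm).symm
  have hd : ∀ χ : IrrCharacter G, (χ : G → ℂ) 1 = (d χ : ℂ) := fun χ => by
    rw [irr_apply_one]; simp [d]
  simp only [haz, hd, hv] at h1 h2 h3
  have e1 : ∑ χ ∈ S, (z χ : ℝ) * d χ = 0 := by exact_mod_cast h1
  have e2 : ∑ χ ∈ S, (z χ : ℝ) * v χ = 0 := by exact_mod_cast h2
  have e3 : ∑ χ ∈ S, (z χ : ℝ) * (v χ ^ 2 / d χ) = 0 := by exact_mod_cast h3
  have hK : ∀ χ : IrrCharacter G, χ ∈ principalBlock M G → χ ≠ trivIrr G →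
      v χ = d χ → ∃ K : Subgroup G, K.Normal ∧ K ≠ ⊤ ∧ pPrimeCore 2 G ≤ K ∧ t ∈ K := by
    intro χ hχ hne1 he
    obtain ⟨K, hKn, hKm, -⟩ := IsCharacter.exists_kernel (isCharacter_irr χ)
    refine ⟨K, hKn, fun htop => hne1 ?_, fun g hg => ?_, (hKm t).mpr (by rw [hv, hd, he])⟩
    · have hall : ∀ g, (χ : G → ℂ) g = (χ : G → ℂ) 1 := fun g => (hKm g).mp (by simp [htop])
      by_contra hne2
      have h4 := classInner_irr χ (trivIrr G)
      rw [if_neg hne2, classInner] at h4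
      simp only [hall, trivIrr, map_one, mul_one, Finset.sum_const, nsmul_eq_mul, Finset.card_univ] at h4
      exact mul_ne_zero (inv_ne_zero (natCast_card_ne_zero G))
        (mul_ne_zero (Nat.cast_ne_zero.mpr Fintype.card_ne_zero) (irr_one_ne_zero χ)) h4
    · haveI : (pPrimeCore 2 G).Normal := by
        haveI := CfsgLib.Core.pPrimeCore_characteristic (G := G) 2
        infer_instance
      have h := principal_apply_mul hM hχ (pPrimeCore 2 G) (CfsgLib.Core.card_pPrimeCore_coprime 2) hg 1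
      rw [mul_one] at h
      exact (hKm g).mpr h
  have hd0 : ∀ χ : IrrCharacter G, 0 < d χ := fun χ => Nat.cast_pos.mpr (charDegree_pos χ)
  have hT' : trivIrr G ∈ S := Finset.mem_filter.mpr ⟨Finset.mem_univ _, hT⟩
  have hv1 : v (trivIrr G) = d (trivIrr G) := by
    have h4 := hv (trivIrr G)
    have h5 := hd (trivIrr G)
    simp only [trivIrr] at h4 h5 ⊢
    exact_mod_cast (h4.symm.trans h5)
  have hzre : ∀ χ : IrrCharacter G, (a χ).re = (z χ : ℝ) := fun χ => by rw [haz]; simp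
  by_cases hcount : 2 ≤ (S.filter fun χ => 0 < (z χ : ℝ)).card ∧ 2 ≤ (S.filter fun χ => (z χ : ℝ) < 0).card
  · refine Or.inl ⟨?_, ?_⟩
    · refine hcount.1.trans (le_of_eq ?_)
      rw [Nat.card_eq_fintype_card, Fintype.card_subtype, hS, Finset.filter_filter]
      congr 1
      ext χ; simp [hzre]
    · refine hcount.2.trans (le_of_eq ?_)
      rw [Nat.card_eq_fintype_card, Fintype.card_subtype, hS, Finset.filter_filter]
      congr 1
      ext χ; simp [hzre]
  · right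
    rw [not_and_or, not_le, not_le] at hcount
    obtain ⟨w, hw1, hw2, hw3, hwT, hwS⟩ : ∃ w : IrrCharacter G → ℝ, ∑ χ ∈ S, w χ * d χ = 0 ∧
        ∑ χ ∈ S, w χ * v χ = 0 ∧ ∑ χ ∈ S, w χ * (v χ ^ 2 / d χ) = 0 ∧ w (trivIrr G) ≠ 0 ∧
        (S.filter fun χ => 0 < w χ).card ≤ 1 := by
      rcases hcount with h | h
      · exact ⟨fun χ => (z χ : ℝ), e1, e2, e3, Int.cast_ne_zero.mpr hz1, Nat.le_of_lt_succ h⟩
      · refine ⟨fun χ => -(z χ : ℝ), ?_, ?_, ?_, neg_ne_zero.mpr (Int.cast_ne_zero.mpr hz1), ?_⟩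
        · simp only [neg_mul, Finset.sum_neg_distrib, e1, neg_zero]
        · simp only [neg_mul, Finset.sum_neg_distrib, e2, neg_zero]
        · simp only [neg_mul, Finset.sum_neg_distrib, e3, neg_zero]
        · simp only [neg_pos]; omega
    have hneg : ∃ χ ∈ S, χ ≠ trivIrr G ∧ w χ ≠ 0 := by
      by_contra h
      push Not at h
      rw [Finset.sum_eq_single (trivIrr G) (fun χ hχ hne2 => by rw [h χ hχ hne2, zero_mul])
        (fun h' => absurd hT' h')] at hw1
      exact mul_ne_zero hwT (hd0 _).ne' hw1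
    obtain ⟨χ, hχ, hχ1, hχw⟩ := hneg
    refine hK χ (Finset.mem_filter.mp hχ).2 hχ1 ?_
    have hconst := ratio_const S d v w (fun x _ => hd0 x) hw1 hw2 hw3 hwS
    have := hconst χ hχ hχw (trivIrr G) hT' hwT
    rw [hv1] at this
    exact mul_right_cancel₀ (hd0 (trivIrr G)).ne' (this.trans (mul_comm _ _))

end Cfsg.Agent.S4722
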