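import Cfsg.Statements.S4725
import Cfsg.Agent.Lib.Blocks.SecondVanish
import Cfsg.Agent.Lib.Blocks.Orth
import Cfsg.Agent.Lib.Blocks.BrauerHom
import Cfsg.Agent.Lib.Chars.Induced

set_option autoImplicit false
open Cfsg

namespace Cfsg.Agent.S4725

open CfsgLib.Chars CfsgLib.Blocks
open scoped ComplexConjugate

/-- Let p be a prime, M a maximal ideal of the algebraic integers containing p, H a subgroup of the finite group G, and b a p-block of H inducing the p-block B of G, with b and B of the same defect. Then for every height-zero ζ ∈ b there is a height-zero χ ∈ B whose multiplicity in the character induced from ζ is not divisible by p. -/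
theorem result {G : Type*} [Group G] [Fintype G] (p : ℕ) [Fact p.Prime] (M : Ideal Cfsg.AlgInt) (hM : Cfsg.IsPModular p M) (H : Subgroup G) (b : Set (Cfsg.IrrCharacter ↥H)) (B : Set (Cfsg.IrrCharacter G)) (hind : Cfsg.IsInducedBlock M H b B) (hdef : Cfsg.blockDefect p b = Cfsg.blockDefect p B) (ζ : Cfsg.IrrCharacter ↥H) (hζ : ζ ∈ b) (hζ0 : Cfsg.blockHeight p b (ζ : ↥H → ℂ) = 0) : ∃ χ ∈ B, Cfsg.blockHeight p B (χ : G → ℂ) = 0 ∧ ∃ a : ℕ, Cfsg.classInner (Cfsg.indFun H (ζ : ↥H → ℂ)) (χ : G → ℂ) = (a : ℂ) ∧ ¬ p ∣ a := by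
  classical
  haveI := Fintype.ofFinite H
  have hp : p.Prime := Fact.out
  have hB : Cfsg.IsPBlock M B := hind.2.1
  obtain ⟨χ₀, hχ₀⟩ := IsPBlock.nonempty hM hB
  set ν : ℕ → ℕ := fun n => n.factorization p
  set mB := sInf ((fun χ : Cfsg.IrrCharacter G => (Cfsg.charDegree (χ : G → ℂ)).factorization p) '' B)
  set mb := sInf ((fun χ : Cfsg.IrrCharacter ↥H => (Cfsg.charDegree (χ : ↥H → ℂ)).factorization p) '' b)
  have hmB : mB ≤ (Nat.card G).factorization p :=
    (Nat.sInf_le (Set.mem_image_of_mem _ hχ₀)).trans (factorization_charDegree_le χ₀ p)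
  have hmb : mb ≤ (Nat.card H).factorization p :=
    (Nat.sInf_le (Set.mem_image_of_mem _ hζ)).trans (factorization_charDegree_le ζ p)
  have hdef' : (Nat.card H).factorization p - mb = (Nat.card G).factorization p - mB := hdef
  have hζν : ν (Cfsg.charDegree (ζ : ↥H → ℂ)) = mb := by
    have h1 : ν (Cfsg.charDegree (ζ : ↥H → ℂ)) - mb = 0 := hζ0
    have h2 : mb ≤ ν (Cfsg.charDegree (ζ : ↥H → ℂ)) := Nat.sInf_le ⟨ζ, hζ, rfl⟩
    omega
  have hidx : (Nat.card G).factorization p = (Nat.card H).factorization p + H.index.factorization p := by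
    rw [← H.card_mul_index, Nat.factorization_mul Nat.card_pos.ne' H.index_ne_zero_of_finite]
    rfl
  choose m hm using fun χ : Cfsg.IrrCharacter G =>
    exists_mult (IsCharacter.restrict (isCharacter_irr χ) H) ζ
  have hm' : ∀ χ : Cfsg.IrrCharacter G,
      Cfsg.classInner (Cfsg.indFun H (ζ : ↥H → ℂ)) (χ : G → ℂ) = (m χ : ℂ) := fun χ => by
    rw [frobenius H (ζ : ↥H → ℂ) (IsCharacter.isClassFunction (isCharacter_irr χ)), classInner_symm]
    exact (congrArg conj (hm χ)).trans (Complex.conj_natCast _)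
  have hH : (Nat.card H : ℂ) ≠ 0 := natCast_card_ne_zero H
  have hidxC : (H.index : ℂ) * (Nat.card H : ℂ) = (Nat.card G : ℂ) := by
    rw [← Nat.cast_mul, mul_comm, H.card_mul_index]
  have hinner : ∀ χ : Cfsg.IrrCharacter G, ∑ h : H, conj ((χ : G → ℂ) h) * (ζ : H → ℂ) h =
      (Nat.card H : ℂ) * (m χ : ℂ) := fun χ => by
    rw [← Complex.conj_natCast (m χ), ← hm, Cfsg.classInner, map_mul, map_inv₀, Complex.conj_natCast,
      map_sum, ← mul_assoc, mul_inv_cancel₀ hH, one_mul]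
    exact Finset.sum_congr rfl fun n _ => by rw [map_mul, Complex.conj_conj]
  set S := ∑ χ ∈ Finset.univ.filter (· ∈ B), m χ * Cfsg.charDegree (χ : G → ℂ) with hSdef
  have hS : (S : ℂ) = ((H.index * Cfsg.charDegree (ζ : ↥H → ℂ) : ℕ) : ℂ) *
      omega (ζ : H → ℂ) (fun h : H => Cfsg.blockCoeff B (h : G)) := by
    rw [Nat.cast_mul, ← irr_apply_one, omega, mul_assoc, mul_div_cancel₀ _ (irr_one_ne_zero ζ)]
    simp only [blockCoeff_eq_sum, mul_assoc, Finset.sum_mul, Finset.mul_sum, hSdef]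
    rw [Finset.sum_comm, Nat.cast_sum]
    refine Finset.sum_congr rfl fun χ _ => ?_
    simp only [← Finset.mul_sum, hinner]
    rw [irr_apply_one, ← hidxC]
    have : (H.index : ℂ) ≠ 0 := Nat.cast_ne_zero.mpr H.index_ne_zero_of_finite
    push_cast
    field_simp
  have hω : ¬ MemLocalIdeal M (omega (ζ : H → ℂ) (fun h : H => Cfsg.blockCoeff B (h : G))) := by
    intro h
    have h1 := mli_omega_res_of_induced hM hind hζ hχ₀ (blockCoeff_isClassFunction B)
      (fun g => mlr_blockCoeff hM hB g)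
    rw [omega_blockCoeff, indic_of_mem hχ₀] at h1
    have h2 := mli_sub hM h h1
    rw [sub_sub_cancel] at h2
    exact not_mli_one hM h2
  have hge : ∀ χ ∈ Finset.univ.filter (· ∈ B), p ^ mB ∣ Cfsg.charDegree (χ : G → ℂ) := fun χ hχ =>
    (hp.pow_dvd_iff_le_factorization (charDegree_pos χ).ne').mpr
      (Nat.sInf_le ⟨χ, (Finset.mem_filter.mp hχ).2, rfl⟩)
  set c := H.index * Cfsg.charDegree (ζ : ↥H → ℂ)
  have hc0 : c ≠ 0 := Nat.mul_ne_zero H.index_ne_zero_of_finite (charDegree_pos ζ).ne'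
  have hcν : c.factorization p = mB := by
    rw [Nat.factorization_mul H.index_ne_zero_of_finite (charDegree_pos ζ).ne', Finsupp.coe_add,
      Pi.add_apply]
    show H.index.factorization p + ν (Cfsg.charDegree (ζ : ↥H → ℂ)) = mB
    omega
  have hSp : ¬ p ^ (mB + 1) ∣ S := by
    intro hd
    obtain ⟨s, hs⟩ := hd
    set u := c / p ^ c.factorization p
    have hcu : p ^ mB * u = c := hcν ▸ Nat.ordProj_mul_ordCompl_eq_self c p
    have hu : ¬ p ∣ u := Nat.not_dvd_ordCompl hp hc0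
    rw [hs, ← hcu] at hS
    push_cast at hS
    have hpm : (p : ℂ) ^ mB ≠ 0 := pow_ne_zero _ (Nat.cast_ne_zero.mpr hp.ne_zero)
    have h1 : (p : ℂ) * (s : ℂ) = (u : ℂ) * omega (ζ : H → ℂ) (fun h : H => Cfsg.blockCoeff B (h : G)) := by
      refine mul_left_cancel₀ hpm ?_
      rw [← mul_assoc, ← mul_assoc, ← pow_succ]
      exact hS
    have h2 := mli_mul_right hM (mli_p hM) (mlr_natCast hM s)
    rw [h1] at h2
    rcases mli_mul_cases hM (mlr_natCast hM _) (mlr_omega hM ζ
      (fun n m => blockCoeff_isClassFunction _ (n : G) (m : G)) (fun n => mlr_blockCoeff hM hB _)) h2 with h | h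
    · exact hu ((mli_natCast_iff hM _).mp h)
    · exact hω h
  obtain ⟨χ, hχ, hχn⟩ : ∃ χ ∈ Finset.univ.filter (· ∈ B),
      ¬ p ^ (mB + 1) ∣ m χ * Cfsg.charDegree (χ : G → ℂ) := by
    by_contra hc
    push Not at hc
    exact hSp (Finset.dvd_sum hc)
  refine ⟨χ, (Finset.mem_filter.mp hχ).2, ?_, m χ, hm' χ, fun h => hχn ?_⟩
  · show (Cfsg.charDegree (χ : G → ℂ)).factorization p - mB = 0
    rw [Nat.sub_eq_zero_iff_le]
    by_contra hlt
    exact hχn (dvd_mul_of_dvd_right
      ((hp.pow_dvd_iff_le_factorization (charDegree_pos χ).ne').mpr (by omega)) _)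
  · rw [pow_succ']
    exact mul_dvd_mul h (hge χ hχ)

end Cfsg.Agent.S4725
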