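import Cfsg.Statements.S4726
import Cfsg.Agent.Lib.Blocks.Correspondence
import Cfsg.Agent.Lib.Blocks.StabBlock
import Cfsg.Agent.Lib.Blocks.SubgroupPairs

set_option autoImplicit false
open Cfsg

namespace Cfsg.Agent.S4726

open CfsgLib CfsgLib.Chars CfsgLib.Blocks
open scoped ComplexConjugate

/-- Values at the truncation to the centralizer of a pair. -/
theorem pair_omega {X : Type*} [Group X] [Fintype X] {p : ℕ} {M : Ideal AlgInt}
    (hM : IsPModular p M) {Q : Subgroup X}
    {e : Set (IrrCharacter (Subgroup.centralizer (Q : Set X)))} {B : Set (IrrCharacter X)}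
    (h : IsBrauerPairOf p M B Q e) {ξ : IrrCharacter (Subgroup.centralizer (Q : Set X))}
    (hξ : ξ ∈ e) {χ : IrrCharacter X} (hχ : χ ∈ B) {f : X → ℂ} (hf : IsClassFunction X f)
    (hl : ∀ g, MemLocalRing M (f g)) :
    MemLocalIdeal M (brauerOmega Q f (ξ : Subgroup.centralizer (Q : Set X) → ℂ) -
      omega (χ : X → ℂ) f) := by
  classical
  haveI : Fintype (Subgroup.centralizer (Q : Set X)) := Fintype.ofFinite _
  have e : ∀ β : X → ℂ, brVal Q (Subgroup.centralizer (Q : Set X))
      (ξ : Subgroup.centralizer (Q : Set X) → ℂ) β =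
        brauerOmega Q β (ξ : Subgroup.centralizer (Q : Set X) → ℂ) := fun β => by
    rw [brauerOmega_eq_omega, brVal]
    congr 1
    funext c
    simp [brTrunc, c.2]
  have h1 := mli_brVal_sub_omega hM h.1.1 le_rfl
    (Subgroup.centralizer_le_normalizer (Q : Set X)) ξ h.2.1 hχ
    (by rw [e]; exact not_mli_of_sub_one hM (h.2.2 ξ hξ)) hf hl
  rwa [e] at h1

/-- Let p be a prime, M a maximal ideal of the algebraic integers containing p, H a subgroup of the finite group G and b a p-block of H with defect group D₀ such that C_G(D₀) ≤ H. Then b induces a block of G, and for every block B of G induced by b there is a defect group D of B with Z(D) ≤ Z(D₀) ≤ D₀ ≤ D (as subgroups of G). In particular, if the defect groups of B are abelian then D₀ is a defect group of B. -/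
theorem result {G : Type*} [Group G] [Finite G] (p : ℕ) [Fact p.Prime] (M : Ideal Cfsg.AlgInt) (hM : Cfsg.IsPModular p M) (H : Subgroup G) (b : Set (Cfsg.IrrCharacter ↥H)) (hb : Cfsg.IsPBlock M b) (D₀ : Subgroup ↥H) (hD₀ : Cfsg.IsDefectGroup p M b D₀) (hC : Subgroup.centralizer ((D₀.map H.subtype : Subgroup G) : Set G) ≤ H) : Cfsg.InducedBlockDefined M H b ∧ ∀ B : Set (Cfsg.IrrCharacter G), Cfsg.IsInducedBlock M H b B → (∃ D : Subgroup G, Cfsg.IsDefectGroup p M B D ∧ (Subgroup.center ↥D).map D.subtype ≤ ((Subgroup.center ↥D₀).map D₀.subtype).map H.subtype ∧ ((Subgroup.center ↥D₀).map D₀.subtype).map H.subtype ≤ D₀.map H.subtype ∧ D₀.map H.subtype ≤ D) ∧ (∀ D : Subgroup G, Cfsg.IsDefectGroup p M B D → IsMulCommutative ↥D → Cfsg.IsDefectGroup p M B (D₀.map H.subtype)) := by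
  classical
  haveI : Fintype G := Fintype.ofFinite G
  haveI : Fintype H := Fintype.ofFinite H
  haveI : Fact p.Prime := ⟨hM.1⟩
  have hP : D₀.map H.subtype ≤ H := Subgroup.map_subtype_le _
  set P : Subgroup G := D₀.map H.subtype with hPdef
  have hsub : P.subgroupOf H = D₀ :=
    Subgroup.comap_map_eq_self_of_injective H.subtype_injective _
  have hPp : IsPGroup p P := (defectGroup_isPGroup hD₀).map _
  have hD₀' : IsDefectGroup p M b (P.subgroupOf H) := by rwa [hsub]
  obtain ⟨g₀, hg₀, S₀, hS₀⟩ := id hD₀'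
  obtain ⟨f', hf'⟩ := exists_pair_at hM hb (defectGroup_isPGroup hD₀') (z := g₀) (by
    rw [Subgroup.mem_centralizer_iff]
    intro q hq
    exact Subgroup.mem_centralizer_singleton_iff.mp
      ((hS₀ ▸ Subgroup.map_subtype_le _ : P.subgroupOf H ≤ _) hq))
    hg₀.2.1
  set f := mapBlock (centEquiv hP hC) f' with hfdef
  have hfb : IsPBlock M f := isPBlock_mapBlock hM _ hf'.1.2
  have hs : SeenIn M P b f := by
    refine (seenIn_iff hM hP hC hPp hfb hb).mpr ?_
    rw [show mapBlock (centEquiv hP hC).symm f = f' from Set.ext fun χ => by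
      show pullIrr (centEquiv hP hC) (pullIrr (centEquiv hP hC).symm χ) ∈ f' ↔ χ ∈ f'
      rw [show pullIrr (centEquiv hP hC) (pullIrr (centEquiv hP hC).symm χ) = χ from
        Subtype.ext (funext fun k => congrArg (χ : _ → ℂ) ((centEquiv hP hC).symm_apply_apply k))]]
    exact hf'
  have hfH : IsBrauerPairOf p M b (P.subgroupOf H) (mapBlock (centEquiv hP hC).symm f) :=
    (seenIn_iff hM hP hC hPp hfb hb).mp hs
  obtain ⟨B₁, hpair₁⟩ := exists_block_of_pair hM (⟨hPp, hfb⟩ : IsBrauerPair p M P f)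
  obtain ⟨η₀, hη₀⟩ := IsPBlock.nonempty hM hfb
  -- the induced central characters
  have key : ∀ ξ ∈ b, ∀ χ ∈ B₁, ∀ g : G, MemLocalIdeal M
      (inducedCentralChar H (ξ : H → ℂ) g - centralChar (χ : G → ℂ) g) := by
    intro ξ hξ χ hχ g
    have hm : pullIrr (centEquiv hP hC).symm (pullIrr (centEquiv hP hC) η₀) = η₀ :=
      pullIrr_apply_symm _ η₀
    have h1 := pair_omega hM hfH (ξ := pullIrr (centEquiv hP hC) η₀)
      (show pullIrr (centEquiv hP hC).symm (pullIrr (centEquiv hP hC) η₀) ∈ f by rwa [hm]) hξ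
      (f := fun h : H => classInd g (h : G))
      (fun x k => classInd_isClassFunction g (x : G) (k : G)) fun h => mlr_classInd hM g (h : G)
    have e : brauerOmega (P.subgroupOf H) (fun h : H => classInd g (h : G))
        (pullIrr (centEquiv hP hC) η₀ : _ → ℂ) =
          brauerOmega P (classInd g) (η₀ : Subgroup.centralizer (P : Set G) → ℂ) := by
      rw [brauerOmega, brauerOmega]
      refine finsum_eq_of_bijective (centEquiv hP hC) (MulEquiv.bijective _) fun k => ?_
      rw [pullIrr_apply, pullIrr_apply, map_one]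
      rfl
    rw [e] at h1
    have h2 := pair_omega hM hpair₁ hη₀ hχ (classInd_isClassFunction g) fun h => mlr_classInd hM g h
    rw [omega_classInd (IsCharacter.isClassFunction (isCharacter_irr χ))] at h2
    rw [inducedCentralChar_eq]
    convert mli_sub hM h2 h1 using 1
    ring
  refine ⟨⟨B₁, hb, hpair₁.2.1, key⟩, fun B hind => ?_⟩
  have hBB : B = B₁ := by
    obtain ⟨ξ, hξ⟩ := IsPBlock.nonempty hM hb
    obtain ⟨χ₁, hχ₁⟩ := IsPBlock.nonempty hM hpair₁.2.1
    obtain ⟨χ, hχ⟩ := IsPBlock.nonempty hM hind.2.1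
    have hsame : SameBlock M (χ : G → ℂ) (χ₁ : G → ℂ) := fun g => by
      convert mli_sub hM (key ξ hξ χ₁ hχ₁ g) (hind.2.2 ξ hξ χ hχ g) using 1
      ring
    rw [IsPBlock.eq_blockOf hM hind.2.1 hχ, IsPBlock.eq_blockOf hM hpair₁.2.1 hχ₁]
    exact blockOf_eq_of_sameBlock hM hsame
  subst hBB
  obtain ⟨D, d, hmax, hle⟩ := exists_maximal_above hM P f hpair₁
  have hDdef := maximal_isDefectGroup hM hmax
  have hPD : P ≤ D := SubpairLE.le hle
  set Z : Subgroup G := (Subgroup.center ↥D).map D.subtype with hZ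
  have hZD : Z ≤ D := Subgroup.map_subtype_le _
  have hZc : ∀ z ∈ Z, ∀ q ∈ D, q * z = z * q := by
    rintro z ⟨w, hw, rfl⟩ q hq
    exact congrArg Subtype.val (Subgroup.mem_center_iff.mp hw ⟨q, hq⟩)
  have hZP : Z ≤ P := by
    set S := P ⊔ Z with hS
    have hSD : S ≤ D := sup_le hPD hZD
    have hSN : S ≤ Subgroup.normalizer (P : Set G) := sup_le Subgroup.le_normalizer
      (le_trans (fun z hz => Subgroup.mem_centralizer_iff.mpr fun q hq => hZc z hz q (hPD hq))
        (Subgroup.centralizer_le_normalizer (P : Set G)))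
    have hSH : S ≤ H := sup_le hP
      (le_trans (fun z hz => Subgroup.mem_centralizer_iff.mpr fun q hq => hZc z hz q (hPD hq)) hC)
    obtain ⟨gS, hgS⟩ := exists_subpair_below hM hmax.1.1 S hSD
    have hstep := normalSubpair_of_le hM hmax.1.1 hle hgS le_sup_left hSN
    have hinv := sbc_conjInv_self H b
    have hseen' : ∀ ξ ∈ gS, MemLocalIdeal M (brauerOmega S (subgroupBlockCoeff H b)
        (ξ : Subgroup.centralizer (S : Set G) → ℂ) - 1) := fun ξ hξ => by
      have h1 := mli_brauerOmega_compose hM hstep.2.2.1 hstep.2.1.1 hstep.1.2 hstep.2.2.2.2.1 hη₀ ξ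
        (hstep.2.2.2.2.2 ξ hξ) (hinv.mono hSH) (hinv.mono hC) (sbc_mlr hM H hb) (conv_sbc_self H b)
      convert mli_add hM h1 (hs η₀ hη₀) using 1
      ring
    have hp' := isBrauerPairOf_subgroup hM hSH
      ((Subgroup.centralizer_le (le_sup_left : P ≤ S)).trans hC)
      hstep.2.1.1 hstep.2.1.2 hb hseen'
    obtain ⟨x, hx⟩ := pair_le_defectGroup hM hp' hD₀'
    have h1 := Subgroup.card_le_of_le hx
    rw [card_map_conj, Nat.card_congr (Subgroup.subgroupOfEquivOfLe hSH).toEquiv,
      Nat.card_congr (Subgroup.subgroupOfEquivOfLe hP).toEquiv] at h1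
    have := Subgroup.eq_of_le_of_card_ge (le_sup_left : P ≤ S) h1
    exact this ▸ le_sup_right
  refine ⟨⟨D, hDdef, ?_, Subgroup.map_mono (Subgroup.map_subtype_le _), hPD⟩, ?_⟩
  · intro z hz
    obtain ⟨w, hw, hwz⟩ := hZP hz
    refine ⟨w, ⟨⟨w, hw⟩, ?_, rfl⟩, hwz⟩
    show (⟨w, hw⟩ : D₀) ∈ Subgroup.center D₀
    rw [Subgroup.mem_center_iff]
    intro y
    apply Subtype.ext
    apply Subtype.ext
    have h := hZc z hz ((y : H) : G) (hPD ⟨(y : H), y.2, rfl⟩)
    rw [← hwz] at h
    exact h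
  · intro D' hD' hab
    obtain ⟨x, hx⟩ := pair_le_defectGroup hM hmax.1 hD'
    have hDab : ∀ a ∈ D, ∀ c ∈ D, a * c = c * a := by
      intro a ha c hc
      apply (MulAut.conj x).injective
      rw [map_mul, map_mul]
      exact congrArg Subtype.val (mul_comm' (⟨_, hx ⟨a, ha, rfl⟩⟩ : D') ⟨_, hx ⟨c, hc, rfl⟩⟩)
    have hDP : D ≤ P := fun a ha => hZP ⟨⟨a, ha⟩, Subgroup.mem_center_iff.mpr fun y =>
      Subtype.ext (hDab _ y.2 a ha), rfl⟩
    rw [show P = D from le_antisymm hPD hDP]
    exact hDdef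

end Cfsg.Agent.S4726
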