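import Cfsg.Statements.S4727
import Cfsg.Agent.Lib.Blocks.KernelDescent
import Cfsg.Agent.Lib.Blocks.SecondVanish
import Cfsg.Agent.Lib.Blocks.Section

set_option autoImplicit false
open Cfsg

namespace Cfsg.Agent.S4727

open CfsgLib.Chars CfsgLib.Blocks CfsgLib.KernelDescent

/-- Let p be a prime, π a set of primes containing p, M a maximal ideal of the algebraic integers containing p, and B a p-block of the finite group G with defect group D; let B₁ be the block of N_G(D) with defect group D that induces B (the Brauer correspondent of B). Suppose every element of O_π'(N_G(D)), the largest normal subgroup of N_G(D) whose order has no prime divisor in π, lies in the kernel of every member of B₁. If y is a p-element whose centralizer C has a normal Hall π'-subgroup (every element of C whose order has no prime divisor in π lies in O_π'(C)), then χ(y x) = χ(y) for every χ ∈ B and every x ∈ C whose order has no prime divisor in π. -/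
theorem result {G : Type*} [Group G] [Finite G] (p : ℕ) [Fact p.Prime] (M : Ideal Cfsg.AlgInt) (hM : Cfsg.IsPModular p M) (π : Set ℕ) (hpπ : p ∈ π) (B : Set (Cfsg.IrrCharacter G)) (hB : Cfsg.IsPBlock M B) (D : Subgroup G) (hBD : Cfsg.IsDefectGroup p M B D) (B₁ : Set (Cfsg.IrrCharacter ↥(Subgroup.normalizer (D : Set G)))) (hB₁ : Cfsg.IsInducedBlock M (Subgroup.normalizer (D : Set G)) B₁ B) (hB₁D : Cfsg.IsDefectGroup p M B₁ (D.subgroupOf (Subgroup.normalizer (D : Set G)))) (hker : ∀ n : ↥(Subgroup.normalizer (D : Set G)), n ∈ Cfsg.piCore {q | q ∉ π} ↥(Subgroup.normalizer (D : Set G)) → n ∈ Cfsg.blockKer B₁) (y : G) (hy : ∃ k : ℕ, orderOf y = p ^ k) (hC : ∀ x : ↥(Subgroup.centralizer ({y} : Set G)), (∀ q : ℕ, q.Prime → q ∣ orderOf x → q ∉ π) → x ∈ Cfsg.piCore {q | q ∉ π} ↥(Subgroup.centralizer ({y} : Set G))) : ∀ χ ∈ B, ∀ x : G, x ∈ Subgroup.centralizer ({y} : Set G) → (∀ q : ℕ, q.Prime → q ∣ orderOf x → q ∉ π) → (χ : G → ℂ) (y * x) = (χ : G → ℂ) y := by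
  classical
  haveI : Fintype G := Fintype.ofFinite G
  set ρ : Set ℕ := {q | q ∉ π}
  have hpρ : p ∉ ρ := fun h => h hpπ
  obtain ⟨k, hk⟩ := hy
  set Q : Subgroup G := Subgroup.zpowers y with hQdef
  have hQ : IsPGroup p Q := IsPGroup.of_card (n := k) (by rw [hQdef, Nat.card_zpowers, hk])
  have hCQ : Subgroup.centralizer (Q : Set G) = Subgroup.centralizer ({y} : Set G) := by
    rw [hQdef, Subgroup.zpowers_eq_closure, Subgroup.centralizer_closure]
  intro χ hχ x hx hxπ
  set C := Subgroup.centralizer (Q : Set G) with hCdef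
  have hle : (Cfsg.piCore ρ ↥(Subgroup.centralizer ({y} : Set G))).map
      (Subgroup.centralizer ({y} : Set G)).subtype ≤ O ρ Q := by
    refine le_O ρ ((Subgroup.map_subtype_le _).trans hCQ.ge) ?_ fun q hq h =>
      CfsgLib.GroupB.Cores.piCore_spec ρ q hq (by
        rwa [Subgroup.card_map_of_injective (Subgroup.subtype_injective _)] at h)
    rintro c hc _ ⟨a, ha, rfl⟩
    exact ⟨⟨c, hCQ.le hc⟩ * a * ⟨c, hCQ.le hc⟩⁻¹, (Cfsg.piCore_normal ρ _).conj_mem a ha _, rfl⟩
  have hxO : x ∈ O ρ Q := hle ⟨⟨x, hx⟩, hC ⟨x, hx⟩ (fun q hq hd => hxπ q hq (by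
    rwa [Subgroup.orderOf_mk] at hd)), rfl⟩
  have hd : ∀ θ, Det M B Q θ → KillsOn _ (O ρ Q) θ :=
    down hM hpρ hB hBD hB₁ hB₁D (fun ξ hξ n hn => by
      rw [← piCore_normalizer_eq ρ hM.1 hpρ (defectGroup_isPGroup hBD)] at hn
      obtain ⟨m, hm, hmn⟩ := hn
      rw [Subtype.ext hmn] at hm
      exact hker n hm ξ hξ) Q hQ
  have hyC : y ∈ C := by
    rw [hCQ]; exact Subgroup.mem_centralizer_singleton_iff.mpr rfl
  have hxC : x ∈ C := hCQ.ge hx
  let xC : C := ⟨x, hxC⟩
  let yC : C := ⟨y, hyC⟩
  have hcomm : Commute yC xC := Subtype.ext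
    (Subgroup.mem_centralizer_singleton_iff.mp hx).symm
  let f : C → ℂ := fun c => (χ : G → ℂ) c
  have hf : IsClassFunction C f := fun a b =>
    IsCharacter.isClassFunction (isCharacter_irr χ) (a : G) (b : G)
  show f (yC * xC) = f yC
  rw [classFunction_expand hf, classFunction_expand hf yC,
    ← Finset.sum_fiberwise Finset.univ (fun η : IrrCharacter C => blockOf M (η : C → ℂ))
      (fun η => classInner f (η : C → ℂ) * (η : C → ℂ) (yC * xC)),
    ← Finset.sum_fiberwise Finset.univ (fun η : IrrCharacter C => blockOf M (η : C → ℂ))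
      (fun η => classInner f (η : C → ℂ) * (η : C → ℂ) yC)]
  refine Finset.sum_congr rfl fun b _ => ?_
  by_cases hb : ∃ η : IrrCharacter C, blockOf M (η : C → ℂ) = b
  swap
  · rw [Finset.filter_false_of_mem fun η _ h => hb ⟨η, h⟩]
    rfl
  obtain ⟨η₀, rfl⟩ := hb
  by_cases hdet : Det M B Q η₀
  · refine Finset.sum_congr rfl fun η hη => ?_
    have hs : η ∈ blockOf M (η₀ : C → ℂ) := (Finset.mem_filter.mp hη).2 ▸ self_mem_blockOf hM η
    have hη' : Det M B Q η := by
      intro h0
      apply hdet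
      have hcl : IsClassFunction C (fun c : C => blockCoeff B (c : G)) := fun a b =>
        blockCoeff_isClassFunction B (a : G) (b : G)
      have := mli_add hM (mli_omega_sub hM
        (IsPBlock.sameBlock hM (isPBlock_blockOf η₀) (self_mem_blockOf hM η₀) hs) hcl
        fun c => mlr_blockCoeff hM hB (c : G)) h0
      rwa [sub_add_cancel] at this
    congr 1
    rw [hcomm.eq]
    exact IsCharacter.mul_kernel (isCharacter_irr η) (hd η hη' xC hxO) yC
  · have hb := isPBlock_blockOf (M := M) η₀
    have hne : ∀ η ∈ blockOf M (η₀ : C → ℂ),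
        MemLocalIdeal M (omega (η : C → ℂ) fun h : C => blockCoeff B (h : G)) := by
      intro η hη
      have h0 : MemLocalIdeal M (omega (η₀ : C → ℂ) fun h : C => blockCoeff B (h : G)) := by
        by_contra h; exact hdet h
      have := mli_add hM (mli_omega_sub hM (IsPBlock.sameBlock hM hb hη (self_mem_blockOf hM η₀))
        (fun a b => blockCoeff_isClassFunction B (a : G) (b : G))
        fun c => mlr_blockCoeff hM hB (c : G)) h0
      rwa [sub_add_cancel] at this
    have key : ∀ z : C, ¬ p ∣ orderOf z → Commute yC z →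
        ∑ η ∈ Finset.univ.filter (fun η : IrrCharacter C => blockOf M (η : C → ℂ) = blockOf M (η₀ : C → ℂ)),
          classInner f (η : C → ℂ) * (η : C → ℂ) (yC * z) = 0 := by
      intro z hz hcz
      have h := sum_blockCoeff_irr_eq_zero hM hb hB hne (x := yC) (y := z) (kx := k)
        (by rw [← hk]; exact Subgroup.orderOf_mk y hyC) hz hcz
        (fun g hg => by
          rw [hCQ]; exact Subgroup.mem_centralizer_singleton_iff.mpr hg) hχ
      have e := blockPart_eq_sum (blockOf M (η₀ : C → ℂ)) hf (yC * z)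
      rw [blockPart_eq_filter, show (∑ g : C, blockCoeff (blockOf M (η₀ : C → ℂ)) g * f (g * (yC * z))) = 0
        from h] at e
      rw [← e]
      refine Finset.sum_congr (Finset.filter_congr fun η _ => ?_) fun _ _ => rfl
      exact ⟨fun h => h ▸ self_mem_blockOf hM η, fun h => (blockOf_eq_of_sameBlock hM h).symm⟩
    have h1 : ¬ p ∣ orderOf xC := fun h => hxπ p hM.1 (by rwa [Subgroup.orderOf_mk] at h) hpπ
    have h2 : ¬ p ∣ orderOf (1 : C) := by rw [orderOf_one]; exact hM.1.not_dvd_one
    rw [key xC h1 hcomm]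
    have := key 1 h2 (Commute.one_right _)
    rw [mul_one] at this
    rw [this]

end Cfsg.Agent.S4727
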