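import Cfsg.Statements.S4728
import Cfsg.Agent.Lib.Blocks.KernelDescent

set_option autoImplicit false
open Cfsg

namespace Cfsg.Agent.S4728

open CfsgLib.Chars CfsgLib.Blocks CfsgLib.KernelDescent

/-- Let p be a prime, π a set of primes containing p, M a maximal ideal of the algebraic integers containing p, B a p-block of the finite group G with defect group D, and B₁ the block of N_G(D) with defect group D inducing B. Let D₀ be a p-subgroup, H₀ = D₀·C_G(D₀), and b a block of H₀ inducing B. Write O_π'(X) for the largest normal subgroup of X whose order has no prime divisor in π. Suppose that O_π'(C_G(D₀)) is a normal Hall π'-subgroup of C_G(D₀) (it contains every element of C_G(D₀) whose order has no prime divisor in π) and that every element of it lies in the kernel of every member of b. Then every element of O_π'(N_G(D)) lies in the kernel of every member of B₁. -/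
theorem result {G : Type*} [Group G] [Finite G] (p : ℕ) [Fact p.Prime] (M : Ideal Cfsg.AlgInt) (hM : Cfsg.IsPModular p M) (π : Set ℕ) (hpπ : p ∈ π) (B : Set (Cfsg.IrrCharacter G)) (hB : Cfsg.IsPBlock M B) (D : Subgroup G) (hBD : Cfsg.IsDefectGroup p M B D) (B₁ : Set (Cfsg.IrrCharacter ↥(Subgroup.normalizer (D : Set G)))) (hB₁ : Cfsg.IsInducedBlock M (Subgroup.normalizer (D : Set G)) B₁ B) (hB₁D : Cfsg.IsDefectGroup p M B₁ (D.subgroupOf (Subgroup.normalizer (D : Set G)))) (D₀ : Subgroup G) (hD₀ : IsPGroup p D₀) (H₀ : Subgroup G) (hH₀ : H₀ = D₀ ⊔ Subgroup.centralizer (D₀ : Set G)) (b : Set (Cfsg.IrrCharacter ↥H₀)) (hb : Cfsg.IsInducedBlock M H₀ b B) (hcompl : ∀ x : ↥(Subgroup.centralizer (D₀ : Set G)), (∀ q : ℕ, q.Prime → q ∣ orderOf x → q ∉ π) → x ∈ Cfsg.piCore {q | q ∉ π} ↥(Subgroup.centralizer (D₀ : Set G))) (hkerb : ∀ x : ↥(Subgroup.centralizer (D₀ : Set G)), x ∈ Cfsg.piCore {q | q ∉ π} ↥(Subgroup.centralizer (D₀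 : Set G)) → ∀ θ ∈ b, ∀ h : ↥H₀, (h : G) = (x : G) → (θ : ↥H₀ → ℂ) h = (θ : ↥H₀ → ℂ) 1) : ∀ n : ↥(Subgroup.normalizer (D : Set G)), n ∈ Cfsg.piCore {q | q ∉ π} ↥(Subgroup.normalizer (D : Set G)) → n ∈ Cfsg.blockKer B₁ := by
  classical
  haveI : Fintype G := Fintype.ofFinite G
  set ρ : Set ℕ := {q | q ∉ π}
  have hpρ : p ∉ ρ := fun h => h hpπ
  have hH : H₀ ≤ Subgroup.normalizer (D₀ : Set G) := by
    rw [hH₀]
    exact sup_le Subgroup.le_normalizer (Subgroup.centralizer_le_normalizer _)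
  have hCH : Subgroup.centralizer (D₀ : Set G) ≤ H₀ := hH₀ ▸ le_sup_right
  have hQH : D₀ ≤ H₀ := hH₀ ▸ le_sup_left
  obtain ⟨ψ₀, hψ₀⟩ := IsPBlock.nonempty hM hb.1
  obtain ⟨θ, hθ, hiff⟩ := exists_below (π := ρ) hM hpρ hCH hH
    ((isInducedBlock_iff_brVal hM hD₀ hQH hCH hH hb.1 hB hψ₀).mp hb)
  have hHall : Hall ρ D₀ := fun x hx hxρ =>
    ⟨⟨x, hx⟩, hcompl ⟨x, hx⟩ (fun q hq hd => hxρ q hq (by rwa [Subgroup.orderOf_mk] at hd)), rfl⟩
  have hk : KillsOn _ (O ρ D₀) θ := hiff.mp fun h ⟨a, ha, hax⟩ =>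
    hkerb a ha ψ₀ hψ₀ h hax.symm
  intro n hn χ hχ
  refine up hM hpρ hB hBD hB₁ hB₁D D₀ hD₀ hHall θ hθ hk χ hχ n ?_
  rw [← piCore_normalizer_eq ρ hM.1 hpρ (defectGroup_isPGroup hBD)]
  exact ⟨n, hn, rfl⟩

end Cfsg.Agent.S4728
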