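import Cfsg.Statements.S4730
import Cfsg.Agent.S0910
import Cfsg.Agent.Lib.Chars.Burnside
import Cfsg.Agent.Lib.Blocks.Local
import Cfsg.Agent.Lib.Blocks.Core

set_option autoImplicit false
open Cfsg

namespace Cfsg.Agent.S4730

open CfsgLib.Chars CfsgLib.Blocks

/-- Let p be a prime, M a maximal ideal of the algebraic integers containing p, and G a finite group with trivial centre, Sylow p-subgroup P of order p^a and centre Z(P) of order p^b. If χ is a faithful irreducible character of G whose degree is a power of p, then the p-block of χ has defect at most a − b; in particular, if P is abelian then χ lies in a block of defect zero. -/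
theorem result {G : Type*} [Group G] [Finite G] (p : ℕ) [Fact p.Prime] (M : Ideal Cfsg.AlgInt) (hM : Cfsg.IsPModular p M) (hZ : Subgroup.center G = ⊥) (P : Sylow p G) (a b : ℕ) (ha : Nat.card P = p ^ a) (hb : Nat.card (Subgroup.center ↥(P : Subgroup G)) = p ^ b) (χ : Cfsg.IrrCharacter G) (hfaith : ∀ g : G, (χ : G → ℂ) g = (χ : G → ℂ) 1 → g = 1) (n : ℕ) (hdeg : Cfsg.charDegree (χ : G → ℂ) = p ^ n) : Cfsg.blockDefect p (Cfsg.blockOf M (χ : G → ℂ)) ≤ a - b ∧ (IsMulCommutative ↥(P : Subgroup G) → Cfsg.blockDefect p (Cfsg.blockOf M (χ : G → ℂ)) = 0) := by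
  classical
  haveI := Fintype.ofFinite G
  have hpp := hM.1
  set A : Subgroup G := (Subgroup.center ↥(P : Subgroup G)).map (P : Subgroup G).subtype with hA
  have hAcard : Nat.card A = p ^ b := by
    rw [hA, Subgroup.card_map_of_injective (P : Subgroup G).subtype_injective, hb]
  have hidx : ∀ z ∈ A, ¬ p ∣ (Subgroup.centralizer ({z} : Set G)).index := by
    rintro _ ⟨z, hz, rfl⟩ h
    exact P.not_dvd_index (h.trans (Subgroup.index_dvd_of_le fun x hx =>
      Subgroup.mem_centralizer_singleton_iff.mpr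
        (congrArg Subtype.val (Subgroup.mem_center_iff.mp hz ⟨x, hx⟩))))
  have hvan : ∀ z ∈ A, z ≠ 1 → (χ : G → ℂ) z = 0 := fun z hz hz1 =>
    (burnside_vanish χ z (hdeg ▸ Nat.Coprime.pow_right n
      ((hpp.coprime_iff_not_dvd).mpr (hidx z hz)).symm)).resolve_right fun h => hz1 (by
        have := Cfsg.Agent.S0910.mem_center_of_norm χ hfaith h
        rwa [hZ, Subgroup.mem_bot] at this)
  have key : ∀ ψ ∈ blockOf M (χ : G → ℂ), p ^ b ∣ charDegree ((ψ : IrrCharacter G) : G → ℂ) := by
    intro ψ hψ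
    have hsmall : ∀ z ∈ A, z ≠ 1 → MemLocalIdeal M ((ψ : G → ℂ) z / (ψ : G → ℂ) 1) := by
      intro z hz hz1
      have h := hψ z
      have e : centralChar (χ : G → ℂ) z = 0 := by rw [centralChar, hvan z hz hz1, mul_zero, zero_div]
      rw [e, zero_sub] at h
      have h' := mli_neg h
      rw [neg_neg, centralChar, mul_div_assoc] at h'
      have hu : ¬ MemLocalIdeal M (((Subgroup.centralizer ({z} : Set G)).index : ℕ) : ℂ) := fun h =>
        hidx z hz ((mli_natCast_iff hM _).mp h)
      have := mli_mul_left hM (mlr_inv (mlr_natCast hM _) hu) h'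
      rwa [inv_mul_cancel_left₀] at this
      exact Nat.cast_ne_zero.mpr Subgroup.index_ne_zero_of_finite
    obtain ⟨m, hm⟩ := exists_mult (IsCharacter.restrict (isCharacter_irr ψ) A) (trivIrr A)
    have hsum : (∑ a : A, (ψ : G → ℂ) a) = (p ^ b : ℕ) * (m : ℂ) := by
      rw [← hm, classInner, ← hAcard, mul_inv_cancel_left₀ (natCast_card_ne_zero A)]
      simp [trivIrr]
    by_contra hnd
    obtain ⟨v, u, hu, hvu⟩ := Nat.exists_eq_pow_mul_and_not_dvd (charDegree_pos ψ).ne' p hpp.ne_one
    have hvb : v < b := by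
      by_contra hge
      exact hnd (hvu ▸ (pow_dvd_pow p (not_lt.mp hge)).mul_right u)
    refine hu ((mli_natCast_iff hM u).mp ?_)
    have hrest : MemLocalIdeal M ((u : ℂ) * ∑ a ∈ (Finset.univ : Finset A).erase 1,
        (ψ : G → ℂ) a / (ψ : G → ℂ) 1) :=
      mli_mul_left hM (mlr_natCast hM u) (mli_sum hM _ fun a ha => hsmall a a.2 fun h =>
        Finset.ne_of_mem_erase ha (Subtype.ext h))
    have htot : MemLocalIdeal M ((u : ℂ) * ∑ a : A, (ψ : G → ℂ) a / (ψ : G → ℂ) 1) := by
      rw [← Finset.sum_div, hsum, irr_apply_one, hvu]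
      have hp0 : (p : ℂ) ≠ 0 := by exact_mod_cast hpp.ne_zero
      have hu0 : (u : ℂ) ≠ 0 := by
        exact_mod_cast fun h : u = 0 => hu (h ▸ dvd_zero p)
      have e : (u : ℂ) * ((p ^ b : ℕ) * (m : ℂ) / ((p ^ v * u : ℕ) : ℂ)) = ((p ^ (b - v) * m : ℕ) : ℂ) := by
        conv_lhs => rw [show b = v + (b - v) by omega, pow_add]
        push_cast
        field_simp
      rw [e]
      exact (mli_natCast_iff hM _).mpr ((dvd_pow_self p (by omega)).mul_right m)
    rw [← Finset.add_sum_erase _ _ (Finset.mem_univ (1 : A)), mul_add, OneMemClass.coe_one,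
      div_self (irr_one_ne_zero ψ), mul_one] at htot
    have := mli_sub hM htot hrest
    rwa [add_sub_cancel_right] at this
  have hfa : (Nat.card G).factorization p = a :=
    Nat.pow_right_injective hpp.two_le (P.card_eq_multiplicity.symm.trans ha)
  have h1 : blockDefect p (blockOf M (χ : G → ℂ)) ≤ a - b := by
    rw [blockDefect, hfa]
    refine Nat.sub_le_sub_left (le_csInf ?_ ?_) a
    · exact ⟨_, Set.mem_image_of_mem _ (self_mem_blockOf hM χ)⟩
    · rintro _ ⟨ψ, hψ, rfl⟩
      exact (hpp.pow_dvd_iff_le_factorization (charDegree_pos ψ).ne').mp (key ψ hψ)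
  refine ⟨h1, fun hab => ?_⟩
  have hc : Subgroup.center ↥(P : Subgroup G) = ⊤ := eq_top_iff.mpr fun x _ =>
    Subgroup.mem_center_iff.mpr fun y => hab.is_comm.comm y x
  rw [hc, Subgroup.card_top, ha] at hb
  have := Nat.pow_right_injective hpp.two_le hb
  omega

end Cfsg.Agent.S4730
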