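import Cfsg.Statements.S4731
import Cfsg.Agent.Lib.Blocks.WeakOrth
import Cfsg.Agent.Lib.Blocks.Orth

set_option autoImplicit false
open Cfsg

namespace Cfsg.Agent.S4731

open CfsgLib.Chars CfsgLib.Blocks
open scoped ComplexConjugate

/-- Let p ≠ q be primes, M_p and M_q maximal ideals of the algebraic integers containing p and q respectively, and G a finite group with no element of order pq; let q^b be the q-part of the order of G. For a p-block B_p (relative to M_p), a q-block B_q (relative to M_q) and a p-singular element y, the sum of χ(1)χ(y) over the irreducible characters χ lying in both B_p and B_q is q^b times an algebraic integer. -/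
theorem result {G : Type*} [Group G] [Finite G] (p q : ℕ) [Fact p.Prime] [Fact q.Prime] (hpq : p ≠ q) (Mp Mq : Ideal Cfsg.AlgInt) (hMp : Cfsg.IsPModular p Mp) (hMq : Cfsg.IsPModular q Mq) (hno : ∀ g : G, orderOf g ≠ p * q) (b : ℕ) (hb : (Nat.card G).factorization q = b) (Bp : Set (Cfsg.IrrCharacter G)) (hBp : Cfsg.IsPBlock Mp Bp) (Bq : Set (Cfsg.IrrCharacter G)) (hBq : Cfsg.IsPBlock Mq Bq) (y : G) (hy : p ∣ orderOf y) : ∃ ω : Cfsg.AlgInt, ∑ᶠ χ ∈ Bp ∩ Bq, (Cfsg.charDegree (χ : G → ℂ) : ℂ) * (χ : G → ℂ) y = (q : ℂ) ^ b * (ω : ℂ) := by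
  classical
  haveI := Fintype.ofFinite G
  subst hb
  have hq : q.Prime := Fact.out
  have hp : p.Prime := Fact.out
  obtain ⟨Q⟩ : Nonempty (Sylow q G) := inferInstance
  haveI : Fintype (Q : Subgroup G) := Fintype.ofFinite _
  have hQcard : Nat.card (Q : Subgroup G) = q ^ (Nat.card G).factorization q :=
    Q.card_eq_multiplicity
  choose μ hμ using fun χ : Cfsg.IrrCharacter G =>
    exists_mult (IsCharacter.restrict (isCharacter_irr χ) (Q : Subgroup G))
      (trivIrr (Q : Subgroup G))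
  set S := Finset.univ.filter (· ∈ Bp ∩ Bq)
  let g : G → ℂ := fun x => ∑ χ ∈ S, (χ : G → ℂ) x * (χ : G → ℂ) y
  have hy' : p ∣ orderOf y⁻¹ := by rwa [orderOf_inv]
  have hsplit : ∀ x : G, q ∣ orderOf x → ¬ p ∣ orderOf x := by
    intro x hqx hpx
    have hd : p * q ∣ orderOf x :=
      ((Nat.coprime_primes hp hq).mpr hpq).mul_dvd_of_dvd_of_dvd hpx hqx
    exact hno (x ^ (orderOf x / (p * q)))
      (orderOf_pow_orderOf_div (orderOf_pos x).ne' hd)
  let T : G → ℂ := fun z => ∑ χ ∈ Finset.univ.filter (· ∈ Bp), (χ : G → ℂ) z * (χ : G → ℂ) y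
  have hT : ∀ z, q ∣ orderOf z → T z = 0 := by
    intro z hz
    rw [← weak_orthogonality hMp hBp (hsplit z hz) hy']
    exact Finset.sum_congr rfl fun χ _ => by
      rw [IsCharacter.map_inv (isCharacter_irr χ), Complex.conj_conj]
  have hg : ∀ x, q ∣ orderOf x → g x = 0 := by
    intro x hx
    have hc : ∀ χ : Cfsg.IrrCharacter G, classInner T (χ : G → ℂ) =
        if χ ∈ Bp then (χ : G → ℂ) y else 0 := by
      intro χ
      rw [show T = (fun z => ∑ φ ∈ Finset.univ.filter (· ∈ Bp), (φ : G → ℂ) y * (φ : G → ℂ) z)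
        from funext fun z => Finset.sum_congr rfl fun φ _ => mul_comm _ _, classInner_sum]
      simp [classInner_irr, Finset.sum_ite_eq', Finset.mem_filter]
    have e : g x = ∑ χ ∈ Finset.univ.filter (· ∈ Bq),
        classInner T (χ : G → ℂ) * (χ : G → ℂ) x := by
      simp only [g, S, hc, Finset.sum_filter, Set.mem_inter_iff]
      refine Finset.sum_congr rfl fun χ _ => ?_
      by_cases h1 : χ ∈ Bp <;> by_cases h2 : χ ∈ Bq <;> simp [h1, h2, mul_comm]
    rw [e]
    simp only [classInner, mul_assoc, Finset.sum_mul]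
    rw [← Finset.mul_sum, Finset.sum_comm]
    refine mul_eq_zero_of_right _ (Finset.sum_eq_zero fun z _ => ?_)
    by_cases hz : q ∣ orderOf z
    · simp [hT z hz]
    · rw [← Finset.mul_sum]
      refine mul_eq_zero_of_right _ ?_
      have := congrArg conj (weak_orthogonality hMq hBq hz hx)
      simpa [map_sum, mul_comm] using this
  have hsum : ∑ x : (Q : Subgroup G), g (x : G) = g 1 := by
    rw [Finset.sum_eq_single (1 : (Q : Subgroup G))]
    · simp
    · intro x _ hx
      refine hg _ ?_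
      obtain ⟨n, hn⟩ := IsPGroup.iff_orderOf.mp Q.isPGroup' x
      rw [Subgroup.orderOf_coe, hn]
      refine dvd_pow_self q fun h => hx ?_
      rw [h, pow_zero] at hn
      exact orderOf_eq_one_iff.mp hn
    · simp
  refine ⟨∑ χ ∈ S, (μ χ : Cfsg.AlgInt) *
    mkInt ((χ : G → ℂ) y) (IsCharacter.isIntegral (isCharacter_irr χ) y), ?_⟩
  rw [finsum_mem_eq_toFinset_sum, ← Set.filter_mem_univ_eq_toFinset]
  have e1 : ∑ χ ∈ S, (Cfsg.charDegree (χ : G → ℂ) : ℂ) * (χ : G → ℂ) y = g 1 := by
    simp only [g, irr_apply_one]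
  rw [e1, ← hsum]
  simp only [g]
  rw [Finset.sum_comm]
  push_cast [coe_mkInt]
  rw [Finset.mul_sum]
  refine Finset.sum_congr rfl fun χ _ => ?_
  have h := hμ χ
  simp only [classInner, trivIrr, map_one, mul_one, hQcard] at h
  rw [inv_mul_eq_iff_eq_mul₀ (Nat.cast_ne_zero.mpr (pow_ne_zero _ hq.ne_zero))] at h
  rw [← Finset.sum_mul, h]
  push_cast
  ring

end Cfsg.Agent.S4731
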