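import Cfsg.Statements.S4733
import Cfsg.Agent.Lib.Blocks.Orth
import Mathlib.LinearAlgebra.Dimension.OrzechProperty

set_option autoImplicit false
open Cfsg

namespace Cfsg.Agent.S4733

open CfsgLib.Chars CfsgLib.Blocks
open scoped ComplexConjugate

/-- Let p be a prime, M a maximal ideal of the algebraic integers containing p, and B a p-block of the finite group G with k irreducible characters and p-regular rank l (the number of irreducible Brauer characters). Then l ≤ k, and the following are equivalent: B has defect 0; k = l = 1; k = l. -/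
theorem result {G : Type*} [Group G] [Finite G] (p : ℕ) [Fact p.Prime] (M : Ideal Cfsg.AlgInt) (hM : Cfsg.IsPModular p M) (B : Set (Cfsg.IrrCharacter G)) (hB : Cfsg.IsPBlock M B) : Cfsg.blockRank p B ≤ Nat.card B ∧ (Cfsg.blockDefect p B = 0 ↔ (Nat.card B = 1 ∧ Cfsg.blockRank p B = 1)) ∧ (Cfsg.blockDefect p B = 0 ↔ Nat.card B = Cfsg.blockRank p B) := by
  classical
  haveI := Fintype.ofFinite G
  set v : IrrCharacter G → G → ℂ := fun χ => pRegularPart p (χ : G → ℂ) with hv
  have hle : blockRank p B ≤ Nat.card B := by
    rw [blockRank, Set.image_eq_range, Nat.card_eq_fintype_card]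
    exact finrank_range_le_card _
  -- when the rank is the cardinality every member vanishes at singular elements
  have hfull : Nat.card B = blockRank p B →
      ∀ χ ∈ B, ∀ y : G, p ∣ orderOf y → (χ : G → ℂ) y = 0 := by
    intro h χ hχ y hy
    have hli : LinearIndependent ℂ (fun x : B => v x) := by
      rw [linearIndependent_iff_card_eq_finrank_span, ← Nat.card_eq_fintype_card, h, blockRank,
        Set.image_eq_range]
      rfl
    have hexp : (∑ ψ : B, classInner (v χ) (ψ : G → ℂ) • v ψ) = v χ := by
      funext x
      have hb := blockKernel_mulVec hM hB hχ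
      change _ = pRegularPart p (χ : G → ℂ) x
      rw [← congrFun hb x]
      simp only [Finset.sum_apply, Pi.smul_apply, smul_eq_mul, Matrix.mulVec, dotProduct,
        blockKernel, Matrix.of_apply, classInner, Finset.mul_sum, Finset.sum_mul, hv]
      rw [Finset.sum_comm]
      refine Finset.sum_congr rfl fun z _ => ?_
      rw [← Finset.sum_subtype (Finset.univ.filter (· ∈ B)) (by simp)
        (fun ψ : IrrCharacter G => (Nat.card G : ℂ)⁻¹ * (pRegularPart p (χ : G → ℂ) z *
          conj ((ψ : G → ℂ) z)) * pRegularPart p (ψ : G → ℂ) x)]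
      exact Finset.sum_congr rfl fun ψ _ => by ring
    have hco : ∑ ψ : B, (classInner (v χ) (ψ : G → ℂ) -
        if ψ = ⟨χ, hχ⟩ then (1 : ℂ) else 0) • v ψ = 0 := by
      simp only [sub_smul, Finset.sum_sub_distrib, ite_smul, one_smul, zero_smul,
        Finset.sum_ite_eq', Finset.mem_univ, if_true, hexp, sub_self]
    have h1 := Fintype.linearIndependent_iff.mp hli _ hco ⟨χ, hχ⟩
    rw [if_pos rfl, sub_eq_zero] at h1
    have h2 := classInner_irr χ χ
    rw [if_pos rfl] at h2
    have h3 : ∑ x : G, ((Complex.normSq ((χ : G → ℂ) x) -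
        Complex.normSq (v χ x) : ℝ) : ℂ) = 0 := by
      push_cast
      rw [Finset.sum_sub_distrib, sub_eq_zero]
      have h4 := h2.trans h1.symm
      rw [classInner, classInner] at h4
      have h5 := mul_left_cancel₀ (inv_ne_zero (natCast_card_ne_zero G)) h4
      simp only [← Complex.mul_conj]
      rw [h5]
      refine Finset.sum_congr rfl fun x _ => ?_
      by_cases hx : p ∣ orderOf x
      · simp [hv, pRegularPart_of_singular hx]
      · simp [hv, pRegularPart_of_regular hx]
    rw [← Complex.ofReal_sum, Complex.ofReal_eq_zero,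
      Finset.sum_eq_zero_iff_of_nonneg] at h3
    · simpa [hv, pRegularPart_of_singular hy] using h3 y (Finset.mem_univ _)
    · intro x _
      by_cases hx : p ∣ orderOf x
      · simp [hv, pRegularPart_of_singular hx, Complex.normSq_nonneg]
      · simp [hv, pRegularPart_of_regular hx]
  have h0 : blockDefect p B = 0 → Nat.card B = 1 ∧ blockRank p B = 1 := by
    intro h
    obtain ⟨χ, hχ⟩ := IsPBlock.nonempty hM hB
    have hd := (blockDefect_eq_zero_iff hM hB).mp h χ hχ
    have e : B = {χ} :=
      (IsPBlock.eq_blockOf hM hB hχ).trans (blockOf_eq_singleton hM hd)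
    subst e
    refine ⟨by simp, ?_⟩
    rw [blockRank, Set.image_singleton]
    refine finrank_span_singleton fun e => irr_one_ne_zero χ ?_
    have := congrFun e 1
    rwa [pRegularPart_of_regular (not_dvd_orderOf_one hM)] at this
  have h1 : Nat.card B = blockRank p B → blockDefect p B = 0 := fun h =>
    (blockDefect_eq_zero_iff hM hB).mpr fun χ hχ =>
      ppow_dvd_of_vanish hM (isCharacter_irr χ) (hfull h χ hχ)
  refine ⟨hle, ⟨h0, fun h => h1 (h.1.trans h.2.symm)⟩, ⟨fun h => ?_, h1⟩⟩
  rw [(h0 h).1, (h0 h).2]

end Cfsg.Agent.S4733
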