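import Cfsg.Statements.S4734
import Cfsg.Agent.Lib.Blocks.KernelDescent
import Cfsg.Agent.Lib.Blocks.SecondVanish

set_option autoImplicit false
open Cfsg

namespace Cfsg.Agent.S4734

open CfsgLib.Chars CfsgLib.Blocks CfsgLib.KernelDescent

/-- Let p be a prime, π a set of primes containing p, M a maximal ideal of the algebraic integers containing p, B a p-block of the finite group G with defect group D, and B₁ the block of N_G(D) with defect group D inducing B. Write O_π'(X) for the largest normal subgroup of X whose order has no prime divisor in π, and suppose every element of O_π'(N_G(D)) lies in the kernel of every member of B₁. Let G₀ be a subgroup and B₀ a block of G₀ with defect group D₀ such that C_G(D₀) ≤ G₀ and B₀ induces B. Then every element of O_π'(G₀) lies in the kernel of every member of B₀. -/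
theorem result {G : Type*} [Group G] [Finite G] (p : ℕ) [Fact p.Prime] (M : Ideal Cfsg.AlgInt) (hM : Cfsg.IsPModular p M) (π : Set ℕ) (hpπ : p ∈ π) (B : Set (Cfsg.IrrCharacter G)) (hB : Cfsg.IsPBlock M B) (D : Subgroup G) (hBD : Cfsg.IsDefectGroup p M B D) (B₁ : Set (Cfsg.IrrCharacter ↥(Subgroup.normalizer (D : Set G)))) (hB₁ : Cfsg.IsInducedBlock M (Subgroup.normalizer (D : Set G)) B₁ B) (hB₁D : Cfsg.IsDefectGroup p M B₁ (D.subgroupOf (Subgroup.normalizer (D : Set G)))) (hker : ∀ n : ↥(Subgroup.normalizer (D : Set G)), n ∈ Cfsg.piCore {q | q ∉ π} ↥(Subgroup.normalizer (D : Set G)) → n ∈ Cfsg.blockKer B₁) (G₀ : Subgroup G) (B₀ : Set (Cfsg.IrrCharacter ↥G₀)) (hB₀ : Cfsg.IsInducedBlock M G₀ B₀ B) (D₀ : Subgroup ↥G₀) (hD₀ : Cfsg.IsDefectGroup p M B₀ D₀) (hC : Subgroup.centralizer ((D₀.map G₀.subtype : Subgroup G) : Set G) ≤ G₀) : ∀ x : ↥G₀, x ∈ Cfsg.piCore {q | q ∉ π} ↥G₀ → x ∈ Cfsg.blockKer B₀ := by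
  classical
  haveI : Fintype G := Fintype.ofFinite G
  set ρ : Set ℕ := {q | q ∉ π}
  have hpρ : p ∉ ρ := fun h => h hpπ
  have hd : ∀ Q : Subgroup G, IsPGroup p Q → ∀ θ, Det M B Q θ → KillsOn _ (O ρ Q) θ :=
    down hM hpρ hB hBD hB₁ hB₁D fun ξ hξ n hn => by
      rw [← piCore_normalizer_eq ρ hM.1 hpρ (defectGroup_isPGroup hBD)] at hn
      obtain ⟨m, hm, hmn⟩ := hn
      rw [Subtype.ext hmn] at hm
      exact hker n hm ξ hξ
  have hD₀p := defectGroup_isPGroup hD₀
  obtain ⟨ψ, hψ⟩ := exists_detect hM hB₀.1 hD₀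
  obtain ⟨χ₀, hχ₀⟩ := IsPBlock.nonempty hM hB₀.1
  obtain ⟨χ, hχ⟩ := IsPBlock.nonempty hM hB
  set R : Subgroup G := D₀.map G₀.subtype with hR
  set ψ' := pullIrr (centEquiv D₀ hC) ψ with hψ'
  have hdet : Det M B R ψ' := by
    intro h0
    have hψ2 := hψ
    rw [← brVal_centralizer] at hψ2
    have hf : IsClassFunction G₀ (fun h : G₀ => blockCoeff B (h : G)) := fun a b =>
      blockCoeff_isClassFunction B (a : G) (b : G)
    have k1 := mli_brVal_sub_omega hM hD₀p le_rfl (Subgroup.centralizer_le_normalizer _) ψ hB₀.1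
      hχ₀ hψ2 hf fun h => mlr_blockCoeff hM hB (h : G)
    rw [brVal_centralizer, ← omega_equiv (centEquiv D₀ hC) ψ] at k1
    have k2 := mli_omega_res_of_induced hM hB₀ hχ₀ hχ (blockCoeff_isClassFunction B)
      (mlr_blockCoeff hM hB)
    rw [omega_blockCoeff, indic_of_mem hχ] at k2
    apply not_mli_one hM
    have := mli_sub hM (mli_sub hM h0 k1) k2
    convert this using 1
    rw [show (fun h => blockCoeff B ((centEquiv D₀ hC h : G₀) : G)) =
      fun h : Subgroup.centralizer (R : Set G) => blockCoeff B (h : G) from rfl]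
    ring
  have hk := hd R (hD₀p.map _) ψ' hdet
  intro x hx χ' hχ'
  haveI : (Cfsg.piCore ρ G₀).Normal := Cfsg.piCore_normal ρ G₀
  have hcard : ¬ p ∣ Nat.card (Cfsg.piCore ρ G₀) := fun h =>
    hpρ (CfsgLib.GroupB.Cores.piCore_spec ρ p hM.1 h)
  refine (ker_link hM hD₀p (Cfsg.piCore ρ G₀) hcard hB₀.1 hχ' hψ).mpr (fun y hy => ?_) x hx
  have hle : ((Cfsg.piCore ρ G₀).map G₀.subtype) ⊓ Subgroup.centralizer (R : Set G) ≤ O ρ R := by
    refine le_O ρ inf_le_right (fun c hc a ha => ⟨?_, Subgroup.mul_mem _ (Subgroup.mul_mem _ hc ha.2) (Subgroup.inv_mem _ hc)⟩)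
      fun q hq h => CfsgLib.GroupB.Cores.piCore_spec ρ q hq (by
        have h2 := h.trans (Subgroup.card_dvd_of_le inf_le_left)
        rwa [Subgroup.card_map_of_injective G₀.subtype_injective] at h2)
    obtain ⟨a', ha', rfl⟩ := ha.1
    exact ⟨⟨c, hC hc⟩ * a' * ⟨c, hC hc⟩⁻¹, (Cfsg.piCore_normal ρ G₀).conj_mem a' ha' _, rfl⟩
  have := hk ((centEquiv D₀ hC).symm y) (hle ⟨⟨(y : G₀), hy, rfl⟩, ((centEquiv D₀ hC).symm y).2⟩)
  rwa [hψ', pullIrr_apply, pullIrr_apply, map_one, MulEquiv.apply_symm_apply] at this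

end Cfsg.Agent.S4734
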