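import Cfsg.Statements.S4735
import Cfsg.Agent.Lib.Blocks.Linked
import Cfsg.Agent.Lib.Blocks.NormalPPrime
import Cfsg.Agent.Lib.Blocks.PInflate
import Cfsg.Agent.Lib.Chars.GaloisTwist
import Cfsg.Agent.Lib.Core

set_option autoImplicit false
open Cfsg

namespace Cfsg.Agent.S4735

set_option linter.style.haveILetI false
open CfsgLib.Chars CfsgLib.Blocks

universe v

variable {G : Type v} [Group G] [Fintype G] {p : ℕ} {M : Ideal AlgInt}

theorem regMat_powIrr (hp : p.Prime) {k : ℕ} (hk : k.Coprime (Nat.card G)) (χ ψ : IrrCharacter G) :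
    regMat hp (powIrr hk χ) (powIrr hk ψ) = regMat hp χ ψ := by
  classical
  apply Int.cast_injective (α := ℂ)
  rw [← regMat_spec, ← regMat_spec, regInner_eq, regInner_eq]
  congr 2
  refine Finset.sum_equiv (powCoprime hk.symm) (fun g => ?_) (fun g _ => rfl)
  simp only [Finset.mem_filter, Finset.mem_univ, true_and, powCoprime_apply]
  rw [(Nat.Coprime.of_dvd_left (orderOf_dvd_natCard g) hk.symm).orderOf_pow]

theorem sameBlock_powIrr (hM : IsPModular p M) {k : ℕ} (hk : k.Coprime (Nat.card G)) {χ ψ : IrrCharacter G}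
    (h : SameBlock M (χ : G → ℂ) (ψ : G → ℂ)) :
    SameBlock M (powIrr hk χ : G → ℂ) (powIrr hk ψ : G → ℂ) := by
  obtain ⟨θ, h1, h2⟩ := exists_common_linked hM h
  rw [← regMat_powIrr hM.1 hk] at h1 h2
  exact sameBlock_trans hM (sameBlock_of_regMat_ne hM h1) (sameBlock_symm (sameBlock_of_regMat_ne hM h2))

open Classical in
theorem exists_int_normSq (hM : IsPModular p M) (x : G) :
    ∃ n : ℤ, ∑ χ ∈ Finset.univ.filter (fun χ : IrrCharacter G => χ ∈ principalBlock M G),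
      (χ : G → ℂ) x * (starRingEnd ℂ) ((χ : G → ℂ) x) = (n : ℂ) := by
  set S := Finset.univ.filter (fun χ : IrrCharacter G => χ ∈ principalBlock M G)
  let z : algebraicClosure ℚ ℂ := ∑ χ ∈ S, ⟨_, IsCharacter.mem_algebraicClosure (isCharacter_irr χ) x⟩ *
    ⟨_, IsCharacter.mem_algebraicClosure (isCharacter_irr χ) x⁻¹⟩
  have hz : (z : ℂ) = ∑ χ ∈ S, (χ : G → ℂ) x * (starRingEnd ℂ) ((χ : G → ℂ) x) := by
    change (algebraicClosure ℚ ℂ).val z = _
    simp only [z, map_sum, map_mul]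
    exact Finset.sum_congr rfl fun χ _ => by rw [← IsCharacter.map_inv (isCharacter_irr χ)]; rfl
  have hfix : ∀ σ : algebraicClosure ℚ ℂ →ₐ[ℚ] ℂ, σ z = z := by
    intro σ
    obtain ⟨k, hk, hσ⟩ := exists_coprime_pow_embedding (G := G) σ (Nat.card G) Nat.card_pos
    rw [hz]
    simp only [z, map_sum, map_mul]
    have hin : ∀ χ ∈ S, powIrr hk χ ∈ S := fun χ hχ => by
      refine Finset.mem_filter.mpr ⟨Finset.mem_univ _, ?_⟩
      have h := sameBlock_powIrr hM hk (show SameBlock M (trivIrr G : G → ℂ) (χ : G → ℂ) from (Finset.mem_filter.mp hχ).2)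
      rwa [show powIrr hk (trivIrr G) = trivIrr G from Subtype.ext rfl] at h
    refine Finset.sum_bij (fun χ _ => powIrr hk χ) hin (fun a _ b _ hab => ?_) ?_ (fun χ _ => ?_)
    · refine Subtype.ext (funext fun g => ?_)
      obtain ⟨y, rfl⟩ := (powCoprime hk.symm).surjective g
      rw [powCoprime_apply]
      exact congrFun (congrArg Subtype.val hab) y
    · intro b hb
      obtain ⟨a, ha, hab⟩ := Finset.surjOn_of_injOn_of_card_le (fun χ => powIrr hk χ) hin (fun a _ b _ hab => by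
        refine Subtype.ext (funext fun g => ?_)
        obtain ⟨y, rfl⟩ := (powCoprime hk.symm).surjective g
        rw [powCoprime_apply]
        exact congrFun (congrArg Subtype.val hab) y) le_rfl hb
      exact ⟨a, ha, hab⟩
    · rw [hσ _ (isCharacter_irr χ) x (orderOf_dvd_natCard x), hσ _ (isCharacter_irr χ) x⁻¹ (orderOf_dvd_natCard _),
        ← IsCharacter.map_inv (isCharacter_irr (powIrr hk χ))]
      rfl
  obtain ⟨q, hq⟩ := exists_rat_of_fixed hfix
  rw [hz] at hq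
  have hint : IsIntegral ℤ (q : ℂ) := by
    rw [← hq]
    exact IsIntegral.sum _ fun χ _ => (IsCharacter.isIntegral (isCharacter_irr χ) x).mul
      (by rw [← IsCharacter.map_inv (isCharacter_irr χ)]; exact IsCharacter.isIntegral (isCharacter_irr χ) _)
  have hqi : IsIntegral ℤ q := by
    refine (isIntegral_algebraMap_iff (R := ℤ) (A := ℚ) (B := ℂ) (algebraMap ℚ ℂ).injective).mp ?_
    simpa using hint
  obtain ⟨n, hn⟩ := IsIntegrallyClosed.isIntegral_iff.mp hqi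
  exact ⟨n, by rw [hq, ← hn]; simp⟩

/-- Let p be a prime, M a maximal ideal of the algebraic integers containing p, G a finite group, H = O_p'(G) and Ḡ = G/H. For x ∈ G write λ(G, x) for the sum of |χ(x)|^2 over the irreducible characters χ in the principal p-block of G. Then λ(G, x) is a positive integer, λ(G, x) = λ(Ḡ, x̄) where x̄ is the image of x, and λ(G, x) ≤ #C_Ḡ(x̄). Moreover λ(G, 1) = [G : H] if and only if the principal block is the only p-block of Ḡ. -/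
theorem result {G : Type*} [Group G] [Finite G] (p : ℕ) [Fact p.Prime] (M : Ideal Cfsg.AlgInt) (hM : Cfsg.IsPModular p M) (x : G) : (∃ n : ℕ, 0 < n ∧ ∑ᶠ χ ∈ Cfsg.principalBlock M G, Complex.normSq ((χ : G → ℂ) x) = n) ∧ ∑ᶠ χ ∈ Cfsg.principalBlock M G, Complex.normSq ((χ : G → ℂ) x) = ∑ᶠ ψ ∈ Cfsg.principalBlock M (G ⧸ Cfsg.pPrimeCore p G), Complex.normSq ((ψ : G ⧸ Cfsg.pPrimeCore p G → ℂ) (QuotientGroup.mk x)) ∧ ∑ᶠ χ ∈ Cfsg.principalBlock M G, Complex.normSq ((χ : G → ℂ) x) ≤ (Nat.card ↥(Subgroup.centralizer ({(QuotientGroup.mk x : G ⧸ Cfsg.pPrimeCore p G)} : Set (G ⧸ Cfsg.pPrimeCore p G))) : ℝ) ∧ ((∑ᶠ χ ∈ Cfsg.principalBlock M G, Cfsg.charDegree (χ : G → ℂ) ^ 2) = (Cfsg.pPrimeCore p G).index ↔ ∀ B : Set (Cfsg.IrrCharacter (G ⧸ Cfsg.pPrimeCore p G)), Cfsg.IsPBlock M B → B = Cfsg.principalBlock M (G ⧸ Cfsg.pPrimeCore p G)) := by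
  classical
  haveI := Fintype.ofFinite G
  have hp := (Fact.out : p.Prime)
  haveI hNn : (Cfsg.pPrimeCore p G).Normal := inferInstance
  set N := Cfsg.pPrimeCore p G with hN
  haveI : Fintype (G ⧸ N) := Fintype.ofFinite _
  have hNp : ¬ p ∣ Nat.card N := fun h =>
    hp.ne_one (Nat.eq_one_of_dvd_coprimes (CfsgLib.Core.card_pPrimeCore_coprime (G := G) p) h dvd_rfl)
  set S := Finset.univ.filter (fun χ : IrrCharacter G => χ ∈ principalBlock M G) with hS
  set T := Finset.univ.filter (fun χ : IrrCharacter (G ⧸ N) => χ ∈ principalBlock M (G ⧸ N)) with hT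
  have hSf : ∀ (f : IrrCharacter G → ℝ), ∑ᶠ χ ∈ principalBlock M G, f χ = ∑ χ ∈ S, f χ := fun f => by
    rw [← finsum_mem_coe_finset]; simp [hS]
  have hTf : ∀ (f : IrrCharacter (G ⧸ N) → ℝ), ∑ᶠ χ ∈ principalBlock M (G ⧸ N), f χ = ∑ χ ∈ T, f χ := fun f => by
    rw [← finsum_mem_coe_finset]; simp [hT]
  let infl : IrrCharacter (G ⧸ N) → IrrCharacter G := fun ψ => ⟨_, isIrrCharacter_inflate N ψ⟩
  have hinfl : ∀ ψ ∈ T, infl ψ ∈ S := fun ψ hψ => by
    refine Finset.mem_filter.mpr ⟨Finset.mem_univ _, ?_⟩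
    exact sameBlock_inflate hM N (φ := fun _ => (1 : ℂ)) (Finset.mem_filter.mp hψ).2
  have hsurj : ∀ χ ∈ S, ∃ ψ ∈ T, infl ψ = χ := fun χ hχ => by
    obtain ⟨ψ', h1, h2⟩ := sameBlock_deflate hM N hNp (trivIrr (G ⧸ N)) (ψ := χ) (Finset.mem_filter.mp hχ).2
    exact ⟨ψ', Finset.mem_filter.mpr ⟨Finset.mem_univ _, h2⟩, Subtype.ext h1.symm⟩
  have hinj : ∀ a ∈ T, ∀ b ∈ T, infl a = infl b → a = b := fun a _ b _ h => Subtype.ext (funext fun q => by
    obtain ⟨g, rfl⟩ := QuotientGroup.mk_surjective q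
    exact congrFun (congrArg Subtype.val h) g)
  have heq : ∑ χ ∈ S, Complex.normSq ((χ : G → ℂ) x) =
      ∑ ψ ∈ T, Complex.normSq ((ψ : G ⧸ N → ℂ) (x : G ⧸ N)) :=
    (Finset.sum_bij (fun ψ _ => infl ψ) hinfl hinj (fun χ hχ => by
      obtain ⟨ψ, h1, h2⟩ := hsurj χ hχ; exact ⟨ψ, h1, h2⟩) (fun ψ _ => rfl)).symm
  rw [hSf, hTf]
  refine ⟨?_, heq, ?_, ?_⟩
  · obtain ⟨n, hn⟩ := exists_int_normSq hM x
    simp only [Complex.mul_conj, ← Complex.ofReal_sum] at hn
    have hn' : ∑ χ ∈ S, Complex.normSq ((χ : G → ℂ) x) = (n : ℝ) := by exact_mod_cast hn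
    have hpos : (1 : ℝ) ≤ ∑ χ ∈ S, Complex.normSq ((χ : G → ℂ) x) := by
      refine le_trans ?_ (Finset.single_le_sum (fun χ _ => Complex.normSq_nonneg _)
        (show trivIrr G ∈ S from Finset.mem_filter.mpr ⟨Finset.mem_univ _, self_mem_blockOf hM (trivIrr G)⟩))
      simp [trivIrr]
    rw [hn'] at hpos ⊢
    have h1 : (1 : ℤ) ≤ n := by exact_mod_cast hpos
    obtain ⟨m, rfl⟩ := Int.eq_ofNat_of_zero_le (by omega : (0 : ℤ) ≤ n)
    exact ⟨m, by omega, by simp⟩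
  · rw [heq]
    have h := col_orth (x : G ⧸ N) (x : G ⧸ N)
    rw [if_pos (IsConj.refl _)] at h
    simp only [Complex.mul_conj, ← Complex.ofReal_sum] at h
    have h' : ∑ ψ : IrrCharacter (G ⧸ N), Complex.normSq ((ψ : G ⧸ N → ℂ) (x : G ⧸ N)) =
        (Nat.card ↥(Subgroup.centralizer ({(x : G ⧸ N)} : Set (G ⧸ N))) : ℝ) := by exact_mod_cast h
    rw [← h']
    exact Finset.sum_le_sum_of_subset_of_nonneg (Finset.subset_univ _) fun χ _ _ => Complex.normSq_nonneg _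
  · have h1 : (∑ᶠ χ ∈ principalBlock M G, charDegree (χ : G → ℂ) ^ 2) = ∑ ψ ∈ T, charDegree (ψ : G ⧸ N → ℂ) ^ 2 := by
      rw [show (∑ᶠ χ ∈ principalBlock M G, charDegree (χ : G → ℂ) ^ 2) = ∑ χ ∈ S, charDegree (χ : G → ℂ) ^ 2 by
        rw [← finsum_mem_coe_finset]; simp [hS]]
      exact (Finset.sum_bij (fun ψ _ => infl ψ) hinfl hinj (fun χ hχ => by
        obtain ⟨ψ, h1, h2⟩ := hsurj χ hχ; exact ⟨ψ, h1, h2⟩) (fun ψ _ => rfl)).symm
    rw [h1, Subgroup.index_eq_card, ← sum_deg_sq (G := G ⧸ N)]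
    constructor
    · intro h B hB
      obtain ⟨χ, rfl⟩ := hB
      refine blockOf_eq_of_sameBlock hM ?_ |>.symm
      by_contra hn
      have hlt : ∑ ψ ∈ T, charDegree (ψ : G ⧸ N → ℂ) ^ 2 < ∑ ψ : IrrCharacter (G ⧸ N), charDegree (ψ : G ⧸ N → ℂ) ^ 2 :=
        Finset.sum_lt_sum_of_subset (Finset.subset_univ _) (Finset.mem_univ χ)
          (fun hm => hn (Finset.mem_filter.mp hm).2) (pow_pos (charDegree_pos χ) 2) (fun _ _ _ => Nat.zero_le _)
      omega
    · intro h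
      refine Finset.sum_congr (Finset.eq_univ_iff_forall.mpr fun χ => Finset.mem_filter.mpr ⟨Finset.mem_univ _, ?_⟩) (fun _ _ => rfl)
      rw [← h _ (isPBlock_blockOf χ)]
      exact self_mem_blockOf hM χ

end Cfsg.Agent.S4735
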