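import Cfsg.Statements.S4955
import Cfsg.Agent.Lib.Blocks.Reynolds
import Cfsg.Agent.Lib.Blocks.Contribution
import Cfsg.Agent.Lib.Chars.CycloAvg
import Cfsg.Agent.Lib.Chars.Kernel

set_option autoImplicit false
open Cfsg

namespace Cfsg.Agent.S4955

open CfsgLib.Chars CfsgLib.Blocks
open scoped ComplexConjugate

theorem card_cls_congr {A B : Type*} [Group A] [Group B] [Finite A] [Finite B] (e : A ≃* B) :
    Nat.card (ConjClasses A) = Nat.card (ConjClasses B) := by
  haveI : Finite (ConjClasses A) := Finite.of_surjective _ ConjClasses.mk_surjective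
  haveI : Finite (ConjClasses B) := Finite.of_surjective _ ConjClasses.mk_surjective
  exact le_antisymm
    (Nat.card_le_card_of_surjective _ (ConjClasses.map_surjective (f := e.symm.toMonoidHom) e.symm.surjective))
    (Nat.card_le_card_of_surjective _ (ConjClasses.map_surjective (f := e.toMonoidHom) e.surjective))

theorem card_cent {X : Type*} [Group X] [Finite X] (V G : Subgroup X) (hab : ∀ a ∈ V, ∀ b ∈ V, a * b = b * a)
    (hGV : Subgroup.IsComplement' V G) (v : X) (hv : v ∈ V) :
    Nat.card (Subgroup.centralizer ({v} : Set X)) =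
      Nat.card ↥(G ⊓ Subgroup.centralizer ({v} : Set X)) * Nat.card V := by
  set C := Subgroup.centralizer ({v} : Set X)
  have hVC : V ≤ C := fun a ha => Subgroup.mem_centralizer_singleton_iff.mpr (hab a ha v hv)
  rw [mul_comm, ← Nat.card_prod]
  refine (Nat.card_eq_of_bijective (fun x : V × ↥(G ⊓ C) => (⟨(x.1 : X) * x.2,
    C.mul_mem (hVC x.1.2) (Subgroup.mem_inf.mp x.2.2).2⟩ : C)) ⟨fun x y hxy => ?_, fun c => ?_⟩).symm
  · have h1 : (x.1 : X) * (x.2 : X) = (y.1 : X) * y.2 := congrArg Subtype.val hxy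
    have h2 := hGV.injective (a₁ := (x.1, ⟨x.2, (Subgroup.mem_inf.mp x.2.2).1⟩))
      (a₂ := (y.1, ⟨y.2, (Subgroup.mem_inf.mp y.2.2).1⟩)) h1
    exact Prod.ext (congrArg Prod.fst h2 :)
      (Subtype.ext (congrArg (fun a => ((a.2 : G) : X)) h2))
  · obtain ⟨⟨a, b⟩, h⟩ := hGV.surjective (c : X)
    change (a : X) * b = c at h
    have hb : (b : X) ∈ C := by
      have := C.mul_mem (C.inv_mem (hVC a.2)) c.2
      rwa [← h, inv_mul_cancel_left] at this
    exact ⟨(a, ⟨b, b.2, hb⟩), Subtype.ext h⟩

theorem main {X : Type*} [Group X] [Fintype X] (p : ℕ) [Fact p.Prime] (V : Subgroup X) [V.Normal]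
    (hVp : IsPGroup p V) (hidx : ¬ p ∣ V.index) (hab : ∀ a ∈ V, ∀ b ∈ V, a * b = b * a)
    (v : X) (hv : v ∈ V) :
    Nat.card (ConjClasses X) + Nat.card (X ⧸ V) ≤
      Nat.card (Subgroup.centralizer ({v} : Set X)) + Nat.card (ConjClasses (X ⧸ V)) := by
  classical
  obtain ⟨M, hM⟩ := exists_isPModular (Fact.out : p.Prime)
  have hne : ∀ χ : IrrCharacter X, (χ : X → ℂ) v ≠ 0 := by
    intro χ h0
    have hd : ¬ p ∣ charDegree (χ : X → ℂ) := fun h => hidx (h.trans (Reynolds.ito χ V fun a b =>
      Subtype.ext (hab a a.2 b b.2)))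
    obtain ⟨k, hk⟩ := IsPGroup.iff_orderOf.mp hVp ⟨v, hv⟩
    rw [← Subgroup.orderOf_coe] at hk
    have h1 := mli_char_pElt_mul hM (isCharacter_irr χ) (x := v) (c := 1) hk (Commute.one_right v)
      (by rw [orderOf_one]; exact (Fact.out : p.Prime).not_dvd_one)
    rw [mul_one, h0, zero_sub, irr_apply_one] at h1
    have h2 := mli_neg h1
    rw [neg_neg] at h2
    exact hd ((mli_natCast_iff hM _).mp h2)
  set S := Finset.univ.filter (fun χ : IrrCharacter X =>
    ∀ n ∈ V, (χ : X → ℂ) n = (χ : X → ℂ) 1) with hS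
  haveI : Fintype (X ⧸ V) := Fintype.ofFinite _
  let infl : IrrCharacter (X ⧸ V) → IrrCharacter X := fun ψ => ⟨_, isIrrCharacter_inflate V ψ⟩
  have hinj : Function.Injective infl := fun a b e => by
    apply Subtype.ext
    funext q
    obtain ⟨g, rfl⟩ := QuotientGroup.mk_surjective q
    exact congrFun (congrArg Subtype.val e) g
  have hSim : S = Finset.univ.image infl := by
    ext χ
    simp only [hS, Finset.mem_filter, Finset.mem_univ, true_and, Finset.mem_image]
    constructor
    · intro h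
      obtain ⟨ψ, hψ⟩ := exists_deflate V χ h
      exact ⟨ψ, Subtype.ext hψ.symm⟩
    · rintro ⟨ψ, rfl⟩ n hn
      change (ψ : X ⧸ V → ℂ) (n : X ⧸ V) = (ψ : X ⧸ V → ℂ) ((1 : X) : X ⧸ V)
      rw [(QuotientGroup.eq_one_iff n).mpr hn]
      rfl
  have hScard : S.card = Nat.card (ConjClasses (X ⧸ V)) := by
    rw [hSim, Finset.card_image_of_injective _ hinj, ← card_irr, Finset.card_univ,
      Nat.card_eq_fintype_card]
  have htot : S.card + Sᶜ.card = Nat.card (ConjClasses X) := by
    rw [← card_irr, Nat.card_eq_fintype_card, Finset.card_add_card_compl]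
  have hSsum : ∑ χ ∈ S, (χ : X → ℂ) v * conj ((χ : X → ℂ) v) = (Nat.card (X ⧸ V) : ℂ) := by
    rw [hSim, Finset.sum_image (fun a _ b _ e => hinj e), ← sum_deg_sq, Nat.cast_sum]
    refine Finset.sum_congr rfl fun ψ _ => ?_
    change (ψ : X ⧸ V → ℂ) (v : X ⧸ V) * conj ((ψ : X ⧸ V → ℂ) (v : X ⧸ V)) = _
    rw [(QuotientGroup.eq_one_iff v).mpr hv, irr_apply_one, Complex.conj_natCast, Nat.cast_pow, sq]
  have hall := col_orth v v
  rw [if_pos (IsConj.refl v), ← Finset.sum_add_sum_compl S, hSsum] at hall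
  have h3 := card_le_of_sum_normSq (n := orderOf v) (orderOf_pos v) Sᶜ
    (fun χ : IrrCharacter X => (χ : X → ℂ) v)
    (fun χ _ => char_mem_cycField (isCharacter_irr χ) dvd_rfl)
    (fun χ _ => IsCharacter.isIntegral (isCharacter_irr χ) v) (fun χ _ => hne χ)
    (q := (Nat.card (Subgroup.centralizer ({v} : Set X)) : ℚ) - (Nat.card (X ⧸ V) : ℚ)) (by
      push_cast
      linear_combination hall)
  push_cast at h3
  have h4 : (Sᶜ.card : ℝ) + (Nat.card (X ⧸ V) : ℝ) ≤
      (Nat.card (Subgroup.centralizer ({v} : Set X)) : ℝ) := by linarith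
  have h5 : Sᶜ.card + Nat.card (X ⧸ V) ≤ Nat.card (Subgroup.centralizer ({v} : Set X)) := by
    exact_mod_cast h4
  omega

/-- Let X be a finite group with an abelian normal Sylow p-subgroup V (a normal p-subgroup of index prime to p in which any two elements commute), and let G be a complement to V in X. Then for every v in V, writing C for the centralizer of v in G, the number k(X) of conjugacy classes of X satisfies k(X) ≤ (order of C)·(order of V) − ((order of G) − k(G)); the statement is written with the subtracted term moved to the left. In particular, if some v in V is centralized by no nonidentity element of G, then k(X) is at most the order of V. -/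
theorem result {X : Type*} [Group X] [Finite X] (p : ℕ) [Fact p.Prime] (V : Subgroup X) [V.Normal] (hVp : IsPGroup p V) (hidx : ¬ p ∣ V.index) (hab : ∀ a ∈ V, ∀ b ∈ V, a * b = b * a) (G : Subgroup X) (hGV : Subgroup.IsComplement' V G) (v : X) (hv : v ∈ V) : Nat.card (ConjClasses X) + Nat.card G ≤ Nat.card ↥(G ⊓ Subgroup.centralizer ({v} : Set X)) * Nat.card V + Nat.card (ConjClasses G) := by
  classical
  haveI := Fintype.ofFinite X
  have h := main p V hVp hidx hab v hv
  have e : X ⧸ V ≃* G := hGV.symm.QuotientMulEquiv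
  rwa [card_cent V G hab hGV v hv, Nat.card_congr e.toEquiv, card_cls_congr e] at h

end Cfsg.Agent.S4955
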