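import Cfsg.Statements.S4956
import Mathlib

set_option autoImplicit false
open Cfsg

namespace Cfsg.Agent.S4956

set_option linter.style.haveILetI false

/-- Let X be a finite group, V an abelian normal subgroup of X (any two elements of V commute) and G a complement to V in X whose order is coprime to that of V. Let S be a set of representatives of the orbits of G on V under conjugation: S lies in V and every element of V is conjugate under G to exactly one member of S. Then the number of conjugacy classes of X equals the sum, over s in S, of the number of conjugacy classes of the centralizer of s in G. -/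
theorem result {X : Type*} [Group X] [Finite X] (V : Subgroup X) [V.Normal] (hab : ∀ a ∈ V, ∀ b ∈ V, a * b = b * a) (G : Subgroup X) (hGV : Subgroup.IsComplement' V G) (hcop : (Nat.card V).Coprime (Nat.card G)) (S : Finset X) (hSV : ∀ s ∈ S, s ∈ V) (hrep : ∀ v ∈ V, ∃! s, s ∈ S ∧ ∃ g ∈ G, g * v * g⁻¹ = s) : Nat.card (ConjClasses X) = ∑ s ∈ S, Nat.card (ConjClasses ↥(G ⊓ Subgroup.centralizer ({s} : Set X))) := by
  classical
  obtain ⟨a, ha⟩ : ∃ a : ℕ, a * Nat.card G ≡ 1 [MOD Nat.card V] := by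
    rcases eq_or_ne (Nat.card V) 1 with h | h
    · exact ⟨0, by rw [h]; exact Nat.modEq_one⟩
    · have h1 : 1 < Nat.card V := by have := Nat.card_pos (α := V); omega
      obtain ⟨a, -, ha⟩ := Nat.exists_mul_mod_eq_one_of_coprime hcop.symm h1
      exact ⟨a, by rw [Nat.ModEq, mul_comm, ha, Nat.mod_eq_of_lt h1]⟩
  have hVp : ∀ v ∈ V, v ^ (a * Nat.card G) = v := by
    intro v hv
    conv_rhs => rw [← pow_one v]
    rw [pow_eq_pow_iff_modEq]
    exact ha.of_dvd (Subgroup.orderOf_dvd_natCard V hv)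
  have hGp : ∀ g ∈ G, g ^ (a * Nat.card G) = 1 := fun g hg => by
    rw [← orderOf_dvd_iff_pow_eq_one]
    exact (Subgroup.orderOf_dvd_natCard G hg).trans (dvd_mul_left _ _)
  have hdec : ∀ x : X, ∃ v ∈ V, ∃ g ∈ G, x = v * g := fun x => by
    obtain ⟨⟨⟨v, hv⟩, ⟨g, hg⟩⟩, h⟩ := hGV.2 x
    exact ⟨v, hv, g, hg, h.symm⟩
  have hinf : ∀ x ∈ V, x ∈ G → x = 1 := fun x hx hx' => Subgroup.disjoint_def.mp hGV.disjoint hx hx'
  let Φ : (Σ s : {s // s ∈ S}, ConjClasses ↥(G ⊓ Subgroup.centralizer ({(s : X)} : Set X))) → ConjClasses X :=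
    fun t => Quotient.liftOn t.2 (fun c => ConjClasses.mk ((t.1 : X) * c)) (fun c c' h => by
      obtain ⟨k, hk⟩ := isConj_iff.mp h
      refine ConjClasses.mk_eq_mk_iff_isConj.mpr (isConj_iff.mpr ⟨k, ?_⟩)
      have hks := Subgroup.mem_centralizer_singleton_iff.mp k.2.2
      rw [← hk]
      push_cast
      rw [← mul_assoc, hks]
      group)
  have hΦ : ∀ (s : {s // s ∈ S}) c, Φ ⟨s, ConjClasses.mk c⟩ = ConjClasses.mk ((s : X) * c) := fun _ _ => rfl
  have hbij : Function.Bijective Φ := by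
    constructor
    · rintro ⟨⟨s, hs⟩, C⟩ ⟨⟨s', hs'⟩, C'⟩ h
      obtain ⟨c, rfl⟩ := ConjClasses.mk_surjective C
      obtain ⟨c', rfl⟩ := ConjClasses.mk_surjective C'
      rw [hΦ, hΦ, ConjClasses.mk_eq_mk_iff_isConj, isConj_iff] at h
      obtain ⟨k, hk⟩ := h
      have hsplit : ∀ {t : X} (_ : t ∈ S) (d : ↥(G ⊓ Subgroup.centralizer ({t} : Set X))),
          (t * (d : X)) ^ (a * Nat.card G) = t := fun {t} ht d => by
        rw [(show Commute t (d : X) from (Subgroup.mem_centralizer_singleton_iff.mp d.2.2).symm).mul_pow,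
          hVp t (hSV t ht), hGp _ d.2.1, mul_one]
      have hks : k * s * k⁻¹ = s' := by
        rw [← hsplit hs c, ← conj_pow, hk]
        exact hsplit hs' c'
      have hkc : k * (c : X) * k⁻¹ = c' := by
        have h1 : k * s * k⁻¹ * (k * (c : X) * k⁻¹) = s' * c' := by rw [← hk]; group
        rwa [hks, mul_right_inj] at h1
      obtain ⟨v, hv, g, hg, rfl⟩ := hdec k
      have hgs : g * s * g⁻¹ ∈ V := (inferInstance : V.Normal).conj_mem s (hSV s hs) g
      have hgs' : g * s * g⁻¹ = s' := by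
        rw [← hks, show v * g * s * (v * g)⁻¹ = v * (g * s * g⁻¹) * v⁻¹ by group, hab v hv _ hgs,
          mul_inv_cancel_right]
      obtain rfl : s = s' := by
        obtain ⟨t, -, huniq⟩ := hrep s (hSV s hs)
        exact (huniq s ⟨hs, 1, G.one_mem, by simp⟩).trans (huniq s' ⟨hs', g, hg, hgs'⟩).symm
      have hgc : g ∈ Subgroup.centralizer ({s} : Set X) :=
        Subgroup.mem_centralizer_singleton_iff.mpr (mul_inv_eq_iff_eq_mul.mp hgs')
      have hgcc : g * (c : X) * g⁻¹ = c' := by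
        have hmem : g * (c : X) * g⁻¹ ∈ G := G.mul_mem (G.mul_mem hg c.2.1) (G.inv_mem hg)
        refine mul_inv_eq_one.mp (hinf _ ?_ (G.mul_mem hmem (G.inv_mem c'.2.1)))
        rw [← hkc, show g * (c : X) * g⁻¹ * (v * g * (c : X) * (v * g)⁻¹)⁻¹ =
          ((g * (c : X) * g⁻¹) * v * (g * (c : X) * g⁻¹)⁻¹) * v⁻¹ by group]
        exact V.mul_mem ((inferInstance : V.Normal).conj_mem v hv _) (V.inv_mem hv)
      congr 1
      exact ConjClasses.mk_eq_mk_iff_isConj.mpr (isConj_iff.mpr ⟨⟨g, hg, hgc⟩, Subtype.ext hgcc⟩)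
    · intro C
      obtain ⟨x, rfl⟩ := ConjClasses.mk_surjective C
      set e := a * Nat.card G with he
      obtain ⟨v₁, hv₁, g₁, hg₁, hx⟩ := hdec x
      -- the V-part
      have hu : x ^ e ∈ V := by
        rw [← QuotientGroup.eq_one_iff, QuotientGroup.mk_pow, hx, QuotientGroup.mk_mul,
          (QuotientGroup.eq_one_iff v₁).mpr hv₁, one_mul, ← QuotientGroup.mk_pow, hGp g₁ hg₁,
          QuotientGroup.mk_one]
      set u := x ^ e with hu'
      set w := u⁻¹ * x with hw
      have hux : Commute u x := Commute.pow_self x e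
      have hwu : Commute w u := ((Commute.refl u).inv_left).mul_left hux.symm
      have hwm : w ^ Nat.card G = 1 := by
        have h1 : w ^ e = 1 := by
          rw [hw, hux.inv_left.mul_pow, ← hu', inv_pow, hVp u hu, inv_mul_cancel]
        have h2 : (w ^ Nat.card G) ^ Nat.card V = 1 := by
          rw [← pow_mul, mul_comm, hGV.card_mul]
          exact pow_card_eq_one'
        have h3 : (w ^ Nat.card G) ^ a = 1 := by rw [← pow_mul, mul_comm, ← he, h1]
        have h4 : Nat.Coprime a (Nat.card V) := by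
          rcases eq_or_ne (Nat.card V) 1 with h | h
          · rw [h]; exact Nat.coprime_one_right a
          · have hg : Nat.gcd a (Nat.card V) ∣ 1 := by
              have := (Nat.ModEq.dvd_iff (ha.of_dvd (Nat.gcd_dvd_right a (Nat.card V))) dvd_rfl).mp
                (Dvd.dvd.mul_right (Nat.gcd_dvd_left a _) _)
              exact this
            exact Nat.dvd_one.mp hg
        exact orderOf_eq_one_iff.mp (Nat.eq_one_of_dvd_coprimes h4 (orderOf_dvd_of_pow_eq_one h3)
          (orderOf_dvd_of_pow_eq_one h2))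
      obtain ⟨v₀, hv₀, g₀, hg₀, hw₀⟩ := hdec w
      haveI : IsMulCommutative ↥V := ⟨⟨fun p q => Subtype.ext (hab p p.2 q q.2)⟩⟩
      letI : CommGroup ↥V := { (inferInstance : Group ↥V) with mul_comm := fun p q => Subtype.ext (hab p p.2 q q.2) }
      let ψ : ↥V →* ↥V := (MulAut.conjNormal g₀ : MulAut ↥V).toMonoidHom
      have hψ : ∀ z : ↥V, (ψ z : X) = g₀ * z * g₀⁻¹ := fun z => MulAut.conjNormal_apply g₀ z
      have hmemP : ∀ k : ℕ, w ^ k * (g₀ ^ k)⁻¹ ∈ V := fun k => by
        rw [← QuotientGroup.eq_one_iff, QuotientGroup.mk_mul, QuotientGroup.mk_inv, QuotientGroup.mk_pow,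
          QuotientGroup.mk_pow, hw₀, QuotientGroup.mk_mul, (QuotientGroup.eq_one_iff v₀).mpr hv₀, one_mul,
          mul_inv_cancel]
      let P : ℕ → ↥V := fun k => ⟨_, hmemP k⟩
      have hP : ∀ k, ψ (P k) = P (k + 1) * (⟨v₀, hv₀⟩ : ↥V)⁻¹ := fun k => by
        rw [mul_comm]
        apply Subtype.ext
        rw [hψ, Subgroup.coe_mul, Subgroup.coe_inv]
        show g₀ * (w ^ k * (g₀ ^ k)⁻¹) * g₀⁻¹ = v₀⁻¹ * (w ^ (k + 1) * (g₀ ^ (k + 1))⁻¹)
        rw [pow_succ' w, pow_succ' g₀, mul_inv_rev]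
        nth_rewrite 2 [hw₀]
        group
      set T := ∏ k ∈ Finset.range (Nat.card G), P k with hT
      have hPend : P (Nat.card G) = P 0 := by
        apply Subtype.ext
        show w ^ Nat.card G * (g₀ ^ Nat.card G)⁻¹ = w ^ 0 * (g₀ ^ 0)⁻¹
        rw [hwm, show g₀ ^ Nat.card G = 1 from orderOf_dvd_iff_pow_eq_one.mp (Subgroup.orderOf_dvd_natCard G hg₀)]
        simp
      have hψT : ψ T = T * ((⟨v₀, hv₀⟩ : ↥V) ^ Nat.card G)⁻¹ := by
        rw [hT, map_prod, Finset.prod_congr rfl (fun k _ => hP k), Finset.prod_mul_distrib, Finset.prod_const,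
          Finset.card_range, inv_pow]
        congr 1
        have h1 := Finset.prod_range_succ' P (Nat.card G)
        rw [Finset.prod_range_succ, hPend] at h1
        exact mul_right_cancel h1.symm
      have hone : ((T ^ a : ↥V) : X) * g₀ * ((T ^ a : ↥V) : X)⁻¹ = w := by
        have h1 : (T ^ a) * (ψ (T ^ a))⁻¹ = (⟨v₀, hv₀⟩ : ↥V) := by
          rw [map_pow, hψT, mul_pow, mul_inv_rev, ← mul_assoc, mul_comm (T ^ a), mul_assoc, mul_inv_cancel,
            mul_one, inv_pow, inv_inv, ← pow_mul, mul_comm]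
          exact Subtype.ext (by rw [Subgroup.coe_pow]; exact hVp v₀ hv₀)
        have h2 := congrArg Subtype.val h1
        rw [Subgroup.coe_mul, Subgroup.coe_inv, hψ] at h2
        rw [hw₀, show v₀ = _ from h2.symm]
        group
      set t := ((T ^ a : ↥V) : X)
      have htV : t ∈ V := (T ^ a).2
      obtain ⟨s, ⟨hsS, g, hg, hgs⟩, -⟩ := hrep u hu
      -- u commutes with g₀
      have hug : Commute g₀ u := by
        have h1 : g₀ = t⁻¹ * w * t := by rw [← hone]; group
        have htu : Commute t u := hab t htV u hu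
        rw [h1]
        exact ((htu.inv_left).mul_left hwu).mul_left htu
      have hc : g * g₀ * g⁻¹ ∈ G ⊓ Subgroup.centralizer ({s} : Set X) := by
        refine ⟨G.mul_mem (G.mul_mem hg hg₀) (G.inv_mem hg), Subgroup.mem_centralizer_singleton_iff.mpr ?_⟩
        rw [← hgs]
        calc g * g₀ * g⁻¹ * (g * u * g⁻¹) = g * (g₀ * u) * g⁻¹ := by group
          _ = g * (u * g₀) * g⁻¹ := by rw [hug.eq]
          _ = _ := by group
      refine ⟨⟨⟨s, hsS⟩, ConjClasses.mk ⟨_, hc⟩⟩, ?_⟩
      rw [hΦ, ConjClasses.mk_eq_mk_iff_isConj]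
      show IsConj (s * (g * g₀ * g⁻¹)) x
      refine isConj_iff.mpr ⟨t * g⁻¹, ?_⟩
      have htu : t * u * t⁻¹ = u := by rw [hab t htV u hu, mul_inv_cancel_right]
      calc t * g⁻¹ * (s * (g * g₀ * g⁻¹)) * (t * g⁻¹)⁻¹
          = (t * (g⁻¹ * s * g) * t⁻¹) * (t * g₀ * t⁻¹) := by group
        _ = u * w := by rw [hone, show g⁻¹ * s * g = u by rw [← hgs]; group, htu]
        _ = x := by rw [hw, mul_inv_cancel_left]
  haveI : ∀ s : {s // s ∈ S}, Finite (ConjClasses ↥(G ⊓ Subgroup.centralizer ({(s : X)} : Set X))) :=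
    fun s => inferInstance
  rw [← Nat.card_congr (Equiv.ofBijective Φ hbij), Nat.card_sigma]
  exact Finset.sum_coe_sort S (fun s => Nat.card (ConjClasses ↥(G ⊓ Subgroup.centralizer ({s} : Set X))))

end Cfsg.Agent.S4956
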