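import Cfsg.Statements.S4958
import Cfsg.Agent.Lib.Blocks.Reynolds
import Cfsg.Agent.Lib.Blocks.Contribution
import Cfsg.Agent.Lib.Blocks.KnorrAbelian

set_option autoImplicit false
open Cfsg

namespace Cfsg.Agent.S4958

open CfsgLib.Chars CfsgLib.Blocks
open scoped ComplexConjugate

theorem value_ne_zero {X : Type*} [Group X] [Fintype X] (p : ℕ) [Fact p.Prime] (V : Subgroup X) [V.Normal]
    (hVp : IsPGroup p V) (hidx : ¬ p ∣ V.index) (hab : ∀ a ∈ V, ∀ b ∈ V, a * b = b * a)
    (v : X) (hv : v ∈ V) (χ : IrrCharacter X) : (χ : X → ℂ) v ≠ 0 := by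
  intro h0
  obtain ⟨M, hM⟩ := exists_isPModular (Fact.out : p.Prime)
  have hd : ¬ p ∣ charDegree (χ : X → ℂ) := fun h => hidx (h.trans (Reynolds.ito χ V fun a b =>
    Subtype.ext (hab a a.2 b b.2)))
  obtain ⟨k, hk⟩ := IsPGroup.iff_orderOf.mp hVp ⟨v, hv⟩
  rw [← Subgroup.orderOf_coe] at hk
  have h1 := mli_char_pElt_mul hM (isCharacter_irr χ) (x := v) (c := 1) hk (Commute.one_right v)
    (by rw [orderOf_one]; exact (Fact.out : p.Prime).not_dvd_one)
  rw [mul_one, h0, zero_sub, irr_apply_one] at h1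
  have h2 := mli_neg h1
  rw [neg_neg] at h2
  exact hd ((mli_natCast_iff hM _).mp h2)

theorem coeff_mem {X : Type*} [Group X] [Finite X] {C : Type*} [CommGroup C] [Fintype C]
    (ι : C →* X) (v : X) (hcomm : ∀ c, Commute v (ι c)) {χ : X → ℂ} (hχ : IsCharacter X χ)
    (d : C →* ℂˣ) :
    classInner (fun c => χ (v * ι c)) (homIrr d : C → ℂ) ∈ cycField (orderOf v) ∧
      IsIntegral ℤ (classInner (fun c => χ (v * ι c)) (homIrr d : C → ℂ)) := by
  classical
  set T := Subgroup.zpowers v × C
  haveI : Fintype (Subgroup.zpowers v) := Fintype.ofFinite _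
  let m : T →* X := MonoidHom.noncommCoprod (Subgroup.zpowers v).subtype ι (fun a c => by
    obtain ⟨a, ha⟩ := a
    obtain ⟨i, rfl⟩ := Subgroup.mem_zpowers_iff.mp ha
    exact (hcomm c).zpow_left i)
  have hψ := IsCharacter.comp hχ m
  let v' : Subgroup.zpowers v := ⟨v, Subgroup.mem_zpowers v⟩
  have hexp : ∀ c : C, χ (v * ι c) = ∑ τ : IrrCharacter T,
      classInner (fun t => χ (m t)) (τ : T → ℂ) * (τ : T → ℂ) (v', c) := fun c => by
    rw [← classFunction_expand (IsCharacter.isClassFunction hψ) (v', c)]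
    rfl
  have hsum : classInner (fun c => χ (v * ι c)) (homIrr d : C → ℂ) = ∑ τ : IrrCharacter T,
      classInner (fun t => χ (m t)) (τ : T → ℂ) *
        classInner (fun c => (τ : T → ℂ) (v', c)) (homIrr d : C → ℂ) := by
    simp only [classInner, hexp, Finset.sum_mul, Finset.mul_sum]
    rw [Finset.sum_comm]
    refine Finset.sum_congr rfl fun τ _ => Finset.sum_congr rfl fun c _ => ?_
    exact Finset.sum_congr rfl fun t _ => by ring
  rw [hsum]
  have hterm : ∀ τ : IrrCharacter T,
      (classInner (fun t => χ (m t)) (τ : T → ℂ) *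
        classInner (fun c => (τ : T → ℂ) (v', c)) (homIrr d : C → ℂ)) ∈ cycField (orderOf v) ∧
      IsIntegral ℤ (classInner (fun t => χ (m t)) (τ : T → ℂ) *
        classInner (fun c => (τ : T → ℂ) (v', c)) (homIrr d : C → ℂ)) := by
    intro τ
    obtain ⟨k, hk⟩ := exists_mult hψ τ
    have hTc : ∀ a b : T, a * b = b * a := fun a b => by
      refine Prod.ext (Subtype.ext ?_) (mul_comm _ _)
      obtain ⟨i, hi⟩ := Subgroup.mem_zpowers_iff.mp a.1.2
      obtain ⟨j, hj⟩ := Subgroup.mem_zpowers_iff.mp b.1.2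
      change (a.1 : X) * b.1 = b.1 * a.1
      rw [← hi, ← hj, ← zpow_add, ← zpow_add, add_comm]
    obtain ⟨g, hg⟩ := exists_homIrr τ (charDegree_eq_one_of_comm hTc τ)
    set z : ℂ := (g (v', 1) : ℂ)
    have hz : z ^ orderOf v = 1 := by
      have hv1 : (v', (1 : C)) ^ orderOf v = 1 := by
        refine Prod.ext (Subtype.ext ?_) (one_pow _)
        exact pow_orderOf_eq_one v
      rw [← Units.val_pow_eq_pow_val, ← map_pow, hv1, map_one, Units.val_one]
    have hval : classInner (fun c => (τ : T → ℂ) (v', c)) (homIrr d : C → ℂ) =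
        z * if homIrr (g.comp (MonoidHom.inr _ C)) = homIrr d then 1 else 0 := by
      rw [← classInner_irr, classInner, classInner, ← mul_assoc, mul_comm z, mul_assoc,
        Finset.mul_sum (a := z)]
      congr 1
      refine Finset.sum_congr rfl fun c _ => ?_
      rw [← hg]
      change (g (v', c) : ℂ) * _ = (g (v', 1) : ℂ) * ((g (1, c) : ℂ) * _)
      rw [← mul_assoc, ← Units.val_mul, ← map_mul, Prod.mk_mul_mk, mul_one, one_mul]
    rw [hk, hval]
    have hz' : IsIntegral ℤ z := isIntegral_of_pow_eq_one (orderOf_pos v) hz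
    have hk' : IsIntegral ℤ (k : ℂ) := by simpa using (isIntegral_algebraMap (x := (k : ℤ)) (A := ℂ))
    refine ⟨mul_mem (natCast_mem _ k) (mul_mem (root_mem_cycField hz) ?_), hk'.mul (hz'.mul ?_)⟩
    · split_ifs
      · exact one_mem _
      · exact zero_mem _
    · split_ifs
      · exact isIntegral_one
      · exact isIntegral_zero
  exact ⟨sum_mem fun τ _ => (hterm τ).1, IsIntegral.sum _ fun τ _ => (hterm τ).2⟩

theorem card_cent_mul {X : Type*} [Group X] [Finite X] (p : ℕ) [Fact p.Prime] (V G : Subgroup X)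
    (hVexp : ∀ v ∈ V, v ^ p = 1) (hab : ∀ a ∈ V, ∀ b ∈ V, a * b = b * a)
    (hGV : Subgroup.IsComplement' V G) (hcop : (Nat.card G).Coprime p) (v : X) (hv : v ∈ V)
    (hCab : ∀ a ∈ G ⊓ Subgroup.centralizer ({v} : Set X),
      ∀ b ∈ G ⊓ Subgroup.centralizer ({v} : Set X), a * b = b * a)
    (c : X) (hc : c ∈ G ⊓ Subgroup.centralizer ({v} : Set X)) :
    Nat.card (Subgroup.centralizer ({v * c} : Set X)) =
      Nat.card ↥(G ⊓ Subgroup.centralizer ({v} : Set X)) *
        Nat.card ↥(V ⊓ Subgroup.centralizer ({c} : Set X)) := by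
  set C := G ⊓ Subgroup.centralizer ({v} : Set X)
  have hvc : Commute v c := (Subgroup.mem_centralizer_singleton_iff.mp (Subgroup.mem_inf.mp hc).2).symm
  have hkc : c ^ Nat.card G = 1 := orderOf_dvd_iff_pow_eq_one.mp
    (Subgroup.orderOf_dvd_natCard _ (Subgroup.mem_inf.mp hc).1)
  have hvo : orderOf v ∣ p := orderOf_dvd_of_pow_eq_one (hVexp v hv)
  obtain ⟨j, hj⟩ := exists_pow_eq_self_of_coprime (x := v) (hcop.coprime_dvd_right hvo)
  have hmemv : ∀ x, Commute x (v * c) → Commute x v := by
    intro x hx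
    have h := (hx.pow_right (Nat.card G)).pow_right j
    rwa [hvc.mul_pow, hkc, mul_one, hj] at h
  rw [mul_comm, ← Nat.card_prod]
  refine (Nat.card_eq_of_bijective (fun x : ↥(V ⊓ Subgroup.centralizer ({c} : Set X)) × C =>
    (⟨(x.1 : X) * x.2, ?_⟩ : Subgroup.centralizer ({v * c} : Set X))) ⟨fun x y hxy => ?_, fun x => ?_⟩).symm
  · obtain ⟨⟨a, ha⟩, ⟨g, hg⟩⟩ := x
    have h1 : Commute a (v * c) := Commute.mul_right (hab a (Subgroup.mem_inf.mp ha).1 v hv)
      (Subgroup.mem_centralizer_singleton_iff.mp (Subgroup.mem_inf.mp ha).2)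
    have h2 : Commute g (v * c) := Commute.mul_right
      (Subgroup.mem_centralizer_singleton_iff.mp (Subgroup.mem_inf.mp hg).2) (hCab g hg c hc)
    exact Subgroup.mem_centralizer_singleton_iff.mpr (h1.mul_left h2)
  · have h1 : (x.1 : X) * (x.2 : X) = (y.1 : X) * y.2 := congrArg Subtype.val hxy
    have h2 := hGV.injective (a₁ := (⟨x.1, (Subgroup.mem_inf.mp x.1.2).1⟩, ⟨x.2, (Subgroup.mem_inf.mp x.2.2).1⟩))
      (a₂ := (⟨y.1, (Subgroup.mem_inf.mp y.1.2).1⟩, ⟨y.2, (Subgroup.mem_inf.mp y.2.2).1⟩)) h1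
    exact Prod.ext (Subtype.ext (congrArg (fun a => ((a.1 : V) : X)) h2 :))
      (Subtype.ext (congrArg (fun a => ((a.2 : G) : X)) h2 :))
  · obtain ⟨⟨a, g⟩, h⟩ := hGV.surjective (x : X)
    change (a : X) * g = x at h
    have hx : Commute (x : X) (v * c) := Subgroup.mem_centralizer_singleton_iff.mp x.2
    have hxv := hmemv _ hx
    have hav : Commute (a : X) v := hab a a.2 v hv
    have hgv : Commute (g : X) v := by
      have := hav.inv_left.mul_left hxv
      rwa [← h, inv_mul_cancel_left] at this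
    have hgC : (g : X) ∈ C := ⟨g.2, Subgroup.mem_centralizer_singleton_iff.mpr hgv⟩
    have hac : Commute (a : X) c := by
      have hg : Commute (g : X) (v * c) := hgv.mul_right (hCab g hgC c hc)
      have h1 := hx.mul_left hg.inv_left
      rw [← h, mul_inv_cancel_right] at h1
      have h2 := hav.inv_right.mul_right h1
      rwa [inv_mul_cancel_left] at h2
    exact ⟨(⟨a, a.2, Subgroup.mem_centralizer_singleton_iff.mpr hac⟩, ⟨g, hgC⟩), Subtype.ext h⟩

/-- Let X be a finite group and V a normal subgroup of X in which every element has order dividing the prime p, whose index in X is prime to p and which is its own centralizer in X; so V is an elementary abelian normal Sylow p-subgroup, and any complement G to V in X is a group of order prime to p acting faithfully on the vector space V by conjugation (the coprime linear setting of the k(GV) problem). Let G be a complement to V in X and suppose that for some v in V the centralizer of v in G is abelian. Then the number of conjugacy classes of X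 is at most the order of V (the abelian-stabilizer criterion for the k(GV) problem). -/
theorem result {X : Type*} [Group X] [Finite X] (p : ℕ) [Fact p.Prime] (V : Subgroup X) [V.Normal] (hVexp : ∀ v ∈ V, v ^ p = 1) (hidx : ¬ p ∣ V.index) (hself : Subgroup.centralizer (V : Set X) = V) (G : Subgroup X) (hGV : Subgroup.IsComplement' V G) (v : X) (hv : v ∈ V) (hab : ∀ a ∈ G ⊓ Subgroup.centralizer ({v} : Set X), ∀ b ∈ G ⊓ Subgroup.centralizer ({v} : Set X), a * b = b * a) : Nat.card (ConjClasses X) ≤ Nat.card V := by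
  classical
  haveI := Fintype.ofFinite X
  have hVab : ∀ a ∈ V, ∀ b ∈ V, a * b = b * a := fun a ha b hb =>
    (Subgroup.mem_centralizer_iff.mp (hself.symm ▸ ha : a ∈ Subgroup.centralizer (V : Set X)) b hb).symm
  have hVp : IsPGroup p V := fun x => ⟨1, Subtype.ext (by simpa using hVexp x x.2)⟩
  have hGidx : V.index = Nat.card G := hGV.symm.index_eq_card
  have hcop : (Nat.card G).Coprime p :=
    ((Fact.out : p.Prime).coprime_iff_not_dvd.mpr (hGidx ▸ hidx)).symm
  set C := G ⊓ Subgroup.centralizer ({v} : Set X) with hC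
  letI : CommGroup C :=
    { (inferInstance : Group C) with mul_comm := fun a b => Subtype.ext (hab a a.2 b b.2) }
  haveI : Fintype C := Fintype.ofFinite _
  haveI : Finite (C →* ℂˣ) := Finite.of_injective homIrr homIrr_injective
  haveI : Fintype (C →* ℂˣ) := Fintype.ofFinite _
  obtain ⟨l, hl1, hl2⟩ := KV.exists_list C.subtype V hVp hVab
    (hcop.coprime_dvd_left (Subgroup.card_dvd_of_le inf_le_left)) V le_rfl
    (fun c u hu => (inferInstance : V.Normal).conj_mem u hu _)
  have hcent : ∀ c : C, Commute v (C.subtype c) := fun c =>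
    (Subgroup.mem_centralizer_singleton_iff.mp (Subgroup.mem_inf.mp c.2).2).symm
  have htop : KV.join l = ⊤ := by
    refine KV.eq_top_of_separates _ fun c hc => ?_
    have h1 : (c : X) ∈ V := by
      rw [← hself]
      refine Subgroup.mem_centralizer_iff.mpr fun u hu => ?_
      exact (mul_inv_eq_iff_eq_mul.mp (hl1 c hc u hu)).symm
    exact Subtype.ext (Subgroup.disjoint_def.mp hGV.disjoint h1 (Subgroup.mem_inf.mp c.2).1)
  have h := KV.card_le (orderOf_pos v) (fun (χ : IrrCharacter X) (c : C) => (χ : X → ℂ) (v * C.subtype c))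
    (fun χ => by
      rw [map_one, mul_one]
      exact value_ne_zero p V hVp hidx hVab v hv χ)
    (fun χ d => coeff_mem C.subtype v hcent (isCharacter_irr χ) d)
    (fun c => Nat.card ↥(V ⊓ Subgroup.centralizer ({C.subtype c} : Set X))) (fun c => by
      rw [col_orth, if_pos (IsConj.refl _)]
      exact congrArg Nat.cast (card_cent_mul p V G hVexp hVab hGV hcop v hv hab c c.2))
    l htop hl2
  rwa [card_irr] at h

end Cfsg.Agent.S4958
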