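import Cfsg.Statements.S4964
import Cfsg.Agent.Lib.Blocks.PInflate
import Cfsg.Agent.Lib.Blocks.BrauerHom
import Cfsg.Agent.Lib.GroupB.Coprime
import Cfsg.Agent.Lib.GroupB.CoprimeAbelian

set_option autoImplicit false
open Cfsg

namespace Cfsg.Agent.S4964

open CfsgLib.Chars CfsgLib.Blocks

/-- Let D be a normal p-subgroup of the finite group G, let D′ be its commutator subgroup (normal in G), and fix a maximal ideal M of the algebraic integers containing p. Then (i) two irreducible characters of G ⧸ D′ lie in the same p-block if and only if their inflations to G do, and (ii) every p-block of G contains the inflation of some irreducible character of G ⧸ D′; so inflation induces a bijection between the p-blocks of G ⧸ D′ and the p-blocks of G. -/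
theorem result {G : Type*} [Group G] [Finite G] (p : ℕ) [Fact p.Prime] (M : Ideal Cfsg.AlgInt) (hM : Cfsg.IsPModular p M) (D : Subgroup G) [D.Normal] (hD : IsPGroup p D) : (∀ χ ψ : Cfsg.IrrCharacter (G ⧸ ⁅D, D⁆), Cfsg.SameBlock M (χ : G ⧸ ⁅D, D⁆ → ℂ) (ψ : G ⧸ ⁅D, D⁆ → ℂ) ↔ Cfsg.SameBlock M ((χ : G ⧸ ⁅D, D⁆ → ℂ) ∘ QuotientGroup.mk) ((ψ : G ⧸ ⁅D, D⁆ → ℂ) ∘ QuotientGroup.mk)) ∧ ∀ B : Set (Cfsg.IrrCharacter G), Cfsg.IsPBlock M B → ∃ χ : Cfsg.IrrCharacter (G ⧸ ⁅D, D⁆), ∃ θ ∈ B, (θ : G → ℂ) = (χ : G ⧸ ⁅D, D⁆ → ℂ) ∘ QuotientGroup.mk := by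
  classical
  haveI : Fintype G := Fintype.ofFinite G
  haveI : Fintype (G ⧸ ⁅D, D⁆) := Fintype.ofFinite _
  have hle : ⁅D, D⁆ ≤ D := Subgroup.commutator_le_left D D
  have hQ : IsPGroup p (⁅D, D⁆ : Subgroup G) := hD.to_le hle
  refine ⟨fun χ ψ => ⟨sameBlock_inflate hM _, fun h => sameBlock_deflate_of_lift hM _ h fun q hq => ?_⟩,
    fun B hB => exists_inflate_mem hM _ hQ hB⟩
  obtain ⟨g, hgq, hg⟩ := exists_regular_lift hM.1 _ hq
  haveI : (D.map (QuotientGroup.mk' ⁅D, D⁆)).Normal :=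
    Subgroup.Normal.map inferInstance _ (QuotientGroup.mk'_surjective _)
  by_cases hqc : q ∈ Subgroup.centralizer
      ((D.map (QuotientGroup.mk' ⁅D, D⁆) : Subgroup (G ⧸ ⁅D, D⁆)) : Set (G ⧸ ⁅D, D⁆))
  · refine Or.inl ⟨g, hgq, ?_⟩
    have hcomm : ⁅D, Subgroup.zpowers g⁆ ≤ ⁅D, D⁆ := by
      rw [Subgroup.commutator_le]
      intro d hd a ha
      obtain ⟨i, rfl⟩ := ha
      rw [← QuotientGroup.eq_one_iff, ← QuotientGroup.mk'_apply, map_commutatorElement,
        commutatorElement_eq_one_iff_mul_comm, map_zpow]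
      have h1 : Commute (QuotientGroup.mk' ⁅D, D⁆ d) (QuotientGroup.mk' ⁅D, D⁆ g) := by
        rw [QuotientGroup.mk'_apply _ g, hgq]
        exact Subgroup.mem_centralizer_iff.mp hqc _ ⟨d, hd, rfl⟩
      exact h1.zpow_right i
    have hAG : Subgroup.zpowers g ≤ Subgroup.normalizer (D : Set G) := by
      rw [Subgroup.normalizer_eq_top]; exact le_top
    have hcop : (Nat.card (Subgroup.zpowers g)).Coprime (Nat.card D) := by
      obtain ⟨n, hn⟩ := IsPGroup.iff_card.mp hD
      rw [Nat.card_zpowers, hn]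
      exact Nat.Coprime.pow_right n (hM.1.coprime_iff_not_dvd.mpr hg).symm
    haveI : Group.IsNilpotent D := IsPGroup.isNilpotent hD
    have hsup := CfsgLib.GroupB.Coprime.centralizer_sup_commutator hAG hcop (Or.inl inferInstance)
    set W := D ⊓ Subgroup.centralizer (Subgroup.zpowers g : Set G)
    have htop : W.subgroupOf D = ⊤ := by
      refine CfsgLib.GroupB.CoprimeAbelian.eq_top_of_sup_commutator_eq_top (top_le_iff.mp ?_)
      rintro ⟨d, hd⟩ -
      have h1 : d ∈ (W.subgroupOf D ⊔ commutator D).map D.subtype := by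
        rw [Subgroup.map_sup, Subgroup.map_subgroupOf_eq_of_le inf_le_left, Subgroup.map_subtype_commutator]
        exact sup_le_sup_left hcomm _ (hsup.ge hd)
      obtain ⟨e, he, he'⟩ := h1
      exact (Subtype.ext he' : e = ⟨d, hd⟩) ▸ he
    have hgc : g ∈ Subgroup.centralizer (D : Set G) := Subgroup.mem_centralizer_iff.mpr fun d hd => by
      have h1 : d ∈ W := Subgroup.subgroupOf_eq_top.mp htop hd
      exact (Subgroup.mem_centralizer_iff.mp h1.2 g (Subgroup.mem_zpowers g)).symm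
    rw [relIndex_eq_one_of_centralizes hM _ hQ hg (Subgroup.centralizer_le hle hgc)]
    exact hM.1.not_dvd_one
  · exact Or.inr fun θ => mli_centralChar_of_notMem hM _ (hD.map _) θ hqc

end Cfsg.Agent.S4964
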