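import Cfsg.Statements.S4965
import Mathlib

set_option autoImplicit false
open Cfsg

namespace Cfsg.Agent.S4965

/-- Let X be a finite group with an abelian normal subgroup V (any two elements of V commute), and let φ be the action of X ⧸ V on V induced by conjugation (well defined because V is abelian; the hypothesis hφ says that the class of x acts as conjugation by x). Then X has at most as many conjugacy classes as the semidirect product of V by X ⧸ V formed with this action: the split extension has the largest class number among extensions with the given action. -/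
theorem result {X : Type*} [Group X] [Finite X] (V : Subgroup X) [V.Normal] (hab : ∀ a ∈ V, ∀ b ∈ V, a * b = b * a) (φ : X ⧸ V →* MulAut ↥V) (hφ : ∀ (x : X) (v : ↥V), ((φ (QuotientGroup.mk x) v : ↥V) : X) = x * v * x⁻¹) : Nat.card (ConjClasses X) ≤ Nat.card (ConjClasses (SemidirectProduct ↥V (X ⧸ V) φ)) := by
  classical
  haveI : Finite (SemidirectProduct ↥V (X ⧸ V) φ) := Finite.of_equiv _ SemidirectProduct.equivProd.symm
  have hcardS : Nat.card (SemidirectProduct ↥V (X ⧸ V) φ) = Nat.card X := by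
    rw [Nat.card_congr SemidirectProduct.equivProd, Nat.card_prod,
      Subgroup.card_eq_card_quotient_mul_card_subgroup V, mul_comm]
  let P := {q : (X ⧸ V) × (X ⧸ V) // ∃ x y : X, Commute x y ∧ QuotientGroup.mk x = q.1 ∧ QuotientGroup.mk y = q.2}
  choose x₀ y₀ hc h1 h2 using fun q : P => q.2
  let toP : {p : X × X // Commute p.1 p.2} → P := fun p =>
    ⟨(QuotientGroup.mk p.1.1, QuotientGroup.mk p.1.2), p.1.1, p.1.2, p.2, rfl, rfl⟩
  have memA : ∀ p : {p : X × X // Commute p.1 p.2}, p.1.1 * (x₀ (toP p))⁻¹ ∈ V := fun p => by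
    rw [← QuotientGroup.eq_one_iff, QuotientGroup.mk_mul, QuotientGroup.mk_inv, h1]
    exact mul_inv_cancel _
  have memB : ∀ p : {p : X × X // Commute p.1 p.2}, p.1.2 * (y₀ (toP p))⁻¹ ∈ V := fun p => by
    rw [← QuotientGroup.eq_one_iff, QuotientGroup.mk_mul, QuotientGroup.mk_inv, h2]
    exact mul_inv_cancel _
  let F : {p : X × X // Commute p.1 p.2} →
      SemidirectProduct ↥V (X ⧸ V) φ × SemidirectProduct ↥V (X ⧸ V) φ := fun p =>
    (⟨⟨_, memA p⟩, QuotientGroup.mk p.1.1⟩, ⟨⟨_, memB p⟩, QuotientGroup.mk p.1.2⟩)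
  have hF : ∀ p, Commute (F p).1 (F p).2 := by
    intro p
    apply SemidirectProduct.ext
    · simp only [F, SemidirectProduct.mul_left]
      apply Subtype.ext
      rw [Subgroup.coe_mul, Subgroup.coe_mul, ← show QuotientGroup.mk (x₀ (toP p)) = (QuotientGroup.mk p.1.1 : X ⧸ V) from h1 _,
        ← show QuotientGroup.mk (y₀ (toP p)) = (QuotientGroup.mk p.1.2 : X ⧸ V) from h2 _, hφ, hφ]
      show p.1.1 * (x₀ (toP p))⁻¹ * (x₀ (toP p) * (p.1.2 * (y₀ (toP p))⁻¹) * (x₀ (toP p))⁻¹) =
        p.1.2 * (y₀ (toP p))⁻¹ * (y₀ (toP p) * (p.1.1 * (x₀ (toP p))⁻¹) * (y₀ (toP p))⁻¹)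
      have e : (y₀ (toP p))⁻¹ * (x₀ (toP p))⁻¹ = (x₀ (toP p))⁻¹ * (y₀ (toP p))⁻¹ :=
        ((hc (toP p)).symm.inv_inv).eq
      calc p.1.1 * (x₀ (toP p))⁻¹ * (x₀ (toP p) * (p.1.2 * (y₀ (toP p))⁻¹) * (x₀ (toP p))⁻¹)
          = p.1.1 * p.1.2 * ((y₀ (toP p))⁻¹ * (x₀ (toP p))⁻¹) := by group
        _ = p.1.2 * p.1.1 * ((x₀ (toP p))⁻¹ * (y₀ (toP p))⁻¹) := by rw [e, p.2.eq]
        _ = _ := by group
    · simp only [F, SemidirectProduct.mul_right]
      rw [← QuotientGroup.mk_mul, ← QuotientGroup.mk_mul, p.2.eq]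
  have hinj : Function.Injective fun p => (⟨F p, hF p⟩ :
      {p : SemidirectProduct ↥V (X ⧸ V) φ × SemidirectProduct ↥V (X ⧸ V) φ // Commute p.1 p.2}) := by
    intro p q h
    have h' := congrArg Subtype.val h
    simp only [F, Prod.mk.injEq, SemidirectProduct.ext_iff, Subtype.mk.injEq] at h'
    obtain ⟨⟨ha, hg⟩, hb, hh⟩ := h'
    have hq : toP p = toP q := Subtype.ext (Prod.ext hg hh)
    rw [hq, mul_left_inj] at ha hb
    exact Subtype.ext (Prod.ext ha hb)
  have hle := Nat.card_le_card_of_injective _ hinj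
  rw [card_comm_eq_card_conjClasses_mul_card, card_comm_eq_card_conjClasses_mul_card, hcardS] at hle
  exact Nat.le_of_mul_le_mul_right hle Nat.card_pos

end Cfsg.Agent.S4965
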