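import Cfsg.Statements.S4966
import Mathlib

set_option autoImplicit false
open Cfsg

namespace Cfsg.Agent.S4966

set_option maxHeartbeats 400000
universe u v w

variable {F : Type u} [Field F] {G : Type w} [Group G] {V : Type v} [AddCommGroup V] [Module F V]

/-- Stability of a subspace. -/
def Stab (ρ : Representation F G V) (U : Submodule F V) : Prop := ∀ g : G, ∀ u ∈ U, ρ g u ∈ U

/-- Right separation of a form on a subspace. -/
def Sep (B : LinearMap.BilinForm F V) (U : Submodule F V) : Prop :=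
  ∀ u ∈ U, (∀ x ∈ U, B x u = 0) → u = 0

/-- Invariance of a form. -/
def Inv (ρ : Representation F G V) (B : LinearMap.BilinForm F V) : Prop :=
  ∀ g : G, ∀ x y : V, B (ρ g x) (ρ g y) = B x y

variable {ρ : Representation F G V} {B : LinearMap.BilinForm F V}

theorem rho_inv (g : G) (x : V) : ρ g (ρ g⁻¹ x) = x := by
  rw [← Module.End.mul_apply, ← map_mul, mul_inv_cancel, map_one, Module.End.one_apply]

theorem stab_rightPerp (hB : Inv ρ B) {X : Submodule F V} (hX : Stab ρ X) (g : G) {v : V}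
    (hv : ∀ x ∈ X, B x v = 0) : ∀ x ∈ X, B x (ρ g v) = 0 := fun x hx => by
  rw [← rho_inv (ρ := ρ) g x, hB]
  exact hv _ (hX g⁻¹ x hx)

theorem stab_leftPerp (hB : Inv ρ B) {X : Submodule F V} (hX : Stab ρ X) (g : G) {v : V}
    (hv : ∀ x ∈ X, B v x = 0) : ∀ x ∈ X, B (ρ g v) x = 0 := fun x hx => by
  rw [← rho_inv (ρ := ρ) g x, hB]
  exact hv _ (hX g⁻¹ x hx)

/-- The right orthogonal. -/
def rPerp (B : LinearMap.BilinForm F V) (X : Submodule F V) : Submodule F V where
  carrier := {v | ∀ x ∈ X, B x v = 0}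
  add_mem' := fun {a b} ha hb x hx => by rw [map_add, ha x hx, hb x hx, add_zero]
  zero_mem' := fun x _ => map_zero _
  smul_mem' := fun c v hv x hx => by rw [map_smul, hv x hx, smul_zero]

/-- The left orthogonal. -/
def lPerp (B : LinearMap.BilinForm F V) (X : Submodule F V) : Submodule F V where
  carrier := {v | ∀ x ∈ X, B v x = 0}
  add_mem' := fun {a b} ha hb x hx => by simp [ha x hx, hb x hx]
  zero_mem' := fun x _ => by simp
  smul_mem' := fun c v hv x hx => by simp [hv x hx]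

theorem mem_rPerp {X : Submodule F V} {v : V} : v ∈ rPerp B X ↔ ∀ x ∈ X, B x v = 0 := Iff.rfl
theorem mem_lPerp {X : Submodule F V} {v : V} : v ∈ lPerp B X ↔ ∀ x ∈ X, B v x = 0 := Iff.rfl

/-- A minimal stable subspace. -/
def Minimal' (ρ : Representation F G V) (X : Submodule F V) : Prop :=
  Stab ρ X ∧ X ≠ ⊥ ∧ ∀ Y ≤ X, Stab ρ Y → Y = ⊥ ∨ Y = X

variable [FiniteDimensional F V]

theorem exists_minimal (U : Submodule F V) (hU : Stab ρ U) (h0 : U ≠ ⊥) :
    ∃ X ≤ U, Minimal' ρ X := by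
  generalize hn : Module.finrank F U = n
  induction n using Nat.strong_induction_on generalizing U with
  | _ n ih =>
    by_cases hmin : ∀ Y ≤ U, Stab ρ Y → Y = ⊥ ∨ Y = U
    · exact ⟨U, le_rfl, hU, h0, hmin⟩
    · push Not at hmin
      obtain ⟨Y, hYU, hY, hY0, hYne⟩ := hmin
      obtain ⟨X, hX, hXm⟩ := ih _ (hn ▸ Submodule.finrank_lt_finrank_of_lt (lt_of_le_of_ne hYU hYne)) Y hY hY0 rfl
      exact ⟨X, hX.trans hYU, hXm⟩

theorem maschke [Fintype G] (hc : (Fintype.card G : F) ≠ 0) (W : Submodule F V) (hW : Stab ρ W) :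
    ∃ K : Submodule F V, Stab ρ K ∧ IsCompl W K := by
  obtain ⟨K0, hK0⟩ := exists_isCompl W
  let π0 : V →ₗ[F] V := W.subtype.comp (W.projectionOnto K0 hK0)
  let e : V →ₗ[F] V := (Fintype.card G : F)⁻¹ • ∑ g : G, (ρ g).comp (π0.comp (ρ g⁻¹))
  have hea : ∀ v, e v = (Fintype.card G : F)⁻¹ • ∑ g : G, ρ g (π0 (ρ g⁻¹ v)) := fun v => by
    simp [e]
  have hw : ∀ w ∈ W, e w = w := by
    intro w hw
    rw [hea, Finset.sum_congr rfl (g := fun _ => w) fun g _ => by
      rw [show π0 (ρ g⁻¹ w) = ρ g⁻¹ w by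
        have := Submodule.projectionOnto_apply_left hK0 ⟨ρ g⁻¹ w, hW _ _ hw⟩
        simp only [π0, LinearMap.comp_apply, Submodule.subtype_apply, this]
      ]
      exact rho_inv g w]
    rw [Finset.sum_const, Finset.card_univ, ← Nat.cast_smul_eq_nsmul F, smul_smul, inv_mul_cancel₀ hc, one_smul]
  have hmem : ∀ v, e v ∈ W := fun v => by
    rw [hea]
    exact W.smul_mem _ (W.sum_mem fun g _ => hW g _ (W.projectionOnto K0 hK0 _).2)
  refine ⟨LinearMap.ker e, fun g u hu => ?_, ⟨?_, ?_⟩⟩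
  · rw [LinearMap.mem_ker] at hu ⊢
    have : e (ρ g u) = ρ g (e u) := by
      rw [hea, hea, map_smul, map_sum, ← Equiv.sum_comp (Equiv.mulLeft g)]
      congr 1
      refine Finset.sum_congr rfl fun h _ => ?_
      simp only [Equiv.coe_mulLeft, map_mul, Module.End.mul_apply, mul_inv_rev]
      congr 3
      have := rho_inv (ρ := ρ) g⁻¹ u
      rw [inv_inv] at this
      rw [this]
    rw [this, hu, map_zero]
  · rw [Submodule.disjoint_def]
    intro v hv hk
    rw [← hw v hv]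
    exact hk
  · rw [codisjoint_iff, eq_top_iff]
    intro v _
    rw [show v = e v + (v - e v) by abel]
    exact Submodule.add_mem_sup (hmem v) (by rw [LinearMap.mem_ker, map_sub, hw _ (hmem v), sub_self])

theorem isCompl_rPerp {Z : Submodule F V} (hZ : Sep B Z) : IsCompl Z (rPerp B Z) := by
  let φ : Z →ₗ[F] Module.Dual F Z := LinearMap.flip (LinearMap.domRestrict₁₂ B Z Z)
  have hφ : ∀ a b : Z, φ a b = B (b : V) (a : V) := fun a b => rfl
  have hinj : Function.Injective φ := (injective_iff_map_eq_zero φ).mpr fun a ha => Subtype.ext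
    (hZ a a.2 fun x hx => by simpa [hφ] using LinearMap.congr_fun ha (⟨x, hx⟩ : Z))
  have hsurj : Function.Surjective φ :=
    (LinearMap.injective_iff_surjective_of_finrank_eq_finrank Subspace.dual_finrank_eq.symm).mp hinj
  refine ⟨Submodule.disjoint_def.mpr fun v hv hk => hZ v hv hk, ?_⟩
  rw [codisjoint_iff, eq_top_iff]
  intro v _
  obtain ⟨z, hz⟩ := hsurj ((B.flip v).comp Z.subtype)
  rw [show v = (z : V) + (v - z) by abel]
  refine Submodule.add_mem_sup z.2 fun x hx => ?_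
  have := LinearMap.congr_fun hz (⟨x, hx⟩ : Z)
  rw [hφ] at this
  simp only [LinearMap.comp_apply, Submodule.subtype_apply, LinearMap.BilinForm.flip_apply] at this
  rw [map_sub, this]; simp

/-- Either an alternating or (trivial in characteristic two) symmetric form. -/
def Good (ρ : Representation F G V) (p : ℕ) (U W : Submodule F V) : Prop :=
  Stab ρ U ∧ Stab ρ W ∧ Disjoint U W ∧
    (∃ A : LinearMap.BilinForm F V, (∀ x, A x x = 0) ∧
      (∀ g : G, ∀ x ∈ U, ∀ y ∈ U, A (ρ g x) (ρ g y) = A x y) ∧ (∀ x ∈ U, (∀ y ∈ U, A x y = 0) → x = 0)) ∧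
    (∃ S : LinearMap.BilinForm F V, (∀ x y, S x y = S y x) ∧
      (∀ g : G, ∀ x ∈ W, ∀ y ∈ W, S (ρ g x) (ρ g y) = S x y) ∧ (∀ x ∈ W, (∀ y ∈ W, S x y = 0) → x = 0)) ∧
    (p = 2 → ∀ g : G, ∀ w ∈ W, ρ g w = w)

variable {p : ℕ} [CharP F p]

/-- A nonzero piece of one of the two types with nondegenerate restricted form. -/
theorem exists_piece [Fintype G] (hc : (Fintype.card G : F) ≠ 0) (hB : Inv ρ B) {U : Submodule F V}
    (hU : Stab ρ U) (hs : Sep B U) (h0 : U ≠ ⊥) :
    ∃ Z ≤ U, Z ≠ ⊥ ∧ Sep B Z ∧ Stab ρ Z ∧ (Good ρ p Z ⊥ ∨ Good ρ p ⊥ Z) := by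
  have hbot : Stab ρ (⊥ : Submodule F V) := fun g u hu => by
    rw [Submodule.mem_bot] at hu; rw [hu, map_zero]; exact zero_mem _
  have good0 : ∀ (Z : Submodule F V), Stab ρ Z → (∃ A : LinearMap.BilinForm F V, (∀ x, A x x = 0) ∧
      (∀ g : G, ∀ x ∈ Z, ∀ y ∈ Z, A (ρ g x) (ρ g y) = A x y) ∧ (∀ x ∈ Z, (∀ y ∈ Z, A x y = 0) → x = 0)) →
      Good ρ p Z ⊥ := fun Z hZ hA => ⟨hZ, hbot, disjoint_bot_right, hA,
        ⟨0, by simp, by simp, fun x hx _ => (Submodule.mem_bot F).mp hx⟩,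
        fun _ g w hw => by rw [(Submodule.mem_bot F).mp hw, map_zero]⟩
  have good1 : ∀ (Z : Submodule F V), Stab ρ Z → (∃ S : LinearMap.BilinForm F V, (∀ x y, S x y = S y x) ∧
      (∀ g : G, ∀ x ∈ Z, ∀ y ∈ Z, S (ρ g x) (ρ g y) = S x y) ∧ (∀ x ∈ Z, (∀ y ∈ Z, S x y = 0) → x = 0)) →
      (p = 2 → ∀ g : G, ∀ w ∈ Z, ρ g w = w) → Good ρ p ⊥ Z := fun Z hZ hS h2 => ⟨hbot, hZ, disjoint_bot_left,
        ⟨0, by simp, by simp, fun x hx _ => (Submodule.mem_bot F).mp hx⟩, hS, h2⟩
  obtain ⟨X, hXU, hX, hX0, hXmin⟩ := exists_minimal U hU h0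
  have hstR : ∀ {Y : Submodule F V}, Stab ρ Y → Stab ρ (rPerp B Y) := fun hY g v hv => stab_rightPerp hB hY g hv
  have hstL : ∀ {Y : Submodule F V}, Stab ρ Y → Stab ρ (lPerp B Y) := fun hY g v hv => stab_leftPerp hB hY g hv
  have hinf : ∀ {Y Y' : Submodule F V}, Stab ρ Y → Stab ρ Y' → Stab ρ (Y ⊓ Y') :=
    fun h h' g v hv => ⟨h g v hv.1, h' g v hv.2⟩
  have hsup : ∀ {Y Y' : Submodule F V}, Stab ρ Y → Stab ρ Y' → Stab ρ (Y ⊔ Y') := fun h h' g v hv => by
    obtain ⟨a, ha, b, hb, rfl⟩ := Submodule.mem_sup.mp hv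
    rw [map_add]; exact Submodule.add_mem_sup (h g a ha) (h' g b hb)
  by_cases hXB : ∀ x ∈ X, ∀ y ∈ X, B x y = 0
  · -- a hyperbolic piece
    have minR : ∀ Y, Minimal' ρ Y → (∃ x ∈ X, ∃ y ∈ Y, B x y ≠ 0) →
        (∀ y ∈ Y, (∀ x ∈ X, B x y = 0) → y = 0) ∧ (∀ x ∈ X, (∀ y ∈ Y, B x y = 0) → x = 0) := by
      rintro Y ⟨hY, -, hYm⟩ ⟨x₀, hx₀, y₀, hy₀, hne⟩
      constructor
      · intro y hy h
        rcases hYm (Y ⊓ rPerp B X) inf_le_left (hinf hY (hstR hX)) with e | e
        · exact (Submodule.mem_bot F).mp (e ▸ (show y ∈ Y ⊓ rPerp B X from ⟨hy, h⟩))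
        · exact absurd ((e.symm ▸ hy₀ : y₀ ∈ Y ⊓ rPerp B X).2 x₀ hx₀) hne
      · intro x hx h
        rcases hXmin (X ⊓ lPerp B Y) inf_le_left (hinf hX (hstL hY)) with e | e
        · exact (Submodule.mem_bot F).mp (e ▸ (show x ∈ X ⊓ lPerp B Y from ⟨hx, h⟩))
        · exact absurd ((e.symm ▸ hx₀ : x₀ ∈ X ⊓ lPerp B Y).2 y₀ hy₀) hne
    have minL : ∀ Y, Minimal' ρ Y → (∃ x ∈ X, ∃ y ∈ Y, B y x ≠ 0) →
        (∀ x ∈ X, (∀ y ∈ Y, B y x = 0) → x = 0) ∧ (∀ y ∈ Y, (∀ x ∈ X, B y x = 0) → y = 0) := by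
      rintro Y ⟨hY, -, hYm⟩ ⟨x₀, hx₀, y₀, hy₀, hne⟩
      constructor
      · intro x hx h
        rcases hXmin (X ⊓ rPerp B Y) inf_le_left (hinf hX (hstR hY)) with e | e
        · exact (Submodule.mem_bot F).mp (e ▸ (show x ∈ X ⊓ rPerp B Y from ⟨hx, h⟩))
        · exact absurd ((e.symm ▸ hx₀ : x₀ ∈ X ⊓ rPerp B Y).2 y₀ hy₀) hne
      · intro y hy h
        rcases hYm (Y ⊓ lPerp B X) inf_le_left (hinf hY (hstL hX)) with e | e
        · exact (Submodule.mem_bot F).mp (e ▸ (show y ∈ Y ⊓ lPerp B X from ⟨hy, h⟩))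
        · exact absurd ((e.symm ▸ hy₀ : y₀ ∈ Y ⊓ lPerp B X).2 x₀ hx₀) hne
    have exY : ∀ P : Submodule F V, Stab ρ P → ¬ U ≤ P → ∃ Y ≤ U, Minimal' ρ Y ∧ ¬ Y ≤ P := by
      intro P hP hUP
      obtain ⟨K, hK, hPK⟩ := maschke hc (U ⊓ P) (hinf hU hP)
      have hne : U ⊓ K ≠ ⊥ := fun e => hUP fun u hu => by
        obtain ⟨a, ha, b, hb, hab⟩ := Submodule.mem_sup.mp
          (hPK.sup_eq_top ▸ Submodule.mem_top : u ∈ (U ⊓ P) ⊔ K)
        have hbU : b ∈ U ⊓ K := ⟨by rw [show b = u - a by rw [← hab]; abel]; exact U.sub_mem hu ha.1, hb⟩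
        rw [e, Submodule.mem_bot] at hbU
        rw [← hab, hbU, add_zero]; exact ha.2
      obtain ⟨Y, hY, hYm⟩ := exists_minimal (U ⊓ K) (hinf hU hK) hne
      refine ⟨Y, hY.trans inf_le_left, hYm, fun h => hYm.2.1 (le_bot_iff.mp fun y hy => ?_)⟩
      exact (Submodule.mem_bot F).mpr (Submodule.disjoint_def.mp hPK.disjoint y ⟨(hY hy).1, h hy⟩ (hY hy).2)
    obtain ⟨x₁, hx₁, hx₁0⟩ := Submodule.exists_mem_ne_zero_of_ne_bot hX0
    have hUR : ¬ U ≤ rPerp B X := by
      intro h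
      -- otherwise X is left orthogonal to U, so U's form is degenerate
      let φ : U →ₗ[F] Module.Dual F U := LinearMap.flip (LinearMap.domRestrict₁₂ B U U)
      have hinj : Function.Injective φ := (injective_iff_map_eq_zero φ).mpr fun a ha => Subtype.ext
        (hs a a.2 fun x hx => LinearMap.congr_fun ha (⟨x, hx⟩ : U))
      have hsurj := (LinearMap.injective_iff_surjective_of_finrank_eq_finrank Subspace.dual_finrank_eq.symm).mp hinj
      have hx : (⟨x₁, hXU hx₁⟩ : U) = 0 := by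
        by_contra hne
        obtain ⟨f, hf⟩ := Module.Projective.exists_dual_ne_zero F hne
        obtain ⟨u, rfl⟩ := hsurj f
        exact hf (h u.2 x₁ hx₁)
      exact hx₁0 (congrArg Subtype.val hx)
    have hUL : ¬ U ≤ lPerp B X := fun h => hx₁0 (hs x₁ (hXU hx₁) fun u hu => h hu x₁ hx₁)
    obtain ⟨Y0, hY0U, hY0m, hY0R⟩ := exY _ (hstR hX) hUR
    obtain ⟨Y1, hY1U, hY1m, hY1L⟩ := exY _ (hstL hX) hUL
    have nzR : ∀ Y : Submodule F V, ¬ Y ≤ rPerp B X → ∃ x ∈ X, ∃ y ∈ Y, B x y ≠ 0 := fun Y h => by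
      obtain ⟨y, hy, hy'⟩ := SetLike.not_le_iff_exists.mp h
      rw [mem_rPerp] at hy'; push Not at hy'
      obtain ⟨x, hx, hne⟩ := hy'
      exact ⟨x, hx, y, hy, hne⟩
    have nzL : ∀ Y : Submodule F V, ¬ Y ≤ lPerp B X → ∃ x ∈ X, ∃ y ∈ Y, B y x ≠ 0 := fun Y h => by
      obtain ⟨y, hy, hy'⟩ := SetLike.not_le_iff_exists.mp h
      rw [mem_lPerp] at hy'; push Not at hy'
      obtain ⟨x, hx, hne⟩ := hy'
      exact ⟨x, hx, y, hy, hne⟩
    obtain ⟨Y, hYU, hYm, hYR, hYL⟩ : ∃ Y ≤ U, Minimal' ρ Y ∧ ¬ Y ≤ rPerp B X ∧ ¬ Y ≤ lPerp B X := by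
      by_cases h0 : Y0 ≤ lPerp B X
      swap
      · exact ⟨Y0, hY0U, hY0m, hY0R, h0⟩
      by_cases h1 : Y1 ≤ rPerp B X
      swap
      · exact ⟨Y1, hY1U, hY1m, h1, hY1L⟩
      obtain ⟨i0, j0⟩ := minR Y0 hY0m (nzR _ hY0R)
      obtain ⟨i1, j1⟩ := minL Y1 hY1m (nzL _ hY1L)
      let f0 : Y0 →ₗ[F] Module.Dual F X := LinearMap.flip (LinearMap.domRestrict₁₂ B X Y0)
      let g0 : X →ₗ[F] Module.Dual F Y0 := LinearMap.domRestrict₁₂ B X Y0
      have f0i : Function.Injective f0 := (injective_iff_map_eq_zero f0).mpr fun a ha => Subtype.ext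
        (i0 a a.2 fun x hx => LinearMap.congr_fun ha (⟨x, hx⟩ : X))
      have g0i : Function.Injective g0 := (injective_iff_map_eq_zero g0).mpr fun a ha => Subtype.ext
        (j0 a a.2 fun x hx => LinearMap.congr_fun ha (⟨x, hx⟩ : Y0))
      let f1 : Y1 →ₗ[F] Module.Dual F X := LinearMap.domRestrict₁₂ B Y1 X
      let g1 : X →ₗ[F] Module.Dual F Y1 := LinearMap.flip (LinearMap.domRestrict₁₂ B Y1 X)
      have f1i : Function.Injective f1 := (injective_iff_map_eq_zero f1).mpr fun a ha => Subtype.ext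
        (j1 a a.2 fun x hx => LinearMap.congr_fun ha (⟨x, hx⟩ : X))
      have g1i : Function.Injective g1 := (injective_iff_map_eq_zero g1).mpr fun a ha => Subtype.ext
        (i1 a a.2 fun x hx => LinearMap.congr_fun ha (⟨x, hx⟩ : Y1))
      have d : Module.finrank F Y1 = Module.finrank F (Module.Dual F X) := le_antisymm
        (LinearMap.finrank_le_finrank_of_injective f1i) (by
          rw [Subspace.dual_finrank_eq]
          exact (LinearMap.finrank_le_finrank_of_injective g1i).trans_eq Subspace.dual_finrank_eq)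
      obtain ⟨y₀, hy₀, hy₀0⟩ := Submodule.exists_mem_ne_zero_of_ne_bot hY0m.2.1
      obtain ⟨y₁, hy₁⟩ := (LinearMap.injective_iff_surjective_of_finrank_eq_finrank d).mp f1i (f0 ⟨y₀, hy₀⟩)
      let Q : Submodule F V :=
        { carrier := {q | q ∈ Y0 ⊔ Y1 ∧ ∀ x ∈ X, B q x = B x q}
          add_mem' := fun {a b} ha hb => ⟨add_mem ha.1 hb.1, fun x hx => by simp [ha.2 x hx, hb.2 x hx]⟩
          zero_mem' := ⟨zero_mem _, fun x _ => by simp⟩
          smul_mem' := fun c v hv => ⟨Submodule.smul_mem _ c hv.1, fun x hx => by simp [hv.2 x hx]⟩ }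
      have hQ : Stab ρ Q := fun g v hv => ⟨hsup hY0m.1 hY1m.1 g v hv.1, fun x hx => by
        conv_lhs => rw [← rho_inv (ρ := ρ) g x, hB]
        conv_rhs => rw [← rho_inv (ρ := ρ) g x, hB]
        exact hv.2 _ (hX g⁻¹ x hx)⟩
      have hq : y₀ + (y₁ : V) ∈ Q := ⟨Submodule.add_mem_sup hy₀ y₁.2, fun x hx => by
        have e := LinearMap.congr_fun hy₁ (⟨x, hx⟩ : X)
        simp only [f1, f0, LinearMap.flip_apply, LinearMap.domRestrict₁₂_apply] at e
        simp [h0 hy₀ x hx, h1 y₁.2 x hx, e]⟩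
      have hq0 : y₀ + (y₁ : V) ≠ 0 := fun e => hy₀0 (i0 y₀ hy₀ fun x hx => by
        have := congrArg (B x) e
        simpa [h1 y₁.2 x hx] using this)
      obtain ⟨Y, hYQ, hYm⟩ := exists_minimal Q hQ fun e => hq0 ((Submodule.mem_bot F).mp (e ▸ hq))
      have key : ∀ q ∈ Y, (∀ x ∈ X, B x q = 0) → q = 0 := fun q hq hz => by
        obtain ⟨a, ha, b, hb, rfl⟩ := Submodule.mem_sup.mp (hYQ hq).1
        have ha0 : a = 0 := i0 a ha fun x hx => by simpa [h1 hb x hx] using hz x hx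
        have hb0 : b = 0 := j1 b hb fun x hx => by
          have := (hYQ hq).2 x hx
          rw [hz x hx] at this
          simpa [h0 ha x hx] using this
        rw [ha0, hb0, add_zero]
      obtain ⟨y, hy, hy0⟩ := Submodule.exists_mem_ne_zero_of_ne_bot hYm.2.1
      refine ⟨Y, fun v hv => sup_le hY0U hY1U (hYQ hv).1, hYm, fun h => hy0 (key y hy (h hy)),
        fun h => hy0 (key y hy fun x hx => ?_)⟩
      rw [← (hYQ hy).2 x hx]; exact h hy x hx
    obtain ⟨i0, j0⟩ := minR Y hYm (nzR _ hYR)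
    obtain ⟨i1, -⟩ := minL Y hYm (nzL _ hYL)
    have hZ : Sep B (X ⊔ Y) := by
      intro z hz h
      obtain ⟨x, hx, y, hy, rfl⟩ := Submodule.mem_sup.mp hz
      have hy0 : y = 0 := i0 y hy fun x' hx' => by
        simpa [hXB x' hx' x hx] using h x' (Submodule.mem_sup_left hx')
      subst hy0
      rw [add_zero] at h ⊢
      exact i1 x hx fun y' hy' => h y' (Submodule.mem_sup_right hy')
    have hXY : Disjoint X Y := Submodule.disjoint_def.mpr fun v hv hv' => i0 v hv' fun x hx => hXB x hx v hv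
    have hc' : IsCompl X (Y ⊔ rPerp B (X ⊔ Y)) := by
      have h := isCompl_rPerp hZ
      refine ⟨hXY.disjoint_sup_right_of_disjoint_sup_left h.disjoint, ?_⟩
      rw [codisjoint_iff, ← sup_assoc, h.sup_eq_top]
    let πX : V →ₗ[F] V := X.subtype.comp (X.projectionOnto _ hc')
    have pX : ∀ x ∈ X, ∀ y ∈ Y, πX (x + y) = x := fun x hx y hy => by
      simp only [πX, LinearMap.comp_apply, map_add, Submodule.subtype_apply, Submodule.coe_add]
      rw [Submodule.projectionOnto_apply_left hc' ⟨x, hx⟩,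
        Submodule.projectionOnto_apply_of_mem_right hc' (Submodule.mem_sup_left hy)]
      simp
    refine ⟨X ⊔ Y, sup_le hXU hYU, fun e => hX0 (le_bot_iff.mp (le_sup_left.trans e.le)), hZ,
      hsup hX hYm.1, Or.inl (good0 _ (hsup hX hYm.1) ?_)⟩
    let P : LinearMap.BilinForm F V := LinearMap.compl₁₂ B πX (LinearMap.id - πX)
    have hP : ∀ a b, (P - P.flip) a b = B (πX a) (b - πX b) - B (πX b) (a - πX a) := fun a b => by
      simp [P]
    refine ⟨P - P.flip, fun x => by rw [hP, sub_self], fun g a ha b hb => ?_, fun a ha h => ?_⟩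
    · obtain ⟨x, hx, y, hy, rfl⟩ := Submodule.mem_sup.mp ha
      obtain ⟨x', hx', y', hy', rfl⟩ := Submodule.mem_sup.mp hb
      rw [hP, hP, (ρ g).map_add, (ρ g).map_add, pX _ (hX g x hx) _ (hYm.1 g y hy), pX _ (hX g x' hx') _ (hYm.1 g y' hy'),
        pX x hx y hy, pX x' hx' y' hy', add_sub_cancel_left, add_sub_cancel_left, add_sub_cancel_left,
        add_sub_cancel_left, hB, hB]
    · obtain ⟨x, hx, y, hy, rfl⟩ := Submodule.mem_sup.mp ha
      have hy0 : y = 0 := i0 y hy fun x' hx' => by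
        have e := h x' (Submodule.mem_sup_left hx')
        rw [hP, pX x hx y hy, show πX x' = x' by simpa using pX x' hx' 0 (zero_mem _), add_sub_cancel_left,
          sub_self, map_zero, zero_sub, neg_eq_zero] at e
        exact e
      have hx0 : x = 0 := j0 x hx fun y' hy' => by
        have e := h y' (Submodule.mem_sup_right hy')
        rw [hP, pX x hx y hy, show πX y' = 0 by simpa using pX 0 (zero_mem _) y' hy'] at e
        simpa using e
      rw [hx0, hy0, add_zero]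
  · push Not at hXB
    obtain ⟨a₀, ha₀, b₀, hb₀, hne⟩ := hXB
    have nd : ∀ C : LinearMap.BilinForm F V, Inv ρ C → (∃ a ∈ X, ∃ b ∈ X, C a b ≠ 0) →
        (∀ x ∈ X, (∀ y ∈ X, C x y = 0) → x = 0) ∧ Sep C X := by
      rintro C hC ⟨a, ha, b, hb, hab⟩
      constructor
      · intro x hx h
        rcases hXmin (X ⊓ lPerp C X) inf_le_left (hinf hX fun g v hv => stab_leftPerp hC hX g hv) with e | e
        · exact (Submodule.mem_bot F).mp (e ▸ (show x ∈ X ⊓ lPerp C X from ⟨hx, h⟩))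
        · exact absurd ((e.symm ▸ ha : a ∈ X ⊓ lPerp C X).2 b hb) hab
      · intro x hx h
        rcases hXmin (X ⊓ rPerp C X) inf_le_left (hinf hX fun g v hv => stab_rightPerp hC hX g hv) with e | e
        · exact (Submodule.mem_bot F).mp (e ▸ (show x ∈ X ⊓ rPerp C X from ⟨hx, h⟩))
        · exact absurd ((e.symm ▸ hb : b ∈ X ⊓ rPerp C X).2 a ha) hab
    refine ⟨X, hXU, hX0, (nd B hB ⟨a₀, ha₀, b₀, hb₀, hne⟩).2, hX, ?_⟩
    have hflip : Inv ρ B.flip := fun g x y => by simpa using hB g y x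
    by_cases halt : ∀ x ∈ X, B x x = 0
    · have hskew : ∀ x ∈ X, ∀ y ∈ X, B y x = - B x y := fun x hx y hy => by
        have e := halt (x + y) (add_mem hx hy)
        simp only [map_add, LinearMap.add_apply, halt x hx, halt y hy, zero_add, add_zero] at e
        linear_combination e
      obtain ⟨K, hK, hc'⟩ := maschke hc X hX
      let π : V →ₗ[F] V := X.subtype.comp (X.projectionOnto K hc')
      have hπ : ∀ x ∈ X, π x = x := fun x hx => by
        simp only [π, LinearMap.comp_apply, Submodule.subtype_apply,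
          Submodule.projectionOnto_apply_left hc' ⟨x, hx⟩]
      refine Or.inl (good0 _ hX ⟨LinearMap.compl₁₂ B π π, fun v => ?_, fun g x hx y hy => ?_, fun x hx h => ?_⟩)
      · exact halt _ (X.projectionOnto K hc' v).2
      · simp [hπ x hx, hπ y hy, hπ _ (hX g x hx), hπ _ (hX g y hy), hB g x y]
      · exact (nd B hB ⟨a₀, ha₀, b₀, hb₀, hne⟩).1 x hx fun y hy => by simpa [hπ x hx, hπ y hy] using h y hy
    · push Not at halt
      obtain ⟨x₀, hx₀, hx₀B⟩ := halt
      by_cases h2 : p = 2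
      · subst h2
        by_cases hsym : ∀ x ∈ X, ∀ y ∈ X, B x y = B y x
        · let L : Submodule F V :=
            { carrier := {x | x ∈ X ∧ B x x = 0}
              add_mem' := fun {a b} ha hb => ⟨add_mem ha.1 hb.1, by
                simp [ha.2, hb.2, hsym b hb.1 a ha.1, CharTwo.add_self_eq_zero]⟩
              zero_mem' := ⟨zero_mem _, by simp⟩
              smul_mem' := fun c v hv => ⟨X.smul_mem c hv.1, by simp [hv.2]⟩ }
          have hL : L = ⊥ := (hXmin L (fun v hv => hv.1) fun g v hv => ⟨hX g v hv.1, (hB g v v).trans hv.2⟩).resolve_right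
            fun e => hx₀B (e.symm ▸ hx₀ : x₀ ∈ L).2
          have htriv : ∀ g : G, ∀ w ∈ X, ρ g w = w := fun g w hw => by
            have hd : ρ g w - w ∈ L := ⟨sub_mem (hX g w hw) hw, by
              simp only [map_sub, LinearMap.sub_apply, hB, hsym w hw _ (hX g w hw)]
              rw [CharTwo.sub_eq_add, CharTwo.sub_eq_add, CharTwo.sub_eq_add]
              linear_combination (B w w + B (ρ g w) w) * (CharTwo.two_eq_zero (R := F)) + hB g w w⟩
            rw [hL, Submodule.mem_bot, sub_eq_zero] at hd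
            exact hd
          obtain ⟨K, hK, hc'⟩ := maschke hc X hX
          let π : V →ₗ[F] V := X.subtype.comp (X.projectionOnto K hc')
          have hπ : ∀ x ∈ X, π x = x := fun x hx => by
            simp only [π, LinearMap.comp_apply, Submodule.subtype_apply,
              Submodule.projectionOnto_apply_left hc' ⟨x, hx⟩]
          refine Or.inr (good1 _ hX ⟨LinearMap.compl₁₂ B π π, fun x y => ?_, fun g x hx y hy => ?_, fun x hx h => ?_⟩
            fun _ => htriv)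
          · exact hsym _ (X.projectionOnto K hc' x).2 _ (X.projectionOnto K hc' y).2
          · rw [htriv g x hx, htriv g y hy]
          · exact (nd B hB ⟨a₀, ha₀, b₀, hb₀, hne⟩).1 x hx fun y hy => by simpa [hπ x hx, hπ y hy] using h y hy
        · push Not at hsym
          obtain ⟨x, hx, y, hy, hxy⟩ := hsym
          refine Or.inl (good0 _ hX ⟨B - B.flip, fun v => by simp, fun g a _ b _ => by simp [hB g a b, hB g b a],
            (nd (B - B.flip) (fun g a b => by simp [hB g a b, hB g b a]) ⟨x, hx, y, hy, ?_⟩).1⟩)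
          simp [sub_eq_zero, hxy]
      · refine Or.inr (good1 _ hX ⟨B + B.flip, fun a b => by simp [add_comm], fun g a _ b _ => by simp [hB g a b, hB g b a],
          (nd (B + B.flip) (fun g a b => by simp [hB g a b, hB g b a]) ⟨x₀, hx₀, x₀, hx₀, ?_⟩).1⟩ fun h => absurd h h2)
        simp only [LinearMap.add_apply, LinearMap.BilinForm.flip_apply, ← two_mul]
        exact mul_ne_zero (Ring.two_ne_zero ((ringChar.eq F p).trans_ne h2)) hx₀B

theorem exists_split [Fintype G] (hc : (Fintype.card G : F) ≠ 0) (hB : Inv ρ B) :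
    ∀ (n : ℕ) (U : Submodule F V), Module.finrank F U = n → Stab ρ U → Sep B U →
      ∃ U1 W1, U1 ⊔ W1 = U ∧ Good ρ p U1 W1 := by
  intro n
  induction n using Nat.strong_induction_on with
  | _ n ih =>
    intro U hn hU hs
    by_cases h0 : U = ⊥
    · subst h0
      exact ⟨⊥, ⊥, sup_idem _, hU, hU, disjoint_bot_left, ⟨0, by simp, by simp, fun x hx _ => (Submodule.mem_bot F).mp hx⟩,
        ⟨0, by simp, by simp, fun x hx _ => (Submodule.mem_bot F).mp hx⟩,
        fun _ g w hw => by rw [(Submodule.mem_bot F).mp hw, map_zero]⟩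
    obtain ⟨Z, hZU, hZ0, hZs, hZ, hgood⟩ := exists_piece (p := p) hc hB hU hs h0
    have hcZ := isCompl_rPerp hZs
    set R := U ⊓ rPerp B Z with hR
    have hRst : Stab ρ R := fun g v hv => ⟨hU g v hv.1, stab_rightPerp hB hZ g hv.2⟩
    let π : V →ₗ[F] V := Z.subtype.comp (Z.projectionOnto _ hcZ)
    have hπZ : ∀ z ∈ Z, ∀ r ∈ rPerp B Z, π (z + r) = z := fun z hz r hr => by
      simp only [π, LinearMap.comp_apply, map_add, Submodule.subtype_apply, Submodule.coe_add]
      rw [Submodule.projectionOnto_apply_left hcZ ⟨z, hz⟩, Submodule.projectionOnto_apply_of_mem_right hcZ hr]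
      simp
    have hπg : ∀ g v, π (ρ g v) = ρ g (π v) := fun g v => by
      obtain ⟨z, hz, r, hr, rfl⟩ := Submodule.mem_sup.mp (hcZ.sup_eq_top ▸ Submodule.mem_top : v ∈ Z ⊔ rPerp B Z)
      rw [map_add, hπZ _ (hZ g z hz) _ (stab_rightPerp hB hZ g hr), hπZ z hz r hr]
    have hUsup : Z ⊔ R = U := by
      refine le_antisymm (sup_le hZU inf_le_left) fun u hu => ?_
      obtain ⟨z, hz, r, hr, rfl⟩ := Submodule.mem_sup.mp (hcZ.sup_eq_top ▸ Submodule.mem_top : u ∈ Z ⊔ rPerp B Z)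
      exact Submodule.add_mem_sup hz ⟨by simpa using U.sub_mem hu (hZU hz), hr⟩
    have hRs : Sep B R := fun r hr h => hs r hr.1 fun u hu => by
      rw [← hUsup] at hu
      obtain ⟨z, hz, r', hr', rfl⟩ := Submodule.mem_sup.mp hu
      simp [hr.2 z hz, h r' hr']
    have hlt : Module.finrank F R < n := by
      rw [← hn]
      refine Submodule.finrank_lt_finrank_of_lt (lt_of_le_of_ne inf_le_left fun e => hZ0 (le_bot_iff.mp fun z hz => ?_))
      exact (Submodule.mem_bot F).mpr (Submodule.disjoint_def.mp hcZ.disjoint z hz (e.symm ▸ hZU hz : z ∈ R).2)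
    obtain ⟨U1, W1, hsupR, hU1, hW1, hd, ⟨A, hA0, hAi, hAn⟩, ⟨S, hS0, hSi, hSn⟩, htr⟩ := ih _ hlt R rfl hRst hRs
    have hU1R : U1 ≤ rPerp B Z := (le_sup_left.trans hsupR.le).trans inf_le_right
    have hW1R : W1 ≤ rPerp B Z := (le_sup_right.trans hsupR.le).trans inf_le_right
    have comb : ∀ (C C' : LinearMap.BilinForm F V) (Y : Submodule F V), Y ≤ rPerp B Z → Stab ρ Y →
        (∀ g : G, ∀ x ∈ Z, ∀ y ∈ Z, C (ρ g x) (ρ g y) = C x y) → (∀ x ∈ Z, (∀ y ∈ Z, C x y = 0) → x = 0) →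
        (∀ g : G, ∀ x ∈ Y, ∀ y ∈ Y, C' (ρ g x) (ρ g y) = C' x y) → (∀ x ∈ Y, (∀ y ∈ Y, C' x y = 0) → x = 0) →
        ∃ D : LinearMap.BilinForm F V, (∀ x y, D x y = C (π x) (π y) + C' (x - π x) (y - π y)) ∧
        (∀ g : G, ∀ x ∈ Z ⊔ Y, ∀ y ∈ Z ⊔ Y, D (ρ g x) (ρ g y) = D x y) ∧
        (∀ x ∈ Z ⊔ Y, (∀ y ∈ Z ⊔ Y, D x y = 0) → x = 0) := by
      intro C C' Y hY hYs h1 h2 h3 h4
      refine ⟨LinearMap.compl₁₂ C π π + LinearMap.compl₁₂ C' (LinearMap.id - π) (LinearMap.id - π),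
        fun x y => by simp, fun g a ha b hb => ?_, fun a ha h => ?_⟩
      · obtain ⟨z, hz, r, hr, rfl⟩ := Submodule.mem_sup.mp ha
        obtain ⟨z', hz', r', hr', rfl⟩ := Submodule.mem_sup.mp hb
        simp only [LinearMap.add_apply, LinearMap.compl₁₂_apply, LinearMap.sub_apply, LinearMap.id_apply, hπg,
          ← map_sub, hπZ z hz r (hY hr), hπZ z' hz' r' (hY hr'), add_sub_cancel_left, h1 g z hz z' hz', h3 g r hr r' hr']
      · obtain ⟨z, hz, r, hr, rfl⟩ := Submodule.mem_sup.mp ha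
        have hz0 : z = 0 := h2 z hz fun y hy => by
          have e := h y (Submodule.mem_sup_left hy)
          have e2 := hπZ y hy 0 (zero_mem _)
          rw [add_zero] at e2
          simp only [LinearMap.add_apply, LinearMap.compl₁₂_apply, LinearMap.sub_apply, LinearMap.id_apply,
            hπZ z hz r (hY hr), e2, sub_self, map_zero, add_zero] at e
          exact e
        have hr0 : r = 0 := h4 r hr fun y hy => by
          have e := h y (Submodule.mem_sup_right hy)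
          have e2 := hπZ 0 (zero_mem _) y (hY hy)
          rw [zero_add] at e2
          simp only [LinearMap.add_apply, LinearMap.compl₁₂_apply, LinearMap.sub_apply, LinearMap.id_apply,
            hπZ z hz r (hY hr), e2, sub_zero, map_zero, zero_add, add_sub_cancel_left] at e
          exact e
        rw [hz0, hr0, add_zero]
    rcases hgood with ⟨-, -, -, ⟨C, hC0, hCi, hCn⟩, -, -⟩ | ⟨-, -, -, -, ⟨C, hC0, hCi, hCn⟩, hCt⟩
    · obtain ⟨D, hD, hDi, hDn⟩ := comb C A U1 hU1R hU1 hCi hCn hAi hAn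
      refine ⟨Z ⊔ U1, W1, by rw [sup_assoc, hsupR, hUsup], fun g v hv => ?_, hW1, ?_,
        ⟨D, fun x => by rw [hD, hC0, hA0, add_zero], hDi, hDn⟩, ⟨S, hS0, hSi, hSn⟩, htr⟩
      · obtain ⟨a, ha, b, hb, rfl⟩ := Submodule.mem_sup.mp hv
        rw [map_add]; exact Submodule.add_mem_sup (hZ g a ha) (hU1 g b hb)
      · exact hd.disjoint_sup_left_of_disjoint_sup_right (hcZ.disjoint.mono_right (sup_le hU1R hW1R))
    · obtain ⟨D, hD, hDi, hDn⟩ := comb C S W1 hW1R hW1 hCi hCn hSi hSn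
      refine ⟨U1, Z ⊔ W1, by rw [← sup_assoc, sup_comm U1 Z, sup_assoc, hsupR, hUsup], hU1, fun g v hv => ?_, ?_,
        ⟨A, hA0, hAi, hAn⟩, ⟨D, fun x y => by rw [hD, hD, hC0, hS0], hDi, hDn⟩, fun h g w hw => ?_⟩
      · obtain ⟨a, ha, b, hb, rfl⟩ := Submodule.mem_sup.mp hv
        rw [map_add]; exact Submodule.add_mem_sup (hZ g a ha) (hW1 g b hb)
      · rw [Submodule.disjoint_def]
        intro v hv hv'
        obtain ⟨a, ha, b, hb, rfl⟩ := Submodule.mem_sup.mp hv'
        have ha0 : a = 0 := Submodule.disjoint_def.mp hcZ.disjoint a ha (by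
          simpa using (rPerp B Z).sub_mem (hU1R hv) (hW1R hb))
        subst ha0
        rw [zero_add] at hv ⊢
        exact Submodule.disjoint_def.mp hd b hv hb
      · obtain ⟨a, ha, b, hb, rfl⟩ := Submodule.mem_sup.mp hw
        rw [map_add, hCt h g a ha, htr h g b hb]

/-- Let F be a finite field of characteristic p, G a finite group of order prime to p, and V a finite-dimensional representation of G over F carrying a nondegenerate G-invariant bilinear form (equivalently, V is self-dual). Then V is the direct sum of two G-invariant subspaces U and W such that U carries a G-invariant alternating bilinear form that is nondegenerate on U and W carries a G-invariant symmetric bilinear form that is nondegenerate on W; moreover when p = 2 the decomposition can be chosen with G acting trivially on W. -/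
theorem result {F : Type*} [Field F] [Fintype F] (p : ℕ) [Fact p.Prime] [CharP F p] {G : Type*} [Group G] [Finite G] (hcop : ¬ p ∣ Nat.card G) {V : Type*} [AddCommGroup V] [Module F V] [FiniteDimensional F V] (ρ : Representation F G V) (B : LinearMap.BilinForm F V) (hB : B.Nondegenerate) (hBinv : ∀ g : G, ∀ x y : V, B (ρ g x) (ρ g y) = B x y) : ∃ U W : Submodule F V, IsCompl U W ∧ (∀ g : G, ∀ u ∈ U, ρ g u ∈ U) ∧ (∀ g : G, ∀ w ∈ W, ρ g w ∈ W) ∧ (∃ A : LinearMap.BilinForm F V, (∀ x : V, A x x = 0) ∧ (∀ g : G, ∀ x ∈ U, ∀ y ∈ U, A (ρ g x) (ρ g y) = A x y) ∧ (∀ x ∈ U, (∀ y ∈ U, A x y = 0) → x = 0)) ∧ (∃ S : LinearMap.BilinForm F V, (∀ x y : V, S x y = S y x) ∧ (∀ g : G, ∀ x ∈ W, ∀ y ∈ W, S (ρ g x) (ρ g y) = S x y) ∧ (∀ x ∈ W, (∀ y ∈ W, S x y = 0) → x = 0)) ∧ (p = 2 → ∀ g : G, ∀ w ∈ W, ρ g w = w) := by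
  classical
  haveI := Fintype.ofFinite G
  have hc : (Fintype.card G : F) ≠ 0 := fun h => hcop (by
    rw [Nat.card_eq_fintype_card]; exact (CharP.cast_eq_zero_iff F p _).mp h)
  have hsep : Sep B (⊤ : Submodule F V) := fun u _ h => hB.2 u fun x => h x Submodule.mem_top
  obtain ⟨U, W, hsup, hU, hW, hd, hA, hS, ht⟩ :=
    exists_split (p := p) hc hBinv _ ⊤ rfl (fun g u _ => Submodule.mem_top) hsep
  exact ⟨U, W, ⟨hd, codisjoint_iff.mpr hsup⟩, hU, hW, hA, hS, ht⟩

end Cfsg.Agent.S4966
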