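import Cfsg.Statements.S4967
import Mathlib

set_option autoImplicit false
open Cfsg

namespace Cfsg.Agent.S4967

set_option maxHeartbeats 400000

/-- Let F be a finite field with r elements and of characteristic p, H a finite abelian group of order prime to p, and V a faithful irreducible representation of H over F of dimension n (faithful: distinct elements act differently; irreducible: the only H-invariant subspaces are 0 and V). Call V self-dual when it carries a nondegenerate H-invariant bilinear form. If n = 1 and V is self-dual then H has order at most 2. If n ≥ 2 then V is self-dual if and only if n is even and the order of H divides r^(n/2) + 1. -/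
theorem result {F : Type*} [Field F] [Fintype F] (p : ℕ) [Fact p.Prime] [CharP F p] {H : Type*} [CommGroup H] [Finite H] (hcop : ¬ p ∣ Nat.card H) {V : Type*} [AddCommGroup V] [Module F V] [FiniteDimensional F V] (ρ : Representation F H V) (hfaith : Function.Injective ρ) (hirr : ∀ U : Submodule F V, (∀ h : H, ∀ u ∈ U, ρ h u ∈ U) → U = ⊥ ∨ U = ⊤) : (Module.finrank F V = 1 → (∃ B : LinearMap.BilinForm F V, B.Nondegenerate ∧ ∀ h : H, ∀ x y : V, B (ρ h x) (ρ h y) = B x y) → Nat.card H ≤ 2) ∧ (2 ≤ Module.finrank F V → ((∃ B : LinearMap.BilinForm F V, B.Nondegenerate ∧ ∀ h : H, ∀ x y : V, B (ρ h x) (ρ h y) = B x y) ↔ (Even (Module.finrank F V) ∧ Nat.card H ∣ Fintype.card F ^ (Module.finrank F V / 2) + 1))) := by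
  classical
  haveI := Fintype.ofFinite H
  constructor
  · rintro hn ⟨B, hB, hBi⟩
    obtain ⟨v, hv0, hv⟩ := finrank_eq_one_iff'.mp hn
    choose c hc using fun h : H => hv (ρ h v)
    have hall : ∀ h x, ρ h x = c h • x := fun h x => by
      obtain ⟨a, rfl⟩ := hv x
      rw [map_smul, ← hc h, smul_comm]
    have hBv : B v v ≠ 0 := fun h => hv0 (hB.2 v fun x => by
      obtain ⟨a, rfl⟩ := hv x
      simp [h])
    have hc2 : ∀ h, c h * c h = 1 := fun h => by
      have e := hBi h v v
      rw [hall h v] at e
      simp only [map_smul, LinearMap.smul_apply, smul_eq_mul] at e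
      exact mul_right_cancel₀ hBv (by rw [one_mul, mul_assoc]; exact e)
    have hinj : Function.Injective c := fun a b e => hfaith (LinearMap.ext fun x => by rw [hall, hall, e])
    have : Finset.univ.image c ⊆ ({1, -1} : Finset F) := fun a ha => by
      obtain ⟨h, -, rfl⟩ := Finset.mem_image.mp ha
      rcases mul_self_eq_one_iff.mp (hc2 h) with e | e <;> simp [e]
    calc Nat.card H = (Finset.univ.image c).card := by
          rw [Finset.card_image_of_injective _ hinj, Finset.card_univ, Nat.card_eq_fintype_card]
      _ ≤ ({1, -1} : Finset F).card := Finset.card_le_card this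
      _ ≤ 2 := Finset.card_le_two
  · intro hn
    haveI : Finite V := Module.finite_of_finite F
    haveI : Nontrivial V := Module.nontrivial_of_finrank_pos (R := F) (by omega)
    obtain ⟨v₀, hv₀⟩ := exists_ne (0 : V)
    let D : Subalgebra F (Module.End F V) := Algebra.adjoin F (Set.range ρ)
    have hmemD : ∀ h, ρ h ∈ D := fun h => Algebra.subset_adjoin ⟨h, rfl⟩
    have hcommH : ∀ d ∈ D, ∀ h : H, d * ρ h = ρ h * d := by
      intro d hd h
      refine Algebra.adjoin_induction (p := fun d _ => d * ρ h = ρ h * d) ?_ ?_ ?_ ?_ hd
      · rintro _ ⟨k, rfl⟩; rw [← map_mul, ← map_mul, mul_comm]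
      · intro a; exact Algebra.commutes a _
      · intro a b _ _ ha hb; rw [add_mul, mul_add, ha, hb]
      · intro a b _ _ ha hb; rw [mul_assoc, hb, ← mul_assoc, ha, mul_assoc]
    have hcomm : ∀ a ∈ D, ∀ b ∈ D, a * b = b * a := by
      intro a ha b hb
      refine Algebra.adjoin_induction (p := fun b _ => a * b = b * a) ?_ ?_ ?_ ?_ hb
      · rintro _ ⟨k, rfl⟩; exact hcommH a ha k
      · intro c; exact (Algebra.commutes c _).symm
      · intro x y _ _ hx hy; rw [mul_add, add_mul, hx, hy]
      · intro x y _ _ hx hy; rw [← mul_assoc, hx, mul_assoc, hy, mul_assoc]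
    have happ : ∀ (d : Module.End F V), d ∈ D → ∀ h x, d (ρ h x) = ρ h (d x) := fun d hd h x => by
      have := LinearMap.congr_fun (hcommH d hd h) x
      simpa using this
    have hker : ∀ d ∈ D, ∀ v : V, v ≠ 0 → d v = 0 → d = 0 := fun d hd v hv hdv => by
      rcases hirr (LinearMap.ker d) (fun h u hu => by
        rw [LinearMap.mem_ker] at hu ⊢; rw [happ d hd, hu, map_zero]) with e | e
      · exact absurd ((Submodule.mem_bot F).mp (e ▸ (LinearMap.mem_ker.mpr hdv))) hv
      · exact LinearMap.ker_eq_top.mp e
    let ev : D →ₗ[F] V := (LinearMap.applyₗ v₀).comp D.val.toLinearMap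
    have hev : ∀ d : D, ev d = (d : Module.End F V) v₀ := fun d => rfl
    have hev_inj : Function.Injective ev := (injective_iff_map_eq_zero ev).mpr fun d hd =>
      Subtype.ext (hker d d.2 v₀ hv₀ hd)
    have hev_surj : Function.Surjective ev := by
      rcases hirr (LinearMap.range ev) (fun h u hu => by
        obtain ⟨d, rfl⟩ := hu
        exact ⟨⟨ρ h, hmemD h⟩ * d, rfl⟩) with e | e
      · exfalso
        have : ev 1 ∈ LinearMap.range ev := ⟨1, rfl⟩
        rw [e, Submodule.mem_bot] at this
        exact hv₀ this
      · exact LinearMap.range_eq_top.mp e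
    let φ : D ≃ₗ[F] V := LinearEquiv.ofBijective ev ⟨hev_inj, hev_surj⟩
    haveI : Finite D := Finite.of_equiv V φ.toEquiv.symm
    letI := Fintype.ofFinite D
    letI : CommRing D := { (inferInstance : Ring D) with mul_comm := fun a b => Subtype.ext (hcomm a a.2 b b.2) }
    haveI : Nontrivial D := ⟨⟨φ.symm v₀, 0, fun e => hv₀ (by simpa using congrArg φ e)⟩⟩
    haveI : NoZeroDivisors D := ⟨fun {a b} hab => by
      by_cases hb : b = 0
      · exact Or.inr hb
      · refine Or.inl (Subtype.ext (hker a a.2 (ev b) (fun e => hb (hev_inj (by rw [e, map_zero]))) ?_))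
        have := congrArg ev hab
        rw [map_zero] at this
        exact this⟩
    haveI : IsDomain D := NoZeroDivisors.to_isDomain D
    letI : Field D := Fintype.fieldOfDomain D
    have hfr : Module.finrank F D = Module.finrank F V := φ.finrank_eq
    let ι : H →* D := { toFun := fun h => ⟨ρ h, hmemD h⟩
                        map_one' := Subtype.ext (map_one ρ)
                        map_mul' := fun a b => Subtype.ext (map_mul ρ a b) }
    have hιinj : Function.Injective ι := fun a b e => hfaith (congrArg Subtype.val e)
    haveI : IsCyclic H := isCyclic_of_subgroup_isDomain ι hιinj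
    obtain ⟨g, hg⟩ := IsCyclic.exists_generator (α := H)
    have hord : orderOf g = Nat.card H := orderOf_eq_card_of_forall_mem_zpowers hg
    have hfrob : ∀ (k : ℕ) (x : D), (FiniteField.frobeniusAlgHom F D ^ k) x = x ^ Fintype.card F ^ k := by
      intro k x
      induction k generalizing x with
      | zero => simp
      | succ k ih =>
        rw [pow_succ, AlgHom.mul_apply, ih, FiniteField.coe_frobeniusAlgHom]
        simp only
        rw [← pow_mul, pow_succ']
    constructor
    · rintro ⟨B, hB, hBi⟩
      have hex : ∀ d : D, ∃ e : D, ∀ x y, B ((d : Module.End F V) x) y = B x ((e : Module.End F V) y) := by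
        intro d
        refine Algebra.adjoin_induction (p := fun d _ => ∃ e : D, ∀ x y, B (d x) y = B x ((e : Module.End F V) y))
          ?_ ?_ ?_ ?_ d.2
        · rintro _ ⟨k, rfl⟩
          refine ⟨ι k⁻¹, fun x y => ?_⟩
          show B (ρ k x) y = B x (ρ k⁻¹ y)
          rw [← hBi k x (ρ k⁻¹ y), ← Module.End.mul_apply, ← map_mul, mul_inv_cancel, map_one, Module.End.one_apply]
        · intro a; exact ⟨algebraMap F D a, fun x y => by simp⟩
        · rintro a b _ _ ⟨e, he⟩ ⟨e', he'⟩
          exact ⟨e + e', fun x y => by simp [he x y, he' x y]⟩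
        · rintro a b ha hb ⟨e, he⟩ ⟨e', he'⟩
          refine ⟨e' * e, fun x y => ?_⟩
          rw [Module.End.mul_apply, he, he']; rfl
      choose s hs using hex
      have huniq : ∀ (d e : D), (∀ x y, B ((d : Module.End F V) x) y = B x ((e : Module.End F V) y)) → s d = e := by
        intro d e he
        refine Subtype.ext (LinearMap.ext fun y => sub_eq_zero.mp (hB.2 _ fun x => ?_))
        rw [map_sub, ← hs, he, sub_self]
      let σ : D →ₐ[F] D :=
        { toFun := s
          map_one' := huniq 1 1 fun x y => rfl
          map_mul' := fun a b => huniq _ _ fun x y => by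
            rw [mul_comm (s a) (s b)]
            show B ((a : Module.End F V) ((b : Module.End F V) x)) y = B x ((s b : Module.End F V) ((s a : Module.End F V) y))
            rw [hs, hs]
          map_zero' := huniq 0 0 fun x y => by simp
          map_add' := fun a b => huniq _ _ fun x y => by simp [hs a x y, hs b x y]
          commutes' := fun a => huniq _ _ fun x y => by simp }
      have hσ : ∀ h, σ (ι h) = ι h⁻¹ := fun h => huniq _ _ fun x y => by
        show B (ρ h x) y = B x (ρ h⁻¹ y)
        rw [← hBi h x (ρ h⁻¹ y), ← Module.End.mul_apply, ← map_mul, mul_inv_cancel, map_one, Module.End.one_apply]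
      obtain ⟨⟨i, hi⟩, hif⟩ := (FiniteField.bijective_frobeniusAlgHom_pow F D).2 σ
      simp only at hif
      have hgi : ∀ h, ι h ^ Fintype.card F ^ i = ι h⁻¹ := fun h => by rw [← hfrob, hif, hσ]
      have hi0 : i ≠ 0 := by
        intro h0
        subst h0
        have hscal : ∀ h : H, ∃ a : F, ρ h = a • (1 : Module.End F V) := by
          intro h
          have e := hgi h
          rw [pow_zero, pow_one] at e
          have e2 : ι h * ι h = 1 := by
            conv_lhs => arg 2; rw [e]
            rw [← map_mul, mul_inv_cancel, map_one]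
          rcases mul_self_eq_one_iff.mp e2 with e3 | e3
          · exact ⟨1, by simpa [ι] using congrArg Subtype.val e3⟩
          · exact ⟨-1, by simpa [ι] using congrArg Subtype.val e3⟩
        rcases hirr (Submodule.span F {v₀}) (fun h u hu => by
          obtain ⟨a, ha⟩ := hscal h
          rw [ha]; exact Submodule.smul_mem _ a hu) with e | e
        · exact hv₀ (Submodule.span_singleton_eq_bot.mp e)
        · have : Module.finrank F V = 1 := by
            rw [← finrank_top F V, ← e, finrank_span_singleton hv₀]
          omega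
      have hσ2 : FiniteField.frobeniusAlgHom F D ^ (i + i) = 1 := by
        refine AlgHom.ext fun d => ?_
        rw [pow_add, hif, AlgHom.mul_apply, AlgHom.one_apply]
        obtain ⟨d, hd⟩ := d
        refine Algebra.adjoin_induction (p := fun d hd => σ (σ ⟨d, hd⟩) = ⟨d, hd⟩) ?_ ?_ ?_ ?_ hd
        · rintro _ ⟨k, rfl⟩
          show σ (σ (ι k)) = ι k
          rw [hσ, hσ, inv_inv]
        · intro a
          show σ (σ (algebraMap F D a)) = algebraMap F D a
          rw [σ.commutes, σ.commutes]
        · intro a b ha hb h1 h2
          show σ (σ (⟨a, ha⟩ + ⟨b, hb⟩)) = ⟨a, ha⟩ + ⟨b, hb⟩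
          rw [map_add, map_add, h1, h2]
        · intro a b ha hb h1 h2
          show σ (σ (⟨a, ha⟩ * ⟨b, hb⟩)) = ⟨a, ha⟩ * ⟨b, hb⟩
          rw [map_mul, map_mul, h1, h2]
      have hdvd := orderOf_dvd_of_pow_eq_one hσ2
      rw [FiniteField.orderOf_frobeniusAlgHom, hfr] at hdvd
      rw [hfr] at hi
      have hii : i + i = Module.finrank F V := by
        obtain ⟨c, hc⟩ := hdvd
        rcases c with _ | _ | c
        · omega
        · omega
        · nlinarith
      refine ⟨⟨i, hii.symm⟩, ?_⟩
      rw [← hord, show Module.finrank F V / 2 = i by omega]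
      refine orderOf_dvd_of_pow_eq_one (hιinj ?_)
      rw [map_pow, pow_succ, hgi, ← map_mul, inv_mul_cancel, map_one]
    · rintro ⟨⟨k, hk⟩, hdvd⟩
      rw [show Module.finrank F V / 2 = k by omega] at hdvd
      set τ := FiniteField.frobeniusAlgHom F D ^ k
      have hτb : Function.Surjective τ := Finite.surjective_of_injective τ.toRingHom.injective
      obtain ⟨L, hL⟩ := Module.Projective.exists_dual_ne_zero F (one_ne_zero : (1 : D) ≠ 0)
      let B : LinearMap.BilinForm F V := LinearMap.mk₂ F (fun x y => L (φ.symm x * τ (φ.symm y)))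
        (fun a b c => by simp [add_mul]) (fun a b c => by simp)
        (fun a b c => by simp [mul_add]) (fun a b c => by simp)
      have hBa : ∀ x y, B x y = L (φ.symm x * τ (φ.symm y)) := fun x y => rfl
      have hφ : ∀ h x, φ.symm (ρ h x) = ι h * φ.symm x := fun h x => φ.injective (by
        rw [φ.apply_symm_apply]
        show ρ h x = ρ h (ev (φ.symm x))
        rw [show ev (φ.symm x) = x from φ.apply_symm_apply x])
      have hι : ∀ h, ι h * τ (ι h) = 1 := fun h => by
        rw [hfrob, ← pow_succ', ← map_pow]
        have : h ^ (Fintype.card F ^ k + 1) = 1 := orderOf_dvd_iff_pow_eq_one.mp ((orderOf_dvd_natCard h).trans hdvd)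
        rw [this, map_one]
      refine ⟨B, ⟨fun x hx => ?_, fun y hy => ?_⟩, fun h x y => ?_⟩
      · by_contra hne
        have hx0 : φ.symm x ≠ 0 := by simpa using hne
        obtain ⟨b, hb⟩ := hτb (φ.symm x)⁻¹
        refine hL ?_
        have := hx (φ b)
        rw [hBa, φ.symm_apply_apply, hb, mul_inv_cancel₀ hx0] at this
        exact this
      · by_contra hne
        have hy0 : τ (φ.symm y) ≠ 0 := fun e => hne (by
          have := τ.toRingHom.injective (e.trans (map_zero τ).symm)
          simpa using this)
        refine hL ?_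
        have := hy (φ (τ (φ.symm y))⁻¹)
        rw [hBa, φ.symm_apply_apply, inv_mul_cancel₀ hy0] at this
        exact this
      · rw [hBa, hBa, hφ, hφ, map_mul τ, mul_mul_mul_comm, hι, one_mul]

end Cfsg.Agent.S4967
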