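import Cfsg.Statements.S5014
import Cfsg.Agent.Lib.RootSub.RankOnePair

set_option autoImplicit false
set_option linter.all false
open Cfsg

namespace Cfsg.Agent.S5014
open CfsgLib.RootSub

/-- Let X = ⟨A, B⟩ be a rank one group with unipotent subgroups A and B and let Ω be the set of conjugates of A under X. Then Ω has at least three members, X acts doubly transitively on Ω by conjugation (any two ordered pairs of distinct members are carried to one another by a single element of X), and A acts regularly on Ω with A removed: for C, D in Ω different from A there is exactly one element of A conjugating C to D. -/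
theorem result {G : Type*} [Group G] {A B : Subgroup G} (h : Cfsg.IsRankOnePair A B) :
    (∃ C₁ ∈ Cfsg.unipotentSubgroups A B, ∃ C₂ ∈ Cfsg.unipotentSubgroups A B, ∃ C₃ ∈ Cfsg.unipotentSubgroups A B,
      C₁ ≠ C₂ ∧ C₁ ≠ C₃ ∧ C₂ ≠ C₃) ∧
    (∀ C₁ ∈ Cfsg.unipotentSubgroups A B, ∀ C₂ ∈ Cfsg.unipotentSubgroups A B, ∀ D₁ ∈ Cfsg.unipotentSubgroups A B,
      ∀ D₂ ∈ Cfsg.unipotentSubgroups A B, C₁ ≠ C₂ → D₁ ≠ D₂ →
        ∃ x ∈ A ⊔ B, Cfsg.conjBy C₁ x = D₁ ∧ Cfsg.conjBy C₂ x = D₂) ∧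
    (∀ C ∈ Cfsg.unipotentSubgroups A B, ∀ D ∈ Cfsg.unipotentSubgroups A B, C ≠ A → D ≠ A →
      ∃! a : G, a ∈ A ∧ Cfsg.conjBy C a = D) := by
  refine ⟨three_points h, fun C₁ h1 C₂ h2 D₁ k1 D₂ k2 hC hD => ?_, fun C hC D hD hCA hDA => regular h hC hD hCA hDA⟩
  obtain ⟨x, hx, e1, e2⟩ := two_transitive_std h h1 h2 hC
  obtain ⟨y, hy, f1, f2⟩ := two_transitive_std h k1 k2 hD
  exact ⟨y * x⁻¹, mul_mem hy (inv_mem hx), by rw [← e1, conjBy_conjBy, inv_mul_cancel_right, f1],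
    by rw [← e2, conjBy_conjBy, inv_mul_cancel_right, f2]⟩

end Cfsg.Agent.S5014
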