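import Cfsg.Statements.S5015
import Cfsg.Agent.Lib.RootSub.RankOnePair

set_option autoImplicit false
set_option linter.all false
open Cfsg

namespace Cfsg.Agent.S5015
open CfsgLib.RootSub

/-- Let a group Y act doubly transitively on a set Ω with at least three points, and suppose that the stabilizer of a point α contains a nilpotent subgroup A, normalized by that stabilizer, which acts regularly on the points other than α. Then for any y in Y moving α, the subgroups A and y A y⁻¹ are the unipotent subgroups of a rank one group, and the normal closure of A in Y (the subgroup generated by all conjugates of A) is generated by A and y A y⁻¹ alone. -/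
theorem result {Y Ω : Type*} [Group Y] [MulAction Y Ω]
    (h2 : MulAction.IsMultiplyPretransitive Y Ω 2) (hΩ : 3 ≤ ENat.card Ω) (α : Ω) (A : Subgroup Y)
    (hA : A ≤ MulAction.stabilizer Y α) (hAn : ∀ y ∈ MulAction.stabilizer Y α, Cfsg.conjBy A y = A)
    (hnil : Group.IsNilpotent A) (hreg : ∀ β γ : Ω, β ≠ α → γ ≠ α → ∃! a : Y, a ∈ A ∧ a • β = γ)
    (y : Y) (hy : y ∉ MulAction.stabilizer Y α) :
    Cfsg.IsRankOnePair A (Cfsg.conjBy A y) ∧ Subgroup.normalClosure (A : Set Y) = A ⊔ Cfsg.conjBy A y := by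
  classical
  haveI := h2
  have key : ∀ g g' : Y, g • α = g' • α → Cfsg.conjBy A g = Cfsg.conjBy A g' := by
    intro g g' e
    have hm : g'⁻¹ * g ∈ MulAction.stabilizer Y α := by
      rw [MulAction.mem_stabilizer_iff, mul_smul, e, inv_smul_smul]
    conv_rhs => rw [← hAn _ hm, conjBy_conjBy, mul_inv_cancel_left]
  have hstab : ∀ g : Y, ∀ x ∈ Cfsg.conjBy A g, x • (g • α) = g • α := by
    intro g x hx
    have h1 := hA (mem_conjBy.mp hx)
    rw [MulAction.mem_stabilizer_iff, mul_smul, mul_smul, inv_smul_eq_iff] at h1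
    exact h1
  have hregc : ∀ g : Y, ∀ β γ : Ω, β ≠ g • α → γ ≠ g • α → ∃! x : Y, x ∈ Cfsg.conjBy A g ∧ x • β = γ := by
    intro g β γ hβ hγ
    obtain ⟨a, ⟨ha, hab⟩, huniq⟩ := hreg (g⁻¹ • β) (g⁻¹ • γ) (fun e => hβ (by rw [← e, smul_inv_smul]))
      (fun e => hγ (by rw [← e, smul_inv_smul]))
    refine ⟨g * a * g⁻¹, ⟨mem_conjBy.mpr (by simpa [mul_assoc] using ha), ?_⟩, ?_⟩
    · rw [mul_smul, mul_smul, hab, smul_inv_smul]
    · rintro x ⟨hx, e⟩
      have h1 := huniq (g⁻¹ * x * g) ⟨mem_conjBy.mp hx, by rw [mul_smul, mul_smul, smul_inv_smul, e]⟩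
      rw [← h1]; group
  have hyα : y • α ≠ α := fun e => hy e
  have hthird : ∃ γ : Ω, γ ≠ α ∧ γ ≠ y • α := by
    by_contra hcon
    push Not at hcon
    have hsub : (Set.univ : Set Ω) ⊆ {α, y • α} := fun γ _ => by
      rcases eq_or_ne γ α with e | e
      · exact Or.inl e
      · exact Or.inr (hcon γ e)
    have h1 := Set.encard_le_encard hsub
    have h2 : ({α, y • α} : Set Ω).encard ≤ 2 := by
      refine le_trans (Set.encard_insert_le _ _) ?_
      rw [Set.encard_singleton]
      norm_num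
    rw [Set.encard_univ] at h1
    have := le_trans hΩ (le_trans h1 h2)
    norm_num at this
  have hAB : A ≠ Cfsg.conjBy A y := by
    intro e
    obtain ⟨γ, hγ1, hγ2⟩ := hthird
    obtain ⟨a, ⟨ha, hab⟩, -⟩ := hreg (y • α) γ hyα hγ1
    exact hγ2 (hab ▸ hstab y a (e ▸ ha))
  have hcond : ∀ g g' : Y, g • α ≠ g' • α → Cfsg.RankOneCondition (Cfsg.conjBy A g) (Cfsg.conjBy A g') := by
    intro g g' hne a ha ha1
    have hfix := hstab g a ha
    have hne1 : a⁻¹ • g' • α ≠ g • α := fun e => hne (by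
      rw [inv_smul_eq_iff, hfix] at e; exact e.symm)
    have hne2 : a⁻¹ • g' • α ≠ g' • α := fun e => by
      obtain ⟨x, -, hu⟩ := hregc g (g' • α) (g' • α) hne.symm hne.symm
      have h1 := hu a ⟨ha, by
        rw [inv_smul_eq_iff] at e; exact e.symm⟩
      have h2 := hu 1 ⟨one_mem _, one_smul _ _⟩
      exact ha1 (h1.trans h2.symm)
    obtain ⟨x, ⟨hx, hxe⟩, -⟩ := hregc g' (g • α) (a⁻¹ • g' • α) hne hne2
    refine ⟨x⁻¹, inv_mem hx, fun e => hne1 ?_, ?_⟩
    · rw [inv_eq_one] at e; rw [← hxe, e, one_smul]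
    · rw [inv_inv, conjBy_conjBy, conjBy_conjBy]
      exact key _ _ (by rw [mul_smul, mul_smul, hxe])
  haveI hnilc : ∀ g : Y, Group.IsNilpotent (Cfsg.conjBy A g) := fun g => by
    haveI := hnil
    exact Group.nilpotent_of_mulEquiv (A.equivMapOfInjective _ (MulEquiv.injective _))
  refine ⟨⟨hAB, hnil, hnilc y, ?_, ?_⟩, ?_⟩
  · have := hcond 1 y (by rw [one_smul]; exact hyα.symm)
    rwa [conjBy_one] at this
  · have := hcond y 1 (by rw [one_smul]; exact hyα)
    rwa [conjBy_one] at this
  · apply le_antisymm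
    · rw [Subgroup.normalClosure, Subgroup.closure_le]
      intro x hx
      rw [Group.mem_conjugatesOfSet_iff] at hx
      obtain ⟨a, ha, hax⟩ := hx
      obtain ⟨g, rfl⟩ := isConj_iff.mp hax
      have hmem : g * a * g⁻¹ ∈ Cfsg.conjBy A g := mem_conjBy.mpr (by simpa [mul_assoc] using ha)
      rcases eq_or_ne (g • α) α with e | e
      · have h1 := key g 1 (by rw [one_smul]; exact e)
        rw [conjBy_one] at h1
        exact Subgroup.mem_sup_left (h1 ▸ hmem)
      · obtain ⟨u, ⟨hu, hue⟩, -⟩ := hreg (y • α) (g • α) hyα e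
        have h1 := key g (u * y) (by rw [mul_smul, hue])
        rw [h1, ← conjBy_conjBy, mem_conjBy] at hmem
        have h2 := mul_mem (mul_mem (Subgroup.mem_sup_left (T := Cfsg.conjBy A y) hu)
          (Subgroup.mem_sup_right (S := A) hmem)) (inv_mem (Subgroup.mem_sup_left (T := Cfsg.conjBy A y) hu))
        rw [show u * (u⁻¹ * (g * a * g⁻¹) * u) * u⁻¹ = g * a * g⁻¹ by group] at h2
        exact h2
    · refine sup_le Subgroup.le_normalClosure fun x hx => ?_
      have := Subgroup.normalClosure_normal.conj_mem _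
        (Subgroup.le_normalClosure (mem_conjBy.mp hx)) y
      simpa [mul_assoc] using this

end Cfsg.Agent.S5015
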