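import Cfsg.Statements.S5018
import Cfsg.Agent.Lib.RootSub.RankOneNormal

set_option autoImplicit false
set_option linter.all false
open Cfsg

namespace Cfsg.Agent.S5018

/-- A rank one group is not nilpotent, and its second centre equals its centre. -/
theorem result {X : Type*} [Group X] {A B : Subgroup X} (h : Cfsg.IsRankOneGroup X A B) :
    Subgroup.upperCentralSeries X 2 = Subgroup.center X ∧ ¬ Group.IsNilpotent X := by
  exact ⟨CfsgLib.RootSub.upper_two_eq h, CfsgLib.RootSub.not_nilpotent h⟩

end Cfsg.Agent.S5018
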