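import Cfsg.Statements.S5019
import Cfsg.Agent.Lib.RootSub.RankOneNormal

set_option autoImplicit false
open Cfsg

namespace Cfsg.Agent.S5019

open CfsgLib.RootSub

theorem ring_identity {R : Type*} [Ring R] {α β ξ : R} (hα : α * α = 0) (hξ : ξ * ξ = 0) (hξβ : ξ * β = 0)
    (hβξ : β * ξ = 0) (hβ : β * β = 0)
    (hstar : (1 + ξ) * (1 + α) * (1 - β) = (1 + α) * (1 - β) * (1 + α)) :
    (ξ + β) * α = 0 ∧ α * (ξ + β) = 0 := by
  have hs : ξ + ξ * α - ξ * α * β = α - β * α - α * β * α := by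
    have : (1 + ξ) * (1 + α) * (1 - β) - (1 + α) * (1 - β) * (1 + α) = 0 := sub_eq_zero.mpr hstar
    simp only [add_mul, mul_add, mul_sub, sub_mul, one_mul, mul_one, mul_assoc, hα, hξβ] at this ⊢
    rw [← sub_eq_zero, ← this]; abel
  have I : ξ * α = ξ * α * β * α := by
    have h1 := congrArg (fun z => ξ * z) hs
    simp only [mul_add, mul_sub, ← mul_assoc, hξ, hξβ, zero_mul, sub_zero, add_zero] at h1
    exact sub_eq_zero.mp h1.symm
  have II : β * α = β * α * β * α := by
    have h1 := congrArg (fun z => β * z) hs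
    simp only [mul_add, mul_sub, ← mul_assoc, hβξ, hβ, zero_mul, sub_zero, add_zero, zero_add] at h1
    exact sub_eq_zero.mp h1.symm
  have III : ξ * α * β = α * β - β * α * β - α * β * α * β := by
    have h1 := congrArg (fun z => z * β) hs
    simp only [add_mul, sub_mul, mul_assoc, hξβ, hβ, mul_zero, sub_zero, zero_add] at h1
    simpa only [mul_assoc] using h1
  have IV : ξ * α = -(β * α) := by
    have h1 := congrArg (fun z => z * α) III
    simp only [sub_mul] at h1
    rw [← I, ← II, show α * β * α * β * α = α * (β * α * β * α) by simp only [mul_assoc], ← II, ← mul_assoc] at h1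
    rw [h1]; abel
  have hαβ : α * β = α * β * α * β := by
    rw [IV, neg_mul] at III
    rw [← sub_eq_zero]
    calc α * β - α * β * α * β = (α * β - β * α * β - α * β * α * β) + β * α * β := by abel
      _ = 0 := by rw [← III]; abel
  have hξ' : ξ = α - α * β * α - β * α * β := by
    rw [IV, neg_mul] at hs
    calc ξ = (ξ + -(β * α) - -(β * α * β)) + β * α - β * α * β := by abel
      _ = _ := by rw [hs]; abel
  refine ⟨by rw [add_mul, IV]; abel, ?_⟩
  rw [hξ', mul_add, mul_sub, mul_sub]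
  simp only [← mul_assoc, hα, zero_mul]
  rw [← hαβ]; abel


/-- Let X be a rank one group with abelian unipotent subgroups A and B, and suppose X acts on an abelian group N (written additively) in such a way that A acts quadratically, meaning a' • (a • n − n) = a • n − n for all a, a' in A and n in N, while X as a whole does not: y • (x • n − n) ≠ x • n − n for some x, y in X and n in N. Then X is a special rank one group. -/
theorem result {X : Type*} [Group X] {A B : Subgroup X} (h : Cfsg.IsRankOneGroup X A B)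
    (hab : Cfsg.HasAbelianUnipotents A B) {N : Type*} [AddCommGroup N] [DistribMulAction X N]
    (hq : ∀ a ∈ A, ∀ a' ∈ A, ∀ n : N, a' • (a • n - n) = a • n - n)
    (hX : ∃ x y : X, ∃ n : N, y • (x • n - n) ≠ x • n - n) : Cfsg.IsSpecialRankOnePair A B := by
  refine ⟨h.2, fun a ha ha1 b hb hb1 e => ?_⟩
  set φ := DistribMulAction.toAddMonoidEnd X N with hφ
  have hAA : ∀ u ∈ A, ∀ v ∈ A, (φ u - 1) * (φ v - 1) = 0 := fun u hu v hv => by
    ext n
    show u • (v • n - n) - (v • n - n) = 0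
    rw [hq v hv u hu n, sub_self]
  have hBB : ∀ u ∈ B, ∀ v ∈ B, (φ u - 1) * (φ v - 1) = 0 := by
    obtain ⟨g, -, hg⟩ := B_mem_unipotent h.2
    intro u hu v hv
    rw [hg, mem_conjBy] at hu hv
    have key : ∀ w : X, φ w - 1 = φ g * (φ (g⁻¹ * w * g) - 1) * φ g⁻¹ := fun w => by
      rw [mul_sub, mul_one, sub_mul, ← map_mul, ← map_mul, ← map_mul, mul_inv_cancel, map_one]
      congr 2; group
    rw [key u, key v]
    calc φ g * (φ (g⁻¹ * u * g) - 1) * φ g⁻¹ * (φ g * (φ (g⁻¹ * v * g) - 1) * φ g⁻¹)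
        = φ g * ((φ (g⁻¹ * u * g) - 1) * (φ g⁻¹ * φ g) * (φ (g⁻¹ * v * g) - 1)) * φ g⁻¹ := by simp only [mul_assoc]
      _ = 0 := by rw [← map_mul, inv_mul_cancel, map_one, mul_one, hAA _ hu _ hv, mul_zero, zero_mul]
  have hK : φ.ker ≤ Subgroup.center X := by
    rcases normal_cases h φ.ker inferInstance with hcase | hcase
    · exfalso
      obtain ⟨x, y, n, hne⟩ := hX
      apply hne
      have hred : ∀ z : X, ∃ u ∈ A, φ z = φ u := fun z => by
        obtain ⟨k, hk, u, hu, rfl⟩ := Subgroup.mem_sup_of_normal_left.mp (hcase ▸ Subgroup.mem_top z)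
        exact ⟨u, hu, by rw [map_mul, MonoidHom.mem_ker.mp hk, one_mul]⟩
      obtain ⟨u, hu, eu⟩ := hred x
      obtain ⟨v, hv, ev⟩ := hred y
      have e1 : x • n = u • n := congrArg (fun f : AddMonoid.End N => f n) eu
      have e2 : ∀ m, y • m = v • m := fun m => congrArg (fun f : AddMonoid.End N => f m) ev
      rw [e1, e2]
      exact hq u hu v hv n
    · exact hcase
  have hm : a * b⁻¹ * a * b * a⁻¹ ∈ B := by
    have : b⁻¹ * a * b ∈ conjBy A b⁻¹ := mem_conjBy.mpr (by simpa [mul_assoc] using ha)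
    rw [e, mem_conjBy] at this
    simpa [mul_assoc] using this
  set x := a * b⁻¹ * a * b * a⁻¹ with hx
  have hneg : ∀ u : X, (φ u - 1) * (φ u - 1) = 0 → φ u⁻¹ = 1 - (φ u - 1) := fun u hu => by
    have h1 : φ u⁻¹ * φ u = 1 := by rw [← map_mul, inv_mul_cancel, map_one]
    calc φ u⁻¹ = φ u⁻¹ * ((1 + (φ u - 1)) * (1 - (φ u - 1))) := by
          rw [add_mul, one_mul, mul_sub, mul_one, hu, sub_zero, sub_add_cancel, mul_one]
      _ = φ u⁻¹ * φ u * (1 - (φ u - 1)) := by rw [← mul_assoc, add_sub_cancel]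
      _ = _ := by rw [h1, one_mul]
  have hstar : (1 + (φ x - 1)) * (1 + (φ a - 1)) * (1 - (φ b - 1)) =
      (1 + (φ a - 1)) * (1 - (φ b - 1)) * (1 + (φ a - 1)) := by
    rw [← hneg b (hBB b hb b hb), add_sub_cancel, add_sub_cancel, ← map_mul, ← map_mul, ← map_mul, ← map_mul, hx]
    congr 1; group
  obtain ⟨h1, h2⟩ := ring_identity (hAA a ha a ha) (hBB x hm x hm) (hBB x hm b hb) (hBB b hb x hm) (hBB b hb b hb) hstar
  have hxb : φ (x * b) - 1 = (φ x - 1) + (φ b - 1) := by
    have h3 := hBB x hm b hb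
    rw [sub_mul, mul_sub, mul_one, one_mul] at h3
    rw [map_mul, ← sub_eq_zero, ← h3]; abel
  rw [← hxb] at h1 h2
  have hcomm : φ (x * b) * φ a = φ a * φ (x * b) := by
    rw [← sub_eq_zero]
    calc φ (x * b) * φ a - φ a * φ (x * b)
        = (φ (x * b) - 1) * (φ a - 1) - (φ a - 1) * (φ (x * b) - 1) := by
          simp only [sub_mul, mul_sub, mul_one, one_mul]; abel
      _ = 0 := by rw [h1, h2, sub_zero]
  set z := x * b with hz
  have hzB : z ∈ B := mul_mem hm hb
  have hc : z * a * z⁻¹ * a⁻¹ ∈ Subgroup.center X := hK (by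
    rw [MonoidHom.mem_ker, map_mul, map_mul, map_mul, hcomm, mul_assoc (φ a), ← map_mul φ z, mul_inv_cancel, map_one,
      mul_one, ← map_mul, mul_inv_cancel, map_one])
  have hfix : conjBy (conjBy B a) z = conjBy B a := by
    rw [conjBy_conjBy, show z * a = (z * a * z⁻¹ * a⁻¹) * (a * z) by group,
      ← (Subgroup.mem_center_iff.mp hc (a * z)), ← conjBy_conjBy,
      mem_normalizer_iff_conjBy.mp (show z * a * z⁻¹ * a⁻¹ ∈ Subgroup.normalizer (B : Set X) from
        Subgroup.center_le_normalizer (B : Set X) hc), ← conjBy_conjBy, conjBy_of_mem hzB]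
  obtain ⟨b', hb', hb'1, e'⟩ := h.2.cond_left a⁻¹ (inv_mem ha) (inv_ne_one.mpr ha1)
  rw [inv_inv] at e'
  rw [← e', conjBy_conjBy] at hfix
  have hz1 : z = 1 := by
    have := eq_of_conjBy_B (RankOnePair_symm h.2) (mul_mem hzB (inv_mem hb')) (inv_mem hb') hfix
    simpa using this
  have : x = b⁻¹ := eq_inv_of_mul_eq_one_left hz1
  calc b⁻¹ * a * b = a⁻¹ * x * a := by rw [hx]; group
    _ = a⁻¹ * b⁻¹ * a := by rw [this]

end Cfsg.Agent.S5019
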