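import Cfsg.Statements.S5022
import Cfsg.Agent.Lib.RootSub.SpecialPowers
import Cfsg.Agent.Lib.RootSub.SL2Relations

set_option autoImplicit false
open Cfsg

namespace Cfsg.Agent.S5022

open CfsgLib.RootSub

theorem pow_val_add {G : Type*} [Group G] {p : ℕ} [NeZero p] {x : G} (hx : x ^ p = 1) (s t : ZMod p) :
    x ^ (s + t).val = x ^ s.val * x ^ t.val := by
  rw [ZMod.val_add, ← pow_add, ← pow_eq_pow_mod _ hx]


/-- Let X be a special rank one group with abelian unipotent subgroups A and B, where A is an elementary abelian p-group for the prime p. Then for every non-identity a in A and the non-identity b in B with b⁻¹ A b = a⁻¹ B a, the subgroup generated by a and b is isomorphic to SL₂(p) or to PSL₂(p). -/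
theorem result {X : Type*} [Group X] {A B : Subgroup X} (h : Cfsg.IsRankOneGroup X A B)
    (hs : Cfsg.IsSpecialRankOnePair A B) (hab : Cfsg.HasAbelianUnipotents A B)
    {p : ℕ} [Fact p.Prime] (hA : Cfsg.IsElementaryAbelian p A)
    {a b : X} (ha : a ∈ A) (ha1 : a ≠ 1) (hb : b ∈ B) (hb1 : b ≠ 1) (hab' : Cfsg.conjBy A b⁻¹ = Cfsg.conjBy B a⁻¹) :
    Nonempty (↥(Subgroup.closure ({a, b} : Set X)) ≃* Matrix.SpecialLinearGroup (Fin 2) (ZMod p)) ∨
    Nonempty (↥(Subgroup.closure ({a, b} : Set X)) ≃* Matrix.ProjectiveSpecialLinearGroup (Fin 2) (ZMod p)) := by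
  have hap : a ^ p = 1 := hA.2 a ha
  obtain ⟨-, hconj, -⟩ := SpecialPowers.relation hs hab ha ha1 hb hb1 hab'
  have hbp : b ^ p = 1 := by
    have h1 : b⁻¹ ^ p = 1 := by rw [← hconj, conj_pow, hap]; group
    simpa using h1
  set Y := Subgroup.closure ({a, b} : Set X) with hY
  have haY : a ∈ Y := Subgroup.subset_closure (by simp)
  have hbY : b ∈ Y := Subgroup.subset_closure (by simp)
  have hpp : p.Prime := Fact.out
  have hAne : ∀ s : ZMod p, a ^ s.val = 1 → s = 0 := by
    intro s hs1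
    have hord : orderOf a = p := orderOf_eq_prime hap ha1
    have := orderOf_dvd_iff_pow_eq_one.mpr hs1
    rw [hord] at this
    exact (ZMod.val_eq_zero s).mp (Nat.eq_zero_of_dvd_of_lt this (ZMod.val_lt s))
  have hBne : ∀ s : ZMod p, b ^ s.val = 1 → s = 0 := by
    intro s hs1
    have hord : orderOf b = p := orderOf_eq_prime hbp hb1
    have := orderOf_dvd_iff_pow_eq_one.mpr hs1
    rw [hord] at this
    exact (ZMod.val_eq_zero s).mp (Nat.eq_zero_of_dvd_of_lt this (ZMod.val_lt s))
  have hswap : ∀ t : ZMod p, t ≠ 0 →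
      a ^ t.val * b ^ (-t⁻¹).val * a ^ t.val = b ^ (-t⁻¹).val * a ^ t.val * b ^ (-t⁻¹).val := by
    intro t ht
    have hk : a ^ t.val ≠ 1 := fun h => ht (hAne t h)
    obtain ⟨c, hc, hc1, ec⟩ := hs.1.cond_left _ (pow_mem ha _) hk
    have hck := SpecialPowers.powers hs hab t.val a b c ha ha1 hb hb1 hab' hk hc hc1 ec
    have r := (SpecialPowers.relation hs hab (pow_mem ha _) hk hc hc1 ec).1
    have hcp : c ^ p = 1 := by
      obtain ⟨-, hconj', -⟩ := SpecialPowers.relation hs hab (pow_mem ha _) hk hc hc1 ec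
      have h1 : c⁻¹ ^ p = 1 := by rw [← hconj', conj_pow, hA.2 _ (pow_mem ha _)]; group
      simpa using h1
    have e : b ^ (-t⁻¹).val = c⁻¹ := by
      rw [← hck, ← pow_mul, eq_inv_iff_mul_eq_one, ← pow_succ, ← orderOf_dvd_iff_pow_eq_one,
        orderOf_eq_prime hcp hc1, ← ZMod.natCast_eq_zero_iff]
      simp [ht]
    rw [e]; exact r
  let A' : ZMod p → Y := fun s => ⟨a, haY⟩ ^ s.val
  let B' : ZMod p → Y := fun s => ⟨b, hbY⟩ ^ s.val
  have r : SL2Relations.Rel A' B' := by
    refine ⟨pow_val_add (Subtype.ext (by simpa using hap)), pow_val_add (Subtype.ext (by simpa using hbp)), fun t ht => ?_⟩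
    exact Subtype.ext (by simpa [A', B'] using hswap t ht)
  refine SL2Relations.iso r ?_ (fun s h1 => hBne s (by simpa [B'] using congrArg Subtype.val h1))
    (fun s h1 => hAne s (by simpa [A'] using congrArg Subtype.val h1)) fun s t h1 => ?_
  · rw [eq_top_iff, ← Subgroup.closure_closure_coe_preimage]
    refine Subgroup.closure_mono ?_
    rintro ⟨x, hx⟩ (hxa | hxb)
    · refine Or.inl ⟨1, Subtype.ext ?_⟩
      have hxa' : x = a := hxa
      show a ^ (1 : ZMod p).val = x
      rw [ZMod.val_one, pow_one, hxa']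
    · refine Or.inr ⟨1, Subtype.ext ?_⟩
      simp only [Set.mem_singleton_iff] at hxb
      show b ^ (1 : ZMod p).val = x
      rw [ZMod.val_one, pow_one]
      exact hxb.symm
  · apply Subtype.ext
    have h2 : a ^ s.val = b ^ t.val := by simpa [A', B'] using congrArg Subtype.val h1
    have h3 : a ^ s.val ∈ A ⊓ Subgroup.normalizer (B : Set X) :=
      Subgroup.mem_inf.mpr ⟨pow_mem ha _, Subgroup.le_normalizer (h2 ▸ pow_mem hb _)⟩
    rw [A_inf_normalizer hs.1, Subgroup.mem_bot] at h3
    simpa [A'] using h3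

end Cfsg.Agent.S5022
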