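import Cfsg.Statements.S5026
import Cfsg.Agent.Lib.RootSub.RootSet

set_option autoImplicit false
set_option linter.all false
open Cfsg

namespace Cfsg.Agent.S5026
open CfsgLib.RootSub

/-- Let S be a degenerate set of abstract root subgroups of G (a set of abstract transvection groups) and let a, b be commuting non-identity elements of members of S with a b ≠ 1. Then the members of S centralizing a b are exactly those centralizing both a and b. -/
theorem result {G : Type*} [Group G] {S : Set (Subgroup G)} (hS : Cfsg.IsRootSubgroupSet S) (hdeg : Cfsg.IsDegenerateRootSet S)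
    {a b : G} (ha : a ∈ Cfsg.rootElements S) (hb : b ∈ Cfsg.rootElements S) (hab : a * b = b * a) (hab1 : a * b ≠ 1) :
    Cfsg.centralizingMembers S (Subgroup.zpowers (a * b)) =
      Cfsg.centralizingMembers S (Subgroup.zpowers a) ∩ Cfsg.centralizingMembers S (Subgroup.zpowers b) := by
  obtain ⟨ha1, A, hA, haA⟩ := ha
  obtain ⟨hb1, B, hB, hbB⟩ := hb
  ext E
  simp only [Cfsg.centralizingMembers, Set.mem_setOf_eq, Set.mem_inter_iff]
  constructor
  · rintro ⟨hE, hab'⟩
    have hc : ∀ e ∈ E, (a * b) * e = e * (a * b) := fun e he =>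
      Subgroup.mem_centralizer_iff.mp (hab' he) _ (Subgroup.mem_zpowers _)
    have key : ∀ e ∈ E, a * e = e * a := by
      rcases hS.pair A hA E hE with hA' | hA' | hA'
      · exact fun e he => commute_of_bracket hA' haA he
      · exfalso
        have hbnc : ¬ ∀ e ∈ E, b * e = e * b := fun hh => not_commute_of_pair hA' haA ha1 fun e he => by
          calc a * e = (a * b) * (b⁻¹ * e) := by group
            _ = (a * b) * (e * b⁻¹) := by
              rw [show b⁻¹ * e = e * b⁻¹ from (Commute.inv_left (hh e he))]
            _ = ((a * b) * e) * b⁻¹ := by group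
            _ = (e * (a * b)) * b⁻¹ := by rw [hc e he]
            _ = e * a := by group
        rcases hS.pair B hB E hE with hB' | hB' | hB'
        · exact hbnc fun e he => commute_of_bracket hB' hbB he
        · obtain ⟨e₀, he₀, -, q₀⟩ := hA'.cond_left a haA ha1
          obtain ⟨e₁, he₁, -, q₁⟩ := hB'.cond_left b⁻¹ (inv_mem hbB) (inv_ne_one.mpr hb1)
          have hEab : Cfsg.conjBy E (b⁻¹)⁻¹ = Cfsg.conjBy E a⁻¹ := by
            rw [inv_inv]
            have hn : Cfsg.conjBy E (a * b) = E :=
              mem_normalizer_iff_conjBy.mp (mem_normalizer_of_commute hc)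
            conv_rhs => rw [← hn, conjBy_conjBy, ← mul_assoc, inv_mul_cancel, one_mul]
          rw [hEab, ← q₀] at q₁
          have hBA : B = Cfsg.conjBy A (e₁ * e₀⁻¹) := by rw [← conjBy_self_inv B e₁, q₁, conjBy_conjBy]
          rcases eq_or_ne (e₁ * e₀⁻¹) 1 with hf | hf
          · rw [hf, conjBy_one] at hBA
            subst hBA
            exact not_commute_of_pair hA' (mul_mem haA hbB) hab1 hc
          · have hne : B ≠ A := fun e' => hf (by
              have h2 : e₁ * e₀⁻¹ ∈ E ⊓ Subgroup.normalizer (A : Set G) := Subgroup.mem_inf.mpr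
                ⟨mul_mem he₁ (inv_mem he₀), mem_normalizer_iff_conjBy.mpr (hBA.symm.trans e')⟩
              rwa [B_inf_normalizer hA', Subgroup.mem_bot] at h2)
            have hΩ : B ∈ Cfsg.unipotentSubgroups A E :=
              ⟨_, Subgroup.mem_sup_right (mul_mem he₁ (inv_mem he₀)), hBA⟩
            rcases inf_eq_bot_or_eq hS (B := Cfsg.conjBy B a) hE (hS.conj_mem B hB a) hB' with hbot | heq
            · apply hb1
              rw [← Subgroup.mem_bot, ← hbot, Subgroup.mem_inf]
              exact ⟨hbB, mem_conjBy.mpr (by rw [mul_assoc, ← hab, inv_mul_cancel_left]; exact hbB)⟩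
            · obtain ⟨c, hc', rfl⟩ := ((unipotent_eq hA').mp hΩ).resolve_left hne
              rw [conjBy_conjBy] at heq
              exact ha1 (by simpa using (eq_of_conjBy_B hA' hc' (mul_mem haA hc') heq).symm)
        · exact hdeg B hB E hE hB'
      · exact (hdeg A hA E hE hA').elim
    refine ⟨⟨hE, fun e he => Subgroup.mem_centralizer_iff.mpr fun y hy => ?_⟩,
      hE, fun e he => Subgroup.mem_centralizer_iff.mpr fun y hy => ?_⟩
    · obtain ⟨n, rfl⟩ := Subgroup.mem_zpowers_iff.mp hy
      exact ((show Commute a e from key e he).zpow_left n)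
    · obtain ⟨n, rfl⟩ := Subgroup.mem_zpowers_iff.mp hy
      have h2 : Commute b e := by
        have h3 : Commute (a⁻¹ * (a * b)) e := (Commute.inv_left (key e he)).mul_left (hc e he)
        rwa [inv_mul_cancel_left] at h3
      exact h2.zpow_left n
  · rintro ⟨⟨hE, ha'⟩, -, hb'⟩
    refine ⟨hE, fun e he => Subgroup.mem_centralizer_iff.mpr fun y hy => ?_⟩
    have h1 : Commute a e := Subgroup.mem_centralizer_iff.mp (ha' he) a (Subgroup.mem_zpowers a)
    have h2 : Commute b e := Subgroup.mem_centralizer_iff.mp (hb' he) b (Subgroup.mem_zpowers b)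
    obtain ⟨n, rfl⟩ := Subgroup.mem_zpowers_iff.mp hy
    exact (h1.mul_left h2).zpow_left n

end Cfsg.Agent.S5026
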