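import Cfsg.Statements.S5027
import Cfsg.Agent.Lib.RootSub.RootSet

set_option autoImplicit false
set_option linter.all false
open Cfsg

namespace Cfsg.Agent.S5027
open CfsgLib.RootSub

/-- Let S be a set of abstract root subgroups of G such that every member of S has a rank one partner in S (the graph of rank one pairs on S has no isolated vertex). Then the second centre of G equals its centre. -/
theorem result {G : Type*} [Group G] {S : Set (Subgroup G)} (hS : Cfsg.IsRootSubgroupSet S)
    (hF : ∀ A ∈ S, ¬ Cfsg.IsIsolatedIn (Cfsg.FAdj S) S A) : Subgroup.upperCentralSeries G 2 = Subgroup.center G := by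
  refine le_antisymm (fun g hg => ?_) (center_le_two G)
  rw [Subgroup.mem_center_iff]
  intro x
  have hle : (⨆ A ∈ S, A) ≤ Subgroup.centralizer ({g} : Set G) := by
    refine iSup₂_le fun A hA a ha => Subgroup.mem_centralizer_singleton_iff.mpr ?_
    rcases eq_or_ne a 1 with rfl | ha1
    · simp
    obtain ⟨B, hB, hpair⟩ : ∃ B ∈ S, Cfsg.IsRankOnePair A B := by
      by_contra hcon
      push Not at hcon
      exact hF A hA ⟨hA, fun E => ⟨fun hadj => hcon E hadj.2.1 hadj.2.2,
        fun hadj => hcon E hadj.1 (Cfsg.RankOnePair_symm hadj.2.2)⟩⟩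
    have hc := Subgroup.mem_center_iff.mp (commutator_mem_center_of_two hg a)
    have hmem : (g * a * g⁻¹ * a⁻¹) * a ∈ Cfsg.conjBy A g := by
      rw [inv_mul_cancel_right, mem_conjBy]; simpa [mul_assoc] using ha
    have h1 := (eq_of_mul_mem hS hB (hS.conj_mem A hA g) hpair (fun y _ => (hc y).symm) (fun y _ => (hc y).symm)
      ha ha1 hmem).2
    calc a * g = (g * a * g⁻¹ * a⁻¹) * a * g := by rw [h1, one_mul]
      _ = g * a := by group
  exact Subgroup.mem_centralizer_singleton_iff.mp (hle (hS.generates ▸ Subgroup.mem_top x))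

end Cfsg.Agent.S5027
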