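import Cfsg.Statements.S5029
import Cfsg.Agent.Lib.RootSub.CommutatorLine

set_option autoImplicit false
open Cfsg

namespace Cfsg.Agent.S5029

open CfsgLib.RootSub CfsgLib.RootSub.CommutatorLine
open scoped commutatorElement

/-- Let S be a set of abstract root subgroups of G, A ∈ S having a rank one partner in S, and B ∈ S with C = ⁅A, B⁆ ∈ S. Then the members of S contained in AC are the conjugates of A by elements of B together with C, they partition AC, the members of S inside AC partition AC so that A is a line partner of C, and for every non-identity a ∈ A the map b ↦ a⁻¹ b⁻¹ a b is an isomorphism from B onto C. -/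
theorem result {G : Type*} [Group G] {S : Set (Subgroup G)} (hS : Cfsg.IsRootSubgroupSet S)
    {A B : Subgroup G} (hA : ¬ Cfsg.IsIsolatedIn (Cfsg.FAdj S) S A) (hAS : A ∈ S) (hB : B ∈ S) (hC : ⁅A, B⁆ ∈ S) :
    Cfsg.membersIn S (A ⊔ ⁅A, B⁆) = (fun b : G => Cfsg.conjBy A b) '' (B : Set G) ∪ {⁅A, B⁆} ∧
    Cfsg.IsSubgroupPartition (A ⊔ ⁅A, B⁆) (Cfsg.membersIn S (A ⊔ ⁅A, B⁆)) ∧
    A ∈ Cfsg.linePartners S ⁅A, B⁆ ∧
    ∀ a ∈ A, a ≠ 1 → ∃ φ : ↥B ≃* ↥⁅A, B⁆, ∀ b : ↥B, (φ b : G) = a⁻¹ * (b : G)⁻¹ * a * b := by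
  have hc := case_of_mem hS hAS hB hC
  obtain ⟨E, hE, hp⟩ := partner hA hAS
  have hCne : ⁅A, B⁆ ≠ ⊥ := hS.ne_bot _ hC
  obtain ⟨a₀, ha₀, ha₀1⟩ := exists_ne_one (hS.ne_bot _ hAS)
  have hcentA : ∀ c ∈ ⁅A, B⁆, ∀ x ∈ A, c * x = x * c := fun c hc' x hx => hc.2.1 c hc' x (Subgroup.mem_sup_left hx)
  have hconjmem : ∀ b : G, Cfsg.conjBy A b ∈ S := fun b => hS.conj_mem A hAS b
  have hsmall : ∀ F ∈ S, F ≤ ⁅A, B⁆ → F = ⁅A, B⁆ := by
    intro F hF hle
    rcases hS.pair _ hC E hE with h | h | h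
    · exfalso
      obtain ⟨z, hz, hz1⟩ := exists_ne_one hCne
      have hmem : z * a₀ ∈ A ⊔ ⁅A, B⁆ := mul_mem (Subgroup.mem_sup_right hz) (Subgroup.mem_sup_left ha₀)
      rcases decompose hS hAS hA hc hmem with h1 | ⟨b, hb, h1⟩
      · exact ha₀1 (ne_comm hS hAS hA hc a₀ ha₀ (by simpa using mul_mem (inv_mem hz) h1))
      · exact hz1 (eq_of_mul_mem hS hE (hconjmem b) hp (hcentA z hz) (fun x hx => commute_of_bracket h hz hx) ha₀ ha₀1 h1).2
    · rcases inf_eq_bot_or_eq hS hE hF h with e | e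
      · exact absurd (le_bot_iff.mp (e ▸ le_inf hle le_rfl)) (hS.ne_bot F hF)
      · exact e.symm
    · refine le_antisymm hle fun z hz => ?_
      obtain ⟨f, hf, hf1⟩ := exists_ne_one (hS.ne_bot F hF)
      have hKF : ⁅F, E⁆ = ⁅⁅A, B⁆, E⁆ := by
        refine le_antisymm (Subgroup.commutator_mono hle le_rfl) ?_
        conv_lhs => rw [← h.2.2.1 f (hle hf) hf1]
        rw [Subgroup.closure_le]
        rintro _ ⟨e', he', rfl⟩
        exact Subgroup.commutator_mem_commutator hf he'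
      have hE' : ¬ Cfsg.IsIsolatedIn (Cfsg.FAdj S) S E := fun hi => (hi.2 A).1 ⟨hE, hAS, Cfsg.RankOnePair_symm hp⟩
      have c1 : Cfsg.RootCommutatorCase S E ⁅A, B⁆ := case_of_mem hS hE hC (Subgroup.commutator_comm E ⁅A, B⁆ ▸ h.1)
      have c2 : Cfsg.RootCommutatorCase S E F := case_of_mem hS hE hF (by
        rw [Subgroup.commutator_comm, hKF]; exact h.1)
      obtain ⟨d, hd, hd1⟩ := exists_ne_one (hS.ne_bot _ hE)
      have hKF' : ⁅E, F⁆ = ⁅E, ⁅A, B⁆⁆ := by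
        rw [Subgroup.commutator_comm E F, hKF, Subgroup.commutator_comm]
      obtain ⟨u, hu⟩ := (hom_bijective hS hE hE' c2 hd hd1).2
        ⟨d⁻¹ * z⁻¹ * d * z, hKF'.symm ▸ mem_comm hS hE hE' c1 hd hz⟩
      have hu' : d⁻¹ * (u : G)⁻¹ * d * u = d⁻¹ * z⁻¹ * d * z := congrArg Subtype.val hu
      have := (hom_bijective hS hE hE' c1 hd hd1).1 (a₁ := ⟨u, hle u.2⟩) (a₂ := ⟨z, hz⟩) (Subtype.ext hu')
      have e3 : (u : G) = z := congrArg Subtype.val this
      exact e3 ▸ u.2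
  have hmembers : Cfsg.membersIn S (A ⊔ ⁅A, B⁆) = (fun b : G => Cfsg.conjBy A b) '' (B : Set G) ∪ {⁅A, B⁆} := by
    ext F
    constructor
    · rintro ⟨hF, hle⟩
      by_cases hFC : F ≤ ⁅A, B⁆
      · exact Or.inr (hsmall F hF hFC)
      · obtain ⟨x, hx, hxC⟩ := SetLike.not_le_iff_exists.mp hFC
        obtain ⟨b, hb, h1⟩ := (decompose hS hAS hA hc (hle hx)).resolve_left hxC
        exact Or.inl ⟨b, hb, (conj_inf hS hE hp b hF h1 hx fun e => hxC (e ▸ one_mem _)).symm⟩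
    · rintro (⟨b, hb, rfl⟩ | rfl)
      · exact ⟨hconjmem b, conj_le hS hAS hA hc hb⟩
      · exact ⟨hC, le_sup_right⟩
  have hpart : Cfsg.IsSubgroupPartition (A ⊔ ⁅A, B⁆) (Cfsg.membersIn S (A ⊔ ⁅A, B⁆)) := by
    refine ⟨fun F hF => hF.2, fun x hx hx1 => ?_, ?_⟩
    · rcases decompose hS hAS hA hc hx with h | ⟨b, hb, h⟩
      · exact ⟨_, ⟨hC, le_sup_right⟩, h⟩
      · exact ⟨_, ⟨hconjmem b, conj_le hS hAS hA hc hb⟩, h⟩
    · intro F hF F' hF' hne
      rw [hmembers] at hF hF'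
      have key : ∀ b : G, ∀ K ∈ S, K ≠ Cfsg.conjBy A b → Cfsg.conjBy A b ⊓ K = ⊥ := by
        intro b K hK hne
        rw [Subgroup.eq_bot_iff_forall]
        intro x hx
        by_contra hx1
        exact hne (conj_inf hS hE hp b hK (Subgroup.mem_inf.mp hx).1 (Subgroup.mem_inf.mp hx).2 hx1)
      rcases hF with ⟨b, -, rfl⟩ | rfl
      · refine key b F' ?_ hne.symm
        rcases hF' with ⟨b', -, rfl⟩ | rfl
        exacts [hconjmem b', hC]
      · rcases hF' with ⟨b', -, rfl⟩ | e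
        · rw [inf_comm]; exact key b' _ hC hne
        · exact absurd e.symm hne
  have hcm : ⁅⁅A, B⁆, A⁆ = ⊥ := by
    rw [Subgroup.commutator_eq_bot_iff_le_centralizer]
    exact fun z hz => Subgroup.mem_centralizer_iff.mpr fun x hx => (hcentA z hz x hx).symm
  refine ⟨hmembers, hpart, ⟨⟨hAS, ?_, hcm⟩, ?_⟩, fun a ha ha1 => ?_⟩
  · intro e
    exact ha₀1 (ne_comm hS hAS hA hc a₀ ha₀ (e ▸ ha₀))
  · rw [sup_comm]; exact hpart
  · exact ⟨MulEquiv.ofBijective _ (hom_bijective hS hAS hA hc ha ha1), fun b => rfl⟩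

end Cfsg.Agent.S5029
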