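import Cfsg.Statements.S5031
import Cfsg.Agent.Lib.RootSub.LineComponent

set_option autoImplicit false
open Cfsg

namespace Cfsg.Agent.S5031

/-- Let S be a set of abstract root subgroups of G and let A, B ∈ S lie in different connected components of the graph of rank one pairs on S, each component having more than one member. Then B is not a line partner of A. -/
theorem result {G : Type*} [Group G] {S : Set (Subgroup G)} (hS : Cfsg.IsRootSubgroupSet S)
    {A B : Subgroup G} (hA : A ∈ S) (hB : B ∈ S)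
    (hne : Cfsg.componentOf (Cfsg.FAdj S) S A ≠ Cfsg.componentOf (Cfsg.FAdj S) S B)
    (hA2 : ∃ A' ∈ Cfsg.componentOf (Cfsg.FAdj S) S A, A' ≠ A) (hB2 : ∃ B' ∈ Cfsg.componentOf (Cfsg.FAdj S) S B, B' ≠ B) :
    B ∉ Cfsg.linePartners S A := by
  intro hB'
  obtain ⟨⟨-, -, hAB⟩, hpart⟩ := hB'
  have hsym : ∀ X Y, Relation.ReflTransGen (Cfsg.FAdj S) X Y → Relation.ReflTransGen (Cfsg.FAdj S) Y X := by
    intro X Y h
    induction h with
    | refl => exact .refl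
    | tail _ h ih => exact Relation.ReflTransGen.head ⟨h.2.1, h.1, Cfsg.RankOnePair_symm h.2.2⟩ ih
  have hno : ¬ Relation.ReflTransGen (Cfsg.FAdj S) A B := fun h => hne (Set.ext fun X =>
    ⟨fun hX => ⟨hX.1, (hsym _ _ h).trans hX.2⟩, fun hX => ⟨hX.1, h.trans hX.2⟩⟩)
  have hpart' : ∀ X ∈ S, (∃ X' ∈ Cfsg.componentOf (Cfsg.FAdj S) S X, X' ≠ X) →
      ∃ X' ∈ S, Cfsg.IsRankOnePair X X' := by
    rintro X hX ⟨Y, ⟨-, hY⟩, hYX⟩
    rcases hY.cases_head with e | ⟨Z, hZ, -⟩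
    · exact absurd e.symm hYX
    · exact ⟨Z, hZ.2.1, hZ.2.2⟩
  obtain ⟨A', hA', hpA⟩ := hpart' A hA hA2
  obtain ⟨B', hB', hpB⟩ := hpart' B hB hB2
  obtain ⟨a, ha, ha1⟩ := CfsgLib.RootSub.exists_ne_one (hS.ne_bot A hA)
  obtain ⟨b, hb, hb1⟩ := CfsgLib.RootSub.exists_ne_one (hS.ne_bot B hB)
  have hcomm : a * b = b * a := CfsgLib.RootSub.commute_of_bracket hAB ha hb
  have hab1 : a * b ≠ 1 := by
    intro e
    rcases CfsgLib.RootSub.inf_eq_bot_or_eq hS hA' hB hpA with h | h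
    · refine ha1 (Subgroup.mem_bot.mp (h ▸ Subgroup.mem_inf.mpr ⟨ha, ?_⟩))
      rw [eq_inv_of_mul_eq_one_left e]; exact inv_mem hb
    · exact hno (h ▸ Relation.ReflTransGen.refl)
  obtain ⟨C, hC, habC⟩ := hpart.2.1 (a * b) (mul_mem (Subgroup.mem_sup_left ha) (Subgroup.mem_sup_right hb)) hab1
  have h1 := CfsgLib.RootSub.LineComponent.reach hS hA hB hA' hpA hAB
    (fun h => hno ((Relation.ReflTransGen.single ⟨hA, hA', hpA⟩).tail ⟨hA', hB, h⟩)) hC.1 ha ha1 hb hb1 habC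
  have h2 := CfsgLib.RootSub.LineComponent.reach hS hB hA hB' hpB (by rw [Subgroup.commutator_comm]; exact hAB)
    (fun h => hno (hsym _ _ ((Relation.ReflTransGen.single ⟨hB, hB', hpB⟩).tail ⟨hB', hA, h⟩))) hC.1 hb hb1 ha ha1
    (hcomm ▸ habC)
  exact hno (h1.trans (hsym _ _ h2))

end Cfsg.Agent.S5031
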