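import Cfsg.Statements.S5032
import Cfsg.Agent.Lib.RootSub.LineComponent

set_option autoImplicit false
open Cfsg

namespace Cfsg.Agent.S5032

/-- Let S be a set of abstract root subgroups of G with more than one member. Then the graph of rank one pairs on S is connected if and only if S is a single conjugacy class of G and some member of S has a rank one partner in S. -/
theorem result {G : Type*} [Group G] {S : Set (Subgroup G)} (hS : Cfsg.IsRootSubgroupSet S) (h2 : ∃ A ∈ S, ∃ B ∈ S, A ≠ B) :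
    Cfsg.IsConnectedFamily (Cfsg.FAdj S) S ↔
      (Cfsg.IsConjClassOfSubgroups S ∧ ∃ A ∈ S, ¬ Cfsg.IsIsolatedIn (Cfsg.FAdj S) S A) := by
  classical
  have hsym : ∀ X Y, Relation.ReflTransGen (Cfsg.FAdj S) X Y → Relation.ReflTransGen (Cfsg.FAdj S) Y X := by
    intro X Y h
    induction h with
    | refl => exact .refl
    | tail _ h ih => exact Relation.ReflTransGen.head ⟨h.2.1, h.1, Cfsg.RankOnePair_symm h.2.2⟩ ih
  obtain ⟨A₀, hA₀, B₀, hB₀, hne⟩ := h2
  constructor
  · intro hc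
    refine ⟨⟨⟨A₀, hA₀⟩, fun A hA B hB => ?_⟩, A₀, hA₀, fun hi => ?_⟩
    · have h := hc A hA B hB
      clear hB
      induction h with
      | refl => exact ⟨1, (CfsgLib.RootSub.conjBy_one A).symm⟩
      | @tail X Y _ h ih =>
        obtain ⟨g, rfl⟩ := ih
        obtain ⟨-, -, hp⟩ := h
        obtain ⟨x, hx, hx1⟩ := CfsgLib.RootSub.exists_ne_one (CfsgLib.RootSub.A_ne_bot hp)
        obtain ⟨y, -, -, e⟩ := hp.cond_left x hx hx1
        refine ⟨x * y⁻¹ * g, ?_⟩
        rw [← CfsgLib.RootSub.conjBy_conjBy A g, ← CfsgLib.RootSub.conjBy_conjBy (Cfsg.conjBy A g) y⁻¹, e,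
          CfsgLib.RootSub.conjBy_self_inv]
    · rcases (hc A₀ hA₀ B₀ hB₀).cases_head with e | ⟨Z, hZ, -⟩
      · exact hne e
      · exact (hi.2 Z).1 hZ
  · rintro ⟨hcl, E, hE, hEi⟩
    obtain ⟨E', hE', hpE⟩ := CfsgLib.RootSub.CommutatorLine.partner hEi hE
    have hpart : ∀ A ∈ S, ∃ A' ∈ S, Cfsg.IsRankOnePair A A' := by
      intro A hA
      obtain ⟨g, rfl⟩ := hcl.2 E hE A hA
      exact ⟨_, hS.conj_mem E' hE' g, CfsgLib.RootSub.LineComponent.conj_pair hpE g⟩
    let R := Relation.ReflTransGen (Cfsg.FAdj S)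
    have hgen : ∀ C ∈ S, ∀ c ∈ C, ∀ A ∈ S, R A (Cfsg.conjBy A c) := by
      intro C hC c hc A hA
      have hfix : ∀ X, ⁅X, C⁆ = ⊥ → Cfsg.conjBy X c = X := fun X h =>
        CfsgLib.RootSub.mem_normalizer_iff_conjBy.mp (CfsgLib.RootSub.mem_normalizer_of_commute
          fun x hx => (CfsgLib.RootSub.commute_of_bracket h hx hc).symm)
      have hadj : ∀ {X Y : Subgroup G}, X ∈ S → Y ∈ S → Cfsg.IsRankOnePair X Y →
          Cfsg.FAdj S (Cfsg.conjBy X c) (Cfsg.conjBy Y c) := fun hX hY h =>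
        ⟨hS.conj_mem _ hX c, hS.conj_mem _ hY c, CfsgLib.RootSub.LineComponent.conj_pair h c⟩
      have hCC : Cfsg.conjBy C c = C := CfsgLib.RootSub.conjBy_of_mem hc
      rcases hS.pair A hA C hC with h | h | hAC
      · rw [hfix A h]
      · exact (Relation.ReflTransGen.single ⟨hA, hC, h⟩).tail
          (hCC ▸ hadj hC hA (Cfsg.RankOnePair_symm h))
      obtain ⟨A', hA', hp⟩ := hpart A hA
      have st : R A A' := .single ⟨hA, hA', hp⟩
      have st' : R (Cfsg.conjBy A' c) (Cfsg.conjBy A c) := .single (hadj hA' hA (Cfsg.RankOnePair_symm hp))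
      rcases hS.pair A' hA' C hC with h | h | _
      · rw [hfix A' h] at st'
        exact st.trans st'
      · exact ((st.tail ⟨hA', hC, h⟩).tail (hCC ▸ hadj hC hA' (Cfsg.RankOnePair_symm h))).trans st'
      have hDS : ⁅A, C⁆ ∈ S := hAC.1
      by_cases hD : Cfsg.IsRankOnePair A' ⁅A, C⁆
      · have e : Cfsg.conjBy ⁅A, C⁆ c = ⁅A, C⁆ :=
          CfsgLib.RootSub.mem_normalizer_iff_conjBy.mp (CfsgLib.RootSub.mem_normalizer_of_commute
            fun x hx => (hAC.2.1 x hx c (Subgroup.mem_sup_right hc)).symm)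
        exact ((st.tail ⟨hA', hDS, hD⟩).tail (e ▸ hadj hDS hA' (Cfsg.RankOnePair_symm hD))).trans st'
      obtain ⟨a, ha, ha1⟩ := CfsgLib.RootSub.exists_ne_one (hS.ne_bot A hA)
      by_cases hd : a⁻¹ * (c * a * c⁻¹) = 1
      · have e := CfsgLib.RootSub.CommutatorLine.conj_inf hS hA' hp c hA (x := c * a * c⁻¹) ⟨a, ha, rfl⟩
          (by rw [← inv_mul_eq_one.mp hd]; exact ha) (fun e0 => ha1 (by
            calc a = c⁻¹ * (c * a * c⁻¹) * c := by group
              _ = 1 := by rw [e0]; group))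
        rw [← e]
      refine CfsgLib.RootSub.LineComponent.reach hS hA hDS hA' hp ?_ hD (hS.conj_mem A hA c) ha ha1 ?_ hd
        ⟨a, ha, by show c * a * c⁻¹ = a * (a⁻¹ * (c * a * c⁻¹)); group⟩
      · exact Subgroup.commutator_eq_bot_iff_le_centralizer.mpr fun x hx =>
          Subgroup.mem_centralizer_iff.mpr fun y hy => hAC.2.1 y hy x (Subgroup.mem_sup_left hx)
      · have := CfsgLib.RootSub.LineComponent.comm_mem (inv_mem ha) hc
        simpa [mul_assoc] using this
    let H : Subgroup G :=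
      { carrier := {g | ∀ A ∈ S, R A (Cfsg.conjBy A g)}
        one_mem' := fun A _ => by rw [CfsgLib.RootSub.conjBy_one]
        mul_mem' := fun {g h} hg hh A hA => by
          rw [← CfsgLib.RootSub.conjBy_conjBy A h g]
          exact (hh A hA).trans (hg _ (hS.conj_mem A hA h))
        inv_mem' := fun {g} hg A hA => by
          have := hg _ (hS.conj_mem A hA g⁻¹)
          rw [CfsgLib.RootSub.conjBy_self_inv] at this
          exact hsym _ _ this }
    have htop : ⊤ ≤ H := hS.generates ▸ iSup₂_le fun C hC c hc => hgen C hC c hc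
    intro A hA B hB
    obtain ⟨g, rfl⟩ := hcl.2 A hA B hB
    exact htop (Subgroup.mem_top g) A hA

end Cfsg.Agent.S5032
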