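import Cfsg.Statements.S5035
import Cfsg.Agent.Lib.RootSub.RankOneNormal

set_option autoImplicit false
open Cfsg

namespace Cfsg.Agent.S5035

open CfsgLib.RootSub

theorem map_conjBy {G H : Type*} [Group G] [Group H] (f : G →* H) (A : Subgroup G) (g : G) :
    (Cfsg.conjBy A g).map f = Cfsg.conjBy (A.map f) (f g) := by
  simp only [Cfsg.conjBy, Subgroup.map_map]
  congr 1
  ext x; simp

theorem conj_of_connected {G : Type*} [Group G] {S : Set (Subgroup G)} {A B : Subgroup G}
    (h : Relation.ReflTransGen (Cfsg.FAdj S) A B) : ∃ g, B = Cfsg.conjBy A g := by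
  induction h with
  | refl => exact ⟨1, (conjBy_one A).symm⟩
  | tail _ hbc ih =>
    obtain ⟨g, rfl⟩ := ih
    obtain ⟨x, -, e⟩ := B_mem_unipotent hbc.2.2
    exact ⟨x * g, by rw [e, conjBy_conjBy]⟩

/-- A pair maps to one member, or to a rank one pair. -/
theorem map_pair {G H : Type*} [Group G] [Group H] (f : G →* H) {A B : Subgroup G}
    (h : Cfsg.IsRankOnePair A B) : A.map f = B.map f ∨ Cfsg.IsRankOnePair (A.map f) (B.map f) := by
  classical
  by_cases heq : A.map f = B.map f
  · exact Or.inl heq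
  right
  have key : ∀ {A B : Subgroup G}, Cfsg.IsRankOnePair A B → A.map f ≠ B.map f →
      Cfsg.RankOneCondition (A.map f) (B.map f) := by
    rintro A B hp hne _ ⟨a, ha, rfl⟩ hfa
    obtain ⟨b, hb, -, e⟩ := hp.cond_left a ha fun h => hfa (by rw [h, map_one])
    refine ⟨f b, ⟨b, hb, rfl⟩, fun hb1 => hne ?_, ?_⟩
    · have e' := congrArg (Subgroup.map f) e
      rw [map_conjBy, map_conjBy, map_inv, map_inv, hb1, inv_one, conjBy_one] at e'
      rw [← conjBy_self_inv (B.map f) (f a), ← e', conjBy_of_mem (Subgroup.mem_map_of_mem f ha)]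
    · rw [← map_inv, ← map_inv, ← map_conjBy, ← map_conjBy, e]
  haveI := h.nilpotent_left
  haveI := h.nilpotent_right
  exact ⟨heq, Group.nilpotent_of_surjective (f.subgroupMap A) (f.subgroupMap_surjective A),
    Group.nilpotent_of_surjective (f.subgroupMap B) (f.subgroupMap_surjective B),
    key h heq, key (Cfsg.RankOnePair_symm h) (Ne.symm heq)⟩


/-- Let S be a set of abstract root subgroups of G whose graph of rank one pairs is connected, and f a homomorphism from G onto a group H. Then either the images of the members of S form a set of abstract root subgroups of H whose graph of rank one pairs is again connected, or H equals the image of a member of S. -/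
theorem result {G H : Type*} [Group G] [Group H] {S : Set (Subgroup G)} (hS : Cfsg.IsRootSubgroupSet S)
    (hc : Cfsg.IsConnectedFamily (Cfsg.FAdj S) S) (f : G →* H) (hf : Function.Surjective f) :
    (Cfsg.IsRootSubgroupSet ((fun A : Subgroup G => A.map f) '' S) ∧
      Cfsg.IsConnectedFamily (Cfsg.FAdj ((fun A : Subgroup G => A.map f) '' S)) ((fun A : Subgroup G => A.map f) '' S)) ∨
    ∃ A ∈ S, A.map f = ⊤ := by
  classical
  by_cases hbot : ∃ A ∈ S, A.map f = ⊥
  · right
    obtain ⟨A, hA, hA0⟩ := hbot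
    refine ⟨A, hA, ?_⟩
    have h1 : ∀ B ∈ S, B.map f = ⊥ := fun B hB => by
      obtain ⟨g, rfl⟩ := conj_of_connected (hc A hA B hB)
      rw [map_conjBy, hA0, Cfsg.conjBy, Subgroup.map_bot]
    have h2 : (⊤ : Subgroup G).map f = ⊥ := by
      rw [← hS.generates, Subgroup.map_iSup, eq_bot_iff]
      refine iSup_le fun B => ?_
      rw [Subgroup.map_iSup]
      exact iSup_le fun hB => (h1 B hB).le
    rw [Subgroup.map_top_of_surjective f hf] at h2
    rw [hA0, h2]
  push Not at hbot
  left
  have hcomm : ∀ A ∈ S, IsMulCommutative (A.map f) := fun A hA => ⟨⟨fun x y => Subtype.ext (by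
    obtain ⟨a, ha, e⟩ := x.2
    obtain ⟨b, hb, e'⟩ := y.2
    rw [Subgroup.coe_mul, Subgroup.coe_mul, ← e, ← e', ← map_mul, ← map_mul, mul_comm_of_commutative hS hA ha hb])⟩⟩
  refine ⟨⟨?_, ?_, ?_, ?_, ?_⟩, ?_⟩
  · rintro _ ⟨A, hA, rfl⟩; exact hcomm A hA
  · rintro _ ⟨A, hA, rfl⟩; exact hbot A hA
  · rw [eq_top_iff, ← Subgroup.map_top_of_surjective f hf, ← hS.generates, Subgroup.map_iSup]
    refine iSup_le fun B => ?_
    rw [Subgroup.map_iSup]
    exact iSup_le fun hB => le_biSup (fun A => A) (Set.mem_image_of_mem (fun A : Subgroup G => A.map f) hB)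
  · rintro _ ⟨A, hA, rfl⟩ y
    obtain ⟨g, rfl⟩ := hf y
    exact ⟨_, hS.conj_mem A hA g, map_conjBy f A g⟩
  · rintro _ ⟨A, hA, rfl⟩ _ ⟨B, hB, rfl⟩
    have hbr : ⁅A.map f, B.map f⁆ = ⁅A, B⁆.map f := (Subgroup.map_commutator A B f).symm
    rcases hS.pair A hA B hB with h | h | ⟨h1, h2, h3, h4⟩
    · left; rw [hbr, h, Subgroup.map_bot]
    · rcases map_pair f h with e | e
      · left
        dsimp only
        rw [← e, eq_bot_iff, Subgroup.commutator_le]
        intro x hx y hy
        rw [Subgroup.mem_bot, commutatorElement_eq_one_iff_commute]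
        exact congrArg Subtype.val ((hcomm A hA).is_comm.comm ⟨x, hx⟩ ⟨y, hy⟩)
      · exact Or.inr (Or.inl e)
    · refine Or.inr (Or.inr ?_)
      dsimp only
      rw [Cfsg.RootCommutatorCase, hbr]
      refine ⟨⟨_, h1, rfl⟩, ?_, ?_, ?_⟩
      · rintro _ ⟨c, hc', rfl⟩ x hx
        rw [← Subgroup.map_sup] at hx
        obtain ⟨z, hz, rfl⟩ := hx
        rw [← map_mul, ← map_mul, h2 c hc' z hz]
      · rintro _ ⟨a, ha, rfl⟩ ha1
        rw [← h3 a ha (fun h => ha1 (by rw [h, map_one])), MonoidHom.map_closure, Subgroup.coe_map, Set.image_image,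
          Set.image_image]
        simp only [map_mul, map_inv]
      · rintro _ ⟨b, hb, rfl⟩ hb1
        rw [← h4 b hb (fun h => hb1 (by rw [h, map_one])), MonoidHom.map_closure, Subgroup.coe_map, Set.image_image,
          Set.image_image]
        simp only [map_mul, map_inv]
  · rintro _ ⟨A, hA, rfl⟩ _ ⟨B, hB, rfl⟩
    induction hc A hA B hB with
    | refl => exact Relation.ReflTransGen.refl
    | tail _ hbc ih =>
      have hC := ih hbc.1
      rcases map_pair f hbc.2.2 with e | e
      · dsimp only at hC ⊢; rw [← e]; exact hC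
      · exact hC.tail ⟨Set.mem_image_of_mem _ hbc.1, Set.mem_image_of_mem _ hbc.2.1, e⟩

end Cfsg.Agent.S5035
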