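import Cfsg.Statements.S5041
import Cfsg.Agent.Lib.RootSub.LineGraph

set_option autoImplicit false
open Cfsg

namespace Cfsg.Agent.S5041

/-- Let S be a non-degenerate class of abstract root subgroups of G. Then the graph on S joining A to its line partners, and the commuting graph on S, are both connected. -/
theorem result {G : Type*} [Group G] {S : Set (Subgroup G)} (hS : Cfsg.IsRootSubgroupClass S) (hnd : Cfsg.IsNondegenerateRootSet S) :
    Cfsg.IsConnectedFamily (Cfsg.EAdj S S) S ∧ Cfsg.IsConnectedFamily (Cfsg.DAdj S) S := by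
  classical
  obtain ⟨hS, hcl⟩ := hS
  obtain ⟨-, ⟨A₁, hA₁, B₁, hB₁, hp₁⟩, ⟨A₂, hA₂, B₂, hB₂, hc₂⟩⟩ := hnd
  have hpart : ∀ A ∈ S, ∃ A' ∈ S, Cfsg.IsRankOnePair A A' := by
    intro A hA
    obtain ⟨g, rfl⟩ := hcl.2 A₁ hA₁ A hA
    exact ⟨_, hS.conj_mem B₁ hB₁ g, CfsgLib.RootSub.LineComponent.conj_pair hp₁ g⟩
  have hcase : ∀ A ∈ S, ∃ B ∈ S, Cfsg.RootCommutatorCase S A B := by
    intro A hA
    obtain ⟨g, rfl⟩ := hcl.2 A₂ hA₂ A hA
    refine ⟨_, hS.conj_mem B₂ hB₂ g, CfsgLib.RootSub.CommutatorLine.case_of_mem hS (hS.conj_mem A₂ hA₂ g)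
      (hS.conj_mem B₂ hB₂ g) ?_⟩
    rw [← Subgroup.map_commutator]
    exact hS.conj_mem _ hc₂.1 g
  let R := Relation.ReflTransGen (Cfsg.EAdj S S)
  have hgen : ∀ C ∈ S, ∀ c ∈ C, ∀ A ∈ S, R A (Cfsg.conjBy A c) := by
    intro C hC c hc A hA
    have hfix : ∀ X, ⁅X, C⁆ = ⊥ → Cfsg.conjBy X c = X := fun X h =>
      CfsgLib.RootSub.mem_normalizer_iff_conjBy.mp (CfsgLib.RootSub.mem_normalizer_of_commute
        fun x hx => (CfsgLib.RootSub.commute_of_bracket h hx hc).symm)
    have hCC : Cfsg.conjBy C c = C := CfsgLib.RootSub.conjBy_of_mem hc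
    have hviaC : R A C → R A (Cfsg.conjBy A c) := fun h => by
      have := CfsgLib.RootSub.LineGraph.reach_conj hS (CfsgLib.RootSub.LineGraph.reach_symm h) c
      rw [hCC] at this
      exact h.trans this
    have hcom : ∀ X ∈ S, Cfsg.RootCommutatorCase S X C → R X C := by
      intro X hX h
      refine (Relation.ReflTransGen.single (CfsgLib.RootSub.LineGraph.adj_comm hS hpart hX hC h)).tail
        (CfsgLib.RootSub.LineGraph.adj_symm ?_)
      have h' : Cfsg.RootCommutatorCase S C X :=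
        CfsgLib.RootSub.CommutatorLine.case_of_mem hS hC hX (Subgroup.commutator_comm X C ▸ h.1)
      rw [Subgroup.commutator_comm X C]
      exact CfsgLib.RootSub.LineGraph.adj_comm hS hpart hC hX h'
    rcases hS.pair A hA C hC with h | h | h
    · rw [hfix A h]
    · obtain ⟨B, hB, hAB⟩ := hcase A hA
      obtain ⟨Q, hQ, hnp, -, hAQ⟩ := CfsgLib.RootSub.LineGraph.exists_not_pair hS hpart hA hB hAB hC h
      rcases hS.pair Q hQ C hC with h' | h' | h'
      · have := CfsgLib.RootSub.LineGraph.reach_conj hS (CfsgLib.RootSub.LineGraph.reach_symm hAQ) c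
        rw [hfix Q h'] at this
        exact hAQ.trans this
      · exact absurd h' hnp
      · exact hviaC (hAQ.trans (hcom Q hQ h'))
    · exact hviaC (hcom A hA h)
  let H : Subgroup G :=
    { carrier := {g | ∀ A ∈ S, R A (Cfsg.conjBy A g)}
      one_mem' := fun A _ => by rw [CfsgLib.RootSub.conjBy_one]
      mul_mem' := fun {g h} hg hh A hA => by
        rw [← CfsgLib.RootSub.conjBy_conjBy A h g]
        exact (hh A hA).trans (hg _ (hS.conj_mem A hA h))
      inv_mem' := fun {g} hg A hA => by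
        have := hg _ (hS.conj_mem A hA g⁻¹)
        rw [CfsgLib.RootSub.conjBy_self_inv] at this
        exact CfsgLib.RootSub.LineGraph.reach_symm this }
  have htop : ⊤ ≤ H := hS.generates ▸ iSup₂_le fun C hC c hc => hgen C hC c hc
  have hE : Cfsg.IsConnectedFamily (Cfsg.EAdj S S) S := by
    intro A hA B hB
    obtain ⟨g, rfl⟩ := hcl.2 A hA B hB
    exact htop (Subgroup.mem_top g) A hA
  exact ⟨hE, fun A hA B hB => Relation.ReflTransGen.mono (fun X Y h => ⟨h.1, h.2.1, h.2.2.1.2.1.symm, h.2.2.1.2.2⟩) _ _ (hE A hA B hB)⟩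

end Cfsg.Agent.S5041
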