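import Cfsg.Statements.S5043
import Cfsg.Agent.Lib.RootSub.TransvectionPairs
import Cfsg.Agent.Lib.RootSub.RootSet

set_option autoImplicit false
open Matrix
open Cfsg

namespace Cfsg.Agent.S5043

open scoped Matrix commutatorElement

theorem pair_not_case {G : Type*} [Group G] {S : Set (Subgroup G)} (hS : Cfsg.IsRootSubgroupSet S) {A B : Subgroup G}
    (_hA : A ∈ S) (hB : B ∈ S) (h : Cfsg.IsRankOnePair A B) : ¬ Cfsg.RootCommutatorCase S A B := by
  intro hc
  obtain ⟨a, ha, ha1⟩ := CfsgLib.RootSub.exists_ne_one (CfsgLib.RootSub.A_ne_bot h)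
  refine CfsgLib.RootSub.not_centralizes h ha ha1 fun x hx y hy => ?_
  have h1 := hc.2.1 ⁅a, x⁆ (Subgroup.commutator_mem_commutator ha hx) y (Subgroup.mem_sup_right hy)
  have h2 : x * y = y * x := CfsgLib.RootSub.mul_comm_of_commutative hS hB hx hy
  rw [show a * x * a⁻¹ = ⁅a, x⁆ * x by rw [commutatorElement_def]; group, mul_assoc, h2, ← mul_assoc, h1, mul_assoc]

/-- Let k be a field and n a natural number. In SL_{n+3}(k) (so in every dimension at least 3) the conjugates of the root subgroup of elementary transvections 1 + c E₁₂ (c ∈ k) — that is, the groups of transvections attached to an incident point–hyperplane pair — form a non-degenerate class of abstract k-root subgroups of SL_{n+3}(k) whose graph of rank one pairs is connected. -/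
theorem result (k : Type*) [Field k] (n : ℕ) :
    Cfsg.IsRootSubgroupClass {A : Subgroup (Matrix.SpecialLinearGroup (Fin (n + 3)) k) |
        ∃ g : Matrix.SpecialLinearGroup (Fin (n + 3)) k,
          A = Cfsg.conjBy (Subgroup.closure {t : Matrix.SpecialLinearGroup (Fin (n + 3)) k |
            ∃ c : k, (t : Matrix (Fin (n + 3)) (Fin (n + 3)) k) = Matrix.transvection 0 1 c}) g} ∧
    Cfsg.IsNondegenerateRootSet {A : Subgroup (Matrix.SpecialLinearGroup (Fin (n + 3)) k) |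
        ∃ g : Matrix.SpecialLinearGroup (Fin (n + 3)) k,
          A = Cfsg.conjBy (Subgroup.closure {t : Matrix.SpecialLinearGroup (Fin (n + 3)) k |
            ∃ c : k, (t : Matrix (Fin (n + 3)) (Fin (n + 3)) k) = Matrix.transvection 0 1 c}) g} ∧
    Cfsg.IsKRootSubgroupSet k {A : Subgroup (Matrix.SpecialLinearGroup (Fin (n + 3)) k) |
        ∃ g : Matrix.SpecialLinearGroup (Fin (n + 3)) k,
          A = Cfsg.conjBy (Subgroup.closure {t : Matrix.SpecialLinearGroup (Fin (n + 3)) k |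
            ∃ c : k, (t : Matrix (Fin (n + 3)) (Fin (n + 3)) k) = Matrix.transvection 0 1 c}) g} ∧
    Cfsg.IsConnectedFamily (Cfsg.FAdj {A : Subgroup (Matrix.SpecialLinearGroup (Fin (n + 3)) k) |
        ∃ g : Matrix.SpecialLinearGroup (Fin (n + 3)) k,
          A = Cfsg.conjBy (Subgroup.closure {t : Matrix.SpecialLinearGroup (Fin (n + 3)) k |
            ∃ c : k, (t : Matrix (Fin (n + 3)) (Fin (n + 3)) k) = Matrix.transvection 0 1 c}) g})
      {A : Subgroup (Matrix.SpecialLinearGroup (Fin (n + 3)) k) |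
        ∃ g : Matrix.SpecialLinearGroup (Fin (n + 3)) k,
          A = Cfsg.conjBy (Subgroup.closure {t : Matrix.SpecialLinearGroup (Fin (n + 3)) k |
            ∃ c : k, (t : Matrix (Fin (n + 3)) (Fin (n + 3)) k) = Matrix.transvection 0 1 c}) g} := by
  set S := {A : Subgroup (Matrix.SpecialLinearGroup (Fin (n + 3)) k) |
        ∃ g : Matrix.SpecialLinearGroup (Fin (n + 3)) k,
          A = Cfsg.conjBy (Subgroup.closure {t : Matrix.SpecialLinearGroup (Fin (n + 3)) k |
            ∃ c : k, (t : Matrix (Fin (n + 3)) (Fin (n + 3)) k) = Matrix.transvection 0 1 c}) g} with hS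
  have mem : ∀ A, A ∈ S ↔ ∃ P : CfsgLib.RootSub.Transvections.Pair k n, A = CfsgLib.RootSub.Transvections.T P :=
    fun A => CfsgLib.RootSub.Transvections.mem_class
  have hT : ∀ P : CfsgLib.RootSub.Transvections.Pair k n, CfsgLib.RootSub.Transvections.T P ∈ S :=
    fun P => (mem _).mpr ⟨P, rfl⟩
  open CfsgLib.RootSub.Transvections in
  have hpair : ∀ P Q : Pair k n, (⁅T P, T Q⁆ = ⊥) ∨ (Cfsg.IsRankOnePair (T P) (T Q) ∧ Cfsg.IsPSL2PairOver k (T P) (T Q)) ∨
      (Cfsg.RootCommutatorCase S (T P) (T Q) ∧ ⁅T P, T Q⁆ ≠ ⊥) := by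
    intro P Q
    by_cases h1 : P.φ ⬝ᵥ Q.v = 0 <;> by_cases h2 : Q.φ ⬝ᵥ P.v = 0
    · exact Or.inl (bracket_eq_bot h1 h2)
    · have h := commutator_case' S hT h1 h2
      refine Or.inr (Or.inr ⟨h, fun e => ?_⟩)
      obtain ⟨P', hP'⟩ := (mem _).mp h.1
      rw [e] at hP'
      exact T_ne_bot P' hP'.symm
    · have h := commutator_case S hT h1 h2
      refine Or.inr (Or.inr ⟨h, fun e => ?_⟩)
      obtain ⟨P', hP'⟩ := (mem _).mp h.1
      rw [e] at hP'
      exact T_ne_bot P' hP'.symm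
    · exact Or.inr (Or.inl ⟨rank_one h1 h2, psl2_pair h1 h2⟩)
  open CfsgLib.RootSub.Transvections in
  have hset : Cfsg.IsRootSubgroupSet S := by
    refine ⟨?_, ?_, ?_, ?_, ?_⟩
    · intro A hA; obtain ⟨P, rfl⟩ := (mem A).mp hA; exact comm_T P
    · intro A hA; obtain ⟨P, rfl⟩ := (mem A).mp hA; exact T_ne_bot P
    · refine top_eq _ fun i j hij c => ?_
      exact Subgroup.mem_iSup_of_mem (T (E i j hij)) (Subgroup.mem_iSup_of_mem (hT _) ((mem_T _).mpr ⟨c, rfl⟩))
    · intro A hA g; obtain ⟨P, rfl⟩ := (mem A).mp hA; rw [conjBy_T]; exact hT _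
    · intro A hA B hB
      obtain ⟨P, rfl⟩ := (mem A).mp hA
      obtain ⟨Q, rfl⟩ := (mem B).mp hB
      rcases hpair P Q with h | h | h
      exacts [Or.inl h, Or.inr (Or.inl h.1), Or.inr (Or.inr h.1)]
  open CfsgLib.RootSub.Transvections in
  have h02 : (0 : Fin (n + 3)) ≠ ⟨2, by omega⟩ := Fin.ne_of_val_ne (by simp)
  open CfsgLib.RootSub.Transvections in
  have h12 : (1 : Fin (n + 3)) ≠ ⟨2, by omega⟩ := Fin.ne_of_val_ne (by simp)
  open CfsgLib.RootSub.Transvections in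
  have hnd : Cfsg.IsNondegenerateRootSet S := by
    refine ⟨⟨T (E 0 1 h01), hT _, T (E 0 ⟨2, by omega⟩ h02), hT _, fun e => ?_, ?_⟩,
      ⟨T (E 0 1 h01), hT _, T (E 1 0 h01.symm), hT _, ?_⟩, ⟨T (E 0 1 h01), hT _, T (E 1 ⟨2, by omega⟩ h12), hT _, ?_⟩⟩
    · obtain ⟨c, hc⟩ := (mem_T _).mp (e ▸ (mem_T (E (k := k) (m := n) 0 1 h01)).mpr ⟨1, rfl⟩)
      have := congrArg (fun g : Matrix.SpecialLinearGroup (Fin (n + 3)) k => (g : Matrix (Fin (n + 3)) (Fin (n + 3)) k) 0 1) hc
      simp [tv_coe, E, Matrix.vecMulVec_apply, Pi.single_apply, h12] at this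
    · refine bracket_eq_bot ?_ ?_ <;> simp [E, h02]
    · refine rank_one ?_ ?_ <;> simp [E]
    · refine commutator_case S hT ?_ ?_ <;> simp [E, h02.symm]
  have hclass : Cfsg.IsRootSubgroupClass S := by
    refine ⟨hset, ⟨_, 1, rfl⟩, ?_⟩
    rintro A ⟨g, rfl⟩ B ⟨g', rfl⟩
    refine ⟨g' * g⁻¹, ?_⟩
    rw [CfsgLib.RootSub.conjBy_conjBy, inv_mul_cancel_right]
  refine ⟨hclass, hnd, ⟨hset, ?_⟩, ?_⟩
  · intro A hA B hB hr
    obtain ⟨P, rfl⟩ := (mem A).mp hA
    obtain ⟨Q, rfl⟩ := (mem B).mp hB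
    open CfsgLib.RootSub.Transvections in
    have : P.φ ⬝ᵥ Q.v ≠ 0 ∧ Q.φ ⬝ᵥ P.v ≠ 0 := by
      obtain ⟨a, ha, ha1⟩ := CfsgLib.RootSub.exists_ne_one (T_ne_bot P)
      have habn := CfsgLib.RootSub.not_commute_of_pair hr ha ha1
      constructor <;> intro h <;> apply habn <;> intro b hb
      · rcases eq_or_ne (Q.φ ⬝ᵥ P.v) 0 with h2 | h2
        · exact CfsgLib.RootSub.commute_of_bracket (bracket_eq_bot h h2) ha hb
        · exact absurd (commutator_case' S hT h h2) (pair_not_case hset (hT P) (hT Q) hr)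
      · rcases eq_or_ne (P.φ ⬝ᵥ Q.v) 0 with h2 | h2
        · exact CfsgLib.RootSub.commute_of_bracket (bracket_eq_bot h2 h) ha hb
        · exact absurd (commutator_case S hT h2 h) (pair_not_case hset (hT P) (hT Q) hr)
    exact CfsgLib.RootSub.Transvections.psl2_pair this.1 this.2
  · intro A hA B hB
    obtain ⟨P, rfl⟩ := (mem A).mp hA
    obtain ⟨Q, rfl⟩ := (mem B).mp hB
    obtain ⟨R, h1, h2, h3, h4⟩ := CfsgLib.RootSub.Transvections.exists_common P Q
    exact (Relation.ReflTransGen.single ⟨hT P, hT R, CfsgLib.RootSub.Transvections.rank_one h1 h2⟩).tail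
      ⟨hT R, hT Q, CfsgLib.RootSub.Transvections.rank_one h3 h4⟩

end Cfsg.Agent.S5043
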