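import Cfsg.Statements.S5045
import Cfsg.Agent.Lib.Involution
import Cfsg.Agent.Lib.BaerSuzuki
import Cfsg.Agent.Lib.Core

set_option linter.unusedSectionVars false

set_option autoImplicit false
open Cfsg

namespace Cfsg.Agent.S5045

open CfsgLib.Involution

variable {G : Type*} [Group G] [Finite G] {D : Set G}

/-- Two involutions with product of order dividing four generate a 2-group. -/
theorem isPGroup_pair {x y : G} (hx : orderOf x = 2) (hy : orderOf y = 2) (h4 : (x * y) ^ 4 = 1) :
    IsPGroup 2 ↥(Subgroup.closure ({x, y} : Set G)) := by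
  intro g
  refine ⟨2, Subtype.ext ?_⟩
  have h4' : ∀ k : ℤ, ((x * y) ^ k) ^ 4 = 1 := fun k => by
    rw [← zpow_natCast, ← zpow_mul, mul_comm, zpow_mul, zpow_natCast, h4, one_zpow]
  rw [SubmonoidClass.coe_pow, OneMemClass.coe_one, show (2 : ℕ) ^ 2 = 4 from rfl]
  obtain ⟨k, h | h⟩ := mem_closure_cases hx hy g.2
  · rw [h, h4']
  · have h2 := conj_zpow_left hx hy k
    rw [h, show (4 : ℕ) = 2 * 2 from rfl, pow_mul]
    suffices e : ((x * y) ^ k * x) ^ 2 = 1 by rw [e, one_pow]
    have h3 : x * (x * y) ^ k * x⁻¹ = ((x * y) ^ k)⁻¹ := by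
      rw [← conj_zpow, conj_mul_eq_inv hx hy, inv_zpow]
    rw [inv_eq hx] at h3
    rw [pow_two, mul_assoc, ← mul_assoc x ((x * y) ^ k) x, h3, mul_inv_cancel]

theorem oddAdj_symm {a b : G} (hD : Cfsg.IsRootInvolutionSet D) (h : Cfsg.OddAdj D a b) : Cfsg.OddAdj D b a := by
  refine ⟨h.2.1, h.1, h.2.2.1.symm, ?_⟩
  rw [show b * a = (a * b)⁻¹ by rw [mul_inv_rev, inv_eq (hD.orderOf_eq a h.1), inv_eq (hD.orderOf_eq b h.2.1)],
    orderOf_inv]
  exact h.2.2.2

theorem oddAdj_conj {a b : G} (hD : Cfsg.IsRootInvolutionSet D) (h : Cfsg.OddAdj D a b) (g : G) :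
    Cfsg.OddAdj D (g * a * g⁻¹) (g * b * g⁻¹) := by
  refine ⟨hD.conj_mem a h.1 g, hD.conj_mem b h.2.1 g, fun e => h.2.2.1 (by simpa using e), ?_⟩
  rw [show g * a * g⁻¹ * (g * b * g⁻¹) = g * (a * b) * g⁻¹ by group, orderOf_conj]
  exact h.2.2.2

theorem reach_symm {a b : G} (hD : Cfsg.IsRootInvolutionSet D) (h : Relation.ReflTransGen (Cfsg.OddAdj D) a b) :
    Relation.ReflTransGen (Cfsg.OddAdj D) b a := by
  induction h with
  | refl => exact .refl
  | tail _ h2 ih => exact ih.head (oddAdj_symm hD h2)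

/-- Outside the component, the conjugate of a neighbour commutes with it. -/
theorem commute_conj {a x d : G} (hD : Cfsg.IsRootInvolutionSet D) (hax : Cfsg.OddAdj D a x) (hd : d ∈ D)
    (hnot : ¬ Relation.ReflTransGen (Cfsg.OddAdj D) a d) : Commute (d * x * d) x := by
  have hx := hax.2.1
  have hd2 := mul_self (hD.orderOf_eq d hd)
  have hx2 := mul_self (hD.orderOf_eq x hx)
  rcases hD.pair d hd x hx with h | h | ⟨h, -⟩
  · rw [h, mul_assoc, hd2, mul_one]
  · by_cases e : d = x
    · rw [e, hx2, one_mul]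
    · exact absurd ((Relation.ReflTransGen.single hax).tail (oddAdj_symm hD ⟨hd, hx, e, h⟩)) hnot
  · have h4 : (d * x) * (d * x) * ((d * x) * (d * x)) = 1 := by
      rw [← pow_two, ← pow_two, ← pow_mul]
      have := pow_orderOf_eq_one (d * x)
      rwa [h] at this
    show d * x * d * x = x * (d * x * d)
    calc d * x * d * x = (d * x) * (d * x) * ((d * x) * (d * x)) * ((d * x) * (d * x))⁻¹ := by group
      _ = (d * x * d * x)⁻¹ := by rw [h4]; group
      _ = _ := by simp only [mul_inv_rev, inv_eq (hD.orderOf_eq d hd), inv_eq (hD.orderOf_eq x hx), mul_assoc]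

/-- One of two product partners of a vertex with a neighbour lies in its component. -/
theorem key {a x e : G} (hD : Cfsg.IsRootInvolutionSet D) (hax : Cfsg.OddAdj D a x) (he : e ∈ D) (hae : Commute a e)
    (hf : a * e ∈ D) : Relation.ReflTransGen (Cfsg.OddAdj D) a e ∨ Relation.ReflTransGen (Cfsg.OddAdj D) a (a * e) := by
  by_contra hne
  rw [not_or] at hne
  have ha := hax.1
  have ha2 := mul_self (hD.orderOf_eq a ha)
  have he2 := mul_self (hD.orderOf_eq e he)
  have hz : Cfsg.OddAdj D a (a * x * a) := by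
    have := oddAdj_conj hD hax a
    rwa [inv_eq (hD.orderOf_eq a ha), ha2, one_mul] at this
  have h1 := commute_conj hD hax he hne.1
  have h2 : Commute (e * x * e) (a * x * a) := by
    have h := commute_conj hD hz hf hne.2
    rwa [show a * e * (a * x * a) * (a * e) = e * x * e by
      calc a * e * (a * x * a) * (a * e) = a * e * a * x * (a * a) * e := by group
        _ = e * x * e := by rw [ha2, hae.eq, mul_assoc e a a, ha2, mul_one, mul_one]] at h
  have h3 : Commute (e * x * e) ((x * a) ^ 2) := by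
    rw [pow_two, show x * a * (x * a) = x * (a * x * a) by group]
    exact h1.mul_right h2
  have hoddxa : Odd (orderOf (x * a)) := (oddAdj_symm hD hax).2.2.2
  obtain ⟨m, hm⟩ := hoddxa
  have h4 : ((x * a) ^ 2) ^ (m + 1) = x * a := by
    rw [← pow_mul, show 2 * (m + 1) = orderOf (x * a) + 1 by omega, pow_succ, pow_orderOf_eq_one, one_mul]
  have h5 : Commute (e * x * e) (x * a) := h4 ▸ h3.pow_right (m + 1)
  have h6 : Commute (e * x * e) a := by
    have h := h1.mul_right h5
    rwa [← mul_assoc, mul_self (hD.orderOf_eq x hax.2.1), one_mul] at h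
  have h7 := oddAdj_conj hD hax e
  rw [inv_eq (hD.orderOf_eq e he), ← hae.eq, mul_assoc a e e, he2, mul_one] at h7
  have h8 : (a * (e * x * e)) ^ 2 = 1 := by
    rw [h6.symm.mul_pow, pow_two, pow_two, ha2, mul_self (hD.orderOf_eq _ h7.2.1), one_mul]
  obtain ⟨j, hj⟩ := h7.2.2.2
  have h9 : orderOf (a * (e * x * e)) ∣ 2 := orderOf_dvd_of_pow_eq_one h8
  have h10 : orderOf (a * (e * x * e)) = 1 := by
    rcases (Nat.dvd_prime Nat.prime_two).mp h9 with h | h <;> omega
  apply h7.2.2.1
  calc a = a * (e * x * e) * (e * x * e)⁻¹ := by group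
    _ = e * x * e := by rw [orderOf_eq_one_iff.mp h10, one_mul, inv_eq (hD.orderOf_eq _ h7.2.1)]

/-- Let G be a finite group generated by a set D of root involutions, and W the set of members of D whose product with every other member of D has even order or is trivial (the isolated vertices of the odd-order-product graph on D). Then W is conjugation-invariant and generates a normal 2-subgroup of G meeting D in exactly W; the commutator of two members of D lying in different connected components of that graph, each with more than one member, lies in the subgroup generated by W; and for a in such a component, every member of D commuting with a, different from a and with product with a in D, lies in that component or in W. -/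
theorem result {G : Type*} [Group G] [Finite G] {D : Set G} (hD : Cfsg.IsRootInvolutionSet D) :
    (∀ w ∈ {w | Cfsg.IsIsolatedElem (Cfsg.OddAdj D) D w}, ∀ g : G, g * w * g⁻¹ ∈ {w | Cfsg.IsIsolatedElem (Cfsg.OddAdj D) D w}) ∧
    (Subgroup.closure {w | Cfsg.IsIsolatedElem (Cfsg.OddAdj D) D w}).Normal ∧
    IsPGroup 2 ↥(Subgroup.closure {w | Cfsg.IsIsolatedElem (Cfsg.OddAdj D) D w}) ∧
    (Subgroup.closure {w | Cfsg.IsIsolatedElem (Cfsg.OddAdj D) D w} : Set G) ∩ D = {w | Cfsg.IsIsolatedElem (Cfsg.OddAdj D) D w} ∧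
    (∀ a ∈ D, ∀ b ∈ D, (∃ a' ∈ Cfsg.elemComponentOf (Cfsg.OddAdj D) D a, a' ≠ a) →
      (∃ b' ∈ Cfsg.elemComponentOf (Cfsg.OddAdj D) D b, b' ≠ b) →
      Cfsg.elemComponentOf (Cfsg.OddAdj D) D a ≠ Cfsg.elemComponentOf (Cfsg.OddAdj D) D b →
        a * b * a⁻¹ * b⁻¹ ∈ Subgroup.closure {w | Cfsg.IsIsolatedElem (Cfsg.OddAdj D) D w}) ∧
    (∀ a ∈ D, (∃ a' ∈ Cfsg.elemComponentOf (Cfsg.OddAdj D) D a, a' ≠ a) →
      Cfsg.productPartners D a ⊆ Cfsg.elemComponentOf (Cfsg.OddAdj D) D a ∪ {w | Cfsg.IsIsolatedElem (Cfsg.OddAdj D) D w}) := by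
  classical
  haveI : Fact (Nat.Prime 2) := ⟨Nat.prime_two⟩
  set W := {w | Cfsg.IsIsolatedElem (Cfsg.OddAdj D) D w} with hW
  have hWconj : ∀ w ∈ W, ∀ g : G, g * w * g⁻¹ ∈ W := by
    rintro w ⟨hw, hiso⟩ g
    refine ⟨hD.conj_mem w hw g, fun b => ⟨fun h => ?_, fun h => ?_⟩⟩
    · have := oddAdj_conj hD h g⁻¹
      rw [inv_inv, show g⁻¹ * (g * w * g⁻¹) * g = w by group] at this
      exact (hiso _).1 this
    · have := oddAdj_conj hD h g⁻¹
      rw [inv_inv, show g⁻¹ * (g * w * g⁻¹) * g = w by group] at this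
      exact (hiso _).2 this
  have hcore : ∀ w ∈ W, w ∈ Cfsg.pCore 2 G := by
    rintro w ⟨hw, hiso⟩
    obtain ⟨N, hN, hNp, hle⟩ := CfsgLib.BaerSuzuki.baer_suzuki (p := 2) (Subgroup.zpowers w) fun g => by
      have hgw : g * w * g⁻¹ ∈ D := hD.conj_mem w hw g
      have h4 : (w * (g * w * g⁻¹)) ^ 4 = 1 := by
        rcases hD.pair w hw _ hgw with h | h | ⟨h, -⟩
        · rw [show (4 : ℕ) = 2 * 2 from rfl, pow_mul, (show Commute w (g * w * g⁻¹) from h).mul_pow, pow_two w,
            pow_two (g * w * g⁻¹), mul_self (hD.orderOf_eq w hw), mul_self (hD.orderOf_eq _ hgw), one_mul, one_pow]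
        · by_cases e : w = g * w * g⁻¹
          · rw [← e, mul_self (hD.orderOf_eq w hw), one_pow]
          · exact absurd ⟨hw, hgw, e, h⟩ (hiso _).1
        · exact h ▸ pow_orderOf_eq_one _
      refine (isPGroup_pair (hD.orderOf_eq w hw) (hD.orderOf_eq _ hgw) h4).to_le ?_
      rw [MonoidHom.map_zpowers]
      exact sup_le (Subgroup.zpowers_le.mpr (Subgroup.subset_closure (Set.mem_insert _ _)))
        (Subgroup.zpowers_le.mpr (Subgroup.subset_closure (Set.mem_insert_of_mem _ rfl)))
    exact CfsgLib.Core.le_pCore hN hNp (hle (Subgroup.mem_zpowers w))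
  have hWle : Subgroup.closure W ≤ Cfsg.pCore 2 G := (Subgroup.closure_le _).mpr hcore
  haveI hcn : (Cfsg.pCore 2 G).Normal := by
    have := CfsgLib.Core.pCore_characteristic (G := G) 2
    infer_instance
  have hO : ∀ d ∈ D, d ∈ Cfsg.pCore 2 G → d ∈ W := by
    intro d hd hdO
    have h : ∀ b, ¬ Cfsg.OddAdj D d b := by
      intro b hb
      obtain ⟨c, -, hc⟩ := exists_conj_of_odd (hD.orderOf_eq d hd) (hD.orderOf_eq b hb.2.1) hb.2.2.2
      have hbO : b ∈ Cfsg.pCore 2 G := hc ▸ hcn.conj_mem d hdO c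
      obtain ⟨k, hk⟩ := IsPGroup.iff_orderOf.mp (CfsgLib.Core.isPGroup_pCore 2) (⟨_, mul_mem hdO hbO⟩ : Cfsg.pCore 2 G)
      rw [Subgroup.orderOf_mk] at hk
      rcases Nat.eq_zero_or_pos k with rfl | hk0
      · refine hb.2.2.1 ?_
        rw [← mul_one b, ← mul_self (hD.orderOf_eq d hd)]
        have h1 := orderOf_eq_one_iff.mp (show orderOf (d * b) = 1 from hk)
        rw [mul_self (hD.orderOf_eq d hd), mul_one, ← inv_eq (hD.orderOf_eq b hb.2.1)]
        exact eq_inv_of_mul_eq_one_left h1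
      · obtain ⟨m, hm⟩ := hb.2.2.2
        obtain ⟨j, rfl⟩ := Nat.exists_eq_succ_of_ne_zero hk0.ne'
        rw [pow_succ] at hk
        omega
    exact ⟨hd, fun b => ⟨h b, fun hb => h b (oddAdj_symm hD hb)⟩⟩
  have hX : ∀ a ∈ D, (∃ a' ∈ Cfsg.elemComponentOf (Cfsg.OddAdj D) D a, a' ≠ a) →
      Cfsg.productPartners D a ⊆ Cfsg.elemComponentOf (Cfsg.OddAdj D) D a ∪ W := by
    rintro a ha ⟨a', ⟨-, ha'⟩, hne⟩ e ⟨⟨he, hea, hne'⟩, hprod⟩
    obtain ⟨x, hax, -⟩ : ∃ x, Cfsg.OddAdj D a x ∧ Relation.ReflTransGen (Cfsg.OddAdj D) x a' := by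
      rcases Relation.ReflTransGen.cases_head ha' with h | h
      · exact absurd h.symm hne
      · exact h
    have hcomm : Commute a e := hea.symm
    have hf : a * e ∈ D := hea ▸ hprod
    by_cases hW' : e ∈ W
    · exact Or.inr hW'
    left
    refine ⟨he, ?_⟩
    obtain ⟨y, hey⟩ : ∃ y, Cfsg.OddAdj D e y := by
      by_contra hn
      push Not at hn
      exact hW' ⟨he, fun b => ⟨hn b, fun hb => hn b (oddAdj_symm hD hb)⟩⟩
    rcases key hD hax he hcomm hf with h | h
    · exact h
    rcases key hD hey ha hcomm.symm (hcomm.eq ▸ hf) with h' | h'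
    · exact reach_symm hD h'
    · rw [hcomm.symm.eq] at h'
      exact h.trans (reach_symm hD h')
  refine ⟨hWconj, ⟨fun x hx g => ?_⟩, (CfsgLib.Core.isPGroup_pCore 2).to_le hWle, ?_, ?_, hX⟩
  · have : (Subgroup.closure W).map (MulAut.conj g).toMonoidHom ≤ Subgroup.closure W := by
      rw [MonoidHom.map_closure]
      refine (Subgroup.closure_le _).mpr ?_
      rintro _ ⟨w, hw, rfl⟩
      exact Subgroup.subset_closure (hWconj w hw g)
    exact this ⟨x, hx, rfl⟩
  · refine Set.Subset.antisymm (fun d ⟨hd1, hd2⟩ => hO d hd2 (hWle hd1)) fun w hw => ⟨Subgroup.subset_closure hw, hw.1⟩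
  · intro a ha b hb hA hB hne
    have ha2 := mul_self (hD.orderOf_eq a ha)
    have hb2 := mul_self (hD.orderOf_eq b hb)
    rw [inv_eq (hD.orderOf_eq a ha), inv_eq (hD.orderOf_eq b hb)]
    have hsame : Relation.ReflTransGen (Cfsg.OddAdj D) a b → False := fun h => hne (by
      ext c
      exact ⟨fun ⟨hc, hc'⟩ => ⟨hc, (reach_symm hD h).trans hc'⟩, fun ⟨hc, hc'⟩ => ⟨hc, h.trans hc'⟩⟩)
    rcases hD.pair a ha b hb with h | h | ⟨h, hc⟩
    · rw [h, mul_assoc b a a, ha2, mul_one, hb2]
      exact one_mem _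
    · by_cases e : a = b
      · exact absurd (e ▸ Relation.ReflTransGen.refl) hsame
      · exact absurd (Relation.ReflTransGen.single ⟨ha, hb, e, h⟩) hsame
    · rw [pow_two, ← mul_assoc] at hc
      set c := a * b * a * b with hcdef
      have hcinv : c = b * a * b * a := by
        have h4 : (a * b) ^ 4 = 1 := h ▸ pow_orderOf_eq_one _
        calc c = (a * b) ^ 4 * ((a * b) * (a * b))⁻¹ := by
              rw [hcdef, show (4 : ℕ) = 2 + 2 from rfl, pow_add, pow_two]; group
          _ = (b * a * (b * a)) := by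
            rw [h4, one_mul, mul_inv_rev, mul_inv_rev, inv_eq (hD.orderOf_eq a ha), inv_eq (hD.orderOf_eq b hb)]
          _ = _ := by group
      have hca : c * a = a * c ∧ c * a ∈ D ∧ c ≠ a := by
        have e1 : c * a = b * a * b := by rw [hcinv, mul_assoc _ a a, ha2, mul_one]
        refine ⟨?_, ?_, fun e => ?_⟩
        · rw [e1, hcdef, ← mul_assoc, ← mul_assoc, ← mul_assoc, ha2, one_mul]
        · rw [e1]; nth_rewrite 2 [← inv_eq (hD.orderOf_eq b hb)]; exact hD.conj_mem a ha b
        · rw [e] at e1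
          rw [ha2] at e1
          apply ne_one (hD.orderOf_eq a ha)
          calc a = (b * b) * a * (b * b) := by rw [hb2, one_mul, mul_one]
            _ = b * (b * a * b) * b := by group
            _ = 1 := by rw [← e1, mul_one, hb2]
      have hcb : c * b = b * c ∧ c * b ∈ D ∧ c ≠ b := by
        have e1 : c * b = a * b * a := by rw [hcdef, mul_assoc _ b b, hb2, mul_one]
        refine ⟨?_, ?_, fun e => ?_⟩
        · rw [e1, hcinv, ← mul_assoc, ← mul_assoc, ← mul_assoc, hb2, one_mul]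
        · rw [e1]; nth_rewrite 2 [← inv_eq (hD.orderOf_eq a ha)]; exact hD.conj_mem b hb a
        · rw [e] at e1
          rw [hb2] at e1
          apply ne_one (hD.orderOf_eq b hb)
          calc b = (a * a) * b * (a * a) := by rw [ha2, one_mul, mul_one]
            _ = a * (a * b * a) * a := by group
            _ = 1 := by rw [← e1, mul_one, ha2]
      rcases hX a ha hA ⟨⟨hc, hca.1, hca.2.2⟩, hca.2.1⟩ with h1 | h1
      · rcases hX b hb hB ⟨⟨hc, hcb.1, hcb.2.2⟩, hcb.2.1⟩ with h2 | h2
        · exact absurd (h1.2.trans (reach_symm hD h2.2)) hsame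
        · exact Subgroup.subset_closure h2
      · exact Subgroup.subset_closure h1

end Cfsg.Agent.S5045
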