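import Cfsg.Statements.S5049
import Cfsg.Agent.Lib.Core

set_option autoImplicit false
set_option linter.all false
open Cfsg

namespace Cfsg.Agent.S5049
open scoped commutatorElement

/-- Let G be a finite group generated by a set D of odd transpositions (root involutions with no product of order 4), Q = O₂(G), and for a ∈ D let Q_a be the commutator subgroup of Q with a. Then every member of D commuting with a centralizes Q_a; and for b ∈ D with ab of odd order greater than 1, the centralizer of ab in Q is the intersection of the centralizers of a and b in Q. -/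
theorem result {G : Type*} [Group G] [Finite G] {D : Set G} (hD : Cfsg.IsOddTranspositionSet D) {a : G} (ha : a ∈ D) :
    (∀ e ∈ Cfsg.commutingMembers D a, ∀ q ∈ ⁅Cfsg.pCore 2 G, Subgroup.zpowers a⁆, e * q = q * e) ∧
    (∀ b ∈ Cfsg.oddPartners D a,
      Cfsg.pCore 2 G ⊓ Subgroup.centralizer {a * b} = Cfsg.pCore 2 G ⊓ Subgroup.centralizer {a} ⊓ Subgroup.centralizer {b}) := by
  haveI : Fact (Nat.Prime 2) := ⟨Nat.prime_two⟩
  haveI : (Cfsg.pCore 2 G).Normal := by
    haveI := CfsgLib.Core.pCore_characteristic (G := G) 2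
    infer_instance
  obtain ⟨hR, h4⟩ := hD
  have hsq : ∀ d ∈ D, d * d = 1 := fun d hd => by
    rw [← pow_two, ← hR.orderOf_eq d hd, pow_orderOf_eq_one]
  have hinv : ∀ d ∈ D, d⁻¹ = d := fun d hd => inv_eq_of_mul_eq_one_right (hsq d hd)
  have hpair : ∀ x ∈ D, ∀ y ∈ D, x * y = y * x ∨ Odd (orderOf (x * y)) := fun x hx y hy =>
    (hR.pair x hx y hy).imp_right fun h => h.resolve_right fun h' => h4 x hx y hy h'.1
  have lemA : ∀ e ∈ D, ∀ c ∈ D, e * c = c * e → ∀ q ∈ Cfsg.pCore 2 G,
      e * (q * c * q⁻¹) = (q * c * q⁻¹) * e := by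
    intro e he c hc hec q hq
    have hc' := hR.conj_mem c hc q
    rcases hpair e he _ hc' with h | h
    · exact h
    obtain ⟨x, hx⟩ : ∃ x, x = e * (q * c * q⁻¹) := ⟨_, rfl⟩
    rw [← hx] at h
    have hxQ : x ^ 2 ∈ Cfsg.pCore 2 G := by
      refine (QuotientGroup.eq_one_iff _).mp (show QuotientGroup.mk' (Cfsg.pCore 2 G) (x ^ 2) = 1 from ?_)
      have hq1 : QuotientGroup.mk' (Cfsg.pCore 2 G) q = 1 := (QuotientGroup.eq_one_iff q).mpr hq
      rw [map_pow, hx, map_mul, map_mul, map_mul, map_inv, hq1, one_mul, inv_one, mul_one, ← map_mul, ← map_pow,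
        pow_two, ← mul_assoc, mul_assoc e c e, ← hec, ← mul_assoc e e c, hsq e he, one_mul, hsq c hc, map_one]
    obtain ⟨k, hk⟩ := CfsgLib.Core.isPGroup_pCore (G := G) 2 ⟨x ^ 2, hxQ⟩
    have h1 : x ^ 2 ^ (k + 1) = 1 := by
      have := congrArg Subtype.val hk
      simp only [Subgroup.coe_pow, Subgroup.coe_one] at this
      rwa [← pow_mul, ← pow_succ'] at this
    have h2 : orderOf x = 1 := Nat.eq_one_of_dvd_coprimes
      ((Nat.coprime_two_left.mpr h).pow_left (k + 1)) (orderOf_dvd_of_pow_eq_one h1) dvd_rfl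
    rw [orderOf_eq_one_iff, hx] at h2
    rw [eq_inv_of_mul_eq_one_right h2, mul_inv_cancel, inv_mul_cancel]
  refine ⟨fun e he q hq => ?_, fun b hb => ?_⟩
  · have hle : ⁅Cfsg.pCore 2 G, Subgroup.zpowers a⁆ ≤ Subgroup.centralizer ({e} : Set G) := by
      rw [Subgroup.commutator_le]
      intro r hr s hs
      obtain ⟨n, rfl⟩ := Subgroup.mem_zpowers_iff.mp hs
      have h2 : Commute e (r * a ^ n * r⁻¹) := by
        rcases Int.even_or_odd' n with ⟨m, rfl | rfl⟩
        · rw [zpow_mul, zpow_two, hsq a ha, one_zpow, mul_one, mul_inv_cancel]; exact Commute.one_right e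
        · rw [zpow_add, zpow_mul, zpow_two, hsq a ha, one_zpow, one_mul, zpow_one]
          exact lemA e he.1 a ha he.2 r hr
      rw [Subgroup.mem_centralizer_singleton_iff, commutatorElement_def]
      exact (h2.mul_right ((show Commute e a from he.2).zpow_right n).inv_right).eq.symm
    exact (Subgroup.mem_centralizer_singleton_iff.mp (hle hq)).symm
  · obtain ⟨hbD, hba, hodd⟩ := hb
    refine le_antisymm (fun q hq => ?_) (fun q hq => ?_)
    · obtain ⟨hq, hc⟩ := Subgroup.mem_inf.mp hq
      have hcab : Commute q (a * b) := Subgroup.mem_centralizer_singleton_iff.mp hc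
      obtain ⟨a', ha'⟩ : ∃ a', a' = q * a * q⁻¹ := ⟨_, rfl⟩
      obtain ⟨b', hb'⟩ : ∃ b', b' = q * b * q⁻¹ := ⟨_, rfl⟩
      have e1 : a' * b' = a * b := by
        rw [ha', hb', show q * a * q⁻¹ * (q * b * q⁻¹) = q * (a * b) * q⁻¹ by group, hcab.eq, mul_inv_cancel_right]
      have ha'D : a' ∈ D := ha' ▸ hR.conj_mem a ha q
      have hb'D : b' ∈ D := hb' ▸ hR.conj_mem b hbD q
      have caa : Commute a a' := ha' ▸ lemA a ha a ha rfl q hq
      have cbb : Commute b b' := hb' ▸ lemA b hbD b hbD rfl q hq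
      obtain ⟨w, hw⟩ : ∃ w, w = a * a' := ⟨_, rfl⟩
      have hwb : w = b * b' := by
        rw [hw, eq_mul_inv_of_mul_eq e1, hinv b' hb'D, ← mul_assoc, ← mul_assoc, hsq a ha, one_mul]
      have cwa : Commute w a := hw ▸ ((Commute.refl a).mul_left caa.symm)
      have cwb : Commute w b := hwb ▸ ((Commute.refl b).mul_left cbb.symm)
      have hw2 : w * w = 1 := by
        rw [hw, ← mul_assoc, mul_assoc a a' a, ← caa.eq, ← mul_assoc a a a', hsq a ha, one_mul, hsq a' ha'D]
      have hx : a' * b = a * b * w := by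
        rw [mul_assoc, ← cwb.eq, ← mul_assoc, hw, ← mul_assoc, hsq a ha, one_mul]
      have hab1 : a * b ≠ 1 := fun e => hba ((eq_inv_of_mul_eq_one_left e).trans (hinv b hbD)).symm
      have cw : Commute (a * b) w := (cwa.mul_right cwb).symm
      rcases hpair a' ha'D b hbD with hcm | hox
      · exfalso
        apply hab1
        have h2 : (a * b) ^ 2 = 1 := by
          have h3 : (a' * b) * (a' * b) = 1 := by
            rw [← mul_assoc, mul_assoc a' b a', ← hcm, ← mul_assoc a' a' b, hsq a' ha'D, one_mul, hsq b hbD]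
          rw [hx, ← pow_two, cw.mul_pow, show w ^ 2 = w * w from pow_two w, hw2, mul_one] at h3
          exact h3
        exact orderOf_eq_one_iff.mp (Nat.eq_one_of_dvd_coprimes (Nat.coprime_two_left.mpr hodd)
          (orderOf_dvd_of_pow_eq_one h2) dvd_rfl)
      · have hw1 : w = 1 := by
          obtain ⟨N, hN⟩ : ∃ N, N = orderOf (a * b) * orderOf (a * b * w) := ⟨_, rfl⟩
          have hNodd : Odd N := hN ▸ hodd.mul (hx ▸ hox)
          have h1 : (a * b) ^ N = 1 := by rw [hN, pow_mul, pow_orderOf_eq_one, one_pow]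
          have h2 : (a * b * w) ^ N = 1 := by rw [hN, mul_comm, pow_mul, pow_orderOf_eq_one, one_pow]
          rw [cw.mul_pow, h1, one_mul] at h2
          obtain ⟨j, rfl⟩ := hNodd
          rwa [pow_succ, pow_mul, pow_two, hw2, one_pow, one_mul] at h2
        have hqa : Commute q a := by
          have h1 : a' = a := by
            have h2 := congrArg (a * ·) (hw ▸ hw1)
            simpa [← mul_assoc, hsq a ha] using h2
          show q * a = a * q
          calc q * a = q * a * q⁻¹ * q := by group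
            _ = a * q := by rw [← ha', h1]
        have hqb : Commute q b := by
          have h1 : Commute q (a⁻¹ * (a * b)) := hqa.inv_right.mul_right hcab
          rwa [inv_mul_cancel_left] at h1
        exact Subgroup.mem_inf.mpr ⟨Subgroup.mem_inf.mpr ⟨hq, Subgroup.mem_centralizer_singleton_iff.mpr hqa⟩,
          Subgroup.mem_centralizer_singleton_iff.mpr hqb⟩
    · obtain ⟨h1, hqb⟩ := Subgroup.mem_inf.mp hq
      obtain ⟨hq, hqa⟩ := Subgroup.mem_inf.mp h1
      exact Subgroup.mem_inf.mpr ⟨hq, Subgroup.mem_centralizer_singleton_iff.mpr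
        ((show Commute q a from Subgroup.mem_centralizer_singleton_iff.mp hqa).mul_right
          (Subgroup.mem_centralizer_singleton_iff.mp hqb)).eq⟩

end Cfsg.Agent.S5049
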