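import Cfsg.Statements.S5057


set_option autoImplicit false
set_option linter.all false
open Cfsg

namespace Cfsg.Agent.S5057
def P (d : Equiv.Perm (Fin 6)) : Prop :=
  d * d = 1 ∧ d ≠ 1 ∧ (Finset.univ.filter fun i => d i = i).card = 2

instance : DecidablePred P := fun d => by unfold P; infer_instance

theorem sign_iff : ∀ d : Equiv.Perm (Fin 6), d * d = 1 → d ≠ 1 →
    (d ∈ alternatingGroup (Fin 6) ↔ (Finset.univ.filter fun i => d i = i).card = 2) := by
  simp only [Equiv.Perm.mem_alternatingGroup]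
  decide +kernel

def base : Equiv.Perm (Fin 6) := Equiv.swap 0 1 * Equiv.swap 2 3

theorem base_P : P base := by decide +kernel

theorem real_elem : ∀ g : Equiv.Perm (Fin 6), g ∈ alternatingGroup (Fin 6) →
    ∃ d, P d ∧ (d * g = 1 ∨ P (d * g)) := by
  simp only [Equiv.Perm.mem_alternatingGroup]
  decide +kernel

theorem pairs : ∀ d : Equiv.Perm (Fin 6), P d → ∀ e : Equiv.Perm (Fin 6), P e →
    d * e = e * d ∨ (d * e) ^ 3 = 1 ∨ (d * e) ^ 5 = 1 ∨ ((d * e) ^ 4 = 1 ∧ P ((d * e) ^ 2)) := by
  decide +kernel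

theorem conj_base : ∀ d : Equiv.Perm (Fin 6), P d →
    ∃ g, g ∈ alternatingGroup (Fin 6) ∧ g * base * g⁻¹ = d := by
  simp only [Equiv.Perm.mem_alternatingGroup]
  decide +kernel

/-- The involutions of the alternating group of degree 6 form a class of root involutions (a single conjugacy class of involutions generating the group, any two of which commute, have product of odd order, or have product of order 4 whose square is again an involution of the class), and the product of any two of them has order at most 5. -/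
theorem result :
    Cfsg.IsRootInvolutionClass {g : ↥(alternatingGroup (Fin 6)) | orderOf g = 2} ∧
    ∀ d ∈ {g : ↥(alternatingGroup (Fin 6)) | orderOf g = 2}, ∀ e ∈ {g : ↥(alternatingGroup (Fin 6)) | orderOf g = 2},
      orderOf (d * e) ≤ 5 := by
  have hinv : ∀ g : ↥(alternatingGroup (Fin 6)), orderOf g = 2 ↔ P (g : Equiv.Perm (Fin 6)) := by
    intro g
    rw [← Subgroup.orderOf_coe]
    constructor
    · intro h
      have h1 : (g : Equiv.Perm (Fin 6)) * g = 1 := by rw [← pow_two, ← h, pow_orderOf_eq_one]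
      have h2 : (g : Equiv.Perm (Fin 6)) ≠ 1 := fun e => by rw [e, orderOf_one] at h; omega
      exact ⟨h1, h2, (sign_iff _ h1 h2).mp g.2⟩
    · rintro ⟨h1, h2, -⟩
      exact orderOf_eq_prime (by rw [pow_two, h1]) h2
  have hmem : ∀ g : Equiv.Perm (Fin 6), P g → g ∈ alternatingGroup (Fin 6) := fun g hg =>
    (sign_iff _ hg.1 hg.2.1).mpr hg.2.2
  refine ⟨⟨⟨fun d hd => hd, ?_, fun d hd g => ?_, fun a ha b hb => ?_⟩, ⟨⟨base, hmem _ base_P⟩, ?_⟩, ?_⟩, ?_⟩
  · rw [eq_top_iff]
    intro g _
    obtain ⟨d, hd, hd'⟩ := real_elem g g.2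
    have h1 : (⟨d, hmem d hd⟩ : ↥(alternatingGroup (Fin 6))) ∈
        Subgroup.closure {x : ↥(alternatingGroup (Fin 6)) | orderOf x = 2} :=
      Subgroup.subset_closure ((hinv _).mpr hd)
    rcases hd' with e | e
    · have : g = ⟨d, hmem d hd⟩ * (⟨d, hmem d hd⟩ * g) := by
        refine Subtype.ext ?_
        simp only [Subgroup.coe_mul, ← mul_assoc, hd.1, one_mul]
      rw [this, show ((⟨d, hmem d hd⟩ : ↥(alternatingGroup (Fin 6))) * g) = 1 from Subtype.ext e]
      exact mul_mem h1 (one_mem _)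
    · have h2 : (⟨d, hmem d hd⟩ * g : ↥(alternatingGroup (Fin 6))) ∈
          Subgroup.closure {x : ↥(alternatingGroup (Fin 6)) | orderOf x = 2} :=
        Subgroup.subset_closure ((hinv _).mpr e)
      have := mul_mem h1 h2
      rwa [show (⟨d, hmem d hd⟩ : ↥(alternatingGroup (Fin 6))) * (⟨d, hmem d hd⟩ * g) = g from Subtype.ext (by
        simp only [Subgroup.coe_mul, ← mul_assoc, hd.1, one_mul])] at this
  · show orderOf (g * d * g⁻¹) = 2
    exact ((SemiconjBy.conj_mk g d).orderOf_eq).symm.trans hd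
  · have ha' := (hinv a).mp ha
    have hb' := (hinv b).mp hb
    rcases pairs a ha' b hb' with h | h | h | h
    · exact Or.inl (Subtype.ext h)
    · refine Or.inr (Or.inl (Odd.of_dvd_nat (show Odd 3 by decide) (orderOf_dvd_of_pow_eq_one ?_)))
      exact Subtype.ext h
    · refine Or.inr (Or.inl (Odd.of_dvd_nat (show Odd 5 by decide) (orderOf_dvd_of_pow_eq_one ?_)))
      exact Subtype.ext h
    · refine Or.inr (Or.inr ⟨?_, (hinv _).mpr h.2⟩)
      rw [← Subgroup.orderOf_coe]
      have h4 : ((a * b : ↥(alternatingGroup (Fin 6))) : Equiv.Perm (Fin 6)) ^ 2 ^ 2 = 1 := h.1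
      haveI : Fact (Nat.Prime 2) := ⟨Nat.prime_two⟩
      exact orderOf_eq_prime_pow (n := 1) (by rw [pow_one]; exact h.2.2.1) h4
  · exact (hinv _).mpr base_P
  · intro a ha b hb
    obtain ⟨g, hg, e⟩ := conj_base _ ((hinv a).mp ha)
    obtain ⟨g', hg', e'⟩ := conj_base _ ((hinv b).mp hb)
    refine ⟨⟨g', hg'⟩ * ⟨g, hg⟩⁻¹, Subtype.ext ?_⟩
    simp only [Subgroup.coe_mul, Subgroup.coe_inv, ← e, ← e']
    group
  · intro d hd e he
    have hd' := (hinv d).mp hd
    have he' := (hinv e).mp he
    rcases pairs d hd' e he' with h | h | h | h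
    · refine le_trans (orderOf_le_of_pow_eq_one (n := 2) (by norm_num) (Subtype.ext ?_)) (by norm_num)
      show ((d : Equiv.Perm (Fin 6)) * e) ^ 2 = 1
      rw [pow_two, mul_assoc, ← mul_assoc (e : Equiv.Perm (Fin 6)), ← h, mul_assoc (d : Equiv.Perm (Fin 6)) e e,
        he'.1, mul_one, hd'.1]
    · exact le_trans (orderOf_le_of_pow_eq_one (n := 3) (by norm_num) (Subtype.ext h)) (by norm_num)
    · exact orderOf_le_of_pow_eq_one (by norm_num) (Subtype.ext h)
    · exact le_trans (orderOf_le_of_pow_eq_one (n := 4) (by norm_num) (Subtype.ext h.1)) (by norm_num)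

end Cfsg.Agent.S5057
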