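import Cfsg.Statements.S5058
import Cfsg.Agent.Lib.RootSub.TransvectionPairs

set_option autoImplicit false
open Matrix
open Cfsg

namespace Cfsg.Agent.S5058

open CfsgLib.RootSub.Transvections
open scoped Matrix

variable {F : Type*} [Field F] [CharP F 2] {n : ℕ}

/-- Absorb a scalar into a pair. -/
def scale (P : Pair F n) (c : F) (hc : c ≠ 0) : Pair F n where
  v := c • P.v
  φ := P.φ
  hv := smul_ne_zero hc P.hv
  hφ := P.hφ
  orth := by rw [dotProduct_smul, P.orth, smul_zero]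

theorem tv_scale (P : Pair F n) (c : F) (hc : c ≠ 0) : tv (scale P c hc) 1 = tv P c :=
  Subtype.ext (by simp [tv_coe, scale, Matrix.smul_vecMulVec])

theorem two_by_two {s t : F} (M : Matrix (Fin 2) (Fin 2) F) (hM : M = !![1 + s * t, s; t, 1]) :
    M * M = (s * t) • M + 1 := by
  subst hM
  ext i j; fin_cases i <;> fin_cases j <;> simp [Matrix.mul_apply, Fin.sum_univ_two]
  all_goals grind

theorem odd_order [Fintype F] {s t : F} (hs : s ≠ 0) (ht : t ≠ 0) (g : Matrix.SpecialLinearGroup (Fin 2) F)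
    (hg : (g : Matrix (Fin 2) (Fin 2) F) = !![1 + s * t, s; t, 1]) :
    Odd (orderOf g) ∧ (s * t = 1 → orderOf g = 1 ∨ orderOf g = 3) := by
  classical
  have hM := two_by_two _ hg
  set M := (g : Matrix (Fin 2) (Fin 2) F) with hMdef
  refine ⟨?_, fun h1 => ?_⟩
  · rw [← Nat.not_even_iff_odd]
    intro he
    obtain ⟨j, hj⟩ := he
    have hlin : ∀ i : ℕ, ∃ a b : F, M ^ i = a • M + b • 1 := by
      intro i
      induction i with
      | zero => exact ⟨0, 1, by simp⟩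
      | succ i ih =>
        obtain ⟨a, b, e⟩ := ih
        refine ⟨a * (s * t) + b, a, ?_⟩
        rw [pow_succ, e, add_mul, Matrix.smul_mul, Matrix.smul_mul, hM, one_mul, smul_add, smul_smul, add_smul]
        abel
    obtain ⟨a, b, e⟩ := hlin j
    have hpos : 0 < orderOf g := orderOf_pos g
    have h2 : M ^ j * M ^ j = 1 := by
      rw [← pow_add, ← hj, hMdef, ← Matrix.SpecialLinearGroup.coe_pow, pow_orderOf_eq_one,
        Matrix.SpecialLinearGroup.coe_one]
    rw [e, add_mul, mul_add, mul_add, smul_mul_smul_comm, smul_mul_smul_comm, smul_mul_smul_comm, smul_mul_smul_comm,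
      hM, one_mul, mul_one, mul_one, smul_add, smul_smul] at h2
    have e00 := congrFun (congrFun h2 1) 0
    have e11 := congrFun (congrFun h2 1) 1
    simp [hg] at e00 e11
    have hchar : (2 : F) = 0 := CharP.cast_eq_zero F 2
    have ha : a = 0 := by
      have : a * a * (s * t) * t = 0 := by linear_combination e00 - a * b * t * hchar
      simpa [hs, ht] using this
    have hb : b = 1 := by
      rw [ha] at e11
      have : (b - 1) * (b - 1) = 0 := by linear_combination e11 + (1 - b) * hchar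
      exact sub_eq_zero.mp (mul_self_eq_zero.mp this)
    have hgj : g ^ j = 1 := Subtype.ext (by
      rw [Matrix.SpecialLinearGroup.coe_pow, ← hMdef, e, ha, hb]; simp)
    have := Nat.le_of_dvd (by omega) (orderOf_dvd_of_pow_eq_one hgj)
    omega
  · have h3 : g ^ 3 = 1 := Subtype.ext (by
      rw [Matrix.SpecialLinearGroup.coe_pow, ← hMdef, pow_succ, pow_two, hM, h1, one_smul, add_mul, one_mul, hM, h1, one_smul,
        Matrix.SpecialLinearGroup.coe_one]
      have hchar : (2 : F) = 0 := CharP.cast_eq_zero F 2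
      rw [show M + 1 + M = (2 : F) • M + 1 by rw [two_smul]; abel, hchar, zero_smul, zero_add])
    exact (Nat.dvd_prime Nat.prime_three).mp (orderOf_dvd_of_pow_eq_one h3)


/-- Let F be a finite field of characteristic 2 and n a natural number. Then the transvections of SL_{n+3}(F) (so in every dimension at least 3) (the conjugates of the elementary matrices 1 + c E₁₂, c ≠ 0) form a class of root involutions of SL_{n+3}(F); when F has two elements they form a class of {3,4}⁺-transpositions (every product of odd order has order 1 or 3). -/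
theorem result (F : Type*) [Field F] [Fintype F] [CharP F 2] (n : ℕ) :
    Cfsg.IsRootInvolutionClass {t : Matrix.SpecialLinearGroup (Fin (n + 3)) F | ∃ c : F, c ≠ 0 ∧
        ∃ g : Matrix.SpecialLinearGroup (Fin (n + 3)) F, ((g⁻¹ * t * g : Matrix.SpecialLinearGroup (Fin (n + 3)) F) :
          Matrix (Fin (n + 3)) (Fin (n + 3)) F) = Matrix.transvection 0 1 c} ∧
    (Fintype.card F = 2 → Cfsg.IsThreeFourPlusTranspositionSet {t : Matrix.SpecialLinearGroup (Fin (n + 3)) F | ∃ c : F, c ≠ 0 ∧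
        ∃ g : Matrix.SpecialLinearGroup (Fin (n + 3)) F, ((g⁻¹ * t * g : Matrix.SpecialLinearGroup (Fin (n + 3)) F) :
          Matrix (Fin (n + 3)) (Fin (n + 3)) F) = Matrix.transvection 0 1 c}) := by
  classical
  set D := {t : Matrix.SpecialLinearGroup (Fin (n + 3)) F | ∃ c : F, c ≠ 0 ∧
        ∃ g : Matrix.SpecialLinearGroup (Fin (n + 3)) F, ((g⁻¹ * t * g : Matrix.SpecialLinearGroup (Fin (n + 3)) F) :
          Matrix (Fin (n + 3)) (Fin (n + 3)) F) = Matrix.transvection 0 1 c} with hD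
  have hmem : ∀ t, t ∈ D ↔ ∃ P : Pair F n, t = tv P 1 := by
    intro t
    constructor
    · rintro ⟨c, hc, g, hg⟩
      have e : g⁻¹ * t * g = tv (E 0 1 h01) c := Subtype.ext (hg.trans (tv_E _ _ h01 c).symm)
      refine ⟨scale (move (E 0 1 h01) g) c hc, ?_⟩
      rw [tv_scale, ← conj_tv, ← e]; group
    · rintro ⟨P, rfl⟩
      obtain ⟨g, hg⟩ := exists_conj_std P (1 : F)
      have hg' : tv P 1 = g * tv (E 0 1 h01) 1 * g⁻¹ := by simpa using hg 1
      refine ⟨1, one_ne_zero, g, ?_⟩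
      rw [show g⁻¹ * tv P 1 * g = tv (E 0 1 h01) 1 by rw [hg']; group, tv_E]
  have hchar : (2 : F) = 0 := CharP.cast_eq_zero F 2
  have hne : ∀ P : Pair F n, tv P 1 ≠ 1 := fun P h => one_ne_zero (tv_inj P (h.trans (tv_zero P).symm))
  have hinv : ∀ P : Pair F n, tv P 1 * tv P 1 = 1 := fun P => by
    rw [tv_mul, show (1 : F) + 1 = 0 by rw [← two_mul, hchar, zero_mul], tv_zero]
  have hinv' : ∀ P : Pair F n, (tv P 1)⁻¹ = tv P 1 := fun P => inv_eq_of_mul_eq_one_right (hinv P)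
  have hfour : ∀ P Q : Pair F n, ∀ R : Pair F n, ∀ s : F, s ≠ 0 →
      tv P 1 * tv Q 1 * (tv P 1)⁻¹ * (tv Q 1)⁻¹ = tv R s →
      orderOf (tv P 1 * tv Q 1) = 4 ∧ (tv P 1 * tv Q 1) ^ 2 ∈ D := by
    intro P Q R s hs e
    rw [hinv' P, hinv' Q, ← tv_scale R s hs] at e
    have e2 : (tv P 1 * tv Q 1) ^ 2 = tv (scale R s hs) 1 := by rw [pow_two, ← e]; simp only [mul_assoc]
    refine ⟨?_, (hmem _).mpr ⟨_, e2⟩⟩
    refine orderOf_eq_prime_pow (p := 2) (n := 1) ?_ ?_
    · rw [pow_one, e2]; exact hne _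
    · rw [show 2 ^ (1 + 1) = 2 * 2 from rfl, pow_mul, e2, pow_two, hinv]
  have hodd : ∀ P Q : Pair F n, P.φ ⬝ᵥ Q.v ≠ 0 → Q.φ ⬝ᵥ P.v ≠ 0 →
      Odd (orderOf (tv P 1 * tv Q 1)) ∧ (Fintype.card F = 2 → orderOf (tv P 1 * tv Q 1) = 1 ∨ orderOf (tv P 1 * tv Q 1) = 3) := by
    intro P Q h1 h2
    set s := P.φ ⬝ᵥ Q.v with hs
    set t := Q.φ ⬝ᵥ P.v with ht
    set g : Matrix.SpecialLinearGroup (Fin 2) F := Cfsg.Agent.S5016.U s * Cfsg.Agent.S5016.L t with hg
    have e : tv P 1 * tv Q 1 = emb Q h1 h2 g := by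
      rw [hg, map_mul, emb_upper h1 h2 _ s rfl, emb_lower h1 h2 _ t rfl, ← hs, ← ht, mul_inv_cancel₀ h1,
        mul_inv_cancel₀ h2]
    rw [e, orderOf_injective _ (emb_injective h1 h2)]
    have := odd_order h1 h2 g (by
      simp [hg, Cfsg.Agent.S5016.U_coe, Cfsg.Agent.S5016.L_coe, Matrix.mul_fin_two])
    refine ⟨this.1, fun hF => this.2 ?_⟩
    have hall : ∀ x : F, x ≠ 0 → x = 1 := fun x hx => by
      have := FiniteField.pow_card_sub_one_eq_one x hx
      rwa [hF, pow_one] at this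
    rw [hall s h1, hall t h2, one_mul]
  have hpair : ∀ P Q : Pair F n, tv P 1 * tv Q 1 = tv Q 1 * tv P 1 ∨ Odd (orderOf (tv P 1 * tv Q 1)) ∨
      (orderOf (tv P 1 * tv Q 1) = 4 ∧ (tv P 1 * tv Q 1) ^ 2 ∈ D) := by
    intro P Q
    by_cases h1 : P.φ ⬝ᵥ Q.v = 0 <;> by_cases h2 : Q.φ ⬝ᵥ P.v = 0
    · exact Or.inl (tv_comm P Q h1 h2 1 1)
    · refine Or.inr (Or.inr (hfour P Q (comp Q P h1) (-(Q.φ ⬝ᵥ P.v)) (neg_ne_zero.mpr h2) ?_))
      have e : tv P 1 * tv Q 1 * (tv P 1)⁻¹ * (tv Q 1)⁻¹ = (tv Q 1 * tv P 1 * (tv Q 1)⁻¹ * (tv P 1)⁻¹)⁻¹ := by group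
      rw [e, tv_commutator Q P h1, tv_inv, mul_one, mul_one]
    · refine Or.inr (Or.inr (hfour P Q (comp P Q h2) _ h1 ?_))
      rw [tv_commutator P Q h2, mul_one, mul_one]
    · exact Or.inr (Or.inl (hodd P Q h1 h2).1)
  have hset : Cfsg.IsRootInvolutionSet D := by
    refine ⟨?_, ?_, ?_, ?_⟩
    · intro d hd; obtain ⟨P, rfl⟩ := (hmem d).mp hd
      exact orderOf_eq_prime (by rw [pow_two, hinv]) (hne P)
    · refine top_eq _ fun i j hij c => ?_
      rcases eq_or_ne c 0 with rfl | hc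
      · rw [tv_zero]; exact one_mem _
      · exact Subgroup.subset_closure ((hmem _).mpr ⟨_, (tv_scale _ c hc).symm⟩)
    · intro d hd g; obtain ⟨P, rfl⟩ := (hmem d).mp hd
      exact (hmem _).mpr ⟨_, conj_tv P g 1⟩
    · intro a ha b hb
      obtain ⟨P, rfl⟩ := (hmem a).mp ha
      obtain ⟨Q, rfl⟩ := (hmem b).mp hb
      exact hpair P Q
  refine ⟨⟨hset, ⟨tv (E 0 1 h01) 1, (hmem _).mpr ⟨_, rfl⟩⟩, fun a ha b hb => ?_⟩, fun hF => ⟨hset, fun a ha b hb ho => ?_⟩⟩
  · obtain ⟨P, rfl⟩ := (hmem a).mp ha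
    obtain ⟨Q, rfl⟩ := (hmem b).mp hb
    obtain ⟨g, hg⟩ := exists_conj_std P (1 : F)
    obtain ⟨g', hg'⟩ := exists_conj_std Q (1 : F)
    have e1 : tv P 1 = g * tv (E 0 1 h01) 1 * g⁻¹ := by simpa using hg 1
    have e2 : tv Q 1 = g' * tv (E 0 1 h01) 1 * g'⁻¹ := by simpa using hg' 1
    exact ⟨g' * g⁻¹, by rw [e1, e2]; group⟩
  · obtain ⟨P, rfl⟩ := (hmem a).mp ha
    obtain ⟨Q, rfl⟩ := (hmem b).mp hb
    by_cases h1 : P.φ ⬝ᵥ Q.v = 0 <;> by_cases h2 : Q.φ ⬝ᵥ P.v = 0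
    · left
      have hc := tv_comm P Q h1 h2 1 1
      have h4 : (tv P 1 * tv Q 1) ^ 2 = 1 := by
        rw [Commute.mul_pow hc, pow_two, pow_two, hinv, hinv, one_mul]
      have hdvd := orderOf_dvd_of_pow_eq_one h4
      rcases (Nat.dvd_prime Nat.prime_two).mp hdvd with h | h
      · exact h
      · rw [h] at ho; exact absurd ho (by decide)
    · exfalso
      have := (hfour P Q (comp Q P h1) (-(Q.φ ⬝ᵥ P.v)) (neg_ne_zero.mpr h2) (by
        have e : tv P 1 * tv Q 1 * (tv P 1)⁻¹ * (tv Q 1)⁻¹ = (tv Q 1 * tv P 1 * (tv Q 1)⁻¹ * (tv P 1)⁻¹)⁻¹ := by group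
        rw [e, tv_commutator Q P h1, tv_inv, mul_one, mul_one])).1
      rw [this] at ho; exact absurd ho (by decide)
    · exfalso
      have := (hfour P Q (comp P Q h2) _ h1 (by rw [tv_commutator P Q h2, mul_one, mul_one])).1
      rw [this] at ho; exact absurd ho (by decide)
    · exact (hodd P Q h1 h2).2 hF

end Cfsg.Agent.S5058
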