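import Cfsg.Statements.S5059


set_option autoImplicit false
set_option linter.all false
universe u
open Cfsg

namespace Cfsg.Agent.S5059

/-- Let k be a field of characteristic not 2 with k not of order 3, M a finite-dimensional k-vector space and G ≤ GL(M) such that (G, M) is a quadratic pair (M irreducible for G, and G generated by its quadratically acting elements σ whose scalar family 1 + c(σ − 1), c ∈ k, lies in G). Write 𝒬_d for the quadratic elements of G of minimal commutator rank, E(σ) for the subgroup generated by the members of 𝒬_d with the same fixed space and commutator space as σ, and Σ for the set of these subgroups. Then for σ ∈ 𝒬_d the subgroup E(σ) consists exactly of those members together with the identity, it is abelian, and if k has prime characteristic p every element of E(σ) has order dividing p. -/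
theorem result {k : Type u} [Field k] (hk2 : ringChar k ≠ 2) (hk3 : Nat.card k ≠ 3)
    {M : Type u} [AddCommGroup M] [Module k M] [FiniteDimensional k M]
    {G : Subgroup (LinearMap.GeneralLinearGroup k M)} (hG : Cfsg.IsQuadraticPair G)
    {σ : LinearMap.GeneralLinearGroup k M} (hσ : σ ∈ Cfsg.minimalQuadraticElements G) :
    (Cfsg.sameActionSubgroup G σ : Set (LinearMap.GeneralLinearGroup k M)) = Cfsg.sameActionClass G σ ∪ {1} ∧
    IsMulCommutative ↥(Cfsg.sameActionSubgroup G σ) ∧
    (∀ p : ℕ, p.Prime → ringChar k = p → ∀ x ∈ Cfsg.sameActionSubgroup G σ, x ^ p = 1) := by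
  classical
  obtain ⟨hσQ, hmin⟩ := id hσ
  obtain ⟨-, ⟨hq, hne⟩, -⟩ := id hσQ
  obtain ⟨α, hα⟩ : ∃ α : M →ₗ[k] M, α = (σ : M →ₗ[k] M) - 1 := ⟨_, rfl⟩
  have facts : ∀ τ ∈ Cfsg.sameActionClass G σ, τ ∈ G ∧
      (∀ c : k, ∀ u : LinearMap.GeneralLinearGroup k M, (u : M →ₗ[k] M) = 1 + c • ((τ : M →ₗ[k] M) - 1) → u ∈ G) ∧
      LinearMap.ker ((τ : M →ₗ[k] M) - 1) = LinearMap.ker α ∧
      LinearMap.range ((τ : M →ₗ[k] M) - 1) = LinearMap.range α := by
    rintro τ ⟨⟨⟨hG', -, hfam⟩, -⟩, hk, hr⟩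
    exact ⟨hG', fun c u hu => hfam ⟨c, hu⟩, hα ▸ hk, hα ▸ hr⟩
  have hsub : LinearMap.range α ≤ LinearMap.ker α := by
    rintro _ ⟨m, rfl⟩
    rw [LinearMap.mem_ker, hα]
    exact LinearMap.congr_fun hq m
  have hprod : ∀ β γ : M →ₗ[k] M, LinearMap.range γ ≤ LinearMap.range α → LinearMap.ker α ≤ LinearMap.ker β →
      β * γ = 0 := fun β γ h1 h2 => LinearMap.ext fun m =>
    LinearMap.mem_ker.mp (h2 (hsub (h1 (LinearMap.mem_range_self γ m))))
  -- membership in the class from the two inclusions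
  have mk' : ∀ u : LinearMap.GeneralLinearGroup k M, u ∈ G →
      (∀ c : k, ∀ v : LinearMap.GeneralLinearGroup k M, (v : M →ₗ[k] M) = 1 + c • ((u : M →ₗ[k] M) - 1) → v ∈ G) →
      LinearMap.range ((u : M →ₗ[k] M) - 1) ≤ LinearMap.range α →
      LinearMap.ker α ≤ LinearMap.ker ((u : M →ₗ[k] M) - 1) →
      u ∈ Cfsg.sameActionClass G σ ∪ {1} := by
    intro u hu hfam hr hk
    obtain ⟨β, hβ⟩ : ∃ β : M →ₗ[k] M, β = (u : M →ₗ[k] M) - 1 := ⟨_, rfl⟩
    rw [← hβ] at hr hk
    by_cases h0 : β = 0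
    · right
      refine Units.ext ?_
      rw [hβ, sub_eq_zero] at h0
      rw [h0, Units.val_one]
    left
    have huQ : u ∈ Cfsg.quadraticElements G := ⟨hu, ⟨hβ ▸ hprod β β hr hk, hβ ▸ h0⟩,
      fun v ⟨c, hc⟩ => hfam c v hc⟩
    have hge := hmin u huQ
    rw [Cfsg.commutatorRank, Cfsg.commutatorRank, ← hα, ← hβ] at hge
    have hre : LinearMap.range β = LinearMap.range α := Submodule.eq_of_le_of_finrank_le hr hge
    have hke : LinearMap.ker α = LinearMap.ker β := by
      refine Submodule.eq_of_le_of_finrank_le hk ?_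
      have h1 := LinearMap.finrank_range_add_finrank_ker α
      have h2 := LinearMap.finrank_range_add_finrank_ker β
      rw [hre] at h2
      omega
    refine ⟨⟨huQ, fun τ hτ => ?_⟩, by rw [← hα, ← hβ, hke], by rw [← hα, ← hβ, hre]⟩
    have := hmin τ hτ
    rw [Cfsg.commutatorRank, ← hβ, hre, hα]
    exact this
  -- product and inverse
  have hmul : ∀ a ∈ Cfsg.sameActionClass G σ, ∀ b ∈ Cfsg.sameActionClass G σ,
      a * b ∈ Cfsg.sameActionClass G σ ∪ {1} ∧ a⁻¹ ∈ Cfsg.sameActionClass G σ ∪ {1} ∧ a * b = b * a := by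
    intro a ha b hb
    obtain ⟨a1, a2, a3, a4⟩ := facts a ha
    obtain ⟨b1, b2, b3, b4⟩ := facts b hb
    obtain ⟨A, hA⟩ : ∃ A : M →ₗ[k] M, A = (a : M →ₗ[k] M) - 1 := ⟨_, rfl⟩
    obtain ⟨B, hB⟩ : ∃ B : M →ₗ[k] M, B = (b : M →ₗ[k] M) - 1 := ⟨_, rfl⟩
    rw [← hA] at a3 a4
    rw [← hB] at b3 b4
    have hAB : A * B = 0 := hprod A B b4.le a3.ge
    have hBA : B * A = 0 := hprod B A a4.le b3.ge
    have hAA : A * A = 0 := hprod A A a4.le a3.ge
    have ha' : (a : M →ₗ[k] M) = 1 + A := by rw [hA]; abel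
    have hb' : (b : M →ₗ[k] M) = 1 + B := by rw [hB]; abel
    have hab : ((a * b : LinearMap.GeneralLinearGroup k M) : M →ₗ[k] M) = 1 + (A + B) := by
      simp only [Units.val_mul, ha', hb', add_mul, mul_add, one_mul, mul_one, hAB]
      abel
    have hunit : ∀ (C : M →ₗ[k] M), C * C = 0 → ∃ v : LinearMap.GeneralLinearGroup k M, (v : M →ₗ[k] M) = 1 + C :=
      fun C hC => ⟨⟨1 + C, 1 - C, by simp only [mul_sub, add_mul, mul_one, one_mul, hC]; abel,
        by simp only [sub_mul, mul_add, mul_one, one_mul, hC]; abel⟩, rfl⟩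
    have hinv : ((a⁻¹ : LinearMap.GeneralLinearGroup k M) : M →ₗ[k] M) = 1 + -A := by
      obtain ⟨v, hv⟩ := hunit (-A) (by rw [neg_mul_neg, hAA])
      have h1 : a⁻¹ = v := inv_eq_of_mul_eq_one_right (Units.ext (by
        simp only [Units.val_mul, ha', hv, Units.val_one, add_mul, mul_add, one_mul, mul_one, mul_neg, hAA]
        abel))
      rw [h1, hv]
    refine ⟨mk' _ (mul_mem a1 b1) ?_ ?_ ?_, mk' _ (inv_mem a1) ?_ ?_ ?_, Units.ext ?_⟩
    · intro c v hv
      rw [hab, add_sub_cancel_left] at hv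
      obtain ⟨p, hp⟩ := hunit (c • A) (by rw [smul_mul_smul_comm, hAA, smul_zero])
      obtain ⟨q, hq'⟩ := hunit (c • B) (by rw [smul_mul_smul_comm, hprod B B b4.le b3.ge, smul_zero])
      have hpG : p ∈ G := a2 c p (by rw [hp, hA])
      have hqG : q ∈ G := b2 c q (by rw [hq', hB])
      have : v = p * q := Units.ext (by
        simp only [hv, Units.val_mul, hp, hq', add_mul, mul_add, one_mul, mul_one, smul_mul_smul_comm, hAB,
          smul_zero, smul_add]
        abel)
      rw [this]; exact mul_mem hpG hqG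
    · rw [hab, add_sub_cancel_left]
      rintro _ ⟨m, rfl⟩
      rw [LinearMap.add_apply]
      exact add_mem (a4.le (LinearMap.mem_range_self A m)) (b4.le (LinearMap.mem_range_self B m))
    · rw [hab, add_sub_cancel_left]
      intro m hm
      rw [LinearMap.mem_ker, LinearMap.add_apply, LinearMap.mem_ker.mp (a3.ge hm), LinearMap.mem_ker.mp (b3.ge hm),
        add_zero]
    · intro c v hv
      rw [hinv, add_sub_cancel_left, smul_neg, ← neg_smul] at hv
      exact a2 (-c) v (by rw [hv, hA])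
    · rw [hinv, add_sub_cancel_left, LinearMap.range_neg]; exact a4.le
    · rw [hinv, add_sub_cancel_left, LinearMap.ker_neg]; exact a3.ge
    · simp only [hab, Units.val_mul, hb', ha', add_mul, mul_add, one_mul, mul_one, hBA]
      abel
  have hσc : σ ∈ Cfsg.sameActionClass G σ := ⟨hσ, rfl, rfl⟩
  have hmul' : ∀ a ∈ Cfsg.sameActionClass G σ ∪ {1}, ∀ b ∈ Cfsg.sameActionClass G σ ∪ {1},
      a * b ∈ Cfsg.sameActionClass G σ ∪ {1} ∧ a * b = b * a := by
    rintro a (ha | ha) b (hb | hb)
    · exact ⟨(hmul a ha b hb).1, (hmul a ha b hb).2.2⟩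
    · obtain rfl : b = 1 := hb
      rw [mul_one, one_mul]; exact ⟨Or.inl ha, rfl⟩
    · obtain rfl : a = 1 := ha
      rw [mul_one, one_mul]; exact ⟨Or.inl hb, rfl⟩
    · obtain rfl : a = 1 := ha
      obtain rfl : b = 1 := hb
      rw [mul_one]; exact ⟨Or.inr rfl, rfl⟩
  let H : Subgroup (LinearMap.GeneralLinearGroup k M) :=
    { carrier := Cfsg.sameActionClass G σ ∪ {1}
      one_mem' := Or.inr rfl
      mul_mem' := fun ha hb => (hmul' _ ha _ hb).1
      inv_mem' := by
        rintro a (ha | ha)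
        · exact (hmul a ha σ hσc).2.1
        · obtain rfl : a = 1 := ha
          rw [inv_one]; exact Or.inr rfl }
  have hH : Cfsg.sameActionSubgroup G σ = H :=
    le_antisymm ((Subgroup.closure_le _).mpr fun x hx => Or.inl hx) fun x hx => by
      rcases hx with hx | hx
      · exact Subgroup.subset_closure hx
      · obtain rfl : x = 1 := hx
        exact one_mem _
  refine ⟨by rw [hH]; rfl, ?_, ?_⟩
  · rw [hH]
    exact ⟨⟨fun x y => Subtype.ext (hmul' _ x.2 _ y.2).2⟩⟩
  · intro p hp hchar x hx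
    rw [hH] at hx
    rcases hx with hx | hx
    · obtain ⟨-, -, x3, x4⟩ := facts x hx
      obtain ⟨A, hA⟩ : ∃ A : M →ₗ[k] M, A = (x : M →ₗ[k] M) - 1 := ⟨_, rfl⟩
      rw [← hA] at x3 x4
      have hAA : A * A = 0 := hprod A A x4.le x3.ge
      have hpow : ∀ n : ℕ, ((x ^ n : LinearMap.GeneralLinearGroup k M) : M →ₗ[k] M) = 1 + (n : k) • A := by
        intro n
        induction n with
        | zero => simp
        | succ n ih =>
          simp only [pow_succ, Units.val_mul, ih, show (x : M →ₗ[k] M) = 1 + A by rw [hA]; abel, add_mul, mul_add,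
            one_mul, mul_one, smul_mul_assoc, hAA, smul_zero, Nat.cast_succ, add_smul, one_smul]
          abel
      refine Units.ext ?_
      haveI := ringChar.charP k
      rw [hpow, Units.val_one, ← hchar, ringChar.Nat.cast_ringChar, zero_smul, add_zero]
    · obtain rfl : x = 1 := hx
      exact one_pow p

end Cfsg.Agent.S5059
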