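import Cfsg.Statements.S5067


set_option autoImplicit false
set_option linter.all false
open Cfsg

namespace Cfsg.Agent.S5067
open scoped commutatorElement

theorem key {P : Type*} [Group P] [Group.IsNilpotent P] {E : Subgroup P} (hE : IsMulCommutative ↥E)
    (h2 : 2 ≤ Group.nilpotencyClass P) :
    Group.nilpotencyClass ↥(Subgroup.normalClosure (E : Set P)) < Group.nilpotencyClass P := by
  set K : Subgroup P := (⊤ : Subgroup P).lowerCentralSeries 1 with hK
  set L : Subgroup P := (⊤ : Subgroup P).lowerCentralSeries 2 with hL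
  set M : Subgroup P := E ⊔ K with hM
  have hKc : ∀ x y : P, ⁅x, y⁆ ∈ K := fun x y => by
    rw [hK, Subgroup.lowerCentralSeries_succ, Subgroup.lowerCentralSeries_zero]
    exact Subgroup.commutator_mem_commutator (Subgroup.mem_top x) (Subgroup.mem_top y)
  have hMn : M.Normal := ⟨fun m hm g => by
    have h := mul_mem (Subgroup.mem_sup_right (S := E) (hKc g m)) hm
    rwa [commutatorElement_def, inv_mul_cancel_right] at h⟩
  have hKL : ∀ k ∈ K, ∀ y : P, ⁅k, y⁆ ∈ L := fun k hk y => by
    rw [hL, Subgroup.lowerCentralSeries_succ]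
    exact Subgroup.commutator_mem_commutator hk (Subgroup.mem_top y)
  have hbase : ⁅M, M⁆ ≤ L := by
    haveI : L.Normal := hL ▸ inferInstance
    rw [Subgroup.commutator_le]
    intro p hp q hq
    obtain ⟨e, he, k, hk, rfl⟩ := Subgroup.mem_sup_of_normal_right.mp (by rwa [hM, hK] at hp : p ∈ E ⊔ (⊤ : Subgroup P).lowerCentralSeries 1)
    obtain ⟨e', he', k', hk', rfl⟩ := Subgroup.mem_sup_of_normal_right.mp (by rwa [hM, hK] at hq : q ∈ E ⊔ (⊤ : Subgroup P).lowerCentralSeries 1)
    let f := QuotientGroup.mk' L
    have hc : ∀ k ∈ K, ∀ y : P, Commute (f k) (f y) := fun k hk y => by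
      rw [← commutatorElement_eq_one_iff_commute, ← map_commutatorElement]
      exact (QuotientGroup.eq_one_iff _).mpr (hKL k hk y)
    have hee : Commute e e' := by
      haveI := hE
      exact congrArg Subtype.val (mul_comm' (⟨e, he⟩ : E) ⟨e', he'⟩)
    refine (QuotientGroup.eq_one_iff _).mp (show f ⁅e * k, e' * k'⁆ = 1 from ?_)
    rw [map_commutatorElement, commutatorElement_eq_one_iff_commute, map_mul, map_mul]
    exact ((hee.map f).mul_right (hc k' hk' e).symm).mul_left ((hc k hk e').mul_right (hc k hk k'))
  have hstep : ∀ n, M.lowerCentralSeries (n + 1) ≤ (⊤ : Subgroup P).lowerCentralSeries (n + 2) := by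
    intro n
    induction n with
    | zero => rw [Subgroup.lowerCentralSeries_succ, Subgroup.lowerCentralSeries_zero]; exact hbase
    | succ n ih =>
      rw [Subgroup.lowerCentralSeries_succ, Subgroup.lowerCentralSeries_succ ⊤ (n + 2)]
      exact Subgroup.commutator_mono ih le_top
  set N := Subgroup.normalClosure (E : Set P) with hN
  obtain ⟨c, hc⟩ := Nat.exists_eq_add_of_le h2
  have hbot : N.lowerCentralSeries (c + 1) = ⊥ := by
    haveI := hMn
    have hNM : N ≤ M := Subgroup.normalClosure_le_normal fun x hx => Subgroup.mem_sup_left hx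
    rw [eq_bot_iff, ← Subgroup.lowerCentralSeries_eq_bot_iff_nilpotencyClass_le.mpr (show Group.nilpotencyClass P ≤ c + 2 by omega)]
    exact le_trans (Subgroup.lowerCentralSeries_mono (c + 1) hNM) (hstep c)
  have hle : Group.nilpotencyClass N ≤ c + 1 := by
    rw [← Subgroup.lowerCentralSeries_eq_bot_iff_nilpotencyClass_le, ← Subgroup.map_subtype_inj, Subgroup.map_bot,
      Subgroup.top_subtype_lowerCentralSeries, hbot]
  omega

/-- Let P be a non-abelian nilpotent p-group (every element of p-power order; P possibly infinite) generated by two abelian subgroups E and F. Then the normal closure of E in P, and likewise that of F, has nilpotency class strictly smaller than that of P. -/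
theorem result {P : Type*} [Group P] {p : ℕ} [Fact p.Prime] (hP : IsPGroup p P) [Group.IsNilpotent P]
    (hna : ¬ IsMulCommutative P) {E F : Subgroup P} (hE : IsMulCommutative ↥E) (hF : IsMulCommutative ↥F) (hgen : E ⊔ F = ⊤) :
    Group.nilpotencyClass ↥(Subgroup.normalClosure (E : Set P)) < Group.nilpotencyClass P ∧
    Group.nilpotencyClass ↥(Subgroup.normalClosure (F : Set P)) < Group.nilpotencyClass P := by
  have h2 : 2 ≤ Group.nilpotencyClass P := by
    by_contra hlt
    apply hna
    have h1 := Subgroup.lowerCentralSeries_eq_bot_iff_nilpotencyClass_le.mpr (show Group.nilpotencyClass P ≤ 1 by omega)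
    rw [Subgroup.lowerCentralSeries_succ, Subgroup.lowerCentralSeries_zero, Subgroup.commutator_eq_bot_iff_le_centralizer] at h1
    exact ⟨⟨fun x y => ((Subgroup.mem_centralizer_iff.mp (h1 (Subgroup.mem_top x))) y (Subgroup.mem_top y)).symm⟩⟩
  exact ⟨key hE h2, key hF h2⟩

end Cfsg.Agent.S5067
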