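import Cfsg.Statements.S5070
import Cfsg.Agent.Lib.RootSub.SymplecticPairs
import Cfsg.Agent.Lib.RootSub.RootSet

set_option autoImplicit false
open Matrix
open Cfsg

namespace Cfsg.Agent.S5070

open scoped Matrix commutatorElement

open CfsgLib.RootSub.SymplecticPairs CfsgLib.Symplectic.Basic

/-- Let F be a field, m a natural number and V = F^{2(m+1)} with the standard non-degenerate alternating form f(u, v) = uᵀ J v. For a non-zero vector p let T(p) be the group of symplectic transvections v ↦ v + c f(v, p) p, c ∈ F. Then the subgroups T(p), p ≠ 0, generate the symplectic group Sp_{2(m+1)}(F) and form a degenerate class of abstract F-root subgroups of it (any two of them either commute elementwise or are the unipotent subgroups of a rank one group that is an image of SL₂(F) with central kernel, never the commutator case), and their graph of rank one pairs is connected. -/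
theorem result (F : Type*) [Field F] (m : ℕ) :
    Cfsg.IsRootSubgroupClass {A : Subgroup ↥(Matrix.symplecticGroup (Fin (m + 1)) F) | ∃ p : Fin (m + 1) ⊕ Fin (m + 1) → F, p ≠ 0 ∧
        A = Subgroup.closure {g : ↥(Matrix.symplecticGroup (Fin (m + 1)) F) | ∃ c : F, ∀ v : Fin (m + 1) ⊕ Fin (m + 1) → F,
          (g : Matrix (Fin (m + 1) ⊕ Fin (m + 1)) (Fin (m + 1) ⊕ Fin (m + 1)) F) *ᵥ v =
            v + (c * (v ⬝ᵥ (Matrix.J (Fin (m + 1)) F *ᵥ p))) • p}} ∧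
    Cfsg.IsDegenerateRootSet {A : Subgroup ↥(Matrix.symplecticGroup (Fin (m + 1)) F) | ∃ p : Fin (m + 1) ⊕ Fin (m + 1) → F, p ≠ 0 ∧
        A = Subgroup.closure {g : ↥(Matrix.symplecticGroup (Fin (m + 1)) F) | ∃ c : F, ∀ v : Fin (m + 1) ⊕ Fin (m + 1) → F,
          (g : Matrix (Fin (m + 1) ⊕ Fin (m + 1)) (Fin (m + 1) ⊕ Fin (m + 1)) F) *ᵥ v =
            v + (c * (v ⬝ᵥ (Matrix.J (Fin (m + 1)) F *ᵥ p))) • p}} ∧
    Cfsg.IsKRootSubgroupSet F {A : Subgroup ↥(Matrix.symplecticGroup (Fin (m + 1)) F) | ∃ p : Fin (m + 1) ⊕ Fin (m + 1) → F, p ≠ 0 ∧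
        A = Subgroup.closure {g : ↥(Matrix.symplecticGroup (Fin (m + 1)) F) | ∃ c : F, ∀ v : Fin (m + 1) ⊕ Fin (m + 1) → F,
          (g : Matrix (Fin (m + 1) ⊕ Fin (m + 1)) (Fin (m + 1) ⊕ Fin (m + 1)) F) *ᵥ v =
            v + (c * (v ⬝ᵥ (Matrix.J (Fin (m + 1)) F *ᵥ p))) • p}} ∧
    Cfsg.IsConnectedFamily (Cfsg.FAdj {A : Subgroup ↥(Matrix.symplecticGroup (Fin (m + 1)) F) | ∃ p : Fin (m + 1) ⊕ Fin (m + 1) → F, p ≠ 0 ∧
        A = Subgroup.closure {g : ↥(Matrix.symplecticGroup (Fin (m + 1)) F) | ∃ c : F, ∀ v : Fin (m + 1) ⊕ Fin (m + 1) → F,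
          (g : Matrix (Fin (m + 1) ⊕ Fin (m + 1)) (Fin (m + 1) ⊕ Fin (m + 1)) F) *ᵥ v =
            v + (c * (v ⬝ᵥ (Matrix.J (Fin (m + 1)) F *ᵥ p))) • p}})
      {A : Subgroup ↥(Matrix.symplecticGroup (Fin (m + 1)) F) | ∃ p : Fin (m + 1) ⊕ Fin (m + 1) → F, p ≠ 0 ∧
        A = Subgroup.closure {g : ↥(Matrix.symplecticGroup (Fin (m + 1)) F) | ∃ c : F, ∀ v : Fin (m + 1) ⊕ Fin (m + 1) → F,
          (g : Matrix (Fin (m + 1) ⊕ Fin (m + 1)) (Fin (m + 1) ⊕ Fin (m + 1)) F) *ᵥ v =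
            v + (c * (v ⬝ᵥ (Matrix.J (Fin (m + 1)) F *ᵥ p))) • p}} := by
  set S := {A : Subgroup ↥(Matrix.symplecticGroup (Fin (m + 1)) F) | ∃ p : Fin (m + 1) ⊕ Fin (m + 1) → F, p ≠ 0 ∧
        A = Subgroup.closure {g : ↥(Matrix.symplecticGroup (Fin (m + 1)) F) | ∃ c : F, ∀ v : Fin (m + 1) ⊕ Fin (m + 1) → F,
          (g : Matrix (Fin (m + 1) ⊕ Fin (m + 1)) (Fin (m + 1) ⊕ Fin (m + 1)) F) *ᵥ v =
            v + (c * (v ⬝ᵥ (Matrix.J (Fin (m + 1)) F *ᵥ p))) • p}} with hS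
  have mem : ∀ A, A ∈ S ↔ ∃ p : V (m + 1) F, p ≠ 0 ∧ A = X p := fun A => by
    rw [hS, Set.mem_ofPred_eq]; simp only [closure_eq]
  have hset : Cfsg.IsRootSubgroupSet S := by
    refine ⟨?_, ?_, ?_, ?_, ?_⟩
    · intro A hA; obtain ⟨p, -, rfl⟩ := (mem A).mp hA; exact comm_X p
    · intro A hA; obtain ⟨p, hp, rfl⟩ := (mem A).mp hA; exact X_ne_bot hp
    · rw [eq_top_iff, ← closure_T_eq_top (F := F) (m := m + 1), Subgroup.closure_le]
      rintro _ ⟨w, c, rfl⟩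
      rcases eq_or_ne w 0 with rfl | hw
      · have e : T (0 : V (m + 1) F) c = 1 := ext_mulVec fun x => by simp [T_apply]
        rw [e]; exact one_mem _
      · exact Subgroup.mem_iSup_of_mem (X w) (Subgroup.mem_iSup_of_mem ((mem _).mpr ⟨w, hw, rfl⟩) (mem_X.mpr ⟨c, rfl⟩))
    · intro A hA g; obtain ⟨p, hp, rfl⟩ := (mem A).mp hA
      exact (mem _).mpr ⟨_, mulVec_ne_zero g hp, conjBy_X g p⟩
    · intro A hA B' hB
      obtain ⟨p, hp, rfl⟩ := (mem A).mp hA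
      obtain ⟨q, hq, rfl⟩ := (mem B').mp hB
      by_cases h : B p q = 0
      · exact Or.inl (bracket_eq_bot h)
      · exact Or.inr (Or.inl (pair h).1)
  have hdeg : Cfsg.IsDegenerateRootSet S := by
    intro A hA B' hB hc
    obtain ⟨p, hp, rfl⟩ := (mem A).mp hA
    obtain ⟨q, hq, rfl⟩ := (mem B').mp hB
    by_cases h : B p q = 0
    · have h1 := hc.1
      rw [bracket_eq_bot h] at h1
      exact hset.ne_bot _ h1 rfl
    · obtain ⟨a, ha, ha1⟩ := CfsgLib.RootSub.exists_ne_one (X_ne_bot hp)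
      refine CfsgLib.RootSub.not_centralizes (pair h).1 ha ha1 fun x hx y hy => ?_
      have h1 := hc.2.1 ⁅a, x⁆ (Subgroup.commutator_mem_commutator ha hx) y (Subgroup.mem_sup_right hy)
      have h2 : x * y = y * x := CfsgLib.RootSub.mul_comm_of_commutative hset hB hx hy
      rw [show a * x * a⁻¹ = ⁅a, x⁆ * x by rw [commutatorElement_def]; group, mul_assoc, h2, ← mul_assoc, h1, mul_assoc]
  refine ⟨⟨hset, ?_, ?_⟩, hdeg, ⟨hset, ?_⟩, ?_⟩
  · exact ⟨_, (mem _).mpr ⟨Pi.single (Sum.inl 0) 1, by simp, rfl⟩⟩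
  · intro A hA B' hB
    obtain ⟨p, hp, rfl⟩ := (mem A).mp hA
    obtain ⟨q, hq, rfl⟩ := (mem B').mp hB
    obtain ⟨g, hg⟩ := exists_map_vec hp hq
    exact ⟨g, by rw [conjBy_X, hg]⟩
  · intro A hA B' hB hr
    obtain ⟨p, hp, rfl⟩ := (mem A).mp hA
    obtain ⟨q, hq, rfl⟩ := (mem B').mp hB
    refine (pair fun h => ?_).2
    obtain ⟨a, ha, ha1⟩ := CfsgLib.RootSub.exists_ne_one (X_ne_bot hp)
    exact CfsgLib.RootSub.not_commute_of_pair hr ha ha1 fun b hb =>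
      CfsgLib.RootSub.commute_of_bracket (bracket_eq_bot h) ha hb
  · intro A hA B' hB
    obtain ⟨p, hp, rfl⟩ := (mem A).mp hA
    obtain ⟨q, hq, rfl⟩ := (mem B').mp hB
    obtain ⟨z, -, h1, h2⟩ := exists_nonperp_two nondeg_empty (u := p) (v := q) (by intro s hs; exact hs.elim)
      (by intro s hs; exact hs.elim) hp hq
    have hz : z ≠ 0 := fun h => h1 (by rw [h, map_zero])
    exact (Relation.ReflTransGen.single ⟨hA, (mem _).mpr ⟨z, hz, rfl⟩, (pair h1).1⟩).tail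
      ⟨(mem _).mpr ⟨z, hz, rfl⟩, hB, (pair h2).1⟩

end Cfsg.Agent.S5070
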