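import Cfsg.Statements.S5083
import Cfsg.Agent.Lib.Fusion.Saturated

set_option autoImplicit false
open Cfsg

namespace Cfsg.Agent.S5083

/-- If F is a saturated fusion system over a finite p-group S in which Aut_F(P) is a p-group for every P ≤ S, then F is the inner fusion system of S (all its maps are conjugations by elements of S). -/
theorem result {Ω : Type*} [Group Ω] {S : Subgroup Ω} [Finite S] (p : ℕ) [Fact p.Prime] (hS : IsPGroup p S) (F : Cfsg.FusionSystem S) (hF : F.IsSaturated p) (h : ∀ P : Subgroup Ω, P ≤ S → IsPGroup p (F.autGroup P)) : F = Cfsg.innerFusionSystem S := by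
  have h1 : F ≤ Cfsg.innerFusionSystem S := by
    refine CfsgLib.Fusion.le_of_autGroup_centric_radical p hS hF _ fun R hR _ _ => ?_
    obtain ⟨hRS, T, hT⟩ := CfsgLib.Fusion.fullyNormalized_automized p hS hF hR
    intro α hα
    have htop : (T : Subgroup ↥(F.autGroup R)) = ⊤ := by
      haveI := CfsgLib.Fusion.finite_aut_of_le (S := S) hRS
      exact (T.3 ((h R hRS).to_subgroup ⊤) le_top).symm
    have hmem : (⟨α, hα⟩ : ↥(F.autGroup R)) ∈ (T : Subgroup ↥(F.autGroup R)) := htop ▸ Subgroup.mem_top _
    rw [hT] at hmem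
    exact CfsgLib.Fusion.autInducedBy_le_autGroup (Cfsg.innerFusionSystem S) hRS hmem
  have h2 : F.Hom = (Cfsg.innerFusionSystem S).Hom := by
    funext P
    refine Set.Subset.antisymm (h1 P) ?_
    rintro φ ⟨hP, g, hg, hφ⟩
    exact CfsgLib.Fusion.conj_mem_of_eq F hP hg hφ
  generalize Cfsg.innerFusionSystem S = E at h2 ⊢
  cases F; cases E; subst h2; rfl

end Cfsg.Agent.S5083
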