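import Cfsg.Statements.S5085
import Cfsg.Agent.Lib.Fusion.Extend

set_option autoImplicit false
open Cfsg

namespace Cfsg.Agent.S5085

/-- In any fusion system, a characteristic subgroup of a subgroup that is normal in the system is itself normal in the system. -/
theorem result {Ω : Type*} [Group Ω] {S : Subgroup Ω} (F : Cfsg.FusionSystem S) (Q U : Subgroup Ω) (hQ : F.IsNormal Q) (hUQ : U ≤ Q) (hU : (U.subgroupOf Q).Characteristic) : F.IsNormal U := by
  refine ⟨hUQ.trans hQ.1, fun P φ hφ => ?_⟩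
  obtain ⟨ψ, hψ, e, f⟩ := hQ.2 P φ hφ
  have hle : P ⊔ U ≤ P ⊔ Q := sup_le_sup_left hUQ P
  refine ⟨ψ.comp (Subgroup.inclusion hle), CfsgLib.Fusion.restrict_mem hψ hle, fun x => e x, ?_⟩
  obtain ⟨a, b⟩ := (CfsgLib.Fusion.map_eq_iff le_sup_right ψ).mp f
  let η : ↥Q →* ↥Q := (ψ.comp (Subgroup.inclusion le_sup_right)).codRestrict Q a
  have hb : Function.Bijective η := by
    refine ⟨fun x y h => ?_, fun y => ?_⟩
    · have := F.injective_of_mem hψ (congrArg Subtype.val h)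
      exact Subtype.ext (congrArg (fun z : ↥(P ⊔ Q) => (z : Ω)) this)
    · obtain ⟨x, hx⟩ := b y y.2; exact ⟨x, Subtype.ext hx⟩
  have hU' : (U.subgroupOf Q).map η = U.subgroupOf Q :=
    Subgroup.characteristic_iff_map_eq.mp hU (MulEquiv.ofBijective η hb)
  rw [CfsgLib.Fusion.map_eq_iff le_sup_right]
  refine ⟨fun x => ?_, fun y hy => ?_⟩
  · have : η ⟨x, hUQ x.2⟩ ∈ U.subgroupOf Q := hU' ▸ ⟨⟨x, hUQ x.2⟩, x.2, rfl⟩
    exact this
  · have : (⟨y, hUQ hy⟩ : ↥Q) ∈ (U.subgroupOf Q).map η := by rw [hU']; exact hy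
    obtain ⟨x, hx, hxy⟩ := this
    exact ⟨⟨(x : Ω), hx⟩, congrArg Subtype.val hxy⟩

end Cfsg.Agent.S5085
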