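import Cfsg.Statements.S5087
import Cfsg.Agent.Lib.Fusion.Essential
import Cfsg.Agent.Lib.Fusion.Series

set_option autoImplicit false
open Cfsg

namespace Cfsg.Agent.S5087

/-- In a saturated fusion system over a finite p-group S, a subgroup Q is normal in the system if and only if every subgroup P that equals S or is essential contains Q and every element of Aut_F(P) maps Q onto itself. -/
theorem result {Ω : Type*} [Group Ω] {S : Subgroup Ω} [Finite S] (p : ℕ) [Fact p.Prime] (hS : IsPGroup p S) (F : Cfsg.FusionSystem S) (hF : F.IsSaturated p) (Q : Subgroup Ω) : F.IsNormal Q ↔ ∀ P : Subgroup Ω, (P = S ∨ F.IsEssential p P) → (Q ≤ P ∧ ∀ α ∈ F.autGroup P, (Q.subgroupOf P).map α.toMonoidHom = Q.subgroupOf P) := by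
  haveI : Finite ↥S := ‹_›
  constructor
  · intro h P hP
    have hsc := CfsgLib.Fusion.isNormal_stronglyClosed h
    have hPS : P ≤ S := by rcases hP with rfl | hE; exacts [le_rfl, hE.2.1.1]
    have hQP : Q ≤ P := by
      rcases hP with rfl | hE
      · exact h.1
      · exact CfsgLib.Fusion.normal_le_radical p hS h hE.1 (CfsgLib.Fusion.isRadical_of_essential p hS hE)
    refine ⟨hQP, fun α hα => ?_⟩
    haveI := CfsgLib.Fusion.finite_of_le hPS
    refine Subgroup.eq_of_le_of_card_ge ?_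
      (by rw [← Nat.card_congr ((Q.subgroupOf P).equivMapOfInjective α.toMonoidHom α.injective).toEquiv])
    rintro _ ⟨x, hx, rfl⟩
    exact Subgroup.mem_subgroupOf.mpr (hsc.2 (P ⊓ Q) inf_le_right _
      (CfsgLib.Fusion.restrict_mem ((CfsgLib.Fusion.autGroup_carrier F hPS α).mp hα) inf_le_left)
      ⟨(x : Ω), x.2, Subgroup.mem_subgroupOf.mp hx⟩)
  intro h
  obtain ⟨hQS, hQinv⟩ := h S (Or.inl rfl)
  haveI := CfsgLib.Fusion.finite_of_le hQS
  have hQn : S ≤ Subgroup.normalizer (Q : Set Ω) := by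
    intro s hs
    refine CfsgLib.Fusion.mem_normalizer_iff_cj.mpr
      (Subgroup.eq_of_le_of_card_ge (CfsgLib.Fusion.cj_le_iff.mpr fun x hx => ?_) (by rw [CfsgLib.Fusion.card_cj]))
    have ha : S.normalizerMonoidHom ⟨s, Subgroup.le_normalizer hs⟩ ∈ F.autGroup S :=
      CfsgLib.Fusion.autInducedBy_le_autGroup F le_rfl ((CfsgLib.Fusion.mem_autInducedBy _).mpr ⟨s, hs, fun _ => rfl⟩)
    exact Subgroup.mem_subgroupOf.mp ((hQinv _ ha).le ⟨⟨x, hQS hx⟩, Subgroup.mem_subgroupOf.mpr hx, rfl⟩)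
  have hN : Cfsg.FusionSystem.normalizerIn S Q = S := inf_eq_left.mpr hQn
  let N := CfsgLib.Fusion.normalizerSystem F Q hQS
  let E : Cfsg.FusionSystem S :=
    { Hom := fun P => N.Hom P
      le_of_mem := fun hφ => ⟨(N.le_of_mem hφ).1.trans hN.le, fun x => hN.le ((N.le_of_mem hφ).2 x)⟩
      injective_of_mem := fun hφ => N.injective_of_mem hφ
      conj_mem := fun hP hg => N.conj_mem (hP.trans hN.ge) (hN.ge hg)
      comp_mem := fun hφ hψ hh => N.comp_mem hφ hψ hh
      inv_mem := fun hφ => N.inv_mem hφ }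
  have hle : F ≤ E := CfsgLib.Fusion.le_of_autGroup_essential p hS hF E fun P hP α hα => by
    have hPS : P ≤ S := by rcases hP with rfl | hE; exacts [le_rfl, hE.2.1.1]
    obtain ⟨hQP, hinv⟩ := h P hP
    have hα' := (CfsgLib.Fusion.autGroup_carrier F hPS α).mp hα
    have hle' : P ⊔ Q ≤ P := sup_le le_rfl hQP
    refine (CfsgLib.Fusion.autGroup_carrier E hPS α).mpr
      ⟨hα', hPS.trans hN.ge, fun x => hN.ge (hPS (α x).2), _, CfsgLib.Fusion.restrict_mem hα' hle', fun x => rfl,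
        (CfsgLib.Fusion.map_eq_iff le_sup_right _).mpr ⟨fun x => ?_, fun y hy => ?_⟩⟩
    · exact Subgroup.mem_subgroupOf.mp ((hinv α hα).le ⟨⟨x, hQP x.2⟩, Subgroup.mem_subgroupOf.mpr x.2, rfl⟩)
    · obtain ⟨x, hx, hxy⟩ := (hinv α hα).ge (x := (⟨y, hQP hy⟩ : ↥P)) (Subgroup.mem_subgroupOf.mpr hy)
      exact ⟨⟨(x : Ω), Subgroup.mem_subgroupOf.mp hx⟩, congrArg Subtype.val hxy⟩
  refine ⟨hQS, fun P φ hφ => ?_⟩
  obtain ⟨-, -, -, ψ, hψ, hψP, hψQ⟩ := hle P hφ
  exact ⟨ψ, hψ, hψP, hψQ⟩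

end Cfsg.Agent.S5087
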