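import Cfsg.Statements.S5088
import Cfsg.Agent.Lib.Fusion.Series

set_option autoImplicit false
open Cfsg
open scoped commutatorElement

namespace Cfsg.Agent.S5088

/-- In a saturated fusion system over a finite p-group, a subgroup Q is normal in the system if and only if there is a chain of subgroups 1 = Q₀ ≤ Q₁ ≤ ⋯ ≤ Qₙ = Q such that each Qᵢ with i ≥ 1 is strongly closed in the system and [Q, Qᵢ] ≤ Qᵢ₋₁. -/
theorem result {Ω : Type*} [Group Ω] {S : Subgroup Ω} [Finite S] (p : ℕ) [Fact p.Prime] (hS : IsPGroup p S) (F : Cfsg.FusionSystem S) (hF : F.IsSaturated p) (Q : Subgroup Ω) : F.IsNormal Q ↔ ∃ (n : ℕ) (Qs : Fin (n + 1) → Subgroup Ω), Qs 0 = ⊥ ∧ Qs (Fin.last n) = Q ∧ Monotone Qs ∧ ∀ i : Fin n, F.StronglyClosed (Qs i.succ) ∧ ⁅Q, Qs i.succ⁆ ≤ Qs (Fin.castSucc i) := by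
  haveI : Finite ↥S := ‹_›
  constructor
  · intro h
    haveI : Finite ↥Q := CfsgLib.Fusion.finite_of_le h.1
    haveI : Group.IsNilpotent ↥Q := (hS.to_le h.1).isNilpotent
    obtain ⟨n, hn⟩ := Subgroup.nilpotent_iff_lowerCentralSeries.mp (inferInstance : Group.IsNilpotent ↥Q)
    let C : ℕ → Subgroup Ω := fun i => (Subgroup.lowerCentralSeries (⊤ : Subgroup ↥Q) i).map Q.subtype
    refine ⟨n, fun i => C (n - i.1), ?_, ?_, ?_, fun i => ⟨?_, ?_⟩⟩
    · show Subgroup.map _ (Subgroup.lowerCentralSeries (⊤ : Subgroup ↥Q) (n - 0)) = ⊥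
      rw [Nat.sub_zero, hn, Subgroup.map_bot]
    · show Subgroup.map _ (Subgroup.lowerCentralSeries (⊤ : Subgroup ↥Q) (n - n)) = Q
      rw [Nat.sub_self, Subgroup.lowerCentralSeries_zero, ← MonoidHom.range_eq_map, Subgroup.range_subtype]
    · intro i j hij
      exact Subgroup.map_mono (Subgroup.lowerCentralSeries_antitone _
        (Nat.sub_le_sub_left (show (i : ℕ) ≤ (j : ℕ) from hij) n))
    · refine ⟨(Subgroup.map_subtype_le _).trans h.1, fun R hR φ hφ x => ?_⟩
      obtain ⟨β, -, hβ⟩ := CfsgLib.Fusion.isNormal_restrict h hφ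
      obtain ⟨z, hz, hzx⟩ := hR x.2
      refine ⟨β z, Subgroup.lowerCentralSeries.map β.toMonoidHom _ ⟨z, hz, rfl⟩, ?_⟩
      rw [← hβ x (hzx ▸ z.2)]
      exact congrArg (fun w => ((β w : Q) : Ω)) (Subtype.ext hzx)
    · show ⁅Q, C (n - (i.1 + 1))⁆ ≤ C (n - i.1)
      have he : n - i.1 = n - (i.1 + 1) + 1 := by have := i.2; omega
      rw [he, Subgroup.commutator_comm]
      refine Subgroup.commutator_le.mpr fun a ha b hb => ?_
      obtain ⟨z, hz, rfl⟩ := ha
      exact ⟨⁅z, (⟨b, hb⟩ : ↥Q)⁆, Subgroup.commutator_mem_commutator hz (Subgroup.mem_top _), rfl⟩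
  · rintro ⟨n, Qs, h0, hl, hmono, hi⟩
    subst hl
    cases n with
    | zero =>
      rw [show Qs (Fin.last 0) = ⊥ from h0]
      exact CfsgLib.Fusion.isNormal_bot F
    | succ n =>
      have hsc : ∀ j : Fin (n + 1 + 1), F.StronglyClosed (Qs j) := by
        intro j
        refine Fin.cases ?_ (fun i => (hi i).1) j
        rw [h0]
        refine ⟨bot_le, fun R hR φ hφ x => ?_⟩
        rw [show x = 1 from Subtype.ext (Subgroup.mem_bot.mp (hR x.2)), map_one]
        exact one_mem _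
      have hQ := hsc (Fin.last _)
      refine CfsgLib.Fusion.isNormal_of_le_radical p hS hF hQ fun P _ hc hr =>
        CfsgLib.Fusion.le_of_series p hS hQ.1 (CfsgLib.Fusion.StronglyClosed.normal hQ)
          (fun i => Qs ⟨n + 1 - i, by omega⟩) (n + 1) rfl ?_ ?_ hc hr fun α hα i x hx => ?_
      · rw [← h0]
        exact congrArg Qs (Fin.ext (Nat.sub_self _))
      · intro i r hr' x hx
        by_cases hle : i < n + 1
        · have h2 := (hi ⟨n + 1 - (i + 1), by omega⟩).2
          have h3 : (⟨n + 1 - (i + 1), by omega⟩ : Fin (n + 1)).succ = (⟨n + 1 - i, by omega⟩ : Fin (n + 1 + 1)) :=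
            Fin.ext (show n + 1 - (i + 1) + 1 = n + 1 - i by omega)
          rw [h3, Subgroup.commutator_comm] at h2
          have h4 := h2 (Subgroup.commutator_mem_commutator (inv_mem hx) hr')
          rw [commutatorElement_def, inv_inv] at h4
          have h5 : x⁻¹ * (r * x * r⁻¹) = x⁻¹ * r * x * r⁻¹ := by simp only [mul_assoc]
          rw [h5]
          exact h4
        · have hx' : x ∈ Qs 0 := by
            rwa [show (⟨n + 1 - i, by omega⟩ : Fin (n + 1 + 1)) = 0 from Fin.ext (show n + 1 - i = 0 by omega)] at hx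
          rw [h0, Subgroup.mem_bot] at hx'
          subst hx'
          simp
      · have hP := hc.1
        have h := (hsc ⟨n + 1 - i, by omega⟩).2 (P ⊓ Qs ⟨n + 1 - i, by omega⟩) inf_le_right _
          (CfsgLib.Fusion.restrict_mem ((CfsgLib.Fusion.autGroup_carrier F hP α).mp hα) inf_le_left)
          ⟨(x : Ω), x.2, hx⟩
        exact h

end Cfsg.Agent.S5088
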