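import Cfsg.Statements.S5089
import Cfsg.Agent.Lib.Fusion.Series

set_option autoImplicit false
open Cfsg
open scoped commutatorElement

namespace Cfsg.Agent.S5089

/-- A saturated fusion system over a finite p-group has a nontrivial subgroup that is normal in the system (O_p(F) ≠ 1) if and only if some nontrivial abelian subgroup is strongly closed in the system. -/
theorem result {Ω : Type*} [Group Ω] {S : Subgroup Ω} [Finite S] (p : ℕ) [Fact p.Prime] (hS : IsPGroup p S) (F : Cfsg.FusionSystem S) (hF : F.IsSaturated p) : F.core ≠ ⊥ ↔ ∃ Q : Subgroup Ω, Q ≠ ⊥ ∧ IsMulCommutative Q ∧ F.StronglyClosed Q := by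
  haveI : Finite ↥S := ‹_›
  constructor
  · intro h
    set Q := F.core
    have hQ := CfsgLib.Fusion.isNormal_core F
    haveI : Finite ↥Q := CfsgLib.Fusion.finite_of_le hQ.1
    haveI : Nontrivial ↥Q := (Subgroup.nontrivial_iff_ne_bot Q).mpr h
    have hZ : Nontrivial ↥(Subgroup.center ↥Q) := (hS.to_le hQ.1).center_nontrivial
    refine ⟨(Subgroup.center ↥Q).map Q.subtype, ?_, ⟨⟨?_⟩⟩, (Subgroup.map_subtype_le _).trans hQ.1, ?_⟩
    · rw [ne_eq, Subgroup.map_eq_bot_iff_of_injective _ Q.subtype_injective]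
      exact (Subgroup.nontrivial_iff_ne_bot _).mp hZ
    · rintro ⟨_, a, ha, rfl⟩ ⟨_, b, hb, rfl⟩
      exact Subtype.ext (congrArg Subtype.val (Subgroup.mem_center_iff.mp hb a) :)
    · intro R hR φ hφ x
      obtain ⟨β, -, hβ⟩ := CfsgLib.Fusion.isNormal_restrict hQ hφ
      obtain ⟨z, hz, hzx⟩ := hR x.2
      refine ⟨β z, Subgroup.mem_center_iff.mpr fun w => ?_, ?_⟩
      · obtain ⟨w, rfl⟩ := β.surjective w
        rw [← map_mul, ← map_mul, Subgroup.mem_center_iff.mp hz w]
      · rw [← hβ x (hzx ▸ z.2)]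
        exact congrArg (fun w => ((β w : Q) : Ω)) (Subtype.ext hzx)
  · rintro ⟨Q, hne, hab, hsc⟩ hcore
    refine hne (le_bot_iff.mp (hcore ▸ CfsgLib.Fusion.le_core ?_))
    refine CfsgLib.Fusion.isNormal_of_le_radical p hS hF hsc fun P _ hc hr =>
      CfsgLib.Fusion.le_of_series p hS hsc.1 (CfsgLib.Fusion.StronglyClosed.normal hsc)
        (fun i => if i = 0 then Q else ⊥) 1 rfl rfl ?_ hc hr fun α hα i x hx => ?_
    · intro i r hr' x hx
      show x⁻¹ * (r * x * r⁻¹) ∈ (⊥ : Subgroup Ω)
      cases i with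
      | zero =>
        rw [show r * x = x * r from congrArg Subtype.val (hab.is_comm.comm (⟨r, hr'⟩ : ↥Q) ⟨x, hx⟩), mul_inv_cancel_right,
          inv_mul_cancel]
        exact one_mem _
      | succ i =>
        rw [show x = 1 from Subgroup.mem_bot.mp hx]
        simp
    · cases i with
      | zero =>
        exact hsc.2 (P ⊓ Q) inf_le_right _
          (CfsgLib.Fusion.restrict_mem ((CfsgLib.Fusion.autGroup_carrier F hc.1 α).mp hα) inf_le_left)
          ⟨(x : Ω), x.2, hx⟩
      | succ i =>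
        have h1 : x = 1 := Subtype.ext (Subgroup.mem_bot.mp hx)
        show ((α x : P) : Ω) ∈ (⊥ : Subgroup Ω)
        rw [h1, map_one]
        exact one_mem _

end Cfsg.Agent.S5089
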