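import Cfsg.Statements.S5095
import Cfsg.Agent.Lib.Fusion.CentricExt

set_option autoImplicit false
open Cfsg

namespace Cfsg.Agent.S5095

open CfsgLib.Fusion in
theorem key {Ω : Type*} [Group Ω] {S : Subgroup Ω} [Finite S] {p : ℕ} [Fact p.Prime] (hS : IsPGroup p S)
    {F : Cfsg.FusionSystem S} (hF : F.IsSaturated p) : ∀ (n : ℕ) (P Q : Subgroup Ω), Nat.card ↥P - Nat.card ↥Q = n →
      F.IsCentric Q → ∀ (hQP : Q ≤ P) (φ φ' : P →* Ω), φ ∈ F.Hom P → φ' ∈ F.Hom P →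
        (∀ x : P, (x : Ω) ∈ Q → φ x = φ' x) → ∃ z : P, (z : Ω) ∈ Q ∧ ∀ y : P, φ' y = φ (z * y * z⁻¹) := by
  intro n
  induction n using Nat.strong_induction_on with
  | _ n ih =>
  intro P Q hn hQ hQP φ φ' hφ hφ' h
  haveI := finite_of_le (le_S hφ)
  rcases eq_or_lt_of_le hQP with rfl | hlt
  · exact ⟨1, one_mem _, fun y => by rw [one_mul, inv_one, mul_one, h y y.2]⟩
  set Q₁ := P ⊓ Subgroup.normalizer (Q : Set Ω) with hQ₁def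
  have hQQ₁ : Q < Q₁ := lt_normalizerIn p (hS.to_le (le_S hφ)) hlt
  have hQ₁P : Q₁ ≤ P := inf_le_left
  have hQ₁S : Q₁ ≤ S := hQ₁P.trans (le_S hφ)
  set φ₁ := φ.comp (Subgroup.inclusion hQ₁P)
  set χ₁ := φ'.comp (Subgroup.inclusion hQ₁P)
  have hφ₁ : φ₁ ∈ F.Hom Q₁ := restrict_mem hφ hQ₁P
  have hχ₁ : χ₁ ∈ F.Hom Q₁ := restrict_mem hφ' hQ₁P
  set φQ := φ.comp (Subgroup.inclusion hQP)
  have hφQ : φQ ∈ F.Hom Q := restrict_mem hφ hQP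
  have hagree : ∀ q : ↥Q, χ₁ ⟨q, hQQ₁.le q.2⟩ = φ₁ ⟨q, hQQ₁.le q.2⟩ := fun q => (h ⟨q, hQP q.2⟩ q.2).symm
  have hdiff : ∀ x : ↥Q₁, (φ₁ x)⁻¹ * χ₁ x ∈ φQ.range := fun x => by
    refine hQ.2 _ ⟨φQ, hφQ, rfl⟩ ⟨S.mul_mem (S.inv_mem (apply_mem_S hφ₁ x)) (apply_mem_S hχ₁ x), ?_⟩
    refine Subgroup.mem_centralizer_iff.mpr ?_
    rintro _ ⟨q, rfl⟩
    have hq' : (x : Ω) * q * (x : Ω)⁻¹ ∈ Q := conj_mem_of_normalizer x.2.2 q.2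
    have h1 : χ₁ (x * ⟨q, hQQ₁.le q.2⟩ * x⁻¹) = φ₁ (x * ⟨q, hQQ₁.le q.2⟩ * x⁻¹) := hagree ⟨_, hq'⟩
    rw [map_mul, map_mul, map_inv, map_mul, map_mul, map_inv, hagree] at h1
    show φ₁ ⟨q, hQQ₁.le q.2⟩ * _ = _ * φ₁ ⟨q, hQQ₁.le q.2⟩
    calc φ₁ ⟨q, hQQ₁.le q.2⟩ * ((φ₁ x)⁻¹ * χ₁ x)
        = (φ₁ x)⁻¹ * (φ₁ x * φ₁ ⟨q, hQQ₁.le q.2⟩ * (φ₁ x)⁻¹) * χ₁ x := by group
      _ = (φ₁ x)⁻¹ * χ₁ x * φ₁ ⟨q, hQQ₁.le q.2⟩ := by rw [← h1]; group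
  haveI := finite_of_le hQ₁S
  haveI : Finite ↥φ₁.range := finite_of_le (range_le_S hφ₁)
  have hr : χ₁.range = φ₁.range := by
    refine Subgroup.eq_of_le_of_card_ge ?_ (le_of_eq ((card_range hφ₁).trans (card_range hχ₁).symm))
    rintro _ ⟨x, rfl⟩
    obtain ⟨q, hq⟩ := hdiff x
    refine ⟨x * ⟨q, hQQ₁.le q.2⟩, ?_⟩
    rw [map_mul, show φ₁ ⟨q, hQQ₁.le q.2⟩ = φQ q from rfl, hq, mul_inv_cancel_left]
  set a := isoOfMem hφ₁ (rfl : φ₁.range = φ₁.range)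
  set b := isoOfMem hχ₁ hr
  have ha : φ₁.range.subtype.comp a.toMonoidHom ∈ F.Hom Q₁ := by rw [isoOfMem_hom hφ₁ rfl]; exact hφ₁
  have hb : φ₁.range.subtype.comp b.toMonoidHom ∈ F.Hom Q₁ := by rw [isoOfMem_hom hχ₁ hr]; exact hχ₁
  set δ : MulAut ↥Q₁ := b.trans a.symm
  have hδ : δ ∈ F.autGroup Q₁ := (autGroup_carrier F hQ₁S δ).mpr (trans_mem b a.symm hb (symm_mem a ha))
  obtain ⟨z, hz, hze⟩ := eq_conj_of_fix_centric hS hF hQ hQQ₁.le hQ₁S inf_le_right hδ fun x hx => by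
    show a.symm (b x) = x
    rw [MulEquiv.symm_apply_eq]
    refine Subtype.ext ?_
    rw [isoOfMem_coe, isoOfMem_coe]
    exact hagree ⟨x, hx⟩
  have hχφ : ∀ x : ↥Q₁, χ₁ x = φ₁ (δ x) := fun x =>
    ((isoOfMem_coe hχ₁ hr x).symm.trans (congrArg Subtype.val (a.apply_symm_apply (b x)).symm)).trans
      (isoOfMem_coe hφ₁ rfl _)
  have hzP : z ∈ P := hQP hz
  set ψ : P →* Ω := φ.comp (MulAut.conj (⟨z, hzP⟩ : P)).toMonoidHom with hψdef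
  have hψ : ψ ∈ F.Hom P := comp_mem_of_eq (φ := Cfsg.conjHom P z) (F.conj_mem (le_S hφ) (hQ.1 hz)) hφ
    (fun x => P.mul_mem (P.mul_mem hzP x.2) (P.inv_mem hzP)) fun x => rfl
  have h1 : Nat.card ↥Q < Nat.card ↥Q₁ := Set.Finite.card_lt_card (Set.toFinite _) hQQ₁
  have h2 : Nat.card ↥Q₁ ≤ Nat.card ↥P := Subgroup.card_le_of_le hQ₁P
  obtain ⟨w, hw, hwe⟩ := ih _ (by omega) P Q₁ rfl (centric_mono hQ hQQ₁.le hQ₁S) hQ₁P ψ φ' hψ hφ' fun x hx => by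
    show φ (⟨z, hzP⟩ * x * ⟨z, hzP⟩⁻¹) = φ' x
    refine Eq.symm ((hχφ ⟨x, hx⟩).trans ?_)
    exact congrArg φ (Subtype.ext (hze ⟨x, hx⟩))
  have hwQ : (w : Ω) ∈ Q := by
    refine hQ.2 Q (CfsgLib.Fusion.IsConj.refl F hQ.1) ⟨le_S hφ w.2, Subgroup.mem_centralizer_iff.mpr fun q hq => ?_⟩
    have h3 := hwe ⟨q, hQP hq⟩
    have h4 : φ' ⟨q, hQP hq⟩ = ψ ⟨q, hQP hq⟩ := by
      refine (hχφ ⟨q, hQQ₁.le hq⟩).trans ?_
      exact congrArg φ (Subtype.ext (hze ⟨q, hQQ₁.le hq⟩))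
    rw [h4] at h3
    have h5 := congrArg Subtype.val ((MulAut.conj (⟨z, hzP⟩ : P)).injective (F.injective_of_mem hφ h3))
    exact eq_mul_inv_iff_mul_eq.mp h5
  refine ⟨⟨z, hzP⟩ * w, Q.mul_mem hz hwQ, fun y => ?_⟩
  rw [hwe]
  show φ (⟨z, hzP⟩ * (w * y * w⁻¹) * ⟨z, hzP⟩⁻¹) = _
  congr 1
  group

/-- In a saturated fusion system over a finite p-group S: if Q ≤ P ≤ S with Q centric, and two maps of the system with source P agree on Q, then they differ by an inner automorphism of P induced by an element of the centre of Q. -/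
theorem result {Ω : Type*} [Group Ω] {S : Subgroup Ω} [Finite S] (p : ℕ) [Fact p.Prime] (hS : IsPGroup p S) (F : Cfsg.FusionSystem S) (hF : F.IsSaturated p) (P Q : Subgroup Ω) (hQP : Q ≤ P) (hQ : F.IsCentric Q) (φ φ' : P →* Ω) (hφ : φ ∈ F.Hom P) (hφ' : φ' ∈ F.Hom P) (h : ∀ x : P, (x : Ω) ∈ Q → φ x = φ' x) : ∃ z : P, (z : Ω) ∈ Q ∧ (z : Ω) ∈ Subgroup.centralizer (Q : Set Ω) ∧ ∀ y : P, φ' y = φ (z * y * z⁻¹) := by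
  obtain ⟨z, hz, he⟩ := key hS hF _ P Q rfl hQ hQP φ φ' hφ hφ' h
  refine ⟨z, hz, Subgroup.mem_centralizer_iff.mpr fun q hq => ?_, he⟩
  have h1 := he ⟨q, hQP hq⟩
  rw [← h ⟨q, hQP hq⟩ hq] at h1
  have h2 := congrArg Subtype.val (F.injective_of_mem hφ h1)
  exact eq_mul_inv_iff_mul_eq.mp h2

end Cfsg.Agent.S5095
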