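import Cfsg.Statements.S5102
import Cfsg.Agent.Lib.Fusion.Extend

set_option autoImplicit false
open Cfsg

namespace Cfsg.Agent.S5102

/-- A normal p-subgroup of a finite group G is normal in the fusion system of G on a Sylow p-subgroup. -/
theorem result {G : Type*} [Group G] [Finite G] (p : ℕ) [Fact p.Prime] (S : Sylow p G) (R : Subgroup G) [R.Normal] (hR : IsPGroup p R) : (Cfsg.groupFusionSystem (S : Subgroup G)).IsNormal R := by
  have hRS : R ≤ (S : Subgroup G) := hR.le_sylow_of_normal S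
  refine ⟨hRS, fun P φ hφ => ?_⟩
  obtain ⟨hP, hv, g, hg⟩ := hφ
  have hmem : ∀ z : ↥(P ⊔ R), Cfsg.conjHom (P ⊔ R) g z ∈ (S : Subgroup G) :=
    CfsgLib.Fusion.apply_mem_of_sup _ (fun x => by have := hv x; rwa [hg] at this)
      (fun x => hRS ((inferInstance : R.Normal).conj_mem x x.2 g))
  refine ⟨Cfsg.conjHom (P ⊔ R) g, ⟨sup_le hP hRS, hmem, g, fun _ => rfl⟩, fun x => (hg x).symm, ?_⟩
  rw [CfsgLib.Fusion.map_eq_iff le_sup_right]
  refine ⟨fun x => (inferInstance : R.Normal).conj_mem x x.2 g, fun y hy => ?_⟩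
  refine ⟨⟨g⁻¹ * y * g, by simpa using (inferInstance : R.Normal).conj_mem y hy g⁻¹⟩, ?_⟩
  simp [Cfsg.conjHom, mul_assoc]

end Cfsg.Agent.S5102
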