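import Cfsg.Statements.S5106
import Cfsg.Agent.Lib.Fusion.Series

set_option autoImplicit false
open Cfsg

namespace Cfsg.Agent.S5106

/-- In a saturated fusion system over a finite p-group S, a subgroup R ≤ S is normal in the system if and only if every map of the system whose source is a subgroup of R is the restriction of an element of Aut_F(R). -/
theorem result {Ω : Type*} [Group Ω] {S : Subgroup Ω} [Finite S] (p : ℕ) [Fact p.Prime] (hS : IsPGroup p S) (F : Cfsg.FusionSystem S) (hF : F.IsSaturated p) (R : Subgroup Ω) (hRS : R ≤ S) : F.IsNormal R ↔ ∀ (P : Subgroup Ω) (hPR : P ≤ R) (φ : P →* Ω), φ ∈ F.Hom P → ∃ α ∈ F.autGroup R, ∀ x : P, ((α (Subgroup.inclusion hPR x) : R) : Ω) = φ x := by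
  haveI : Finite ↥S := ‹_›
  refine ⟨fun h P hPR φ hφ => ?_, fun h => CfsgLib.Fusion.isNormal_of_extend p hS hF hRS h⟩
  obtain ⟨β, hβ, hβe⟩ := CfsgLib.Fusion.isNormal_restrict h hφ
  exact ⟨β, hβ, fun x => hβe x (hPR x.2)⟩

end Cfsg.Agent.S5106
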