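import Cfsg.Statements.S5112
import Cfsg.Agent.Lib.Fusion.SmallElements
import Cfsg.Agent.Lib.LocalBasic
import Mathlib.GroupTheory.SpecificGroups.Quaternion

set_option autoImplicit false
open Cfsg

namespace Cfsg.Agent.S5112

open CfsgLib
/-- If S is a dihedral or generalized quaternion 2-group of order at least 16, then in every saturated fusion system over S (at the prime 2) the automorphism group Aut_F(S) consists of the inner automorphisms of S. -/
theorem result {Ω : Type*} [Group Ω] {S : Subgroup Ω} [Finite S] (n : ℕ) (hn : 4 ≤ n) (hshape : Nonempty (S ≃* DihedralGroup (2 ^ (n - 1))) ∨ Nonempty (S ≃* QuaternionGroup (2 ^ (n - 2)))) (F : Cfsg.FusionSystem S) (hF : F.IsSaturated 2) : F.autGroup S = Cfsg.Inn S := by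
  haveI : Fact (Nat.Prime 2) := ⟨Nat.prime_two⟩
  have key : ∀ (G : Type) [Group G] [Finite G], IsPGroup 2 G → ∀ r : G, 8 ≤ orderOf r →
      (∀ x : G, x ∈ Subgroup.zpowers r ∨ orderOf x ≤ 4) →
      (∀ x y : G, x ∉ Subgroup.zpowers r → y ∉ Subgroup.zpowers r → x⁻¹ * y ∈ Subgroup.zpowers r) →
      ∀ α : MulAut G, (orderOf α).Coprime 2 → α = 1 := by
    intro G _ _ hG r hr hx hxy α hco
    have hrfix : α r = r := by
      refine CfsgLib.RigidAut.fix_of_zpowers hG α (by simpa using hco) ?_
      refine (hx (α r)).resolve_right fun h => ?_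
      rw [orderOf_injective α.toMonoidHom α.injective r |> (fun h' => (h' : orderOf (α r) = orderOf r))] at h
      omega
    have hfix : ∀ x ∈ Subgroup.zpowers r, α x = x := fun x hx' => by
      obtain ⟨i, rfl⟩ := Subgroup.mem_zpowers_iff.mp hx'
      rw [map_zpow, hrfix]
    refine MulEquiv.ext fun x => ?_
    by_cases hxr : x ∈ Subgroup.zpowers r
    · exact hfix x hxr
    refine Fusion.eq_self_of_step hG hco (hfix _ (hxy x (α x) hxr fun h => hxr ?_))
    have h2 := hfix _ h
    rwa [α.injective h2] at h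
  have hm : 8 ≤ 2 ^ (n - 1) := le_trans (le_of_eq (by norm_num)) (Nat.pow_le_pow_right two_pos (by omega : 3 ≤ n - 1))
  have hmain : ∀ α : MulAut ↥S, (orderOf α).Coprime 2 → α = 1 := by
    intro α hco
    obtain ⟨⟨e⟩⟩ | ⟨⟨e⟩⟩ := hshape
    · haveI : NeZero (2 ^ (n - 1)) := ⟨by positivity⟩
      have hp : IsPGroup 2 (DihedralGroup (2 ^ (n - 1))) := IsPGroup.of_card (n := n - 1 + 1) (by
        rw [DihedralGroup.nat_card, pow_succ'])
      have h : MulAut.congr e α = 1 := key _ hp (DihedralGroup.r 1) (by rw [DihedralGroup.orderOf_r_one]; exact hm) (fun x => by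
        cases x with
        | r i => exact Or.inl (Subgroup.mem_zpowers_iff.mpr ⟨(i.val : ℤ), by rw [zpow_natCast, DihedralGroup.r_one_pow, ZMod.natCast_zmod_val]⟩)
        | sr i => exact Or.inr (by rw [DihedralGroup.orderOf_sr]; norm_num)) (fun x y hx hy => by
        cases x with
        | r i => exact absurd (Subgroup.mem_zpowers_iff.mpr ⟨(i.val : ℤ), by rw [zpow_natCast, DihedralGroup.r_one_pow, ZMod.natCast_zmod_val]⟩) hx
        | sr i => cases y with
          | r j => exact absurd (Subgroup.mem_zpowers_iff.mpr ⟨(j.val : ℤ), by rw [zpow_natCast, DihedralGroup.r_one_pow, ZMod.natCast_zmod_val]⟩) hy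
          | sr j => exact Subgroup.mem_zpowers_iff.mpr ⟨((j - i : ZMod (2 ^ (n - 1))).val : ℤ), by
              rw [zpow_natCast, DihedralGroup.r_one_pow, ZMod.natCast_zmod_val]; rfl⟩) _ (by rwa [MulEquiv.orderOf_eq])
      exact (MulAut.congr e).injective (h.trans (map_one _).symm)
    · haveI : NeZero (2 ^ (n - 2)) := ⟨by positivity⟩
      have h2m : 2 * 2 ^ (n - 2) = 2 ^ (n - 1) := by rw [← pow_succ']; congr 1; omega
      have hp : IsPGroup 2 (QuaternionGroup (2 ^ (n - 2))) := IsPGroup.of_card (n := n - 2 + 2) (by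
        rw [Nat.card_eq_fintype_card, QuaternionGroup.card, pow_succ, pow_succ]; ring)
      have h : MulAut.congr e α = 1 := key _ hp (QuaternionGroup.a 1) (by rw [QuaternionGroup.orderOf_a_one, h2m]; exact hm) (fun x => by
        cases x with
        | a i => exact Or.inl (Subgroup.mem_zpowers_iff.mpr ⟨(i.val : ℤ), by rw [zpow_natCast, QuaternionGroup.a_one_pow, ZMod.natCast_zmod_val]⟩)
        | xa i => exact Or.inr (by rw [QuaternionGroup.orderOf_xa])) (fun x y hx hy => by
        cases x with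
        | a i => exact absurd (Subgroup.mem_zpowers_iff.mpr ⟨(i.val : ℤ), by rw [zpow_natCast, QuaternionGroup.a_one_pow, ZMod.natCast_zmod_val]⟩) hx
        | xa i => cases y with
          | a j => exact absurd (Subgroup.mem_zpowers_iff.mpr ⟨(j.val : ℤ), by rw [zpow_natCast, QuaternionGroup.a_one_pow, ZMod.natCast_zmod_val]⟩) hy
          | xa j =>
            rw [show (QuaternionGroup.xa i)⁻¹ * QuaternionGroup.xa j = QuaternionGroup.a (j - i : ZMod (2 * 2 ^ (n - 2))) by
              rw [inv_mul_eq_iff_eq_mul, QuaternionGroup.xa_mul_a]; congr 1; ring]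
            exact Subgroup.mem_zpowers_iff.mpr ⟨((j - i : ZMod (2 * 2 ^ (n - 2))).val : ℤ), by
              rw [zpow_natCast, QuaternionGroup.a_one_pow, ZMod.natCast_zmod_val]⟩) _ (by rwa [MulEquiv.orderOf_eq])
      exact (MulAut.congr e).injective (h.trans (map_one _).symm)
  have hS : IsPGroup 2 ↥S := by
    obtain ⟨⟨e⟩⟩ | ⟨⟨e⟩⟩ := hshape
    · exact IsPGroup.of_card (n := n - 1 + 1) (by rw [Nat.card_congr e.toEquiv, DihedralGroup.nat_card, pow_succ'])
    · haveI : NeZero (2 ^ (n - 2)) := ⟨by positivity⟩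
      exact IsPGroup.of_card (n := n - 2 + 2) (by
        rw [Nat.card_congr e.toEquiv, Nat.card_eq_fintype_card, QuaternionGroup.card, pow_succ, pow_succ]; ring)
  haveI := Fusion.finite_aut_of_le (S := S) (le_refl S)
  have hA : IsPGroup 2 ↥(F.autGroup S) := (CfsgLib.LocalBasic.isPGroup_of_coprime_elements hmain).to_subgroup _
  refine le_antisymm (fun α hα => ?_) (Fusion.inn_le_autGroup F le_rfl)
  obtain ⟨-, TS, hTS⟩ := Fusion.fullyNormalized_automized 2 hS hF (Fusion.fullyNormalized_S F)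
  have htop : (TS : Subgroup ↥(F.autGroup S)) = ⊤ := (TS.3 (hA.to_subgroup ⊤) le_top).symm
  have h1 : α ∈ Cfsg.autInducedBy S S := (hTS ▸ htop ▸ Subgroup.mem_top (⟨α, hα⟩ : ↥(F.autGroup S)) :
    (⟨α, hα⟩ : ↥(F.autGroup S)) ∈ (Cfsg.autInducedBy S S).subgroupOf (F.autGroup S))
  obtain ⟨g, hg, hge⟩ := (Fusion.mem_autInducedBy _).mp h1
  exact ⟨⟨g, hg⟩, MulEquiv.ext fun x => Subtype.ext (hge x).symm⟩

end Cfsg.Agent.S5112
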