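import Cfsg.Statements.S5114
import Cfsg.Agent.Lib.Fusion.PrimeIndex

set_option autoImplicit false
open Cfsg

namespace Cfsg.Agent.S5114

open CfsgLib.Fusion
/-- Let F be a saturated fusion system over a finite p-group S and E a fusion system over S contained in F. If Aut_E(P) contains the subgroup of Aut_F(P) generated by its elements of p-power order for every subgroup P that is centric in F, then the same holds for every subgroup of S (E has index prime to p in F), every map of F with source a subgroup P of S is an element of Aut_F(S) composed with a map of E, and a subgroup is centric in E exactly when it is centric in F. -/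
theorem result {Ω : Type*} [Group Ω] {S : Subgroup Ω} [Finite S] (p : ℕ) [Fact p.Prime] (hS : IsPGroup p S) (F : Cfsg.FusionSystem S) (hF : F.IsSaturated p) (E : Cfsg.FusionSystem S) (hEF : E.IsSubsystemOf F) (h : ∀ P : Subgroup Ω, F.IsCentric P → (Subgroup.closure {α : ↥(F.autGroup P) | ∃ k : ℕ, orderOf α = p ^ k}).map (F.autGroup P).subtype ≤ E.autGroup P) : E.HasPrimeToPIndexIn F p ∧ (∀ (P : Subgroup Ω) (φ : P →* Ω), φ ∈ F.Hom P → ∃ α ∈ F.autGroup S, ∃ φ₀ ∈ E.Hom P, ∀ (x : P) (hx : φ₀ x ∈ S), φ x = ((α ⟨φ₀ x, hx⟩ : S) : Ω)) ∧ ∀ P : Subgroup Ω, E.IsCentric P ↔ F.IsCentric P := by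
  refine ⟨⟨hEF, fun P hP => ?_⟩, fun P φ hφ => ?_, fun P => ?_⟩
  · refine Subgroup.map_le_iff_le_comap.mpr ((Subgroup.closure_le _).mpr ?_)
    rintro a ⟨k, hk⟩
    have hk' : orderOf (a : MulAut ↥P) = p ^ k := (Subgroup.orderOf_coe a).trans hk
    have h1 := (autGroup_carrier _ hP _).mp (pElement_all hS hF h hP a.2 hk')
    exact (autGroup_carrier E hP _).mpr (twistCore_le E P h1)
  · obtain ⟨α, hα, φ₀, hφ₀, he⟩ := exists_decomp hS hF h hφ
    exact ⟨α, hα, φ₀, twistCore_le E P hφ₀, he⟩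
  · refine ⟨fun hP => ⟨hP.1, fun Q hQ => ?_⟩, fun hP => ⟨hP.1, fun Q hQ => hP.2 Q ?_⟩⟩
    · obtain ⟨φ, hφ, rfl⟩ := hQ
      obtain ⟨α, hα, φ₀, hφ₀, he⟩ := exists_decomp hS hF h hφ
      have hE := hP.2 _ ⟨φ₀, twistCore_le E P hφ₀, rfl⟩
      have hr : φ.range = img α φ₀.range := by
        ext y
        constructor
        · rintro ⟨x, rfl⟩
          exact (mem_img α).mpr ⟨⟨φ₀ x, apply_mem_S hφ₀ x⟩, ⟨x, rfl⟩, (he x _).symm⟩
        · intro hy
          obtain ⟨⟨w, hwS⟩, ⟨x, hx⟩, rfl⟩ := (mem_img α).mp hy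
          exact ⟨x, (he x (apply_mem_S hφ₀ x)).trans (congrArg (fun v : ↥S => ((α v : ↥S) : Ω)) (Subtype.ext hx))⟩
      rw [hr, ← img_centralizerIn α (range_le_S hφ₀)]
      exact img_mono α hE
    · obtain ⟨φ, hφ, hr⟩ := hQ
      exact ⟨φ, hEF P hφ, hr⟩

end Cfsg.Agent.S5114
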