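import Cfsg.Statements.S5115
import Cfsg.Agent.Lib.Fusion.ConstrainedNormal
import Cfsg.Agent.Lib.Fusion.GroupNormal

set_option autoImplicit false
open Cfsg

namespace Cfsg.Agent.S5115

open CfsgLib.Fusion
/-- If the 2-fusion system of a finite group G on a Sylow 2-subgroup S is constrained, then for every subnormal subgroup H of G the 2-fusion system of H on S ∩ H is constrained. -/
theorem result {G : Type*} [Group G] [Finite G] (S : Sylow 2 G) (hF : (Cfsg.groupFusionSystem (S : Subgroup G)).IsConstrained 2) (H : Subgroup G) (hH : H.IsSubnormal) : (Cfsg.groupFusionSystem ((S : Subgroup G).subgroupOf H)).IsConstrained 2 := by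
  suffices key : ∀ K : Subgroup G, K.IsSubnormal →
      ∃ T : Sylow 2 ↥K, (T : Subgroup ↥K) = (S : Subgroup G).subgroupOf K ∧
        (Cfsg.groupFusionSystem (T : Subgroup ↥K)).IsConstrained 2 by
    obtain ⟨T, hT, hc⟩ := key H hH
    rw [hT] at hc
    exact hc
  intro K hK
  induction hK with
  | top =>
    refine ⟨S.subtype le_top, rfl, ?_⟩
    let ι : ↥(S : Subgroup G) →* ↥(⊤ : Subgroup G) := Subgroup.inclusion le_top
    have hR : (Cfsg.groupFusionSystem (S : Subgroup G)).IsRealizedBy ι := by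
      refine ⟨Subgroup.inclusion_injective _, fun P hP φ hφ => ⟨?_, ?_⟩⟩
      · rintro ⟨-, -, g, hg⟩
        exact ⟨⟨g, Subgroup.mem_top g⟩, fun x => Subtype.ext (hg x)⟩
      · rintro ⟨g, hg⟩
        exact ⟨hP, hφ, (g : G), fun x => congrArg Subtype.val (hg x)⟩
    have hr : ((S.subtype le_top : Sylow 2 ↥(⊤ : Subgroup G)) : Subgroup ↥(⊤ : Subgroup G)) = ι.range := by
      rw [Sylow.coe_subtype]
      exact (Subgroup.inclusion_range le_top).symm
    exact (realizedIso hR hr).constrained 2 hF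
  | step A B hle _ hN ih =>
    obtain ⟨T, hT, hc⟩ := ih
    haveI := hN
    have hidx : ¬ 2 ∣ ((T : Subgroup ↥B) ⊓ A.subgroupOf B).relIndex (A.subgroupOf B) :=
      sylow_inf_normal (H := ⊤) (by rw [Subgroup.relIndex_top_right]; exact T.not_dvd_index) le_top le_top
        (by rw [Subgroup.normalizer_eq_top_iff.mpr inferInstance])
    have hc' := constrained_of_isNormalIn T.2 hc (fusionSystemOfSubgroup_isNormalIn T (A.subgroupOf B))
    let ι : ↥((T : Subgroup ↥B) ⊓ A.subgroupOf B) →* ↥A :=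
      (Subgroup.subgroupOfEquivOfLe hle).toMonoidHom.comp (Subgroup.inclusion inf_le_right)
    have hι : Function.Injective ι :=
      (Subgroup.subgroupOfEquivOfLe hle).injective.comp (Subgroup.inclusion_injective _)
    have hR : (Cfsg.fusionSystemOfSubgroup (A.subgroupOf B) ((T : Subgroup ↥B) ⊓ A.subgroupOf B) inf_le_right).IsRealizedBy ι := by
      refine ⟨hι, fun P hP φ hφ => ⟨?_, ?_⟩⟩
      · rintro ⟨-, -, g, hgA, hg⟩
        exact ⟨⟨(g : G), hgA⟩, fun x => Subtype.ext (congrArg (fun v : ↥B => (v : G)) (hg x))⟩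
      · rintro ⟨g, hg⟩
        refine ⟨hP, hφ, ⟨(g : G), hle g.2⟩, g.2, fun x => Subtype.ext ?_⟩
        exact congrArg (fun v : ↥A => (v : G)) (hg x)
    have hr : (S : Subgroup G).subgroupOf A = ι.range := by
      ext x
      refine ⟨fun hx => ⟨⟨⟨(x : G), hle x.2⟩, ?_, x.2⟩, Subtype.ext rfl⟩, ?_⟩
      · show (⟨(x : G), hle x.2⟩ : ↥B) ∈ (T : Subgroup ↥B)
        rw [hT]; exact hx
      · rintro ⟨w, rfl⟩
        exact Subgroup.mem_subgroupOf.mp (hT.le w.2.1)
    obtain ⟨T', hT'⟩ := (exists_sylow_iff inf_le_right).mpr ⟨T.2.to_le inf_le_left, hidx⟩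
    have he : (T'.mapSurjective (f := (Subgroup.subgroupOfEquivOfLe hle).toMonoidHom)
        (Subgroup.subgroupOfEquivOfLe hle).surjective : Subgroup ↥A) = ι.range := by
      refine (Sylow.coe_mapSurjective _ T').trans ?_
      rw [hT']
      ext x
      refine ⟨?_, ?_⟩
      · rintro ⟨w, hw, rfl⟩
        exact ⟨⟨(w : ↥B), hw⟩, rfl⟩
      · rintro ⟨w, rfl⟩
        exact ⟨⟨(w : ↥B), w.2.2⟩, w.2, rfl⟩
    exact ⟨_, he.trans hr.symm, (realizedIso hR he).constrained 2 hc'⟩

end Cfsg.Agent.S5115
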