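import Cfsg.Statements.S5121
import Cfsg.Agent.Lib.Fusion.ConstrainedNormal
import Cfsg.Agent.Lib.Fusion.PPowerIndex
import Cfsg.Agent.Lib.PReduced
import Cfsg.Agent.Lib.LocalBasic

set_option autoImplicit false
open Cfsg

namespace Cfsg.Agent.S5121

set_option linter.style.haveILetI false
set_option maxHeartbeats 1600000
open CfsgLib
open scoped commutatorElement

/-- Let G be a finite group with Sylow p-subgroup S and C_G(O_p(G)) ≤ O_p(G). For every subgroup T ≤ S and every normal subsystem E over T of the fusion system of G on S there is exactly one normal subgroup H of G containing T as a Sylow p-subgroup whose fusion system on T is E. -/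
theorem result {G : Type*} [Group G] [Finite G] (p : ℕ) [Fact p.Prime] (S : Sylow p G) (hG : Subgroup.centralizer ((Cfsg.pCore p G : Subgroup G) : Set G) ≤ Cfsg.pCore p G) (T : Subgroup G) (hTS : T ≤ S) (E : Cfsg.FusionSystem T) (hE : E.IsNormalIn (Cfsg.groupFusionSystem (S : Subgroup G)) p) : ∃ H : Subgroup G, (∃ hTH : T ≤ H, H.Normal ∧ (∃ R : Sylow p H, (R : Subgroup H) = T.subgroupOf H) ∧ ∀ P : Subgroup G, E.Hom P = (Cfsg.fusionSystemOfSubgroup H T hTH).Hom P) ∧ ∀ H' : Subgroup G, (∃ hTH' : T ≤ H', H'.Normal ∧ (∃ R : Sylow p H', (R : Subgroup H') = T.subgroupOf H') ∧ ∀ P : Subgroup G, E.Hom P = (Cfsg.fusionSystemOfSubgroup H' T hTH').Hom P) → H' = H := by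
  classical
  set Q := Cfsg.pCore p G with hQdef
  set F := Cfsg.groupFusionSystem (S : Subgroup G) with hFdef
  obtain ⟨⟨hEs, -, hsub, hT, hinv, hfrat⟩, -⟩ := id hE
  have hTS' : T ≤ (S : Subgroup G) := hTS
  have hTp : IsPGroup p ↥T := S.2.to_le hTS'
  have hTn : (S : Subgroup G) ≤ Subgroup.normalizer (T : Set G) := Fusion.StronglyClosed.normal hT
  have hQS : Q ≤ (S : Subgroup G) := CfsgLib.Core.pCore_le_sylow S
  haveI hQn : Q.Normal := by
    have := CfsgLib.Core.pCore_characteristic (G := G) p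
    infer_instance
  have hQF : F.IsNormal Q := by
    refine ⟨hQS, fun P φ hφ => ?_⟩
    obtain ⟨hP, hval, g, hg⟩ := hφ
    refine ⟨(MulAut.conj g).toMonoidHom.comp (P ⊔ Q).subtype, ⟨sup_le hP hQS, fun x => ?_, g, fun x => rfl⟩, fun x => (hg x).symm, ?_⟩
    · have hle : P ⊔ Q ≤ (S : Subgroup G).comap (MulAut.conj g).toMonoidHom :=
        sup_le (fun x hx => show g * x * g⁻¹ ∈ (S : Subgroup G) from hg ⟨x, hx⟩ ▸ hval _) fun x hx => hQS (hQn.conj_mem x hx g)
      exact hle x.2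
    · rw [Fusion.map_eq_iff le_sup_right]
      exact ⟨fun y => hQn.conj_mem y y.2 g, fun y hy => ⟨⟨g⁻¹ * y * g⁻¹⁻¹, hQn.conj_mem y hy g⁻¹⟩, by
        show g * (g⁻¹ * y * g⁻¹⁻¹) * g⁻¹ = y
        simp [mul_assoc]⟩⟩
  have hconjT : ∀ (g : G) (x : G), x ∈ T → g * x * g⁻¹ ∈ (S : Subgroup G) → g * x * g⁻¹ ∈ T := by
    intro g x hx hgx
    have hle : Subgroup.zpowers x ≤ T := Subgroup.zpowers_le.mpr hx
    refine hT.2 (Subgroup.zpowers x) hle ((MulAut.conj g).toMonoidHom.comp (Subgroup.zpowers x).subtype)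
      ⟨hle.trans hTS', fun v => ?_, g, fun v => rfl⟩ ⟨x, Subgroup.mem_zpowers x⟩
    have h2 : Subgroup.zpowers x ≤ (S : Subgroup G).comap (MulAut.conj g).toMonoidHom := Subgroup.zpowers_le.mpr hgx
    exact h2 v.2
  set R := Q ⊓ T with hRdef
  have hRT : R ≤ T := inf_le_right
  haveI hRn : R.Normal := ⟨fun x hx g => ⟨hQn.conj_mem x hx.1 g, hconjT g x hx.2 (hQS (hQn.conj_mem x hx.1 g))⟩⟩
  have hmemR : ∀ (g : G), g ∈ Subgroup.normalizer (R : Set G) := fun g => by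
    rw [Subgroup.normalizer_eq_top_iff.mpr hRn]; trivial
  let c : G →* MulAut ↥R := R.normalizerMonoidHom.comp ((MonoidHom.id G).codRestrict _ hmemR)
  have hcv : ∀ (g : G) (r : ↥R), ((c g r : ↥R) : G) = g * r * g⁻¹ := fun g r => rfl
  haveI : Finite (MulAut ↥R) := Finite.of_injective (fun e : MulAut ↥R => (e : ↥R → ↥R)) DFunLike.coe_injective
  set A := E.autGroup R
  -- `Aut_E(R)` is invariant
  have hAinv : ∀ (g : G) (a : MulAut ↥R), a ∈ A → c g * a * (c g)⁻¹ ∈ A := by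
    intro g a ha
    have hφ : R.subtype.comp (c g).toMonoidHom ∈ F.Hom R :=
      ⟨hRT.trans hTS', fun x => hQS (hQn.conj_mem x x.2.1 g), g, fun x => rfl⟩
    obtain ⟨α, hα, φ₀, hφ₀, hαe⟩ := hfrat R hRT _ hφ
    have hαR : ∀ x : ↥R, ((α ⟨x, hRT x.2⟩ : ↥T) : G) ∈ R := by
      intro x
      obtain ⟨-, hv, n, hn⟩ := (Fusion.autGroup_carrier F hTS' α).mp hα
      exact (show ((α ⟨x, hRT x.2⟩ : ↥T) : G) = n * x * n⁻¹ from hn _) ▸ hRn.conj_mem x x.2 n
    let fα : ↥R →* ↥R := ((T.subtype.comp α.toMonoidHom).comp (Subgroup.inclusion hRT)).codRestrict R hαR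
    have hfα : Function.Bijective fα := Finite.injective_iff_bijective.mp fun u v h =>
      Subgroup.inclusion_injective hRT (α.injective (Subtype.ext (congrArg Subtype.val h :)))
    set αR := MulEquiv.ofBijective fα hfα
    have hφ₀R : ∀ x : ↥R, φ₀ x ∈ R := by
      intro x
      obtain ⟨-, -, m, hm⟩ := hsub R hφ₀
      exact hm x ▸ hRn.conj_mem x x.2 m
    let f₀ : ↥R →* ↥R := φ₀.codRestrict R hφ₀R
    have hf₀ : Function.Bijective f₀ := Finite.injective_iff_bijective.mp fun u v h =>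
      E.injective_of_mem hφ₀ (congrArg Subtype.val h)
    set β₀ := MulEquiv.ofBijective f₀ hf₀
    have hβ₀ : β₀ ∈ A := (Fusion.autGroup_carrier E hRT _).mpr (Fusion.restrict_mem_of_eq hφ₀ le_rfl fun x => rfl)
    have hcg : c g = αR * β₀ := MulEquiv.ext fun x => Subtype.ext (hαe x (hRT (hφ₀R x)))
    rw [hcg, show αR * β₀ * a * (αR * β₀)⁻¹ = αR * (β₀ * a * β₀⁻¹) * αR⁻¹ by rw [mul_inv_rev]; simp only [mul_assoc]]
    have hb : β₀ * a * β₀⁻¹ ∈ A := mul_mem (mul_mem hβ₀ ha) (inv_mem hβ₀)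
    generalize β₀ * a * β₀⁻¹ = b at hb ⊢
    obtain ⟨χ, hχ, hχe⟩ := hinv R hRT _ ((Fusion.autGroup_carrier E hRT b).mp hb) α hα
    have hle : R ≤ (R.subgroupOf T).map (T.subtype.comp α.toMonoidHom) := fun y hy => by
      obtain ⟨x, hx⟩ := αR.surjective ⟨y, hy⟩
      exact ⟨⟨x, hRT x.2⟩, Subgroup.mem_subgroupOf.mpr x.2, congrArg Subtype.val hx⟩
    refine (Fusion.autGroup_carrier E hRT _).mpr (Fusion.restrict_mem_of_eq hχ hle fun y => ?_)
    obtain ⟨x, rfl⟩ := αR.surjective y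
    show ((αR (b (αR⁻¹ (αR x))) : ↥R) : G) = _
    rw [MulAut.inv_apply_self]
    exact (hχe x (hRT (b x).2) ⟨⟨x, hRT x.2⟩, Subgroup.mem_subgroupOf.mpr x.2, rfl⟩).symm
  let X : Subgroup G :=
    { carrier := {g | (∀ q ∈ Q, q⁻¹ * (g * q * g⁻¹) ∈ R) ∧ c g ∈ A}
      one_mem' := ⟨fun q _ => by simp, by rw [map_one]; exact one_mem A⟩
      mul_mem' := fun {g h} hg hh => ⟨fun q hq => by
        have h1 := hg.1 _ (hQn.conj_mem q hq h)
        have h2 := hh.1 q hq
        have h3 := R.mul_mem h2 h1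
        simpa [mul_assoc] using h3, by rw [map_mul]; exact mul_mem hg.2 hh.2⟩
      inv_mem' := fun {g} hg => ⟨fun q hq => by
        have h1 := R.inv_mem (hg.1 _ (hQn.conj_mem q hq g⁻¹))
        simpa [mul_assoc] using h1, by rw [map_inv]; exact inv_mem hg.2⟩ }
  haveI hXn : X.Normal := ⟨fun x hx g => ⟨fun q hq => by
    have h1 := hRn.conj_mem _ (hx.1 _ (hQn.conj_mem q hq g⁻¹)) g
    simpa [mul_assoc] using h1, by rw [map_mul, map_mul, map_inv]; exact hAinv g _ hx.2⟩⟩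
  have hC0 : ∀ g ∈ X, c g = 1 → g ∈ Q := by
    let C0 : Subgroup G := X ⊓ c.ker
    have hC0n : C0.Normal := ⟨fun x hx g => ⟨hXn.conj_mem x hx.1 g, (MonoidHom.normal_ker c).conj_mem x hx.2 g⟩⟩
    have hC0p : IsPGroup p ↥C0 := CfsgLib.LocalBasic.isPGroup_of_coprime_elements fun g hgc => by
      refine Subtype.ext ?_
      have hgX := g.2.1
      have hgR : ∀ r ∈ R, (g : G) * r * (g : G)⁻¹ = r := fun r hr =>
        congrArg Subtype.val (DFunLike.congr_fun g.2.2 (⟨r, hr⟩ : ↥R))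
      have hgQ : ∀ q ∈ Q, (g : G) * q * (g : G)⁻¹ = q := by
        intro q hq
        set d := q⁻¹ * ((g : G) * q * (g : G)⁻¹) with hd
        have hdR : d ∈ R := hgX.1 q hq
        have hn : ∀ n : ℕ, (g : G) ^ n * q * ((g : G) ^ n)⁻¹ = q * d ^ n := by
          intro n
          induction n with
          | zero => simp
          | succ n ih =>
            calc (g : G) ^ (n + 1) * q * ((g : G) ^ (n + 1))⁻¹ = (g : G) * ((g : G) ^ n * q * ((g : G) ^ n)⁻¹) * (g : G)⁻¹ := by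
                  rw [pow_succ']; simp [mul_assoc]
              _ = ((g : G) * q * (g : G)⁻¹) * ((g : G) * d ^ n * (g : G)⁻¹) := by rw [ih]; simp [mul_assoc]
              _ = q * d * d ^ n := by rw [hgR _ (pow_mem hdR n), hd, mul_inv_cancel_left]
              _ = q * d ^ (n + 1) := by rw [pow_succ', mul_assoc]
        have h1 := hn (orderOf (g : G))
        rw [pow_orderOf_eq_one, one_mul, inv_one, mul_one, left_eq_mul] at h1
        obtain ⟨k, hk⟩ := (CfsgLib.Core.isPGroup_pCore (G := G) p) ⟨d, hdR.1⟩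
        have hdp : orderOf d ∣ p ^ k := orderOf_dvd_of_pow_eq_one (congrArg Subtype.val hk)
        have hd1 : d = 1 := orderOf_eq_one_iff.mp (Nat.eq_one_of_dvd_coprimes
          ((by rwa [Subgroup.orderOf_coe] : (orderOf (g : G)).Coprime p).pow_right k) (orderOf_dvd_of_pow_eq_one h1) hdp)
        rw [hd] at hd1
        exact (inv_mul_eq_one.mp hd1).symm
      have hgQ' : (g : G) ∈ Q := hG (Subgroup.mem_centralizer_iff.mpr fun q hq => (mul_inv_eq_iff_eq_mul.mp (hgQ q hq)).symm)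
      obtain ⟨k, hk⟩ := (CfsgLib.Core.isPGroup_pCore (G := G) p) ⟨g, hgQ'⟩
      exact orderOf_eq_one_iff.mp (Nat.eq_one_of_dvd_coprimes
        ((by rwa [Subgroup.orderOf_coe] : (orderOf (g : G)).Coprime p).pow_right k) dvd_rfl
        (orderOf_dvd_of_pow_eq_one (congrArg Subtype.val hk)))
    exact fun g hg hg1 => CfsgLib.Core.le_pCore hC0n hC0p ⟨hg, MonoidHom.mem_ker.mpr hg1⟩
  have hker : ∀ g, c g = 1 ↔ ∀ r ∈ R, g * r * g⁻¹ = r := fun g =>
    ⟨fun h r hr => congrArg Subtype.val (DFunLike.congr_fun h (⟨r, hr⟩ : ↥R)),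
      fun h => MulEquiv.ext fun r => Subtype.ext (h r r.2)⟩
  have hTX : T ≤ X := fun t ht => ⟨fun q hq => by
      refine ⟨Q.mul_mem (Q.inv_mem hq) (hQn.conj_mem q hq t), ?_⟩
      have h1 : q⁻¹ * t * q⁻¹⁻¹ ∈ T := (Subgroup.mem_normalizer_iff.mp (hTn (S.1.inv_mem (hQS hq))) t).mp ht
      have h2 := T.mul_mem h1 (T.inv_mem ht)
      simpa [mul_assoc] using h2,
    Fusion.autInducedBy_le_autGroup E hRT ((Fusion.mem_autInducedBy _).mpr ⟨t, ht, fun r => rfl⟩)⟩
  set P := (S : Subgroup G) ⊓ X with hPdef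
  obtain ⟨P', hP'⟩ := CfsgLib.PReduced.exists_sylow_inf S (C := X)
    (by rw [Subgroup.normalizer_eq_top_iff.mpr hXn]; exact le_top)
  -- `P = T D`
  have hPdec : ∀ a ∈ P, ∃ t ∈ T, ∃ d ∈ X, c d = 1 ∧ a = t * d := by
    intro a ha
    obtain ⟨-, Sy, hSy⟩ := Fusion.fullyNormalized_automized p hTp hEs (Fusion.fullyNormalized_of_normal hRT
      (show T ≤ Subgroup.normalizer (R : Set G) from fun t _ => hmemR t))
    let cP : ↥P →* ↥A := (c.comp P.subtype).codRestrict A fun u => (show (u : G) ∈ X from u.2.2).2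
    have hrange : cP.range = (Sy : Subgroup ↥A) := by
      refine Sy.is_maximal' ((S.2.to_le inf_le_left : IsPGroup p ↥P).of_surjective cP.rangeRestrict cP.rangeRestrict_surjective) ?_
      rw [hSy]
      intro u hu
      obtain ⟨t, ht, hte⟩ := (Fusion.mem_autInducedBy _).mp (Subgroup.mem_subgroupOf.mp hu)
      exact ⟨⟨t, hTS' ht, hTX ht⟩, Subtype.ext (MulEquiv.ext fun r => Subtype.ext (hte r).symm)⟩
    have h1 : cP ⟨a, ha⟩ ∈ (Sy : Subgroup ↥A) := hrange.le ⟨_, rfl⟩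
    rw [hSy] at h1
    obtain ⟨t, ht, hte⟩ := (Fusion.mem_autInducedBy _).mp (Subgroup.mem_subgroupOf.mp h1)
    refine ⟨t, ht, t⁻¹ * a, X.mul_mem (X.inv_mem (hTX ht)) ha.2, ?_, (mul_inv_cancel_left t a).symm⟩
    rw [hker]
    intro r hr
    have h2 : a * r * a⁻¹ = t * r * t⁻¹ := hte ⟨r, hr⟩
    calc t⁻¹ * a * r * (t⁻¹ * a)⁻¹ = t⁻¹ * (a * r * a⁻¹) * t := by simp [mul_assoc]
      _ = r := by rw [h2]; simp [mul_assoc]
  have hfoc : ∀ x ∈ P, ∀ (hx : x ∈ X), (⟨x, hx⟩ : ↥X) ∈ commutator ↥X → x ∈ T := by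
    intro x hxP hx hxc
    have h1 : (⟨x, hx⟩ : ↥X) ∈ Subgroup.focalSubgroup (P' : Subgroup ↥X) := by
      rw [← Subgroup.commutator_inf_eq_focalSubgroup P']
      exact ⟨hxc, hP' ▸ Subgroup.mem_subgroupOf.mpr hxP⟩
    have key : (Subgroup.focalSubgroup (P' : Subgroup ↥X)) ≤ T.comap X.subtype := by
      rw [Subgroup.focalSubgroup_def, Subgroup.closure_le]
      rintro _ ⟨hmem, a, ha, u, rfl⟩
      rw [hP', Subgroup.mem_subgroupOf] at ha hmem
      obtain ⟨t, ht, d, hdX, hd1, hae⟩ := hPdec _ ha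
      have hdQ := hC0 d hdX hd1
      show ((⁅a, u⁆ : ↥X) : G) ∈ T
      have hau : ((⁅a, u⁆ : ↥X) : G) = t * ⁅d, (u : G)⁆ * t⁻¹ * ⁅t, (u : G)⁆ := by
        show ⁅(a : G), (u : G)⁆ = _
        rw [hae]; simp [commutatorElement_def, mul_assoc]
      have hduR : ⁅d, (u : G)⁆ ∈ R := by
        have := u.2.1 d⁻¹ (Q.inv_mem hdQ)
        simpa [commutatorElement_def, mul_assoc] using this
      have hdu : t * ⁅d, (u : G)⁆ * t⁻¹ ∈ T := T.mul_mem (T.mul_mem ht (hRT hduR)) (T.inv_mem ht)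
      rw [hau]
      refine T.mul_mem hdu ?_
      have htu : ⁅t, (u : G)⁆ ∈ (S : Subgroup G) := by
        have h2 := (Subgroup.mul_mem_cancel_left _ (hTS' hdu) (y := ⁅t, (u : G)⁆)).mp (hau ▸ hmem.1)
        exact h2
      have hconj : (u : G) * t⁻¹ * (u : G)⁻¹ ∈ (S : Subgroup G) := by
        have := S.1.mul_mem (S.1.inv_mem (hTS' ht)) htu
        simpa [commutatorElement_def, mul_assoc] using this
      have := T.mul_mem ht (hconjT u t⁻¹ (T.inv_mem ht) hconj)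
      simpa [commutatorElement_def, mul_assoc] using this
    exact key h1
  -- the subgroup generated by `T` and the elements of order prime to `p`
  set K : Subgroup G := Subgroup.closure {x | x ∈ X ∧ (orderOf x).Coprime p} ⊔ T with hKdef
  have hTK : T ≤ K := le_sup_right
  have hKX : K ≤ X := sup_le ((Subgroup.closure_le _).mpr fun x hx => hx.1) hTX
  have hpK : ∀ x ∈ X, (orderOf x).Coprime p → x ∈ K := fun x h1 h2 =>
    Subgroup.mem_sup_left (Subgroup.subset_closure ⟨h1, h2⟩)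
  have hKP : ∀ x ∈ K, x ∈ (S : Subgroup G) → x ∈ T := by
    let π : ↥X →* Abelianization ↥X := Abelianization.of
    let B : Subgroup (Abelianization ↥X) :=
      { carrier := {a | ∃ m : ℕ, m.Coprime p ∧ a ^ m = 1}
        one_mem' := ⟨1, Nat.coprime_one_left p, one_pow 1⟩
        mul_mem' := fun {a b} ⟨m, hm, ha⟩ ⟨n, hn, hb⟩ => ⟨m * n, Nat.Coprime.mul_left hm hn, by
          rw [mul_pow, pow_mul, ha, one_pow, one_mul, mul_comm m n, pow_mul, hb, one_pow]⟩
        inv_mem' := fun {a} ⟨m, hm, ha⟩ => ⟨m, hm, by rw [inv_pow, ha, inv_one]⟩ }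
    set N := (((T.subgroupOf X).map π) ⊔ B).comap π
    have hKN : K ≤ N.map X.subtype := by
      refine sup_le ((Subgroup.closure_le _).mpr fun x hx => ⟨⟨x, hx.1⟩, ?_, rfl⟩) fun t ht =>
        ⟨⟨t, hTX ht⟩, Subgroup.mem_sup_left ⟨_, Subgroup.mem_subgroupOf.mpr ht, rfl⟩, rfl⟩
      refine Subgroup.mem_sup_right ⟨orderOf x, hx.2, ?_⟩
      rw [← map_pow, show (⟨x, hx.1⟩ : ↥X) ^ orderOf x = 1 from Subtype.ext (pow_orderOf_eq_one x), map_one]
    intro x hxK hxS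
    obtain ⟨⟨x', hx'⟩, hxN, hxe⟩ := hKN hxK
    obtain rfl : x' = x := hxe
    obtain ⟨_, ⟨t, ht, rfl⟩, b, ⟨m, hm, hb⟩, htb⟩ := Subgroup.mem_sup_of_normal_left.mp (Subgroup.mem_comap.mp hxN)
    set u : ↥X := t⁻¹ * ⟨x', hx'⟩
    have huS : (u : G) ∈ (S : Subgroup G) := S.1.mul_mem (S.1.inv_mem (hTS' (Subgroup.mem_subgroupOf.mp ht))) hxS
    have hub : π u = b := by rw [map_mul, map_inv, ← htb, inv_mul_cancel_left]
    obtain ⟨k, hk⟩ := S.2 ⟨_, huS⟩
    have hu1 : π u = 1 := orderOf_eq_one_iff.mp (Nat.eq_one_of_dvd_coprimes (hm.pow_right k)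
      (orderOf_dvd_of_pow_eq_one (hub ▸ hb)) (orderOf_dvd_of_pow_eq_one (by
        rw [← map_pow, show u ^ p ^ k = 1 from Subtype.ext (congrArg Subtype.val hk :), map_one])))
    have huc : u ∈ commutator ↥X := (Abelianization.ker_of ↥X) ▸ MonoidHom.mem_ker.mpr hu1
    have huT : (u : G) ∈ T := hfoc _ ⟨huS, u.2⟩ u.2 huc
    have := T.mul_mem (Subgroup.mem_subgroupOf.mp ht) huT
    simpa [u] using this
  have hXK : ∀ x ∈ X, ∃ k ∈ K, ∃ a ∈ P, x = k * a := by
    intro x hx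
    let K0 : Subgroup ↥X := (Subgroup.closure {x | x ∈ X ∧ (orderOf x).Coprime p}).subgroupOf X
    have hle : Cfsg.pResidual p ↥X ≤ K0 := (Subgroup.closure_le _).mpr fun u hu =>
      Subgroup.mem_subgroupOf.mpr (Subgroup.subset_closure ⟨u.2, by rwa [Subgroup.orderOf_coe]⟩)
    have h1 := (CfsgLib.PResidual.sup_pResidual_eq_top P').ge (Subgroup.mem_top (⟨x, hx⟩ : ↥X))
    obtain ⟨r, hr, a, ha, hra⟩ := Subgroup.mem_sup_of_normal_left.mp (sup_comm (P' : Subgroup ↥X) _ ▸ h1)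
    exact ⟨r, Subgroup.mem_sup_left (Subgroup.mem_subgroupOf.mp (hle hr)), a, Subgroup.mem_subgroupOf.mp (hP' ▸ ha),
      congrArg Subtype.val hra.symm⟩
  haveI hKn : K.Normal := by
    rw [← Subgroup.normalizer_eq_top_iff, eq_top_iff]
    intro g _
    refine Subgroup.mem_normalizer_fintype fun x hx => ?_
    have h1 : K ≤ K.comap (MulAut.conj g).toMonoidHom := by
      refine sup_le ((Subgroup.closure_le _).mpr fun u hu => hpK _ (hXn.conj_mem u hu.1 g) ?_) fun t ht => ?_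
      · have e : orderOf (g * u * g⁻¹) = orderOf u := (SemiconjBy.conj_mk g u).orderOf_eq.symm
        show (orderOf (g * u * g⁻¹)).Coprime p
        rw [e]; exact hu.2
      · show g * t * g⁻¹ ∈ K
        -- Frattini
        have hgX : g * t * g⁻¹ ∈ X := hXn.conj_mem t (hTX ht) g
        let Pg : Subgroup ↥X := (P'.1).map ((MulAut.conjNormal g : MulAut ↥X).toMonoidHom)
        obtain ⟨w, hw⟩ : ∃ w : ↥X, ∀ a : ↥X, a ∈ (P' : Subgroup ↥X) → (w : G) * (g * a * g⁻¹) * (w : G)⁻¹ ∈ P := by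
          obtain ⟨Pj, hPj⟩ := (P'.2.map ((MulAut.conjNormal g : MulAut ↥X).toMonoidHom)).exists_le_sylow
          obtain ⟨w, hw⟩ := MulAction.exists_smul_eq ↥X Pj P'
          refine ⟨w, fun a ha => ?_⟩
          have h2 : (MulAut.conj w • (MulAut.conjNormal g a : ↥X)) ∈ (P' : Subgroup ↥X) := by
            rw [← hw, Sylow.coe_subgroup_smul]
            exact Subgroup.smul_mem_pointwise_smul _ _ _ (hPj ⟨a, ha, rfl⟩)
          rw [hP', Subgroup.mem_subgroupOf] at h2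
          exact h2
        have h3 := hw ⟨t, hTX ht⟩ (hP' ▸ Subgroup.mem_subgroupOf.mpr (⟨hTS' ht, hTX ht⟩ : t ∈ P))
        have h4 : (w : G) * (g * t * g⁻¹) * (w : G)⁻¹ ∈ T := by
          have e : (w : G) * (g * t * g⁻¹) * (w : G)⁻¹ = ((w : G) * g) * t * ((w : G) * g)⁻¹ := by simp [mul_assoc]
          rw [e] at h3 ⊢
          exact hconjT _ t ht h3.1
        obtain ⟨k, hk, a, ha, hwka⟩ := hXK (w : G)⁻¹ (X.inv_mem w.2)
        have h5 : a * ((w : G) * (g * t * g⁻¹) * (w : G)⁻¹) * a⁻¹ ∈ T :=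
          (Subgroup.mem_normalizer_iff.mp (hTn ha.1) _).mp h4
        have h6 := K.mul_mem (K.mul_mem hk (hTK h5)) (K.inv_mem hk)
        have e : g * t * g⁻¹ = k * (a * ((w : G) * (g * t * g⁻¹) * (w : G)⁻¹) * a⁻¹) * k⁻¹ := by
          have hw' : (w : G) = a⁻¹ * k⁻¹ := by rw [← inv_inv (w : G), hwka, mul_inv_rev]
          rw [hw']; simp [mul_assoc]
        rw [e]; exact h6
    exact h1 hx
  obtain ⟨TK, hTKe⟩ : ∃ TK : Sylow p ↥K, (TK : Subgroup ↥K) = T.subgroupOf K := by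
    obtain ⟨TK, hTK'⟩ := CfsgLib.PReduced.exists_sylow_inf S (C := K)
      (by rw [Subgroup.normalizer_eq_top_iff.mpr hKn]; exact le_top)
    refine ⟨TK, hTK'.trans (congrArg (fun H => Subgroup.subgroupOf H K) ?_)⟩
    exact le_antisymm (fun u hu => hKP u hu.2 hu.1) (le_inf hTS' hTK)
  set EK := Cfsg.fusionSystemOfSubgroup K T hTK
  -- `E` inside the system of `K`
  have hQsc := Fusion.isNormal_stronglyClosed hQF
  have hRE : E.IsNormal R := by
    have hsc : E.StronglyClosed R := ⟨hRT, fun U hU φ hφ x =>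
      ⟨hQsc.2 U (hU.trans inf_le_left) φ (hsub U hφ) x, Fusion.apply_mem_S hφ x⟩⟩
    refine Fusion.isNormal_of_le_radical p hTp hEs hsc fun U _ hc hr =>
      Fusion.le_of_restrict p hTp hRT (Fusion.StronglyClosed.normal hsc) hc hr fun α hα => ?_
    obtain ⟨γ, hγ, hγe⟩ := Fusion.isNormal_restrict hQF (hsub U ((Fusion.autGroup_carrier E hc.1 α).mp hα))
    have hγS := (Fusion.autGroup_carrier F hQS γ).mp hγ
    let f : ↥R →* ↥R := ((Q.subtype.comp γ.toMonoidHom).comp (Subgroup.inclusion inf_le_left)).codRestrict _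
      fun z => ⟨(γ _).2, hT.2 _ hRT _ (Fusion.restrict_mem hγS inf_le_left) z⟩
    have hf : Function.Injective f := fun a b hab => Subgroup.inclusion_injective (inf_le_left : R ≤ Q)
      (γ.injective (Subtype.ext (congrArg Subtype.val hab :)))
    exact ⟨MulEquiv.ofBijective f ⟨hf, Finite.injective_iff_surjective.mp hf⟩, fun x hx => hγe x hx.1⟩
  have hEK : E ≤ EK := by
    refine Fusion.le_of_pResidual (F := E) hTp hEs (fun U => subset_rfl) fun U hU => ?_
    rintro _ ⟨a, ha, rfl⟩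
    suffices hsuff : Cfsg.pResidual p ↥(E.autGroup U) ≤ (EK.autGroup U).subgroupOf (E.autGroup U) from
      Subgroup.mem_subgroupOf.mp (hsuff ha)
    refine (Subgroup.closure_le _).mpr fun b hb => Subgroup.mem_subgroupOf.mpr ?_
    obtain ⟨ψ, hψ, hψU, hψR⟩ := hRE.2 U _ ((Fusion.autGroup_carrier E hU _).mp b.2)
    obtain ⟨χ, hχ, hχe, hχQ⟩ := Fusion.exists_extMod S.2 hE hQF hψ
    obtain ⟨-, -, g, hg⟩ := hχ
    have hψg : ∀ x : ↥(U ⊔ R), ψ x = g * x * g⁻¹ := fun x => ((hg _).symm.trans (hχe x)).symm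
    have hgX : g ∈ X := by
      refine ⟨fun q hq => ⟨Q.mul_mem (Q.inv_mem hq) (hQn.conj_mem q hq g), ?_⟩, ?_⟩
      · have := (hχQ ⟨q, hq⟩).2
        rw [hg] at this
        exact this
      · obtain ⟨γ, hγ, hγe⟩ := Fusion.isNormal_restrict hRE hψ
        convert hγ using 1
        refine MulEquiv.ext fun r => Subtype.ext ?_
        exact (hψg ⟨r, Subgroup.mem_sup_right r.2⟩).symm.trans (hγe ⟨r, Subgroup.mem_sup_right r.2⟩ r.2).symm
    have hgU : g ∈ Subgroup.normalizer (U : Set G) := Subgroup.mem_normalizer_fintype fun x hx => by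
      show g * x * g⁻¹ ∈ U
      rw [← hψg ⟨x, Subgroup.mem_sup_left hx⟩, show ψ ⟨x, Subgroup.mem_sup_left hx⟩ = _ from hψU ⟨x, hx⟩]
      exact (((b : MulAut ↥U)) ⟨x, hx⟩).2
    let cU := U.normalizerMonoidHom
    have hbg : cU ⟨g, hgU⟩ = (b : MulAut ↥U) := MulEquiv.ext fun x => Subtype.ext
      ((hψg ⟨x, Subgroup.mem_sup_left x.2⟩).symm.trans (hψU x))
    obtain ⟨i, m, hpm, hm⟩ := Nat.exists_eq_pow_mul_and_not_dvd (orderOf_pos g).ne' p (Fact.out : p.Prime).one_lt.ne'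
    have hco : (orderOf (g ^ p ^ i)).Coprime p := by
      rw [orderOf_pow, hm, Nat.gcd_eq_right (Dvd.intro _ rfl), Nat.mul_div_cancel_left _ (pow_pos (Fact.out : p.Prime).pos i)]
      exact (((Fact.out : p.Prime).coprime_iff_not_dvd).mpr hpm).symm
    have hgK := hpK _ (X.pow_mem hgX _) hco
    have hpow : (b : MulAut ↥U) ^ p ^ i ∈ EK.autGroup U := by
      refine (Fusion.autGroup_carrier EK hU _).mpr ⟨hU, fun x => hU (((b : MulAut ↥U) ^ p ^ i) x).2, g ^ p ^ i, hgK, fun x => ?_⟩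
      rw [← hbg, ← map_pow]
      rfl
    obtain ⟨s, hs⟩ := exists_pow_eq_self_of_coprime
      ((show (orderOf (b : MulAut ↥U)).Coprime p by rw [Subgroup.orderOf_coe]; exact hb).symm.pow_left i)
    rw [← hs]
    exact pow_mem hpow s
  have hKE : EK ≤ E := by
    rintro U φ ⟨hU, hφT, k, hk, hφk⟩
    set U' := U ⊔ R
    have hU' : U' ≤ T := sup_le hU hRT
    set γ := c k
    have hγ : γ ∈ A := (hKX hk).2
    have hRfn : E.IsFullyNormalized R := Fusion.fullyNormalized_of_normal hRT (fun t _ => hmemR t)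
    obtain ⟨ψ, hψ, hψe⟩ := (Fusion.fullyNormalized_receptive p hTp hEs hRfn).2 R _ ((Fusion.autGroup_carrier E hRT γ).mp hγ)
      (show (R.subtype.comp γ.toMonoidHom).range = R by
        ext u; exact ⟨fun ⟨v, hv⟩ => hv ▸ (γ v).2, fun hu => ⟨γ.symm ⟨u, hu⟩, by
          show ((γ (γ.symm ⟨u, hu⟩) : ↥R) : G) = u
          rw [MulEquiv.apply_symm_apply]⟩⟩)
    have hext : U' ≤ Cfsg.FusionSystem.extender T R (R.subtype.comp γ.toMonoidHom) := by
      intro u hu
      have hku : k * u * k⁻¹ ∈ T := by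
        have : U' ≤ T.comap (MulAut.conj k).toMonoidHom := sup_le (fun x hx => by
            show k * x * k⁻¹ ∈ T
            exact hφk ⟨x, hx⟩ ▸ hφT _) fun x hx => hRT (hRn.conj_mem x hx k)
        exact this hu
      refine Fusion.mem_extender ⟨hU' hu, hmemR u⟩ hku fun r hr => ?_
      show k * (u * r * u⁻¹) * k⁻¹ = k * u * k⁻¹ * (k * r * k⁻¹) * (k * u * k⁻¹)⁻¹
      simp [mul_assoc]
    have hψ' := Fusion.restrict_mem hψ hext
    obtain ⟨-, -, k', hk', hψk⟩ := hEK _ hψ'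
    have hz : ∀ r ∈ R, (k⁻¹ * k') * r * (k⁻¹ * k')⁻¹ = r := by
      intro r hr
      have h1 : k' * r * k'⁻¹ = k * r * k⁻¹ := (hψk ⟨r, Subgroup.mem_sup_right hr⟩).symm.trans (hψe r hr _)
      calc (k⁻¹ * k') * r * (k⁻¹ * k')⁻¹ = k⁻¹ * (k' * r * k'⁻¹) * k := by simp [mul_assoc]
        _ = r := by rw [h1]; simp [mul_assoc]
    have hzK : k⁻¹ * k' ∈ K := K.mul_mem (K.inv_mem hk) hk'
    have hzQ : k⁻¹ * k' ∈ Q := hC0 _ (hKX hzK) ((hker _).mpr hz)
    have hzR : k⁻¹ * k' ∈ R := ⟨hzQ, hKP _ hzK (hQS hzQ)⟩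
    set z := k⁻¹ * k'
    have hconj := E.conj_mem hU (T.inv_mem (hRT hzR))
    have hin : ∀ x : ↥U, (Cfsg.conjHom U z⁻¹) x ∈ U' := fun x =>
      U'.mul_mem (U'.mul_mem (U'.inv_mem (Subgroup.mem_sup_right hzR)) (Subgroup.mem_sup_left x.2))
        (U'.inv_mem (U'.inv_mem (Subgroup.mem_sup_right hzR)))
    have hcomp := E.comp_mem hconj hψ' hin
    convert hcomp using 1
    refine MonoidHom.ext fun x => ?_
    show φ x = ψ (Subgroup.inclusion hext ⟨z⁻¹ * x * z⁻¹⁻¹, hin x⟩)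
    rw [hφk x, show ψ (Subgroup.inclusion hext ⟨z⁻¹ * x * z⁻¹⁻¹, hin x⟩) = k' * (z⁻¹ * x * z⁻¹⁻¹) * k'⁻¹ from hψk ⟨_, hin x⟩]
    simp [z, mul_assoc]
  have hEeq : ∀ U, E.Hom U = EK.Hom U := fun U => Set.Subset.antisymm (hEK U) (hKE U)
  refine ⟨K, ⟨hTK, hKn, ⟨TK, hTKe⟩, hEeq⟩, ?_⟩
  rintro H ⟨hTH, hHn, ⟨TH, hTHe⟩, hHE⟩
  haveI := hHn
  have hHX : H ≤ X := by
    intro h hh
    refine ⟨fun q hq => ⟨Q.mul_mem (Q.inv_mem hq) (hQn.conj_mem q hq h), ?_⟩, ?_⟩
    · set u := q⁻¹ * (h * q * h⁻¹)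
      have huH : u ∈ H := by
        have := H.mul_mem (hHn.conj_mem h hh q⁻¹) (H.inv_mem hh)
        simpa [u, mul_assoc] using this
      have huQ : u ∈ Q := Q.mul_mem (Q.inv_mem hq) (hQn.conj_mem q hq h)
      have hQH : IsPGroup p ↥(Q.subgroupOf H) :=
        (CfsgLib.Core.isPGroup_pCore p).comap_of_injective _ (Subgroup.subtype_injective H)
      have := CfsgLib.Core.sylow_inf_le TH hQH (show (⟨u, huH⟩ : ↥H) ∈ Q.subgroupOf H from huQ)
      rw [hTHe] at this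
      exact this
    · refine (Fusion.autGroup_carrier E hRT _).mpr ?_
      rw [hHE R]
      exact ⟨hRT, fun r => hRT (c h r).2, h, hh, fun r => rfl⟩
  have hpH : ∀ x ∈ X, (orderOf x).Coprime p → x ∈ H := by
    intro x hx hxc
    have h1 := (Fusion.autGroup_carrier E hRT _).mp hx.2
    rw [hHE R] at h1
    obtain ⟨-, -, h, hh, hxh⟩ := h1
    set d := h⁻¹ * x with hd
    have hdX : d ∈ X := X.mul_mem (X.inv_mem (hHX hh)) hx
    have hdQ : d ∈ Q := hC0 d hdX ((hker _).mpr fun r hr => by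
      have h2 : x * r * x⁻¹ = h * r * h⁻¹ := hxh ⟨r, hr⟩
      calc h⁻¹ * x * r * (h⁻¹ * x)⁻¹ = h⁻¹ * (x * r * x⁻¹) * h := by simp [mul_assoc]
        _ = r := by rw [h2]; simp [mul_assoc])
    obtain ⟨k, hk⟩ := (CfsgLib.Core.isPGroup_pCore (G := G) p) ⟨d, hdQ⟩
    rw [← QuotientGroup.eq_one_iff]
    have e : (x : G ⧸ H) = (d : G ⧸ H) := by
      rw [show x = h * d by rw [hd, mul_inv_cancel_left], QuotientGroup.mk_mul, (QuotientGroup.eq_one_iff h).mpr hh, one_mul]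
    refine orderOf_eq_one_iff.mp (Nat.eq_one_of_dvd_coprimes (hxc.pow_right k) (orderOf_map_dvd (QuotientGroup.mk' H) x) ?_)
    rw [e]
    exact (orderOf_map_dvd (QuotientGroup.mk' H) d).trans (orderOf_dvd_of_pow_eq_one (congrArg Subtype.val hk))
  have hKH : K ≤ H := sup_le ((Subgroup.closure_le _).mpr fun x hx => hpH x hx.1 hx.2) hTH
  refine le_antisymm (fun h hh => ?_) hKH
  haveI : (K.subgroupOf H).Normal := inferInstance
  obtain ⟨i, m, hpm, hm⟩ := Nat.exists_eq_pow_mul_and_not_dvd (orderOf_pos h).ne' p (Fact.out : p.Prime).one_lt.ne'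
  have hco : (orderOf (h ^ p ^ i)).Coprime p := by
    rw [orderOf_pow, hm, Nat.gcd_eq_right (Dvd.intro _ rfl), Nat.mul_div_cancel_left _ (pow_pos (Fact.out : p.Prime).pos i)]
    exact (((Fact.out : p.Prime).coprime_iff_not_dvd).mpr hpm).symm
  have hidx : ¬ p ∣ (K.subgroupOf H).index := fun hd => TH.not_dvd_index (hd.trans (Subgroup.index_dvd_of_le (by
    rw [hTHe]; exact fun u hu => Subgroup.mem_subgroupOf.mpr (hTK (Subgroup.mem_subgroupOf.mp hu)))))
  exact Subgroup.mem_subgroupOf.mp (Fusion.mem_of_pow_mem hidx (a := (⟨h, hh⟩ : ↥H)) (k := i)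
    (Subgroup.mem_subgroupOf.mpr (hpK _ (X.pow_mem (hHX hh) _) hco)))

end Cfsg.Agent.S5121
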