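import Cfsg.Statements.S5133
import Cfsg.Agent.Lib.Fusion.Over

set_option autoImplicit false
open Cfsg

namespace Cfsg.Agent.S5133

open CfsgLib
/-- Let F be a saturated fusion system over a finite p-group S, F' a fusion system over S', and α : S → S' a surjective morphism of fusion systems from F to F' (α maps S onto S' and every map of F' with source P' ≤ S' is induced along α by a map of F on the full preimage of P'). Then F' is saturated. -/
theorem result {Ω : Type*} [Group Ω] {S : Subgroup Ω} [Finite S] (p : ℕ) [Fact p.Prime] (hS : IsPGroup p S) (F : Cfsg.FusionSystem S) (hF : F.IsSaturated p) {Ω' : Type*} [Group Ω'] {S' : Subgroup Ω'} (F' : Cfsg.FusionSystem S') (α : S →* Ω') (hα : F.IsSurjectiveMorphism F' α) : F'.IsSaturated p := by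
  obtain ⟨⟨hval, hmor⟩, hrange, hsurj⟩ := hα
  set Q : Subgroup Ω := α.ker.map S.subtype
  have hk : ∀ s : ↥S, α s = 1 ↔ (s : Ω) ∈ Q := fun s => by
    constructor
    · exact fun h => ⟨s, h, rfl⟩
    · rintro ⟨t, ht, hte⟩
      rw [← Subtype.ext hte]; exact ht
  have hQ : F.StronglyClosed Q := by
    refine ⟨Subgroup.map_subtype_le _, fun R hR φ hφ x => ?_⟩
    obtain ⟨φ', -, h1, h2, h3, h4⟩ := hmor R φ hφ
    refine (hk ⟨φ x, h2 x⟩).mp ((h4 x).symm.trans ?_)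
    rw [show (⟨α ⟨x, h1 x.2⟩, h3 x⟩ : ↥(Cfsg.FusionSystem.imageAlong α R)) = 1 from Subtype.ext ((hk _).mpr (hR x.2)), map_one]
  refine Fusion.factor_saturated p hS hF hQ (E := F') ⟨Subgroup.map_subtype_le _, hk, hrange, fun P' φ' => ⟨fun h => ?_, ?_⟩⟩
  · exact ⟨(F'.le_of_mem h).1, hsurj P' (F'.le_of_mem h).1 φ' h⟩
  · rintro ⟨hP', φ, hφ, h1, h2, h3, h4⟩
    obtain ⟨φ'', hφ'', k1, k2, k3, k4⟩ := hmor _ φ hφ
    have hle : P' ≤ Cfsg.FusionSystem.imageAlong α (Cfsg.FusionSystem.preimageAlong α P') := by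
      intro y hy
      obtain ⟨s, hs⟩ := hrange.ge (hP' hy)
      refine ⟨s, ⟨s, ?_, rfl⟩, hs⟩
      show α s ∈ P'
      rw [hs]; exact hy
    refine Fusion.restrict_mem_of_eq hφ'' hle fun y => ?_
    obtain ⟨s, hs⟩ := hrange.ge (hP' y.2)
    have hsP : (s : Ω) ∈ Cfsg.FusionSystem.preimageAlong α P' := ⟨s, by show α s ∈ P'; rw [hs]; exact y.2, rfl⟩
    have e1 := h4 ⟨(s : Ω), hsP⟩
    have e2 := k4 ⟨(s : Ω), hsP⟩
    rw [show y = ⟨α ⟨(s : Ω), h1 hsP⟩, h3 ⟨(s : Ω), hsP⟩⟩ from Subtype.ext hs.symm, e1, ← e2]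

end Cfsg.Agent.S5133
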