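import Cfsg.Statements.S5163
import Cfsg.Agent.Lib.Fusion.PSLn

set_option autoImplicit false
open Cfsg

namespace Cfsg.Agent.S5163

/-- For a finite field K of characteristic p and n ≥ 3, the p-fusion system of the projective special linear group PSL_n(K) on a Sylow p-subgroup is simple. -/
theorem result {K : Type*} [Field K] [Fintype K] (p : ℕ) [Fact p.Prime] [CharP K p] (n : ℕ) (hn : 3 ≤ n) (S : Sylow p (Matrix.ProjectiveSpecialLinearGroup (Fin n) K)) : (Cfsg.groupFusionSystem (S : Subgroup (Matrix.ProjectiveSpecialLinearGroup (Fin n) K))).IsSimple p := by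
  set π := QuotientGroup.mk' (Subgroup.center (Matrix.SpecialLinearGroup (Fin n) K)) with hπ
  have hπs : Function.Surjective π := QuotientGroup.mk'_surjective _
  have hp : IsPGroup p ↥((CfsgLib.SLn.Un n K).map π) := (CfsgLib.SLn.isPGroup_Un p).map π
  have hidx : ¬ p ∣ ((CfsgLib.SLn.Un n K).map π).index := fun h =>
    CfsgLib.SLn.not_dvd_index_Un p (by omega) (h.trans (Subgroup.index_map_dvd _ hπs))
  obtain ⟨g, hg⟩ := MulAction.exists_smul_eq (Matrix.ProjectiveSpecialLinearGroup (Fin n) K) (hp.toSylow hidx) S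
  refine CfsgLib.Fusion.psl_isSimple (p := p) (f := (MulAut.conj g).toMonoidHom.comp π) ?_ hn
    ((MulAut.conj g).surjective.comp hπs) S ?_
  · intro z hz
    have h : π z = 1 := (MulAut.conj g).injective (hz.trans (map_one _).symm)
    exact (QuotientGroup.eq_one_iff z).mp h
  · rw [← hg, ← Subgroup.map_map]; rfl

end Cfsg.Agent.S5163
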