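import Cfsg.Statements.S5164
import Mathlib

set_option autoImplicit false
open Cfsg

namespace Cfsg.Agent.S5164

open Equiv

theorem sylow_comm_iff {G : Type*} [Group G] [Finite G] {p : ℕ} [Fact p.Prime] (S : Sylow p G) (hab : IsMulCommutative ↥(S : Subgroup G))
    {Q : Subgroup G} (hQ : IsPGroup p ↥Q) : ∀ a ∈ Q, ∀ b ∈ Q, a * b = b * a := by
  obtain ⟨T, hT⟩ := hQ.exists_le_sylow
  intro a ha b hb
  have h := congrArg (fun z : ↥(T : Subgroup G) => (z : G)) ((Sylow.equiv T S).injective (by
    rw [map_mul, map_mul]; exact hab.is_comm.comm _ _) : (⟨a, hT ha⟩ : ↥(T : Subgroup G)) * ⟨b, hT hb⟩ = ⟨b, hT hb⟩ * ⟨a, hT ha⟩)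
  exact h

/-- The hom into the symmetric group on the chosen points keeps signs. -/
theorem sign_via {α β : Type*} [DecidableEq α] [Fintype α] [DecidableEq β] [Fintype β] (ι : α ↪ β) (e : Perm α) :
    Perm.sign (Perm.viaEmbeddingHom ι e) = Perm.sign e := by
  classical
  rw [Perm.viaEmbeddingHom_apply, Perm.viaEmbedding]
  convert @Perm.sign_extendDomain α _ β _ _ _ e _ (Classical.decPred _) (Equiv.ofInjective _ ι.injective) using 2
  rfl

theorem sign_eq_one_of_pow {α : Type*} [DecidableEq α] [Fintype α] {p : ℕ} (hp : Odd p) {σ : Perm α} (h : σ ^ p = 1) :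
    Perm.sign σ = 1 := by
  have h1 := congrArg Perm.sign h
  rw [map_pow, map_one] at h1
  rcases Int.units_eq_one_or (Perm.sign σ) with h2 | h2
  · exact h2
  · rw [h2, hp.neg_one_pow] at h1
    exact absurd h1 (by decide)

/-- The affine maps of the plane over `ZMod p` fixing the vertical direction. -/
def affine (p : ℕ) : Subgroup (Perm (ZMod p × ZMod p)) where
  carrier := {σ | ∃ u v w : ZMod p, ∀ x, σ x = (x.1 + u, x.2 + v + w * x.1)}
  one_mem' := ⟨0, 0, 0, fun x => by simp⟩
  mul_mem' := by
    rintro σ τ ⟨u, v, w, hσ⟩ ⟨u', v', w', hτ⟩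
    refine ⟨u + u', v + v' + w * u', w + w', fun x => ?_⟩
    rw [Perm.mul_apply, hτ, hσ]
    exact Prod.ext (by ring) (by ring)
  inv_mem' := by
    rintro σ ⟨u, v, w, hσ⟩
    refine ⟨-u, -v + w * u, -w, fun x => σ.injective ?_⟩
    rw [show σ (σ⁻¹ x) = x from σ.apply_symm_apply x, hσ]
    exact Prod.ext (by ring) (by ring)

theorem affine_pow {p : ℕ} [hp : Fact p.Prime] (h2 : p ≠ 2) {σ : Perm (ZMod p × ZMod p)} (h : σ ∈ affine p) :
    σ ^ p = 1 := by
  obtain ⟨u, v, w, hσ⟩ := h
  have key : ∀ m : ℕ, ∀ x, (σ ^ m) x = (x.1 + (m : ZMod p) * u, x.2 + (m : ZMod p) * v + (m : ZMod p) * w * x.1 + (m.choose 2 : ℕ) * w * u) := by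
    intro m
    induction m with
    | zero => intro x; simp
    | succ m ih =>
      intro x
      rw [pow_succ', Perm.mul_apply, ih, hσ, Nat.choose_succ_succ' m 1, Nat.choose_one_right]
      push_cast
      exact Prod.ext (by ring) (by ring)
  refine Perm.ext fun x => ?_
  obtain ⟨q, hq⟩ := hp.out.dvd_choose_self (show (2 : ℕ) ≠ 0 by omega) (lt_of_le_of_ne hp.out.two_le (Ne.symm h2))
  rw [key, hq, Nat.cast_mul, ZMod.natCast_self]
  simp

theorem pfac {n p : ℕ} [Fact p.Prime] (h2 : p ≠ 2) (hn : 2 ≤ n) :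
    (Nat.card ↥(alternatingGroup (Fin n))).factorization p = (n.factorial).factorization p := by
  haveI : Nontrivial (Fin n) := Fin.nontrivial_iff_two_le.mpr hn
  have h := two_mul_nat_card_alternatingGroup (α := Fin n)
  rw [Nat.card_perm, Nat.card_fin] at h
  rw [← h, Nat.factorization_mul (by norm_num) Nat.card_pos.ne', Finsupp.add_apply,
    Nat.factorization_eq_zero_of_not_dvd (fun hd => h2 ((Nat.prime_dvd_prime_iff_eq Fact.out Nat.prime_two).mp hd)),
    zero_add]

def dihRot : Perm (Fin 6) := c[0, 1, 2, 3] * c[4, 5]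
def dihRef : Perm (Fin 6) := c[1, 3] * c[4, 5]

/-- The dihedral group of order eight in the alternating group of degree six. -/
def dihHom : DihedralGroup 4 →* Perm (Fin 6) where
  toFun
    | .r i => dihRot ^ i.val
    | .sr i => dihRef * dihRot ^ i.val
  map_one' := by decide
  map_mul' := by decide

/-- For n ≥ 6 and a prime p, a nontrivial Sylow p-subgroup of the alternating group of degree n is abelian if and only if n < p². -/
theorem result (n p : ℕ) (hn : 6 ≤ n) [Fact p.Prime] (S : Sylow p (alternatingGroup (Fin n))) (hS : (S : Subgroup (alternatingGroup (Fin n))) ≠ ⊥) : IsMulCommutative S ↔ n < p ^ 2 := by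
  classical
  have hp : p.Prime := Fact.out
  rcases eq_or_ne p 2 with rfl | h2
  · refine iff_of_false (fun hab => ?_) (by omega)
    let ψ : DihedralGroup 4 →* ↥(alternatingGroup (Fin n)) :=
      ((Perm.viaEmbeddingHom (Fin.castLEEmb hn)).comp dihHom).codRestrict _ fun g => by
        rw [Perm.mem_alternatingGroup, MonoidHom.comp_apply, sign_via]
        revert g
        decide
    have hQ : IsPGroup 2 ↥ψ.range := by
      have hD : IsPGroup 2 (DihedralGroup 4) := IsPGroup.of_card (n := 3) (by rw [DihedralGroup.nat_card]; norm_num)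
      exact hD.of_surjective ψ.rangeRestrict ψ.rangeRestrict_surjective
    have h := sylow_comm_iff S hab hQ _ ⟨.r 1, rfl⟩ _ ⟨.sr 0, rfl⟩
    rw [← map_mul, ← map_mul] at h
    have h' : dihHom (DihedralGroup.r 1 * DihedralGroup.sr 0) = dihHom (DihedralGroup.sr 0 * DihedralGroup.r 1) :=
      Perm.viaEmbeddingHom_injective _ (congrArg Subtype.val h)
    revert h'
    decide
  have hpo : Odd p := hp.odd_of_ne_two h2
  constructor
  · intro hab
    by_contra hlt
    have hle : Fintype.card (ZMod p × ZMod p) ≤ Fintype.card (Fin n) := by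
      rw [Fintype.card_prod, ZMod.card, Fintype.card_fin, ← pow_two]; omega
    obtain ⟨ι⟩ := Function.Embedding.nonempty_of_card_le hle
    let ψ : ↥(affine p) →* ↥(alternatingGroup (Fin n)) :=
      ((Perm.viaEmbeddingHom ι).comp (affine p).subtype).codRestrict _ fun g => by
        rw [Perm.mem_alternatingGroup, MonoidHom.comp_apply, sign_via]
        exact sign_eq_one_of_pow hpo (affine_pow h2 g.2)
    have hP : IsPGroup p ↥(affine p) := fun g => ⟨1, Subtype.ext (by
      rw [pow_one, SubmonoidClass.coe_pow]; exact affine_pow h2 g.2)⟩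
    let a : ↥(affine p) := ⟨Equiv.prodCongr (Equiv.addRight 1) (Equiv.refl _), 1, 0, 0, fun x => Prod.ext rfl (by simp)⟩
    let b : ↥(affine p) := ⟨Equiv.prodShear (Equiv.refl _) (fun i => Equiv.addRight i), 0, 0, 1, fun x => by simp⟩
    have h := sylow_comm_iff S hab (hP.of_surjective ψ.rangeRestrict ψ.rangeRestrict_surjective) _ ⟨a, rfl⟩ _ ⟨b, rfl⟩
    rw [← map_mul, ← map_mul] at h
    have h' := Perm.viaEmbeddingHom_injective _ (congrArg Subtype.val h)
    have h'' := congrArg (fun σ : Perm (ZMod p × ZMod p) => (σ (0, 0)).2) h'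
    simp [a, b] at h''
  · intro hlt
    set k := n / p with hk
    have hkp : k < p := Nat.div_lt_of_lt_mul (by rwa [← pow_two])
    have hle : Fintype.card (Fin k × ZMod p) ≤ Fintype.card (Fin n) := by
      rw [Fintype.card_prod, ZMod.card, Fintype.card_fin, Fintype.card_fin]; exact Nat.div_mul_le_self n p
    obtain ⟨ι⟩ := Function.Embedding.nonempty_of_card_le hle
    let φ : Multiplicative (Fin k → ZMod p) →* Perm (Fin k × ZMod p) :=
      { toFun := fun c => Equiv.prodShear (Equiv.refl _) (fun i => Equiv.addRight ((Multiplicative.toAdd c) i))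
        map_one' := Perm.ext fun x => by simp
        map_mul' := fun c d => Perm.ext fun x => by
          rw [Perm.mul_apply]
          exact Prod.ext rfl (by simp [add_comm, add_left_comm]) }
    have hφ : Function.Injective φ := fun c d h => Multiplicative.toAdd.injective (funext fun i => by
      simpa [φ] using congrArg (fun σ : Perm (Fin k × ZMod p) => (σ (i, 0)).2) h)
    have hpow : ∀ c : Multiplicative (Fin k → ZMod p), c ^ p = 1 := fun c =>
      Multiplicative.toAdd.injective (funext fun i => by simp)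
    let ψ : Multiplicative (Fin k → ZMod p) →* ↥(alternatingGroup (Fin n)) :=
      ((Perm.viaEmbeddingHom ι).comp φ).codRestrict _ fun c => by
        rw [Perm.mem_alternatingGroup, MonoidHom.comp_apply, sign_via]
        exact sign_eq_one_of_pow hpo (by rw [← map_pow, hpow, map_one])
    have hψ : Function.Injective ψ := fun c d h =>
      hφ (Perm.viaEmbeddingHom_injective _ (congrArg Subtype.val h))
    have hcard : Nat.card ↥ψ.range = p ^ k := by
      rw [← Nat.card_congr (MonoidHom.ofInjective hψ).toEquiv, Nat.card_congr Multiplicative.toAdd, Nat.card_fun,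
        Nat.card_zmod, Nat.card_fin]
    have hfac : (n.factorial).factorization p = k := by
      rw [Nat.factorization_factorial hp (b := 2) (Nat.log_lt_of_lt_pow (by omega) hlt)]
      simp [hk]
    let T : Sylow p ↥(alternatingGroup (Fin n)) := Sylow.ofCard ψ.range (by
      rw [hcard, pfac h2 (by omega), hfac])
    refine ⟨⟨fun x y => (Sylow.equiv S T).injective ?_⟩⟩
    rw [map_mul, map_mul]
    obtain ⟨c, hc⟩ := (Sylow.equiv S T x).2
    obtain ⟨d, hd⟩ := (Sylow.equiv S T y).2
    refine Subtype.ext ?_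
    show ((Sylow.equiv S T x : ↥(alternatingGroup (Fin n)))) * (Sylow.equiv S T y : ↥(alternatingGroup (Fin n))) = _ * _
    rw [← hc, ← hd, ← map_mul, ← map_mul, mul_comm]

end Cfsg.Agent.S5164
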