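import Cfsg.Statements.S5166
import Cfsg.Agent.Lib.Golay.TwoM11

set_option autoImplicit false
open Cfsg
open scoped Pointwise

namespace Cfsg.Agent.S5166

/-- The 2-fusion system of the Mathieu group M₁₁ (as the explicit permutation group carved out of the automorphism group of the binary Golay code) on a Sylow 2-subgroup is simple: saturated, over a nontrivial 2-group, with no normal subsystem other than the trivial one and itself. -/
theorem result (S : Sylow 2 Cfsg.Spor.M11) : (Cfsg.groupFusionSystem (S : Subgroup Cfsg.Spor.M11)).IsSimple 2 := by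
  refine CfsgLib.Golay.TwoFusion.sound CfsgLib.Golay.TwoFusion.M11.cert _ (fun g => ?_) CfsgLib.Golay.TwoFusion.M11.grp_ok CfsgLib.Golay.TwoFusion.M11.nrm_ok CfsgLib.Golay.TwoFusion.M11.chn_ok S
  have hd : CfsgLib.Golay.toSet 340831 = Spor.squareDodecad := by decide +kernel
  have hn : CfsgLib.Golay.toSet 8388608 = {(none : GolayPt)} := by decide +kernel
  have h0 : CfsgLib.Golay.toSet 1 = {(some 0 : GolayPt)} := by decide +kernel
  rw [Spor.M11, Spor.M12, Subgroup.mem_inf, Subgroup.mem_inf, MulAction.mem_stabilizer_iff, MulAction.mem_stabilizer_iff]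
  simp [CfsgLib.Golay.TwoFusion.M11.cert, hd, hn, h0, Equiv.Perm.smul_def, Finset.smul_finset_singleton, and_assoc]

end Cfsg.Agent.S5166
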