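import Cfsg.Statements.S5311
import Cfsg.Agent.Lib.Fusion.TransportComponent

set_option autoImplicit false
open Cfsg

namespace Cfsg.Agent.S5311

open Cfsg.FusionSystem CfsgLib.Fusion
/-- The layer of a saturated fusion system F over a finite p-group S is characteristic in F: for every automorphism α of S that is an automorphism of F (α and its inverse are morphisms from F to F) and every layer E of F over T, α carries T onto T and, for every map φ of E with source P, the map induced by α on α(P) (that is, α ∘ φ ∘ α⁻¹) is a map of E. -/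
theorem result {Ω : Type*} [Group Ω] {S : Subgroup Ω} [Finite S] (p : ℕ) [Fact p.Prime] (hS : IsPGroup p S) (F : Cfsg.FusionSystem S) (hF : F.IsSaturated p)
    (α : ↥S ≃* ↥S) (hα : F.IsMorphism F (S.subtype.comp α.toMonoidHom))
    (hα' : F.IsMorphism F (S.subtype.comp α.symm.toMonoidHom))
    {T : Subgroup Ω} (E : Cfsg.FusionSystem T) (hE : E.IsLayerOf F p) :
    Cfsg.FusionSystem.imageAlong (S.subtype.comp α.toMonoidHom) T = T ∧
      ∀ (P : Subgroup Ω) (φ : ↥P →* Ω), φ ∈ E.Hom P →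
        ∀ φ' : ↥(Cfsg.FusionSystem.imageAlong (S.subtype.comp α.toMonoidHom) P) →* Ω,
          Cfsg.FusionSystem.InducedAlong (S.subtype.comp α.toMonoidHom) φ φ' →
            φ' ∈ E.Hom (Cfsg.FusionSystem.imageAlong (S.subtype.comp α.toMonoidHom) P) := by
  have hTS : T ≤ S := hE.1.1.2.2.2.1.1
  haveI : Finite ↥T := finite_of_le (S := S) hTS
  have fw : ∀ (a : ↥S ≃* ↥S), F.IsMorphism F (S.subtype.comp a.toMonoidHom) →
      ∀ (P : Subgroup Ω) (φ : ↥P →* Ω), φ ∈ F.Hom P → ∃ φ' ∈ F.Hom (img a P), Corr a φ φ' := by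
    intro a ha P φ hφ
    obtain ⟨φ', hφ', h1, h2, h3, h4⟩ := ha.2 P φ hφ
    exact ⟨φ', hφ', fun x => ⟨h1 x.2, h2 x, h3 x, h4 x⟩⟩
  let I₀ : FIso F F := ⟨α, fw α hα, fw α.symm hα'⟩
  have key : ∀ (I : FIso F F) (P : Subgroup Ω) (φ : ↥P →* Ω), φ ∈ E.Hom P →
      ∃ (P₂ : Subgroup Ω), ∃ φ₂ ∈ E.Hom P₂, Corr I.e φ φ₂ := by
    intro I P φ hφ
    obtain ⟨T', D', J, hJ, hD'⟩ := normal_push I.symm hE.1
    haveI : Finite ↥T' := finite_of_le (S := S) hD'.1.2.2.2.1.1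
    have hcomp : ∀ (U : Subgroup Ω) (C : FusionSystem U), C.IsComponentIn F p → C.IsSubsystemOf D' := by
      intro U C hC Q ψ hψ
      haveI : Finite ↥U := finite_of_le (S := S) (subsystem_le (subnormal_sub hC.1))
      obtain ⟨U₀, _, C₀, K, hK, hC₀⟩ := component_push hC I
      obtain ⟨ψ₀, hψ₀, hc₀⟩ := K.fwd Q ψ hψ
      obtain ⟨ψ₁, hψ₁, hc₁⟩ := J.fwd _ ψ₀ (hE.2.1 U₀ C₀ hC₀ _ hψ₀)
      have hk : ∀ y : ↥Q, ∃ hy : (y : Ω) ∈ img J.e (img K.e Q), ψ₁ ⟨y, hy⟩ = ψ y := by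
        intro y
        obtain ⟨a1, a2, a3, a4⟩ := hc₀ y
        obtain ⟨b1, b2, b3, b4⟩ := hc₁ ⟨_, a3⟩
        have hU : ∀ (u : ↥U) (h : (K.e u : Ω) ∈ T) (h' : (u : Ω) ∈ S), (J.e ⟨(K.e u : Ω), h⟩ : Ω) = u := by
          intro u h h'
          have hs : (⟨(K.e u : Ω), hTS h⟩ : ↥S) = I.e ⟨u, h'⟩ := Subtype.ext (hK u h')
          refine (hJ _ (hTS h)).trans ?_
          rw [show (⟨((⟨(K.e u : Ω), h⟩ : ↥T) : Ω), hTS h⟩ : ↥S) = I.e ⟨u, h'⟩ from hs]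
          exact congrArg Subtype.val (I.e.symm_apply_apply ⟨u, h'⟩)
        have hUS := subsystem_le (subnormal_sub hC.1)
        have e1 := hU ⟨y, a1⟩ b1 (hUS a1)
        refine ⟨e1 ▸ b3, (congrArg ψ₁ (Subtype.ext e1.symm)).trans (b4.trans ?_)⟩
        refine Eq.trans ?_ (hU ⟨ψ y, a2⟩ (a4 ▸ b2) (hUS a2))
        exact congrArg (fun u : ↥T => (J.e u : Ω)) (Subtype.ext a4)
      exact restrict_mem_of_eq hψ₁ (fun y hy => (hk ⟨y, hy⟩).1) fun y => (hk y).2.symm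
    have hsub := hE.2.2 T' D' hD' hcomp P hφ
    obtain ⟨φ₂, hφ₂, hc⟩ := J.bwd P φ hsub
    refine ⟨_, φ₂, hφ₂, fun x => ?_⟩
    obtain ⟨h1, h2, h3, h4⟩ := hc x
    have he : ∀ (y : ↥T') (h : (y : Ω) ∈ S), (J.e.symm y : Ω) = (I.e ⟨y, h⟩ : Ω) := by
      intro y h
      have := hJ (J.e.symm y) (hTS (J.e.symm y).2)
      rw [MulEquiv.apply_symm_apply] at this
      rw [show (⟨(y : Ω), h⟩ : ↥S) = I.e.symm ⟨(J.e.symm y : Ω), hTS (J.e.symm y).2⟩ from Subtype.ext this,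
        MulEquiv.apply_symm_apply]
    have hT'S := hD'.1.2.2.2.1.1
    refine ⟨hT'S h1, hT'S h2, he ⟨x, h1⟩ (hT'S h1) ▸ h3, ?_⟩
    exact (congrArg φ₂ (Subtype.ext (he ⟨x, h1⟩ (hT'S h1)).symm)).trans (h4.trans (he ⟨φ x, h2⟩ (hT'S h2)))
  have hle : img α T ≤ T := by
    intro y hy
    obtain ⟨P₂, φ₂, hφ₂, hc⟩ := key I₀ T T.subtype (incl_mem (F := E) le_rfl)
    obtain ⟨x, hx, rfl⟩ := (mem_img α).mp hy
    obtain ⟨h1, h2, h3, h4⟩ := hc ⟨x, hx⟩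
    exact (E.le_of_mem hφ₂).1 h3
  refine ⟨Subgroup.eq_of_le_of_card_ge hle (card_img α hTS).ge, fun P φ hφ φ' hind => ?_⟩
  obtain ⟨P₂, φ₂, hφ₂, hc⟩ := key I₀ P φ hφ
  obtain ⟨g1, g2, g3, g4⟩ := hind
  have hk : ∀ y : ↥(imageAlong (S.subtype.comp α.toMonoidHom) P), ∃ hy : (y : Ω) ∈ P₂, φ₂ ⟨y, hy⟩ = φ' y := by
    rintro ⟨z, hz⟩
    obtain ⟨w, hw, rfl⟩ := (mem_img α).mp hz
    obtain ⟨h1, h2, h3, h4⟩ := hc ⟨w, hw⟩
    exact ⟨h3, h4.trans (g4 ⟨w, hw⟩).symm⟩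
  exact restrict_mem_of_eq hφ₂ (fun y hy => (hk ⟨y, hy⟩).1) fun y => (hk y).2.symm

end Cfsg.Agent.S5311
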