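import Cfsg.Statements.S5357
import Cfsg.Agent.Lib.Geometry.Reflections

set_option autoImplicit false
open scoped MatrixGroups
open Cfsg

namespace Cfsg.Agent.S5357

open CfsgLib.Geometry.Reflections CfsgLib.Geometry.QuadBasic
open scoped Matrix

variable {n : ℕ} {Q : QuadraticForm (ZMod 3) (Fin n → ZMod 3)}

local notation "V3" => Fin n → ZMod 3

/-- An anisotropic vector orthogonal to a short orthogonal list of anisotropic vectors. -/
theorem exists_anisotropic (hQ : (QuadraticMap.polarBilin Q).Nondegenerate) {k : ℕ} (hk : k < n)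
    (L : Fin k → V3) (hL : ∀ i, Q (L i) ≠ 0) (ho : ∀ i j, i ≠ j → QuadraticMap.polar (⇑Q) (L i) (L j) = 0) :
    ∃ x : V3, Q x ≠ 0 ∧ ∀ i, QuadraticMap.polar (⇑Q) (L i) x = 0 := by
  classical
  by_contra hne
  push_neg at hne
  let B := QuadraticMap.polarBilin Q
  have hB : ∀ a b : V3, B a b = QuadraticMap.polar (⇑Q) a b := fun a b => rfl
  let co : V3 → Fin k → ZMod 3 := fun a i => (2 * Q (L i))⁻¹ * QuadraticMap.polar (⇑Q) (L i) a
  have h2 : ∀ i, 2 * Q (L i) ≠ 0 := fun i => mul_ne_zero (by decide) (hL i)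
  have hproj : ∀ a : V3, ∀ j, QuadraticMap.polar (⇑Q) (L j) (a - ∑ i, co a i • L i) = 0 := by
    intro a j
    rw [← hB, map_sub, map_sum, Finset.sum_eq_single j]
    · rw [map_smul, hB, hB, QuadraticMap.polar_self, smul_eq_mul, two_nsmul, ← two_mul]
      simp only [co]
      rw [mul_assoc, mul_comm (QuadraticMap.polar (⇑Q) (L j) a), ← mul_assoc, inv_mul_cancel₀ (h2 j), one_mul, sub_self]
    · intro i _ hij
      rw [map_smul, hB, ho j i (Ne.symm hij), smul_zero]
    · intro h; exact absurd (Finset.mem_univ j) h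
  have hQ0 : ∀ a : V3, (∀ j, QuadraticMap.polar (⇑Q) (L j) a = 0) → Q a = 0 := by
    intro a ha
    by_contra h
    obtain ⟨i, hi⟩ := hne a h
    exact hi (ha i)
  have hzero : ∀ z : V3, (∀ j, QuadraticMap.polar (⇑Q) (L j) z = 0) → z = 0 := by
    intro z hz
    refine hQ.1 z fun a => ?_
    have h1 := hproj a
    have h2' : QuadraticMap.polar (⇑Q) z (a - ∑ i, co a i • L i) = 0 := by
      rw [QuadraticMap.polar, hQ0 _ hz, hQ0 _ h1, hQ0]
      · simp
      · intro j
        rw [← hB, map_add, hB, hB, hz j, h1 j, add_zero]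
    rw [← hB, map_sub, map_sum, Finset.sum_eq_zero fun i _ => by
      rw [map_smul, hB, QuadraticMap.polar_comm, hz i, smul_zero], sub_zero] at h2'
    exact h2'
  have hsurj : Function.Surjective (fun c : Fin k → ZMod 3 => ∑ i, c i • L i) := fun a =>
    ⟨co a, (sub_eq_zero.mp (hzero _ (hproj a))).symm⟩
  have := Nat.card_le_card_of_surjective _ hsurj
  rw [Nat.card_fun, Nat.card_fun, Nat.card_zmod, Nat.card_fin, Nat.card_fin] at this
  exact absurd ((Nat.pow_le_pow_iff_right (by norm_num : 1 < 3)).mp this) (by omega)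

theorem exists_norm (hQ : (QuadraticMap.polarBilin Q).Nondegenerate) (c : ZMod 3) (hc : c ≠ 0) {k : ℕ}
    (hk : k + 1 < n) (L : Fin k → V3) (hL : ∀ i, Q (L i) ≠ 0) (ho : ∀ i j, i ≠ j → QuadraticMap.polar (⇑Q) (L i) (L j) = 0) :
    ∃ x : V3, Q x = c ∧ ∀ i, QuadraticMap.polar (⇑Q) (L i) x = 0 := by
  obtain ⟨x, hx, hxL⟩ := exists_anisotropic hQ (by omega : k < n) L hL ho
  obtain ⟨y, hy, hyL⟩ := exists_anisotropic hQ hk (Fin.cons x L) (by
      intro i; refine Fin.cases ?_ ?_ i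
      · simpa using hx
      · intro j; simpa using hL j) (by
      intro i j hij
      induction i using Fin.cases with
      | zero =>
        induction j using Fin.cases with
        | zero => exact absurd rfl hij
        | succ j => simpa [QuadraticMap.polar_comm] using hxL j
      | succ i =>
        induction j using Fin.cases with
        | zero => simpa using hxL i
        | succ j => simpa using ho i j (fun h => hij (by rw [h])))
  have hxy : QuadraticMap.polar (⇑Q) x y = 0 := by simpa using hyL 0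
  have hyL' : ∀ i, QuadraticMap.polar (⇑Q) (L i) y = 0 := fun i => by simpa using hyL i.succ
  by_cases h1 : Q x = c
  · exact ⟨x, h1, hxL⟩
  by_cases h2 : Q y = c
  · exact ⟨y, h2, hyL'⟩
  refine ⟨x + y, ?_, fun i => by rw [QuadraticMap.polar_add_right, hxL, hyL', add_zero]⟩
  have key : ∀ a b d : ZMod 3, a ≠ 0 → b ≠ 0 → d ≠ 0 → a ≠ d → b ≠ d → a + b = d := by decide +kernel
  have e : Q (x + y) = Q x + Q y := by
    have : QuadraticMap.polar (⇑Q) x y = Q (x + y) - Q x - Q y := rfl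
    rw [hxy] at this
    linear_combination -this
  rw [e]
  exact key _ _ c hx hy hc h1 h2

theorem R_ext {g h : Cfsg.isometryGroup (ZMod 3) (⇑Q)} (he : ∀ x : V3, g.1.1 *ᵥ x = h.1.1 *ᵥ x) : g = h :=
  Subtype.ext (Units.ext (Matrix.ext_of_mulVec_single fun i => he _))

theorem coe_mulVec (g h : Cfsg.isometryGroup (ZMod 3) (⇑Q)) (x : V3) :
    (g * h).1.1 *ᵥ x = g.1.1 *ᵥ (h.1.1 *ᵥ x) := by
  rw [Subgroup.coe_mul, Units.val_mul, ← Matrix.mulVec_mulVec]

theorem conj_R (g : Cfsg.isometryGroup (ZMod 3) (⇑Q)) (v : V3) (hv : Q v ≠ 0) (w : V3) (hw : Q w ≠ 0)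
    (he : g.1.1 *ᵥ v = w) : g * R Q v hv * g⁻¹ = R Q w hw := by
  rw [mul_inv_eq_iff_eq_mul]
  refine R_ext fun x => ?_
  have hQw : Q w = Q v := by rw [← he]; exact (mem_isometryGroup_iff (⇑Q) g.1).1 g.2 v
  rw [coe_mulVec, coe_mulVec, CfsgLib.Geometry.Reflections.R_apply, CfsgLib.Geometry.Reflections.R_apply, Matrix.mulVec_sub, Matrix.mulVec_smul, he, hQw]
  congr 2
  rw [← he, iso_polar]

theorem R_congr {v w : V3} (hv : Q v ≠ 0) (hw : Q w ≠ 0) (h : w = v ∨ w = -v) : R Q v hv = R Q w hw := by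
  refine R_ext fun x => ?_
  rw [CfsgLib.Geometry.Reflections.R_apply, CfsgLib.Geometry.Reflections.R_apply]
  rcases h with h | h <;> subst h
  · rfl
  · rw [QuadraticMap.map_neg, QuadraticMap.polar_neg_left, mul_neg, neg_smul, smul_neg, neg_neg]

theorem R_sq (v : V3) (hv : Q v ≠ 0) : R Q v hv * R Q v hv = 1 := by
  refine R_ext fun x => ?_
  rw [coe_mulVec, CfsgLib.Geometry.Reflections.R_apply, CfsgLib.Geometry.Reflections.R_apply, QuadraticMap.polar_sub_right, QuadraticMap.polar_smul_right,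
    QuadraticMap.polar_self, Subgroup.coe_one, Units.val_one, Matrix.one_mulVec, sub_sub, ← add_smul]
  have key : ∀ p q : ZMod 3, q ≠ 0 → q⁻¹ * p + q⁻¹ * (p - (q⁻¹ * p) • ((2 : ℕ) • q)) = 0 := by decide +kernel
  rw [key _ _ hv, zero_smul, sub_zero]

theorem R_order (v : V3) (hv : Q v ≠ 0) : orderOf (R Q v hv) = 2 := by
  haveI : Fact (Nat.Prime 2) := ⟨Nat.prime_two⟩
  refine orderOf_eq_prime (by rw [sq]; exact R_sq v hv) fun h => ?_
  have e := congrArg (fun g : Cfsg.isometryGroup (ZMod 3) (⇑Q) => g.1.1 *ᵥ v) h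
  simp only [CfsgLib.Geometry.Reflections.R_apply, QuadraticMap.polar_self, Subgroup.coe_one, Units.val_one, Matrix.one_mulVec] at e
  rw [sub_eq_self] at e
  have key : ∀ q : ZMod 3, q ≠ 0 → q⁻¹ * ((2 : ℕ) • q) ≠ 0 := by decide +kernel
  rcases smul_eq_zero.mp e with e | e
  · exact key _ hv e
  · exact hv (by rw [e, QuadraticMap.map_zero])

/-- Orthogonal reflections commute, the others satisfy the braid relation. -/
theorem pair (v w : V3) (hv : Q v ≠ 0) (hw : Q w ≠ 0) (hvw : Q w = Q v) :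
    (QuadraticMap.polar (⇑Q) v w = 0 → R Q v hv * R Q w hw = R Q w hw * R Q v hv) ∧
    (QuadraticMap.polar (⇑Q) v w ≠ 0 → R Q v hv * R Q w hw * R Q v hv = R Q w hw * R Q v hv * R Q w hw) := by
  constructor
  · intro h
    refine R_ext fun x => ?_
    rw [coe_mulVec, coe_mulVec, CfsgLib.Geometry.Reflections.R_apply, CfsgLib.Geometry.Reflections.R_apply, CfsgLib.Geometry.Reflections.R_apply, CfsgLib.Geometry.Reflections.R_apply, QuadraticMap.polar_sub_right,
      QuadraticMap.polar_sub_right, QuadraticMap.polar_smul_right, QuadraticMap.polar_smul_right, h,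
      QuadraticMap.polar_comm (⇑Q) w v, h]
    simp only [smul_zero, sub_zero]
    abel
  · intro h
    set a := R Q v hv with ha
    set b := R Q w hw with hb
    have ai : a⁻¹ = a := inv_eq_of_mul_eq_one_right (R_sq v hv)
    have bi : b⁻¹ = b := inv_eq_of_mul_eq_one_right (R_sq w hw)
    have h1 : a.1.1 *ᵥ w = w - ((Q v)⁻¹ * QuadraticMap.polar (⇑Q) v w) • v := CfsgLib.Geometry.Reflections.R_apply v hv w
    have h2 : b.1.1 *ᵥ v = v - ((Q v)⁻¹ * QuadraticMap.polar (⇑Q) v w) • w := by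
      rw [hb, CfsgLib.Geometry.Reflections.R_apply w hw v, hvw, QuadraticMap.polar_comm (⇑Q) w v]
    have hs : (Q v)⁻¹ * QuadraticMap.polar (⇑Q) v w = 1 ∨ (Q v)⁻¹ * QuadraticMap.polar (⇑Q) v w = -1 := by
      have key : ∀ q p : ZMod 3, q ≠ 0 → p ≠ 0 → q⁻¹ * p = 1 ∨ q⁻¹ * p = -1 := by decide +kernel
      exact key _ _ hv h
    have hQa : Q (a.1.1 *ᵥ w) ≠ 0 := by rw [(mem_isometryGroup_iff (⇑Q) a.1).1 a.2 w]; exact hw
    have hQb : Q (b.1.1 *ᵥ v) ≠ 0 := by rw [(mem_isometryGroup_iff (⇑Q) b.1).1 b.2 v]; exact hv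
    calc a * b * a = a * b * a⁻¹ := by rw [ai]
      _ = R Q _ hQa := conj_R a w hw _ hQa rfl
      _ = R Q _ hQb := by
        refine R_congr hQa hQb ?_
        rw [h1, h2]
        rcases hs with e | e <;> rw [e]
        · right; simp
        · left; simp [add_comm]
      _ = b * a * b⁻¹ := (conj_R b v hv _ hQb rfl).symm
      _ = b * a * b := by rw [bi]


/-- Let Q be a non-degenerate quadratic form on the n-dimensional coordinate space over the field with three elements, n ≥ 5, and c a non-zero scalar. In the subgroup of the isometry group of Q generated by the reflections in vectors v with Q(v) = c, these reflections form a single conjugacy class of 3-transpositions generating that subgroup. -/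
theorem result (n : ℕ) (hn : 5 ≤ n) (Q : QuadraticForm (ZMod 3) (Fin n → ZMod 3)) (hQ : (QuadraticMap.polarBilin Q).Nondegenerate) (c : ZMod 3) (hc : c ≠ 0) : Cfsg.IsThreeTranspositionClass {g : ↥(Cfsg.reflectionSubgroup (⇑Q) c) | (g : ↥(Cfsg.isometryGroup (ZMod 3) (⇑Q))) ∈ Cfsg.reflectionsOfNorm (⇑Q) c} := by
  classical
  set D : Set ↥(Cfsg.reflectionSubgroup (⇑Q) c) :=
    {g | (g : ↥(Cfsg.isometryGroup (ZMod 3) (⇑Q))) ∈ Cfsg.reflectionsOfNorm (⇑Q) c} with hD
  have hne : ∀ {v : Fin n → ZMod 3}, Q v = c → Q v ≠ 0 := fun h => h ▸ hc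
  have hmem : ∀ v : Fin n → ZMod 3, ∀ h : Q v = c, R Q v (hne h) ∈ Cfsg.reflectionsOfNorm (⇑Q) c :=
    fun v h => ⟨v, h, rfl⟩
  let r : ∀ v : Fin n → ZMod 3, Q v = c → ↥(Cfsg.reflectionSubgroup (⇑Q) c) :=
    fun v h => ⟨R Q v (hne h), Subgroup.subset_closure (hmem v h)⟩
  have hform : ∀ g ∈ D, ∃ v, ∃ h : Q v = c, g = r v h := by
    rintro g ⟨v, h, hg⟩
    exact ⟨v, h, Subtype.ext (Subtype.ext (Units.ext hg))⟩
  have hcls : ∀ v w, ∀ hv : Q v = c, ∀ hw : Q w = c, IsConj (r v hv) (r w hw) := by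
    have h0 : ∀ v w, ∀ hv : Q v = c, ∀ hw : Q w = c, QuadraticMap.polar (⇑Q) v w ≠ 0 →
        IsConj (r v hv) (r w hw) := by
      intro v w hv hw h
      refine isConj_iff.mpr ⟨r v hv * r w hw, Subtype.ext ?_⟩
      show R Q v _ * R Q w _ * R Q v (hne hv) * (R Q v _ * R Q w _)⁻¹ = R Q w (hne hw)
      rw [(pair v w (hne hv) (hne hw) (hw.trans hv.symm)).2 h, mul_inv_eq_iff_eq_mul]
      simp only [mul_assoc]
    intro v w hv hw
    by_cases h : QuadraticMap.polar (⇑Q) v w = 0
    · have key2 : ∀ q : ZMod 3, q ≠ 0 → -q ≠ 0 ∧ (2 : ℕ) • q + -q = q ∧ (2 : ℕ) • q ≠ 0 := by decide +kernel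
      obtain ⟨z, hz, hzL⟩ := exists_norm hQ (-c) (key2 c hc).1 (by omega : 2 + 1 < n) ![v, w]
        (by intro i; fin_cases i <;> simp [hne hv, hne hw])
        (by
          intro i j hij
          fin_cases i <;> fin_cases j <;> first | exact absurd rfl hij | simpa using h |
            simpa [QuadraticMap.polar_comm] using h)
      have hvz : QuadraticMap.polar (⇑Q) v z = 0 := by simpa using hzL 0
      have hwz : QuadraticMap.polar (⇑Q) w z = 0 := by simpa using hzL 1
      have hu : Q (v + w + z) = c := by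
        rw [QuadraticMap.map_add (⇑Q), QuadraticMap.map_add (⇑Q), hv, hw, hz, QuadraticMap.polar_add_left, h, hvz, hwz,
          add_zero, add_zero, add_zero, ← two_nsmul]
        exact (key2 c hc).2.1
      refine (h0 v _ hv hu ?_).trans (h0 w _ hw hu ?_).symm
      · rw [QuadraticMap.polar_add_right, QuadraticMap.polar_add_right, QuadraticMap.polar_self, h, hvz, add_zero,
          add_zero, hv]
        exact (key2 c hc).2.2
      · rw [QuadraticMap.polar_add_right, QuadraticMap.polar_add_right, QuadraticMap.polar_self,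
          QuadraticMap.polar_comm (⇑Q) w v, h, hwz, add_zero, zero_add, hw]
        exact (key2 c hc).2.2
    · exact h0 v w hv hw h
  obtain ⟨v₀, hv₀, -⟩ := exists_norm hQ c hc (by omega : 0 + 1 < n) Fin.elim0 (fun i => i.elim0) (fun i => i.elim0)
  refine ⟨⟨?_, ?_⟩, ⟨r v₀ hv₀, hmem v₀ hv₀, ?_⟩, ?_⟩
  · intro g hg
    obtain ⟨v, h, rfl⟩ := hform g hg
    rw [← Subgroup.orderOf_coe]
    exact R_order v (hne h)
  · intro g hg e he
    obtain ⟨v, hv, rfl⟩ := hform g hg
    obtain ⟨w, hw, rfl⟩ := hform e he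
    have s1 := R_sq v (hne hv)
    have s2 := R_sq w (hne hw)
    obtain ⟨p0, p1⟩ := pair v w (hne hv) (hne hw) (hw.trans hv.symm)
    by_cases h : QuadraticMap.polar (⇑Q) v w = 0
    · left
      refine Subtype.ext ?_
      show (R Q v _ * R Q w _) ^ 2 = 1
      rw [(show Commute _ _ from p0 h).mul_pow, sq, sq, s1, s2, one_mul]
    · right
      refine Subtype.ext ?_
      show (R Q v (hne hv) * R Q w (hne hw)) ^ 3 = 1
      rw [pow_succ, pow_two, show R Q v (hne hv) * R Q w (hne hw) * (R Q v (hne hv) * R Q w (hne hw)) =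
        R Q v (hne hv) * R Q w (hne hw) * R Q v (hne hv) * R Q w (hne hw) by simp only [mul_assoc], p1 h]
      simp only [mul_assoc]
      rw [← mul_assoc (R Q w (hne hw)) (R Q w (hne hw)), s2, one_mul, ← mul_assoc (R Q v (hne hv)) (R Q v (hne hv)),
        s1, one_mul, s2]
  · ext g
    constructor
    · intro hg
      obtain ⟨v, h, rfl⟩ := hform g hg
      exact hcls v₀ v hv₀ h
    · intro hg
      obtain ⟨k, hk⟩ := isConj_iff.mp hg
      have hQk : Q ((k : ↥(Cfsg.isometryGroup (ZMod 3) (⇑Q))).1.1 *ᵥ v₀) = c :=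
        ((CfsgLib.Geometry.QuadBasic.mem_isometryGroup_iff (⇑Q) _).1 (k : ↥(Cfsg.isometryGroup (ZMod 3) (⇑Q))).2 v₀).trans hv₀
      rw [← hk]
      show (k : ↥(Cfsg.isometryGroup (ZMod 3) (⇑Q))) * R Q v₀ (hne hv₀) * (k : ↥(Cfsg.isometryGroup (ZMod 3) (⇑Q)))⁻¹ ∈ Cfsg.reflectionsOfNorm (⇑Q) c
      rw [conj_R _ v₀ (hne hv₀) _ (hne hQk) rfl]
      exact hmem _ hQk
  · exact Subgroup.closure_closure_coe_preimage

end Cfsg.Agent.S5357
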