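import Cfsg.Statements.S5358


set_option autoImplicit false
set_option linter.all false
open scoped MatrixGroups
open Cfsg

namespace Cfsg.Agent.S5358

/-- Let Q be a non-degenerate quadratic form on the n-dimensional coordinate space over the field with three elements and u, v vectors of the same non-zero norm Q(u) = Q(v) spanning different lines (v ≠ u and v ≠ −u). Then the reflection matrices of u and v commute if and only if u and v are orthogonal for the polar form of Q. -/
theorem result (n : ℕ) (Q : QuadraticForm (ZMod 3) (Fin n → ZMod 3)) (hQ : (QuadraticMap.polarBilin Q).Nondegenerate) (u v : Fin n → ZMod 3) (hu : Q u ≠ 0) (huv : Q u = Q v) (h1 : v ≠ u) (h2 : v ≠ -u) : Commute (Cfsg.reflectionMatrix (⇑Q) u) (Cfsg.reflectionMatrix (⇑Q) v) ↔ QuadraticMap.polar (⇑Q) u v = 0 := by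
  classical
  have h2h : v ≠ -u := h2
  set c := (Q u)⁻¹ with hc
  have hQv : Q v ≠ 0 := huv ▸ hu
  have hsum : ∀ w x : Fin n → ZMod 3, Cfsg.polarVec (⇑Q) w ⬝ᵥ x = QuadraticMap.polar (⇑Q) w x := by
    intro w x
    conv_rhs => rw [pi_eq_sum_univ' x, ← QuadraticMap.polarBilin_apply_apply, map_sum]
    refine Finset.sum_congr rfl fun i _ => ?_
    rw [map_smul, QuadraticMap.polarBilin_apply_apply, smul_eq_mul, mul_comm]
    rfl
  have hsymm : QuadraticMap.polar (⇑Q) v u = QuadraticMap.polar (⇑Q) u v := QuadraticMap.polar_comm _ _ _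
  set M := Matrix.vecMulVec u (Cfsg.polarVec (⇑Q) u) with hM
  set N := Matrix.vecMulVec v (Cfsg.polarVec (⇑Q) v) with hN
  have hru : Cfsg.reflectionMatrix (⇑Q) u = 1 - c • M := rfl
  have hrv : Cfsg.reflectionMatrix (⇑Q) v = 1 - c • N := by rw [hc, huv]; rfl
  have hiff : Commute (Cfsg.reflectionMatrix (⇑Q) u) (Cfsg.reflectionMatrix (⇑Q) v) ↔ M * N = N * M := by
    rw [hru, hrv]
    constructor
    · intro h
      have h' : Commute (c • M) (c • N) := by
        simpa using ((Commute.one_left _).sub_left h).sub_right (((Commute.one_left _).sub_left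
          (Commute.one_right _)))
      have hc0 : c * c ≠ 0 := mul_ne_zero (inv_ne_zero hu) (inv_ne_zero hu)
      have := h'.eq
      rw [smul_mul_smul_comm, smul_mul_smul_comm] at this
      exact smul_right_injective _ hc0 this
    · intro h
      exact ((Commute.one_left _).sub_left ((Commute.one_right _).sub_right
        (Commute.smul_left (Commute.smul_right h c) c)))
  rw [hiff, hM, hN, Matrix.vecMulVec_mul_vecMulVec, Matrix.vecMulVec_mul_vecMulVec, hsum, hsum, hsymm]
  refine ⟨fun h => ?_, fun h => by rw [h]; simp⟩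
  by_contra hp
  set p := QuadraticMap.polar (⇑Q) u v with hpdef
  have h2 := congrArg (fun A : Matrix (Fin n) (Fin n) (ZMod 3) => A.mulVec u) h
  simp only [Matrix.vecMulVec_mulVec, op_smul_eq_smul, smul_dotProduct, hsum, hsymm,
    ← hpdef, smul_eq_mul, QuadraticMap.polar_self, mul_smul] at h2
  have h3 : p • u = ((2 : ℕ) • Q u : ZMod 3) • v := smul_right_injective _ hp h2
  have key : ∀ q a : ZMod 3, q ≠ 0 → a ≠ 0 → ((2 : ℕ) • a : ZMod 3)⁻¹ * q = 1 ∨ ((2 : ℕ) • a : ZMod 3)⁻¹ * q = -1 := by
    decide +kernel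
  have hne : ((2 : ℕ) • Q u : ZMod 3) ≠ 0 := by
    revert hu; generalize Q u = a; revert a; decide
  have h4 : v = (((2 : ℕ) • Q u : ZMod 3)⁻¹ * p) • u := by
    rw [mul_smul, h3, inv_smul_smul₀ hne]
  rcases key p (Q u) hp hu with e | e <;> rw [e] at h4
  · exact h1 (by simpa using h4)
  · exact h2h (by simpa using h4)

end Cfsg.Agent.S5358
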