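import Cfsg.Statements.S5359
import Cfsg.Agent.Lib.Geometry.Spinor

set_option autoImplicit false
open scoped MatrixGroups
open Cfsg

namespace Cfsg.Agent.S5359

open CfsgLib.Geometry.Reflections CfsgLib.Geometry.QuadBasic
open scoped Matrix

variable {n : ℕ} {Q : QuadraticForm (ZMod 3) (Fin n → ZMod 3)}

local notation "V3" => Fin n → ZMod 3

/-- An anisotropic vector orthogonal to a short orthogonal list of anisotropic vectors. -/
theorem exists_anisotropic (hQ : (QuadraticMap.polarBilin Q).Nondegenerate) {k : ℕ} (hk : k < n)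
    (L : Fin k → V3) (hL : ∀ i, Q (L i) ≠ 0) (ho : ∀ i j, i ≠ j → QuadraticMap.polar (⇑Q) (L i) (L j) = 0) :
    ∃ x : V3, Q x ≠ 0 ∧ ∀ i, QuadraticMap.polar (⇑Q) (L i) x = 0 := by
  classical
  by_contra hne
  push_neg at hne
  let B := QuadraticMap.polarBilin Q
  have hB : ∀ a b : V3, B a b = QuadraticMap.polar (⇑Q) a b := fun a b => rfl
  let co : V3 → Fin k → ZMod 3 := fun a i => (2 * Q (L i))⁻¹ * QuadraticMap.polar (⇑Q) (L i) a
  have h2 : ∀ i, 2 * Q (L i) ≠ 0 := fun i => mul_ne_zero (by decide) (hL i)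
  have hproj : ∀ a : V3, ∀ j, QuadraticMap.polar (⇑Q) (L j) (a - ∑ i, co a i • L i) = 0 := by
    intro a j
    rw [← hB, map_sub, map_sum, Finset.sum_eq_single j]
    · rw [map_smul, hB, hB, QuadraticMap.polar_self, smul_eq_mul, two_nsmul, ← two_mul]
      simp only [co]
      rw [mul_assoc, mul_comm (QuadraticMap.polar (⇑Q) (L j) a), ← mul_assoc, inv_mul_cancel₀ (h2 j), one_mul, sub_self]
    · intro i _ hij
      rw [map_smul, hB, ho j i (Ne.symm hij), smul_zero]
    · intro h; exact absurd (Finset.mem_univ j) h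
  have hQ0 : ∀ a : V3, (∀ j, QuadraticMap.polar (⇑Q) (L j) a = 0) → Q a = 0 := by
    intro a ha
    by_contra h
    obtain ⟨i, hi⟩ := hne a h
    exact hi (ha i)
  have hzero : ∀ z : V3, (∀ j, QuadraticMap.polar (⇑Q) (L j) z = 0) → z = 0 := by
    intro z hz
    refine hQ.1 z fun a => ?_
    have h1 := hproj a
    have h2' : QuadraticMap.polar (⇑Q) z (a - ∑ i, co a i • L i) = 0 := by
      rw [QuadraticMap.polar, hQ0 _ hz, hQ0 _ h1, hQ0]
      · simp
      · intro j
        rw [← hB, map_add, hB, hB, hz j, h1 j, add_zero]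
    rw [← hB, map_sub, map_sum, Finset.sum_eq_zero fun i _ => by
      rw [map_smul, hB, QuadraticMap.polar_comm, hz i, smul_zero], sub_zero] at h2'
    exact h2'
  have hsurj : Function.Surjective (fun c : Fin k → ZMod 3 => ∑ i, c i • L i) := fun a =>
    ⟨co a, (sub_eq_zero.mp (hzero _ (hproj a))).symm⟩
  have := Nat.card_le_card_of_surjective _ hsurj
  rw [Nat.card_fun, Nat.card_fun, Nat.card_zmod, Nat.card_fin, Nat.card_fin] at this
  exact absurd ((Nat.pow_le_pow_iff_right (by norm_num : 1 < 3)).mp this) (by omega)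

theorem exists_norm (hQ : (QuadraticMap.polarBilin Q).Nondegenerate) (c : ZMod 3) (hc : c ≠ 0) {k : ℕ}
    (hk : k + 1 < n) (L : Fin k → V3) (hL : ∀ i, Q (L i) ≠ 0) (ho : ∀ i j, i ≠ j → QuadraticMap.polar (⇑Q) (L i) (L j) = 0) :
    ∃ x : V3, Q x = c ∧ ∀ i, QuadraticMap.polar (⇑Q) (L i) x = 0 := by
  obtain ⟨x, hx, hxL⟩ := exists_anisotropic hQ (by omega : k < n) L hL ho
  obtain ⟨y, hy, hyL⟩ := exists_anisotropic hQ hk (Fin.cons x L) (by
      intro i; refine Fin.cases ?_ ?_ i
      · simpa using hx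
      · intro j; simpa using hL j) (by
      intro i j hij
      induction i using Fin.cases with
      | zero =>
        induction j using Fin.cases with
        | zero => exact absurd rfl hij
        | succ j => simpa [QuadraticMap.polar_comm] using hxL j
      | succ i =>
        induction j using Fin.cases with
        | zero => simpa using hxL i
        | succ j => simpa using ho i j (fun h => hij (by rw [h])))
  have hxy : QuadraticMap.polar (⇑Q) x y = 0 := by simpa using hyL 0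
  have hyL' : ∀ i, QuadraticMap.polar (⇑Q) (L i) y = 0 := fun i => by simpa using hyL i.succ
  by_cases h1 : Q x = c
  · exact ⟨x, h1, hxL⟩
  by_cases h2 : Q y = c
  · exact ⟨y, h2, hyL'⟩
  refine ⟨x + y, ?_, fun i => by rw [QuadraticMap.polar_add_right, hxL, hyL', add_zero]⟩
  have key : ∀ a b d : ZMod 3, a ≠ 0 → b ≠ 0 → d ≠ 0 → a ≠ d → b ≠ d → a + b = d := by decide +kernel
  have e : Q (x + y) = Q x + Q y := by
    have : QuadraticMap.polar (⇑Q) x y = Q (x + y) - Q x - Q y := rfl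
    rw [hxy] at this
    linear_combination -this
  rw [e]
  exact key _ _ c hx hy hc h1 h2

theorem R_ext {g h : Cfsg.isometryGroup (ZMod 3) (⇑Q)} (he : ∀ x : V3, g.1.1 *ᵥ x = h.1.1 *ᵥ x) : g = h :=
  Subtype.ext (Units.ext (Matrix.ext_of_mulVec_single fun i => he _))

theorem coe_mulVec (g h : Cfsg.isometryGroup (ZMod 3) (⇑Q)) (x : V3) :
    (g * h).1.1 *ᵥ x = g.1.1 *ᵥ (h.1.1 *ᵥ x) := by
  rw [Subgroup.coe_mul, Units.val_mul, ← Matrix.mulVec_mulVec]

theorem conj_R (g : Cfsg.isometryGroup (ZMod 3) (⇑Q)) (v : V3) (hv : Q v ≠ 0) (w : V3) (hw : Q w ≠ 0)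
    (he : g.1.1 *ᵥ v = w) : g * R Q v hv * g⁻¹ = R Q w hw := by
  rw [mul_inv_eq_iff_eq_mul]
  refine R_ext fun x => ?_
  have hQw : Q w = Q v := by rw [← he]; exact (mem_isometryGroup_iff (⇑Q) g.1).1 g.2 v
  rw [coe_mulVec, coe_mulVec, CfsgLib.Geometry.Reflections.R_apply, CfsgLib.Geometry.Reflections.R_apply, Matrix.mulVec_sub, Matrix.mulVec_smul, he, hQw]
  congr 2
  rw [← he, iso_polar]

theorem R_congr {v w : V3} (hv : Q v ≠ 0) (hw : Q w ≠ 0) (h : w = v ∨ w = -v) : R Q v hv = R Q w hw := by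
  refine R_ext fun x => ?_
  rw [CfsgLib.Geometry.Reflections.R_apply, CfsgLib.Geometry.Reflections.R_apply]
  rcases h with h | h <;> subst h
  · rfl
  · rw [QuadraticMap.map_neg, QuadraticMap.polar_neg_left, mul_neg, neg_smul, smul_neg, neg_neg]

theorem R_sq (v : V3) (hv : Q v ≠ 0) : R Q v hv * R Q v hv = 1 := by
  refine R_ext fun x => ?_
  rw [coe_mulVec, CfsgLib.Geometry.Reflections.R_apply, CfsgLib.Geometry.Reflections.R_apply, QuadraticMap.polar_sub_right, QuadraticMap.polar_smul_right,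
    QuadraticMap.polar_self, Subgroup.coe_one, Units.val_one, Matrix.one_mulVec, sub_sub, ← add_smul]
  have key : ∀ p q : ZMod 3, q ≠ 0 → q⁻¹ * p + q⁻¹ * (p - (q⁻¹ * p) • ((2 : ℕ) • q)) = 0 := by decide +kernel
  rw [key _ _ hv, zero_smul, sub_zero]

theorem R_order (v : V3) (hv : Q v ≠ 0) : orderOf (R Q v hv) = 2 := by
  haveI : Fact (Nat.Prime 2) := ⟨Nat.prime_two⟩
  refine orderOf_eq_prime (by rw [sq]; exact R_sq v hv) fun h => ?_
  have e := congrArg (fun g : Cfsg.isometryGroup (ZMod 3) (⇑Q) => g.1.1 *ᵥ v) h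
  simp only [CfsgLib.Geometry.Reflections.R_apply, QuadraticMap.polar_self, Subgroup.coe_one, Units.val_one, Matrix.one_mulVec] at e
  rw [sub_eq_self] at e
  have key : ∀ q : ZMod 3, q ≠ 0 → q⁻¹ * ((2 : ℕ) • q) ≠ 0 := by decide +kernel
  rcases smul_eq_zero.mp e with e | e
  · exact key _ hv e
  · exact hv (by rw [e, QuadraticMap.map_zero])


set_option maxHeartbeats 1000000 in
/-- Let Q be a non-degenerate quadratic form on the n-dimensional coordinate space over the field with three elements, n odd and at least 5, and c a non-zero scalar. Then the subgroup of the isometry group of Q generated by the reflections in vectors of norm c has index 2 in the isometry group. -/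
theorem result (n : ℕ) (hn : 5 ≤ n) (hodd : Odd n) (Q : QuadraticForm (ZMod 3) (Fin n → ZMod 3)) (hQ : (QuadraticMap.polarBilin Q).Nondegenerate) (c : ZMod 3) (hc : c ≠ 0) : (Cfsg.reflectionSubgroup (⇑Q) c).index = 2 := by
  classical
  haveI : Nontrivial (Fin n) := ⟨⟨⟨0, by omega⟩, ⟨1, by omega⟩, by simp⟩⟩
  have h2 : (2 : ZMod 3) ≠ 0 := by decide
  have hd : (-c) ≠ 0 := neg_ne_zero.mpr hc
  set N := Cfsg.reflectionSubgroup (⇑Q) c with hN
  have hne : ∀ {v : Fin n → ZMod 3} {e : ZMod 3}, e ≠ 0 → Q v = e → Q v ≠ 0 := fun he h => h ▸ he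
  have hmem : ∀ v (h : Q v = c), R Q v (hne hc h) ∈ N := fun v h => Subgroup.subset_closure ⟨v, h, rfl⟩
  haveI hNn : N.Normal := by
    refine ⟨fun x hx g => ?_⟩
    refine (show N ≤ N.comap (MulAut.conj g).toMonoidHom from (Subgroup.closure_le _).2 ?_) hx
    rintro r ⟨v, hv, hr⟩
    obtain rfl : r = R Q v (hne hc hv) := Subtype.ext (Units.ext hr)
    have hgv : Q (g.1.1 *ᵥ v) = c := ((mem_isometryGroup_iff (⇑Q) g.1).1 g.2 v).trans hv
    show g * R Q v (hne hc hv) * g⁻¹ ∈ N
    rw [conj_R g v (hne hc hv) _ (hne hc hgv) rfl]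
    exact hmem _ hgv
  let π := QuotientGroup.mk' N
  -- orthogonal pairs
  have horth : ∀ v w (hv : Q v = -c) (hw : Q w = -c), QuadraticMap.polar (⇑Q) v w = 0 →
      π (R Q v (hne hd hv)) = π (R Q w (hne hd hw)) := by
    intro v w hv hw h
    have key : ∀ e : ZMod 3, -e + -e + 0 = e ∧ ((2 : ℕ) • -e) = e := by decide +kernel
    have hs : Q (v + w) = c := by
      rw [QuadraticMap.map_add (⇑Q), hv, hw, h]; exact (key c).1
    have himg : (R Q (v + w) (hne hc hs)).1.1 *ᵥ v = -w := by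
      rw [CfsgLib.Geometry.Reflections.R_apply, QuadraticMap.polar_add_left, QuadraticMap.polar_self,
        QuadraticMap.polar_comm (⇑Q) w v, h, add_zero, hs, hv, (key c).2, inv_mul_cancel₀ hc, one_smul]
      abel
    have hnw : Q (-w) ≠ 0 := by rw [QuadraticMap.map_neg, hw]; exact hd
    have h1 := congrArg π (conj_R (R Q (v + w) (hne hc hs)) v (hne hd hv) (-w) hnw himg)
    rw [map_mul, map_mul, map_inv, show π (R Q (v + w) (hne hc hs)) = 1 from (QuotientGroup.eq_one_iff _).2 (hmem _ hs),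
      one_mul, inv_one, mul_one] at h1
    rw [h1]
    exact congrArg π (R_congr hnw (hne hd hw) (Or.inr (neg_neg w).symm))
  -- any two
  have hall : ∀ v w (hv : Q v = -c) (hw : Q w = -c), π (R Q v (hne hd hv)) = π (R Q w (hne hd hw)) := by
    intro v w hv hw
    by_cases h : QuadraticMap.polar (⇑Q) v w = 0
    · exact horth v w hv hw h
    set p := QuadraticMap.polar (⇑Q) v w with hp
    set α := (2 * Q v)⁻¹ * p with hα
    set z := w - α • v with hz
    have keyz : ∀ e p : ZMod 3, e ≠ 0 → p ≠ 0 → p - (2 * e)⁻¹ * p * ((2 : ℕ) • e) = 0 ∧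
        e + ((2 * e)⁻¹ * p) * ((2 * e)⁻¹ * p) * e - ((2 * e)⁻¹ * p) * p = 0 ∧
          ((2 * e)⁻¹ * p = 1 ∨ (2 * e)⁻¹ * p = -1) := by decide +kernel
    obtain ⟨k1, k2, k3⟩ := keyz (-c) p hd h
    rw [← hv] at k1 k2 k3
    have hvz : QuadraticMap.polar (⇑Q) v z = 0 := by
      rw [hz, QuadraticMap.polar_sub_right, QuadraticMap.polar_smul_right, QuadraticMap.polar_self, smul_eq_mul, ← hp]
      exact k1
    have hQz : Q z = 0 := by
      rw [hz, sub_eq_add_neg, QuadraticMap.map_add (⇑Q), QuadraticMap.map_neg, QuadraticMap.map_smul,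
        QuadraticMap.polar_neg_right, QuadraticMap.polar_smul_right, QuadraticMap.polar_comm (⇑Q) w v, ← hp, hw, ← hv,
        smul_eq_mul, smul_eq_mul, ← sub_eq_add_neg]
      exact k2
    by_cases hz0 : z = 0
    · refine congrArg π (R_congr (hne hd hv) (hne hd hw) ?_)
      have hwv : w = α • v := sub_eq_zero.mp hz0
      rcases k3 with e | e <;> rw [hα, e] at hwv
      · exact Or.inl (by simpa using hwv)
      · exact Or.inr (by simpa using hwv)
    obtain ⟨t, ht0, hvt, htz⟩ : ∃ t, Q t ≠ 0 ∧ QuadraticMap.polar (⇑Q) v t = 0 ∧ QuadraticMap.polar (⇑Q) t z ≠ 0 := by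
      obtain ⟨a, ha⟩ : ∃ a, QuadraticMap.polar (⇑Q) z a ≠ 0 := by
        by_contra hh; push_neg at hh; exact hz0 (hQ.1 z hh)
      set y := a - ((2 * Q v)⁻¹ * QuadraticMap.polar (⇑Q) v a) • v with hy
      have hyv : QuadraticMap.polar (⇑Q) v y = 0 := by
        have key : ∀ e q : ZMod 3, e ≠ 0 → q - (2 * e)⁻¹ * q * ((2 : ℕ) • e) = 0 := by decide +kernel
        rw [hy, QuadraticMap.polar_sub_right, QuadraticMap.polar_smul_right, QuadraticMap.polar_self, smul_eq_mul]
        exact key _ _ (hne hd hv)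
      have hyz : QuadraticMap.polar (⇑Q) y z ≠ 0 := by
        rw [hy, QuadraticMap.polar_sub_left, QuadraticMap.polar_smul_left, hvz, smul_zero, sub_zero,
          QuadraticMap.polar_comm]
        exact ha
      by_cases hy0 : Q y = 0
      · refine ⟨y + z, ?_, by rw [QuadraticMap.polar_add_right, hyv, hvz, add_zero], ?_⟩
        · rw [QuadraticMap.map_add (⇑Q), hy0, hQz, zero_add, zero_add]; exact hyz
        · rw [QuadraticMap.polar_add_left, QuadraticMap.polar_self, hQz, smul_zero, add_zero]; exact hyz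
      · exact ⟨y, hy0, hyv, hyz⟩
    set t₁ := ((2 * Q t)⁻¹ * QuadraticMap.polar (⇑Q) t z) • t with ht₁
    set t₂ := z - t₁ with ht₂
    have keyt : ∀ e q : ZMod 3, e ≠ 0 → q ≠ 0 → (2 * e)⁻¹ * q * ((2 * e)⁻¹ * q) * e ≠ 0 ∧
        (2 * e)⁻¹ * q * q - (2 : ℕ) • ((2 * e)⁻¹ * q * ((2 * e)⁻¹ * q) * e) = 0 ∧
        (2 * e)⁻¹ * q * ((2 * e)⁻¹ * q) * e - (2 * e)⁻¹ * q * q ≠ 0 := by decide +kernel
    obtain ⟨m1, m2, m3⟩ := keyt _ _ ht0 htz
    have hQ1 : Q t₁ ≠ 0 := by rw [ht₁, QuadraticMap.map_smul, smul_eq_mul]; exact m1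
    have h12 : QuadraticMap.polar (⇑Q) t₁ t₂ = 0 := by
      rw [ht₂, QuadraticMap.polar_sub_right, QuadraticMap.polar_self, ht₁, QuadraticMap.polar_smul_left,
        QuadraticMap.map_smul, smul_eq_mul, smul_eq_mul]
      exact m2
    have hQ2 : Q t₂ ≠ 0 := by
      rw [ht₂, sub_eq_add_neg, QuadraticMap.map_add (⇑Q), QuadraticMap.map_neg, hQz, zero_add,
        QuadraticMap.polar_neg_right, QuadraticMap.polar_comm, ht₁, QuadraticMap.polar_smul_left,
        QuadraticMap.map_smul, smul_eq_mul, smul_eq_mul, ← sub_eq_add_neg]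
      exact m3
    have hv1 : QuadraticMap.polar (⇑Q) v t₁ = 0 := by
      rw [ht₁, QuadraticMap.polar_smul_right, hvt, smul_zero]
    have hv2 : QuadraticMap.polar (⇑Q) v t₂ = 0 := by
      rw [ht₂, QuadraticMap.polar_sub_right, hvz, hv1, sub_zero]
    obtain ⟨u, hu, huL⟩ := exists_norm hQ (-c) hd (by omega : 3 + 1 < n) ![v, t₁, t₂]
      (by intro i; fin_cases i <;> simp [hne hd hv, hQ1, hQ2])
      (by
        intro i j hij
        have hv1' := (QuadraticMap.polar_comm (⇑Q) t₁ v).trans hv1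
        have hv2' := (QuadraticMap.polar_comm (⇑Q) t₂ v).trans hv2
        have h12' := (QuadraticMap.polar_comm (⇑Q) t₂ t₁).trans h12
        fin_cases i <;> fin_cases j
        exacts [absurd rfl hij, hv1, hv2, hv1', absurd rfl hij, h12, hv2', h12', absurd rfl hij])
    have u0 : QuadraticMap.polar (⇑Q) v u = 0 := by simpa using huL 0
    have u1 : QuadraticMap.polar (⇑Q) t₁ u = 0 := by simpa using huL 1
    have u2 : QuadraticMap.polar (⇑Q) t₂ u = 0 := by simpa using huL 2
    have uw : QuadraticMap.polar (⇑Q) w u = 0 := by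
      rw [show w = α • v + (t₁ + t₂) by rw [ht₂, hz]; abel, QuadraticMap.polar_add_left, QuadraticMap.polar_smul_left,
        QuadraticMap.polar_add_left, u0, u1, u2, smul_zero, add_zero, add_zero]
    exact (horth v u hv hu u0).trans (horth w u hw hu uw).symm
  obtain ⟨v₀, hv₀, -⟩ := exists_norm hQ (-c) hd (by omega : 0 + 1 < n) Fin.elim0 (fun i => i.elim0) (fun i => i.elim0)
  set r := R Q v₀ (hne hd hv₀) with hr
  -- at most two cosets
  have htwo : ∀ g, π g = 1 ∨ π g = π r := by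
    intro g
    have hg : g ∈ Subgroup.closure (reflections Q) := by
      rw [closure_reflections h2 hQ]; exact Subgroup.mem_top g
    have hrr : π r * π r = 1 := by rw [← map_mul, R_sq, map_one]
    induction hg using Subgroup.closure_induction with
    | mem x hx =>
      obtain ⟨v, hv, hx⟩ := hx
      obtain rfl : x = R Q v hv := Subtype.ext (Units.ext hx)
      have key : ∀ a e : ZMod 3, a ≠ 0 → e ≠ 0 → a = e ∨ a = -e := by decide +kernel
      rcases key (Q v) c hv hc with h | h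
      · exact Or.inl ((QuotientGroup.eq_one_iff _).2 (hmem v h))
      · exact Or.inr (hall v v₀ h hv₀)
    | one => exact Or.inl (map_one π)
    | mul a b _ _ ha hb =>
      rw [map_mul]
      rcases ha with ha | ha <;> rcases hb with hb | hb <;> rw [ha, hb]
      · exact Or.inl (one_mul _)
      · exact Or.inr (one_mul _)
      · exact Or.inr (mul_one _)
      · exact Or.inl hrr
    | inv a _ ha =>
      rw [map_inv]
      rcases ha with ha | ha <;> rw [ha]
      · exact Or.inl inv_one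
      · exact Or.inr (inv_eq_of_mul_eq_one_right hrr)
  -- the spinor character separates the two classes
  have hrN : r ∉ N := by
    intro hrN
    let th := CfsgLib.Geometry.Spinor.theta Q h2 hQ
    let ds := CfsgLib.Geometry.Spinor.detSign h2 hQ
    have hth : ∀ v (hv : Q v ≠ 0), (th (R Q v hv) : ℤ) = quadraticChar (ZMod 3) (Q v) :=
      fun v hv => CfsgLib.Geometry.Spinor.theta_R h2 hQ hv
    have hds : ∀ v (hv : Q v ≠ 0), ds (R Q v hv) = -1 := fun v hv => CfsgLib.Geometry.Spinor.detSign_R h2 hQ hv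
    have hsep : ∃ ψ : ↥(Cfsg.isometryGroup (ZMod 3) ⇑Q) →* ℤˣ, (∀ v (h : Q v = c), ψ (R Q v (hne hc h)) = 1) ∧
        ψ r = -1 := by
      have key : ∀ e : ZMod 3, e ≠ 0 → (quadraticChar (ZMod 3) e = 1 ∧ quadraticChar (ZMod 3) (-e) = -1) ∨
          (quadraticChar (ZMod 3) e = -1 ∧ quadraticChar (ZMod 3) (-e) = 1) := by decide +kernel
      rcases key c hc with ⟨e1, e2⟩ | ⟨e1, e2⟩
      · refine ⟨th, fun v h => Units.ext ?_, Units.ext ?_⟩
        · rw [hth, h, e1]; rfl
        · rw [hr, hth, hv₀, e2]; rfl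
      · refine ⟨ds * th, fun v h => Units.ext ?_, Units.ext ?_⟩
        · rw [MonoidHom.mul_apply, hds, Units.val_mul, hth, h, e1]; rfl
        · rw [hr, MonoidHom.mul_apply, hds, Units.val_mul, hth, hv₀, e2]; rfl
    obtain ⟨ψ, hψ, hψr⟩ := hsep
    have hle : N ≤ ψ.ker := (Subgroup.closure_le _).2 fun x hx => by
      obtain ⟨v, hv, hx⟩ := hx
      obtain rfl : x = R Q v (hne hc hv) := Subtype.ext (Units.ext hx)
      exact hψ v hv
    have h1 : ψ r = 1 := hle hrN
    rw [hψr] at h1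
    exact absurd h1 (by decide)
  rw [Subgroup.index_eq_card, Nat.card_eq_two_iff]
  refine ⟨1, π r, fun h => hrN ((QuotientGroup.eq_one_iff _).1 h.symm), ?_⟩
  refine Set.eq_univ_of_forall fun q => ?_
  obtain ⟨g, rfl⟩ := QuotientGroup.mk'_surjective N q
  rcases htwo g with h | h
  · exact Or.inl h
  · exact Or.inr h

end Cfsg.Agent.S5359
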