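import Cfsg.Statements.S5363
import Cfsg.Agent.Lib.Involution

set_option autoImplicit false
set_option linter.all false
open Cfsg

namespace Cfsg.Agent.S5363

/-- Let D be a conjugation-invariant set of involutions of a finite group G. Then every product of two members of D has odd order or order 2 if and only if, for every a in D and every b in D different from a and commuting with a, the members of D commuting with a b are exactly those commuting with both a and b. -/
theorem result {G : Type*} [Group G] [Finite G] {D : Set G} (hinv : ∀ d ∈ D, orderOf d = 2) (hconj : ∀ g : G, ∀ d ∈ D, g * d * g⁻¹ ∈ D) : (∀ a ∈ D, ∀ b ∈ D, Odd (orderOf (a * b)) ∨ orderOf (a * b) = 2) ↔ ∀ a ∈ D, ∀ b ∈ D, b ≠ a → Commute a b → {y : G | y ∈ D ∧ Commute (a * b) y} = {y : G | y ∈ D ∧ Commute a y} ∩ {y : G | y ∈ D ∧ Commute b y} := by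
  constructor
  · intro hall a ha b hb hba hab
    have h2a := hinv a ha
    have h2b := hinv b hb
    ext y
    simp only [Set.mem_ofPred_eq, Set.mem_inter_iff]
    refine ⟨fun ⟨hy, hc⟩ => ?_, fun ⟨⟨hy, h1⟩, ⟨_, h2⟩⟩ => ⟨hy, h1.mul_left h2⟩⟩
    suffices h : Commute a y by
      refine ⟨⟨hy, h⟩, hy, ?_⟩
      have e : b = a * (a * b) := by rw [← mul_assoc, CfsgLib.Involution.mul_self h2a, one_mul]
      rw [e]; exact h.mul_left hc
    rcases eq_or_ne (orderOf (a * y)) 2 with h2 | h2
    · have h := CfsgLib.Involution.mul_self h2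
      calc a * y = (a * y)⁻¹ := (inv_eq_of_mul_eq_one_right h).symm
        _ = y * a := by rw [mul_inv_rev, CfsgLib.Involution.inv_eq h2a, CfsgLib.Involution.inv_eq (hinv y hy)]
    have hodd : Odd (orderOf (a * y)) := (hall a ha y hy).resolve_right h2
    have hz2 : orderOf (a * b) = 2 := by
      refine CfsgLib.Involution.orderOf_eq_two ?_ ?_
      · have hba' : b * a = a * b := hab.eq.symm
        calc a * b * (a * b) = a * (b * a) * b := by group
          _ = (a * a) * (b * b) := by rw [hba']; group
          _ = 1 := by rw [CfsgLib.Involution.mul_self h2a, CfsgLib.Involution.mul_self h2b, one_mul]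
      · intro h
        exact hba (by rw [eq_inv_of_mul_eq_one_right h, CfsgLib.Involution.inv_eq h2a])
    have hzc : Commute (a * b) (a * y) :=
      ((Commute.refl a).mul_left hab.symm).mul_right hc
    have e : b * y = a * b * (a * y) := by
      rw [mul_assoc, ← mul_assoc b a, ← hab.eq, ← mul_assoc, ← mul_assoc, CfsgLib.Involution.mul_self h2a, one_mul]
    have hord : orderOf (b * y) = 2 * orderOf (a * y) := by
      rw [e, hzc.orderOf_mul_eq_mul_orderOf_of_coprime, hz2]
      rw [hz2]; exact Nat.coprime_two_left.mpr hodd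
    rcases hall b hb y hy with ho | ho
    · rw [hord] at ho
      exact absurd ho (Nat.not_odd_iff_even.mpr (even_two_mul _))
    · have h1 : orderOf (a * y) = 1 := by omega
      rw [orderOf_eq_one_iff] at h1
      have : y = a := by rw [eq_inv_of_mul_eq_one_right h1, CfsgLib.Involution.inv_eq h2a]
      rw [this]
  · intro hH a ha b hb
    by_contra hcon
    push Not at hcon
    obtain ⟨hodd, hne2⟩ := hcon
    obtain ⟨m, hm⟩ := Nat.not_odd_iff_even.mp hodd
    have h2a := hinv a ha
    have h2b := hinv b hb
    have hpos := orderOf_pos (a * b)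
    set x := a * b with hx
    -- every `a * x ^ j` lies in `D`
    have hxa : ∀ j : ℕ, a * x ^ j ∈ D := by
      intro j
      obtain ⟨i, rfl⟩ | ⟨i, rfl⟩ := Nat.even_or_odd j
      · have h := hconj (x ^ (-(i : ℤ))) a ha
        rw [hx, CfsgLib.Involution.conj_zpow_left h2a h2b, ← hx] at h
        rw [← zpow_natCast, hx, CfsgLib.Involution.mul_zpow_eq h2a h2b, ← hx]
        convert h using 3
        push_cast; ring
      · have h := hconj (x ^ (-(i : ℤ))) b hb
        have e : x ^ (-(i : ℤ)) * b * (x ^ (-(i : ℤ)))⁻¹ = a * x ^ (2 * i + 1) := by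
          have hb' : b = a * x := by rw [hx, ← mul_assoc, CfsgLib.Involution.mul_self h2a, one_mul]
          rw [hb', ← mul_assoc (x ^ (-(i : ℤ)))]
          conv_lhs => rw [hx]
          rw [← CfsgLib.Involution.mul_zpow_eq h2a h2b (i : ℤ), ← hx, ← zpow_natCast, ← zpow_neg, neg_neg,
            mul_assoc a, mul_assoc a]
          congr 1
          rw [← zpow_add_one, ← zpow_add]
          congr 1
          push_cast; ring
        rw [e] at h; exact h
    have hxm : x ^ m ≠ 1 := fun h => by
      have := orderOf_dvd_of_pow_eq_one h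
      have := Nat.le_of_dvd (by omega) this
      omega
    have hxm2 : x ^ (-(m : ℤ)) = x ^ (m : ℤ) := by
      have h1 : x ^ ((m + m : ℕ) : ℤ) = 1 := by rw [zpow_natCast, ← hm, pow_orderOf_eq_one]
      rw [← mul_one (x ^ (-(m : ℤ))), ← h1, ← zpow_add]
      push_cast; ring_nf
    have hc : Commute a (x ^ m) := by
      have h := CfsgLib.Involution.mul_zpow_eq h2a h2b (m : ℤ)
      rw [← hx, hxm2, zpow_natCast] at h
      exact h
    have hne : a * x ^ m ≠ a := fun h => hxm (by simpa using h)
    have hcaa : Commute a (a * x ^ m) := (Commute.refl a).mul_right hc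
    have hset := hH a ha _ (hxa m) hne hcaa
    have e : a * (a * x ^ m) = x ^ m := by rw [← mul_assoc, CfsgLib.Involution.mul_self h2a, one_mul]
    have hby : Commute (x ^ m) b := by
      have h3 : Commute (x ^ m) x := Commute.pow_self x m
      have h4 := hc.symm.mul_right h3
      rw [hx, ← mul_assoc a a b, CfsgLib.Involution.mul_self h2a, one_mul, ← hx] at h4
      exact h4
    have hmem : b ∈ {y : G | y ∈ D ∧ Commute (a * (a * x ^ m)) y} := ⟨hb, by rw [e]; exact hby⟩
    rw [hset] at hmem
    have hab : Commute a b := hmem.1.2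
    have h2 : x ^ 2 = 1 := by
      rw [hx, hab.mul_pow, pow_two, pow_two, CfsgLib.Involution.mul_self h2a, CfsgLib.Involution.mul_self h2b, one_mul]
    rcases (Nat.dvd_prime Nat.prime_two).mp (orderOf_dvd_of_pow_eq_one h2) with h | h
    · omega
    · exact hne2 h

end Cfsg.Agent.S5363
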