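import Cfsg.Statements.S5364
import Cfsg.Agent.Lib.Involution

set_option autoImplicit false
set_option linter.all false
open Cfsg

namespace Cfsg.Agent.S5364

/-- Let D be a conjugation-invariant set of involutions of a finite group G and t an involution in the centre of G such that d t does not lie in D for any d in D. If the images of the members of D in G modulo the subgroup generated by t satisfy the 3-transposition order conditions (each has order 2 and any two have product of order at most 3), then so do the members of D. -/
theorem result {G : Type*} [Group G] [Finite G] {D : Set G} (hinv : ∀ d ∈ D, orderOf d = 2) (hconj : ∀ g : G, ∀ d ∈ D, g * d * g⁻¹ ∈ D) (t : G) (ht : orderOf t = 2) (htZ : t ∈ Subgroup.center G) (hDt : ∀ d ∈ D, d * t ∉ D) [(Subgroup.zpowers t).Normal] (himg : Cfsg.IsThreeTranspositionSet ((QuotientGroup.mk : G → G ⧸ Subgroup.zpowers t) '' D)) : Cfsg.IsThreeTranspositionSet D := by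
  have ht2 : ∀ y ∈ Subgroup.zpowers t, y = 1 ∨ y = t := by
    intro y hy
    obtain ⟨k, rfl⟩ := Subgroup.mem_zpowers_iff.mp hy
    obtain ⟨i, rfl⟩ | ⟨i, rfl⟩ := Int.even_or_odd k
    · left
      rw [← two_mul, zpow_mul, zpow_two, CfsgLib.Involution.mul_self ht, one_zpow]
    · right
      rw [zpow_add_one, zpow_mul, zpow_two, CfsgLib.Involution.mul_self ht, one_zpow, one_mul]
  refine ⟨hinv, fun d hd e he => ?_⟩
  have hde := himg.2 _ ⟨d, hd, rfl⟩ _ ⟨e, he, rfl⟩
  simp only [← QuotientGroup.mk_mul, ← QuotientGroup.mk_pow, QuotientGroup.eq_one_iff] at hde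
  have hd' := CfsgLib.Involution.mul_self (hinv d hd)
  have he' := CfsgLib.Involution.mul_self (hinv e he)
  have hcd : d * t = t * d := (Subgroup.mem_center_iff.mp htZ d)
  rcases hde with h | h
  · rcases ht2 _ h with h | h
    · exact Or.inl h
    · exfalso
      refine hDt d hd ?_
      have h' : d * t = e * d * e⁻¹ := by
        rw [CfsgLib.Involution.inv_eq (hinv e he), ← h, pow_two]
        simp only [← mul_assoc, hd', one_mul]
      rw [h']; exact hconj _ _ hd
  · rcases ht2 _ h with h | h
    · exact Or.inr h
    · exfalso
      refine hDt d hd ?_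
      have h' : d * t = (e * d) * e * (e * d)⁻¹ := by
        rw [mul_inv_rev, CfsgLib.Involution.inv_eq (hinv e he), CfsgLib.Involution.inv_eq (hinv d hd), ← h]
        simp only [pow_succ, pow_zero, one_mul, ← mul_assoc, hd']
      rw [h']; exact hconj _ _ he

end Cfsg.Agent.S5364
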