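import Cfsg.Statements.S5394
import Cfsg.Agent.Lib.Golay.FixCount

set_option autoImplicit false
set_option linter.all false
open Cfsg

namespace Cfsg.Agent.S5394
open Cfsg CfsgLib.Golay CfsgLib.Golay.Classes CfsgLib.Golay.Search
open scoped Pointwise

/-- The automorphism group of the length-24 code built from the squares modulo 23 has exactly two conjugacy classes of involutions: an involution either fixes exactly the eight points of an octad or has no fixed points, both kinds occur, and any two involutions of the same kind are conjugate in the group. -/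
theorem result : (∀ g ∈ Cfsg.M24, orderOf g = 2 → (Finset.univ.filter fun p => g p = p) ∈ Cfsg.octads ∨ ∀ p, g p ≠ p) ∧ (∃ g ∈ Cfsg.M24, orderOf g = 2 ∧ (Finset.univ.filter fun p => g p = p) ∈ Cfsg.octads) ∧ (∃ g ∈ Cfsg.M24, orderOf g = 2 ∧ ∀ p, g p ≠ p) ∧ ∀ g ∈ Cfsg.M24, ∀ h ∈ Cfsg.M24, orderOf g = 2 → orderOf h = 2 → ((∀ p, g p ≠ p) ↔ (∀ p, h p ≠ p)) → ∃ k ∈ Cfsg.M24, k * g * k⁻¹ = h := by
  refine ⟨fun g hg h2 => ?_, ⟨_, toPerm_mem_M24 reps_inM24.2.1, order_t8, fix_octad_t8⟩,
    ⟨_, toPerm_mem_M24 reps_inM24.1, order_t0, (fpf_iff_card _).2 fix_reps.1⟩, fun g hg h hh h2 k2 hiff => ?_⟩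
  · obtain ⟨a, ha, h | h⟩ := inv_classes hg h2
    · exact Or.inr ((fpf_iff_card g).2 ((fix_card_conj h).trans fix_reps.1))
    · left
      have := fix_conj h
      rw [← octads_inv ha, ← this]
      exact fix_octad_t8
  · obtain ⟨a, ha, e⟩ := inv_classes hg h2
    obtain ⟨b, hb, f⟩ := inv_classes hh k2
    rw [fpf_iff_card, fpf_iff_card] at hiff
    have key : ∀ r, a * g * a⁻¹ = r → b * h * b⁻¹ = r → ∃ k ∈ M24, k * g * k⁻¹ = h := fun r e f =>
      ⟨b⁻¹ * a, mul_mem (inv_mem hb) ha, by
        calc b⁻¹ * a * g * (b⁻¹ * a)⁻¹ = b⁻¹ * (a * g * a⁻¹) * b := by group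
          _ = h := by rw [e, ← f]; group⟩
    rcases e with e | e <;> rcases f with f | f
    · exact key _ e f
    · have := hiff.1 ((fix_card_conj e).trans fix_reps.1)
      rw [fix_card_conj f, fix_reps.2.1] at this
      omega
    · have := hiff.2 ((fix_card_conj f).trans fix_reps.1)
      rw [fix_card_conj e, fix_reps.2.1] at this
      omega
    · exact key _ e f

end Cfsg.Agent.S5394
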