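import Cfsg.Statements.S5395
import Cfsg.Agent.Lib.Extra2.Basic

set_option autoImplicit false
set_option linter.all false
open Cfsg

namespace Cfsg.Agent.S5395

/-- For a finite extraspecial 2-group E, an automorphism of E that induces the identity on E modulo its centre is inner (so these automorphisms form exactly the inner automorphism group, an elementary abelian 2-group of order |E|/2). -/
theorem result {E : Type*} [Group E] [Finite E] (hE : Cfsg.IsExtraspecial 2 E) (φ : E ≃* E) (hφ : ∀ x : E, φ x * x⁻¹ ∈ Subgroup.center E) : ∃ g : E, ∀ x : E, φ x = g * x * g⁻¹ := by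
  classical
  obtain ⟨z, hz⟩ := CfsgLib.Extra2.isExt_top hE
  have hcz : ∀ c ∈ Subgroup.center E, c = 1 ∨ c = z := fun c hc =>
    hz.center c trivial fun a _ => Subgroup.mem_center_iff.mp hc a
  have hzc : z ∈ Subgroup.center E := Subgroup.mem_center_iff.mpr fun a => (hz.central a trivial).eq
  have hzf : φ z = z := by
    have h := hφ z
    have h2 : φ z ∈ Subgroup.center E := by simpa using Subgroup.mul_mem _ h hzc
    exact (hcz _ h2).resolve_left fun e => hz.ne_one (φ.injective (by rw [e, map_one]))
  have hcases : ∀ x, φ x = x ∨ φ x = x * z := fun x => by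
    rcases hcz _ (hφ x) with e | e
    · exact Or.inl (mul_inv_eq_one.mp e)
    · exact Or.inr (by rw [mul_inv_eq_iff_eq_mul.mp e, (hz.central x trivial).eq])
  set M : Subgroup E := MonoidHom.eqLocus φ.toMonoidHom (MonoidHom.id E) with hM
  by_cases hall : ∀ x, φ x = x
  · exact ⟨1, fun x => by rw [hall]; group⟩
  push Not at hall
  obtain ⟨v, hv⟩ := hall
  obtain ⟨g, -, hgM, hgv⟩ := hz.exists_separating (S := M) le_top hzf trivial (show v ∉ M from hv)
  refine ⟨g, fun x => ?_⟩
  by_cases hx : φ x = x
  · rw [hx, (hgM x hx).eq, mul_inv_cancel_right]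
  · have e1 := (hcases x).resolve_left hx
    have e2 := (hcases v).resolve_left hv
    have e3 : φ (v⁻¹ * x) = v⁻¹ * x := by
      rw [map_mul, map_inv, e1, e2]
      calc (v * z)⁻¹ * (x * z) = z⁻¹ * ((v⁻¹ * x) * z) := by group
        _ = z⁻¹ * (z * (v⁻¹ * x)) := by rw [(hz.central _ trivial).eq]
        _ = _ := by group
    have h4 := hgM (v⁻¹ * x) e3
    rw [e1]
    symm
    calc g * x * g⁻¹ = g * v * g⁻¹ * (g * (v⁻¹ * x) * g⁻¹) := by group
      _ = v * (z * (v⁻¹ * x)) := by rw [hgv, h4.eq, mul_inv_cancel_right, mul_assoc]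
      _ = v * ((v⁻¹ * x) * z) := by rw [(hz.central _ trivial).eq]
      _ = _ := by group

end Cfsg.Agent.S5395
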