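import Cfsg.Statements.S5396

set_option autoImplicit false
set_option linter.unusedSectionVars false
open Cfsg
open scoped commutatorElement

namespace Cfsg.Agent.S5396

variable {n : ℕ}

/-- The underlying binary space. -/
abbrev V (n : ℕ) := Fin n → ZMod 2 × ZMod 2

/-- The cocycle. -/
def beta (ε : Fin n → ZMod 2) (v w : V n) : ZMod 2 :=
  ∑ i, ((v i).1 * (w i).2 + ε i * ((v i).1 * (w i).1 + (v i).2 * (w i).2))

/-- The commutator form. -/
def bb (v w : V n) : ZMod 2 := ∑ i, ((v i).1 * (w i).2 + (v i).2 * (w i).1)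

theorem beta_add_left (ε : Fin n → ZMod 2) (u v w : V n) : beta ε (u + v) w = beta ε u w + beta ε v w := by
  unfold beta
  rw [← Finset.sum_add_distrib]
  refine Finset.sum_congr rfl fun i _ => ?_
  simp only [Pi.add_apply, Prod.fst_add, Prod.snd_add]; ring

theorem beta_add_right (ε : Fin n → ZMod 2) (u v w : V n) : beta ε u (v + w) = beta ε u v + beta ε u w := by
  unfold beta
  rw [← Finset.sum_add_distrib]
  refine Finset.sum_congr rfl fun i _ => ?_
  simp only [Pi.add_apply, Prod.fst_add, Prod.snd_add]; ring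

theorem bb_eq (ε : Fin n → ZMod 2) (v w : V n) : bb v w = beta ε v w + beta ε w v := by
  unfold beta bb
  rw [← Finset.sum_add_distrib]
  refine Finset.sum_congr rfl fun i _ => ?_
  generalize ε i = e
  generalize v i = x
  generalize w i = y
  revert e x y
  decide

theorem bb_add_right (u v w : V n) : bb u (v + w) = bb u v + bb u w := by
  rw [bb_eq 0, bb_eq 0, bb_eq 0, beta_add_right, beta_add_left]; ring

theorem bb_comm (v w : V n) : bb v w = bb w v := by rw [bb_eq 0, bb_eq 0 w v, add_comm]

theorem exists_bb {v : V n} (h : v ≠ 0) : ∃ w, bb v w = 1 := by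
  by_contra hne
  push Not at hne
  have h0 : ∀ w, bb v w = 0 := fun w => by
    have := hne w
    generalize bb v w = a at this ⊢
    revert a; decide
  apply h
  funext i
  have h1 := h0 (Pi.single i (1, 0))
  have h2 := h0 (Pi.single i (0, 1))
  unfold bb at h1 h2
  rw [Finset.sum_eq_single i (fun j _ hj => by simp [Pi.single_eq_of_ne hj]) (by simp)] at h1 h2
  simp at h1 h2
  exact Prod.ext h2 h1

theorem v_add_self (v : V n) : v + v = 0 := by
  funext i
  show v i + v i = 0
  generalize v i = x
  revert x; decide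

theorem z_add_self (c : ZMod 2) : c + c = 0 := by revert c; decide

/-- The sign character. -/
def chi (a : ZMod 2) : ℤ := if a = 0 then 1 else -1

theorem chi_add (a b : ZMod 2) : chi (a + b) = chi a * chi b := by revert a b; decide

theorem chi_sum {ι : Type*} (s : Finset ι) (f : ι → ZMod 2) : chi (∑ i ∈ s, f i) = ∏ i ∈ s, chi (f i) := by
  classical
  induction s using Finset.induction with
  | empty => rfl
  | insert a s ha ih => rw [Finset.sum_insert ha, Finset.prod_insert ha, chi_add, ih]

/-- The Gauss sum of the quadratic form. -/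
theorem gauss (ε : Fin n → ZMod 2) : ∑ v : V n, chi (beta ε v v) = ∏ i, (if ε i = 0 then 2 else -2 : ℤ) := by
  simp only [beta, chi_sum]
  rw [← Fintype.prod_sum fun i (x : ZMod 2 × ZMod 2) => chi (x.1 * x.2 + ε i * (x.1 * x.1 + x.2 * x.2))]
  refine Finset.prod_congr rfl fun i _ => ?_
  generalize ε i = e
  revert e; decide

open Classical in
theorem sum_bb (U : AddSubgroup (V n)) (v : V n) :
    ∑ u : U, chi (bb v u) = if ∀ u ∈ U, bb v u = 0 then (Nat.card U : ℤ) else 0 := by
  split
  next h => simp [h _ (Subtype.prop _), chi, Nat.card_eq_fintype_card]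
  next h =>
    push Not at h
    obtain ⟨u0, hu0, hne⟩ := h
    have h1 : bb v u0 = 1 := by
      generalize bb v u0 = a at hne ⊢
      revert a; decide
    have e : ∑ u : U, chi (bb v u) = -∑ u : U, chi (bb v u) := by
      rw [← Finset.sum_neg_distrib]
      refine Fintype.sum_equiv (Equiv.addRight (⟨u0, hu0⟩ : U)) _ _ fun u => ?_
      show chi (bb v u) = -chi (bb v ((u : V n) + u0))
      rw [bb_add_right, chi_add, h1]
      show chi (bb v u) = -(chi (bb v u) * -1)
      ring
    omega

open Classical in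
/-- The orthogonal complement has the complementary order. -/
theorem card_perp (U : AddSubgroup (V n)) :
    (Nat.card U : ℤ) * (Finset.univ.filter fun v : V n => ∀ u ∈ U, bb v u = 0).card = Fintype.card (V n) := by
  have h1 : ∑ v : V n, ∑ u : U, chi (bb v u) =
      (Nat.card U : ℤ) * (Finset.univ.filter fun v : V n => ∀ u ∈ U, bb v u = 0).card := by
    simp only [sum_bb]
    rw [← Finset.sum_filter, Finset.sum_const, nsmul_eq_mul, mul_comm]
  rw [← h1, Finset.sum_comm, Fintype.sum_eq_single 0]
  · simp [bb, chi]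
  · intro u hu
    have htop := sum_bb (⊤ : AddSubgroup (V n)) u.1
    rw [if_neg] at htop
    · rw [← htop]
      refine Fintype.sum_equiv (AddSubgroup.topEquiv.toEquiv).symm _ _ fun v => ?_
      rw [bb_comm]; rfl
    · push Not
      obtain ⟨w, hw⟩ := exists_bb (fun h => hu (Subtype.ext h) : u.1 ≠ 0)
      exact ⟨w, trivial, by rw [hw]; exact one_ne_zero⟩

open Classical in
theorem singular_card (ε : Fin n → ZMod 2) (U : AddSubgroup (V n)) (hU : ∀ u ∈ U, beta ε u u = 0) :
    Nat.card U * Nat.card U ≤ Fintype.card (V n) ∧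
    (Nat.card U * Nat.card U = Fintype.card (V n) → ∑ v : V n, chi (beta ε v v) = Nat.card U) := by
  have hexp : ∀ u v : V n, beta ε (u + v) (u + v) = beta ε u u + beta ε v v + bb u v := fun u v => by
    rw [beta_add_left, beta_add_right, beta_add_right, bb_eq ε]; ring
  have hiso : ∀ u ∈ U, ∀ v ∈ U, bb u v = 0 := fun u hu v hv => by
    have := hexp u v
    rw [hU _ (add_mem hu hv), hU u hu, hU v hv] at this
    simpa using this.symm
  set T := Finset.univ.filter fun v : V n => ∀ u ∈ U, bb v u = 0 with hT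
  have hc := card_perp U
  rw [← hT] at hc
  have hsub : (U : Set (V n)).toFinset ⊆ T := fun v hv => Finset.mem_filter.mpr
    ⟨Finset.mem_univ _, hiso v (Set.mem_toFinset.mp hv)⟩
  have hle : (U : Set (V n)).toFinset.card = Nat.card U := by
    rw [Set.toFinset_card]; exact Nat.card_eq_fintype_card.symm
  have hc' : Nat.card U * T.card = Fintype.card (V n) := by exact_mod_cast hc
  have hcle := Finset.card_le_card hsub
  rw [hle] at hcle
  refine ⟨hc' ▸ Nat.mul_le_mul_left _ hcle, fun heq => ?_⟩
  have hpos : 0 < Nat.card U := Nat.card_pos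
  have hTU : (U : Set (V n)).toFinset = T := Finset.eq_of_subset_of_card_le hsub (by
    rw [hle]; exact (Nat.eq_of_mul_eq_mul_left hpos (hc'.trans heq.symm)).le)
  have key : (Nat.card U : ℤ) * ∑ v : V n, chi (beta ε v v) = (Nat.card U : ℤ) * Nat.card U := by
    calc (Nat.card U : ℤ) * ∑ v : V n, chi (beta ε v v)
        = ∑ u : U, ∑ v : V n, chi (beta ε v v) := by simp [Nat.card_eq_fintype_card]
      _ = ∑ u : U, ∑ v : V n, chi (beta ε v v) * chi (bb v u) := by
          refine Finset.sum_congr rfl fun u _ => Fintype.sum_equiv (Equiv.addRight (u : V n)) _ _ fun v => ?_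
          rw [← chi_add]
          simp only [Equiv.coe_addRight]
          congr 1
          rw [hexp, hU _ u.2, bb_comm (v + (u : V n)), bb_add_right, hiso _ u.2 _ u.2, bb_comm (u : V n) v]
          have := z_add_self (bb v u)
          linear_combination -this
      _ = ∑ v : V n, chi (beta ε v v) * ∑ u : U, chi (bb v u) := by
          rw [Finset.sum_comm]; simp [Finset.mul_sum]
      _ = ∑ v ∈ T, chi (beta ε v v) * (Nat.card U : ℤ) := by
          rw [hT, Finset.sum_filter]
          refine Finset.sum_congr rfl fun v _ => ?_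
          rw [sum_bb, mul_ite, mul_zero]
      _ = _ := by
          rw [← hTU, Finset.sum_congr rfl fun v hv => by rw [hU v (Set.mem_toFinset.mp hv)]]
          simp [chi, hle, -Set.toFinset_card]
  exact mul_left_cancel₀ (by exact_mod_cast hpos.ne') key

/-- The extension of the space by a group of order two. -/
@[ext] structure EX (ε : Fin n → ZMod 2) where
  v : V n
  c : ZMod 2

variable {ε : Fin n → ZMod 2}

instance : Mul (EX ε) := ⟨fun x y => ⟨x.v + y.v, x.c + y.c + beta ε x.v y.v⟩⟩
instance : One (EX ε) := ⟨⟨0, 0⟩⟩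
instance : Inv (EX ε) := ⟨fun x => ⟨x.v, x.c + beta ε x.v x.v⟩⟩

theorem mul_v (x y : EX ε) : (x * y).v = x.v + y.v := rfl
theorem mul_c (x y : EX ε) : (x * y).c = x.c + y.c + beta ε x.v y.v := rfl
theorem one_v : (1 : EX ε).v = 0 := rfl
theorem one_c : (1 : EX ε).c = 0 := rfl
theorem inv_v (x : EX ε) : x⁻¹.v = x.v := rfl
theorem inv_c (x : EX ε) : x⁻¹.c = x.c + beta ε x.v x.v := rfl

theorem beta_zero_left (v : V n) : beta ε 0 v = 0 := by simp [beta]
theorem beta_zero_right (v : V n) : beta ε v 0 = 0 := by simp [beta]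

instance : Group (EX ε) where
  mul_assoc x y z := by
    ext : 1
    · simp only [mul_v, add_assoc]
    · simp only [mul_c, mul_v, beta_add_left, beta_add_right]; ring
  one_mul x := by ext : 1 <;> simp [mul_v, mul_c, one_v, one_c, beta_zero_left]
  mul_one x := by ext : 1 <;> simp [mul_v, mul_c, one_v, one_c, beta_zero_right]
  inv_mul_cancel x := by
    ext : 1
    · simp only [mul_v, inv_v, one_v, v_add_self]
    · simp only [mul_c, inv_v, inv_c, one_c]
      linear_combination z_add_self x.c + z_add_self (beta ε x.v x.v)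

def toProd : EX ε ≃ V n × ZMod 2 where
  toFun x := (x.v, x.c)
  invFun p := ⟨p.1, p.2⟩

instance : Finite (EX ε) := Finite.of_equiv _ (toProd (ε := ε)).symm

theorem card_V : Fintype.card (V n) = 2 ^ n * 2 ^ n := by simp [← mul_pow]

theorem card_EX : Nat.card (EX ε) = 2 ^ (2 * n + 1) := by
  rw [Nat.card_congr toProd, Nat.card_prod, Nat.card_eq_fintype_card, card_V, Nat.card_eq_fintype_card, ZMod.card,
    ← pow_add, pow_succ, two_mul]

theorem commute_iff (x y : EX ε) : x * y = y * x ↔ bb x.v y.v = 0 := by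
  rw [EX.ext_iff, mul_v, mul_v, mul_c, mul_c, bb_eq ε]
  constructor
  · intro h; linear_combination h.2 + z_add_self (beta ε y.v x.v)
  · intro h; exact ⟨add_comm _ _, by linear_combination h - z_add_self (beta ε y.v x.v)⟩

theorem mem_center (x : EX ε) : x ∈ Subgroup.center (EX ε) ↔ x.v = 0 := by
  rw [Subgroup.mem_center_iff]
  constructor
  · intro h
    by_contra hne
    obtain ⟨w, hw⟩ := exists_bb hne
    rw [(commute_iff x ⟨w, 0⟩).mp (h ⟨w, 0⟩).symm] at hw
    exact zero_ne_one hw
  · intro h y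
    rw [commute_iff, h, bb_comm]
    simp [bb]

theorem sq_eq (x : EX ε) : x * x = ⟨0, beta ε x.v x.v⟩ := by
  ext : 1
  · rw [mul_v, v_add_self]
  · rw [mul_c]; linear_combination z_add_self x.c

theorem extraspecial (hn : 1 ≤ n) : Cfsg.IsExtraspecial 2 (EX ε) := by
  have hsq : ∀ x : EX ε, (x * x).v = 0 := fun x => by rw [sq_eq]
  let z : EX ε := ⟨0, 1⟩
  let i0 : Fin n := ⟨0, hn⟩
  have hz : ⁅(⟨Pi.single i0 (1, 0), 0⟩ : EX ε), ⟨Pi.single i0 (0, 1), 0⟩⁆ = z := by
    set x : EX ε := ⟨Pi.single i0 (1, 0), 0⟩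
    set y : EX ε := ⟨Pi.single i0 (0, 1), 0⟩
    have h1 : x * y = z * (y * x) := by
      have hb : bb x.v y.v = 1 := by
        unfold bb
        rw [Finset.sum_eq_single i0 (fun j _ hj => by simp [x, y, Pi.single_eq_of_ne hj]) (by simp)]
        simp [x, y]
      rw [bb_eq ε] at hb
      ext : 1
      · simp [mul_v, z, add_comm]
      · simp only [mul_c, z, beta_zero_left, add_zero]
        linear_combination hb - z_add_self (beta ε y.v x.v)
    rw [commutatorElement_def, h1]; group
  have hcz : ∀ x ∈ Subgroup.center (EX ε), x = 1 ∨ x = z := fun x hx => by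
    have h := (mem_center x).mp hx
    rcases (show ∀ a : ZMod 2, a = 0 ∨ a = 1 by decide) x.c with e | e
    · exact Or.inl (EX.ext h e)
    · exact Or.inr (EX.ext h e)
  have hzc : z ∈ Subgroup.center (EX ε) := (mem_center z).mpr rfl
  have hcard : Nat.card (Subgroup.center (EX ε)) = 2 := by
    rw [show Nat.card (Subgroup.center (EX ε)) = Nat.card (ZMod 2) from Nat.card_congr
      { toFun := fun x => x.1.c, invFun := fun c => ⟨⟨0, c⟩, (mem_center _).mpr rfl⟩,
        left_inv := fun x => Subtype.ext (EX.ext ((mem_center _).mp x.2).symm rfl), right_inv := fun c => rfl }]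
    simp
  refine ⟨⟨?_, ?_, ?_⟩, hcard⟩
  · exact IsPGroup.of_card card_EX
  · refine le_antisymm (fun x hx => ?_) (fun x hx => ?_)
    · rw [mem_center]
      by_contra hne
      obtain ⟨w, hw⟩ := exists_bb hne
      let M := Subgroup.centralizer ({(⟨w, 0⟩ : EX ε)} : Set (EX ε))
      have hM : IsCoatom M := by
        have hmem : ∀ y : EX ε, y ∈ M ↔ bb y.v w = 0 := fun y => by
          rw [Subgroup.mem_centralizer_singleton_iff, commute_iff]
        refine ⟨fun h => zero_ne_one (α := ZMod 2) (((hmem x).mp (h ▸ trivial)).symm.trans hw), fun K hK => ?_⟩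
        obtain ⟨y, hyK, hyM⟩ := SetLike.exists_of_lt hK
        refine eq_top_iff.mpr fun g _ => ?_
        by_cases hg : g ∈ M
        · exact hK.le hg
        · have : y⁻¹ * g ∈ M := by
            rw [hmem, mul_v, inv_v, bb_comm, bb_add_right, bb_comm w, bb_comm w]
            rw [hmem] at hyM hg
            generalize bb y.v w = a at hyM ⊢
            generalize bb g.v w = b at hg ⊢
            revert a b; decide
          simpa using mul_mem hyK (hK.le this)
      have hxM := frattini_le_coatom hM hx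
      rw [Subgroup.mem_centralizer_singleton_iff, commute_iff] at hxM
      exact one_ne_zero (hw.symm.trans hxM)
    · simp only [frattini, Order.radical, Subgroup.mem_iInf]
      intro M hM
      rcases hcz x hx with rfl | rfl
      · exact one_mem _
      by_contra hzM
      have htop : ∀ g : EX ε, ∃ m ∈ M, ∃ c ∈ Subgroup.center (EX ε), g = m * c := by
        intro g
        have h : M ⊔ Subgroup.center (EX ε) = ⊤ := hM.2 _ (lt_of_le_of_ne le_sup_left fun h => hzM (h ▸ Subgroup.mem_sup_right hzc))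
        have hg : g ∈ ((M ⊔ Subgroup.center (EX ε) : Subgroup (EX ε)) : Set (EX ε)) := by rw [h]; trivial
        rw [Subgroup.coe_mul_of_right_le_normalizer_left] at hg
        · obtain ⟨m, hm, c, hc, rfl⟩ := hg
          exact ⟨m, hm, c, hc, rfl⟩
        · exact fun c hc => Subgroup.mem_normalizer_iff.mpr fun m => by
            rw [← Subgroup.mem_center_iff.mp hc m, mul_inv_cancel_right]
      obtain ⟨m, hm, c, hc, e1⟩ := htop ⟨Pi.single i0 (1, 0), 0⟩
      obtain ⟨m', hm', c', hc', e2⟩ := htop ⟨Pi.single i0 (0, 1), 0⟩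
      apply hzM
      rw [← hz, e1, e2]
      have k : ⁅m * c, m' * c'⁆ = ⁅m, m'⁆ := by
        have a1 := Subgroup.mem_center_iff.mp hc
        have a2 := Subgroup.mem_center_iff.mp hc'
        rw [commutatorElement_def, commutatorElement_def]
        calc m * c * (m' * c') * (m * c)⁻¹ * (m' * c')⁻¹ = m * (c * (m' * c')) * c⁻¹ * m⁻¹ * c'⁻¹ * m'⁻¹ := by group
          _ = m * m' * (c' * m⁻¹) * c'⁻¹ * m'⁻¹ := by rw [← a1 (m' * c')]; group
          _ = _ := by rw [← a2 m⁻¹]; group
      rw [k, commutatorElement_def]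
      exact mul_mem (mul_mem (mul_mem hm hm') (inv_mem hm)) (inv_mem hm')
  · refine le_antisymm ?_ (fun x hx => ?_)
    · rw [commutator_def, Subgroup.commutator_le]
      intro a _ b _
      rw [mem_center, commutatorElement_def, mul_v, mul_v, mul_v, inv_v, inv_v]
      linear_combination v_add_self a.v + v_add_self b.v
    · rcases hcz x hx with rfl | rfl
      · exact one_mem _
      · rw [commutator_def, ← hz]
        exact Subgroup.commutator_mem_commutator trivial trivial

theorem el_bound {A : Subgroup (EX ε)} (hA : Cfsg.IsElementaryAbelian 2 A) : ∃ U : AddSubgroup (V n),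
    (∀ u ∈ U, beta ε u u = 0) ∧ Nat.card A ≤ 2 * Nat.card U := by
  let U : AddSubgroup (V n) :=
    { carrier := {v | ∃ x ∈ A, x.v = v}
      zero_mem' := ⟨1, one_mem _, rfl⟩
      add_mem' := by rintro _ _ ⟨x, hx, rfl⟩ ⟨y, hy, rfl⟩; exact ⟨x * y, mul_mem hx hy, rfl⟩
      neg_mem' := by
        rintro _ ⟨x, hx, rfl⟩
        exact ⟨x, hx, (neg_eq_of_add_eq_zero_left (v_add_self x.v)).symm⟩ }
  refine ⟨U, ?_, ?_⟩
  · rintro _ ⟨x, hx, rfl⟩
    have h := hA.2 x hx
    rw [pow_two, sq_eq] at h
    exact congrArg EX.c h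
  · have h := Nat.card_le_card_of_injective (fun x : A => ((⟨x.1.v, x.1, x.2, rfl⟩ : U), x.1.c))
      (fun x y h => Subtype.ext (EX.ext (congrArg (fun p => (p.1 : V n)) h) (congrArg Prod.snd h)))
    rw [Nat.card_prod, Nat.card_zmod] at h
    linarith

theorem el_exists {m : ℕ} (φ : (Fin m → ZMod 2) →+ V n) (hφ : Function.Injective φ)
    (h0 : ∀ a b, beta ε (φ a) (φ b) = 0) :
    ∃ A : Subgroup (EX ε), Cfsg.IsElementaryAbelian 2 A ∧ Nat.card A = 2 ^ (m + 1) := by
  let A : Subgroup (EX ε) :=
    { carrier := {x | x.v ∈ φ.range}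
      one_mem' := φ.range.zero_mem
      mul_mem' := fun {x y} hx hy => φ.range.add_mem hx hy
      inv_mem' := fun {x} hx => hx }
  have hb : ∀ x ∈ A, ∀ y ∈ A, beta ε x.v y.v = 0 := by
    rintro x ⟨a, ha⟩ y ⟨b, hb⟩
    rw [← ha, ← hb, h0]
  refine ⟨A, ⟨⟨⟨fun x y => Subtype.ext ((commute_iff _ _).mpr ?_)⟩⟩, fun x hx => ?_⟩, ?_⟩
  · rw [bb_eq ε, hb _ x.2 _ y.2, hb _ y.2 _ x.2, add_zero]
  · rw [pow_two, sq_eq, hb x hx x hx]; rfl
  · rw [Nat.card_congr (show A ≃ φ.range × ZMod 2 from
      { toFun := fun x => (⟨x.1.v, x.2⟩, x.1.c), invFun := fun p => ⟨⟨p.1.1, p.2⟩, p.1.2⟩ }), Nat.card_prod,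
      ← Nat.card_congr (AddMonoidHom.ofInjective hφ).toEquiv]
    simp [pow_succ]

/-- For every n ≥ 1 there exist finite extraspecial 2-groups of order 2^(2n+1) whose 2-rank (the largest rank of an elementary abelian subgroup) is n, and ones whose 2-rank is n + 1 (so for each such order there are two non-isomorphic extraspecial 2-groups, told apart by their 2-rank). -/
theorem result (n : ℕ) (hn : 1 ≤ n) : ∀ r ∈ ({n, n + 1} : Set ℕ), ∃ (E : Type) (_ : Group E) (_ : Finite E), Cfsg.IsExtraspecial 2 E ∧ Nat.card E = 2 ^ (2 * n + 1) ∧ sSup {k : ℕ | ∃ A : Subgroup E, Cfsg.IsElementaryAbelian 2 A ∧ Nat.card A = 2 ^ k} = r := by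
  have hbound : ∀ (ε : Fin n → ZMod 2) (k : ℕ) (A : Subgroup (EX ε)), Cfsg.IsElementaryAbelian 2 A →
      Nat.card A = 2 ^ k → k ≤ n + 1 ∧ (k = n + 1 → ∑ v : V n, chi (beta ε v v) = 2 ^ n) := by
    intro ε k A hA hc
    obtain ⟨U, hU, hle⟩ := el_bound hA
    obtain ⟨h1, h2⟩ := singular_card ε U hU
    rw [card_V] at h1 h2
    have hUle : Nat.card U ≤ 2 ^ n := Nat.mul_self_le_mul_self_iff.mp h1
    have hk : (2 : ℕ) ^ k ≤ 2 ^ (n + 1) := by rw [pow_succ]; omega
    refine ⟨(Nat.pow_le_pow_iff_right (by norm_num)).mp hk, fun e => ?_⟩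
    subst e
    rw [pow_succ] at hc
    have hU' : Nat.card U = 2 ^ n := by omega
    rw [h2 (by rw [hU']), hU']
    norm_num
  intro r hr
  rcases hr with rfl | hr
  · obtain ⟨m, rfl⟩ := Nat.exists_eq_succ_of_ne_zero (by omega : r ≠ 0)
    let ε : Fin (m + 1) → ZMod 2 := Fin.cons 1 0
    refine ⟨EX ε, inferInstance, inferInstance, extraspecial hn, card_EX, IsGreatest.csSup_eq ⟨?_, ?_⟩⟩
    · let φ : (Fin m → ZMod 2) →+ V (m + 1) :=
        { toFun := fun a => Fin.cons (0, 0) fun i => (a i, 0)
          map_zero' := by funext i; refine Fin.cases ?_ (fun j => ?_) i <;> simp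
          map_add' := fun a b => by funext i; refine Fin.cases ?_ (fun j => ?_) i <;> simp }
      obtain ⟨A, hA, hc⟩ := el_exists (ε := ε) φ
        (fun a b h => funext fun i => by simpa [φ] using congrArg (fun f => (f i.succ).1) h)
        (fun a b => by simp [beta, φ, ε, Fin.sum_univ_succ])
      exact ⟨A, hA, hc⟩
    · rintro k ⟨A, hA, hc⟩
      obtain ⟨h1, h2⟩ := hbound ε k A hA hc
      by_contra hk
      have := h2 (by omega)
      rw [gauss, Fin.prod_univ_succ] at this
      simp [ε] at this
      rw [pow_succ] at this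
      have hpos : (0 : ℤ) < 2 ^ m := by positivity
      linarith
  · obtain rfl : r = n + 1 := hr
    refine ⟨EX (0 : Fin n → ZMod 2), inferInstance, inferInstance, extraspecial hn, card_EX,
      IsGreatest.csSup_eq ⟨?_, ?_⟩⟩
    · let φ : (Fin n → ZMod 2) →+ V n :=
        { toFun := fun a i => (a i, 0)
          map_zero' := rfl
          map_add' := fun a b => by funext i; simp }
      obtain ⟨A, hA, hc⟩ := el_exists (ε := (0 : Fin n → ZMod 2)) φ
        (fun a b h => funext fun i => by simpa [φ] using congrArg (fun f => (f i).1) h)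
        (fun a b => by simp [beta, φ])
      exact ⟨A, hA, hc⟩
    · rintro k ⟨A, hA, hc⟩
      exact (hbound _ k A hA hc).1

end Cfsg.Agent.S5396
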