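import Cfsg.Statements.S5420
import Cfsg.Agent.Lib.Core

set_option autoImplicit false
set_option linter.all false
open Cfsg

namespace Cfsg.Agent.S5420
open scoped commutatorElement


/-- Let Q be an extraspecial 2-subgroup of the finite group G whose centralizer in G is its centre Z and which is normal in the centralizer of Z. If Z lies in the largest normal 2-subgroup of G, then Q is a large extraspecial 2-subgroup of G: it normalizes no non-trivial subgroup of G of odd order. -/
theorem result {G : Type*} [Group G] [Finite G] (Q : Subgroup G) (hL1 : Cfsg.IsExtraspecial 2 ↥Q) (hL2 : Subgroup.centralizer (Q : Set G) = ((Subgroup.center ↥Q).map Q.subtype)) (hL3 : Subgroup.centralizer (((Subgroup.center ↥Q).map Q.subtype) : Set G) ≤ Subgroup.normalizer (Q : Set G)) (hZ : ((Subgroup.center ↥Q).map Q.subtype) ≤ Cfsg.pCore 2 G) : Cfsg.IsLargeExtraspecial Q := by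
  haveI : Fact (Nat.Prime 2) := ⟨Nat.prime_two⟩
  refine ⟨hL1, hL2, hL3, fun K hK hQK => ?_⟩
  set Z := (Subgroup.center ↥Q).map Q.subtype with hZdef
  have hZQ : Z ≤ Q := Subgroup.map_subtype_le _
  have hKZ : K ≤ Subgroup.centralizer (Z : Set G) := by
    intro k hk z hz
    have h1 : ⁅z, k⁆ ∈ K := by
      rw [commutatorElement_def]
      exact K.mul_mem ((Subgroup.mem_normalizer_iff.mp (hQK (hZQ hz)) k).mp hk) (K.inv_mem hk)
    haveI : (Cfsg.pCore 2 G).Normal := by
      haveI := CfsgLib.Core.pCore_characteristic (G := G) 2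
      infer_instance
    have h2 : ⁅z, k⁆ ∈ Cfsg.pCore 2 G := by
      rw [commutatorElement_def, mul_assoc, mul_assoc]
      refine Subgroup.mul_mem _ (hZ hz) ?_
      rw [← mul_assoc]
      exact Subgroup.Normal.conj_mem inferInstance _ (Subgroup.inv_mem _ (hZ hz)) k
    have hdis : K ⊓ Cfsg.pCore 2 G = ⊥ := by
      obtain ⟨n, hn⟩ := IsPGroup.iff_card.mp (CfsgLib.Core.isPGroup_pCore (G := G) 2)
      refine Subgroup.inf_eq_bot_of_coprime ?_
      rw [hn]
      exact (Nat.coprime_two_right.mpr hK).pow_right n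
    have h3 : ⁅z, k⁆ ∈ K ⊓ Cfsg.pCore 2 G := ⟨h1, h2⟩
    rw [hdis, Subgroup.mem_bot, commutatorElement_eq_one_iff_mul_comm] at h3
    exact h3
  have hdisQ : K ⊓ Q = ⊥ := by
    obtain ⟨n, hn⟩ := IsPGroup.iff_card.mp hL1.1.1
    refine Subgroup.inf_eq_bot_of_coprime ?_
    rw [hn]
    exact (Nat.coprime_two_right.mpr hK).pow_right n
  have hKC : K ≤ Subgroup.centralizer (Q : Set G) := by
    intro k hk q hq
    have h1 : ⁅q, k⁆ ∈ K := by
      rw [commutatorElement_def]
      exact K.mul_mem ((Subgroup.mem_normalizer_iff.mp (hQK hq) k).mp hk) (K.inv_mem hk)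
    have h2 : ⁅q, k⁆ ∈ Q := by
      rw [commutatorElement_def, mul_assoc, mul_assoc]
      refine Q.mul_mem hq ?_
      rw [← mul_assoc]
      exact (Subgroup.mem_normalizer_iff.mp (hL3 (hKZ hk)) _).mp (Q.inv_mem hq)
    have h3 : ⁅q, k⁆ ∈ K ⊓ Q := ⟨h1, h2⟩
    rw [hdisQ, Subgroup.mem_bot, commutatorElement_eq_one_iff_mul_comm] at h3
    exact h3
  rw [hL2] at hKC
  rw [← le_bot_iff, ← hdisQ]
  exact le_inf le_rfl (hKC.trans hZQ)

end Cfsg.Agent.S5420
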