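import Cfsg.Statements.S5421
import Cfsg.Agent.Lib.Core

set_option autoImplicit false
open Cfsg

namespace Cfsg.Agent.S5421

open scoped commutatorElement

variable {G : Type*} [Group G] [Finite G]

theorem commutes_of_mutual {K Q : Subgroup G} {a x : G} (ha : a ∈ Q) (hx : x ∈ K) (hdis : K ⊓ Q = ⊥)
    (hQK : a ∈ Subgroup.normalizer (K : Set G)) (hKQ : x ∈ Subgroup.normalizer (Q : Set G)) : a * x = x * a := by
  have h1 : ⁅a, x⁆ ∈ K := by
    rw [commutatorElement_def]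
    exact K.mul_mem ((Subgroup.mem_normalizer_iff.mp hQK x).mp hx) (K.inv_mem hx)
  have h2 : ⁅a, x⁆ ∈ Q := by
    rw [commutatorElement_def, mul_assoc, mul_assoc]
    refine Q.mul_mem ha ?_
    rw [← mul_assoc]
    exact (Subgroup.mem_normalizer_iff.mp hKQ _).mp (Q.inv_mem ha)
  have h3 : ⁅a, x⁆ ∈ K ⊓ Q := ⟨h1, h2⟩
  rw [hdis, Subgroup.mem_bot, commutatorElement_eq_one_iff_mul_comm] at h3
  exact h3

theorem inverts {K : Subgroup G} {z : G} (hz : z * z = 1) (hn : z ∈ Subgroup.normalizer (K : Set G))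
    (hfix : ∀ x ∈ K, z * x = x * z → x = 1) : ∀ x ∈ K, z * x * z⁻¹ = x⁻¹ := by
  let f : ↥K → ↥K := fun x => ⟨(x : G)⁻¹ * (z * x * z⁻¹), K.mul_mem (K.inv_mem x.2) ((Subgroup.mem_normalizer_iff.mp hn _).mp x.2)⟩
  have hf : Function.Injective f := by
    intro x y hxy
    have h : (x : G)⁻¹ * (z * x * z⁻¹) = (y : G)⁻¹ * (z * y * z⁻¹) := congrArg Subtype.val hxy
    refine Subtype.ext ?_
    have h1 := hfix ((y : G) * (x : G)⁻¹) (K.mul_mem y.2 (K.inv_mem x.2)) (by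
      calc z * ((y : G) * (x : G)⁻¹) = (z * y * z⁻¹) * (z * x * z⁻¹)⁻¹ * z := by group
        _ = (y : G) * ((y : G)⁻¹ * (z * y * z⁻¹)) * (z * x * z⁻¹)⁻¹ * z := by group
        _ = (y : G) * ((x : G)⁻¹ * (z * x * z⁻¹)) * (z * x * z⁻¹)⁻¹ * z := by rw [h]
        _ = _ := by group)
    exact (mul_inv_eq_one.mp h1).symm
  intro x hx
  obtain ⟨y, hy⟩ := (Finite.injective_iff_surjective.mp hf) ⟨x, hx⟩
  have h : (y : G)⁻¹ * (z * y * z⁻¹) = x := congrArg Subtype.val hy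
  have hz' : z⁻¹ = z := inv_eq_of_mul_eq_one_left hz
  rw [← h]
  simp only [hz', mul_inv_rev]
  calc z * ((y : G)⁻¹ * (z * (y : G) * z)) * z = z * (y : G)⁻¹ * z * (y : G) * (z * z) := by group
    _ = _ := by rw [hz]; simp [mul_assoc]

/-- Let Q be an extraspecial 2-subgroup of the finite group G whose centralizer in G is its centre Z and which is normal in the centralizer of Z. If some involution b of Q outside Z has Z inside the largest normal 2-subgroup of the centralizer of b, then Q is a large extraspecial 2-subgroup of G. -/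
theorem result {G : Type*} [Group G] [Finite G] (Q : Subgroup G) (hL1 : Cfsg.IsExtraspecial 2 ↥Q) (hL2 : Subgroup.centralizer (Q : Set G) = ((Subgroup.center ↥Q).map Q.subtype)) (hL3 : Subgroup.centralizer (((Subgroup.center ↥Q).map Q.subtype) : Set G) ≤ Subgroup.normalizer (Q : Set G)) (b : G) (hbQ : b ∈ Q) (hbZ : b ∉ ((Subgroup.center ↥Q).map Q.subtype)) (hb : orderOf b = 2) (hZ : ((Subgroup.center ↥Q).map Q.subtype) ≤ (Cfsg.pCore 2 ↥(Subgroup.centralizer ({b} : Set G))).map (Subgroup.centralizer ({b} : Set G)).subtype) : Cfsg.IsLargeExtraspecial Q := by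
  classical
  haveI : Fact (Nat.Prime 2) := ⟨Nat.prime_two⟩
  refine ⟨hL1, hL2, hL3, fun K hK hQK => ?_⟩
  obtain ⟨Z, hZdef⟩ : ∃ Z, Z = (Subgroup.center ↥Q).map Q.subtype := ⟨_, rfl⟩
  rw [← hZdef] at hL2 hL3 hbZ hZ
  have hcop : ∀ R : Subgroup G, IsPGroup 2 ↥R → K ⊓ R = ⊥ := fun R hR => by
    obtain ⟨n, hn⟩ := IsPGroup.iff_card.mp hR
    refine Subgroup.inf_eq_bot_of_coprime ?_
    rw [hn]
    exact (Nat.coprime_two_right.mpr hK).pow_right n
  have hdisQ := hcop Q hL1.1.1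
  have hZQ : Z ≤ Q := hZdef ▸ Subgroup.map_subtype_le _
  have hfixZ : ∀ x ∈ K, x ∈ Subgroup.centralizer (Z : Set G) → x = 1 := by
    intro x hx hxZ
    have h1 : x ∈ Subgroup.centralizer (Q : Set G) := Subgroup.mem_centralizer_iff.mpr fun q hq =>
      commutes_of_mutual hq hx hdisQ (hQK hq) (hL3 hxZ)
    rw [hL2] at h1
    have h2 : x ∈ K ⊓ Q := ⟨hx, hZQ h1⟩
    rwa [hdisQ, Subgroup.mem_bot] at h2
  have hZc : Nat.card ↥Z = 2 := by rw [hZdef, Subgroup.card_subtype, hL1.2]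
  haveI : Nontrivial ↥Z := Finite.one_lt_card_iff_nontrivial.mp (hZc.symm ▸ one_lt_two)
  obtain ⟨z, hz⟩ := exists_ne (1 : ↥Z)
  have hall : ∀ w ∈ Z, w = 1 ∨ w = (z : G) := by
    intro w hw
    by_contra h
    push_neg at h
    have h3 : ({1, z, ⟨w, hw⟩} : Finset ↥Z).card = 3 := Finset.card_eq_three.mpr
      ⟨1, z, ⟨w, hw⟩, hz.symm, fun e => h.1 (congrArg Subtype.val e).symm, fun e => h.2 (congrArg Subtype.val e).symm, rfl⟩
    haveI := Fintype.ofFinite ↥Z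
    have := Finset.card_le_univ ({1, z, ⟨w, hw⟩} : Finset ↥Z)
    rw [← Nat.card_eq_fintype_card, hZc] at this
    omega
  have hzz : (z : G) * z = 1 := by
    rcases hall _ (Z.mul_mem z.2 z.2) with h | h
    · exact h
    · exact absurd (Subtype.ext (mul_eq_left.mp h)) hz
  have hzfix : ∀ x ∈ K, (z : G) * x = x * z → x = 1 := fun x hx h => hfixZ x hx
    (Subgroup.mem_centralizer_iff.mpr fun w hw => by rcases hall w hw with rfl | rfl <;> simp [h])
  obtain ⟨C, hC⟩ : ∃ C, C = Subgroup.centralizer ({b} : Set G) := ⟨_, rfl⟩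
  rw [← hC] at hZ
  have hbfix : ∀ x ∈ K, b * x = x * b → x = 1 := by
    intro x hx h
    have hxC : x ∈ C := hC ▸ Subgroup.mem_centralizer_singleton_iff.mpr h.symm
    refine hzfix x hx (commutes_of_mutual (hZ z.2) hx (hcop _ ((CfsgLib.Core.isPGroup_pCore 2).map _)) (hQK (hZQ z.2)) ?_)
    haveI := CfsgLib.Core.pCore_characteristic (G := ↥C) 2
    have hle : C ≤ Subgroup.normalizer ((Cfsg.pCore 2 ↥C).map C.subtype : Set G) := by
      refine (Subgroup.normal_subgroupOf_iff_le_normalizer (Subgroup.map_subtype_le _)).mp ?_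
      rw [Subgroup.subgroupOf, Subgroup.comap_map_eq_self_of_injective C.subtype_injective]
      infer_instance
    exact hle hxC
  have hbb : b * b = 1 := by rw [← pow_two]; exact hb ▸ pow_orderOf_eq_one b
  have iz := inverts hzz (hQK (hZQ z.2)) hzfix
  have ib := inverts hbb (hQK hbQ) hbfix
  -- a conjugate of `b` is `z * b`
  obtain ⟨q, hq⟩ : ∃ q : ↥Q, q * ⟨b, hbQ⟩ ≠ ⟨b, hbQ⟩ * q := by
    by_contra h
    push_neg at h
    exact hbZ (hZdef ▸ ⟨⟨b, hbQ⟩, Subgroup.mem_center_iff.mpr h, rfl⟩)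
  have hqz : ((⁅q, ⟨b, hbQ⟩⁆ : ↥Q) : G) = (z : G) := by
    have hmem : (⁅q, ⟨b, hbQ⟩⁆ : ↥Q) ∈ Subgroup.center ↥Q := by
      rw [← hL1.1.2.2, commutator_def]
      exact Subgroup.commutator_mem_commutator (Subgroup.mem_top _) (Subgroup.mem_top _)
    rcases hall _ (hZdef ▸ ⟨_, hmem, rfl⟩ : (((⁅q, ⟨b, hbQ⟩⁆ : ↥Q)) : G) ∈ Z) with h | h
    · exact absurd (commutatorElement_eq_one_iff_mul_comm.mp (Subtype.ext h)) hq
    · exact h
  have hconj : (q : G) * b * (q : G)⁻¹ = (z : G) * b := by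
    rw [← hqz]
    show _ = (q : G) * b * (q : G)⁻¹ * b⁻¹ * b
    rw [inv_mul_cancel_right]
  rw [eq_bot_iff]
  intro x hx
  refine Subgroup.mem_bot.mpr (hbfix x hx ?_)
  have hy : (q : G) * x * (q : G)⁻¹ ∈ K := (Subgroup.mem_normalizer_iff.mp (hQK q.2) x).mp hx
  have h1 : ((z : G) * b) * ((q : G) * x * (q : G)⁻¹) * ((z : G) * b)⁻¹ = (q : G) * x * (q : G)⁻¹ := by
    calc ((z : G) * b) * ((q : G) * x * (q : G)⁻¹) * ((z : G) * b)⁻¹
        = (z : G) * (b * ((q : G) * x * (q : G)⁻¹) * b⁻¹) * (z : G)⁻¹ := by group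
      _ = _ := by rw [ib _ hy, iz _ (K.inv_mem hy), inv_inv]
  have h2 : b * x * b⁻¹ = x := by
    have h4 : (q : G) * (b * x * b⁻¹) * (q : G)⁻¹ = (q : G) * x * (q : G)⁻¹ := by
      rw [← hconj] at h1
      calc (q : G) * (b * x * b⁻¹) * (q : G)⁻¹ = ((q : G) * b * (q : G)⁻¹) * ((q : G) * x * (q : G)⁻¹) * ((q : G) * b * (q : G)⁻¹)⁻¹ := by group
        _ = _ := h1
    simpa using h4
  exact mul_inv_eq_iff_eq_mul.mp h2

end Cfsg.Agent.S5421
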