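import Cfsg.Statements.S5433
import Cfsg.Agent.Lib.Inv.TwoCentral

set_option autoImplicit false
set_option linter.all false
open Cfsg

namespace Cfsg.Agent.S5433

/-- Let Q be a large extraspecial 2-subgroup of the finite group G (extraspecial; centralizer equal to its centre; normal in the centralizer of its centre; normalizing no non-trivial subgroup of odd order), and L a normal subgroup of G containing Q. Then G is the product of L and the normalizer of Q. -/
theorem result {G : Type*} [Group G] [Finite G] (Q : Subgroup G) (hQ : Cfsg.IsLargeExtraspecial Q) (L : Subgroup G) [L.Normal] (hQL : Q ≤ L) : L ⊔ Subgroup.normalizer (Q : Set G) = ⊤ := by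
  haveI : Fact (Nat.Prime 2) := ⟨Nat.prime_two⟩
  obtain ⟨hex, hcQ, hCN, -⟩ := hQ
  set Z := (Subgroup.center ↥Q).map Q.subtype with hZdef
  have hcardZ : Nat.card ↥Z = 2 := by
    rw [hZdef, Nat.card_congr (Subgroup.equivMapOfInjective _ _ Q.subtype_injective).symm.toEquiv]
    exact hex.2
  obtain ⟨P, hP⟩ := (hex.1.1.comap_subtype (K := L)).exists_le_sylow
  set P' := (P : Subgroup ↥L).map L.subtype with hP'
  have hQP : Q ≤ P' := fun q hq => ⟨⟨q, hQL hq⟩, hP hq, rfl⟩
  have hQne : P' ≠ ⊥ := by
    intro h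
    rw [h, le_bot_iff] at hQP
    have := Subgroup.card_le_of_le (show Z ≤ ⊥ from hQP ▸ Subgroup.map_subtype_le _)
    rw [hcardZ, Subgroup.card_bot] at this
    omega
  obtain ⟨z, hzP, hz2, hzc⟩ := CfsgLib.TwoCentral.exists_central_involution (P.2.map L.subtype) hQne
  have hzZ : z ∈ Z := by
    rw [← hcQ]
    exact fun q hq => hzc q (hQP hq)
  have hZeq : Subgroup.zpowers z = Z :=
    Subgroup.eq_of_le_of_card_ge (Subgroup.zpowers_le.mpr hzZ) (by rw [hcardZ, Nat.card_zpowers, hz2])
  have hN : Subgroup.normalizer (P' : Set G) ≤ Subgroup.normalizer (Q : Set G) := by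
    refine le_trans (fun g hg => ?_) hCN
    -- `g` maps `z` to a central involution of `P'`, so to `z`
    have hgz : g * z * g⁻¹ ∈ Z := by
      rw [← hcQ]
      intro q hq
      have hq' := (Subgroup.mem_normalizer_iff''.mp hg q).mp (hQP hq)
      have h := hzc _ hq'
      calc q * (g * z * g⁻¹) = g * ((g⁻¹ * q * g) * z) * g⁻¹ := by group
        _ = g * (z * (g⁻¹ * q * g)) * g⁻¹ := by rw [h]
        _ = _ := by group
    rw [← hZeq] at hgz
    have heq : g * z * g⁻¹ = z := by
      obtain ⟨k, hk⟩ := Subgroup.mem_zpowers_iff.mp hgz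
      obtain ⟨i, rfl⟩ | ⟨i, rfl⟩ := Int.even_or_odd k
      · rw [← two_mul, zpow_mul, zpow_two, CfsgLib.Involution.mul_self hz2, one_zpow] at hk
        exact absurd (conj_eq_one_iff.mp hk.symm) (CfsgLib.Involution.ne_one hz2)
      · rw [zpow_add_one, zpow_mul, zpow_two, CfsgLib.Involution.mul_self hz2, one_zpow, one_mul] at hk
        exact hk.symm
    rw [← hZeq, Subgroup.zpowers_eq_closure, Subgroup.centralizer_closure,
      Subgroup.mem_centralizer_singleton_iff]
    exact mul_inv_eq_iff_eq_mul.mp heq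
  have := Sylow.normalizer_sup_eq_top P
  rw [← top_le_iff, ← this, sup_comm L]
  exact sup_le_sup_right hN L

end Cfsg.Agent.S5433
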