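import Cfsg.Statements.S5434
import Cfsg.Agent.Lib.Extra2.Basic
import Cfsg.Agent.Lib.GroupB.Coprime
import Cfsg.Agent.Lib.LocalBasic
import Cfsg.Agent.Lib.Solvable.Frattini

set_option autoImplicit false
open Cfsg
open scoped commutatorElement

namespace Cfsg.Agent.S5434

open CfsgLib.Extra2

/-- A subgroup with centre and commutators in `{1, z}` having more than two elements is extraspecial. -/
theorem extraspecial_of_isExt {G : Type*} [Group G] [Finite G] {z : G} {E : Subgroup G} (hE : IsExt z E)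
    (hbig : ∃ v ∈ E, v ≠ 1 ∧ v ≠ z) : Cfsg.IsExtraspecial 2 ↥E := by
  classical
  have : Fact (Nat.Prime 2) := ⟨Nat.prime_two⟩
  have hp : IsPGroup 2 ↥E := fun a => ⟨2, by
    apply Subtype.ext
    have e : (a : G) ^ (2 ^ 2) = (a.1 * a.1) * (a.1 * a.1) := by
      rw [show (2 : ℕ) ^ 2 = 2 + 2 by norm_num, pow_add, pow_two]
    rw [SubgroupClass.coe_pow, OneMemClass.coe_one, e]
    rcases hE.sq_mem a.2 with h | h <;> rw [h]
    · rw [one_mul]
    · exact hE.sq⟩
  have hzc : (⟨z, hE.mem⟩ : ↥E) ∈ Subgroup.center ↥E :=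
    Subgroup.mem_center_iff.mpr fun g => Subtype.ext (hE.central g.1 g.2).eq
  have hmemc : ∀ v : ↥E, v ∈ Subgroup.center ↥E ↔ (v = 1 ∨ v = ⟨z, hE.mem⟩) := by
    intro v
    refine ⟨fun hv => ?_, ?_⟩
    · rcases hE.center v.1 v.2 (fun a ha => congrArg Subtype.val (Subgroup.mem_center_iff.mp hv ⟨a, ha⟩)) with h | h
      · exact Or.inl (Subtype.ext h)
      · exact Or.inr (Subtype.ext h)
    · rintro (rfl | rfl)
      · exact Subgroup.one_mem _
      · exact hzc
  have hcard : Nat.card ↥(Subgroup.center ↥E) = 2 := by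
    rw [Nat.card_eq_two_iff]
    refine ⟨1, ⟨⟨z, hE.mem⟩, hzc⟩, fun h => hE.ne_one ?_, ?_⟩
    · exact (congrArg (fun t : ↥(Subgroup.center ↥E) => ((t : ↥E) : G)) h).symm
    · rw [Set.eq_univ_iff_forall]
      intro v
      rcases (hmemc v.1).mp v.2 with h | h
      · exact Or.inl (Subtype.ext h)
      · exact Or.inr (Subtype.ext h)
  have hcomm : ∀ a b : ↥E, ⁅a, b⁆ ∈ Subgroup.center ↥E := by
    intro a b
    rw [hmemc]
    rcases hE.comm_cases a.2 b.2 with h | h
    · exact Or.inl (Subtype.ext (by simpa [commutatorElement_def] using h))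
    · exact Or.inr (Subtype.ext (by simpa [commutatorElement_def] using h))
  have hcc : commutator ↥E = Subgroup.center ↥E := by
    apply le_antisymm
    · rw [commutator_def, Subgroup.commutator_le]; exact fun a _ b _ => hcomm a b
    · obtain ⟨v, hv, hv1, hvz⟩ := hbig
      obtain ⟨w, hw, hvw⟩ : ∃ w ∈ E, ¬ Commute w v := by
        by_contra hcon
        push Not at hcon
        rcases hE.center v hv hcon with h | h
        · exact hv1 h
        · exact hvz h
      have hz' : (⟨z, hE.mem⟩ : ↥E) = ⁅(⟨w, hw⟩ : ↥E), (⟨v, hv⟩ : ↥E)⁆ := by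
        rcases hE.comm_cases hw hv with h | h
        · exact absurd (commutatorElement_eq_one_iff_mul_comm.mp h) hvw
        · exact Subtype.ext (by simpa [commutatorElement_def] using h.symm)
      intro c hc
      rcases (hmemc c).mp hc with rfl | rfl
      · exact Subgroup.one_mem _
      · rw [hz']; exact Subgroup.commutator_mem_commutator (Subgroup.mem_top _) (Subgroup.mem_top _)
  refine ⟨⟨hp, ?_, hcc⟩, hcard⟩
  apply le_antisymm
  · refine CfsgLib.LocalBasic.frattini_le_of_elementary_quotient (p := 2) _ hcomm fun a => ?_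
    rw [hmemc, pow_two]
    rcases hE.sq_mem a.2 with h | h
    · exact Or.inl (Subtype.ext h)
    · exact Or.inr (Subtype.ext h)
  · rw [← hcc]
    have := hp.isNilpotent
    exact CfsgLib.Solvable.commutator_le_frattini (F := (⊤ : Subgroup ↥E)) inferInstance

/-- Let Q be a large extraspecial 2-subgroup of the finite group G (extraspecial; centralizer equal to its centre; normal in the centralizer of its centre; normalizing no non-trivial subgroup of odd order), and A a non-trivial subgroup of odd order of the normalizer of Q. Then Q is the central product of the centralizer of A in Q and the commutator subgroup [Q, A] (they generate Q and commute elementwise), [Q, A] is extraspecial, and the centralizer of A in Q is either the centre of Q or extraspecial. -/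

theorem result {G : Type*} [Group G] [Finite G] (Q : Subgroup G) (hQ : Cfsg.IsLargeExtraspecial Q) (A : Subgroup G) (hA : A ≤ Subgroup.normalizer (Q : Set G)) (hAodd : Odd (Nat.card ↥A)) (hA1 : A ≠ ⊥) : (Q ⊓ Subgroup.centralizer (A : Set G)) ⊔ ⁅Q, A⁆ = Q ∧ (∀ x ∈ Q ⊓ Subgroup.centralizer (A : Set G), ∀ y ∈ ⁅Q, A⁆, x * y = y * x) ∧ Cfsg.IsExtraspecial 2 ↥⁅Q, A⁆ ∧ (Q ⊓ Subgroup.centralizer (A : Set G) = ((Subgroup.center ↥Q).map Q.subtype) ∨ Cfsg.IsExtraspecial 2 ↥(Q ⊓ Subgroup.centralizer (A : Set G))) := by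
  classical
  have : Fact (Nat.Prime 2) := ⟨Nat.prime_two⟩
  obtain ⟨hex, hcent, -, -⟩ := hQ
  obtain ⟨z, hE⟩ := isExt_of_extraspecial hex
  have hp : IsPGroup 2 ↥Q := hex.1.1
  obtain ⟨n, hn⟩ := IsPGroup.iff_card.mp hp
  have hcop : (Nat.card ↥A).Coprime (Nat.card ↥Q) := by
    rw [hn]; exact (Nat.coprime_two_right.mpr hAodd).pow_right n
  have : Group.IsNilpotent ↥Q := hp.isNilpotent
  have hsol : Group.IsSolvable ↥Q ∨ Group.IsSolvable ↥A := Or.inl inferInstance
  set C := Q ⊓ Subgroup.centralizer (A : Set G) with hCdef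
  set R := ⁅Q, A⁆ with hRdef
  have hsup : C ⊔ R = Q := CfsgLib.GroupB.Coprime.centralizer_sup_commutator hA hcop hsol
  have hRQ : R ≤ Q := CfsgLib.GroupB.Coprime.commutator_le_of_le_normalizer hA
  have haz : ∀ a ∈ A, Commute a z := by
    intro a ha
    have hm : a * z * a⁻¹ ∈ Q := (CfsgLib.GroupB.Coprime.conj_mem_iff (hA ha)).mpr hE.mem
    have hc : ∀ b ∈ Q, Commute b (a * z * a⁻¹) := by
      intro b hb
      have hb' : a⁻¹ * b * a ∈ Q := by
        have := (CfsgLib.GroupB.Coprime.conj_mem_iff (Subgroup.inv_mem _ (hA ha))).mpr hb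
        rwa [inv_inv] at this
      have e := (hE.central _ hb').eq
      show b * (a * z * a⁻¹) = a * z * a⁻¹ * b
      calc b * (a * z * a⁻¹) = a * ((a⁻¹ * b * a) * z) * a⁻¹ := by group
        _ = a * (z * (a⁻¹ * b * a)) * a⁻¹ := by rw [e]
        _ = _ := by group
    rcases hE.center _ hm hc with h | h
    · exact absurd (by simpa using h) hE.ne_one
    · exact mul_inv_eq_iff_eq_mul.mp h
  have hcomm : ∀ x ∈ C, ∀ y ∈ R, x * y = y * x := by
    intro x hx y hy
    have hle : R ≤ Subgroup.centralizer ({x} : Set G) := by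
      rw [hRdef, Subgroup.commutator_le]
      intro q hq a ha
      rw [Subgroup.mem_centralizer_singleton_iff]
      have hxa : a * x = x * a := Subgroup.mem_centralizer_iff.mp hx.2 a ha
      have hxa' : x * a * x⁻¹ = a := by rw [← hxa, mul_inv_cancel_right]
      rcases hE.conj_cases hx.1 hq with e | e
      · have e2 : x * ⁅q, a⁆ * x⁻¹ = ⁅q, a⁆ := by
          calc x * ⁅q, a⁆ * x⁻¹ = ⁅x * q * x⁻¹, x * a * x⁻¹⁆ := by simp only [commutatorElement_def]; group
            _ = ⁅q, a⁆ := by rw [e, hxa']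
        exact (mul_inv_eq_iff_eq_mul.mp e2).symm
      · have e2 : x * ⁅q, a⁆ * x⁻¹ = ⁅q, a⁆ := by
          calc x * ⁅q, a⁆ * x⁻¹ = ⁅x * q * x⁻¹, x * a * x⁻¹⁆ := by simp only [commutatorElement_def]; group
            _ = ⁅q * z, a⁆ := by rw [e, hxa']
            _ = q * (z * a * z⁻¹) * q⁻¹ * a⁻¹ := by simp only [commutatorElement_def]; group
            _ = ⁅q, a⁆ := by rw [← (haz a ha).eq, mul_inv_cancel_right, commutatorElement_def]
        exact (mul_inv_eq_iff_eq_mul.mp e2).symm
    exact (Subgroup.mem_centralizer_singleton_iff.mp (hle hy)).symm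
  -- the centre
  have hcenQ : ∀ v ∈ Q, (∀ a ∈ C, Commute a v) → (∀ a ∈ R, Commute a v) → v = 1 ∨ v = z := by
    intro v hv h1 h2
    refine hE.center v hv ?_
    have hle : Q ≤ Subgroup.centralizer ({v} : Set G) := by
      rw [← hsup, sup_le_iff]
      exact ⟨fun a ha => Subgroup.mem_centralizer_singleton_iff.mpr (h1 a ha).eq,
        fun a ha => Subgroup.mem_centralizer_singleton_iff.mpr (h2 a ha).eq⟩
    exact fun a ha => Subgroup.mem_centralizer_singleton_iff.mp (hle ha)
  have hRbig : ∃ v ∈ R, v ≠ 1 ∧ v ≠ z := by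
    by_contra hcon
    push Not at hcon
    have hsmall : ∀ v ∈ R, v = 1 ∨ v = z := fun v hv => or_iff_not_imp_left.mpr (hcon v hv)
    have h0 : ⁅R, A⁆ = ⊥ := by
      rw [Subgroup.commutator_eq_bot_iff_le_centralizer]
      intro v hv
      rw [Subgroup.mem_centralizer_iff]
      intro a ha
      rcases hsmall v hv with rfl | rfl
      · simp
      · exact (haz a ha).eq
    have hQA : Q ≤ Subgroup.centralizer (A : Set G) :=
      CfsgLib.GroupB.Coprime.le_centralizer_of_commutator_commutator hA hcop hsol h0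
    have hAQ : A ≤ Q := by
      refine le_trans ?_ ((hcent.le).trans (Subgroup.map_subtype_le _))
      intro a ha
      rw [Subgroup.mem_centralizer_iff]
      exact fun q hq => (Subgroup.mem_centralizer_iff.mp (hQA hq) a ha).symm
    have h1 : Nat.card ↥A = 1 := Nat.eq_one_of_dvd_coprimes hcop dvd_rfl (Subgroup.card_dvd_of_le hAQ)
    exact hA1 (Subgroup.eq_bot_of_card_eq _ h1)
  have hzR : z ∈ R := by
    obtain ⟨v, hv, hv1, hvz⟩ := hRbig
    have : ∃ w ∈ R, ¬ Commute w v := by
      by_contra hcon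
      push Not at hcon
      rcases hcenQ v (hRQ hv) (fun a ha => hcomm a ha v hv) hcon with h | h
      · exact hv1 h
      · exact hvz h
    obtain ⟨w, hw, hwv⟩ := this
    have e := hE.mul_eq_of_not_commute (hRQ hw) (hRQ hv) hwv
    have : z = (v * w)⁻¹ * (w * v) := by rw [e]; group
    rw [this]
    exact R.mul_mem (R.inv_mem (R.mul_mem hv hw)) (R.mul_mem hw hv)
  have hzC : z ∈ C := by
    refine ⟨hE.mem, ?_⟩
    show z ∈ Subgroup.centralizer (A : Set G)
    rw [Subgroup.mem_centralizer_iff]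
    exact fun a ha => (haz a ha).eq
  have hER : IsExt z R := ⟨hzR, hE.sq, hE.ne_one, fun a ha => hE.central a (hRQ ha),
    fun a ha b hb => hE.cases a (hRQ ha) b (hRQ hb),
    fun v hv hvc => hcenQ v (hRQ hv) (fun a ha => hcomm a ha v hv) hvc⟩
  have hEC : IsExt z C := ⟨hzC, hE.sq, hE.ne_one, fun a ha => hE.central a ha.1,
    fun a ha b hb => hE.cases a ha.1 b hb.1,
    fun v hv hvc => hcenQ v hv.1 hvc (fun a ha => (hcomm v hv a ha).symm)⟩
  refine ⟨hsup, hcomm, extraspecial_of_isExt hER hRbig, ?_⟩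
  by_cases hb : ∃ v ∈ C, v ≠ 1 ∧ v ≠ z
  · exact Or.inr (extraspecial_of_isExt hEC hb)
  · left
    push Not at hb
    apply le_antisymm
    · intro v hv
      refine ⟨⟨v, hv.1⟩, ?_, rfl⟩
      refine Subgroup.mem_center_iff.mpr fun g => Subtype.ext ?_
      show g.1 * v = v * g.1
      rcases eq_or_ne v 1 with rfl | h
      · simp
      · rw [hb v hv h]; exact (hE.central g.1 g.2).eq
    · rintro _ ⟨v, hv, rfl⟩
      rcases hE.center v.1 v.2 (fun a ha => congrArg Subtype.val (Subgroup.mem_center_iff.mp hv ⟨a, ha⟩)) with h | h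
      · show v.1 ∈ C
        rw [h]; exact C.one_mem
      · show v.1 ∈ C
        rw [h]; exact hzC

end Cfsg.Agent.S5434
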