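import Cfsg.Statements.S5437


set_option autoImplicit false
set_option linter.all false
open Cfsg

namespace Cfsg.Agent.S5437

/-- Let I be a set of involutions of the finite group G closed under conjugation, and H a subgroup of G. The following are equivalent: (1) for every member x of I lying in H, the conjugates of x lying in H form a single H-class and the centralizer of x lies in H; (2) for every g outside H, no member of I lies in both H and g H g⁻¹; (3) every member of I lying in H fixes exactly one coset in the action of G on the cosets of H. -/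
theorem result {G : Type*} [Group G] [Finite G] (I : Set G) (hI : ∀ x ∈ I, orderOf x = 2) (hIc : ∀ g : G, ∀ x ∈ I, g * x * g⁻¹ ∈ I) (H : Subgroup G) : ((∀ x ∈ I, x ∈ H → (∀ g : G, g * x * g⁻¹ ∈ H → ∃ h ∈ H, h * x * h⁻¹ = g * x * g⁻¹) ∧ Subgroup.centralizer ({x} : Set G) ≤ H) ↔ (∀ g : G, g ∉ H → ∀ x ∈ I, ¬ (x ∈ H ∧ x ∈ (H : Subgroup G).map (MulAut.conj g).toMonoidHom))) ∧ ((∀ g : G, g ∉ H → ∀ x ∈ I, ¬ (x ∈ H ∧ x ∈ (H : Subgroup G).map (MulAut.conj g).toMonoidHom)) ↔ ∀ x ∈ I, x ∈ H → ∃! c : G ⧸ H, x • c = c) := by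
  have key : ∀ (x g : G), x • (g : G ⧸ H) = g ↔ g⁻¹ * x * g ∈ H := by
    intro x g
    rw [MulAction.Quotient.smul_coe, smul_eq_mul, eq_comm, QuotientGroup.eq, mul_assoc]
  have hmap : ∀ (x g : G), x ∈ (H : Subgroup G).map (MulAut.conj g).toMonoidHom ↔ g⁻¹ * x * g ∈ H := by
    intro x g
    rw [Subgroup.mem_map_equiv, MulAut.conj_symm_apply]
  constructor
  · constructor
    · intro h g hg x hx ⟨hxH, hxg⟩
      rw [hmap] at hxg
      obtain ⟨h1, h2⟩ := h x hx hxH
      obtain ⟨k, hk, hk'⟩ := h1 g⁻¹ (by simpa using hxg)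
      simp only [inv_inv] at hk'
      have hc : g * k ∈ Subgroup.centralizer ({x} : Set G) := by
        rw [Subgroup.mem_centralizer_singleton_iff]
        calc g * k * x = g * (k * x * k⁻¹) * k := by group
          _ = g * (g⁻¹ * x * g) * k := by rw [hk']
          _ = x * (g * k) := by group
      exact hg (by simpa using H.mul_mem (h2 hc) (H.inv_mem hk))
    · intro h x hx hxH
      have hmem : ∀ g : G, g⁻¹ * x * g ∈ H → g ∈ H := fun g hg => by
        by_contra hgH
        exact h g hgH x hx ⟨hxH, (hmap x g).mpr hg⟩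
      refine ⟨fun g hg => ⟨g, ?_, rfl⟩, fun c hc => hmem c ?_⟩
      · simpa using H.inv_mem (hmem g⁻¹ (by simpa using hg))
      · rw [Subgroup.mem_centralizer_singleton_iff] at hc
        rw [mul_assoc, ← hc, inv_mul_cancel_left]
        exact hxH
  · constructor
    · intro h x hx hxH
      refine ⟨((1 : G) : G ⧸ H), (key x 1).mpr (by simpa using hxH), ?_⟩
      rintro ⟨g⟩ hg
      have hg' := (key x g).mp hg
      refine QuotientGroup.eq.mpr ?_
      simp only [mul_one]
      refine H.inv_mem ?_
      by_contra hgH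
      exact h g hgH x hx ⟨hxH, (hmap x g).mpr hg'⟩
    · intro h g hg x hx ⟨hxH, hxg⟩
      rw [hmap] at hxg
      obtain ⟨c, -, hc⟩ := h x hx hxH
      have h1 := hc _ ((key x g).mpr hxg)
      have h2 := hc _ ((key x 1).mpr (by simpa using hxH))
      rw [← h2, QuotientGroup.eq, mul_one] at h1
      exact hg (by simpa using H.inv_mem h1)

end Cfsg.Agent.S5437
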