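import Cfsg.Statements.S5438
import Cfsg.Agent.Lib.Inv.TwoCentral

set_option autoImplicit false
set_option linter.all false
open Cfsg

namespace Cfsg.Agent.S5438

/-- Let z be a 2-central involution of the finite group G (an involution central in some Sylow 2-subgroup) and H a subgroup containing z such that the coset H is the only coset of H fixed by z (in the action of G on the cosets of H). Then H has odd index in G, and for every 2-element x of H the conjugates of x lying in H form a single H-class. -/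
theorem result {G : Type*} [Group G] [Finite G] (z : G) (hz : Cfsg.IsTwoCentralInvolution z) (H : Subgroup G) (hzH : z ∈ H) (hfix : ∀ g : G, g⁻¹ * z * g ∈ H → g ∈ H) : Odd H.index ∧ ∀ x ∈ H, (∃ k : ℕ, orderOf x = 2 ^ k) → ∀ g : G, g * x * g⁻¹ ∈ H → ∃ h ∈ H, h * x * h⁻¹ = g * x * g⁻¹ := by
  haveI : Fact (Nat.Prime 2) := ⟨Nat.prime_two⟩
  obtain ⟨hz2, P, hzP, hPc⟩ := hz
  have hPH : (P : Subgroup G) ≤ H := CfsgLib.TwoCentral.le_of_unique_fixed P.2 hzP hzH hfix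
  constructor
  · rw [← Nat.not_even_iff_odd, even_iff_two_dvd]
    exact fun h => P.not_dvd_index (h.trans (Subgroup.index_dvd_of_le hPH))
  intro x hx hk g hg
  obtain ⟨k, hk⟩ := hk
  have step : ∀ y ∈ H, orderOf y = orderOf x → ∃ h ∈ H, Commute y (h * z * h⁻¹) := by
    intro y hy hyo
    have hp : IsPGroup 2 ↥((Subgroup.zpowers y).comap H.subtype) :=
      (IsPGroup.of_card (n := k) (by rw [Nat.card_zpowers, hyo, hk])).comap_subtype
    obtain ⟨Q, hQ⟩ := hp.exists_le_sylow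
    obtain ⟨h, hh⟩ := MulAction.exists_smul_eq ↥H Q (P.subtype hPH)
    have hmem : (⟨y, hy⟩ : ↥H) ∈ (Q : Subgroup ↥H) := hQ (Subgroup.mem_zpowers y)
    have h2 : h * ⟨y, hy⟩ * h⁻¹ ∈ ((P.subtype hPH : Sylow 2 ↥H) : Subgroup ↥H) := by
      rw [← hh, Sylow.coe_subgroup_smul, Subgroup.mem_pointwise_smul_iff_inv_smul_mem]
      simpa [MulAut.smul_def, mul_assoc] using hmem
    have h3 : (h : G) * y * (h : G)⁻¹ ∈ P := by
      show _ ∈ (P : Subgroup G)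
      simpa [Sylow.coe_subtype, Subgroup.mem_subgroupOf] using h2
    refine ⟨(h : G)⁻¹, H.inv_mem h.2, ?_⟩
    have h4 := hPc _ h3
    show y * ((h : G)⁻¹ * z * (h : G)⁻¹⁻¹) = (h : G)⁻¹ * z * (h : G)⁻¹⁻¹ * y
    calc y * ((h : G)⁻¹ * z * (h : G)⁻¹⁻¹) = (h : G)⁻¹ * (((h : G) * y * (h : G)⁻¹) * z) * h := by group
      _ = (h : G)⁻¹ * (z * ((h : G) * y * (h : G)⁻¹)) * h := by rw [h4]
      _ = _ := by group
  obtain ⟨h1, hh1, hc1⟩ := step x hx rfl
  obtain ⟨h2, hh2, hc2⟩ := step _ hg (CfsgLib.Involution.orderOf_conj g x)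
  set C := Subgroup.centralizer ({x} : Set G) with hC
  set z1 := h1 * z * h1⁻¹ with hz1
  set z2 := g⁻¹ * (h2 * z * h2⁻¹) * g with hz2'
  have hm1 : z1 ∈ C := Subgroup.mem_centralizer_singleton_iff.mpr hc1.eq.symm
  have hm2 : z2 ∈ C := by
    refine Subgroup.mem_centralizer_singleton_iff.mpr ?_
    rw [hz2']
    calc g⁻¹ * (h2 * z * h2⁻¹) * g * x = g⁻¹ * ((h2 * z * h2⁻¹) * (g * x * g⁻¹)) * g := by group
      _ = g⁻¹ * ((g * x * g⁻¹) * (h2 * z * h2⁻¹)) * g := by rw [hc2.eq.symm]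
      _ = x * (g⁻¹ * (h2 * z * h2⁻¹) * g) := by group
  have ho1 : orderOf z1 = 2 := CfsgLib.Involution.orderOf_conj' hz2
  have ho2 : orderOf z2 = 2 := by
    simpa [hz2'] using CfsgLib.Involution.orderOf_conj' (g := g⁻¹) (CfsgLib.Involution.orderOf_conj' (g := h2) hz2)
  obtain ⟨Q1, hQ1⟩ := ((CfsgLib.TwoCentral.isPGroup_zpowers ho1).comap_subtype (K := C)).exists_le_sylow
  obtain ⟨Q2, hQ2⟩ := ((CfsgLib.TwoCentral.isPGroup_zpowers ho2).comap_subtype (K := C)).exists_le_sylow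
  obtain ⟨c, hc⟩ := MulAction.exists_smul_eq ↥C Q2 Q1
  have hz1H : z1 ∈ H := H.mul_mem (H.mul_mem hh1 hzH) (H.inv_mem hh1)
  have hfix1 : ∀ g : G, g⁻¹ * z1 * g ∈ H → g ∈ H := by
    intro u hu
    have e : (h1⁻¹ * u)⁻¹ * z * (h1⁻¹ * u) = u⁻¹ * z1 * u := by rw [hz1]; group
    have := hfix _ (e ▸ hu)
    simpa using H.mul_mem hh1 this
  have hTH : (Q1 : Subgroup ↥C).map C.subtype ≤ H :=
    CfsgLib.TwoCentral.le_of_unique_fixed (Q1.2.map C.subtype) ⟨⟨z1, hm1⟩, hQ1 (Subgroup.mem_zpowers z1), rfl⟩ hz1H hfix1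
  have hcz : (c : G) * z2 * (c : G)⁻¹ ∈ H := by
    refine hTH ⟨c * ⟨z2, hm2⟩ * c⁻¹, ?_, rfl⟩
    show _ ∈ (Q1 : Subgroup ↥C)
    rw [← hc, Sylow.coe_subgroup_smul, Subgroup.mem_pointwise_smul_iff_inv_smul_mem]
    simpa [MulAut.smul_def, mul_assoc] using hQ2 (Subgroup.mem_zpowers z2)
  have hgc : g * (c : G)⁻¹ ∈ H := by
    have e : (h2⁻¹ * (g * (c : G)⁻¹))⁻¹ * z * (h2⁻¹ * (g * (c : G)⁻¹)) = (c : G) * z2 * (c : G)⁻¹ := by
      rw [hz2']; group
    have := hfix _ (e ▸ hcz)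
    simpa using H.mul_mem hh2 this
  refine ⟨g * (c : G)⁻¹, hgc, ?_⟩
  have hcx := Subgroup.mem_centralizer_singleton_iff.mp c.2
  calc g * (c : G)⁻¹ * x * (g * (c : G)⁻¹)⁻¹ = g * ((c : G)⁻¹ * (x * c)) * g⁻¹ := by group
    _ = g * ((c : G)⁻¹ * (c * x)) * g⁻¹ := by rw [hcx]
    _ = _ := by group

end Cfsg.Agent.S5438
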