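import Cfsg.Statements.S5439
import Cfsg.Agent.Lib.Involution

set_option autoImplicit false
set_option linter.all false
open Cfsg

namespace Cfsg.Agent.S5439

/-- Let I and J be two different conjugacy classes of involutions of the finite group G and H a subgroup such that every member of I ∪ J fixes exactly one coset in the action on the cosets of H, and such that for every a in I ∩ H and every b in (I ∪ J) ∩ H different from a and commuting with it, the centralizer of a b lies in H. Then H = G. -/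
theorem result {G : Type*} [Group G] [Finite G] (I J : Set G) (a₀ b₀ : G) (ha₀ : orderOf a₀ = 2) (hb₀ : orderOf b₀ = 2) (hI : I = {x | IsConj a₀ x}) (hJ : J = {x | IsConj b₀ x}) (hIJ : I ≠ J) (H : Subgroup G) (hfix : ∀ x ∈ I ∪ J, ∃! c : G ⧸ H, x • c = c) (hcent : ∀ a ∈ I, a ∈ H → ∀ b ∈ I ∪ J, b ∈ H → a ≠ b → a * b = b * a → Subgroup.centralizer ({a * b} : Set G) ≤ H) : H = ⊤ := by
  subst hI hJ
  have h2 : ∀ x ∈ {x | IsConj a₀ x} ∪ {x | IsConj b₀ x}, orderOf x = 2 := by
    rintro x (hx | hx) <;> obtain ⟨c, rfl⟩ := isConj_iff.mp hx <;> exact CfsgLib.Involution.orderOf_conj' ‹_›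
  set K := {x : G | IsConj a₀ x} ∪ {x | IsConj b₀ x} with hK
  have hclosed : ∀ g : G, ∀ x ∈ K, g * x * g⁻¹ ∈ K := by
    rintro g x (hx | hx)
    · exact Or.inl (hx.trans (isConj_iff.mpr ⟨g, rfl⟩))
    · exact Or.inr (hx.trans (isConj_iff.mpr ⟨g, rfl⟩))
  have hIc : ∀ g : G, ∀ x, IsConj a₀ x → IsConj a₀ (g * x * g⁻¹) := fun g x hx =>
    hx.trans (isConj_iff.mpr ⟨g, rfl⟩)
  have key : ∀ (x g : G), x • (g : G ⧸ H) = g ↔ g⁻¹ * x * g ∈ H := by
    intro x g
    rw [MulAction.Quotient.smul_coe, smul_eq_mul, eq_comm, QuotientGroup.eq, mul_assoc]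
  -- members of the two classes share their fixed coset
  have main : ∀ a b : G, IsConj a₀ a → IsConj b₀ b → ∀ c : G ⧸ H, a • c = c → b • c = c := by
    intro a b ha hb c hac
    have h2a := h2 a (Or.inl ha)
    have h2b := h2 b (Or.inr hb)
    set x := a * b with hx
    have heven : Even (orderOf x) := by
      by_contra hodd
      obtain ⟨m, hm⟩ := Nat.not_even_iff_odd.mp hodd
      have hrn : x ^ ((2 * m + 1 : ℕ) : ℤ) = 1 := by rw [zpow_natCast, ← hm, pow_orderOf_eq_one]
      refine hIJ ?_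
      have hab : IsConj a b := by
        refine isConj_iff.mpr ⟨x ^ (m : ℤ), ?_⟩
        rw [hx, CfsgLib.Involution.conj_zpow_left h2a h2b, ← hx]
        conv_rhs => rw [CfsgLib.Involution.right_eq h2a h2b, ← hx]
        congr 1
        rw [← mul_one (x ^ (-1 : ℤ)), ← hrn, ← zpow_add]
        push_cast; ring_nf
      have h : IsConj a₀ b₀ := (ha.trans hab).trans hb.symm
      ext y
      exact ⟨fun hy => h.symm.trans hy, fun hy => h.trans hy⟩
    obtain ⟨m, hm⟩ := heven
    have hpos := orderOf_pos x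
    set z := x ^ (m : ℤ) with hz
    have hz1 : z ≠ 1 := fun h => by
      rw [hz, zpow_natCast] at h
      have := Nat.le_of_dvd (by omega) (orderOf_dvd_of_pow_eq_one h)
      omega
    have hzi : x ^ (-(m : ℤ)) = z := by
      have h1 : x ^ ((m + m : ℕ) : ℤ) = 1 := by rw [zpow_natCast, ← hm, pow_orderOf_eq_one]
      rw [hz, ← mul_one (x ^ (-(m : ℤ))), ← h1, ← zpow_add]
      push_cast; ring_nf
    have haz : a * z = z * a := by
      rw [hz, hx, CfsgLib.Involution.mul_zpow_eq h2a h2b, ← hx, hzi]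
    have hzx : z * x = x * z := ((Commute.refl x).zpow_left _).eq
    have hbz : b * z = z * b := by
      have hb' : b = a * x := by rw [hx, ← mul_assoc, CfsgLib.Involution.mul_self h2a, one_mul]
      rw [hb', mul_assoc, ← hzx, ← mul_assoc, haz, mul_assoc]
    -- `a * z` is in one of the two classes
    have hazK : a * z ∈ K := by
      obtain ⟨i, hi⟩ | ⟨i, hi⟩ := Nat.even_or_odd m
      · have h := hclosed (x ^ (-(i : ℤ))) a (Or.inl ha)
        rw [hx, CfsgLib.Involution.conj_zpow_left h2a h2b, ← hx] at h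
        rw [hz, hx, CfsgLib.Involution.mul_zpow_eq h2a h2b, ← hx, hi]
        convert h using 2
        push_cast; ring_nf
      · have h := hclosed (x ^ (-(i : ℤ))) b (Or.inr hb)
        convert h using 1
        have hb' : b = x ^ (-1 : ℤ) * a := CfsgLib.Involution.right_eq h2a h2b
        rw [hz, hx, CfsgLib.Involution.mul_zpow_eq h2a h2b, ← hx]
        calc x ^ (-(m : ℤ)) * a = x ^ (-(i : ℤ)) * (x ^ (-1 : ℤ) * (x ^ (-(i : ℤ)) * a)) := by
              rw [← mul_assoc, ← mul_assoc, ← zpow_add, ← zpow_add, hi]; push_cast; ring_nf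
          _ = x ^ (-(i : ℤ)) * (x ^ (-1 : ℤ) * (a * x ^ (i : ℤ))) := by
              rw [hx, CfsgLib.Involution.mul_zpow_eq h2a h2b]
          _ = _ := by rw [hb', ← zpow_neg, neg_neg]; group
    have hcomm : ∀ u : G, u • c = c → ∀ v : G, v * a = a * v → v • c = c := by
      intro u _ v hv
      exact (hfix a (Or.inl ha)).unique (by rw [← mul_smul, ← hv, mul_smul, hac]) hac
    have hzc : z • c = c := hcomm a hac z haz.symm
    induction c using QuotientGroup.induction_on with | H g => ?_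
    have ha' : g⁻¹ * a * g ∈ H := (key a g).mp hac
    have hz' : g⁻¹ * z * g ∈ H := (key z g).mp hzc
    have ha2 : g⁻¹ * (a * z) * g ∈ H := by
      have := H.mul_mem ha' hz'
      convert this using 1; group
    have hcent' := hcent (g⁻¹ * a * g) (by simpa using hIc g⁻¹ a ha) ha' (g⁻¹ * (a * z) * g)
      (by simpa using hclosed g⁻¹ (a * z) hazK) ha2
      (fun h => hz1 (by simpa using h.symm))
      (by
        calc g⁻¹ * a * g * (g⁻¹ * (a * z) * g) = g⁻¹ * (a * (a * z)) * g := by group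
          _ = g⁻¹ * (a * (z * a)) * g := by rw [haz]
          _ = g⁻¹ * ((a * z) * a) * g := by rw [mul_assoc a z a]
          _ = _ := by group)
    have e : g⁻¹ * a * g * (g⁻¹ * (a * z) * g) = g⁻¹ * z * g := by
      calc g⁻¹ * a * g * (g⁻¹ * (a * z) * g) = g⁻¹ * ((a * a) * z) * g := by group
        _ = _ := by rw [CfsgLib.Involution.mul_self h2a, one_mul]
    rw [e] at hcent'
    refine (key b g).mpr (hcent' ?_)
    rw [Subgroup.mem_centralizer_singleton_iff]
    calc g⁻¹ * b * g * (g⁻¹ * z * g) = g⁻¹ * (b * z) * g := by group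
      _ = g⁻¹ * (z * b) * g := by rw [hbz]
      _ = _ := by group
  have hb₀K : b₀ ∈ K := Or.inr (IsConj.refl _)
  obtain ⟨c, hc, -⟩ := hfix b₀ hb₀K
  have hall : ∀ a, IsConj a₀ a → a • c = c := by
    intro a ha
    obtain ⟨d, hd, -⟩ := hfix a (Or.inl ha)
    rwa [(hfix b₀ hb₀K).unique hc (main a b₀ ha (IsConj.refl _) d hd)]
  rw [eq_top_iff]
  intro g _
  obtain ⟨u, rfl⟩ := QuotientGroup.mk_surjective c
  have h1 := hall a₀ (IsConj.refl _)
  have h : ∀ v : G, v • (u : G ⧸ H) = u := by
    intro v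
    refine (hfix _ (Or.inl (hIc v a₀ (IsConj.refl _)))).unique ?_ (hall _ (hIc v a₀ (IsConj.refl _)))
    rw [← mul_smul, inv_mul_cancel_right, mul_smul, h1]
  simpa [mul_assoc] using (key (u * g * u⁻¹) u).mp (h _)

end Cfsg.Agent.S5439
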