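import Cfsg.Statements.S5459
import Cfsg.Agent.Lib.Involution

set_option autoImplicit false
set_option linter.all false
open Cfsg

namespace Cfsg.Agent.S5459
open scoped commutatorElement


/-- Let G be a finite group with a quasisimple normal subgroup L and an involution d such that G is generated by L and d, the centre of L has odd order, and d inverts every element of the centre of L. If the commuting graph on the conjugacy class of the image of d in G modulo the centre of L is connected, then the commuting graph on the conjugacy class of d is connected. -/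
theorem result {G : Type*} [Group G] [Finite G] (L : Subgroup G) [L.Normal] (hL : Cfsg.IsQuasisimple ↥L) (d : G) (hd : orderOf d = 2) (hgen : L ⊔ Subgroup.zpowers d = ⊤) (hodd : Odd (Nat.card ↥(Subgroup.center ↥L))) (hinv : ∀ c ∈ (Subgroup.center ↥L).map L.subtype, d * c * d⁻¹ = c⁻¹) [hn : ((Subgroup.center ↥L).map L.subtype).Normal] (hconn : (Cfsg.commutingGraph (conjugatesOf (QuotientGroup.mk d : G ⧸ (Subgroup.center ↥L).map L.subtype))).Connected) : (Cfsg.commutingGraph (conjugatesOf d)).Connected := by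
  classical
  set C := (Subgroup.center ↥L).map L.subtype with hC
  set Γ := Cfsg.commutingGraph (conjugatesOf d) with hΓ
  have hCodd : Odd (Nat.card ↥C) := by
    rw [hC, Nat.card_congr (Subgroup.equivMapOfInjective _ _ L.subtype_injective).symm.toEquiv]
    exact hodd
  have hcommC : ∀ a ∈ C, ∀ b ∈ C, a * b = b * a := by
    rintro _ ⟨a, ha, rfl⟩ _ ⟨b, hb, rfl⟩
    exact congrArg Subtype.val ((Subgroup.mem_center_iff.mp ha) b).symm
  -- square roots in `C`
  have hsqrt : ∀ a ∈ C, ∃ b ∈ C, b * b = a := by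
    intro a ha
    obtain ⟨m, hm⟩ := hCodd
    refine ⟨a ^ (m + 1), C.pow_mem ha _, ?_⟩
    have h1 : a ^ Nat.card ↥C = 1 := orderOf_dvd_iff_pow_eq_one.mp (Subgroup.orderOf_dvd_natCard _ ha)
    rw [← pow_add, show m + 1 + (m + 1) = Nat.card ↥C + 1 by omega, pow_succ, h1, one_mul]
  have hsub : ∀ g : G, g * d * g⁻¹ ∈ conjugatesOf d := fun g => isConj_iff.mpr ⟨g, rfl⟩
  -- every member inverts `C`
  have hD : ∀ x ∈ conjugatesOf d, orderOf x = 2 ∧ ∀ c ∈ C, x * c * x⁻¹ = c⁻¹ := by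
    intro x hx
    obtain ⟨g, rfl⟩ := isConj_iff.mp hx
    refine ⟨CfsgLib.Involution.orderOf_conj' hd, fun c hc => ?_⟩
    have h := hinv _ (hn.conj_mem c hc g⁻¹)
    rw [inv_inv] at h
    calc g * d * g⁻¹ * c * (g * d * g⁻¹)⁻¹ = g * (d * (g⁻¹ * c * g) * d⁻¹) * g⁻¹ := by group
      _ = g * (g⁻¹ * c * g)⁻¹ * g⁻¹ := by rw [h]
      _ = _ := by group
  have hshift : ∀ x ∈ conjugatesOf d, ∀ c ∈ C, x * c ∈ conjugatesOf d := by
    intro x hx c hc
    obtain ⟨b, hb, rfl⟩ := hsqrt c hc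
    obtain ⟨h2, hi⟩ := hD x hx
    have hxb : x * b = b⁻¹ * x := by rw [← hi b hb, inv_mul_cancel_right]
    refine hx.trans (isConj_iff.mpr ⟨b⁻¹, ?_⟩)
    rw [inv_inv, ← hxb, mul_assoc]
  -- lifting of one edge
  have hlift : ∀ x ∈ conjugatesOf d, ∀ y ∈ conjugatesOf d, (x * y) * (x * y) ∈ C →
      ∃ s ∈ C, Commute x (y * s) := by
    intro x hx y hy h
    obtain ⟨hx2, hxi⟩ := hD x hx
    obtain ⟨hy2, hyi⟩ := hD y hy
    obtain ⟨s, hs, hs2⟩ := hsqrt _ (C.inv_mem h)
    refine ⟨s, hs, ?_⟩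
    have hc : (x * y) * s = s * (x * y) := by
      have h1 : x * y * s * (x * y)⁻¹ = s := by
        calc x * y * s * (x * y)⁻¹ = x * (y * s * y⁻¹) * x⁻¹ := by group
          _ = x * s⁻¹ * x⁻¹ := by rw [hyi s hs]
          _ = (x * s * x⁻¹)⁻¹ := by group
          _ = s := by rw [hxi s hs, inv_inv]
      exact mul_inv_eq_iff_eq_mul.mp h1
    have h1 : (x * (y * s)) * (x * (y * s)) = 1 := by
      calc (x * (y * s)) * (x * (y * s)) = x * y * (s * (x * y)) * s := by group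
        _ = x * y * ((x * y) * s) * s := by rw [hc]
        _ = (x * y) * (x * y) * (s * s) := by group
        _ = 1 := by rw [hs2, mul_inv_cancel]
    have h3 := inv_eq_of_mul_eq_one_right h1
    rw [mul_inv_rev, CfsgLib.Involution.inv_eq (hD _ (hshift y hy s hs)).1, CfsgLib.Involution.inv_eq hx2] at h3
    exact h3.symm
  have hadj : ∀ a b : ↥(conjugatesOf d), Commute (a : G) b → Γ.Reachable a b := by
    intro a b h
    rcases eq_or_ne a b with rfl | hne
    · exact SimpleGraph.Reachable.rfl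
    · exact SimpleGraph.Adj.reachable ⟨hne, Or.inl h⟩
  let pt : G → ↥(conjugatesOf d) := fun g => ⟨g * d * g⁻¹, hsub g⟩
  have hconjr : ∀ (g : G) (a b : ↥(conjugatesOf d)), Γ.Reachable a b →
      ∀ (ha : g * (a : G) * g⁻¹ ∈ conjugatesOf d) (hb : g * (b : G) * g⁻¹ ∈ conjugatesOf d),
        Γ.Reachable ⟨_, ha⟩ ⟨_, hb⟩ := by
    intro g a b ⟨w⟩
    induction w with
    | nil => intro _ _; exact SimpleGraph.Reachable.rfl
    | cons h _ ih =>
      intro ha hb
      rename_i u v w' _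
      refine (hadj _ ⟨g * (v : G) * g⁻¹, (v.2).trans (isConj_iff.mpr ⟨g, rfl⟩)⟩ ?_).trans (ih _ hb)
      obtain ⟨-, h | h⟩ := h
      · exact h.conj _
      · exact h.symm.conj _
  let S : Subgroup G :=
    { carrier := {g | Γ.Reachable (pt 1) (pt g)}
      one_mem' := SimpleGraph.Reachable.rfl
      mul_mem' := by
        intro a b ha hb
        refine SimpleGraph.Reachable.trans ha ?_
        have := hconjr a _ _ hb (by simpa [pt] using hsub a) (by simpa [pt, mul_assoc] using hsub (a * b))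
        convert this using 2 <;> simp [pt, mul_assoc]
      inv_mem' := by
        intro a ha
        have := (hconjr a⁻¹ _ _ ha (by simpa [pt] using hsub a⁻¹)
          (by simpa [pt, mul_assoc] using hsub 1)).symm
        show Γ.Reachable (pt 1) (pt a⁻¹)
        convert this using 1 <;> ext <;> simp [pt, mul_assoc] }
  -- the component meets every fibre
  have hq : ∀ y ∈ conjugatesOf (QuotientGroup.mk d : G ⧸ C), ∃ x : ↥(conjugatesOf d), (QuotientGroup.mk (x : G) : G ⧸ C) = y := by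
    intro y hy
    obtain ⟨u, rfl⟩ := isConj_iff.mp hy
    obtain ⟨g, rfl⟩ := QuotientGroup.mk_surjective u
    exact ⟨pt g, by simp [pt]⟩
  have hfib : ∀ u v : ↥(conjugatesOf (QuotientGroup.mk d : G ⧸ C)),
      (Cfsg.commutingGraph (conjugatesOf (QuotientGroup.mk d : G ⧸ C))).Reachable u v →
      ∀ x : ↥(conjugatesOf d), (QuotientGroup.mk (x : G) : G ⧸ C) = u →
        ∃ y : ↥(conjugatesOf d), (QuotientGroup.mk (y : G) : G ⧸ C) = v ∧ Γ.Reachable x y := by
    intro u v ⟨w⟩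
    induction w with
    | nil => intro x hx; exact ⟨x, hx, SimpleGraph.Reachable.rfl⟩
    | cons h _ ih =>
      intro x hx
      rename_i a b c _
      obtain ⟨y, hy⟩ := hq _ b.2
      have hcm : Commute (a : G ⧸ C) b := by
        obtain ⟨-, h | h⟩ := h
        · exact h
        · exact h.symm
      have hmem : (x : G) * y * ((x : G) * y) ∈ C := by
        rw [← QuotientGroup.eq_one_iff]
        simp only [QuotientGroup.mk_mul, hx, hy]
        have hb2 : (b : G ⧸ C) * b = 1 := by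
          rw [← hy, ← QuotientGroup.mk_mul, CfsgLib.Involution.mul_self (hD _ y.2).1, QuotientGroup.mk_one]
        have ha2 : (a : G ⧸ C) * a = 1 := by
          rw [← hx, ← QuotientGroup.mk_mul, CfsgLib.Involution.mul_self (hD _ x.2).1, QuotientGroup.mk_one]
        rw [hcm.symm.mul_mul_mul_comm, ha2, hb2, one_mul]
      obtain ⟨s, hs, hc⟩ := hlift _ x.2 _ y.2 hmem
      obtain ⟨z, hz, hr⟩ := ih ⟨_, hshift _ y.2 s hs⟩ (by
        rw [QuotientGroup.mk_mul, hy, (QuotientGroup.eq_one_iff s).mpr hs, mul_one])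
      exact ⟨z, hz, (hadj x ⟨_, hshift _ y.2 s hs⟩ hc).trans hr⟩
  have hcover : ∀ g : G, ∃ c ∈ C, c * g ∈ S := by
    intro g
    have hm : ∀ g : G, (QuotientGroup.mk (g * d * g⁻¹) : G ⧸ C) ∈ conjugatesOf (QuotientGroup.mk d : G ⧸ C) :=
      fun g => isConj_iff.mpr ⟨QuotientGroup.mk g, by simp⟩
    obtain ⟨y, hy, hr⟩ := hfib ⟨_, hm 1⟩ ⟨_, hm g⟩ (hconn.preconnected _ _) (pt 1) rfl
    have hs : (g * d * g⁻¹)⁻¹ * (y : G) ∈ C := QuotientGroup.eq.mp hy.symm
    obtain ⟨b, hb, hb2⟩ := hsqrt _ hs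
    refine ⟨b⁻¹, C.inv_mem hb, ?_⟩
    show Γ.Reachable (pt 1) (pt (b⁻¹ * g))
    convert hr using 1
    ext
    show b⁻¹ * g * d * (b⁻¹ * g)⁻¹ = y
    have hxb : g * d * g⁻¹ * b = b⁻¹ * (g * d * g⁻¹) := by
      rw [← (hD _ (hsub g)).2 b hb, inv_mul_cancel_right]
    calc b⁻¹ * g * d * (b⁻¹ * g)⁻¹ = b⁻¹ * (g * d * g⁻¹) * b := by group
      _ = g * d * g⁻¹ * b * b := by rw [← hxb]
      _ = g * d * g⁻¹ * ((g * d * g⁻¹)⁻¹ * (y : G)) := by rw [mul_assoc _ b b, hb2]
      _ = _ := mul_inv_cancel_left _ _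
  -- `L` lies in `S`
  have hLS : L ≤ S := by
    have hperf : ⁅(⊤ : Subgroup ↥L), (⊤ : Subgroup ↥L)⁆ = ⊤ := hL.1.1
    intro x hx
    have hmem : (⟨x, hx⟩ : ↥L) ∈ ⁅(⊤ : Subgroup ↥L), (⊤ : Subgroup ↥L)⁆ := by
      rw [hperf]; exact Subgroup.mem_top _
    suffices h : ⁅(⊤ : Subgroup ↥L), (⊤ : Subgroup ↥L)⁆ ≤ S.comap L.subtype from h hmem
    rw [Subgroup.commutator_le]
    intro a _ b _
    obtain ⟨c, hc, hca⟩ := hcover (a : G)
    obtain ⟨e, he, heb⟩ := hcover (b : G)
    have hcc : ∀ c ∈ C, ∀ y ∈ L, c * y = y * c := by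
      rintro _ ⟨c, hc, rfl⟩ y hy
      exact congrArg Subtype.val ((Subgroup.mem_center_iff.mp hc) ⟨y, hy⟩).symm
    have hCL : C ≤ L := Subgroup.map_subtype_le _
    show ⁅(a : G), (b : G)⁆ ∈ S
    have eq : ⁅(a : G), (b : G)⁆ = ⁅c * (a : G), e * (b : G)⁆ := by
      simp only [commutatorElement_def, mul_inv_rev]
      have h1 : e * (b : G) * (a : G)⁻¹ * c⁻¹ = (b : G) * (a : G)⁻¹ * c⁻¹ * e := by
        have := hcc e he ((b : G) * (a : G)⁻¹ * c⁻¹) (L.mul_mem (L.mul_mem b.2 (L.inv_mem a.2)) (L.inv_mem (hCL hc)))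
        rw [← this]; group
      have h2 := hcc c hc ((a : G) * (b : G) * (a : G)⁻¹) (L.mul_mem (L.mul_mem a.2 b.2) (L.inv_mem a.2))
      calc (a : G) * b * (a : G)⁻¹ * (b : G)⁻¹ = ((a : G) * b * (a : G)⁻¹ * c) * c⁻¹ * (b : G)⁻¹ := by group
        _ = (c * ((a : G) * b * (a : G)⁻¹)) * c⁻¹ * (b : G)⁻¹ := by rw [h2]
        _ = c * a * ((b : G) * (a : G)⁻¹ * c⁻¹ * e) * e⁻¹ * (b : G)⁻¹ * (1 : G) := by group
        _ = c * a * (e * (b : G) * (a : G)⁻¹ * c⁻¹) * ((b : G)⁻¹ * e⁻¹) := by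
          rw [← h1, mul_one]
          have h3 := hcc _ (C.inv_mem he) (b : G)⁻¹ (L.inv_mem b.2)
          rw [mul_assoc _ e⁻¹, h3]
        _ = _ := by group
    rw [eq]
    exact S.mul_mem (S.mul_mem (S.mul_mem hca heb) (S.inv_mem hca)) (S.inv_mem heb)
  have hdS : d ∈ S := by
    show Γ.Reachable (pt 1) (pt d)
    convert SimpleGraph.Reachable.rfl using 1
    ext; simp [pt]
  have htop : ∀ g : G, g ∈ S := fun g => by
    have : L ⊔ Subgroup.zpowers d ≤ S := sup_le hLS (Subgroup.zpowers_le.mpr hdS)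
    exact this (hgen ▸ Subgroup.mem_top g)
  haveI : Nonempty ↥(conjugatesOf d) := ⟨pt 1⟩
  refine SimpleGraph.connected_iff _ |>.mpr ⟨fun a b => ?_, inferInstance⟩
  have hr : ∀ a : ↥(conjugatesOf d), Γ.Reachable (pt 1) a := by
    intro a
    obtain ⟨g, hg⟩ := isConj_iff.mp a.2
    have e : pt g = a := Subtype.ext hg
    rw [← e]; exact htop g
  exact (hr a).symm.trans (hr b)

end Cfsg.Agent.S5459
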