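import Cfsg.Statements.S5541


set_option autoImplicit false
set_option linter.all false
open Cfsg

namespace Cfsg.Agent.S5541

/-- Let ρ be a representation of a group H on a finite-dimensional real vector space U whose only ρ-invariant subspaces are the zero subspace and U, and suppose U carries a non-zero ρ-invariant symmetric bilinear form. Then the following are equivalent: (1) there is a non-zero ρ-equivariant commutative bilinear product on U of which every ρ-equivariant bilinear product is a scalar multiple; (2) there is a non-zero ρ-invariant trilinear form on U that is symmetric under all permutations of its arguments and of which every ρ-invariant trilinear form is a scalar multiple. -/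
theorem result {H : Type*} [Group H] {U : Type*} [AddCommGroup U] [Module ℝ U] [FiniteDimensional ℝ U] (ρ : Representation ℝ H U) (hirr : ∀ W : Submodule ℝ U, (∀ g : H, W.map (ρ g) ≤ W) → W = ⊥ ∨ W = ⊤) (B : LinearMap.BilinForm ℝ U) (hB0 : B ≠ 0) (hBs : ∀ u v, B u v = B v u) (hBi : ∀ (g : H) (u v : U), B (ρ g u) (ρ g v) = B u v) : (∃ m : U →ₗ[ℝ] U →ₗ[ℝ] U, m ≠ 0 ∧ (∀ u v, m u v = m v u) ∧ (∀ (g : H) (u v : U), m (ρ g u) (ρ g v) = ρ g (m u v)) ∧ ∀ m' : U →ₗ[ℝ] U →ₗ[ℝ] U, (∀ (g : H) (u v : U), m' (ρ g u) (ρ g v) = ρ g (m' u v)) → ∃ c : ℝ, m' = c • m) ↔ (∃ t : U →ₗ[ℝ] U →ₗ[ℝ] U →ₗ[ℝ] ℝ, t ≠ 0 ∧ (∀ u v w, t u v w = t v u w ∧ t u v w = t u w v) ∧ (∀ (g : H) (u v w : U), t (ρ g u) (ρ g v) (ρ g w) = t u v w) ∧ ∀ t' : U →ₗ[ℝ] U →ₗ[ℝ] U →ₗ[ℝ] ℝ, (∀ (g : H) (u v w : U), t' (ρ g u) (ρ g v) (ρ g w) = t' u v w) → ∃ c : ℝ, t' = c • t) := by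
  classical
  -- nondegeneracy
  have hker : ∀ u, (∀ v, B u v = 0) → u = 0 := by
    intro u hu
    rcases hirr (LinearMap.ker B) (by
      rintro g _ ⟨w, hw, rfl⟩
      rw [SetLike.mem_coe, LinearMap.mem_ker] at hw
      rw [LinearMap.mem_ker]
      ext v
      obtain ⟨v', rfl⟩ : ∃ v', ρ g v' = v := ⟨ρ g⁻¹ v, by simp⟩
      rw [hBi, hw]; rfl) with h | h
    · have : u ∈ LinearMap.ker B := LinearMap.mem_ker.mpr (LinearMap.ext hu)
      simpa [h] using this
    · exact absurd (LinearMap.ker_eq_top.mp h) hB0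
  let e : U →ₗ[ℝ] (U →ₗ[ℝ] ℝ) := B
  have einj : Function.Injective e := LinearMap.ker_eq_bot.mp (by
    rw [eq_bot_iff]; intro u hu
    exact hker u fun v => by rw [LinearMap.mem_ker] at hu; exact congrArg (fun f => f v) hu)
  let E : U ≃ₗ[ℝ] (U →ₗ[ℝ] ℝ) := LinearEquiv.ofBijective e
    ⟨einj, (LinearMap.injective_iff_surjective_of_finrank_eq_finrank (Subspace.dual_finrank_eq).symm).mp einj⟩
  -- trilinear form of a product and product of a form
  let T : (U →ₗ[ℝ] U →ₗ[ℝ] U) → (U →ₗ[ℝ] U →ₗ[ℝ] U →ₗ[ℝ] ℝ) := fun m => LinearMap.compr₂ m e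
  let M : (U →ₗ[ℝ] U →ₗ[ℝ] U →ₗ[ℝ] ℝ) → (U →ₗ[ℝ] U →ₗ[ℝ] U) := fun t => LinearMap.compr₂ t E.symm.toLinearMap
  have hT : ∀ m u v w, T m u v w = B (m u v) w := fun _ _ _ _ => rfl
  have hM : ∀ t u v w, B (M t u v) w = t u v w := fun t u v w =>
    congrArg (fun f => f w) (E.apply_symm_apply (t u v))
  have hTinv : ∀ m, (∀ (g : H) (u v : U), m (ρ g u) (ρ g v) = ρ g (m u v)) →
      ∀ (g : H) (u v w : U), T m (ρ g u) (ρ g v) (ρ g w) = T m u v w := fun m hm g u v w => by
    rw [hT, hT, hm, hBi]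
  have hMinv : ∀ t, (∀ (g : H) (u v w : U), t (ρ g u) (ρ g v) (ρ g w) = t u v w) →
      ∀ (g : H) (u v : U), M t (ρ g u) (ρ g v) = ρ g (M t u v) := fun t ht g u v => by
    refine einj (LinearMap.ext fun w => ?_)
    obtain ⟨w', rfl⟩ : ∃ w', ρ g w' = w := ⟨ρ g⁻¹ w, by simp⟩
    show B _ _ = B _ _
    rw [hM, ht, hBi, hM]
  constructor
  · rintro ⟨m, hm0, hms, hme, hmu⟩
    have h12 : ∀ u v w, T m u v w = T m v u w := fun u v w => by rw [hT, hT, hms]
    -- the transpose in the last two arguments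
    let t' : U →ₗ[ℝ] U →ₗ[ℝ] U →ₗ[ℝ] ℝ :=
     
        (LinearMap.lflip (R₀ := ℝ) (M := U) (N := U) (P := ℝ)).toLinearMap.comp (T m)
    have ht' : ∀ u v w, t' u v w = T m u w v := fun _ _ _ => rfl
    obtain ⟨c, hc⟩ := hmu (M t') (hMinv t' fun g u v w => by rw [ht', ht', hTinv m hme])
    have hc' : ∀ u v w, T m u w v = c * T m u v w := fun u v w => by
      rw [← ht', ← hM t' u v w, hc]
      simp [hT]
    obtain ⟨u, v, w, hne⟩ : ∃ u v w, T m u v w ≠ 0 := by
      by_contra hcon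
      push Not at hcon
      exact hm0 (LinearMap.ext fun u => LinearMap.ext fun v => einj (LinearMap.ext fun w => by
        simpa [hT, e] using hcon u v w))
    have hcc : c * c = 1 := by
      have h1 := hc' u w v
      rw [hc' u v w, ← mul_assoc] at h1
      exact mul_right_cancel₀ hne (by rw [← h1, one_mul])
    have hc1 : c = 1 := by
      rcases mul_self_eq_one_iff.mp hcc with h | h
      · exact h
      · exfalso
        subst h
        apply hne
        have a1 := hc' u v w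
        have a2 := h12 u v w
        have a3 := h12 u w v
        have a4 := hc' v u w
        have a5 := hc' w u v
        have a6 := h12 v w u
        linarith
    refine ⟨T m, fun h0 => hne (by simp [h0]), fun u v w => ⟨h12 u v w, by rw [hc' u v w, hc1, one_mul]⟩, hTinv m hme, ?_⟩
    intro s hs
    obtain ⟨d, hd⟩ := hmu (M s) (hMinv s hs)
    refine ⟨d, LinearMap.ext fun u => LinearMap.ext fun v => LinearMap.ext fun w => ?_⟩
    rw [← hM s u v w, hd]
    simp [hT]
  · rintro ⟨t, ht0, hts, hti, htu⟩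
    refine ⟨M t, fun h0 => ht0 ?_, fun u v => einj (LinearMap.ext fun w => ?_), hMinv t hti, ?_⟩
    · ext u v w
      rw [← hM t u v w, h0]; simp
    · show B _ _ = B _ _
      rw [hM, hM, (hts u v w).1]
    · intro m' hm'
      obtain ⟨c, hc⟩ := htu (T m') (hTinv m' hm')
      refine ⟨c, LinearMap.ext fun u => LinearMap.ext fun v => einj (LinearMap.ext fun w => ?_)⟩
      show B _ _ = B _ _
      rw [← hT m' u v w, hc]
      simp [hM]

end Cfsg.Agent.S5541
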