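import Cfsg.Statements.S5543


set_option autoImplicit false
set_option linter.all false
open Cfsg

namespace Cfsg.Agent.S5543

/-- Let V be a finite-dimensional real vector space with a commutative bilinear product and a positive-definite symmetric bilinear form that associates with the product and satisfies the Norton inequality (the Majorana setting of the definitions). Let X be a group of linear automorphisms of V in which every element squares to the identity, and suppose every non-identity element x of X is a Majorana involution with an axial vector a(x) of squared length 1, such that for any two distinct non-identity x, y the product a(x) ∘ a(y) equals (1/8)(a(x) + a(y) − a(xy)) (the dihedral subalgebra of type 2A whose third axis belongs to the involution xy). Then X has order at most 4. -/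
theorem result {V : Type*} [AddCommGroup V] [Module ℝ V] [FiniteDimensional ℝ V] (mul : V →ₗ[ℝ] V →ₗ[ℝ] V) (B : LinearMap.BilinForm ℝ V) (hV : Cfsg.Axial.IsMajoranaAmbient mul B) (X : Subgroup (V ≃ₗ[ℝ] V)) (hX : ∀ x ∈ X, x * x = 1) (ax : (V ≃ₗ[ℝ] V) → V) (hax : ∀ x ∈ X, x ≠ 1 → Cfsg.Axial.IsMajoranaPair mul B x (ax x)) (h1 : ∀ x ∈ X, x ≠ 1 → B (ax x) (ax x) = 1) (h2A : ∀ x ∈ X, ∀ y ∈ X, x ≠ 1 → y ≠ 1 → x ≠ y → mul (ax x) (ax y) = (1 / 8 : ℝ) • (ax x + ax y - ax (x * y))) : Nat.card ↥X ≤ 4 := by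
  classical
  obtain ⟨hcomm, hsym, -, hassoc, -⟩ := hV
  by_contra hlt
  haveI : Finite X := Nat.finite_of_card_ne_zero (by omega)
  haveI := Fintype.ofFinite X
  rw [not_le, Nat.card_eq_fintype_card] at hlt
  have hpick : ∀ S : Finset X, S.card ≤ 4 → ∃ x : X, x ∉ S := fun S hS => by
    by_contra hcon
    push Not at hcon
    have := Finset.eq_univ_iff_forall.mpr hcon
    rw [this, Finset.card_univ] at hS
    omega
  obtain ⟨x, hx⟩ := hpick {1} (by simp)
  obtain ⟨y, hy⟩ := hpick {1, x} (le_trans Finset.card_le_two (by norm_num))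
  obtain ⟨z, hz⟩ := hpick {1, x, y, x * y} (Finset.card_le_four)
  simp only [Finset.mem_insert, Finset.mem_singleton, not_or] at hx hy hz
  obtain ⟨hy1, hyx⟩ := hy
  obtain ⟨hz1, hzx, hzy, hzxy⟩ := hz
  have inv : ∀ u : X, u * u = 1 := fun u => Subtype.ext (hX u u.2)
  have comm : ∀ u v : X, u * v = v * u := fun u v => by
    have h := inv (u * v)
    calc u * v = (u * v) * ((v * u) * (v * u)) := by rw [inv, mul_one]
      _ = (u * (v * v) * u) * (v * u) := by group
      _ = v * u := by rw [inv, mul_one, inv, one_mul]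
  have c3 : ∀ u v : X, u * (u * v) = v := fun u v => by rw [← mul_assoc, inv, one_mul]
  obtain ⟨a, ha⟩ : ∃ a : X → V, a = fun u : X => ax u := ⟨_, rfl⟩
  have hne : ∀ u : X, u ≠ 1 → (u : V ≃ₗ[ℝ] V) ≠ 1 := fun u h e => h (Subtype.ext e)
  have P : ∀ u v : X, u ≠ 1 → v ≠ 1 → u ≠ v → mul (a u) (a v) = (1 / 8 : ℝ) • (a u + a v - a (u * v)) := by
    intro u v h h' h''
    rw [ha]
    exact h2A u u.2 v v.2 (hne u h) (hne v h') (fun e => h'' (Subtype.ext e))
  have N : ∀ u : X, u ≠ 1 → B (a u) (a u) = 1 := fun u h => by rw [ha]; exact h1 u u.2 (hne u h)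
  have I : ∀ u : X, u ≠ 1 → mul (a u) (a u) = a u := fun u h => by rw [ha]; exact (hax u u.2 (hne u h)).2.2.1.1.2.1
  have nz : ∀ {u v : X}, u ≠ v → u * v ≠ 1 := fun {u v} h e => h (by rw [← mul_one u, ← inv v, ← mul_assoc, e, one_mul])
  have Q : ∀ u v : X, u ≠ 1 → v ≠ 1 → u ≠ v → B (a u) (a v) = 1 / 8 := by
    intro u v h h' h''
    have n1 := nz h''
    have n2 : u ≠ u * v := fun e => h' (by
      calc v = u * (u * v) := (c3 u v).symm
        _ = u * u := by rw [← e]
        _ = 1 := inv u)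
    have e1 := congrArg (B (a u)) (P u v h h' h'')
    have e2 := congrArg (B (a u)) (P u (u * v) h n1 n2)
    rw [hassoc, I u h] at e1 e2
    simp only [c3, map_smul, map_add, map_sub, smul_eq_mul, N u h] at e1 e2
    linarith
  obtain ⟨w, hw⟩ : ∃ w : V, w = a (y * z) - a (x * (y * z)) := ⟨_, rfl⟩
  have hxy : x ≠ y := Ne.symm hyx
  have hxz : x ≠ z := Ne.symm hzx
  have hyz : y ≠ z := Ne.symm hzy
  have hxyz : x ≠ y * z := fun e => hzxy (by rw [e, comm, ← mul_assoc, inv, one_mul])
  have hV : ∀ u : X, u ≠ 1 → x ≠ u → mul (a x) (a u - a (x * u)) = (1 / 4 : ℝ) • (a u - a (x * u)) := by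
    intro u h h'
    have n2 : x ≠ x * u := fun e => h (by
      calc u = x * (x * u) := (c3 x u).symm
        _ = x * x := by rw [← e]
        _ = 1 := inv x)
    rw [map_sub, P x u hx h h', P x (x * u) hx (nz h') n2, c3]
    module
  have hpair : ∀ u v : X, u ≠ 1 → v ≠ 1 → u ≠ v → mul (a u) (a v) = (1 / 8 : ℝ) • (a u + a v - a (u * v)) := P
  have key : mul (a y - a (x * y)) (a z - a (x * z)) = (-(1 / 4) : ℝ) • w := by
    have n1 : y ≠ x * z := fun e => hzxy (by rw [e, c3])
    have n2 : x * y ≠ z := fun e => hzxy e.symm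
    have n3 : x * y ≠ x * z := fun e => hyz (mul_left_cancel e)
    have e1 : y * (x * z) = x * (y * z) := by rw [← mul_assoc, comm y x, mul_assoc]
    have e2 : (x * y) * z = x * (y * z) := mul_assoc _ _ _
    have e3 : (x * y) * (x * z) = y * z := by rw [mul_assoc, e1, c3]
    simp only [map_sub, LinearMap.sub_apply]
    rw [P y z hy1 hz1 hyz, P y (x * z) hy1 (nz hxz) n1, P (x * y) z (nz hxy) hz1 n2,
      P (x * y) (x * z) (nz hxy) (nz hxz) n3, e1, e2, e3, hw]
    module
  have hw4 : mul (a x) w = (1 / 4 : ℝ) • w := hw ▸ hV (y * z) (nz hyz) hxyz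
  obtain ⟨-, -, ⟨⟨-, -, -, hfus⟩, -⟩, -⟩ := hax x x.2 (hne x hx)
  have hlaw : Cfsg.Axial.monsterLaw (1 / 4 : ℝ) (1 / 32) (1 / 4) (1 / 4) = {1, 0} := by
    simp [Cfsg.Axial.monsterLaw]
  have hmem := hfus (1 / 4) (by simp [Cfsg.Axial.majoranaSpectrum]) (1 / 4) (by simp [Cfsg.Axial.majoranaSpectrum])
    (a y - a (x * y)) (Module.End.mem_eigenspace_iff.mpr (by rw [ha] at hV ⊢; exact hV y hy1 hxy))
    (a z - a (x * z)) (Module.End.mem_eigenspace_iff.mpr (by rw [ha] at hV ⊢; exact hV z hz1 hxz))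
  rw [key, hlaw, Cfsg.Axial.eigenSum, iSup_pair, Submodule.mem_sup] at hmem
  obtain ⟨p, hp, q, hq, hpq⟩ := hmem
  rw [Cfsg.Axial.eigen, Module.End.mem_eigenspace_iff] at hp hq
  have hax' : ax x = a x := by rw [ha]
  rw [hax'] at hp hq
  have h := congrArg (mul (a x)) hpq
  rw [map_add, hp, hq, map_smul, hw4, one_smul, zero_smul, add_zero] at h
  have h' := congrArg (mul (a x)) h
  rw [hp, one_smul, map_smul, map_smul, hw4, smul_smul, smul_smul, h, smul_smul] at h'
  have hw0 : w = 0 := by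
    have h3 : ((-(1 / 4) * (1 / 4) : ℝ) - -(1 / 4) * (1 / 4) * (1 / 4)) • w = 0 := by
      rw [sub_smul, ← h', sub_self]
    exact (smul_eq_zero.mp h3).resolve_left (by norm_num)
  rw [hw, sub_eq_zero] at hw0
  have hne' : y * z ≠ x * (y * z) := fun e => hx (mul_right_cancel (b := y * z) (by rw [← e, one_mul]))
  have h4 := Q (y * z) (x * (y * z)) (nz hyz) (nz hxyz) hne'
  rw [← hw0, N (y * z) (nz hyz)] at h4
  norm_num at h4

end Cfsg.Agent.S5543
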