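import Cfsg.Statements.S5545
import Mathlib

set_option autoImplicit false
open Cfsg

namespace Cfsg.Agent.S5545
open Cfsg.Axial

variable {V : Type*} [AddCommGroup V] [Module ℝ V]

theorem mem_eig {mul : V →ₗ[ℝ] V →ₗ[ℝ] V} {a : V} {c : ℝ} {x : V} : x ∈ eigen mul a c ↔ mul a x = c • x :=
  Module.End.mem_eigenspace_iff

theorem map_eig {mul : V →ₗ[ℝ] V →ₗ[ℝ] V} (f : V ≃ₗ[ℝ] V) (hf : ∀ u v, f (mul u v) = mul (f u) (f v)) (a : V) (c : ℝ) :
    eigen mul (f a) c = (eigen mul a c).map (f : V →ₗ[ℝ] V) := by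
  ext x
  rw [Submodule.mem_map_equiv, mem_eig, mem_eig]
  obtain ⟨y, rfl⟩ := f.surjective x
  rw [LinearEquiv.symm_apply_apply, ← hf, ← map_smul]
  exact f.injective.eq_iff

theorem map_eigSum {mul : V →ₗ[ℝ] V →ₗ[ℝ] V} (f : V ≃ₗ[ℝ] V) (hf : ∀ u v, f (mul u v) = mul (f u) (f v)) (a : V) (S : Set ℝ) :
    eigenSum mul (f a) S = (eigenSum mul a S).map (f : V →ₗ[ℝ] V) := by
  simp only [eigenSum, Submodule.map_iSup, map_eig f hf]

theorem transport {mul : V →ₗ[ℝ] V →ₗ[ℝ] V} {B : LinearMap.BilinForm ℝ V} {μ f : V ≃ₗ[ℝ] V} {a : V}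
    (h : IsMajoranaPair mul B μ a) (hf : ∀ u v, f (mul u v) = mul (f u) (f v)) (hc : ∀ x, μ (f x) = f (μ x)) :
    IsMajoranaPair mul B μ (f a) := by
  obtain ⟨h1, h2, ⟨⟨h3, h4, h5, h6⟩, h7⟩, h8, h9⟩ := h
  refine ⟨h1, h2, ⟨⟨by simpa using h3, by rw [← hf, h4], ?_, ?_⟩, ?_⟩, ?_, ?_⟩
  · rw [map_eigSum f hf, h5, Submodule.map_top, LinearEquiv.range]
  · intro c hcS d hdS u hu v hv
    rw [map_eig f hf] at hu hv
    obtain ⟨u, hu, rfl⟩ := hu
    obtain ⟨v, hv, rfl⟩ := hv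
    rw [map_eigSum f hf]
    exact ⟨mul u v, h6 c hcS d hdS u hu v hv, hf u v⟩
  · rw [map_eig f hf, h7, Submodule.map_span, Set.image_singleton]; rfl
  · intro v hv
    rw [map_eigSum f hf] at hv
    obtain ⟨w, hw, rfl⟩ := hv
    have := h8 w hw
    simp only [LinearEquiv.coe_coe] at this ⊢
    rw [hc, this]
  · intro v hv
    rw [map_eig f hf] at hv
    obtain ⟨w, hw, rfl⟩ := hv
    have := h9 w hw
    simp only [LinearEquiv.coe_coe] at this ⊢
    rw [hc, this, map_neg]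

theorem fixed_decomp {mul : V →ₗ[ℝ] V →ₗ[ℝ] V} {B : LinearMap.BilinForm ℝ V} {μ : V ≃ₗ[ℝ] V} {a x : V}
    (h : IsMajoranaPair mul B μ a) (hx : μ x = x) :
    ∃ k : ℝ, ∃ u v : V, mul a u = 0 ∧ mul a v = (1/4 : ℝ) • v ∧ x = k • a + u + v := by
  obtain ⟨-, -, ⟨⟨-, -, h5, -⟩, h7⟩, h8, h9⟩ := h
  have hx' : x ∈ eigenSum mul a majoranaSpectrum := by rw [h5]; trivial
  have hins : ∀ (e : ℝ) (S : Set ℝ), eigenSum mul a (insert e S) = eigen mul a e ⊔ eigenSum mul a S := fun e S => iSup_insert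
  have hsing : ∀ (e : ℝ), eigenSum mul a {e} = eigen mul a e := fun e => iSup_singleton
  rw [majoranaSpectrum, hins, hins, hins, hsing] at hx'
  obtain ⟨p, hp, y, hy, rfl⟩ := Submodule.mem_sup.1 hx'
  obtain ⟨u, hu, z, hz, rfl⟩ := Submodule.mem_sup.1 hy
  obtain ⟨v, hv, s, hs, rfl⟩ := Submodule.mem_sup.1 hz
  rw [hins, hins, hsing] at h8
  have ep := h8 p (Submodule.mem_sup_left hp)
  have eu := h8 u (Submodule.mem_sup_right (Submodule.mem_sup_left hu))
  have ev := h8 v (Submodule.mem_sup_right (Submodule.mem_sup_right hv))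
  have es := h9 s hs
  simp only [LinearEquiv.coe_coe] at ep eu ev es
  rw [map_add, map_add, map_add, ep, eu, ev, es] at hx
  have hs0 : s = 0 := by
    have h2 : -s = s := by simpa using hx
    have h3 : (2 : ℝ) • s = 0 := by rw [two_smul]; nth_rw 1 [← h2]; exact neg_add_cancel s
    simpa using h3
  rw [h7, Submodule.mem_span_singleton] at hp
  obtain ⟨k, rfl⟩ := hp
  refine ⟨k, u, v, by simpa using mem_eig.1 hu, mem_eig.1 hv, ?_⟩
  rw [hs0, add_zero, add_assoc]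

/-- Let V be a finite-dimensional real vector space with a commutative bilinear product and a positive-definite symmetric bilinear form that associates with the product and satisfies the Norton inequality (the Majorana setting of the definitions). Let μ₀, μ₁ be commuting Majorana involutions with distinct axial vectors a₀ ≠ a₁ of squared length 1, each involution having no other axial vector. Then either a₀ and a₁ are orthogonal with a₀ ∘ a₁ = 0 (type 2B), or their inner product is 1/8 and, with a₂ = a₀ + a₁ − 8 a₀ ∘ a₁, the vector a₂ is an idempotent and a₀ ∘ a₂ = (1/8)(a₀ + a₂ − a₁), a₁ ∘ a₂ = (1/8)(a₁ + a₂ − a₀) (type 2A: the three idempotents span a subalgebra with aᵢ ∘ aⱼ = (1/8)(aᵢ + aⱼ − aₖ)). -/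
theorem result {V : Type*} [AddCommGroup V] [Module ℝ V] [FiniteDimensional ℝ V] (mul : V →ₗ[ℝ] V →ₗ[ℝ] V) (B : LinearMap.BilinForm ℝ V) (hV : Cfsg.Axial.IsMajoranaAmbient mul B) (μ₀ μ₁ : V ≃ₗ[ℝ] V) (a₀ a₁ : V) (h₀ : Cfsg.Axial.IsMajoranaPair mul B μ₀ a₀) (h₁ : Cfsg.Axial.IsMajoranaPair mul B μ₁ a₁) (hu₀ : ∀ a : V, Cfsg.Axial.IsMajoranaPair mul B μ₀ a → a = a₀) (hu₁ : ∀ a : V, Cfsg.Axial.IsMajoranaPair mul B μ₁ a → a = a₁) (hn₀ : B a₀ a₀ = 1) (hn₁ : B a₁ a₁ = 1) (hc : μ₀ * μ₁ = μ₁ * μ₀) (hne : a₀ ≠ a₁) : (B a₀ a₁ = 0 ∧ mul a₀ a₁ = 0) ∨ (B a₀ a₁ = 1 / 8 ∧ mul (a₀ + a₁ - (8 : ℝ) • mul a₀ a₁) (a₀ + a₁ - (8 : ℝ) • mul a₀ a₁) = a₀ + a₁ - (8 : ℝ) • mul a₀ a₁ ∧ mul a₀ (a₀ + a₁ - (8 : ℝ) • mul a₀ a₁) = (1 / 8 : ℝ) • (a₀ + (a₀ + a₁ - (8 : ℝ) • mul a₀ a₁) - a₁) ∧ mul a₁ (a₀ + a₁ - (8 : ℝ) • mul a₀ a₁) = (1 / 8 : ℝ) • (a₁ + (a₀ + a₁ - (8 : ℝ) • mul a₀ a₁) - a₀)) := by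
  
  obtain ⟨hcm, hs, hpos, hass, -⟩ := hV
  have hc' : ∀ x, μ₀ (μ₁ x) = μ₁ (μ₀ x) := fun x => LinearEquiv.congr_fun hc x
  have f0 : μ₁ a₀ = a₀ := hu₀ _ (transport h₀ h₁.1 hc')
  have f1 : μ₀ a₁ = a₁ := hu₁ _ (transport h₁ h₀.1 (fun x => (hc' x).symm))
  obtain ⟨k, u, v, hu, hv, e0⟩ := fixed_decomp h₁ f0
  obtain ⟨k', u', v', hu', hv', e1⟩ := fixed_decomp h₀ f1
  obtain ⟨-, -, ⟨⟨-, i1, -, hfus⟩, hprim⟩, -⟩ := h₁
  have i0 : mul a₀ a₀ = a₀ := h₀.2.2.1.1.2.1
  have orth : ∀ a u : V, mul a a = a → mul a u = 0 → B a u = 0 := by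
    intro a u ha hu
    calc B a u = B (mul a a) u := by rw [ha]
      _ = 0 := by rw [← hass, hu, map_zero]
  have orth4 : ∀ a v : V, mul a a = a → mul a v = (1/4 : ℝ) • v → B a v = 0 := by
    intro a v ha hv
    have : B a v = (1/4 : ℝ) * B a v := by
      calc B a v = B (mul a a) v := by rw [ha]
        _ = (1/4 : ℝ) * B a v := by rw [← hass, hv, map_smul, smul_eq_mul]
    linarith
  obtain ⟨c, hcdef⟩ : ∃ c, c = B a₀ a₁ := ⟨_, rfl⟩
  have hk : k = c := by
    rw [hcdef, hs a₀ a₁, e0]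
    simp [orth a₁ u i1 hu, orth4 a₁ v i1 hv, hn₁]
  have hk' : k' = c := by
    rw [hcdef, e1]
    simp [orth a₀ u' i0 hu', orth4 a₀ v' i0 hv', hn₀]
  rw [hk] at e0
  rw [hk'] at e1
  clear hk hk' k k'
  -- products of the two eigenvectors
  have hsp0 : (0:ℝ) ∈ majoranaSpectrum := by simp [majoranaSpectrum]
  have hsp4 : (1/4:ℝ) ∈ majoranaSpectrum := by simp [majoranaSpectrum]
  have mu0 : u ∈ eigen mul a₁ 0 := mem_eig.2 (by simpa using hu)
  have mv4 : v ∈ eigen mul a₁ (1/4) := mem_eig.2 hv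
  have huu : mul a₁ (mul u u) = 0 := by
    have h := hfus 0 hsp0 0 hsp0 u mu0 u mu0
    have hl : monsterLaw (1/4 : ℝ) (1/32) 0 0 = {0} := by norm_num [monsterLaw]
    rw [hl, eigenSum, iSup_singleton] at h
    simpa using mem_eig.1 h
  have huv : mul a₁ (mul u v) = (1/4 : ℝ) • mul u v := by
    have h := hfus 0 hsp0 (1/4) hsp4 u mu0 v mv4
    have hl : monsterLaw (1/4 : ℝ) (1/32) 0 (1/4) = {1/4} := by norm_num [monsterLaw]
    rw [hl, eigenSum, iSup_singleton] at h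
    exact mem_eig.1 h
  obtain ⟨q, w, hw, hvv⟩ : ∃ q : ℝ, ∃ w, mul a₁ w = 0 ∧ mul v v = q • a₁ + w := by
    have h := hfus (1/4) hsp4 (1/4) hsp4 v mv4 v mv4
    have hl : monsterLaw (1/4 : ℝ) (1/32) (1/4) (1/4) = {1, 0} := by norm_num [monsterLaw]
    rw [hl, eigenSum, iSup_insert, iSup_singleton] at h
    obtain ⟨p, hp, w, hw, e⟩ := Submodule.mem_sup.1 h
    rw [hprim, Submodule.mem_span_singleton] at hp
    obtain ⟨q, rfl⟩ := hp
    exact ⟨q, w, by simpa using mem_eig.1 hw, e.symm⟩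
  have uniq : ∀ (r : ℝ) (x y : V), mul a₁ x = 0 → mul a₁ y = (1/4 : ℝ) • y → r • a₁ + x + y = 0 → r = 0 ∧ x = 0 ∧ y = 0 := by
    intro r x y hx hy he
    have hr : r = 0 := by
      have h := congrArg (B a₁) he
      simpa [orth a₁ x i1 hx, orth4 a₁ y i1 hy, hn₁] using h
    subst hr
    have h := congrArg (mul a₁) he
    simp [hx, hy] at h
    refine ⟨rfl, ?_, h⟩
    simpa [h] using he
  have vu : mul v u = mul u v := hcm v u
  have ua : mul u a₁ = 0 := by rw [hcm, hu]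
  have va : mul v a₁ = (1/4 : ℝ) • v := by rw [hcm, hv]
  -- idempotency of a₀
  have E1 : (c ^ 2 + q - c) • a₁ + (mul u u + w - u) + ((2:ℝ) • mul u v + (c/2 - 1) • v) = 0 := by
    have h := i0
    rw [e0] at h
    simp only [map_add, map_smul, LinearMap.add_apply, LinearMap.smul_apply, i1, hu, hv, ua, va, vu, hvv, smul_zero, add_zero, zero_add] at h
    rw [← sub_eq_zero] at h
    linear_combination (norm := module) h
  obtain ⟨Eq, Ew, Euv⟩ := uniq _ _ _ (by simp [map_sub, map_add, huu, hw, hu]) (by rw [map_add, map_smul, map_smul, huv, hv]; module) E1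
  have huv' : mul u v = (1/2 - c/4) • v := by linear_combination (norm := module) (1/2 : ℝ) • Euv
  have hq : q = c - c^2 := by linarith
  -- squared lengths
  have hvnorm : B v v = 4 * q := by
    have h : B a₁ (mul v v) = B (mul a₁ v) v := hass _ _ _
    rw [hv, hvv] at h
    simp [hn₁, orth a₁ w i1 hw] at h
    linarith
  have buv : B u v = 0 := by
    have h : B u (mul a₁ v) = B (mul u a₁) v := hass _ _ _
    rw [hv, ua] at h
    simpa using h
  have hunorm : c^2 + B u u + B v v = 1 := by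
    have h := hn₀
    rw [e0] at h
    simp [hn₁, orth a₁ u i1 hu, orth4 a₁ v i1 hv, hs u a₁, hs v a₁, hs v u, buv] at h
    linarith
  -- the common product
  have P1 : mul a₀ a₁ = c • a₁ + (1/4 : ℝ) • v := by
    rw [e0]; simp [i1, ua, va]
  have P0 : mul a₀ a₁ = c • a₀ + (1/4 : ℝ) • v' := by
    conv_lhs => rw [e1]
    simp [i0, hu', hv']
  have ev' : v' = (4 * c) • a₁ - (4 * c) • a₀ + v := by
    linear_combination (norm := module) (4:ℝ) • (P1 - P0)
  have E2 : (0 : ℝ) • a₁ + (w - (3*c) • u) + (1/4 - 2*c) • v = 0 := by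
    have h := hv'
    rw [ev'] at h
    simp only [map_sub, map_add, map_smul, i0, P1] at h
    rw [e0] at h
    simp only [map_add, map_smul, LinearMap.add_apply, LinearMap.smul_apply, hv, hvv, huv', hq] at h
    linear_combination (norm := module) h
  obtain ⟨-, Ew2, Ev⟩ := uniq _ _ _ (by simp [map_sub, hw, hu]) (by rw [map_smul, hv]; module) E2
  rcases smul_eq_zero.1 Ev with hc8 | hv0
  · have hc8' : c = 1/8 := by linarith
    subst hc8'
    right
    have ea2 : a₀ + a₁ - (8 : ℝ) • mul a₀ a₁ = (1/8 : ℝ) • a₁ + u - v := by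
      rw [P1, e0]; module
    have hw' : w = (3/8 : ℝ) • u := by linear_combination (norm := module) Ew2
    have huu' : mul u u = (5/8 : ℝ) • u := by linear_combination (norm := module) Ew - hw'
    refine ⟨hcdef.symm, ?_, ?_, ?_⟩
    · rw [ea2]
      simp only [map_add, map_sub, map_smul, LinearMap.add_apply, LinearMap.sub_apply, LinearMap.smul_apply, i1, hu, hv, ua, va, vu, hvv, huu', huv', hw', hq]
      module
    · rw [ea2, e0]
      simp only [map_add, map_sub, map_smul, LinearMap.add_apply, LinearMap.smul_apply, i1, hu, hv, ua, va, vu, hvv, huu', huv', hw', hq]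
      module
    · rw [ea2, e0]
      simp only [map_add, map_sub, map_smul, i1, hu, hv]
      module
  · subst hv0
    have hq0 : q = 0 := by simp at hvnorm; linarith
    rw [hq] at hq0
    have : c * (1 - c) = 0 := by linarith [hq0]
    rcases mul_eq_zero.1 this with hc0 | hc1
    · left
      subst hc0
      exact ⟨hcdef.symm, by simp [P1]⟩
    · exfalso
      have hc1' : c = 1 := by linarith
      subst hc1'
      have : B u u = 0 := by simp at hunorm; linarith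
      have hu0 : u = 0 := by
        by_contra hne'
        have := hpos u hne'
        linarith
      exact hne (by rw [e0, hu0]; simp)


end Cfsg.Agent.S5545
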