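import Cfsg.Statements.S5548
import Cfsg.Agent.Lib.Golay.ModLattice

set_option autoImplicit false
set_option linter.all false
open Cfsg

namespace Cfsg.Agent.S5548
open Cfsg CfsgLib.Golay CfsgLib.Golay.OctTrio
open scoped Pointwise

/-- For the automorphism group of the length-24 binary Golay code of the definitions (the Mathieu group of degree 24) acting on binary words of length 24 by permuting coordinates, the only invariant subspaces of the space of all words are: zero, the span of the all-ones word, the code itself, the even-weight words, and the whole space. (So the permutation module has a unique composition series.) -/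
theorem result (W : Submodule (ZMod 2) (Cfsg.GolayPt → ZMod 2)) (hW : ∀ σ ∈ Cfsg.M24, ∀ w ∈ W, (fun p => w (σ.symm p)) ∈ W) : W = ⊥ ∨ W = Submodule.span (ZMod 2) {fun _ => (1 : ZMod 2)} ∨ W = Cfsg.golayCode ∨ (W : Set (Cfsg.GolayPt → ZMod 2)) = {w | ∑ p, w p = 0} ∨ W = ⊤ := by
  exact CfsgLib.Golay.lattice W hW

end Cfsg.Agent.S5548
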