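import Cfsg.Statements.S5594
import Cfsg.Agent.Lib.Leech.Mono

set_option autoImplicit false
set_option linter.all false
open Cfsg

namespace Cfsg.Agent.S5594

/-- The automorphism group of the Leech lattice contains the negation map, and the subgroup of order 2 it generates has no complement: the automorphism group is a non-split extension of its quotient by that subgroup (it is not the direct product of a group of order 2 with the first Conway group). -/
theorem result :
    ∃ n : ↥Cfsg.Co0, (∀ v : ↥Cfsg.leechLattice, ((n • v : ↥Cfsg.leechLattice) : Cfsg.GolayPt → ℤ) = -(v : Cfsg.GolayPt → ℤ)) ∧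
    ∀ K : Subgroup ↥Cfsg.Co0, ¬ (Subgroup.zpowers n).IsComplement' K := by
  exact ⟨CfsgLib.Leech.negA, CfsgLib.Leech.negA_apply, CfsgLib.Leech.no_complement⟩

end Cfsg.Agent.S5594
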