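import Cfsg.Statements.S5599
import Cfsg.Agent.Lib.Golay.Cents

set_option autoImplicit false
set_option linter.all false
open scoped Pointwise
open Cfsg

namespace Cfsg.Agent.S5599
open Cfsg CfsgLib.Golay CfsgLib.Golay.Classes CfsgLib.Golay.Search
open scoped Pointwise

/-- In the automorphism group of the length-24 code, the two-point Mathieu group (permutations of the code's group fixing the extra point and the residue 0) has index 2 in the setwise stabiliser of that pair of points, and an element of the code's group interchanging the two points normalises the two-point group and induces on it, by conjugation, an automorphism that is not inner. -/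
theorem result (g : Equiv.Perm Cfsg.GolayPt) (hg : g ∈ Cfsg.M24) (h₁ : g none = some 0) (h₂ : g (some 0) = none) : Cfsg.Spor.M22.relIndex (Cfsg.M24 ⊓ MulAction.stabilizer (Equiv.Perm Cfsg.GolayPt) ({none, some 0} : Finset Cfsg.GolayPt)) = 2 ∧ (∀ x ∈ Cfsg.Spor.M22, g * x * g⁻¹ ∈ Cfsg.Spor.M22) ∧ ¬ ∃ h ∈ Cfsg.Spor.M22, ∀ x ∈ Cfsg.Spor.M22, g * x * g⁻¹ = h * x * h⁻¹ := by
  obtain ⟨m11, f23, f0, hcent⟩ := x11_check
  have hx : toPerm x11 ∈ Cfsg.Spor.M22 := by
    have hok := okPerm_of_inM24 m11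
    have hn : toPerm x11 none = none := idx_inj.1 (by rw [idx_toPerm hok]; exact f23)
    have h0 : toPerm x11 (some 0) = some 0 := idx_inj.1 (by rw [idx_toPerm hok]; exact f0)
    exact ⟨⟨toPerm_mem_M24 m11, hn⟩, h0⟩
  have hmem : ∀ x, x ∈ Cfsg.Spor.M22 ↔ x ∈ M24 ∧ x none = none ∧ x (some 0) = some 0 := fun x =>
    ⟨fun h => ⟨h.1.1, h.1.2, h.2⟩, fun h => ⟨⟨h.1, h.2.1⟩, h.2.2⟩⟩
  have hconj : ∀ x ∈ Cfsg.Spor.M22, g * x * g⁻¹ ∈ Cfsg.Spor.M22 := by
    intro x hx
    obtain ⟨a, b, c⟩ := (hmem x).1 hx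
    refine (hmem _).2 ⟨mul_mem (mul_mem hg a) (inv_mem hg), ?_, ?_⟩
    · rw [Equiv.Perm.mul_apply, Equiv.Perm.mul_apply, Equiv.Perm.inv_eq_iff_eq.2 h₂.symm, c, h₂]
    · rw [Equiv.Perm.mul_apply, Equiv.Perm.mul_apply, Equiv.Perm.inv_eq_iff_eq.2 h₁.symm, b, h₁]
  refine ⟨?_, hconj, ?_⟩
  · rw [Subgroup.relIndex, Subgroup.index_eq_two_iff]
    have hpair : ∀ x : Equiv.Perm GolayPt, x • ({none, some 0} : Finset GolayPt) = {none, some 0} →
        (x none = none ∧ x (some 0) = some 0) ∨ (x none = some 0 ∧ x (some 0) = none) := by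
      intro x hx
      have e1 : x none ∈ ({none, some 0} : Finset GolayPt) :=
        (congrArg (fun s => x none ∈ s) hx).mp (Finset.smul_mem_smul_finset (a := x) (by simp))
      have e2 : x (some 0) ∈ ({none, some 0} : Finset GolayPt) :=
        (congrArg (fun s => x (some 0) ∈ s) hx).mp (Finset.smul_mem_smul_finset (a := x) (by simp))
      simp only [Finset.mem_insert, Finset.mem_singleton] at e1 e2
      rcases e1 with e1 | e1 <;> rcases e2 with e2 | e2
      · exact absurd (x.injective (e1.trans e2.symm)) (by simp)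
      · exact Or.inl ⟨e1, e2⟩
      · exact Or.inr ⟨e1, e2⟩
      · exact absurd (x.injective (e1.trans e2.symm)) (by simp)
    refine ⟨⟨g, hg, ?_⟩, fun b => ?_⟩
    · show g • ({none, some 0} : Finset GolayPt) = {none, some 0}
      rw [Finset.smul_finset_insert, Finset.smul_finset_singleton, Equiv.Perm.smul_def, h₁,
        Equiv.Perm.smul_def, h₂, Finset.pair_comm]
    · simp only [Subgroup.mem_subgroupOf, Subgroup.coe_mul]
      have hb : (b : Equiv.Perm GolayPt) ∈ M24 ∧
          (b : Equiv.Perm GolayPt) • ({none, some 0} : Finset GolayPt) = {none, some 0} := b.2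
      rcases hpair _ hb.2 with ⟨p, q⟩ | ⟨p, q⟩
      · refine Or.inr ⟨(hmem _).2 ⟨hb.1, p, q⟩, fun h => ?_⟩
        have := ((hmem _).1 h).2.1
        rw [Equiv.Perm.mul_apply, h₁, q] at this
        simp at this
      · refine Or.inl ⟨(hmem _).2 ⟨mul_mem hb.1 hg, ?_, ?_⟩, fun h => ?_⟩
        · rw [Equiv.Perm.mul_apply, h₁, q]
        · rw [Equiv.Perm.mul_apply, h₂, p]
        · have := ((hmem _).1 h).2.1
          rw [p] at this
          simp at this
  · rintro ⟨h, hh, he⟩
    obtain ⟨a, b, c⟩ := (hmem h).1 hh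
    have hok := okPerm_of_inM24 m11
    obtain ⟨q, hq, e⟩ := (mem_sols hok hok (h⁻¹ * g)).2 ⟨mul_mem (inv_mem a) hg, by
      calc h⁻¹ * g * toPerm x11 = h⁻¹ * (g * toPerm x11 * g⁻¹) * g := by group
        _ = toPerm x11 * (h⁻¹ * g) := by rw [he _ hx]; group⟩
    have h23 := List.all_eq_true.1 hcent q hq
    rw [beq_iff_eq] at h23
    have hn : (h⁻¹ * g) none = none := by
      rw [← e, ← idx_inj, idx_toPerm (sols_spec hok hok hq).1]
      exact h23
    rw [Equiv.Perm.mul_apply, h₁, Equiv.Perm.inv_eq_iff_eq, b] at hn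
    simp at hn

end Cfsg.Agent.S5599
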