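import Cfsg.Statements.S5600
import Cfsg.Agent.Lib.Golay.Cents

set_option autoImplicit false
set_option linter.all false
open scoped Pointwise
open Cfsg

namespace Cfsg.Agent.S5600
open Cfsg CfsgLib.Golay CfsgLib.Golay.Classes CfsgLib.Golay.Search
open scoped Pointwise

/-- Although the group of the length-24 code is only 5-transitive on the 24 points, it induces the full symmetric group on every 6-element subset: every permutation of a 6-set E is the restriction of an element of the group mapping E to itself. The pointwise stabiliser of E has order 16 when E lies in an octad and order 3 otherwise; in the latter case the setwise stabiliser of E has order 2160. -/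
theorem result (E : Finset Cfsg.GolayPt) (hE : E.card = 6) : (∀ σ : Equiv.Perm ↥E, ∃ g ∈ Cfsg.M24, ∀ p : ↥E, g p = σ p) ∧ ((∃ o ∈ Cfsg.octads, E ⊆ o) → Nat.card {g : Equiv.Perm Cfsg.GolayPt // g ∈ Cfsg.M24 ∧ ∀ p ∈ E, g p = p} = 16) ∧ ((¬ ∃ o ∈ Cfsg.octads, E ⊆ o) → Nat.card {g : Equiv.Perm Cfsg.GolayPt // g ∈ Cfsg.M24 ∧ ∀ p ∈ E, g p = p} = 3 ∧ Nat.card ↥(MulAction.stabilizer Cfsg.M24 E) = 2160) := by
  classical
  obtain ⟨a, ha, hstd⟩ := six_std hE
  have perm : ∀ σ : Equiv.Perm ↥E, ∃ g ∈ M24, ∀ p : ↥E, g p = σ p := by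
    have gen : ∀ m l ws, (∀ p, p ∈ toSet m ↔ idx p ∈ l) → chkSwaps l ws = true → a • E = toSet m →
        ∀ σ : Equiv.Perm ↥E, ∃ g ∈ M24, ∀ p : ↥E, g p = σ p := by
      intro m l ws hl hw he σ
      let f : ↥E ≃ ↥(toSet m) := a.subtypeEquiv fun p => by
        rw [← he]; exact (Finset.smul_mem_smul_finset_iff a).symm
      obtain ⟨g, hg, h⟩ := swaps_perm hl hw ((f.symm.trans σ).trans f)
      refine ⟨a⁻¹ * g * a, mul_mem (mul_mem (inv_mem ha) hg) ha, fun p => ?_⟩
      have := h (f p)
      simp only [Equiv.trans_apply, Equiv.symm_apply_apply] at this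
      rw [Equiv.Perm.mul_apply, Equiv.Perm.mul_apply, Equiv.Perm.inv_eq_iff_eq]
      exact this
    rcases hstd with he | he
    · exact gen sixO [23, 0, 1, 2, 3, 5] swO (by decide +kernel) six_checks.2.2.2.2.1 he
    · exact gen sixN [23, 0, 1, 2, 3, 4] swN (by decide +kernel) six_checks.2.2.2.2.2.1 he
  have hcard : ∀ m, a • E = toSet m → Nat.card {g : Equiv.Perm GolayPt // g ∈ M24 ∧ ∀ p ∈ E, g p = p} =
      Nat.card {g : Equiv.Perm GolayPt // g ∈ M24 ∧ ∀ p ∈ toSet m, g p = p} := by
    intro m he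
    refine Nat.card_congr ((MulAut.conj a).toEquiv.subtypeEquiv fun g => ?_)
    show g ∈ M24 ∧ (∀ p ∈ E, g p = p) ↔ a * g * a⁻¹ ∈ M24 ∧ ∀ p ∈ toSet m, (a * g * a⁻¹) p = p
    refine and_congr ⟨fun hg => mul_mem (mul_mem ha hg) (inv_mem ha), fun hg => ?_⟩ ?_
    · have := mul_mem (mul_mem (inv_mem ha) hg) ha
      rwa [show a⁻¹ * (a * g * a⁻¹) * a = g by group] at this
    · rw [← he]
      simp only [Equiv.Perm.mul_apply]
      constructor
      · intro h p hp
        obtain ⟨q, hq, rfl⟩ := Finset.mem_smul_finset.1 hp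
        rw [Equiv.Perm.smul_def, Equiv.Perm.inv_def, Equiv.symm_apply_apply, h q hq]
      · intro h p hp
        have := h (a • p) (Finset.smul_mem_smul_finset hp)
        rw [Equiv.Perm.smul_def, Equiv.Perm.inv_def, Equiv.symm_apply_apply] at this
        exact a.injective this
  have hcO : Nat.card {g : Equiv.Perm GolayPt // g ∈ M24 ∧ ∀ p ∈ toSet sixO, g p = p} = 16 :=
    (card_fix_six six_checks.1 (by norm_num)).trans six_checks.2.2.1
  have hcN : Nat.card {g : Equiv.Perm GolayPt // g ∈ M24 ∧ ∀ p ∈ toSet sixN, g p = p} = 3 :=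
    (card_fix_six six_checks.2.1 (by norm_num)).trans six_checks.2.2.2.1
  have hO : a • E = toSet sixO → ∃ o ∈ octads, E ⊆ o := by
    intro he
    obtain ⟨o, ho, h⟩ := List.any_eq_true.1 six_checks.2.2.2.2.2.2.1
    rw [beq_iff_eq, Nat.land_comm] at h
    refine ⟨a⁻¹ • toSet o, smul_octad (inv_mem ha) (toSet_mem_octads ho), fun p hp => ?_⟩
    rw [Finset.mem_inv_smul_finset_iff]
    exact (toSet_subset_iff (by decide)).2 h (he ▸ Finset.smul_mem_smul_finset hp)
  have hN : a • E = toSet sixN → ¬ ∃ o ∈ octads, E ⊆ o := by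
    rintro he ⟨o, ho, hsub⟩
    obtain ⟨m, hm, e⟩ := exists_mask_octad (smul_octad ha ho)
    have h := List.all_eq_true.1 six_checks.2.2.2.2.2.2.2 m hm
    have hs : toSet sixN ⊆ toSet m := by
      rw [← he, e]; exact Finset.smul_finset_subset_smul_finset hsub
    rw [toSet_subset_iff (by decide), Nat.land_comm] at hs
    rw [hs] at h
    simp at h
  refine ⟨perm, fun h => ?_, fun h => ?_⟩
  · rcases hstd with he | he
    · rw [hcard _ he, hcO]
    · exact absurd h (hN he)
  · rcases hstd with he | he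
    · exact absurd (hO he) h
    have h3 : Nat.card {g : Equiv.Perm GolayPt // g ∈ M24 ∧ ∀ p ∈ E, g p = p} = 3 := by rw [hcard _ he, hcN]
    refine ⟨h3, ?_⟩
    let f : ↥(MulAction.stabilizer ↥M24 E) → Equiv.Perm ↥E := fun g =>
      ((g : ↥M24) : Equiv.Perm GolayPt).subtypePerm fun p => by
        have hg : ((g : ↥M24) : Equiv.Perm GolayPt) • E = E := MulAction.mem_stabilizer_iff.1 g.2
        generalize ((g : ↥M24) : Equiv.Perm GolayPt) = x at hg
        conv_lhs => rw [← hg]
        exact Finset.smul_mem_smul_finset_iff x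
    choose k hk hkp using perm
    have hkE : ∀ σ, (⟨k σ, hk σ⟩ : ↥M24) ∈ MulAction.stabilizer ↥M24 E := fun σ => by
      rw [MulAction.mem_stabilizer_iff]
      apply Finset.eq_of_subset_of_card_le
      · intro z hz
        obtain ⟨w, hw, rfl⟩ := Finset.mem_smul_finset.1 hz
        show k σ w ∈ E
        rw [hkp σ ⟨w, hw⟩]
        exact (σ ⟨w, hw⟩).2
      · rw [Finset.card_smul_finset]
    have hf : ∀ (g : ↥(MulAction.stabilizer ↥M24 E)) (p : ↥E),
        ((k (f g))⁻¹ * ((g : ↥M24) : Equiv.Perm GolayPt)) p = p := fun g p => by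
      rw [Equiv.Perm.mul_apply, Equiv.Perm.inv_eq_iff_eq, hkp (f g) p]
      rfl
    have e : ↥(MulAction.stabilizer ↥M24 E) ≃
        Equiv.Perm ↥E × {g : Equiv.Perm GolayPt // g ∈ M24 ∧ ∀ p ∈ E, g p = p} :=
      { toFun := fun g => (f g, ⟨(k (f g))⁻¹ * ((g : ↥M24) : Equiv.Perm GolayPt),
          mul_mem (inv_mem (hk _)) (g : ↥M24).2, fun p hp => hf g ⟨p, hp⟩⟩)
        invFun := fun z => ⟨⟨k z.1, hk _⟩ * ⟨z.2.1, z.2.2.1⟩, mul_mem (hkE _) (by
          rw [MulAction.mem_stabilizer_iff]
          apply Finset.eq_of_subset_of_card_le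
          · intro y hy
            obtain ⟨w, hw, rfl⟩ := Finset.mem_smul_finset.1 hy
            show z.2.1 w ∈ E
            rw [z.2.2.2 w hw]; exact hw
          · rw [Finset.card_smul_finset])⟩
        left_inv := fun g => Subtype.ext (Subtype.ext (mul_inv_cancel_left _ _))
        right_inv := by
          rintro ⟨σ, g, hg, hgp⟩
          have h1 : f ⟨⟨k σ, hk σ⟩ * ⟨g, hg⟩, mul_mem (hkE _) (by
            rw [MulAction.mem_stabilizer_iff]
            apply Finset.eq_of_subset_of_card_le
            · intro y hy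
              obtain ⟨w, hw, rfl⟩ := Finset.mem_smul_finset.1 hy
              show g w ∈ E
              rw [hgp w hw]; exact hw
            · rw [Finset.card_smul_finset])⟩ = σ := by
            refine Equiv.ext fun p => Subtype.ext ?_
            show k σ (g p) = σ p
            rw [hgp p.1 p.2, hkp]
          refine Prod.ext h1 (Subtype.ext ?_)
          show (k (f _))⁻¹ * (k σ * g) = g
          rw [h1, inv_mul_cancel_left] }
    rw [Nat.card_congr e, Nat.card_prod, Nat.card_perm, h3, Nat.card_eq_finsetCard, hE]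
    rfl

end Cfsg.Agent.S5600
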