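import Cfsg.Statements.S5601
import Cfsg.Agent.Lib.Golay.FixCount

set_option autoImplicit false
set_option linter.all false
open scoped Pointwise
open Cfsg

namespace Cfsg.Agent.S5601
open Cfsg CfsgLib.Golay CfsgLib.Golay.Classes CfsgLib.Golay.Search
open scoped Pointwise

/-- The group of the length-24 code has exactly two conjugacy classes of subgroups of order 3: a subgroup of order 3 fixes either exactly 6 of the 24 points or none of them, both cases occur, and two subgroups of order 3 with the same number of fixed points are conjugate. -/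
theorem result : (∀ X : Subgroup ↥Cfsg.M24, Nat.card X = 3 → {p : Cfsg.GolayPt | ∀ x ∈ X, ((x : ↥Cfsg.M24) : Equiv.Perm Cfsg.GolayPt) p = p}.ncard = 6 ∨ {p : Cfsg.GolayPt | ∀ x ∈ X, ((x : ↥Cfsg.M24) : Equiv.Perm Cfsg.GolayPt) p = p}.ncard = 0) ∧ (∃ X : Subgroup ↥Cfsg.M24, Nat.card X = 3 ∧ {p : Cfsg.GolayPt | ∀ x ∈ X, ((x : ↥Cfsg.M24) : Equiv.Perm Cfsg.GolayPt) p = p}.ncard = 6) ∧ (∃ X : Subgroup ↥Cfsg.M24, Nat.card X = 3 ∧ {p : Cfsg.GolayPt | ∀ x ∈ X, ((x : ↥Cfsg.M24) : Equiv.Perm Cfsg.GolayPt) p = p}.ncard = 0) ∧ ∀ X Y : Subgroup ↥Cfsg.M24, Nat.card X = 3 → Nat.card Y = 3 → {p : Cfsg.GolayPt | ∀ x ∈ X, ((x : ↥Cfsg.M24) : Equiv.Perm Cfsg.GolayPt) p = p}.ncard = {p : Cfsg.GolayPt | ∀ x ∈ Y, ((x : ↥Cfsg.M24) : Equiv.Perm Cfsg.GolayPt) p = p}.ncard → ∃ k : ↥Cfsg.M24, MulAut.conj k • X = Y := by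
  haveI : Fact (Nat.Prime 3) := ⟨Nat.prime_three⟩
  have gen : ∀ X : Subgroup ↥M24, Nat.card X = 3 → ∃ x : ↥M24, orderOf ((x : Equiv.Perm GolayPt)) = 3 ∧
      Subgroup.zpowers x = X ∧ {p : GolayPt | ∀ y ∈ X, ((y : ↥M24) : Equiv.Perm GolayPt) p = p}.ncard =
        (Finset.univ.filter fun p => (x : Equiv.Perm GolayPt) p = p).card := by
    intro X hX
    haveI : IsCyclic ↥X := isCyclic_of_prime_card hX
    obtain ⟨⟨x, hx⟩, hgen⟩ := IsCyclic.exists_generator (α := ↥X)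
    have hz : Subgroup.zpowers x = X := by
      refine le_antisymm ((Subgroup.zpowers_le).2 hx) fun y hy => ?_
      obtain ⟨n, hn⟩ := Subgroup.mem_zpowers_iff.1 (hgen ⟨y, hy⟩)
      exact ⟨n, by simpa using congrArg Subtype.val hn⟩
    refine ⟨x, ?_, hz, ?_⟩
    · rw [Subgroup.orderOf_coe, ← Nat.card_zpowers, hz, hX]
    · rw [← Set.ncard_coe_finset]
      congr 1
      ext p
      simp only [Set.mem_ofPred_eq, Finset.coe_filter, Finset.mem_univ, true_and]
      refine ⟨fun h => h x hx, fun h y hy => ?_⟩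
      rw [← hz] at hy
      obtain ⟨n, rfl⟩ := Subgroup.mem_zpowers_iff.1 hy
      rw [SubgroupClass.coe_zpow]
      exact Equiv.Perm.zpow_apply_eq_self_of_apply_eq_self h n
  have ex : ∀ r : ℕ, inM24 r = true → orderOf (toPerm r) = 3 → ∀ n, (Finset.univ.filter fun p => toPerm r p = p).card = n →
      ∃ X : Subgroup ↥M24, Nat.card X = 3 ∧
        {p : GolayPt | ∀ y ∈ X, ((y : ↥M24) : Equiv.Perm GolayPt) p = p}.ncard = n := by
    intro r hr ho n hn
    refine ⟨Subgroup.zpowers ⟨toPerm r, toPerm_mem_M24 hr⟩, ?_, ?_⟩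
    · rw [Nat.card_zpowers, ← Subgroup.orderOf_coe, ho]
    · rw [← hn, ← Set.ncard_coe_finset]
      congr 1
      ext p
      simp only [Set.mem_ofPred_eq, Finset.coe_filter, Finset.mem_univ, true_and]
      refine ⟨fun h => h _ (Subgroup.mem_zpowers _), fun h y hy => ?_⟩
      obtain ⟨k, rfl⟩ := Subgroup.mem_zpowers_iff.1 hy
      rw [SubgroupClass.coe_zpow]
      exact Equiv.Perm.zpow_apply_eq_self_of_apply_eq_self h k
  refine ⟨fun X hX => ?_, ex x6 reps_inM24.2.2.1 order_x6 6 fix_reps.2.2.1,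
    ex x0 reps_inM24.2.2.2 order_x0 0 fix_reps.2.2.2, fun X Y hX hY hn => ?_⟩
  · obtain ⟨x, ho, hz, hc⟩ := gen X hX
    obtain ⟨a, ha, h | h⟩ := three_classes x.2 ho
    · exact Or.inl (hc.trans ((fix_card_conj h).trans fix_reps.2.2.1))
    · exact Or.inr (hc.trans ((fix_card_conj h).trans fix_reps.2.2.2))
  · obtain ⟨x, hox, hzx, hcx⟩ := gen X hX
    obtain ⟨y, hoy, hzy, hcy⟩ := gen Y hY
    rw [hcx, hcy] at hn
    obtain ⟨a, ha, e⟩ := three_classes x.2 hox
    obtain ⟨b, hb, f⟩ := three_classes y.2 hoy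
    have key : ∀ r, a * (x : Equiv.Perm GolayPt) * a⁻¹ = r → b * (y : Equiv.Perm GolayPt) * b⁻¹ = r →
        ∃ k : ↥M24, MulAut.conj k • X = Y := fun r e f => by
      refine ⟨⟨b⁻¹ * a, mul_mem (inv_mem hb) ha⟩, ?_⟩
      rw [← hzx, ← hzy]
      refine (MonoidHom.map_zpowers (MulAut.conj _).toMonoidHom x).trans ?_
      congr 1
      refine Subtype.ext ?_
      show b⁻¹ * a * (x : Equiv.Perm GolayPt) * (b⁻¹ * a)⁻¹ = y
      calc b⁻¹ * a * (x : Equiv.Perm GolayPt) * (b⁻¹ * a)⁻¹ =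
          b⁻¹ * (a * (x : Equiv.Perm GolayPt) * a⁻¹) * b := by group
        _ = y := by rw [e, ← f]; group
    rcases e with e | e <;> rcases f with f | f
    · exact key _ e f
    · rw [fix_card_conj e, fix_card_conj f, fix_reps.2.2.1, fix_reps.2.2.2] at hn; omega
    · rw [fix_card_conj e, fix_card_conj f, fix_reps.2.2.1, fix_reps.2.2.2] at hn; omega
    · exact key _ e f

end Cfsg.Agent.S5601
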