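import Cfsg.Statements.S5604
import Cfsg.Agent.Lib.Golay.Cents

set_option autoImplicit false
set_option linter.all false
open scoped Pointwise
open Cfsg

namespace Cfsg.Agent.S5604
open Cfsg CfsgLib.Golay CfsgLib.Golay.Classes CfsgLib.Golay.Search
open scoped Pointwise

/-- For a subgroup S of order 7 of the group of the length-24 code (a Sylow 7-subgroup): the normaliser of S has order 126, the centraliser of S has order 42 and is non-abelian, and the whole normaliser leaves some trio invariant. (These are the orders of a Frobenius group of order 21 times a symmetric group of degree 3; the isomorphism type itself is not asserted here.) -/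
theorem result (S : Subgroup ↥Cfsg.M24) (hS : Nat.card S = 7) : Nat.card ↥(Subgroup.normalizer (S : Set ↥Cfsg.M24)) = 126 ∧ Nat.card ↥(Subgroup.centralizer (S : Set ↥Cfsg.M24)) = 42 ∧ (∃ x ∈ Subgroup.centralizer (S : Set ↥Cfsg.M24), ∃ y ∈ Subgroup.centralizer (S : Set ↥Cfsg.M24), x * y ≠ y * x) ∧ ∃ T ∈ Cfsg.trios, ∀ n ∈ Subgroup.normalizer (S : Set ↥Cfsg.M24), ((n : ↥Cfsg.M24) : Equiv.Perm Cfsg.GolayPt) • T = T := by
  haveI : Fact (Nat.Prime 7) := ⟨by norm_num⟩
  have hval : (Nat.card ↥M24).factorization 7 = 1 := by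
    rw [card_M24, show (244823040 : ℕ) = 7 ^ 1 * 34974720 by norm_num,
      Nat.factorization_mul (by norm_num) (by norm_num), Finsupp.add_apply,
      Nat.Prime.factorization_pow (by norm_num : Nat.Prime 7), Finsupp.single_eq_same,
      Nat.factorization_eq_zero_of_not_dvd (by norm_num)]
  obtain ⟨a, ha⟩ := MulAction.exists_smul_eq ↥M24
    (Sylow.ofCard (Subgroup.zpowers S7) (by rw [card_Z7, hval, pow_one]) : Sylow 7 ↥M24)
    (Sylow.ofCard S (by rw [hS, hval, pow_one]))
  have hconj : S = (Subgroup.zpowers S7).map (MulAut.conj a).toMonoidHom := by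
    have h := congrArg (fun P : Sylow 7 ↥M24 => (P : Subgroup ↥M24)) ha
    exact h.symm
  have hN : ∀ x : ↥M24, x ∈ Subgroup.normalizer (S : Set ↥M24) ↔
      a⁻¹ * x * a ∈ Subgroup.normalizer ((Subgroup.zpowers S7 : Subgroup ↥M24) : Set ↥M24) := by
    intro x
    rw [hconj, ← Subgroup.map_equiv_normalizer_eq, Subgroup.mem_map_equiv]
    simp [MulAut.conj_symm_apply]
  have hC : ∀ x : ↥M24, x ∈ Subgroup.centralizer (S : Set ↥M24) ↔
      a⁻¹ * x * a ∈ Subgroup.centralizer ((Subgroup.zpowers S7 : Subgroup ↥M24) : Set ↥M24) := by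
    intro x
    simp only [hconj, Subgroup.mem_centralizer_iff, Subgroup.coe_map, Set.forall_mem_image]
    refine forall₂_congr fun y _ => ?_
    show a * y * a⁻¹ * x = x * (a * y * a⁻¹) ↔ y * (a⁻¹ * x * a) = a⁻¹ * x * a * y
    constructor
    · intro h
      calc y * (a⁻¹ * x * a) = a⁻¹ * (a * y * a⁻¹ * x) * a := by group
        _ = a⁻¹ * x * a * y := by rw [h]; group
    · intro h
      calc a * y * a⁻¹ * x = a * (y * (a⁻¹ * x * a)) * a⁻¹ := by group
        _ = x * (a * y * a⁻¹) := by rw [h]; group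
  have hcard : ∀ H K : Subgroup ↥M24, (∀ x, x ∈ H ↔ a⁻¹ * x * a ∈ K) → Nat.card ↥H = Nat.card ↥K :=
    fun H K h => Nat.card_congr ((MulAut.conj a⁻¹).toEquiv.subtypeEquiv fun x => by
      rw [h x]; simp [MulAut.conj_apply])
  obtain ⟨-, -, -, hT, c1, c2, m1, m2, c3⟩ := nl7_check
  have hok := okPerm_of_inM24 s7_check.1
  refine ⟨(hcard _ _ hN).trans card_normalizer_Z7, (hcard _ _ hC).trans card_centralizer_Z7, ?_, ?_⟩
  · refine ⟨a * ⟨toPerm c7a, toPerm_mem_M24 m1⟩ * a⁻¹, ?_, a * ⟨toPerm c7b, toPerm_mem_M24 m2⟩ * a⁻¹, ?_, ?_⟩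
    · rw [hC, show ∀ y : ↥M24, a⁻¹ * (a * y * a⁻¹) * a = y from fun y => by group, mem_centralizer_Z7]
      exact (CfsgLib.Golay.TwoFusion.conjB_iff (okPerm_of_inM24 m1) hok hok).1 c1
    · rw [hC, show ∀ y : ↥M24, a⁻¹ * (a * y * a⁻¹) * a = y from fun y => by group, mem_centralizer_Z7]
      exact (CfsgLib.Golay.TwoFusion.conjB_iff (okPerm_of_inM24 m2) hok hok).1 c2
    · intro h
      have h' : ∀ y z : ↥M24, a * y * a⁻¹ * (a * z * a⁻¹) = a * (y * z) * a⁻¹ := fun y z => by group
      rw [h', h', mul_left_inj, mul_right_inj] at h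
      have := (CfsgLib.Golay.TwoFusion.conjB_iff (okPerm_of_inM24 m1) (okPerm_of_inM24 m2)
        (okPerm_of_inM24 m2)).2 (congrArg Subtype.val h)
      rw [c3] at this
      simp at this
  · refine ⟨(a : Equiv.Perm GolayPt) • Sys trio7, smul_trio a.2 (isTrioM_sound s7_check.2.2.2), fun n hn => ?_⟩
    obtain ⟨q, hq, e⟩ := (mem_normalizer_Z7 _).1 ((hN n).1 hn)
    have h1 : toPerm q • Sys trio7 = Sys trio7 := by
      have hqo : okPerm q = true := by
        simp only [nl7, List.mem_flatMap] at hq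
        obtain ⟨j, -, hq⟩ := hq
        exact (sols_spec hok (pwr_spec hok (j + 1)).1 hq).1
      rw [smul_Sys hqo, Sys_eq_of_same (List.all_eq_true.1 hT q hq)]
    rw [e] at h1
    replace h1 : ((a : Equiv.Perm GolayPt)⁻¹ * n * a) • Sys trio7 = Sys trio7 := h1
    rw [mul_smul, mul_smul, inv_smul_eq_iff] at h1
    exact h1

end Cfsg.Agent.S5604
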