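import Cfsg.Statements.S5605
import Cfsg.Agent.Lib.Golay.FixCount

set_option autoImplicit false
set_option linter.all false
open scoped Pointwise
open Cfsg

namespace Cfsg.Agent.S5605
open Cfsg CfsgLib.Golay CfsgLib.Golay.Classes CfsgLib.Golay.Search
open scoped Pointwise

/-- An involution of the group of the length-24 code with exactly 8 fixed points maps to themselves exactly 71 octads, exactly 99 trios and exactly 91 sextets. -/
theorem result (g : Equiv.Perm Cfsg.GolayPt) (hg : g ∈ Cfsg.M24) (h₂ : orderOf g = 2) (h₈ : (Finset.univ.filter fun p => g p = p).card = 8) : {o : Finset Cfsg.GolayPt | o ∈ Cfsg.octads ∧ g • o = o}.ncard = 71 ∧ {T : Finset (Finset Cfsg.GolayPt) | T ∈ Cfsg.trios ∧ g • T = T}.ncard = 99 ∧ {S : Finset (Finset Cfsg.GolayPt) | S ∈ Cfsg.sextets ∧ g • S = S}.ncard = 91 := by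
  obtain ⟨a, ha, e⟩ := conj_t8 hg h₂ h₈
  obtain ⟨c1, c2, c3, c4⟩ := counts_conj ha okPerm_t8 e
  have h := counts_check.1
  simp only [Prod.mk.injEq] at h
  exact ⟨c1.trans h.1, c3.trans h.2.1, c4.trans h.2.2⟩

end Cfsg.Agent.S5605
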