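import Cfsg.Statements.S5607
import Cfsg.Agent.Lib.Golay.Cents

set_option autoImplicit false
set_option linter.all false
open scoped Pointwise
open Cfsg

namespace Cfsg.Agent.S5607
open Cfsg CfsgLib.Golay CfsgLib.Golay.Classes CfsgLib.Golay.Search
open scoped Pointwise

/-- For a fixed-point-free involution t of the group of the length-24 code: its centraliser in that group has order 7680, is transitive on the 24 points, and is contained, together with t, in the stabiliser of some sextet. -/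
theorem result (t : Equiv.Perm Cfsg.GolayPt) (ht : t ∈ Cfsg.M24) (h₂ : orderOf t = 2) (h₀ : ∀ p, t p ≠ p) : Nat.card {c : Equiv.Perm Cfsg.GolayPt // c ∈ Cfsg.M24 ∧ c * t = t * c} = 7680 ∧ (∀ p q : Cfsg.GolayPt, ∃ c ∈ Cfsg.M24, c * t = t * c ∧ c p = q) ∧ ∃ S ∈ Cfsg.sextets, t • S = S ∧ ∀ c ∈ Cfsg.M24, c * t = t * c → c • S = S := by
  obtain ⟨a, ha, e⟩ := conj_t0 ht h₂ h₀
  have back : ∀ c : Equiv.Perm GolayPt, c ∈ M24 → c * toPerm t0 = toPerm t0 * c →
      a⁻¹ * c * a ∈ M24 ∧ a⁻¹ * c * a * t = t * (a⁻¹ * c * a) := fun c hc h => by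
    refine ⟨mul_mem (mul_mem (inv_mem ha) hc) ha, ?_⟩
    rw [← e] at h
    calc a⁻¹ * c * a * t = a⁻¹ * (c * (a * t * a⁻¹)) * a := by group
      _ = t * (a⁻¹ * c * a) := by rw [h]; group
  refine ⟨(cent_card_conj ha e).trans card_cent_t0, fun p q => ?_, a⁻¹ • Sys sex0,
    smul_sextet (inv_mem ha) (isSexM_sound sex0_check.1), ?_, fun c hc h => ?_⟩
  · obtain ⟨c, hc, ec, hcp, -⟩ := t0_reps (a p)
    obtain ⟨d, hd, ed, hdq, -⟩ := t0_reps (a q)
    obtain ⟨k1, k2⟩ := back (d * c⁻¹) (mul_mem hd (inv_mem hc))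
      ((show Commute d (toPerm t0) from ed).mul_left (show Commute c (toPerm t0) from ec).inv_left).eq
    refine ⟨_, k1, k2, ?_⟩
    simp only [Equiv.Perm.mul_apply]
    rw [← hcp, Equiv.Perm.inv_def, Equiv.Perm.inv_def, Equiv.symm_apply_apply, hdq,
      Equiv.symm_apply_apply]
  · rw [show t = a⁻¹ * toPerm t0 * a by rw [← e]; group, mul_smul, mul_smul, smul_inv_smul,
      keep_of okPerm_t0 t0_check.2.2.1]
  · have h1 : a * c * a⁻¹ * toPerm t0 = toPerm t0 * (a * c * a⁻¹) := by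
      rw [← e]
      calc a * c * a⁻¹ * (a * t * a⁻¹) = a * (c * t) * a⁻¹ := by group
        _ = a * t * a⁻¹ * (a * c * a⁻¹) := by rw [h]; group
    have h2 := t0_keep (mul_mem (mul_mem ha hc) (inv_mem ha)) h1
    rw [mul_smul, mul_smul, smul_eq_iff_eq_inv_smul] at h2
    exact h2

end Cfsg.Agent.S5607
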