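import Cfsg.Statements.S5608
import Cfsg.Agent.Lib.Golay.Cents

set_option autoImplicit false
set_option linter.all false
open scoped Pointwise
open Cfsg

namespace Cfsg.Agent.S5608
open Cfsg CfsgLib.Golay CfsgLib.Golay.Classes CfsgLib.Golay.Search
open scoped Pointwise

/-- If an element of order 3 and an involution of the group of the length-24 code commute, then either the element of order 3 has exactly 6 fixed points and the involution exactly 8, or both are fixed-point-free. -/
theorem result (x s : Equiv.Perm Cfsg.GolayPt) (hx : x ∈ Cfsg.M24) (hs : s ∈ Cfsg.M24) (h₃ : orderOf x = 3) (h₂ : orderOf s = 2) (hc : Commute x s) : ((Finset.univ.filter fun p => x p = p).card = 6 ∧ (Finset.univ.filter fun p => s p = p).card = 8) ∨ ((Finset.univ.filter fun p => x p = p).card = 0 ∧ (Finset.univ.filter fun p => s p = p).card = 0) := by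
  obtain ⟨a, ha, e⟩ := three_classes hx h₃
  have hs' : a * s * a⁻¹ ∈ M24 := mul_mem (mul_mem ha hs) (inv_mem ha)
  have ho : orderOf (a * s * a⁻¹) = 2 := by rw [order_conj, h₂]
  have hcc : a * s * a⁻¹ * (a * x * a⁻¹) = a * x * a⁻¹ * (a * s * a⁻¹) := by
    calc a * s * a⁻¹ * (a * x * a⁻¹) = a * (s * x) * a⁻¹ := by group
      _ = a * x * a⁻¹ * (a * s * a⁻¹) := by rw [← hc.eq]; group
  rcases e with e | e <;> rw [e] at hcc
  · exact Or.inl ⟨(fix_card_conj e).trans fix_reps.2.2.1,
      (fix_card_conj rfl).trans (comm_inv_fix okPerm_x6 x_checks.1 hs' ho hcc)⟩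
  · exact Or.inr ⟨(fix_card_conj e).trans fix_reps.2.2.2,
      (fix_card_conj rfl).trans (comm_inv_fix okPerm_x0 x_checks.2 hs' ho hcc)⟩

end Cfsg.Agent.S5608
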