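import Cfsg.Statements.S5609
import Cfsg.Agent.Lib.Golay.Inter
import Cfsg.Agent.Lib.Golay.CertOctOctOk

set_option autoImplicit false
set_option linter.all false
open scoped Pointwise
open Cfsg

namespace Cfsg.Agent.S5609

/-- In the graph on the 759 octads of the length-24 code in which two octads are adjacent when they are disjoint, the graph is connected (of diameter 3) and two distinct octads are at distance 1, 2 or 3 exactly when they meet in 0, 4 or 2 points respectively. -/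
theorem result (o o' : Finset Cfsg.GolayPt) (ho : o ∈ Cfsg.octads) (ho' : o' ∈ Cfsg.octads) (hne : o ≠ o') : (Cfsg.blockGraph Cfsg.octads).Connected ∧ ((Cfsg.blockGraph Cfsg.octads).dist ⟨o, ho⟩ ⟨o', ho'⟩ = 1 ↔ (o ∩ o').card = 0) ∧ ((Cfsg.blockGraph Cfsg.octads).dist ⟨o, ho⟩ ⟨o', ho'⟩ = 2 ↔ (o ∩ o').card = 4) ∧ ((Cfsg.blockGraph Cfsg.octads).dist ⟨o, ho⟩ ⟨o', ho'⟩ = 3 ↔ (o ∩ o').card = 2) := by
  classical
  have hadj : ∀ x y : ↥Cfsg.octads, (Cfsg.blockGraph Cfsg.octads).Adj x y ↔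
      ((x : Finset Cfsg.GolayPt) ∩ y).card = 0 := by
    intro x y
    simp only [Cfsg.blockGraph, SimpleGraph.fromRel_adj, disjoint_comm (a := (y : Finset Cfsg.GolayPt)),
      or_self, Finset.card_eq_zero, ← Finset.disjoint_iff_inter_eq_empty]
    refine ⟨fun h => h.2, fun h => ⟨fun e => ?_, h⟩⟩
    subst e
    rw [disjoint_self] at h
    have := CfsgLib.Golay.card_octad x.2
    rw [h] at this
    simp at this
  -- the classes of the standard octad
  have hlen : CfsgLib.Golay.certOctOct.1.length = 4 := by decide +kernel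
  have hkey : ∀ i < 4, ∃ m ∈ CfsgLib.Golay.octList, CfsgLib.Golay.rootAt CfsgLib.Golay.certOctOct i = [m] ∧
      CfsgLib.Golay.pc (CfsgLib.Golay.octO &&& m) = [8, 0, 4, 2].getD i 9 := by decide +kernel
  have hpath4 : ∃ w ∈ CfsgLib.Golay.octList, w &&& CfsgLib.Golay.octO = 0 ∧
      (CfsgLib.Golay.rootAt CfsgLib.Golay.certOctOct 2).all (fun m => w &&& m == 0) = true := by decide +kernel
  have hno2 : CfsgLib.Golay.octList.all (fun w => !(w &&& CfsgLib.Golay.octO == 0) ||
      !((CfsgLib.Golay.rootAt CfsgLib.Golay.certOctOct 3).all (fun m => w &&& m == 0))) = true := by decide +kernel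
  have hpath2 : ∃ w ∈ CfsgLib.Golay.octList, w &&& CfsgLib.Golay.octO = 0 ∧ ∃ v ∈ CfsgLib.Golay.octList, v &&& w = 0 ∧
      (CfsgLib.Golay.rootAt CfsgLib.Golay.certOctOct 3).all (fun m => v &&& m == 0) = true := by decide +kernel
  obtain ⟨w4, hw4, hw4o, hw4m⟩ := hpath4
  obtain ⟨w2, hw2, hw2o, v2, hv2, hv2w, hv2m⟩ := hpath2
  -- every pair is moved to a standard one
  have key : ∀ p q : ↥Cfsg.octads, ∃ a ∈ Cfsg.M24, ∃ m ∈ CfsgLib.Golay.octList,
      a • CfsgLib.Golay.toSet CfsgLib.Golay.octO = p ∧ a • CfsgLib.Golay.toSet m = q ∧ ∃ i < 4, CfsgLib.Golay.rootAt CfsgLib.Golay.certOctOct i = [m] ∧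
      ((p : Finset Cfsg.GolayPt) ∩ q).card = [8, 0, 4, 2].getD i 9 := by
    intro p q
    obtain ⟨a, ha, hS⟩ := CfsgLib.Golay.exists_octO_Sys p.2
    obtain ⟨i, hi, hm⟩ := CfsgLib.Golay.octKind.cover CfsgLib.Golay.certOctOct_ok ha hS (Y := {(q : Finset Cfsg.GolayPt)}) ⟨q, q.2, rfl⟩
    rw [hlen] at hi
    obtain ⟨m, hmL, hr, hpc⟩ := hkey i hi
    obtain ⟨g, hg⟩ := hm
    have hfix : ((g : Cfsg.M24) : Equiv.Perm Cfsg.GolayPt) • (p : Finset Cfsg.GolayPt) = p := by
      exact Finset.singleton_inj.1 ((Finset.smul_finset_singleton _).symm.trans g.2)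
    have hap : a • CfsgLib.Golay.toSet CfsgLib.Golay.octO = p := by
      rw [CfsgLib.Golay.Sys_single, Finset.smul_finset_singleton, Finset.singleton_inj] at hS
      exact hS
    refine ⟨((g : Cfsg.M24) : Equiv.Perm Cfsg.GolayPt) * a, mul_mem (g : Cfsg.M24).2 ha, m, hmL, ?_, ?_, i, hi, hr, ?_⟩
    · rw [mul_smul, hap, hfix]
    · have h1 : ((g : Cfsg.M24) : Equiv.Perm Cfsg.GolayPt) • CfsgLib.Golay.rootOf CfsgLib.Golay.certOctOct a i =
          {(q : Finset Cfsg.GolayPt)} := hg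
      rw [CfsgLib.Golay.rootOf, hr, CfsgLib.Golay.Sys_single, Finset.smul_finset_singleton, Finset.smul_finset_singleton,
        Finset.singleton_inj] at h1
      rw [mul_smul]; exact h1
    · have h1 : ((g : Cfsg.M24) : Equiv.Perm Cfsg.GolayPt) • CfsgLib.Golay.rootOf CfsgLib.Golay.certOctOct a i =
          {(q : Finset Cfsg.GolayPt)} := hg
      rw [CfsgLib.Golay.rootOf, hr, CfsgLib.Golay.Sys_single, Finset.smul_finset_singleton, Finset.smul_finset_singleton,
        Finset.singleton_inj] at h1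
      have h2 : ((((g : Cfsg.M24) : Equiv.Perm Cfsg.GolayPt) • (p : Finset Cfsg.GolayPt)) ∩ q).card =
          [8, 0, 4, 2].getD i 9 := by
        rw [← h1, ← CfsgLib.Golay.smul_inter', Finset.card_smul_finset]
        rw [← hap, ← CfsgLib.Golay.smul_inter', Finset.card_smul_finset, ← CfsgLib.Golay.toSet_and, CfsgLib.Golay.card_toSet, hpc]
      rwa [hfix] at h2
  have hdis : ∀ (a : Equiv.Perm Cfsg.GolayPt) (x y : ℕ), x &&& y = 0 →
      ((a • CfsgLib.Golay.toSet x) ∩ (a • CfsgLib.Golay.toSet y)).card = 0 := fun a x y h => by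
    rw [← CfsgLib.Golay.smul_inter', Finset.card_smul_finset, ← CfsgLib.Golay.toSet_and, h, CfsgLib.Golay.toSet_zero, Finset.card_empty]
  have hwalk : ∀ p q : ↥Cfsg.octads, p ≠ q →
      (((p : Finset Cfsg.GolayPt) ∩ q).card = 0 ∧ (Cfsg.blockGraph Cfsg.octads).dist p q = 1) ∨
      (((p : Finset Cfsg.GolayPt) ∩ q).card = 4 ∧ (Cfsg.blockGraph Cfsg.octads).dist p q = 2) ∨
      (((p : Finset Cfsg.GolayPt) ∩ q).card = 2 ∧ (Cfsg.blockGraph Cfsg.octads).dist p q = 3) := by
    intro p q hne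
    obtain ⟨a, ha, m, hm, hp, hq, i, hi, hr, hc⟩ := key p q
    obtain rfl | rfl | rfl | rfl : i = 0 ∨ i = 1 ∨ i = 2 ∨ i = 3 := by omega
    · exfalso
      exact hne (Subtype.ext (CfsgLib.Golay.octad_unique p.2 q.2 (by rw [hc]; decide)))
    · exact Or.inl ⟨hc, SimpleGraph.dist_eq_one_iff_adj.2 ((hadj p q).2 hc)⟩
    · refine Or.inr (Or.inl ⟨hc, ?_⟩)
      let w : ↥Cfsg.octads := ⟨a • CfsgLib.Golay.toSet w4, CfsgLib.Golay.smul_octad ha (CfsgLib.Golay.toSet_mem_octads hw4)⟩
      have hwm : w4 &&& m = 0 := by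
        have := List.all_eq_true.1 hw4m m (by rw [hr]; exact List.mem_singleton.2 rfl)
        exact eq_of_beq this
      have h1 : (Cfsg.blockGraph Cfsg.octads).Adj p w := (hadj p w).2 (by
        rw [← hp]; exact hdis a _ _ (by rw [Nat.land_comm]; exact hw4o))
      have h2 : (Cfsg.blockGraph Cfsg.octads).Adj w q := (hadj w q).2 (by
        rw [← hq]; exact hdis a _ _ hwm)
      have hle : (Cfsg.blockGraph Cfsg.octads).dist p q ≤ 2 :=
        SimpleGraph.dist_le (SimpleGraph.Walk.cons h1 (SimpleGraph.Walk.cons h2 SimpleGraph.Walk.nil))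
      have hr' : (Cfsg.blockGraph Cfsg.octads).Reachable p q := h1.reachable.trans h2.reachable
      have h0 : 0 < (Cfsg.blockGraph Cfsg.octads).dist p q := hr'.pos_dist_of_ne hne
      have hn1 : (Cfsg.blockGraph Cfsg.octads).dist p q ≠ 1 := fun h => by
        have := (hadj p q).1 (SimpleGraph.dist_eq_one_iff_adj.1 h)
        rw [hc] at this
        simp at this
      omega
    · refine Or.inr (Or.inr ⟨hc, ?_⟩)
      let w : ↥Cfsg.octads := ⟨a • CfsgLib.Golay.toSet w2, CfsgLib.Golay.smul_octad ha (CfsgLib.Golay.toSet_mem_octads hw2)⟩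
      let v : ↥Cfsg.octads := ⟨a • CfsgLib.Golay.toSet v2, CfsgLib.Golay.smul_octad ha (CfsgLib.Golay.toSet_mem_octads hv2)⟩
      have hvm : v2 &&& m = 0 := by
        have := List.all_eq_true.1 hv2m m (by rw [hr]; exact List.mem_singleton.2 rfl)
        exact eq_of_beq this
      have h1 : (Cfsg.blockGraph Cfsg.octads).Adj p w := (hadj p w).2 (by
        rw [← hp]; exact hdis a _ _ (by rw [Nat.land_comm]; exact hw2o))
      have h2 : (Cfsg.blockGraph Cfsg.octads).Adj w v := (hadj w v).2 (by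
        exact hdis a _ _ (by rw [Nat.land_comm]; exact hv2w))
      have h3 : (Cfsg.blockGraph Cfsg.octads).Adj v q := (hadj v q).2 (by
        rw [← hq]; exact hdis a _ _ hvm)
      have hr' : (Cfsg.blockGraph Cfsg.octads).Reachable p q :=
        (h1.reachable.trans h2.reachable).trans h3.reachable
      have hle : (Cfsg.blockGraph Cfsg.octads).dist p q ≤ 3 :=
        SimpleGraph.dist_le (SimpleGraph.Walk.cons h1
          (SimpleGraph.Walk.cons h2 (SimpleGraph.Walk.cons h3 SimpleGraph.Walk.nil)))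
      have h0 : 0 < (Cfsg.blockGraph Cfsg.octads).dist p q := hr'.pos_dist_of_ne hne
      have hn1 : (Cfsg.blockGraph Cfsg.octads).dist p q ≠ 1 := fun h => by
        have := (hadj p q).1 (SimpleGraph.dist_eq_one_iff_adj.1 h)
        rw [hc] at this
        simp at this
      have hn2 : (Cfsg.blockGraph Cfsg.octads).dist p q ≠ 2 := fun h => by
        obtain ⟨wk, hwk⟩ := hr'.exists_walk_length_eq_dist
        rw [h] at hwk
        obtain ⟨u, hu1, hu2⟩ : ∃ u, (Cfsg.blockGraph Cfsg.octads).Adj p u ∧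
            (Cfsg.blockGraph Cfsg.octads).Adj u q := by
          match wk, hwk with
          | .cons ha' (.cons hb' .nil), _ => exact ⟨_, ha', hb'⟩
        obtain ⟨x, hx, hxe⟩ := CfsgLib.Golay.exists_mask_octad (CfsgLib.Golay.smul_octad (inv_mem ha) u.2)
        have hxu : a • CfsgLib.Golay.toSet x = u := by rw [hxe, smul_inv_smul]
        have e1 := (hadj p u).1 hu1
        have e2 := (hadj u q).1 hu2
        rw [← hp, ← hxu, ← CfsgLib.Golay.smul_inter', Finset.card_smul_finset, ← CfsgLib.Golay.toSet_and,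
          CfsgLib.Golay.card_toSet] at e1
        rw [← hq, ← hxu, ← CfsgLib.Golay.smul_inter', Finset.card_smul_finset, ← CfsgLib.Golay.toSet_and,
          CfsgLib.Golay.card_toSet] at e2
        have z1 : x &&& CfsgLib.Golay.octO = 0 := by
          rw [Nat.land_comm]
          exact CfsgLib.Golay.pc_eq_zero (lt_of_le_of_lt Nat.and_le_right (CfsgLib.Golay.octList_lt hx)) e1
        have z2 : x &&& m = 0 :=
          CfsgLib.Golay.pc_eq_zero (lt_of_le_of_lt Nat.and_le_left (CfsgLib.Golay.octList_lt hx)) e2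
        have := List.all_eq_true.1 hno2 x hx
        simp [z1, z2, hr] at this
      omega
  refine ⟨?_, ?_⟩
  · haveI : Nonempty ↥Cfsg.octads := ⟨⟨o, ho⟩⟩
    refine SimpleGraph.Connected.mk fun p q => ?_
    rcases eq_or_ne p q with rfl | hne
    · exact SimpleGraph.Reachable.refl p
    · rcases hwalk p q hne with ⟨-, h⟩ | ⟨-, h⟩ | ⟨-, h⟩ <;>
        exact SimpleGraph.Reachable.of_dist_ne_zero (by rw [h]; norm_num)
  · have hne' : (⟨o, ho⟩ : ↥Cfsg.octads) ≠ ⟨o', ho'⟩ := fun e => hne (congrArg Subtype.val e)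
    rcases hwalk _ _ hne' with ⟨h1, h2⟩ | ⟨h1, h2⟩ | ⟨h1, h2⟩ <;>
      (simp only at h1; rw [h2, h1]; norm_num)

end Cfsg.Agent.S5609
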