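import Cfsg.Statements.S5610
import Cfsg.Agent.Lib.Golay.OrbitStmt
import Cfsg.Agent.Lib.Golay.CertOctTriOk
import Cfsg.Agent.Lib.Golay.CertOctSexOk

set_option autoImplicit false
set_option linter.all false
open scoped Pointwise
open Cfsg

namespace Cfsg.Agent.S5610

/-- The stabiliser of an octad in the group of the length-24 code has exactly three orbits on the 3795 trios, of sizes 15, 420 and 3360, and exactly three orbits on the 1771 sextets, of sizes 35, 840 and 896. -/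
theorem result (o : Finset Cfsg.GolayPt) (ho : o ∈ Cfsg.octads) : (∃ X₁ ∈ Cfsg.trios, ∃ X₂ ∈ Cfsg.trios, ∃ X₃ ∈ Cfsg.trios, (MulAction.orbit ↥(MulAction.stabilizer Cfsg.M24 o) X₁).ncard = 15 ∧ (MulAction.orbit ↥(MulAction.stabilizer Cfsg.M24 o) X₂).ncard = 420 ∧ (MulAction.orbit ↥(MulAction.stabilizer Cfsg.M24 o) X₃).ncard = 3360 ∧ Cfsg.trios = MulAction.orbit ↥(MulAction.stabilizer Cfsg.M24 o) X₁ ∪ MulAction.orbit ↥(MulAction.stabilizer Cfsg.M24 o) X₂ ∪ MulAction.orbit ↥(MulAction.stabilizer Cfsg.M24 o) X₃) ∧ (∃ Y₁ ∈ Cfsg.sextets, ∃ Y₂ ∈ Cfsg.sextets, ∃ Y₃ ∈ Cfsg.sextets, (MulAction.orbit ↥(MulAction.stabilizer Cfsg.M24 o) Y₁).ncard = 35 ∧ (MulAction.orbit ↥(MulAction.stabilizer Cfsg.M24 o) Y₂).ncard = 840 ∧ (MulAction.orbit ↥(MulAction.stabilizer Cfsg.M24 o) Y₃).ncard = 896 ∧ Cfsg.sextets = MulAction.orbit ↥(MulAction.stabilizer Cfsg.M24 o) Y₁ ∪ MulAction.orbit ↥(MulAction.stabilizer Cfsg.M24 o) Y₂ ∪ MulAction.orbit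 ↥(MulAction.stabilizer Cfsg.M24 o) Y₃) := by
  obtain ⟨a, ha, hS⟩ := CfsgLib.Golay.exists_octO_Sys ho
  have hst := CfsgLib.Golay.stab_single o
  rw [← hst]
  refine ⟨?_, ?_⟩
  · skip
    obtain ⟨m0, -, c0⟩ := CfsgLib.Golay.trioKind.orbit_eq CfsgLib.Golay.certOctTri_ok ha hS (i := 0) (by decide +kernel)
    rw [show CfsgLib.Golay.sizeAt CfsgLib.Golay.certOctTri 0 = 15 by decide +kernel] at c0
    obtain ⟨m1, -, c1⟩ := CfsgLib.Golay.trioKind.orbit_eq CfsgLib.Golay.certOctTri_ok ha hS (i := 1) (by decide +kernel)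
    rw [show CfsgLib.Golay.sizeAt CfsgLib.Golay.certOctTri 1 = 420 by decide +kernel] at c1
    obtain ⟨m2, -, c2⟩ := CfsgLib.Golay.trioKind.orbit_eq CfsgLib.Golay.certOctTri_ok ha hS (i := 2) (by decide +kernel)
    rw [show CfsgLib.Golay.sizeAt CfsgLib.Golay.certOctTri 2 = 3360 by decide +kernel] at c2
    refine ⟨_, m0, _, m1, _, m2, c0, c1, c2, ?_⟩
    apply Set.Subset.antisymm
    · intro Y hY
      obtain ⟨i, hi, hi'⟩ := CfsgLib.Golay.trioKind.cover CfsgLib.Golay.certOctTri_ok ha hS (Y := Y) hY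
      rw [show CfsgLib.Golay.certOctTri.1.length = 3 by decide +kernel] at hi
      obtain rfl | rfl | rfl : i = 0 ∨ i = 1 ∨ i = 2 := by omega
      · exact Or.inl (Or.inl (hi'))
      · exact Or.inl (Or.inr (hi'))
      · exact Or.inr (hi')
    · exact (Set.union_subset (Set.union_subset (CfsgLib.Golay.subset_of_orbit (fun g Y hY => CfsgLib.Golay.trioKind.smul' g hY) m0) (CfsgLib.Golay.subset_of_orbit (fun g Y hY => CfsgLib.Golay.trioKind.smul' g hY) m1)) (CfsgLib.Golay.subset_of_orbit (fun g Y hY => CfsgLib.Golay.trioKind.smul' g hY) m2))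
  · skip
    obtain ⟨m0, -, c0⟩ := CfsgLib.Golay.sexKind.orbit_eq CfsgLib.Golay.certOctSex_ok ha hS (i := 0) (by decide +kernel)
    rw [show CfsgLib.Golay.sizeAt CfsgLib.Golay.certOctSex 0 = 35 by decide +kernel] at c0
    obtain ⟨m1, -, c1⟩ := CfsgLib.Golay.sexKind.orbit_eq CfsgLib.Golay.certOctSex_ok ha hS (i := 1) (by decide +kernel)
    rw [show CfsgLib.Golay.sizeAt CfsgLib.Golay.certOctSex 1 = 840 by decide +kernel] at c1
    obtain ⟨m2, -, c2⟩ := CfsgLib.Golay.sexKind.orbit_eq CfsgLib.Golay.certOctSex_ok ha hS (i := 2) (by decide +kernel)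
    rw [show CfsgLib.Golay.sizeAt CfsgLib.Golay.certOctSex 2 = 896 by decide +kernel] at c2
    refine ⟨_, m0, _, m1, _, m2, c0, c1, c2, ?_⟩
    apply Set.Subset.antisymm
    · intro Y hY
      obtain ⟨i, hi, hi'⟩ := CfsgLib.Golay.sexKind.cover CfsgLib.Golay.certOctSex_ok ha hS (Y := Y) hY
      rw [show CfsgLib.Golay.certOctSex.1.length = 3 by decide +kernel] at hi
      obtain rfl | rfl | rfl : i = 0 ∨ i = 1 ∨ i = 2 := by omega
      · exact Or.inl (Or.inl (hi'))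
      · exact Or.inl (Or.inr (hi'))
      · exact Or.inr (hi')
    · exact (Set.union_subset (Set.union_subset (CfsgLib.Golay.subset_of_orbit (fun g Y hY => CfsgLib.Golay.sexKind.smul' g hY) m0) (CfsgLib.Golay.subset_of_orbit (fun g Y hY => CfsgLib.Golay.sexKind.smul' g hY) m1)) (CfsgLib.Golay.subset_of_orbit (fun g Y hY => CfsgLib.Golay.sexKind.smul' g hY) m2))

end Cfsg.Agent.S5610
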