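import Cfsg.Statements.S5611
import Cfsg.Agent.Lib.Golay.OrbitStmt
import Cfsg.Agent.Lib.Golay.CertSexOctOk
import Cfsg.Agent.Lib.Golay.CertSexTriOk

set_option autoImplicit false
set_option linter.all false
open scoped Pointwise
open Cfsg

namespace Cfsg.Agent.S5611

/-- The stabiliser of a sextet in the group of the length-24 code has exactly three orbits on the 759 octads, of sizes 15, 360 and 384, and exactly four orbits on the 3795 trios, of sizes 15, 180, 720 and 2880. -/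
theorem result (S : Finset (Finset Cfsg.GolayPt)) (hS : S ∈ Cfsg.sextets) : (∃ X₁ ∈ Cfsg.octads, ∃ X₂ ∈ Cfsg.octads, ∃ X₃ ∈ Cfsg.octads, (MulAction.orbit ↥(MulAction.stabilizer Cfsg.M24 S) X₁).ncard = 15 ∧ (MulAction.orbit ↥(MulAction.stabilizer Cfsg.M24 S) X₂).ncard = 360 ∧ (MulAction.orbit ↥(MulAction.stabilizer Cfsg.M24 S) X₃).ncard = 384 ∧ Cfsg.octads = MulAction.orbit ↥(MulAction.stabilizer Cfsg.M24 S) X₁ ∪ MulAction.orbit ↥(MulAction.stabilizer Cfsg.M24 S) X₂ ∪ MulAction.orbit ↥(MulAction.stabilizer Cfsg.M24 S) X₃) ∧ (∃ Y₁ ∈ Cfsg.trios, ∃ Y₂ ∈ Cfsg.trios, ∃ Y₃ ∈ Cfsg.trios, ∃ Y₄ ∈ Cfsg.trios, (MulAction.orbit ↥(MulAction.stabilizer Cfsg.M24 S) Y₁).ncard = 15 ∧ (MulAction.orbit ↥(MulAction.stabilizer Cfsg.M24 S) Y₂).ncard = 180 ∧ (MulAction.orbit ↥(MulAction.stabilizer Cfsg.M24 S) Y₃).ncard = 720 ∧ (MulAction.orbit ↥(MulAction.stabilizer Cfsg.M24 S) Y₄).ncard = 2880 ∧ Cfsg.trios = MulAction.orbit ↥(MulAction.stabilizer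 Cfsg.M24 S) Y₁ ∪ MulAction.orbit ↥(MulAction.stabilizer Cfsg.M24 S) Y₂ ∪ MulAction.orbit ↥(MulAction.stabilizer Cfsg.M24 S) Y₃ ∪ MulAction.orbit ↥(MulAction.stabilizer Cfsg.M24 S) Y₄) := by
  obtain ⟨a, ha, hS⟩ := CfsgLib.Golay.exists_sex0 hS
  refine ⟨?_, ?_⟩
  · skip
    obtain ⟨t0, m0, e0, c0⟩ := CfsgLib.Golay.octKind.orbit_single_eq rfl CfsgLib.Golay.certSexOct_ok ha hS (i := 0) (by decide +kernel)
    rw [show CfsgLib.Golay.sizeAt CfsgLib.Golay.certSexOct 0 = 15 by decide +kernel] at c0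
    obtain ⟨t1, m1, e1, c1⟩ := CfsgLib.Golay.octKind.orbit_single_eq rfl CfsgLib.Golay.certSexOct_ok ha hS (i := 1) (by decide +kernel)
    rw [show CfsgLib.Golay.sizeAt CfsgLib.Golay.certSexOct 1 = 360 by decide +kernel] at c1
    obtain ⟨t2, m2, e2, c2⟩ := CfsgLib.Golay.octKind.orbit_single_eq rfl CfsgLib.Golay.certSexOct_ok ha hS (i := 2) (by decide +kernel)
    rw [show CfsgLib.Golay.sizeAt CfsgLib.Golay.certSexOct 2 = 384 by decide +kernel] at c2
    refine ⟨_, m0, _, m1, _, m2, c0, c1, c2, ?_⟩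
    apply Set.Subset.antisymm
    · intro Y hY
      obtain ⟨i, hi, hi'⟩ := CfsgLib.Golay.octKind.cover CfsgLib.Golay.certSexOct_ok ha hS (Y := {Y}) ⟨Y, hY, rfl⟩
      rw [show CfsgLib.Golay.certSexOct.1.length = 3 by decide +kernel] at hi
      obtain rfl | rfl | rfl : i = 0 ∨ i = 1 ∨ i = 2 := by omega
      · exact Or.inl (Or.inl (CfsgLib.Golay.mem_single_orbit (e0 ▸ hi')))
      · exact Or.inl (Or.inr (CfsgLib.Golay.mem_single_orbit (e1 ▸ hi')))
      · exact Or.inr (CfsgLib.Golay.mem_single_orbit (e2 ▸ hi'))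
    · exact (Set.union_subset (Set.union_subset (CfsgLib.Golay.subset_of_orbit (fun g Y hY => CfsgLib.Golay.smul_octad g.2 hY) m0) (CfsgLib.Golay.subset_of_orbit (fun g Y hY => CfsgLib.Golay.smul_octad g.2 hY) m1)) (CfsgLib.Golay.subset_of_orbit (fun g Y hY => CfsgLib.Golay.smul_octad g.2 hY) m2))
  · skip
    obtain ⟨m0, -, c0⟩ := CfsgLib.Golay.trioKind.orbit_eq CfsgLib.Golay.certSexTri_ok ha hS (i := 0) (by decide +kernel)
    rw [show CfsgLib.Golay.sizeAt CfsgLib.Golay.certSexTri 0 = 15 by decide +kernel] at c0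
    obtain ⟨m1, -, c1⟩ := CfsgLib.Golay.trioKind.orbit_eq CfsgLib.Golay.certSexTri_ok ha hS (i := 1) (by decide +kernel)
    rw [show CfsgLib.Golay.sizeAt CfsgLib.Golay.certSexTri 1 = 180 by decide +kernel] at c1
    obtain ⟨m2, -, c2⟩ := CfsgLib.Golay.trioKind.orbit_eq CfsgLib.Golay.certSexTri_ok ha hS (i := 2) (by decide +kernel)
    rw [show CfsgLib.Golay.sizeAt CfsgLib.Golay.certSexTri 2 = 720 by decide +kernel] at c2
    obtain ⟨m3, -, c3⟩ := CfsgLib.Golay.trioKind.orbit_eq CfsgLib.Golay.certSexTri_ok ha hS (i := 3) (by decide +kernel)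
    rw [show CfsgLib.Golay.sizeAt CfsgLib.Golay.certSexTri 3 = 2880 by decide +kernel] at c3
    refine ⟨_, m0, _, m1, _, m2, _, m3, c0, c1, c2, c3, ?_⟩
    apply Set.Subset.antisymm
    · intro Y hY
      obtain ⟨i, hi, hi'⟩ := CfsgLib.Golay.trioKind.cover CfsgLib.Golay.certSexTri_ok ha hS (Y := Y) hY
      rw [show CfsgLib.Golay.certSexTri.1.length = 4 by decide +kernel] at hi
      obtain rfl | rfl | rfl | rfl : i = 0 ∨ i = 1 ∨ i = 2 ∨ i = 3 := by omega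
      · exact Or.inl (Or.inl (Or.inl (hi')))
      · exact Or.inl (Or.inl (Or.inr (hi')))
      · exact Or.inl (Or.inr (hi'))
      · exact Or.inr (hi')
    · exact (Set.union_subset (Set.union_subset (Set.union_subset (CfsgLib.Golay.subset_of_orbit (fun g Y hY => CfsgLib.Golay.trioKind.smul' g hY) m0) (CfsgLib.Golay.subset_of_orbit (fun g Y hY => CfsgLib.Golay.trioKind.smul' g hY) m1)) (CfsgLib.Golay.subset_of_orbit (fun g Y hY => CfsgLib.Golay.trioKind.smul' g hY) m2)) (CfsgLib.Golay.subset_of_orbit (fun g Y hY => CfsgLib.Golay.trioKind.smul' g hY) m3))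

end Cfsg.Agent.S5611
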