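import Cfsg.Statements.S5612
import Cfsg.Agent.Lib.Golay.OrbitStmt
import Cfsg.Agent.Lib.Golay.CertTriOctOk
import Cfsg.Agent.Lib.Golay.CertTriSexOk

set_option autoImplicit false
set_option linter.all false
open scoped Pointwise
open Cfsg

namespace Cfsg.Agent.S5612

/-- The stabiliser of a trio in the group of the length-24 code has exactly three orbits on the 759 octads, of sizes 3, 84 and 672, and exactly four orbits on the 1771 sextets, of sizes 7, 84, 336 and 1344. -/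
theorem result (T : Finset (Finset Cfsg.GolayPt)) (hT : T ∈ Cfsg.trios) : (∃ X₁ ∈ Cfsg.octads, ∃ X₂ ∈ Cfsg.octads, ∃ X₃ ∈ Cfsg.octads, (MulAction.orbit ↥(MulAction.stabilizer Cfsg.M24 T) X₁).ncard = 3 ∧ (MulAction.orbit ↥(MulAction.stabilizer Cfsg.M24 T) X₂).ncard = 84 ∧ (MulAction.orbit ↥(MulAction.stabilizer Cfsg.M24 T) X₃).ncard = 672 ∧ Cfsg.octads = MulAction.orbit ↥(MulAction.stabilizer Cfsg.M24 T) X₁ ∪ MulAction.orbit ↥(MulAction.stabilizer Cfsg.M24 T) X₂ ∪ MulAction.orbit ↥(MulAction.stabilizer Cfsg.M24 T) X₃) ∧ (∃ Y₁ ∈ Cfsg.sextets, ∃ Y₂ ∈ Cfsg.sextets, ∃ Y₃ ∈ Cfsg.sextets, ∃ Y₄ ∈ Cfsg.sextets, (MulAction.orbit ↥(MulAction.stabilizer Cfsg.M24 T) Y₁).ncard = 7 ∧ (MulAction.orbit ↥(MulAction.stabilizer Cfsg.M24 T) Y₂).ncard = 84 ∧ (MulAction.orbit ↥(MulAction.stabilizer Cfsg.M24 T) Y₃).ncard = 336 ∧ (MulAction.orbit ↥(MulAction.stabilizer Cfsg.M24 T) Y₄).ncard = 1344 ∧ Cfsg.sextets = MulAction.orbit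 ↥(MulAction.stabilizer Cfsg.M24 T) Y₁ ∪ MulAction.orbit ↥(MulAction.stabilizer Cfsg.M24 T) Y₂ ∪ MulAction.orbit ↥(MulAction.stabilizer Cfsg.M24 T) Y₃ ∪ MulAction.orbit ↥(MulAction.stabilizer Cfsg.M24 T) Y₄) := by
  obtain ⟨a, ha, hS⟩ := CfsgLib.Golay.exists_trio0 hT
  refine ⟨?_, ?_⟩
  · skip
    obtain ⟨t0, m0, e0, c0⟩ := CfsgLib.Golay.octKind.orbit_single_eq rfl CfsgLib.Golay.certTriOct_ok ha hS (i := 0) (by decide +kernel)
    rw [show CfsgLib.Golay.sizeAt CfsgLib.Golay.certTriOct 0 = 3 by decide +kernel] at c0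
    obtain ⟨t1, m1, e1, c1⟩ := CfsgLib.Golay.octKind.orbit_single_eq rfl CfsgLib.Golay.certTriOct_ok ha hS (i := 1) (by decide +kernel)
    rw [show CfsgLib.Golay.sizeAt CfsgLib.Golay.certTriOct 1 = 84 by decide +kernel] at c1
    obtain ⟨t2, m2, e2, c2⟩ := CfsgLib.Golay.octKind.orbit_single_eq rfl CfsgLib.Golay.certTriOct_ok ha hS (i := 2) (by decide +kernel)
    rw [show CfsgLib.Golay.sizeAt CfsgLib.Golay.certTriOct 2 = 672 by decide +kernel] at c2
    refine ⟨_, m0, _, m1, _, m2, c0, c1, c2, ?_⟩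
    apply Set.Subset.antisymm
    · intro Y hY
      obtain ⟨i, hi, hi'⟩ := CfsgLib.Golay.octKind.cover CfsgLib.Golay.certTriOct_ok ha hS (Y := {Y}) ⟨Y, hY, rfl⟩
      rw [show CfsgLib.Golay.certTriOct.1.length = 3 by decide +kernel] at hi
      obtain rfl | rfl | rfl : i = 0 ∨ i = 1 ∨ i = 2 := by omega
      · exact Or.inl (Or.inl (CfsgLib.Golay.mem_single_orbit (e0 ▸ hi')))
      · exact Or.inl (Or.inr (CfsgLib.Golay.mem_single_orbit (e1 ▸ hi')))
      · exact Or.inr (CfsgLib.Golay.mem_single_orbit (e2 ▸ hi'))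
    · exact (Set.union_subset (Set.union_subset (CfsgLib.Golay.subset_of_orbit (fun g Y hY => CfsgLib.Golay.smul_octad g.2 hY) m0) (CfsgLib.Golay.subset_of_orbit (fun g Y hY => CfsgLib.Golay.smul_octad g.2 hY) m1)) (CfsgLib.Golay.subset_of_orbit (fun g Y hY => CfsgLib.Golay.smul_octad g.2 hY) m2))
  · skip
    obtain ⟨m0, -, c0⟩ := CfsgLib.Golay.sexKind.orbit_eq CfsgLib.Golay.certTriSex_ok ha hS (i := 0) (by decide +kernel)
    rw [show CfsgLib.Golay.sizeAt CfsgLib.Golay.certTriSex 0 = 7 by decide +kernel] at c0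
    obtain ⟨m1, -, c1⟩ := CfsgLib.Golay.sexKind.orbit_eq CfsgLib.Golay.certTriSex_ok ha hS (i := 1) (by decide +kernel)
    rw [show CfsgLib.Golay.sizeAt CfsgLib.Golay.certTriSex 1 = 84 by decide +kernel] at c1
    obtain ⟨m2, -, c2⟩ := CfsgLib.Golay.sexKind.orbit_eq CfsgLib.Golay.certTriSex_ok ha hS (i := 2) (by decide +kernel)
    rw [show CfsgLib.Golay.sizeAt CfsgLib.Golay.certTriSex 2 = 336 by decide +kernel] at c2
    obtain ⟨m3, -, c3⟩ := CfsgLib.Golay.sexKind.orbit_eq CfsgLib.Golay.certTriSex_ok ha hS (i := 3) (by decide +kernel)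
    rw [show CfsgLib.Golay.sizeAt CfsgLib.Golay.certTriSex 3 = 1344 by decide +kernel] at c3
    refine ⟨_, m0, _, m1, _, m2, _, m3, c0, c1, c2, c3, ?_⟩
    apply Set.Subset.antisymm
    · intro Y hY
      obtain ⟨i, hi, hi'⟩ := CfsgLib.Golay.sexKind.cover CfsgLib.Golay.certTriSex_ok ha hS (Y := Y) hY
      rw [show CfsgLib.Golay.certTriSex.1.length = 4 by decide +kernel] at hi
      obtain rfl | rfl | rfl | rfl : i = 0 ∨ i = 1 ∨ i = 2 ∨ i = 3 := by omega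
      · exact Or.inl (Or.inl (Or.inl (hi')))
      · exact Or.inl (Or.inl (Or.inr (hi')))
      · exact Or.inl (Or.inr (hi'))
      · exact Or.inr (hi')
    · exact (Set.union_subset (Set.union_subset (Set.union_subset (CfsgLib.Golay.subset_of_orbit (fun g Y hY => CfsgLib.Golay.sexKind.smul' g hY) m0) (CfsgLib.Golay.subset_of_orbit (fun g Y hY => CfsgLib.Golay.sexKind.smul' g hY) m1)) (CfsgLib.Golay.subset_of_orbit (fun g Y hY => CfsgLib.Golay.sexKind.smul' g hY) m2)) (CfsgLib.Golay.subset_of_orbit (fun g Y hY => CfsgLib.Golay.sexKind.smul' g hY) m3))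

end Cfsg.Agent.S5612
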