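import Cfsg.Statements.S5613
import Cfsg.Agent.Lib.Golay.Inter
import Cfsg.Agent.Lib.Golay.CertOctOctOk

set_option autoImplicit false
set_option linter.all false
open scoped Pointwise
open Cfsg

namespace Cfsg.Agent.S5613

/-- In the group of the length-24 code, the joint stabiliser of two octads has order 10752, 1152 or 720 according as the octads meet in 0, 4 or 2 points. -/
theorem result (o o' : Finset Cfsg.GolayPt) (ho : o ∈ Cfsg.octads) (ho' : o' ∈ Cfsg.octads) : ((o ∩ o').card = 0 → Nat.card ↥(MulAction.stabilizer Cfsg.M24 o ⊓ MulAction.stabilizer Cfsg.M24 o') = 10752) ∧ ((o ∩ o').card = 4 → Nat.card ↥(MulAction.stabilizer Cfsg.M24 o ⊓ MulAction.stabilizer Cfsg.M24 o') = 1152) ∧ ((o ∩ o').card = 2 → Nat.card ↥(MulAction.stabilizer Cfsg.M24 o ⊓ MulAction.stabilizer Cfsg.M24 o') = 720) := by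
  obtain ⟨a, ha, hS⟩ := CfsgLib.Golay.exists_octO_Sys ho
  have hc := CfsgLib.Golay.card_stab_octad ho
  refine ⟨fun h => ?_, fun h => ?_, fun h => ?_⟩
  · have := CfsgLib.Golay.octKind.single_stab rfl CfsgLib.Golay.certOctOct_ok ha hS ho' (i := 1) (k := 0) (n := 30) (by decide +kernel) (by decide +kernel) (by decide +kernel) h
    omega
  · have := CfsgLib.Golay.octKind.single_stab rfl CfsgLib.Golay.certOctOct_ok ha hS ho' (i := 2) (k := 4) (n := 280) (by decide +kernel) (by decide +kernel) (by decide +kernel) h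
    omega
  · have := CfsgLib.Golay.octKind.single_stab rfl CfsgLib.Golay.certOctOct_ok ha hS ho' (i := 3) (k := 2) (n := 448) (by decide +kernel) (by decide +kernel) (by decide +kernel) h
    omega

end Cfsg.Agent.S5613
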