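import Cfsg.Statements.S5614
import Cfsg.Agent.Lib.Golay.PairOrb
import Cfsg.Agent.Lib.Golay.CertOctOctOk

set_option autoImplicit false
set_option linter.all false
open scoped Pointwise
open Cfsg

namespace Cfsg.Agent.S5614
open Cfsg CfsgLib.Golay CfsgLib.Golay.Stabs CfsgLib.Golay.Search CfsgLib.Golay.Classes
open scoped Pointwise

/-- In the group of the length-24 code, the joint stabiliser of two octads meeting in exactly two points is isomorphic to the symmetric group of degree 6. -/
theorem result (o o' : Finset Cfsg.GolayPt) (ho : o ∈ Cfsg.octads) (ho' : o' ∈ Cfsg.octads) (h₂ : (o ∩ o').card = 2) : Nonempty (↥(MulAction.stabilizer Cfsg.M24 o ⊓ MulAction.stabilizer Cfsg.M24 o') ≃* Equiv.Perm (Fin 6)) := by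
  classical
  obtain ⟨ho1, h2', hsix, hchk⟩ := PairOrb.o1_check
  simp only [Bool.and_eq_true, beq_iff_eq] at ho1
  have ho1' : toSet PairOrb.o1 ∈ octads := toSet_mem_octads (mem_octList.2 ho1)
  obtain ⟨a, ha, hS⟩ := exists_octO_Sys ho
  obtain ⟨i, hi, hk, hn⟩ : ∃ i < certOctOct.1.length, keyOf [[octO]] (rootAt certOctOct i) = [256 ^ 2] ∧
      sizeAt certOctOct i = 448 := by decide +kernel
  have h720 := octKind.single_stab rfl certOctOct_ok ha hS ho' hi hk hn h₂
  rw [card_stab_octad ho] at h720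
  obtain ⟨u, hu, euo, eu'⟩ : ∃ u ∈ M24, u • toSet octO = o ∧ u • toSet PairOrb.o1 = o' := by
    have hao : a • toSet octO = o := by
      rw [Sys_single, Finset.smul_finset_singleton, Finset.singleton_inj] at hS; exact hS
    obtain ⟨g, hg, hgo, hg1⟩ := octKind.single_trans rfl certOctOct_ok ha hS (smul_octad ha ho1') ho' (by
      rw [h₂, ← hao, ← smul_inter', Finset.card_smul_finset, ← toSet_and, card_toSet, h2'])
    exact ⟨g * a, mul_mem hg ha, by rw [mul_smul, hao, hgo], by rw [mul_smul, hg1]⟩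
  have hC : (o \ o').card = 6 := by
    rw [Finset.card_sdiff, Finset.inter_comm, h₂, card_octad ho]
  let φ : ↥(MulAction.stabilizer M24 o ⊓ MulAction.stabilizer M24 o') →* Equiv.Perm ↥(o \ o') :=
    { toFun := fun g => ((g : ↥M24) : Equiv.Perm GolayPt).subtypePerm fun x => by
        have h : ((g : ↥M24) : Equiv.Perm GolayPt) • (o \ o') = o \ o' := by
          rw [Finset.smul_finset_sdiff, show ((g : ↥M24) : Equiv.Perm GolayPt) • o = o from g.2.1,
            show ((g : ↥M24) : Equiv.Perm GolayPt) • o' = o' from g.2.2]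
        generalize ((g : ↥M24) : Equiv.Perm GolayPt) = b at h
        conv_lhs => rw [← h]
        exact Finset.smul_mem_smul_finset_iff b
      map_one' := Equiv.ext fun _ => rfl
      map_mul' := fun _ _ => Equiv.ext fun _ => rfl }
  have hinj : Function.Injective φ := by
    rw [← MonoidHom.ker_eq_bot_iff, Subgroup.eq_bot_iff_forall]
    intro g hg
    have hfix : ∀ x ∈ o \ o', ((g : ↥M24) : Equiv.Perm GolayPt) x = x := fun x hx =>
      congrArg Subtype.val (Equiv.congr_fun (MonoidHom.mem_ker.1 hg) ⟨x, hx⟩)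
    have hg6 : u⁻¹ * ((g : ↥M24) : Equiv.Perm GolayPt) * u ∈ fixB 6 := by
      refine ⟨mul_mem (mul_mem (inv_mem hu) (g : ↥M24).2) hu, fun j hj => ?_⟩
      rw [Equiv.Perm.mul_apply, Equiv.Perm.mul_apply, Equiv.Perm.inv_eq_iff_eq]
      refine hfix _ ?_
      rw [← euo, ← eu', ← Finset.smul_finset_sdiff, hsix]
      exact Finset.smul_mem_smul_finset (Finset.mem_image.2 ⟨j, Finset.mem_range.2 hj, rfl⟩)
    obtain ⟨r, hr, e⟩ := exists_tr6 hg6
    have hro := tr_ok (show 6 < 7 by norm_num) hr
    have hc := List.all_eq_true.1 hchk r hr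
    rw [Bool.or_eq_true] at hc
    rcases hc with hc | hc
    · refine Subtype.ext (Subtype.ext ?_)
      show ((g : ↥M24) : Equiv.Perm GolayPt) = 1
      rw [(isIdB_iff hro).1 hc] at e
      calc ((g : ↥M24) : Equiv.Perm GolayPt) = u * (u⁻¹ * ((g : ↥M24) : Equiv.Perm GolayPt) * u) * u⁻¹ := by group
        _ = 1 := by rw [← e]; group
    · have h1 : toPerm r • toSet PairOrb.o1 = toSet PairOrb.o1 := by
        rw [e, mul_smul, mul_smul, eu', show ((g : ↥M24) : Equiv.Perm GolayPt) • o' = o' from g.2.2,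
          ← eu', inv_smul_smul]
      rw [smul_toSet hro] at h1
      rw [toSet_inj (pmask_lt hro _) (by decide +kernel) h1] at hc
      simp at hc
  have hbij : Function.Bijective φ := (Nat.bijective_iff_injective_and_card φ).2 ⟨hinj, by
    rw [Nat.card_perm, Nat.card_eq_finsetCard, hC, show Nat.factorial 6 = 720 by rfl]
    omega⟩
  exact ⟨(MulEquiv.ofBijective φ hbij).trans (Finset.equivFinOfCardEq hC).permCongrHom⟩

end Cfsg.Agent.S5614
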