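import Cfsg.Statements.S5615
import Cfsg.Agent.Lib.Golay.OctTrios

set_option autoImplicit false
set_option linter.all false
open scoped Pointwise
open Cfsg

namespace Cfsg.Agent.S5615
open Cfsg CfsgLib.Golay CfsgLib.Golay.OctTrio
open scoped Pointwise

/-- An octad of the length-24 code lies in exactly 15 trios; the stabiliser of the octad in the code's group acts doubly transitively on these 15 trios, and the kernel of this action is the pointwise stabiliser of the octad. -/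
theorem result (o : Finset Cfsg.GolayPt) (ho : o ∈ Cfsg.octads) : {T : Finset (Finset Cfsg.GolayPt) | T ∈ Cfsg.trios ∧ o ∈ T}.ncard = 15 ∧ (∀ T₁ T₂ T₁' T₂' : Finset (Finset Cfsg.GolayPt), T₁ ∈ Cfsg.trios → T₂ ∈ Cfsg.trios → T₁' ∈ Cfsg.trios → T₂' ∈ Cfsg.trios → o ∈ T₁ → o ∈ T₂ → o ∈ T₁' → o ∈ T₂' → T₁ ≠ T₂ → T₁' ≠ T₂' → ∃ g ∈ Cfsg.M24, g • o = o ∧ g • T₁ = T₁' ∧ g • T₂ = T₂') ∧ ∀ g ∈ Cfsg.M24, g • o = o → ((∀ T ∈ Cfsg.trios, o ∈ T → g • T = T) ↔ ∀ p ∈ o, g p = p) := by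
  classical
  obtain ⟨a, ha, hao⟩ := exists_octO ho
  subst hao
  have idx15 : ∀ T, T ∈ trios → a • toSet octO ∈ T → ∃ i < 15, a • Sys (t15.getD i []) = T := by
    intro T hT hoT
    obtain ⟨i, hi, e⟩ := (mem_t15 (T := a⁻¹ • T)).1 ⟨smul_trio (inv_mem ha) hT, by
      rw [Finset.mem_inv_smul_finset_iff]; exact hoT⟩
    exact ⟨i, hi, by rw [e, smul_inv_smul]⟩
  refine ⟨?_, fun T₁ T₂ T₁' T₂' h1 h2 h3 h4 o1 o2 o3 o4 n12 n34 => ?_, fun g hg hgo => ?_⟩
  · have e : {T | T ∈ trios ∧ a • toSet octO ∈ T} =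
        (a • ·) '' {T | T ∈ trios ∧ toSet octO ∈ T} := by
      ext T
      constructor
      · rintro ⟨hT, hoT⟩
        exact ⟨a⁻¹ • T, ⟨smul_trio (inv_mem ha) hT, by
          rw [Finset.mem_inv_smul_finset_iff]; exact hoT⟩, smul_inv_smul a T⟩
      · rintro ⟨T, ⟨hT, hoT⟩, rfl⟩
        exact ⟨smul_trio ha hT, Finset.smul_mem_smul_finset hoT⟩
    rw [e, Set.ncard_image_of_injective _ (MulAction.injective a), count_std]
  · obtain ⟨i, hi, rfl⟩ := idx15 T₁ h1 o1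
    obtain ⟨j, hj, rfl⟩ := idx15 T₂ h2 o2
    obtain ⟨k, hk, rfl⟩ := idx15 T₁' h3 o3
    obtain ⟨l, hl, rfl⟩ := idx15 T₂' h4 o4
    obtain ⟨u, hu, uo, u1, u2⟩ := pair_to_base hi hj fun e => n12 (e ▸ rfl)
    obtain ⟨v, hv, vo, v1, v2⟩ := pair_to_base hk hl fun e => n34 (e ▸ rfl)
    refine ⟨a * (v * u⁻¹) * a⁻¹, mul_mem (mul_mem ha (mul_mem hv (inv_mem hu))) (inv_mem ha), ?_, ?_, ?_⟩
    · rw [mul_smul, mul_smul, inv_smul_smul, mul_smul, show u⁻¹ • toSet octO = toSet octO by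
        rw [inv_smul_eq_iff, uo], vo]
    · rw [mul_smul, mul_smul, inv_smul_smul, mul_smul, ← u1, inv_smul_smul, v1]
    · rw [mul_smul, mul_smul, inv_smul_smul, mul_smul, ← u2, inv_smul_smul, v2]
  · have hg' : a⁻¹ * g * a ∈ M24 := mul_mem (mul_mem (inv_mem ha) hg) ha
    have hgo' : (a⁻¹ * g * a) • toSet octO = toSet octO := by
      rw [mul_smul, mul_smul, hgo, inv_smul_smul]
    constructor
    · intro h p hp
      obtain ⟨q, hq, rfl⟩ := Finset.mem_smul_finset.1 hp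
      have h0 := kernel_fix hg' hgo' (fun i hi => by
        obtain ⟨hT, hoT⟩ := mem_t15.2 ⟨i, hi, rfl⟩
        rw [mul_smul, mul_smul, h _ (smul_trio ha hT) (Finset.smul_mem_smul_finset hoT), inv_smul_smul]) q hq
      rw [Equiv.Perm.mul_apply, Equiv.Perm.mul_apply, Equiv.Perm.inv_eq_iff_eq] at h0
      exact h0
    · intro h T hT hoT
      obtain ⟨i, hi, rfl⟩ := idx15 T hT hoT
      have h0 := fix6_spec hg' (fun p hp => by
        rw [Equiv.Perm.mul_apply, Equiv.Perm.mul_apply, Equiv.Perm.inv_eq_iff_eq]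
        exact h _ (Finset.smul_mem_smul_finset hp)) i hi
      rw [mul_smul, mul_smul, inv_smul_eq_iff] at h0
      exact h0

end Cfsg.Agent.S5615
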