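import Cfsg.Statements.S5616
import Cfsg.Agent.Lib.Golay.CertP3SexOk

set_option autoImplicit false
set_option linter.all false
open scoped Pointwise
open Cfsg

namespace Cfsg.Agent.S5616

/-- Let Y be a set of 3 of the 24 points. The sextets of the length-24 code whose tetrads meeting Y number 1, 2 or 3 are respectively 21, 630 and 1120 in number, and two sextets with the same number of tetrads meeting Y are conjugate under the setwise stabiliser of Y in the code's group. -/
theorem result (Y : Finset Cfsg.GolayPt) (hY : Y.card = 3) : {S : Finset (Finset Cfsg.GolayPt) | S ∈ Cfsg.sextets ∧ (S.filter fun t => (t ∩ Y).Nonempty).card = 1}.ncard = 21 ∧ {S : Finset (Finset Cfsg.GolayPt) | S ∈ Cfsg.sextets ∧ (S.filter fun t => (t ∩ Y).Nonempty).card = 2}.ncard = 630 ∧ {S : Finset (Finset Cfsg.GolayPt) | S ∈ Cfsg.sextets ∧ (S.filter fun t => (t ∩ Y).Nonempty).card = 3}.ncard = 1120 ∧ ∀ S S' : Finset (Finset Cfsg.GolayPt), S ∈ Cfsg.sextets → S' ∈ Cfsg.sextets → (S.filter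 fun t => (t ∩ Y).Nonempty).card = (S'.filter fun t => (t ∩ Y).Nonempty).card → ∃ g ∈ Cfsg.M24, g • Y = Y ∧ g • S = S' := by
  obtain ⟨a, ha, e⟩ := CfsgLib.Golay.exists_smul_eq_small (k := 3) (by norm_num) (s := CfsgLib.Golay.toSet 8388611)
    (by decide +kernel) hY
  have hS : a • CfsgLib.Golay.Sys [8388611] = ({Y} : Finset (Finset Cfsg.GolayPt)) := by
    rw [CfsgLib.Golay.Sys_single, Finset.smul_finset_singleton, e]
  have hlen : CfsgLib.Golay.certP3Sex.1.length = 3 := by decide +kernel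
  let f : Finset Cfsg.GolayPt → Finset (Finset Cfsg.GolayPt) → ℕ :=
    fun Y S => (S.filter fun t => (t ∩ Y).Nonempty).card
  have finv : ∀ (g : Equiv.Perm Cfsg.GolayPt) Y S, f (g • Y) (g • S) = f Y S := by
    intro g Y S
    simp only [f]
    rw [Finset.smul_finset_def (a := g) (s := S), Finset.filter_image,
      Finset.card_image_of_injective _ (MulAction.injective g)]
    congr 1
    refine Finset.filter_congr fun t _ => ?_
    rw [← CfsgLib.Golay.smul_inter', Finset.smul_finset_nonempty]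
  have hroot : ∀ i < 3, f (CfsgLib.Golay.toSet 8388611) (CfsgLib.Golay.Sys (CfsgLib.Golay.rootAt CfsgLib.Golay.certP3Sex i)) = i + 1 := by
    decide +kernel
  have hval : ∀ i < 3, ∀ S ∈ MulAction.orbit ↥(MulAction.stabilizer Cfsg.M24 ({Y} : Finset (Finset Cfsg.GolayPt)))
      (CfsgLib.Golay.rootOf CfsgLib.Golay.certP3Sex a i), f Y S = i + 1 := by
    intro i hi S hS'
    obtain ⟨g, rfl⟩ := hS'
    have hfix : ((g : Cfsg.M24) : Equiv.Perm Cfsg.GolayPt) • Y = Y := by
      exact Finset.singleton_inj.1 ((Finset.smul_finset_singleton _).symm.trans g.2)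
    have h1 : f Y (((g : Cfsg.M24) : Equiv.Perm Cfsg.GolayPt) • CfsgLib.Golay.rootOf CfsgLib.Golay.certP3Sex a i) =
        f Y (CfsgLib.Golay.rootOf CfsgLib.Golay.certP3Sex a i) := by
      have h2 := finv ((g : Cfsg.M24) : Equiv.Perm Cfsg.GolayPt) Y (CfsgLib.Golay.rootOf CfsgLib.Golay.certP3Sex a i)
      rw [hfix] at h2
      exact h2
    refine h1.trans ?_
    rw [← e]
    exact (finv a _ _).trans (hroot i hi)
  have hclass : ∀ i < 3, {S : Finset (Finset Cfsg.GolayPt) | S ∈ Cfsg.sextets ∧ f Y S = i + 1} =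
      MulAction.orbit ↥(MulAction.stabilizer Cfsg.M24 ({Y} : Finset (Finset Cfsg.GolayPt))) (CfsgLib.Golay.rootOf CfsgLib.Golay.certP3Sex a i) := by
    intro i hi
    ext S
    constructor
    · rintro ⟨hS', hf⟩
      obtain ⟨j, hj, hm⟩ := CfsgLib.Golay.sexKind.cover CfsgLib.Golay.certP3Sex_ok ha hS (Y := S) hS'
      rw [hlen] at hj
      have := hval j hj S hm
      obtain rfl : i = j := by omega
      exact hm
    · intro hm
      refine ⟨?_, hval i hi S hm⟩
      exact CfsgLib.Golay.subset_of_orbit (fun g Y hY => CfsgLib.Golay.sexKind.smul' g hY)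
        (CfsgLib.Golay.sexKind.orbit_eq CfsgLib.Golay.certP3Sex_ok ha hS (i := i) (by omega)).1 hm
  have hcount : ∀ i < 3, {S : Finset (Finset Cfsg.GolayPt) | S ∈ Cfsg.sextets ∧ f Y S = i + 1}.ncard =
      CfsgLib.Golay.sizeAt CfsgLib.Golay.certP3Sex i := fun i hi => by
    rw [hclass i hi]
    exact (CfsgLib.Golay.sexKind.orbit_eq CfsgLib.Golay.certP3Sex_ok ha hS (i := i) (by omega)).2.2
  refine ⟨(hcount 0 (by norm_num)).trans (by decide +kernel), (hcount 1 (by norm_num)).trans (by decide +kernel),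
    (hcount 2 (by norm_num)).trans (by decide +kernel), fun S S' hS1 hS2 heq => ?_⟩
  obtain ⟨i, hi, hm⟩ := CfsgLib.Golay.sexKind.cover CfsgLib.Golay.certP3Sex_ok ha hS (Y := S) hS1
  rw [hlen] at hi
  have h2 : S' ∈ {S : Finset (Finset Cfsg.GolayPt) | S ∈ Cfsg.sextets ∧ f Y S = i + 1} :=
    ⟨hS2, heq.symm.trans (hval i hi S hm)⟩
  rw [hclass i hi] at h2
  rw [← MulAction.orbit_eq_iff.2 hm] at h2
  obtain ⟨g, hg⟩ := h2
  have hfix : ((g : Cfsg.M24) : Equiv.Perm Cfsg.GolayPt) • Y = Y := by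
    exact Finset.singleton_inj.1 ((Finset.smul_finset_singleton _).symm.trans g.2)
  exact ⟨_, (g : Cfsg.M24).2, hfix, hg⟩

end Cfsg.Agent.S5616
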