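import Cfsg.Statements.S5617
import Cfsg.Agent.Lib.Golay.OrbitStmt
import Cfsg.Agent.Lib.Golay.CertPairSexOk

set_option autoImplicit false
set_option linter.all false
open scoped Pointwise
open Cfsg

namespace Cfsg.Agent.S5617

/-- The setwise stabiliser, in the group of the length-24 code, of a complementary pair of dodecads has exactly three orbits on the 1771 sextets, of sizes 396, 495 and 880. -/
theorem result (d : Finset Cfsg.GolayPt) (hd : d ∈ Cfsg.dodecads) : ∃ X₁ ∈ Cfsg.sextets, ∃ X₂ ∈ Cfsg.sextets, ∃ X₃ ∈ Cfsg.sextets, (MulAction.orbit ↥(MulAction.stabilizer Cfsg.M24 ({d, Finset.univ \ d} : Finset (Finset Cfsg.GolayPt))) X₁).ncard = 396 ∧ (MulAction.orbit ↥(MulAction.stabilizer Cfsg.M24 ({d, Finset.univ \ d} : Finset (Finset Cfsg.GolayPt))) X₂).ncard = 495 ∧ (MulAction.orbit ↥(MulAction.stabilizer Cfsg.M24 ({d, Finset.univ \ d} : Finset (Finset Cfsg.GolayPt))) X₃).ncard = 880 ∧ Cfsg.sextets = MulAction.orbit ↥(MulAction.stabilizer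 Cfsg.M24 ({d, Finset.univ \ d} : Finset (Finset Cfsg.GolayPt))) X₁ ∪ MulAction.orbit ↥(MulAction.stabilizer Cfsg.M24 ({d, Finset.univ \ d} : Finset (Finset Cfsg.GolayPt))) X₂ ∪ MulAction.orbit ↥(MulAction.stabilizer Cfsg.M24 ({d, Finset.univ \ d} : Finset (Finset Cfsg.GolayPt))) X₃ := by
  obtain ⟨a, ha, hS⟩ := CfsgLib.Golay.exists_pair0 hd
  rw [Finset.compl_eq_univ_sdiff] at hS
  obtain ⟨m0, -, c0⟩ := CfsgLib.Golay.sexKind.orbit_eq CfsgLib.Golay.certPairSex_ok ha hS (i := 0) (by decide +kernel)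
  rw [show CfsgLib.Golay.sizeAt CfsgLib.Golay.certPairSex 0 = 396 by decide +kernel] at c0
  obtain ⟨m1, -, c1⟩ := CfsgLib.Golay.sexKind.orbit_eq CfsgLib.Golay.certPairSex_ok ha hS (i := 1) (by decide +kernel)
  rw [show CfsgLib.Golay.sizeAt CfsgLib.Golay.certPairSex 1 = 495 by decide +kernel] at c1
  obtain ⟨m2, -, c2⟩ := CfsgLib.Golay.sexKind.orbit_eq CfsgLib.Golay.certPairSex_ok ha hS (i := 2) (by decide +kernel)
  rw [show CfsgLib.Golay.sizeAt CfsgLib.Golay.certPairSex 2 = 880 by decide +kernel] at c2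
  refine ⟨_, m0, _, m1, _, m2, c0, c1, c2, ?_⟩
  apply Set.Subset.antisymm
  · intro Y hY
    obtain ⟨i, hi, hi'⟩ := CfsgLib.Golay.sexKind.cover CfsgLib.Golay.certPairSex_ok ha hS (Y := Y) hY
    rw [show CfsgLib.Golay.certPairSex.1.length = 3 by decide +kernel] at hi
    obtain rfl | rfl | rfl : i = 0 ∨ i = 1 ∨ i = 2 := by omega
    · exact Or.inl (Or.inl (hi'))
    · exact Or.inl (Or.inr (hi'))
    · exact Or.inr (hi')
  · exact (Set.union_subset (Set.union_subset (CfsgLib.Golay.subset_of_orbit (fun g Y hY => CfsgLib.Golay.sexKind.smul' g hY) m0) (CfsgLib.Golay.subset_of_orbit (fun g Y hY => CfsgLib.Golay.sexKind.smul' g hY) m1)) (CfsgLib.Golay.subset_of_orbit (fun g Y hY => CfsgLib.Golay.sexKind.smul' g hY) m2))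

end Cfsg.Agent.S5617
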