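import Cfsg.Statements.S5618
import Cfsg.Agent.Lib.Golay.Stabs

set_option autoImplicit false
set_option linter.all false
open scoped Pointwise
open Cfsg

namespace Cfsg.Agent.S5618
open Cfsg CfsgLib.Golay CfsgLib.Golay.Stabs
open scoped Pointwise

/-- For a dodecad d of the length-24 code and a hexad C on it (a 6-point intersection of d with an octad): the joint stabiliser of d and C in the code's group is isomorphic to the symmetric group of degree 6, and it acts faithfully both on the six points of C and on the six points of d outside C. -/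
theorem result (d : Finset Cfsg.GolayPt) (hd : d ∈ Cfsg.dodecads) (C : Finset Cfsg.GolayPt) (hC : C ∈ Cfsg.hexadsOn d) : Nonempty (↥(MulAction.stabilizer Cfsg.M24 d ⊓ MulAction.stabilizer Cfsg.M24 C) ≃* Equiv.Perm (Fin 6)) ∧ (∀ g ∈ MulAction.stabilizer Cfsg.M24 d ⊓ MulAction.stabilizer Cfsg.M24 C, (∀ p ∈ C, ((g : ↥Cfsg.M24) : Equiv.Perm Cfsg.GolayPt) p = p) → g = 1) ∧ ∀ g ∈ MulAction.stabilizer Cfsg.M24 d ⊓ MulAction.stabilizer Cfsg.M24 C, (∀ p ∈ d \ C, ((g : ↥Cfsg.M24) : Equiv.Perm Cfsg.GolayPt) p = p) → g = 1 := by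
  classical
  have hsub : C ⊆ d := by
    obtain ⟨-, o, -, rfl⟩ := hC; exact Finset.inter_subset_right
  have faith : ∀ g ∈ MulAction.stabilizer M24 d ⊓ MulAction.stabilizer M24 C,
      (∀ p ∈ C, ((g : ↥M24) : Equiv.Perm GolayPt) p = p) → g = 1 := fun g hg h =>
    Subtype.ext (hexad_faithful hd hC g.2 (MulAction.mem_stabilizer_iff.1 hg.1) h)
  refine ⟨?_, faith, fun g hg h => Subtype.ext
    (hexad_faithful hd (compl_hexad hd hC) g.2 (MulAction.mem_stabilizer_iff.1 hg.1) h)⟩
  let φ : ↥(MulAction.stabilizer M24 d ⊓ MulAction.stabilizer M24 C) →* Equiv.Perm ↥C :=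
    { toFun := fun g => ((g : ↥M24) : Equiv.Perm GolayPt).subtypePerm fun x => by
        have h : ((g : ↥M24) : Equiv.Perm GolayPt) • C = C := MulAction.mem_stabilizer_iff.1 g.2.2
        generalize ((g : ↥M24) : Equiv.Perm GolayPt) = a at h
        conv_lhs => rw [← h]
        exact Finset.smul_mem_smul_finset_iff a
      map_one' := Equiv.ext fun _ => rfl
      map_mul' := fun _ _ => Equiv.ext fun _ => rfl }
  have hinj : Function.Injective φ := by
    rw [← MonoidHom.ker_eq_bot_iff, Subgroup.eq_bot_iff_forall]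
    intro g hg
    exact Subtype.ext (faith g.1 g.2 fun p hp =>
      congrArg Subtype.val (Equiv.congr_fun (MonoidHom.mem_ker.1 hg) ⟨p, hp⟩))
  have hbij : Function.Bijective φ := (Nat.bijective_iff_injective_and_card φ).2 ⟨hinj, by
    rw [card_hexad_stab hd hC, Nat.card_perm, Nat.card_eq_finsetCard, hC.1]; rfl⟩
  exact ⟨(MulEquiv.ofBijective φ hbij).trans (Finset.equivFinOfCardEq hC.1).permCongrHom⟩

end Cfsg.Agent.S5618
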