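import Cfsg.Statements.S5619
import Cfsg.Agent.Lib.Golay.Stabs2

set_option autoImplicit false
set_option linter.all false
open scoped Pointwise
open Cfsg

namespace Cfsg.Agent.S5619
open Cfsg CfsgLib.Golay CfsgLib.Golay.Stabs
open scoped Pointwise

/-- In the group of the length-24 code, the subgroup fixing a dodecad setwise and three of its points individually (a group of order 72) has a normal Sylow 3-subgroup that is elementary abelian of order 9, and its Sylow 2-subgroups are quaternion of order 8. -/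
theorem result (d : Finset Cfsg.GolayPt) (hd : d ∈ Cfsg.dodecads) (p q r : Cfsg.GolayPt) (hp : p ∈ d) (hq : q ∈ d) (hr : r ∈ d) (hpq : p ≠ q) (hpr : p ≠ r) (hqr : q ≠ r) : (∀ Q : Sylow 3 ↥(MulAction.stabilizer Cfsg.M24 d ⊓ MulAction.stabilizer Cfsg.M24 p ⊓ MulAction.stabilizer Cfsg.M24 q ⊓ MulAction.stabilizer Cfsg.M24 r), (Q : Subgroup ↥(MulAction.stabilizer Cfsg.M24 d ⊓ MulAction.stabilizer Cfsg.M24 p ⊓ MulAction.stabilizer Cfsg.M24 q ⊓ MulAction.stabilizer Cfsg.M24 r)).Normal ∧ Nat.card ↥Q = 9 ∧ ∀ x ∈ (Q : Subgroup ↥(MulAction.stabilizer Cfsg.M24 d ⊓ MulAction.stabilizer Cfsg.M24 p ⊓ MulAction.stabilizer Cfsg.M24 q ⊓ MulAction.stabilizer Cfsg.M24 r)), x ^ 3 = 1) ∧ ∀ P : Sylow 2 ↥(MulAction.stabilizer Cfsg.M24 d ⊓ MulAction.stabilizer Cfsg.M24 p ⊓ MulAction.stabilizer Cfsg.M24 q ⊓ MulAction.stabilizer Cfsg.M24 r), Nonempty (↥P ≃* QuaternionGroup 2) := by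
  classical
  obtain ⟨v, hv, ev⟩ := exists_dodD hd
  have htd : v⁻¹ • ({p, q, r} : Finset GolayPt) ⊆ toSet dodD := by
    rw [show toSet dodD = v⁻¹ • d by rw [← ev, inv_smul_smul]]
    refine Finset.smul_finset_subset_smul_finset ?_
    intro x hx
    simp only [Finset.mem_insert, Finset.mem_singleton] at hx
    rcases hx with rfl | rfl | rfl <;> assumption
  have ht3 : (v⁻¹ • ({p, q, r} : Finset GolayPt)).card = 3 := by
    rw [Finset.card_smul_finset]
    exact Finset.card_eq_three.2 ⟨p, q, r, hpq, hpr, hqr, rfl⟩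
  obtain ⟨u, hu, eu⟩ := Quartet.to_t0 ht3 htd
  have ha : u * v⁻¹ ∈ M24 := mul_mem (S12_le hu) (inv_mem hv)
  have had : (u * v⁻¹) • d = toSet dodD := by
    rw [← ev, mul_smul, inv_smul_smul, Quartet.S12_fix hu]
  have hat : (u * v⁻¹) • ({p, q, r} : Finset GolayPt) = Quartet.t0 := by rw [mul_smul, eu]
  generalize u * v⁻¹ = a at ha had hat
  let f : ↥(MulAction.stabilizer M24 d ⊓ MulAction.stabilizer M24 p ⊓ MulAction.stabilizer M24 q ⊓
      MulAction.stabilizer M24 r) →* Equiv.Perm GolayPt :=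
    (MulAut.conj a).toMonoidHom.comp (M24.subtype.comp (Subgroup.subtype _))
  have hfinj : Function.Injective f := fun x y h =>
    Subtype.ext (Subtype.ext ((MulAut.conj a).injective h))
  refine structure3 f hfinj fun g => ?_
  constructor
  · rintro ⟨x, rfl⟩
    have hxd : ((x : ↥M24) : Equiv.Perm GolayPt) • d = d := MulAction.mem_stabilizer_iff.1 x.2.1.1.1
    have hxp : ((x : ↥M24) : Equiv.Perm GolayPt) p = p := MulAction.mem_stabilizer_iff.1 x.2.1.1.2
    have hxq : ((x : ↥M24) : Equiv.Perm GolayPt) q = q := MulAction.mem_stabilizer_iff.1 x.2.1.2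
    have hxr : ((x : ↥M24) : Equiv.Perm GolayPt) r = r := MulAction.mem_stabilizer_iff.1 x.2.2
    show a * ((x : ↥M24) : Equiv.Perm GolayPt) * a⁻¹ ∈ M24 ∧ C3 (a * ((x : ↥M24) : Equiv.Perm GolayPt) * a⁻¹)
    refine ⟨mul_mem (mul_mem ha (x : ↥M24).2) (inv_mem ha), ?_, fun y hy => ?_⟩
    · rw [← had, mul_smul, mul_smul, inv_smul_smul, hxd]
    · rw [← hat] at hy
      obtain ⟨z, hz, rfl⟩ := Finset.mem_smul_finset.1 hy
      rw [Equiv.Perm.smul_def, Equiv.Perm.mul_apply, Equiv.Perm.mul_apply, Equiv.Perm.inv_def,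
        Equiv.symm_apply_apply]
      congr 1
      simp only [Finset.mem_insert, Finset.mem_singleton] at hz
      rcases hz with rfl | rfl | rfl <;> assumption
  · rintro ⟨hg, hgd, hgt⟩
    have hfix : ∀ z ∈ ({p, q, r} : Finset GolayPt), (a⁻¹ * g * a) z = z := fun z hz => by
      rw [Equiv.Perm.mul_apply, Equiv.Perm.mul_apply, Equiv.Perm.inv_eq_iff_eq]
      exact hgt _ (hat ▸ Finset.smul_mem_smul_finset hz)
    refine ⟨⟨⟨a⁻¹ * g * a, mul_mem (mul_mem (inv_mem ha) hg) ha⟩, ⟨⟨⟨?_, ?_⟩, ?_⟩, ?_⟩⟩, ?_⟩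
    · show (a⁻¹ * g * a) • d = d
      rw [mul_smul, mul_smul, had, hgd, ← had, inv_smul_smul]
    · exact hfix p (by simp)
    · exact hfix q (by simp)
    · exact hfix r (by simp)
    · show a * (a⁻¹ * g * a) * a⁻¹ = g
      group

end Cfsg.Agent.S5619
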