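import Cfsg.Statements.S5620
import Cfsg.Agent.Lib.Golay.Stabs2

set_option autoImplicit false
set_option linter.all false
open scoped Pointwise
open Cfsg

namespace Cfsg.Agent.S5620
open Cfsg CfsgLib.Golay CfsgLib.Golay.Stabs
open scoped Pointwise

/-- Inside the stabiliser of the dodecad of squares (a Mathieu group of degree 12), the stabiliser of the residue 0 (a point of the dodecad) and the stabiliser of the extra point (a point outside the dodecad) are isomorphic but not conjugate; conjugation by a suitable element of the code's group that maps the dodecad of squares onto its complement carries the first onto the second. -/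
theorem result : Nonempty (↥(Cfsg.Spor.M12 ⊓ MulAction.stabilizer (Equiv.Perm Cfsg.GolayPt) (none : Cfsg.GolayPt)) ≃* ↥Cfsg.Spor.M11) ∧ (¬ ∃ k ∈ Cfsg.Spor.M12, MulAut.conj k • Cfsg.Spor.M11 = Cfsg.Spor.M12 ⊓ MulAction.stabilizer (Equiv.Perm Cfsg.GolayPt) (none : Cfsg.GolayPt)) ∧ ∃ g ∈ Cfsg.M24, g • Cfsg.Spor.squareDodecad = Finset.univ \ Cfsg.Spor.squareDodecad ∧ MulAut.conj g • Cfsg.Spor.M11 = Cfsg.Spor.M12 ⊓ MulAction.stabilizer (Equiv.Perm Cfsg.GolayPt) (none : Cfsg.GolayPt) := by
  classical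
  obtain ⟨hg, hgd, hg0, hsq, hmv, hcover⟩ := swap_check
  have hok := okPerm_of_inM24 hg
  have hgn : toPerm swapD (some 0) = none := idx_inj.1 (by rw [idx_toPerm hok]; exact hg0)
  have hgc : toPerm swapD • Spor.squareDodecad = Spor.squareDodecadᶜ := by
    rw [← hsq, smul_toSet hok, hgd, toSet_compl]
  have hconj : MulAut.conj (toPerm swapD) • Spor.M11 =
      Spor.M12 ⊓ MulAction.stabilizer (Equiv.Perm GolayPt) (none : GolayPt) := by
    ext x
    rw [Subgroup.mem_pointwise_smul_iff_inv_smul_mem]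
    have hiff : ∀ y : Equiv.Perm GolayPt, y • Spor.squareDodecadᶜ = Spor.squareDodecadᶜ ↔
        y • Spor.squareDodecad = Spor.squareDodecad := fun y => by
      rw [smul_compl', compl_inj_iff]
    have hM : (toPerm swapD)⁻¹ * x * toPerm swapD ∈ M24 ↔ x ∈ M24 := by
      constructor
      · intro h
        have := mul_mem (mul_mem (toPerm_mem_M24 hg) h) (inv_mem (toPerm_mem_M24 hg))
        rwa [show toPerm swapD * ((toPerm swapD)⁻¹ * x * toPerm swapD) * (toPerm swapD)⁻¹ = x by group] at this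
      · exact fun h => mul_mem (mul_mem (inv_mem (toPerm_mem_M24 hg)) h) (toPerm_mem_M24 hg)
    have hsm : (MulAut.conj (toPerm swapD))⁻¹ • x = (toPerm swapD)⁻¹ * x * toPerm swapD := by
      simp [MulAut.smul_def]
    rw [hsm]
    simp only [Spor.M11, Spor.M12, Subgroup.mem_inf, MulAction.mem_stabilizer_iff, hM]
    rw [mul_smul, mul_smul, hgc, inv_smul_eq_iff, hgc, hiff]
    refine and_congr_right fun _ => ?_
    simp only [Equiv.Perm.smul_def, Equiv.Perm.mul_apply, Equiv.Perm.inv_eq_iff_eq, hgn]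
  refine ⟨⟨((Subgroup.equivSMul (MulAut.conj (toPerm swapD)) Spor.M11).trans
    (MulEquiv.subgroupCongr hconj)).symm⟩, ?_, toPerm swapD, toPerm_mem_M24 hg, ?_, hconj⟩
  · rintro ⟨k, hk, e⟩
    have hkd : k • Spor.squareDodecad = Spor.squareDodecad := MulAction.mem_stabilizer_iff.1 hk.2
    have h0 : (some 0 : GolayPt) ∈ Spor.squareDodecad := by rw [← hsq]; decide +kernel
    have hy : k (some 0) ∈ toSet dodD := by
      rw [hsq, ← hkd]; exact Finset.smul_mem_smul_finset h0
    have h := List.all_eq_true.1 hcover (idx (k (some 0))) (List.mem_range.2 (idx_lt _))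
    simp only [mem_toSet.1 hy, Bool.not_true, Bool.false_or, List.any_eq_true, Bool.not_eq_true',
      beq_eq_false_iff_ne] at h
    obtain ⟨w, hw, hwy⟩ := h
    have hw' := List.all_eq_true.1 hmv w hw
    simp only [Bool.and_eq_true, beq_iff_eq] at hw'
    have hwo := okPerm_of_inM24 hw'.1.1
    have hwm : toPerm w ∈ Spor.M12 ⊓ MulAction.stabilizer (Equiv.Perm GolayPt) (none : GolayPt) :=
      ⟨⟨toPerm_mem_M24 hw'.1.1, MulAction.mem_stabilizer_iff.2 (by
        rw [← hsq, smul_toSet hwo, hw'.1.2])⟩, MulAction.mem_stabilizer_iff.2 (by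
        rw [Equiv.Perm.smul_def, ← idx_inj, idx_toPerm hwo]; exact hw'.2)⟩
    rw [← e, Subgroup.mem_pointwise_smul_iff_inv_smul_mem] at hwm
    have h1 : (k⁻¹ * toPerm w * k) (some 0) = some 0 := by
      have h2 : ((MulAut.conj k)⁻¹ • toPerm w : Equiv.Perm GolayPt) (some 0) = some 0 :=
        MulAction.mem_stabilizer_iff.1 hwm.2
      simpa [MulAut.smul_def] using h2
    apply hwy
    rw [← idx_toPerm hwo, idx_inj]
    rw [Equiv.Perm.mul_apply, Equiv.Perm.mul_apply, Equiv.Perm.inv_eq_iff_eq] at h1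
    exact h1
  · rw [hgc, Finset.compl_eq_univ_sdiff]

end Cfsg.Agent.S5620
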