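import Cfsg.Statements.S5623
import Cfsg.Agent.Lib.Golay.Abstract

set_option autoImplicit false
set_option linter.all false
open Cfsg

namespace Cfsg.Agent.S5623
open Cfsg CfsgLib.AbstractGolay
open scoped symmDiff

/-- Let C be a self-dual binary code of length 24 with minimum weight at least 8 (a 12-dimensional subspace of the 24-dimensional space over the field with two elements, any two of whose words have dot product zero, with no non-zero word of weight below 8 — an abstract extended binary Golay code). Then every coset w + C of C in the ambient space contains either exactly one word of weight at most 4, which then has weight at most 3, or exactly six words of weight at most 4, all of weight exactly 4 and with pairwise disjoint supports (a sextet). -/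
theorem result (C : Submodule (ZMod 2) (Fin 24 → ZMod 2)) (hdim : Module.finrank (ZMod 2) C = 12) (horth : ∀ v ∈ C, ∀ w ∈ C, ∑ i, v i * w i = 0) (hmin : ∀ w ∈ C, w ≠ 0 → 8 ≤ hammingNorm w) (w : Fin 24 → ZMod 2) : (∃ u : Fin 24 → ZMod 2, {u : Fin 24 → ZMod 2 | u - w ∈ C ∧ hammingNorm u ≤ 4} = {u} ∧ hammingNorm u ≤ 3) ∨ ({u : Fin 24 → ZMod 2 | u - w ∈ C ∧ hammingNorm u ≤ 4}.ncard = 6 ∧ ∀ u ∈ {u : Fin 24 → ZMod 2 | u - w ∈ C ∧ hammingNorm u ≤ 4}, hammingNorm u = 4 ∧ ∀ u' ∈ {u : Fin 24 → ZMod 2 | u - w ∈ C ∧ hammingNorm u ≤ 4}, u ≠ u' → Disjoint (Finset.univ.filter fun i => u i ≠ 0) (Finset.univ.filter fun i => u' i ≠ 0)) := by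
  classical
  have hC : IsGolay C := ⟨hdim, horth, hmin⟩
  have hset : {u : Fin 24 → ZMod 2 | u - w ∈ C ∧ hammingNorm u ≤ 4} =
      ind '' {s | s.card ≤ 4 ∧ Submodule.Quotient.mk (p := C) (ind s) = Submodule.Quotient.mk w} := by
    ext u
    constructor
    · rintro ⟨h1, h2⟩
      exact ⟨support₂ u, ⟨h2, by rw [ind_support, Submodule.Quotient.eq]; exact h1⟩, ind_support u⟩
    · rintro ⟨s, ⟨h1, h2⟩, rfl⟩
      exact ⟨(Submodule.Quotient.eq C).1 h2, by rw [norm_ind]; exact h1⟩
  rcases classes hC (Submodule.Quotient.mk w) with ⟨s, hs, e⟩ | ⟨F, hF6, hF, hdisj, hcov⟩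
  · left
    refine ⟨ind s, ?_, by rw [norm_ind]; exact hs⟩
    rw [hset, ← Set.image_singleton (f := ind)]
    congr 1
    ext t
    simp only [Set.mem_ofPred_eq, Set.mem_singleton_iff]
    constructor
    · rintro ⟨ht, e'⟩
      by_contra hne
      have h1 := far hC (e'.trans e.symm) hne
      have h2 := card_symm t s
      omega
    · rintro rfl
      exact ⟨by omega, e⟩
  · right
    have hF' : {s : Finset (Fin 24) | s.card ≤ 4 ∧ Submodule.Quotient.mk (p := C) (ind s) = Submodule.Quotient.mk w} = ↑F := by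
      ext t
      simp only [Set.mem_ofPred_eq, Finset.mem_coe, hF]
      refine ⟨fun ⟨ht, e⟩ => ⟨?_, e⟩, fun ⟨ht, e⟩ => ⟨ht.le, e⟩⟩
      by_contra hne
      obtain ⟨u, hu⟩ := Finset.card_pos.1 (show 0 < F.card by omega)
      obtain ⟨hu4, eu⟩ := (hF u).1 hu
      have h1 := far hC (e.trans eu.symm) fun h => hne (h ▸ hu4)
      have h2 := card_symm t u
      omega
    rw [hset, hF']
    refine ⟨by rw [Set.ncard_image_of_injective _ fun a b h => ind_inj h, Set.ncard_coe_finset, hF6], ?_⟩
    rintro _ ⟨s, hs, rfl⟩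
    refine ⟨by rw [norm_ind]; exact ((hF s).1 hs).1, ?_⟩
    rintro _ ⟨t, ht, rfl⟩ hne
    show Disjoint (support₂ (ind s)) (support₂ (ind t))
    rw [support_ind, support_ind]
    exact hdisj s hs t ht fun h => hne (h ▸ rfl)

end Cfsg.Agent.S5623
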