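import Cfsg.Statements.S5631
import Cfsg.Agent.Lib.Linear.Generation

set_option autoImplicit false
open Cfsg

namespace Cfsg.Agent.S5631

open scoped Matrix

/-- For a finite field F and n ≥ 13, the stabiliser in SL_n(F) of any proper non-zero subspace W of F^n is a maximal subgroup of SL_n(F). Here SL_n(F) is the kernel of the determinant inside GL_n(F) and the stabiliser is the set of elements of determinant one mapping W onto itself. -/
theorem result {F : Type*} [Field F] [Fintype F] (n : ℕ) (hn : 13 ≤ n) (W : Submodule F (Fin n → F)) (hW0 : W ≠ ⊥) (hW1 : W ≠ ⊤) : Cfsg.Geo.IsMaximalIn (Cfsg.Geo.specialLinear (Fin n) F) (Cfsg.Geo.subspaceStabilizer W ⊓ Cfsg.Geo.specialLinear (Fin n) F) := by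
  classical
  let SLn := Cfsg.Geo.specialLinear (Fin n) F
  have hdet : ∀ (v φ : Fin n → F), φ ⬝ᵥ v = 0 → ((1 : Matrix (Fin n) (Fin n) F) + Matrix.vecMulVec v φ).det = 1 := fun v φ h => by
    rw [Matrix.vecMulVec_eq Unit, Matrix.det_one_add_replicateCol_mul_replicateRow, h, add_zero]
  obtain ⟨T, hT, hTK⟩ : ∃ T : ∀ (v φ : Fin n → F), φ ⬝ᵥ v = 0 → GL (Fin n) F,
      (∀ v φ h (x : Fin n → F), (T v φ h).1 *ᵥ x = x + (φ ⬝ᵥ x) • v) ∧
      ∀ v φ h, T v φ h ∈ Cfsg.Geo.specialLinear (Fin n) F := by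
    refine ⟨fun v φ h => Matrix.GeneralLinearGroup.mkOfDetNeZero ((1 : Matrix (Fin n) (Fin n) F) + Matrix.vecMulVec v φ)
      (by rw [hdet v φ h]; exact one_ne_zero), fun v φ h x => ?_, fun v φ h => ?_⟩
    · show ((1 : Matrix (Fin n) (Fin n) F) + Matrix.vecMulVec v φ) *ᵥ x = _
      rw [Matrix.add_mulVec, Matrix.one_mulVec, Matrix.vecMulVec_mulVec]
      funext i; simp [mul_comm]
    · rw [Cfsg.Geo.specialLinear, MonoidHom.mem_ker]
      exact Units.ext (hdet v φ h)
  have fin : ∀ g : GL (Fin n) F, (∀ w ∈ W, g.1 *ᵥ w ∈ W) → g ∈ Cfsg.Geo.subspaceStabilizer W := fun g hg v => by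
    refine ⟨hg v, fun hv => ?_⟩
    let f : W → W := fun w => ⟨g.1 *ᵥ w.1, hg w.1 w.2⟩
    have hf : Function.Injective f := fun a b e =>
      Subtype.ext (Matrix.mulVec_injective_iff_isUnit.2 g.isUnit (congrArg Subtype.val e))
    obtain ⟨w, hw⟩ := (Finite.injective_iff_surjective.1 hf) ⟨_, hv⟩
    rw [← Matrix.mulVec_injective_iff_isUnit.2 g.isUnit (congrArg Subtype.val hw)]
    exact w.2
  have dual : ∀ f : (Fin n → F) →ₗ[F] F, ∃ φ : Fin n → F, ∀ x, φ ⬝ᵥ x = f x := fun f =>
    ⟨fun i => f (Pi.single i 1), fun x => by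
      conv_rhs => rw [pi_eq_sum_univ' x]
      simp [dotProduct, map_sum, mul_comm]⟩
  refine ⟨lt_of_le_of_ne inf_le_right fun heq => ?_, fun M hM hMK => ?_⟩
  · -- some element moves W
    obtain ⟨v, -, hv⟩ := SetLike.exists_of_lt (lt_top_iff_ne_top.2 hW1)
    obtain ⟨w, hw, hw0⟩ := W.exists_mem_ne_zero_of_ne_bot hW0
    have hwv : w ∉ Submodule.span F {v} := fun h => by
      obtain ⟨c, rfl⟩ := Submodule.mem_span_singleton.1 h
      have hc : c ≠ 0 := fun h0 => hw0 (by rw [h0, zero_smul])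
      exact hv ((Submodule.smul_mem_iff W hc).1 hw)
    obtain ⟨f, hf, hfv⟩ := Submodule.exists_dual_map_eq_bot_of_notMem hwv inferInstance
    obtain ⟨φ, hφ⟩ := dual f
    have h0 : φ ⬝ᵥ v = 0 := by
      rw [hφ]
      have : f v ∈ (Submodule.span F {v}).map f := ⟨v, Submodule.mem_span_singleton_self v, rfl⟩
      rw [hfv] at this
      exact (Submodule.mem_bot F).1 this
    have := heq.ge (hTK v φ h0)
    have h1 := (this.1 w).1 hw
    change (T v φ h0).1 *ᵥ w ∈ W at h1
    rw [hT, hφ, Submodule.add_mem_iff_right W hw, Submodule.smul_mem_iff W hf] at h1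
    exact hv h1
  · refine or_iff_not_imp_left.2 fun hne => le_antisymm hMK ?_
    obtain ⟨g, hgM, hgH⟩ := SetLike.exists_of_lt (lt_of_le_of_ne hM (Ne.symm hne))
    obtain ⟨w1, hw1, hgw1⟩ : ∃ w ∈ W, g.1 *ᵥ w ∉ W := by
      by_contra h
      simp only [not_exists, not_and, not_not] at h
      exact hgH ⟨fin g h, hMK hgM⟩
    let C : (Fin n → F) → Prop := fun v => ∀ φ (h : φ ⬝ᵥ v = 0), T v φ h ∈ M
    have hCW : ∀ v ∈ W, C v := fun v hv φ h => hM ⟨fin _ fun w hw => by
      rw [hT]; exact W.add_mem hw (W.smul_mem _ hv), hTK v φ h⟩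
    have hCg : ∀ h ∈ M, ∀ v, C v → C (h.1 *ᵥ v) := by
      intro h hh v hv φ hφ
      have h0 : (φ ᵥ* h.1) ⬝ᵥ v = 0 := by rw [← Matrix.dotProduct_mulVec]; exact hφ
      have e : T (h.1 *ᵥ v) φ hφ = h * T v (φ ᵥ* h.1) h0 * h⁻¹ := by
        refine Units.ext (Matrix.ext_iff_mulVec.2 fun x => ?_)
        rw [hT, Units.val_mul, Units.val_mul, ← Matrix.mulVec_mulVec, ← Matrix.mulVec_mulVec, hT, Matrix.mulVec_add,
          Matrix.mulVec_smul, ← Matrix.dotProduct_mulVec, Matrix.mulVec_mulVec, ← Units.val_mul, mul_inv_cancel,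
          Units.val_one, Matrix.one_mulVec]
      rw [e]; exact mul_mem (mul_mem hh (hv _ h0)) (inv_mem hh)
    have hCs : ∀ v (c : F), C v → C (c • v) := by
      intro v c hv φ h
      by_cases hc : c = 0
      · have : T (c • v) φ h = 1 := Units.ext (Matrix.ext_iff_mulVec.2 fun x => by
          rw [hT, hc, zero_smul, smul_zero, add_zero, Units.val_one, Matrix.one_mulVec])
        rw [this]; exact one_mem M
      · have h0 : (c • φ) ⬝ᵥ v = 0 := by rw [smul_dotProduct, ← dotProduct_smul]; exact h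
        have : T (c • v) φ h = T v (c • φ) h0 := Units.ext (Matrix.ext_iff_mulVec.2 fun x => by
          rw [hT, hT, smul_dotProduct, smul_smul, smul_eq_mul, mul_comm])
        rw [this]; exact hv _ h0
    have hall : ∀ v, C v := by
      intro v
      by_cases hv : v ∈ W
      · exact hCW v hv
      set u := g.1 *ᵥ w1
      have hu : C u := hCg g hgM w1 (hCW w1 hw1)
      by_cases hsp : v ∈ W ⊔ Submodule.span F {u}
      · obtain ⟨z, hz, au, hau, rfl⟩ := Submodule.mem_sup.1 hsp
        obtain ⟨a, rfl⟩ := Submodule.mem_span_singleton.1 hau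
        have ha : a ≠ 0 := fun h0 => hv (by rw [h0, zero_smul, add_zero]; exact hz)
        have hCa := hCs u a hu
        by_cases hz0 : z = 0
        · rw [hz0, zero_add]; exact hCa
        have hns : a • u ∉ Submodule.span F {z} := fun h => by
          have := Submodule.span_le.2 (Set.singleton_subset_iff.2 hz) h
          exact hgw1 ((Submodule.smul_mem_iff W ha).1 this)
        obtain ⟨f, hf, hfz⟩ := Submodule.exists_dual_map_eq_bot_of_notMem hns inferInstance
        obtain ⟨φ, hφ⟩ := dual ((f (a • u))⁻¹ • f)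
        have h0 : φ ⬝ᵥ z = 0 := by
          rw [hφ]
          have : f z ∈ (Submodule.span F {z}).map f := ⟨z, Submodule.mem_span_singleton_self z, rfl⟩
          rw [hfz] at this
          rw [LinearMap.smul_apply, (Submodule.mem_bot F).1 this, smul_zero]
        have := hCg _ (hCW z hz φ h0) _ hCa
        rw [hT, hφ, LinearMap.smul_apply, smul_eq_mul, inv_mul_cancel₀ hf, one_smul, add_comm] at this
        exact this
      · obtain ⟨f, hf, hfu⟩ := Submodule.exists_dual_map_eq_bot_of_notMem hgw1 inferInstance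
        have hfW : ∀ w ∈ W, f w = 0 := fun w hw => by
          have : f w ∈ W.map f := ⟨w, hw, rfl⟩
          rw [hfu] at this
          exact (Submodule.mem_bot F).1 this
        obtain ⟨k, hk, hks⟩ := Submodule.exists_dual_map_eq_bot_of_notMem hsp inferInstance
        have hks0 : ∀ w ∈ W ⊔ Submodule.span F {u}, k w = 0 := fun w hw => by
          have : k w ∈ (W ⊔ Submodule.span F {u}).map k := ⟨w, hw, rfl⟩
          rw [hks] at this
          exact (Submodule.mem_bot F).1 this
        obtain ⟨φ, hφ⟩ := dual ((f u)⁻¹ • f + ((1 - (f u)⁻¹ * f v) / k v) • k)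
        have hφu : φ ⬝ᵥ u = 1 := by
          rw [hφ]; simp [hks0 u (Submodule.mem_sup_right (Submodule.mem_span_singleton_self u)), hf]
        have hφv : φ ⬝ᵥ v = 1 := by
          rw [hφ]; simp only [LinearMap.add_apply, LinearMap.smul_apply, smul_eq_mul]; rw [div_mul_cancel₀ _ hk]; ring
        have h0 : φ ⬝ᵥ (v - u) = 0 := by rw [dotProduct_sub, hφu, hφv, sub_self]
        have hmem : T (v - u) φ h0 ∈ M := hM ⟨fin _ fun w hw => by
          rw [hT, hφ]; simp [hfW w hw, hks0 w (Submodule.mem_sup_left hw), hw], hTK _ φ h0⟩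
        have := hCg _ hmem _ hu
        rw [hT, hφu, one_smul, add_sub_cancel] at this
        exact this
    intro x hx
    haveI : Nontrivial (Fin n) := ⟨⟨⟨0, by omega⟩, ⟨1, by omega⟩, by simp [Fin.ext_iff]⟩⟩
    have htop : M.comap (Matrix.SpecialLinearGroup.toGL : Matrix.SpecialLinearGroup (Fin n) F →* GL (Fin n) F) = ⊤ := by
      refine CfsgLib.Linear.Generation.eq_top_of_transvection_mem _ fun i j hij c => ?_
      rw [Subgroup.mem_comap]
      have h0 : (c • (Pi.single j 1 : Fin n → F)) ⬝ᵥ Pi.single i 1 = 0 := by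
        rw [smul_dotProduct, single_dotProduct, one_mul, Pi.single_eq_of_ne hij.symm, smul_zero]
      convert hall (Pi.single i 1) (c • Pi.single j 1) h0 using 1
      refine Units.ext (Matrix.ext_iff_mulVec.2 fun y => ?_)
      rw [hT]
      show (Matrix.SpecialLinearGroup.transvection hij c).1 *ᵥ y = _
      rw [Matrix.SpecialLinearGroup.transvection_coe, Matrix.add_mulVec, Matrix.one_mulVec, Matrix.single_mulVec_eq,
        smul_dotProduct, single_dotProduct, one_mul, smul_eq_mul]
    have hxd : x.1.det = 1 := congrArg Units.val (MonoidHom.mem_ker.1 hx)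
    have hmem : ∀ y : Matrix.SpecialLinearGroup (Fin n) F, Matrix.SpecialLinearGroup.toGL y ∈ M := fun y =>
      Subgroup.mem_comap.1 (htop.symm ▸ Subgroup.mem_top y)
    exact (show Matrix.SpecialLinearGroup.toGL (⟨x.1, hxd⟩ : Matrix.SpecialLinearGroup (Fin n) F) = x from Units.ext rfl) ▸ hmem _

end Cfsg.Agent.S5631
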