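import Cfsg.Statements.S5632
import Mathlib

set_option autoImplicit false
open Cfsg

namespace Cfsg.Agent.S5632

open scoped Matrix

/-- For a finite field F and subspaces 0 < W < U of F^n with dim W + dim U = n, the elements of SL_n(F) stabilising both W and U form a subgroup that is not maximal in SL_n(F): some subgroup lies strictly between it and SL_n(F). -/
theorem result {F : Type*} [Field F] [Fintype F] (n : ℕ) (W U : Submodule F (Fin n → F)) (hW0 : W ≠ ⊥) (hWU : W < U) (hdim : Module.finrank F W + Module.finrank F U = n) : ∃ K : Subgroup (Matrix.GeneralLinearGroup (Fin n) F), Cfsg.Geo.subspaceStabilizer W ⊓ Cfsg.Geo.subspaceStabilizer U ⊓ Cfsg.Geo.specialLinear (Fin n) F < K ∧ K < Cfsg.Geo.specialLinear (Fin n) F := by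
  classical
  have hn : Module.finrank F (Fin n → F) = n := Module.finrank_fin_fun F
  have hUtop : U ≠ ⊤ := by
    intro h
    rw [h, finrank_top, hn] at hdim
    exact hW0 (Submodule.finrank_eq_zero.mp (by omega))
  have key : ∀ (W' U' : Submodule F (Fin n → F)) (f : (Fin n → F) →ₗ[F] F) (w : Fin n → F),
      f w = 0 → ∀ g : Matrix (Fin n) (Fin n) F, g = 1 + Matrix.vecMulVec w (fun j => f (Pi.single j 1)) →
      g.det = 1 ∧ ∀ x, g *ᵥ x = x + f x • w := by
    intro W' U' f w hfw g hg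
    have hdot : ∀ x, (fun j => f (Pi.single j 1)) ⬝ᵥ x = f x := by
      intro x
      conv_rhs => rw [← (Pi.basisFun F (Fin n)).sum_repr x]
      simp [dotProduct, mul_comm]
    constructor
    · rw [hg, Matrix.vecMulVec_eq Unit, Matrix.det_one_add_replicateCol_mul_replicateRow, hdot, hfw, add_zero]
    · intro x
      rw [hg, Matrix.add_mulVec, Matrix.one_mulVec, Matrix.vecMulVec_mulVec, hdot]
      simp
  -- transvection fixing W but not U
  obtain ⟨u0, hu0U, hu0W⟩ := SetLike.exists_of_lt hWU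
  obtain ⟨w, hw⟩ : ∃ w, w ∉ U := by
    by_contra h; push Not at h; exact hUtop (Submodule.eq_top_iff'.mpr h)
  obtain ⟨f, hf1, hf2, hf3⟩ : ∃ f : (Fin n → F) →ₗ[F] F, (∀ x ∈ W, f x = 0) ∧ f w = 0 ∧ f u0 = 1 := by
    have hnot : u0 ∉ W ⊔ Submodule.span F {w} := by
      intro h
      rw [Submodule.mem_sup] at h
      obtain ⟨a, ha, b, hb, hab⟩ := h
      obtain ⟨c, rfl⟩ := Submodule.mem_span_singleton.mp hb
      by_cases hc : c = 0
      · simp [hc] at hab; exact hu0W (hab ▸ ha)
      · apply hw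
        have : c • w ∈ U := by
          have : c • w = u0 - a := by rw [← hab]; abel
          rw [this]; exact U.sub_mem hu0U (le_of_lt hWU ha)
        have := U.smul_mem c⁻¹ this
        rwa [smul_smul, inv_mul_cancel₀ hc, one_smul] at this
    obtain ⟨f, hf, hfle⟩ := Submodule.exists_le_ker_of_notMem hnot
    refine ⟨(f u0)⁻¹ • f, ?_, ?_, ?_⟩
    · intro x hx
      have : f x = 0 := hfle (Submodule.mem_sup_left hx)
      simp [this]
    · have : f w = 0 := hfle (Submodule.mem_sup_right (Submodule.mem_span_singleton_self w))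
      simp [this]
    · simp [hf]
  obtain ⟨hdet, hact⟩ := key W U f w hf2 _ rfl
  let g := Matrix.GeneralLinearGroup.mkOfDetNeZero (1 + Matrix.vecMulVec w (fun j => f (Pi.single j 1))) (by rw [hdet]; exact one_ne_zero)
  have hgS : g ∈ Cfsg.Geo.specialLinear (Fin n) F := by
    rw [Cfsg.Geo.specialLinear, MonoidHom.mem_ker, Units.ext_iff]; exact hdet
  have hgW : g ∈ Cfsg.Geo.subspaceStabilizer W := by
    intro x
    change x ∈ W ↔ (1 + Matrix.vecMulVec w (fun j => f (Pi.single j 1))) *ᵥ x ∈ W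
    rw [hact]
    constructor
    · intro hx; rw [hf1 x hx, zero_smul, add_zero]; exact hx
    · intro hx
      have h1 : f (x + f x • w) = f x := by simp [hf2]
      have h2 : f x = 0 := by rw [← h1]; exact hf1 _ hx
      rwa [h2, zero_smul, add_zero] at hx
  have hgU : g ∉ Cfsg.Geo.subspaceStabilizer U := by
    intro h
    have h' : u0 ∈ U ↔ (1 + Matrix.vecMulVec w (fun j => f (Pi.single j 1))) *ᵥ u0 ∈ U := h u0
    rw [hact, hf3, one_smul] at h'
    exact hw (by simpa using U.sub_mem (h'.mp hu0U) hu0U)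
  -- transvection moving W
  obtain ⟨a, ha, ha0⟩ := Submodule.exists_mem_ne_zero_of_ne_bot hW0
  have hwW : w ∉ W := fun h => hw (le_of_lt hWU h)
  obtain ⟨f', hf'1, hf'2⟩ : ∃ f' : (Fin n → F) →ₗ[F] F, f' a = 1 ∧ f' w = 0 := by
    have hnot : a ∉ Submodule.span F {w} := by
      intro h
      obtain ⟨c, rfl⟩ := Submodule.mem_span_singleton.mp h
      have hc : c ≠ 0 := fun h0 => ha0 (by simp [h0])
      have := W.smul_mem c⁻¹ ha
      rw [smul_smul, inv_mul_cancel₀ hc, one_smul] at this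
      exact hwW this
    obtain ⟨f', hf', hfle⟩ := Submodule.exists_le_ker_of_notMem hnot
    refine ⟨(f' a)⁻¹ • f', by simp [hf'], ?_⟩
    have : f' w = 0 := hfle (Submodule.mem_span_singleton_self w)
    simp [this]
  obtain ⟨hdet', hact'⟩ := key W U f' w hf'2 _ rfl
  let g' := Matrix.GeneralLinearGroup.mkOfDetNeZero (1 + Matrix.vecMulVec w (fun j => f' (Pi.single j 1))) (by rw [hdet']; exact one_ne_zero)
  refine ⟨Cfsg.Geo.subspaceStabilizer W ⊓ Cfsg.Geo.specialLinear (Fin n) F, ?_, ?_⟩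
  · exact lt_of_le_of_ne (fun x hx => ⟨hx.1.1, hx.2⟩) (fun h => hgU (h.symm ▸ (show g ∈ Cfsg.Geo.subspaceStabilizer W ⊓ Cfsg.Geo.specialLinear (Fin n) F from ⟨hgW, hgS⟩) : g ∈ Cfsg.Geo.subspaceStabilizer W ⊓ Cfsg.Geo.subspaceStabilizer U ⊓ Cfsg.Geo.specialLinear (Fin n) F).1.2)
  · refine lt_of_le_of_ne inf_le_right (fun h => ?_)
    have hg'S : g' ∈ Cfsg.Geo.specialLinear (Fin n) F := by
      rw [Cfsg.Geo.specialLinear, MonoidHom.mem_ker, Units.ext_iff]; exact hdet'
    rw [← h] at hg'S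
    have h' : a ∈ W ↔ (1 + Matrix.vecMulVec w (fun j => f' (Pi.single j 1))) *ᵥ a ∈ W := hg'S.1 a
    rw [hact', hf'1, one_smul] at h'
    exact hwW (by simpa using W.sub_mem (h'.mp ha) ha)

end Cfsg.Agent.S5632
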