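import Cfsg.Statements.S5633
import Mathlib

set_option autoImplicit false
open Cfsg

namespace Cfsg.Agent.S5633

open scoped Matrix

/-- For a finite field F and complementary non-zero subspaces W ⊕ U = F^n with dim W < dim U, the elements of SL_n(F) stabilising both W and U form a subgroup that is not maximal in SL_n(F): some subgroup lies strictly between it and SL_n(F). -/
theorem result {F : Type*} [Field F] [Fintype F] (n : ℕ) (W U : Submodule F (Fin n → F)) (hW0 : W ≠ ⊥) (hWU : W ⊓ U = ⊥) (hWU' : W ⊔ U = ⊤) (hdim : Module.finrank F W < Module.finrank F U) : ∃ K : Subgroup (Matrix.GeneralLinearGroup (Fin n) F), Cfsg.Geo.subspaceStabilizer W ⊓ Cfsg.Geo.subspaceStabilizer U ⊓ Cfsg.Geo.specialLinear (Fin n) F < K ∧ K < Cfsg.Geo.specialLinear (Fin n) F := by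
  classical
  have hn : Module.finrank F (Fin n → F) = n := Module.finrank_fin_fun F
  have key : ∀ (W' U' : Submodule F (Fin n → F)) (f : (Fin n → F) →ₗ[F] F) (w : Fin n → F),
      f w = 0 → ∀ g : Matrix (Fin n) (Fin n) F, g = 1 + Matrix.vecMulVec w (fun j => f (Pi.single j 1)) →
      g.det = 1 ∧ ∀ x, g *ᵥ x = x + f x • w := by
    intro W' U' f w hfw g hg
    have hdot : ∀ x, (fun j => f (Pi.single j 1)) ⬝ᵥ x = f x := by
      intro x
      conv_rhs => rw [← (Pi.basisFun F (Fin n)).sum_repr x]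
      simp [dotProduct, mul_comm]
    constructor
    · rw [hg, Matrix.vecMulVec_eq Unit, Matrix.det_one_add_replicateCol_mul_replicateRow, hdot, hfw, add_zero]
    · intro x
      rw [hg, Matrix.add_mulVec, Matrix.one_mulVec, Matrix.vecMulVec_mulVec, hdot]
      simp
  have hU0 : U ≠ ⊥ := fun h => by rw [h, finrank_bot] at hdim; exact Nat.not_lt_zero _ hdim
  obtain ⟨a, ha, ha0⟩ := Submodule.exists_mem_ne_zero_of_ne_bot hW0
  obtain ⟨u0, hu0, hu00⟩ := Submodule.exists_mem_ne_zero_of_ne_bot hU0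
  have hd : ∀ x, x ∈ W → x ∈ U → x = 0 := fun x h1 h2 =>
    (Submodule.mem_bot F).mp (hWU ▸ Submodule.mem_inf.mpr ⟨h1, h2⟩)
  have hu0W : u0 ∉ W := fun h => hu00 (hd _ h hu0)
  have haU : a ∉ U := fun h => ha0 (hd _ ha h)
  obtain ⟨f0, hf0, hf0le⟩ := Submodule.exists_le_ker_of_notMem hu0W
  set f : (Fin n → F) →ₗ[F] F := (f0 u0)⁻¹ • f0 with hfdef
  have hf1 : ∀ x ∈ W, f x = 0 := fun x hx => by
    have : f0 x = 0 := hf0le hx
    simp [hfdef, this]
  have hf3 : f u0 = 1 := by simp [hfdef, hf0]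
  obtain ⟨hdet, hact⟩ := key W U f a (hf1 a ha) _ rfl
  let g := Matrix.GeneralLinearGroup.mkOfDetNeZero (1 + Matrix.vecMulVec a (fun j => f (Pi.single j 1))) (by rw [hdet]; exact one_ne_zero)
  have hgS : g ∈ Cfsg.Geo.specialLinear (Fin n) F := by
    rw [Cfsg.Geo.specialLinear, MonoidHom.mem_ker, Units.ext_iff]; exact hdet
  have hgW : g ∈ Cfsg.Geo.subspaceStabilizer W := by
    intro x
    change x ∈ W ↔ (1 + Matrix.vecMulVec a (fun j => f (Pi.single j 1))) *ᵥ x ∈ W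
    rw [hact]
    exact ⟨fun hx => W.add_mem hx (W.smul_mem _ ha),
      fun hx => by simpa using W.sub_mem hx (W.smul_mem (f x) ha)⟩
  have hgU : g ∉ Cfsg.Geo.subspaceStabilizer U := by
    intro h
    have h' : u0 ∈ U ↔ (1 + Matrix.vecMulVec a (fun j => f (Pi.single j 1))) *ᵥ u0 ∈ U := h u0
    rw [hact, hf3, one_smul] at h'
    exact haU (by simpa using U.sub_mem (h'.mp hu0) hu0)
  have hau : a ∉ Submodule.span F {u0} := by
    intro h
    obtain ⟨c, rfl⟩ := Submodule.mem_span_singleton.mp h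
    exact haU (U.smul_mem c hu0)
  obtain ⟨f0', hf0', hf0le'⟩ := Submodule.exists_le_ker_of_notMem hau
  set f' : (Fin n → F) →ₗ[F] F := (f0' a)⁻¹ • f0' with hf'def
  have hf'1 : f' a = 1 := by simp [hf'def, hf0']
  have hf'2 : f' u0 = 0 := by
    have : f0' u0 = 0 := hf0le' (Submodule.mem_span_singleton_self u0)
    simp [hf'def, this]
  obtain ⟨hdet', hact'⟩ := key W U f' u0 hf'2 _ rfl
  let g' := Matrix.GeneralLinearGroup.mkOfDetNeZero (1 + Matrix.vecMulVec u0 (fun j => f' (Pi.single j 1))) (by rw [hdet']; exact one_ne_zero)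
  refine ⟨Cfsg.Geo.subspaceStabilizer W ⊓ Cfsg.Geo.specialLinear (Fin n) F, ?_, ?_⟩
  · exact lt_of_le_of_ne (fun x hx => ⟨hx.1.1, hx.2⟩) (fun h => hgU (h.symm ▸ (show g ∈ Cfsg.Geo.subspaceStabilizer W ⊓ Cfsg.Geo.specialLinear (Fin n) F from ⟨hgW, hgS⟩) : g ∈ Cfsg.Geo.subspaceStabilizer W ⊓ Cfsg.Geo.subspaceStabilizer U ⊓ Cfsg.Geo.specialLinear (Fin n) F).1.2)
  · refine lt_of_le_of_ne inf_le_right (fun h => ?_)
    have hg'S : g' ∈ Cfsg.Geo.specialLinear (Fin n) F := by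
      rw [Cfsg.Geo.specialLinear, MonoidHom.mem_ker, Units.ext_iff]; exact hdet'
    rw [← h] at hg'S
    have h' : a ∈ W ↔ (1 + Matrix.vecMulVec u0 (fun j => f' (Pi.single j 1))) *ᵥ a ∈ W := hg'S.1 a
    rw [hact', hf'1, one_smul] at h'
    exact hu0W (by simpa using W.sub_mem (h'.mp ha) ha)

end Cfsg.Agent.S5633
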