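import Cfsg.Statements.S5635
import Mathlib
import Cfsg.Agent.Lib.NonMax.Tools
import Cfsg.Agent.Lib.NonMax.Count

set_option autoImplicit false
open Cfsg

namespace Cfsg.Agent.S5635

open scoped Matrix
open CfsgLib.NonMax.Tools CfsgLib.NonMax.Count

theorem shear {F : Type*} [Field F] [Fintype F] {n t m : ℕ} {D : Fin t → Submodule F (Fin n → F)}
    (hD : Cfsg.Geo.IsMDecomposition m D) (ht : 4 ≤ t) (p : (Fin m → F) → F)
    (hp0 : p 0 = 0) (hp1 : ∀ w, w ≠ 0 → p w = 1) (A : Matrix (Fin 4) (Fin 4) F) (hA : A * A = 0)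
    (h1 : A 1 0 ≠ 0) (h2 : A 2 0 ≠ 0)
    (hid : ∀ w : Fin 4 → (Fin m → F), ∑ j, p (w j + ∑ l, A j l • w l) = ∑ j, p (w j)) :
    ∃ g ∈ phiGroup hD ⊓ Cfsg.Geo.specialLinear (Fin n) F, g ∉ Cfsg.Geo.decompositionStabilizer D := by
  classical
  let k : Fin 4 → Fin t := Fin.castLE ht
  have hk : Function.Injective k := Fin.castLE_injective ht
  let e : ∀ j, D (k j) ≃ₗ[F] (Fin m → F) := fun j =>
    LinearEquiv.ofFinrankEq _ _ (by rw [hD.finrank_eq, Module.finrank_fintype_fun_eq_card, Fintype.card_fin])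
  let c : Fin 4 → ((Fin n → F) →ₗ[F] (Fin m → F)) := fun j =>
    (e j).toLinearMap ∘ₗ (comp hD (k j)).codRestrict (D (k j)) (comp_mem hD (k j))
  let u : Fin 4 → ((Fin m → F) →ₗ[F] (Fin n → F)) := fun j => (D (k j)).subtype ∘ₗ (e j).symm.toLinearMap
  have hu : ∀ j w, u j w ∈ D (k j) := fun j w => Submodule.coe_mem _
  have hcu : ∀ i j w, c i (u j w) = if i = j then w else 0 := by
    intro i j w
    have h := comp_of_mem hD (hu j w) (k i)
    rcases eq_or_ne i j with rfl | hne
    · rw [if_pos rfl] at h ⊢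
      show e i ⟨comp hD (k i) (u i w), _⟩ = w
      conv_rhs => rw [← (e i).apply_symm_apply w]
      exact congrArg (e i) (Subtype.ext h)
    · rw [if_neg (fun h' => hne (hk h').symm)] at h
      rw [if_neg hne]
      show e i ⟨comp hD (k i) (u j w), _⟩ = 0
      exact ((e i).map_eq_zero_iff).2 (Subtype.ext h)
  have hzero : ∀ j x, comp hD (k j) x = 0 ↔ c j x = 0 := fun j x => by
    show _ ↔ e j ⟨comp hD (k j) x, _⟩ = 0
    rw [LinearEquiv.map_eq_zero_iff]
    exact ⟨fun h => Subtype.ext h, fun h => congrArg Subtype.val h⟩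
  let N : (Fin n → F) →ₗ[F] (Fin n → F) := ∑ j, u j ∘ₗ (∑ l, A j l • c l)
  have hNx : ∀ x, N x = ∑ j, u j (∑ l, A j l • c l x) := fun x => by
    simp [N, LinearMap.sum_apply]
  have hcN : ∀ i x, c i (N x) = ∑ l, A i l • c l x := fun i x => by
    rw [hNx, map_sum]; simp [hcu]
  have hNN : ∀ x, N (N x) = 0 := fun x => by
    rw [hNx]
    refine Finset.sum_eq_zero fun j _ => ?_
    simp only [hcN, Finset.smul_sum, smul_smul]
    rw [Finset.sum_comm]
    simp only [← Finset.sum_smul]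
    have : ∀ i, ∑ l, A j l * A l i = 0 := fun i => by rw [← Matrix.mul_apply, hA]; rfl
    simp [this]
  refine ⟨unip N hNN, Subgroup.mem_inf.2 ⟨(mem_phiGroup hD _).2 fun x => ?_, unip_mem_specialLinear N hNN⟩, ?_⟩
  · rw [unip_apply]
    refine phi_add hD (Finset.univ.image k) x (N x) (fun i hi => ?_) (fun _ v => if v = 0 then 0 else 1) (fun _ _ _ _ => rfl) ?_
    · rw [hNx, map_sum]
      refine Finset.sum_eq_zero fun j _ => ?_
      rw [comp_of_mem hD (hu j _), if_neg]
      rintro rfl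
      exact hi (Finset.mem_image_of_mem k (Finset.mem_univ j))
    · rw [Finset.sum_image hk.injOn, Finset.sum_image hk.injOn]
      have hδ : ∀ j y, (if comp hD (k j) y = 0 then (0 : F) else 1) = p (c j y) := fun j y => by
        rcases eq_or_ne (comp hD (k j) y) 0 with h | h
        · rw [if_pos h, (hzero j y).1 h, hp0]
        · rw [if_neg h, hp1 _ (fun h' => h ((hzero j y).2 h'))]
      simp only [← map_add, hδ]
      rw [← hid fun j => c j x]
      simp only [map_add, hcN]
  · obtain ⟨w, hw⟩ : ∃ w : Fin m → F, w ≠ 0 := ⟨fun _ => 1, fun h => one_ne_zero (congrFun h ⟨0, hD.pos⟩)⟩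
    have hc : ∀ j : Fin 4, j ≠ 0 → A j 0 ≠ 0 → comp hD (k j) ((unip N hNN).1 *ᵥ u 0 w) ≠ 0 := by
      intro j hj hAj h
      rw [hzero, unip_apply, map_add, hcN, hcu, if_neg hj, zero_add] at h
      simp only [hcu, smul_ite, smul_zero, Finset.sum_ite_eq', Finset.mem_univ, if_true] at h
      exact hw ((smul_eq_zero.1 h).resolve_left hAj)
    exact not_stab (hu 0 w) (not_mem_of_comp hD (fun h => by simpa using hk h) (hc 1 (by decide) h1) (hc 2 (by decide) h2))

theorem id_ones {F : Type*} [Field F] (hc : (2 : F) = 0) : (Matrix.of fun _ _ => (1 : F) : Matrix (Fin 4) (Fin 4) F) * Matrix.of (fun _ _ => 1) = 0 := by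
  ext i j
  simp [Matrix.mul_apply, Fin.sum_univ_four]
  linear_combination 2 * hc

/-- For a finite field F with q elements and n ≥ 13, let D be a decomposition of F^n into t ≥ 2 independent subspaces of equal dimension m spanning F^n, where m = 1 and q ≤ 4, or m = 2 and q = 2. Then the elements of SL_n(F) permuting the members of D form a subgroup that is not maximal: some subgroup lies strictly between it and SL_n(F). -/
theorem result {F : Type*} [Field F] [Fintype F] (n : ℕ) (hn : 13 ≤ n) {t : ℕ} (m : ℕ) (D : Fin t → Submodule F (Fin n → F)) (hD : Cfsg.Geo.IsMDecomposition m D) (h : (m = 1 ∧ Fintype.card F ≤ 4) ∨ (m = 2 ∧ Fintype.card F = 2)) : ∃ K : Subgroup (Matrix.GeneralLinearGroup (Fin n) F), Cfsg.Geo.decompositionStabilizer D ⊓ Cfsg.Geo.specialLinear (Fin n) F < K ∧ K < Cfsg.Geo.specialLinear (Fin n) F := by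
  classical
  have hcard := card_eq hD
  rw [Fintype.card_fin] at hcard
  have hq4 : Fintype.card F ≤ 4 := by rcases h with ⟨-, h⟩ | ⟨-, h⟩ <;> omega
  have hm2 : m ≤ 2 := by rcases h with ⟨h, -⟩ | ⟨h, -⟩ <;> omega
  have ht : 4 ≤ t := by nlinarith
  obtain ⟨g, hg, hgS⟩ : ∃ g ∈ phiGroup hD ⊓ Cfsg.Geo.specialLinear (Fin n) F, g ∉ Cfsg.Geo.decompositionStabilizer D := by
    have hone : Fintype.card F = 2 ∨ Fintype.card F = 4 → (2 : F) = 0 := by
      intro hc
      have h0 := FiniteField.cast_card_eq_zero F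
      rcases hc with hc | hc <;> rw [hc] at h0
      · simpa using h0
      · have : (2 : F) * 2 = 0 := by norm_num at h0 ⊢; exact h0
        exact mul_self_eq_zero.1 this
    rcases h with ⟨rfl, hq⟩ | ⟨rfl, hq⟩
    · have hpw : ∀ w : Fin 1 → F, w ≠ 0 → w 0 ^ (Fintype.card F - 1) = 1 := fun w hw =>
        FiniteField.pow_card_sub_one_eq_one _ fun e => hw (funext fun i => by rw [Subsingleton.elim i 0]; exact e)
      have h2q : 2 ≤ Fintype.card F := Fintype.one_lt_card
      obtain hq2 | hq3 | hq4 : Fintype.card F = 2 ∨ Fintype.card F = 3 ∨ Fintype.card F = 4 := by omega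
      · refine shear hD ht (fun w => w 0) rfl (fun w hw => ?_) (Matrix.of fun _ _ => 1) (id_ones (hone (Or.inl hq2))) (by simp) (by simp) fun w => ?_
        · simpa [hq2] using hpw w hw
        · simp [Fin.sum_univ_four]
          linear_combination (2 * (w 0 0 + w 1 0 + w 2 0 + w 3 0)) * hone (Or.inl hq2)
      · have h3 : (3 : F) = 0 := by have := FiniteField.cast_card_eq_zero F; rw [hq3] at this; simpa using this
        refine shear hD ht (fun w => w 0 ^ 2) (by simp) (fun w hw => ?_)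
          !![0, -1, 1, -1; 1, 0, 2, -1; -1, -2, 0, -1; 1, 1, 1, 0] ?_ (by simp) (by simp) fun w => ?_
        · simpa [hq3] using hpw w hw
        · ext i j
          fin_cases i <;> fin_cases j <;> simp [Matrix.mul_apply, Fin.sum_univ_four] <;>
            first | done | linear_combination h3 | linear_combination -h3 | linear_combination 2 * h3 | linear_combination -2 * h3
        · simp [Fin.sum_univ_four]
          linear_combination ((w 0 0 + w 1 0 + w 2 0) ^ 2 + (w 1 0 - w 2 0 + w 3 0) ^ 2) * h3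
      · have h2 := hone (Or.inr hq4)
        refine shear hD ht (fun w => w 0 ^ 3) (by simp) (fun w hw => ?_) (Matrix.of fun _ _ => 1) (id_ones h2) (by simp) (by simp) fun w => ?_
        · simpa [hq4] using hpw w hw
        · simp [Fin.sum_univ_four]
          linear_combination (5 * (w 0 0 + w 1 0 + w 2 0 + w 3 0) ^ 3 -
            3 * (w 0 0 + w 1 0 + w 2 0 + w 3 0) * (w 0 0 * w 1 0 + w 0 0 * w 2 0 + w 0 0 * w 3 0 + w 1 0 * w 2 0 + w 1 0 * w 3 0 + w 2 0 * w 3 0)) * h2
    · have h2 := hone (Or.inl hq)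
      have hF : ∀ a : F, a = 0 ∨ a = 1 := fun a => by
        rcases eq_or_ne a 0 with e | e
        · exact Or.inl e
        · have := FiniteField.pow_card_sub_one_eq_one a e
          rw [hq] at this
          exact Or.inr (by simpa using this)
      refine shear hD ht (fun w => w 0 + w 1 + w 0 * w 1) (by simp) (fun w hw => ?_) (Matrix.of fun _ _ => 1) (id_ones h2) (by simp) (by simp) fun w => ?_
      · rcases hF (w 0) with a | a <;> rcases hF (w 1) with b | b <;> simp only [a, b]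
        · exact absurd (funext fun i => by fin_cases i <;> assumption) hw
        · ring
        · ring
        · linear_combination h2
      · simp [Fin.sum_univ_four]
        linear_combination (2 * (w 0 0 + w 1 0 + w 2 0 + w 3 0) + 2 * (w 0 1 + w 1 1 + w 2 1 + w 3 1) +
          3 * ((w 0 0 + w 1 0 + w 2 0 + w 3 0) * (w 0 1 + w 1 1 + w 2 1 + w 3 1))) * h2
  refine ⟨phiGroup hD ⊓ Cfsg.Geo.specialLinear (Fin n) F, ?_⟩
  let i₀ : Fin t := ⟨0, by omega⟩
  let i₁ : Fin t := ⟨1, by omega⟩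
  have hne : i₀ ≠ i₁ := fun e => by simpa [i₀, i₁] using congrArg Fin.val e
  obtain ⟨a, ha, ha0⟩ := exists_ne_zero hD i₀
  obtain ⟨b, hb, hb0⟩ := exists_ne_zero hD i₁
  let e₀ := LinearEquiv.ofFinrankEq (D i₀) (Fin m → F) (by rw [hD.finrank_eq, Module.finrank_fintype_fun_eq_card, Fintype.card_fin])
  obtain ⟨i, hi⟩ : ∃ i, e₀ ⟨a, ha⟩ i ≠ 0 := Function.ne_iff.1 fun h => ha0 (congrArg Subtype.val (e₀.map_eq_zero_iff.1 h))
  let φ : (Fin n → F) →ₗ[F] F :=
    (e₀ ⟨a, ha⟩ i)⁻¹ • ((LinearMap.proj i) ∘ₗ e₀.toLinearMap ∘ₗ (comp hD i₀).codRestrict (D i₀) (comp_mem hD i₀))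
  let N : (Fin n → F) →ₗ[F] (Fin n → F) := φ.smulRight b
  have hφb : φ b = 0 := by
    have : (⟨comp hD i₀ b, comp_mem hD i₀ b⟩ : D i₀) = 0 := Subtype.ext (by
      show comp hD i₀ b = 0
      rw [comp_of_mem hD hb, if_neg hne.symm])
    show (e₀ ⟨a, ha⟩ i)⁻¹ * e₀ ⟨comp hD i₀ b, comp_mem hD i₀ b⟩ i = 0
    rw [this, map_zero]; simp
  have hφa : φ a = 1 := by
    have : (⟨comp hD i₀ a, comp_mem hD i₀ a⟩ : D i₀) = ⟨a, ha⟩ := Subtype.ext (by
      show comp hD i₀ a = a
      rw [comp_of_mem hD ha, if_pos rfl])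
    show (e₀ ⟨a, ha⟩ i)⁻¹ * e₀ ⟨comp hD i₀ a, comp_mem hD i₀ a⟩ i = 1
    rw [this, inv_mul_cancel₀ hi]
  have hNN : ∀ x, N (N x) = 0 := fun x => by simp [N, hφb]
  refine lt_and_lt (inf_le_inf_right _ (stab_le hD)) inf_le_right hg (fun hh => hgS (Subgroup.mem_inf.1 hh).1)
    (unip_mem_specialLinear N hNN) fun hh => ?_
  have hm := (mem_phiGroup hD _).1 (Subgroup.mem_inf.1 hh).1 a
  rw [unip_apply, show N a = b by simp [N, hφa], phi_pair hD hne ha hb ha0 hb0, phi_single hD ha ha0] at hm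
  exact one_ne_zero (α := F) (by linear_combination hm)

end Cfsg.Agent.S5635
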