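import Cfsg.Statements.S5638
import Mathlib
import Cfsg.Agent.Lib.NonMax.TensorTwo
import Cfsg.Agent.Lib.NonMax.Tools

set_option autoImplicit false
open Cfsg

namespace Cfsg.Agent.S5638

open scoped Matrix Kronecker
open CfsgLib.NonMax.TensorTwo

/-- Over the field with 2 elements, for n = 2 n₂ ≥ 13, the stabiliser in SL_n of a tensor decomposition with factors of dimensions 2 and n₂ (the conjugate by any P of the Kronecker-product subgroup transported along any bijection Fin n ≃ Fin 2 × Fin n₂, intersected with SL_n) is not a maximal subgroup: some subgroup lies strictly between it and SL_n. -/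
theorem result {F : Type*} [Field F] [Fintype F] (n : ℕ) (hn : 13 ≤ n) (hq : Fintype.card F = 2) (n₂ : ℕ) (e : Fin n ≃ Fin 2 × Fin n₂) (P : Matrix.GeneralLinearGroup (Fin n) F) : ∃ K : Subgroup (Matrix.GeneralLinearGroup (Fin n) F), Cfsg.Geo.tensorProductSubgroup 2 n₂ e P ⊓ Cfsg.Geo.specialLinear (Fin n) F < K ∧ K < Cfsg.Geo.specialLinear (Fin n) F := by
  have hn2 : n = 2 * n₂ := by simpa using Fintype.card_congr e
  obtain ⟨h2, hel⟩ := two_facts hq
  have hsl : ∀ g : GL (Fin n) F, g ∈ Cfsg.Geo.specialLinear (Fin n) F := fun g => by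
    refine MonoidHom.mem_ker.2 (Units.ext ?_)
    exact (hel _).resolve_left (Units.ne_zero _)
  obtain ⟨j₀, hj₀⟩ : ∃ j : Fin n₂, j = ⟨0, by omega⟩ := ⟨_, rfl⟩
  obtain ⟨j₁, hj₁⟩ : ∃ j : Fin n₂, j = ⟨1, by omega⟩ := ⟨_, rfl⟩
  have hj : j₀ ≠ j₁ := by simp [hj₀, hj₁]
  set M : Matrix (Fin n₂) (Fin n₂) F := Matrix.single j₀ j₁ 1 with hM
  have hMM : M * M = 0 := by
    rw [hM, Matrix.single_mul_single_of_ne]; exact hj.symm
  have hsum : ∀ N : Matrix (Fin 2 × Fin n₂) (Fin 2 × Fin n₂) F, N * N = 0 → (1 + N) * (1 + N) = 1 := fun N hN => by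
    rw [add_mul, one_mul, mul_add, mul_one, hN, add_zero, add_assoc, ← two_smul F, h2, zero_smul, add_zero]
  have hwM : ((w : Matrix (Fin 2) (Fin 2) F) ⊗ₖ M) * (w ⊗ₖ M) = 0 := by
    rw [← Matrix.mul_kronecker_mul, hMM, Matrix.kronecker_zero]
  let X₀ : GL (Fin 2 × Fin n₂) F := ⟨1 + w ⊗ₖ M, 1 + w ⊗ₖ M, hsum _ hwM, hsum _ hwM⟩
  set E : Matrix (Fin 2 × Fin n₂) (Fin 2 × Fin n₂) F := Matrix.single (0, j₀) (0, j₁) 1 with hE
  have hEE : E * E = 0 := by
    rw [hE, Matrix.single_mul_single_of_ne]; simp [hj.symm]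
  let Y₀ : GL (Fin 2 × Fin n₂) F := ⟨1 + E, 1 + E, hsum _ hEE, hsum _ hEE⟩
  set Wg := Φ e P (W0 h2) with hWg
  have hW3 : Wg * Wg * Wg = 1 := by rw [hWg, ← map_mul, ← map_mul, W0_cube, map_one]
  have hW1 : Wg ≠ 1 := fun h => W0_ne (r := n₂) h2 (by omega) ((Φ e P).injective (h.trans (map_one _).symm))
  refine ⟨Subgroup.normalizer (Subgroup.zpowers Wg : Set (GL (Fin n) F)) ⊓ Cfsg.Geo.specialLinear (Fin n) F,
    CfsgLib.NonMax.Tools.lt_and_lt (fun g hg => ⟨stab_le hq h2 hg.1, hg.2⟩) inf_le_right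
      (x := Φ e P X₀) ⟨mem_normalizer hW3 (Or.inl ?_), hsl _⟩ (fun h => ?_) (y := Φ e P Y₀) (hsl _) (fun h => ?_)⟩
  · rw [hWg, ← map_mul, ← map_mul]
    congr 1
    refine Units.ext ?_
    show (1 + w ⊗ₖ M) * (w ⊗ₖ 1) = (w ⊗ₖ 1) * (1 + w ⊗ₖ M)
    rw [add_mul, mul_add, one_mul, mul_one, ← Matrix.mul_kronecker_mul, ← Matrix.mul_kronecker_mul, mul_one, one_mul]
  · obtain ⟨k, ⟨a, b, hab⟩, hk⟩ := mem_tensor h.1
    rw [← (Φ e P).injective hk] at hab
    replace hab : (1 + w ⊗ₖ M : Matrix (Fin 2 × Fin n₂) (Fin 2 × Fin n₂) F) = a.1 ⊗ₖ b.1 := hab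
    have h1 := congrFun (congrFun hab (0, j₀)) (0, j₀)
    have h3 := congrFun (congrFun hab (1, j₀)) (0, j₀)
    have h4 := congrFun (congrFun hab (1, j₀)) (0, j₁)
    simp [w, hM, hj, hj.symm, Matrix.kroneckerMap_apply] at h1 h3 h4
    rcases h3 with h3 | h3
    · simp [h3] at h4
    · simp [h3] at h1
  · have hn := normalizer_cases hW3 hW1 h.1
    rw [hWg, ← map_mul, ← map_mul, ← map_mul, ← map_mul] at hn
    rcases hn with hn | hn
    · have h1 := congrArg (fun g : GL (Fin 2 × Fin n₂) F => g.1 (0, j₀) (1, j₁)) ((Φ e P).injective hn)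
      simp [Y₀, W0, w, hE, hj, hj.symm, Matrix.mul_apply, Fintype.sum_prod_type, Fin.sum_univ_two, Matrix.one_apply,
        Matrix.single_apply, Matrix.kroneckerMap_apply, Finset.sum_add_distrib, add_mul, mul_add] at h1
    · have h1 := congrArg (fun g : GL (Fin 2 × Fin n₂) F => g.1 (0, j₀) (1, j₁)) ((Φ e P).injective hn)
      simp [Y₀, W0, w, hE, hj, hj.symm, Matrix.mul_apply, Fintype.sum_prod_type, Fin.sum_univ_two, Matrix.one_apply,
        Matrix.single_apply, Matrix.kroneckerMap_apply, Finset.sum_add_distrib, add_mul, mul_add] at h1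

end Cfsg.Agent.S5638
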