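import Cfsg.Statements.S5642
import Cfsg.Agent.Lib.Linear.Generation

set_option autoImplicit false
open Cfsg

namespace Cfsg.Agent.S5642

open scoped Matrix

/-- For a finite field F and n ≥ 13, let f be a non-degenerate symplectic form on F^n (so n is even). Then the elements of SL_n(F) that are similarities of f (f(gu, gv) = c f(u, v) for a non-zero scalar c depending on g) form a maximal subgroup of SL_n(F). -/
theorem result {F : Type*} [Field F] [Fintype F] (n : ℕ) (hn : 13 ≤ n) (f : (Fin n → F) → (Fin n → F) → F) (hf : Cfsg.Geo.IsSymplecticForm f) : Cfsg.Geo.IsMaximalIn (Cfsg.Geo.specialLinear (Fin n) F) (Cfsg.Geo.similarityGroup f ⊓ Cfsg.Geo.specialLinear (Fin n) F) := by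
  classical
  obtain ⟨B, hB⟩ : ∃ B : LinearMap.BilinForm F (Fin n → F), ∀ u v, B u v = f u v :=
    ⟨LinearMap.mk₂ F f hf.bilinear.add_left hf.bilinear.smul_left hf.bilinear.add_right hf.bilinear.smul_right, fun _ _ => rfl⟩
  have halt : ∀ x, B x x = 0 := fun x => by rw [hB]; exact hf.alternating x
  have hskew : ∀ x y, B x y = -B y x := fun x y => by rw [hB, hB]; exact hf.skew x y
  have hinj : ∀ z, (∀ x, B x z = 0) → z = 0 := fun z h => by
    by_contra h0
    obtain ⟨x, hx⟩ := (hf.nondegenerate z h0).1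
    exact hx (by rw [← hB]; exact h x)
  have hdual : ∀ ψ : (Fin n → F) →ₗ[F] F, ∃ a, ∀ x, B x a = ψ x := fun ψ => by
    let K : (Fin n → F) →ₗ[F] ((Fin n → F) →ₗ[F] F) := B.flip
    have hK : Function.Injective K := (injective_iff_map_eq_zero K).2 fun z hz => hinj z fun x => LinearMap.congr_fun hz x
    obtain ⟨a, ha⟩ := (LinearMap.injective_iff_surjective_of_finrank_eq_finrank (Subspace.dual_finrank_eq).symm).1 hK ψ
    exact ⟨a, fun x => LinearMap.congr_fun ha x⟩
  have dual : ∀ ψ : (Fin n → F) →ₗ[F] F, ∃ φ : Fin n → F, ∀ x, φ ⬝ᵥ x = ψ x := fun ψ =>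
    ⟨fun i => ψ (Pi.single i 1), fun x => by
      conv_rhs => rw [pi_eq_sum_univ' x]
      simp [dotProduct, map_sum, mul_comm]⟩
  obtain ⟨R, hR, hRK⟩ : ∃ R : ∀ (v a : Fin n → F), B v a = 0 → GL (Fin n) F,
      (∀ v a h (x : Fin n → F), (R v a h).1 *ᵥ x = x + B x a • v) ∧
      ∀ v a h, R v a h ∈ Cfsg.Geo.specialLinear (Fin n) F := by
    choose φ hφ using dual
    have hd : ∀ v a, B v a = 0 → ((1 : Matrix (Fin n) (Fin n) F) + Matrix.vecMulVec v (φ (B.flip a))).det = 1 := fun v a h => by
      rw [Matrix.vecMulVec_eq Unit, Matrix.det_one_add_replicateCol_mul_replicateRow, hφ, LinearMap.BilinForm.flip_apply, h, add_zero]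
    refine ⟨fun v a h => Matrix.GeneralLinearGroup.mkOfDetNeZero ((1 : Matrix (Fin n) (Fin n) F) + Matrix.vecMulVec v (φ (B.flip a)))
      (by rw [hd v a h]; exact one_ne_zero), fun v a h x => ?_, fun v a h => ?_⟩
    · show ((1 : Matrix (Fin n) (Fin n) F) + Matrix.vecMulVec v (φ (B.flip a))) *ᵥ x = _
      rw [Matrix.add_mulVec, Matrix.one_mulVec, Matrix.vecMulVec_mulVec, hφ, LinearMap.BilinForm.flip_apply]
      funext i; simp [mul_comm]
    · rw [Cfsg.Geo.specialLinear, MonoidHom.mem_ker]
      exact Units.ext (hd v a h)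
  have hsp : ∀ u (c : F) h, R u (c • u) h ∈ Cfsg.Geo.similarityGroup f := fun u c h => ⟨1, fun x y => by
    rw [Units.val_one, one_mul, ← hB, ← hB, hR, hR]
    simp only [map_add, map_smul, LinearMap.add_apply, LinearMap.smul_apply, smul_eq_mul, halt, hskew u y]
    ring⟩
  have hc0 : ∀ u (c : F), B u (c • u) = 0 := fun u c => by rw [map_smul, halt, smul_zero]
  have perp_not_span : ∀ v, v ≠ 0 → ∃ a, B v a = 0 ∧ a ∉ Submodule.span F {v} := fun v hv => by
    by_contra hc
    simp only [not_exists, not_and, not_not] at hc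
    have h1 := (B v).finrank_range_add_finrank_ker
    have h2 : Module.finrank F (LinearMap.range (B v)) ≤ 1 :=
      (Submodule.finrank_le _).trans (le_of_eq (Module.finrank_self F))
    have h3 := Submodule.finrank_mono (show LinearMap.ker (B v) ≤ Submodule.span F {v} from fun x hx => hc x hx)
    rw [finrank_span_singleton hv] at h3
    rw [Module.finrank_fintype_fun_eq_card, Fintype.card_fin] at h1
    omega
  refine ⟨lt_of_le_of_ne inf_le_right fun heq => ?_, fun M hM hMK => or_iff_not_imp_left.2 fun hne => le_antisymm hMK ?_⟩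
  · -- a transvection that is not a similarity
    have he : (fun _ => 1 : Fin n → F) ≠ 0 := fun h => one_ne_zero (congrFun h ⟨0, by omega⟩)
    set e : Fin n → F := fun _ => 1
    obtain ⟨a, ha, han⟩ := perp_not_span e he
    obtain ⟨c, hc⟩ := (heq.ge (hRK e a ha)).1
    obtain ⟨y, hy⟩ : ∃ y, B e y = 1 := by
      obtain ⟨y, hy⟩ : ∃ y, B e y ≠ 0 := by
        by_contra h; simp only [not_exists, not_not] at h
        exact he (hinj e fun x => by rw [hskew, h, neg_zero])
      exact ⟨(B e y)⁻¹ • y, by rw [map_smul, smul_eq_mul, inv_mul_cancel₀ hy]⟩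
    have hexp : ∀ x z, B x z + B x a * B e z + B z a * B x e = c * B x z := fun x z => by
      have := hc x z
      rw [← hB, ← hB, hR, hR] at this
      simp only [map_add, map_smul, LinearMap.add_apply, LinearMap.smul_apply, smul_eq_mul, halt] at this
      linear_combination this
    have hc1 : (c : F) = 1 := by
      have := hexp e y
      rw [ha, hy, halt] at this
      linear_combination -this
    refine han (Submodule.mem_span_singleton.2 ⟨-B y a, ?_⟩)
    refine eq_of_sub_eq_zero (hinj _ fun x => ?_)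
    have := hexp x y
    rw [hc1, hy] at this
    rw [map_sub, map_smul, smul_eq_mul]
    linear_combination -this
  obtain ⟨g, hgM, hgH⟩ := SetLike.exists_of_lt (lt_of_le_of_ne hM (Ne.symm hne))
  let A : (Fin n → F) → (Fin n → F) → Prop := fun v a => ∃ h : B v a = 0, R v a h ∈ M
  have hAcv : ∀ v (c : F), A v (c • v) := fun v c => ⟨hc0 v c, hM ⟨hsp v c _, hRK _ _ _⟩⟩
  have hAadd : ∀ v a b, A v a → A v b → A v (a + b) := fun v a b ⟨ha, ha'⟩ ⟨hb, hb'⟩ => by
    refine ⟨by rw [map_add, ha, hb, add_zero], ?_⟩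
    convert mul_mem ha' hb' using 1
    refine Units.ext (Matrix.ext_iff_mulVec.2 fun x => ?_)
    rw [Units.val_mul, ← Matrix.mulVec_mulVec, hR, hR, hR]
    simp only [map_add, map_smul, LinearMap.add_apply, LinearMap.smul_apply, smul_eq_mul, ha, mul_zero, add_zero, add_smul]
    abel
  have hAneg : ∀ v a, A v a → A v (-a) := fun v a ⟨ha, ha'⟩ => by
    refine ⟨by rw [map_neg, ha, neg_zero], ?_⟩
    convert inv_mem ha' using 1
    refine eq_inv_of_mul_eq_one_left (Units.ext (Matrix.ext_iff_mulVec.2 fun x => ?_))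
    rw [Units.val_mul, ← Matrix.mulVec_mulVec, hR, hR, Units.val_one, Matrix.one_mulVec]
    simp only [map_add, map_smul, map_neg, LinearMap.add_apply, LinearMap.smul_apply, smul_eq_mul, ha, mul_zero, add_zero,
      neg_smul]
    abel
  -- conjugation, with the pulled back functional
  have hconj : ∀ h ∈ M, ∀ v a b, A v a → (∀ x, B (h.1 *ᵥ x) b = B x a) → A (h.1 *ᵥ v) b := by
    rintro h hh v a b ⟨ha, ha'⟩ hb
    refine ⟨by rw [hb]; exact ha, ?_⟩
    convert mul_mem (mul_mem hh ha') (inv_mem hh) using 1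
    refine Units.ext (Matrix.ext_iff_mulVec.2 fun x => ?_)
    rw [hR, Units.val_mul, Units.val_mul, ← Matrix.mulVec_mulVec, ← Matrix.mulVec_mulVec, hR, Matrix.mulVec_add,
      Matrix.mulVec_smul, ← hb, Matrix.mulVec_mulVec x, ← Units.val_mul, mul_inv_cancel, Units.val_one, Matrix.one_mulVec]
  -- symplectic transvections fixing nothing needed
  have hmove : ∀ u (c : F) v a, A v a → A ((R u (c • u) (hc0 u c)).1 *ᵥ v) ((R u (c • u) (hc0 u c)).1 *ᵥ a) := by
    intro u c v a hva
    refine hconj _ (hM ⟨hsp u c _, hRK _ _ _⟩) v a _ hva fun x => ?_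
    rw [hR, hR]
    simp only [map_add, map_smul, LinearMap.add_apply, LinearMap.smul_apply, smul_eq_mul, halt, hskew u a]
    ring
  obtain ⟨v₁, hv₁, a₁, hA₁, ha₁⟩ : ∃ v, v ≠ 0 ∧ ∃ a, A v a ∧ a ∉ Submodule.span F {v} := by
    by_contra hcon
    simp only [not_exists, not_and, not_not] at hcon
    have hlam : ∀ u, u ≠ 0 → ∃ l : F, ∀ x, B x u = l * B (g.1 *ᵥ x) (g.1 *ᵥ u) := fun u hu => by
      obtain ⟨b, hb⟩ := hdual ((B.flip u).comp (Matrix.mulVecLin (g⁻¹ : GL (Fin n) F).1))
      have hb' : ∀ x, B (g.1 *ᵥ x) b = B x u := fun x => by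
        rw [hb, LinearMap.comp_apply, LinearMap.BilinForm.flip_apply, Matrix.mulVecLin_apply, Matrix.mulVec_mulVec, ← Units.val_mul,
          inv_mul_cancel, Units.val_one, Matrix.one_mulVec]
      have hgu : g.1 *ᵥ u ≠ 0 := fun h => hu (Matrix.mulVec_injective_iff_isUnit.2 g.isUnit (by rw [h, Matrix.mulVec_zero]))
      have hA : A (g.1 *ᵥ u) b := hconj g hgM u u b (by simpa using hAcv u 1) hb'
      obtain ⟨l, rfl⟩ := Submodule.mem_span_singleton.1 (hcon _ hgu b hA)
      exact ⟨l, fun x => by rw [← hb' x, map_smul, smul_eq_mul]⟩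
    have h0 : (fun _ => 1 : Fin n → F) ≠ 0 := fun h => one_ne_zero (congrFun h ⟨0, by omega⟩)
    set u₀ : Fin n → F := fun _ => 1
    obtain ⟨l₀, hl₀⟩ := hlam u₀ h0
    have hl0 : l₀ ≠ 0 := fun h => h0 (hinj u₀ fun x => by rw [hl₀, h, zero_mul])
    have hall : ∀ u x, B x u = l₀ * B (g.1 *ᵥ x) (g.1 *ᵥ u) := by
      intro u x
      by_cases hu : u ∈ Submodule.span F {u₀}
      · obtain ⟨t, rfl⟩ := Submodule.mem_span_singleton.1 hu
        rw [map_smul, Matrix.mulVec_smul, map_smul, smul_eq_mul, smul_eq_mul, hl₀]; ring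
      · obtain ⟨l, hl⟩ := hlam u (fun h => hu (h ▸ Submodule.zero_mem _))
        obtain ⟨l', hl'⟩ := hlam (u + u₀) (fun h => hu (by
          rw [eq_neg_of_add_eq_zero_left h]; exact Submodule.neg_mem _ (Submodule.mem_span_singleton_self _)))
        have hz : (l - l') • u + (l₀ - l') • u₀ = 0 := by
          refine Matrix.mulVec_injective_iff_isUnit.2 g.isUnit ?_
          rw [Matrix.mulVec_zero]
          refine hinj _ fun y => ?_
          obtain ⟨z, rfl⟩ : ∃ z, g.1 *ᵥ z = y := ⟨(g⁻¹ : GL (Fin n) F).1 *ᵥ y, by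
            rw [Matrix.mulVec_mulVec, ← Units.val_mul, mul_inv_cancel, Units.val_one, Matrix.one_mulVec]⟩
          have e := hl' z
          rw [map_add, hl, hl₀, Matrix.mulVec_add, map_add] at e
          rw [Matrix.mulVec_add, Matrix.mulVec_smul, Matrix.mulVec_smul, map_add, map_smul, map_smul, smul_eq_mul, smul_eq_mul]
          linear_combination e
        have h2 : l - l' = 0 := by
          by_contra h
          refine hu ?_
          have : (l - l') • u ∈ Submodule.span F {u₀} := by
            rw [eq_neg_of_add_eq_zero_left hz]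
            exact Submodule.neg_mem _ (Submodule.smul_mem _ _ (Submodule.mem_span_singleton_self _))
          exact (Submodule.smul_mem_iff _ h).1 this
        rw [h2, zero_smul, zero_add, smul_eq_zero] at hz
        rw [hl, show l = l₀ by linear_combination h2 - hz.resolve_right h0]
    refine hgH ⟨⟨Units.mk0 l₀⁻¹ (inv_ne_zero hl0), fun u v => ?_⟩, hMK hgM⟩
    rw [← hB, ← hB, hall v u, Units.val_mk0, inv_mul_cancel_left₀ hl0]
  have hfull : ∀ b, B v₁ b = 0 → A v₁ b := by
    have hu : ∀ u, B v₁ u = 0 → B a₁ u ≠ 0 → A v₁ u := fun u hvu hau => by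
      have h1 := hmove u (B a₁ u)⁻¹ v₁ a₁ hA₁
      rw [hR, hR, map_smul, map_smul, hvu, smul_zero, zero_smul, add_zero, smul_eq_mul, inv_mul_cancel₀ hau, one_smul] at h1
      have := hAadd _ _ _ h1 (hAneg _ _ hA₁)
      rwa [show a₁ + u + -a₁ = u by abel] at this
    obtain ⟨u₀, hvu, hau⟩ : ∃ u, B v₁ u = 0 ∧ B a₁ u ≠ 0 := by
      by_contra hc
      simp only [not_exists, not_and, not_not] at hc
      obtain ⟨y, hy⟩ : ∃ y, B v₁ y ≠ 0 := by
        by_contra h; simp only [not_exists, not_not] at h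
        exact hv₁ (hinj v₁ fun x => by rw [hskew, h, neg_zero])
      refine ha₁ (Submodule.mem_span_singleton.2 ⟨B a₁ y / B v₁ y, ?_⟩)
      refine eq_of_sub_eq_zero (hinj _ fun x => ?_)
      have := hc (B v₁ y • x - B v₁ x • y) (by simp only [map_sub, map_smul, smul_eq_mul]; ring)
      simp only [map_sub, map_smul, smul_eq_mul, hskew a₁ x, hskew v₁ x] at this
      rw [map_sub, map_smul, smul_eq_mul]
      field_simp
      linear_combination this
    intro b hb
    by_cases hab : B a₁ b = 0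
    · have := hAadd _ _ _ (hu (b + u₀) (by rw [map_add, hb, hvu, add_zero]) (by rw [map_add, hab, zero_add]; exact hau))
        (hAneg _ _ (hu u₀ hvu hau))
      rwa [add_neg_cancel_right] at this
    · exact hu b hb hab
  let C : (Fin n → F) → Prop := fun v => ∀ b, B v b = 0 → A v b
  have hCstep : ∀ v w, C v → B v w ≠ 0 → C w := fun v w hv hvw b hb => by
    set d := w - v with hd
    set c := (B v w)⁻¹ with hc
    have hvd : B v d = B v w := by rw [hd, map_sub, halt, sub_zero]
    clear_value d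
    have himg : (R d (c • d) (hc0 d c)).1 *ᵥ v = w := by
      rw [hR, map_smul, hvd, smul_eq_mul, hc, inv_mul_cancel₀ hvw, one_smul, hd, add_sub_cancel]
    set b' := b - (c * B b d) • d with hb'
    have himg2 : (R d (c • d) (hc0 d c)).1 *ᵥ b' = b := by
      rw [hR, hb']
      simp only [map_sub, map_smul, LinearMap.sub_apply, LinearMap.smul_apply, halt, smul_eq_mul, mul_zero, sub_zero,
        sub_add_cancel]
    have hvb : B v b' = 0 := by
      rw [hb', map_sub, map_smul, smul_eq_mul, hvd, hc, hd, map_sub, hskew b w, hb, hskew b v]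
      field_simp; ring
    have := hmove d c v b' (hv b' hvb)
    rwa [himg, himg2] at this
  have hall : ∀ w, w ≠ 0 → C w := fun w hw => by
    by_cases h : B v₁ w = 0
    · obtain ⟨a, ha⟩ : ∃ a, B v₁ a ≠ 0 := by
        by_contra h'; simp only [not_exists, not_not] at h'
        exact hv₁ (hinj v₁ fun x => by rw [hskew, h', neg_zero])
      obtain ⟨b, hb⟩ : ∃ b, B b w ≠ 0 := by
        by_contra h'; simp only [not_exists, not_not] at h'
        exact hw (hinj w h')
      obtain ⟨y, hy1, hy2⟩ : ∃ y, B v₁ y ≠ 0 ∧ B y w ≠ 0 := by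
        by_cases h1 : B a w = 0
        · by_cases h2 : B v₁ b = 0
          · exact ⟨a + b, by rw [map_add, h2, add_zero]; exact ha,
              by rw [map_add, LinearMap.add_apply, h1, zero_add]; exact hb⟩
          · exact ⟨b, h2, hb⟩
        · exact ⟨a, ha, h1⟩
      exact hCstep y w (hCstep v₁ y hfull hy1) hy2
    · exact hCstep v₁ w hfull h
  haveI : Nontrivial (Fin n) := ⟨⟨⟨0, by omega⟩, ⟨1, by omega⟩, by simp [Fin.ext_iff]⟩⟩
  have htop : M.comap (Matrix.SpecialLinearGroup.toGL : Matrix.SpecialLinearGroup (Fin n) F →* GL (Fin n) F) = ⊤ := by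
    refine CfsgLib.Linear.Generation.eq_top_of_transvection_mem _ fun i j hij c => ?_
    rw [Subgroup.mem_comap]
    obtain ⟨a, ha⟩ := hdual (c • LinearMap.proj j)
    have h0 : B (Pi.single i 1) a = 0 := by rw [ha]; simp [Pi.single_eq_of_ne hij.symm]
    obtain ⟨h', hm⟩ := hall _ (Pi.single_ne_zero_iff.2 one_ne_zero) a h0
    convert hm using 1
    refine Units.ext (Matrix.ext_iff_mulVec.2 fun y => ?_)
    rw [hR, ha]
    show (Matrix.SpecialLinearGroup.transvection hij c).1 *ᵥ y = _
    rw [Matrix.SpecialLinearGroup.transvection_coe, Matrix.add_mulVec, Matrix.one_mulVec, Matrix.single_mulVec_eq]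
    simp
  intro x hx
  have hxd : x.1.det = 1 := congrArg Units.val (MonoidHom.mem_ker.1 hx)
  have hmem : ∀ y : Matrix.SpecialLinearGroup (Fin n) F, Matrix.SpecialLinearGroup.toGL y ∈ M := fun y =>
    Subgroup.mem_comap.1 (htop.symm ▸ Subgroup.mem_top y)
  exact (show Matrix.SpecialLinearGroup.toGL (⟨x.1, hxd⟩ : Matrix.SpecialLinearGroup (Fin n) F) = x from Units.ext rfl) ▸ hmem _

end Cfsg.Agent.S5642
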