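import Cfsg.Statements.S5643
import Cfsg.Agent.Lib.Linear.Generation
import Cfsg.Agent.Lib.Forms.Represent

set_option autoImplicit false
open Cfsg

namespace Cfsg.Agent.S5643

open scoped Matrix

variable {F : Type*} [Field F] [Fintype F] {n : ℕ} {σ : F ≃+* F} {f : (Fin n → F) → (Fin n → F) → F}

section
variable (hf : Cfsg.Geo.IsUnitaryForm σ f)
include hf

omit [Fintype F] in
theorem add_r (x y z : Fin n → F) : f x (y + z) = f x y + f x z := by
  rw [hf.herm, hf.add_left, map_add, ← hf.herm, ← hf.herm]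

omit [Fintype F] in
theorem smul_r (c : F) (x y : Fin n → F) : f x (c • y) = σ c * f x y := by
  rw [hf.herm, hf.smul_left, map_mul, ← hf.herm]

omit [Fintype F] in
theorem zero_l (x : Fin n → F) : f 0 x = 0 := by simpa using hf.smul_left 0 0 x

omit [Fintype F] in
theorem zero_r (x : Fin n → F) : f x 0 = 0 := by simpa using smul_r hf 0 x 0

omit [Fintype F] in
theorem neg_r (x y : Fin n → F) : f x (-y) = -f x y := by
  rw [← neg_one_smul F y, smul_r hf, map_neg, map_one, neg_one_mul]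

omit [Fintype F] in
theorem symm0 {x y : Fin n → F} (h : f x y = 0) : f y x = 0 := by rw [hf.herm, h, map_zero]

/-- The functional of a vector. -/
noncomputable def lf (a : Fin n → F) : (Fin n → F) →ₗ[F] F where
  toFun x := f x a
  map_add' x y := hf.add_left x y a
  map_smul' c x := by rw [hf.smul_left]; rfl

theorem lf_apply (a x : Fin n → F) : lf hf a x = f x a := rfl

theorem inj {a b : Fin n → F} (h : ∀ x, f x a = f x b) : a = b := by
  by_contra hne
  obtain ⟨x, hx⟩ := (hf.nondegenerate (a - b) (sub_ne_zero.2 hne)).1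
  refine hx ?_
  rw [sub_eq_add_neg, add_r hf, neg_r hf, h, add_neg_cancel]

theorem rep (ψ : (Fin n → F) →ₗ[F] F) : ∃ a, ∀ x, f x a = ψ x := by
  classical
  haveI : Finite ((Fin n → F) →ₗ[F] F) := Module.finite_of_finite F
  haveI : Fintype ((Fin n → F) →ₗ[F] F) := Fintype.ofFinite _
  have hi : Function.Injective (lf hf) := fun a b h => inj hf fun x => LinearMap.congr_fun h x
  have hc : Fintype.card (Fin n → F) = Fintype.card ((Fin n → F) →ₗ[F] F) := by
    rw [Module.card_eq_pow_finrank (K := F) (V := Fin n → F), Module.card_eq_pow_finrank (K := F) (V := (Fin n → F) →ₗ[F] F),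
      Subspace.dual_finrank_eq]
  obtain ⟨a, ha⟩ := ((Fintype.bijective_iff_injective_and_card _).2 ⟨hi, hc⟩).2 ψ
  exact ⟨a, fun x => LinearMap.congr_fun ha x⟩

theorem sep {S : Submodule F (Fin n → F)} {x : Fin n → F} (hx : x ∉ S) :
    ∃ h, (∀ s ∈ S, f s h = 0) ∧ f x h ≠ 0 := by
  obtain ⟨ψ, hψ, hψS⟩ := Submodule.exists_dual_map_eq_bot_of_notMem hx inferInstance
  obtain ⟨h, hh⟩ := rep hf ψ
  refine ⟨h, fun s hs => ?_, by rw [hh]; exact hψ⟩
  have : ψ s ∈ S.map ψ := ⟨s, hs, rfl⟩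
  rw [hψS] at this
  rw [hh]; exact (Submodule.mem_bot F).1 this

theorem exists_move : ∃ a : F, σ a ≠ a := by
  by_contra h
  push Not at h
  exact hf.ne_refl (RingEquiv.ext h)

theorem exists_trace_one : ∃ e : F, e + σ e = 1 := by
  obtain ⟨a, ha⟩ : ∃ a : F, a + σ a ≠ 0 := by
    by_contra h
    push Not at h
    have h2 : (1 : F) + 1 = 0 := by simpa using h 1
    obtain ⟨a, ha⟩ := exists_move hf
    exact ha (by linear_combination h a - a * h2)
  refine ⟨a / (a + σ a), ?_⟩
  rw [map_div₀, map_add, hf.involutive, add_comm (σ a) a, ← add_div, div_self ha]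

theorem exists_norm (c : F) (hc : σ c = c) : ∃ s, s * σ s = c := by
  obtain ⟨s, hs⟩ := CfsgLib.Forms.Represent.exists_norm (σ : F →+* F) (fun h => hf.ne_refl (RingEquiv.ext fun x => RingHom.congr_fun h x))
    (fun a => hf.involutive a) hc
  exact ⟨s, by rw [mul_comm]; exact hs⟩

/-- Common kernel of some functionals. -/
noncomputable def perp {k : ℕ} (u : Fin k → (Fin n → F)) : Submodule F (Fin n → F) :=
  LinearMap.ker (LinearMap.pi fun i => lf hf (u i))

theorem mem_perp {k : ℕ} {u : Fin k → (Fin n → F)} {x : Fin n → F} : x ∈ perp hf u ↔ ∀ i, f x (u i) = 0 := by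
  rw [perp, LinearMap.mem_ker, funext_iff]; rfl

theorem perp_dim {k : ℕ} (u : Fin k → (Fin n → F)) : n ≤ Module.finrank F (perp hf u) + k := by
  have h1 := (LinearMap.pi fun i => lf hf (u i)).finrank_range_add_finrank_ker
  have h2 : Module.finrank F (LinearMap.range (LinearMap.pi fun i => lf hf (u i))) ≤ k :=
    (Submodule.finrank_le _).trans (le_of_eq (Module.finrank_fin_fun F))
  rw [Module.finrank_fintype_fun_eq_card, Fintype.card_fin] at h1
  rw [perp]; omega

theorem iso_in {S : Submodule F (Fin n → F)} (hS : 2 ≤ Module.finrank F S) : ∃ z ∈ S, z ≠ 0 ∧ f z z = 0 := by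
  obtain ⟨x, hx, hx0⟩ := S.exists_mem_ne_zero_of_ne_bot (fun e => by rw [e, finrank_bot] at hS; omega)
  by_cases hxx : f x x = 0
  · exact ⟨x, hx, hx0, hxx⟩
  obtain ⟨y, hy, hy0⟩ : ∃ y ∈ S ⊓ LinearMap.ker (lf hf x), y ≠ 0 := by
    refine Submodule.exists_mem_ne_zero_of_ne_bot fun e => ?_
    have h1 := Submodule.finrank_sup_add_finrank_inf_eq S (LinearMap.ker (lf hf x))
    have h2 := (lf hf x).finrank_range_add_finrank_ker
    have h3 : Module.finrank F (LinearMap.range (lf hf x)) ≤ 1 := (Submodule.finrank_le _).trans (le_of_eq (Module.finrank_self F))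
    have h4 := Submodule.finrank_le (S ⊔ LinearMap.ker (lf hf x))
    rw [e, finrank_bot] at h1
    omega
  obtain ⟨hyS, hyx⟩ := hy
  replace hyx : f y x = 0 := LinearMap.mem_ker.1 hyx
  by_cases hyy : f y y = 0
  · exact ⟨y, hyS, hy0, hyy⟩
  obtain ⟨s, hs⟩ := exists_norm hf (-f x x / f y y) (by rw [map_div₀, map_neg, ← hf.herm, ← hf.herm])
  refine ⟨x + s • y, S.add_mem hx (S.smul_mem _ hyS), fun e => hxx ?_, ?_⟩
  · have := congrArg (fun z => f z x) e
    simpa [hf.add_left, hf.smul_left, hyx, zero_l hf] using this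
  · rw [hf.add_left, add_r hf, add_r hf, smul_r hf, smul_r hf, hf.smul_left, hf.smul_left, hyx, symm0 hf hyx]
    rw [eq_div_iff hyy] at hs
    linear_combination hs

theorem exists_aniso {S : Submodule F (Fin n → F)} (hS : n < 2 * Module.finrank F S) : ∃ y ∈ S, f y y ≠ 0 := by
  classical
  by_contra hc
  simp only [not_exists, not_and, not_not] at hc
  have hzero : ∀ u ∈ S, ∀ v ∈ S, f u v = 0 := fun u hu v hv => by
    obtain ⟨a, ha⟩ := exists_move hf
    have e1 := hc (u + v) (S.add_mem hu hv)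
    have e2 := hc (a • u + v) (S.add_mem (S.smul_mem a hu) hv)
    simp only [hf.add_left, add_r hf, hf.smul_left, smul_r hf, hc u hu, hc v hv, hf.herm v u] at e1 e2
    have : (a - σ a) * f u v = 0 := by linear_combination e2 - σ a * e1
    exact (mul_eq_zero.1 this).resolve_left (sub_ne_zero.2 (Ne.symm ha))
  haveI : Finite (Module.Dual F (Fin n → F)) := Module.finite_of_finite F
  let φ : S → S.dualAnnihilator := fun s => ⟨lf hf s.1, (Submodule.mem_dualAnnihilator _).2 fun t ht => hzero t ht s.1 s.2⟩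
  have h1 := Nat.card_le_card_of_injective φ fun a b e =>
    Subtype.ext (inj hf fun x => LinearMap.congr_fun (congrArg Subtype.val e) x)
  rw [Module.natCard_eq_pow_finrank (K := F), Module.natCard_eq_pow_finrank (K := F) (V := S.dualAnnihilator)] at h1
  have h2 := (Nat.pow_le_pow_iff_right (by rw [Nat.card_eq_fintype_card]; exact Fintype.one_lt_card)).1 h1
  have h3 := Subspace.finrank_add_finrank_dualAnnihilator_eq S
  rw [Module.finrank_fintype_fun_eq_card, Fintype.card_fin] at h3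
  omega

theorem iso2 (hn : 13 ≤ n) {k : ℕ} (hk : k ≤ 5) (u : Fin k → (Fin n → F)) {x₁ x₂ : Fin n → F}
    (h₁ : x₁ ∉ Submodule.span F (Set.range u)) (h₂ : x₂ ∉ Submodule.span F (Set.range u)) :
    ∃ e, f e e = 0 ∧ (∀ i, f e (u i) = 0) ∧ f e x₁ ≠ 0 ∧ f e x₂ ≠ 0 := by
  obtain ⟨a, ha, ha'⟩ := sep hf h₁
  obtain ⟨b, hb, hb'⟩ := sep hf h₂
  have hmem : ∀ i, u i ∈ Submodule.span F (Set.range u) := fun i => Submodule.subset_span ⟨i, rfl⟩
  obtain ⟨h, hh, hh1, hh2⟩ : ∃ h, (∀ i, f h (u i) = 0) ∧ f h x₁ ≠ 0 ∧ f h x₂ ≠ 0 := by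
    have haP : ∀ i, f a (u i) = 0 := fun i => symm0 hf (ha _ (hmem i))
    have hbP : ∀ i, f b (u i) = 0 := fun i => symm0 hf (hb _ (hmem i))
    by_cases c1 : f a x₂ = 0
    · by_cases c2 : f b x₁ = 0
      · refine ⟨a + b, fun i => by rw [hf.add_left, haP, hbP, add_zero], ?_, ?_⟩
        · rw [hf.add_left, c2, add_zero]; exact fun e => ha' (symm0 hf e)
        · rw [hf.add_left, c1, zero_add]; exact fun e => hb' (symm0 hf e)
      · exact ⟨b, hbP, c2, fun e => hb' (symm0 hf e)⟩
    · exact ⟨a, haP, fun e => ha' (symm0 hf e), c1⟩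
  by_cases hhh : f h h = 0
  · exact ⟨h, hhh, hh, hh1, hh2⟩
  obtain ⟨y, hy, hyy⟩ := exists_aniso hf (S := perp hf (Fin.cons h u)) (by
    have := perp_dim hf (Fin.cons h u); omega)
  have hy' := (mem_perp hf).1 hy
  have hyh : f y h = 0 := by simpa using hy' 0
  have hyu : ∀ i, f y (u i) = 0 := fun i => by simpa using hy' i.succ
  obtain ⟨s, hs⟩ := exists_norm hf (-f h h / f y y) (by rw [map_div₀, map_neg, ← hf.herm, ← hf.herm])
  obtain ⟨c, hc⟩ := exists_move hf
  rw [eq_div_iff hyy] at hs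
  have hc0 : σ c ≠ 0 := fun e => hc (by rw [e, (map_eq_zero σ).1 e])
  have hc1 : σ (c + 1) ≠ 0 := fun e => hc (by
    have h := (map_eq_zero σ).1 e
    rw [eq_neg_of_add_eq_zero_left h, map_neg, map_one])
  have mk : ∀ ζ : F, ζ * σ ζ = 1 → (∀ x, f (h + (ζ * s) • y) x = f h x + ζ * (s * f y x)) ∧
      f (h + (ζ * s) • y) (h + (ζ * s) • y) = 0 ∧ ∀ i, f (h + (ζ * s) • y) (u i) = 0 := fun ζ hζ =>
    ⟨fun x => by rw [hf.add_left, hf.smul_left]; ring,
      by
        simp only [hf.add_left, hf.smul_left, add_r hf, smul_r hf, hyh, symm0 hf hyh, map_mul]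
        linear_combination hs + s * σ s * f y y * hζ,
      fun i => by rw [hf.add_left, hf.smul_left, hh, hyu, mul_zero, add_zero]⟩
  obtain ⟨z1, z2, n1, n2, d01, d02, d12⟩ : ∃ z1 z2 : F, z1 * σ z1 = 1 ∧ z2 * σ z2 = 1 ∧ (1 : F) ≠ z1 ∧ (1 : F) ≠ z2 ∧ z1 ≠ z2 := by
    refine ⟨c / σ c, (c + 1) / σ (c + 1), ?_, ?_, fun e => ?_, fun e => ?_, fun e => ?_⟩
    · rw [map_div₀, hf.involutive]; field_simp
      exact div_self (fun e => hc0 (by rw [e, map_zero]))
    · rw [map_div₀, hf.involutive]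
      have : c + 1 ≠ 0 := fun e => hc1 (by rw [e, map_zero])
      field_simp
    · rw [eq_div_iff hc0, one_mul] at e
      exact hc e
    · rw [eq_div_iff hc1, one_mul, map_add, map_one] at e
      exact hc (add_right_cancel e)
    · rw [div_eq_div_iff hc0 hc1, map_add, map_one] at e
      exact hc (by linear_combination -e)
  have excl : ∀ x, f h x ≠ 0 → ∀ ζ ζ' : F, ζ ≠ ζ' → f h x + ζ * (s * f y x) = 0 → f h x + ζ' * (s * f y x) ≠ 0 := by
    intro x hx ζ ζ' hne e1 e2
    have : (ζ - ζ') * (s * f y x) = 0 := by linear_combination e1 - e2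
    rw [(mul_eq_zero.1 this).resolve_left (sub_ne_zero.2 hne), mul_zero, add_zero] at e1
    exact hx e1
  have pick : ∃ ζ : F, ζ * σ ζ = 1 ∧ f h x₁ + ζ * (s * f y x₁) ≠ 0 ∧ f h x₂ + ζ * (s * f y x₂) ≠ 0 := by
    by_contra hc'
    simp only [not_exists, not_and, ne_eq, not_not] at hc'
    have a0 := hc' 1 (by rw [map_one, one_mul])
    have a1 := hc' z1 n1
    have a2 := hc' z2 n2
    by_cases q0 : f h x₁ + 1 * (s * f y x₁) = 0
    · have r1 := a1 (excl x₁ hh1 _ _ d01 q0)
      exact excl x₂ hh2 _ _ d12 r1 (a2 (excl x₁ hh1 _ _ d02 q0))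
    · have r0 := a0 q0
      by_cases q1 : f h x₁ + z1 * (s * f y x₁) = 0
      · exact excl x₂ hh2 _ _ d02 r0 (a2 (excl x₁ hh1 _ _ d12 q1))
      · exact excl x₂ hh2 _ _ d01 r0 (a1 q1)
  obtain ⟨ζ, hζ, q1, q2⟩ := pick
  obtain ⟨m1, m2, m3⟩ := mk ζ hζ
  exact ⟨_, m2, m3, by rw [m1]; exact q1, by rw [m1]; exact q2⟩

theorem make_iso {u v : Fin n → F} (hu : f u u = 0) (huv : f v u ≠ 0) : ∃ t : F, f (v + t • u) (v + t • u) = 0 := by
  obtain ⟨e, he⟩ := exists_trace_one hf
  refine ⟨σ (-(f v v * e) / f v u), ?_⟩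
  have h1 : σ (f v v) = f v v := (hf.herm v v).symm
  have h2 : σ (f v u) = f u v := (hf.herm u v).symm
  have h3 : f u v ≠ 0 := fun e => huv (symm0 hf e)
  have h4 : σ (f u v) = f v u := (hf.herm v u).symm
  simp only [hf.add_left, add_r hf, hf.smul_left, smul_r hf, hu, hf.involutive, map_div₀, map_neg, map_mul, h1, h2, h4]
  field_simp
  linear_combination -(f v v * f v u * f u v) * he

end

/-- For a finite field F and n ≥ 13, let σ be a field automorphism of F of order two and f a non-degenerate unitary form on F^n with respect to σ. Then the elements of SL_n(F) that are similarities of f form a maximal subgroup of SL_n(F). -/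
theorem result {F : Type*} [Field F] [Fintype F] (n : ℕ) (hn : 13 ≤ n) (σ : F ≃+* F) (f : (Fin n → F) → (Fin n → F) → F) (hf : Cfsg.Geo.IsUnitaryForm σ f) : Cfsg.Geo.IsMaximalIn (Cfsg.Geo.specialLinear (Fin n) F) (Cfsg.Geo.similarityGroup f ⊓ Cfsg.Geo.specialLinear (Fin n) F) := by
  classical
  have hadd := hf.add_left
  have hsm := hf.smul_left
  have haddr := add_r hf
  have hsmr := smul_r hf
  have dual : ∀ ψ : (Fin n → F) →ₗ[F] F, ∃ φ : Fin n → F, ∀ x, φ ⬝ᵥ x = ψ x := fun ψ =>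
    ⟨fun i => ψ (Pi.single i 1), fun x => by
      conv_rhs => rw [pi_eq_sum_univ' x]
      simp [dotProduct, map_sum, mul_comm]⟩
  obtain ⟨R, hR, hRK⟩ : ∃ R : ∀ (v a : Fin n → F), f v a = 0 → GL (Fin n) F,
      (∀ v a h (x : Fin n → F), (R v a h).1 *ᵥ x = x + f x a • v) ∧
      ∀ v a h, R v a h ∈ Cfsg.Geo.specialLinear (Fin n) F := by
    choose φ hφ using dual
    have hd : ∀ v a, f v a = 0 → ((1 : Matrix (Fin n) (Fin n) F) + Matrix.vecMulVec v (φ (lf hf a))).det = 1 := fun v a h => by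
      rw [Matrix.vecMulVec_eq Unit, Matrix.det_one_add_replicateCol_mul_replicateRow, hφ, lf_apply, h, add_zero]
    refine ⟨fun v a h => Matrix.GeneralLinearGroup.mkOfDetNeZero ((1 : Matrix (Fin n) (Fin n) F) + Matrix.vecMulVec v (φ (lf hf a)))
      (by rw [hd v a h]; exact one_ne_zero), fun v a h x => ?_, fun v a h => ?_⟩
    · show ((1 : Matrix (Fin n) (Fin n) F) + Matrix.vecMulVec v (φ (lf hf a))) *ᵥ x = _
      rw [Matrix.add_mulVec, Matrix.one_mulVec, Matrix.vecMulVec_mulVec, hφ, lf_apply]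
      funext i; simp [mul_comm]
    · rw [Cfsg.Geo.specialLinear, MonoidHom.mem_ker]
      exact Units.ext (hd v a h)
  obtain ⟨a₁, ha₁⟩ := exists_move hf
  set c₀ := a₁ - σ a₁ with hc₀
  have hc00 : c₀ ≠ 0 := sub_ne_zero.2 (Ne.symm ha₁)
  have hc₀σ : σ c₀ = -c₀ := by rw [hc₀, map_sub, hf.involutive]; ring
  clear_value c₀
  have hnz : ∀ v : Fin n → F, v ≠ 0 → ∃ y, f v y ≠ 0 := fun v hv => (hf.nondegenerate v hv).2
  have huu : ∀ u (c : F), f u u = 0 → f u (c • u) = 0 := fun u c hu => by rw [hsmr, hu, mul_zero]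
  have hunit : ∀ u (c : F) (hu : f u u = 0), σ c = -c → R u (c • u) (huu u c hu) ∈ Cfsg.Geo.similarityGroup f :=
    fun u c hu hc => ⟨1, fun x y => by
      rw [Units.val_one, one_mul, hR, hR]
      simp only [hadd, haddr, hsm, hsmr, map_mul, hf.involutive, hu, ← hf.herm, hc, map_neg]
      ring⟩
  refine ⟨lt_of_le_of_ne inf_le_right fun heq => ?_, fun M hM hMK => or_iff_not_imp_left.2 fun hne => le_antisymm hMK ?_⟩
  · obtain ⟨e, -, he0, hee⟩ := iso_in hf (S := (⊤ : Submodule F (Fin n → F)))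
      (by rw [finrank_top, Module.finrank_fintype_fun_eq_card, Fintype.card_fin]; omega)
    obtain ⟨a, ha, han⟩ : ∃ a, f e a = 0 ∧ a ∉ Submodule.span F {e} := by
      by_contra hc
      simp only [not_exists, not_and, not_not] at hc
      have h1 := perp_dim hf (fun _ : Fin 1 => e)
      have h2 := Submodule.finrank_mono (show perp hf (fun _ : Fin 1 => e) ≤ Submodule.span F {e} from fun x hx =>
        hc x (symm0 hf ((mem_perp hf).1 hx 0)))
      rw [finrank_span_singleton he0] at h2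
      omega
    obtain ⟨c, hc⟩ := (heq.ge (hRK e a ha)).1
    obtain ⟨y, hy⟩ : ∃ y, f e y = 1 := by
      obtain ⟨y, hy⟩ := hnz e he0
      exact ⟨σ (f e y)⁻¹ • y, by rw [hsmr, hf.involutive, inv_mul_cancel₀ hy]⟩
    have hexp : ∀ x z, f x z + f x a * f e z + σ (f z a) * f x e = c * f x z := fun x z => by
      have := hc x z
      rw [hR, hR] at this
      simp only [hadd, haddr, hsm, hsmr, hee] at this
      linear_combination this
    have hc1 : (c : F) = 1 := by
      have := hexp e y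
      rw [ha, hy, hee] at this
      linear_combination -this
    refine han (Submodule.mem_span_singleton.2 ⟨-(f y a), inj hf fun x => ?_⟩)
    have := hexp x y
    rw [hc1, hy] at this
    rw [hsmr, map_neg]
    linear_combination -this
  obtain ⟨g, hgM, hgH⟩ := SetLike.exists_of_lt (lt_of_le_of_ne hM (Ne.symm hne))
  let A : (Fin n → F) → (Fin n → F) → Prop := fun v a => ∃ h : f v a = 0, R v a h ∈ M
  have hAu : ∀ u (c : F), f u u = 0 → σ c = -c → A u (c • u) := fun u c hu hc =>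
    ⟨huu u c hu, hM ⟨hunit u c hu hc, hRK _ _ _⟩⟩
  have hAzero : ∀ v, A v 0 := fun v => ⟨zero_r hf v, by
    rw [show R v 0 (zero_r hf v) = 1 from Units.ext (Matrix.ext_iff_mulVec.2 fun x => by
      rw [hR, zero_r hf, zero_smul, add_zero, Units.val_one, Matrix.one_mulVec])]
    exact one_mem M⟩
  have hAadd : ∀ v a b, A v a → A v b → A v (a + b) := fun v a b ⟨ha, ha'⟩ ⟨hb, hb'⟩ => by
    refine ⟨by rw [haddr, ha, hb, add_zero], ?_⟩
    convert mul_mem ha' hb' using 1
    refine Units.ext (Matrix.ext_iff_mulVec.2 fun x => ?_)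
    rw [Units.val_mul, ← Matrix.mulVec_mulVec, hR, hR, hR, hadd, hsm, ha, haddr, mul_zero, add_zero]
    module
  have hAneg : ∀ v a, A v a → A v (-a) := fun v a ⟨ha, ha'⟩ => by
    refine ⟨by rw [neg_r hf, ha, neg_zero], ?_⟩
    convert inv_mem ha' using 1
    refine eq_inv_of_mul_eq_one_left (Units.ext (Matrix.ext_iff_mulVec.2 fun x => ?_))
    rw [Units.val_mul, ← Matrix.mulVec_mulVec, hR, hR, neg_r hf, hadd, hsm, ha, mul_zero, add_zero, Units.val_one,
      Matrix.one_mulVec]
    module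
  have hconj : ∀ h ∈ M, ∀ v a b, A v a → (∀ x, f (h.1 *ᵥ x) b = f x a) → A (h.1 *ᵥ v) b := by
    rintro h hh v a b ⟨ha, ha'⟩ hb
    refine ⟨by rw [hb]; exact ha, ?_⟩
    convert mul_mem (mul_mem hh ha') (inv_mem hh) using 1
    refine Units.ext (Matrix.ext_iff_mulVec.2 fun x => ?_)
    rw [hR, Units.val_mul, Units.val_mul, ← Matrix.mulVec_mulVec, ← Matrix.mulVec_mulVec, hR, Matrix.mulVec_add,
      Matrix.mulVec_smul, ← hb, Matrix.mulVec_mulVec x, ← Units.val_mul, mul_inv_cancel, Units.val_one, Matrix.one_mulVec]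
  have hpull : ∀ (h : GL (Fin n) F) b, ∃ a, ∀ x, f (h.1 *ᵥ x) b = f x a := fun h b => by
    obtain ⟨a, ha⟩ := rep hf ((lf hf b).comp (Matrix.mulVecLin h.1))
    exact ⟨a, fun x => (ha x).symm⟩
  have hpush : ∀ (h : GL (Fin n) F) a, ∃ b, ∀ x, f (h.1 *ᵥ x) b = f x a := fun h a => by
    obtain ⟨b, hb⟩ := rep hf ((lf hf a).comp (Matrix.mulVecLin (h⁻¹ : GL (Fin n) F).1))
    refine ⟨b, fun x => ?_⟩
    rw [hb, LinearMap.comp_apply, lf_apply, Matrix.mulVecLin_apply, Matrix.mulVec_mulVec, ← Units.val_mul,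
      inv_mul_cancel, Units.val_one, Matrix.one_mulVec]
  -- moving a transvection with a unitary one
  have hroot : ∀ w b y (c : F), A w b → f y y = 0 → f w y = 0 → σ c = -c → A w ((σ c * f b y) • y) := by
    intro w b y c hwb hy hwy hc
    have hU := hAu y c hy hc
    obtain ⟨h0, hU'⟩ := hU
    have h1 := hconj _ hU' w b (b + (σ c * f b y) • y) hwb fun x => by
      rw [hR]
      simp only [hadd, haddr, hsm, hsmr, map_mul, hf.involutive, hy, ← hf.herm, hc, map_neg]
      ring
    rw [hR, hsmr, hwy, mul_zero, zero_smul, add_zero] at h1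
    have := hAadd _ _ _ h1 (hAneg _ _ hwb)
    rwa [show b + (σ c * f b y) • y + -b = (σ c * f b y) • y by abel] at this
  -- a transvection outside
  obtain ⟨w, hw, b, hwb, hbw⟩ : ∃ w, w ≠ 0 ∧ ∃ b, A w b ∧ b ∉ Submodule.span F {w} := by
    by_contra hcon
    simp only [not_exists, not_and, not_not] at hcon
    have hgi : ∀ x : Fin n → F, g.1 *ᵥ x = 0 → x = 0 := fun x hx =>
      Matrix.mulVec_injective_iff_isUnit.2 g.isUnit (by rw [hx, Matrix.mulVec_zero])
    have hlam : ∀ u, f u u = 0 → u ≠ 0 → ∃ l : F, ∀ x, f (g.1 *ᵥ x) (g.1 *ᵥ u) = l * f x u := fun u hu hu0 => by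
      obtain ⟨b, hb⟩ := hpush g (c₀ • u)
      have hA := hconj g hgM u _ b (hAu u c₀ hu hc₀σ) hb
      obtain ⟨t, rfl⟩ := Submodule.mem_span_singleton.1 (hcon _ (fun e => hu0 (hgi u e)) b hA)
      have ht : σ t ≠ 0 := fun e => by
        obtain ⟨y, hy⟩ := hnz u hu0
        have h1 := hb y
        rw [hsmr, e, zero_mul, hsmr, eq_comm, mul_eq_zero] at h1
        exact hy (symm0 hf (h1.resolve_left (by rw [hc₀σ]; exact neg_ne_zero.2 hc00)))
      refine ⟨σ c₀ / σ t, fun x => ?_⟩
      have h1 := hb x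
      rw [hsmr, hsmr] at h1
      rw [div_mul_eq_mul_div, eq_div_iff ht, ← h1, mul_comm]
    obtain ⟨u₀, -, hu₀0, hu₀⟩ := iso_in hf (S := (⊤ : Submodule F (Fin n → F)))
      (by rw [finrank_top, Module.finrank_fintype_fun_eq_card, Fintype.card_fin]; omega)
    obtain ⟨l₀, hl₀⟩ := hlam u₀ hu₀ hu₀0
    let P : Submodule F (Fin n → F) :=
      { carrier := {z | ∀ x, f (g.1 *ᵥ x) (g.1 *ᵥ z) = σ l₀ * f x z}
        add_mem' := fun {a b} ha hb x => by rw [Matrix.mulVec_add, haddr, ha x, hb x, haddr]; ring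
        zero_mem' := fun x => by rw [Matrix.mulVec_zero, zero_r hf, zero_r hf, mul_zero]
        smul_mem' := fun c a ha x => by rw [Matrix.mulVec_smul, hsmr, ha x, hsmr]; ring }
    have hiso : ∀ r, f r r = 0 → f r u₀ ≠ 0 → r ∈ P := fun r hr hru x => by
      have hr0 : r ≠ 0 := fun e => hru (by rw [e, zero_l hf])
      obtain ⟨l, hl⟩ := hlam r hr hr0
      have e1 := congrArg σ (hl u₀)
      rw [← hf.herm, map_mul, ← hf.herm, hl₀ r] at e1
      rw [hl, mul_right_cancel₀ hru e1, hf.involutive]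
    obtain ⟨y, hy⟩ := hnz u₀ hu₀0
    replace hy : f y u₀ ≠ 0 := fun e => hy (symm0 hf e)
    obtain ⟨t, ht⟩ := make_iso hf hu₀ hy
    have hru : f (y + t • u₀) u₀ ≠ 0 := by rw [hadd, hsm, hu₀, mul_zero, add_zero]; exact hy
    set r := y + t • u₀ with hrdef
    clear_value r
    have hu₀P : u₀ ∈ P := by
      have hur : f u₀ r ≠ 0 := fun e => hru (symm0 hf e)
      set k := c₀ / f u₀ r with hk
      have hk0 : k ≠ 0 := div_ne_zero hc00 hur
      have hkr : k * f u₀ r = c₀ := div_mul_cancel₀ _ hur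
      have hkr' : σ k * f r u₀ = -c₀ := by rw [← hc₀σ, ← hkr, map_mul, ← hf.herm]
      have h1 : f (r + k • u₀) (r + k • u₀) = 0 := by
        simp only [hadd, haddr, hsm, hsmr, ht, hu₀]
        linear_combination hkr + hkr'
      have h2 : f (r + k • u₀) u₀ ≠ 0 := by rw [hadd, hsm, hu₀, mul_zero, add_zero]; exact hru
      have := P.sub_mem (hiso _ h1 h2) (hiso r ht hru)
      rw [add_sub_cancel_left, P.smul_mem_iff hk0] at this
      exact this
    have hall : ∀ z, z ∈ P := by
      have step : ∀ z, f z u₀ ≠ 0 → z ∈ P := fun z hz => by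
        obtain ⟨t, ht⟩ := make_iso hf hu₀ hz
        have := P.sub_mem (hiso _ ht (by rw [hadd, hsm, hu₀, mul_zero, add_zero]; exact hz)) (P.smul_mem t hu₀P)
        rwa [add_sub_cancel_right] at this
      intro z
      by_cases hz : f z u₀ = 0
      · have := P.sub_mem (step (z + r) (by rw [hadd, hz, zero_add]; exact hru)) (hiso r ht hru)
        rwa [add_sub_cancel_right] at this
      · exact step z hz
    have hl0 : σ l₀ ≠ 0 := fun e => by
      have h1 := hall u₀ ((g⁻¹ : GL (Fin n) F).1 *ᵥ r)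
      rw [Matrix.mulVec_mulVec, ← Units.val_mul, mul_inv_cancel, Units.val_one, Matrix.one_mulVec, e, zero_mul] at h1
      refine hu₀0 (hgi u₀ (inj hf fun x => ?_))
      have h2 := hall u₀ ((g⁻¹ : GL (Fin n) F).1 *ᵥ x)
      rw [Matrix.mulVec_mulVec, ← Units.val_mul, mul_inv_cancel, Units.val_one, Matrix.one_mulVec, e, zero_mul] at h2
      rw [h2, zero_r hf]
    exact hgH ⟨⟨Units.mk0 (σ l₀) hl0, fun u v => by rw [Units.val_mk0]; exact hall v u⟩, hMK hgM⟩
  obtain ⟨hwb0, -⟩ := id hwb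
  have hbwz : f b w = 0 := symm0 hf hwb0
  let P : Submodule F (Fin n → F) :=
    { carrier := {a | ∀ t : F, A w (t • a)}
      add_mem' := fun {a b} ha hb t => by rw [smul_add]; exact hAadd _ _ _ (ha t) (hb t)
      zero_mem' := fun t => by rw [smul_zero]; exact hAzero w
      smul_mem' := fun c a ha t => by rw [smul_smul]; exact ha _ }
  have hprop : ∀ a y, a ∈ P → f y y = 0 → f w y = 0 → f a y ≠ 0 → y ∈ P := fun a y ha hy hwy hay t => by
    have := hroot w _ y c₀ (ha (t / (σ c₀ * f a y))) hy hwy hc₀σ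
    have hc : σ c₀ ≠ 0 := by rw [hc₀σ]; exact neg_ne_zero.2 hc00
    rwa [hsm, show σ c₀ * (t / (σ c₀ * f a y) * f a y) = t by field_simp] at this
  have hnotw : ∀ {x : Fin n → F}, (∃ y, f w y = 0 ∧ f x y ≠ 0) → x ∉ Submodule.span F {w} := by
    rintro x ⟨y, hy, hxy⟩ h
    obtain ⟨c, rfl⟩ := Submodule.mem_span_singleton.1 h
    exact hxy (by rw [hsm, hy, mul_zero])
  have hrange : Set.range (fun _ : Fin 1 => w) = {w} := Set.range_const
  obtain ⟨y₁, hy₁, hy₁w, hy₁b, -⟩ := iso2 hf hn (by norm_num : (1 : ℕ) ≤ 5) (fun _ : Fin 1 => w)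
    (x₁ := b) (x₂ := b) (by rw [hrange]; exact hbw) (by rw [hrange]; exact hbw)
  replace hy₁w : f y₁ w = 0 := hy₁w 0
  have hy₁P : y₁ ∈ P := by
    have hy₁n : y₁ ∉ Submodule.span F {w} := fun h => by
      obtain ⟨c, rfl⟩ := Submodule.mem_span_singleton.1 h
      exact hy₁b (by rw [hsm, hwb0, mul_zero])
    obtain ⟨z, hz, hzw, hzy, -⟩ := iso2 hf hn (by norm_num : (1 : ℕ) ≤ 5) (fun _ : Fin 1 => w)
      (x₁ := y₁) (x₂ := y₁) (by rw [hrange]; exact hy₁n) (by rw [hrange]; exact hy₁n)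
    replace hzw : f z w = 0 := hzw 0
    have hwp := hnz w hw
    obtain ⟨p, hp⟩ := hwp
    obtain ⟨z', hz', hz'w, hz'y, hspan⟩ : ∃ z', f z' z' = 0 ∧ f z' w = 0 ∧ f z' y₁ ≠ 0 ∧ b ∉ Submodule.span F (Set.range ![w, y₁, z']) := by
      by_cases hin : b ∈ Submodule.span F (Set.range ![w, y₁, z])
      · obtain ⟨v, hv, hv0, hvv⟩ := iso_in hf (S := perp hf ![w, y₁, z, b, p]) (by
          have := perp_dim hf ![w, y₁, z, b, p]; omega)
        have hv' := (mem_perp hf).1 hv
        have vw : f v w = 0 := hv' 0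
        have vy : f v y₁ = 0 := hv' 1
        have vz : f v z = 0 := hv' 2
        have vp : f v p = 0 := hv' 4
        refine ⟨z + v, by simp only [hadd, haddr, hz, hvv, vz, symm0 hf vz, add_zero], by rw [hadd, hzw, vw, add_zero],
          by rw [hadd, vy, add_zero]; exact hzy, fun hin' => ?_⟩
        obtain ⟨α, hα⟩ := (Submodule.mem_span_range_iff_exists_fun F).1 hin
        obtain ⟨β, hβ⟩ := (Submodule.mem_span_range_iff_exists_fun F).1 hin'
        simp only [Fin.sum_univ_three, Matrix.cons_val_zero, Matrix.cons_val_one, Matrix.cons_val_two,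
          Matrix.head_cons, Matrix.tail_cons] at hα hβ
        have e1 : α 2 = β 2 := by
          have u1 := congrArg (fun x => f x y₁) hα
          have u2 := congrArg (fun x => f x y₁) hβ
          simp only [hadd, hsm, hy₁, vy, symm0 hf hy₁w, mul_zero, zero_add, add_zero] at u1 u2
          exact mul_right_cancel₀ hzy (u1.trans u2.symm)
        have hg0 : α 2 ≠ 0 := fun e => by
          have u1 := congrArg (fun x => f x y₁) hα
          simp only [hadd, hsm, hy₁, symm0 hf hy₁w, mul_zero, zero_add, e, zero_mul] at u1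
          exact hy₁b (symm0 hf u1.symm)
        rw [← e1] at hβ
        have hd : (α 0 - β 0) • w + (α 1 - β 1) • y₁ = α 2 • v := by
          have e := hα.trans hβ.symm
          linear_combination (norm := module) e
        have u3 := congrArg (fun x => f x z) hd
        simp only [hadd, hsm, vz, symm0 hf hzw, mul_zero, zero_add] at u3
        have e2 : α 1 - β 1 = 0 := (mul_eq_zero.1 u3).resolve_right (fun e => hzy (symm0 hf e))
        rw [e2, zero_smul, add_zero] at hd
        have u4 := congrArg (fun x => f x p) hd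
        simp only [hsm, vp, mul_zero] at u4
        rw [(mul_eq_zero.1 u4).resolve_right hp, zero_smul, eq_comm, smul_eq_zero] at hd
        exact hv0 (hd.resolve_left hg0)
      · exact ⟨z, hz, hzw, hzy, hin⟩
    obtain ⟨e, he, he', heb, -⟩ := iso2 hf hn (by norm_num : (3 : ℕ) ≤ 5) ![w, y₁, z'] hspan hspan
    have ew : f e w = 0 := he' 0
    have ey : f e y₁ = 0 := he' 1
    have ez : f e z' = 0 := he' 2
    intro t
    have hne : σ c₀ ≠ 0 := by rw [hc₀σ]; exact neg_ne_zero.2 hc00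
    have hbe : f b e ≠ 0 := fun h => heb (symm0 hf h)
    set s := σ ((t / (σ c₀ * σ c₀ * f z' y₁) - f b z') / f b e) with hs
    have hbs : f b (z' + s • e) = t / (σ c₀ * σ c₀ * f z' y₁) := by
      rw [haddr, hsmr, hs, hf.involutive, div_mul_cancel₀ _ hbe]; ring
    have hys : f (z' + s • e) (z' + s • e) = 0 := by
      simp only [hadd, haddr, hsm, hsmr, hz', he, ez, symm0 hf ez]; ring
    have hws : f w (z' + s • e) = 0 := by rw [haddr, hsmr, symm0 hf hz'w, symm0 hf ew]; ring
    have h2 := hroot w _ y₁ c₀ (hroot w b (z' + s • e) c₀ hwb hys hws hc₀σ) hy₁ (symm0 hf hy₁w) hc₀σ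
    rw [hsm, hadd, hsm, ey, mul_zero, add_zero, hbs,
      show σ c₀ * (σ c₀ * (t / (σ c₀ * σ c₀ * f z' y₁)) * f z' y₁) = t by field_simp] at h2
    exact h2
  have hiso : ∀ y, f y y = 0 → f w y = 0 → y ∈ P := fun y hy hwy => by
    by_cases hys : y ∈ Submodule.span F {w}
    · -- a multiple of w
      by_cases hy0 : y = 0
      · rw [hy0]; exact P.zero_mem
      obtain ⟨c, rfl⟩ := Submodule.mem_span_singleton.1 hys
      have hc : c ≠ 0 := fun e => hy0 (by rw [e, zero_smul])
      have hww : f w w = 0 := (mul_eq_zero.1 (show σ c * f w w = 0 by rw [← hsmr]; exact hwy)).resolve_left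
        ((map_ne_zero σ).2 hc)
      have hy₁n : y₁ ∉ Submodule.span F {w} := fun h => by
        obtain ⟨c, rfl⟩ := Submodule.mem_span_singleton.1 h
        exact hy₁b (by rw [hsm, hwb0, mul_zero])
      obtain ⟨r, hr, hrw, hry, -⟩ := iso2 hf hn (by norm_num : (1 : ℕ) ≤ 5) (fun _ : Fin 1 => w)
        (x₁ := y₁) (x₂ := y₁) (by rw [hrange]; exact hy₁n) (by rw [hrange]; exact hy₁n)
      replace hrw : f r w = 0 := hrw 0
      have h1 := hprop y₁ r hy₁P hr (symm0 hf hrw) (fun h => hry (symm0 hf h))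
      have h2 := hprop y₁ (r + w) hy₁P (by simp only [hadd, haddr, hr, hww, hrw, symm0 hf hrw, add_zero])
        (by rw [haddr, symm0 hf hrw, hww, add_zero])
        (by rw [haddr, hy₁w, add_zero]; exact fun h => hry (symm0 hf h))
      have := P.sub_mem h2 h1
      rw [add_sub_cancel_left] at this
      exact P.smul_mem c this
    · have hy₁n : y₁ ∉ Submodule.span F {w} := fun h => by
        obtain ⟨c, rfl⟩ := Submodule.mem_span_singleton.1 h
        exact hy₁b (by rw [hsm, hwb0, mul_zero])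
      obtain ⟨r, hr, hrw, hry, hry'⟩ := iso2 hf hn (by norm_num : (1 : ℕ) ≤ 5) (fun _ : Fin 1 => w)
        (x₁ := y₁) (x₂ := y) (by rw [hrange]; exact hy₁n) (by rw [hrange]; exact hys)
      replace hrw : f r w = 0 := hrw 0
      exact hprop r y (hprop y₁ r hy₁P hr (symm0 hf hrw) (fun h => hry (symm0 hf h))) hy hwy hry'
  let C : (Fin n → F) → Prop := fun v => ∀ a, f v a = 0 → A v a
  have hCw : C w := fun a ha => by
    suffices h : a ∈ P by simpa using h 1
    by_contra hna
    obtain ⟨h, hh, hah⟩ := sep hf hna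
    obtain ⟨e, he, hew, heh, -⟩ := iso2 hf hn (by norm_num : (1 : ℕ) ≤ 5) (fun _ : Fin 1 => w) (x₁ := h) (x₂ := h)
      (by rw [hrange]; intro h'; obtain ⟨c, rfl⟩ := Submodule.mem_span_singleton.1 h'
          exact hah (by rw [hsmr, symm0 hf ha, mul_zero]))
      (by rw [hrange]; intro h'; obtain ⟨c, rfl⟩ := Submodule.mem_span_singleton.1 h'
          exact hah (by rw [hsmr, symm0 hf ha, mul_zero]))
    exact heh (hh e (hiso e he (symm0 hf (hew 0))))
  have hCmap : ∀ h ∈ M, ∀ v, C v → C (h.1 *ᵥ v) := fun h hh v hv b hb => by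
    obtain ⟨a, ha⟩ := hpull h b
    exact hconj h hh v a b (hv a (by rw [← ha]; exact hb)) ha
  have hCsmul : ∀ v (c : F), C v → C (c • v) := fun v c hv a ha => by
    by_cases hc : c = 0
    · refine ⟨ha, ?_⟩
      rw [show R (c • v) a ha = 1 from Units.ext (Matrix.ext_iff_mulVec.2 fun x => by
        rw [hR, hc, zero_smul, smul_zero, add_zero, Units.val_one, Matrix.one_mulVec])]
      exact one_mem M
    · rw [hsm] at ha
      have h0 : f v (σ c • a) = 0 := by rw [hsmr, hf.involutive, ha]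
      obtain ⟨h', hm⟩ := hv _ h0
      refine ⟨by rw [hsm, ha], ?_⟩
      convert hm using 1
      refine Units.ext (Matrix.ext_iff_mulVec.2 fun x => ?_)
      rw [hR, hR, hsmr, hf.involutive, smul_smul, mul_comm]
  let W : Submodule F (Fin n → F) :=
    { carrier := {v | C v}
      add_mem' := fun {v v'} hv hv' => by
        by_cases hdep : v ∈ Submodule.span F {v'}
        · obtain ⟨c, rfl⟩ := Submodule.mem_span_singleton.1 hdep
          show C (c • v' + v')
          rw [show c • v' + v' = (c + 1) • v' by module]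
          exact hCsmul _ _ hv'
        · obtain ⟨a, ha, hva⟩ := sep hf hdep
          have hv'a : f v' (σ (f v a)⁻¹ • a) = 0 := by rw [hsmr, ha v' (Submodule.mem_span_singleton_self _), mul_zero]
          obtain ⟨h', hm⟩ := hv' _ hv'a
          have := hCmap _ hm v hv
          rwa [hR, hsmr, hf.involutive, inv_mul_cancel₀ hva, one_smul] at this
      zero_mem' := by
        show C 0
        have := hCsmul w 0 hCw
        rwa [zero_smul] at this
      smul_mem' := fun c v hv => hCsmul v c hv }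
  have hWiso : ∀ y, f y y = 0 → f w y ≠ 0 → y ∈ W := fun y hy hwy => by
    obtain ⟨h0, hU⟩ := hAu y c₀ hy hc₀σ
    have h1 : (R y (c₀ • y) h0).1 *ᵥ w ∈ W := hCmap _ hU w hCw
    rw [hR, W.add_mem_iff_right (show w ∈ W from hCw), hsmr, W.smul_mem_iff (mul_ne_zero (by rw [hc₀σ]; exact neg_ne_zero.2 hc00) hwy)] at h1
    exact h1
  have hall : ∀ v, C v := fun v => by
    by_contra hv
    obtain ⟨h, hh, hvh⟩ := sep hf (show v ∉ W from hv)
    have h0 : h ≠ 0 := fun e => hvh (by rw [e, zero_r hf])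
    obtain ⟨e, he, -, hew, heh⟩ := iso2 hf hn (by norm_num : (0 : ℕ) ≤ 5) (Fin.elim0 : Fin 0 → (Fin n → F))
      (x₁ := w) (x₂ := h) (by rw [Set.range_eq_empty, Submodule.span_empty]; exact hw)
      (by rw [Set.range_eq_empty, Submodule.span_empty]; exact h0)
    exact heh (hh e (hWiso e he fun h' => hew (symm0 hf h')))
  haveI : Nontrivial (Fin n) := ⟨⟨⟨0, by omega⟩, ⟨1, by omega⟩, by simp [Fin.ext_iff]⟩⟩
  have htop : M.comap (Matrix.SpecialLinearGroup.toGL : Matrix.SpecialLinearGroup (Fin n) F →* GL (Fin n) F) = ⊤ := by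
    refine CfsgLib.Linear.Generation.eq_top_of_transvection_mem _ fun i j hij c => ?_
    rw [Subgroup.mem_comap]
    obtain ⟨a, ha⟩ := rep hf (c • LinearMap.proj j)
    have h0 : f (Pi.single i 1) a = 0 := by rw [ha]; simp [Pi.single_eq_of_ne hij.symm]
    obtain ⟨h', hm⟩ := hall _ a h0
    convert hm using 1
    refine Units.ext (Matrix.ext_iff_mulVec.2 fun y => ?_)
    rw [hR, ha]
    show (Matrix.SpecialLinearGroup.transvection hij c).1 *ᵥ y = _
    rw [Matrix.SpecialLinearGroup.transvection_coe, Matrix.add_mulVec, Matrix.one_mulVec, Matrix.single_mulVec_eq]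
    simp
  intro x hx
  have hxd : x.1.det = 1 := congrArg Units.val (MonoidHom.mem_ker.1 hx)
  have hmem : ∀ y : Matrix.SpecialLinearGroup (Fin n) F, Matrix.SpecialLinearGroup.toGL y ∈ M := fun y =>
    Subgroup.mem_comap.1 (htop.symm ▸ Subgroup.mem_top y)
  exact (show Matrix.SpecialLinearGroup.toGL (⟨x.1, hxd⟩ : Matrix.SpecialLinearGroup (Fin n) F) = x from Units.ext rfl) ▸ hmem _

end Cfsg.Agent.S5643
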