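import Cfsg.Statements.S5644
import Cfsg.Agent.Lib.Linear.Generation
import Cfsg.Agent.Lib.Orth.Siegel
import Cfsg.Agent.Lib.NonMax.OmegaTools

set_option autoImplicit false
open Cfsg

namespace Cfsg.Agent.S5644

open scoped Matrix
open CfsgLib.Orth.Siegel

variable {F : Type*} [Field F] [Fintype F] {n : ℕ} {P : QuadraticForm F (Fin n → F)}

omit [Fintype F] in
theorem sep (hP : (QuadraticMap.polarBilin P).Nondegenerate) {S : Submodule F (Fin n → F)} {x : Fin n → F} (hx : x ∉ S) :
    ∃ h, (∀ s ∈ S, B P s h = 0) ∧ B P x h ≠ 0 := by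
  by_contra hc
  simp only [not_exists, not_and, not_not] at hc
  have hrefl : (B P).IsRefl := fun a b hab => by rw [B_comm]; exact hab
  refine hx ?_
  rw [← LinearMap.BilinForm.orthogonal_orthogonal hP hrefl S]
  exact fun z hz => by
    show B P z x = 0
    rw [B_comm]; exact hc z fun s hs => hz s hs

/-- Common kernel of some functionals. -/
noncomputable def perp (P : QuadraticForm F (Fin n → F)) {k : ℕ} (u : Fin k → (Fin n → F)) : Submodule F (Fin n → F) :=
  LinearMap.ker (LinearMap.pi fun i => B P (u i))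

omit [Fintype F] in
theorem mem_perp {k : ℕ} {u : Fin k → (Fin n → F)} {x : Fin n → F} : x ∈ perp P u ↔ ∀ i, B P (u i) x = 0 := by
  rw [perp, LinearMap.mem_ker, funext_iff]; rfl

omit [Fintype F] in
theorem perp_dim {k : ℕ} (u : Fin k → (Fin n → F)) : n ≤ Module.finrank F (perp P u) + k := by
  have h1 := (LinearMap.pi fun i => B P (u i)).finrank_range_add_finrank_ker
  have h2 : Module.finrank F (LinearMap.range (LinearMap.pi fun i => B P (u i))) ≤ k :=
    (Submodule.finrank_le _).trans (le_of_eq (Module.finrank_fin_fun F))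
  rw [Module.finrank_fintype_fun_eq_card, Fintype.card_fin] at h1
  rw [perp]; omega

theorem iso1 (hP : (QuadraticMap.polarBilin P).Nondegenerate) (h2 : (2 : F) ≠ 0) (hn : 13 ≤ n) {k : ℕ} (hk : k ≤ 4)
    (u : Fin k → (Fin n → F)) {x : Fin n → F} (hx : x ∉ Submodule.span F (Set.range u)) :
    ∃ e, P e = 0 ∧ (∀ i, B P (u i) e = 0) ∧ B P x e ≠ 0 := by
  obtain ⟨h, hh, hhx⟩ := sep hP hx
  have hh' : ∀ i, B P (u i) h = 0 := fun i => hh _ (Submodule.subset_span ⟨i, rfl⟩)
  by_cases hQ : P h = 0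
  · exact ⟨h, hQ, hh', hhx⟩
  have aniso : ∀ S : Submodule F (Fin n → F), n < 2 * Module.finrank F S → ∃ y ∈ S, P y ≠ 0 := fun S hS => by
    by_contra hc
    simp only [not_exists, not_and, not_not] at hc
    have hle : S ≤ LinearMap.BilinForm.orthogonal (B P) S := fun a ha b hb => by
      show B P b a = 0
      have := Q_add (Q := P) b a
      rw [hc _ (S.add_mem hb ha), hc b hb, hc a ha] at this
      linear_combination -this
    have h1 := Submodule.finrank_mono hle
    have h3 := LinearMap.BilinForm.finrank_orthogonal hP S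
    rw [Module.finrank_fintype_fun_eq_card, Fintype.card_fin] at h3
    rw [show LinearMap.BilinForm.orthogonal (B P) S = LinearMap.BilinForm.orthogonal (QuadraticMap.polarBilin P) S from rfl, h3] at h1
    omega
  obtain ⟨y₁, hy₁, hy₁'⟩ := aniso (perp P (Fin.cons h u)) (by have := perp_dim (P := P) (Fin.cons h u); omega)
  obtain ⟨y₂, hy₂, hy₂'⟩ := aniso (perp P (Fin.cons y₁ (Fin.cons h u)))
    (by have := perp_dim (P := P) (Fin.cons y₁ (Fin.cons h u)); omega)
  obtain ⟨a, b, hab⟩ := CfsgLib.Forms.Represent.exists_add_eq h2 hy₁' hy₂' (-P h)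
  have m1 := mem_perp.1 hy₁
  have m2 := mem_perp.1 hy₂
  have y12 : B P y₁ y₂ = 0 := by simpa using m2 0
  have hy : ∀ i, B P (u i) (a • y₁ + b • y₂) = 0 := fun i => by
    have e1 : B P (u i) y₁ = 0 := by simpa using m1 i.succ
    have e2 : B P (u i) y₂ = 0 := by simpa using m2 i.succ.succ
    rw [map_add, map_smul, map_smul, e1, e2, smul_zero, smul_zero, add_zero]
  have hhy : B P h (a • y₁ + b • y₂) = 0 := by
    have e1 : B P h y₁ = 0 := by simpa using m1 0
    have e2 : B P h y₂ = 0 := by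
      have := m2 (Fin.succ 0)
      simpa using this
    rw [map_add, map_smul, map_smul, e1, e2, smul_zero, smul_zero, add_zero]
  have hQy : P (a • y₁ + b • y₂) = -P h := by
    rw [Q_add, Q_smul, Q_smul]
    simp only [map_smul, LinearMap.smul_apply, y12, smul_eq_mul, mul_zero, add_zero]
    linear_combination hab
  set y := a • y₁ + b • y₂
  by_cases hplus : B P x (h + y) = 0
  · refine ⟨h - y, ?_, fun i => by rw [map_sub, hh', hy, sub_zero], fun e => ?_⟩
    · rw [sub_eq_add_neg, Q_add, QuadraticMap.map_neg, map_neg, hhy, hQy]; ring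
    · rw [map_add] at hplus
      rw [map_sub] at e
      exact hhx ((mul_eq_zero.1 (show (2 : F) * B P x h = 0 by linear_combination hplus + e)).resolve_left h2)
  · exact ⟨h + y, by rw [Q_add, hhy, hQy]; ring, fun i => by rw [map_add, hh', hy, add_zero], hplus⟩

/-- A singular vector perpendicular to a few vectors and outside their span. -/
theorem iso_out (hP : (QuadraticMap.polarBilin P).Nondegenerate) (h2 : (2 : F) ≠ 0) (hn : 13 ≤ n) {k : ℕ} (hk : k ≤ 4)
    (u : Fin k → (Fin n → F)) : ∃ e, P e = 0 ∧ (∀ i, B P (u i) e = 0) ∧ e ∉ Submodule.span F (Set.range u) := by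
  obtain ⟨x, hx, hxn⟩ : ∃ x ∈ perp P u, x ∉ Submodule.span F (Set.range u) := by
    by_contra hc
    simp only [not_exists, not_and, not_not] at hc
    have h1 := Submodule.finrank_mono (show perp P u ≤ Submodule.span F (Set.range u) from hc)
    have h3 := perp_dim (P := P) u
    have h4 : Module.finrank F (Submodule.span F (Set.range u)) ≤ k := (finrank_range_le_card u).trans (by simp)
    omega
  obtain ⟨e, he, he', hex⟩ := iso1 hP h2 hn hk u hxn
  refine ⟨e, he, he', fun h => hex ?_⟩
  rw [B_comm]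
  obtain ⟨c, rfl⟩ := (Submodule.mem_span_range_iff_exists_fun F).1 h
  simp only [map_sum, map_smul, LinearMap.sum_apply, LinearMap.smul_apply, mem_perp.1 hx, smul_zero, Finset.sum_const_zero]

/-- For a finite field F of odd order and n ≥ 13, let Q be a non-degenerate quadratic form on F^n (its polar form is non-degenerate). Then the elements of SL_n(F) that are similarities of Q (Q(gv) = c Q(v) for a non-zero scalar c depending on g) form a maximal subgroup of SL_n(F). -/
theorem result {F : Type*} [Field F] [Fintype F] (n : ℕ) (hn : 13 ≤ n) (hodd : Odd (Fintype.card F)) (Q : (Fin n → F) → F) (hQ : Cfsg.Geo.IsNondegenerateQuadraticForm Q) : Cfsg.Geo.IsMaximalIn (Cfsg.Geo.specialLinear (Fin n) F) (Cfsg.Geo.quadSimilarityGroup Q ⊓ Cfsg.Geo.specialLinear (Fin n) F) := by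
  classical
  obtain ⟨P, rfl⟩ : ∃ P : QuadraticForm F (Fin n → F), Q = ⇑P := ⟨_, (CfsgLib.NonMax.OmegaTools.coe_toQ hQ).symm⟩
  have hP : (QuadraticMap.polarBilin P).Nondegenerate := CfsgLib.NonMax.OmegaTools.nondegenerate hQ
  have h2 : (2 : F) ≠ 0 := fun e => by
    haveI : CharP F 2 := CharTwo.of_one_ne_zero_of_two_eq_zero one_ne_zero e
    have h := FiniteField.even_card_iff_char_two.1 (ringChar.eq F 2)
    rw [Nat.odd_iff] at hodd
    omega
  have hn5 : 5 ≤ Fintype.card (Fin n) := by rw [Fintype.card_fin]; omega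
  have hinj : ∀ z, (∀ x, B P x z = 0) → z = 0 := fun z h => hP.2 z h
  have rep : ∀ ψ : (Fin n → F) →ₗ[F] F, ∃ a, ∀ x, B P x a = ψ x := fun ψ => by
    obtain ⟨a, ha⟩ := (LinearMap.injective_iff_surjective_of_finrank_eq_finrank (Subspace.dual_finrank_eq).symm).1
      (show Function.Injective (B P) from (injective_iff_map_eq_zero (B P)).2 fun z hz =>
        hinj z fun x => by rw [B_comm, hz]; rfl) ψ
    exact ⟨a, fun x => by rw [B_comm, ha]⟩
  have dual : ∀ ψ : (Fin n → F) →ₗ[F] F, ∃ φ : Fin n → F, ∀ x, φ ⬝ᵥ x = ψ x := fun ψ =>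
    ⟨fun i => ψ (Pi.single i 1), fun x => by
      conv_rhs => rw [pi_eq_sum_univ' x]
      simp [dotProduct, map_sum, mul_comm]⟩
  obtain ⟨R, hR, hRK⟩ : ∃ R : ∀ (v a : Fin n → F), B P v a = 0 → GL (Fin n) F,
      (∀ v a h (x : Fin n → F), (R v a h).1 *ᵥ x = x + B P x a • v) ∧
      ∀ v a h, R v a h ∈ Cfsg.Geo.specialLinear (Fin n) F := by
    choose φ hφ using dual
    have hd : ∀ v a, B P v a = 0 → ((1 : Matrix (Fin n) (Fin n) F) + Matrix.vecMulVec v (φ (B P a))).det = 1 := fun v a h => by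
      rw [Matrix.vecMulVec_eq Unit, Matrix.det_one_add_replicateCol_mul_replicateRow, hφ, B_comm, h, add_zero]
    refine ⟨fun v a h => Matrix.GeneralLinearGroup.mkOfDetNeZero ((1 : Matrix (Fin n) (Fin n) F) + Matrix.vecMulVec v (φ (B P a)))
      (by rw [hd v a h]; exact one_ne_zero), fun v a h x => ?_, fun v a h => ?_⟩
    · show ((1 : Matrix (Fin n) (Fin n) F) + Matrix.vecMulVec v (φ (B P a))) *ᵥ x = _
      rw [Matrix.add_mulVec, Matrix.one_mulVec, Matrix.vecMulVec_mulVec, hφ, B_comm]
      funext i; simp [mul_comm]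
    · rw [Cfsg.Geo.specialLinear, MonoidHom.mem_ker]
      exact Units.ext (hd v a h)
  refine ⟨lt_of_le_of_ne inf_le_right fun heq => ?_, fun M hM hMK => or_iff_not_imp_left.2 fun hne => le_antisymm hMK ?_⟩
  · obtain ⟨e, -, he0, hee⟩ := exists_singular_in (Q := P) (⊤ : Submodule F (Fin n → F))
      (by rw [finrank_top, Module.finrank_fintype_fun_eq_card, Fintype.card_fin]; omega)
    obtain ⟨a, -, ha, han⟩ := iso_out hP h2 hn (by norm_num : (1 : ℕ) ≤ 4) (fun _ : Fin 1 => e)
    rw [Set.range_const] at han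
    obtain ⟨c, hc⟩ := (heq.ge (hRK e a (ha 0))).1
    have hc' : ∀ x, P (x + B P x a • e) = c * P x := fun x => by rw [← hR e a (ha 0)]; exact hc x
    have hexp : ∀ x z, B P x z + B P x a * B P e z + B P z a * B P x e = c * B P x z := fun x z => by
      have h1 := hc' (x + z)
      have hx := hc' x
      have hz := hc' z
      simp only [Q_add, Q_smul, hee, map_add, map_smul, LinearMap.add_apply, smul_eq_mul] at h1 hx hz
      linear_combination h1 - hx - hz + (B_comm e z) * B P x a
    obtain ⟨y, hy, hey⟩ := exists_partner hP hee he0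
    have hc1 : (c : F) = 1 := by
      have := hexp e y
      rw [ha 0, hey, B_self, hee] at this
      linear_combination -this
    refine han (Submodule.mem_span_singleton.2 ⟨-(B P y a), eq_of_sub_eq_zero (hinj _ fun x => ?_)⟩)
    have := hexp x y
    rw [hc1, hey] at this
    rw [map_sub, map_smul, smul_eq_mul]
    linear_combination -this
  obtain ⟨g, hgM, hgH⟩ := SetLike.exists_of_lt (lt_of_le_of_ne hM (Ne.symm hne))
  have hSM : ∀ u x (hu : P u = 0) (hx : B P u x = 0), (S u x hu hx).1 ∈ M := fun u x hu hx => by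
    refine hM ⟨⟨1, fun v => by rw [Units.val_one, one_mul]; exact Q_gen (S u x hu hx) v⟩, ?_⟩
    have h1 : S u x hu hx ∈ Cfsg.Omega F ⇑P := by rw [omega_eq_E hP hn5]; exact S_mem_E hu hx
    exact Abelianization.commutator_subset_ker
      (Matrix.GeneralLinearGroup.det.comp (Cfsg.isometryGroup F ⇑P).subtype) h1
  have hlong : ∀ u x (hu : P u = 0) (hx : B P u x = 0), P x = 0 → ∀ z,
      (S u x hu hx).1.1 *ᵥ z = z + B P z u • x - B P z x • u := fun u x hu hx hx0 z => by
    rw [S_apply, hx0, zero_mul, add_zero]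
  let A : (Fin n → F) → (Fin n → F) → Prop := fun v a => ∃ h : B P v a = 0, R v a h ∈ M
  have hAzero : ∀ v, A v 0 := fun v => ⟨map_zero _, by
    rw [show R v 0 (map_zero _) = 1 from Units.ext (Matrix.ext_iff_mulVec.2 fun x => by
      rw [hR, map_zero, zero_smul, add_zero, Units.val_one, Matrix.one_mulVec])]
    exact one_mem M⟩
  have hAadd : ∀ v a b, A v a → A v b → A v (a + b) := fun v a b ⟨ha, ha'⟩ ⟨hb, hb'⟩ => by
    refine ⟨by rw [map_add, ha, hb, add_zero], ?_⟩
    convert mul_mem ha' hb' using 1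
    refine Units.ext (Matrix.ext_iff_mulVec.2 fun x => ?_)
    rw [Units.val_mul, ← Matrix.mulVec_mulVec, hR, hR, hR]
    simp only [map_add, map_smul, LinearMap.add_apply, LinearMap.smul_apply, smul_eq_mul, ha, mul_zero, add_zero]
    module
  have hAneg : ∀ v a, A v a → A v (-a) := fun v a ⟨ha, ha'⟩ => by
    refine ⟨by rw [map_neg, ha, neg_zero], ?_⟩
    convert inv_mem ha' using 1
    refine eq_inv_of_mul_eq_one_left (Units.ext (Matrix.ext_iff_mulVec.2 fun x => ?_))
    rw [Units.val_mul, ← Matrix.mulVec_mulVec, hR, hR, Units.val_one, Matrix.one_mulVec]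
    simp only [map_add, map_smul, map_neg, LinearMap.add_apply, LinearMap.smul_apply, smul_eq_mul, ha, mul_zero, add_zero]
    module
  have hconj : ∀ h ∈ M, ∀ v a b, A v a → (∀ x, B P (h.1 *ᵥ x) b = B P x a) → A (h.1 *ᵥ v) b := by
    rintro h hh v a b ⟨ha, ha'⟩ hb
    refine ⟨by rw [hb]; exact ha, ?_⟩
    convert mul_mem (mul_mem hh ha') (inv_mem hh) using 1
    refine Units.ext (Matrix.ext_iff_mulVec.2 fun x => ?_)
    rw [hR, Units.val_mul, Units.val_mul, ← Matrix.mulVec_mulVec, ← Matrix.mulVec_mulVec, hR, Matrix.mulVec_add,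
      Matrix.mulVec_smul, ← hb, Matrix.mulVec_mulVec x, ← Units.val_mul, mul_inv_cancel, Units.val_one, Matrix.one_mulVec]
  have hcancel : ∀ (h : GL (Fin n) F) (x : Fin n → F), (h⁻¹ : GL (Fin n) F).1 *ᵥ (h.1 *ᵥ x) = x := fun h x => by
    rw [Matrix.mulVec_mulVec, ← Units.val_mul, inv_mul_cancel, Units.val_one, Matrix.one_mulVec]
  have hcancel' : ∀ (h : GL (Fin n) F) (x : Fin n → F), h.1 *ᵥ ((h⁻¹ : GL (Fin n) F).1 *ᵥ x) = x := fun h x => by
    rw [Matrix.mulVec_mulVec, ← Units.val_mul, mul_inv_cancel, Units.val_one, Matrix.one_mulVec]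
  -- an outside transvection
  obtain ⟨w, hw, b, hwb, hbw⟩ : ∃ w, w ≠ 0 ∧ ∃ b, A w b ∧ b ∉ Submodule.span F {w} := by
    have hgi : ∀ x : Fin n → F, g.1 *ᵥ x = 0 → x = 0 := fun x hx => by rw [← hcancel g x, hx, Matrix.mulVec_zero]
    have hpush : ∀ v, ∃ b, ∀ x, B P (g.1 *ᵥ x) b = B P x v := fun v => by
      obtain ⟨b, hb⟩ := rep ((B P v).comp (Matrix.mulVecLin (g⁻¹ : GL (Fin n) F).1))
      exact ⟨b, fun x => by rw [hb, LinearMap.comp_apply, Matrix.mulVecLin_apply, hcancel, B_comm]⟩
    by_cases hline : ∀ u x : Fin n → F, P u = 0 → P x = 0 → B P u x = 0 → x ∉ Submodule.span F {u} → u ≠ 0 →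
        ∀ z, B P z u = 0 → B P z x = 0 → B P (g.1 *ᵥ z) (g.1 *ᵥ u) = 0
    · exfalso
      have hlam : ∀ u, P u = 0 → u ≠ 0 → ∃ l : F, ∀ z, B P (g.1 *ᵥ z) (g.1 *ᵥ u) = l * B P z u := fun u hu hu0 => by
        have hk : ∀ z, B P z u = 0 → B P (g.1 *ᵥ z) (g.1 *ᵥ u) = 0 := fun z hz => by
          obtain ⟨x, hx, hx', hxn⟩ := iso_out hP h2 hn (by norm_num : (2 : ℕ) ≤ 4) ![u, z]
          have hux : B P u x = 0 := hx' 0
          have hzx : B P z x = 0 := hx' 1
          refine hline u x hu hx hux (fun h => hxn ?_) hu0 z hz hzx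
          exact Submodule.span_mono (by simp) h
        obtain ⟨y, -, hy⟩ := exists_partner hP hu hu0
        refine ⟨B P (g.1 *ᵥ y) (g.1 *ᵥ u), fun z => ?_⟩
        have h1 := hk (z - B P z u • y) (by rw [map_sub, map_smul, LinearMap.sub_apply, LinearMap.smul_apply, B_comm y u, hy]; simp)
        rw [Matrix.mulVec_sub, Matrix.mulVec_smul, map_sub, map_smul, LinearMap.sub_apply, LinearMap.smul_apply,
          smul_eq_mul, sub_eq_zero] at h1
        rw [h1, mul_comm]
      obtain ⟨u₀, -, hu₀0, hu₀⟩ := exists_singular_in (Q := P) (⊤ : Submodule F (Fin n → F))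
        (by rw [finrank_top, Module.finrank_fintype_fun_eq_card, Fintype.card_fin]; omega)
      obtain ⟨l₀, hl₀⟩ := hlam u₀ hu₀ hu₀0
      let W : Submodule F (Fin n → F) :=
        { carrier := {v | ∀ z, B P (g.1 *ᵥ z) (g.1 *ᵥ v) = l₀ * B P z v}
          add_mem' := fun {a b} ha hb z => by rw [Matrix.mulVec_add, map_add, map_add, ha z, hb z, mul_add]
          zero_mem' := fun z => by rw [Matrix.mulVec_zero, map_zero, map_zero, mul_zero]
          smul_mem' := fun c a ha z => by rw [Matrix.mulVec_smul, map_smul, map_smul, ha z, smul_eq_mul, smul_eq_mul]; ring }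
      have hu₀W : u₀ ∈ W := hl₀
      obtain ⟨y, -, hy⟩ := exists_partner hP hu₀ hu₀0
      have hiso : ∀ r, P r = 0 → B P u₀ r ≠ 0 → r ∈ W := fun r hr hru z => by
        obtain ⟨l, hl⟩ := hlam r hr (fun e => hru (by rw [e, map_zero]))
        have e1 := hl u₀
        rw [B_comm, hl₀ r, B_comm r u₀] at e1
        rw [hl, mul_right_cancel₀ hru e1]
      have step : ∀ z, B P u₀ z ≠ 0 → z ∈ W := fun z hz => by
        have h1 := hiso (z + (-(P z) / B P u₀ z) • u₀)
          (by rw [Q_add, Q_smul, hu₀, map_smul, B_comm z u₀, smul_eq_mul, div_mul_cancel₀ _ hz]; ring)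
          (by rw [map_add, map_smul, B_self, hu₀, mul_zero, smul_zero, add_zero]; exact hz)
        exact (W.add_mem_iff_left (W.smul_mem _ hu₀W)).1 h1
      have hyW : y ∈ W := step y (by rw [hy]; exact one_ne_zero)
      have hall : ∀ z, z ∈ W := fun z => by
        by_cases hz : B P u₀ z = 0
        · exact (W.add_mem_iff_left hyW).1 (step (z + y) (by rw [map_add, hz, hy, zero_add]; exact one_ne_zero))
        · exact step z hz
      have hl0 : l₀ ≠ 0 := fun e => hu₀0 (hgi u₀ (hinj _ fun x => by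
        rw [← hcancel' g x, hl₀, e, zero_mul]))
      refine hgH ⟨⟨Units.mk0 l₀ hl0, fun v => ?_⟩, hMK hgM⟩
      have h1 := hall v v
      rw [B_self, B_self, ← mul_left_comm] at h1
      rw [Units.val_mk0]
      exact mul_left_cancel₀ h2 h1
    · push Not at hline
      obtain ⟨u, x, hu, hx, hux, hxu, hu0, z₀, hz₀u, hz₀x, hz₀⟩ := hline
      obtain ⟨a, ha⟩ := hpush u
      obtain ⟨a', ha'⟩ := hpush x
      set p := g.1 *ᵥ x with hp
      set q := g.1 *ᵥ u with hq
      obtain ⟨u₁, hu₁, hu₁', hu₁n⟩ := iso_out hP h2 hn (by norm_num : (4 : ℕ) ≤ 4) ![p, q, a, a']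
      have o1 : B P p u₁ = 0 := hu₁' 0
      have o2 : B P q u₁ = 0 := hu₁' 1
      have o3 : B P a u₁ = 0 := hu₁' 2
      have o4 : B P a' u₁ = 0 := hu₁' 3
      have hout : a ∉ Submodule.span F (Set.range ![u₁, p, q]) ∨ a' ∉ Submodule.span F (Set.range ![u₁, p, q]) := by
        by_contra hc
        simp only [not_or, not_not] at hc
        have red : ∀ v, v ∈ Submodule.span F (Set.range ![u₁, p, q]) → (v = a ∨ v = a') → ∃ α β : F, v = α • p + β • q := by
          intro v hv hva
          obtain ⟨c, hcv⟩ := (Submodule.mem_span_range_iff_exists_fun F).1 hv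
          simp only [Fin.sum_univ_three, Matrix.cons_val_zero, Matrix.cons_val_one, Matrix.cons_val_two,
            Matrix.head_cons, Matrix.tail_cons] at hcv
          by_cases hc0 : c 0 = 0
          · exact ⟨c 1, c 2, by rw [← hcv, hc0, zero_smul, zero_add]⟩
          · refine absurd ?_ hu₁n
            have hm : ∀ i, (![p, q, a, a'] : Fin 4 → Fin n → F) i ∈ Submodule.span F (Set.range ![p, q, a, a']) :=
              fun i => Submodule.subset_span ⟨i, rfl⟩
            have hvS : v ∈ Submodule.span F (Set.range ![p, q, a, a']) := by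
              rcases hva with rfl | rfl
              · exact hm 2
              · exact hm 3
            have : c 0 • u₁ ∈ Submodule.span F (Set.range ![p, q, a, a']) := by
              rw [show c 0 • u₁ = v - c 1 • p - c 2 • q by rw [← hcv]; abel]
              exact sub_mem (sub_mem hvS (Submodule.smul_mem _ _ (hm 0))) (Submodule.smul_mem _ _ (hm 1))
            exact (Submodule.smul_mem_iff _ hc0).1 this
        obtain ⟨α, β, e⟩ := red a hc.1 (Or.inl rfl)
        obtain ⟨α', β', e'⟩ := red a' hc.2 (Or.inr rfl)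
        -- hence the image of u is a combination of a and a'
        have k1 : ∀ t, B P (g.1 *ᵥ t) p * α + B P (g.1 *ᵥ t) q * β = B P t u := fun t => by
          rw [← ha t, e, map_add, map_smul, map_smul, smul_eq_mul, smul_eq_mul]; ring
        have k2 : ∀ t, B P (g.1 *ᵥ t) p * α' + B P (g.1 *ᵥ t) q * β' = B P t x := fun t => by
          rw [← ha' t, e', map_add, map_smul, map_smul, smul_eq_mul, smul_eq_mul]; ring
        have hD : α * β' - α' * β ≠ 0 := fun hD => by
          have hz : ∀ t, α' * B P t u - α * B P t x = 0 := fun t => by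
            linear_combination (-B P (g.1 *ᵥ t) q) * hD - α' * k1 t + α * k2 t
          have hz' : ∀ t, β' * B P t u - β * B P t x = 0 := fun t => by
            linear_combination (B P (g.1 *ᵥ t) p) * hD - β' * k1 t + β * k2 t
          have e1 : α' • u - α • x = 0 := hinj _ fun t => by rw [map_sub, map_smul, map_smul]; exact hz t
          have e2 : β' • u - β • x = 0 := hinj _ fun t => by rw [map_sub, map_smul, map_smul]; exact hz' t
          have hα : α = 0 := by
            by_contra hα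
            exact hxu (Submodule.mem_span_singleton.2 ⟨α⁻¹ * α', by
              rw [mul_smul, sub_eq_zero.1 e1, inv_smul_smul₀ hα]⟩)
          have hβ : β = 0 := by
            by_contra hβ
            exact hxu (Submodule.mem_span_singleton.2 ⟨β⁻¹ * β', by
              rw [mul_smul, sub_eq_zero.1 e2, inv_smul_smul₀ hβ]⟩)
          exact hu0 (hinj u fun t => by rw [← k1 t, hα, hβ, mul_zero, mul_zero, add_zero])
        have hq0 : (α * β' - α' * β) * B P (g.1 *ᵥ z₀) q = 0 := by
          linear_combination α * k2 z₀ - α' * k1 z₀ + α * hz₀x - α' * hz₀u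
        exact hz₀ ((mul_eq_zero.1 hq0).resolve_left hD)
      obtain ⟨x₁, hx₁, hx₁', hxa⟩ : ∃ x₁, P x₁ = 0 ∧ (∀ i, B P ((![u₁, p, q] : Fin 3 → Fin n → F) i) x₁ = 0) ∧
          (B P a x₁ ≠ 0 ∨ B P a' x₁ ≠ 0) := by
        rcases hout with h | h <;> obtain ⟨e, he, he', hxe⟩ := iso1 hP h2 hn (by norm_num : (3 : ℕ) ≤ 4) ![u₁, p, q] h
        · exact ⟨e, he, he', Or.inl hxe⟩
        · exact ⟨e, he, he', Or.inr hxe⟩
      have r1 : B P u₁ x₁ = 0 := hx₁' 0
      have r2 : B P p x₁ = 0 := hx₁' 1
      have r3 : B P q x₁ = 0 := hx₁' 2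
      set c := (-(B P a x₁)) • p + B P a' x₁ • q with hc
      have hpq : ∀ α β : F, α • p + β • q = 0 → α = 0 ∧ β = 0 := fun α β h => by
        rw [hp, hq, ← Matrix.mulVec_smul, ← Matrix.mulVec_smul, ← Matrix.mulVec_add] at h
        have h' := hgi _ h
        by_cases hα : α = 0
        · rw [hα, zero_smul, zero_add, smul_eq_zero] at h'
          exact ⟨hα, h'.resolve_right hu0⟩
        · exact absurd (Submodule.mem_span_singleton.2 ⟨α⁻¹ * -β, by
            rw [mul_smul, neg_smul, ← eq_neg_of_add_eq_zero_left h', inv_smul_smul₀ hα]⟩) hxu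
      have hcu : B P c u₁ = 0 := by
        rw [hc, map_add, map_smul, map_smul, LinearMap.add_apply, LinearMap.smul_apply, LinearMap.smul_apply, o1, o2]; simp
      refine ⟨c, fun e => ?_, u₁, ⟨hcu, ?_⟩, fun h => hu₁n ?_⟩
      · obtain ⟨e1, e2⟩ := hpq _ _ e
        rcases hxa with h | h
        · exact h (neg_eq_zero.1 e1)
        · exact h e2
      · set h := (S u₁ x₁ hu₁ r1).1 with hh
        set E := g * (S u x hu hux).1 * g⁻¹ with hE
        have hhM : h ∈ M := hSM _ _ _ _
        have hEM : E ∈ M := mul_mem (mul_mem hgM (hSM _ _ _ _)) (inv_mem hgM)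
        have hEz : ∀ z, E.1 *ᵥ z = z + B P z a • p - B P z a' • q := fun z => by
          rw [hE, Units.val_mul, Units.val_mul, ← Matrix.mulVec_mulVec, ← Matrix.mulVec_mulVec, hlong u x hu hux hx,
            Matrix.mulVec_sub, Matrix.mulVec_add, Matrix.mulVec_smul, Matrix.mulVec_smul, hcancel', ← ha, ← ha', hcancel']
        clear_value E
        convert mul_mem (mul_mem (mul_mem hhM hEM) (inv_mem hhM)) (inv_mem hEM) using 1
        refine eq_mul_inv_of_mul_eq (eq_mul_inv_of_mul_eq ?_)
        refine Units.ext (Matrix.ext_iff_mulVec.2 fun z => ?_)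
        rw [Units.val_mul, Units.val_mul, Units.val_mul, ← Matrix.mulVec_mulVec, ← Matrix.mulVec_mulVec,
          ← Matrix.mulVec_mulVec, hR, hEz, hEz, hh, hlong u₁ x₁ hu₁ r1 hx₁, hlong u₁ x₁ hu₁ r1 hx₁, hc]
        simp only [map_add, map_sub, map_smul, LinearMap.add_apply, LinearMap.sub_apply, LinearMap.smul_apply,
          smul_eq_mul, o1, o2, r2, r3, B_comm x₁ u₁, r1, B_self, hu₁, B_comm u₁ a, o3, B_comm u₁ a', o4, B_comm x₁ a, B_comm x₁ a']
        module
      · obtain ⟨t, rfl⟩ := Submodule.mem_span_singleton.1 h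
        rw [hc]
        exact Submodule.smul_mem _ _ (add_mem (Submodule.smul_mem _ _ (Submodule.subset_span ⟨0, rfl⟩))
          (Submodule.smul_mem _ _ (Submodule.subset_span ⟨1, rfl⟩)))
  obtain ⟨hwb0, -⟩ := id hwb
  have hroot : ∀ a z, A w a → a ∉ Submodule.span F (Set.range ![w, z]) → P z = 0 → B P w z = 0 → B P a z = 0 →
      ∀ t : F, A w (t • z) := by
    intro a z ha han hz hwz haz t
    obtain ⟨y, hy, hy', hay⟩ := iso1 hP h2 hn (by norm_num : (2 : ℕ) ≤ 4) ![w, z] han
    have hwy : B P w y = 0 := hy' 0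
    have hzy : B P z y = 0 := hy' 1
    have hyz : B P y ((t / B P a y) • z) = 0 := by rw [map_smul, B_comm y z, hzy, smul_zero]
    have hz' : P ((t / B P a y) • z) = 0 := by rw [Q_smul, hz, mul_zero]
    have h1 := hconj _ (hSM y _ hy hyz) w a ((S y _ hy hyz).1.1 *ᵥ a) ha fun x => B_gen (S y _ hy hyz) x a
    rw [hlong y _ hy hyz hz' w, hwy, map_smul, hwz, smul_zero, zero_smul, zero_smul, add_zero, sub_zero,
      hlong y _ hy hyz hz' a, map_smul, haz, smul_zero, zero_smul, sub_zero, smul_smul,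
      mul_div_cancel₀ _ hay] at h1
    have := hAadd _ _ _ h1 (hAneg _ _ ha)
    rwa [show a + t • z + -a = t • z by abel] at this
  let W : Submodule F (Fin n → F) :=
    { carrier := {a | ∀ t : F, A w (t • a)}
      add_mem' := fun {a b} ha hb t => by rw [smul_add]; exact hAadd _ _ _ (ha t) (hb t)
      zero_mem' := fun t => by rw [smul_zero]; exact hAzero w
      smul_mem' := fun c a ha t => by rw [smul_smul]; exact ha _ }
  have hrange : Set.range (fun _ : Fin 1 => w) = {w} := Set.range_const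
  have hiso0 : ∀ z, P z = 0 → B P w z = 0 → z ∉ Submodule.span F {w} → z ∈ W := fun z hz hwz hzn => by
    obtain ⟨z₁, hz₁, hz₁', hz₁n⟩ := iso_out hP h2 hn (by norm_num : (3 : ℕ) ≤ 4) ![w, b, z]
    have e1 : B P w z₁ = 0 := hz₁' 0
    have e2 : B P b z₁ = 0 := hz₁' 1
    have e3 : B P z z₁ = 0 := hz₁' 2
    have hm : ∀ i, (![w, b, z] : Fin 3 → Fin n → F) i ∈ Submodule.span F (Set.range ![w, b, z]) :=
      fun i => Submodule.subset_span ⟨i, rfl⟩
    have h1 : b ∉ Submodule.span F (Set.range ![w, z₁]) := fun h => by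
      obtain ⟨c, hc⟩ := (Submodule.mem_span_range_iff_exists_fun F).1 h
      simp only [Fin.sum_univ_two, Matrix.cons_val_zero, Matrix.cons_val_one] at hc
      by_cases hc1 : c 1 = 0
      · exact hbw (Submodule.mem_span_singleton.2 ⟨c 0, by rw [← hc, hc1, zero_smul, add_zero]⟩)
      · refine hz₁n ((Submodule.smul_mem_iff _ hc1).1 ?_)
        rw [show c 1 • z₁ = b - c 0 • w by rw [← hc]; abel]
        exact sub_mem (hm 1) (Submodule.smul_mem _ _ (hm 0))
    have hz₁A : A w z₁ := by simpa using hroot b z₁ hwb h1 hz₁ e1 e2 1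
    have h3 : z₁ ∉ Submodule.span F (Set.range ![w, z]) := fun h => hz₁n (by
      refine Submodule.span_le.2 ?_ h
      rintro _ ⟨i, rfl⟩
      fin_cases i
      · exact hm 0
      · exact hm 2)
    exact hroot z₁ z hz₁A h3 hz hwz (by rw [B_comm]; exact e3)
  let C : (Fin n → F) → Prop := fun v => ∀ a, B P v a = 0 → A v a
  have hCw : C w := fun a ha => by
    suffices h : a ∈ W by simpa using h 1
    by_contra hna
    obtain ⟨h, hh, hah⟩ := sep hP hna
    have hhn : h ∉ Submodule.span F (Set.range fun _ : Fin 1 => w) := by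
      rw [hrange]; intro h'; obtain ⟨c, rfl⟩ := Submodule.mem_span_singleton.1 h'
      exact hah (by rw [map_smul, B_comm, ha, smul_zero])
    obtain ⟨e, he, hew, heh⟩ := iso1 hP h2 hn (by norm_num : (1 : ℕ) ≤ 4) (fun _ : Fin 1 => w) hhn
    by_cases hes : e ∈ Submodule.span F {w}
    · obtain ⟨c, rfl⟩ := Submodule.mem_span_singleton.1 hes
      obtain ⟨r, hr, hrw, hrn⟩ := iso_out hP h2 hn (by norm_num : (1 : ℕ) ≤ 4) (fun _ : Fin 1 => w)
      rw [hrange] at hrn
      have hrwc : B P w (r + c • w) = 0 := by rw [map_add, hrw 0, hew 0, add_zero]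
      have h1 := hiso0 (r + c • w) (by rw [Q_add, hr, he, map_smul, B_comm, hrw 0, smul_zero]; ring) hrwc
        (fun h' => hrn ((Submodule.add_mem_iff_left _ hes).1 h'))
      have := W.sub_mem h1 (hiso0 r hr (hrw 0) hrn)
      rw [add_sub_cancel_left] at this
      exact heh (by rw [B_comm]; exact hh _ this)
    · exact heh (by rw [B_comm]; exact hh e (hiso0 e he (hew 0) hes))
  have hCmap : ∀ h ∈ M, ∀ v, C v → C (h.1 *ᵥ v) := fun h hh v hv b hb => by
    obtain ⟨a, ha⟩ := rep ((B P b).comp (Matrix.mulVecLin h.1))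
    have ha' : ∀ x, B P (h.1 *ᵥ x) b = B P x a := fun x => by
      rw [ha, LinearMap.comp_apply, Matrix.mulVecLin_apply, B_comm]
    exact hconj h hh v a b (hv a (by rw [← ha']; exact hb)) ha'
  have hCsmul : ∀ v (c : F), C v → C (c • v) := fun v c hv a ha => by
    refine ⟨ha, ?_⟩
    by_cases hc : c = 0
    · rw [show R (c • v) a ha = 1 from Units.ext (Matrix.ext_iff_mulVec.2 fun x => by
        rw [hR, hc, zero_smul, smul_zero, add_zero, Units.val_one, Matrix.one_mulVec])]
      exact one_mem M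
    · have h0 : B P v (c • a) = 0 := by
        rw [map_smul, ← LinearMap.smul_apply, ← map_smul]; exact ha
      obtain ⟨h', hm⟩ := hv _ h0
      convert hm using 1
      refine Units.ext (Matrix.ext_iff_mulVec.2 fun x => ?_)
      rw [hR, hR, map_smul, smul_eq_mul, smul_smul, mul_comm]
  let V : Submodule F (Fin n → F) :=
    { carrier := {v | C v}
      add_mem' := fun {v v'} hv hv' => by
        by_cases hdep : v ∈ Submodule.span F {v'}
        · obtain ⟨c, rfl⟩ := Submodule.mem_span_singleton.1 hdep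
          show C (c • v' + v')
          rw [show c • v' + v' = (c + 1) • v' by module]
          exact hCsmul _ _ hv'
        · obtain ⟨a, ha, hva⟩ := sep hP hdep
          obtain ⟨h', hm⟩ := hv' ((B P v a)⁻¹ • a) (by rw [map_smul, ha v' (Submodule.mem_span_singleton_self _), smul_zero])
          have := hCmap _ hm v hv
          rwa [hR, map_smul, smul_eq_mul, inv_mul_cancel₀ hva, one_smul] at this
      zero_mem' := by
        show C 0
        have := hCsmul w 0 hCw
        rwa [zero_smul] at this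
      smul_mem' := fun c v hv => hCsmul v c hv }
  have hVstep : ∀ v, v ∈ V → v ≠ 0 → ∀ z, P z = 0 → B P v z = 0 → v ∉ Submodule.span F {z} → z ∈ V := by
    intro v hv hv0 z hz hvz hvn
    obtain ⟨u, hu, hu', hvu⟩ := iso1 hP h2 hn (by norm_num : (1 : ℕ) ≤ 4) (fun _ : Fin 1 => z)
      (x := v) (by rw [Set.range_const]; exact hvn)
    have huz : B P u z = 0 := by rw [B_comm]; exact hu' 0
    have h1 : (S u z hu huz).1.1 *ᵥ v ∈ V := hCmap _ (hSM u z hu huz) v hv
    rw [hlong u z hu huz hz, hvz, zero_smul, sub_zero, V.add_mem_iff_right hv, V.smul_mem_iff hvu] at h1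
    exact h1
  have hVtop : ∀ v, v ∈ V := fun v => by
    by_contra hv
    obtain ⟨h, hh, hvh⟩ := sep hP hv
    obtain ⟨z, hz, -, hhz⟩ := iso1 hP h2 hn (by norm_num : (0 : ℕ) ≤ 4) (Fin.elim0 : Fin 0 → (Fin n → F)) (x := h)
      (by rw [Set.range_eq_empty, Submodule.span_empty]; intro h0
          exact hvh (by rw [(Submodule.mem_bot F).1 h0, map_zero]))
    obtain ⟨r, hr, hr', hrn⟩ := iso_out hP h2 hn (by norm_num : (2 : ℕ) ≤ 4) ![w, z]
    have hwr : B P w r = 0 := hr' 0
    have hzr : B P z r = 0 := hr' 1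
    have hm : ∀ i, (![w, z] : Fin 2 → Fin n → F) i ∈ Submodule.span F (Set.range ![w, z]) :=
      fun i => Submodule.subset_span ⟨i, rfl⟩
    have hrV : r ∈ V := hVstep w hCw hw r hr hwr fun h' => by
      obtain ⟨c, hc⟩ := Submodule.mem_span_singleton.1 h'
      have hc0 : c ≠ 0 := fun e => hw (by rw [← hc, e, zero_smul])
      refine hrn ((Submodule.smul_mem_iff _ hc0).1 ?_)
      rw [hc]; exact hm 0
    have hr0 : r ≠ 0 := fun e => hrn (e ▸ Submodule.zero_mem _)
    have hzV : z ∈ V := hVstep r hrV hr0 z hz (by rw [B_comm]; exact hzr) fun h' => by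
      obtain ⟨c, hc⟩ := Submodule.mem_span_singleton.1 h'
      exact hrn (by rw [← hc]; exact Submodule.smul_mem _ _ (hm 1))
    exact hhz (by rw [B_comm]; exact hh z hzV)
  haveI : Nontrivial (Fin n) := ⟨⟨⟨0, by omega⟩, ⟨1, by omega⟩, by simp [Fin.ext_iff]⟩⟩
  have htop : M.comap (Matrix.SpecialLinearGroup.toGL : Matrix.SpecialLinearGroup (Fin n) F →* GL (Fin n) F) = ⊤ := by
    refine CfsgLib.Linear.Generation.eq_top_of_transvection_mem _ fun i j hij c => ?_
    rw [Subgroup.mem_comap]
    obtain ⟨a, ha⟩ := rep (c • LinearMap.proj j)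
    have h0 : B P (Pi.single i 1) a = 0 := by rw [ha]; simp [Pi.single_eq_of_ne hij.symm]
    obtain ⟨h', hm⟩ := hVtop _ a h0
    convert hm using 1
    refine Units.ext (Matrix.ext_iff_mulVec.2 fun y => ?_)
    rw [hR, ha]
    show (Matrix.SpecialLinearGroup.transvection hij c).1 *ᵥ y = _
    rw [Matrix.SpecialLinearGroup.transvection_coe, Matrix.add_mulVec, Matrix.one_mulVec, Matrix.single_mulVec_eq]
    simp
  intro x hx
  have hxd : x.1.det = 1 := congrArg Units.val (MonoidHom.mem_ker.1 hx)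
  have hmem : ∀ y : Matrix.SpecialLinearGroup (Fin n) F, Matrix.SpecialLinearGroup.toGL y ∈ M := fun y =>
    Subgroup.mem_comap.1 (htop.symm ▸ Subgroup.mem_top y)
  exact (show Matrix.SpecialLinearGroup.toGL (⟨x.1, hxd⟩ : Matrix.SpecialLinearGroup (Fin n) F) = x from Units.ext rfl) ▸ hmem _

end Cfsg.Agent.S5644
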