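import Cfsg.Statements.S5645
import Cfsg.Agent.Lib.MaxSub.SpStab

set_option autoImplicit false
open Cfsg

namespace Cfsg.Agent.S5645

open scoped Matrix
open CfsgLib.Symplectic.Basic CfsgLib.MaxSub.SpStab

/-- For a finite field F and m ≥ 7, in the symplectic group Sp_2m(F) of the standard alternating form on F^(2m) (as a subgroup of GL_2m(F)), the stabiliser of any non-zero subspace on which the form vanishes identically is a maximal subgroup. -/
theorem result {F : Type*} [Field F] [Fintype F] (m : ℕ) (hm : 7 ≤ m) (W : Submodule F (Fin m ⊕ Fin m → F)) (hW0 : W ≠ ⊥) (hW : Cfsg.Geo.IsTotallySingularFor (Cfsg.sympForm m F) W) : Cfsg.Geo.IsMaximalIn (Cfsg.spGL m F) (Cfsg.Geo.subspaceStabilizer W ⊓ Cfsg.spGL m F) := by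
  have hW' : ∀ u ∈ W, ∀ v ∈ W, B u v = 0 := fun u hu v hv => by rw [B_eq]; exact hW u hu v hv
  refine maximal ?_ fun N hN g hg hgW => singular_top hW' N hN hg hgW
  obtain ⟨w, hw, hw0⟩ := W.exists_mem_ne_zero_of_ne_bot hW0
  obtain ⟨z, hz⟩ := exists_B_eq_one hw0
  refine ⟨T z 1, fun h => ?_⟩
  have h1 := h w hw
  rw [T_apply, hz, one_mul, one_smul, W.add_mem_iff_right hw] at h1
  have := hW' w hw z h1
  rw [hz] at this
  exact one_ne_zero this

end Cfsg.Agent.S5645
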