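import Cfsg.Statements.S5646
import Cfsg.Agent.Lib.MaxSub.SpStab

set_option autoImplicit false
open Cfsg

namespace Cfsg.Agent.S5646

open scoped Matrix
open CfsgLib.Symplectic.Basic CfsgLib.MaxSub.SpStab

/-- For a finite field F and m ≥ 7, in the symplectic group Sp_2m(F) of the standard alternating form on F^(2m), the stabiliser of any non-zero subspace W on which the form is non-degenerate and with dim W < m is a maximal subgroup. -/
theorem result {F : Type*} [Field F] [Fintype F] (m : ℕ) (hm : 7 ≤ m) (W : Submodule F (Fin m ⊕ Fin m → F)) (hW0 : W ≠ ⊥) (hW : Cfsg.Geo.IsNondegenerateOn (Cfsg.sympForm m F) W) (hdim : Module.finrank F W < m) : Cfsg.Geo.IsMaximalIn (Cfsg.spGL m F) (Cfsg.Geo.subspaceStabilizer W ⊓ Cfsg.spGL m F) := by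
  have hW' : ∀ x ∈ W, x ≠ 0 → ∃ z ∈ W, B x z ≠ 0 := fun x hx h0 => by
    obtain ⟨-, z, hz, hne⟩ := hW x hx h0
    exact ⟨z, hz, by rw [B_eq]; exact hne⟩
  refine maximal ?_ fun N hN g hg hgW => nondeg_top hW0 hW' hdim N hN hg hgW
  obtain ⟨w, hw, hw0⟩ := W.exists_mem_ne_zero_of_ne_bot hW0
  have hne : W ≠ ⊤ := fun h => by
    rw [h, finrank_top, Module.finrank_fintype_fun_eq_card, Fintype.card_sum, Fintype.card_fin] at hdim
    omega
  obtain ⟨v, -, hv⟩ := SetLike.exists_of_lt (lt_top_iff_ne_top.2 hne)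
  have hv0 : v ≠ 0 := fun h => hv (h ▸ W.zero_mem)
  obtain ⟨A, hA⟩ := exists_map_vec hw0 hv0
  exact ⟨A, fun h => hv (hA ▸ h w hw)⟩

end Cfsg.Agent.S5646
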