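import Cfsg.Statements.S5647
import Cfsg.Agent.Lib.MaxSub.SpStab

set_option autoImplicit false
open Cfsg

namespace Cfsg.Agent.S5647

open scoped Matrix
open CfsgLib.Symplectic.Basic (V Sp T T_apply mem_iff mulVec_mul mulVec_inv_cancel B_self B_swap B_eq B_map eq_zero_of_B_left exists_B_eq_one)
open CfsgLib.MaxSub.SpStab (C C_map C_smul top_of_C)

local notation "Bs" => CfsgLib.Symplectic.Basic.B

variable {F : Type*} [Field F] [Fintype F] {m : ℕ}

/-- Nondegenerate alternating subspaces of the same dimension are isometric. -/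
theorem exists_isometry : ∀ (d : ℕ) (U W : Submodule F (V m F)), Module.finrank F U = d → Module.finrank F W = d →
    (∀ x ∈ U, x ≠ 0 → ∃ z ∈ U, Bs x z ≠ 0) → (∀ x ∈ W, x ≠ 0 → ∃ z ∈ W, Bs x z ≠ 0) →
    ∃ φ : V m F →ₗ[F] V m F, (∀ x ∈ U, φ x ∈ W) ∧ ∀ x ∈ U, ∀ y ∈ U, Bs (φ x) (φ y) = Bs x y := by
  intro d
  induction d using Nat.strong_induction_on with
  | _ d ih =>
    intro U W hU hW hUn hWn
    by_cases hd : d = 0
    · refine ⟨0, fun x _ => W.zero_mem, fun x hx y hy => ?_⟩
      rw [hd, Submodule.finrank_eq_zero] at hU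
      rw [hU, Submodule.mem_bot] at hx
      rw [hx, map_zero, map_zero, LinearMap.zero_apply, LinearMap.zero_apply]
    have pair : ∀ X : Submodule F (V m F), Module.finrank F X = d → (∀ x ∈ X, x ≠ 0 → ∃ z ∈ X, Bs x z ≠ 0) →
        ∃ e f X', e ∈ X ∧ f ∈ X ∧ Bs e f = 1 ∧ X' ≤ X ∧ (∀ x ∈ X', Bs x e = 0 ∧ Bs x f = 0) ∧
          (∀ x ∈ X, x - Bs x f • e + Bs x e • f ∈ X') ∧ Module.finrank F X' + 2 = d ∧
          (∀ x ∈ X', x ≠ 0 → ∃ z ∈ X', Bs x z ≠ 0) := by
      intro X hX hXn
      obtain ⟨e, he, he0⟩ := X.exists_mem_ne_zero_of_ne_bot (fun h => hd (by rw [← hX, h, finrank_bot]))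
      obtain ⟨f₁, hf₁, hef₁⟩ := hXn e he he0
      set f := (Bs e f₁)⁻¹ • f₁ with hfdef
      have hf : f ∈ X := X.smul_mem _ hf₁
      have hef : Bs e f = 1 := by rw [hfdef, map_smul, smul_eq_mul, inv_mul_cancel₀ hef₁]
      clear_value f
      have hfe : Bs f e = -1 := by rw [B_swap, hef]
      let X' : Submodule F (V m F) := X ⊓ LinearMap.ker (Bs e) ⊓ LinearMap.ker (Bs f)
      have hX' : ∀ x ∈ X', Bs x e = 0 ∧ Bs x f = 0 := fun x hx =>
        ⟨by rw [B_swap, LinearMap.mem_ker.1 hx.1.2, neg_zero], by rw [B_swap, LinearMap.mem_ker.1 hx.2, neg_zero]⟩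
      have hproj : ∀ x ∈ X, x - Bs x f • e + Bs x e • f ∈ X' := fun x hx => by
        refine ⟨⟨X.add_mem (X.sub_mem hx (X.smul_mem _ he)) (X.smul_mem _ hf), LinearMap.mem_ker.2 ?_⟩, LinearMap.mem_ker.2 ?_⟩
        · rw [map_add, map_sub, map_smul, map_smul, B_self, hef, B_swap e x]; simp
        · rw [map_add, map_sub, map_smul, map_smul, B_self, hfe, B_swap f x]; simp
      refine ⟨e, f, X', he, hf, hef, fun x hx => hx.1.1, hX', hproj, ?_, fun x hx hx0 => ?_⟩
      · let ψ : X →ₗ[F] F × F := ((Bs e).comp X.subtype).prod ((Bs f).comp X.subtype)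
        have hsurj : Function.Surjective ψ := fun p => ⟨⟨p.1 • f - p.2 • e, X.sub_mem (X.smul_mem _ hf) (X.smul_mem _ he)⟩, by
          show (Bs e (p.1 • f - p.2 • e), Bs f (p.1 • f - p.2 • e)) = p
          simp only [map_sub, map_smul, smul_eq_mul, B_self, hef, hfe]
          refine Prod.ext ?_ ?_ <;> simp⟩
        have h1 := ψ.finrank_range_add_finrank_ker
        rw [LinearMap.range_eq_top.2 hsurj, finrank_top, Module.finrank_prod, Module.finrank_self, hX] at h1
        have h2 : X' = (LinearMap.ker ψ).map X.subtype := by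
          ext x
          refine ⟨fun hx => ⟨⟨x, hx.1.1⟩, LinearMap.mem_ker.2 (Prod.ext (LinearMap.mem_ker.1 hx.1.2) (LinearMap.mem_ker.1 hx.2)), rfl⟩, ?_⟩
          rintro ⟨y, hy, rfl⟩
          exact ⟨⟨y.2, congrArg Prod.fst (LinearMap.mem_ker.1 hy)⟩, congrArg Prod.snd (LinearMap.mem_ker.1 hy)⟩
        rw [h2, (Submodule.equivMapOfInjective _ X.injective_subtype _).finrank_eq.symm]
        omega
      · obtain ⟨z, hz, hxz⟩ := hXn x hx.1.1 hx0
        refine ⟨_, hproj z hz, ?_⟩
        rw [map_add, map_sub, map_smul, map_smul, (hX' x hx).1, (hX' x hx).2]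
        simpa using hxz
    obtain ⟨e, f, U', he, hf, hef, -, hU', hUp, hUd, hUn'⟩ := pair U hU hUn
    obtain ⟨e', f', W', he', hf', hef', hWle, hW', -, hWd, hWn'⟩ := pair W hW hWn
    obtain ⟨φ, hφ, hφB⟩ := ih (Module.finrank F U') (by omega) U' W' rfl (by omega) hUn' hWn'
    refine ⟨((Bs).flip f).smulRight e' - ((Bs).flip e).smulRight f' +
      φ.comp (LinearMap.id - ((Bs).flip f).smulRight e + ((Bs).flip e).smulRight f), fun x hx => ?_, fun x hx y hy => ?_⟩
    · simp only [LinearMap.add_apply, LinearMap.sub_apply, LinearMap.smulRight_apply, LinearMap.comp_apply,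
        LinearMap.id_apply, LinearMap.BilinForm.flip_apply]
      exact W.add_mem (W.sub_mem (W.smul_mem _ he') (W.smul_mem _ hf')) (hWle (hφ _ (hUp x hx)))
    · simp only [LinearMap.add_apply, LinearMap.sub_apply, LinearMap.smulRight_apply, LinearMap.comp_apply,
        LinearMap.id_apply, LinearMap.BilinForm.flip_apply]
      have a1 := hW' _ (hφ _ (hUp x hx))
      have a2 := hW' _ (hφ _ (hUp y hy))
      have a3 := hφB _ (hUp x hx) _ (hUp y hy)
      have hb := B_swap e' (φ (y - Bs y f • e + Bs y e • f))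
      have hb' := B_swap f' (φ (y - Bs y f • e + Bs y e • f))
      rw [a2.1, neg_zero] at hb
      rw [a2.2, neg_zero] at hb'
      simp only [map_add, map_sub, map_smul, LinearMap.add_apply, LinearMap.sub_apply, LinearMap.smul_apply, smul_eq_mul,
        B_self, hef, hef', B_swap f' e', B_swap f e, B_swap e y, B_swap f y] at a1 a2 a3 hb hb' ⊢
      linear_combination a3 + (Bs x f) * hb - (Bs x e) * hb' + (Bs y f) * a1.1 - (Bs y e) * a1.2

/-- For a finite field F with q elements and m ≥ 7, let D be a decomposition of F^(2m) into t ≥ 2 pairwise orthogonal subspaces of equal dimension k on each of which the standard alternating form is non-degenerate, spanning F^(2m). Unless k = 2 and q = 2, the elements of Sp_2m(F) permuting the members of D form a maximal subgroup of Sp_2m(F). -/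
theorem result {F : Type*} [Field F] [Fintype F] (m : ℕ) (hm : 7 ≤ m) {t : ℕ} (k : ℕ) (D : Fin t → Submodule F (Fin m ⊕ Fin m → F)) (hD : Cfsg.Geo.IsNondegenerateMDecomposition (Cfsg.sympForm m F) k D) (hex : ¬ (k = 2 ∧ Fintype.card F = 2)) : Cfsg.Geo.IsMaximalIn (Cfsg.spGL m F) (Cfsg.Geo.decompositionStabilizer D ⊓ Cfsg.spGL m F) := by
  classical
  let e := CfsgLib.Symplectic.Simple.toSpGL (m := m) (F := F)
  have hmemv : ∀ (A : Sp m F), (e A).1 ∈ Cfsg.Geo.decompositionStabilizer D ↔
      ∃ σ : Equiv.Perm (Fin t), ∀ i, (D i).map (Matrix.toLin' A.1) = D (σ i) := fun A => Iff.rfl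
  have hnd : ∀ i, ∀ x ∈ D i, x ≠ 0 → ∃ z ∈ D i, Bs x z ≠ 0 := fun i x hx hx0 => by
    obtain ⟨z, hz, h⟩ := (hD.nondegenerate i x hx hx0).2
    exact ⟨z, hz, by rw [B_eq]; exact h⟩
  have horth : ∀ i j, i ≠ j → ∀ x ∈ D i, ∀ y ∈ D j, Bs x y = 0 := fun i j hij x hx y hy => by
    rw [B_eq]; exact hD.orthogonal i j hij x hx y hy
  have hint : DirectSum.IsInternal D :=
    (DirectSum.isInternal_submodule_iff_iSupIndep_and_iSup_eq_top D).2 ⟨hD.decomp.indep, hD.decomp.iSup_eq_top⟩
  let E := LinearEquiv.ofBijective (DirectSum.coeLinearMap D) hint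
  let P : Fin t → (V m F →ₗ[F] V m F) := fun i =>
    (D i).subtype.comp ((DirectSum.component F (Fin t) (fun i => D i) i).comp E.symm.toLinearMap)
  have hPmem : ∀ i x, P i x ∈ D i := fun i x => SetLike.coe_mem _
  have hPsum : ∀ x, ∑ i, P i x = x := fun x => by
    conv_rhs => rw [← E.apply_symm_apply x, ← DirectSum.sum_univ_of (E.symm x)]
    rw [map_sum]
    refine Finset.sum_congr rfl fun i _ => ?_
    exact (DirectSum.coeLinearMap_of D i _).symm
  have hPself : ∀ i, ∀ x ∈ D i, ∀ j, P j x = if j = i then x else 0 := fun i x hx j => by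
    have h : E.symm x = DirectSum.of (fun i => D i) i ⟨x, hx⟩ := by
      rw [LinearEquiv.symm_apply_eq]; exact (DirectSum.coeLinearMap_of D i ⟨x, hx⟩).symm
    show ((DirectSum.component F (Fin t) (fun i => D i) j) (E.symm x) : V m F) = _
    rw [h]
    by_cases hji : j = i
    · subst hji
      rw [if_pos rfl]
      exact congrArg Subtype.val (DirectSum.of_eq_same (β := fun i => D i) j ⟨x, hx⟩)
    · rw [if_neg hji]
      exact congrArg Subtype.val (DirectSum.of_eq_of_ne (β := fun i => D i) i j ⟨x, hx⟩ hji)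
  have hBP : ∀ i x, ∀ y ∈ D i, Bs x y = Bs (P i x) y := fun i x y hy => by
    conv_lhs => rw [← hPsum x, map_sum, LinearMap.sum_apply]
    exact Finset.sum_eq_single i (fun j _ hj => horth j i hj _ (hPmem j x) y hy) (fun h => absurd (Finset.mem_univ i) h)
  have hBsum : ∀ x y, Bs x y = ∑ i, Bs (P i x) (P i y) := fun x y => by
    conv_lhs => rw [← hPsum y, map_sum]
    exact Finset.sum_congr rfl fun i _ => hBP i x _ (hPmem i y)
  have ext : ∀ x y, (∀ i, P i x = P i y) → x = y := fun x y h => by
    rw [← hPsum x, ← hPsum y]; exact Finset.sum_congr rfl fun i _ => h i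
  have hk : 2 ≤ k := by
    obtain ⟨x, hx, hx0⟩ := (D ⟨0, by have := hD.decomp.two_le; omega⟩).exists_mem_ne_zero_of_ne_bot (fun h => by
      have h1 := hD.decomp.finrank_eq ⟨0, by have := hD.decomp.two_le; omega⟩
      have h2 := hD.decomp.pos
      rw [h, finrank_bot] at h1; omega)
    obtain ⟨z, hz, hxz⟩ := hnd _ x hx hx0
    have hli : LinearIndependent F ![x, z] := by
      rw [LinearIndependent.pair_iff]
      intro a b hab
      have h1 := congrArg (Bs x) hab
      have h2 := congrArg (fun y => Bs y z) hab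
      simp only [map_add, map_smul, smul_eq_mul, B_self, map_zero, mul_zero, zero_add, LinearMap.add_apply,
        LinearMap.smul_apply, LinearMap.zero_apply] at h1 h2
      have hb : b = 0 := (mul_eq_zero.1 h1).resolve_right hxz
      refine ⟨?_, hb⟩
      rw [add_zero] at h2
      exact (mul_eq_zero.1 h2).resolve_right hxz
    have h3 := Submodule.finrank_mono (show Submodule.span F (Set.range ![x, z]) ≤ D _ from Submodule.span_le.2 (by
      rintro _ ⟨i, rfl⟩; fin_cases i <;> assumption))
    rw [finrank_span_eq_card hli, hD.decomp.finrank_eq] at h3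
    simpa using h3
  refine ⟨lt_of_le_of_ne inf_le_right fun heq => ?_, fun M hM hMK => or_iff_not_imp_left.2 fun hne => ?_⟩
  · -- a transvection moving a block
    have ht := hD.decomp.two_le
    obtain ⟨a, b, hab⟩ : ∃ a b : Fin t, a ≠ b := ⟨⟨0, by omega⟩, ⟨1, by omega⟩, by simp [Fin.ext_iff]⟩
    have hne0 : ∀ i, ∃ x ∈ D i, x ≠ 0 := fun i => (D i).exists_mem_ne_zero_of_ne_bot (fun h => by
      have h1 := hD.decomp.finrank_eq i
      rw [h, finrank_bot] at h1; omega)
    obtain ⟨da, hda, hda0⟩ := hne0 a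
    obtain ⟨db, hdb, hdb0⟩ := hne0 b
    obtain ⟨x, hx, hxd⟩ := hnd a da hda hda0
    obtain ⟨σ, hσ⟩ := (hmemv (T (da + db) 1)).1 (heq.ge (e (T (da + db) 1)).2).1
    have hx' : (T (da + db) 1).1 *ᵥ x ∈ D (σ a) := (hσ a).le ⟨x, hx, Matrix.toLin'_apply _ _⟩
    rw [T_apply, one_mul, map_add, horth a b hab x hx db hdb, add_zero] at hx'
    have hc : Bs x da ≠ 0 := by rw [B_swap]; exact neg_ne_zero.2 hxd
    have hb' := hPself (σ a) _ hx' b
    have ha' := hPself (σ a) _ hx' a
    simp only [map_add, map_smul, hPself a x hx, hPself a da hda, hPself b db hdb, if_neg hab, if_neg hab.symm, if_true,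
      zero_add, add_zero] at hb' ha'
    by_cases h1 : b = σ a
    · rw [if_neg (fun h => hab (h.trans h1.symm))] at ha'
      have := congrArg (Bs x) ha'
      rw [map_add, map_smul, B_self, map_zero, zero_add, smul_eq_mul, mul_self_eq_zero] at this
      exact hc this
    · rw [if_neg h1, smul_eq_zero] at hb'
      exact hb'.elim hc hdb0
  obtain ⟨g, hgM, hgH⟩ := SetLike.exists_of_lt (lt_of_le_of_ne hM (Ne.symm hne))
  obtain ⟨G, hG⟩ : ∃ G, (e G).1 = g := ⟨e.symm ⟨g, hMK hgM⟩, by simp⟩
  set N := M.comap ((Cfsg.spGL m F).subtype.comp e.toMonoidHom) with hNdef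
  suffices htop : N = ⊤ by
    refine le_antisymm hMK fun x hx => ?_
    obtain ⟨X, hX⟩ : ∃ X, (e X).1 = x := ⟨e.symm ⟨x, hx⟩, by simp⟩
    have : X ∈ N := htop ▸ Subgroup.mem_top X
    rw [← hX]; exact this
  have hGN : G ∈ N := by show (e G).1 ∈ M; rw [hG]; exact hgM
  have hN : ∀ A : Sp m F, (∃ σ : Equiv.Perm (Fin t), ∀ i, ∀ x ∈ D i, A.1 *ᵥ x ∈ D (σ i)) → A ∈ N := by
    rintro A ⟨σ, hσ⟩
    refine hM ⟨(hmemv A).2 ⟨σ, fun i => ?_⟩, (e A).2⟩
    refine Submodule.eq_of_le_of_finrank_eq (by rintro _ ⟨x, hx, rfl⟩; rw [Matrix.toLin'_apply]; exact hσ i x hx) ?_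
    rw [hD.decomp.finrank_eq]
    refine Eq.trans (Submodule.equivMapOfInjective _ (fun x y h => ?_) _).finrank_eq.symm (hD.decomp.finrank_eq i)
    rw [Matrix.toLin'_apply, Matrix.toLin'_apply] at h
    exact CfsgLib.MaxSub.SpStab.mulVec_inj A h
  have hCblock : ∀ i, ∀ v ∈ D i, C N v := fun i v hv c => hN _ ⟨1, fun j x hx => by
    rw [T_apply, Equiv.Perm.one_apply]
    by_cases hij : j = i
    · subst hij; exact (D j).add_mem hx ((D j).smul_mem _ hv)
    · rw [horth j i hij x hx v hv, mul_zero, zero_smul, add_zero]; exact hx⟩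
  have step : ∀ v w, C N v → C N w → Bs v w ≠ 0 → C N (v + w) := fun v w hv hw hne => by
    have := C_map (hw (Bs v w)⁻¹) hv
    rwa [T_apply, inv_mul_cancel₀ hne, one_smul] at this
  have mid : ∀ i, ∀ x ∈ D i, ∀ z ∈ D i, x ≠ 0 → z ≠ 0 → ∃ y ∈ D i, Bs x y ≠ 0 ∧ Bs y z ≠ 0 := fun i x hx z hz hx0 hz0 => by
    obtain ⟨a, ha, ha'⟩ := hnd i x hx hx0
    obtain ⟨b, hb, hb'⟩ := hnd i z hz hz0
    by_cases h1 : Bs a z = 0
    · by_cases h2 : Bs x b = 0
      · exact ⟨a + b, (D i).add_mem ha hb, by rw [map_add, h2, add_zero]; exact ha',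
          by rw [map_add, LinearMap.add_apply, h1, zero_add, B_swap]; exact neg_ne_zero.2 hb'⟩
      · exact ⟨b, hb, h2, by rw [B_swap]; exact neg_ne_zero.2 hb'⟩
    · exact ⟨a, ha, ha', h1⟩
  have shift1 : ∀ v i, ∀ z ∈ D i, C N v → Bs (P i v) z ≠ 0 → C N (v - P i v + z) := fun v i z hz hv hne => by
    have h1 : z - P i v ∈ D i := (D i).sub_mem hz (hPmem i v)
    have := step v (z - P i v) hv (hCblock i _ h1) (by rw [hBP i v _ h1, map_sub, B_self, sub_zero]; exact hne)
    rwa [show v + (z - P i v) = v - P i v + z by abel] at this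
  have hPshift : ∀ v i, ∀ z ∈ D i, ∀ j, P j (v - P i v + z) = if j = i then z else P j v := fun v i z hz j => by
    rw [map_add, map_sub, hPself i _ (hPmem i v), hPself i z hz]
    by_cases h : j = i
    · subst h; simp
    · simp [if_neg h]
  have shift : ∀ v i, ∀ z ∈ D i, C N v → P i v ≠ 0 → z ≠ 0 → C N (v - P i v + z) := fun v i z hz hv hv0 hz0 => by
    obtain ⟨y, hy, hy1, hy2⟩ := mid i _ (hPmem i v) z hz hv0 hz0
    have e1 := shift1 v i y hy hv hy1
    have hPy : P i (v - P i v + y) = y := by rw [hPshift v i y hy i, if_pos rfl]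
    have e2 := shift1 _ i z hz e1 (by rw [hPy]; exact hy2)
    rwa [hPy, add_sub_cancel_right] at e2
  -- only the support matters
  have support : ∀ v w, C N v → (∀ i, P i v = 0 ↔ P i w = 0) → C N w := by
    intro v w hv hvw
    have : ∀ S : Finset (Fin t), C N (∑ i, if i ∈ S then P i w else P i v) := by
      intro S
      induction S using Finset.induction_on with
      | empty => simp only [Finset.notMem_empty, if_false, hPsum]; exact hv
      | @insert a S ha ih =>
        set u := ∑ i, if i ∈ S then P i w else P i v with hu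
        have hPu : ∀ j, P j u = if j ∈ S then P j w else P j v := fun j => by
          rw [hu, map_sum]
          refine (Finset.sum_eq_single j (fun i _ hij => ?_) (fun h => absurd (Finset.mem_univ j) h)).trans ?_
          · split_ifs <;> rw [hPself i _ (hPmem i _), if_neg hij.symm]
          · split_ifs <;> rw [hPself j _ (hPmem j _), if_pos rfl]
        have hua : P a u = P a v := by rw [hPu, if_neg ha]
        have hnew : (∑ i, if i ∈ insert a S then P i w else P i v) = u - P a u + P a w := by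
          refine ext _ _ fun j => ?_
          rw [hPshift u a _ (hPmem a w), hPu, map_sum]
          refine (Finset.sum_eq_single j (fun i _ hij => ?_) (fun h => absurd (Finset.mem_univ j) h)).trans ?_
          · split_ifs <;> rw [hPself i _ (hPmem i _), if_neg hij.symm]
          · by_cases hja : j = a
            · subst hja; rw [if_pos rfl, if_pos (Finset.mem_insert_self _ _), hPself j _ (hPmem j _), if_pos rfl]
            · rw [if_neg hja]
              simp only [Finset.mem_insert, hja, false_or]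
              split_ifs <;> rw [hPself j _ (hPmem j _), if_pos rfl]
        rw [hnew]
        by_cases h0 : P a v = 0
        · rw [hua, h0, (hvw a).1 h0, sub_zero, add_zero]; exact ih
        · exact shift u a _ (hPmem a w) ih (by rw [hua]; exact h0) (fun h => h0 ((hvw a).2 h))
    have h := this Finset.univ
    simpa only [Finset.mem_univ, if_true, hPsum] using h
  -- a vector outside the blocks
  obtain ⟨v, hv, a, b, hab, hva, hvb⟩ : ∃ v, C N v ∧ ∃ a b, a ≠ b ∧ P a v ≠ 0 ∧ P b v ≠ 0 := by
    by_contra hcon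
    simp only [not_exists, not_and, not_not] at hcon
    have hblock : ∀ i, ∀ x ∈ D i, x ≠ 0 → ∃ j, G.1 *ᵥ x ∈ D j := fun i x hx hx0 => by
      have hC := C_map hGN (hCblock i x hx)
      obtain ⟨a, ha⟩ : ∃ a, P a (G.1 *ᵥ x) ≠ 0 := by
        by_contra h
        simp only [not_exists, not_not] at h
        exact hx0 (CfsgLib.MaxSub.SpStab.mulVec_inj G (by rw [Matrix.mulVec_zero, ← hPsum (G.1 *ᵥ x)]; simp [h]))
      refine ⟨a, ?_⟩
      rw [← hPsum (G.1 *ᵥ x), Finset.sum_eq_single a (fun j _ hj => ?_) (fun h => absurd (Finset.mem_univ a) h)]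
      · exact hPmem a _
      · by_contra h
        exact h (hcon _ hC a j hj.symm ha)
    have hdim0 : ∀ i, ∃ x ∈ D i, x ≠ 0 := fun i => (D i).exists_mem_ne_zero_of_ne_bot (fun h => by
      have h1 := hD.decomp.finrank_eq i
      rw [h, finrank_bot] at h1; omega)
    choose x₀ hx₀ hx₀0 using hdim0
    choose j hj using fun i => hblock i (x₀ i) (hx₀ i) (hx₀0 i)
    have huniq : ∀ u : V m F, u ≠ 0 → ∀ a b, u ∈ D a → u ∈ D b → a = b := fun u hu a b ha hb => by
      by_contra h
      have h1 := hPself a u ha a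
      have h2 := hPself b u hb a
      rw [if_pos rfl] at h1
      rw [if_neg h, h1] at h2
      exact hu h2
    have hne : ∀ {x : V m F}, x ≠ 0 → G.1 *ᵥ x ≠ 0 := fun {x} hx h => hx (CfsgLib.MaxSub.SpStab.mulVec_inj G (by rw [h, Matrix.mulVec_zero]))
    have hinto : ∀ i, ∀ x ∈ D i, G.1 *ᵥ x ∈ D (j i) := fun i x hx => by
      by_cases hx0 : x = 0
      · rw [hx0, Matrix.mulVec_zero]; exact (D (j i)).zero_mem
      obtain ⟨a, ha⟩ := hblock i x hx hx0
      by_contra hnot
      have haj : a ≠ j i := fun h => hnot (h ▸ ha)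
      have hsum0 : x + x₀ i ≠ 0 := fun h => hnot (by
        rw [eq_neg_of_add_eq_zero_left h, Matrix.mulVec_neg]; exact (D (j i)).neg_mem (hj i))
      obtain ⟨b, hb⟩ := hblock i _ ((D i).add_mem hx (hx₀ i)) hsum0
      rw [Matrix.mulVec_add] at hb
      have e1 := hPself b _ hb a
      have e2 := hPself b _ hb (j i)
      rw [map_add, hPself a _ ha, if_pos rfl, hPself _ _ (hj i), if_neg haj, add_zero] at e1
      rw [map_add, hPself a _ ha, if_neg haj.symm, hPself _ _ (hj i), if_pos rfl, zero_add] at e2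
      by_cases hba : a = b
      · rw [if_neg (fun h => haj (hba.trans h.symm))] at e2; exact hne (hx₀0 i) e2
      · rw [if_neg hba] at e1; exact hne hx0 e1
    have hjsurj : Function.Surjective j := fun a => by
      obtain ⟨y, hy, hy0⟩ : ∃ y ∈ D a, y ≠ 0 := ⟨x₀ a, hx₀ a, hx₀0 a⟩
      obtain ⟨x, rfl⟩ : ∃ x, G.1 *ᵥ x = y := ⟨(G⁻¹).1 *ᵥ y, by rw [← mulVec_mul, mul_inv_cancel, Submonoid.coe_one, Matrix.one_mulVec]⟩
      by_contra h
      simp only [not_exists] at h
      refine hy0 ?_
      have e1 := hPself a _ hy a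
      rw [if_pos rfl] at e1
      rw [← e1, ← hPsum x, Matrix.mulVec_sum, map_sum]
      exact Finset.sum_eq_zero fun i _ => by rw [hPself _ _ (hinto i _ (hPmem i x)), if_neg (fun h' => h i h'.symm)]
    have hjinj := (Finite.injective_iff_surjective).2 hjsurj
    refine hgH (hG ▸ ⟨(hmemv G).2 ⟨Equiv.ofBijective j ⟨hjinj, hjsurj⟩, fun i => ?_⟩, (e G).2⟩)
    refine Submodule.eq_of_le_of_finrank_eq (by rintro _ ⟨x, hx, rfl⟩; rw [Matrix.toLin'_apply]; exact hinto i x hx) ?_
    rw [hD.decomp.finrank_eq]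
    refine Eq.trans (Submodule.equivMapOfInjective _ (fun x y h => ?_) _).finrank_eq.symm (hD.decomp.finrank_eq i)
    rw [Matrix.toLin'_apply, Matrix.toLin'_apply] at h
    exact CfsgLib.MaxSub.SpStab.mulVec_inj G h
  -- contraction to a pair
  have hpair : ∀ z, (∀ i, P i z = 0 ∨ i = a ∨ i = b) → C N z := by
    obtain ⟨wa, hwa, hwa'⟩ := hnd a _ (hPmem a v) hva
    obtain ⟨wb, hwb, hwb0, hwb1, hwbv⟩ : ∃ wb ∈ D b, wb ≠ 0 ∧ P b v + wb ≠ 0 ∧ Bs (P b v) wb = 0 := by
      by_cases hc : ∃ c : F, c ≠ 0 ∧ c ≠ -1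
      · obtain ⟨c, hc0, hc1⟩ := hc
        refine ⟨c • P b v, (D b).smul_mem _ (hPmem b v), smul_ne_zero hc0 hvb, fun h => ?_, by rw [map_smul, B_self, smul_zero]⟩
        rw [show P b v + c • P b v = (c + 1) • P b v by module, smul_eq_zero] at h
        exact hc1 (eq_neg_of_add_eq_zero_left (h.resolve_right hvb))
      · simp only [not_exists, not_and, not_not] at hc
        have hF : Fintype.card F = 2 := by
          refine le_antisymm ?_ Fintype.one_lt_card
          have : (Finset.univ : Finset F) ⊆ {0, -1} := fun c _ => by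
            by_cases h : c = 0
            · simp [h]
            · simp [hc c h]
          exact (Finset.card_le_card this).trans Finset.card_le_two
        have hk3 : 3 ≤ k := by
          rcases Nat.lt_or_ge k 3 with h | h
          · exact absurd ⟨by omega, hF⟩ hex
          · exact h
        obtain ⟨w, hw, hwn⟩ : ∃ w ∈ D b ⊓ LinearMap.ker (Bs (P b v)), w ∉ Submodule.span F {P b v} := by
          by_contra h
          simp only [not_exists, not_and, not_not] at h
          let ψ : D b →ₗ[F] F := (Bs (P b v)).comp (D b).subtype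
          have h1 := Submodule.finrank_mono (show (LinearMap.ker ψ).map (D b).subtype ≤ Submodule.span F {P b v} from by
            rintro _ ⟨x, hx, rfl⟩
            exact h _ ⟨x.2, LinearMap.mem_ker.1 hx⟩)
          rw [finrank_span_singleton hvb, (Submodule.equivMapOfInjective _ (D b).injective_subtype _).finrank_eq.symm] at h1
          have h4 := ψ.finrank_range_add_finrank_ker
          have h5 : Module.finrank F (LinearMap.range ψ) ≤ 1 :=
            (Submodule.finrank_le _).trans (le_of_eq (Module.finrank_self F))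
          rw [hD.decomp.finrank_eq] at h4
          omega
        exact ⟨w, hw.1, fun e => hwn (e ▸ Submodule.zero_mem _), fun e => hwn (by
          rw [eq_neg_of_add_eq_zero_right e]; exact Submodule.neg_mem _ (Submodule.mem_span_singleton_self _)),
          LinearMap.mem_ker.1 hw.2⟩
    set w := -v + (P a v + wa) + (P b v + wb) with hw
    have hPw : ∀ i, P i w = if i = a then wa else if i = b then wb else -P i v := fun i => by
      rw [hw]
      simp only [map_add, map_neg, hPself a _ (hPmem a v), hPself a wa hwa, hPself b _ (hPmem b v), hPself b wb hwb]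
      by_cases h1 : i = a
      · subst h1; simp [if_neg hab]
      · by_cases h2 : i = b
        · subst h2; simp [if_neg h1]
        · simp [if_neg h1, if_neg h2]
    have hwa0 : wa ≠ 0 := fun e => hwa' (by rw [e, map_zero])
    have hCw : C N w := support v w hv fun i => by
      rw [hPw]
      by_cases h1 : i = a
      · subst h1; simp [hva, hwa0]
      · by_cases h2 : i = b
        · subst h2; simp [if_neg h1, hvb, hwb0]
        · simp [if_neg h1, if_neg h2]
    have hvw : Bs v w = Bs (P a v) wa := by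
      rw [hBsum, Finset.sum_eq_single a (fun i _ hi => ?_) (fun h => absurd (Finset.mem_univ a) h)]
      · rw [hPw]; simp
      rw [hPw, if_neg hi]
      by_cases h2 : i = b
      · subst h2; rw [if_pos rfl, hwbv]
      · rw [if_neg h2, map_neg, B_self, neg_zero]
    have hu := step v w hv hCw (by rw [hvw]; exact hwa')
    have hPu : ∀ i, P i (v + w) = 0 ↔ ¬ (i = a ∨ i = b) := fun i => by
      rw [map_add, hPw]
      by_cases h1 : i = a
      · subst h1
        simp only [if_true, true_or, not_true, iff_false]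
        intro h
        rw [eq_neg_of_add_eq_zero_right h, map_neg, B_self, neg_zero] at hwa'
        exact hwa' rfl
      · by_cases h2 : i = b
        · subst h2; simp [if_neg h1, hwb1]
        · simp [if_neg h1, if_neg h2, h1, h2]
    intro z hz
    by_cases hza : P a z = 0
    · rw [← hPsum z, Finset.sum_eq_single b (fun i _ hi => ?_) (fun h => absurd (Finset.mem_univ b) h)]
      · exact hCblock b _ (hPmem b z)
      · rcases hz i with h | rfl | rfl
        · exact h
        · exact hza
        · exact absurd rfl hi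
    by_cases hzb : P b z = 0
    · rw [← hPsum z, Finset.sum_eq_single a (fun i _ hi => ?_) (fun h => absurd (Finset.mem_univ a) h)]
      · exact hCblock a _ (hPmem a z)
      · rcases hz i with h | rfl | rfl
        · exact h
        · exact absurd rfl hi
        · exact hzb
    refine support _ z hu fun i => ?_
    rw [hPu]
    rcases hz i with h | rfl | rfl
    · refine ⟨fun _ => h, fun _ => ?_⟩
      rintro (rfl | rfl)
      · exact hza h
      · exact hzb h
    · simp [hza]
    · simp [hzb]
  -- permutations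
  have hiso : ∀ i j, ∃ φ : V m F →ₗ[F] V m F, (∀ x ∈ D i, φ x ∈ D j) ∧ ∀ x ∈ D i, ∀ y ∈ D i, Bs (φ x) (φ y) = Bs x y :=
    fun i j => exists_isometry k (D i) (D j) (hD.decomp.finrank_eq i) (hD.decomp.finrank_eq j) (hnd i) (hnd j)
  choose φ hφ hφB using hiso
  have hperm : ∀ σ : Equiv.Perm (Fin t), ∃ A ∈ N, ∀ i, ∀ x ∈ D i, A.1 *ᵥ x ∈ D (σ i) := fun σ => by
    let L : V m F →ₗ[F] V m F := ∑ i, (φ i (σ i)).comp (P i)
    have hLx : ∀ x, L x = ∑ i, φ i (σ i) (P i x) := fun x => by simp [L, LinearMap.sum_apply]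
    have hPL : ∀ i x, P (σ i) (L x) = φ i (σ i) (P i x) := fun i x => by
      rw [hLx, map_sum]
      refine (Finset.sum_eq_single i (fun l _ hl => ?_) (fun h => absurd (Finset.mem_univ i) h)).trans ?_
      · rw [hPself (σ l) _ (hφ _ _ _ (hPmem l x)), if_neg (fun h => hl (σ.injective h).symm)]
      · rw [hPself (σ i) _ (hφ _ _ _ (hPmem i x)), if_pos rfl]
    have hB : ∀ x y, Bs (L x) (L y) = Bs x y := fun x y => by
      rw [hBsum, hBsum x y, ← Equiv.sum_comp σ]
      exact Finset.sum_congr rfl fun i _ => by rw [hPL, hPL, hφB i (σ i) _ (hPmem i x) _ (hPmem i y)]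
    let A : Sp m F := ⟨LinearMap.toMatrix' L, (mem_iff _).2 fun u v => by
      rw [LinearMap.toMatrix'_mulVec, LinearMap.toMatrix'_mulVec]; exact hB u v⟩
    have hA : ∀ i, ∀ x ∈ D i, A.1 *ᵥ x ∈ D (σ i) := fun i x hx => by
      show LinearMap.toMatrix' L *ᵥ x ∈ _
      rw [LinearMap.toMatrix'_mulVec, hLx, Finset.sum_eq_single i (fun l _ hl => by rw [hPself i x hx, if_neg hl, map_zero])
        (fun h => absurd (Finset.mem_univ i) h)]
      exact hφ _ _ _ (hPmem i x)
    exact ⟨A, hN A ⟨σ, hA⟩, hA⟩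
  have allpairs : ∀ c d, c ≠ d → ∀ z, (∀ i, P i z = 0 ∨ i = c ∨ i = d) → C N z := by
    intro c d hcd z hz
    obtain ⟨σ, hσa, hσb⟩ : ∃ σ : Equiv.Perm (Fin t), σ a = c ∧ σ b = d := by
      refine ⟨(Equiv.swap a c).trans (Equiv.swap (Equiv.swap a c b) d), ?_, ?_⟩
      · rw [Equiv.trans_apply, Equiv.swap_apply_left, Equiv.swap_apply_of_ne_of_ne ?_ hcd]
        intro h
        exact hab ((Equiv.swap a c).injective (by rw [Equiv.swap_apply_left]; exact h))
      · rw [Equiv.trans_apply, Equiv.swap_apply_left]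
    obtain ⟨A, hA, hAD⟩ := hperm σ
    obtain ⟨y, rfl⟩ : ∃ y, A.1 *ᵥ y = z := ⟨(A⁻¹).1 *ᵥ z, by rw [← mulVec_mul, mul_inv_cancel, Submonoid.coe_one, Matrix.one_mulVec]⟩
    refine C_map hA (hpair y fun i => ?_)
    have e1 : P (σ i) (A.1 *ᵥ y) = A.1 *ᵥ P i y := by
      conv_lhs => rw [← hPsum y, Matrix.mulVec_sum, map_sum]
      refine (Finset.sum_eq_single i (fun l _ hl => ?_) (fun h => absurd (Finset.mem_univ i) h)).trans ?_
      · rw [hPself (σ l) _ (hAD l _ (hPmem l y)), if_neg (fun h => hl (σ.injective h).symm)]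
      · rw [hPself (σ i) _ (hAD i _ (hPmem i y)), if_pos rfl]
    rcases hz (σ i) with h | h | h
    · left; rw [e1] at h; exact CfsgLib.MaxSub.SpStab.mulVec_inj A (h.trans (Matrix.mulVec_zero _).symm)
    · right; left; exact σ.injective (h.trans hσa.symm)
    · right; right; exact σ.injective (h.trans hσb.symm)
  refine top_of_C ?_
  suffices h : ∀ (S : Finset (Fin t)) (z : V m F), (∀ i, i ∉ S → P i z = 0) → C N z from
    fun z => h Finset.univ z fun i hi => absurd (Finset.mem_univ i) hi
  intro S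
  induction S using Finset.strongInduction with
  | _ S ih =>
    intro z hz
    by_cases hsmall : ∀ i ∈ S, P i z ≠ 0
    swap
    · simp only [not_forall, not_not] at hsmall
      obtain ⟨i, hi, h0⟩ := hsmall
      exact ih (S.erase i) (Finset.erase_ssubset hi) z fun l hl => by
        by_cases hli : l = i
        · rw [hli]; exact h0
        · exact hz l fun h => hl (Finset.mem_erase.2 ⟨hli, h⟩)
    by_cases hcard : ∃ c ∈ S, ∃ d ∈ S, c ≠ d ∧ ∃ l ∈ S, l ≠ c ∧ l ≠ d
    · obtain ⟨c, hc, d, hd, hcd, -⟩ := hcard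
      obtain ⟨yc, hyc, hyc'⟩ := hnd c _ (hPmem c z) (hsmall c hc)
      set y := yc + P d z with hy
      have hPy : ∀ i, P i y = if i = c then yc else if i = d then P d z else 0 := fun i => by
        rw [hy, map_add, hPself c yc hyc, hPself d _ (hPmem d z)]
        by_cases h1 : i = c
        · subst h1; simp [if_neg hcd]
        · simp [if_neg h1]
      have hu : C N (z - y) := ih (S.erase d) (Finset.erase_ssubset hd) _ fun i hi => by
        rw [map_sub, hPy]
        by_cases hid : i = d
        · subst hid; rw [if_neg hcd.symm, if_pos rfl, sub_self]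
        · have hiS : i ∉ S := fun h => hi (Finset.mem_erase.2 ⟨hid, h⟩)
          rw [if_neg (fun h => hiS (by rw [h]; exact hc)), if_neg hid, hz i hiS, sub_self]
      have hyC : C N y := allpairs c d hcd y fun i => by
        rw [hPy]
        by_cases h1 : i = c
        · right; left; exact h1
        · by_cases h2 : i = d
          · right; right; exact h2
          · left; rw [if_neg h1, if_neg h2]
      have hne : Bs (z - y) y ≠ 0 := by
        rw [map_sub, LinearMap.sub_apply, B_self, sub_zero, hBsum,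
          ← Finset.sum_subset (Finset.subset_univ {c, d}) (fun i _ hi => by
            simp only [Finset.mem_insert, Finset.mem_singleton, not_or] at hi
            rw [hPy, if_neg hi.1, if_neg hi.2, map_zero]),
          Finset.sum_pair hcd, hPy, hPy, if_pos rfl, if_neg hcd.symm, if_pos rfl, B_self, add_zero]
        exact hyc'
      have := step _ _ hu hyC hne
      rwa [sub_add_cancel] at this
    · simp only [not_exists, not_and, not_not] at hcard
      by_cases h2 : ∃ c ∈ S, ∃ d ∈ S, c ≠ d
      · obtain ⟨c, hc, d, hd, hcd⟩ := h2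
        refine allpairs c d hcd z fun i => ?_
        by_cases hi : i ∈ S
        · by_cases hic : i = c
          · right; left; exact hic
          · right; right; exact hcard c hc d hd hcd i hi hic
        · left; exact hz i hi
      · simp only [not_exists, not_and, not_not] at h2
        rw [← hPsum z]
        rcases S.eq_empty_or_nonempty with h | ⟨c, hc⟩
        · rw [Finset.sum_eq_zero fun i _ => hz i (by rw [h]; exact Finset.notMem_empty i)]
          exact hCblock a 0 (Submodule.zero_mem _)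
        · rw [Finset.sum_eq_single c (fun i _ hi => hz i fun hiS => hi (h2 c hc i hiS).symm) (fun h => absurd (Finset.mem_univ c) h)]
          exact hCblock c _ (hPmem c z)

end Cfsg.Agent.S5647
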