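import Cfsg.Statements.S5648
import Mathlib
import Cfsg.Agent.Lib.NonMax.Tools
import Cfsg.Agent.Lib.NonMax.Count

set_option autoImplicit false
open Cfsg

namespace Cfsg.Agent.S5648

open scoped Matrix
open CfsgLib.NonMax.Tools CfsgLib.NonMax.Count

variable {F : Type*} [Field F] {m : ℕ}

/-- the form as a bilinear map -/
noncomputable def B (m : ℕ) (F : Type*) [Field F] : LinearMap.BilinForm F (Fin m ⊕ Fin m → F) := Matrix.toBilin' (Matrix.J (Fin m) F)

theorem B_apply (u v : Fin m ⊕ Fin m → F) : Cfsg.sympForm m F u v = B m F u v := (Matrix.toBilin'_apply' _ u v).symm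

theorem B_alt (u : Fin m ⊕ Fin m → F) : B m F u u = 0 := by
  rw [← B_apply]
  simp only [Cfsg.sympForm, Matrix.J, Matrix.fromBlocks_mulVec, dotProduct, Fintype.sum_sum_type]
  simp [Function.comp_def, ← Finset.sum_add_distrib, Matrix.neg_mulVec, mul_comm]

theorem B_skew (u v : Fin m ⊕ Fin m → F) : B m F v u = -B m F u v := by
  have h := B_alt (u + v)
  simp only [map_add, LinearMap.add_apply, B_alt] at h
  linear_combination h

theorem trans_mem [Fintype F] (w : Fin m ⊕ Fin m → F) :
    unip (((B m F).flip w).smulRight w) (fun x => by simp [B_alt]) ∈ Cfsg.spGL m F := by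
  intro x y
  show Cfsg.sympForm m F (_ *ᵥ x) (_ *ᵥ y) = _
  simp only [Units.coeHom_apply, unip_apply, B_apply]
  simp [B_alt, B_skew w y]
  ring

theorem local_id {D : Submodule F (Fin m ⊕ Fin m → F)} (hdim : Module.finrank F D = 2)
    (hnd : Cfsg.Geo.IsNondegenerateOn (Cfsg.sympForm m F) D) (hF : ∀ a : F, a = 0 ∨ a = 1)
    {v a : Fin m ⊕ Fin m → F} (hv : v ∈ D) (ha : a ∈ D) (hv0 : v ≠ 0) (ha0 : a ≠ 0) (hva : v + a ≠ 0) :
    B m F v a = 1 := by
  refine (hF _).resolve_left fun h0 => ?_
  obtain ⟨x, hx, hxa⟩ := (hnd a ha ha0).1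
  rw [B_apply] at hxa
  have hli : LinearIndependent F ![v, a] := by
    rw [LinearIndependent.pair_iff]
    intro s t hst
    rcases hF s with rfl | rfl <;> rcases hF t with rfl | rfl <;> simp at hst ⊢
    · exact ha0 hst
    · exact hv0 hst
    · exact hva hst
  have hle : Submodule.span F {v, a} ≤ D := Submodule.span_le.2 fun y hy => by
    rcases hy with rfl | rfl <;> assumption
  have hfr : Module.finrank F (Submodule.span F ({v, a} : Set (Fin m ⊕ Fin m → F))) = 2 := by
    have := finrank_span_eq_card hli
    rw [Matrix.range_cons_cons_empty, Fintype.card_fin] at this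
    exact this
  rw [← Submodule.eq_of_le_of_finrank_eq hle (hfr.trans hdim.symm), Submodule.mem_span_pair] at hx
  obtain ⟨c, d, rfl⟩ := hx
  apply hxa
  simp [h0, B_alt]

/-- Over the field with 2 elements and for m ≥ 7, let D be a decomposition of F^(2m) into t pairwise orthogonal non-degenerate 2-dimensional subspaces for the standard alternating form (t = m ≥ 2). Then the elements of Sp_2m(2) permuting the members of D form a subgroup that is not maximal: some subgroup lies strictly between it and Sp_2m(2). -/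
theorem result {F : Type*} [Field F] [Fintype F] (m : ℕ) (hm : 7 ≤ m) (hq : Fintype.card F = 2) {t : ℕ} (D : Fin t → Submodule F (Fin m ⊕ Fin m → F)) (hD : Cfsg.Geo.IsNondegenerateMDecomposition (Cfsg.sympForm m F) 2 D) : ∃ K : Subgroup (Matrix.GeneralLinearGroup (Fin m ⊕ Fin m) F), Cfsg.Geo.decompositionStabilizer D ⊓ Cfsg.spGL m F < K ∧ K < Cfsg.spGL m F := by
  classical
  have hD' := hD.decomp
  have hc := card_eq hD'
  simp only [Fintype.card_sum, Fintype.card_fin] at hc
  have h2 : (2 : F) = 0 := by
    have h0 := FiniteField.cast_card_eq_zero F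
    rw [hq] at h0; simpa using h0
  have hF : ∀ a : F, a = 0 ∨ a = 1 := fun a => by
    rcases eq_or_ne a 0 with e | e
    · exact Or.inl e
    · have := FiniteField.pow_card_sub_one_eq_one a e
      rw [hq] at this
      exact Or.inr (by simpa using this)
  let i : Fin 3 → Fin t := Fin.castLE (by omega)
  have hi : Function.Injective i := Fin.castLE_injective _
  choose a ha ha0 using fun j => exists_ne_zero hD' (i j)
  obtain ⟨b, hb, hba⟩ := (hD.nondegenerate (i 0) (a 0) (ha 0) (ha0 0)).1
  rw [B_apply] at hba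
  have hb1 : B m F b (a 0) = 1 := (hF _).resolve_left hba
  have hb0 : b ≠ 0 := fun e => by simp [e] at hba
  have hba0 : b + a 0 ≠ 0 := fun e => by
    have h : B m F (b + a 0) (a 0) = 0 := by rw [e]; simp
    rw [map_add, LinearMap.add_apply, B_alt, add_zero, hb1] at h
    exact one_ne_zero h
  have horth : ∀ j l, j ≠ l → ∀ x ∈ D (i j), B m F x (a l) = 0 := fun j l h x hx => by
    rw [← B_apply]; exact hD.orthogonal _ _ (fun e => h (hi e)) x hx _ (ha l)
  obtain ⟨w, hw⟩ : ∃ w, w = a 0 + a 1 + a 2 := ⟨_, rfl⟩
  set T := unip (((B m F).flip w).smulRight w) (fun x => by simp [B_alt]) with hT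
  obtain ⟨w', hw'⟩ : ∃ w', w' = a 0 + a 1 := ⟨_, rfl⟩
  set T' := unip (((B m F).flip w').smulRight w') (fun x => by simp [B_alt]) with hT'
  have hTb : T.1 *ᵥ b = (b + a 0) + a 1 + a 2 := by
    rw [hT, unip_apply]
    simp [hw, hb1, horth 0 1 (by decide) b hb, horth 0 2 (by decide) b hb]
    abel
  have hTb' : T'.1 *ᵥ b = (b + a 0) + a 1 := by
    rw [hT', unip_apply]
    simp [hw', hb1, horth 0 1 (by decide) b hb]
    abel
  refine ⟨phiGroup hD' ⊓ Cfsg.spGL m F, lt_and_lt (inf_le_inf_right _ (stab_le hD')) inf_le_right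
    (x := T) (y := T') (Subgroup.mem_inf.2 ⟨(mem_phiGroup hD' T).2 fun x => ?_, trans_mem w⟩) ?_ (trans_mem w') ?_⟩
  · rw [hT, unip_apply]
    set cs : Fin 3 → F := fun j => B m F (comp hD' (i j) x) (a j) with hcs
    have hcx : B m F x w = cs 0 + cs 1 + cs 2 := by
      have hj : ∀ j, B m F x (a j) = cs j := fun j => by
        conv_lhs => rw [← sum_comp hD' x]
        rw [map_sum, LinearMap.sum_apply, Finset.sum_eq_single (i j)]
        · intro k _ hk
          rw [← B_apply]; exact hD.orthogonal _ _ hk _ (comp_mem hD' k x) _ (ha j)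
        · simp
      rw [hw, map_add, map_add, hj, hj, hj]
    rcases hF (B m F x w) with h0 | h1
    · simp [h0]
    · have hy : ((B m F).flip w).smulRight w x = w := by simp [h1]
      rw [hy]
      refine phi_add hD' (Finset.univ.image i) x w (fun k hk => ?_) (fun _ v => if v = 0 then 0 else 1) (fun _ _ _ _ => rfl) ?_
      · simp only [Finset.mem_image, Finset.mem_univ, true_and, not_exists] at hk
        simp [hw, comp_of_mem hD' (ha _), hk]
      · have hcw : ∀ j, comp hD' (i j) w = a j := fun j => by
          simp only [hw, map_add, comp_of_mem hD' (ha _), hi.eq_iff]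
          fin_cases j <;> simp
        simp only [Finset.sum_image hi.injOn, hcw]
        have hone : ∀ j, (if comp hD' (i j) x + a j = 0 then (0 : F) else 1) + (if comp hD' (i j) x = 0 then (0 : F) else 1) = 1 + cs j := by
          intro j
          rcases eq_or_ne (comp hD' (i j) x) 0 with e | e
          · simp [hcs, e, ha0 j]
          · rcases eq_or_ne (comp hD' (i j) x + a j) 0 with e' | e'
            · have : comp hD' (i j) x = -a j := eq_neg_of_add_eq_zero_left e'
              rw [if_pos e', if_neg e]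
              simp [hcs, this, B_alt]
            · rw [if_neg e, if_neg e']; simp only [hcs]; rw [local_id (hD'.finrank_eq _) (hD.nondegenerate _) hF (comp_mem hD' _ x) (ha j) e (ha0 j) e']
        have s0 := hone 0
        have s1 := hone 1
        have s2 := hone 2
        simp only [Fin.sum_univ_three]
        linear_combination s0 + s1 + s2 - hcx + h1 +
          (2 - (if comp hD' (i 0) x = 0 then (0 : F) else 1) - (if comp hD' (i 1) x = 0 then (0 : F) else 1) - (if comp hD' (i 2) x = 0 then (0 : F) else 1)) * h2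
  · refine fun h => not_stab hb ?_ (Subgroup.mem_inf.1 h).1
    intro k
    rw [hTb]
    refine not_mem_of_comp hD' (i := i 0) (j := i 1) (fun e => by simpa using hi e) ?_ ?_ k
    · simp [comp_of_mem hD' (ha _), comp_of_mem hD' hb, hi.eq_iff, hba0]
    · simp [comp_of_mem hD' (ha _), comp_of_mem hD' hb, hi.eq_iff, ha0]
  · intro h
    have hm' := (mem_phiGroup hD' T').1 (Subgroup.mem_inf.1 h).1 b
    rw [hTb', phi_pair hD' (fun e => by simpa using hi e) (add_mem hb (ha 0)) (ha 1) hba0 (ha0 1), phi_single hD' hb hb0, h2] at hm'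
    exact zero_ne_one hm'

end Cfsg.Agent.S5648
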