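import Cfsg.Statements.S5649
import Cfsg.Agent.Lib.MaxSub.SpStab

set_option autoImplicit false
open Cfsg

namespace Cfsg.Agent.S5649

open scoped Matrix
open CfsgLib.Symplectic.Basic (V Sp T T_apply conj_T mem_iff mulVec_mul mulVec_inv_cancel B_self B_swap B_eq B_map exists_B_eq_one)
open CfsgLib.MaxSub.SpStab (C C_map C_smul top_of_C mulVec_inj)

local notation "Bs" => CfsgLib.Symplectic.Basic.B

variable {F : Type*} [Field F] [Fintype F] {m : ℕ}

/-- The product of three transvections with an orthogonal pair of centres. -/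
noncomputable def R (a z : V m F) : Sp m F := T (a + z) 1 * T a (-1) * T z (-1)

omit [Fintype F] in
theorem R_apply {a z : V m F} (h : Bs a z = 0) (x : V m F) :
    (R a z).1 *ᵥ x = x + Bs x a • z + Bs x z • a := by
  have hza : Bs z a = 0 := by rw [B_swap, h, neg_zero]
  rw [R, mulVec_mul, mulVec_mul, T_apply, T_apply, T_apply]
  simp only [map_add, map_smul, LinearMap.add_apply, LinearMap.smul_apply, smul_eq_mul, B_self, hza, h]
  module

omit [Fintype F] in
theorem R_conj (g : Sp m F) (a z : V m F) : g * R a z * g⁻¹ = R (g.1 *ᵥ a) (g.1 *ᵥ z) := by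
  rw [R, R, ← Matrix.mulVec_add, ← conj_T g (a + z) 1, ← conj_T g a (-1), ← conj_T g z (-1)]
  group

theorem side {U W : Submodule F (V m F)} (hm : 7 ≤ m) (hUd : Module.finrank F U = m) (hWd : Module.finrank F W = m)
    (hU : ∀ a ∈ U, ∀ b ∈ U, Bs a b = 0) (hW : ∀ a ∈ W, ∀ b ∈ W, Bs a b = 0) (hsup : U ⊔ W = ⊤)
    (N : Subgroup (Sp m F)) (h2 : (2 : F) ≠ 0)
    (hR : ∀ a ∈ U, ∀ z ∈ W, Bs a z = 0 → R a z ∈ N ∧ R z a ∈ N) {g : Sp m F} (hg : g ∈ N)
    (hgU : ¬ ∀ a ∈ U, g.1 *ᵥ a ∈ U) (hgW : ¬ ∀ a ∈ W, g.1 *ᵥ a ∈ U) : ∀ w ∈ W, C N w := by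
  classical
  have hsep : ∀ {S : Submodule F (V m F)}, S ≤ W → ∀ {z}, z ∈ W → z ∉ S → ∃ u ∈ U, (∀ s ∈ S, Bs s u = 0) ∧ Bs z u ≠ 0 := by
    intro S hS z hzW hz
    by_contra hc
    simp only [not_exists, not_and, not_not] at hc
    refine hz (CfsgLib.MaxSub.SpStab.orth_orth fun a ha => ?_)
    obtain ⟨u, hu, w, hw, rfl⟩ := Submodule.mem_sup.1 (show a ∈ U ⊔ W by rw [hsup]; trivial)
    rw [map_add, hW z hzW w hw, add_zero]
    refine hc u hu fun s hs => ?_
    have := ha s hs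
    rwa [map_add, hW s (hS hs) w hw, add_zero] at this
  have hdec : ∀ y, ∃ a ∈ U, ∃ b ∈ W, y = a + b := fun y => by
    obtain ⟨a, ha, b, hb, h⟩ := Submodule.mem_sup.1 (show y ∈ U ⊔ W by rw [hsup]; trivial)
    exact ⟨a, ha, b, hb, h.symm⟩
  have hint : ∀ y ∈ U, y ∈ W → y = 0 := fun y hy hy' => by
    by_contra h0
    obtain ⟨x, hx⟩ := exists_B_eq_one h0
    obtain ⟨a, ha, b, hb, rfl⟩ := hdec x
    rw [map_add, hU y hy a ha, hW y hy' b hb, add_zero] at hx
    exact zero_ne_one hx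
  -- projection to W
  obtain ⟨π, hπU, hπW⟩ : ∃ π : V m F →ₗ[F] V m F, (∀ a ∈ U, π a = 0) ∧ ∀ b ∈ W, π b = b := by
    have hc : IsCompl W U := ⟨Submodule.disjoint_def.2 fun y h h' => hint y h' h, codisjoint_iff.2 (by rw [sup_comm]; exact hsup)⟩
    exact ⟨W.subtype.comp (Submodule.projectionOnto W U hc),
      fun a ha => by rw [LinearMap.comp_apply, (Submodule.projectionOnto_apply_eq_zero_iff hc).2 ha, map_zero],
      fun b hb => by rw [LinearMap.comp_apply, Submodule.projectionOnto_apply_left hc ⟨b, hb⟩]; rfl⟩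
  have hπmem : ∀ y, π y ∈ W ∧ y - π y ∈ U := fun y => by
    obtain ⟨a, ha, b, hb, rfl⟩ := hdec y
    rw [map_add, hπU a ha, hπW b hb, zero_add, add_sub_cancel_right]
    exact ⟨hb, ha⟩
  let G : V m F →ₗ[F] V m F := π.comp (Matrix.mulVecLin g.1)
  -- an orthogonal pair with independent projections
  obtain ⟨u, huU, w, hwW, huw, hind⟩ : ∃ u ∈ U, ∃ w ∈ W, Bs u w = 0 ∧
      ∀ a b : F, a • G u + b • G w = 0 → a = 0 ∧ b = 0 := by
    by_contra hc
    simp only [not_exists, not_and] at hc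
    have hsp : ∀ u ∈ U, G u ≠ 0 → ∀ w ∈ W, Bs u w = 0 → G w ∈ Submodule.span F {G u} := by
      intro u hu hGu w hw huw
      have hnn := hc u hu w hw huw
      simp only [not_forall] at hnn
      obtain ⟨a, b, hab, hne⟩ := hnn
      by_cases hb : b = 0
      · rw [hb, zero_smul, add_zero, smul_eq_zero] at hab
        exact absurd (hab.resolve_right hGu) (fun ha => hne ⟨ha, hb⟩)
      · refine Submodule.mem_span_singleton.2 ⟨-(b⁻¹ * a), ?_⟩
        rw [neg_smul, mul_smul, ← smul_neg, ← eq_neg_of_add_eq_zero_right hab, inv_smul_smul₀ hb]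
    obtain ⟨u₁, hu₁, hG₁⟩ : ∃ u ∈ U, G u ≠ 0 := by
      by_contra h
      simp only [not_exists, not_and, not_not] at h
      exact hgU fun a ha => by
        have := (hπmem (g.1 *ᵥ a)).2
        rwa [show π (g.1 *ᵥ a) = 0 from h a ha, sub_zero] at this
    have hperp : ∀ u ∈ U, u ≠ 0 → ∀ z ∈ W, ∃ y ∈ W, ∀ v ∈ W, Bs u z ≠ 0 → Bs u (v - (Bs u v / Bs u z) • z) = 0 :=
      fun u _ _ z hz => ⟨z, hz, fun v _ hne => by rw [map_sub, map_smul, smul_eq_mul, div_mul_cancel₀ _ hne, sub_self]⟩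
    -- the range of G on W is small
    obtain ⟨z₁, hz₁W, hz₁⟩ : ∃ z ∈ W, Bs u₁ z ≠ 0 := by
      obtain ⟨x, hx⟩ := exists_B_eq_one (show u₁ ≠ 0 from fun e => hG₁ (by rw [e, map_zero]))
      obtain ⟨a, ha, b, hb, rfl⟩ := hdec x
      rw [map_add, hU u₁ hu₁ a ha, zero_add] at hx
      exact ⟨b, hb, by rw [hx]; exact one_ne_zero⟩
    have hW2 : ∀ v ∈ W, G v ∈ Submodule.span F {G u₁} ⊔ Submodule.span F {G z₁} := fun v hv => by
      have h1 := hsp u₁ hu₁ hG₁ (v - (Bs u₁ v / Bs u₁ z₁) • z₁) (W.sub_mem hv (W.smul_mem _ hz₁W))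
        (by rw [map_sub, map_smul, smul_eq_mul, div_mul_cancel₀ _ hz₁, sub_self])
      rw [map_sub, map_smul] at h1
      have h2 : G v = (G v - (Bs u₁ v / Bs u₁ z₁) • G z₁) + (Bs u₁ v / Bs u₁ z₁) • G z₁ := by abel
      rw [h2]
      exact add_mem (Submodule.mem_sup_left h1) (Submodule.mem_sup_right (Submodule.smul_mem _ _ (Submodule.mem_span_singleton_self _)))
    -- hence the range on U is large
    obtain ⟨u₂, hu₂, hG₂⟩ : ∃ u ∈ U, G u ∉ Submodule.span F {G u₁} := by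
      by_contra h
      simp only [not_exists, not_and, not_not] at h
      have hle : W ≤ Submodule.span F {G u₁} ⊔ Submodule.span F {G z₁} := fun y hy => by
        obtain ⟨x, hx⟩ : ∃ x, g.1 *ᵥ x = y := ⟨(g⁻¹).1 *ᵥ y, by rw [← mulVec_mul, mul_inv_cancel, Submonoid.coe_one, Matrix.one_mulVec]⟩
        obtain ⟨a, ha, b, hb, rfl⟩ := hdec x
        have : G (a + b) = y := by show π (g.1 *ᵥ (a + b)) = y; rw [hx, hπW y hy]
        rw [← this, map_add]
        exact add_mem (Submodule.mem_sup_left (h a ha)) (hW2 b hb)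
      have h3 := Submodule.finrank_mono hle
      have h4 := Submodule.finrank_add_le_finrank_add_finrank (Submodule.span F {G u₁}) (Submodule.span F {G z₁})
      have h5 : ∀ x : V m F, Module.finrank F (Submodule.span F {x}) ≤ 1 := fun x =>
        (finrank_span_le_card ({x} : Set (V m F))).trans (by simp)
      have := h5 (G u₁); have := h5 (G z₁)
      omega
    have hG₂0 : G u₂ ≠ 0 := fun e => hG₂ (e ▸ Submodule.zero_mem _)
    have hboth : ∀ v ∈ W, Bs u₁ v = 0 → Bs u₂ v = 0 → G v = 0 := fun v hv h1 h3 => by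
      obtain ⟨c, hc⟩ := Submodule.mem_span_singleton.1 (hsp u₁ hu₁ hG₁ v hv h1)
      obtain ⟨d, hd⟩ := Submodule.mem_span_singleton.1 (hsp u₂ hu₂ hG₂0 v hv h3)
      by_cases hd0 : d = 0
      · rw [← hd, hd0, zero_smul]
      · refine absurd (Submodule.mem_span_singleton.2 ⟨d⁻¹ * c, ?_⟩) hG₂
        rw [mul_smul, hc, ← hd, inv_smul_smul₀ hd0]
    obtain ⟨u₃, hu₃, hG₃⟩ : ∃ u ∈ U, G u ∉ Submodule.span F {G u₁, G u₂} := by
      by_contra h
      simp only [not_exists, not_and, not_not] at h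
      have hle : W ≤ Submodule.span F {G u₁, G u₂} ⊔ Submodule.span F {G z₁} := fun y hy => by
        obtain ⟨x, hx⟩ : ∃ x, g.1 *ᵥ x = y := ⟨(g⁻¹).1 *ᵥ y, by rw [← mulVec_mul, mul_inv_cancel, Submonoid.coe_one, Matrix.one_mulVec]⟩
        obtain ⟨a, ha, b, hb, rfl⟩ := hdec x
        have : G (a + b) = y := by show π (g.1 *ᵥ (a + b)) = y; rw [hx, hπW y hy]
        rw [← this, map_add]
        exact add_mem (Submodule.mem_sup_left (h a ha))
          (SetLike.le_def.1 (sup_le_sup_right (Submodule.span_mono (by simp)) _) (hW2 b hb))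
      have h3 := Submodule.finrank_mono hle
      have h4 := Submodule.finrank_add_le_finrank_add_finrank (Submodule.span F {G u₁, G u₂}) (Submodule.span F {G z₁})
      have h5 : Module.finrank F (Submodule.span F {G z₁}) ≤ 1 := (finrank_span_le_card ({G z₁} : Set (V m F))).trans (by simp)
      have h6 : Module.finrank F (Submodule.span F ({G u₁, G u₂} : Set (V m F))) ≤ 2 :=
        (finrank_span_le_card ({G u₁, G u₂} : Set (V m F))).trans (by
          rw [Set.toFinset_insert, Set.toFinset_singleton]; exact Finset.card_le_two)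
      omega
    -- so G kills W
    have hG₃0 : G u₃ ≠ 0 := fun e => hG₃ (e ▸ Submodule.zero_mem _)
    have h13 : ∀ v ∈ W, Bs u₁ v = 0 → Bs u₃ v = 0 → G v = 0 := fun v hv h1 h3 => by
      obtain ⟨c, hc⟩ := Submodule.mem_span_singleton.1 (hsp u₁ hu₁ hG₁ v hv h1)
      obtain ⟨d, hd⟩ := Submodule.mem_span_singleton.1 (hsp u₃ hu₃ hG₃0 v hv h3)
      by_cases hd0 : d = 0
      · rw [← hd, hd0, zero_smul]
      · refine absurd (Submodule.mem_span_pair.2 ⟨d⁻¹ * c, 0, ?_⟩) hG₃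
        rw [zero_smul, add_zero, mul_smul, hc, ← hd, inv_smul_smul₀ hd0]
    have h23 : ∀ v ∈ W, Bs u₂ v = 0 → Bs u₃ v = 0 → G v = 0 := fun v hv h1 h3 => by
      obtain ⟨c, hc⟩ := Submodule.mem_span_singleton.1 (hsp u₂ hu₂ hG₂0 v hv h1)
      obtain ⟨d, hd⟩ := Submodule.mem_span_singleton.1 (hsp u₃ hu₃ hG₃0 v hv h3)
      by_cases hd0 : d = 0
      · rw [← hd, hd0, zero_smul]
      · refine absurd (Submodule.mem_span_pair.2 ⟨0, d⁻¹ * c, ?_⟩) hG₃
        rw [zero_smul, zero_add, mul_smul, hc, ← hd, inv_smul_smul₀ hd0]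
    have pick : ∀ a ∈ U, ∀ b ∈ U, ∀ c ∈ U, c ∉ Submodule.span F {a, b} →
        ∃ z ∈ W, Bs a z = 0 ∧ Bs b z = 0 ∧ Bs c z = 1 := by
      intro a ha b hb c hc hcn
      obtain ⟨f, hf, hfs⟩ := Submodule.exists_dual_map_eq_bot_of_notMem hcn inferInstance
      obtain ⟨y, hy⟩ := CfsgLib.MaxSub.SpStab.exists_dual f
      obtain ⟨y0, hy0, z, hz, rfl⟩ := hdec y
      have hker : ∀ x ∈ Submodule.span F ({a, b} : Set (V m F)), f x = 0 := fun x hx => by
        have : f x ∈ (Submodule.span F ({a, b} : Set (V m F))).map f := ⟨x, hx, rfl⟩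
        rw [hfs] at this
        exact (Submodule.mem_bot F).1 this
      have val : ∀ x ∈ U, Bs x z = f x := fun x hx => by rw [← hy, map_add, hU x hx y0 hy0, zero_add]
      refine ⟨(f c)⁻¹ • z, W.smul_mem _ hz, ?_, ?_, ?_⟩
      · rw [map_smul, val a ha, hker a (Submodule.subset_span (Or.inl rfl)), smul_zero]
      · rw [map_smul, val b hb, hker b (Submodule.subset_span (Or.inr rfl)), smul_zero]
      · rw [map_smul, val c hc, smul_eq_mul, inv_mul_cancel₀ hf]
    have hnot : ∀ {a b c : V m F}, G c ∉ Submodule.span F {G a, G b} → c ∉ Submodule.span F {a, b} := by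
      intro a b c hne h
      obtain ⟨s, t, h⟩ := Submodule.mem_span_pair.1 h
      exact hne (Submodule.mem_span_pair.2 ⟨s, t, by rw [← h, map_add, map_smul, map_smul]⟩)
    have hG₂' : G u₂ ∉ Submodule.span F {G u₁, G u₁} := by simpa using hG₂
    obtain ⟨z₂, hz₂W, e21, -, e22⟩ := pick u₁ hu₁ u₁ hu₁ u₂ hu₂ (hnot hG₂')
    obtain ⟨z₃, hz₃W, e31, e32, e33⟩ := pick u₁ hu₁ u₂ hu₂ u₃ hu₃ (hnot hG₃)
    have hz3 : G z₃ = 0 := hboth z₃ hz₃W e31 e32
    have hz2 : G z₂ = 0 := by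
      have := h13 (z₂ - Bs u₃ z₂ • z₃) (W.sub_mem hz₂W (W.smul_mem _ hz₃W))
        (by rw [map_sub, map_smul, e21, e31, smul_zero, sub_zero]) (by rw [map_sub, map_smul, e33, smul_eq_mul, mul_one, sub_self])
      rwa [map_sub, map_smul, hz3, smul_zero, sub_zero] at this
    have hz1 : G z₁ = 0 := by
      have := h23 (z₁ - Bs u₂ z₁ • z₂ - (Bs u₃ z₁ - Bs u₂ z₁ * Bs u₃ z₂) • z₃)
        (W.sub_mem (W.sub_mem hz₁W (W.smul_mem _ hz₂W)) (W.smul_mem _ hz₃W))
        (by simp only [map_sub, map_smul, e22, e32, smul_eq_mul]; ring)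
        (by simp only [map_sub, map_smul, e33, smul_eq_mul]; ring)
      rwa [map_sub, map_sub, map_smul, map_smul, hz2, hz3, smul_zero, smul_zero, sub_zero, sub_zero] at this
    refine hgW fun v hv => ?_
    have := h13 (v - (Bs u₁ v / Bs u₁ z₁) • z₁ - (Bs u₃ (v - (Bs u₁ v / Bs u₁ z₁) • z₁)) • z₃)
      (W.sub_mem (W.sub_mem hv (W.smul_mem _ hz₁W)) (W.smul_mem _ hz₃W))
      (by simp only [map_sub, map_smul, e31, smul_eq_mul, div_mul_cancel₀ _ hz₁]; ring)
      (by simp only [map_sub, map_smul, e33, smul_eq_mul]; ring)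
    rw [map_sub, map_sub, map_smul, map_smul, hz1, hz3, smul_zero, smul_zero, sub_zero, sub_zero] at this
    have h2' := (hπmem (g.1 *ᵥ v)).2
    rwa [show π (g.1 *ᵥ v) = 0 from this, sub_zero] at h2'
  -- the commutators
  set p := g.1 *ᵥ u with hp
  set q := g.1 *ᵥ w with hq
  have hpq : Bs p q = 0 := by rw [hp, hq, B_map]; exact huw
  obtain ⟨hp1, hp0⟩ := hπmem p
  obtain ⟨hq1, hq0⟩ := hπmem q
  have hind' : π p ∉ Submodule.span F {π q} := fun h => by
    obtain ⟨c, hc⟩ := Submodule.mem_span_singleton.1 h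
    have := (hind 1 (-c) (by show (1:F) • π p + -c • π q = 0; rw [one_smul, neg_smul, hc, add_neg_cancel])).1
    exact one_ne_zero this
  obtain ⟨w', hw'W, hpw, hqw, hw'n⟩ : ∃ w' ∈ W, Bs p w' = 0 ∧ Bs q w' = 0 ∧ w' ∉ Submodule.span F {π p, π q} := by
    by_contra hc
    simp only [not_exists, not_and, not_not] at hc
    let ψ : W →ₗ[F] F × F := ((Bs p).comp W.subtype).prod ((Bs q).comp W.subtype)
    have h1 := ψ.finrank_range_add_finrank_ker
    have h3 : Module.finrank F (LinearMap.range ψ) ≤ 2 := (Submodule.finrank_le _).trans (le_of_eq (by simp))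
    have h4 := Submodule.finrank_mono (show (LinearMap.ker ψ).map W.subtype ≤ Submodule.span F {π p, π q} from by
      rintro _ ⟨x, hx, rfl⟩
      exact hc x.1 x.2 (congrArg Prod.fst (LinearMap.mem_ker.1 hx)) (congrArg Prod.snd (LinearMap.mem_ker.1 hx)))
    rw [(Submodule.equivMapOfInjective _ W.injective_subtype _).finrank_eq.symm] at h4
    have h5 : Module.finrank F (Submodule.span F ({π p, π q} : Set (V m F))) ≤ 2 :=
      (finrank_span_le_card ({π p, π q} : Set (V m F))).trans (by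
        rw [Set.toFinset_insert, Set.toFinset_singleton]; exact Finset.card_le_two)
    omega
  have hw'0 : w' ≠ 0 := fun e => hw'n (e ▸ Submodule.zero_mem _)
  obtain ⟨u', hu'U, hu's, hu'p⟩ := hsep (S := Submodule.span F {w', π q}) (Submodule.span_le.2 (by
      rintro x (rfl | rfl)
      · exact hw'W
      · exact hq1)) hp1 (fun h => by
    obtain ⟨a, b, h⟩ := Submodule.mem_span_pair.1 h
    by_cases ha : a = 0
    · exact hind' (Submodule.mem_span_singleton.2 ⟨b, by rw [← h, ha, zero_smul, zero_add]⟩)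
    · refine hw'n (Submodule.mem_span_pair.2 ⟨a⁻¹, -(a⁻¹ * b), ?_⟩)
      rw [← h, smul_add, inv_smul_smul₀ ha, smul_smul]; module)
  have hBU : ∀ y, ∀ a ∈ U, Bs y a = Bs (π y) a := fun y a ha => by
    have := hU _ (hπmem y).2 a ha
    rwa [map_sub, LinearMap.sub_apply, sub_eq_zero] at this
  have hqu' : Bs q u' = 0 := by rw [hBU q u' hu'U]; exact hu's _ (Submodule.subset_span (Or.inr rfl))
  have hpu' : Bs p u' ≠ 0 := by rw [hBU p u' hu'U]; exact hu'p
  have hw'u' : Bs w' u' = 0 := hu's _ (Submodule.subset_span (Or.inl rfl))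
  have hu'w' : Bs u' w' = 0 := by rw [B_swap, hw'u', neg_zero]
  set β := Bs p u' with hβ
  have hwq : Bs (β • w') q = 0 := by rw [map_smul, LinearMap.smul_apply, B_swap, hqw, neg_zero, smul_zero]
  have hRq : R (β • w') q ∈ N := by
    have hE : R p q ∈ N := by
      rw [hp, hq, ← R_conj]; exact mul_mem (mul_mem hg (hR u huU w hwW huw).1) (inv_mem hg)
    have hh : R u' w' ∈ N := (hR u' hu'U w' hw'W hu'w').1
    have h1 := mul_mem (mul_mem (mul_mem hh hE) (inv_mem hh)) (inv_mem hE)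
    rw [R_conj, R_apply hu'w', R_apply hu'w', hpw, hqw, hqu', zero_smul, zero_smul, add_zero, add_zero, ← hβ] at h1
    have e : R (p + β • w') q * (R p q)⁻¹ = R (β • w') q := by
      rw [mul_inv_eq_iff_eq_mul]
      refine CfsgLib.Symplectic.Basic.ext_mulVec fun x => ?_
      rw [mulVec_mul, R_apply (by rw [map_add, LinearMap.add_apply, hpq, hwq, add_zero]), R_apply hwq, R_apply hpq]
      simp only [map_add, map_smul, LinearMap.add_apply, LinearMap.smul_apply, smul_eq_mul, hpw, hqw, B_self,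
        B_swap q p, hpq, B_swap p w', B_swap q w']
      module
    simp only [add_zero] at h1
    rwa [e] at h1
  obtain ⟨u'', hu''U, hu''s, hu''q⟩ := hsep (S := Submodule.span F {w'}) (Submodule.span_le.2 (by
      rintro x rfl; exact hw'W)) hq1 (fun h => by
    obtain ⟨a, h⟩ := Submodule.mem_span_singleton.1 h
    by_cases ha : a = 0
    · rw [ha, zero_smul] at h
      exact (zero_ne_one (α := F)) ((hind 0 1 (by show (0:F) • π p + (1:F) • π q = 0; rw [zero_smul, one_smul, ← h, zero_add])).2).symm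
    · exact hw'n (Submodule.mem_span_pair.2 ⟨0, a⁻¹, by rw [zero_smul, zero_add, ← h, inv_smul_smul₀ ha]⟩))
  have hw'u'' : Bs w' u'' = 0 := hu''s _ (Submodule.mem_span_singleton_self w')
  have hqu'' : Bs q u'' ≠ 0 := by rw [hBU q u'' hu''U]; exact hu''q
  have hCw' : C N w' := by
    intro c
    set s := c / (2 * β * Bs q u'') with hs
    have hd : 2 * β * Bs q u'' ≠ 0 := mul_ne_zero (mul_ne_zero h2 hpu') hqu''
    have ho : Bs u'' (s • w') = 0 := by rw [map_smul, B_swap, hw'u'', neg_zero, smul_zero]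
    have hh : R u'' (s • w') ∈ N := (hR u'' hu''U _ (W.smul_mem _ hw'W) ho).1
    have h1 := mul_mem (mul_mem (mul_mem hh hRq) (inv_mem hh)) (inv_mem hRq)
    rw [R_conj] at h1
    have e1 : (R u'' (s • w')).1 *ᵥ (β • w') = β • w' := by
      rw [R_apply ho]; simp only [map_smul, LinearMap.smul_apply, hw'u'', B_self]; simp
    have e2 : (R u'' (s • w')).1 *ᵥ q = q + (s * Bs q u'') • w' := by
      rw [R_apply ho, map_smul, hqw, smul_zero, zero_smul, add_zero, smul_smul, mul_comm]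
    rw [e1, e2] at h1
    have e : R (β • w') (q + (s * Bs q u'') • w') * (R (β • w') q)⁻¹ = T w' c := by
      rw [mul_inv_eq_iff_eq_mul]
      refine CfsgLib.Symplectic.Basic.ext_mulVec fun x => ?_
      rw [mulVec_mul, R_apply (by rw [map_add, hwq, map_smul, map_smul, LinearMap.smul_apply, B_self]; simp), R_apply hwq, T_apply]
      have hc : c = 2 * β * Bs q u'' * s := by rw [hs, mul_div_cancel₀ _ hd]
      rw [hc]
      simp only [map_add, map_smul, LinearMap.add_apply, LinearMap.smul_apply, smul_eq_mul, B_self, hqw]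
      module
    rwa [e] at h1
  intro z hz
  by_cases hz0 : z = 0
  · have := C_smul hCw' 0
    rw [zero_smul] at this; rw [hz0]; exact this
  have move : ∀ x ∈ W, ∀ y ∈ W, y ∉ Submodule.span F {x} → x ≠ 0 → C N x → C N y := by
    intro x hx y hy hyn hx0 hC
    obtain ⟨a, haU, ha, hxa⟩ := hsep (S := Submodule.span F {y - x}) (Submodule.span_le.2 (by
        rintro v rfl; exact W.sub_mem hy hx)) hx (fun h => by
      obtain ⟨c, hc⟩ := Submodule.mem_span_singleton.1 h
      by_cases hc0 : c = 0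
      · exact hx0 (by rw [← hc, hc0, zero_smul])
      · refine hyn (Submodule.mem_span_singleton.2 ⟨1 + c⁻¹, ?_⟩)
        rw [add_smul, one_smul]; nth_rewrite 2 [← hc]; rw [inv_smul_smul₀ hc0]; abel)
    have ho : Bs a ((Bs x a)⁻¹ • (y - x)) = 0 := by
      rw [map_smul, B_swap a (y - x), ha _ (Submodule.mem_span_singleton_self _), neg_zero, smul_zero]
    have := C_map (hR a haU _ (W.smul_mem (Bs x a)⁻¹ (W.sub_mem hy hx)) ho).1 hC
    rwa [R_apply ho, smul_smul, mul_inv_cancel₀ hxa, one_smul, hW x hx _ (W.smul_mem _ (W.sub_mem hy hx)), zero_smul,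
      add_zero, add_sub_cancel] at this
  by_cases hzs : z ∈ Submodule.span F {w'}
  · obtain ⟨c, rfl⟩ := Submodule.mem_span_singleton.1 hzs
    exact C_smul hCw' c
  · exact move w' hw'W z hz hzs hw'0 hCw'

/-- For a finite field F of odd order and m ≥ 7, let D be a decomposition of F^(2m) into two complementary subspaces of dimension m on each of which the standard alternating form vanishes identically. Then the elements of Sp_2m(F) preserving or interchanging the two subspaces form a maximal subgroup of Sp_2m(F). -/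
theorem result {F : Type*} [Field F] [Fintype F] (m : ℕ) (hm : 7 ≤ m) (hodd : Odd (Fintype.card F)) (D : Fin 2 → Submodule F (Fin m ⊕ Fin m → F)) (hD : Cfsg.Geo.IsMDecomposition m D) (hts : ∀ i, Cfsg.Geo.IsTotallySingularFor (Cfsg.sympForm m F) (D i)) : Cfsg.Geo.IsMaximalIn (Cfsg.spGL m F) (Cfsg.Geo.decompositionStabilizer D ⊓ Cfsg.spGL m F) := by
  classical
  have h2 : (2 : F) ≠ 0 := fun e => by
    haveI : CharP F 2 := CharTwo.of_one_ne_zero_of_two_eq_zero one_ne_zero e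
    have h := FiniteField.even_card_iff_char_two.1 (ringChar.eq F 2)
    rw [Nat.odd_iff] at hodd
    omega
  let e := CfsgLib.Symplectic.Simple.toSpGL (m := m) (F := F)
  set U := D 0 with hUdef
  set W := D 1 with hWdef
  have hU : ∀ a ∈ U, ∀ b ∈ U, Bs a b = 0 := fun a ha b hb => by rw [B_eq]; exact hts 0 a ha b hb
  have hW : ∀ a ∈ W, ∀ b ∈ W, Bs a b = 0 := fun a ha b hb => by rw [B_eq]; exact hts 1 a ha b hb
  have hUd : Module.finrank F U = m := hD.finrank_eq 0
  have hWd : Module.finrank F W = m := hD.finrank_eq 1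
  have hsup : U ⊔ W = ⊤ := by
    refine eq_top_iff.2 (hD.iSup_eq_top ▸ iSup_le fun i => ?_)
    fin_cases i
    · exact le_sup_left
    · exact le_sup_right
  have hsup' : W ⊔ U = ⊤ := by rw [sup_comm]; exact hsup
  have hdec : ∀ y, ∃ a ∈ U, ∃ b ∈ W, y = a + b := fun y => by
    obtain ⟨a, ha, b, hb, h⟩ := Submodule.mem_sup.1 (show y ∈ U ⊔ W by rw [hsup]; trivial)
    exact ⟨a, ha, b, hb, h.symm⟩
  have hint : ∀ y ∈ U, y ∈ W → y = 0 := fun y hy hy' => by
    by_contra h0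
    obtain ⟨x, hx⟩ := exists_B_eq_one h0
    obtain ⟨a, ha, b, hb, rfl⟩ := hdec x
    rw [map_add, hU y hy a ha, hW y hy' b hb, add_zero] at hx
    exact zero_ne_one hx
  have mapEq : ∀ (A : Sp m F) (i j : Fin 2), (∀ x ∈ D i, A.1 *ᵥ x ∈ D j) → (D i).map (Matrix.toLin' A.1) = D j := fun A i j h => by
    refine Submodule.eq_of_le_of_finrank_eq (by rintro _ ⟨x, hx, rfl⟩; rw [Matrix.toLin'_apply]; exact h x hx) ?_
    rw [hD.finrank_eq]
    refine Eq.trans (Submodule.equivMapOfInjective _ (fun x y h => ?_) _).finrank_eq.symm (hD.finrank_eq i)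
    rw [Matrix.toLin'_apply, Matrix.toLin'_apply] at h
    exact mulVec_inj A h
  refine ⟨lt_of_le_of_ne inf_le_right fun heq => ?_, fun M hM hMK => or_iff_not_imp_left.2 fun hne => le_antisymm hMK ?_⟩
  · obtain ⟨u, hu, hu0⟩ := U.exists_mem_ne_zero_of_ne_bot (fun h => by rw [h, finrank_bot] at hUd; omega)
    obtain ⟨w, hw, hw0⟩ := W.exists_mem_ne_zero_of_ne_bot (fun h => by rw [h, finrank_bot] at hWd; omega)
    obtain ⟨x, hx⟩ := exists_B_eq_one hw0
    obtain ⟨a, ha, b, hb, rfl⟩ := hdec x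
    rw [map_add, hW w hw b hb, add_zero] at hx
    -- a transvection centred off both subspaces moves a vector of U
    obtain ⟨σ, hσ⟩ := (heq.ge (e (T (u + w) 1)).2).1
    have hax : Bs a w = -1 := by rw [B_swap, hx]
    have hmem : (T (u + w) 1).1 *ᵥ a ∈ D (σ 0) := (hσ 0).le ⟨a, ha, Matrix.toLin'_apply _ _⟩
    rw [T_apply, one_mul, map_add, hU a ha u hu, zero_add, hax] at hmem
    rcases Fin.exists_fin_two.1 ⟨σ 0, rfl⟩ with h | h <;> rw [h] at hmem
    · rw [Submodule.add_mem_iff_right _ ha, Submodule.smul_mem_iff _ (neg_ne_zero.2 one_ne_zero),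
        Submodule.add_mem_iff_right _ hu] at hmem
      exact hw0 (hint w hmem hw)
    · have hmem' : (a - u) + -w ∈ W := by
        rw [show a - u + -w = a + (-1 : F) • (u + w) by module]; exact hmem
      have h' := (W.add_mem_iff_left (W.neg_mem hw)).1 hmem'
      have hau := hint (a - u) (U.sub_mem ha hu) h'
      rw [sub_eq_zero] at hau
      -- choose the other sign
      obtain ⟨σ', hσ'⟩ := (heq.ge (e (T (u + u + w) 1)).2).1
      have hmem2 : (T (u + u + w) 1).1 *ᵥ a ∈ D (σ' 0) := (hσ' 0).le ⟨a, ha, Matrix.toLin'_apply _ _⟩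
      rw [T_apply, one_mul, map_add, hU a ha _ (U.add_mem hu hu), zero_add, hax] at hmem2
      rcases Fin.exists_fin_two.1 ⟨σ' 0, rfl⟩ with h2' | h2' <;> rw [h2'] at hmem2
      · rw [Submodule.add_mem_iff_right _ ha, Submodule.smul_mem_iff _ (neg_ne_zero.2 one_ne_zero),
          Submodule.add_mem_iff_right _ (U.add_mem hu hu)] at hmem2
        exact hw0 (hint w hmem2 hw)
      · have hmem3 : (-u) + -w ∈ W := by
          rw [show -u + -w = a + (-1 : F) • (u + u + w) by rw [hau]; module]; exact hmem2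
        have := (W.add_mem_iff_left (W.neg_mem hw)).1 hmem3
        exact hu0 (neg_eq_zero.1 (hint _ (U.neg_mem hu) this))
  obtain ⟨g, hgM, hgH⟩ := SetLike.exists_of_lt (lt_of_le_of_ne hM (Ne.symm hne))
  obtain ⟨G, hG⟩ : ∃ G, (e G).1 = g := ⟨e.symm ⟨g, hMK hgM⟩, by simp⟩
  set N := M.comap ((Cfsg.spGL m F).subtype.comp e.toMonoidHom) with hNdef
  suffices htop : N = ⊤ by
    intro x hx
    obtain ⟨X, hX⟩ : ∃ X, (e X).1 = x := ⟨e.symm ⟨x, hx⟩, by simp⟩
    have : X ∈ N := htop ▸ Subgroup.mem_top X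
    rw [← hX]; exact this
  have hGN : G ∈ N := by show (e G).1 ∈ M; rw [hG]; exact hgM
  have hN : ∀ A : Sp m F, ∀ σ : Equiv.Perm (Fin 2), (∀ i, ∀ x ∈ D i, A.1 *ᵥ x ∈ D (σ i)) → A ∈ N := fun A σ h =>
    hM ⟨⟨σ, fun i => mapEq A i (σ i) (h i)⟩, (e A).2⟩
  have hR : ∀ a ∈ U, ∀ z ∈ W, Bs a z = 0 → R a z ∈ N ∧ R z a ∈ N := fun a ha z hz h => by
    have hz' : Bs z a = 0 := by rw [B_swap, h, neg_zero]
    constructor
    · refine hN _ 1 (Fin.forall_fin_two.2 ⟨fun x (hx : x ∈ U) => ?_, fun x (hx : x ∈ W) => ?_⟩)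
      · show _ ∈ U; rw [R_apply h, hU x hx a ha, zero_smul, add_zero]; exact U.add_mem hx (U.smul_mem _ ha)
      · show _ ∈ W; rw [R_apply h, hW x hx z hz, zero_smul, add_zero]; exact W.add_mem hx (W.smul_mem _ hz)
    · refine hN _ 1 (Fin.forall_fin_two.2 ⟨fun x (hx : x ∈ U) => ?_, fun x (hx : x ∈ W) => ?_⟩)
      · show _ ∈ U; rw [R_apply hz', hU x hx a ha, zero_smul, add_zero]; exact U.add_mem hx (U.smul_mem _ ha)
      · show _ ∈ W; rw [R_apply hz', hW x hx z hz, zero_smul, add_zero]; exact W.add_mem hx (W.smul_mem _ hz)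
  -- the swap
  obtain ⟨J, hJN, hJU, hJW⟩ : ∃ J ∈ N, (∀ x ∈ U, J.1 *ᵥ x ∈ W) ∧ ∀ x ∈ W, J.1 *ᵥ x ∈ U := by
    let b := Module.finBasisOfFinrankEq F U hUd
    have hdual : ∀ i, ∃ w ∈ W, ∀ x : U, Bs x.1 w = b.repr x i := fun i => by
      obtain ⟨f, hf⟩ := LinearMap.exists_extend ((Finsupp.lapply i).comp b.repr.toLinearMap)
      obtain ⟨y, hy⟩ := CfsgLib.MaxSub.SpStab.exists_dual f
      obtain ⟨y0, hy0, w, hw, rfl⟩ := hdec y
      refine ⟨w, hw, fun x => ?_⟩
      have h1 : f x.1 = b.repr x i := LinearMap.congr_fun hf x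
      rw [← h1, ← hy, map_add, hU x.1 x.2 y0 hy0, zero_add]
    choose w hwW hw using hdual
    let L : V m F →ₗ[F] V m F := ∑ i, (((Bs).flip (w i)).smulRight (w i) - (Bs (b i).1).smulRight (b i).1)
    have hL : ∀ x, L x = ∑ i, (Bs x (w i) • w i - Bs (b i).1 x • (b i).1) := fun x => by
      simp [L, LinearMap.sum_apply, LinearMap.BilinForm.flip_apply]
    have hrep : ∀ x ∈ U, x = ∑ i, Bs x (w i) • (b i).1 := fun x hx => by
      have := congrArg Subtype.val (b.sum_repr ⟨x, hx⟩)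
      rw [Submodule.coe_sum] at this
      change _ = x at this
      conv_lhs => rw [← this]
      exact Finset.sum_congr rfl fun i _ => by rw [hw i ⟨x, hx⟩]; rfl
    have hbw : ∀ i j, Bs (b i).1 (w j) = if i = j then 1 else 0 := fun i j => by
      rw [hw j (b i), b.repr_self, Finsupp.single_apply]
    have hB : ∀ x y, Bs (L x) (L y) = Bs x y := fun x y => by
      obtain ⟨x0, hx0, x1, hx1, rfl⟩ := hdec x
      obtain ⟨y0, hy0, y1, hy1, rfl⟩ := hdec y
      have e1 : ∀ x0 ∈ U, ∀ x1 ∈ W, ∀ i, Bs (x0 + x1) (w i) = Bs x0 (w i) ∧ Bs (b i).1 (x0 + x1) = Bs (b i).1 x1 :=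
        fun x0 hx0 x1 hx1 i => ⟨by rw [map_add, LinearMap.add_apply, hW x1 hx1 _ (hwW i), add_zero],
          by rw [map_add, hU _ (b i).2 x0 hx0, zero_add]⟩
      have e2 : ∀ x0 ∈ U, ∀ y1 ∈ W, Bs x0 y1 = ∑ i, Bs x0 (w i) * Bs (b i).1 y1 := fun x0 hx0 y1 hy1 => by
        conv_lhs => rw [hrep x0 hx0]
        simp [map_sum, LinearMap.sum_apply]
      rw [hL, hL]
      simp only [fun i => (e1 x0 hx0 x1 hx1 i).1, fun i => (e1 x0 hx0 x1 hx1 i).2, fun i => (e1 y0 hy0 y1 hy1 i).1,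
        fun i => (e1 y0 hy0 y1 hy1 i).2, map_sum, map_sub, map_smul, LinearMap.sum_apply, LinearMap.sub_apply,
        LinearMap.smul_apply, smul_eq_mul, B_swap (w _) (b _).1, hbw, hW _ (hwW _) _ (hwW _), hU _ (b _).2 _ (b _).2]
      rw [map_add, map_add, LinearMap.add_apply, LinearMap.add_apply, hU x0 hx0 y0 hy0, hW x1 hx1 y1 hy1, zero_add, add_zero,
        B_swap x1 y0, e2 x0 hx0 y1 hy1, e2 y0 hy0 x1 hx1, ← Finset.sum_neg_distrib, ← Finset.sum_add_distrib]
      refine Finset.sum_congr rfl fun i _ => ?_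
      simp [Finset.sum_sub_distrib, mul_comm]
    let J : Sp m F := ⟨LinearMap.toMatrix' L, (mem_iff _).2 fun u v => by
      rw [LinearMap.toMatrix'_mulVec, LinearMap.toMatrix'_mulVec]; exact hB u v⟩
    have hJa : ∀ x, J.1 *ᵥ x = L x := fun x => LinearMap.toMatrix'_mulVec L x
    have h0 : ∀ x ∈ U, J.1 *ᵥ x ∈ W := fun x hx => by
      rw [hJa, hL]
      exact W.sum_mem fun i _ => by rw [hU _ (b i).2 x hx, zero_smul, sub_zero]; exact W.smul_mem _ (hwW i)
    have h1 : ∀ x ∈ W, J.1 *ᵥ x ∈ U := fun x hx => by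
      rw [hJa, hL]
      exact U.sum_mem fun i _ => by rw [hW x hx _ (hwW i), zero_smul, zero_sub]; exact U.neg_mem (U.smul_mem _ (b i).2)
    exact ⟨J, hN J (Equiv.swap 0 1) (Fin.forall_fin_two.2
      ⟨fun x hx => by rw [Equiv.swap_apply_left]; exact h0 x hx, fun x hx => by rw [Equiv.swap_apply_right]; exact h1 x hx⟩), h0, h1⟩
  -- one side
  have hboth : (∀ x ∈ W, C N x) ∧ ∀ x ∈ U, C N x := by
    have pull : ∀ {X Y : Submodule F (V m F)}, Module.finrank F X = m → Module.finrank F Y = m →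
        (∀ x ∈ X, J.1 *ᵥ x ∈ Y) → (∀ x ∈ X, C N x) → ∀ y ∈ Y, C N y := by
      intro X Y hX hY hJ hC y hy
      let f : X →ₗ[F] Y :=
        { toFun := fun x => ⟨J.1 *ᵥ x.1, hJ x.1 x.2⟩
          map_add' := fun a b => Subtype.ext (show J.1 *ᵥ (a.1 + b.1) = J.1 *ᵥ a.1 + J.1 *ᵥ b.1 from Matrix.mulVec_add _ _ _)
          map_smul' := fun c a => Subtype.ext (show J.1 *ᵥ (c • a.1) = c • (J.1 *ᵥ a.1) from Matrix.mulVec_smul _ _ _) }
      obtain ⟨x, hx⟩ := (LinearMap.injective_iff_surjective_of_finrank_eq_finrank (hX.trans hY.symm)).1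
        (show Function.Injective f from fun a b h => Subtype.ext (mulVec_inj J (congrArg Subtype.val h))) ⟨y, hy⟩
      rw [← show J.1 *ᵥ x.1 = y from congrArg Subtype.val hx]
      exact C_map hJN (hC x.1 x.2)
    have stab : ∀ σ : Equiv.Perm (Fin 2), (∀ i, ∀ x ∈ D i, G.1 *ᵥ x ∈ D (σ i)) → False := fun σ h =>
      hgH (hG ▸ ⟨⟨σ, fun i => mapEq G i (σ i) (h i)⟩, (e G).2⟩)
    have excl : ∀ {X : Submodule F (V m F)}, Module.finrank F X = m → (∀ x ∈ U, G.1 *ᵥ x ∈ X) → (∀ x ∈ W, G.1 *ᵥ x ∈ X) → False := by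
      intro X hX h1 h3
      have htop : (⊤ : Submodule F (V m F)) ≤ X := fun y _ => by
        obtain ⟨a, ha, b, hb, hab⟩ := hdec ((G⁻¹).1 *ᵥ y)
        have : G.1 *ᵥ ((G⁻¹).1 *ᵥ y) = y := by rw [← mulVec_mul, mul_inv_cancel, Submonoid.coe_one, Matrix.one_mulVec]
        rw [← this, hab, Matrix.mulVec_add]
        exact X.add_mem (h1 a ha) (h3 b hb)
      have := Submodule.finrank_mono htop
      rw [finrank_top, Module.finrank_fintype_fun_eq_card, Fintype.card_sum, Fintype.card_fin] at this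
      omega
    have hR' : ∀ a ∈ W, ∀ z ∈ U, Bs a z = 0 → R a z ∈ N ∧ R z a ∈ N := fun a ha z hz h =>
      ⟨(hR z hz a ha (by rw [B_swap, h, neg_zero])).2, (hR z hz a ha (by rw [B_swap, h, neg_zero])).1⟩
    have side1 : ¬ (∀ a ∈ U, G.1 *ᵥ a ∈ U) → ¬ (∀ a ∈ W, G.1 *ᵥ a ∈ U) → ∀ w ∈ W, C N w :=
      side hm hUd hWd hU hW hsup N h2 hR hGN
    have side2 : ¬ (∀ a ∈ W, G.1 *ᵥ a ∈ W) → ¬ (∀ a ∈ U, G.1 *ᵥ a ∈ W) → ∀ u ∈ U, C N u :=
      side hm hWd hUd hW hU hsup' N h2 hR' hGN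
    by_cases h1 : ∀ a ∈ U, G.1 *ᵥ a ∈ U
    · have h := side2 (fun h => stab 1 (Fin.forall_fin_two.2 ⟨h1, h⟩)) (fun h => by
        obtain ⟨x, hx, hx0⟩ := U.exists_mem_ne_zero_of_ne_bot (fun h' => by rw [h', finrank_bot] at hUd; omega)
        exact hx0 (mulVec_inj G ((hint _ (h1 x hx) (h x hx)).trans (Matrix.mulVec_zero _).symm)))
      exact ⟨pull hUd hWd hJU h, h⟩
    · by_cases h3 : ∀ a ∈ W, G.1 *ᵥ a ∈ U
      · have h := side2 (fun h => by
          obtain ⟨x, hx, hx0⟩ := W.exists_mem_ne_zero_of_ne_bot (fun h' => by rw [h', finrank_bot] at hWd; omega)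
          exact hx0 (mulVec_inj G ((hint _ (h3 x hx) (h x hx)).trans (Matrix.mulVec_zero _).symm)))
          (fun h => stab (Equiv.swap 0 1) (Fin.forall_fin_two.2
            ⟨fun x hx => by rw [Equiv.swap_apply_left]; exact h x hx, fun x hx => by rw [Equiv.swap_apply_right]; exact h3 x hx⟩))
        exact ⟨pull hUd hWd hJU h, h⟩
      · have h := side1 h1 h3
        exact ⟨h, pull hWd hUd hJW h⟩
  refine top_of_C fun v => ?_
  obtain ⟨hCW, hCU⟩ := hboth
  have step : ∀ v w, C N v → C N w → Bs v w ≠ 0 → C N (v + w) := fun v w hv hw hne => by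
    have := C_map (hw (Bs v w)⁻¹) hv
    rwa [T_apply, inv_mul_cancel₀ hne, one_smul] at this
  obtain ⟨a, ha, b, hb, rfl⟩ := hdec v
  by_cases ha0 : a = 0
  · rw [ha0, zero_add]; exact hCW b hb
  by_cases hab : Bs a b = 0
  · obtain ⟨x, hx⟩ := exists_B_eq_one ha0
    obtain ⟨x0, hx0, x1, hx1, rfl⟩ := hdec x
    rw [map_add, hU a ha x0 hx0, zero_add] at hx
    have h1 := step a x1 (hCU a ha) (hCW x1 hx1) (by rw [hx]; exact one_ne_zero)
    have h3 := step (a + x1) (b - x1) h1 (hCW _ (W.sub_mem hb hx1)) (by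
      rw [map_add, LinearMap.add_apply, hW x1 hx1 _ (W.sub_mem hb hx1), add_zero, map_sub, hab, hx, zero_sub]
      exact neg_ne_zero.2 one_ne_zero)
    rwa [show a + x1 + (b - x1) = a + b by abel] at h3
  · exact step a b (hCU a ha) (hCW b hb) hab

end Cfsg.Agent.S5649
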