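import Cfsg.Statements.S5650
import Cfsg.Agent.Lib.MaxSub.SpStab
import Cfsg.Agent.Lib.Forms.Represent

set_option autoImplicit false
open Cfsg

namespace Cfsg.Agent.S5650

open scoped Matrix
open CfsgLib.Symplectic.Basic (V Sp T T_apply T_neg T_smul conj_T mem_iff mulVec_mul mulVec_inv_cancel B_self B_swap B_eq B_map exists_B_eq_one ext_mulVec eq_zero_of_B_left)
open CfsgLib.MaxSub.SpStab (C C_map C_smul top_of_C mulVec_inj)

local notation "Bs" => CfsgLib.Symplectic.Basic.B

variable {F : Type*} [Field F] {m : ℕ}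

/-- The product of three transvections with an orthogonal pair of centres. -/
noncomputable def R (a z : V m F) : Sp m F := T (a + z) 1 * T a (-1) * T z (-1)

theorem R_apply {a z : V m F} (h : Bs a z = 0) (x : V m F) :
    (R a z).1 *ᵥ x = x + Bs x a • z + Bs x z • a := by
  have hza : Bs z a = 0 := by rw [B_swap, h, neg_zero]
  rw [R, mulVec_mul, mulVec_mul, T_apply, T_apply, T_apply]
  simp only [map_add, map_smul, LinearMap.add_apply, LinearMap.smul_apply, smul_eq_mul, B_self, hza, h]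
  module

theorem R_conj (g : Sp m F) (a z : V m F) : g * R a z * g⁻¹ = R (g.1 *ᵥ a) (g.1 *ᵥ z) := by
  rw [R, R, ← Matrix.mulVec_add, ← conj_T g (a + z) 1, ← conj_T g a (-1), ← conj_T g z (-1)]
  group

theorem R_orth {a z : V m F} (h : Bs a z = 0) (s : F) : Bs a (s • z) = 0 := by rw [map_smul, h, smul_zero]

theorem R_swap {a z : V m F} (h : Bs a z = 0) (s : F) : R a (s • z) = R z (s • a) := by
  have h' : Bs z a = 0 := by rw [B_swap, h, neg_zero]
  refine ext_mulVec fun x => ?_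
  rw [R_apply (R_orth h s), R_apply (R_orth h' s)]
  simp only [map_smul, smul_eq_mul]
  module

theorem R_mul {a z z' : V m F} (h : Bs a z = 0) (h' : Bs a z' = 0) (hzz : Bs z z' = 0) :
    R a (z + z') = R a z * R a z' := by
  refine ext_mulVec fun x => ?_
  rw [mulVec_mul, R_apply (by rw [map_add, h, h', add_zero]), R_apply h, R_apply h']
  simp only [map_add, map_smul, LinearMap.add_apply, LinearMap.smul_apply, smul_eq_mul, B_self, h,
    B_swap z' a, h', B_swap z' z, hzz]
  module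

/-- Two short root elements with meeting centres. -/
theorem R_mul_left {a z z' : V m F} (h : Bs a z = 0) (h' : Bs a z' = 0) :
    R a (z + z') = R a z' * R a z * T a (-Bs z z') := by
  refine ext_mulVec fun x => ?_
  rw [mulVec_mul, mulVec_mul, R_apply (by rw [map_add, h, h', add_zero]), T_apply, R_apply h, R_apply h']
  simp only [map_add, map_smul, LinearMap.add_apply, LinearMap.smul_apply, smul_eq_mul, B_self, h, h', B_swap z a, B_swap z' a]
  module

/-- For a finite field F, a subfield F₀ with |F| = |F₀| ^ r for a prime r, and m ≥ 7, let P be an invertible matrix and ζ a non-zero scalar such that ζ times the standard alternating form takes values in F₀ on the F₀-span of the columns of P. Then the elements of Sp_2m(F) lying in the subfield group of P (the conjugate by P of the product of GL_2m(F₀) with the scalars) form a maximal subgroup of Sp_2m(F). -/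
theorem result {F : Type*} [Field F] [Fintype F] (m : ℕ) (hm : 7 ≤ m) (F₀ : Subfield F) (r : ℕ) (hr : r.Prime) (hcard : Fintype.card F = Nat.card F₀ ^ r) (P : Matrix.GeneralLinearGroup (Fin m ⊕ Fin m) F) (ζ : F) (hζ : ζ ≠ 0) (hP : Cfsg.Geo.IsFormRationalStructure (Cfsg.sympForm m F) F₀ ζ P) : Cfsg.Geo.IsMaximalIn (Cfsg.spGL m F) (Cfsg.Geo.subfieldSubgroup F₀ P ⊓ Cfsg.spGL m F) := by
  classical
  let e := CfsgLib.Symplectic.Simple.toSpGL (m := m) (F := F)
  let ι := Fin m ⊕ Fin m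
  let rp : (ι → F₀) → V m F := fun u => P.1 *ᵥ fun i => (u i : F)
  have rp_add : ∀ u v, rp (u + v) = rp u + rp v := fun u v => by
    show P.1 *ᵥ _ = P.1 *ᵥ _ + P.1 *ᵥ _
    rw [← Matrix.mulVec_add]
    congr 1
  have rp_smul : ∀ (c : F₀) u, rp (c • u) = (c : F) • rp u := fun c u => by
    show P.1 *ᵥ _ = (c : F) • (P.1 *ᵥ _)
    rw [← Matrix.mulVec_smul]
    congr 1
  have rp_zero : rp 0 = 0 := by
    have := rp_smul 0 0
    rwa [zero_smul, Subfield.coe_zero, zero_smul] at this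
  have rp_inj : ∀ u v, rp u = rp v → u = v := fun u v h => funext fun i => Subtype.ext
    (congrFun (Matrix.mulVec_injective_iff_isUnit.2 P.isUnit h) i)
  have rp_neg : ∀ u, rp (-u) = -rp u := fun u => by
    refine eq_neg_of_add_eq_zero_left ?_
    rw [← rp_add, neg_add_cancel, rp_zero]
  have hval : ∀ u v, ζ * Bs (rp u) (rp v) ∈ F₀ := fun u v => by
    rw [B_eq]; exact hP _ _ (fun i => (u i).2) (fun i => (v i).2)
  let b : LinearMap.BilinForm F₀ (ι → F₀) := LinearMap.mk₂ F₀ (fun u v => (⟨ζ * Bs (rp u) (rp v), hval u v⟩ : F₀))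
    (fun u u' v => Subtype.ext (by
      show ζ * Bs (rp (u + u')) (rp v) = ζ * Bs (rp u) (rp v) + ζ * Bs (rp u') (rp v)
      rw [rp_add, map_add, LinearMap.add_apply, mul_add]))
    (fun c u v => Subtype.ext (by
      show ζ * Bs (rp (c • u)) (rp v) = (c : F) * (ζ * Bs (rp u) (rp v))
      rw [rp_smul, map_smul, LinearMap.smul_apply, smul_eq_mul]; ring))
    (fun u v v' => Subtype.ext (by
      show ζ * Bs (rp u) (rp (v + v')) = ζ * Bs (rp u) (rp v) + ζ * Bs (rp u) (rp v')
      rw [rp_add, map_add, mul_add]))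
    (fun c u v => Subtype.ext (by
      show ζ * Bs (rp u) (rp (c • v)) = (c : F) * (ζ * Bs (rp u) (rp v))
      rw [rp_smul, map_smul, smul_eq_mul]; ring))
  have hb : ∀ u v, (b u v : F) = ζ * Bs (rp u) (rp v) := fun u v => rfl
  have hb0 : ∀ {u v}, b u v = 0 → Bs (rp u) (rp v) = 0 := fun {u v} h => by
    have := hb u v
    rw [h, Subfield.coe_zero] at this
    exact (mul_eq_zero.1 this.symm).resolve_left hζ
  have balt : ∀ u, b u u = 0 := fun u => Subtype.ext (by rw [hb, B_self, mul_zero]; rfl)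
  have bswap : ∀ u v, b u v = -b v u := fun u v => Subtype.ext (by
    show (b u v : F) = -(b v u : F)
    rw [hb, hb, B_swap, mul_neg])
  have coords : ∀ y : V m F, ∃ c : ι → F, y = ∑ i, c i • rp (Pi.single i 1) := fun y => by
    refine ⟨(P⁻¹ : GL ι F).1 *ᵥ y, ?_⟩
    have h1 : ∀ i, rp (Pi.single i 1) = P.1 *ᵥ Pi.single i 1 := fun i => by
      show P.1 *ᵥ _ = _
      congr 1
      funext j
      by_cases h : j = i
      · subst h; simp
      · simp [Pi.single_eq_of_ne h]
    simp only [h1, ← Matrix.mulVec_smul, ← Matrix.mulVec_sum]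
    rw [← pi_eq_sum_univ', Matrix.mulVec_mulVec, ← Units.val_mul, mul_inv_cancel, Units.val_one, Matrix.one_mulVec]
  have zero_of : ∀ x, (∀ u, Bs x (rp u) = 0) → x = 0 := fun x h => by
    refine eq_zero_of_B_left fun y => ?_
    obtain ⟨c, rfl⟩ := coords y
    rw [map_sum]
    exact Finset.sum_eq_zero fun i _ => by rw [map_smul, h, smul_zero]
  have rep : ∀ f : (ι → F₀) →ₗ[F₀] F₀, ∃ z, ∀ u, b u z = f u := fun f => by
    obtain ⟨z, hz⟩ := (LinearMap.injective_iff_surjective_of_finrank_eq_finrank (Subspace.dual_finrank_eq).symm).1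
      (show Function.Injective b.flip from (injective_iff_map_eq_zero b.flip).2 fun z hz => by
        refine rp_inj z 0 ?_
        rw [rp_zero]
        refine zero_of _ fun u => ?_
        have h1 : b u z = 0 := LinearMap.congr_fun hz u
        rw [B_swap, hb0 h1, neg_zero]) f
    exact ⟨z, fun u => LinearMap.congr_fun hz u⟩
  have sep : ∀ {S : Submodule F₀ (ι → F₀)} {x}, x ∉ S → ∃ z, (∀ s ∈ S, b s z = 0) ∧ b x z = 1 := by
    intro S x hx
    obtain ⟨f, hf, hfS⟩ := Submodule.exists_dual_map_eq_bot_of_notMem hx inferInstance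
    obtain ⟨z, hz⟩ := rep ((f x)⁻¹ • f)
    refine ⟨z, fun s hs => ?_, by rw [hz, LinearMap.smul_apply, smul_eq_mul, inv_mul_cancel₀ hf]⟩
    have : f s ∈ S.map f := ⟨s, hs, rfl⟩
    rw [hfS] at this
    rw [hz, LinearMap.smul_apply, (Submodule.mem_bot F₀).1 this, smul_zero]
  have out : ∀ {k : ℕ} (s : Fin k → (ι → F₀)), k ≤ 4 → ∃ z, (∀ i, b (s i) z = 0) ∧ z ∉ Submodule.span F₀ (Set.range s) := by
    intro k s hk
    by_contra hc
    simp only [not_exists, not_and, not_not] at hc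
    let φ : (ι → F₀) →ₗ[F₀] (Fin k → F₀) := LinearMap.pi fun i => b (s i)
    have h1 := φ.finrank_range_add_finrank_ker
    have h2 : Module.finrank F₀ (LinearMap.range φ) ≤ k := (Submodule.finrank_le _).trans (le_of_eq (Module.finrank_fin_fun F₀))
    have h3 := Submodule.finrank_mono (show LinearMap.ker φ ≤ Submodule.span F₀ (Set.range s) from
      fun z hz => hc z fun i => congrFun (LinearMap.mem_ker.1 hz) i)
    have h4 : Module.finrank F₀ (Submodule.span F₀ (Set.range s)) ≤ k := (finrank_range_le_card s).trans (by simp)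
    rw [Module.finrank_fintype_fun_eq_card, Fintype.card_sum, Fintype.card_fin] at h1
    omega
  -- the group of elements preserving the rational structure up to a scalar
  have fwd : ∀ A : GL ι F, A ∈ Cfsg.Geo.subfieldSubgroup F₀ P → ∃ l : F, l ≠ 0 ∧ ∀ u, ∃ z, A.1 *ᵥ rp u = l • rp z := by
    intro A hA
    obtain ⟨X, hX, rfl⟩ := hA
    have key : ∃ l : F, l ≠ 0 ∧ ∀ u : ι → F₀, ∃ z : ι → F₀, X.1 *ᵥ (fun i => (u i : F)) = l • fun i => (z i : F) := by
      rw [SetLike.mem_coe, Subgroup.sup_eq_closure] at hX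
      refine Subgroup.closure_induction (p := fun (X : GL ι F) _ => ∃ l : F, l ≠ 0 ∧ ∀ u : ι → F₀, ∃ z : ι → F₀,
        X.1 *ᵥ (fun i => (u i : F)) = l • fun i => (z i : F)) ?_ ?_ ?_ ?_ hX
      · rintro Y (⟨M0, rfl⟩ | hY)
        · refine ⟨1, one_ne_zero, fun u => ⟨M0.1 *ᵥ u, ?_⟩⟩
          rw [one_smul]
          funext i
          show ((M0.1.map F₀.subtype) *ᵥ (F₀.subtype ∘ u)) i = F₀.subtype ((M0.1 *ᵥ u) i)
          rw [RingHom.map_mulVec]
        · obtain ⟨c, hc⟩ := (Cfsg.Geo.mem_scalars_iff Y).1 hY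
          refine ⟨c, c.ne_zero, fun u => ⟨u, ?_⟩⟩
          rw [hc, Matrix.smul_mulVec, Matrix.one_mulVec]
      · exact ⟨1, one_ne_zero, fun u => ⟨u, by rw [Units.val_one, Matrix.one_mulVec, one_smul]⟩⟩
      · rintro X Y - - ⟨l, hl, hX⟩ ⟨l', hl', hY⟩
        refine ⟨l * l', mul_ne_zero hl hl', fun u => ?_⟩
        obtain ⟨z, hz⟩ := hY u
        obtain ⟨z', hz'⟩ := hX z
        refine ⟨z', ?_⟩
        rw [Units.val_mul, ← Matrix.mulVec_mulVec, hz, Matrix.mulVec_smul, hz', smul_smul, mul_comm]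
      · rintro X - ⟨l, hl, hX⟩
        refine ⟨l⁻¹, inv_ne_zero hl, fun u => ?_⟩
        choose f hf using hX
        have hcoe : ∀ a c : ι → F₀, (fun i => (a i : F)) = (fun i => (c i : F)) → a = c := fun a c h =>
          funext fun i => Subtype.ext (congrFun h i)
        have hfinj : Function.Injective f := fun a c h => hcoe a c (Matrix.mulVec_injective_iff_isUnit.2 X.isUnit (by rw [hf, hf, h]))
        obtain ⟨v, hv⟩ := (Finite.injective_iff_surjective.1 hfinj) u
        refine ⟨v, ?_⟩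
        have h1 := congrArg (fun y => (X⁻¹ : GL ι F).1 *ᵥ y) (hf v)
        simp only [Matrix.mulVec_mulVec, ← Units.val_mul, inv_mul_cancel, Units.val_one, Matrix.one_mulVec,
          Matrix.mulVec_smul, hv] at h1
        rw [h1, inv_smul_smul₀ hl]
    obtain ⟨l, hl, hk⟩ := key
    refine ⟨l, hl, fun u => ?_⟩
    obtain ⟨z, hz⟩ := hk u
    refine ⟨z, ?_⟩
    show (P * X * P⁻¹).1 *ᵥ (P.1 *ᵥ _) = l • (P.1 *ᵥ _)
    rw [Matrix.mulVec_mulVec, ← Units.val_mul, inv_mul_cancel_right, Units.val_mul, ← Matrix.mulVec_mulVec, hz,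
      Matrix.mulVec_smul]
  have bwd : ∀ A : GL ι F, ∀ l : F, l ≠ 0 → (∀ u, ∃ z, A.1 *ᵥ rp u = l • rp z) → A ∈ Cfsg.Geo.subfieldSubgroup F₀ P := by
    intro A l hl h
    choose zc hzc using fun j => h (Pi.single j 1)
    let M0 : Matrix ι ι F₀ := Matrix.of fun i j => zc j i
    have hcol : ∀ j, rp (Pi.single j 1) = P.1 *ᵥ Pi.single j 1 := fun j => by
      show P.1 *ᵥ _ = _
      congr 1
      funext i
      by_cases h : i = j
      · subst h; simp
      · simp [Pi.single_eq_of_ne h]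
    have hM : (P⁻¹ : GL ι F).1 * A.1 * P.1 = l • M0.map F₀.subtype := by
      refine Matrix.ext_of_mulVec_single fun j => ?_
      rw [← Matrix.mulVec_mulVec, ← hcol, ← Matrix.mulVec_mulVec, hzc, Matrix.mulVec_smul]
      show l • ((P⁻¹ : GL ι F).1 *ᵥ (P.1 *ᵥ _)) = _
      rw [Matrix.mulVec_mulVec, ← Units.val_mul, inv_mul_cancel, Units.val_one, Matrix.one_mulVec, Matrix.smul_mulVec,
        Matrix.mulVec_single_one]
      rfl
    have hdet : M0.det ≠ 0 := fun h0 => by
      have h1 : ((P⁻¹ * A * P : GL ι F).1).det ≠ 0 := (Matrix.isUnit_iff_isUnit_det _).1 (P⁻¹ * A * P : GL ι F).isUnit |>.ne_zero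
      rw [Units.val_mul, Units.val_mul, hM, Matrix.det_smul] at h1
      have h2 : (M0.map F₀.subtype).det = 0 := by
        rw [← RingHom.mapMatrix_apply, ← RingHom.map_det, h0, map_zero]
      exact h1 (by rw [h2, mul_zero])
    refine ⟨Matrix.GeneralLinearGroup.map F₀.subtype (Matrix.GeneralLinearGroup.mkOfDetNeZero M0 hdet) *
      Units.map (Matrix.scalar ι : F →+* Matrix ι ι F).toMonoidHom (Units.mk0 l hl),
      Subgroup.mul_mem_sup ⟨_, rfl⟩ ⟨_, rfl⟩, ?_⟩
    refine Units.ext ?_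
    show P.1 * (M0.map F₀.subtype * Matrix.scalar ι l) * (P⁻¹ : GL ι F).1 = A.1
    have hsc : M0.map F₀.subtype * Matrix.scalar ι l = l • M0.map F₀.subtype := by
      ext i j; simp [Matrix.scalar_apply, Matrix.mul_diagonal, mul_comm]
    rw [hsc, ← hM, ← Matrix.mul_assoc, ← Matrix.mul_assoc, ← Units.val_mul, mul_inv_cancel, Units.val_one,
      Matrix.one_mul, Matrix.mul_assoc, ← Units.val_mul, mul_inv_cancel, Units.val_one, Matrix.mul_one]
  refine ⟨lt_of_le_of_ne inf_le_right fun heq => ?_, fun M hM hMK => or_iff_not_imp_left.2 fun hne => le_antisymm hMK ?_⟩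
  · obtain ⟨c, hc⟩ : ∃ c : F, c ∉ F₀ := by
      by_contra h
      simp only [not_exists, not_not] at h
      have hle : Fintype.card F ≤ Nat.card F₀ := by
        rw [← Nat.card_eq_fintype_card]
        exact Nat.card_le_card_of_injective (fun x : F => (⟨x, h x⟩ : F₀)) (fun a b e => congrArg Subtype.val e)
      rw [hcard] at hle
      have h1 : Nat.card F₀ ^ 1 < Nat.card F₀ ^ r := Nat.pow_lt_pow_right Finite.one_lt_card hr.one_lt
      rw [pow_one] at h1
      omega
    obtain ⟨u, -, hu⟩ := out (![] : Fin 0 → (ι → F₀)) (by omega)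
    have hu0 : u ≠ 0 := fun h => hu (h ▸ Submodule.zero_mem _)
    obtain ⟨v, -, huv⟩ := sep (S := (⊥ : Submodule F₀ (ι → F₀))) (x := u) (by simpa using hu0)
    obtain ⟨l, hl, hz⟩ := fwd _ (heq.ge (e (T (rp u) (ζ * c))).2).1
    obtain ⟨z, hz1⟩ := hz u
    change (T (rp u) (ζ * c)).1 *ᵥ rp u = l • rp z at hz1
    rw [T_apply, B_self, mul_zero, zero_smul, add_zero] at hz1
    obtain ⟨z', hz2⟩ := hz v
    change (T (rp u) (ζ * c)).1 *ᵥ rp v = l • rp z' at hz2
    have e1 := congrArg (fun y => ζ * Bs y (rp v)) hz1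
    simp only [map_smul, LinearMap.smul_apply, smul_eq_mul] at e1
    rw [← hb, huv, Subfield.coe_one, ← mul_left_comm, ← hb] at e1
    have hlF : l ∈ F₀ := by
      rw [show l = (b z v : F)⁻¹ from eq_inv_of_mul_eq_one_left e1.symm]; exact F₀.inv_mem (b z v).2
    -- the image of v
    obtain ⟨x, -, hxu⟩ := sep (S := (⊥ : Submodule F₀ (ι → F₀))) (x := u) (by simpa using hu0)
    rw [T_apply] at hz2
    obtain ⟨u', hu'1, hu'2⟩ : ∃ u', b u u' = 1 ∧ True := ⟨v, huv, trivial⟩
    have e2 := congrArg (fun y => ζ * Bs y (rp v)) hz2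
    simp only [map_add, map_smul, LinearMap.add_apply, LinearMap.smul_apply, smul_eq_mul, B_self, zero_add] at e2
    have e3 : c * ((b v u : F) * (b u v : F)) = l * (b z' v : F) := by
      rw [hb, hb, hb]; linear_combination e2
    rw [bswap v u, huv] at e3
    refine hc ?_
    rw [show c = -(l * (b z' v : F)) by
      rw [← e3]; simp]
    exact F₀.neg_mem (F₀.mul_mem hlF (b z' v).2)
  obtain ⟨g, hgM, hgH⟩ := SetLike.exists_of_lt (lt_of_le_of_ne hM (Ne.symm hne))
  obtain ⟨G, hG⟩ : ∃ G, (e G).1 = g := ⟨e.symm ⟨g, hMK hgM⟩, by simp⟩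
  set N := M.comap ((Cfsg.spGL m F).subtype.comp e.toMonoidHom) with hNdef
  suffices htop : N = ⊤ by
    intro x hx
    obtain ⟨X, hX⟩ : ∃ X, (e X).1 = x := ⟨e.symm ⟨x, hx⟩, by simp⟩
    have : X ∈ N := htop ▸ Subgroup.mem_top X
    rw [← hX]; exact this
  have hGN : G ∈ N := by show (e G).1 ∈ M; rw [hG]; exact hgM
  have hNS : ∀ A : Sp m F, (∀ u, ∃ z, A.1 *ᵥ rp u = rp z) → A ∈ N := fun A h =>
    hM ⟨bwd _ 1 one_ne_zero (fun u => by obtain ⟨z, hz⟩ := h u; exact ⟨z, by rw [one_smul]; exact hz⟩), (e A).2⟩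
  have hT : ∀ u, T (rp u) ζ ∈ N := fun u => hNS _ fun v => ⟨v + b v u • u, by
    rw [T_apply, rp_add, rp_smul, hb]⟩
  have hRr : ∀ u v, b u v = 0 → R (rp u) (ζ • rp v) ∈ N := fun u v h => hNS _ fun x => ⟨x + b x u • v + b x v • u, by
    rw [R_apply (R_orth (hb0 h) ζ), rp_add, rp_add, rp_smul, rp_smul, hb, hb, map_smul, smul_eq_mul, smul_smul,
      mul_comm (Bs (rp x) (rp u)) ζ]⟩
  have hTmove : ∀ u v : ι → F₀, (T (rp u) ζ).1 *ᵥ rp v = rp (v + b v u • u) := fun u v => by
    rw [T_apply, rp_add, rp_smul, hb]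
  -- a short root element with irrational parameter
  obtain ⟨u₀, v₀, c₀, hu₀v₀, hu₀ne, huv₀, hc₀, hS₀⟩ : ∃ u v : ι → F₀, ∃ c : F, b u v = 0 ∧ u ≠ 0 ∧ v ∉ Submodule.span F₀ {u} ∧ c ∉ F₀ ∧
      R (rp u) ((ζ * c) • rp v) ∈ N := by
    obtain ⟨x, hx⟩ : ∃ x, ∀ (z : ι → F₀) (t : F), G.1 *ᵥ rp x ≠ t • rp z := by
      by_contra hcon
      simp only [not_exists, not_forall, ne_eq, not_not] at hcon
      choose zf tf hzt using hcon
      obtain ⟨x₀, -, hx₀⟩ := out (![] : Fin 0 → (ι → F₀)) (by omega)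
      have hx₀0 : x₀ ≠ 0 := fun h => hx₀ (h ▸ Submodule.zero_mem _)
      have hne0 : ∀ u, u ≠ 0 → tf u ≠ 0 ∧ zf u ≠ 0 := fun u hu => by
        have h1 : G.1 *ᵥ rp u ≠ 0 := fun h => hu (rp_inj u 0 (by rw [rp_zero]; exact mulVec_inj G (h.trans (Matrix.mulVec_zero _).symm)))
        rw [hzt] at h1
        exact ⟨fun h => h1 (by rw [h, zero_smul]), fun h => h1 (by rw [h, rp_zero, smul_zero])⟩
      refine hgH (hG ▸ ⟨bwd _ (tf x₀) (hne0 x₀ hx₀0).1 fun u => ?_, (e G).2⟩)
      show ∃ z, G.1 *ᵥ rp u = tf x₀ • rp z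
      by_cases hu : u ∈ Submodule.span F₀ {x₀}
      · obtain ⟨c, rfl⟩ := Submodule.mem_span_singleton.1 hu
        exact ⟨c • zf x₀, by rw [rp_smul, Matrix.mulVec_smul, hzt, rp_smul, smul_comm]⟩
      have hu0 : u ≠ 0 := fun h => hu (h ▸ Submodule.zero_mem _)
      obtain ⟨ht, hz⟩ := hne0 u hu0
      obtain ⟨ht0, hz0⟩ := hne0 x₀ hx₀0
      have hzn : zf u ∉ Submodule.span F₀ {zf x₀} := fun h => by
        obtain ⟨c, hc⟩ := Submodule.mem_span_singleton.1 h
        have h1 : rp u = (tf u * (c : F) / tf x₀) • rp x₀ := mulVec_inj G (by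
          rw [Matrix.mulVec_smul, hzt, hzt, ← hc, rp_smul, smul_smul, smul_smul, div_mul_cancel₀ _ ht0])
        obtain ⟨i, hi⟩ : ∃ i, x₀ i ≠ 0 := by
          by_contra h'; simp only [not_exists, not_not] at h'; exact hx₀0 (funext h')
        have h2 : (fun i => (u i : F)) = (tf u * (c : F) / tf x₀) • fun i => (x₀ i : F) :=
          Matrix.mulVec_injective_iff_isUnit.2 P.isUnit (by rw [Matrix.mulVec_smul]; exact h1)
        refine hu (Submodule.mem_span_singleton.2 ⟨u i / x₀ i, funext fun j => Subtype.ext ?_⟩)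
        have e1 := congrFun h2 i
        have e2 := congrFun h2 j
        simp only [Pi.smul_apply, smul_eq_mul] at e1 e2
        show ((u i : F) / (x₀ i : F)) * (x₀ j : F) = (u j : F)
        rw [e1, e2, mul_div_cancel_right₀ _ (fun h' => hi (Subtype.ext h'))]
      have hz0n : zf x₀ ∉ Submodule.span F₀ {zf u} := fun h => by
        obtain ⟨c, hc⟩ := Submodule.mem_span_singleton.1 h
        have hc0 : c ≠ 0 := fun e => hz0 (by rw [← hc, e, zero_smul])
        exact hzn (Submodule.mem_span_singleton.2 ⟨c⁻¹, by rw [← hc, inv_smul_smul₀ hc0]⟩)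
      obtain ⟨z₁, hz₁, hz₁'⟩ := sep hzn
      obtain ⟨z₂, hz₂, hz₂'⟩ := sep hz0n
      have hsum := hzt (u + x₀)
      rw [rp_add, Matrix.mulVec_add, hzt, hzt] at hsum
      have q1 := congrArg (fun y => ζ * Bs y (rp z₁)) hsum
      have q2 := congrArg (fun y => ζ * Bs y (rp z₂)) hsum
      simp only [map_add, map_smul, LinearMap.add_apply, LinearMap.smul_apply, smul_eq_mul] at q1 q2
      have r1 : tf u = tf (u + x₀) * (b (zf (u + x₀)) z₁ : F) := by
        have a1 : (b (zf u) z₁ : F) = 1 := by rw [hz₁']; rfl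
        have a2 : (b (zf x₀) z₁ : F) = 0 := by rw [hz₁ _ (Submodule.mem_span_singleton_self _)]; rfl
        rw [hb] at a1 a2 ⊢
        linear_combination q1 - tf u * a1 - tf x₀ * a2
      have r2 : tf x₀ = tf (u + x₀) * (b (zf (u + x₀)) z₂ : F) := by
        have a1 : (b (zf u) z₂ : F) = 0 := by rw [hz₂ _ (Submodule.mem_span_singleton_self _)]; rfl
        have a2 : (b (zf x₀) z₂ : F) = 1 := by rw [hz₂']; rfl
        rw [hb] at a1 a2 ⊢
        linear_combination q2 - tf u * a1 - tf x₀ * a2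
      refine ⟨(b (zf (u + x₀)) z₁ / b (zf (u + x₀)) z₂) • zf u, ?_⟩
      rw [hzt, rp_smul, smul_smul]
      congr 1
      have hne : (b (zf (u + x₀)) z₂ : F) ≠ 0 := fun h => ht0 (by rw [r2, h, mul_zero])
      conv_lhs => rw [r1]
      conv_rhs => rw [r2]
      show tf (u + x₀) * (b (zf (u + x₀)) z₁ : F) = tf (u + x₀) * (b (zf (u + x₀)) z₂ : F) * ((b (zf (u + x₀)) z₁ : F) / (b (zf (u + x₀)) z₂ : F))
      field_simp
    set w := G.1 *ᵥ rp x with hw
    have hTw : T w ζ ∈ N := by rw [hw, ← conj_T]; exact mul_mem (mul_mem hGN (hT x)) (inv_mem hGN)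
    let ψ : (ι → F₀) → F := fun u => ζ * Bs w (rp u)
    have ψadd : ∀ u v, ψ (u + v) = ψ u + ψ v := fun u v => by
      show ζ * Bs w (rp (u + v)) = ζ * Bs w (rp u) + ζ * Bs w (rp v)
      rw [rp_add, map_add, mul_add]
    have ψsmul : ∀ (c : F₀) u, ψ (c • u) = (c : F) * ψ u := fun c u => by
      show ζ * Bs w (rp (c • u)) = (c : F) * (ζ * Bs w (rp u))
      rw [rp_smul, map_smul, smul_eq_mul]; ring
    obtain ⟨e₁, f₁, hef, hind, hprod⟩ : ∃ e₁ f₁, b e₁ f₁ = 0 ∧ f₁ ∉ Submodule.span F₀ {e₁} ∧ ψ e₁ * ψ f₁ ∉ F₀ := by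
      by_contra hc
      simp only [not_exists, not_and, not_not] at hc
      obtain ⟨e₁, he₁⟩ : ∃ e₁, ψ e₁ ≠ 0 := by
        by_contra h
        simp only [not_exists, not_not] at h
        exact hx 0 0 (by rw [zero_smul]; exact zero_of w fun u => (mul_eq_zero.1 (h u)).resolve_left hζ)
      have hrange : ∀ a : ι → F₀, Set.range (fun _ : Fin 1 => a) = {a} := fun a => Set.range_const
      have hsq : ∀ a, ψ a * ψ a ∈ F₀ := fun a => by
        by_cases ha : a = 0
        · rw [ha, show ψ 0 = 0 by show ζ * Bs w (rp 0) = 0; rw [rp_zero, map_zero, mul_zero], mul_zero]; exact F₀.zero_mem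
        obtain ⟨f, hf, hfn⟩ := out (fun _ : Fin 1 => a) (by omega)
        rw [hrange] at hfn
        have h1 := hc a f (hf 0) hfn
        have h2 := hc a (f + a) (by rw [map_add, hf 0, balt, add_zero]) (fun h => hfn
          ((Submodule.add_mem_iff_left _ (Submodule.mem_span_singleton_self a)).1 h))
        rw [ψadd] at h2
        have := F₀.sub_mem h2 h1
        rwa [mul_add, add_sub_cancel_left] at this
      have hall : ∀ a y, ψ a * ψ y ∈ F₀ := fun a y => by
        by_cases hay : b a y = 0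
        · by_cases hs : y ∈ Submodule.span F₀ {a}
          · obtain ⟨c, rfl⟩ := Submodule.mem_span_singleton.1 hs
            rw [ψsmul, mul_left_comm]; exact F₀.mul_mem c.2 (hsq a)
          · exact hc a y hay hs
        by_cases hex : ∃ f, b a f = 0 ∧ b y f = 0 ∧ ψ f ≠ 0
        · obtain ⟨f, haf, hyf, hf⟩ := hex
          have h1 : ψ a * ψ f ∈ F₀ := hc a f haf (fun h => by
            obtain ⟨c, rfl⟩ := Submodule.mem_span_singleton.1 h
            rw [map_smul, bswap y a, smul_eq_zero] at hyf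
            rcases hyf with h' | h'
            · exact hf (by rw [ψsmul, h', Subfield.coe_zero, zero_mul])
            · exact hay (neg_eq_zero.1 h'))
          have h2 : ψ y * ψ f ∈ F₀ := hc y f hyf (fun h => by
            obtain ⟨c, rfl⟩ := Submodule.mem_span_singleton.1 h
            rw [map_smul, smul_eq_zero] at haf
            exact hf (by rw [ψsmul, haf.resolve_right hay, Subfield.coe_zero, zero_mul]))
          rw [show ψ a * ψ y = (ψ a * ψ f) * (ψ y * ψ f) / (ψ f * ψ f) by field_simp]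
          exact F₀.div_mem (F₀.mul_mem h1 h2) (hsq f)
        simp only [not_exists, not_and, not_not] at hex
        obtain ⟨f₁, hf₁, hf₁n⟩ := out ![a, y] (by omega)
        obtain ⟨z, hz, hfz⟩ := sep hf₁n
        set f₂ := (-b a y) • z with hf₂
        have m0 : b a z = 0 := hz _ (Submodule.subset_span ⟨0, rfl⟩)
        have m1 : b y z = 0 := hz _ (Submodule.subset_span ⟨1, rfl⟩)
        have a1 : b a f₁ = 0 := hf₁ 0
        have a2 : b y f₁ = 0 := hf₁ 1
        have p1 : ψ f₁ = 0 := hex f₁ a1 a2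
        have p2 : ψ f₂ = 0 := hex f₂ (by rw [hf₂, map_smul, m0, smul_zero]) (by rw [hf₂, map_smul, m1, smul_zero])
        have := hc (a + f₁) (y + f₂) (by
          simp only [hf₂, map_add, map_smul, LinearMap.add_apply, smul_eq_mul, m0, hfz, bswap f₁ y, a2]; ring)
          (fun h => by
            obtain ⟨c, hc'⟩ := Submodule.mem_span_singleton.1 h
            have := congrArg (b a) hc'
            rw [map_add, map_smul, map_add, balt, a1, hf₂, map_smul, m0, smul_zero, add_zero, add_zero, smul_zero] at this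
            exact hay this.symm)
        rwa [ψadd, ψadd, p1, p2, add_zero, add_zero] at this
      let f : (ι → F₀) →ₗ[F₀] F₀ :=
        { toFun := fun u => ⟨ψ u / ψ e₁, by
            rw [show ψ u / ψ e₁ = (ψ e₁ * ψ u) / (ψ e₁ * ψ e₁) by field_simp]
            exact F₀.div_mem (hall e₁ u) (hsq e₁)⟩
          map_add' := fun u v => Subtype.ext (by show ψ (u + v) / ψ e₁ = ψ u / ψ e₁ + ψ v / ψ e₁; rw [ψadd, add_div])
          map_smul' := fun c u => Subtype.ext (by show ψ (c • u) / ψ e₁ = (c : F) * (ψ u / ψ e₁); rw [ψsmul, mul_div_assoc]) }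
      obtain ⟨z, hz⟩ := rep f
      refine hx z (-ψ e₁) (sub_eq_zero.1 (zero_of _ fun u => ?_))
      have h1 : (b u z : F) = ψ u / ψ e₁ := congrArg Subtype.val (hz u)
      rw [hb, eq_div_iff he₁] at h1
      rw [map_sub, map_smul, LinearMap.sub_apply, LinearMap.smul_apply, smul_eq_mul, B_swap (rp z)]
      refine mul_left_cancel₀ hζ ?_
      show ζ * (Bs w (rp u) - -ψ e₁ * -Bs (rp u) (rp z)) = ζ * 0
      rw [mul_zero]
      linear_combination -h1
    obtain ⟨p₁, p₂, e', δ, hδw, hkδ, hδ, hρ⟩ : ∃ p₁ p₂ e' : ι → F₀, ∃ δ : V m F, Bs w δ = 0 ∧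
        T (w + δ) ζ ∈ N ∧ (∀ y, b p₁ y = 0 → b p₂ y = 0 → Bs δ (rp y) = 0) ∧
        ∃ f, b p₁ f = 0 ∧ b p₂ f = 0 ∧ f ≠ 0 ∧ f ∉ Submodule.span F₀ {p₁, p₂} ∧ ψ f * (ζ * Bs δ (rp e')) ∉ F₀ := by
      by_cases h2 : (2 : F) = 0
      · obtain ⟨a₁, ha₁, ha₁n⟩ := out ![e₁, f₁] (by omega)
        have m0 : b e₁ a₁ = 0 := ha₁ 0
        have m1 : b f₁ a₁ = 0 := ha₁ 1
        obtain ⟨z, hz, hza⟩ := sep ha₁n
        have n0 : b e₁ z = 0 := hz _ (Submodule.subset_span ⟨0, rfl⟩)
        have n1 : b f₁ z = 0 := hz _ (Submodule.subset_span ⟨1, rfl⟩)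
        have ho : b a₁ e₁ = 0 := by rw [bswap, m0, neg_zero]
        have hk := hRr a₁ e₁ ho
        have himg : (R (rp a₁) (ζ • rp e₁)).1 *ᵥ w = w + (ψ a₁ • rp e₁ + ψ e₁ • rp a₁) := by
          rw [R_apply (R_orth (hb0 ho) ζ), map_smul, smul_smul, smul_eq_mul, mul_comm (Bs w (rp a₁)) ζ, add_assoc]
        refine ⟨a₁, e₁, z, ψ a₁ • rp e₁ + ψ e₁ • rp a₁, ?_, ?_, fun y h1 h3 => ?_, f₁, by rw [bswap, m1, neg_zero], hef,
          fun h => hind (h ▸ Submodule.zero_mem _), fun h => ?_, ?_⟩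
        · show Bs w (ψ a₁ • rp e₁ + ψ e₁ • rp a₁) = 0
          rw [map_add, map_smul, map_smul, smul_eq_mul, smul_eq_mul]
          show ζ * Bs w (rp a₁) * Bs w (rp e₁) + ζ * Bs w (rp e₁) * Bs w (rp a₁) = 0
          linear_combination ζ * Bs w (rp a₁) * Bs w (rp e₁) * h2
        · rw [← himg, ← conj_T]; exact mul_mem (mul_mem hk hTw) (inv_mem hk)
        · rw [map_add, map_smul, map_smul, LinearMap.add_apply, LinearMap.smul_apply, LinearMap.smul_apply, hb0 h1, hb0 h3,
            smul_zero, smul_zero, add_zero]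
        · obtain ⟨α, β, h⟩ := Submodule.mem_span_pair.1 h
          by_cases hα : α = 0
          · exact hind (Submodule.mem_span_singleton.2 ⟨β, by rw [← h, hα, zero_smul, zero_add]⟩)
          · refine ha₁n ((Submodule.smul_mem_iff _ hα).1 ?_)
            rw [show α • a₁ = f₁ - β • e₁ by rw [← h]; abel]
            exact sub_mem (Submodule.subset_span ⟨1, rfl⟩) (Submodule.smul_mem _ _ (Submodule.subset_span ⟨0, rfl⟩))
        · have r1 : ζ * Bs (rp e₁) (rp z) = 0 := by rw [← hb, n0]; rfl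
          have r2 : ζ * Bs (rp a₁) (rp z) = 1 := by rw [← hb, hza]; rfl
          rw [map_add, map_smul, map_smul, LinearMap.add_apply, LinearMap.smul_apply, LinearMap.smul_apply, smul_eq_mul,
            smul_eq_mul, show ψ f₁ * (ζ * (ψ a₁ * Bs (rp e₁) (rp z) + ψ e₁ * Bs (rp a₁) (rp z))) = ψ e₁ * ψ f₁ by
              linear_combination ψ f₁ * ψ a₁ * r1 + ψ f₁ * ψ e₁ * r2]
          exact hprod
      · have hne : e₁ ∉ Submodule.span F₀ {f₁} := fun h => by
          obtain ⟨c, hc⟩ := Submodule.mem_span_singleton.1 h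
          by_cases hc0 : c = 0
          · exact hprod (by
              rw [show e₁ = (0 : F₀) • f₁ by rw [← hc, hc0], ψsmul, Subfield.coe_zero, zero_mul, zero_mul]
              exact F₀.zero_mem)
          · exact hind (Submodule.mem_span_singleton.2 ⟨c⁻¹, by rw [← hc, inv_smul_smul₀ hc0]⟩)
        obtain ⟨e₂, he₂, he12⟩ := sep hne
        have hfe₂ : b f₁ e₂ = 0 := he₂ _ (Submodule.mem_span_singleton_self _)
        let pr : V m F →ₗ[F] V m F :=
          ((ζ • (Bs).flip (rp e₂)).smulRight (rp e₁)) - ((ζ • (Bs).flip (rp e₁)).smulRight (rp e₂))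
        have hpr : ∀ y, pr y = (ζ * Bs y (rp e₂)) • rp e₁ - (ζ * Bs y (rp e₁)) • rp e₂ := fun y => by
          simp [pr, LinearMap.BilinForm.flip_apply]
        have v12 : ζ * Bs (rp e₁) (rp e₂) = 1 := by rw [← hb, he12]; rfl
        let L : V m F →ₗ[F] V m F := LinearMap.id - (2 : F) • pr
        let K : Sp m F := ⟨LinearMap.toMatrix' L, (mem_iff _).2 fun u v => by
          rw [LinearMap.toMatrix'_mulVec, LinearMap.toMatrix'_mulVec]
          simp only [L, LinearMap.sub_apply, LinearMap.id_apply, LinearMap.smul_apply, hpr, map_sub, map_smul, smul_eq_mul,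
            B_self, B_swap (rp e₂) (rp e₁), B_swap (rp e₁) v, B_swap (rp e₂) v]
          linear_combination (4 * ζ * (Bs v (rp e₂) * Bs u (rp e₁) - Bs u (rp e₂) * Bs v (rp e₁))) * v12⟩
        have hKa : ∀ y, K.1 *ᵥ y = y - (2 : F) • pr y := fun y => by
          show LinearMap.toMatrix' L *ᵥ y = _
          rw [LinearMap.toMatrix'_mulVec]; rfl
        have hK : K ∈ N := hNS K fun u => ⟨u - ((1 + 1 : F₀) * b u e₂) • e₁ + ((1 + 1 : F₀) * b u e₁) • e₂, by
          rw [hKa, hpr, rp_add, sub_eq_add_neg u, rp_add, rp_neg, rp_smul, rp_smul, Subfield.coe_mul, Subfield.coe_mul, hb, hb, Subfield.coe_add, Subfield.coe_one]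
          module⟩
        have himg : K.1 *ᵥ w = w + -((2 : F) • pr w) := by rw [hKa, sub_eq_add_neg]
        refine ⟨e₁, e₂, e₁, -((2 : F) • pr w), ?_, ?_, fun y h1 h3 => ?_, f₁, hef, by rw [bswap, hfe₂, neg_zero],
          fun h => hind (h ▸ Submodule.zero_mem _), fun h => ?_, ?_⟩
        · rw [map_neg, map_smul, hpr, map_sub, map_smul, map_smul, smul_eq_mul, smul_eq_mul, smul_eq_mul]; ring
        · rw [← himg, ← conj_T]; exact mul_mem (mul_mem hK hTw) (inv_mem hK)
        · rw [map_neg, LinearMap.neg_apply, map_smul, LinearMap.smul_apply, hpr, map_sub, LinearMap.sub_apply, map_smul,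
            map_smul, LinearMap.smul_apply, LinearMap.smul_apply, hb0 h1, hb0 h3]
          simp
        · obtain ⟨α, β, h⟩ := Submodule.mem_span_pair.1 h
          have := congrArg (b e₁) h
          rw [map_add, map_smul, map_smul, balt, he12, hef, smul_zero, zero_add, smul_eq_mul, mul_one] at this
          exact hind (Submodule.mem_span_singleton.2 ⟨α, by rw [← h, this, zero_smul, add_zero]⟩)
        · rw [map_neg, LinearMap.neg_apply, map_smul, LinearMap.smul_apply, hpr, map_sub, LinearMap.sub_apply, map_smul,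
            map_smul, LinearMap.smul_apply, LinearMap.smul_apply, B_self, B_swap (rp e₂) (rp e₁), smul_eq_mul, smul_eq_mul,
            smul_eq_mul, show ψ f₁ * (ζ * -(2 * (ζ * Bs w (rp e₂) * 0 - ζ * Bs w (rp e₁) * -Bs (rp e₁) (rp e₂))))
              = ((-2 : F₀) : F) * (ψ e₁ * ψ f₁) by
              push_cast
              show ψ f₁ * _ = -2 * (ζ * Bs w (rp e₁) * ψ f₁)
              linear_combination (-2 * ψ f₁ * (ζ * Bs w (rp e₁))) * v12]
          intro hmem
          have h20 : ((-2 : F₀) : F) ≠ 0 := by push_cast; exact neg_ne_zero.2 h2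
          refine hprod ?_
          have := F₀.mul_mem (F₀.inv_mem (-2 : F₀).2) hmem
          rwa [inv_mul_cancel_left₀ h20] at this
    obtain ⟨f, hp₁f, hp₂f, hf0, hfn, hρ⟩ := hρ
    obtain ⟨u, hu, hun⟩ := out ![p₁, p₂, f, e'] (by omega)
    have u1 : b p₁ u = 0 := hu 0
    have u2 : b p₂ u = 0 := hu 1
    have u3 : b f u = 0 := hu 2
    have u4 : b e' u = 0 := hu 3
    have hfS : f ∉ Submodule.span F₀ (Set.range ![p₁, p₂, u]) := fun h => by
      obtain ⟨c, hc⟩ := (Submodule.mem_span_range_iff_exists_fun F₀).1 h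
      simp only [Fin.sum_univ_three, Matrix.cons_val_zero, Matrix.cons_val_one, Matrix.cons_val_two,
        Matrix.head_cons, Matrix.tail_cons] at hc
      by_cases hc2 : c 2 = 0
      · exact hfn (Submodule.mem_span_pair.2 ⟨c 0, c 1, by rw [← hc, hc2, zero_smul, add_zero]⟩)
      · refine hun ((Submodule.smul_mem_iff _ hc2).1 ?_)
        rw [show c 2 • u = f - c 0 • p₁ - c 1 • p₂ by rw [← hc]; abel]
        exact sub_mem (sub_mem (Submodule.subset_span ⟨2, rfl⟩) (Submodule.smul_mem _ _ (Submodule.subset_span ⟨0, rfl⟩)))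
          (Submodule.smul_mem _ _ (Submodule.subset_span ⟨1, rfl⟩))
    obtain ⟨v, hv, hfv⟩ := sep hfS
    have v1 : b p₁ v = 0 := hv _ (Submodule.subset_span ⟨0, rfl⟩)
    have v2 : b p₂ v = 0 := hv _ (Submodule.subset_span ⟨1, rfl⟩)
    have v3 : b u v = 0 := hv _ (Submodule.subset_span ⟨2, rfl⟩)
    obtain ⟨u', hu', hu'n⟩ := out ![p₁, p₂, u, e'] (by omega)
    have w1 : b p₁ u' = 0 := hu' 0
    have w2 : b p₂ u' = 0 := hu' 1
    have w3 : b u u' = 0 := hu' 2
    have w4 : b e' u' = 0 := hu' 3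
    set γ := ψ f with hγ
    have hδf : Bs δ (rp f) = 0 := hδ f hp₁f hp₂f
    have hδu : Bs δ (rp u) = 0 := hδ u u1 u2
    have hδv : Bs δ (rp v) = 0 := hδ v v1 v2
    have hδu' : Bs δ (rp u') = 0 := hδ u' w1 w2
    have hfδ : Bs (rp f) δ = 0 := by rw [B_swap, hδf, neg_zero]
    have hD1 : T (w + δ) ζ * T w (-ζ) ∈ N := mul_mem hkδ (by rw [← T_neg]; exact inv_mem hTw)
    have hD2 : R (rp f) ((ζ * γ) • δ) * T δ (-(ζ * γ * γ)) ∈ N := by
      have h1 := mul_mem (mul_mem (mul_mem (hT f) hD1) (inv_mem (hT f))) (inv_mem hD1)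
      have e1 : (T (rp f) ζ).1 *ᵥ (w + δ) = w + γ • rp f + δ := by
        rw [T_apply, map_add, LinearMap.add_apply, hδf, add_zero]
        show w + δ + γ • rp f = _
        abel
      have e2 : (T (rp f) ζ).1 *ᵥ w = w + γ • rp f := by rw [T_apply]
      rw [show T (rp f) ζ * (T (w + δ) ζ * T w (-ζ)) * (T (rp f) ζ)⁻¹
        = (T (rp f) ζ * T (w + δ) ζ * (T (rp f) ζ)⁻¹) * (T (rp f) ζ * T w (-ζ) * (T (rp f) ζ)⁻¹) by group,
        conj_T, conj_T, e1, e2] at h1
      convert h1 using 1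
      rw [eq_mul_inv_iff_mul_eq]
      refine ext_mulVec fun y => ?_
      simp only [mulVec_mul, R_apply (R_orth hfδ _), T_apply]
      have hγ' : ζ * Bs w (rp f) = γ := rfl
      simp only [map_add, map_smul, LinearMap.add_apply, LinearMap.smul_apply, smul_eq_mul, B_self, hδw, hδf, hfδ,
        B_swap δ w, B_swap (rp f) w]
      rw [← hγ']
      module
    have hD3 : R (rp u) ((ζ * γ) • δ) ∈ N := by
      have hh := hRr u v v3
      have h1 := mul_mem (mul_mem (mul_mem hh hD2) (inv_mem hh)) (inv_mem hD2)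
      have e1 : (R (rp u) (ζ • rp v)).1 *ᵥ rp f = rp f + rp u := by
        rw [R_apply (R_orth (hb0 v3) ζ), hb0 u3, zero_smul, add_zero, map_smul, smul_eq_mul, ← hb, hfv, Subfield.coe_one,
          one_smul]
      have e2 : (R (rp u) (ζ • rp v)).1 *ᵥ δ = δ := by
        rw [R_apply (R_orth (hb0 v3) ζ), map_smul, hδu, hδv]; simp
      rw [show R (rp u) (ζ • rp v) * (R (rp f) ((ζ * γ) • δ) * T δ (-(ζ * γ * γ))) * (R (rp u) (ζ • rp v))⁻¹
        = (R (rp u) (ζ • rp v) * R (rp f) ((ζ * γ) • δ) * (R (rp u) (ζ • rp v))⁻¹) *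
          (R (rp u) (ζ • rp v) * T δ (-(ζ * γ * γ)) * (R (rp u) (ζ • rp v))⁻¹) by group,
        R_conj, conj_T, Matrix.mulVec_smul, e1, e2] at h1
      convert h1 using 1
      have huδ : Bs (rp u) δ = 0 := by rw [B_swap, hδu, neg_zero]
      have hfu : Bs (rp f) (rp u) = 0 := hb0 u3
      have hsum : Bs (rp f + rp u) δ = 0 := by rw [map_add, LinearMap.add_apply, hfδ, huδ, add_zero]
      rw [eq_mul_inv_iff_mul_eq]
      refine ext_mulVec fun y => ?_
      simp only [mulVec_mul, R_apply (R_orth hfδ _), R_apply (R_orth huδ _), R_apply (R_orth hsum _), T_apply]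
      simp only [map_add, map_smul, LinearMap.add_apply, LinearMap.smul_apply, smul_eq_mul, B_self, hδf, hfδ, hδu, huδ, hfu]
      module
    set ρ := ζ * Bs δ (rp e') with hρdef
    have hu'e' : b u' e' = 0 := by rw [bswap, w4, neg_zero]
    have hh := hRr u' e' hu'e'
    have huδ : Bs (rp u) δ = 0 := by rw [B_swap, hδu, neg_zero]
    have h1 := mul_mem (mul_mem (mul_mem hh hD3) (inv_mem hh)) (inv_mem hD3)
    have e1 : (R (rp u') (ζ • rp e')).1 *ᵥ rp u = rp u := by
      rw [R_apply (R_orth (hb0 hu'e') ζ), hb0 w3, map_smul, B_swap (rp u) (rp e'), hb0 u4]; simp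
    have e2 : (R (rp u') (ζ • rp e')).1 *ᵥ δ = δ + ρ • rp u' := by
      rw [R_apply (R_orth (hb0 hu'e') ζ), hδu', zero_smul, add_zero, map_smul, smul_eq_mul]
    rw [R_conj, Matrix.mulVec_smul, e1, e2, smul_add, R_mul (R_orth huδ _)
      (R_orth (R_orth (hb0 w3) ρ) _) (by simp only [map_smul, LinearMap.smul_apply, hδu', smul_zero]),
      smul_smul] at h1
    refine ⟨u, u', γ * ρ, w3, fun h => hun (h ▸ Submodule.zero_mem _), fun h => ?_, hρ, ?_⟩
    · refine hu'n (Submodule.span_mono ?_ h)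
      rintro z rfl
      exact ⟨2, rfl⟩
    · have := mul_mem (mul_mem (inv_mem hD3) h1) hD3
      rwa [show (R (rp u) ((ζ * γ) • δ))⁻¹ * (R (rp u) ((ζ * γ) • δ) * R (rp u) ((ζ * γ * ρ) • rp u') * (R (rp u) ((ζ * γ) • δ))⁻¹) *
        R (rp u) ((ζ * γ) • δ) = R (rp u) ((ζ * γ * ρ) • rp u') by group, mul_assoc ζ γ ρ] at this
  let Sc : (ι → F₀) → (ι → F₀) → F → Prop := fun u v c => R (rp u) ((ζ * c) • rp v) ∈ N
  have swap : ∀ u v c, b u v = 0 → Sc u v c → Sc v u c := fun u v c h hS => by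
    show R (rp v) ((ζ * c) • rp u) ∈ N
    rw [← R_swap (hb0 h)]; exact hS
  have step : ∀ u v v' c, b u v = 0 → b u v' = 0 → b v v' ≠ 0 → Sc u v c → Sc u v' c := fun u v v' c h h' hne hS => by
    set k := (b v v')⁻¹ with hk
    have hh : T (rp (v' - v)) (ζ * (k : F)) ∈ N := hNS _ fun x => ⟨x + (k * b x (v' - v)) • (v' - v), by
      rw [T_apply, rp_add x, rp_smul, Subfield.coe_mul, hb]
      congr 2; ring⟩
    have e1 : (T (rp (v' - v)) (ζ * (k : F))).1 *ᵥ rp u = rp u := by
      rw [T_apply, hb0 (show b u (v' - v) = 0 by rw [map_sub, h', h, sub_zero]), mul_zero, zero_smul, add_zero]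
    have e2 : (T (rp (v' - v)) (ζ * (k : F))).1 *ᵥ rp v = rp v' := by
      rw [T_apply, show ζ * (k : F) * Bs (rp v) (rp (v' - v)) = ((k * b v (v' - v) : F₀) : F) by
        rw [Subfield.coe_mul, hb]; ring, map_sub, balt, sub_zero, hk, inv_mul_cancel₀ hne, Subfield.coe_one, one_smul,
        ← rp_add, add_sub_cancel]
    have := mul_mem (mul_mem hh hS) (inv_mem hh)
    rwa [R_conj, Matrix.mulVec_smul, e1, e2] at this
  have trans2 : ∀ u v v' c, b u v = 0 → b u v' = 0 → v ∉ Submodule.span F₀ {u} → v' ∉ Submodule.span F₀ {u} → Sc u v c → Sc u v' c := by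
    intro u v v' c h h' hn hn' hS
    obtain ⟨y, hy, hy'⟩ := sep hn
    obtain ⟨z, hz, hz'⟩ := sep hn'
    have uy : b u y = 0 := hy _ (Submodule.mem_span_singleton_self u)
    have uz : b u z = 0 := hz _ (Submodule.mem_span_singleton_self u)
    obtain ⟨t, ht, ht1, ht2⟩ : ∃ t, b u t = 0 ∧ b v t ≠ 0 ∧ b t v' ≠ 0 := by
      by_cases a1 : b v' y = 0
      · by_cases a2 : b v z = 0
        · refine ⟨y + z, by rw [map_add, uy, uz, add_zero], by rw [map_add, hy', a2, add_zero]; exact one_ne_zero, ?_⟩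
          rw [bswap, map_add, a1, hz', zero_add]; exact neg_ne_zero.2 one_ne_zero
        · exact ⟨z, uz, a2, by rw [bswap, hz']; exact neg_ne_zero.2 one_ne_zero⟩
      · exact ⟨y, uy, by rw [hy']; exact one_ne_zero, by rw [bswap]; exact neg_ne_zero.2 a1⟩
    exact step u t v' c ht h' ht2 (step u v t c h ht ht1 hS)
  have inv_span : ∀ {u v : ι → F₀}, u ≠ 0 → v ∉ Submodule.span F₀ {u} → u ∉ Submodule.span F₀ {v} := fun {u v} hu h h' => by
    obtain ⟨c, hc⟩ := Submodule.mem_span_singleton.1 h'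
    by_cases hc0 : c = 0
    · exact hu (by rw [← hc, hc0, zero_smul])
    · exact h (Submodule.mem_span_singleton.2 ⟨c⁻¹, by rw [← hc, inv_smul_smul₀ hc0]⟩)
  have hAll : ∀ c, (∃ u v, b u v = 0 ∧ u ≠ 0 ∧ v ∉ Submodule.span F₀ {u} ∧ Sc u v c) →
      ∀ u v, b u v = 0 → u ≠ 0 → v ∉ Submodule.span F₀ {u} → Sc u v c := by
    rintro c ⟨u, v, huv, hu0, hv, hS⟩ u' v' huv' hu'0 hv'
    obtain ⟨g0, hg0, hg0n⟩ := out ![u, u'] (by omega)
    have a0 : b u g0 = 0 := hg0 0
    have a1 : b g0 u = 0 := by rw [bswap, a0, neg_zero]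
    have a2 : b u' g0 = 0 := hg0 1
    have a3 : b g0 u' = 0 := by rw [bswap, a2, neg_zero]
    have n0 : g0 ∉ Submodule.span F₀ {u} := fun h => hg0n (Submodule.span_mono (by simp) h)
    have n1 : g0 ∉ Submodule.span F₀ {u'} := fun h => hg0n (Submodule.span_mono (by simp) h)
    have hg00 : g0 ≠ 0 := fun h => hg0n (h ▸ Submodule.zero_mem _)
    have s1 := swap u g0 c a0 (trans2 u v g0 c huv a0 hv n0 hS)
    have s2 := swap g0 u' c a3 (trans2 g0 u u' c a1 a3 (inv_span hu0 n0) (inv_span hu'0 n1) s1)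
    exact trans2 u' g0 v' c a2 huv' n1 hv' s2
  let K : Set F := {c | ∀ u v, b u v = 0 → u ≠ 0 → v ∉ Submodule.span F₀ {u} → Sc u v c}
  have Kadd : ∀ c d, c ∈ K → d ∈ K → c + d ∈ K := fun c d hc hd u v h hu hv => by
    show R (rp u) ((ζ * (c + d)) • rp v) ∈ N
    rw [mul_add, add_smul, R_mul (R_orth (hb0 h) _) (R_orth (hb0 h) _) (by rw [map_smul, map_smul, LinearMap.smul_apply, B_self]; simp)]
    exact mul_mem (hc u v h hu hv) (hd u v h hu hv)
  have Kbase : ∀ a : F₀, (a : F) ∈ K := fun a u v h hu hv => by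
    show R (rp u) ((ζ * (a : F)) • rp v) ∈ N
    rw [mul_smul, ← rp_smul]
    exact hRr u (a • v) (by rw [map_smul, h, smul_zero])
  -- an orthogonal pair and a hyperbolic pair
  obtain ⟨a₀, ha₀n⟩ : ∃ a : ι → F₀, a ≠ 0 := by
    obtain ⟨z, -, hz⟩ := out (![] : Fin 0 → (ι → F₀)) (by omega)
    exact ⟨z, fun h => hz (h ▸ Submodule.zero_mem _)⟩
  obtain ⟨b₁, hb₁, hb₁n⟩ := out (fun _ : Fin 1 => a₀) (by omega)
  rw [Set.range_const] at hb₁n
  obtain ⟨b₂, hb₂, hb12⟩ := sep hb₁n
  have ab1 : b a₀ b₁ = 0 := hb₁ 0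
  have ab2 : b a₀ b₂ = 0 := hb₂ _ (Submodule.mem_span_singleton_self a₀)
  have hb₂n : b₂ ∉ Submodule.span F₀ {a₀} := fun h => by
    obtain ⟨t, rfl⟩ := Submodule.mem_span_singleton.1 h
    rw [map_smul, bswap, ab1, neg_zero, smul_zero] at hb12
    exact zero_ne_one hb12
  have Kneg : ∀ c ∈ K, -c ∈ K := fun c hc u v h hu hv => by
    show R (rp u) ((ζ * -c) • rp v) ∈ N
    have hv' : -v ∉ Submodule.span F₀ {u} := fun h' => hv (neg_neg v ▸ Submodule.neg_mem _ h')
    have := hc u (-v) (by rw [map_neg, h, neg_zero]) hu hv'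
    change R (rp u) ((ζ * c) • rp (-v)) ∈ N at this
    rwa [rp_neg, smul_neg, ← neg_smul, ← mul_neg] at this
  have Kmul : ∀ c d, c ∈ K → d ∈ K → c * d ∈ K := by
    intro c d hc hd
    obtain ⟨z, hz, hzn⟩ := out ![a₀, b₁, b₂] (by omega)
    have z0 : b a₀ z = 0 := hz 0
    have z1 : b b₁ z = 0 := hz 1
    have z2 : b b₂ z = 0 := hz 2
    have hb₂0 : b₂ ≠ 0 := fun h => hb₂n (h ▸ Submodule.zero_mem _)
    have hzb : z ∉ Submodule.span F₀ {b₂} := fun h => hzn (Submodule.span_mono (by simp) h)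
    have hza : z ∉ Submodule.span F₀ {a₀} := fun h => hzn (Submodule.span_mono (by simp) h)
    have hh : R (rp a₀) ((ζ * c) • rp b₁) ∈ N := hc a₀ b₁ ab1 ha₀n hb₁n
    have hX : R (rp b₂) ((ζ * d) • rp z) ∈ N := hd b₂ z z2 hb₂0 hzb
    have e1 : (R (rp a₀) ((ζ * c) • rp b₁)).1 *ᵥ rp b₂ = rp b₂ + (-c) • rp a₀ := by
      rw [R_apply (R_orth (hb0 ab1) _), B_swap (rp b₂) (rp a₀), hb0 ab2, neg_zero, zero_smul, add_zero, map_smul,
        smul_eq_mul, B_swap (rp b₂) (rp b₁)]
      have : ζ * Bs (rp b₁) (rp b₂) = 1 := by rw [← hb, hb12]; rfl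
      rw [show ζ * c * -Bs (rp b₁) (rp b₂) = -c by linear_combination -c * this]
    have e2 : (R (rp a₀) ((ζ * c) • rp b₁)).1 *ᵥ rp z = rp z := by
      rw [R_apply (R_orth (hb0 ab1) _), map_smul, B_swap (rp z) (rp a₀), hb0 z0, B_swap (rp z) (rp b₁), hb0 z1]; simp
    have h1 := mul_mem (mul_mem (mul_mem hh hX) (inv_mem hh)) (inv_mem hX)
    rw [R_conj, Matrix.mulVec_smul, e1, e2] at h1
    have e3 : R (rp b₂ + (-c) • rp a₀) ((ζ * d) • rp z) * (R (rp b₂) ((ζ * d) • rp z))⁻¹ = R (rp a₀) ((ζ * -(c * d)) • rp z) := by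
      rw [mul_inv_eq_iff_eq_mul]
      have hsum : Bs (rp b₂ + (-c) • rp a₀) (rp z) = 0 := by
        rw [map_add, map_smul, LinearMap.add_apply, LinearMap.smul_apply, hb0 z2, hb0 z0, smul_zero, add_zero]
      refine ext_mulVec fun y => ?_
      rw [mulVec_mul, R_apply (R_orth hsum _), R_apply (R_orth (hb0 z2) _), R_apply (R_orth (hb0 z0) _)]
      simp only [map_add, map_smul, LinearMap.add_apply, LinearMap.smul_apply, smul_eq_mul, B_self, B_swap (rp b₂) (rp a₀),
        hb0 ab2, hb0 z0, hb0 z2, B_swap (rp z) (rp a₀)]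
      module
    rw [e3] at h1
    have := Kneg _ (hAll (-(c * d)) ⟨a₀, z, z0, ha₀n, hza, h1⟩)
    rwa [neg_neg] at this
  have hKtop : ∀ c, c ∈ K := by
    have hu₀0 : u₀ ≠ 0 := hu₀ne
    have hc₀K : c₀ ∈ K := hAll c₀ ⟨u₀, v₀, hu₀v₀, hu₀0, huv₀, hS₀⟩
    let A : Subalgebra F₀ F :=
      { carrier := K
        mul_mem' := fun {a b} ha hb => Kmul a b ha hb
        add_mem' := fun {a b} ha hb => Kadd a b ha hb
        algebraMap_mem' := fun a => Kbase a }
    have hfr : Module.finrank F₀ F = r := by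
      have h := Module.natCard_eq_pow_finrank (K := F₀) (V := F)
      rw [Nat.card_eq_fintype_card, hcard] at h
      exact (Nat.pow_right_injective (Finite.one_lt_card) h).symm
    haveI : IsSimpleOrder (Subalgebra F₀ F) := Subalgebra.isSimpleOrder_of_finrank_prime _ _ (hfr.symm ▸ hr)
    rcases IsSimpleOrder.eq_bot_or_eq_top A with h | h
    · have h1 : c₀ ∈ A := hc₀K
      rw [h, Algebra.mem_bot] at h1
      obtain ⟨y, hy⟩ := h1
      exact absurd (hy ▸ y.2) hc₀
    · intro c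
      have : c ∈ A := h ▸ trivial
      exact this
  have hCrat : ∀ a, C N (rp a) := by
    intro a
    by_cases ha : a = 0
    · intro c
      have : T (rp a) c = 1 := ext_mulVec fun y => by rw [T_apply, ha, rp_zero, smul_zero, add_zero]; simp
      rw [this]; exact one_mem N
    obtain ⟨v, hv, hvn⟩ := out (fun _ : Fin 1 => a) (by omega)
    rw [Set.range_const] at hvn
    obtain ⟨v', hv', hvv'⟩ := sep hvn
    have av : b a v = 0 := hv 0
    have av' : b a v' = 0 := hv' _ (Submodule.mem_span_singleton_self a)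
    have hv'n : v' ∉ Submodule.span F₀ {a} := fun h => by
      obtain ⟨t, rfl⟩ := Submodule.mem_span_singleton.1 h
      rw [map_smul, bswap, av, neg_zero, smul_zero] at hvv'
      exact zero_ne_one hvv'
    have hsq : ∀ c : F, T (rp a) (-(ζ * (c * c))) ∈ N := fun c => by
      have hX : R (rp a) ((ζ * c) • rp v) ∈ N := hKtop c a v av ha hvn
      have hY : R (rp a) ((ζ * c) • rp v') ∈ N := hKtop c a v' av' ha hv'n
      have h1 := mul_mem (mul_mem (hT v') hX) (inv_mem (hT v'))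
      rw [R_conj, Matrix.mulVec_smul, hTmove, hTmove, hvv', av', zero_smul, add_zero, one_smul, rp_add, smul_add,
        R_mul_left (R_orth (hb0 av) _) (R_orth (hb0 av') _)] at h1
      have h2 := mul_mem (inv_mem (mul_mem hY hX)) h1
      rw [inv_mul_cancel_left] at h2
      have hv1 : ζ * Bs (rp v) (rp v') = 1 := by rw [← hb, hvv']; rfl
      have e : Bs ((ζ * c) • rp v) ((ζ * c) • rp v') = ζ * (c * c) := by
        simp only [map_smul, LinearMap.smul_apply, smul_eq_mul]
        linear_combination ζ * c * c * hv1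
      rwa [e] at h2
    intro c
    by_cases h2 : (2 : F) = 0
    · haveI : CharP F 2 := CharTwo.of_one_ne_zero_of_two_eq_zero one_ne_zero h2
      obtain ⟨t, ht⟩ := FiniteField.isSquare_of_char_two (ringChar.eq F 2) (-c / ζ)
      have := hsq t
      rwa [← ht, mul_div_cancel₀ _ hζ, neg_neg] at this
    · obtain ⟨s, t, hst⟩ := CfsgLib.Forms.Represent.exists_add_eq h2 (a := (1 : F)) (b := 1) one_ne_zero one_ne_zero (-c / ζ)
      have h := mul_mem (hsq s) (hsq t)
      rw [← CfsgLib.Symplectic.Basic.T_add] at h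
      have e : -(ζ * (s * s)) + -(ζ * (t * t)) = c := by
        have h3 : ζ * (-c / ζ) = -c := mul_div_cancel₀ _ hζ
        linear_combination (-ζ) * hst - h3
      rwa [e] at h
  have step' : ∀ v w, C N v → C N w → Bs v w ≠ 0 → C N (v + w) := fun v w hv hw hne => by
    have := C_map (hw (Bs v w)⁻¹) hv
    rwa [T_apply, inv_mul_cancel₀ hne, one_smul] at this
  have hAddRat : ∀ x, C N x → ∀ y (μ : F), C N (x + μ • rp y) := by
    intro x hx y μ
    by_cases hxy : Bs x (μ • rp y) = 0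
    swap
    · exact step' _ _ hx (C_smul (hCrat y) μ) hxy
    by_cases hμ : μ = 0
    · rw [hμ, zero_smul, add_zero]; exact hx
    by_cases hy : y = 0
    · rw [hy, rp_zero, smul_zero, add_zero]; exact hx
    have hxy' : Bs x (rp y) = 0 := by
      rw [map_smul, smul_eq_mul] at hxy
      exact (mul_eq_zero.1 hxy).resolve_left hμ
    by_cases hex : ∃ a, b a y = 0 ∧ Bs x (rp a) ≠ 0
    · obtain ⟨a, hay, hxa⟩ := hex
      have ha0 : a ≠ 0 := fun h => hxa (by rw [h, rp_zero, map_zero])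
      have hyn : y ∉ Submodule.span F₀ {a} := fun h => by
        obtain ⟨t, rfl⟩ := Submodule.mem_span_singleton.1 h
        rw [rp_smul, map_smul, smul_eq_mul, mul_eq_zero] at hxy'
        rcases hxy' with h' | h'
        · exact hy (by rw [show t = 0 from Subtype.ext h', zero_smul])
        · exact hxa h'
      set s := μ / (ζ * Bs x (rp a)) with hs
      have hR : R (rp a) ((ζ * s) • rp y) ∈ N := hKtop s a y hay ha0 hyn
      have := C_map hR hx
      rwa [R_apply (R_orth (hb0 hay) _), map_smul, hxy', smul_zero, zero_smul, add_zero, smul_smul,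
        show Bs x (rp a) * (ζ * s) = μ by rw [hs]; field_simp] at this
    · simp only [not_exists, not_and, not_not] at hex
      obtain ⟨z0, -, hz0⟩ := sep (S := (⊥ : Submodule F₀ (ι → F₀))) (x := y) (by simpa using hy)
      have hx' : x = (ζ * Bs x (rp z0)) • rp y := sub_eq_zero.1 (zero_of _ fun u => by
        have h1 := hex (u - b y u • z0) (by
          rw [map_sub, map_smul, LinearMap.sub_apply, LinearMap.smul_apply, bswap z0 y, hz0, bswap u y]; simp)
        rw [sub_eq_add_neg u, rp_add, rp_neg, rp_smul, map_add, map_neg, map_smul, smul_eq_mul, hb] at h1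
        rw [map_sub, LinearMap.sub_apply, map_smul, LinearMap.smul_apply, smul_eq_mul]
        linear_combination h1)
      rw [hx', ← add_smul]
      exact C_smul (hCrat y) _
  refine top_of_C fun y => ?_
  obtain ⟨c, rfl⟩ := coords y
  suffices h : ∀ S : Finset ι, C N (∑ i ∈ S, c i • rp (Pi.single i 1)) from h Finset.univ
  intro S
  induction S using Finset.induction_on with
  | empty =>
    have := hCrat 0
    rwa [rp_zero] at this
  | @insert j S hj ih =>
    rw [Finset.sum_insert hj, add_comm]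
    exact hAddRat _ ih _ _

end Cfsg.Agent.S5650
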