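import Cfsg.Statements.S5652
import Cfsg.Agent.Lib.MaxSub.OrthStab
import Cfsg.Agent.Lib.MaxSub.SpStab
import Cfsg.Agent.Lib.NonMax.OmegaTools

set_option autoImplicit false
open Cfsg

namespace Cfsg.Agent.S5652

open scoped Matrix
open CfsgLib.Symplectic.Basic (V Sp T T_apply closure_T_eq_top mem_iff mulVec_mul mulVec_inv_cancel)

local notation "Bs" => CfsgLib.Symplectic.Basic.B

theorem top_of {F : Type*} [Field F] [Fintype F] [CharP F 2] {m : ℕ} (hm : 4 ≤ m) {P : QuadraticForm F (V m F)}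
    (hB : ∀ u v, CfsgLib.Orth.Siegel.B P u v = Bs u v) (hP : (QuadraticMap.polarBilin P).Nondegenerate)
    (N : Subgroup (Sp m F)) (hN : ∀ A : Sp m F, (∀ v, P (A.1 *ᵥ v) = P v) → A ∈ N) {g : Sp m F} (hg : g ∈ N)
    (hgP : ¬ ∀ v, P (g.1 *ᵥ v) = P v) : N = ⊤ := by
  classical
  have h2 : (2 : F) = 0 := CharTwo.two_eq_zero
  have hsq : ∀ a : F, ∃ t : F, t * t = a := fun a => by
    obtain ⟨t, ht⟩ := FiniteField.isSquare_of_char_two (ringChar.eq F 2) a
    exact ⟨t, ht.symm⟩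
  have hsinj : ∀ a b : F, a * a = b * b → a = b := fun a b h => by
    have : (a - b) * (a - b) = 0 := by linear_combination h + (b * b - a * b) * h2
    exact sub_eq_zero.1 (mul_self_eq_zero.1 this)
  have hcard : Fintype.card (Fin m ⊕ Fin m) = m + m := by simp
  have hn : 5 ≤ Fintype.card (Fin m ⊕ Fin m) := by omega
  let B := CfsgLib.Orth.Siegel.B P
  have hBself : ∀ x, B x x = 0 := fun x => by rw [CfsgLib.Orth.Siegel.B_self, h2, zero_mul]
  have hQadd := CfsgLib.Orth.Siegel.Q_add (Q := P)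
  have hQsmul := CfsgLib.Orth.Siegel.Q_smul (Q := P)
  have hBc : ∀ x y, B x y = B y x := CfsgLib.Orth.Siegel.B_comm
  let Im : V m F → Prop := fun a => ∃ k ∈ N, ∀ v, P (k.1 *ᵥ v) = P v + B a v * B a v
  -- the first vector
  obtain ⟨a₀, ha₀, hIa₀, hval₀⟩ : ∃ a, a ≠ 0 ∧ Im a ∧ True := by
    have hadd : ∀ u v, P (g.1 *ᵥ (u + v)) - P (u + v) = (P (g.1 *ᵥ u) - P u) + (P (g.1 *ᵥ v) - P v) := fun u v => by
      rw [Matrix.mulVec_add, hQadd, hQadd, hB, hB, CfsgLib.Symplectic.Basic.B_map]; ring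
    choose sq hsq' using hsq
    let L : V m F →ₗ[F] F :=
      { toFun := fun v => sq (P (g.1 *ᵥ v) - P v)
        map_add' := fun u v => hsinj _ _ (by
          rw [hsq', hadd, show ∀ a b : F, (a + b) * (a + b) = a * a + b * b from fun a b => by
            linear_combination a * b * h2, hsq', hsq'])
        map_smul' := fun c v => hsinj _ _ (by
          simp only [RingHom.id_apply, smul_eq_mul]
          rw [hsq', Matrix.mulVec_smul, hQsmul, hQsmul, mul_mul_mul_comm, hsq']; ring) }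
    obtain ⟨a, ha⟩ := CfsgLib.MaxSub.SpStab.exists_dual L
    have key : ∀ v, P (g.1 *ᵥ v) = P v + B a v * B a v := fun v => by
      have : B a v = L v := by rw [hBc, hB, ha]
      rw [this]; show _ = _ + sq _ * sq _
      rw [hsq']; ring
    refine ⟨a, fun e => hgP fun v => ?_, ⟨g, hg, key⟩, trivial⟩
    rw [key, e, map_zero, LinearMap.zero_apply, mul_zero, add_zero]
  -- transitivity of the isometries on each level
  have iso : ∀ e : Cfsg.isometryGroup F ⇑P, ∃ A ∈ N, A.1 = e.1.1 := fun e =>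
    ⟨⟨e.1.1, (mem_iff _).2 fun u v => by rw [← hB, ← hB]; exact CfsgLib.Orth.Siegel.B_gen e u v⟩,
      hN _ fun v => CfsgLib.Orth.Siegel.Q_gen e v, rfl⟩
  have trans : ∀ a b, a ≠ 0 → b ≠ 0 → P a = P b → ∃ e : Cfsg.isometryGroup F ⇑P, e.1.1 *ᵥ a = b := by
    intro a b ha hb hab
    by_cases h0 : P a = 0
    · have step : ∀ s r, P s = 0 → P r = 0 → B s r ≠ 0 → ∃ e : Cfsg.isometryGroup F ⇑P, e.1.1 *ᵥ s = r := by
        intro s r hs hr hsr
        set r' := (B s r)⁻¹ • r with hr'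
        have hr'0 : P r' = 0 := by rw [hr', hQsmul, hr, mul_zero]
        have hsr' : B s r' = 1 := by rw [hr', map_smul, smul_eq_mul, inv_mul_cancel₀ hsr]
        obtain ⟨z, z', hz, hz', hzz, hsz, hrz, hsz', hrz'⟩ := CfsgLib.Orth.Siegel.exists_pair_perp hP hn hs hr'0 hsr'
        have hrz2 : B r z = 0 := by
          rw [hr', map_smul, LinearMap.smul_apply, smul_eq_mul, mul_eq_zero] at hrz
          exact hrz.resolve_left (inv_ne_zero hsr)
        have hrz2' : B r z' = 0 := by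
          rw [hr', map_smul, LinearMap.smul_apply, smul_eq_mul, mul_eq_zero] at hrz'
          exact hrz'.resolve_left (inv_ne_zero hsr)
        set w := z + (B s r)⁻¹ • z' with hw
        have hsw : B s w = 0 := by
          rw [hw, map_add, map_smul, show B s z = 0 from hsz, show B s z' = 0 from hsz', smul_zero, add_zero]
        have hrw : B r w = 0 := by rw [hw, map_add, map_smul, hrz2, hrz2', smul_zero, add_zero]
        have hPw : P w = (B s r)⁻¹ := by
          rw [hw, hQadd, hQsmul, hz, hz', map_smul, show CfsgLib.Orth.Siegel.B P z z' = 1 from hzz]; simp [B]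
        clear_value w
        set p := (B s r)⁻¹ • (s + r) + w with hp
        have e1 : B p s = 1 := by
          rw [hp, map_add, LinearMap.add_apply, map_smul, LinearMap.smul_apply, map_add, LinearMap.add_apply, hBself, hBc r s,
            hBc w s, hsw, zero_add, smul_eq_mul, inv_mul_cancel₀ hsr, add_zero]
        have e2 : B p r = 1 := by
          rw [hp, map_add, LinearMap.add_apply, map_smul, LinearMap.smul_apply, map_add, LinearMap.add_apply, hBself,
            hBc w r, hrw, add_zero, smul_eq_mul, add_zero, inv_mul_cancel₀ hsr]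
        have e3 : P p = 0 := by
          rw [hp, hQadd, hQsmul, hQadd, hs, hr, hPw, map_smul, LinearMap.smul_apply, map_add, LinearMap.add_apply]
          show (B s r)⁻¹ * (B s r)⁻¹ * (0 + 0 + B s r) + (B s r)⁻¹ + (B s r)⁻¹ • (B s w + B r w) = 0
          rw [hsw, hrw]
          simp only [smul_eq_mul]
          linear_combination (B s r)⁻¹ * h2 + (B s r)⁻¹ * (inv_mul_cancel₀ hsr)
        obtain ⟨e, -, he⟩ := CfsgLib.Orth.Siegel.exists_E_of_common e3 (hs.trans hr.symm) e1 e2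
        exact ⟨e, he⟩
      obtain ⟨r, hr, -, hra, hrb⟩ := CfsgLib.Orth.OmegaSimple.exists_nonperp hP hn h0 (hab ▸ h0) ha hb
      obtain ⟨e, he⟩ := step a r h0 hr (by rw [hBc]; exact hra)
      obtain ⟨f, hf⟩ := step r b hr (hab ▸ h0) hrb
      exact ⟨f * e, by rw [CfsgLib.Orth.Siegel.mulVec_mul, he, hf]⟩
    · obtain ⟨e, -, he⟩ := CfsgLib.Orth.Siegel.exists_E_norm hP hn h0 hab.symm
      exact ⟨e, he⟩
  have level : ∀ a b, a ≠ 0 → b ≠ 0 → P a = P b → Im a → Im b := by
    rintro a b ha hb hab ⟨k, hk, hka⟩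
    obtain ⟨e, he⟩ := trans b a hb ha hab.symm
    obtain ⟨A, hA, hAe⟩ := iso e
    refine ⟨k * A, mul_mem hk hA, fun v => ?_⟩
    rw [mulVec_mul, hka, hAe, CfsgLib.Orth.Siegel.Q_gen, ← he]
    show P v + B (e.1.1 *ᵥ b) (e.1.1 *ᵥ v) * B (e.1.1 *ᵥ b) (e.1.1 *ᵥ v) = _
    rw [show B (e.1.1 *ᵥ b) (e.1.1 *ᵥ v) = B b v from CfsgLib.Orth.Siegel.B_gen e b v]
  have comp : ∀ a y, y ≠ 0 → a + y ≠ 0 → Im a → a ≠ 0 → P y + B a y * B a y = P a → Im (a + y) := by
    rintro a y hy hz ⟨k, hk, hka⟩ ha hPy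
    obtain ⟨l, hl, hlb⟩ := level a (k.1 *ᵥ y) ha (fun e => hy (by
      rw [← mulVec_inv_cancel k y, e, Matrix.mulVec_zero])) (by rw [hka, hPy]) ⟨k, hk, hka⟩
    refine ⟨l * k, mul_mem hl hk, fun v => ?_⟩
    rw [mulVec_mul, hlb, hka]
    show _ + B (k.1 *ᵥ y) (k.1 *ᵥ v) * B (k.1 *ᵥ y) (k.1 *ᵥ v) = _
    rw [show B (k.1 *ᵥ y) (k.1 *ᵥ v) = B y v by
      show CfsgLib.Orth.Siegel.B P _ _ = CfsgLib.Orth.Siegel.B P _ _
      rw [hB, hB]; exact CfsgLib.Symplectic.Basic.B_map k y v, map_add, LinearMap.add_apply]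
    linear_combination (-(B a v * B y v)) * h2
  have full : ∀ b, b ≠ 0 → (∃ s, P b = s * s + s) → Im b := by
    rintro b hb ⟨s, hs⟩
    obtain ⟨y₀, hy₀⟩ : ∃ y, B a₀ y = 1 := by
      obtain ⟨y, hy⟩ : ∃ y, B a₀ y ≠ 0 := by
        by_contra h; simp only [not_exists, not_not] at h; exact ha₀ (hP.1 a₀ h)
      exact ⟨(B a₀ y)⁻¹ • y, by rw [map_smul, smul_eq_mul, inv_mul_cancel₀ hy]⟩
    let φ : V m F →ₗ[F] (F × F) := (B a₀).prod (B y₀)
    set K := LinearMap.ker φ with hK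
    have hK1 : ∀ x ∈ K, B a₀ x = 0 ∧ B y₀ x = 0 := fun x hx =>
      ⟨congrArg Prod.fst (LinearMap.mem_ker.1 hx), congrArg Prod.snd (LinearMap.mem_ker.1 hx)⟩
    have hdim : 3 ≤ Module.finrank F K := by
      have h1 := φ.finrank_range_add_finrank_ker
      have h3 : Module.finrank F (LinearMap.range φ) ≤ 2 := (Submodule.finrank_le _).trans (le_of_eq (by simp))
      rw [Module.finrank_fintype_fun_eq_card] at h1
      rw [hK]; omega
    obtain ⟨z, hz, hz0, hPz⟩ := CfsgLib.Orth.Siegel.exists_singular_in (Q := P) K hdim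
    obtain ⟨w, hw, hw0, hPw⟩ : ∃ w ∈ K, w ≠ 0 ∧ P w = P a₀ + s * s + s * s * P y₀ := by
      set r := P a₀ + s * s + s * s * P y₀
      by_cases hr : r = 0
      · exact ⟨z, hz, hz0, hPz.trans hr.symm⟩
      obtain ⟨y₁, hy₁⟩ : ∃ y, B z y ≠ 0 := by
        by_contra h; simp only [not_exists, not_not] at h; exact hz0 (hP.1 z h)
      set w₁ := y₁ - B a₀ y₁ • y₀ - B y₀ y₁ • a₀ with hw₁
      have hw₁K : w₁ ∈ K := by
        rw [hK, LinearMap.mem_ker]
        refine Prod.ext ?_ ?_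
        · show B a₀ w₁ = 0
          rw [hw₁, map_sub, map_sub, map_smul, map_smul, hy₀, hBself]; simp
        · show B y₀ w₁ = 0
          rw [hw₁, map_sub, map_sub, map_smul, map_smul, hBc y₀ a₀, hy₀, hBself]; simp
      have hzw : B z w₁ ≠ 0 := by
        rw [hw₁, map_sub, map_sub, map_smul, map_smul, hBc z y₀, (hK1 z hz).2, hBc z a₀, (hK1 z hz).1]; simpa using hy₁
      set u := w₁ + ((r - P w₁) / B z w₁) • z with hu
      refine ⟨u, K.add_mem hw₁K (K.smul_mem _ hz), fun e => hr ?_, ?_⟩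
      · have h1 : P u = r := by
          rw [hu, hQadd, hQsmul, hPz, map_smul, show CfsgLib.Orth.Siegel.B P w₁ z = B z w₁ from hBc _ _, smul_eq_mul]
          field_simp; ring
        rw [← h1, e, QuadraticMap.map_zero]
      · rw [hu, hQadd, hQsmul, hPz, map_smul, show CfsgLib.Orth.Siegel.B P w₁ z = B z w₁ from hBc _ _, smul_eq_mul]
        field_simp; ring
    obtain ⟨hwa, hwy⟩ := hK1 w hw
    set y := s • y₀ + w with hy
    have hay : B a₀ y = s := by rw [hy, map_add, map_smul, hy₀, hwa, smul_eq_mul, mul_one, add_zero]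
    have hPy : P y = P a₀ + s * s := by
      rw [hy, hQadd, hQsmul, hPw, map_smul, LinearMap.smul_apply, show CfsgLib.Orth.Siegel.B P y₀ w = 0 from hwy]
      linear_combination s * s * P y₀ * h2 + smul_zero (A := F) s
    have ne : ∀ c : F, c • a₀ + y ≠ 0 := fun c e => hw0 (by
      have e1 := congrArg (B a₀) e
      rw [map_add, map_smul, hBself, hay, map_zero, smul_zero, zero_add] at e1
      have e2 := congrArg (B y₀) e
      rw [map_add, map_smul, hBc y₀ a₀, hy₀, hy, map_add, map_smul, hBself, hwy, map_zero, smul_zero, add_zero, add_zero,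
        smul_eq_mul, mul_one] at e2
      rw [e2, zero_smul, zero_add, hy, e1, zero_smul, zero_add] at e
      exact e)
    have hz' := ne 1
    rw [one_smul] at hz'
    have hy0 : y ≠ 0 := fun e => ne 0 (by rw [zero_smul, zero_add, e])
    refine level (a₀ + y) b hz' hb ?_ (comp a₀ y hy0 hz' hIa₀ ha₀ (by
      rw [hPy, hay]; linear_combination s * s * h2))
    rw [hQadd, hPy, show CfsgLib.Orth.Siegel.B P a₀ y = s from hay, hs]
    linear_combination P a₀ * h2
  rw [eq_top_iff, ← closure_T_eq_top, Subgroup.closure_le]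
  rintro _ ⟨u, c, rfl⟩
  obtain ⟨l, hl⟩ := hsq (c + c * c * P u)
  have hT : ∀ v, P ((T u c).1 *ᵥ v) = P v + B (l • u) v * B (l • u) v := fun v => by
    rw [T_apply, ← hB, hQadd, hQsmul, map_smul, map_smul, LinearMap.smul_apply, hBc u v]
    simp only [smul_eq_mul]
    show P v + c * B v u * (c * B v u) * P u + c * B v u * B v u = P v + l * B v u * (l * B v u)
    linear_combination -(B v u * B v u) * hl
  by_cases ha : l • u = 0
  · exact hN _ fun v => by rw [hT, ha, map_zero, LinearMap.zero_apply, mul_zero, add_zero]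
  obtain ⟨k, hk, hka⟩ := full (l • u) ha ⟨c * P u, by rw [hQsmul, hl]; ring⟩
  have h3 : T u c * k⁻¹ ∈ N := hN _ fun v => by
    have e1 := hka ((k⁻¹).1 *ᵥ v)
    rw [← mulVec_mul, mul_inv_cancel, Submonoid.coe_one, Matrix.one_mulVec] at e1
    rw [mulVec_mul, hT, e1]
  have h4 := mul_mem h3 hk
  rwa [inv_mul_cancel_right] at h4

/-- For a finite field F of characteristic two and m ≥ 7, let Q be a non-degenerate quadratic form on F^(2m) whose polar form is the standard alternating form. Then the elements of Sp_2m(F) that are similarities of Q (they are exactly the isometries of Q) form a maximal subgroup of Sp_2m(F). -/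
theorem result {F : Type*} [Field F] [Fintype F] (m : ℕ) (hm : 7 ≤ m) (heven : ¬ Odd (Fintype.card F)) (Q : (Fin m ⊕ Fin m → F) → F) (hQ : Cfsg.Geo.IsNondegenerateQuadraticForm Q) (hpol : ∀ u v, QuadraticMap.polar Q u v = Cfsg.sympForm m F u v) : Cfsg.Geo.IsMaximalIn (Cfsg.spGL m F) (Cfsg.Geo.quadSimilarityGroup Q ⊓ Cfsg.spGL m F) := by
  classical
  haveI : CharP F 2 := by
    have h : ringChar F = 2 := FiniteField.even_card_iff_char_two.2 (by rw [Nat.odd_iff] at heven; omega)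
    exact h ▸ ringChar.charP F
  set P := CfsgLib.NonMax.OmegaTools.toQ hQ with hP
  have hB : ∀ u v, CfsgLib.Orth.Siegel.B P u v = Bs u v := fun u v => (hpol u v).trans (CfsgLib.Symplectic.Basic.B_eq u v).symm
  let e := CfsgLib.Symplectic.Simple.toSpGL (m := m) (F := F)
  have hnd := CfsgLib.NonMax.OmegaTools.nondegenerate hQ
  have hmem : ∀ A : Sp m F, (e A).1 ∈ Cfsg.Geo.quadSimilarityGroup Q ↔ ∀ v, P (A.1 *ᵥ v) = P v := fun A => by
    refine ⟨?_, fun h => ⟨1, fun v => by rw [Units.val_one, one_mul]; exact h v⟩⟩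
    rintro ⟨c, hc⟩
    have hc' : ∀ v, P (A.1 *ᵥ v) = c * P v := hc
    obtain ⟨v₀, hv₀⟩ : ∃ v : V m F, v ≠ 0 := ⟨fun _ => 1, fun h => one_ne_zero (congrFun h (Sum.inl ⟨0, by omega⟩))⟩
    obtain ⟨y, hy⟩ : ∃ y, CfsgLib.Orth.Siegel.B P v₀ y ≠ 0 := by
      by_contra h; simp only [not_exists, not_not] at h; exact hv₀ (hnd.1 v₀ h)
    have h1 := CfsgLib.Orth.Siegel.Q_add (Q := P) (A.1 *ᵥ v₀) (A.1 *ᵥ y)
    rw [← Matrix.mulVec_add, hc', hc', hc', CfsgLib.Orth.Siegel.Q_add, hB, hB, CfsgLib.Symplectic.Basic.B_map] at h1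
    rw [hB] at hy
    have h2' : ((c : F) - 1) * Bs v₀ y = 0 := by linear_combination h1
    intro v
    rw [hc', sub_eq_zero.1 ((mul_eq_zero.1 h2').resolve_right hy), one_mul]
  refine ⟨lt_of_le_of_ne inf_le_right fun heq => ?_, fun M hM hMK => or_iff_not_imp_left.2 fun hne => ?_⟩
  · obtain ⟨u, hu0, hu⟩ : ∃ u : V m F, u ≠ 0 ∧ P u = 0 := by
      obtain ⟨z, -, hz0, hz⟩ := CfsgLib.Orth.Siegel.exists_singular_in (Q := P) ⊤
        (by rw [finrank_top, Module.finrank_fintype_fun_eq_card]; simp; omega)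
      exact ⟨z, hz0, hz⟩
    obtain ⟨v, hv⟩ := CfsgLib.Symplectic.Basic.exists_B_eq_one hu0
    have hfix := (hmem (T u 1)).1 (heq.ge (e (T u 1)).2).1
    have h1 := hfix v
    rw [T_apply, CfsgLib.Orth.Siegel.Q_add, CfsgLib.Orth.Siegel.Q_smul, hu, map_smul, smul_eq_mul, hB, CfsgLib.Symplectic.Basic.B_swap v u, hv] at h1
    simp at h1
  · obtain ⟨g, hgM, hgH⟩ := SetLike.exists_of_lt (lt_of_le_of_ne hM (Ne.symm hne))
    obtain ⟨G, hG⟩ : ∃ G, (e G).1 = g := ⟨e.symm ⟨g, hMK hgM⟩, by simp⟩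
    have htop := top_of (by omega : 4 ≤ m) hB hnd (M.comap ((Cfsg.spGL m F).subtype.comp e.toMonoidHom))
      (fun A hA => hM ⟨(hmem A).2 hA, (e A).2⟩) (g := G) (by show (e G).1 ∈ M; rw [hG]; exact hgM)
      (fun hs => hgH (hG ▸ ⟨(hmem G).2 hs, (e G).2⟩))
    refine le_antisymm hMK fun x hx => ?_
    obtain ⟨X, hX⟩ : ∃ X, (e X).1 = x := ⟨e.symm ⟨x, hx⟩, by simp⟩
    have : X ∈ M.comap ((Cfsg.spGL m F).subtype.comp e.toMonoidHom) := htop ▸ Subgroup.mem_top X
    rw [← hX]; exact this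

end Cfsg.Agent.S5652
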