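import Cfsg.Statements.S5653
import Cfsg.Agent.Lib.MaxSub.SUSingular

set_option autoImplicit false
open Cfsg

namespace Cfsg.Agent.S5653

open scoped Matrix
open CfsgLib.Unitary.FieldNorm CfsgLib.Unitary.Basic CfsgLib.Unitary.Isotropic CfsgLib.Unitary.Generation
open CfsgLib.MaxSub.SUTools CfsgLib.MaxSub.SUStab

/-- Let F be the field with q² elements and n ≥ 13, and let SU_n(q) be the group of matrices of determinant one preserving the standard unitary form Σ u_i v_i^q on F^n (the intersection of the unitary group GU_n with the kernel of the determinant). The elements of SU_n(q) stabilising a non-zero subspace on which the form vanishes identically form a maximal subgroup of SU_n(q). -/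
theorem result {F : Type*} [Field F] [Fintype F] (n q : ℕ) (hF : Fintype.card F = q ^ 2) (hn : 13 ≤ n) (W : Submodule F (Fin n → F)) (hW0 : W ≠ ⊥) (hW : Cfsg.Geo.IsTotallySingularFor (Cfsg.hermForm n F q) W) : Cfsg.Geo.IsMaximalIn (Cfsg.GU n F q ⊓ Cfsg.Geo.specialLinear (Fin n) F) (Cfsg.Geo.subspaceStabilizer W ⊓ (Cfsg.GU n F q ⊓ Cfsg.Geo.specialLinear (Fin n) F)) := by
  classical
  have hW' : ∀ u ∈ W, ∀ v ∈ W, Cfsg.hermForm n F q u v = 0 := fun u hu v hv => hW u hu v hv
  refine maximal ?_ fun N hN g hg hgW => CfsgLib.MaxSub.SUSingular.singular_top hF (by omega) hW' N hN hg hgW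
  obtain ⟨u, hu, hu0⟩ := W.exists_mem_ne_zero_of_ne_bot hW0
  have huu := hW' u hu u hu
  obtain ⟨p, hp⟩ : ∃ p, Cfsg.hermForm n F q p u ≠ 0 := by
    by_contra h; simp only [not_exists, not_not] at h; exact hu0 (vec_eq_zero hF h)
  obtain ⟨t, ht⟩ := exists_trace_one hF
  set p1 := (Cfsg.hermForm n F q p u)⁻¹ • p with hp1def
  have hp1 : Cfsg.hermForm n F q p1 u = 1 := by rw [hp1def, H_smul_left, inv_mul_cancel₀ hp]
  have hp1' : Cfsg.hermForm n F q u p1 = 1 := by rw [← H_conj hF, hp1, one_pow]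
  set v := p1 + (-(Cfsg.hermForm n F q p1 p1) * t) • u with hvdef
  have hvu : Cfsg.hermForm n F q v u = 1 := by rw [hvdef, H_add_left, hp1, H_smul_left, huu, mul_zero, add_zero]
  have hvv : Cfsg.hermForm n F q v v = 0 := by
    simp only [hvdef, H_add_left, H_add_right hF, H_smul_left _ u, H_smul_right _ _ u, hp1, hp1', huu, mul_pow, neg_pow_q hF, H_self_fixed hF]
    linear_combination (-(Cfsg.hermForm n F q p1 p1)) * ht
  obtain ⟨d, hd0, hdq⟩ := exists_anti hF
  obtain ⟨T, -, hT⟩ := exists_tv hF hvv hdq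
  refine ⟨T, fun h => ?_⟩
  have huv : Cfsg.hermForm n F q u v = 1 := by rw [← H_conj hF, hvu, one_pow]
  have h1 := h u hu
  rw [hT, huv, mul_one, W.add_mem_iff_right hu, W.smul_mem_iff hd0] at h1
  have := hW' v h1 u hu
  rw [hvu] at this
  exact one_ne_zero this

end Cfsg.Agent.S5653
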