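import Cfsg.Statements.S5654
import Cfsg.Agent.Lib.MaxSub.SUStab

set_option autoImplicit false
open Cfsg

namespace Cfsg.Agent.S5654

open scoped Matrix
open CfsgLib.Unitary.FieldNorm CfsgLib.Unitary.Basic CfsgLib.Unitary.Generation CfsgLib.MaxSub.SUTools CfsgLib.MaxSub.SUStab

/-- Let F be the field with q² elements and n ≥ 13. In SU_n(q) (determinant-one isometries of the standard unitary form on F^n) the stabiliser of a non-zero subspace W on which the form is non-degenerate and with 2 dim W < n is a maximal subgroup. -/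
theorem result {F : Type*} [Field F] [Fintype F] (n q : ℕ) (hF : Fintype.card F = q ^ 2) (hn : 13 ≤ n) (W : Submodule F (Fin n → F)) (hW0 : W ≠ ⊥) (hW : Cfsg.Geo.IsNondegenerateOn (Cfsg.hermForm n F q) W) (hdim : 2 * Module.finrank F W < n) : Cfsg.Geo.IsMaximalIn (Cfsg.GU n F q ⊓ Cfsg.Geo.specialLinear (Fin n) F) (Cfsg.Geo.subspaceStabilizer W ⊓ (Cfsg.GU n F q ⊓ Cfsg.Geo.specialLinear (Fin n) F)) := by
  classical
  have hW' : ∀ x ∈ W, x ≠ 0 → ∃ z ∈ W, Cfsg.hermForm n F q x z ≠ 0 := fun x hx h0 => by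
    obtain ⟨-, z, hz, hne⟩ := hW x hx h0
    exact ⟨z, hz, hne⟩
  refine maximal ?_ fun N hN g hg hgW => nondeg_top hF hn hW0 hW' hdim N hN hg hgW
  obtain ⟨x, hx, hx0⟩ := W.exists_mem_ne_zero_of_ne_bot hW0
  obtain ⟨z, hz, hxz⟩ := hW' x hx hx0
  obtain ⟨w, hw, hww⟩ := aniso_of_ne hF hx hz hxz
  have hd := orth_dim hF W
  obtain ⟨e, he, hee⟩ := exists_aniso hF (orth q (W : Set (Fin n → F))) W (fun s hs a ha => hs a ha)
    (disjoint_iff_inf_le.2 fun y hy => (Submodule.mem_bot F).2 (by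
      by_contra h0
      obtain ⟨z, hz, hne⟩ := hW' y hy.2 h0
      exact hne (hy.1 z hz))) (by omega)
  obtain ⟨s, hs⟩ := CfsgLib.Unitary.Isotropic.exists_norm hF
    (c := -Cfsg.hermForm n F q w w / Cfsg.hermForm n F q e e) (div_ne_zero (neg_ne_zero.2 hww) hee)
    (by rw [div_pow, neg_pow_q hF, H_self_fixed hF, H_self_fixed hF])
  have hew : Cfsg.hermForm n F q e w = 0 := he w hw
  have hwe : Cfsg.hermForm n F q w e = 0 := orth_symm hF hew
  have hyy : Cfsg.hermForm n F q (w + s • e) (w + s • e) = 0 := by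
    have h1 : s * s ^ q * Cfsg.hermForm n F q e e = -Cfsg.hermForm n F q w w := by
      rw [← pow_succ', hs, div_mul_cancel₀ _ hee]
    simp only [H_add_left, H_add_right hF, H_smul_left, H_smul_right, hew, hwe]
    linear_combination h1
  obtain ⟨d, hd0, hdq⟩ := exists_anti hF
  obtain ⟨T, -, hT⟩ := exists_tv hF hyy hdq
  refine ⟨T, fun h => ?_⟩
  have h1 := h w hw
  rw [hT, H_add_right hF, H_smul_right, hwe, mul_zero, add_zero, W.add_mem_iff_right hw,
    W.smul_mem_iff (mul_ne_zero hd0 hww), W.add_mem_iff_right hw] at h1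
  by_cases hs0 : s = 0
  · rw [hs0, zero_pow (by omega)] at hs
    exact div_ne_zero (neg_ne_zero.2 hww) hee hs.symm
  exact hee (he e ((W.smul_mem_iff hs0).1 h1))

end Cfsg.Agent.S5654
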