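import Cfsg.Statements.S5656
import Mathlib
import Cfsg.Agent.Lib.NonMax.Tools
import Cfsg.Agent.Lib.Unitary.Basic

set_option autoImplicit false
open Cfsg

namespace Cfsg.Agent.S5656

open scoped Matrix
open CfsgLib.NonMax.Tools CfsgLib.Unitary.Basic CfsgLib.Unitary.FieldNorm

variable {F : Type*} [Field F] [Fintype F] {n : ℕ}

/-- `x ↦ H(x,w) • w` -/
noncomputable def Nw (w : Fin n → F) : (Fin n → F) →ₗ[F] (Fin n → F) where
  toFun x := Cfsg.hermForm n F 2 x w • w
  map_add' x y := by rw [H_add_left, add_smul]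
  map_smul' c x := by rw [H_smul_left, mul_smul]; rfl

theorem Nw_apply (w x : Fin n → F) : Nw w x = Cfsg.hermForm n F 2 x w • w := rfl

theorem Nw_sq {w : Fin n → F} (hw : Cfsg.hermForm n F 2 w w = 0) (x : Fin n → F) : Nw w (Nw w x) = 0 := by
  rw [Nw_apply, Nw_apply, H_smul_left, hw, mul_zero, zero_smul]

theorem trans_mem (hF : Fintype.card F = 2 ^ 2) (h2 : (2 : F) = 0) {w : Fin n → F} (hw : Cfsg.hermForm n F 2 w w = 0) :
    unip (Nw w) (Nw_sq hw) ∈ Cfsg.GU n F 2 ⊓ Cfsg.Geo.specialLinear (Fin n) F := by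
  refine Subgroup.mem_inf.2 ⟨fun x y => ?_, unip_mem_specialLinear _ _⟩
  show Cfsg.hermForm n F 2 (_ *ᵥ x) (_ *ᵥ y) = _
  simp only [Units.coeHom_apply, unip_apply, Nw_apply, H_add_left, H_add_right hF, H_smul_left, H_smul_right, hw]
  rw [show Cfsg.hermForm n F 2 y w ^ 2 = Cfsg.hermForm n F 2 w y from H_conj hF y w]
  linear_combination (Cfsg.hermForm n F 2 x w * Cfsg.hermForm n F 2 w y) * h2

/-- Let F be the field with 4 elements (q = 2) and n ≥ 13. Let D be a decomposition of F^n into t pairwise orthogonal 2-dimensional subspaces, each non-degenerate for the standard unitary form Σ u_i v_i². Then the elements of SU_n(2) permuting the members of D form a subgroup that is not maximal: some subgroup lies strictly between it and SU_n(2). -/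
theorem result {F : Type*} [Field F] [Fintype F] (n : ℕ) (hF : Fintype.card F = 4) (hn : 13 ≤ n) {t : ℕ} (D : Fin t → Submodule F (Fin n → F)) (hD : Cfsg.Geo.IsNondegenerateMDecomposition (Cfsg.hermForm n F 2) 2 D) : ∃ K : Subgroup (Matrix.GeneralLinearGroup (Fin n) F), Cfsg.Geo.decompositionStabilizer D ⊓ (Cfsg.GU n F 2 ⊓ Cfsg.Geo.specialLinear (Fin n) F) < K ∧ K < (Cfsg.GU n F 2 ⊓ Cfsg.Geo.specialLinear (Fin n) F) := by
  classical
  have hF' : Fintype.card F = 2 ^ 2 := by rw [hF]; rfl
  have h2 : (2 : F) = 0 := by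
    have h0 := FiniteField.cast_card_eq_zero F
    rw [hF] at h0
    have : (2 : F) * 2 = 0 := by norm_num at h0 ⊢; exact h0
    exact mul_self_eq_zero.1 this
  have hD' := hD.decomp
  have hcard := card_eq hD'
  rw [Fintype.card_fin] at hcard
  let H := Cfsg.hermForm n F 2
  have fixed : ∀ x, H x x = 0 ∨ H x x = 1 := fun x => by
    have h : H x x ^ 2 = H x x := H_self_fixed hF' x
    rcases eq_or_ne (H x x) 0 with e | e
    · exact Or.inl e
    · exact Or.inr (mul_left_cancel₀ e (by rw [← pow_two, h, mul_one]))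
  have hunit : ∀ i, ∃ a ∈ D i, H a a = 1 := by
    intro i
    by_contra hno
    push Not at hno
    have hz : ∀ x ∈ D i, H x x = 0 := fun x hx => (fixed x).resolve_right (hno x hx)
    obtain ⟨v, hv, hv0⟩ := exists_ne_zero hD' i
    obtain ⟨x, hx, hxv⟩ := (hD.nondegenerate i v hv hv0).1
    obtain ⟨u, hu, hu'⟩ : ∃ u : F, u ≠ 0 ∧ u * H x v ^ 2 + u ^ 2 * H x v ≠ 0 := by
      by_contra hall
      push Not at hall
      have hsub : (Finset.univ : Finset F) ⊆ {0, H x v} := fun u _ => by
        rcases eq_or_ne u 0 with e | e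
        · simp [e]
        · have h := hall u e
          have h' : u * H x v * (H x v + u) = 0 := by linear_combination h
          rcases mul_eq_zero.1 h' with h'' | h''
          · exact absurd ((mul_eq_zero.1 h'').resolve_left e) hxv
          · simp [show u = H x v by linear_combination h'' - H x v * h2]
      have := (Finset.card_le_card hsub).trans Finset.card_le_two
      rw [Finset.card_univ, hF] at this
      omega
    apply hu'
    have h := hz (x + u • v) (add_mem hx (Submodule.smul_mem _ u hv))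
    simp only [H, H_add_left, H_add_right hF', H_smul_left, H_smul_right] at h hu' ⊢
    have e1 := hz x hx
    have e2 := hz v hv
    have e3 : Cfsg.hermForm n F 2 v x = Cfsg.hermForm n F 2 x v ^ 2 := (H_conj hF' x v).symm
    simp only [H] at e1 e2
    linear_combination h - e1 - (u * u ^ 2) * e2 - u * e3
  choose a ha ha1 using hunit
  have ha0 : ∀ i, a i ≠ 0 := fun i e => by
    have := ha1 i
    rw [e] at this
    simp [H, Cfsg.hermForm] at this
  have horth : ∀ i, ∀ v ∈ D i, ∀ j, j ≠ i → H v (a j) = 0 := fun i v hv j hj => hD.orthogonal i j hj.symm v hv _ (ha j)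
  have key : ∀ i, ∀ v ∈ D i, H v v = 1 → H v (a i) = 0 ∨ v = H v (a i) • a i := by
    intro i v hv h1
    rcases eq_or_ne (H v (a i)) 0 with e | e
    · exact Or.inl e
    refine Or.inr ?_
    set α := H v (a i) with hα
    set v' := v - α • a i with hv'
    by_contra hne
    have hv'D : v' ∈ D i := sub_mem hv (Submodule.smul_mem _ _ (ha i))
    have hv'0 : v' ≠ 0 := sub_ne_zero.2 hne
    have o1 : H v' (a i) = 0 := by
      simp only [H, hv', H_sub_left, H_smul_left]
      have := ha1 i
      simp only [H] at this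
      rw [this, mul_one]
      exact sub_self _
    have hα3 : α ^ 3 = 1 := by
      have := FiniteField.pow_card_sub_one_eq_one α e
      rwa [hF] at this
    have o2 : H v' v' = 0 := by
      have e3 : Cfsg.hermForm n F 2 (a i) v = α ^ 2 := (H_conj hF' v (a i)).symm
      have e4 := ha1 i
      simp only [H] at e4 h1
      simp only [H, hv', H_sub_left, H_sub_right hF', H_smul_left, H_smul_right, e3, e4, h1]
      rw [show Cfsg.hermForm n F 2 v (a i) = α from rfl]
      linear_combination (-1 : F) * hα3
    have hli : LinearIndependent F ![a i, v'] := by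
      rw [LinearIndependent.pair_iff]
      intro s r hsr
      have h := congrArg (fun z => H z (a i)) hsr
      simp only [H, H_add_left, H_smul_left] at h o1
      have e4 := ha1 i
      simp only [H] at e4
      rw [o1, e4] at h
      have hs : s = 0 := by simpa [Cfsg.hermForm] using h
      subst hs
      simp only [zero_smul, zero_add, smul_eq_zero] at hsr
      exact ⟨rfl, hsr.resolve_right hv'0⟩
    have hle : Submodule.span F {a i, v'} ≤ D i := Submodule.span_le.2 fun y hy => by
      rcases hy with rfl | rfl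
      · exact ha i
      · exact hv'D
    have hfr : Module.finrank F (Submodule.span F ({a i, v'} : Set (Fin n → F))) = 2 := by
      have := finrank_span_eq_card hli
      rw [Matrix.range_cons_cons_empty, Fintype.card_fin] at this
      exact this
    obtain ⟨x, hx, hxv⟩ := (hD.nondegenerate i v' hv'D hv'0).1
    rw [← Submodule.eq_of_le_of_finrank_eq hle (hfr.trans (hD'.finrank_eq i).symm), Submodule.mem_span_pair] at hx
    obtain ⟨s, r, rfl⟩ := hx
    apply hxv
    have o3 : Cfsg.hermForm n F 2 (a i) v' = 0 := by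
      rw [← H_conj hF']; simp only [H] at o1; rw [o1]; norm_num
    simp only [H] at o2
    rw [H_add_left, H_smul_left, H_smul_left, o2, o3, mul_zero, mul_zero, add_zero]
  let U : Set (Fin n → F) := {v | H v v = 1 ∧ ∃ i, v ∈ D i}
  let i : Fin 4 → Fin t := Fin.castLE (by omega)
  have hi : Function.Injective i := Fin.castLE_injective _
  let w := a (i 0) + a (i 1)
  have haa : ∀ j k : Fin 4, j ≠ k → Cfsg.hermForm n F 2 (a (i j)) (a (i k)) = 0 := fun j k h =>
    horth _ _ (ha _) _ (fun e => h (hi e).symm)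
  have hau : ∀ j : Fin 4, Cfsg.hermForm n F 2 (a (i j)) (a (i j)) = 1 := fun j => ha1 _
  have hww : Cfsg.hermForm n F 2 w w = 0 := by
    simp only [w, H_add_left, H_add_right hF', hau, haa 0 1 (by decide), haa 1 0 (by decide)]
    linear_combination h2
  let w' := a (i 0) + a (i 1) + a (i 2) + a (i 3)
  have hww' : Cfsg.hermForm n F 2 w' w' = 0 := by
    simp only [w', H_add_left, H_add_right hF', hau, haa 0 1 (by decide), haa 1 0 (by decide), haa 0 2 (by decide),
      haa 2 0 (by decide), haa 0 3 (by decide), haa 3 0 (by decide), haa 1 2 (by decide), haa 2 1 (by decide),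
      haa 1 3 (by decide), haa 3 1 (by decide), haa 2 3 (by decide), haa 3 2 (by decide)]
    linear_combination 2 * h2
  have aa2 : a (i 0) + a (i 0) = 0 := by rw [← two_smul F, h2, zero_smul]
  refine ⟨Cfsg.stabilizing (Cfsg.glToMat (Fin n) F) U ⊓ (Cfsg.GU n F 2 ⊓ Cfsg.Geo.specialLinear (Fin n) F),
    lt_and_lt (le_inf ?_ inf_le_right) inf_le_right (x := unip (Nw w) (Nw_sq hww)) (y := unip (Nw w') (Nw_sq hww'))
      (Subgroup.mem_inf.2 ⟨mem_stabilizing ?_, trans_mem hF' h2 hww⟩) ?_ (trans_mem hF' h2 hww') ?_⟩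
  · intro g hg
    obtain ⟨hg1, hg2⟩ := Subgroup.mem_inf.1 hg
    obtain ⟨σ, hσ⟩ := stab_perm hg1
    refine mem_stabilizing fun v ⟨hv, j, hj⟩ => ⟨?_, σ j, hσ j v hj⟩
    exact ((Subgroup.mem_inf.1 hg2).1 v v).trans hv
  · rintro v ⟨hv, j, hj⟩
    refine ⟨((Subgroup.mem_inf.1 (trans_mem hF' h2 hww)).1 v v).trans hv, ?_⟩
    rw [unip_apply, Nw_apply]
    by_cases hor : H v w = 0
    · exact ⟨j, by simp only [H] at hor; rw [hor, zero_smul, add_zero]; exact hj⟩
    have hj01 : j = i 0 ∨ j = i 1 := by
      by_contra hno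
      push Not at hno
      apply hor
      simp only [H, w, H_add_right hF']
      have o := horth j v hj
      simp only [H] at o
      rw [o _ hno.1.symm, o _ hno.2.symm, add_zero]
    obtain ⟨k, l, hkl, hjk, hw2⟩ : ∃ k l : Fin 4, k ≠ l ∧ j = i k ∧ w = a (i k) + a (i l) := by
      rcases hj01 with e | e
      · exact ⟨0, 1, by decide, e, rfl⟩
      · exact ⟨1, 0, by decide, e, add_comm _ _⟩
    subst hjk
    rcases key (i k) v hj hv with h0 | h0
    · refine absurd ?_ hor
      simp only [H, hw2, H_add_right hF'] at h0 ⊢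
      rw [h0, zero_add]
      exact horth _ v hj _ (fun e => hkl (hi e).symm)
    · refine ⟨i l, ?_⟩
      have hs : Cfsg.hermForm n F 2 v w = H v (a (i k)) := by
        simp only [H, hw2, H_add_right hF']
        have o := horth _ v hj (i l) (fun e => hkl (hi e).symm)
        simp only [H] at o
        rw [o, add_zero]
      rw [hs]
      nth_rewrite 1 [h0]
      rw [← smul_add, hw2, ← add_assoc, ← two_smul F, h2, zero_smul, zero_add]
      exact Submodule.smul_mem _ _ (ha _)
  · intro h
    obtain ⟨σ, hσ⟩ := stab_perm (Subgroup.mem_inf.1 h).1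
    obtain ⟨x, hx, hxo, hx0⟩ : ∃ x ∈ D (i 0), H x (a (i 0)) = 0 ∧ x ≠ 0 := by
      obtain ⟨x, hx, hxn⟩ : ∃ x ∈ D (i 0), x ∉ Submodule.span F {a (i 0)} := by
        by_contra hall
        push Not at hall
        have := Submodule.finrank_mono (show D (i 0) ≤ Submodule.span F {a (i 0)} from hall)
        rw [hD'.finrank_eq, finrank_span_singleton (ha0 _)] at this
        omega
      refine ⟨x - H x (a (i 0)) • a (i 0), sub_mem hx (Submodule.smul_mem _ _ (ha _)), ?_, fun e => hxn ?_⟩
      · simp only [H, H_sub_left, H_smul_left, hau, mul_one, sub_self]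
      · rw [sub_eq_zero.1 e]
        exact Submodule.smul_mem _ _ (Submodule.mem_span_singleton_self _)
    have e1 := hσ (i 0) _ (ha (i 0))
    have e2 := hσ (i 0) x hx
    rw [unip_apply, Nw_apply] at e1 e2
    have o := horth _ x hx (i 1) (fun e => by simpa using hi e)
    simp only [H] at o hxo
    rw [show Cfsg.hermForm n F 2 x w = 0 by simp only [w, H_add_right hF', hxo, o, add_zero], zero_smul, add_zero] at e2
    rw [show Cfsg.hermForm n F 2 (a (i 0)) w = 1 by simp only [w, H_add_right hF', hau, haa 0 1 (by decide), add_zero],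
      one_smul, show a (i 0) + w = a (i 1) by simp only [w, ← add_assoc, aa2, zero_add]] at e1
    have c1 := comp_of_mem hD' e1 (i 1)
    rw [comp_of_mem hD' (ha (i 1)), if_pos rfl] at c1
    by_cases hs : σ (i 0) = i 1
    · have c2 := comp_of_mem hD' e2 (i 0)
      rw [comp_of_mem hD' hx, if_pos rfl, if_neg (fun e => by simpa using hi (hs.symm.trans e).symm)] at c2
      exact hx0 c2
    · rw [if_neg hs] at c1
      exact ha0 _ c1
  · intro h
    obtain ⟨-, j, hj⟩ := ((Subgroup.mem_inf.1 h).1 (a (i 0))).1 ⟨ha1 _, i 0, ha _⟩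
    rw [Units.coeHom_apply, unip_apply, Nw_apply,
      show Cfsg.hermForm n F 2 (a (i 0)) w' = 1 by
        simp only [w', H_add_right hF', hau, haa 0 1 (by decide), haa 0 2 (by decide), haa 0 3 (by decide), add_zero],
      one_smul, show a (i 0) + w' = a (i 1) + a (i 2) + a (i 3) by simp only [w', ← add_assoc, aa2, zero_add]] at hj
    refine not_mem_of_comp hD' (i := i 1) (j := i 2) (fun e => by simpa using hi e) ?_ ?_ j hj
    · simp [comp_of_mem hD' (ha _), hi.eq_iff, ha0]
    · simp [comp_of_mem hD' (ha _), hi.eq_iff, ha0]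

end Cfsg.Agent.S5656
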