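import Cfsg.Statements.S5657
import Cfsg.Agent.Lib.MaxSub.SUSingular
-- import your own Cfsg.Agent.* helpers here

set_option autoImplicit false
open Cfsg

namespace Cfsg.Agent.S5657

open scoped Matrix
open CfsgLib.Unitary.FieldNorm CfsgLib.Unitary.Basic CfsgLib.Unitary.Order CfsgLib.Unitary.Isotropic CfsgLib.Unitary.Siegel
open CfsgLib.Unitary.Generation CfsgLib.Unitary.GenerationMain CfsgLib.MaxSub.SUTools CfsgLib.MaxSub.SUStab

variable {F : Type*} [Field F] [Fintype F] {q n : ℕ}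

local notation "H" => Cfsg.hermForm n F q

/-- The form, linear in its second argument. -/
noncomputable def Bl (q : ℕ) (u : Fin n → F) : (Fin n → F) →ₗ[F] F where
  toFun x := Cfsg.hermForm n F q x u
  map_add' x y := H_add_left x y u
  map_smul' c x := H_smul_left c x u

local notation "Bs" => Bl q

omit [Fintype F] in
theorem Bl_apply (u x : Fin n → F) : Bs u x = H x u := rfl

/-- A root element given by an orthogonal isotropic pair. -/
def IsR (r : Cfsg.SU n F q) (a z : Fin n → F) : Prop := ∀ x, r.1.1 *ᵥ x = x + Bs a x • z - Bs z x • a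

theorem B_zero_symm (hF : Fintype.card F = q ^ 2) {x y : Fin n → F} (h : Bs x y = 0) : Bs y x = 0 := orth_symm hF h

theorem B_map (g : Cfsg.SU n F q) (x y : Fin n → F) : Bs (g.1.1 *ᵥ x) (g.1.1 *ᵥ y) = Bs x y := SU_H g y x

theorem mulVec_inv (g : Cfsg.SU n F q) (x : Fin n → F) : g.1.1 *ᵥ ((g⁻¹).1.1 *ᵥ x) = x := by
  simpa using su_inv_cancel g⁻¹ x

theorem mulVec_inj (g : Cfsg.SU n F q) {x y : Fin n → F} (h : g.1.1 *ᵥ x = g.1.1 *ᵥ y) : x = y := by
  rw [← su_inv_cancel g x, h, su_inv_cancel]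

theorem su_ext {g h : Cfsg.SU n F q} (h' : ∀ x, g.1.1 *ᵥ x = h.1.1 *ᵥ x) : g = h :=
  Subtype.ext (Subtype.ext (Matrix.ext_iff_mulVec.2 h'))

theorem exists_R (hF : Fintype.card F = q ^ 2) {a z : Fin n → F} (ha : Bs a a = 0) (hz : Bs z z = 0) (h : Bs a z = 0) :
    ∃ r : Cfsg.SU n F q, IsR r a z := by
  obtain ⟨g, hg⟩ := exists_elt hF (u := a) (w := z) (a := 0) ha h (by
    rw [show H z z = 0 from hz, zero_pow (q_ne_zero hF), add_zero, add_zero])
  refine ⟨g, fun x => ?_⟩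
  rw [hg, E_mulVec, Bl_apply, Bl_apply]; module

theorem R_conj {g r : Cfsg.SU n F q} {a z : Fin n → F} (hr : IsR r a z) :
    IsR (g * r * g⁻¹) (g.1.1 *ᵥ a) (g.1.1 *ᵥ z) := fun x => by
  obtain ⟨y, rfl⟩ : ∃ y, g.1.1 *ᵥ y = x := ⟨_, mulVec_inv g x⟩
  rw [su_mulVec, su_mulVec, su_inv_cancel, hr, B_map, B_map, Matrix.mulVec_sub, Matrix.mulVec_add, Matrix.mulVec_smul, Matrix.mulVec_smul]

theorem exists_one (hF : Fintype.card F = q ^ 2) {u : Fin n → F} (hu : u ≠ 0) : ∃ x, Bs u x = 1 := by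
  obtain ⟨x, hx⟩ : ∃ x, Bs u x ≠ 0 := by
    by_contra h
    simp only [not_exists, not_not] at h
    exact hu (vec_eq_zero hF h)
  exact ⟨(Bs u x)⁻¹ • x, by rw [map_smul, smul_eq_mul, inv_mul_cancel₀ hx]⟩

theorem orth_orth' (hF : Fintype.card F = q ^ 2) {S : Submodule F (Fin n → F)} {z : Fin n → F}
    (h : ∀ x, (∀ s ∈ S, Bs s x = 0) → Bs z x = 0) : z ∈ S := by
  rw [← CfsgLib.MaxSub.SUSingular.orth_orth hF S]
  exact fun x hx => orth_symm hF (h x fun s hs => hx s hs)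

theorem sep (hF : Fintype.card F = q ^ 2) {U W : Submodule F (Fin n → F)} (_hU : ∀ a ∈ U, ∀ b ∈ U, Bs a b = 0)
    (hW : ∀ a ∈ W, ∀ b ∈ W, Bs a b = 0) (hsup : U ⊔ W = ⊤) {S : Submodule F (Fin n → F)} (hS : S ≤ W)
    {z : Fin n → F} (hzW : z ∈ W) (hz : z ∉ S) : ∃ u ∈ U, (∀ s ∈ S, Bs s u = 0) ∧ Bs z u ≠ 0 := by
  by_contra hc
  simp only [not_exists, not_and, not_not] at hc
  refine hz (orth_orth' hF fun a ha => ?_)
  obtain ⟨u, hu, w, hw, rfl⟩ := Submodule.mem_sup.1 (show a ∈ U ⊔ W by rw [hsup]; trivial)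
  rw [map_add, hW z hzW w hw, add_zero]
  refine hc u hu fun s hs => ?_
  have := ha s hs
  rwa [map_add, hW s (hS hs) w hw, add_zero] at this

theorem side (hF : Fintype.card F = q ^ 2) {m : ℕ} {U W : Submodule F ((Fin n → F))} (hm : 7 ≤ m) (hUd : Module.finrank F U = m) (hWd : Module.finrank F W = m)
    (hU : ∀ a ∈ U, ∀ b ∈ U, Bs a b = 0) (hW : ∀ a ∈ W, ∀ b ∈ W, Bs a b = 0) (hsup : U ⊔ W = ⊤)
    (N : Subgroup (Cfsg.SU n F q))
    (hR : ∀ a ∈ U, ∀ z ∈ W, ∀ r : Cfsg.SU n F q, Bs a z = 0 → IsR r a z → r ∈ N) {g : Cfsg.SU n F q} (hg : g ∈ N)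
    (hgU : ¬ ∀ a ∈ U, g.1.1 *ᵥ a ∈ U) (hgW : ¬ ∀ a ∈ W, g.1.1 *ᵥ a ∈ U) : ∀ w ∈ W, C N w := by
  classical
  have hW' := hW
  have hU' := hU
  have hsupc : W ⊔ U = ⊤ := by rw [sup_comm]; exact hsup
  have hsep : ∀ {S : Submodule F (Fin n → F)}, S ≤ W → ∀ {z}, z ∈ W → z ∉ S → ∃ u ∈ U, (∀ s ∈ S, Bs s u = 0) ∧ Bs z u ≠ 0 :=
    fun hS _ hzW hz => sep hF hU hW hsup hS hzW hz
  have hdec : ∀ y, ∃ a ∈ U, ∃ b ∈ W, y = a + b := fun y => by
    obtain ⟨a, ha, b, hb, h⟩ := Submodule.mem_sup.1 (show y ∈ U ⊔ W by rw [hsup]; trivial)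
    exact ⟨a, ha, b, hb, h.symm⟩
  have hint : ∀ y ∈ U, y ∈ W → y = 0 := fun y hy hy' => by
    by_contra h0
    obtain ⟨x, hx⟩ := exists_one hF h0
    obtain ⟨a, ha, b, hb, rfl⟩ := hdec x
    rw [map_add, hU y hy a ha, hW y hy' b hb, add_zero] at hx
    exact zero_ne_one hx
  -- projection to W
  obtain ⟨π, hπU, hπW⟩ : ∃ π : (Fin n → F) →ₗ[F] (Fin n → F), (∀ a ∈ U, π a = 0) ∧ ∀ b ∈ W, π b = b := by
    have hc : IsCompl W U := ⟨Submodule.disjoint_def.2 fun y h h' => hint y h' h, codisjoint_iff.2 (by rw [sup_comm]; exact hsup)⟩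
    exact ⟨W.subtype.comp (Submodule.projectionOnto W U hc),
      fun a ha => by rw [LinearMap.comp_apply, (Submodule.projectionOnto_apply_eq_zero_iff hc).2 ha, map_zero],
      fun b hb => by rw [LinearMap.comp_apply, Submodule.projectionOnto_apply_left hc ⟨b, hb⟩]; rfl⟩
  have hπmem : ∀ y, π y ∈ W ∧ y - π y ∈ U := fun y => by
    obtain ⟨a, ha, b, hb, rfl⟩ := hdec y
    rw [map_add, hπU a ha, hπW b hb, zero_add, add_sub_cancel_right]
    exact ⟨hb, ha⟩
  let G : (Fin n → F) →ₗ[F] (Fin n → F) := π.comp (Matrix.mulVecLin g.1.1)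
  -- an orthogonal pair with independent projections
  obtain ⟨u, huU, w, hwW, huw, hind⟩ : ∃ u ∈ U, ∃ w ∈ W, Bs u w = 0 ∧
      ∀ a b : F, a • G u + b • G w = 0 → a = 0 ∧ b = 0 := by
    by_contra hc
    simp only [not_exists, not_and] at hc
    have hsp : ∀ u ∈ U, G u ≠ 0 → ∀ w ∈ W, Bs u w = 0 → G w ∈ Submodule.span F {G u} := by
      intro u hu hGu w hw huw
      have hnn := hc u hu w hw huw
      simp only [not_forall] at hnn
      obtain ⟨a, b, hab, hne⟩ := hnn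
      by_cases hb : b = 0
      · rw [hb, zero_smul, add_zero, smul_eq_zero] at hab
        exact absurd (hab.resolve_right hGu) (fun ha => hne ⟨ha, hb⟩)
      · refine Submodule.mem_span_singleton.2 ⟨-(b⁻¹ * a), ?_⟩
        rw [neg_smul, mul_smul, ← smul_neg, ← eq_neg_of_add_eq_zero_right hab, inv_smul_smul₀ hb]
    obtain ⟨u₁, hu₁, hG₁⟩ : ∃ u ∈ U, G u ≠ 0 := by
      by_contra h
      simp only [not_exists, not_and, not_not] at h
      exact hgU fun a ha => by
        have := (hπmem (g.1.1 *ᵥ a)).2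
        rwa [show π (g.1.1 *ᵥ a) = 0 from h a ha, sub_zero] at this
    have hperp : ∀ u ∈ U, u ≠ 0 → ∀ z ∈ W, ∃ y ∈ W, ∀ v ∈ W, Bs u z ≠ 0 → Bs u (v - (Bs u v / Bs u z) • z) = 0 :=
      fun u _ _ z hz => ⟨z, hz, fun v _ hne => by rw [map_sub, map_smul, smul_eq_mul, div_mul_cancel₀ _ hne, sub_self]⟩
    -- the range of G on W is small
    obtain ⟨z₁, hz₁W, hz₁⟩ : ∃ z ∈ W, Bs u₁ z ≠ 0 := by
      obtain ⟨x, hx⟩ := exists_one hF (show u₁ ≠ 0 from fun e => hG₁ (by rw [e, map_zero]))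
      obtain ⟨a, ha, b, hb, rfl⟩ := hdec x
      rw [map_add, hU u₁ hu₁ a ha, zero_add] at hx
      exact ⟨b, hb, by rw [hx]; exact one_ne_zero⟩
    have hW2 : ∀ v ∈ W, G v ∈ Submodule.span F {G u₁} ⊔ Submodule.span F {G z₁} := fun v hv => by
      have h1 := hsp u₁ hu₁ hG₁ (v - (Bs u₁ v / Bs u₁ z₁) • z₁) (W.sub_mem hv (W.smul_mem _ hz₁W))
        (by rw [map_sub, map_smul, smul_eq_mul, div_mul_cancel₀ _ hz₁, sub_self])
      rw [map_sub, map_smul] at h1
      have h2 : G v = (G v - (Bs u₁ v / Bs u₁ z₁) • G z₁) + (Bs u₁ v / Bs u₁ z₁) • G z₁ := by abel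
      rw [h2]
      exact add_mem (Submodule.mem_sup_left h1) (Submodule.mem_sup_right (Submodule.smul_mem _ _ (Submodule.mem_span_singleton_self _)))
    -- hence the range on U is large
    obtain ⟨u₂, hu₂, hG₂⟩ : ∃ u ∈ U, G u ∉ Submodule.span F {G u₁} := by
      by_contra h
      simp only [not_exists, not_and, not_not] at h
      have hle : W ≤ Submodule.span F {G u₁} ⊔ Submodule.span F {G z₁} := fun y hy => by
        obtain ⟨x, hx⟩ : ∃ x, g.1.1 *ᵥ x = y := ⟨(g⁻¹).1.1 *ᵥ y, mulVec_inv g y⟩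
        obtain ⟨a, ha, b, hb, rfl⟩ := hdec x
        have : G (a + b) = y := by show π (g.1.1 *ᵥ (a + b)) = y; rw [hx, hπW y hy]
        rw [← this, map_add]
        exact add_mem (Submodule.mem_sup_left (h a ha)) (hW2 b hb)
      have h3 := Submodule.finrank_mono hle
      have h4 := Submodule.finrank_add_le_finrank_add_finrank (Submodule.span F {G u₁}) (Submodule.span F {G z₁})
      have h5 : ∀ x : (Fin n → F), Module.finrank F (Submodule.span F {x}) ≤ 1 := fun x =>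
        (finrank_span_le_card ({x} : Set ((Fin n → F)))).trans (by simp)
      have := h5 (G u₁); have := h5 (G z₁)
      omega
    have hG₂0 : G u₂ ≠ 0 := fun e => hG₂ (e ▸ Submodule.zero_mem _)
    have hboth : ∀ v ∈ W, Bs u₁ v = 0 → Bs u₂ v = 0 → G v = 0 := fun v hv h1 h3 => by
      obtain ⟨c, hc⟩ := Submodule.mem_span_singleton.1 (hsp u₁ hu₁ hG₁ v hv h1)
      obtain ⟨d, hd⟩ := Submodule.mem_span_singleton.1 (hsp u₂ hu₂ hG₂0 v hv h3)
      by_cases hd0 : d = 0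
      · rw [← hd, hd0, zero_smul]
      · refine absurd (Submodule.mem_span_singleton.2 ⟨d⁻¹ * c, ?_⟩) hG₂
        rw [mul_smul, hc, ← hd, inv_smul_smul₀ hd0]
    obtain ⟨u₃, hu₃, hG₃⟩ : ∃ u ∈ U, G u ∉ Submodule.span F {G u₁, G u₂} := by
      by_contra h
      simp only [not_exists, not_and, not_not] at h
      have hle : W ≤ Submodule.span F {G u₁, G u₂} ⊔ Submodule.span F {G z₁} := fun y hy => by
        obtain ⟨x, hx⟩ : ∃ x, g.1.1 *ᵥ x = y := ⟨(g⁻¹).1.1 *ᵥ y, mulVec_inv g y⟩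
        obtain ⟨a, ha, b, hb, rfl⟩ := hdec x
        have : G (a + b) = y := by show π (g.1.1 *ᵥ (a + b)) = y; rw [hx, hπW y hy]
        rw [← this, map_add]
        exact add_mem (Submodule.mem_sup_left (h a ha))
          (SetLike.le_def.1 (sup_le_sup_right (Submodule.span_mono (by simp)) _) (hW2 b hb))
      have h3 := Submodule.finrank_mono hle
      have h4 := Submodule.finrank_add_le_finrank_add_finrank (Submodule.span F {G u₁, G u₂}) (Submodule.span F {G z₁})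
      have h5 : Module.finrank F (Submodule.span F {G z₁}) ≤ 1 := (finrank_span_le_card ({G z₁} : Set ((Fin n → F)))).trans (by simp)
      have h6 : Module.finrank F (Submodule.span F ({G u₁, G u₂} : Set ((Fin n → F)))) ≤ 2 :=
        (finrank_span_le_card ({G u₁, G u₂} : Set ((Fin n → F)))).trans (by
          rw [Set.toFinset_insert, Set.toFinset_singleton]; exact Finset.card_le_two)
      omega
    -- so G kills W
    have hG₃0 : G u₃ ≠ 0 := fun e => hG₃ (e ▸ Submodule.zero_mem _)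
    have h13 : ∀ v ∈ W, Bs u₁ v = 0 → Bs u₃ v = 0 → G v = 0 := fun v hv h1 h3 => by
      obtain ⟨c, hc⟩ := Submodule.mem_span_singleton.1 (hsp u₁ hu₁ hG₁ v hv h1)
      obtain ⟨d, hd⟩ := Submodule.mem_span_singleton.1 (hsp u₃ hu₃ hG₃0 v hv h3)
      by_cases hd0 : d = 0
      · rw [← hd, hd0, zero_smul]
      · refine absurd (Submodule.mem_span_pair.2 ⟨d⁻¹ * c, 0, ?_⟩) hG₃
        rw [zero_smul, add_zero, mul_smul, hc, ← hd, inv_smul_smul₀ hd0]
    have h23 : ∀ v ∈ W, Bs u₂ v = 0 → Bs u₃ v = 0 → G v = 0 := fun v hv h1 h3 => by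
      obtain ⟨c, hc⟩ := Submodule.mem_span_singleton.1 (hsp u₂ hu₂ hG₂0 v hv h1)
      obtain ⟨d, hd⟩ := Submodule.mem_span_singleton.1 (hsp u₃ hu₃ hG₃0 v hv h3)
      by_cases hd0 : d = 0
      · rw [← hd, hd0, zero_smul]
      · refine absurd (Submodule.mem_span_pair.2 ⟨0, d⁻¹ * c, ?_⟩) hG₃
        rw [zero_smul, zero_add, mul_smul, hc, ← hd, inv_smul_smul₀ hd0]
    have pick : ∀ a ∈ U, ∀ b ∈ U, ∀ c ∈ U, c ∉ Submodule.span F {a, b} →
        ∃ z ∈ W, Bs a z = 0 ∧ Bs b z = 0 ∧ Bs c z = 1 := by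
      intro a ha b hb c hc hcn
      obtain ⟨z, hz, hzs, hzc⟩ := sep hF hW' hU' hsupc (S := Submodule.span F {a, b}) (Submodule.span_le.2 (by
        rintro x (rfl | rfl) <;> assumption)) hc hcn
      exact ⟨(Bs c z)⁻¹ • z, W.smul_mem _ hz, by rw [map_smul, hzs a (Submodule.subset_span (Or.inl rfl)), smul_zero],
        by rw [map_smul, hzs b (Submodule.subset_span (Or.inr rfl)), smul_zero],
        by rw [map_smul, smul_eq_mul, inv_mul_cancel₀ hzc]⟩
    have hnot : ∀ {a b c : (Fin n → F)}, G c ∉ Submodule.span F {G a, G b} → c ∉ Submodule.span F {a, b} := by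
      intro a b c hne h
      obtain ⟨s, t, h⟩ := Submodule.mem_span_pair.1 h
      exact hne (Submodule.mem_span_pair.2 ⟨s, t, by rw [← h, map_add, map_smul, map_smul]⟩)
    have hG₂' : G u₂ ∉ Submodule.span F {G u₁, G u₁} := by simpa using hG₂
    obtain ⟨z₂, hz₂W, e21, -, e22⟩ := pick u₁ hu₁ u₁ hu₁ u₂ hu₂ (hnot hG₂')
    obtain ⟨z₃, hz₃W, e31, e32, e33⟩ := pick u₁ hu₁ u₂ hu₂ u₃ hu₃ (hnot hG₃)
    have hz3 : G z₃ = 0 := hboth z₃ hz₃W e31 e32
    have hz2 : G z₂ = 0 := by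
      have := h13 (z₂ - Bs u₃ z₂ • z₃) (W.sub_mem hz₂W (W.smul_mem _ hz₃W))
        (by rw [map_sub, map_smul, e21, e31, smul_zero, sub_zero]) (by rw [map_sub, map_smul, e33, smul_eq_mul, mul_one, sub_self])
      rwa [map_sub, map_smul, hz3, smul_zero, sub_zero] at this
    have hz1 : G z₁ = 0 := by
      have := h23 (z₁ - Bs u₂ z₁ • z₂ - (Bs u₃ z₁ - Bs u₂ z₁ * Bs u₃ z₂) • z₃)
        (W.sub_mem (W.sub_mem hz₁W (W.smul_mem _ hz₂W)) (W.smul_mem _ hz₃W))
        (by simp only [map_sub, map_smul, e22, e32, smul_eq_mul]; ring)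
        (by simp only [map_sub, map_smul, e33, smul_eq_mul]; ring)
      rwa [map_sub, map_sub, map_smul, map_smul, hz2, hz3, smul_zero, smul_zero, sub_zero, sub_zero] at this
    refine hgW fun v hv => ?_
    have := h13 (v - (Bs u₁ v / Bs u₁ z₁) • z₁ - (Bs u₃ (v - (Bs u₁ v / Bs u₁ z₁) • z₁)) • z₃)
      (W.sub_mem (W.sub_mem hv (W.smul_mem _ hz₁W)) (W.smul_mem _ hz₃W))
      (by simp only [map_sub, map_smul, e31, smul_eq_mul, div_mul_cancel₀ _ hz₁]; ring)
      (by simp only [map_sub, map_smul, e33, smul_eq_mul]; ring)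
    rw [map_sub, map_sub, map_smul, map_smul, hz1, hz3, smul_zero, smul_zero, sub_zero, sub_zero] at this
    have h2' := (hπmem (g.1.1 *ᵥ v)).2
    rwa [show π (g.1.1 *ᵥ v) = 0 from this, sub_zero] at h2'
  -- the commutators
  set p := g.1.1 *ᵥ u with hp
  set p' := g.1.1 *ᵥ w with hq
  have hpq : Bs p p' = 0 := by rw [hp, hq, B_map]; exact huw
  have hqp : Bs p' p = 0 := B_zero_symm hF hpq
  have hpp : Bs p p = 0 := by rw [hp, B_map]; exact hU u huU u huU
  have hqq : Bs p' p' = 0 := by rw [hq, B_map]; exact hW w hwW w hwW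
  obtain ⟨hp1, hp0⟩ := hπmem p
  obtain ⟨hq1, hq0⟩ := hπmem p'
  have hind' : π p ∉ Submodule.span F {π p'} := fun h => by
    obtain ⟨c, hc⟩ := Submodule.mem_span_singleton.1 h
    have := (hind 1 (-c) (by show (1:F) • π p + -c • π p' = 0; rw [one_smul, neg_smul, hc, add_neg_cancel])).1
    exact one_ne_zero this
  obtain ⟨w', hw'W, hpw, hqw, hw'n⟩ : ∃ w' ∈ W, Bs p w' = 0 ∧ Bs p' w' = 0 ∧ w' ∉ Submodule.span F {π p, π p'} := by
    by_contra hc
    simp only [not_exists, not_and, not_not] at hc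
    let ψ : W →ₗ[F] F × F := ((Bs p).comp W.subtype).prod ((Bs p').comp W.subtype)
    have h1 := ψ.finrank_range_add_finrank_ker
    have h3 : Module.finrank F (LinearMap.range ψ) ≤ 2 := (Submodule.finrank_le _).trans (le_of_eq (by simp))
    have h4 := Submodule.finrank_mono (show (LinearMap.ker ψ).map W.subtype ≤ Submodule.span F {π p, π p'} from by
      rintro _ ⟨x, hx, rfl⟩
      exact hc x.1 x.2 (congrArg Prod.fst (LinearMap.mem_ker.1 hx)) (congrArg Prod.snd (LinearMap.mem_ker.1 hx)))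
    rw [(Submodule.equivMapOfInjective _ W.injective_subtype _).finrank_eq.symm] at h4
    have h5 : Module.finrank F (Submodule.span F ({π p, π p'} : Set (Fin n → F))) ≤ 2 :=
      (finrank_span_le_card ({π p, π p'} : Set (Fin n → F))).trans (by
        rw [Set.toFinset_insert, Set.toFinset_singleton]; exact Finset.card_le_two)
    omega
  have hw'0 : w' ≠ 0 := fun e => hw'n (e ▸ Submodule.zero_mem _)
  obtain ⟨u', hu'U, hu's, hu'p⟩ := hsep (S := Submodule.span F {w', π p'}) (Submodule.span_le.2 (by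
      rintro x (rfl | rfl)
      · exact hw'W
      · exact hq1)) hp1 (fun h => by
    obtain ⟨a, b, h⟩ := Submodule.mem_span_pair.1 h
    by_cases ha : a = 0
    · exact hind' (Submodule.mem_span_singleton.2 ⟨b, by rw [← h, ha, zero_smul, zero_add]⟩)
    · refine hw'n (Submodule.mem_span_pair.2 ⟨a⁻¹, -(a⁻¹ * b), ?_⟩)
      rw [← h, smul_add, inv_smul_smul₀ ha, smul_smul]; module)
  have hBU : ∀ y, ∀ a ∈ U, Bs a y = Bs a (π y) := fun y a ha => by
    have := hU a ha _ (hπmem y).2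
    rwa [map_sub, sub_eq_zero] at this
  have hqu' : Bs u' p' = 0 := by rw [hBU p' u' hu'U]; exact B_zero_symm hF (hu's _ (Submodule.subset_span (Or.inr rfl)))
  have hpu' : Bs u' p ≠ 0 := by rw [hBU p u' hu'U]; exact fun h => hu'p (B_zero_symm hF h)
  have hw'u' : Bs w' u' = 0 := hu's _ (Submodule.subset_span (Or.inl rfl))
  have hu'w' : Bs u' w' = 0 := B_zero_symm hF hw'u'
  have hww : Bs w' w' = 0 := hW w' hw'W w' hw'W
  set β := Bs u' p with hβ
  have smulB : ∀ (t : F) (a x : Fin n → F), Bs (t • a) x = t ^ q * Bs a x := fun t a x => H_smul_right t x a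
  have addB : ∀ (a b x : Fin n → F), Bs (a + b) x = Bs a x + Bs b x := fun a b x => H_add_right hF x a b
  have hwq : Bs (β • w') p' = 0 := by rw [smulB, B_zero_symm hF hqw, mul_zero]
  obtain ⟨rE, hE⟩ : ∃ r : Cfsg.SU n F q, r ∈ N ∧ IsR r p p' := by
    obtain ⟨r, hr⟩ := exists_R hF (hU u huU u huU) (hW w hwW w hwW) huw
    exact ⟨g * r * g⁻¹, mul_mem (mul_mem hg (hR u huU w hwW r huw hr)) (inv_mem hg), R_conj hr⟩
  obtain ⟨rh, hrh⟩ := exists_R hF (hU u' hu'U u' hu'U) hww hu'w'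
  have hrhN := hR u' hu'U w' hw'W rh hu'w' hrh
  obtain ⟨rq, hrq⟩ := exists_R hF (a := β • w') (z := p') (by rw [smulB, map_smul, hww, smul_zero, mul_zero]) hqq hwq
  have hRq : rq ∈ N := by
    have h1 : IsR (rh * rE * rh⁻¹) (p + β • w') p' := by
      have := R_conj (g := rh) hE.2
      rwa [show rh.1.1 *ᵥ p = p + β • w' by rw [hrh, ← hβ, B_zero_symm hF hpw |> fun _ => (B_zero_symm hF (show Bs p w' = 0 from hpw)), zero_smul, sub_zero],
        show rh.1.1 *ᵥ p' = p' by rw [hrh, hqu', B_zero_symm hF hqw, zero_smul, zero_smul, add_zero, sub_zero]] at this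
    have e : rh * rE * rh⁻¹ = rq * rE := su_ext fun x => by
      rw [h1, su_mulVec, hE.2, hrq]
      simp only [map_add, map_sub, map_smul, addB, smulB, smul_eq_mul, hqp, hqq, B_zero_symm hF hqw, B_zero_symm hF hpw, mul_zero, zero_mul, add_zero, sub_zero, zero_smul]
      module
    have h2 := mul_mem (mul_mem (mul_mem hrhN hE.1) (inv_mem hrhN)) (inv_mem hE.1)
    rwa [e, mul_inv_cancel_right] at h2
  obtain ⟨u'', hu''U, hu''s, hu''q⟩ := hsep (S := Submodule.span F {w'}) (Submodule.span_le.2 (by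
      rintro x rfl; exact hw'W)) hq1 (fun h => by
    obtain ⟨a, h⟩ := Submodule.mem_span_singleton.1 h
    by_cases ha : a = 0
    · rw [ha, zero_smul] at h
      exact (zero_ne_one (α := F)) ((hind 0 1 (by show (0:F) • π p + (1:F) • π p' = 0; rw [zero_smul, one_smul, ← h, zero_add])).2).symm
    · exact hw'n (Submodule.mem_span_pair.2 ⟨0, a⁻¹, by rw [zero_smul, zero_add, ← h, inv_smul_smul₀ ha]⟩))
  have hw'u'' : Bs w' u'' = 0 := hu''s _ (Submodule.mem_span_singleton_self w')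
  have hqu'' : Bs u'' p' ≠ 0 := by rw [hBU p' u'' hu''U]; exact fun h => hu''q (B_zero_symm hF h)
  have hCw' : C N w' := by
    refine ⟨hww, fun t ⟨c, ht⟩ => ?_⟩
    obtain ⟨x1, hx1⟩ := exists_one hF hw'0
    have hc : c ^ q = -c := by
      have h1 := SU_H t x1 x1
      have hwx : H w' x1 = 1 := by rw [← H_conj hF, show H x1 w' = 1 from hx1, one_pow]
      rw [ht, show H x1 w' = 1 from hx1, mul_one] at h1
      simp only [H_add_left, H_add_right hF, H_smul_left, H_smul_right, show H x1 w' = 1 from hx1, hwx, show H w' w' = 0 from hww] at h1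
      linear_combination h1
    obtain ⟨α, hα⟩ := exists_trace_one hF
    set δ := α * c / β ^ q with hδ
    have hβq : β ^ q ≠ 0 := pow_ne_zero _ hpu'
    set s := δ / Bs u'' p' with hs
    have ho : Bs u'' (s • w') = 0 := by rw [map_smul, B_zero_symm hF hw'u'', smul_zero]
    have hsw : Bs (s • w') (s • w') = 0 := by rw [smulB, map_smul, hww, smul_zero, mul_zero]
    obtain ⟨r2, hr2⟩ := exists_R hF (hU u'' hu''U u'' hu''U) hsw ho
    have hr2N := hR u'' hu''U _ (W.smul_mem _ hw'W) r2 ho hr2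
    have h1 : IsR (r2 * rq * r2⁻¹) (β • w') (p' + δ • w') := by
      have := R_conj (g := r2) hrq
      rwa [show r2.1.1 *ᵥ (β • w') = β • w' by
          rw [hr2]; simp only [map_smul, smulB, B_zero_symm hF hw'u'', hww, smul_eq_mul, mul_zero, zero_smul, add_zero, sub_zero],
        show r2.1.1 *ᵥ p' = p' + δ • w' by
          rw [hr2, smulB, B_zero_symm hF hqw, mul_zero, zero_smul, sub_zero, smul_smul, hs, mul_div_cancel₀ _ hqu'']] at this
    have hcc : β ^ q * δ - δ ^ q * β = c := by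
      have h4 : (β ^ q * δ) ^ q = β * δ ^ q := by rw [mul_pow, pow_q_q hF]
      have h3 : β ^ q * δ = α * c := by rw [hδ, mul_div_cancel₀ _ hβq]
      rw [h3, mul_pow, hc] at h4
      linear_combination h3 + h4 + c * hα
    have e : r2 * rq * r2⁻¹ = t * rq := su_ext fun x => by
      rw [h1, su_mulVec, hrq, ht]
      simp only [← Bl_apply, map_add, map_sub, map_smul, addB, smulB, smul_eq_mul, hww, B_zero_symm hF hqw, hqw, ← hcc, mul_zero, add_zero, sub_zero]
      module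
    have h2 := mul_mem (mul_mem (mul_mem hr2N hRq) (inv_mem hr2N)) (inv_mem hRq)
    rwa [e, mul_inv_cancel_right] at h2
  intro z hz
  by_cases hz0 : z = 0
  · have := C_smul hCw' 0
    rw [zero_smul] at this; rw [hz0]; exact this
  have move : ∀ x ∈ W, ∀ y ∈ W, y ∉ Submodule.span F {x} → x ≠ 0 → C N x → C N y := by
    intro x hx y hy hyn hx0 hC
    obtain ⟨a, haU, ha, hxa⟩ := hsep (S := Submodule.span F {y - x}) (Submodule.span_le.2 (by
        rintro v rfl; exact W.sub_mem hy hx)) hx (fun h => by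
      obtain ⟨c, hc⟩ := Submodule.mem_span_singleton.1 h
      by_cases hc0 : c = 0
      · exact hx0 (by rw [← hc, hc0, zero_smul])
      · refine hyn (Submodule.mem_span_singleton.2 ⟨1 + c⁻¹, ?_⟩)
        rw [add_smul, one_smul]; nth_rewrite 2 [← hc]; rw [inv_smul_smul₀ hc0]; abel)
    have hax : Bs a x ≠ 0 := fun h => hxa (B_zero_symm hF h)
    have hzW := W.smul_mem (Bs a x)⁻¹ (W.sub_mem hy hx)
    have ho : Bs a ((Bs a x)⁻¹ • (y - x)) = 0 := by
      rw [map_smul, B_zero_symm hF (ha _ (Submodule.mem_span_singleton_self _)), smul_zero]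
    obtain ⟨r, hr⟩ := exists_R hF (hU a haU a haU) (hW _ hzW _ hzW) ho
    have := C_map (hR a haU _ hzW r ho hr) hC
    rwa [hr, smul_smul, mul_inv_cancel₀ hax, one_smul, hW _ hzW x hx, zero_smul, sub_zero, add_sub_cancel] at this
  by_cases hzs : z ∈ Submodule.span F {w'}
  · obtain ⟨c, rfl⟩ := Submodule.mem_span_singleton.1 hzs
    exact C_smul hCw' c
  · exact move w' hw'W z hz hzs hw'0 hCw'

theorem swap_elem (hF : Fintype.card F = q ^ 2) {k : ℕ} (b w : Fin k → (Fin n → F)) (hbb : ∀ i l, H (b i) (b l) = 0)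
    (hww : ∀ i l, H (w i) (w l) = 0) (hbw : ∀ i l, H (b i) (w l) = if i = l then 1 else 0) (s : Finset (Fin k)) :
    ∃ J : Cfsg.SU n F q, ∀ i, (i ∈ s → (∃ c : F, J.1.1 *ᵥ b i = c • w i) ∧ ∃ c : F, J.1.1 *ᵥ w i = c • b i) ∧
      (i ∉ s → J.1.1 *ᵥ b i = b i ∧ J.1.1 *ᵥ w i = w i) := by
  classical
  have hwb : ∀ i l, H (w i) (b l) = if l = i then 1 else 0 := fun i l => by
    rw [← H_conj hF, hbw]; split <;> simp [q_ne_zero hF]
  induction s using Finset.induction_on with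
  | empty => exact ⟨1, fun i => ⟨fun h => absurd h (Finset.notMem_empty _), fun _ => ⟨Matrix.one_mulVec _, Matrix.one_mulVec _⟩⟩⟩
  | insert a s has ih =>
    obtain ⟨J, hJi⟩ := ih
    obtain ⟨c, hc0, hc⟩ := exists_anti hF
    obtain ⟨A, -, hA⟩ := exists_tv hF (hbb a a) hc
    obtain ⟨C', -, hC⟩ := exists_tv hF (hww a a) (c := -c⁻¹) (by rw [neg_pow_q hF, inv_pow, hc, inv_neg])
    set T := A * C' * A with hT
    have Tb : ∀ i, T.1.1 *ᵥ b i = if i = a then (-c⁻¹) • w a else b i := fun i => by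
      rw [hT, su_mulVec, su_mulVec, hA (b i), hbb, mul_zero, zero_smul, add_zero, hC (b i), Matrix.mulVec_add, Matrix.mulVec_smul, hA (b i), hA (w a), hbb, hbw, hwb]
      by_cases h0 : i = a
      · subst h0; simp [hc0]
      · simp [h0]
    have Tw : ∀ i, T.1.1 *ᵥ w i = if i = a then c • b a else w i := fun i => by
      rw [hT, su_mulVec, su_mulVec, hA (w i), hwb, Matrix.mulVec_add, Matrix.mulVec_smul, hC (w i), hC (b a), hww, hbw]
      by_cases h0 : i = a
      · subst h0; simp [Matrix.mulVec_add, Matrix.mulVec_smul, Matrix.mulVec_neg, hA, hbb, hwb, hc0, H_smul_left]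
      · simp [h0, Ne.symm h0, hA, hwb]
    refine ⟨J * T, fun i => ⟨fun hi => ?_, fun hi => ?_⟩⟩
    · rw [su_mulVec J T (b i), su_mulVec J T (w i), Tb, Tw]
      by_cases h0 : i = a
      · rw [if_pos h0, if_pos h0, Matrix.mulVec_smul, Matrix.mulVec_smul, ((hJi a).2 has).2, ((hJi a).2 has).1, h0]
        exact ⟨⟨_, rfl⟩, ⟨_, rfl⟩⟩
      · rw [if_neg h0, if_neg h0]
        exact (hJi i).1 ((Finset.mem_insert.1 hi).resolve_left h0)
    · rw [Finset.mem_insert, not_or] at hi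
      rw [su_mulVec J T (b i), su_mulVec J T (w i), Tb, Tw, if_neg hi.1, if_neg hi.1]
      exact (hJi i).2 hi.2

theorem maximal (hF : Fintype.card F = q ^ 2) {k : ℕ} (hk : 7 ≤ k) (hkn : n = 2 * k) (D : Fin 2 → Submodule F (Fin n → F))
    (hD : Cfsg.Geo.IsMDecomposition k D) (hts : ∀ i, ∀ x ∈ D i, ∀ y ∈ D i, H x y = 0) :
    Cfsg.Geo.IsMaximalIn (Cfsg.GU n F q ⊓ Cfsg.Geo.specialLinear (Fin n) F)
      (Cfsg.Geo.decompositionStabilizer D ⊓ (Cfsg.GU n F q ⊓ Cfsg.Geo.specialLinear (Fin n) F)) := by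
  classical
  let e : Cfsg.SU n F q →* GL (Fin n) F := Matrix.SpecialLinearGroup.toGL.comp (Cfsg.SU n F q).subtype
  have heK : ∀ A, e A ∈ Cfsg.GU n F q ⊓ Cfsg.Geo.specialLinear (Fin n) F := fun A =>
    ⟨A.2, MonoidHom.mem_ker.2 (Units.ext A.1.2)⟩
  have hsur : ∀ x ∈ Cfsg.GU n F q ⊓ Cfsg.Geo.specialLinear (Fin n) F, ∃ A, e A = x := fun x hx =>
    ⟨⟨⟨x.1, congrArg Units.val (MonoidHom.mem_ker.1 hx.2)⟩, hx.1⟩, Units.ext rfl⟩
  set U := D 0 with hUdef
  set W := D 1 with hWdef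
  have hU : ∀ a ∈ U, ∀ b ∈ U, Bs a b = 0 := fun a ha b hb => hts 0 b hb a ha
  have hW : ∀ a ∈ W, ∀ b ∈ W, Bs a b = 0 := fun a ha b hb => hts 1 b hb a ha
  have hUd : Module.finrank F U = k := hD.finrank_eq 0
  have hWd : Module.finrank F W = k := hD.finrank_eq 1
  have hsup : U ⊔ W = ⊤ := by
    refine eq_top_iff.2 (hD.iSup_eq_top ▸ iSup_le fun i => ?_)
    fin_cases i
    · exact le_sup_left
    · exact le_sup_right
  have hsup' : W ⊔ U = ⊤ := by rw [sup_comm]; exact hsup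
  have hdec : ∀ y, ∃ a ∈ U, ∃ b ∈ W, y = a + b := fun y => by
    obtain ⟨a, ha, b, hb, h⟩ := Submodule.mem_sup.1 (show y ∈ U ⊔ W by rw [hsup]; trivial)
    exact ⟨a, ha, b, hb, h.symm⟩
  have hint : ∀ y ∈ U, y ∈ W → y = 0 := fun y hy hy' => by
    by_contra h0
    obtain ⟨x, hx⟩ := exists_one hF h0
    obtain ⟨a, ha, b, hb, rfl⟩ := hdec x
    rw [map_add, hU y hy a ha, hW y hy' b hb, add_zero] at hx
    exact zero_ne_one hx
  have mapEq : ∀ (A : Cfsg.SU n F q) (i j : Fin 2), (∀ x ∈ D i, A.1.1 *ᵥ x ∈ D j) → (D i).map (Matrix.toLin' A.1.1) = D j := fun A i j h => by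
    refine Submodule.eq_of_le_of_finrank_eq (by rintro _ ⟨x, hx, rfl⟩; rw [Matrix.toLin'_apply]; exact h x hx) ?_
    rw [hD.finrank_eq]
    refine Eq.trans (Submodule.equivMapOfInjective _ (fun x y h => ?_) _).finrank_eq.symm (hD.finrank_eq i)
    rw [Matrix.toLin'_apply, Matrix.toLin'_apply] at h
    exact mulVec_inj A h
  refine ⟨lt_of_le_of_ne inf_le_right fun heq => ?_, fun M hM hMK => or_iff_not_imp_left.2 fun hne => le_antisymm hMK ?_⟩
  · obtain ⟨a, ha, ha0⟩ := U.exists_mem_ne_zero_of_ne_bot (fun h => by rw [h, finrank_bot] at hUd; omega)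
    obtain ⟨y, hy⟩ := exists_one hF ha0
    obtain ⟨y0, hy0, w, hw, rfl⟩ := hdec y
    rw [map_add, hU a ha y0 hy0, zero_add] at hy
    obtain ⟨d, hd0, hd⟩ := exists_anti hF
    obtain ⟨T, -, hT⟩ := exists_tv hF (hts 1 w hw w hw) hd
    obtain ⟨σ, hσ⟩ := (heq.ge (heK T)).1
    have hmem : T.1.1 *ᵥ a ∈ D (σ 0) := (hσ 0).le ⟨a, ha, Matrix.toLin'_apply _ _⟩
    have haw : H a w = 1 := by rw [← H_conj hF, show H w a = 1 from hy, one_pow]
    rw [hT, haw, mul_one] at hmem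
    rcases Fin.exists_fin_two.1 ⟨σ 0, rfl⟩ with h | h <;> rw [h] at hmem
    · have := hint _ ((U.add_mem_iff_right ha).1 hmem) (W.smul_mem _ hw)
      rw [smul_eq_zero] at this
      rcases this with e | e
      · exact hd0 e
      · rw [e, map_zero] at hy; exact zero_ne_one hy
    · exact ha0 (hint a ha ((W.add_mem_iff_left (W.smul_mem _ hw)).1 hmem))
  obtain ⟨g, hgM, hgH⟩ := SetLike.exists_of_lt (lt_of_le_of_ne hM (Ne.symm hne))
  obtain ⟨G, rfl⟩ := hsur g (hMK hgM)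
  set N := M.comap e with hNdef
  suffices htop : N = ⊤ by
    intro x hx
    obtain ⟨X, rfl⟩ := hsur x hx
    have hX : X ∈ N := by rw [htop]; exact Subgroup.mem_top X
    exact hX
  have hGN : G ∈ N := hgM
  have hN : ∀ A : Cfsg.SU n F q, ∀ σ : Equiv.Perm (Fin 2), (∀ i, ∀ x ∈ D i, A.1.1 *ᵥ x ∈ D (σ i)) → A ∈ N := fun A σ h =>
    hM ⟨⟨σ, fun i => mapEq A i (σ i) (h i)⟩, heK A⟩
  have hR : ∀ a ∈ U, ∀ z ∈ W, ∀ r : Cfsg.SU n F q, Bs a z = 0 → IsR r a z → r ∈ N := fun a ha z hz r _ hr => by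
    refine hN r 1 (Fin.forall_fin_two.2 ⟨fun x (hx : x ∈ U) => ?_, fun x (hx : x ∈ W) => ?_⟩)
    · show _ ∈ U; rw [hr, hU a ha x hx, zero_smul, add_zero]; exact U.sub_mem hx (U.smul_mem _ ha)
    · show _ ∈ W; rw [hr, hW z hz x hx, zero_smul, sub_zero]; exact W.add_mem hx (W.smul_mem _ hz)
  have hR' : ∀ a ∈ W, ∀ z ∈ U, ∀ r : Cfsg.SU n F q, Bs a z = 0 → IsR r a z → r ∈ N := fun a ha z hz r _ hr => by
    refine hN r 1 (Fin.forall_fin_two.2 ⟨fun x (hx : x ∈ U) => ?_, fun x (hx : x ∈ W) => ?_⟩)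
    · show _ ∈ U; rw [hr, hU z hz x hx, zero_smul, sub_zero]; exact U.add_mem hx (U.smul_mem _ hz)
    · show _ ∈ W; rw [hr, hW a ha x hx, zero_smul, add_zero]; exact W.sub_mem hx (W.smul_mem _ ha)
  -- the swap
  obtain ⟨J, hJN, hJU, hJW⟩ : ∃ J ∈ N, (∀ x ∈ U, J.1.1 *ᵥ x ∈ W) ∧ ∀ x ∈ W, J.1.1 *ᵥ x ∈ U := by
    let b := Module.finBasisOfFinrankEq F U hUd
    have hdual : ∀ i, ∃ w ∈ W, ∀ x : U, Bs w x.1 = b.repr x i := fun i => by
      obtain ⟨f, hf⟩ := LinearMap.exists_extend ((Finsupp.lapply i).comp b.repr.toLinearMap)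
      set y : Fin n → F := fun l => (f (Pi.single l 1)) ^ q with hy
      have hfy : ∀ x, H x y = f x := fun x => by
        conv_rhs => rw [pi_eq_sum_univ' x]
        rw [map_sum, Cfsg.hermForm]
        exact Finset.sum_congr rfl fun l _ => by rw [map_smul, smul_eq_mul, hy]; congr 1; exact pow_q_q hF _
      obtain ⟨y0, hy0, w, hw, hyw⟩ := hdec y
      refine ⟨w, hw, fun x => ?_⟩
      have h1 : f x.1 = b.repr x i := LinearMap.congr_fun hf x
      rw [← h1, ← hfy, hyw, Bl_apply, H_add_right hF, show H x.1 y0 = 0 from hts 0 _ x.2 _ hy0, zero_add]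
    choose w hwW hw using hdual
    have hrep : ∀ x ∈ U, x = ∑ i, Bs (w i) x • (b i).1 := fun x hx => by
      have := congrArg Subtype.val (b.sum_repr ⟨x, hx⟩)
      rw [Submodule.coe_sum] at this
      change _ = x at this
      conv_lhs => rw [← this]
      exact Finset.sum_congr rfl fun i _ => by rw [hw i ⟨x, hx⟩]; rfl
    have hbw : ∀ i j, H (b i).1 (w j) = if i = j then 1 else 0 := fun i j => by
      rw [← Bl_apply, hw j (b i), b.repr_self, Finsupp.single_apply]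
    have hrepW : ∀ x ∈ W, x = ∑ i, Bs (b i).1 x • w i := fun x hx => by
      by_contra h
      obtain ⟨z, hz⟩ := exists_one hF (sub_ne_zero.2 h)
      obtain ⟨a, ha, c, hc, rfl⟩ := hdec z
      have hd : x - ∑ i, Bs (b i).1 x • w i ∈ W := W.sub_mem hx (W.sum_mem fun i _ => W.smul_mem _ (hwW i))
      rw [map_add, hW _ hd c hc, add_zero] at hz
      have hzero : ∀ i, Bs (b i).1 (x - ∑ l, Bs (b l).1 x • w l) = 0 := fun i => by
        have hwb : ∀ l, Bs (b i).1 (w l) = if i = l then 1 else 0 := fun l => by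
          rw [Bl_apply, ← H_conj hF, hbw]; split <;> simp [q_ne_zero hF]
        rw [map_sub, map_sum]; simp [map_smul, hwb]
      refine (zero_ne_one (α := F)) (Eq.trans ?_ hz)
      rw [hrep a ha, map_sum]
      exact (Finset.sum_eq_zero fun i _ => by rw [map_smul, B_zero_symm hF (hzero i), smul_zero]).symm
    obtain ⟨J, hJ⟩ := swap_elem hF (fun i => (b i).1) w (fun i l => hts 0 _ (b i).2 _ (b l).2)
      (fun i l => hts 1 _ (hwW i) _ (hwW l)) hbw Finset.univ
    have h0 : ∀ x ∈ U, J.1.1 *ᵥ x ∈ W := fun x hx => by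
      rw [hrep x hx, Matrix.mulVec_sum]
      refine W.sum_mem fun i _ => ?_
      obtain ⟨c, h⟩ := ((hJ i).1 (Finset.mem_univ _)).1
      rw [Matrix.mulVec_smul, h]; exact W.smul_mem _ (W.smul_mem _ (hwW i))
    have h1 : ∀ x ∈ W, J.1.1 *ᵥ x ∈ U := fun x hx => by
      rw [hrepW x hx, Matrix.mulVec_sum]
      refine U.sum_mem fun i _ => ?_
      obtain ⟨c, h⟩ := ((hJ i).1 (Finset.mem_univ _)).2
      rw [Matrix.mulVec_smul, h]; exact U.smul_mem _ (U.smul_mem _ (b i).2)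
    exact ⟨J, hN J (Equiv.swap 0 1) (Fin.forall_fin_two.2
      ⟨fun x hx => by rw [Equiv.swap_apply_left]; exact h0 x hx, fun x hx => by rw [Equiv.swap_apply_right]; exact h1 x hx⟩), h0, h1⟩
  -- one side
  have hboth : (∀ x ∈ W, C N x) ∧ ∀ x ∈ U, C N x := by
    have pull : ∀ {X Y : Submodule F ((Fin n → F))}, Module.finrank F X = k → Module.finrank F Y = k →
        (∀ x ∈ X, J.1.1 *ᵥ x ∈ Y) → (∀ x ∈ X, C N x) → ∀ y ∈ Y, C N y := by
      intro X Y hX hY hJ hC y hy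
      let f : X →ₗ[F] Y :=
        { toFun := fun x => ⟨J.1.1 *ᵥ x.1, hJ x.1 x.2⟩
          map_add' := fun a b => Subtype.ext (show J.1.1 *ᵥ (a.1 + b.1) = J.1.1 *ᵥ a.1 + J.1.1 *ᵥ b.1 from Matrix.mulVec_add _ _ _)
          map_smul' := fun c a => Subtype.ext (show J.1.1 *ᵥ (c • a.1) = c • (J.1.1 *ᵥ a.1) from Matrix.mulVec_smul _ _ _) }
      obtain ⟨x, hx⟩ := (LinearMap.injective_iff_surjective_of_finrank_eq_finrank (hX.trans hY.symm)).1
        (show Function.Injective f from fun a b h => Subtype.ext (mulVec_inj J (congrArg Subtype.val h))) ⟨y, hy⟩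
      rw [← show J.1.1 *ᵥ x.1 = y from congrArg Subtype.val hx]
      exact C_map hJN (hC x.1 x.2)
    have stab : ∀ σ : Equiv.Perm (Fin 2), (∀ i, ∀ x ∈ D i, G.1.1 *ᵥ x ∈ D (σ i)) → False := fun σ h =>
      hgH ⟨⟨σ, fun i => mapEq G i (σ i) (h i)⟩, heK G⟩
    have side1 : ¬ (∀ a ∈ U, G.1.1 *ᵥ a ∈ U) → ¬ (∀ a ∈ W, G.1.1 *ᵥ a ∈ U) → ∀ w ∈ W, C N w :=
      side hF hk hUd hWd hU hW hsup N hR hGN
    have side2 : ¬ (∀ a ∈ W, G.1.1 *ᵥ a ∈ W) → ¬ (∀ a ∈ U, G.1.1 *ᵥ a ∈ W) → ∀ u ∈ U, C N u :=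
      side hF hk hWd hUd hW hU hsup' N hR' hGN
    by_cases h1 : ∀ a ∈ U, G.1.1 *ᵥ a ∈ U
    · have h := side2 (fun h => stab 1 (Fin.forall_fin_two.2 ⟨h1, h⟩)) (fun h => by
        obtain ⟨x, hx, hx0⟩ := U.exists_mem_ne_zero_of_ne_bot (fun h' => by rw [h', finrank_bot] at hUd; omega)
        exact hx0 (mulVec_inj G ((hint _ (h1 x hx) (h x hx)).trans (Matrix.mulVec_zero _).symm)))
      exact ⟨pull hUd hWd hJU h, h⟩
    · by_cases h3 : ∀ a ∈ W, G.1.1 *ᵥ a ∈ U
      · have h := side2 (fun h => by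
          obtain ⟨x, hx, hx0⟩ := W.exists_mem_ne_zero_of_ne_bot (fun h' => by rw [h', finrank_bot] at hWd; omega)
          exact hx0 (mulVec_inj G ((hint _ (h3 x hx) (h x hx)).trans (Matrix.mulVec_zero _).symm)))
          (fun h => stab (Equiv.swap 0 1) (Fin.forall_fin_two.2
            ⟨fun x hx => by rw [Equiv.swap_apply_left]; exact h x hx, fun x hx => by rw [Equiv.swap_apply_right]; exact h3 x hx⟩))
        exact ⟨pull hUd hWd hJU h, h⟩
      · have h := side1 h1 h3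
        exact ⟨h, pull hWd hUd hJW h⟩
  refine top_of_C hF (by omega) fun v hv => ?_
  obtain ⟨hCW, hCU⟩ := hboth
  have step : ∀ v w, C N v → C N w → H v w ≠ 0 → H (v + w) (v + w) = 0 → C N (v + w) := fun v w hv hw hne hiso => by
    have hc : ((H v w)⁻¹) ^ q = -(H v w)⁻¹ := by
      simp only [H_add_left, H_add_right hF, hv.1, hw.1, ← H_conj hF v w] at hiso
      rw [inv_pow, show (H v w) ^ q = -H v w by linear_combination hiso, inv_neg]
    obtain ⟨r, -, hr⟩ := exists_tv hF hw.1 hc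
    have := C_map (hw.2 r ⟨_, hr⟩) hv
    rwa [hr, inv_mul_cancel₀ hne, one_smul] at this
  obtain ⟨a, ha, b, hb, rfl⟩ := hdec v
  by_cases ha0 : a = 0
  · rw [ha0, zero_add]; exact hCW b hb
  by_cases hab : H a b = 0
  · obtain ⟨x, hx⟩ := exists_one hF ha0
    obtain ⟨x0, hx0, x1, hx1, rfl⟩ := hdec x
    rw [map_add, hU a ha x0 hx0, zero_add] at hx
    obtain ⟨d, hd0, hd⟩ := exists_anti hF
    have hax : H (d • x1) a = d := by rw [H_smul_left, show H x1 a = 1 from hx, mul_one]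
    have hxa : H a (d • x1) = -d := by rw [← H_conj hF, hax, hd]
    have hx1W := W.smul_mem d hx1
    have i1 : H (a + d • x1) (a + d • x1) = 0 := by
      simp only [H_add_left, H_add_right hF, hax, hxa, hts 0 a ha a ha, hts 1 _ hx1W _ hx1W]; ring
    have h1 := step a (d • x1) (hCU a ha) (hCW _ hx1W) (by rw [hxa]; exact neg_ne_zero.2 hd0) i1
    have h3 := step (a + d • x1) (b - d • x1) h1 (hCW _ (W.sub_mem hb hx1W)) (by
      rw [H_add_left, hts 1 _ hx1W _ (W.sub_mem hb hx1W), add_zero, H_sub_right hF, hab, hxa, zero_sub, neg_neg]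
      exact hd0) (by rw [show a + d • x1 + (b - d • x1) = a + b by abel]; exact hv)
    rwa [show a + d • x1 + (b - d • x1) = a + b by abel] at h3
  · exact step a b (hCU a ha) (hCW b hb) hab hv

/-- Let F be the field with q² elements and n = 2k ≥ 13. Let D be a decomposition of F^n into two complementary subspaces of dimension k on each of which the standard unitary form vanishes identically. Then the elements of SU_n(q) preserving or interchanging the two subspaces form a maximal subgroup of SU_n(q). -/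
theorem result {F : Type*} [Field F] [Fintype F] (n q : ℕ) (hF : Fintype.card F = q ^ 2) (hn : 13 ≤ n) (k : ℕ) (hk : 2 * k = n) (D : Fin 2 → Submodule F (Fin n → F)) (hD : Cfsg.Geo.IsMDecomposition k D) (hts : ∀ i, Cfsg.Geo.IsTotallySingularFor (Cfsg.hermForm n F q) (D i)) : Cfsg.Geo.IsMaximalIn (Cfsg.GU n F q ⊓ Cfsg.Geo.specialLinear (Fin n) F) (Cfsg.Geo.decompositionStabilizer D ⊓ (Cfsg.GU n F q ⊓ Cfsg.Geo.specialLinear (Fin n) F)) := by
  exact maximal hF (k := k) (by omega) hk.symm D hD hts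

end Cfsg.Agent.S5657
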