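import Cfsg.Statements.S5667
import Mathlib
import Cfsg.Agent.Lib.NonMax.TensorTools
import Cfsg.Agent.Lib.NonMax.TensorNotMax
import Cfsg.Agent.Lib.NonMax.TensorSpaces
import Cfsg.Agent.Lib.Symplectic.Basic

set_option autoImplicit false
open Cfsg

namespace Cfsg.Agent.S5667

open scoped Matrix
open CfsgLib.NonMax.TensorTools CfsgLib.NonMax.Tools

/-- Over the field with 3 elements and for m ≥ 7, suppose the standard alternating form on F^(2m) is similar, through P and e, to the tensor product of a non-degenerate symplectic form f₁ on F^(n₁) and a non-degenerate symmetric bilinear form f₂ on F^3. Then the elements of Sp_2m(3) in the stabiliser of this tensor decomposition form a subgroup that is not maximal: some subgroup lies strictly between it and Sp_2m(3). -/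
theorem result {F : Type*} [Field F] [Fintype F] (m : ℕ) (hm : 7 ≤ m) (hq : Fintype.card F = 3) (n₁ : ℕ) (e : (Fin m ⊕ Fin m) ≃ Fin n₁ × Fin 3) (P : Matrix.GeneralLinearGroup (Fin m ⊕ Fin m) F) (f₁ : (Fin n₁ → F) → (Fin n₁ → F) → F) (f₂ : (Fin 3 → F) → (Fin 3 → F) → F) (hf₁ : Cfsg.Geo.IsSymplecticForm f₁) (hf₂ : Cfsg.Geo.IsSymmetricForm f₂) (hT : Cfsg.Geo.IsTensorFormStructure id (Cfsg.sympForm m F) f₁ f₂ e P) : ∃ K : Subgroup (Matrix.GeneralLinearGroup (Fin m ⊕ Fin m) F), Cfsg.Geo.tensorProductSubgroup n₁ 3 e P ⊓ Cfsg.spGL m F < K ∧ K < Cfsg.spGL m F := by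
  obtain ⟨w, haniso, horth, hval, hfr⟩ := CfsgLib.NonMax.TensorSpaces.frame_three hq hf₂
  have hcard : (m + m) = n₁ * 3 := by simpa using Fintype.card_congr e
  have hb₁ := hf₁.bilinear
  have hb₂ := hf₂.bilinear
  obtain ⟨c, hc, hT'⟩ := form_tp (σ := id) (fun _ _ => rfl)
    (formOfGram_eq id f₁ hb₁.add_left hb₁.smul_left hb₁.add_right hb₁.smul_right)
    (formOfGram_eq id f₂ hb₂.add_left hb₂.smul_left hb₂.add_right hb₂.smul_right) hT
  have hB : ∀ u v, Cfsg.sympForm m F u v = CfsgLib.Symplectic.Basic.B u v := fun u v =>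
    (CfsgLib.Symplectic.Basic.B_eq u v).symm
  have hspan : Submodule.span F (Set.range fun p : (Fin 3 → F) × (Fin n₁ → F) => (tp e P).flip p.1 p.2) = ⊤ := by
    rw [← span_tp e P]
    congr 1
    ext v
    constructor <;> rintro ⟨⟨x, y⟩, rfl⟩ <;> exact ⟨⟨y, x⟩, rfl⟩
  have h : CfsgLib.NonMax.TensorFrame.Data (tp e P).flip (Cfsg.sympForm m F) f₂ f₁ w :=
    { hk := by norm_num
      hr := by omega
      card := by simp; omega
      span := hspan
      form := ⟨c, hc, fun x y x' y' => (hT' y x y' x').trans (by rw [mul_comm (f₁ y y')])⟩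
      f_add := fun u u' v => by simp only [hB, map_add, LinearMap.add_apply]
      f_smul := fun a u v => by simp only [hB, map_smul, LinearMap.smul_apply, smul_eq_mul]
      f₂_add := hb₁.add_left
      f₂_smul := hb₁.smul_left
      f₂_nondeg := hf₁.nondegenerate
      aniso := haniso
      orth := horth
      frame := hfr }
  have hne : (fun _ => 1 : Fin n₁ → F) ≠ 0 := fun e' => one_ne_zero (congrFun e' ⟨0, by omega⟩)
  refine CfsgLib.NonMax.TensorNotMax.not_maximal_transvection h (fun g hg => hg) (fun g hg => ?_)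
    (fun v x y => by simp only [hB, map_add]) hne (hf₁.alternating _) (fun v _ => ?_)
  · obtain ⟨a, b, hab⟩ := exists_factors e P hg
    exact ⟨b, a, fun x y => hab y x⟩
  · let N : (Fin m ⊕ Fin m → F) →ₗ[F] (Fin m ⊕ Fin m → F) := (CfsgLib.Symplectic.Basic.B.flip v).smulRight v
    have hN : ∀ x, N (N x) = 0 := fun x => by
      simp [N, CfsgLib.Symplectic.Basic.B_self]
    refine ⟨unip N hN, fun u u' => ?_, fun u => by rw [unip_apply, hB]; rfl⟩
    show Cfsg.sympForm m F ((unip N hN).1 *ᵥ u) ((unip N hN).1 *ᵥ u') = Cfsg.sympForm m F u u'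
    have hN0 : ∀ x, N x = CfsgLib.Symplectic.Basic.B x v • v := fun x => rfl
    rw [hB, hB, unip_apply, unip_apply, hN0, hN0]
    simp only [map_add, map_smul, LinearMap.add_apply, LinearMap.smul_apply, smul_eq_mul, CfsgLib.Symplectic.Basic.B_self]
    rw [CfsgLib.Symplectic.Basic.B_swap v u']; ring

end Cfsg.Agent.S5667
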