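import Cfsg.Statements.S5671
import Mathlib
import Cfsg.Agent.Lib.NonMax.TensorTools
import Cfsg.Agent.Lib.NonMax.TensorNotMax
import Cfsg.Agent.Lib.NonMax.TensorSpaces

set_option autoImplicit false
open Cfsg

namespace Cfsg.Agent.S5671

open scoped Matrix
open CfsgLib.NonMax.TensorTools CfsgLib.NonMax.Tools CfsgLib.NonMax.TensorSpaces

/-- Let F be the field with 4 elements (q = 2) and n = 2 n₂ ≥ 13. Suppose the standard unitary form Σ u_i v_i² on F^n is similar, through P and e, to the tensor product of non-degenerate unitary forms f₁ on F^2 and f₂ on F^(n₂). Then the elements of SU_n(2) in the stabiliser of this tensor decomposition form a subgroup that is not maximal: some subgroup lies strictly between it and SU_n(2). -/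
theorem result {F : Type*} [Field F] [Fintype F] (n : ℕ) (hF : Fintype.card F = 4) (hn : 13 ≤ n) (n₂ : ℕ) (e : Fin n ≃ Fin 2 × Fin n₂) (P : Matrix.GeneralLinearGroup (Fin n) F) (f₁ : (Fin 2 → F) → (Fin 2 → F) → F) (f₂ : (Fin n₂ → F) → (Fin n₂ → F) → F) (hf₁ : Cfsg.Geo.IsUnitaryFormPow 2 f₁) (hf₂ : Cfsg.Geo.IsUnitaryFormPow 2 f₂) (hT : Cfsg.Geo.IsTensorFormStructure (fun x : F => x ^ 2) (Cfsg.hermForm n F 2) f₁ f₂ e P) : ∃ K : Subgroup (Matrix.GeneralLinearGroup (Fin n) F), Cfsg.Geo.tensorProductSubgroup 2 n₂ e P ⊓ (Cfsg.GU n F 2 ⊓ Cfsg.Geo.specialLinear (Fin n) F) < K ∧ K < (Cfsg.GU n F 2 ⊓ Cfsg.Geo.specialLinear (Fin n) F) := by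
  obtain ⟨h2, hcube, -⟩ := four_facts hF
  obtain ⟨w, haniso, horth, hfr⟩ := frame_two hF hf₁
  obtain ⟨ha₁, hs₁⟩ := u_right hF hf₁
  obtain ⟨ha₂, hs₂⟩ := u_right hF hf₂
  have hcard : n = 2 * n₂ := by simpa using Fintype.card_congr e
  obtain ⟨c, hc, hT'⟩ := form_tp (σ := fun x : F => x ^ 2) (fun a b => mul_pow a b 2)
    (formOfGram_eq (fun x : F => x ^ 2) f₁ hf₁.add_left hf₁.smul_left ha₁ hs₁)
    (formOfGram_eq (fun x : F => x ^ 2) f₂ hf₂.add_left hf₂.smul_left ha₂ hs₂) hT
  have hadd : ∀ u u' v, Cfsg.hermForm n F 2 (u + u') v = Cfsg.hermForm n F 2 u v + Cfsg.hermForm n F 2 u' v :=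
    fun u u' v => by simp [Cfsg.hermForm, add_mul, Finset.sum_add_distrib]
  have hsmul : ∀ (a : F) u v, Cfsg.hermForm n F 2 (a • u) v = a * Cfsg.hermForm n F 2 u v :=
    fun a u v => by simp [Cfsg.hermForm, Finset.mul_sum, mul_assoc]
  have hadd' : ∀ v u u', Cfsg.hermForm n F 2 v (u + u') = Cfsg.hermForm n F 2 v u + Cfsg.hermForm n F 2 v u' :=
    fun v u u' => by
      simp only [Cfsg.hermForm, ← Finset.sum_add_distrib]
      exact Finset.sum_congr rfl fun i _ => by simp only [Pi.add_apply]; linear_combination (v i * u i * u' i) * h2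
  have hsmul' : ∀ (a : F) v u, Cfsg.hermForm n F 2 v (a • u) = a ^ 2 * Cfsg.hermForm n F 2 v u :=
    fun a v u => by
      simp only [Cfsg.hermForm, Finset.mul_sum]
      exact Finset.sum_congr rfl fun i _ => by simp only [Pi.smul_apply, smul_eq_mul]; ring
  have hherm : ∀ u v, Cfsg.hermForm n F 2 u v = Cfsg.hermForm n F 2 v u ^ 2 := fun u v => by
    haveI : CharP F 2 := CharTwo.of_one_ne_zero_of_two_eq_zero one_ne_zero h2
    simp only [Cfsg.hermForm, CharTwo.sum_sq]
    refine Finset.sum_congr rfl fun i _ => ?_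
    rcases eq_or_ne (u i) 0 with e' | e'
    · simp [e']
    · linear_combination -(u i * v i ^ 2) * hcube (u i) e'
  have h : CfsgLib.NonMax.TensorFrame.Data (tp e P) (Cfsg.hermForm n F 2) f₁ f₂ w :=
    { hk := le_rfl
      hr := by omega
      card := by simp; omega
      span := span_tp e P
      form := ⟨c, hc, hT'⟩
      f_add := hadd
      f_smul := hsmul
      f₂_add := hf₂.add_left
      f₂_smul := hf₂.smul_left
      f₂_nondeg := hf₂.nondegenerate
      aniso := haniso
      orth := horth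
      frame := hfr }
  obtain ⟨y, hy, hyy⟩ := u_isotropic hF (by omega) hf₂
  refine CfsgLib.NonMax.TensorNotMax.not_maximal_transvection h (fun g hg => hg.1) (fun g hg => exists_factors e P hg)
    hadd' hy hyy (fun v hv => ?_)
  let N : (Fin n → F) →ₗ[F] (Fin n → F) :=
    { toFun := fun u => Cfsg.hermForm n F 2 u v • v
      map_add' := fun u u' => by rw [hadd, add_smul]
      map_smul' := fun a u => by rw [hsmul, mul_smul]; rfl }
  have hN : ∀ x, N (N x) = 0 := fun x => by
    show Cfsg.hermForm n F 2 (Cfsg.hermForm n F 2 x v • v) v • v = 0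
    rw [hsmul, hv, mul_zero, zero_smul]
  refine ⟨unip N hN, ⟨fun u u' => ?_, unip_mem_specialLinear N hN⟩, fun u => by rw [unip_apply]; rfl⟩
  show Cfsg.hermForm n F 2 ((unip N hN).1 *ᵥ u) ((unip N hN).1 *ᵥ u') = Cfsg.hermForm n F 2 u u'
  rw [unip_apply, unip_apply]
  show Cfsg.hermForm n F 2 (u + Cfsg.hermForm n F 2 u v • v) (u' + Cfsg.hermForm n F 2 u' v • v) = _
  rw [hadd, hsmul, hadd', hadd', hsmul', hsmul', hv, hherm v u']
  linear_combination (Cfsg.hermForm n F 2 u v * Cfsg.hermForm n F 2 u' v ^ 2) * h2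

end Cfsg.Agent.S5671
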