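import Cfsg.Statements.S5674
import Cfsg.Agent.Lib.MaxSub.OrthStab
import Cfsg.Agent.Lib.Orth.Models

set_option autoImplicit false
open Cfsg

namespace Cfsg.Agent.S5674

/-- Let F be a finite field of odd order, m ≥ 6, Q the standard quadratic form x₀² + Σ x_i y_i on F^(2m+1) and Ω the commutator subgroup of its isometry group inside GL_(2m+1)(F). The elements of Ω stabilising a non-zero subspace on which Q vanishes form a maximal subgroup of Ω. -/
theorem result {F : Type*} [Field F] [Fintype F] (hodd : Odd (Fintype.card F)) (m : ℕ) (hm : 6 ≤ m) (W : Submodule F (Unit ⊕ (Fin m ⊕ Fin m) → F)) (hW0 : W ≠ ⊥) (hW : Cfsg.Geo.IsTotallySingularQuad (Cfsg.quadFormOdd m F) W) : Cfsg.Geo.IsMaximalIn (Cfsg.Geo.omegaGL (Cfsg.quadFormOdd m F)) (Cfsg.Geo.subspaceStabilizer W ⊓ Cfsg.Geo.omegaGL (Cfsg.quadFormOdd m F)) := by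
  have hfun : Cfsg.quadFormOdd m F = ⇑(CfsgLib.Orth.Models.oddQ F m) :=
    funext fun v => (CfsgLib.Orth.Models.oddQ_apply m v).symm
  have h2 : (2 : F) ≠ 0 := fun e => by
    haveI : CharP F 2 := CharTwo.of_one_ne_zero_of_two_eq_zero one_ne_zero e
    have h := FiniteField.even_card_iff_char_two.1 (ringChar.eq F 2)
    rw [Nat.odd_iff] at hodd
    omega
  have hnd : (QuadraticMap.polarBilin (CfsgLib.Orth.Models.oddQ F m)).Nondegenerate := by
    refine ⟨fun x hx => ?_, fun x hx => ?_⟩ <;> by_contra h0 <;>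
      obtain ⟨y, hy⟩ := CfsgLib.Orth.Models.nondeg_odd h2 m x h0
    · exact hy (hx y)
    · exact hy (by rw [QuadraticMap.polar_comm]; exact hx y)
  rw [hfun] at hW ⊢
  exact CfsgLib.MaxSub.OrthStab.singular_maximal hnd (by simp; omega) hW0 hW fun U _ _ he => by simp at he; omega

end Cfsg.Agent.S5674
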