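import Cfsg.Statements.S5675
import Cfsg.Agent.Lib.MaxSub.OrthSmall
import Cfsg.Agent.Lib.Orth.Models

set_option autoImplicit false
open Cfsg

namespace Cfsg.Agent.S5675

/-- Let F be a finite field of odd order q, m ≥ 6, Q the standard quadratic form on F^(2m+1) and Ω the commutator subgroup of its isometry group. Let W be a non-zero subspace of even dimension on which the polar form of Q is non-degenerate; exclude the case q = 3, dim W = 2 with Q vanishing on some line of W (a plus-type plane). Then the elements of Ω stabilising W (equivalently, stabilising its orthogonal complement, of odd dimension) form a maximal subgroup of Ω. -/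
theorem result {F : Type*} [Field F] [Fintype F] (hodd : Odd (Fintype.card F)) (m : ℕ) (hm : 6 ≤ m) (W : Submodule F (Unit ⊕ (Fin m ⊕ Fin m) → F)) (hW0 : W ≠ ⊥) (hev : Even (Module.finrank F W)) (hW : Cfsg.Geo.IsNondegenerateOn (QuadraticMap.polar (Cfsg.quadFormOdd m F)) W) (hex : ¬ (Fintype.card F = 3 ∧ Module.finrank F W = 2 ∧ Cfsg.Geo.IsPlusTypeOn (Cfsg.quadFormOdd m F) W)) : Cfsg.Geo.IsMaximalIn (Cfsg.Geo.omegaGL (Cfsg.quadFormOdd m F)) (Cfsg.Geo.subspaceStabilizer W ⊓ Cfsg.Geo.omegaGL (Cfsg.quadFormOdd m F)) := by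
  have hfun : Cfsg.quadFormOdd m F = ⇑(CfsgLib.Orth.Models.oddQ F m) :=
    funext fun v => (CfsgLib.Orth.Models.oddQ_apply m v).symm
  have h2 : (2 : F) ≠ 0 := fun e => by
    haveI : CharP F 2 := CharTwo.of_one_ne_zero_of_two_eq_zero one_ne_zero e
    have h := FiniteField.even_card_iff_char_two.1 (ringChar.eq F 2)
    rw [Nat.odd_iff] at hodd
    omega
  have hnd : (QuadraticMap.polarBilin (CfsgLib.Orth.Models.oddQ F m)).Nondegenerate := by
    refine ⟨fun x hx => ?_, fun x hx => ?_⟩ <;> by_contra h0 <;>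
      obtain ⟨y, hy⟩ := CfsgLib.Orth.Models.nondeg_odd h2 m x h0
    · exact hy (hx y)
    · exact hy (by rw [QuadraticMap.polar_comm]; exact hx y)
  have h3 : 2 ≤ Fintype.card F := Fintype.one_lt_card
  rw [hfun] at hW hex ⊢
  obtain ⟨Y, horth, hsup, hsum, hY⟩ := CfsgLib.MaxSub.OrthSmall.orth_compl hnd hW
  have hcard : Fintype.card (Unit ⊕ (Fin m ⊕ Fin m)) = 1 + (m + m) := by simp
  rw [hcard] at hsum
  obtain ⟨j, hj⟩ := hev
  refine CfsgLib.MaxSub.OrthSmall.nondeg_maximal hnd (by omega) horth hsup hW0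
    (fun h => by rw [h, sup_bot_eq] at hsup; rw [hsup, finrank_top, Module.finrank_fintype_fun_eq_card, hcard] at hj; omega)
    (by omega) (by omega)
    (fun ⟨hc, hd, y, hy, hy0, hQy⟩ => hex ⟨by rw [Nat.card_eq_fintype_card] at hc; rw [Nat.odd_iff] at hodd; omega, hd,
      CfsgLib.MaxSub.OrthSmall.plus_plane hd hy hy0 hQy⟩)
    (fun ⟨_, hd, _⟩ => by omega)

end Cfsg.Agent.S5675
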