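import Cfsg.Statements.S5676
import Mathlib
import Cfsg.Agent.Lib.NonMax.PlusPlane
import Cfsg.Agent.Lib.Orth.Models

set_option autoImplicit false
open Cfsg

namespace Cfsg.Agent.S5676

/-- Let F be the field with 3 elements, m ≥ 6, Q the standard quadratic form on F^(2m+1) and Ω the commutator subgroup of its isometry group. Let W be a 2-dimensional subspace on which the polar form is non-degenerate and which contains a line on which Q vanishes. Then the elements of Ω stabilising W form a subgroup that is not maximal: some subgroup lies strictly between it and Ω. -/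
theorem result {F : Type*} [Field F] [Fintype F] (hq : Fintype.card F = 3) (m : ℕ) (hm : 6 ≤ m) (W : Submodule F (Unit ⊕ (Fin m ⊕ Fin m) → F)) (hdim : Module.finrank F W = 2) (hW : Cfsg.Geo.IsNondegenerateOn (QuadraticMap.polar (Cfsg.quadFormOdd m F)) W) (hplus : Cfsg.Geo.IsPlusTypeOn (Cfsg.quadFormOdd m F) W) : ∃ K : Subgroup (Matrix.GeneralLinearGroup (Unit ⊕ (Fin m ⊕ Fin m)) F), Cfsg.Geo.subspaceStabilizer W ⊓ Cfsg.Geo.omegaGL (Cfsg.quadFormOdd m F) < K ∧ K < Cfsg.Geo.omegaGL (Cfsg.quadFormOdd m F) := by
  have h2 : (2 : F) ≠ 0 := fun e => by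
    have h0 := FiniteField.cast_card_eq_zero F
    rw [hq] at h0
    have h3 : (3 : F) = 0 := by simpa using h0
    exact one_ne_zero (α := F) (by linear_combination h3 - e)
  have hQ : Cfsg.Geo.IsNondegenerateQuadraticForm (Cfsg.quadFormOdd m F) := by
    have hfun : Cfsg.quadFormOdd m F = ⇑(CfsgLib.Orth.Models.oddQ F m) := funext fun v => (CfsgLib.Orth.Models.oddQ_apply m v).symm
    rw [hfun]
    set P := CfsgLib.Orth.Models.oddQ F m
    refine ⟨fun c v => by rw [QuadraticMap.map_smul, smul_eq_mul, pow_two],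
      ⟨fun x y v => P.polar_add_left x y v, fun c x v => P.polar_smul_left c x v, fun v x y => P.polar_add_right v x y,
        fun c v x => P.polar_smul_right c v x⟩, fun v hv => ?_⟩
    obtain ⟨y, hy⟩ := CfsgLib.Orth.Models.nondeg_odd h2 m v hv
    exact ⟨⟨y, by rw [QuadraticMap.polar_comm]; exact hy⟩, y, hy⟩
  exact CfsgLib.NonMax.PlusPlane.not_maximal hQ (by omega) (by simp; omega) W hdim hW hplus

end Cfsg.Agent.S5676
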