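import Cfsg.Statements.S5678
import Mathlib
import Cfsg.Agent.Lib.NonMax.FrameExists
import Cfsg.Agent.Lib.Orth.Models

set_option autoImplicit false
open Cfsg

namespace Cfsg.Agent.S5678

/-- Let F be the field with 3 elements, m ≥ 6, Q the standard quadratic form on F^(2m+1) and Ω the commutator subgroup of its isometry group. Let D be a decomposition of F^(2m+1) into t pairwise orthogonal, pairwise Q-isometric 3-dimensional subspaces on which the polar form is non-degenerate. Then the elements of Ω permuting the members of D form a subgroup that is not maximal: some subgroup lies strictly between it and Ω. -/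
theorem result {F : Type*} [Field F] [Fintype F] (hq : Fintype.card F = 3) (m : ℕ) (hm : 6 ≤ m) {t : ℕ} (D : Fin t → Submodule F (Unit ⊕ (Fin m ⊕ Fin m) → F)) (hD : Cfsg.Geo.IsOrthogonalMDecomposition (Cfsg.quadFormOdd m F) 3 D) : ∃ K : Subgroup (Matrix.GeneralLinearGroup (Unit ⊕ (Fin m ⊕ Fin m)) F), Cfsg.Geo.decompositionStabilizer D ⊓ Cfsg.Geo.omegaGL (Cfsg.quadFormOdd m F) < K ∧ K < Cfsg.Geo.omegaGL (Cfsg.quadFormOdd m F) := by
  obtain ⟨h3, h2, -⟩ := CfsgLib.NonMax.FrameExists.three_facts hq
  have hQ : Cfsg.Geo.IsNondegenerateQuadraticForm (Cfsg.quadFormOdd m F) := by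
    have hfun : Cfsg.quadFormOdd m F = ⇑(CfsgLib.Orth.Models.oddQ F m) := funext fun v => (CfsgLib.Orth.Models.oddQ_apply m v).symm
    rw [hfun]
    set P := CfsgLib.Orth.Models.oddQ F m
    refine ⟨fun c v => by rw [QuadraticMap.map_smul, smul_eq_mul, pow_two],
      ⟨fun x y v => P.polar_add_left x y v, fun c x v => P.polar_smul_left c x v, fun v x y => P.polar_add_right v x y,
        fun c v x => P.polar_smul_right c v x⟩, fun v hv => ?_⟩
    obtain ⟨y, hy⟩ := CfsgLib.Orth.Models.nondeg_odd h2 m v hv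
    exact ⟨⟨y, by rw [QuadraticMap.polar_comm]; exact hy⟩, y, hy⟩
  have hc := CfsgLib.NonMax.Tools.card_eq hD.decomp.decomp
  simp only [Fintype.card_sum, Fintype.card_unit, Fintype.card_fin] at hc
  have ht : 5 ≤ t := by omega
  obtain ⟨c, hc0, hfr⟩ := CfsgLib.NonMax.FrameExists.frame_three_three hq hQ (hD.decomp.nondegenerate ⟨0, by omega⟩)
    (hD.decomp.decomp.finrank_eq _)
  exact CfsgLib.NonMax.Frame.not_maximal hQ h2 hD (by norm_num) ht hc0 hfr

end Cfsg.Agent.S5678
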