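import Cfsg.Statements.S5682
import Mathlib
import Cfsg.Agent.Lib.NonMax.TensorTools
import Cfsg.Agent.Lib.NonMax.TensorNotMax
import Cfsg.Agent.Lib.NonMax.TensorSpaces
import Cfsg.Agent.Lib.Orth.Models

set_option autoImplicit false
open Cfsg

namespace Cfsg.Agent.S5682

open scoped Matrix
open CfsgLib.NonMax.TensorTools CfsgLib.NonMax.Tools CfsgLib.NonMax.TensorSpaces

/-- Let F be the field with 3 elements, m ≥ 6, Q the standard quadratic form on F^(2m+1) and Ω the commutator subgroup of its isometry group. Suppose the polar form of Q is similar, through P and e, to the tensor product of non-degenerate symmetric bilinear forms f₁ on F^3 and f₂ on F^(n₂) with 3 < n₂. Then the elements of Ω in the stabiliser of this tensor decomposition form a subgroup that is not maximal: some subgroup lies strictly between it and Ω. -/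
theorem result {F : Type*} [Field F] [Fintype F] (hq : Fintype.card F = 3) (m : ℕ) (hm : 6 ≤ m) (n₂ : ℕ) (h2 : 3 < n₂) (e : (Unit ⊕ (Fin m ⊕ Fin m)) ≃ Fin 3 × Fin n₂) (P : Matrix.GeneralLinearGroup (Unit ⊕ (Fin m ⊕ Fin m)) F) (f₁ : (Fin 3 → F) → (Fin 3 → F) → F) (f₂ : (Fin n₂ → F) → (Fin n₂ → F) → F) (hf₁ : Cfsg.Geo.IsSymmetricForm f₁) (hf₂ : Cfsg.Geo.IsSymmetricForm f₂) (hT : Cfsg.Geo.IsTensorFormStructure id (QuadraticMap.polar (Cfsg.quadFormOdd m F)) f₁ f₂ e P) : ∃ K : Subgroup (Matrix.GeneralLinearGroup (Unit ⊕ (Fin m ⊕ Fin m)) F), Cfsg.Geo.tensorProductSubgroup 3 n₂ e P ⊓ Cfsg.Geo.omegaGL (Cfsg.quadFormOdd m F) < K ∧ K < Cfsg.Geo.omegaGL (Cfsg.quadFormOdd m F) := by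
  obtain ⟨h3, h2F, hel⟩ := three_facts hq
  have hQ : Cfsg.Geo.IsNondegenerateQuadraticForm (Cfsg.quadFormOdd m F) := by
    have hfun : Cfsg.quadFormOdd m F = ⇑(CfsgLib.Orth.Models.oddQ F m) := funext fun v => (CfsgLib.Orth.Models.oddQ_apply m v).symm
    rw [hfun]
    set P := CfsgLib.Orth.Models.oddQ F m
    refine ⟨fun c v => by rw [QuadraticMap.map_smul, smul_eq_mul, pow_two],
      ⟨fun x y v => P.polar_add_left x y v, fun c x v => P.polar_smul_left c x v, fun v x y => P.polar_add_right v x y,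
        fun c v x => P.polar_smul_right c v x⟩, fun v hv => ?_⟩
    obtain ⟨y, hy⟩ := CfsgLib.Orth.Models.nondeg_odd h2F m v hv
    exact ⟨⟨y, by rw [QuadraticMap.polar_comm]; exact hy⟩, y, hy⟩
  obtain ⟨w, haniso, horth, hval, hfr⟩ := frame_three hq hf₁
  have hb₁ := hf₁.bilinear
  have hb₂ := hf₂.bilinear
  obtain ⟨c, hc, hT'⟩ := form_tp (σ := id) (fun _ _ => rfl)
    (formOfGram_eq id f₁ hb₁.add_left hb₁.smul_left hb₁.add_right hb₁.smul_right)
    (formOfGram_eq id f₂ hb₂.add_left hb₂.smul_left hb₂.add_right hb₂.smul_right) hT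
  have h : CfsgLib.NonMax.TensorFrame.Data (tp e P) (QuadraticMap.polar (Cfsg.quadFormOdd m F)) f₁ f₂ w :=
    { hk := by norm_num
      hr := by omega
      card := by have := Fintype.card_congr e; simpa using this
      span := span_tp e P
      form := ⟨c, hc, hT'⟩
      f_add := hQ.polar_bilinear.add_left
      f_smul := hQ.polar_bilinear.smul_left
      f₂_add := hb₂.add_left
      f₂_smul := hb₂.smul_left
      f₂_nondeg := hf₂.nondegenerate
      aniso := haniso
      orth := horth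
      frame := hfr }
  obtain ⟨y, y', z, hy, hy', hz, hyy', hyz, hy'z⟩ := triple hq (by omega) hf₂
  refine CfsgLib.NonMax.TensorNotMax.not_maximal_reflection hQ h2F h (fun g hg => exists_factors e P hg) hf₂.symm
    (fun s t => Or.inl (hval s t)) hy hy' (fun e' => hz (by rw [e']; exact CfsgLib.NonMax.TensorFrame.f₂_zero h 0)) hyy'
    hyz hy'z

end Cfsg.Agent.S5682
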