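import Cfsg.Statements.S5686
import Mathlib
import Cfsg.Agent.Lib.NonMax.SingularFamilies

set_option autoImplicit false
open Cfsg

namespace Cfsg.Agent.S5686

open scoped Matrix
open CfsgLib.NonMax.SingularFamilies CfsgLib.NonMax.Tools

/-- Let F be a finite field with q elements, n ≥ 13 even, Q a non-degenerate quadratic form on F^n of plus type (some subspace of dimension n/2 is totally singular), and Ω the commutator subgroup of the isometry group of Q, viewed inside GL_n(F). The elements of Ω stabilising a subspace of dimension n/2 − 1 on which Q vanishes form a subgroup that is not maximal: some subgroup lies strictly between it and Ω. -/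
theorem result {F : Type*} [Field F] [Fintype F] {n : ℕ} (hn : 13 ≤ n) (heven : Even n) (Q : (Fin n → F) → F) (hQ : Cfsg.Geo.IsNondegenerateQuadraticForm Q) (hplus : Cfsg.Geo.IsPlusTypeOn Q ⊤) (W : Submodule F (Fin n → F)) (hW : Cfsg.Geo.IsTotallySingularQuad Q W) (hdim : 2 * (Module.finrank F W + 1) = n) : ∃ K : Subgroup (Matrix.GeneralLinearGroup (Fin n) F), Cfsg.Geo.subspaceStabilizer W ⊓ Cfsg.Geo.omegaGL Q < K ∧ K < Cfsg.Geo.omegaGL Q := by
  set m := Module.finrank F W + 1 with hm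
  have hcard : Fintype.card (Fin n) = 2 * m := by rw [Fintype.card_fin, hdim]
  obtain ⟨U, -, hU, hUd⟩ := hplus
  rw [finrank_top, Module.finrank_fintype_fun_eq_card] at hUd
  obtain ⟨W₁, hW₁, hWW₁⟩ := exists_above hQ hcard hW hm.symm (U := U) ⟨by omega, hU⟩
  obtain ⟨W₂, hW₂, hWW₂, hne, -, huniq⟩ := other hQ hcard hW hm.symm hW₁ hWW₁
  obtain ⟨u, hu, huW⟩ : ∃ u ∈ W₁, u ∉ W := by
    by_contra hno
    push Not at hno
    have h1 := Submodule.finrank_mono (show W₁ ≤ W from hno)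
    have := hW₁.1
    omega
  obtain ⟨u', hu', hu'W⟩ : ∃ u ∈ W₂, u ∉ W₁ := by
    by_contra hno
    push Not at hno
    exact hne (Submodule.eq_of_le_of_finrank_eq (show W₂ ≤ W₁ from hno) (hW₂.1.trans hW₁.1.symm))
  have hWd : 2 ≤ Module.finrank F W := by omega
  obtain ⟨h, hh, x, hx, hli⟩ := exists_triple (U := W₁) (by rw [hW₁.1]; omega) huW hWd
  obtain ⟨⟨g, hg, hgW₁, hgh⟩, -⟩ := exists_moving hQ hcard hW₁ hu (hWW₁ hh) (hWW₁ hx) hli
  obtain ⟨h', hh', x', hx', hli'⟩ := exists_triple (U := W₂) (by rw [hW₂.1]; omega) (fun e' => hu'W (hWW₁ e')) hWd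
  obtain ⟨⟨g', hg', -, hgh'⟩, -⟩ := exists_moving hQ hcard hW₂ hu' (hWW₂ hh') (hWW₂ hx') hli'
  refine ⟨Cfsg.Geo.subspaceStabilizer W₁ ⊓ Cfsg.Geo.omegaGL Q, lt_and_lt (fun a ha => ⟨mem_stabilizing ?_, ha.2⟩)
    inf_le_right (x := g) ⟨mem_stabilizing hgW₁, hg⟩ (fun hc => ?_) (y := g') hg' (fun hc => ?_)⟩
  · intro v hv
    have hpres := fun z => CfsgLib.NonMax.OmegaTools.omega_preserves ha.2 z
    have hts := ts_map (Q := Q) hpres hW₁
    have hle : W ≤ W₁.map (Matrix.toLin' a.1) := fun z hz => by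
      refine ⟨(a⁻¹ : GL (Fin n) F).1 *ᵥ z, hWW₁ ((ha.1 _).2 ?_), ?_⟩
      · show a.1 *ᵥ ((a⁻¹ : GL (Fin n) F).1 *ᵥ z) ∈ W
        rw [Matrix.mulVec_mulVec, ← Units.val_mul, mul_inv_cancel, Units.val_one, Matrix.one_mulVec]
        exact hz
      · rw [Matrix.toLin'_apply, Matrix.mulVec_mulVec, ← Units.val_mul, mul_inv_cancel, Units.val_one, Matrix.one_mulVec]
    rcases huniq _ hts hle with e | e
    · show a.1 *ᵥ v ∈ W₁
      rw [← e]
      exact ⟨v, hv, Matrix.toLin'_apply _ _⟩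
    · exfalso
      have hpar := omega_parity hQ hcard hW₁ ha.2
      rw [e] at hpar
      have h1 := Submodule.finrank_mono (le_inf hWW₁ hWW₂ : W ≤ W₁ ⊓ W₂)
      have h3 : Module.finrank F ↥(W₁ ⊓ W₂) ≠ m := fun e' => hne (by
        rw [← Submodule.eq_of_le_of_finrank_eq (inf_le_left : W₁ ⊓ W₂ ≤ W₁) (e'.trans hW₁.1.symm),
          Submodule.eq_of_le_of_finrank_eq (inf_le_right : W₁ ⊓ W₂ ≤ W₂) (e'.trans hW₂.1.symm)])
      have h4 := Submodule.finrank_mono (inf_le_left : W₁ ⊓ W₂ ≤ W₁)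
      have := hW₁.1
      rw [Nat.even_iff] at hpar
      omega
  · have h1 : g.1 *ᵥ h ∈ W := (hc.1 h).1 hh
    rw [hgh, Submodule.add_mem_iff_right _ hh] at h1
    exact huW h1
  · have h1 : g'.1 *ᵥ h' ∈ W₁ := (hc.1 h').1 (hWW₁ hh')
    rw [hgh', Submodule.add_mem_iff_right _ (hWW₁ hh')] at h1
    exact hu'W h1

end Cfsg.Agent.S5686
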