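import Cfsg.Statements.S5689
import Cfsg.Agent.Lib.MaxSub.OrthHalf
import Cfsg.Agent.Lib.NonMax.OmegaTools

set_option autoImplicit false
open Cfsg

namespace Cfsg.Agent.S5689

/-- Let F be a finite field with q elements, n ≥ 13 even, Q a non-degenerate quadratic form on F^n of minus type (no subspace of dimension n/2 is totally singular), and Ω the commutator subgroup of the isometry group of Q, viewed inside GL_n(F). Let W be a non-zero proper subspace on which the polar form of Q is non-degenerate, not of odd dimension n/2. Exclude the case q ≤ 3 in which W, or its orthogonal complement, is a plane containing a line on which Q vanishes. Then the elements of Ω stabilising W form a maximal subgroup of Ω. -/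
theorem result {F : Type*} [Field F] [Fintype F] {n : ℕ} (hn : 13 ≤ n) (heven : Even n) (Q : (Fin n → F) → F) (hQ : Cfsg.Geo.IsNondegenerateQuadraticForm Q) (hminus : ¬ Cfsg.Geo.IsPlusTypeOn Q ⊤) (W : Submodule F (Fin n → F)) (hW0 : W ≠ ⊥) (hW1 : W ≠ ⊤) (hdim : ¬ (2 * Module.finrank F W = n ∧ Odd (Module.finrank F W))) (hW : Cfsg.Geo.IsNondegenerateOn (QuadraticMap.polar Q) W) (hex : ¬ (Fintype.card F ≤ 3 ∧ (∃ U : Submodule F (Fin n → F), Module.finrank F U = 2 ∧ Cfsg.Geo.IsNondegenerateOn (QuadraticMap.polar Q) U ∧ Cfsg.Geo.IsPlusTypeOn Q U ∧ (U = W ∨ (Cfsg.Geo.AreOrthogonalFor (QuadraticMap.polar Q) U W ∧ Module.finrank F U + Module.finrank F W = n))))) : Cfsg.Geo.IsMaximalIn (Cfsg.Geo.omegaGL Q) (Cfsg.Geo.subspaceStabilizer W ⊓ Cfsg.Geo.omegaGL Q) := by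
  obtain ⟨P, rfl⟩ : ∃ P : QuadraticForm F (Fin n → F), Q = ⇑P := ⟨_, (CfsgLib.NonMax.OmegaTools.coe_toQ hQ).symm⟩
  have hP : (QuadraticMap.polarBilin P).Nondegenerate := CfsgLib.NonMax.OmegaTools.nondegenerate hQ
  obtain ⟨Y, horth, hsup, hsum, hY⟩ := CfsgLib.MaxSub.OrthSmall.orth_compl hP hW
  rw [Fintype.card_fin] at hsum
  by_cases hh : 2 * Module.finrank F W = n
  · obtain ⟨j, hj⟩ := Nat.not_odd_iff_even.1 fun ho => hdim ⟨hh, ho⟩
    refine CfsgLib.MaxSub.OrthHalf.half_maximal hP (by rw [Fintype.card_fin]; omega) horth hsup (j := j) (by omega) (by omega)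
      (by omega) fun Z hZ hZd => hminus ⟨Z, le_top, hZ, ?_⟩
    rw [hZd, finrank_top, Module.finrank_fintype_fun_eq_card, Fintype.card_fin]; omega
  refine CfsgLib.MaxSub.OrthSmall.nondeg_maximal hP (by rw [Fintype.card_fin]; omega) horth hsup hW0
    (fun h => hW1 (by rw [h, sup_bot_eq] at hsup; exact hsup)) (by omega) (by rw [Fintype.card_fin]; omega)
    (fun ⟨hc, hd, y, hy, hy0, hQy⟩ => hex ⟨by rwa [← Nat.card_eq_fintype_card], W, hd, hW,
      CfsgLib.MaxSub.OrthSmall.plus_plane hd hy hy0 hQy, Or.inl rfl⟩)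
    (fun ⟨hc, hd, y, hy, hy0, hQy⟩ => hex ⟨by rwa [← Nat.card_eq_fintype_card], Y, hd, hY,
      CfsgLib.MaxSub.OrthSmall.plus_plane hd hy hy0 hQy, Or.inr ⟨fun a ha b hb => by
        rw [QuadraticMap.polar_comm]; exact horth b hb a ha, by omega⟩⟩)

end Cfsg.Agent.S5689
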