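import Cfsg.Statements.S5693
import Mathlib
import Cfsg.Agent.Lib.NonMax.FrameExists
import Cfsg.Agent.Lib.NonMax.PlaneLattice
import Cfsg.Agent.Lib.NonMax.MinusPairs

set_option autoImplicit false
open Cfsg

namespace Cfsg.Agent.S5693

/-- Let F be a finite field with q elements, n ≥ 13 even, Q a non-degenerate quadratic form on F^n of plus type (some subspace of dimension n/2 is totally singular), and Ω the commutator subgroup of the isometry group of Q, viewed inside GL_n(F). Let D be a decomposition of F^n into t ≥ 2 pairwise orthogonal, pairwise Q-isometric subspaces of equal dimension k on which the polar form is non-degenerate (with, for even k, all members of plus type or t even; for odd k, q odd and square discriminant), in one of the cases: k = 2 with q = 3; k = 2 with plus-type members and q ∈ {2, 4, 5}; k = 3 with q = 3; k = 4 with plus-type members and q = 2. Then the elements of Ω permuting the members of D form a subgroup that is not maximal: some subgroup lies strictly between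 it and Ω. -/
theorem result {F : Type*} [Field F] [Fintype F] {n : ℕ} (hn : 13 ≤ n) (heven : Even n) (Q : (Fin n → F) → F) (hQ : Cfsg.Geo.IsNondegenerateQuadraticForm Q) (hplus : Cfsg.Geo.IsPlusTypeOn Q ⊤) {t : ℕ} (k : ℕ) (D : Fin t → Submodule F (Fin n → F)) (hD : Cfsg.Geo.IsOrthogonalMDecomposition Q k D) (hke : Even k → ((∀ i, Cfsg.Geo.IsPlusTypeOn Q (D i)) ∨ Even t)) (hko : Odd k → (Odd (Fintype.card F) ∧ Cfsg.Geo.HasSquareDiscriminant Q)) (hcase : ((k = 2 ∧ (Fintype.card F = 3 ∨ ((∀ i, Cfsg.Geo.IsPlusTypeOn Q (D i)) ∧ (Fintype.card F = 2 ∨ Fintype.card F = 4 ∨ Fintype.card F = 5)))) ∨ (k = 3 ∧ Fintype.card F = 3) ∨ (k = 4 ∧ Fintype.card F = 2 ∧ ∀ i, Cfsg.Geo.IsPlusTypeOn Q (D i)))) : ∃ K : Subgroup (Matrix.GeneralLinearGroup (Fin n) F), Cfsg.Geo.decompositionStabilizer D ⊓ Cfsg.Geo.omegaGL Q < K ∧ K < Cfsg.Geo.omegaGL Q := by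
  have hc := CfsgLib.NonMax.Tools.card_eq hD.decomp.decomp
  rw [Fintype.card_fin] at hc
  rcases hcase with ⟨rfl, hq3 | ⟨hp, hq245⟩⟩ | ⟨rfl, hq3⟩ | ⟨rfl, hq2, hp⟩
  · obtain ⟨-, h2, -⟩ := CfsgLib.NonMax.FrameExists.three_facts hq3
    obtain ⟨c, hc0, hfr⟩ := CfsgLib.NonMax.FrameExists.frame_three_two hq3 hQ (hD.decomp.nondegenerate ⟨0, by omega⟩)
      (hD.decomp.decomp.finrank_eq _)
    exact CfsgLib.NonMax.Frame.not_maximal hQ h2 hD le_rfl (by omega) hc0 hfr
  · have h0 := FiniteField.cast_card_eq_zero F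
    rcases hq245 with hq | hq | hq <;> rw [hq] at h0
    · refine CfsgLib.NonMax.PlaneLattice.not_maximal hQ (by simpa using h0) (fun x hx => ?_) hD hp (by omega)
      have := FiniteField.pow_card_sub_one_eq_one x hx
      rw [hq] at this
      rw [show x = 1 by simpa using this, one_pow]
    · have h2 : (2 : F) = 0 := mul_self_eq_zero.1 (show (2 : F) * 2 = 0 by norm_num at h0 ⊢; exact h0)
      refine CfsgLib.NonMax.PlaneLattice.not_maximal hQ h2 (fun x hx => ?_) hD hp (by omega)
      have := FiniteField.pow_card_sub_one_eq_one x hx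
      rw [hq] at this
      exact this
    · have h5 : (5 : F) = 0 := by simpa using h0
      have h2 : (2 : F) ≠ 0 := fun e => one_ne_zero (α := F) (by linear_combination h5 - 2 * e)
      obtain ⟨c, hc0, hfr⟩ := CfsgLib.NonMax.FrameExists.frame_five_plus hq hQ (hD.decomp.nondegenerate ⟨0, by omega⟩)
        (hD.decomp.decomp.finrank_eq _) (hp _)
      exact CfsgLib.NonMax.Frame.not_maximal hQ h2 hD le_rfl (by omega) hc0 hfr
  · obtain ⟨-, h2, -⟩ := CfsgLib.NonMax.FrameExists.three_facts hq3
    obtain ⟨c, hc0, hfr⟩ := CfsgLib.NonMax.FrameExists.frame_three_three hq3 hQ (hD.decomp.nondegenerate ⟨0, by omega⟩)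
      (hD.decomp.decomp.finrank_eq _)
    exact CfsgLib.NonMax.Frame.not_maximal hQ h2 hD (by norm_num) (by omega) hc0 hfr
  · exact CfsgLib.NonMax.MinusPairs.not_maximal hq2 hQ hD hp (by omega)

end Cfsg.Agent.S5693
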