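import Cfsg.Statements.S5697
import Cfsg.Agent.Lib.MaxSub.OrthStab
import Cfsg.Agent.Lib.NonMax.OmegaTools
-- import your own Cfsg.Agent.* helpers here

set_option autoImplicit false
open Cfsg

namespace Cfsg.Agent.S5697

open scoped Matrix
open CfsgLib.Geometry CfsgLib.Geometry.QuadBasic CfsgLib.Orth.Siegel CfsgLib.MaxSub.OrthStab

section
variable {F : Type*} [Field F] [Finite F] {ι : Type} [Fintype ι] [DecidableEq ι] {Q : QuadraticForm F (ι → F)}

omit [Finite F] in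
theorem orth_orth' (hQ : (QuadraticMap.polarBilin Q).Nondegenerate) {S : Submodule F (ι → F)} {z : ι → F}
    (h : ∀ x, (∀ s ∈ S, B Q s x = 0) → B Q z x = 0) : z ∈ S := by
  have hrefl : (B Q).IsRefl := fun a b hab => by rw [B_comm]; exact hab
  rw [← LinearMap.BilinForm.orthogonal_orthogonal hQ hrefl S]
  intro x hx
  show B Q x z = 0
  rw [B_comm]; exact h x fun s hs => hx s hs

omit [Finite F] in
theorem exists_dual' (hQ : (QuadraticMap.polarBilin Q).Nondegenerate) (f : (ι → F) →ₗ[F] F) :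
    ∃ y, ∀ x, B Q x y = f x :=
  ⟨(LinearMap.BilinForm.toDual (B Q) hQ).symm f, fun x => by
    rw [B_comm]; exact LinearMap.BilinForm.apply_toDual_symm_apply (hB := hQ) f x⟩

omit [Finite F] in
theorem exists_one (hQ : (QuadraticMap.polarBilin Q).Nondegenerate) {u : ι → F} (hu : u ≠ 0) : ∃ x, B Q u x = 1 := by
  obtain ⟨x, hx⟩ : ∃ x, B Q u x ≠ 0 := by
    by_contra h
    simp only [not_exists, not_not] at h
    exact hu (hQ.1 u h)
  exact ⟨(B Q u x)⁻¹ • x, by rw [map_smul, smul_eq_mul, inv_mul_cancel₀ hx]⟩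

theorem side {U W : Submodule F (ι → F)} (hQ : (QuadraticMap.polarBilin Q).Nondegenerate) {m : ℕ} (hm : 7 ≤ m) (hUd : Module.finrank F U = m) (hWd : Module.finrank F W = m)
    (hQW : ∀ a ∈ W, Q a = 0)
    (hU : ∀ a ∈ U, ∀ b ∈ U, B Q a b = 0) (hW : ∀ a ∈ W, ∀ b ∈ W, B Q a b = 0) (hsup : U ⊔ W = ⊤)
    (N : Subgroup (Cfsg.isometryGroup F ⇑Q))
    (hR : ∀ u x (hu : Q u = 0) (hx : B Q u x = 0), (u ∈ U ∧ x ∈ W) ∨ (u ∈ W ∧ x ∈ U) → S u x hu hx ∈ N) (hQU : ∀ a ∈ U, Q a = 0) {g : Cfsg.isometryGroup F ⇑Q} (hg : g ∈ N)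
    (hgU : ¬ ∀ a ∈ U, g.1.1 *ᵥ a ∈ U) (hgW : ¬ ∀ a ∈ W, g.1.1 *ᵥ a ∈ U) : ∀ a ∈ W, ∀ b ∈ W, ∀ (ha : Q a = 0) (hab : B Q a b = 0), S a b ha hab ∈ N := by
  classical
  have hsep : ∀ {S : Submodule F (ι → F)}, S ≤ W → ∀ {z}, z ∈ W → z ∉ S → ∃ u ∈ U, (∀ s ∈ S, B Q s u = 0) ∧ B Q z u ≠ 0 := by
    intro S hS z hzW hz
    by_contra hc
    simp only [not_exists, not_and, not_not] at hc
    refine hz (orth_orth' hQ fun a ha => ?_)
    obtain ⟨u, hu, w, hw, rfl⟩ := Submodule.mem_sup.1 (show a ∈ U ⊔ W by rw [hsup]; trivial)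
    rw [map_add, hW z hzW w hw, add_zero]
    refine hc u hu fun s hs => ?_
    have := ha s hs
    rwa [map_add, hW s (hS hs) w hw, add_zero] at this
  have hdec : ∀ y, ∃ a ∈ U, ∃ b ∈ W, y = a + b := fun y => by
    obtain ⟨a, ha, b, hb, h⟩ := Submodule.mem_sup.1 (show y ∈ U ⊔ W by rw [hsup]; trivial)
    exact ⟨a, ha, b, hb, h.symm⟩
  have hint : ∀ y ∈ U, y ∈ W → y = 0 := fun y hy hy' => by
    by_contra h0
    obtain ⟨x, hx⟩ := exists_one hQ h0
    obtain ⟨a, ha, b, hb, rfl⟩ := hdec x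
    rw [map_add, hU y hy a ha, hW y hy' b hb, add_zero] at hx
    exact zero_ne_one hx
  -- projection to W
  obtain ⟨π, hπU, hπW⟩ : ∃ π : (ι → F) →ₗ[F] (ι → F), (∀ a ∈ U, π a = 0) ∧ ∀ b ∈ W, π b = b := by
    have hc : IsCompl W U := ⟨Submodule.disjoint_def.2 fun y h h' => hint y h' h, codisjoint_iff.2 (by rw [sup_comm]; exact hsup)⟩
    exact ⟨W.subtype.comp (Submodule.projectionOnto W U hc),
      fun a ha => by rw [LinearMap.comp_apply, (Submodule.projectionOnto_apply_eq_zero_iff hc).2 ha, map_zero],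
      fun b hb => by rw [LinearMap.comp_apply, Submodule.projectionOnto_apply_left hc ⟨b, hb⟩]; rfl⟩
  have hπmem : ∀ y, π y ∈ W ∧ y - π y ∈ U := fun y => by
    obtain ⟨a, ha, b, hb, rfl⟩ := hdec y
    rw [map_add, hπU a ha, hπW b hb, zero_add, add_sub_cancel_right]
    exact ⟨hb, ha⟩
  let G : (ι → F) →ₗ[F] (ι → F) := π.comp (Matrix.mulVecLin g.1.1)
  -- an orthogonal pair with independent projections
  obtain ⟨u, huU, w, hwW, huw, hind⟩ : ∃ u ∈ U, ∃ w ∈ W, B Q u w = 0 ∧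
      ∀ a b : F, a • G u + b • G w = 0 → a = 0 ∧ b = 0 := by
    by_contra hc
    simp only [not_exists, not_and] at hc
    have hsp : ∀ u ∈ U, G u ≠ 0 → ∀ w ∈ W, B Q u w = 0 → G w ∈ Submodule.span F {G u} := by
      intro u hu hGu w hw huw
      have hnn := hc u hu w hw huw
      simp only [not_forall] at hnn
      obtain ⟨a, b, hab, hne⟩ := hnn
      by_cases hb : b = 0
      · rw [hb, zero_smul, add_zero, smul_eq_zero] at hab
        exact absurd (hab.resolve_right hGu) (fun ha => hne ⟨ha, hb⟩)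
      · refine Submodule.mem_span_singleton.2 ⟨-(b⁻¹ * a), ?_⟩
        rw [neg_smul, mul_smul, ← smul_neg, ← eq_neg_of_add_eq_zero_right hab, inv_smul_smul₀ hb]
    obtain ⟨u₁, hu₁, hG₁⟩ : ∃ u ∈ U, G u ≠ 0 := by
      by_contra h
      simp only [not_exists, not_and, not_not] at h
      exact hgU fun a ha => by
        have := (hπmem (g.1.1 *ᵥ a)).2
        rwa [show π (g.1.1 *ᵥ a) = 0 from h a ha, sub_zero] at this
    have hperp : ∀ u ∈ U, u ≠ 0 → ∀ z ∈ W, ∃ y ∈ W, ∀ v ∈ W, B Q u z ≠ 0 → B Q u (v - (B Q u v / B Q u z) • z) = 0 :=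
      fun u _ _ z hz => ⟨z, hz, fun v _ hne => by rw [map_sub, map_smul, smul_eq_mul, div_mul_cancel₀ _ hne, sub_self]⟩
    -- the range of G on W is small
    obtain ⟨z₁, hz₁W, hz₁⟩ : ∃ z ∈ W, B Q u₁ z ≠ 0 := by
      obtain ⟨x, hx⟩ := exists_one hQ (show u₁ ≠ 0 from fun e => hG₁ (by rw [e, map_zero]))
      obtain ⟨a, ha, b, hb, rfl⟩ := hdec x
      rw [map_add, hU u₁ hu₁ a ha, zero_add] at hx
      exact ⟨b, hb, by rw [hx]; exact one_ne_zero⟩
    have hW2 : ∀ v ∈ W, G v ∈ Submodule.span F {G u₁} ⊔ Submodule.span F {G z₁} := fun v hv => by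
      have h1 := hsp u₁ hu₁ hG₁ (v - (B Q u₁ v / B Q u₁ z₁) • z₁) (W.sub_mem hv (W.smul_mem _ hz₁W))
        (by rw [map_sub, map_smul, smul_eq_mul, div_mul_cancel₀ _ hz₁, sub_self])
      rw [map_sub, map_smul] at h1
      have h2 : G v = (G v - (B Q u₁ v / B Q u₁ z₁) • G z₁) + (B Q u₁ v / B Q u₁ z₁) • G z₁ := by abel
      rw [h2]
      exact add_mem (Submodule.mem_sup_left h1) (Submodule.mem_sup_right (Submodule.smul_mem _ _ (Submodule.mem_span_singleton_self _)))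
    -- hence the range on U is large
    obtain ⟨u₂, hu₂, hG₂⟩ : ∃ u ∈ U, G u ∉ Submodule.span F {G u₁} := by
      by_contra h
      simp only [not_exists, not_and, not_not] at h
      have hle : W ≤ Submodule.span F {G u₁} ⊔ Submodule.span F {G z₁} := fun y hy => by
        obtain ⟨x, hx⟩ : ∃ x, g.1.1 *ᵥ x = y := ⟨(g⁻¹).1.1 *ᵥ y, mulVec_inv g y⟩
        obtain ⟨a, ha, b, hb, rfl⟩ := hdec x
        have : G (a + b) = y := by show π (g.1.1 *ᵥ (a + b)) = y; rw [hx, hπW y hy]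
        rw [← this, map_add]
        exact add_mem (Submodule.mem_sup_left (h a ha)) (hW2 b hb)
      have h3 := Submodule.finrank_mono hle
      have h4 := Submodule.finrank_add_le_finrank_add_finrank (Submodule.span F {G u₁}) (Submodule.span F {G z₁})
      have h5 : ∀ x : ι → F, Module.finrank F (Submodule.span F {x}) ≤ 1 := fun x =>
        (finrank_span_le_card ({x} : Set (ι → F))).trans (by simp)
      have := h5 (G u₁); have := h5 (G z₁)
      omega
    have hG₂0 : G u₂ ≠ 0 := fun e => hG₂ (e ▸ Submodule.zero_mem _)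
    have hboth : ∀ v ∈ W, B Q u₁ v = 0 → B Q u₂ v = 0 → G v = 0 := fun v hv h1 h3 => by
      obtain ⟨c, hc⟩ := Submodule.mem_span_singleton.1 (hsp u₁ hu₁ hG₁ v hv h1)
      obtain ⟨d, hd⟩ := Submodule.mem_span_singleton.1 (hsp u₂ hu₂ hG₂0 v hv h3)
      by_cases hd0 : d = 0
      · rw [← hd, hd0, zero_smul]
      · refine absurd (Submodule.mem_span_singleton.2 ⟨d⁻¹ * c, ?_⟩) hG₂
        rw [mul_smul, hc, ← hd, inv_smul_smul₀ hd0]
    obtain ⟨u₃, hu₃, hG₃⟩ : ∃ u ∈ U, G u ∉ Submodule.span F {G u₁, G u₂} := by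
      by_contra h
      simp only [not_exists, not_and, not_not] at h
      have hle : W ≤ Submodule.span F {G u₁, G u₂} ⊔ Submodule.span F {G z₁} := fun y hy => by
        obtain ⟨x, hx⟩ : ∃ x, g.1.1 *ᵥ x = y := ⟨(g⁻¹).1.1 *ᵥ y, mulVec_inv g y⟩
        obtain ⟨a, ha, b, hb, rfl⟩ := hdec x
        have : G (a + b) = y := by show π (g.1.1 *ᵥ (a + b)) = y; rw [hx, hπW y hy]
        rw [← this, map_add]
        exact add_mem (Submodule.mem_sup_left (h a ha))
          (SetLike.le_def.1 (sup_le_sup_right (Submodule.span_mono (by simp)) _) (hW2 b hb))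
      have h3 := Submodule.finrank_mono hle
      have h4 := Submodule.finrank_add_le_finrank_add_finrank (Submodule.span F {G u₁, G u₂}) (Submodule.span F {G z₁})
      have h5 : Module.finrank F (Submodule.span F {G z₁}) ≤ 1 := (finrank_span_le_card ({G z₁} : Set (ι → F))).trans (by simp)
      have h6 : Module.finrank F (Submodule.span F ({G u₁, G u₂} : Set (ι → F))) ≤ 2 :=
        (finrank_span_le_card ({G u₁, G u₂} : Set (ι → F))).trans (by
          rw [Set.toFinset_insert, Set.toFinset_singleton]; exact Finset.card_le_two)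
      omega
    -- so G kills W
    have hG₃0 : G u₃ ≠ 0 := fun e => hG₃ (e ▸ Submodule.zero_mem _)
    have h13 : ∀ v ∈ W, B Q u₁ v = 0 → B Q u₃ v = 0 → G v = 0 := fun v hv h1 h3 => by
      obtain ⟨c, hc⟩ := Submodule.mem_span_singleton.1 (hsp u₁ hu₁ hG₁ v hv h1)
      obtain ⟨d, hd⟩ := Submodule.mem_span_singleton.1 (hsp u₃ hu₃ hG₃0 v hv h3)
      by_cases hd0 : d = 0
      · rw [← hd, hd0, zero_smul]
      · refine absurd (Submodule.mem_span_pair.2 ⟨d⁻¹ * c, 0, ?_⟩) hG₃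
        rw [zero_smul, add_zero, mul_smul, hc, ← hd, inv_smul_smul₀ hd0]
    have h23 : ∀ v ∈ W, B Q u₂ v = 0 → B Q u₃ v = 0 → G v = 0 := fun v hv h1 h3 => by
      obtain ⟨c, hc⟩ := Submodule.mem_span_singleton.1 (hsp u₂ hu₂ hG₂0 v hv h1)
      obtain ⟨d, hd⟩ := Submodule.mem_span_singleton.1 (hsp u₃ hu₃ hG₃0 v hv h3)
      by_cases hd0 : d = 0
      · rw [← hd, hd0, zero_smul]
      · refine absurd (Submodule.mem_span_pair.2 ⟨0, d⁻¹ * c, ?_⟩) hG₃
        rw [zero_smul, zero_add, mul_smul, hc, ← hd, inv_smul_smul₀ hd0]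
    have pick : ∀ a ∈ U, ∀ b ∈ U, ∀ c ∈ U, c ∉ Submodule.span F {a, b} →
        ∃ z ∈ W, B Q a z = 0 ∧ B Q b z = 0 ∧ B Q c z = 1 := by
      intro a ha b hb c hc hcn
      obtain ⟨f, hf, hfs⟩ := Submodule.exists_dual_map_eq_bot_of_notMem hcn inferInstance
      obtain ⟨y, hy⟩ := exists_dual' hQ f
      obtain ⟨y0, hy0, z, hz, rfl⟩ := hdec y
      have hker : ∀ x ∈ Submodule.span F ({a, b} : Set (ι → F)), f x = 0 := fun x hx => by
        have : f x ∈ (Submodule.span F ({a, b} : Set (ι → F))).map f := ⟨x, hx, rfl⟩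
        rw [hfs] at this
        exact (Submodule.mem_bot F).1 this
      have val : ∀ x ∈ U, B Q x z = f x := fun x hx => by rw [← hy, map_add, hU x hx y0 hy0, zero_add]
      refine ⟨(f c)⁻¹ • z, W.smul_mem _ hz, ?_, ?_, ?_⟩
      · rw [map_smul, val a ha, hker a (Submodule.subset_span (Or.inl rfl)), smul_zero]
      · rw [map_smul, val b hb, hker b (Submodule.subset_span (Or.inr rfl)), smul_zero]
      · rw [map_smul, val c hc, smul_eq_mul, inv_mul_cancel₀ hf]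
    have hnot : ∀ {a b c : ι → F}, G c ∉ Submodule.span F {G a, G b} → c ∉ Submodule.span F {a, b} := by
      intro a b c hne h
      obtain ⟨s, t, h⟩ := Submodule.mem_span_pair.1 h
      exact hne (Submodule.mem_span_pair.2 ⟨s, t, by rw [← h, map_add, map_smul, map_smul]⟩)
    have hG₂' : G u₂ ∉ Submodule.span F {G u₁, G u₁} := by simpa using hG₂
    obtain ⟨z₂, hz₂W, e21, -, e22⟩ := pick u₁ hu₁ u₁ hu₁ u₂ hu₂ (hnot hG₂')
    obtain ⟨z₃, hz₃W, e31, e32, e33⟩ := pick u₁ hu₁ u₂ hu₂ u₃ hu₃ (hnot hG₃)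
    have hz3 : G z₃ = 0 := hboth z₃ hz₃W e31 e32
    have hz2 : G z₂ = 0 := by
      have := h13 (z₂ - B Q u₃ z₂ • z₃) (W.sub_mem hz₂W (W.smul_mem _ hz₃W))
        (by rw [map_sub, map_smul, e21, e31, smul_zero, sub_zero]) (by rw [map_sub, map_smul, e33, smul_eq_mul, mul_one, sub_self])
      rwa [map_sub, map_smul, hz3, smul_zero, sub_zero] at this
    have hz1 : G z₁ = 0 := by
      have := h23 (z₁ - B Q u₂ z₁ • z₂ - (B Q u₃ z₁ - B Q u₂ z₁ * B Q u₃ z₂) • z₃)
        (W.sub_mem (W.sub_mem hz₁W (W.smul_mem _ hz₂W)) (W.smul_mem _ hz₃W))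
        (by simp only [map_sub, map_smul, e22, e32, smul_eq_mul]; ring)
        (by simp only [map_sub, map_smul, e33, smul_eq_mul]; ring)
      rwa [map_sub, map_sub, map_smul, map_smul, hz2, hz3, smul_zero, smul_zero, sub_zero, sub_zero] at this
    refine hgW fun v hv => ?_
    have := h13 (v - (B Q u₁ v / B Q u₁ z₁) • z₁ - (B Q u₃ (v - (B Q u₁ v / B Q u₁ z₁) • z₁)) • z₃)
      (W.sub_mem (W.sub_mem hv (W.smul_mem _ hz₁W)) (W.smul_mem _ hz₃W))
      (by simp only [map_sub, map_smul, e31, smul_eq_mul, div_mul_cancel₀ _ hz₁]; ring)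
      (by simp only [map_sub, map_smul, e33, smul_eq_mul]; ring)
    rw [map_sub, map_sub, map_smul, map_smul, hz1, hz3, smul_zero, smul_zero, sub_zero, sub_zero] at this
    have h2' := (hπmem (g.1.1 *ᵥ v)).2
    rwa [show π (g.1.1 *ᵥ v) = 0 from this, sub_zero] at h2'
  -- the commutators
  set p := g.1.1 *ᵥ u with hp
  set q := g.1.1 *ᵥ w with hq
  have hpq : B Q p q = 0 := by rw [hp, hq, B_gen]; exact huw
  have hpz : Q p = 0 := by rw [hp, Q_gen]; exact hQU u huU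
  have hqz : Q q = 0 := by rw [hq, Q_gen]; exact hQW w hwW
  obtain ⟨hp1, hp0⟩ := hπmem p
  obtain ⟨hq1, hq0⟩ := hπmem q
  have hind' : π p ∉ Submodule.span F {π q} := fun h => by
    obtain ⟨c, hc⟩ := Submodule.mem_span_singleton.1 h
    have := (hind 1 (-c) (by show (1:F) • π p + -c • π q = 0; rw [one_smul, neg_smul, hc, add_neg_cancel])).1
    exact one_ne_zero this
  have hq10 : π q ≠ 0 := fun h => by
    have := (hind 0 1 (by show (0:F) • π p + (1:F) • π q = 0; rw [h, zero_smul, smul_zero, add_zero])).2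
    exact one_ne_zero this
  obtain ⟨w', hw'W, hpw, hqw, hw'n⟩ : ∃ w' ∈ W, B Q p w' = 0 ∧ B Q q w' = 0 ∧ w' ∉ Submodule.span F {π p, π q} := by
    by_contra hc
    simp only [not_exists, not_and, not_not] at hc
    let ψ : W →ₗ[F] F × F := ((B Q p).comp W.subtype).prod ((B Q q).comp W.subtype)
    have h1 := ψ.finrank_range_add_finrank_ker
    have h3 : Module.finrank F (LinearMap.range ψ) ≤ 2 := (Submodule.finrank_le _).trans (le_of_eq (by simp))
    have h4 := Submodule.finrank_mono (show (LinearMap.ker ψ).map W.subtype ≤ Submodule.span F {π p, π q} from by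
      rintro _ ⟨x, hx, rfl⟩
      exact hc x.1 x.2 (congrArg Prod.fst (LinearMap.mem_ker.1 hx)) (congrArg Prod.snd (LinearMap.mem_ker.1 hx)))
    rw [(Submodule.equivMapOfInjective _ W.injective_subtype _).finrank_eq.symm] at h4
    have h5 : Module.finrank F (Submodule.span F ({π p, π q} : Set (ι → F))) ≤ 2 :=
      (finrank_span_le_card ({π p, π q} : Set (ι → F))).trans (by
        rw [Set.toFinset_insert, Set.toFinset_singleton]; exact Finset.card_le_two)
    omega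
  have hw'0 : w' ≠ 0 := fun e => hw'n (e ▸ Submodule.zero_mem _)
  obtain ⟨u', hu'U, hu's, hu'p⟩ := hsep (S := Submodule.span F {w', π q}) (Submodule.span_le.2 (by
      rintro x (rfl | rfl)
      · exact hw'W
      · exact hq1)) hp1 (fun h => by
    obtain ⟨a, b, h⟩ := Submodule.mem_span_pair.1 h
    by_cases ha : a = 0
    · exact hind' (Submodule.mem_span_singleton.2 ⟨b, by rw [← h, ha, zero_smul, zero_add]⟩)
    · refine hw'n (Submodule.mem_span_pair.2 ⟨a⁻¹, -(a⁻¹ * b), ?_⟩)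
      rw [← h, smul_add, inv_smul_smul₀ ha, smul_smul]; module)
  have hBU : ∀ y, ∀ a ∈ U, B Q y a = B Q (π y) a := fun y a ha => by
    have := hU _ (hπmem y).2 a ha
    rwa [map_sub, LinearMap.sub_apply, sub_eq_zero] at this
  have hqu' : B Q q u' = 0 := by rw [hBU q u' hu'U]; exact hu's _ (Submodule.subset_span (Or.inr rfl))
  have hpu' : B Q p u' ≠ 0 := by rw [hBU p u' hu'U]; exact hu'p
  have hw'u' : B Q w' u' = 0 := hu's _ (Submodule.subset_span (Or.inl rfl))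
  set β := B Q p u' with hβ
  have hN' : ∀ {u x u₁ x₁ : ι → F} (hu : Q u = 0) (hx : B Q u x = 0) (hu₁ : Q u₁ = 0) (hx₁ : B Q u₁ x₁ = 0),
      S u x hu hx ∈ N → u = u₁ → x = x₁ → S u₁ x₁ hu₁ hx₁ ∈ N := fun hu hx hu' hx' h e e' => by
    rwa [← S_congr hu hx hu' hx' e e']
  have hconjS : ∀ (r : Cfsg.isometryGroup F ⇑Q), r ∈ N → ∀ u x (hu : Q u = 0) (hx : B Q u x = 0), S u x hu hx ∈ N →
      S (r.1.1 *ᵥ u) (r.1.1 *ᵥ x) (by rw [Q_gen, hu]) (by rw [B_gen, hx]) ∈ N := fun r hr u x hu hx h => by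
    rw [← S_conj r hu hx]; exact mul_mem (mul_mem hr h) (inv_mem hr)
  have hu'z := hQU u' hu'U
  have hu'w' : B Q u' w' = 0 := by rw [B_comm]; exact hw'u'
  have hrN : S u' w' hu'z hu'w' ∈ N := hR _ _ _ _ (Or.inl ⟨hu'U, hw'W⟩)
  have hE : S p q hpz hpq ∈ N :=
    hN' _ _ _ _ (hconjS g hg u w (hQU u huU) huw (hR _ _ _ _ (Or.inl ⟨huU, hwW⟩))) rfl rfl
  rw [S_swap hpz hpq hqz] at hE
  have hqp : B Q q (-p) = 0 := by rw [map_neg, B_comm, hpq, neg_zero]
  have e1 : (S u' w' hu'z hu'w').1.1 *ᵥ q = q := by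
    rw [S_apply, hqu', hqw, hQW w' hw'W]; simp
  have e2 : (S u' w' hu'z hu'w').1.1 *ᵥ (-p) = -p + (-β) • w' := by
    rw [S_apply, hQW w' hw'W, map_neg, LinearMap.neg_apply, LinearMap.neg_apply, hpw, ← hβ]; simp
  have hqw' : B Q q ((-β) • w') = 0 := by rw [map_smul, hqw, smul_zero]
  have h1 : S q (-p + (-β) • w') hqz (by rw [map_add, hqp, hqw', add_zero]) ∈ N :=
    hN' _ _ _ _ (hconjS _ hrN q (-p) hqz hqp hE) e1 e2
  have h2 := mul_mem (inv_mem hE) h1
  rw [S_inv, S_mul] at h2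
  have h3 : S q ((-β) • w') hqz hqw' ∈ N := hN' _ _ _ _ h2 rfl (by abel)
  have hbw : Q ((-β) • w') = 0 := by rw [Q_smul, hQW w' hw'W, mul_zero]
  rw [S_swap hqz hqw' hbw, S_smul_left (hQW w' hw'W) (-β) _ (by
    rw [map_smul, map_neg, B_comm, hqw, neg_zero, smul_zero])] at h3
  have hwq : B Q w' q = 0 := by rw [B_comm]; exact hqw
  have hw1 : B Q w' (π q) = 0 := hW w' hw'W _ hq1
  have hw0 : B Q w' (β • (q - π q)) = 0 := by rw [map_smul, map_sub, hwq, hw1, sub_zero, smul_zero]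
  have h4 := mul_mem (inv_mem (hR w' (β • (q - π q)) (hQW w' hw'W) hw0 (Or.inr ⟨hw'W, U.smul_mem _ hq0⟩))) h3
  rw [S_inv, S_mul] at h4
  have hbase : S w' (β • π q) (hQW w' hw'W) (by rw [map_smul, hw1, smul_zero]) ∈ N :=
    hN' _ _ _ _ h4 rfl (by module)
  have hbn : β • π q ∉ Submodule.span F {w'} := fun h => by
    obtain ⟨c, hc⟩ := Submodule.mem_span_singleton.1 h
    have hc0 : c ≠ 0 := fun e => smul_ne_zero hpu' hq10 (by rw [← hc, e, zero_smul])
    refine hw'n (Submodule.mem_span_pair.2 ⟨0, c⁻¹ * β, ?_⟩)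
    rw [zero_smul, zero_add, mul_smul, ← hc, inv_smul_smul₀ hc0]
  -- transport inside W
  let Full : (ι → F) → Prop := fun a => ∀ y ∈ W, ∀ (ha : Q a = 0) (hy : B Q a y = 0), S a y ha hy ∈ N
  have hmv : ∀ a ∈ U, ∀ c ∈ W, ∀ (ha : Q a = 0) (hac : B Q a c = 0), ∀ z ∈ W,
      (S a c ha hac).1.1 *ᵥ z = z + B Q z a • c := fun a _ c hc ha hac z hz => by
    rw [S_apply, hW z hz c hc, hQW c hc]; simp
  have hfull : Full w' := by
    set b := β • π q with hb
    have hbW : b ∈ W := W.smul_mem _ hq1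
    have P1 : ∀ y ∈ W, b ∉ Submodule.span F {w', y} → ∀ (hy : B Q w' y = 0), S w' y (hQW w' hw'W) hy ∈ N := by
      intro y hy hn' hwy
      obtain ⟨a, haU, has, hab⟩ := hsep (S := Submodule.span F {w', y}) (Submodule.span_le.2 (by
        rintro x (rfl | rfl) <;> assumption)) hbW hn'
      have hya : B Q y a = 0 := has y (Submodule.subset_span (Or.inr rfl))
      have hwa : B Q w' a = 0 := has w' (Submodule.subset_span (Or.inl rfl))
      have hac : B Q a ((B Q b a)⁻¹ • y) = 0 := by rw [map_smul, B_comm a y, hya, smul_zero]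
      have hcW := W.smul_mem (B Q b a)⁻¹ hy
      have hr := hR a _ (hQU a haU) hac (Or.inl ⟨haU, hcW⟩)
      have f1 := hmv a haU _ hcW (hQU a haU) hac w' hw'W
      rw [hwa, zero_smul, add_zero] at f1
      have f2 := hmv a haU _ hcW (hQU a haU) hac b hbW
      rw [smul_smul, mul_inv_cancel₀ hab, one_smul] at f2
      have g1 : S w' (b + y) (hQW w' hw'W) (hW _ hw'W _ (W.add_mem hbW hy)) ∈ N :=
        hN' _ _ _ _ (hconjS _ hr _ _ _ _ hbase) f1 f2
      have g2 := mul_mem (inv_mem hbase) g1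
      rw [S_inv, S_mul] at g2
      exact hN' _ _ _ _ g2 rfl (by abel)
    intro y hy ha hwy
    by_cases hn' : b ∈ Submodule.span F {w', y}
    · obtain ⟨c, hcW, hcn⟩ : ∃ c ∈ W, c ∉ Submodule.span F {w', b} := by
        by_contra h
        simp only [not_exists, not_and, not_not] at h
        have h5 : Module.finrank F (Submodule.span F ({w', b} : Set (ι → F))) ≤ 2 :=
          (finrank_span_le_card ({w', b} : Set (ι → F))).trans (by
            rw [Set.toFinset_insert, Set.toFinset_singleton]; exact Finset.card_le_two)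
        have h6 := Submodule.finrank_mono (show W ≤ _ from h)
        omega
      obtain ⟨α, γ, hy'⟩ := Submodule.mem_span_pair.1 hn'
      have hγ : γ ≠ 0 := fun e => hbn (Submodule.mem_span_singleton.2 ⟨α, by rw [← hy', e, zero_smul, add_zero]⟩)
      have m1 : b ∉ Submodule.span F {w', c} := fun h => by
        obtain ⟨s, t, h⟩ := Submodule.mem_span_pair.1 h
        have ht : t ≠ 0 := fun e => hbn (Submodule.mem_span_singleton.2 ⟨s, by rw [← h, e, zero_smul, add_zero]⟩)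
        refine hcn (Submodule.mem_span_pair.2 ⟨-(t⁻¹ * s), t⁻¹, ?_⟩)
        rw [← h, smul_add, inv_smul_smul₀ ht, smul_smul]; module
      have m2 : b ∉ Submodule.span F {w', y - c} := fun h => by
        obtain ⟨s, t, h⟩ := Submodule.mem_span_pair.1 h
        have ht : t ≠ 0 := fun e => hbn (Submodule.mem_span_singleton.2 ⟨s, by rw [← h, e, zero_smul, add_zero]⟩)
        have hc' : c = y + (t⁻¹ * s) • w' - t⁻¹ • b := by
          rw [← h, smul_add, inv_smul_smul₀ ht, smul_smul]; abel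
        have hy2 : y = γ⁻¹ • b - (γ⁻¹ * α) • w' := by
          rw [← hy', smul_add, inv_smul_smul₀ hγ, smul_smul]; abel
        refine hcn (Submodule.mem_span_pair.2 ⟨-(γ⁻¹ * α) + t⁻¹ * s, γ⁻¹ - t⁻¹, ?_⟩)
        rw [hc', hy2]; module
      have h5 := mul_mem (P1 c hcW m1 (hW _ hw'W _ hcW)) (P1 _ (W.sub_mem hy hcW) m2 (hW _ hw'W _ (W.sub_mem hy hcW)))
      rw [S_mul] at h5
      exact hN' _ _ _ _ h5 rfl (by abel)
    · exact P1 y hy hn' hwy
  intro x hx y hy hxz hxy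
  by_cases hxs : x ∈ Submodule.span F {w'}
  · obtain ⟨t, rfl⟩ := Submodule.mem_span_singleton.1 hxs
    have ht : B Q w' (t • y) = 0 := by rw [map_smul, hW _ hw'W _ hy, smul_zero]
    rw [S_smul_left (hQW w' hw'W) t hxy ht]
    exact hfull _ (W.smul_mem _ hy) _ _
  · obtain ⟨a, haU, ha, hwa⟩ := hsep (S := Submodule.span F {x - w'}) (Submodule.span_le.2 (by
        rintro v rfl; exact W.sub_mem hx hw'W)) hw'W (fun h => by
      obtain ⟨c, hc⟩ := Submodule.mem_span_singleton.1 h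
      by_cases hc0 : c = 0
      · exact hw'0 (by rw [← hc, hc0, zero_smul])
      · refine hxs (Submodule.mem_span_singleton.2 ⟨1 + c⁻¹, ?_⟩)
        rw [add_smul, one_smul]; nth_rewrite 2 [← hc]; rw [inv_smul_smul₀ hc0]; abel)
    have hcW := W.smul_mem (B Q w' a)⁻¹ (W.sub_mem hx hw'W)
    have hac : B Q a ((B Q w' a)⁻¹ • (x - w')) = 0 := by
      rw [map_smul, B_comm a (x - w'), ha _ (Submodule.mem_span_singleton_self _), smul_zero]
    have hr := hR a _ (hQU a haU) hac (Or.inl ⟨haU, hcW⟩)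
    have f1 := hmv a haU _ hcW (hQU a haU) hac w' hw'W
    rw [smul_smul, mul_inv_cancel₀ hwa, one_smul, add_sub_cancel] at f1
    set y' := y + (-B Q y a) • ((B Q w' a)⁻¹ • (x - w')) with hy'
    have hy'W : y' ∈ W := W.add_mem hy (W.smul_mem _ hcW)
    have hca : B Q ((B Q w' a)⁻¹ • (x - w')) a = 0 := by rw [B_comm]; exact hac
    have hy'a : B Q y' a = B Q y a := by
      rw [hy', map_add, LinearMap.add_apply, map_smul, LinearMap.smul_apply, hca, smul_zero, add_zero]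
    have f2 := hmv a haU _ hcW (hQU a haU) hac y' hy'W
    rw [hy'a] at f2
    exact hN' _ _ _ _ (hconjS _ hr _ _ _ _ (hfull y' hy'W (hQW _ hw'W) (hW _ hw'W _ hy'W))) f1
      (f2.trans (by rw [hy']; module))

theorem swap_elem {j : ℕ} (b w : Fin j × Fin 2 → (ι → F)) (hbb : ∀ i l, B Q (b i) (b l) = 0) (hww : ∀ i l, B Q (w i) (w l) = 0)
    (hbw : ∀ i l, B Q (b i) (w l) = if i = l then 1 else 0) (hQb : ∀ i, Q (b i) = 0) (hQw : ∀ i, Q (w i) = 0)
    (s : Finset (Fin j)) : ∃ J ∈ E Q, ∀ i : Fin j × Fin 2, (i.1 ∈ s →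
      (∃ (c : F) (l : Fin j × Fin 2), J.1.1 *ᵥ b i = c • w l) ∧ ∃ (c : F) (l : Fin j × Fin 2), J.1.1 *ᵥ w i = c • b l) ∧
      (i.1 ∉ s → J.1.1 *ᵥ b i = b i ∧ J.1.1 *ᵥ w i = w i) := by
  classical
  induction s using Finset.induction_on with
  | empty => exact ⟨1, one_mem _, fun i => ⟨fun h => absurd h (Finset.notMem_empty _), fun _ => ⟨by simp, by simp⟩⟩⟩
  | insert a s has ih =>
    obtain ⟨J, hJ, hJi⟩ := ih
    have hA : B Q (b (a, 0)) (b (a, 1)) = 0 := hbb _ _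
    have hC : B Q (w (a, 0)) (w (a, 1)) = 0 := hww _ _
    set A := S (b (a, 0)) (b (a, 1)) (hQb _) hA with hAdef
    set C := S (w (a, 0)) (w (a, 1)) (hQw _) hC with hCdef
    set T := A * C * A with hT
    have hTE : T ∈ E Q := mul_mem (mul_mem (Subgroup.subset_closure ⟨_, _, _, _, rfl⟩)
      (Subgroup.subset_closure ⟨_, _, _, _, rfl⟩)) (Subgroup.subset_closure ⟨_, _, _, _, rfl⟩)
    have hwb : ∀ i l, B Q (w i) (b l) = if l = i then 1 else 0 := fun i l => by rw [B_comm]; exact hbw l i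
    have Tb : ∀ i, T.1.1 *ᵥ b i = if i = (a, 0) then w (a, 1) else if i = (a, 1) then -w (a, 0) else b i := fun i => by
      rw [hT, mulVec_mul, mulVec_mul, hAdef, hCdef]
      simp only [S_apply, hbb, hbw, hQb, hQw, hwb, zero_smul, add_zero, sub_zero, mul_zero, zero_mul, map_add, map_sub, map_smul,
        LinearMap.add_apply, LinearMap.sub_apply, LinearMap.smul_apply, smul_eq_mul]
      by_cases h0 : i = (a, 0)
      · subst h0; simp [hbw, hwb, hww, hbb]
      · by_cases h1 : i = (a, 1)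
        · subst h1; simp [hbw, hwb, hww, hbb] <;> abel
        · simp [h0, h1, hbw, hwb, hww, hbb]
    have Tw : ∀ i, T.1.1 *ᵥ w i = if i = (a, 0) then b (a, 1) else if i = (a, 1) then -b (a, 0) else w i := fun i => by
      rw [hT, mulVec_mul, mulVec_mul, hAdef, hCdef]
      simp only [S_apply, hbb, hbw, hQb, hQw, hwb, zero_smul, add_zero, sub_zero, mul_zero, zero_mul, map_add, map_sub, map_smul,
        LinearMap.add_apply, LinearMap.sub_apply, LinearMap.smul_apply, smul_eq_mul]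
      by_cases h0 : i = (a, 0)
      · subst h0; simp [hbw, hwb, hww, hbb]
      · by_cases h1 : i = (a, 1)
        · subst h1; simp [hbw, hwb, hww, hbb] <;> abel
        · simp [h0, h1, Ne.symm h0, Ne.symm h1, hbw, hwb, hww, hbb]
    refine ⟨J * T, mul_mem hJ hTE, fun i => ⟨fun hi => ?_, fun hi => ?_⟩⟩
    · rw [mulVec_mul J T (b i), mulVec_mul J T (w i), Tb, Tw]
      have j0 := (hJi (a, 0)).2 has
      have j1 := (hJi (a, 1)).2 has
      by_cases h0 : i = (a, 0)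
      · rw [if_pos h0, if_pos h0, j1.2, j1.1]
        exact ⟨⟨1, _, (one_smul _ _).symm⟩, ⟨1, _, (one_smul _ _).symm⟩⟩
      · by_cases h1 : i = (a, 1)
        · rw [if_neg h0, if_neg h0, if_pos h1, if_pos h1, Matrix.mulVec_neg, Matrix.mulVec_neg, j0.2, j0.1]
          exact ⟨⟨-1, _, (neg_one_smul _ _).symm⟩, ⟨-1, _, (neg_one_smul _ _).symm⟩⟩
        · rw [if_neg h0, if_neg h0, if_neg h1, if_neg h1]
          refine (hJi i).1 ((Finset.mem_insert.1 hi).resolve_left fun e => ?_)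
          obtain ⟨i1, i2⟩ := i
          subst e
          fin_cases i2 <;> simp at h0 h1
    · rw [Finset.mem_insert, not_or] at hi
      have h0 : i ≠ (a, 0) := fun e => hi.1 (by rw [e])
      have h1 : i ≠ (a, 1) := fun e => hi.1 (by rw [e])
      rw [mulVec_mul J T (b i), mulVec_mul J T (w i), Tb, Tw, if_neg h0, if_neg h0, if_neg h1, if_neg h1]
      exact (hJi i).2 hi.2

theorem maximal (hQ : (QuadraticMap.polarBilin Q).Nondegenerate) (hn : 5 ≤ Fintype.card ι) {k : ℕ} (hk : 7 ≤ k) (hke : Even k)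
    (hcard : Fintype.card ι = 2 * k) (D : Fin 2 → Submodule F (ι → F)) (hD : Cfsg.Geo.IsMDecomposition k D)
    (hts : ∀ i, ∀ x ∈ D i, Q x = 0) :
    Cfsg.Geo.IsMaximalIn (Cfsg.Geo.omegaGL ⇑Q) (Cfsg.Geo.decompositionStabilizer D ⊓ Cfsg.Geo.omegaGL ⇑Q) := by
  classical
  set U := D 0 with hUdef
  set W := D 1 with hWdef
  have hΩ := omega_eq_E hQ hn
  have hB0 : ∀ i, ∀ a ∈ D i, ∀ b ∈ D i, B Q a b = 0 := fun i a ha b hb => by
    have h := Q_add (Q := Q) a b
    rw [hts i _ ((D i).add_mem ha hb), hts i a ha, hts i b hb, zero_add, zero_add] at h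
    exact h.symm
  have hU := hB0 0
  have hW := hB0 1
  have hUd : Module.finrank F U = k := hD.finrank_eq 0
  have hWd : Module.finrank F W = k := hD.finrank_eq 1
  have hsup : U ⊔ W = ⊤ := by
    refine eq_top_iff.2 (hD.iSup_eq_top ▸ iSup_le fun i => ?_)
    fin_cases i
    · exact le_sup_left
    · exact le_sup_right
  have hsup' : W ⊔ U = ⊤ := by rw [sup_comm]; exact hsup
  have hdec : ∀ y, ∃ a ∈ U, ∃ b ∈ W, y = a + b := fun y => by
    obtain ⟨a, ha, b, hb, h⟩ := Submodule.mem_sup.1 (show y ∈ U ⊔ W by rw [hsup]; trivial)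
    exact ⟨a, ha, b, hb, h.symm⟩
  have hint : ∀ y ∈ U, y ∈ W → y = 0 := fun y hy hy' => by
    by_contra h0
    obtain ⟨x, hx⟩ := exists_one hQ h0
    obtain ⟨a, ha, b, hb, rfl⟩ := hdec x
    rw [map_add, hU y hy a ha, hW y hy' b hb, add_zero] at hx
    exact zero_ne_one hx
  have hinj : ∀ (A : Cfsg.isometryGroup F ⇑Q) {x y : ι → F}, A.1.1 *ᵥ x = A.1.1 *ᵥ y → x = y := fun A x y h => by
    rw [← inv_mulVec A x, h, inv_mulVec]
  have mapEq : ∀ (A : Cfsg.isometryGroup F ⇑Q) (i l : Fin 2), (∀ x ∈ D i, A.1.1 *ᵥ x ∈ D l) →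
      (D i).map (Matrix.toLin' A.1.1) = D l := fun A i l h => by
    refine Submodule.eq_of_le_of_finrank_eq (by rintro _ ⟨x, hx, rfl⟩; rw [Matrix.toLin'_apply]; exact h x hx) ?_
    rw [hD.finrank_eq]
    refine Eq.trans (Submodule.equivMapOfInjective _ (fun x y h => ?_) _).finrank_eq.symm (hD.finrank_eq i)
    rw [Matrix.toLin'_apply, Matrix.toLin'_apply] at h
    exact hinj A h
  refine ⟨lt_of_le_of_ne inf_le_right fun heq => ?_, fun M hM hMK => or_iff_not_imp_left.2 fun hne => le_antisymm hMK ?_⟩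
  · obtain ⟨u, hu, hu0⟩ := U.exists_mem_ne_zero_of_ne_bot (fun h => by rw [h, finrank_bot] at hUd; omega)
    obtain ⟨w, hw, hw0, huw⟩ : ∃ w ∈ W, w ≠ 0 ∧ B Q u w = 0 := by
      let ψ : W →ₗ[F] F := (B Q u).comp W.subtype
      have h1 := ψ.finrank_range_add_finrank_ker
      have h3 : Module.finrank F (LinearMap.range ψ) ≤ 1 := (Submodule.finrank_le _).trans (le_of_eq (by simp))
      obtain ⟨x, hx, hx0⟩ := (LinearMap.ker ψ).exists_mem_ne_zero_of_ne_bot (fun h => by rw [h, finrank_bot] at h1; omega)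
      exact ⟨x.1, x.2, fun e => hx0 (Subtype.ext e), hx⟩
    have hne : u + w ≠ 0 := fun e => hu0 (hint u hu (by rw [eq_neg_of_add_eq_zero_left e]; exact W.neg_mem hw))
    obtain ⟨A, c, hA⟩ := CfsgLib.Orth.OmegaSimple.exists_map hQ hn (hts 0 u hu)
      (by rw [Q_add, hts 0 u hu, hts 1 w hw, huw, add_zero, add_zero] : Q (u + w) = 0) hu0 hne
    obtain ⟨σ, hσ⟩ := (heq.ge ⟨A.1, A.2, rfl⟩).1
    have hmem : A.1.1.1 *ᵥ u ∈ D (σ 0) := (hσ 0).le ⟨u, hu, Matrix.toLin'_apply _ _⟩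
    rw [hA] at hmem
    have hc : c ≠ 0 := fun e => hu0 (hinj A.1 (by rw [hA, e, zero_smul, Matrix.mulVec_zero]))
    rw [Submodule.smul_mem_iff _ hc] at hmem
    rcases Fin.exists_fin_two.1 ⟨σ 0, rfl⟩ with h | h <;> rw [h] at hmem
    · exact hw0 (hint w ((U.add_mem_iff_right hu).1 hmem) hw)
    · exact hu0 (hint u hu ((W.add_mem_iff_left hw).1 hmem))
  obtain ⟨g, hgM, hgH⟩ := SetLike.exists_of_lt (lt_of_le_of_ne hM (Ne.symm hne))
  obtain ⟨G, hGΩ, hG⟩ := hMK hgM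
  set N := M.comap (Cfsg.isometryGroup F ⇑Q).subtype with hNdef
  suffices htop : E Q ≤ N by
    rintro x ⟨X, hX, rfl⟩
    exact htop (hΩ ▸ hX)
  have hGN : G ∈ N := by show _ ∈ M; rw [hG]; exact hgM
  have hN : ∀ A ∈ E Q, ∀ σ : Equiv.Perm (Fin 2), (∀ i, ∀ x ∈ D i, A.1.1 *ᵥ x ∈ D (σ i)) → A ∈ N := fun A hA σ h =>
    hM ⟨⟨σ, fun i => mapEq A i (σ i) (h i)⟩, ⟨A, hΩ.symm ▸ hA, rfl⟩⟩
  have hR : ∀ u x (hu : Q u = 0) (hx : B Q u x = 0), (u ∈ U ∧ x ∈ W) ∨ (u ∈ W ∧ x ∈ U) → S u x hu hx ∈ N := by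
    intro u x hu hx h
    refine hN _ (Subgroup.subset_closure ⟨u, x, hu, hx, rfl⟩) 1 fun i z hz => ?_
    show _ ∈ D i
    rcases h with ⟨hu', hx'⟩ | ⟨hu', hx'⟩
    · revert z; revert i; refine Fin.forall_fin_two.2 ⟨fun z hz => ?_, fun z hz => ?_⟩
      · rw [S_apply, hU z hz u hu', hts 1 x hx', zero_smul, add_zero, zero_mul, add_zero]
        exact U.sub_mem hz (U.smul_mem _ hu')
      · rw [S_apply, hW z hz x hx', hts 1 x hx', zero_mul, add_zero, zero_smul, sub_zero]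
        exact W.add_mem hz (W.smul_mem _ hx')
    · revert z; revert i; refine Fin.forall_fin_two.2 ⟨fun z hz => ?_, fun z hz => ?_⟩
      · rw [S_apply, hU z hz x hx', hts 0 x hx', zero_mul, add_zero, zero_smul, sub_zero]
        exact U.add_mem hz (U.smul_mem _ hx')
      · rw [S_apply, hW z hz u hu', hts 0 x hx', zero_smul, add_zero, zero_mul, add_zero]
        exact W.sub_mem hz (W.smul_mem _ hu')
  -- the swap
  obtain ⟨J, hJN, hJU, hJW⟩ : ∃ J ∈ N, (∀ x ∈ U, J.1.1 *ᵥ x ∈ W) ∧ ∀ x ∈ W, J.1.1 *ᵥ x ∈ U := by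
    obtain ⟨j, hj⟩ := hke
    let b := (Module.finBasisOfFinrankEq F U (n := j * 2) (by rw [hUd]; omega)).reindex finProdFinEquiv.symm
    have hdual : ∀ i, ∃ w ∈ W, ∀ x : U, B Q x.1 w = b.repr x i := fun i => by
      obtain ⟨f, hf⟩ := LinearMap.exists_extend ((Finsupp.lapply i).comp b.repr.toLinearMap)
      obtain ⟨y, hy⟩ := exists_dual' hQ f
      obtain ⟨y0, hy0, w, hw, rfl⟩ := hdec y
      refine ⟨w, hw, fun x => ?_⟩
      have h1 : f x.1 = b.repr x i := LinearMap.congr_fun hf x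
      rw [← h1, ← hy, map_add, hU x.1 x.2 y0 hy0, zero_add]
    choose w hwW hw using hdual
    have hrep : ∀ x ∈ U, x = ∑ i, B Q x (w i) • (b i).1 := fun x hx => by
      have := congrArg Subtype.val (b.sum_repr ⟨x, hx⟩)
      rw [Submodule.coe_sum] at this
      change _ = x at this
      conv_lhs => rw [← this]
      exact Finset.sum_congr rfl fun i _ => by rw [hw i ⟨x, hx⟩]; rfl
    have hbw : ∀ i l, B Q (b i).1 (w l) = if i = l then 1 else 0 := fun i l => by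
      rw [hw l (b i), b.repr_self, Finsupp.single_apply]
    have hrepW : ∀ x ∈ W, x = ∑ i, B Q (b i).1 x • w i := fun x hx => by
      by_contra h
      obtain ⟨z, hz⟩ := exists_one hQ (sub_ne_zero.2 h)
      obtain ⟨a, ha, c, hc, rfl⟩ := hdec z
      have hd : x - ∑ i, B Q (b i).1 x • w i ∈ W := W.sub_mem hx (W.sum_mem fun i _ => W.smul_mem _ (hwW i))
      rw [map_add, hW _ hd c hc, add_zero, B_comm] at hz
      have hzero : ∀ i, B Q (b i).1 (x - ∑ l, B Q (b l).1 x • w l) = 0 := fun i => by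
        rw [map_sub, map_sum]; simp [map_smul, hbw]
      have hd0 : B Q a (x - ∑ l, B Q (b l).1 x • w l) = 0 := by
        rw [hrep a ha, map_sum, LinearMap.sum_apply]
        exact Finset.sum_eq_zero fun i _ => by rw [map_smul, LinearMap.smul_apply, hzero i, smul_zero]
      exact zero_ne_one (hd0.symm.trans hz)
    obtain ⟨J, hJE, hJ⟩ := swap_elem (Q := Q) (fun i => (b i).1) w (fun i l => hU _ (b i).2 _ (b l).2)
      (fun i l => hW _ (hwW i) _ (hwW l)) hbw (fun i => hts 0 _ (b i).2) (fun i => hts 1 _ (hwW i)) Finset.univ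
    have h0 : ∀ x ∈ U, J.1.1 *ᵥ x ∈ W := fun x hx => by
      rw [hrep x hx, Matrix.mulVec_sum]
      refine W.sum_mem fun i _ => ?_
      obtain ⟨c, l, h⟩ := ((hJ i).1 (Finset.mem_univ _)).1
      rw [Matrix.mulVec_smul, h]; exact W.smul_mem _ (W.smul_mem _ (hwW l))
    have h1 : ∀ x ∈ W, J.1.1 *ᵥ x ∈ U := fun x hx => by
      rw [hrepW x hx, Matrix.mulVec_sum]
      refine U.sum_mem fun i _ => ?_
      obtain ⟨c, l, h⟩ := ((hJ i).1 (Finset.mem_univ _)).2
      rw [Matrix.mulVec_smul, h]; exact U.smul_mem _ (U.smul_mem _ (b l).2)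
    exact ⟨J, hN J hJE (Equiv.swap 0 1) (Fin.forall_fin_two.2
      ⟨fun x hx => by rw [Equiv.swap_apply_left]; exact h0 x hx, fun x hx => by rw [Equiv.swap_apply_right]; exact h1 x hx⟩), h0, h1⟩
  have hN' : ∀ {u x u₁ x₁ : ι → F} (hu : Q u = 0) (hx : B Q u x = 0) (hu₁ : Q u₁ = 0) (hx₁ : B Q u₁ x₁ = 0),
      S u x hu hx ∈ N → u = u₁ → x = x₁ → S u₁ x₁ hu₁ hx₁ ∈ N := fun hu hx hu' hx' h e e' => by
    rwa [← S_congr hu hx hu' hx' e e']
  have hconjS : ∀ (r : Cfsg.isometryGroup F ⇑Q), r ∈ N → ∀ u x (hu : Q u = 0) (hx : B Q u x = 0), S u x hu hx ∈ N →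
      S (r.1.1 *ᵥ u) (r.1.1 *ᵥ x) (by rw [Q_gen, hu]) (by rw [B_gen, hx]) ∈ N := fun r hr u x hu hx h => by
    rw [← S_conj r hu hx]; exact mul_mem (mul_mem hr h) (inv_mem hr)
  let All : Submodule F (ι → F) → Prop := fun X => ∀ a ∈ X, ∀ c ∈ X, ∀ (ha : Q a = 0) (hac : B Q a c = 0), S a c ha hac ∈ N
  have hboth : All W ∧ All U := by
    have pull : ∀ {X Y : Submodule F (ι → F)}, Module.finrank F X = k → Module.finrank F Y = k →
        (∀ x ∈ X, J.1.1 *ᵥ x ∈ Y) → All X → All Y := by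
      intro X Y hX hY hJ hA a ha c hc ha' hac
      let f : X →ₗ[F] Y :=
        { toFun := fun x => ⟨J.1.1 *ᵥ x.1, hJ x.1 x.2⟩
          map_add' := fun p q => Subtype.ext (show J.1.1 *ᵥ (p.1 + q.1) = J.1.1 *ᵥ p.1 + J.1.1 *ᵥ q.1 from Matrix.mulVec_add _ _ _)
          map_smul' := fun t p => Subtype.ext (show J.1.1 *ᵥ (t • p.1) = t • (J.1.1 *ᵥ p.1) from Matrix.mulVec_smul _ _ _) }
      have hs := (LinearMap.injective_iff_surjective_of_finrank_eq_finrank (hX.trans hY.symm)).1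
        (show Function.Injective f from fun p q h => Subtype.ext (hinj J (congrArg Subtype.val h)))
      obtain ⟨x, hx⟩ := hs ⟨a, ha⟩
      obtain ⟨y, hy⟩ := hs ⟨c, hc⟩
      have ex : J.1.1 *ᵥ x.1 = a := congrArg Subtype.val hx
      have ey : J.1.1 *ᵥ y.1 = c := congrArg Subtype.val hy
      have hxz : Q x.1 = 0 := by rw [← Q_gen J, ex]; exact ha'
      have hxy : B Q x.1 y.1 = 0 := by rw [← B_gen J, ex, ey]; exact hac
      exact hN' _ _ _ _ (hconjS J hJN _ _ hxz hxy (hA x.1 x.2 y.1 y.2 hxz hxy)) ex ey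
    have stab : ∀ σ : Equiv.Perm (Fin 2), (∀ i, ∀ x ∈ D i, G.1.1 *ᵥ x ∈ D (σ i)) → False := fun σ h =>
      hgH (hG ▸ ⟨⟨σ, fun i => mapEq G i (σ i) (h i)⟩, ⟨G, hGΩ, rfl⟩⟩)
    have side1 : ¬ (∀ a ∈ U, G.1.1 *ᵥ a ∈ U) → ¬ (∀ a ∈ W, G.1.1 *ᵥ a ∈ U) → All W :=
      side hQ hk hUd hWd (hts 1) hU hW hsup N hR (hts 0) hGN
    have side2 : ¬ (∀ a ∈ W, G.1.1 *ᵥ a ∈ W) → ¬ (∀ a ∈ U, G.1.1 *ᵥ a ∈ W) → All U :=
      side hQ hk hWd hUd (hts 0) hW hU hsup' N (fun u x hu hx h => hR u x hu hx h.symm) (hts 1) hGN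
    by_cases h1 : ∀ a ∈ U, G.1.1 *ᵥ a ∈ U
    · have h := side2 (fun h => stab 1 (Fin.forall_fin_two.2 ⟨h1, h⟩)) (fun h => by
        obtain ⟨x, hx, hx0⟩ := U.exists_mem_ne_zero_of_ne_bot (fun h' => by rw [h', finrank_bot] at hUd; omega)
        exact hx0 (hinj G ((hint _ (h1 x hx) (h x hx)).trans (Matrix.mulVec_zero _).symm)))
      exact ⟨pull hUd hWd hJU h, h⟩
    · by_cases h3 : ∀ a ∈ W, G.1.1 *ᵥ a ∈ U
      · have h := side2 (fun h => by
          obtain ⟨x, hx, hx0⟩ := W.exists_mem_ne_zero_of_ne_bot (fun h' => by rw [h', finrank_bot] at hWd; omega)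
          exact hx0 (hinj G ((hint _ (h3 x hx) (h x hx)).trans (Matrix.mulVec_zero _).symm)))
          (fun h => stab (Equiv.swap 0 1) (Fin.forall_fin_two.2
            ⟨fun x hx => by rw [Equiv.swap_apply_left]; exact h x hx, fun x hx => by rw [Equiv.swap_apply_right]; exact h3 x hx⟩))
        exact ⟨pull hUd hWd hJU h, h⟩
      · have h := side1 h1 h3
        exact ⟨h, pull hWd hUd hJW h⟩
  let Cc : (ι → F) → Prop := fun v => Q v = 0 ∧ ∀ x (hv : Q v = 0) (hx : B Q v x = 0), S v x hv hx ∈ N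
  have hCU : ∀ v ∈ U, Cc v := fun v hv => ⟨hts 0 v hv, fun x hv' hx => by
    obtain ⟨x0, hx0, x1, hx1, rfl⟩ := hdec x
    have e0 : B Q v x0 = 0 := hU v hv x0 hx0
    have e1 : B Q v x1 = 0 := by rw [map_add, e0, zero_add] at hx; exact hx
    rw [← S_mul hv' e0 e1]
    exact mul_mem (hboth.2 v hv x0 hx0 hv' e0) (hR v x1 hv' e1 (Or.inl ⟨hv, hx1⟩))⟩
  have hCW : ∀ v ∈ W, Cc v := fun v hv => ⟨hts 1 v hv, fun x hv' hx => by
    obtain ⟨x0, hx0, x1, hx1, rfl⟩ := hdec x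
    have e1 : B Q v x1 = 0 := hW v hv x1 hx1
    have e0 : B Q v x0 = 0 := by rw [map_add, e1, add_zero] at hx; exact hx
    rw [← S_mul hv' e0 e1]
    exact mul_mem (hR v x0 hv' e0 (Or.inr ⟨hv, hx0⟩)) (hboth.1 v hv x1 hx1 hv' e1)⟩
  have orbit : ∀ a b d, Cc a → Cc b → B Q a b ≠ 0 → Q d = 0 → B Q a d ≠ 0 → Cc d := by
    intro a b d ha hb hab hd had
    refine ⟨hd, fun x hd' hx => ?_⟩
    set b' := (B Q a b)⁻¹ • b with hb'
    set d' := (B Q a d)⁻¹ • d with hd'def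
    have e1 : B Q a b' = 1 := by rw [hb', map_smul, smul_eq_mul, inv_mul_cancel₀ hab]
    have e2 : B Q a d' = 1 := by rw [hd'def, map_smul, smul_eq_mul, inv_mul_cancel₀ had]
    have qb : Q b' = 0 := by rw [hb', Q_smul, hb.1, mul_zero]
    have qd : Q d' = 0 := by rw [hd'def, Q_smul, hd, mul_zero]
    have hax : B Q a (d' - b') = 0 := by rw [map_sub, e1, e2, sub_self]
    have hr := ha.2 _ ha.1 hax
    have hQb := Q_add (Q := Q) b' (d' - b')
    rw [add_sub_cancel, qb, qd] at hQb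
    have himg : (S a (d' - b') ha.1 hax).1.1 *ᵥ b' = d' := by
      rw [S_apply, B_comm b' a, e1, one_smul, mul_one, show B Q b' (d' - b') + Q (d' - b') = 0 by linear_combination -hQb,
        zero_smul, sub_zero, add_sub_cancel]
    obtain ⟨y, hy⟩ : ∃ y, (S a (d' - b') ha.1 hax).1.1 *ᵥ y = B Q a d • x := ⟨_, mulVec_inv _ _⟩
    have hd'x : B Q d' (B Q a d • x) = 0 := by
      rw [hd'def, map_smul, map_smul, LinearMap.smul_apply, hx, smul_zero, smul_zero]
    have hby : B Q b' y = 0 := by rw [← B_gen (S a (d' - b') ha.1 hax), himg, hy]; exact hd'x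
    have hyb : B Q b ((B Q a b)⁻¹ • y) = 0 := by
      rw [hb', map_smul, LinearMap.smul_apply] at hby
      rw [map_smul]; exact hby
    have h0 : S b' y qb hby ∈ N := by
      have h1 := hb.2 _ hb.1 hyb
      rw [← S_smul_left hb.1 (B Q a b)⁻¹ (by rw [← hb']; exact hby) hyb] at h1
      exact hN' _ _ _ _ h1 hb'.symm rfl
    have h2 : S d' (B Q a d • x) qd hd'x ∈ N := hN' _ _ _ _ (hconjS _ hr b' y qb hby h0) himg hy
    have h3 : B Q d ((B Q a d)⁻¹ • B Q a d • x) = 0 := by rw [inv_smul_smul₀ had]; exact hx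
    have h4 : S d' (B Q a d • x) qd hd'x = S d ((B Q a d)⁻¹ • B Q a d • x) hd h3 := by
      refine (S_congr qd hd'x (by rw [Q_smul, hd, mul_zero]) (by rw [← hd'def]; exact hd'x) hd'def rfl).trans ?_
      exact S_smul_left hd _ _ h3
    rw [h4] at h2
    exact hN' _ _ _ _ h2 rfl (inv_smul_smul₀ had x)
  obtain ⟨u, huU, hu0⟩ := U.exists_mem_ne_zero_of_ne_bot (fun h => by rw [h, finrank_bot] at hUd; omega)
  obtain ⟨y, hy⟩ := exists_one hQ hu0
  obtain ⟨y0, hy0, u', hu'W, rfl⟩ := hdec y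
  rw [map_add, hU u huU y0 hy0, zero_add] at hy
  have hu := hts 0 u huU
  have hall : ∀ d, Q d = 0 → Cc d := fun d hd => by
    by_cases hd0 : d = 0
    · refine ⟨hd, fun x hd' hx => ?_⟩
      have : S d x hd' hx = 1 := ext_mulVec fun z => by simp [S_apply, hd0]
      rw [this]; exact one_mem _
    obtain ⟨r, hr, -, hru, hrd⟩ := CfsgLib.Orth.OmegaSimple.exists_nonperp hQ hn hu hd hu0 hd0
    exact orbit r u d (orbit u u' r (hCU u huU) (hCW u' hu'W) (by rw [hy]; exact one_ne_zero) hr (by rw [B_comm]; exact hru))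
      (hCU u huU) hru hd hrd
  exact E_le hQ hn fun a x ha hax _ => (hall a ha).2 x ha hax

end

/-- Let F be a finite field with q elements, n ≥ 13 even, Q a non-degenerate quadratic form on F^n of plus type (some subspace of dimension n/2 is totally singular), and Ω the commutator subgroup of the isometry group of Q, viewed inside GL_n(F). Suppose n/2 is even and let D be a decomposition of F^n into two complementary subspaces of dimension n/2 on each of which Q vanishes. Then the elements of Ω preserving or interchanging the two subspaces form a maximal subgroup of Ω. -/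
theorem result {F : Type*} [Field F] [Fintype F] {n : ℕ} (hn : 13 ≤ n) (heven : Even n) (Q : (Fin n → F) → F) (hQ : Cfsg.Geo.IsNondegenerateQuadraticForm Q) (hplus : Cfsg.Geo.IsPlusTypeOn Q ⊤) (k : ℕ) (hk : 2 * k = n) (hke : Even k) (D : Fin 2 → Submodule F (Fin n → F)) (hD : Cfsg.Geo.IsMDecomposition k D) (hts : ∀ i, Cfsg.Geo.IsTotallySingularQuad Q (D i)) : Cfsg.Geo.IsMaximalIn (Cfsg.Geo.omegaGL Q) (Cfsg.Geo.decompositionStabilizer D ⊓ Cfsg.Geo.omegaGL Q) := by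
  have h := maximal (Q := CfsgLib.NonMax.OmegaTools.toQ hQ) (CfsgLib.NonMax.OmegaTools.nondegenerate hQ)
    (by rw [Fintype.card_fin]; omega) (k := k) (by omega) hke (by rw [Fintype.card_fin]; omega) D hD
    (fun i x hx => by rw [CfsgLib.NonMax.OmegaTools.coe_toQ]; exact hts i x hx)
  rwa [CfsgLib.NonMax.OmegaTools.coe_toQ] at h

end Cfsg.Agent.S5697
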