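import Cfsg.Statements.S5698
import Mathlib
import Cfsg.Agent.Lib.NonMax.SingularFamilies

set_option autoImplicit false
open Cfsg

namespace Cfsg.Agent.S5698

open scoped Matrix
open CfsgLib.NonMax.SingularFamilies CfsgLib.NonMax.Tools

/-- Let F be a finite field with q elements, n ≥ 13 even, Q a non-degenerate quadratic form on F^n of plus type (some subspace of dimension n/2 is totally singular), and Ω the commutator subgroup of the isometry group of Q, viewed inside GL_n(F). Suppose n/2 is odd and let D be a decomposition of F^n into two complementary subspaces of dimension n/2 on each of which Q vanishes. Then the elements of Ω preserving or interchanging the two subspaces form a subgroup that is not maximal: some subgroup lies strictly between it and Ω. -/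
theorem result {F : Type*} [Field F] [Fintype F] {n : ℕ} (hn : 13 ≤ n) (heven : Even n) (Q : (Fin n → F) → F) (hQ : Cfsg.Geo.IsNondegenerateQuadraticForm Q) (hplus : Cfsg.Geo.IsPlusTypeOn Q ⊤) (k : ℕ) (hk : 2 * k = n) (hko : Odd k) (D : Fin 2 → Submodule F (Fin n → F)) (hD : Cfsg.Geo.IsMDecomposition k D) (hts : ∀ i, Cfsg.Geo.IsTotallySingularQuad Q (D i)) : ∃ K : Subgroup (Matrix.GeneralLinearGroup (Fin n) F), Cfsg.Geo.decompositionStabilizer D ⊓ Cfsg.Geo.omegaGL Q < K ∧ K < Cfsg.Geo.omegaGL Q := by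
  have hcard : Fintype.card (Fin n) = 2 * k := by rw [Fintype.card_fin, hk]
  have hDts : ∀ i, TS Q k (D i) := fun i => ⟨hD.finrank_eq i, hts i⟩
  have hdis : ∀ i j, i ≠ j → D i ⊓ D j = ⊥ := fun i j hij => disjoint_iff.1 (hD.indep.pairwiseDisjoint hij)
  have mover : ∀ i j : Fin 2, i ≠ j → ∃ g ∈ Cfsg.Geo.omegaGL Q, (∀ z ∈ D i, g.1 *ᵥ z = z) ∧
      ∃ z ∈ D j, g.1 *ᵥ z ∉ D j := by
    intro i j hij
    obtain ⟨a, ha⟩ := exists_linearIndependent_of_le_finrank (R := F) (M := D i) (n := 3) (by rw [hD.finrank_eq]; omega)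
    have hli : LinearIndependent F (fun l => ((a l : D i) : Fin n → F)) := ha.map' (D i).subtype (D i).ker_subtype
    have hli3 : LinearIndependent F ![((a 0 : D i) : Fin n → F), (a 1).1, (a 2).1] := by
      convert hli using 1
      funext l; fin_cases l <;> rfl
    obtain ⟨-, g, hg, hfix, hgz⟩ := exists_moving hQ hcard (hDts i) (a 0).2 (a 1).2 (a 2).2 hli3
    refine ⟨g, hg, hfix, ?_⟩
    obtain ⟨v, hv⟩ := exists_dual_three hQ hcard (hDts i) (fun l => (a l).2) hli ![0, 1, 0]
    have hsum := sum_comp hD v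
    rw [Fin.sum_univ_two] at hsum
    obtain ⟨vi, hvi, vj, hvj, rfl⟩ : ∃ vi ∈ D i, ∃ vj ∈ D j, v = vi + vj := by
      fin_cases i <;> fin_cases j
      · exact absurd rfl hij
      · exact ⟨_, comp_mem hD 0 v, _, comp_mem hD 1 v, hsum.symm⟩
      · exact ⟨_, comp_mem hD 1 v, _, comp_mem hD 0 v, by rw [add_comm]; exact hsum.symm⟩
      · exact absurd rfl hij
    refine ⟨vj, hvj, fun e' => ?_⟩
    have h0 := hv 0
    have h1 := hv 1
    rw [hQ.polar_bilinear.add_right, polar_ts (hts i) (a 0).2 hvi, zero_add, QuadraticMap.polar_comm] at h0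
    rw [hQ.polar_bilinear.add_right, polar_ts (hts i) (a 1).2 hvi, zero_add, QuadraticMap.polar_comm] at h1
    rw [hgz, h0, h1] at e'
    simp only [Matrix.cons_val_zero, Matrix.cons_val_one, one_smul, zero_smul, sub_zero] at e'
    have hmem : ((a 0 : D i) : Fin n → F) ∈ D i ⊓ D j := ⟨(a 0).2, by simpa using sub_mem e' hvj⟩
    rw [hdis i j hij, Submodule.mem_bot] at hmem
    exact hli.ne_zero 0 hmem
  obtain ⟨g, hg, hfix, z, hz, hgz⟩ := mover 0 1 (by decide)
  obtain ⟨g', hg', -, z', hz', hgz'⟩ := mover 1 0 (by decide)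
  refine ⟨Cfsg.Geo.subspaceStabilizer (D 0) ⊓ Cfsg.Geo.omegaGL Q, lt_and_lt (fun a ha => ⟨mem_stabilizing ?_, ha.2⟩)
    inf_le_right (x := g) ⟨mem_stabilizing (fun v hv => by rw [hfix v hv]; exact hv), hg⟩ (fun hc => ?_) (y := g') hg'
      (fun hc => hgz' ((hc.1 z').1 hz'))⟩
  · obtain ⟨σ, hσ⟩ := ha.1
    intro v hv
    have h0 : σ 0 = 0 := by
      by_contra hne
      have h1 : σ 0 = 1 := by omega
      have hpar := omega_parity hQ hcard (hDts 0) ha.2
      rw [hσ 0, h1, hdis 0 1 (by decide), finrank_bot, Nat.sub_zero] at hpar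
      exact (Nat.not_even_iff_odd.2 hko) hpar
    have h2 : a.1 *ᵥ v ∈ (D 0).map (Matrix.toLin' a.1) := ⟨v, hv, Matrix.toLin'_apply _ _⟩
    rw [hσ 0, h0] at h2
    exact h2
  · obtain ⟨σ, hσ⟩ := hc.1
    have h0 : σ 0 = 0 := by
      by_contra hne
      have h1 : σ 0 = 1 := by omega
      obtain ⟨y, hy, hy0⟩ := exists_ne_zero hD 0
      have h2 : g.1 *ᵥ y ∈ (D 0).map (Matrix.toLin' g.1) := ⟨y, hy, Matrix.toLin'_apply _ _⟩
      rw [hσ 0, h1, hfix y hy] at h2
      have h3 : y ∈ D 0 ⊓ D 1 := ⟨hy, h2⟩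
      rw [hdis 0 1 (by decide), Submodule.mem_bot] at h3
      exact hy0 h3
    have h1 : σ 1 = 1 := by
      have h5 : σ 1 ≠ σ 0 := fun e' => absurd (σ.injective e') (by decide)
      omega
    have h2 : g.1 *ᵥ z ∈ (D 1).map (Matrix.toLin' g.1) := ⟨z, hz, Matrix.toLin'_apply _ _⟩
    rw [hσ 1, h1] at h2
    exact hgz h2

end Cfsg.Agent.S5698
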