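import Cfsg.Statements.S5699
import Cfsg.Agent.Lib.MaxSub.OrthSplit
import Cfsg.Agent.Lib.NonMax.OmegaTools

set_option autoImplicit false
open Cfsg

namespace Cfsg.Agent.S5699

open scoped Matrix
open CfsgLib.Orth.Siegel CfsgLib.MaxSub.OrthStab CfsgLib.MaxSub.OrthSplit

/-- Let F be a finite field with q elements, n ≥ 13 even, Q a non-degenerate quadratic form on F^n (of either type), and Ω the commutator subgroup of the isometry group of Q, viewed inside GL_n(F). Let D be a decomposition of F^n into two orthogonal subspaces of odd dimension n/2 on which the polar form is non-degenerate and which are not Q-isometric to each other. Then the elements of Ω permuting (necessarily fixing) the two subspaces form a maximal subgroup of Ω. -/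
theorem result {F : Type*} [Field F] [Fintype F] {n : ℕ} (hn : 13 ≤ n) (heven : Even n) (Q : (Fin n → F) → F) (hQ : Cfsg.Geo.IsNondegenerateQuadraticForm Q) (k : ℕ) (hk : 2 * k = n) (hko : Odd k) (D : Fin 2 → Submodule F (Fin n → F)) (hD : Cfsg.Geo.IsNondegenerateMDecomposition (QuadraticMap.polar Q) k D) (hni : ¬ Cfsg.Geo.AreIsometricFor Q (D 0) (D 1)) : Cfsg.Geo.IsMaximalIn (Cfsg.Geo.omegaGL Q) (Cfsg.Geo.decompositionStabilizer D ⊓ Cfsg.Geo.omegaGL Q) := by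
  classical
  obtain ⟨P, rfl⟩ : ∃ P : QuadraticForm F (Fin n → F), Q = ⇑P := ⟨_, (CfsgLib.NonMax.OmegaTools.coe_toQ hQ).symm⟩
  have hP : (QuadraticMap.polarBilin P).Nondegenerate := CfsgLib.NonMax.OmegaTools.nondegenerate hQ
  have hn5 : 5 ≤ Fintype.card (Fin n) := by rw [Fintype.card_fin]; omega
  set U := D 0 with hUdef
  set W := D 1 with hWdef
  have horth : ∀ u ∈ U, ∀ w ∈ W, B P u w = 0 := fun u hu w hw => hD.orthogonal 0 1 (by decide) u hu w hw
  have horth' : ∀ w ∈ W, ∀ u ∈ U, B P w u = 0 := fun w hw u hu => by rw [B_comm]; exact horth u hu w hw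
  have hsup : U ⊔ W = ⊤ := by
    refine eq_top_iff.2 (hD.decomp.iSup_eq_top ▸ iSup_le fun i => ?_)
    fin_cases i
    · exact le_sup_left
    · exact le_sup_right
  have hsup' : W ⊔ U = ⊤ := by rw [sup_comm]; exact hsup
  have hUd : Module.finrank F U = k := hD.decomp.finrank_eq 0
  have hWd : Module.finrank F W = k := hD.decomp.finrank_eq 1
  have hU7 : 7 ≤ Module.finrank F U := by omega
  have hW7 : 7 ≤ Module.finrank F W := by omega
  have hdisj : ∀ x ∈ U, x ∈ W → x = 0 := fun x hx hx' => hP.1 x fun y => by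
    obtain ⟨a, ha, b, hb, rfl⟩ := Submodule.mem_sup.1 (show y ∈ U ⊔ W by rw [hsup]; trivial)
    show B P x (a + b) = 0
    rw [map_add, horth' x hx' a ha, horth x hx b hb, add_zero]
  have hboth : ∀ a ∈ U, ∀ b ∈ W, a ≠ 0 → b ≠ 0 → a + b ∉ U ∧ a + b ∉ W := fun a ha b hb ha0 hb0 =>
    ⟨fun h => hb0 (hdisj b ((U.add_mem_iff_right ha).1 h) hb), fun h => ha0 (hdisj a ha ((W.add_mem_iff_left hb).1 h))⟩
  have fin : ∀ A : Cfsg.isometryGroup F ⇑P, ∀ σ : Equiv.Perm (Fin 2), (∀ i, ∀ x ∈ D i, A.1.1 *ᵥ x ∈ D (σ i)) →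
      A.1 ∈ Cfsg.Geo.decompositionStabilizer D := fun A σ hσ => ⟨σ, fun i => by
    refine Submodule.eq_of_le_of_finrank_eq (by rintro _ ⟨x, hx, rfl⟩; rw [Matrix.toLin'_apply]; exact hσ i x hx) ?_
    rw [hD.decomp.finrank_eq]
    refine Eq.trans (Submodule.equivMapOfInjective _ (fun x y h => ?_) _).finrank_eq.symm (hD.decomp.finrank_eq i)
    rw [Matrix.toLin'_apply, Matrix.toLin'_apply] at h
    exact Matrix.mulVec_injective_iff_isUnit.2 A.1.isUnit h⟩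
  obtain ⟨u, huU, hu, hu0, -, -, -⟩ := iso_out (Q := P) hU7 (0 : Fin n → F) 0
  refine ⟨lt_of_le_of_ne inf_le_right fun heq => ?_, fun M hM hMK => or_iff_not_imp_left.2 fun hne => le_antisymm hMK ?_⟩
  · obtain ⟨w, hwW, hw, hw0, -, -, -⟩ := iso_out (Q := P) hW7 (0 : Fin n → F) 0
    have hs : P (u + w) = 0 := by rw [Q_add, hu, hw, horth u huU w hwW, add_zero, add_zero]
    have hs0 : u + w ≠ 0 := fun e => (hboth u huU w hwW hu0 hw0).1 (e ▸ U.zero_mem)
    obtain ⟨A, c, hA⟩ := CfsgLib.Orth.OmegaSimple.exists_map hP hn5 hu hs hu0 hs0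
    obtain ⟨σ, hσ⟩ := (heq.ge ⟨A.1, A.2, rfl⟩).1
    have hmem : A.1.1.1 *ᵥ u ∈ D (σ 0) := (hσ 0).le ⟨u, huU, Matrix.toLin'_apply _ _⟩
    rw [hA] at hmem
    have hc : c ≠ 0 := fun e => hu0 (by
      rw [e, zero_smul] at hA
      rw [← inv_mulVec A.1 u, hA, Matrix.mulVec_zero])
    rw [Submodule.smul_mem_iff _ hc] at hmem
    rcases Fin.exists_fin_two.1 ⟨σ 0, rfl⟩ with h | h <;> rw [h] at hmem
    · exact (hboth u huU w hwW hu0 hw0).1 hmem
    · exact (hboth u huU w hwW hu0 hw0).2 hmem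
  obtain ⟨g₁, hgM, hgH⟩ := SetLike.exists_of_lt (lt_of_le_of_ne hM (Ne.symm hne))
  obtain ⟨g, hgΩ, rfl⟩ := hMK hgM
  set N := M.comap (Cfsg.isometryGroup F ⇑P).subtype with hN
  have hEΩ : E P ≤ Cfsg.Omega F ⇑P := (omega_eq_E hP hn5).ge
  have hroots : ∀ (X Y : Fin 2) , X ≠ Y → ∀ a ∈ D X, ∀ x ∈ D X, ∀ (ha : P a = 0) (hax : B P a x = 0), S a x ha hax ∈ N := by
    intro X Y hXY a haX x hxX ha hax
    refine hM ⟨fin _ 1 fun i z hz => ?_, _, hEΩ (S_mem_E ha hax), rfl⟩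
    rw [Equiv.Perm.one_apply]
    by_cases hi : i = X
    · subst hi
      rw [S_apply]
      exact (D i).sub_mem ((D i).add_mem hz ((D i).smul_mem _ hxX)) ((D i).smul_mem _ haX)
    · have o : ∀ y ∈ D X, B P z y = 0 := fun y hy => hD.orthogonal i X hi z hz y hy
      rw [S_apply, o a haX, o x hxX]; simpa using hz
  suffices h : E P ≤ N by
    rintro _ ⟨X, hX, rfl⟩
    exact h ((omega_eq_E hP hn5).le hX)
  by_cases hex : ∃ u ∈ U, P u = 0 ∧ u ≠ 0 ∧ g.1.1 *ᵥ u ∉ U ∧ g.1.1 *ᵥ u ∉ W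
  · obtain ⟨u₀, hu₀U, hu₀, hu₀0, hgu⟩ := hex
    obtain ⟨x₀, hx₀U, hx₀, -, hux, -, hxn⟩ := iso_out (Q := P) hU7 u₀ u₀
    exact split_top hP hn5 horth hsup hU7 hW7 N (hroots 0 1 (by decide)) (hroots 1 0 (by decide)) (g := g) hgM hu₀U hx₀U
      hu₀ hx₀ hux (by simpa using hxn) hgu
  exfalso
  simp only [not_exists, not_and, not_not] at hex
  have hside : ∀ z ∈ U, P z = 0 → z ≠ 0 → g.1.1 *ᵥ z ∈ U ∨ g.1.1 *ᵥ z ∈ W := fun z hz hQz hz0 =>
    or_iff_not_imp_left.2 fun h => hex z hz hQz hz0 h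
  have hne0 : ∀ z, z ≠ 0 → g.1.1 *ᵥ z ≠ 0 := fun z hz e => hz (by rw [← inv_mulVec g z, e, Matrix.mulVec_zero])
  have pairstep : ∀ a ∈ U, ∀ b ∈ U, P a = 0 → P b = 0 → B P a b = 0 → a ≠ 0 → b ≠ 0 → a + b ≠ 0 →
      ((g.1.1 *ᵥ a ∈ U → g.1.1 *ᵥ b ∈ U) ∧ (g.1.1 *ᵥ a ∈ W → g.1.1 *ᵥ b ∈ W)) := by
    intro a ha b hb hQa hQb hab ha0 hb0 hab0
    have hs : P (a + b) = 0 := by rw [Q_add, hQa, hQb, hab, add_zero, add_zero]
    have h3 := hside _ (U.add_mem ha hb) hs hab0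
    rw [Matrix.mulVec_add] at h3
    constructor
    · intro h1
      rcases hside b hb hQb hb0 with h | h
      · exact h
      · rcases h3 with h3 | h3
        · exact absurd h3 (hboth _ h1 _ h (hne0 a ha0) (hne0 b hb0)).1
        · exact absurd h3 (hboth _ h1 _ h (hne0 a ha0) (hne0 b hb0)).2
    · intro h1
      rcases hside b hb hQb hb0 with h | h
      · rw [add_comm] at h3
        rcases h3 with h3 | h3
        · exact absurd h3 (hboth _ h _ h1 (hne0 b hb0) (hne0 a ha0)).1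
        · exact absurd h3 (hboth _ h _ h1 (hne0 b hb0) (hne0 a ha0)).2
      · exact h
  have hspan : ∀ (Y : Submodule F (Fin n → F)), (∀ z ∈ U, P z = 0 → g.1.1 *ᵥ z ∈ Y) → ∀ z ∈ U, g.1.1 *ᵥ z ∈ Y := by
    intro Y hY z hz
    obtain ⟨y, hyU, hy, -, -, huy⟩ := iso1 hP horth hsup hU7 U.zero_mem U.zero_mem huU (by
      rw [show ({0, 0} : Set (Fin n → F)) = {0} by simp, Submodule.span_zero_singleton, Submodule.mem_bot]; exact hu0)
    have hy' : B P u ((B P u y)⁻¹ • y) = 1 := by rw [map_smul, smul_eq_mul, inv_mul_cancel₀ huy]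
    have hzs := span_singular (Q := P) (H := U) huU (U.smul_mem (B P u y)⁻¹ hyU) hu (by rw [Q_smul, hy, mul_zero]) hy' hz
    have hle : Submodule.span F {x | x ∈ U ∧ P x = 0} ≤ Y.comap (Matrix.mulVecLin g.1.1) :=
      Submodule.span_le.2 fun x hx => hY x hx.1 hx.2
    exact hle hzs
  have hall : (∀ z ∈ U, P z = 0 → z ≠ 0 → g.1.1 *ᵥ z ∈ U) ∨ (∀ z ∈ U, P z = 0 → z ≠ 0 → g.1.1 *ᵥ z ∈ W) := by
    have trans : ∀ z ∈ U, P z = 0 → z ≠ 0 → ((g.1.1 *ᵥ u ∈ U → g.1.1 *ᵥ z ∈ U) ∧ (g.1.1 *ᵥ u ∈ W → g.1.1 *ᵥ z ∈ W)) := by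
      intro z hz hQz hz0
      obtain ⟨d, hdU, hd, hd0, hud, hzd, hdn⟩ := iso_out (Q := P) hU7 u z
      have h1 := pairstep u huU d hdU hu hd hud hu0 hd0 (fun e => hdn (Submodule.mem_span_pair.2
        ⟨-1, 0, by rw [zero_smul, add_zero, neg_one_smul, ← eq_neg_of_add_eq_zero_right e]⟩))
      have h2 := pairstep d hdU z hz hd hQz (by rw [B_comm]; exact hzd) hd0 hz0 (fun e => hdn (Submodule.mem_span_pair.2
        ⟨0, -1, by rw [zero_smul, zero_add, neg_one_smul, ← eq_neg_of_add_eq_zero_left e]⟩))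
      exact ⟨fun h => h2.1 (h1.1 h), fun h => h2.2 (h1.2 h)⟩
    rcases hside u huU hu hu0 with h | h
    · exact Or.inl fun z hz hQz hz0 => (trans z hz hQz hz0).1 h
    · exact Or.inr fun z hz hQz hz0 => (trans z hz hQz hz0).2 h
  have hfill : ∀ (Y : Submodule F (Fin n → F)), (∀ z ∈ U, P z = 0 → z ≠ 0 → g.1.1 *ᵥ z ∈ Y) → ∀ z ∈ U, g.1.1 *ᵥ z ∈ Y :=
    fun Y hY => hspan Y fun z hz hQz => by
      by_cases hz0 : z = 0
      · rw [hz0, Matrix.mulVec_zero]; exact Y.zero_mem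
      · exact hY z hz hQz hz0
  rcases hall with h | h
  · have hU' := hfill U h
    have hsurj : ∀ y ∈ U, ∃ x ∈ U, g.1.1 *ᵥ x = y := fun y hy => by
      let f : U → U := fun x => ⟨g.1.1 *ᵥ x.1, hU' x.1 x.2⟩
      have hf : Function.Injective f := fun a b he => Subtype.ext (by
        have := congrArg (fun z : U => (g⁻¹).1.1 *ᵥ z.1) he
        simpa only [f, inv_mulVec] using this)
      obtain ⟨x, hx⟩ := (Finite.injective_iff_surjective.1 hf) ⟨y, hy⟩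
      exact ⟨x.1, x.2, congrArg Subtype.val hx⟩
    refine hgH ⟨fin g 1 fun i => ?_, g, hgΩ, rfl⟩
    fin_cases i
    · exact hU'
    · intro x (hx : x ∈ W)
      show g.1.1 *ᵥ x ∈ W
      obtain ⟨a, ha, b, hb, hab⟩ := Submodule.mem_sup.1 (show g.1.1 *ᵥ x ∈ U ⊔ W by rw [hsup]; trivial)
      have ha0 : a = 0 := by
        obtain ⟨c, hc, hca⟩ := hsurj a ha
        refine hP.1 a fun y => ?_
        obtain ⟨y1, hy1, y2, hy2, rfl⟩ := Submodule.mem_sup.1 (show y ∈ U ⊔ W by rw [hsup]; trivial)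
        obtain ⟨c', hc', rfl⟩ := hsurj y1 hy1
        show B P a (g.1.1 *ᵥ c' + y2) = 0
        have h1 : B P (g.1.1 *ᵥ x) (g.1.1 *ᵥ c') = 0 := by rw [B_gen]; exact horth' x hx c' hc'
        rw [← hab, map_add, LinearMap.add_apply, horth' b hb _ hy1, add_zero] at h1
        rw [map_add, h1, horth a ha y2 hy2, add_zero]
      rw [← hab, ha0, zero_add]; exact hb
  · have hW' := hfill W h
    refine hni ⟨LinearEquiv.ofInjectiveOfFinrankEq
      { toFun := fun x : U => (⟨g.1.1 *ᵥ x.1, hW' x.1 x.2⟩ : W)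
        map_add' := fun a b => Subtype.ext (show g.1.1 *ᵥ (a.1 + b.1) = g.1.1 *ᵥ a.1 + g.1.1 *ᵥ b.1 from Matrix.mulVec_add _ _ _)
        map_smul' := fun c a => Subtype.ext (show g.1.1 *ᵥ (c • a.1) = c • (g.1.1 *ᵥ a.1) from Matrix.mulVec_smul _ _ _) } (fun a b he => Subtype.ext (by
        have := congrArg (fun z : W => (g⁻¹).1.1 *ᵥ z.1) he
        simpa only [LinearMap.coe_mk, AddHom.coe_mk, inv_mulVec] using this)) (hUd.trans hWd.symm), fun x => Q_gen g x.1⟩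

end Cfsg.Agent.S5699
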