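import Cfsg.Statements.S5705
import Mathlib
import Cfsg.Agent.Lib.NonMax.TensorTwo
import Cfsg.Agent.Lib.NonMax.OmegaTools

set_option autoImplicit false
open Cfsg

namespace Cfsg.Agent.S5705

open scoped Matrix Kronecker
open CfsgLib.NonMax.TensorTwo CfsgLib.NonMax.TensorTools CfsgLib.NonMax.Tools CfsgLib.NonMax.OmegaTools

/-- Let F be the field with 2 elements, n = 2 n₂ ≥ 13 even, Q a non-degenerate quadratic form on F^n of plus type and Ω the commutator subgroup of its isometry group. Suppose that, through P and e, the polar form of Q is similar to the tensor product of non-degenerate symplectic forms f₁ on F^2 and f₂ on F^(n₂), and Q vanishes on the images of all pure tensors. Then the elements of Ω in the stabiliser of this tensor decomposition form a subgroup that is not maximal: some subgroup lies strictly between it and Ω. -/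
theorem result {F : Type*} [Field F] [Fintype F] {n : ℕ} (hn : 13 ≤ n) (heven : Even n) (Q : (Fin n → F) → F) (hQ : Cfsg.Geo.IsNondegenerateQuadraticForm Q) (hplus : Cfsg.Geo.IsPlusTypeOn Q ⊤) (hq : Fintype.card F = 2) (n₂ : ℕ) (h2 : 2 < n₂) (e : (Fin n) ≃ Fin 2 × Fin n₂) (P : Matrix.GeneralLinearGroup (Fin n) F) (f₁ : (Fin 2 → F) → (Fin 2 → F) → F) (f₂ : (Fin n₂ → F) → (Fin n₂ → F) → F) (hf₁ : Cfsg.Geo.IsSymplecticForm f₁) (hf₂ : Cfsg.Geo.IsSymplecticForm f₂) (hT : Cfsg.Geo.IsTensorFormStructure id (QuadraticMap.polar Q) f₁ f₂ e P) (hpure : (∀ (x₁ : Fin 2 → F) (x₂ : Fin n₂ → F), Q (Matrix.mulVec (P : Matrix (Fin n) (Fin n) F) ((fun a : Fin 2 × Fin n₂ => x₁ a.1 * x₂ a.2) ∘ e)) = 0)) : ∃ K : Subgroup (Matrix.GeneralLinearGroup (Fin n) F), Cfsg.Geo.tensorProductSubgroup 2 n₂ e P ⊓ Cfsg.Geo.omegaGL Q < K ∧ K < Cfsg.Geo.omegaGL Q := by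
  obtain ⟨h2, hel⟩ := two_facts hq
  have h11 : (1 : F) + 1 = 0 := one_add_one_eq_two.trans h2
  have hneg : ∀ a : F, -a = a := fun a => by linear_combination -a * h2
  have hB := hQ.polar_bilinear
  have hb₁ := hf₁.bilinear
  have hb₂ := hf₂.bilinear
  obtain ⟨c, hc, hT'⟩ := form_tp (σ := id) (fun _ _ => rfl)
    (formOfGram_eq id f₁ hb₁.add_left hb₁.smul_left hb₁.add_right hb₁.smul_right)
    (formOfGram_eq id f₂ hb₂.add_left hb₂.smul_left hb₂.add_right hb₂.smul_right) hT
  have hc1 : c = 1 := (hel c).resolve_left hc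
  obtain ⟨d₀, hd₀⟩ : ∃ d : Fin 2 → F, d = ![1, 0] := ⟨_, rfl⟩
  obtain ⟨d₁, hd₁⟩ : ∃ d : Fin 2 → F, d = ![0, 1] := ⟨_, rfl⟩
  have hd : f₁ d₀ d₁ = 1 := by
    refine (hel _).resolve_left fun h0 => ?_
    obtain ⟨x, hx⟩ := (hf₁.nondegenerate d₀ (fun e' => one_ne_zero (α := F) (by
      have := congrFun e' 0; rw [hd₀] at this; simpa using this))).2
    have hexp : x = x 0 • d₀ + x 1 • d₁ := by
      funext i; rw [hd₀, hd₁]; fin_cases i <;> simp
    apply hx
    rw [hexp, hb₁.add_right, hb₁.smul_right, hb₁.smul_right, hf₁.alternating, h0]; ring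
  have hd' : f₁ d₁ d₀ = 1 := by rw [hf₁.skew, hd, hneg]
  let L : (Fin n₂ → F) → (Fin n₂ → F) → (Fin n → F) := fun Y₀ Y₁ => tp e P d₀ Y₀ + tp e P d₁ Y₁
  have hP : ∀ A₀ A₁ B₀ B₁, QuadraticMap.polar Q (L A₀ A₁) (L B₀ B₁) = f₂ A₀ B₁ + f₂ A₁ B₀ :=
    fun A₀ A₁ B₀ B₁ => by
      simp only [L, hB.add_left, hB.add_right, hT', hc1, hd, hd', hf₁.alternating]; ring
  have hQL : ∀ Y₀ Y₁, Q (L Y₀ Y₁) = f₂ Y₀ Y₁ := fun Y₀ Y₁ => by
    have h1 : Q (tp e P d₀ Y₀) = 0 := hpure d₀ Y₀
    have h3 : Q (tp e P d₁ Y₁) = 0 := hpure d₁ Y₁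
    have h4 := hT' d₀ Y₀ d₁ Y₁
    rw [hc1, hd, one_mul, one_mul, QuadraticMap.polar, h1, h3, sub_zero, sub_zero] at h4
    exact h4
  have hsmulL : ∀ Y₀ Y₁ Z₀ Z₁, L Y₀ Y₁ + L Z₀ Z₁ = L (Y₀ + Z₀) (Y₁ + Z₁) := fun Y₀ Y₁ Z₀ Z₁ => by
    simp only [L, map_add]; abel
  have huniq : ∀ Y₀ Y₁, L Y₀ Y₁ = 0 → Y₀ = 0 ∧ Y₁ = 0 := fun Y₀ Y₁ h => by
    constructor
    · by_contra hne
      obtain ⟨z, hz⟩ := (hf₂.nondegenerate Y₀ hne).2
      apply hz
      have h5 := hP Y₀ Y₁ 0 z
      rw [h, show QuadraticMap.polar Q 0 (L 0 z) = 0 by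
        have := hB.smul_left 0 0 (L 0 z); rwa [zero_smul, zero_mul] at this] at h5
      have h6 : f₂ Y₁ 0 = 0 := by have := hb₂.smul_right 0 Y₁ 0; rwa [zero_smul, zero_mul] at this
      rw [h6, add_zero] at h5
      exact h5.symm
    · by_contra hne
      obtain ⟨z, hz⟩ := (hf₂.nondegenerate Y₁ hne).2
      apply hz
      have h5 := hP Y₀ Y₁ z 0
      rw [h, show QuadraticMap.polar Q 0 (L z 0) = 0 by
        have := hB.smul_left 0 0 (L z 0); rwa [zero_smul, zero_mul] at this] at h5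
      have h6 : f₂ Y₀ 0 = 0 := by have := hb₂.smul_right 0 Y₀ 0; rwa [zero_smul, zero_mul] at this
      rw [h6, zero_add] at h5
      exact h5.symm
  set Wg := Φ e P (W0 h2) with hWg
  have hW3 : Wg * Wg * Wg = 1 := by rw [hWg, ← map_mul, ← map_mul, W0_cube, map_one]
  have hW1 : Wg ≠ 1 := fun h => W0_ne (r := n₂) h2 (by omega) ((Φ e P).injective (h.trans (map_one _).symm))
  have hw₀ : (w : Matrix (Fin 2) (Fin 2) F) *ᵥ d₀ = d₁ := by
    funext i; rw [hd₀, hd₁]; fin_cases i <;> simp [w]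
  have hw₁ : (w : Matrix (Fin 2) (Fin 2) F) *ᵥ d₁ = d₀ + d₁ := by
    funext i; rw [hd₀, hd₁]; fin_cases i <;> simp [w]
  have hWL : ∀ Y₀ Y₁, Wg.1 *ᵥ L Y₀ Y₁ = L Y₁ (Y₀ + Y₁) := fun Y₀ Y₁ => by
    simp only [L, Matrix.mulVec_add, hWg, W0_tp, hw₀, hw₁, map_add, LinearMap.add_apply]; abel
  -- vectors of the second factor
  have hsymm : ∀ u v, f₂ u v = f₂ v u := fun u v => by rw [hf₂.skew, hneg]
  obtain ⟨y, hy⟩ : ∃ y : Fin n₂ → F, y = Pi.single ⟨0, by omega⟩ 1 := ⟨_, rfl⟩
  obtain ⟨y', hy'⟩ : ∃ y', f₂ y y' = 1 := by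
    obtain ⟨x, hx⟩ := (hf₂.nondegenerate y (fun e' => one_ne_zero (α := F) (by
      have := congrFun e' ⟨0, by omega⟩; rw [hy] at this; simpa using this))).2
    exact ⟨x, (hel _).resolve_left hx⟩
  let pr : (Fin n₂ → F) → (Fin n₂ → F) := fun u => u + f₂ u y' • y + f₂ u y • y'
  have hpr : ∀ u, f₂ (pr u) y = 0 ∧ f₂ (pr u) y' = 0 := fun u => by
    simp only [pr, hb₂.add_left, hb₂.smul_left, hf₂.alternating, hy', hsymm y' y]
    exact ⟨by linear_combination f₂ u y * h2, by linear_combination f₂ u y' * h2⟩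
  obtain ⟨z, hz0, hzy, hzy'⟩ : ∃ z, z ≠ 0 ∧ f₂ z y = 0 ∧ f₂ z y' = 0 := by
    obtain ⟨u, hu⟩ : ∃ u, u ∉ Submodule.span F {y, y'} := by
      by_contra hno
      push Not at hno
      have h1 := Submodule.finrank_mono (show (⊤ : Submodule F (Fin n₂ → F)) ≤ Submodule.span F {y, y'} from fun u _ => hno u)
      classical
      have h3 : Module.finrank F (Submodule.span F ({y, y'} : Set (Fin n₂ → F))) ≤ 2 := by
        refine (finrank_span_le_card _).trans ?_
        simp only [Set.toFinset_insert, Set.toFinset_singleton]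
        exact Finset.card_le_two
      rw [finrank_top, Module.finrank_fintype_fun_eq_card, Fintype.card_fin] at h1
      omega
    refine ⟨pr u, fun e' => hu ?_, hpr u⟩
    have : u = -(f₂ u y' • y + f₂ u y • y') := eq_neg_of_add_eq_zero_left (by rw [← e']; simp only [pr]; abel)
    rw [this]
    exact neg_mem (add_mem (Submodule.smul_mem _ _ (Submodule.subset_span (by simp)))
      (Submodule.smul_mem _ _ (Submodule.subset_span (by simp))))
  obtain ⟨z', hzz', hz'y, hz'y'⟩ : ∃ z', f₂ z z' = 1 ∧ f₂ z' y = 0 ∧ f₂ z' y' = 0 := by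
    obtain ⟨x, hx⟩ := (hf₂.nondegenerate z hz0).2
    refine ⟨pr x, ?_, hpr x⟩
    simp only [pr, hb₂.add_right, hb₂.smul_right, hzy, hzy', (hel _).resolve_left hx]
    ring
  have hyy := hf₂.alternating
  have hy'y : f₂ y' y = 1 := by rw [hsymm]; exact hy'
  have hyz' : f₂ y z' = 0 := by rw [hsymm]; exact hz'y
  have hy'z' : f₂ y' z' = 0 := by rw [hsymm]; exact hz'y'
  have hy'z : f₂ y' z = 0 := by rw [hsymm]; exact hzy'
  have hyz : f₂ y z = 0 := by rw [hsymm]; exact hzy
  -- the anisotropic vectors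
  set a := L y y' with ha'
  set b := L y' (y + y') with hb'
  set q := L (y' + z) (y + y') with hq'
  have hQa : Q a = 1 := by rw [hQL, hy']
  have hQb : Q b = 1 := by rw [hQL, hb₂.add_right, hy'y, hyy, add_zero]
  have hQq : Q q = 1 := by
    rw [hQL, hb₂.add_left, hb₂.add_right, hb₂.add_right, hy'y, hyy, hzy, hzy', add_zero, add_zero, add_zero]
  have hpab : QuadraticMap.polar Q a b = 1 := by
    rw [hP, hb₂.add_right, hy', hyy, hyy, zero_add, add_zero]
  have hpaq : QuadraticMap.polar Q a q = 1 := by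
    rw [hP, hb₂.add_right, hb₂.add_right, hy', hyy, hyy, hy'z, zero_add, add_zero, add_zero]
  have hd1 : ∀ u v, Q u = 1 → Q v = 1 → QuadraticMap.polar Q u v = 1 → Q (u - v) ≠ 0 := fun u v hu hv huv => by
    have h1 : u - v = u + v := by
      funext i; simp only [Pi.sub_apply, Pi.add_apply, sub_eq_add_neg, hneg]
    have h3 : Q (u + v) = Q u + Q v + QuadraticMap.polar Q u v := by simp only [QuadraticMap.polar]; ring
    rw [h1, h3, hu, hv, huv, h11, zero_add]
    exact one_ne_zero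
  have ha : Q a ≠ 0 := by rw [hQa]; exact one_ne_zero
  have hb : Q b ≠ 0 := by rw [hQb]; exact one_ne_zero
  have hqn : Q q ≠ 0 := by rw [hQq]; exact one_ne_zero
  have happly : ∀ (p : Fin n → F) (hp : Q p ≠ 0), Q p = 1 → ∀ v, (refl hQ hp).1 *ᵥ v = v + QuadraticMap.polar Q p v • p :=
    fun p hp h1 v => by
      rw [refl_apply, h1, inv_one, one_mul, sub_eq_add_neg, ← neg_smul, hneg]
  have hpair : ∀ (p : Fin n → F) (hp : Q p ≠ 0), Q p = 1 → QuadraticMap.polar Q a p = 1 → ∀ v,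
      (refl hQ ha * refl hQ hp).1 *ᵥ v = v + QuadraticMap.polar Q p v • p +
        (QuadraticMap.polar Q a v + QuadraticMap.polar Q p v) • a := fun p hp h1 h3 v => by
    rw [Units.val_mul, ← Matrix.mulVec_mulVec, happly p hp h1, happly a ha hQa, hB.add_right, hB.smul_right, h3, mul_one]
  set g := refl hQ ha * refl hQ hb with hg'
  set g' := refl hQ ha * refl hQ hqn with hg''
  have hgΩ : g ∈ Cfsg.Geo.omegaGL Q := pair_mem hQ ha (hQb.trans hQa.symm) (hd1 a b hQa hQb hpab)
  have hg'Ω : g' ∈ Cfsg.Geo.omegaGL Q := pair_mem hQ ha (hQq.trans hQa.symm) (hd1 a q hQa hQq hpaq)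
  have hWa : Wg.1 *ᵥ a = b := hWL y y'
  have hWb : Wg.1 *ᵥ b = a + b := by
    rw [hb', hWL, ha', hsmulL, add_comm y' (y + y'), add_comm y y']
  have hLall : ∀ v, ∃ Y₀ Y₁, v = L Y₀ Y₁ := fun v => by
    have hv : v ∈ Submodule.span F (Set.range fun p : (Fin 2 → F) × (Fin n₂ → F) => tp e P p.1 p.2) := by
      rw [span_tp e P]; trivial
    induction hv using Submodule.span_induction with
    | mem x hx =>
      obtain ⟨⟨u, t⟩, rfl⟩ := hx
      refine ⟨u 0 • t, u 1 • t, ?_⟩
      have hu : u = u 0 • d₀ + u 1 • d₁ := by funext i; rw [hd₀, hd₁]; fin_cases i <;> simp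
      simp only [L]
      conv_lhs => rw [hu]
      simp only [map_add, map_smul, LinearMap.add_apply, LinearMap.smul_apply]
    | zero => exact ⟨0, 0, by simp [L]⟩
    | add x x' _ _ hx hx' =>
      obtain ⟨Y₀, Y₁, rfl⟩ := hx
      obtain ⟨Z₀, Z₁, rfl⟩ := hx'
      exact ⟨_, _, hsmulL Y₀ Y₁ Z₀ Z₁⟩
    | smul r x _ hx =>
      obtain ⟨Y₀, Y₁, rfl⟩ := hx
      exact ⟨r • Y₀, r • Y₁, by simp [L, smul_add]⟩
  have hWP : ∀ u v, QuadraticMap.polar Q (Wg.1 *ᵥ u) (Wg.1 *ᵥ v) = QuadraticMap.polar Q u v := fun u v => by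
    obtain ⟨A₀, A₁, rfl⟩ := hLall u
    obtain ⟨B₀, B₁, rfl⟩ := hLall v
    rw [hWL, hWL, hP, hP, hb₂.add_right, hb₂.add_left]
    linear_combination f₂ A₁ B₁ * h2
  have hcomm : g * Wg = Wg * g := by
    refine Units.ext (Matrix.ext_of_mulVec_single fun i => ?_)
    set v : Fin n → F := Pi.single i 1
    rw [Units.val_mul g Wg, Units.val_mul Wg g, ← Matrix.mulVec_mulVec, ← Matrix.mulVec_mulVec, hpair b hb hQb hpab,
      hpair b hb hQb hpab, Matrix.mulVec_add, Matrix.mulVec_add, Matrix.mulVec_smul, Matrix.mulVec_smul, hWa, hWb]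
    have e1 : QuadraticMap.polar Q b (Wg.1 *ᵥ v) = QuadraticMap.polar Q a v := by rw [← hWa, hWP]
    have e2 : QuadraticMap.polar Q a (Wg.1 *ᵥ v) = QuadraticMap.polar Q a v + QuadraticMap.polar Q b v := by
      have h5 : Wg.1 *ᵥ (a + b) = a := by
        rw [Matrix.mulVec_add, hWa, hWb]
        funext j; simp only [Pi.add_apply]; linear_combination b j * h2
      calc _ = QuadraticMap.polar Q (Wg.1 *ᵥ (a + b)) (Wg.1 *ᵥ v) := by rw [h5]
        _ = _ := by rw [hWP, hB.add_left]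
    rw [e1, e2]
    funext j
    simp only [Pi.add_apply, Pi.smul_apply, smul_eq_mul]
    linear_combination (QuadraticMap.polar Q a v * a j - QuadraticMap.polar Q b v * b j) * h2 -
      (QuadraticMap.polar Q a v * 0) * h2
  refine ⟨Subgroup.normalizer (Subgroup.zpowers Wg : Set (GL (Fin n) F)) ⊓ Cfsg.Geo.omegaGL Q,
    lt_and_lt (fun k hk => ⟨stab_le hq h2 hk.1, hk.2⟩) inf_le_right (x := g) ⟨mem_normalizer hW3 (Or.inl hcomm), hgΩ⟩
      (fun h => ?_) (y := g') hg'Ω (fun h => ?_)⟩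
  · obtain ⟨A, B, hAB⟩ := exists_factors e P h.1
    have hz'' : g.1 *ᵥ tp e P d₀ z = tp e P d₀ z := by
      have h1 : tp e P d₀ z = L z 0 := by simp [L]
      have h6 : ∀ u, f₂ u 0 = 0 := fun u => by have := hb₂.smul_right 0 u 0; rwa [zero_smul, zero_mul] at this
      rw [h1, hpair b hb hQb hpab, hP, hP, h6, h6, hb₂.add_left, hyz, hy'z]
      simp
    rw [hAB] at hz''
    -- first factor fixes d₀
    have hA : (A.1 *ᵥ d₀) 1 = 0 := by
      by_contra hne
      apply hz0
      funext j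
      have := congrArg (fun v => ((P⁻¹ : GL (Fin n) F).1 *ᵥ v) (e.symm (1, j))) hz''
      simp only [tp_apply, Matrix.mulVec_mulVec, ← Units.val_mul, inv_mul_cancel, Units.val_one, Matrix.one_mulVec,
        Function.comp_apply, Equiv.apply_symm_apply] at this
      have hBz : (B.1 *ᵥ z) j = 0 := by
        rw [hd₀] at this hne
        simp at this hne
        exact this.resolve_left hne
      have h0 := congrArg (fun v => ((P⁻¹ : GL (Fin n) F).1 *ᵥ v) (e.symm (0, j))) hz''
      simp only [tp_apply, Matrix.mulVec_mulVec, ← Units.val_mul, inv_mul_cancel, Units.val_one, Matrix.one_mulVec,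
        Function.comp_apply, Equiv.apply_symm_apply] at h0
      rw [hBz, mul_zero, hd₀] at h0
      simpa using h0.symm
    have hgy : g.1 *ᵥ tp e P d₀ y = L (y + y') (y + y') := by
      have h1 : tp e P d₀ y = L y 0 := by simp [L]
      have h6 : ∀ u, f₂ u 0 = 0 := fun u => by have := hb₂.smul_right 0 u 0; rwa [zero_smul, zero_mul] at this
      rw [h1, hpair b hb hQb hpab, hP, hP, h6, h6, hb₂.add_left, hyy, hy'y, zero_add, zero_add, one_smul, h11,
        zero_smul, add_zero, hb', hsmulL, zero_add]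
    rw [hAB] at hgy
    have hsum : y + y' = 0 := by
      funext j
      have := congrArg (fun v => ((P⁻¹ : GL (Fin n) F).1 *ᵥ v) (e.symm (1, j))) hgy
      simp only [L, tp_apply, Matrix.mulVec_add, Matrix.mulVec_mulVec, ← Units.val_mul, inv_mul_cancel, Units.val_one,
        Matrix.one_mulVec, Function.comp_apply, Pi.add_apply, Equiv.apply_symm_apply] at this
      rw [hA, zero_mul] at this
      rw [hd₀, hd₁] at this
      simpa using this.symm
    have h7 : f₂ (y + y') y = 1 := by rw [hb₂.add_left, hyy, hy'y, zero_add]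
    rw [hsum] at h7
    have h8 : f₂ 0 y = 0 := by have := hb₂.smul_left 0 0 y; rwa [zero_smul, zero_mul] at this
    exact zero_ne_one (h8.symm.trans h7)
  · set v := L 0 z'
    have h6 : ∀ u, f₂ u 0 = 0 := fun u => by have := hb₂.smul_right 0 u 0; rwa [zero_smul, zero_mul] at this
    have hgv : g'.1 *ᵥ v = L (y + y' + z) (y + z') := by
      rw [hpair q hqn hQq hpaq, hP, hP, h6, h6, hb₂.add_left, hy'z', hzz', hyz']
      simp only [add_zero, zero_add, one_smul]
      rw [hq', ha', hsmulL, hsmulL]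
      congr 1
      · abel
      · funext j; simp only [Pi.add_apply]; linear_combination y' j * h2
    have hgWv : g'.1 *ᵥ (Wg.1 *ᵥ v) = L (z' + y + y' + z) (z' + y) := by
      rw [hWL, hpair q hqn hQq hpaq, hP, hP]
      simp only [hb₂.add_left, hb₂.add_right, hy'z', hzz', hyz', h6, add_zero, zero_add, h11, one_smul]
      rw [hq', ha', hsmulL, hsmulL]
      congr 1
      · abel
      · funext j; simp only [Pi.add_apply]; linear_combination y' j * h2
    rcases normalizer_cases hW3 hW1 h.1 with hn | hn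
    · have h1 := congrArg (fun k : GL (Fin n) F => k.1 *ᵥ v) hn
      simp only [Units.val_mul, ← Matrix.mulVec_mulVec, hgv, hgWv, hWL] at h1
      have h9 : (z' + y + y' + z) + (y + z') = y' + z := by
        funext j; simp only [Pi.add_apply]; linear_combination (y j + z' j) * h2
      obtain ⟨h10, -⟩ := huniq _ _ (show L ((z' + y + y' + z) + (y + z')) ((z' + y) + (y + y' + z + (y + z'))) = 0 by
        rw [← hsmulL, h1]
        funext j; simp only [Pi.add_apply, Pi.zero_apply]; linear_combination (L (y + z') (y + y' + z + (y + z'))) j * h2)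
      rw [h9] at h10
      have := congrArg (fun u => f₂ y u) h10
      simp only [hb₂.add_right, hy', hyz, h6, add_zero] at this
      exact one_ne_zero this
    · have h1 := congrArg (fun k : GL (Fin n) F => k.1 *ᵥ v) hn
      simp only [Units.val_mul, ← Matrix.mulVec_mulVec, hgv, hgWv, hWL] at h1
      have h9 : (z' + y + y' + z) + (y + y' + z + (y + z')) = y := by
        funext j; simp only [Pi.add_apply]; linear_combination (z' j + y j + y' j + z j) * h2
      obtain ⟨h10, -⟩ := huniq _ _ (show L ((z' + y + y' + z) + (y + y' + z + (y + z')))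
          ((z' + y) + (y + z' + (y + y' + z + (y + z')))) = 0 by
        rw [← hsmulL, h1]
        funext j; simp only [Pi.add_apply, Pi.zero_apply]
        linear_combination (L (y + y' + z + (y + z')) (y + z' + (y + y' + z + (y + z')))) j * h2)
      rw [h9] at h10
      rw [h10] at hy'
      have h8 : f₂ 0 y' = 0 := by have := hb₂.smul_left 0 0 y'; rwa [zero_smul, zero_mul] at this
      exact zero_ne_one (h8.symm.trans hy')

end Cfsg.Agent.S5705
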