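import Cfsg.Statements.S5943
import Mathlib
import Cfsg.Agent.Lib.SL2.MaxField

set_option autoImplicit false
open Cfsg

namespace Cfsg.Agent.S5943

open CfsgLib.SL2Dickson CfsgLib.SL2Torus

/-- Let K and F be finite fields of characteristic 2 with #K = q > 2 and #F = q^r for a prime r. Then PSL_2(F) has a maximal subgroup isomorphic to PSL_2(K) (which equals PGL_2(K) in characteristic 2). -/
theorem result {F K : Type*} [Field F] [Fintype F] [Field K] [Fintype K] (q r : ℕ) (hK : Fintype.card K = q) (hF : Fintype.card F = q ^ r) (hq : Even q) (hq2 : q ≠ 2) (hr : r.Prime) : ∃ H : Subgroup (Matrix.ProjectiveSpecialLinearGroup (Fin 2) F), IsCoatom H ∧ Nonempty (H ≃* Matrix.ProjectiveSpecialLinearGroup (Fin 2) K) := by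
  subst hK
  obtain ⟨K₀, hK₀⟩ := exists_subfield (F := F) Fintype.one_lt_card hF.symm
  haveI : Fintype K₀ := Fintype.ofFinite _
  have h3 : 3 ≤ Nat.card K₀ := by rw [hK₀]; have := Fintype.one_lt_card (α := K); omega
  have he : Fintype.card F % 2 = 0 := by rw [hF]; exact Nat.even_iff.1 (hq.pow_of_ne_zero hr.ne_zero)
  exact ⟨_, isCoatom_pslSub hr (by rw [hK₀, hF]) h3 (fun h => absurd h (by omega)), pslSub_equiv (FiniteField.ringEquivOfCardEq (K := K) (K' := K₀)
    (by rw [← hK₀, Nat.card_eq_fintype_card]))⟩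

end Cfsg.Agent.S5943
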