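import Cfsg.Statements.S5945
import Mathlib
import Cfsg.Agent.Lib.Perm.SymSix

set_option autoImplicit false
open Cfsg

namespace Cfsg.Agent.S5945

/-- The symmetric group S_6 has exactly 12 subgroups of index 6; each of them is isomorphic to S_5, and at least one of them is not the stabilizer of any point. -/
theorem result : Nat.card {H : Subgroup (Equiv.Perm (Fin 6)) // H.index = 6} = 12 ∧ (∀ H : Subgroup (Equiv.Perm (Fin 6)), H.index = 6 → Nonempty (H ≃* Equiv.Perm (Fin 5))) ∧ ∃ H : Subgroup (Equiv.Perm (Fin 6)), H.index = 6 ∧ ∀ a : Fin 6, H ≠ MulAction.stabilizer (Equiv.Perm (Fin 6)) a := by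
  have h6 : Fintype.card (Fin 6) = 6 := Fintype.card_fin 6
  obtain ⟨φ, hne, hall⟩ := CfsgLib.Perm.SymSix.classify (α := Fin 6) h6
  have hidx : ∀ x : Fin 6, (MulAction.stabilizer (Equiv.Perm (Fin 6)) x).index = 6 := fun x => by
    rw [MulAction.index_stabilizer_of_transitive, Nat.card_eq_fintype_card, h6]
  have hidx' : ∀ x : Fin 6, ((MulAction.stabilizer (Equiv.Perm (Fin 6)) x).comap φ.toMonoidHom).index = 6 := fun x =>
    (Subgroup.index_comap_of_surjective _ φ.surjective).trans (hidx x)
  have hinj : ∀ x y : Fin 6, MulAction.stabilizer (Equiv.Perm (Fin 6)) x = MulAction.stabilizer (Equiv.Perm (Fin 6)) y → x = y := by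
    intro x y h
    by_contra hxy
    obtain ⟨z, hzx, hzy⟩ : ∃ z, z ≠ x ∧ z ≠ y :=
      (show ∀ a b : Fin 6, ∃ z, z ≠ a ∧ z ≠ b by decide) x y
    have := (SetLike.ext_iff.1 h (Equiv.swap y z)).1 (by
      simp [MulAction.mem_stabilizer_iff, Equiv.swap_apply_of_ne_of_ne hxy (Ne.symm hzx)])
    simp [MulAction.mem_stabilizer_iff] at this
    exact hzy this
  refine ⟨?_, fun H hH => ?_, ⟨(MulAction.stabilizer (Equiv.Perm (Fin 6)) 0).comap φ.toMonoidHom, hidx' 0,
    fun a => hne 0 a⟩⟩
  · let F : Fin 6 ⊕ Fin 6 → {H : Subgroup (Equiv.Perm (Fin 6)) // H.index = 6} :=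
      Sum.elim (fun x => ⟨_, hidx x⟩) (fun x => ⟨_, hidx' x⟩)
    have hb : Function.Bijective F := by
      refine ⟨?_, fun ⟨H, hH⟩ => ?_⟩
      · rintro (x | x) (y | y) h <;> have h' := congrArg Subtype.val h <;> simp only [F, Sum.elim_inl, Sum.elim_inr] at h'
        · rw [hinj _ _ h']
        · exact absurd h'.symm (hne y x)
        · exact absurd h' (hne x y)
        · rw [hinj _ _ (Subgroup.comap_injective φ.surjective h')]
      · obtain ⟨x, h | h⟩ := hall H hH
        · exact ⟨Sum.inl x, Subtype.ext h.symm⟩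
        · exact ⟨Sum.inr x, Subtype.ext h.symm⟩
    rw [← Nat.card_eq_of_bijective F hb]
    simp
  · have hst : ∀ x : Fin 6, Nonempty (MulAction.stabilizer (Equiv.Perm (Fin 6)) x ≃* Equiv.Perm (Fin 5)) := by
      intro x
      let f : Equiv.Perm {y : Fin 6 // y ≠ x} →* Equiv.Perm (Fin 6) := Equiv.Perm.ofSubtype
      have hle : f.range ≤ MulAction.stabilizer (Equiv.Perm (Fin 6)) x := by
        rintro _ ⟨g, rfl⟩
        exact Equiv.Perm.ofSubtype_apply_of_not_mem g (by simp)
      have hfi : Function.Injective f := Equiv.Perm.ofSubtype_injective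
      have hc : Fintype.card {y : Fin 6 // y ≠ x} = 5 := by simp
      have h1 : Nat.card f.range = 120 := by
        rw [← Nat.card_congr (MonoidHom.ofInjective hfi).toEquiv, Nat.card_perm, Nat.card_eq_fintype_card, hc]; rfl
      have h2 := Subgroup.index_mul_card (MulAction.stabilizer (Equiv.Perm (Fin 6)) x)
      rw [hidx, Nat.card_perm, Nat.card_fin] at h2
      simp only [Nat.factorial] at h2
      have heq := Subgroup.eq_of_le_of_card_ge hle (by omega)
      exact ⟨(MulEquiv.subgroupCongr heq.symm).trans ((MonoidHom.ofInjective hfi).symm.trans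
        (Fintype.equivFinOfCardEq hc).permCongrHom)⟩
    obtain ⟨x, rfl | rfl⟩ := hall H hH
    · exact hst x
    · obtain ⟨e⟩ := hst x
      exact ⟨((φ.subgroupMap _).trans
        (MulEquiv.subgroupCongr (Subgroup.map_comap_eq_self_of_surjective φ.surjective _))).trans e⟩

end Cfsg.Agent.S5945
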