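import Cfsg.Statements.S5952
import Mathlib

set_option autoImplicit false
open Cfsg

namespace Cfsg.Agent.S5952

variable {F V : Type*} [Field F] [AddCommGroup V] [Module F V] [FiniteDimensional F V]

theorem step (f : V →ₗ[F] V) {M W U : Submodule F V} (hW : W ≤ M ⊔ U) (hM : M.map f ≤ M) (hWf : W.map f ≤ W)
    (hU : U.map f ≤ U) (hirr : ∀ X : Submodule F V, X ≤ U → X.map f ≤ X → X = ⊥ ∨ X = U) :
    Module.finrank F W = Module.finrank F ↥(W ⊓ M) ∨
      Module.finrank F W = Module.finrank F ↥(W ⊓ M) + Module.finrank F U := by
  set N := W ⊔ M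
  have hN : N = M ⊔ U ⊓ N := by
    refine le_antisymm ?_ (sup_le le_sup_right inf_le_right)
    rw [← sup_inf_assoc_of_le U (le_sup_right : M ≤ N)]
    exact le_inf (sup_le hW le_sup_left) le_rfl
  have h1 : Module.finrank F N + Module.finrank F ↥(W ⊓ M) = Module.finrank F W + Module.finrank F M :=
    Submodule.finrank_sup_add_finrank_inf_eq W M
  have hinv : (U ⊓ N).map f ≤ U ⊓ N := by
    refine le_trans (Submodule.map_inf_le f) (inf_le_inf hU ?_)
    rw [Submodule.map_sup]; exact sup_le_sup hWf hM
  rcases hirr _ inf_le_left hinv with h | h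
  · rw [h, sup_bot_eq] at hN
    rw [hN] at h1
    left; omega
  · rw [h] at hN
    have hinv' : (M ⊓ U).map f ≤ M ⊓ U := le_trans (Submodule.map_inf_le f) (inf_le_inf hM hU)
    have h2 : Module.finrank F ↥(M ⊔ U) + Module.finrank F ↥(M ⊓ U) = Module.finrank F M + Module.finrank F U :=
      Submodule.finrank_sup_add_finrank_inf_eq M U
    rw [hN] at h1
    rcases hirr _ inf_le_right hinv' with h' | h'
    · rw [h', finrank_bot] at h2
      right; omega
    · rw [h'] at h2
      left; omega

/-- Which dimensions of invariant subspaces a semisimple linear map has. Let `V` be a finite-dimensional vector space over a field `F` and `f` an invertible semisimple linear map of `V`. Suppose `V` is the internal direct sum of the fixed space `C_V(f)` (the eigenspace for 1) and subspaces `U_1, …, U_s`, each `f`-invariant of dimension `a ≥ 1` on which `f` acts irreducibly (no `f`-invariant subspaces other than 0 and `U_j`). Let `0 < m < dim V` and `ℓ = m mod a`. Then `f` leaves some `m`-dimensional subspace invariant if and only if `dim C_V(f) ≥ m`, or `a ≤ m` and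 `dim C_V(f) ≥ ℓ`. -/
theorem result {F V : Type*} [Field F] [AddCommGroup V] [Module F V]
    [FiniteDimensional F V] (f : V →ₗ[F] V) (hf : Function.Bijective f) (hss : Module.End.IsSemisimple f)
    {s a : ℕ} (ha : 1 ≤ a) (U : Fin s → Submodule F V)
    (hUinv : ∀ j, (U j).map f ≤ U j) (hUdim : ∀ j, Module.finrank F ↥(U j) = a)
    (hUirr : ∀ j, ∀ W : Submodule F V, W ≤ U j → W.map f ≤ W → W = ⊥ ∨ W = U j)
    (hdec : DirectSum.IsInternal (fun o : Option (Fin s) => o.elim (Module.End.eigenspace f 1) U))
    (m : ℕ) (hm : 0 < m) (hmV : m < Module.finrank F V) :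
    (∃ W : Submodule F V, Module.finrank F ↥W = m ∧ W.map f ≤ W) ↔
    (m ≤ Module.finrank F ↥(Module.End.eigenspace f 1) ∨
      (a ≤ m ∧ m % a ≤ Module.finrank F ↥(Module.End.eigenspace f 1))) := by
  classical
  set C := Module.End.eigenspace f 1
  have hfix : ∀ x ∈ C, f x = x := fun x hx => by
    have := Module.End.mem_eigenspace_iff.1 hx; simpa using this
  have hCsub : ∀ D : Submodule F V, D ≤ C → D.map f ≤ D := by
    rintro D hD _ ⟨x, hx, rfl⟩; rw [hfix x (hD hx)]; exact hx
  have hsup : C ⊔ Finset.univ.sup U = ⊤ := by
    rw [← top_le_iff, ← hdec.submodule_iSup_eq_top]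
    refine iSup_le fun o => ?_
    cases o with
    | none => exact le_sup_left
    | some j => exact le_sup_of_le_right (Finset.le_sup (Finset.mem_univ j))
  have hTinv : ∀ (D : Submodule F V) (T : Finset (Fin s)), D ≤ C → (D ⊔ T.sup U).map f ≤ D ⊔ T.sup U := by
    intro D T hD
    rw [Submodule.map_sup]
    refine sup_le_sup (hCsub D hD) ?_
    induction T using Finset.induction with
    | empty => simp
    | insert j T _ ih => rw [Finset.sup_insert, Submodule.map_sup]; exact sup_le_sup (hUinv j) ih
  constructor
  · rintro ⟨W, hWm, hWf⟩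
    have key : ∀ (T : Finset (Fin s)) (W : Submodule F V), W.map f ≤ W → W ≤ C ⊔ T.sup U →
        ∃ d k, Module.finrank F W = d + k * a ∧ d ≤ Module.finrank F C := by
      intro T
      induction T using Finset.induction with
      | empty =>
        intro W _ hW
        exact ⟨Module.finrank F W, 0, by simp, Submodule.finrank_mono (by simpa using hW)⟩
      | insert j T hj ih =>
        intro W hWf hW
        rw [Finset.sup_insert, sup_comm (U j), ← sup_assoc] at hW
        obtain ⟨d, k, hk, hd⟩ := ih (W ⊓ (C ⊔ T.sup U))
          (le_trans (Submodule.map_inf_le f) (inf_le_inf hWf (hTinv C T le_rfl))) inf_le_right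
        rcases step f hW (hTinv C T le_rfl) hWf (hUinv j) (hUirr j) with h | h
        · exact ⟨d, k, h.trans hk, hd⟩
        · exact ⟨d, k + 1, by rw [h, hk, hUdim, add_mul, one_mul, add_assoc], hd⟩
    obtain ⟨d, k, hk, hd⟩ := key Finset.univ W hWf (by rw [hsup]; exact le_top)
    rw [hWm] at hk
    rcases Nat.eq_zero_or_pos k with rfl | hk0
    · left; omega
    · refine Or.inr ⟨?_, ?_⟩
      · rw [hk]; exact le_add_left (Nat.le_mul_of_pos_left a hk0)
      · rw [hk, Nat.add_mul_mod_self_right]; exact (Nat.mod_le d a).trans hd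
  · intro h
    have hind := hdec.submodule_iSupIndep
    have hdim : ∀ (D : Submodule F V) (T : Finset (Fin s)), D ≤ C →
        Module.finrank F ↥(D ⊔ T.sup U) = Module.finrank F D + T.card * a := by
      intro D T hD
      induction T using Finset.induction with
      | empty => rw [Finset.sup_empty, sup_bot_eq, Finset.card_empty, zero_mul, add_zero]
      | insert j T hj ih =>
        rw [Finset.sup_insert, sup_comm (U j), ← sup_assoc]
        have hdis : (D ⊔ T.sup U) ⊓ U j = ⊥ := by
          have h1 := (hind (some j)).eq_bot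
          refine le_bot_iff.1 ?_
          rw [← h1, inf_comm]
          refine inf_le_inf le_rfl (sup_le ?_ (Finset.sup_le fun i hi => ?_))
          · exact hD.trans (le_iSup₂ (f := fun (o : Option (Fin s)) (_ : o ≠ some j) => o.elim C U) none (by simp))
          · exact le_iSup₂ (f := fun (o : Option (Fin s)) (_ : o ≠ some j) => o.elim C U) (some i)
              (by simpa using fun e : i = j => hj (e ▸ hi))
        have := Submodule.finrank_sup_add_finrank_inf_eq (D ⊔ T.sup U) (U j)
        rw [hdis, finrank_bot, add_zero] at this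
        rw [this, ih, hUdim, Finset.card_insert_of_notMem hj, add_mul, one_mul, add_assoc]
    have hn := hdim C Finset.univ le_rfl
    rw [hsup, finrank_top, Finset.card_univ, Fintype.card_fin] at hn
    have mk : ∀ d k, d ≤ Module.finrank F C → k ≤ s → m = d + k * a →
        ∃ W : Submodule F V, Module.finrank F ↥W = m ∧ W.map f ≤ W := by
      intro d k hd hk e
      obtain ⟨T, -, hT⟩ := Finset.exists_subset_card_eq (s := (Finset.univ : Finset (Fin s))) (n := k) (by simpa using hk)
      obtain ⟨D, hDC, hDd⟩ : ∃ D : Submodule F V, D ≤ C ∧ Module.finrank F D = d := by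
        let b := Module.finBasis F C
        refine ⟨(Submodule.span F (Set.range fun i : Fin d => b (Fin.castLE hd i))).map C.subtype,
          Submodule.map_subtype_le _ _, ?_⟩
        rw [Submodule.finrank_map_subtype_eq, finrank_span_eq_card, Fintype.card_fin]
        exact b.linearIndependent.comp _ (Fin.castLE_injective hd)
      exact ⟨D ⊔ T.sup U, by rw [hdim D T hDC, hT, hDd, e], hTinv D T hDC⟩
    rcases h with h | ⟨h1, h2⟩
    · exact mk m 0 h (Nat.zero_le _) (by simp)
    · by_cases hk : m / a ≤ s
      · exact mk (m % a) (m / a) h2 hk (Nat.mod_add_div' m a).symm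
      · have hsa : s * a ≤ m := le_trans (Nat.mul_le_mul_right a (by omega)) (Nat.div_mul_le_self m a)
        exact mk (m - s * a) s (by omega) le_rfl (by omega)

end Cfsg.Agent.S5952
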