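import Cfsg.Statements.S5960
import Cfsg.Agent.Lib.MaxSub.InvolDecomp
import Cfsg.Agent.Lib.Symplectic.Basic

set_option autoImplicit false
open scoped MatrixGroups
open Cfsg

namespace Cfsg.Agent.S5960

open scoped Matrix
open CfsgLib.Symplectic.Basic

section
variable {F : Type*} [Field F] {d : ℕ}

/-- Two planes, given by bases, are orthogonal. -/
def Orth (p p' : V d F × V d F) : Prop :=
  B p.1 p'.1 = 0 ∧ B p.1 p'.2 = 0 ∧ B p.2 p'.1 = 0 ∧ B p.2 p'.2 = 0

theorem Orth.symm {p p' : V d F × V d F} (h : Orth p p') : Orth p' p := by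
  obtain ⟨a, b, c, e⟩ := h
  exact ⟨by rw [B_swap, a, neg_zero], by rw [B_swap, c, neg_zero], by rw [B_swap, b, neg_zero], by rw [B_swap, e, neg_zero]⟩

/-- The span of a plane. -/
def Pl (p : V d F × V d F) : Submodule F (V d F) := Submodule.span F {p.1, p.2}

theorem fst_mem (p : V d F × V d F) : p.1 ∈ Pl p := Submodule.subset_span (Set.mem_insert _ _)

theorem snd_mem (p : V d F × V d F) : p.2 ∈ Pl p := Submodule.subset_span (Set.mem_insert_of_mem _ rfl)

/-- The map sends the first plane into the second. -/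
def Maps (f : V d F →ₗ[F] V d F) (p p' : V d F × V d F) : Prop := f p.1 ∈ Pl p' ∧ f p.2 ∈ Pl p'

/-- An orthogonal family of planes, permuted by the map. -/
def Good (f : V d F →ₗ[F] V d F) (S : Submodule F (V d F)) (r s : ℕ)
    (e : (Fin r ⊕ Fin r) ⊕ Fin s → V d F × V d F) : Prop :=
  (∀ i, (e i).1 ∈ S ∧ (e i).2 ∈ S ∧ B (e i).1 (e i).2 = 1) ∧
  (∀ i j, i ≠ j → Orth (e i) (e j)) ∧
  (∀ i, Maps f (e (Sum.inl (Sum.inl i))) (e (Sum.inl (Sum.inr i))) ∧
    Maps f (e (Sum.inl (Sum.inr i))) (e (Sum.inl (Sum.inl i)))) ∧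
  (∀ k, Maps f (e (Sum.inr k)) (e (Sum.inr k))) ∧
  ∀ y ∈ S, ∀ _ : (∀ i, B (e i).1 y = 0 ∧ B (e i).2 y = 0), y = 0

theorem exists_good (f : V d F →ₗ[F] V d F) (z : F) (hf : ∀ x, f (f x) = z • x)
    (hfB : ∀ u v, B (f u) (f v) = B u v) (n : ℕ) : ∀ S : Submodule F (V d F), Module.finrank F S ≤ n →
      (∀ x ∈ S, f x ∈ S) → (∀ x ∈ S, x ≠ 0 → ∃ y ∈ S, B x y ≠ 0) → ∃ r s e, Good f S r s e := by
  classical
  induction n with
  | zero =>
    intro S hS _ _
    have : S = ⊥ := Submodule.finrank_eq_zero.1 (by omega)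
    refine ⟨0, 0, fun i => isEmptyElim i, fun i => isEmptyElim i, fun i => isEmptyElim i, fun i => i.elim0,
      fun i => i.elim0, fun y hy _ => by simpa [this] using hy⟩
  | succ n ih =>
    intro S hS hinv hnd
    by_cases hbot : S = ⊥
    · exact ⟨0, 0, fun i => isEmptyElim i, fun i => isEmptyElim i, fun i => isEmptyElim i, fun i => i.elim0,
        fun i => i.elim0, fun y hy _ => by simpa [hbot] using hy⟩
    -- the orthogonal of an invariant family of planes inside S
    have peel : ∀ {k : ℕ} (p : Fin k → V d F × V d F) (π : Fin k → Fin k), 0 < k →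
        (∀ i, (p i).1 ∈ S ∧ (p i).2 ∈ S ∧ B (p i).1 (p i).2 = 1) → (∀ i j, i ≠ j → Orth (p i) (p j)) →
        (∀ i, Maps f (p i) (p (π i))) → Function.Involutive π →
        ∃ T : Submodule F (V d F), T ≤ S ∧ (∀ y ∈ T, ∀ i, B (p i).1 y = 0 ∧ B (p i).2 y = 0) ∧
          (∀ y ∈ S, (∀ i, B (p i).1 y = 0 ∧ B (p i).2 y = 0) → y ∈ T) ∧
          ∃ r s e, Good f T r s e := by
      intro k p π hk hp horth hmaps hπ
      let T : Submodule F (V d F) := S ⊓ ⨅ i, (LinearMap.ker (B (p i).1) ⊓ LinearMap.ker (B (p i).2))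
      have hT : ∀ y, y ∈ T ↔ y ∈ S ∧ ∀ i, B (p i).1 y = 0 ∧ B (p i).2 y = 0 := fun y => by
        simp [T, LinearMap.mem_ker]
      refine ⟨T, inf_le_left, fun y hy => ((hT y).1 hy).2, fun y hy h => (hT y).2 ⟨hy, h⟩, ih T ?_ ?_ ?_⟩
      · have hlt : Module.finrank F T < Module.finrank F S := by
          refine Submodule.finrank_lt_finrank_of_lt (lt_of_le_of_ne inf_le_left fun e => ?_)
          have := (((hT _).1 (e ▸ (hp ⟨0, hk⟩).2.1)).2 ⟨0, hk⟩).1
          rw [(hp _).2.2] at this
          exact one_ne_zero this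
        omega
      · intro y hy
        obtain ⟨hyS, hy'⟩ := (hT y).1 hy
        refine (hT _).2 ⟨hinv y hyS, fun i => ?_⟩
        have hz0 : z ≠ 0 := by
          intro h0
          have := (hfB (f (p i).1) (f (p i).2)).trans (hfB _ _)
          rw [hf, hf, h0, zero_smul, map_zero, LinearMap.zero_apply, (hp i).2.2] at this
          exact zero_ne_one this
        have hall : ∀ u ∈ Pl (p (π i)), B (f u) (f y) = 0 := by
          intro u hu
          rw [hfB]
          obtain ⟨a, b, rfl⟩ := Submodule.mem_span_pair.1 hu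
          simp [(hy' (π i)).1, (hy' (π i)).2]
        constructor
        · have h : (p i).1 = f (z⁻¹ • f (p i).1) := by rw [map_smul, hf, smul_smul, inv_mul_cancel₀ hz0, one_smul]
          rw [h]; exact hall _ ((Pl _).smul_mem _ (hmaps i).1)
        · have h : (p i).2 = f (z⁻¹ • f (p i).2) := by rw [map_smul, hf, smul_smul, inv_mul_cancel₀ hz0, one_smul]
          rw [h]; exact hall _ ((Pl _).smul_mem _ (hmaps i).2)
      · intro y hy hy0
        obtain ⟨hyS, hy'⟩ := (hT y).1 hy
        obtain ⟨w, hw, hyw⟩ := hnd y hyS hy0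
        refine ⟨w - ∑ i, (B w (p i).2 • (p i).1 + B (p i).1 w • (p i).2), (hT _).2 ⟨?_, fun j => ?_⟩, ?_⟩
        · exact S.sub_mem hw (S.sum_mem fun i _ => S.add_mem (S.smul_mem _ (hp i).1) (S.smul_mem _ (hp i).2.1))
        · constructor
          · rw [map_sub, map_sum, Finset.sum_eq_single j, map_add, map_smul, map_smul, B_self, (hp j).2.2]
            · simp
            · intro i _ hij
              simp [(horth j i (Ne.symm hij)).1, (horth j i (Ne.symm hij)).2.1]
            · simp
          · rw [map_sub, map_sum, Finset.sum_eq_single j, map_add, map_smul, map_smul, B_self, B_swap (p j).2 (p j).1, (hp j).2.2]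
            · simp [B_swap (p j).2 w]
            · intro i _ hij
              simp [(horth j i (Ne.symm hij)).2.2.1, (horth j i (Ne.symm hij)).2.2.2]
            · simp
        · have h0 : ∀ i, B y (p i).1 = 0 ∧ B y (p i).2 = 0 := fun i =>
            ⟨by rw [B_swap, (hy' i).1, neg_zero], by rw [B_swap, (hy' i).2, neg_zero]⟩
          simpa [map_sum, h0] using hyw
    -- add one invariant plane
    have addPlane : ∀ p : V d F × V d F, p.1 ∈ S → p.2 ∈ S → B p.1 p.2 = 1 → Maps f p p →
        ∃ r s e, Good f S r s e := by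
      intro p h1 h2 h3 h4
      obtain ⟨T, hTS, hT1, hT2, r, s, e, he1, he2, he3, he4, he5⟩ := peel (fun _ : Fin 1 => p) id one_pos
        (fun _ => ⟨h1, h2, h3⟩) (fun i j h => absurd (Subsingleton.elim i j) h) (fun _ => h4) (fun _ => rfl)
      have ho : ∀ i, Orth p (e i) := fun i =>
        ⟨(hT1 _ (he1 i).1 0).1, (hT1 _ (he1 i).2.1 0).1, (hT1 _ (he1 i).1 0).2, (hT1 _ (he1 i).2.1 0).2⟩
      let e' : (Fin r ⊕ Fin r) ⊕ Fin (s + 1) → V d F × V d F := Sum.elim (e ∘ Sum.inl) (Fin.cons p (e ∘ Sum.inr))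
      refine ⟨r, s + 1, e', ?_, ?_, fun i => he3 i, ?_, ?_⟩
      · rintro (i | k)
        · exact ⟨hTS (he1 _).1, hTS (he1 _).2.1, (he1 _).2.2⟩
        · refine Fin.cases ⟨h1, h2, h3⟩ (fun k => ?_) k
          simp only [e', Sum.elim_inr, Fin.cons_succ, Function.comp_apply]
          exact ⟨hTS (he1 _).1, hTS (he1 _).2.1, (he1 _).2.2⟩
      · rintro (i | k) (j | l) hne <;> simp only [e', Sum.elim_inl, Sum.elim_inr, Function.comp_apply]
        · exact he2 _ _ (by simpa using hne)
        · induction l using Fin.cases with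
          | zero => exact (ho _).symm
          | succ l => rw [Fin.cons_succ]; exact he2 _ _ (by simp)
        · induction k using Fin.cases with
          | zero => exact ho _
          | succ k => rw [Fin.cons_succ]; exact he2 _ _ (by simp)
        · induction k using Fin.cases with
          | zero =>
            induction l using Fin.cases with
            | zero => exact absurd rfl hne
            | succ l => rw [Fin.cons_succ]; exact ho _
          | succ k =>
            induction l using Fin.cases with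
            | zero => rw [Fin.cons_succ]; exact (ho _).symm
            | succ l => rw [Fin.cons_succ, Fin.cons_succ]; exact he2 _ _ (by simpa using hne)
      · intro k
        induction k using Fin.cases with
        | zero => exact h4
        | succ k => simp only [e', Sum.elim_inr, Fin.cons_succ, Function.comp_apply]; exact he4 k
      · intro y hy h
        have hyT : y ∈ T := hT2 y hy fun _ => by simpa [e'] using h (Sum.inr 0)
        refine he5 y hyT fun i => ?_
        rcases i with i | k
        · exact h (Sum.inl i)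
        · simpa [e'] using h (Sum.inr k.succ)
    obtain ⟨x, hx, hx0⟩ := S.exists_mem_ne_zero_of_ne_bot hbot
    by_cases hcase : ∃ v ∈ S, B v (f v) ≠ 0
    · obtain ⟨v, hv, hne⟩ := hcase
      refine addPlane (v, (B v (f v))⁻¹ • f v) hv (S.smul_mem _ (hinv v hv)) (by simp [hne]) ⟨?_, ?_⟩
      · have h : f v = B v (f v) • ((B v (f v))⁻¹ • f v) := by rw [smul_smul, mul_inv_cancel₀ hne, one_smul]
        show f v ∈ Pl _
        have h' := (Pl (v, (B v (f v))⁻¹ • f v)).smul_mem (B v (f v)) (snd_mem (v, (B v (f v))⁻¹ • f v))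
        simp only at h'
        exact (congrArg (fun y => y ∈ Pl (v, (B v (f v))⁻¹ • f v)) h).mpr h'
      · show f ((B v (f v))⁻¹ • f v) ∈ Pl _
        rw [map_smul, hf]
        exact (Pl _).smul_mem _ ((Pl _).smul_mem _ (fst_mem (v, (B v (f v))⁻¹ • f v)))
    simp only [not_exists, not_and, not_not] at hcase
    have hadj : ∀ u ∈ S, ∀ w ∈ S, B u (f w) = B (f u) w := by
      intro u hu w hw
      have h := hcase (u + w) (S.add_mem hu hw)
      simp only [map_add, LinearMap.add_apply, hcase u hu, hcase w hw] at h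
      rw [B_swap w (f u)] at h
      linear_combination h
    by_cases hscal : ∀ v ∈ S, ∃ c : F, f v = c • v
    · obtain ⟨y, hy, hxy⟩ := hnd x hx hx0
      refine addPlane (x, (B x y)⁻¹ • y) hx (S.smul_mem _ hy) (by simp [hxy]) ⟨?_, ?_⟩
      · obtain ⟨c, hc⟩ := hscal x hx
        show f x ∈ Pl _
        rw [hc]; exact (Pl _).smul_mem _ (fst_mem (x, (B x y)⁻¹ • y))
      · obtain ⟨c, hc⟩ := hscal _ (S.smul_mem (B x y)⁻¹ hy)
        show f ((B x y)⁻¹ • y) ∈ Pl _
        rw [hc]; exact (Pl _).smul_mem _ (snd_mem (x, (B x y)⁻¹ • y))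
    -- a pair of interchanged planes
    simp only [not_forall, not_exists] at hscal
    obtain ⟨v, hv, hvne⟩ := hscal
    obtain ⟨w, hw, hw1, hw2⟩ : ∃ w ∈ S, B v w = 1 ∧ B (f v) w = 0 := by
      let L : S →ₗ[F] (Fin 2 → F) := (LinearMap.pi ![B v, B (f v)]).comp S.subtype
      have hsurj : LinearMap.range L = ⊤ := by
        by_contra hlt
        obtain ⟨φ, hφ0, hφ⟩ := Submodule.exists_le_ker_of_lt_top (LinearMap.range L) (lt_top_iff_ne_top.2 hlt)
        set c0 := φ (Pi.single 0 1) with hc0
        set c1 := φ (Pi.single 1 1) with hc1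
        have hφexp : ∀ g : Fin 2 → F, φ g = g 0 * c0 + g 1 * c1 := fun g => by
          have : g = g 0 • Pi.single 0 1 + g 1 • Pi.single 1 1 := by ext i; fin_cases i <;> simp
          conv_lhs => rw [this]
          simp [hc0, hc1]
        have hu : c0 • v + c1 • f v = 0 := by
          by_contra hu
          obtain ⟨y, hy, hne⟩ := hnd _ (S.add_mem (S.smul_mem _ hv) (S.smul_mem _ (hinv v hv))) hu
          have h0 : φ (L ⟨y, hy⟩) = 0 := hφ ⟨⟨y, hy⟩, rfl⟩
          rw [hφexp] at h0
          apply hne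
          simp only [map_add, map_smul, LinearMap.add_apply, LinearMap.smul_apply, smul_eq_mul]
          simp only [L, LinearMap.comp_apply, Submodule.subtype_apply, LinearMap.pi_apply, Matrix.cons_val_zero,
            Matrix.cons_val_one] at h0
          linear_combination h0
        by_cases h1 : c1 = 0
        · rw [h1, zero_smul, add_zero, smul_eq_zero] at hu
          rcases hu with h | h
          · exact hφ0 (LinearMap.ext fun g => by simp [hφexp, h, h1])
          · exact hvne 0 (by rw [h, map_zero, smul_zero])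
        · refine hvne (-c0 / c1) ?_
          have : c1 • f v = -(c0 • v) := eq_neg_of_add_eq_zero_right hu
          rw [div_eq_inv_mul, mul_smul, neg_smul, ← this, smul_smul, inv_mul_cancel₀ h1, one_smul]
      obtain ⟨w, hw⟩ := LinearMap.range_eq_top.1 hsurj ![1, 0]
      exact ⟨w.1, w.2, by simpa [L] using congrFun hw 0, by simpa [L] using congrFun hw 1⟩
    let p : Fin 2 → V d F × V d F := ![(v, w), (f v, f w)]
    have ho01 : Orth (v, w) (f v, f w) :=
      ⟨hcase v hv, by rw [hadj v hv w hw]; exact hw2, by rw [B_swap]; exact neg_eq_zero.2 hw2, hcase w hw⟩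
    have hm01 : Maps f (v, w) (f v, f w) := ⟨fst_mem (f v, f w), snd_mem (f v, f w)⟩
    have hm10 : Maps f (f v, f w) (v, w) := by
      refine ⟨?_, ?_⟩
      · show f (f v) ∈ Pl _
        rw [hf]; exact (Pl _).smul_mem _ (fst_mem (v, w))
      · show f (f w) ∈ Pl _
        rw [hf]; exact (Pl _).smul_mem _ (snd_mem (v, w))
    obtain ⟨T, hTS, hT1, hT2, r, s, e, he1, he2, he3, he4, he5⟩ := peel p ![1, 0] two_pos
      (fun i => by
        fin_cases i
        · exact ⟨hv, hw, hw1⟩
        · exact ⟨hinv v hv, hinv w hw, (hfB v w).trans hw1⟩)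
      (fun i j h => by
        fin_cases i <;> fin_cases j
        · exact absurd rfl h
        · exact ho01
        · exact ho01.symm
        · exact absurd rfl h)
      (fun i => by
        fin_cases i
        · exact hm01
        · exact hm10)
      (fun i => by fin_cases i <;> rfl)
    have ho : ∀ k i, Orth (p k) (e i) := fun k i =>
      ⟨(hT1 _ (he1 i).1 k).1, (hT1 _ (he1 i).2.1 k).1, (hT1 _ (he1 i).1 k).2, (hT1 _ (he1 i).2.1 k).2⟩
    let g : Fin 2 ⊕ ((Fin r ⊕ Fin r) ⊕ Fin s) → V d F × V d F := Sum.elim p e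
    let ψ : (Fin (r + 1) ⊕ Fin (r + 1)) ⊕ Fin s → Fin 2 ⊕ ((Fin r ⊕ Fin r) ⊕ Fin s) :=
      Sum.elim (Sum.elim (Fin.cons (Sum.inl 0) fun i => Sum.inr (Sum.inl (Sum.inl i)))
        (Fin.cons (Sum.inl 1) fun i => Sum.inr (Sum.inl (Sum.inr i)))) (fun k => Sum.inr (Sum.inr k))
    have hψ : Function.Injective ψ := by
      rintro ((i | i) | i) ((j | j) | j) h <;> simp only [ψ, Sum.elim_inl, Sum.elim_inr] at h <;>
        (try induction i using Fin.cases) <;> (try induction j using Fin.cases) <;> simp at h <;> simp [h]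
    have hg : ∀ a b, a ≠ b → Orth (g a) (g b) := by
      rintro (a | a) (b | b) h
      · fin_cases a <;> fin_cases b
        · exact absurd rfl h
        · exact ho01
        · exact ho01.symm
        · exact absurd rfl h
      · exact ho a b
      · exact (ho b a).symm
      · exact he2 a b (by simpa using h)
    refine ⟨r + 1, s, fun i => g (ψ i), ?_, fun i j h => hg _ _ (hψ.ne h), ?_, fun k => he4 k, ?_⟩
    · intro i
      show (g (ψ i)).1 ∈ S ∧ (g (ψ i)).2 ∈ S ∧ B (g (ψ i)).1 (g (ψ i)).2 = 1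
      generalize ψ i = a
      rcases a with a | a
      · fin_cases a
        · exact ⟨hv, hw, hw1⟩
        · exact ⟨hinv v hv, hinv w hw, (hfB v w).trans hw1⟩
      · exact ⟨hTS (he1 _).1, hTS (he1 _).2.1, (he1 _).2.2⟩
    · intro i
      induction i using Fin.cases with
      | zero => exact ⟨hm01, hm10⟩
      | succ i =>
        simp only [ψ, g, Sum.elim_inl, Sum.elim_inr, Fin.cons_succ]
        exact he3 i
    · intro y hy h
      have hyT : y ∈ T := hT2 y hy fun k => by
        fin_cases k
        · simpa [g, ψ] using h (Sum.inl (Sum.inl 0))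
        · simpa [g, ψ] using h (Sum.inl (Sum.inr 0))
      refine he5 y hyT fun i => ?_
      rcases i with (i | i) | i
      · simpa [g, ψ] using h (Sum.inl (Sum.inl i.succ))
      · simpa [g, ψ] using h (Sum.inl (Sum.inr i.succ))
      · simpa [g, ψ] using h (Sum.inr i)

theorem decomp (f : V d F →ₗ[F] V d F) (z : F) (hz : z ≠ 0) (hf : ∀ x, f (f x) = z • x)
    (hfB : ∀ u v, B (f u) (f v) = B u v) (h t : ℕ) (hh : 1 ≤ h) (ht : 2 ≤ t) (hd : d = h * t) :
    ∃ D : Fin t → Submodule F (V d F), (Cfsg.Geo.IsMDecomposition (2 * h) D ∧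
      (∀ j, ∀ u ∈ D j, u ≠ 0 → ∃ v ∈ D j, B u v ≠ 0) ∧
      (∀ j j', j ≠ j' → ∀ u ∈ D j, ∀ v ∈ D j', B u v = 0)) ∧
      ∃ σ : Equiv.Perm (Fin t), ∀ j, (D j).map f = D (σ j) := by
  classical
  obtain ⟨r, s, e, he1, he2, he3, he4, he5⟩ := exists_good f z hf hfB _ ⊤ le_rfl (fun _ _ => trivial)
    (fun x _ hx => by
      obtain ⟨y, hy⟩ := exists_B_eq_one hx
      exact ⟨y, trivial, by rw [hy]; exact one_ne_zero⟩)
  let I := (Fin r ⊕ Fin r) ⊕ Fin s
  let b : I × Bool → V d F := fun k => if k.2 then (e k.1).2 else (e k.1).1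
  let c : I × Bool → V d F := fun k => if k.2 then -(e k.1).1 else (e k.1).2
  have hbc : ∀ k l, (k = l → B (b k) (c l) = 1) ∧ (k ≠ l → B (b k) (c l) = 0) := by
    rintro ⟨i, x⟩ ⟨j, y⟩
    by_cases hij : i = j
    · subst hij
      cases x <;> cases y <;> simp [b, c, B_self, (he1 i).2.2, B_swap (e i).2 (e i).1]
    · obtain ⟨a1, a2, a3, a4⟩ := he2 i j hij
      cases x <;> cases y <;> simp [b, c, a1, a2, a3, a4, hij]
  have hsum : ∀ (g : I × Bool → F) l, B (∑ k, g k • b k) (c l) = g l := fun g l => by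
    rw [map_sum, LinearMap.sum_apply, Finset.sum_eq_single l]
    · rw [map_smul, LinearMap.smul_apply, (hbc l l).1 rfl, smul_eq_mul, mul_one]
    · intro k _ hk; rw [map_smul, LinearMap.smul_apply, (hbc k l).2 hk, smul_zero]
    · simp
  have hli : LinearIndependent F b := by
    rw [Fintype.linearIndependent_iff]
    intro g hg l
    have := congrArg (fun v => B v (c l)) hg
    simp only [hsum, map_zero, LinearMap.zero_apply] at this
    exact this
  have hspan : ⊤ ≤ Submodule.span F (Set.range b) := by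
    intro y _
    have : y = ∑ k, B y (c k) • b k := by
      rw [← sub_eq_zero]
      refine he5 _ trivial fun i => ?_
      have key : ∀ l, B (y - ∑ k, B y (c k) • b k) (c l) = 0 := fun l => by
        rw [map_sub, LinearMap.sub_apply, hsum, sub_self]
      have k1 := key (i, true)
      have k2 := key (i, false)
      rw [show c (i, true) = -(e i).1 from rfl, map_neg, neg_eq_zero] at k1
      rw [show c (i, false) = (e i).2 from rfl] at k2
      exact ⟨by rw [B_swap, k1, neg_zero], by rw [B_swap, k2, neg_zero]⟩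
    rw [this]
    exact Submodule.sum_mem _ fun k _ => Submodule.smul_mem _ _ (Submodule.subset_span ⟨k, rfl⟩)
  let C0 := Module.Basis.mk hli hspan
  have hcard : r + r + s = h * t := by
    have := Module.finrank_eq_card_basis C0
    simp [I] at this; omega
  obtain ⟨p, σ, hp, hp1, hp2, hσ, hfix⟩ := CfsgLib.MaxSub.InvolDecomp.exists_placing h t r hh (by omega)
  have hs : Nat.card {k // k ∉ Set.range p} = s := by
    rw [Nat.card_eq_fintype_card]
    have := Fintype.card_subtype_compl (fun k => k ∈ Set.range p)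
    rw [this]
    have h2 : Fintype.card {k // k ∈ Set.range p} = r + r := by
      have h3 := Nat.card_range_of_injective hp
      rw [Nat.card_sum, Nat.card_fin] at h3
      rw [← h3, Nat.card_eq_fintype_card]
    rw [h2]
    simp [Fintype.card_prod]
    rw [Nat.mul_comm t h]; omega
  let q := (Finite.equivFinOfCardEq hs).symm
  let φ : I → Fin t × Fin h := Sum.elim p (fun k => (q k).1)
  have hφ : Function.Bijective φ := by
    constructor
    · rintro (i | i) (j | j) e'
      · exact congrArg Sum.inl (hp e')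
      · exact absurd ⟨i, e'⟩ (q j).2
      · exact absurd ⟨j, e'.symm⟩ (q i).2
      · exact congrArg Sum.inr (q.injective (Subtype.ext e'))
    · intro k
      by_cases hk : k ∈ Set.range p
      · obtain ⟨i, hi⟩ := hk; exact ⟨Sum.inl i, hi⟩
      · exact ⟨Sum.inr (q.symm ⟨k, hk⟩), by simp [φ]⟩
  let blk : I × Bool → Fin t := fun k => (φ k.1).1
  let D : Fin t → Submodule F (V d F) := fun j => Submodule.span F (b '' {k | blk k = j})
  have hfr : ∀ j, Module.finrank F (D j) = 2 * h := by
    intro j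
    let ρ : {k // blk k = j} ≃ Fin h × Bool :=
      { toFun := fun k => ((φ k.1.1).2, k.1.2)
        invFun := fun x => ⟨((Equiv.ofBijective φ hφ).symm (j, x.1), x.2), by
          show (φ _).1 = j
          rw [show φ ((Equiv.ofBijective φ hφ).symm (j, x.1)) = (j, x.1) from (Equiv.ofBijective φ hφ).apply_symm_apply _]⟩
        left_inv := fun k => by
          refine Subtype.ext (Prod.ext ?_ rfl)
          apply hφ.1
          show φ ((Equiv.ofBijective φ hφ).symm (j, (φ k.1.1).2)) = φ k.1.1
          rw [show φ ((Equiv.ofBijective φ hφ).symm (j, (φ k.1.1).2)) = (j, (φ k.1.1).2) from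
            (Equiv.ofBijective φ hφ).apply_symm_apply _]
          exact Prod.ext k.2.symm rfl
        right_inv := fun x => by
          refine Prod.ext ?_ rfl
          show (φ ((Equiv.ofBijective φ hφ).symm (j, x.1))).2 = x.1
          rw [show φ ((Equiv.ofBijective φ hφ).symm (j, x.1)) = (j, x.1) from (Equiv.ofBijective φ hφ).apply_symm_apply _] }
    have him : b '' {k | blk k = j} = Set.range (fun k : {k // blk k = j} => b k.1) := by
      ext x; simp
    show Module.finrank F (Submodule.span F (b '' {k | blk k = j})) = 2 * h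
    rw [him]
    refine (finrank_span_eq_card (hli.comp (fun k : {k // blk k = j} => k.1) Subtype.val_injective)).trans ?_
    rw [Fintype.card_congr ρ, Fintype.card_prod, Fintype.card_fin, Fintype.card_bool, mul_comm]
  have horth : ∀ j j', j ≠ j' → ∀ u ∈ D j, ∀ v ∈ D j', B u v = 0 := by
    intro j j' hne
    have h0 : ∀ k, blk k = j → ∀ l, blk l = j' → B (b k) (b l) = 0 := by
      rintro ⟨i, x⟩ hk ⟨i', y⟩ hl
      have hii : i ≠ i' := by rintro rfl; exact hne (hk.symm.trans hl)
      obtain ⟨a1, a2, a3, a4⟩ := he2 i i' hii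
      cases x <;> cases y <;> simp [b, a1, a2, a3, a4]
    intro u hu v hv
    induction hu using Submodule.span_induction with
    | mem x hx =>
      obtain ⟨k, hk, rfl⟩ := hx
      induction hv using Submodule.span_induction with
      | mem y hy => obtain ⟨l, hl, rfl⟩ := hy; exact h0 k hk l hl
      | zero => simp
      | add a b _ _ ha hb => simp [ha, hb]
      | smul c a _ ha => simp [ha]
    | zero => simp
    | add a b _ _ ha hb => simp [ha, hb]
    | smul c a _ ha => simp [ha]
  have htop : iSup D = ⊤ := by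
    rw [eq_top_iff]
    refine hspan.trans (Submodule.span_le.2 ?_)
    rintro _ ⟨k, rfl⟩
    exact le_iSup D (blk k) (Submodule.subset_span ⟨k, rfl, rfl⟩)
  refine ⟨D, ⟨⟨ht, by omega, hfr, ?_, htop⟩, ?_, horth⟩, hσ.toPerm σ, fun j => ?_⟩
  · rw [iSupIndep_def]
    intro j
    refine (hli.disjoint_span_image (s := {k | blk k = j}) (t := {k | blk k ≠ j})
      (Set.disjoint_left.2 fun k h1 h2 => h2 h1)).mono_right ?_
    exact iSup₂_le fun j' hj' => Submodule.span_mono (Set.image_mono fun k (hk : blk k = j') (hk' : blk k = j) => hj' (hk.symm.trans hk'))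
  · intro j u hu hu0
    by_contra hcon
    simp only [not_exists, not_and, not_not] at hcon
    refine hu0 (eq_zero_of_B_left fun y => ?_)
    have hle : iSup D ≤ LinearMap.ker (B u) := iSup_le fun j' v hv => by
      by_cases hj : j = j'
      · exact hcon v (hj ▸ hv)
      · exact horth j j' hj u hu v hv
    exact hle (htop.ge trivial)
  · have hPl : ∀ i, Pl (e i) ≤ D (φ i).1 := fun i => by
      rw [Pl, Submodule.span_le]
      rintro x (rfl | rfl)
      · exact Submodule.subset_span ⟨(i, false), rfl, rfl⟩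
      · exact Submodule.subset_span ⟨(i, true), rfl, rfl⟩
    have hmaps : ∀ i, f (e i).1 ∈ D (σ (φ i).1) ∧ f (e i).2 ∈ D (σ (φ i).1) := by
      rintro ((i | i) | k)
      · have h' := hPl (Sum.inl (Sum.inr i))
        rw [show (φ (Sum.inl (Sum.inr i))).1 = σ (φ (Sum.inl (Sum.inl i))).1 from hp1 i] at h'
        exact ⟨h' (he3 i).1.1, h' (he3 i).1.2⟩
      · have h' := hPl (Sum.inl (Sum.inl i))
        rw [show (φ (Sum.inl (Sum.inl i))).1 = σ (φ (Sum.inl (Sum.inr i))).1 from hp2 i] at h'
        exact ⟨h' (he3 i).2.1, h' (he3 i).2.2⟩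
      · have h' := hPl (Sum.inr k)
        rw [← show σ (φ (Sum.inr k)).1 = (φ (Sum.inr k)).1 from hfix _ (q k).2] at h'
        exact ⟨h' (he4 k).1, h' (he4 k).2⟩
    have hinj : Function.Injective f := fun x y h' => by
      have := congrArg f h'; rw [hf, hf] at this; exact smul_right_injective _ hz this
    refine Submodule.eq_of_le_of_finrank_eq ?_ ?_
    · rw [Submodule.map_le_iff_le_comap, Submodule.span_le]
      rintro _ ⟨⟨i, x⟩, hk, rfl⟩
      show f _ ∈ D (σ j)
      rw [← (hk : blk (i, x) = j)]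
      cases x
      · exact (hmaps i).1
      · exact (hmaps i).2
    · rw [← (Submodule.equivMapOfInjective f hinj (D j)).finrank_eq, hfr, hfr]

end

/-- Involutions of PSp_n(q) and imprimitive subgroups. Here `T = PSp_n(q)`, `n = 2d ≥ 4`, `(n, q) ≠ (4, 2)`, realised through the symplectic matrices over the field `F` with `q` elements and the standard alternating form; `n = a·t` with `a` even and `t ≥ 2`, and Ω is the (nonempty) set of orthogonal decompositions of `F^n` into `t` nondegenerate subspaces of dimension `a` (unordered; counted as ordered ones divided by `t!`), whose stabilizers are the imprimitive subgroups of type Sp_a(q) ≀ S_t (maximality is not assumed); an element of `T` of prime order `r` (a symplectic matrix `x` with `x^r` scalar, `x` not scalar) fixes a point of Ω when it permutes the summands of some such decomposition. If the number of such decompositions is even, then every involution of `T` stabilizes one of them (the action is 2-elusive). -/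
theorem result {F : Type*} [Field F] [Fintype F] {p : ℕ} [Fact p.Prime] [CharP F p] {q : ℕ} (hq : Fintype.card F = q)
    (d : ℕ) (hd : 2 ≤ d) (hT : (d, q) ≠ (2, 2))
    (a t : ℕ) (hat : 2 * d = a * t) (ha : 2 ≤ a) (hae : Even a) (ht : 2 ≤ t) (hΩ : 2 ∣ Nat.card {D : Fin t → Submodule F (Fin d ⊕ Fin d → F) // (Cfsg.Geo.IsMDecomposition a D ∧ (∀ j, ∀ u ∈ D j, u ≠ 0 → ∃ v ∈ D j, Cfsg.sympForm d F u v ≠ 0) ∧
          (∀ j j', j ≠ j' → ∀ u ∈ D j, ∀ v ∈ D j', Cfsg.sympForm d F u v = 0))} / Nat.factorial t)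
    (x : ↥(Matrix.symplecticGroup (Fin d) F))
    (hx1 : ∃ z : F, ((x ^ 2 : ↥(Matrix.symplecticGroup (Fin d) F)) : Matrix (Fin d ⊕ Fin d) (Fin d ⊕ Fin d) F) = z • (1 : Matrix (Fin d ⊕ Fin d) (Fin d ⊕ Fin d) F))
    (hx2 : ∀ z : F, (x : Matrix (Fin d ⊕ Fin d) (Fin d ⊕ Fin d) F) ≠ z • (1 : Matrix (Fin d ⊕ Fin d) (Fin d ⊕ Fin d) F)) :
    ∃ D : Fin t → Submodule F (Fin d ⊕ Fin d → F), (Cfsg.Geo.IsMDecomposition a D ∧ (∀ j, ∀ u ∈ D j, u ≠ 0 → ∃ v ∈ D j, Cfsg.sympForm d F u v ≠ 0) ∧
          (∀ j j', j ≠ j' → ∀ u ∈ D j, ∀ v ∈ D j', Cfsg.sympForm d F u v = 0)) ∧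
        ∃ σ : Equiv.Perm (Fin t), ∀ j, (D j).map (Matrix.toLin' (x : Matrix (Fin d ⊕ Fin d) (Fin d ⊕ Fin d) F)) = D (σ j) := by
  classical
  obtain ⟨h, rfl⟩ := hae
  obtain ⟨z, hz⟩ := hx1
  rw [SubmonoidClass.coe_pow, pow_two] at hz
  have hf : ∀ v, Matrix.toLin' x.1 (Matrix.toLin' x.1 v) = z • v := fun v => by
    rw [Matrix.toLin'_apply, Matrix.toLin'_apply, Matrix.mulVec_mulVec, hz, Matrix.smul_mulVec, Matrix.one_mulVec]
  have hfB : ∀ u v, B (Matrix.toLin' x.1 u) (Matrix.toLin' x.1 v) = B u v := fun u v => by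
    rw [Matrix.toLin'_apply, Matrix.toLin'_apply]; exact B_map x u v
  have hz0 : z ≠ 0 := by
    rintro rfl
    obtain ⟨v, hv⟩ := exists_B_eq_one (u := (Pi.single (Sum.inr ⟨0, by omega⟩) 1 : V d F)) (by simp)
    have h' := (hfB (Matrix.toLin' x.1 (Pi.single (Sum.inr ⟨0, by omega⟩) 1 : V d F)) (Matrix.toLin' x.1 v)).trans (hfB _ _)
    rw [hf, hf, zero_smul, map_zero, LinearMap.zero_apply, hv] at h'
    exact zero_ne_one h'
  obtain ⟨D, ⟨hD1, hD2, hD3⟩, hD4⟩ := decomp (Matrix.toLin' x.1) z hz0 hf hfB h t (by omega) ht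
    (by rw [add_mul] at hat; omega)
  rw [two_mul] at hD1
  refine ⟨D, ⟨hD1, fun j u hu hu0 => ?_, fun j j' hjj u hu v hv => ?_⟩, hD4⟩
  · obtain ⟨v, hv, hne⟩ := hD2 j u hu hu0
    exact ⟨v, hv, by rw [← B_eq]; exact hne⟩
  · rw [← B_eq]; exact hD3 j j' hjj u hu v hv

end Cfsg.Agent.S5960
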