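import Cfsg.Statements.S5962
import Cfsg.Agent.Lib.Symplectic.Basic

set_option autoImplicit false
open scoped MatrixGroups
open Cfsg

namespace Cfsg.Agent.S5962

open scoped Matrix
open CfsgLib.Symplectic.Basic

theorem build {F : Type*} [Field F] {d : ℕ} (f : V d F →ₗ[F] V d F) (hfB : ∀ u v, B (f u) (f v) = B u v)
    (Q : V d F → V d F → Prop) (hQ : ∀ u v, Q u v → ∀ c : F, Q (c • u) (c • v))
    (hstep : ∀ S : Submodule F (V d F), (∀ x ∈ S, f x ∈ S) → (∀ x ∈ S, x ≠ 0 → ∃ y ∈ S, B x y ≠ 0) →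
      ∀ x ∈ S, x ≠ 0 → ∃ v ∈ S, ∃ w ∈ S, B v w ≠ 0 ∧
        f v ∈ Submodule.span F {v, w} ∧ f w ∈ Submodule.span F {v, w} ∧ Q v w)
    (k : ℕ) : ∀ S : Submodule F (V d F), Module.finrank F S ≤ k → (∀ x ∈ S, f x ∈ S) →
      (∀ x ∈ S, x ≠ 0 → ∃ y ∈ S, B x y ≠ 0) →
      ∃ l : List (V d F × V d F), (∀ e ∈ l, e.1 ∈ S ∧ e.2 ∈ S ∧ Q e.1 e.2) ∧
        l.Pairwise (fun e e' => B e.1 e'.1 = 0 ∧ B e.1 e'.2 = 0 ∧ B e.2 e'.1 = 0 ∧ B e.2 e'.2 = 0) ∧
        S ≤ Submodule.span F {x | ∃ e ∈ l, x = e.1 ∨ x = e.2} := by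
  induction k with
  | zero =>
    intro S hS _ _
    refine ⟨[], by simp, by simp, ?_⟩
    have : S = ⊥ := Submodule.finrank_eq_zero.1 (by omega)
    simp [this]
  | succ k ih =>
    intro S hS hinv hnd
    by_cases hbot : S = ⊥
    · exact ⟨[], by simp, by simp, by simp [hbot]⟩
    obtain ⟨x, hx, hx0⟩ := S.exists_mem_ne_zero_of_ne_bot hbot
    obtain ⟨v, hv, w, hw, hvw, hfv, hfw, hq⟩ := hstep S hinv hnd x hx hx0
    let T : Submodule F (V d F) := S ⊓ (LinearMap.ker (B v) ⊓ LinearMap.ker (B w))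
    have hT : ∀ y, y ∈ T ↔ y ∈ S ∧ B v y = 0 ∧ B w y = 0 := fun y => by
      simp [T, LinearMap.mem_ker]
    have hTlt : Module.finrank F T < Module.finrank F S := by
      refine Submodule.finrank_lt_finrank_of_lt (lt_of_le_of_ne inf_le_left fun e => ?_)
      exact hvw ((hT w).1 (e ▸ hw)).2.1
    have hproj : ∀ y ∈ S, ∃ a b : F, y - a • v - b • w ∈ T := by
      intro y hy
      refine ⟨B y w / B v w, B v y / B v w, (hT _).2 ⟨?_, ?_, ?_⟩⟩
      · exact S.sub_mem (S.sub_mem hy (S.smul_mem _ hv)) (S.smul_mem _ hw)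
      · simp [B_self, div_mul_cancel₀ _ hvw]
      · simp [B_self, B_swap w v, B_swap w y, div_mul_cancel₀ _ hvw]
    have hfinj : Function.Injective f := by
      rw [injective_iff_map_eq_zero]
      intro u hu
      exact eq_zero_of_B_left fun z => by rw [← hfB, hu, LinearMap.map_zero, LinearMap.zero_apply]
    have hTinv : ∀ y ∈ T, f y ∈ T := by
      intro y hy
      obtain ⟨hyS, hy1, hy2⟩ := (hT y).1 hy
      have hall : ∀ u ∈ Submodule.span F {v, w}, B u (f y) = 0 := by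
        have hmap : (Submodule.span F {v, w}).map f = Submodule.span F {v, w} := by
          refine Submodule.eq_of_le_of_finrank_eq ?_ (Submodule.equivMapOfInjective f hfinj _).finrank_eq.symm
          rw [Submodule.map_span, Submodule.span_le]
          rintro _ ⟨u, (rfl | rfl), rfl⟩ <;> assumption
        intro u hu
        rw [← hmap] at hu
        obtain ⟨u, hu', rfl⟩ := hu
        obtain ⟨a, b, rfl⟩ := Submodule.mem_span_pair.1 hu'
        rw [hfB]; simp [hy1, hy2]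
      exact (hT _).2 ⟨hinv y hyS, hall v (Submodule.subset_span (by simp)), hall w (Submodule.subset_span (by simp))⟩
    have hTnd : ∀ y ∈ T, y ≠ 0 → ∃ y' ∈ T, B y y' ≠ 0 := by
      intro y hy hy0
      obtain ⟨hyS, hy1, hy2⟩ := (hT y).1 hy
      obtain ⟨z, hz, hyz⟩ := hnd y hyS hy0
      obtain ⟨a, b, hab⟩ := hproj z hz
      refine ⟨_, hab, ?_⟩
      simpa [B_swap y v, B_swap y w, hy1, hy2] using hyz
    obtain ⟨l, hl1, hl2, hl3⟩ := ih T (by omega) hTinv hTnd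
    refine ⟨(v, w) :: l, ?_, ?_, ?_⟩
    · rintro e (_ | ⟨_, he⟩)
      · exact ⟨hv, hw, hq⟩
      · exact ⟨((hT _).1 (hl1 e he).1).1, ((hT _).1 (hl1 e he).2.1).1, (hl1 e he).2.2⟩
    · refine List.pairwise_cons.2 ⟨fun e he => ?_, hl2⟩
      have h1 := (hT _).1 (hl1 e he).1
      have h2 := (hT _).1 (hl1 e he).2.1
      exact ⟨h1.2.1, h2.2.1, h1.2.2, h2.2.2⟩
    · intro y hy
      obtain ⟨a, b, hab⟩ := hproj y hy
      have hsub := Submodule.span_mono (R := F)
        (show {x | ∃ e ∈ l, x = e.1 ∨ x = e.2} ⊆ {x | ∃ e ∈ (v, w) :: l, x = e.1 ∨ x = e.2} from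
          fun x ⟨e, he, h⟩ => ⟨e, List.mem_cons_of_mem _ he, h⟩) (hl3 hab)
      have : y = a • v + b • w + (y - a • v - b • w) := by abel
      rw [this]
      exact add_mem (add_mem (Submodule.smul_mem _ _ (Submodule.subset_span ⟨(v, w), by simp, Or.inl rfl⟩))
        (Submodule.smul_mem _ _ (Submodule.subset_span ⟨(v, w), by simp, Or.inr rfl⟩))) hsub

theorem isotropic {F : Type*} [Field F] {d : ℕ} {l : List (V d F × V d F)}
    (hl : l.Pairwise (fun e e' => B e.1 e'.1 = 0 ∧ B e.1 e'.2 = 0 ∧ B e.2 e'.1 = 0 ∧ B e.2 e'.2 = 0))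
    (s : V d F × V d F → V d F) (hs : s = Prod.fst ∨ s = Prod.snd) :
    ∀ u ∈ Submodule.span F {x | ∃ e ∈ l, x = s e}, ∀ u' ∈ Submodule.span F {x | ∃ e ∈ l, x = s e}, B u u' = 0 := by
  haveI : Std.Symm (fun e e' : V d F × V d F => B (s e) (s e') = 0) := ⟨fun e e' h => by rw [B_swap, h, neg_zero]⟩
  have h0 : ∀ e ∈ l, ∀ e' ∈ l, B (s e) (s e') = 0 := by
    intro e he e' he'
    by_cases h : e = e'
    · subst h; exact B_self _
    · refine List.Pairwise.forall (R := fun e e' => B (s e) (s e') = 0) (hl.imp ?_) he he' h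
      intro a b hab
      rcases hs with rfl | rfl
      · exact hab.1
      · exact hab.2.2.2
  intro u hu u' hu'
  induction hu using Submodule.span_induction with
  | mem x hx =>
    obtain ⟨e, he, rfl⟩ := hx
    induction hu' using Submodule.span_induction with
    | mem y hy => obtain ⟨e', he', rfl⟩ := hy; exact h0 e he e' he'
    | zero => simp
    | add a b _ _ ha hb => simp [ha, hb]
    | smul c a _ ha => simp [ha]
  | zero => simp
  | add a b _ _ ha hb => simp [ha, hb]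
  | smul c a _ ha => simp [ha]

theorem main {F : Type*} [Field F] (h2 : (2 : F) ≠ 0) {d : ℕ} (f : V d F →ₗ[F] V d F)
    (hfB : ∀ u v, B (f u) (f v) = B u v) (z : F) (hz : z = 1 ∨ z = -1) (hf : ∀ x, f (f x) = z • x) :
    ∃ U W : Submodule F (V d F), IsCompl U W ∧ (∀ u ∈ U, ∀ v ∈ U, B u v = 0) ∧ (∀ u ∈ W, ∀ v ∈ W, B u v = 0) ∧
      ((U.map f = U ∧ W.map f = W) ∨ (U.map f = W ∧ W.map f = U)) := by
  classical
  have hz0 : z ≠ 0 := by rcases hz with rfl | rfl <;> simp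
  have hfinj : Function.Injective f := fun x y h => by
    have h' := congrArg f h
    rw [hf, hf] at h'
    exact smul_right_injective _ hz0 h'
  -- either both subspaces are fixed or they are interchanged
  have hsplit : (∃ Q : V d F → V d F → Prop, (∀ u v, Q u v → ∀ c : F, Q (c • u) (c • v)) ∧
      (∀ v w, Q v w → (∃ a : F, f v = a • v) ∧ (∃ b : F, f w = b • w)) ∧
      ∀ S : Submodule F (V d F), (∀ x ∈ S, f x ∈ S) → (∀ x ∈ S, x ≠ 0 → ∃ y ∈ S, B x y ≠ 0) →
      ∀ x ∈ S, x ≠ 0 → ∃ v ∈ S, ∃ w ∈ S, B v w ≠ 0 ∧ Q v w) ∨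
      (∀ S : Submodule F (V d F), (∀ x ∈ S, f x ∈ S) → (∀ x ∈ S, x ≠ 0 → ∃ y ∈ S, B x y ≠ 0) →
      ∀ x ∈ S, x ≠ 0 → ∃ v ∈ S, B v (f v) ≠ 0) := by
    by_cases hc : ∃ c : F, c * c = z
    · left
      obtain ⟨c, hc⟩ := hc
      have hc0 : c ≠ 0 := fun e => hz0 (by rw [← hc, e, zero_mul])
      refine ⟨fun v w => (∃ a : F, f v = a • v) ∧ ∃ b : F, f w = b • w, ?_, fun v w h => h, ?_⟩
      · rintro u v ⟨⟨a, ha⟩, b, hb⟩ e
        exact ⟨⟨a, by rw [map_smul, ha, smul_comm]⟩, b, by rw [map_smul, hb, smul_comm]⟩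
      intro S hinv hnd x hx hx0
      obtain ⟨c', hc', v, hv, hv0, hfv⟩ : ∃ c' : F, c' * c' = z ∧ ∃ v ∈ S, v ≠ 0 ∧ f v = c' • v := by
        by_cases h : f x + c • x = 0
        · exact ⟨-c, by rw [neg_mul_neg, hc], x, hx, hx0, by rw [neg_smul, eq_neg_iff_add_eq_zero, h]⟩
        · exact ⟨c, hc, f x + c • x, S.add_mem (hinv x hx) (S.smul_mem _ hx), h, by
            rw [map_add, map_smul, hf, ← hc]; module⟩
      obtain ⟨w, hw, hvw⟩ := hnd v hv hv0
      have hc'0 : c' ≠ 0 := fun e => hz0 (by rw [← hc', e, zero_mul])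
      -- the partner has eigenvalue c'⁻¹
      have hb : z • w = (c'⁻¹ * c'⁻¹) • w := by
        have hzz : z * z = 1 := by rcases hz with rfl | rfl <;> simp
        have : z = c'⁻¹ * c'⁻¹ := by
          rw [← mul_inv, hc']
          exact eq_inv_of_mul_eq_one_left hzz
        rw [← this]
      refine ⟨v, hv, f w + c'⁻¹ • w, S.add_mem (hinv w hw) (S.smul_mem _ hw), ?_, ⟨c', hfv⟩, c'⁻¹, ?_⟩
      · have hh : B (f v) (f w) = B v w := hfB v w
        rw [hfv, map_smul, LinearMap.smul_apply, smul_eq_mul] at hh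
        have h1 : B v (f w) = c'⁻¹ * B v w := by rw [← hh, ← mul_assoc, inv_mul_cancel₀ hc'0, one_mul]
        rw [map_add, map_smul, smul_eq_mul, h1, ← two_mul]
        exact mul_ne_zero h2 (mul_ne_zero (inv_ne_zero hc'0) hvw)
      · rw [map_add, map_smul, hf, hb]; module
    · right
      have hz1 : z = -1 := hz.resolve_left fun e => hc ⟨1, by rw [e, mul_one]⟩
      intro S hinv hnd x hx hx0
      by_contra hcon
      simp only [not_exists, not_and, not_not] at hcon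
      obtain ⟨y, hy, hxy⟩ := hnd x hx hx0
      have hy' : z • y ∈ S := S.smul_mem _ hy
      have hfy : f y ∈ S := hinv y hy
      have e1 := hcon (x + f y) (S.add_mem hx hfy)
      have e2 := hcon x hx
      have e3 := hcon (f y) hfy
      have e4 : B (f y) (f x) = B y x := hfB _ _
      simp only [map_add, LinearMap.add_apply, hf, e2] at e1
      rw [hf] at e3
      simp only [hz1, map_smul, smul_eq_mul] at e1 e3
      rw [e4, B_swap y x] at e1
      have e5 : 2 * B x y = 0 := by linear_combination -e1 + e3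
      exact hxy ((mul_eq_zero.1 e5).resolve_left h2)
  have htopnd : ∀ x ∈ (⊤ : Submodule F (V d F)), x ≠ 0 → ∃ y ∈ (⊤ : Submodule F (V d F)), B x y ≠ 0 :=
    fun x _ hx => by
      obtain ⟨y, hy⟩ := exists_B_eq_one hx
      exact ⟨y, trivial, by rw [hy]; exact one_ne_zero⟩
  have fin : ∀ l : List (V d F × V d F),
      l.Pairwise (fun e e' => B e.1 e'.1 = 0 ∧ B e.1 e'.2 = 0 ∧ B e.2 e'.1 = 0 ∧ B e.2 e'.2 = 0) →
      (⊤ : Submodule F (V d F)) ≤ Submodule.span F {x | ∃ e ∈ l, x = e.1 ∨ x = e.2} →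
      ∀ U W : Submodule F (V d F), U = Submodule.span F {x | ∃ e ∈ l, x = e.1} →
        W = Submodule.span F {x | ∃ e ∈ l, x = e.2} →
      IsCompl U W ∧ (∀ u ∈ U, ∀ v ∈ U, B u v = 0) ∧ (∀ u ∈ W, ∀ v ∈ W, B u v = 0) := by
    intro l hl htop U W hU hW
    have h1 : ∀ u ∈ U, ∀ v ∈ U, B u v = 0 := hU ▸ isotropic hl Prod.fst (Or.inl rfl)
    have h2' : ∀ u ∈ W, ∀ v ∈ W, B u v = 0 := hW ▸ isotropic hl Prod.snd (Or.inr rfl)
    have hsup : U ⊔ W = ⊤ := by
      rw [eq_top_iff, hU, hW, ← Submodule.span_union]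
      refine htop.trans (Submodule.span_mono ?_)
      rintro x ⟨e, he, (rfl | rfl)⟩
      · exact Or.inl ⟨e, he, rfl⟩
      · exact Or.inr ⟨e, he, rfl⟩
    refine ⟨⟨disjoint_iff_inf_le.2 ?_, codisjoint_iff.2 hsup⟩, h1, h2'⟩
    intro u hu
    rw [Submodule.mem_bot]
    refine eq_zero_of_B_left fun y => ?_
    have hy : y ∈ U ⊔ W := hsup ▸ trivial
    obtain ⟨a, ha, b, hb, rfl⟩ := Submodule.mem_sup.1 hy
    rw [map_add, h1 u hu.1 a ha, h2' u hu.2 b hb, add_zero]
  have mapsTo : ∀ (s : Set (V d F)) (T : Submodule F (V d F)), (∀ x ∈ s, f x ∈ T) →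
      (Submodule.span F s).map f ≤ T := fun s T h => by
    rw [Submodule.map_le_iff_le_comap, Submodule.span_le]; exact h
  rcases hsplit with ⟨Q, hQ, hQ', hstep⟩ | hstep
  · obtain ⟨l, hl1, hl2, hl3⟩ := build f hfB Q hQ (fun S h h' x hx hx0 => by
      obtain ⟨v, hv, w, hw, hvw, hq⟩ := hstep S h h' x hx hx0
      obtain ⟨⟨a, ha⟩, b, hb⟩ := hQ' v w hq
      exact ⟨v, hv, w, hw, hvw, by rw [ha]; exact Submodule.smul_mem _ _ (Submodule.subset_span (by simp)),
        by rw [hb]; exact Submodule.smul_mem _ _ (Submodule.subset_span (by simp)), hq⟩) _ ⊤ le_rfl (fun _ _ => trivial) htopnd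
    obtain ⟨h1, h2', h3⟩ := fin l hl2 hl3 _ _ rfl rfl
    refine ⟨_, _, h1, h2', h3, Or.inl ⟨?_, ?_⟩⟩ <;>
      refine Submodule.eq_of_le_of_finrank_eq (mapsTo _ _ ?_) (Submodule.equivMapOfInjective f hfinj _).finrank_eq.symm <;>
      rintro x ⟨e, he, rfl⟩
    · obtain ⟨a, ha⟩ := (hQ' _ _ (hl1 e he).2.2).1
      rw [ha]; exact Submodule.smul_mem _ _ (Submodule.subset_span ⟨e, he, rfl⟩)
    · obtain ⟨a, ha⟩ := (hQ' _ _ (hl1 e he).2.2).2
      rw [ha]; exact Submodule.smul_mem _ _ (Submodule.subset_span ⟨e, he, rfl⟩)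
  · obtain ⟨l, hl1, hl2, hl3⟩ := build f hfB (fun v w => w = f v) (fun u v h c => by rw [h, map_smul])
      (fun S h h' x hx hx0 => by
        obtain ⟨v, hv, hvw⟩ := hstep S h h' x hx hx0
        exact ⟨v, hv, f v, h v hv, hvw, Submodule.subset_span (by simp),
          by rw [hf]; exact Submodule.smul_mem _ _ (Submodule.subset_span (by simp)), rfl⟩) _ ⊤ le_rfl (fun _ _ => trivial) htopnd
    obtain ⟨h1, h2', h3⟩ := fin l hl2 hl3 _ _ rfl rfl
    have a1 : (Submodule.span F {x | ∃ e ∈ l, x = e.1}).map f ≤ Submodule.span F {x | ∃ e ∈ l, x = e.2} :=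
      mapsTo _ _ (by
        rintro x ⟨e, he, rfl⟩
        exact Submodule.subset_span ⟨e, he, ((hl1 e he).2.2).symm⟩)
    have a2 : (Submodule.span F {x | ∃ e ∈ l, x = e.2}).map f ≤ Submodule.span F {x | ∃ e ∈ l, x = e.1} :=
      mapsTo _ _ (by
        rintro x ⟨e, he, rfl⟩
        rw [(hl1 e he).2.2, hf]
        exact Submodule.smul_mem _ _ (Submodule.subset_span ⟨e, he, rfl⟩))
    have r1 := (Submodule.equivMapOfInjective f hfinj (Submodule.span F {x | ∃ e ∈ l, x = e.1})).finrank_eq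
    have r2 := (Submodule.equivMapOfInjective f hfinj (Submodule.span F {x | ∃ e ∈ l, x = e.2})).finrank_eq
    have s1 := Submodule.finrank_mono a1
    have s2 := Submodule.finrank_mono a2
    exact ⟨_, _, h1, h2', h3, Or.inr ⟨Submodule.eq_of_le_of_finrank_eq a1 (by omega),
      Submodule.eq_of_le_of_finrank_eq a2 (by omega)⟩⟩

/-- Involutions of PSp_n(q), q odd, and the subgroups GL_{n/2}(q).2. Here `T = PSp_n(q)`, `n = 2d ≥ 4`, `q` odd, realised through the symplectic matrices over the field `F` with `q` elements; Ω is the set of unordered pairs `{U, W}` of complementary totally isotropic `d`-spaces (`F^n = U ⊕ W`), whose stabilizers are the subgroups of type GL_d(q).2 (maximal except in some small cases; maximality is not assumed); an element of `T` of prime order `r` (a symplectic matrix `x` with `x^r` scalar, `x` not scalar) fixes such a pair when it fixes or interchanges `U` and `W`. If the number of such pairs is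 even, every involution of `T` fixes one of them (the action is 2-elusive). -/
theorem result {F : Type*} [Field F] [Fintype F] {p : ℕ} [Fact p.Prime] [CharP F p] {q : ℕ} (hq : Fintype.card F = q)
    (d : ℕ) (hd : 2 ≤ d) (hT : (d, q) ≠ (2, 2)) (hodd : Odd q)
    (hΩ : 2 ∣ Nat.card {P : Submodule F (Fin d ⊕ Fin d → F) × Submodule F (Fin d ⊕ Fin d → F) // IsCompl P.1 P.2 ∧ (∀ u ∈ P.1, ∀ v ∈ P.1, Cfsg.sympForm d F u v = 0) ∧ (∀ u ∈ P.2, ∀ v ∈ P.2, Cfsg.sympForm d F u v = 0)} / 2)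
    (x : ↥(Matrix.symplecticGroup (Fin d) F))
    (hx1 : ∃ z : F, ((x ^ 2 : ↥(Matrix.symplecticGroup (Fin d) F)) : Matrix (Fin d ⊕ Fin d) (Fin d ⊕ Fin d) F) = z • (1 : Matrix (Fin d ⊕ Fin d) (Fin d ⊕ Fin d) F))
    (hx2 : ∀ z : F, (x : Matrix (Fin d ⊕ Fin d) (Fin d ⊕ Fin d) F) ≠ z • (1 : Matrix (Fin d ⊕ Fin d) (Fin d ⊕ Fin d) F)) :
    ∃ U W : Submodule F (Fin d ⊕ Fin d → F), IsCompl U W ∧ (∀ u ∈ U, ∀ v ∈ U, Cfsg.sympForm d F u v = 0) ∧ (∀ u ∈ W, ∀ v ∈ W, Cfsg.sympForm d F u v = 0) ∧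
        ((U.map (Matrix.toLin' (x : Matrix (Fin d ⊕ Fin d) (Fin d ⊕ Fin d) F)) = U ∧ W.map (Matrix.toLin' (x : Matrix (Fin d ⊕ Fin d) (Fin d ⊕ Fin d) F)) = W) ∨
         (U.map (Matrix.toLin' (x : Matrix (Fin d ⊕ Fin d) (Fin d ⊕ Fin d) F)) = W ∧ W.map (Matrix.toLin' (x : Matrix (Fin d ⊕ Fin d) (Fin d ⊕ Fin d) F)) = U)) := by
  classical
  have h2 : (2 : F) ≠ 0 := Ring.two_ne_zero (by
    intro h
    have h4 := FiniteField.even_card_of_char_two (F := F) h
    rw [hq] at h4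
    rw [Nat.odd_iff] at hodd
    omega)
  obtain ⟨z, hz⟩ := hx1
  rw [SubmonoidClass.coe_pow, pow_two] at hz
  have hf : ∀ v, Matrix.toLin' x.1 (Matrix.toLin' x.1 v) = z • v := fun v => by
    rw [Matrix.toLin'_apply, Matrix.toLin'_apply, Matrix.mulVec_mulVec, hz, Matrix.smul_mulVec, Matrix.one_mulVec]
  have hfB : ∀ u v, B (Matrix.toLin' x.1 u) (Matrix.toLin' x.1 v) = B u v := fun u v => by
    rw [Matrix.toLin'_apply, Matrix.toLin'_apply]; exact B_map x u v
  have hz1 : z = 1 ∨ z = -1 := by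
    have hne : (Pi.single (Sum.inr ⟨0, by omega⟩) 1 : V d F) ≠ 0 := by simp
    obtain ⟨v, hv⟩ := exists_B_eq_one hne
    set u : V d F := Pi.single (Sum.inr ⟨0, by omega⟩) 1
    have h := hfB (Matrix.toLin' x.1 u) (Matrix.toLin' x.1 v)
    rw [hfB u v, hf, hf, map_smul, map_smul, LinearMap.smul_apply, hv, smul_eq_mul, smul_eq_mul, mul_one] at h
    exact mul_self_eq_one_iff.1 h
  obtain ⟨U, W, h1, h3, h4, h5⟩ := main h2 (Matrix.toLin' x.1) hfB z hz1 hf
  exact ⟨U, W, h1, fun u hu v hv => by rw [← B_eq]; exact h3 u hu v hv,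
    fun u hu v hv => by rw [← B_eq]; exact h4 u hu v hv, h5⟩

end Cfsg.Agent.S5962
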