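import Cfsg.Statements.S5963
import Cfsg.Agent.Lib.MaxSub.LagrPairs

set_option autoImplicit false
open scoped MatrixGroups
open Cfsg

namespace Cfsg.Agent.S5963

open scoped Matrix
open CfsgLib.Symplectic.Basic

theorem end_eq_one {F : Type*} [Field F] [Fintype F] {V' : Type*} [AddCommGroup V'] [Module F V'] [FiniteDimensional F V']
    (r : ℕ) [Fact r.Prime] (hrq : ¬ r ∣ Fintype.card F)
    (hsmall : ∀ i, 1 ≤ i → i ≤ Module.finrank F V' → ¬ r ∣ Fintype.card F ^ i - 1)
    (f : Module.End F V') (hf : f ^ r = 1) : f = 1 := by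
  classical
  let b := Module.finBasis F V'
  let E := LinearMap.toMatrixAlgEquiv b
  let g : GL (Fin (Module.finrank F V')) F :=
    Units.ofPowEqOne (E f) r (by rw [← map_pow, hf, map_one]) (Fact.out : r.Prime).ne_zero
  have hg : g ^ r = 1 := Units.pow_ofPowEqOne _ _
  have hnd : ¬ r ∣ Nat.card (GL (Fin (Module.finrank F V')) F) := by
    rw [Matrix.card_GL_field]
    intro h
    obtain ⟨i, -, hi⟩ := (Nat.prime_iff.1 (Fact.out : r.Prime)).dvd_finsetProd_iff _ |>.1 h
    obtain ⟨j, hik⟩ := i
    revert hi hik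
    generalize hk : Module.finrank F V' = k
    intro hik hi
    simp only [] at hi
    rw [show Fintype.card F ^ k - Fintype.card F ^ j = Fintype.card F ^ j * (Fintype.card F ^ (k - j) - 1) by
      rw [Nat.mul_sub, mul_one, ← pow_add, show j + (k - j) = k by omega]] at hi
    rcases (Fact.out : r.Prime).dvd_mul.1 hi with h1 | h1
    · exact hrq ((Fact.out : r.Prime).dvd_of_dvd_pow h1)
    · exact hsmall (k - j) (by omega) (by omega) h1
  have h1 : g = 1 := by
    rw [← orderOf_eq_one_iff]
    rcases (Nat.dvd_prime (Fact.out : r.Prime)).1 (orderOf_dvd_of_pow_eq_one hg) with h | h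
    · exact h
    · exact absurd (h ▸ orderOf_dvd_natCard g) hnd
  apply E.injective
  rw [map_one]
  exact congrArg Units.val h1

/-- Derangements of odd prime order of PSp_n(q), q odd, on pairs of complementary totally isotropic subspaces. Here `T = PSp_n(q)`, `n = 2d ≥ 4`, `q` odd, realised through the symplectic matrices over the field `F` with `q` elements; Ω is the set of unordered pairs `{U, W}` of complementary totally isotropic `d`-spaces (`F^n = U ⊕ W`), whose stabilizers are the subgroups of type GL_d(q).2 (maximal except in some small cases; maximality is not assumed); an element of `T` of prime order `r` (a symplectic matrix `x` with `x^r` scalar, `x` not scalar) fixes such a pair when it fixes or interchanges `U` and `W`. For every odd prime `r ≠ p` dividing the number of such pairs, some element of `T` of order `r` fixes no such pair (the action is never `r`-elusive for odd `r ≠ p`). -/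
theorem result {F : Type*} [Field F] [Fintype F] {p : ℕ} [Fact p.Prime] [CharP F p] {q : ℕ} (hq : Fintype.card F = q)
    (d : ℕ) (hd : 2 ≤ d) (hT : (d, q) ≠ (2, 2)) (hodd : Odd q)
    (r : ℕ) [Fact r.Prime] (hr2 : r ≠ 2) (hrp : r ≠ p) (hΩ : r ∣ Nat.card {P : Submodule F (Fin d ⊕ Fin d → F) × Submodule F (Fin d ⊕ Fin d → F) // IsCompl P.1 P.2 ∧ (∀ u ∈ P.1, ∀ v ∈ P.1, Cfsg.sympForm d F u v = 0) ∧ (∀ u ∈ P.2, ∀ v ∈ P.2, Cfsg.sympForm d F u v = 0)} / 2) :
    ∃ x : ↥(Matrix.symplecticGroup (Fin d) F),
      (∃ z : F, ((x ^ r : ↥(Matrix.symplecticGroup (Fin d) F)) : Matrix (Fin d ⊕ Fin d) (Fin d ⊕ Fin d) F) = z • (1 : Matrix (Fin d ⊕ Fin d) (Fin d ⊕ Fin d) F)) ∧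
      (∀ z : F, (x : Matrix (Fin d ⊕ Fin d) (Fin d ⊕ Fin d) F) ≠ z • (1 : Matrix (Fin d ⊕ Fin d) (Fin d ⊕ Fin d) F)) ∧
      ¬ (∃ U W : Submodule F (Fin d ⊕ Fin d → F), IsCompl U W ∧ (∀ u ∈ U, ∀ v ∈ U, Cfsg.sympForm d F u v = 0) ∧ (∀ u ∈ W, ∀ v ∈ W, Cfsg.sympForm d F u v = 0) ∧
        ((U.map (Matrix.toLin' (x : Matrix (Fin d ⊕ Fin d) (Fin d ⊕ Fin d) F)) = U ∧ W.map (Matrix.toLin' (x : Matrix (Fin d ⊕ Fin d) (Fin d ⊕ Fin d) F)) = W) ∨
         (U.map (Matrix.toLin' (x : Matrix (Fin d ⊕ Fin d) (Fin d ⊕ Fin d) F)) = W ∧ W.map (Matrix.toLin' (x : Matrix (Fin d ⊕ Fin d) (Fin d ⊕ Fin d) F)) = U))) := by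
  classical
  subst hq
  have hr : r.Prime := Fact.out
  have h2 : (2 : F) ≠ 0 := Ring.two_ne_zero (by
    intro h
    have h4 := FiniteField.even_card_of_char_two (F := F) h
    rw [Nat.odd_iff] at hodd
    omega)
  have hrq : ¬ r ∣ Fintype.card F := by
    obtain ⟨k, -, hk⟩ := FiniteField.card F p
    rw [hk]
    exact fun h => hrp ((Nat.prime_dvd_prime_iff_eq hr Fact.out).1 (hr.dvd_of_dvd_pow h))
  have hev : r ∣ Nat.card (CfsgLib.MaxSub.LagrPairs.Pair d F) :=
    dvd_trans hΩ (Nat.div_dvd_of_dvd (by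
      by_contra hodd'
      -- otherwise the swap of the two members would have a fixed point
      let σ : CfsgLib.MaxSub.LagrPairs.Pair d F → CfsgLib.MaxSub.LagrPairs.Pair d F :=
        fun P => ⟨(P.1.2, P.1.1), P.2.1.symm, P.2.2.2, P.2.2.1⟩
      haveI : Fintype (CfsgLib.MaxSub.LagrPairs.Pair d F) := Fintype.ofFinite _
      have hinv : Function.Involutive σ := fun P => rfl
      haveI : Fact (Nat.Prime 2) := ⟨Nat.prime_two⟩
      obtain ⟨P, hP⟩ := Equiv.Perm.exists_fixed_point_of_prime (p := 2) (n := 1)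
        (by rwa [← Nat.card_eq_fintype_card]) (σ := hinv.toPerm σ)
        (by rw [pow_one, pow_two]; exact Equiv.ext fun P => rfl)
      have h1 : P.1.2 = P.1.1 := congrArg (fun Q : CfsgLib.MaxSub.LagrPairs.Pair d F => Q.1.1) hP
      have hf := CfsgLib.MaxSub.LagrPairs.finrank_eq P
      have hd' := P.2.1.disjoint
      rw [h1, disjoint_self] at hd'
      rw [hd', finrank_bot] at hf
      omega))
  obtain ⟨i0, hi0, hdvd0⟩ := CfsgLib.MaxSub.LagrPairs.exists_dvd r hrq hev
  -- the least exponent with r dividing q^e + 1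
  have hex : ∃ e, 1 ≤ e ∧ r ∣ Fintype.card F ^ e + 1 := ⟨i0 + 1, by omega, hdvd0⟩
  let e := Nat.find hex
  obtain ⟨he1, hedvd⟩ := Nat.find_spec hex
  have hed : e ≤ d := (Nat.find_le ⟨by omega, hdvd0⟩).trans hi0
  set q := Fintype.card F with hqdef
  have hq0 : (q : ZMod r) ≠ 0 := by rwa [Ne, ZMod.natCast_eq_zero_iff]
  have hqe : (q : ZMod r) ^ e = -1 := by
    rw [eq_neg_iff_add_eq_zero]
    have := (ZMod.natCast_eq_zero_iff _ _).2 hedvd
    exact_mod_cast this
  have hord : orderOf (q : ZMod r) = 2 * e := by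
    set o := orderOf (q : ZMod r) with ho
    have h1 : o ∣ 2 * e := orderOf_dvd_of_pow_eq_one (by rw [mul_comm, pow_mul, hqe, neg_one_sq])
    have hne : ¬ o ∣ e := fun h => by
      rw [orderOf_dvd_iff_pow_eq_one] at h
      rw [hqe] at h
      haveI : Fact (2 < r) := ⟨by have := hr.two_le; omega⟩
      exact ZMod.neg_one_ne_one h
    have ho2 : 2 ∣ o := by
      by_contra h
      exact hne ((((Nat.prime_two.coprime_iff_not_dvd).2 h).symm).dvd_of_dvd_mul_left h1)
    obtain ⟨g, hg⟩ := ho2
    have hge : g ∣ e := by rw [hg] at h1; exact Nat.dvd_of_mul_dvd_mul_left two_pos h1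
    have hopos : 0 < o := orderOf_pos_iff.2 (isOfFinOrder_iff_pow_eq_one.2 ⟨2 * e, by omega, by rw [mul_comm, pow_mul, hqe, neg_one_sq]⟩)
    have hqg : (q : ZMod r) ^ g = -1 := by
      have h3 : ((q : ZMod r) ^ g) * ((q : ZMod r) ^ g) = 1 := by
        rw [← pow_add, ← two_mul, ← hg, ho, pow_orderOf_eq_one]
      exact (mul_self_eq_one_iff.1 h3).resolve_left (pow_ne_one_of_lt_orderOf (by omega) (by omega))
    have hle : e ≤ g := Nat.find_le ⟨by omega, by
      rw [← ZMod.natCast_eq_zero_iff]; push_cast; rw [hqg]; simp⟩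
    have := Nat.le_of_dvd (by omega) hge
    omega
  have hsmall : ∀ i, 1 ≤ i → i < 2 * e → ¬ r ∣ q ^ i - 1 := by
    intro i hi1 hi2 h
    have h0 := (ZMod.natCast_eq_zero_iff _ _).2 h
    rw [Nat.cast_sub (Nat.one_le_pow _ _ Fintype.card_pos), sub_eq_zero] at h0
    have h3 := orderOf_dvd_of_pow_eq_one (by exact_mod_cast h0 : (q : ZMod r) ^ i = 1)
    rw [hord] at h3
    exact absurd (Nat.le_of_dvd (by omega) h3) (by omega)
  let H : Subgroup (Sp d F) := fixer (std (d - e))
  have hH : r ∣ Nat.card H := by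
    rw [CfsgLib.Symplectic.Order.card_fixer (d - e) (by omega)]
    rw [show d - (d - e) = e by omega]
    refine dvd_mul_of_dvd_right (dvd_trans ?_ (Finset.dvd_prod_of_mem _ (Finset.mem_range.2 (by omega : e - 1 < e)))) _
    rw [← ZMod.natCast_eq_zero_iff, Nat.cast_sub (Nat.one_le_pow _ _ Fintype.card_pos)]
    push_cast
    rw [show 2 * (e - 1 + 1) = e * 2 by omega, pow_mul, hqe, neg_one_sq, sub_self]
  obtain ⟨x', hx'⟩ := exists_prime_orderOf_dvd_card' r hH
  obtain ⟨x, hxH⟩ := x'
  have hxr : x ^ r = 1 := by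
    have := pow_orderOf_eq_one (⟨x, hxH⟩ : H)
    rw [hx'] at this
    exact congrArg Subtype.val this
  have hx1 : x ≠ 1 := fun h => by
    subst h
    rw [show (⟨1, hxH⟩ : H) = 1 from rfl, orderOf_one] at hx'
    exact hr.ne_one hx'.symm
  let f : V d F →ₗ[F] V d F := Matrix.toLin' x.1
  have hfr : f ^ r = 1 := by
    have h := congrArg (fun y : Sp d F => Matrix.toLinAlgEquiv' y.1) hxr
    simp only [SubmonoidClass.coe_pow, map_pow, OneMemClass.coe_one, map_one] at h
    exact h
  have hfB : ∀ u v, B (f u) (f v) = B u v := fun u v => by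
    simp only [f, Matrix.toLin'_apply]; exact B_map x u v
  let Eo : Submodule F (V d F) := orth (std (d - e))
  have hEdim : Module.finrank F Eo = 2 * e := by
    show Module.finrank F (orth (std (d - e)) : Submodule F (V d F)) = 2 * e
    have h := CfsgLib.Symplectic.Order.card_orth_std (F := F) (m := d) (d - e) (by omega)
    rw [Module.natCard_eq_pow_finrank (K := F), Nat.card_eq_fintype_card] at h
    have := Nat.pow_right_injective Fintype.one_lt_card h
    omega
  have hmove : ∀ v, f v - v ∈ Eo := by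
    intro v s hs
    rw [map_sub, sub_eq_zero]
    conv_lhs => rw [show s = f s from (show f s = s by simp only [f, Matrix.toLin'_apply]; exact hxH s hs).symm]
    exact hfB s v
  have hEinv : ∀ v ∈ Eo, f v ∈ Eo := fun v hv => by
    have : f v = (f v - v) + v := by abel
    rw [this]; exact Eo.add_mem (hmove v) hv
  -- no proper invariant subspace
  have hirr : ∀ W : Submodule F (V d F), W ≤ Eo → (∀ w ∈ W, f w ∈ W) → W = ⊥ ∨ W = Eo := by
    intro W hWE hW
    by_contra hcon
    rw [not_or] at hcon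
    have hlt := Submodule.finrank_lt_finrank_of_lt (lt_of_le_of_ne hWE hcon.2)
    have hWpos : 0 < Module.finrank F W := by
      rw [Nat.pos_iff_ne_zero, Ne, Submodule.finrank_eq_zero]; exact hcon.1
    let fW : Module.End F W := f.restrict hW
    have h1 : fW = 1 := end_eq_one r hrq (fun i h1 h2 => hsmall i h1 (by omega)) fW (by
      rw [Module.End.pow_restrict _]
      exact LinearMap.ext fun w => Subtype.ext (LinearMap.congr_fun hfr w.1))
    let fE : Module.End F Eo := f.restrict hEinv
    have hEW : (W.comap Eo.subtype) ≤ (W.comap Eo.subtype).comap fE := fun w hw => hW _ hw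
    let fQ : Module.End F (Eo ⧸ W.comap Eo.subtype) := (W.comap Eo.subtype).mapQ _ fE hEW
    have hQdim : Module.finrank F (Eo ⧸ W.comap Eo.subtype) < 2 * e := by
      have := Submodule.finrank_quotient_add_finrank (W.comap Eo.subtype)
      rw [(Submodule.comapSubtypeEquivOfLe hWE).finrank_eq] at this
      omega
    have h2' : fQ = 1 := end_eq_one r hrq (fun i h1 h2 => hsmall i h1 (by omega)) fQ (by
      refine Submodule.linearMap_qext _ (LinearMap.ext fun w => ?_)
      have key : ∀ k (w : Eo), (fQ ^ k) (Submodule.Quotient.mk w) = Submodule.Quotient.mk ((fE ^ k) w) := by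
        intro k
        induction k with
        | zero => simp
        | succ k ih => intro w; rw [pow_succ', pow_succ', Module.End.mul_apply, ih]; rfl
      show (fQ ^ r) (Submodule.Quotient.mk w) = Submodule.Quotient.mk w
      rw [key, Module.End.pow_restrict _]
      congr 1
      exact Subtype.ext (LinearMap.congr_fun hfr w.1))
    have hW1 : ∀ w ∈ W, f w = w := fun w hw => congrArg Subtype.val (LinearMap.congr_fun h1 ⟨w, hw⟩)
    have hsq : ∀ v, f (f (f v - v) - (f v - v)) - (f (f v - v) - (f v - v)) = 0 := by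
      intro v
      have hE' : f v - v ∈ Eo := hmove v
      have h3 : Submodule.Quotient.mk (p := W.comap Eo.subtype) (fE ⟨_, hE'⟩) = Submodule.Quotient.mk ⟨_, hE'⟩ :=
        LinearMap.congr_fun h2' (Submodule.Quotient.mk ⟨_, hE'⟩)
      have h4 : f (f v - v) - (f v - v) ∈ W := (Submodule.Quotient.eq (W.comap Eo.subtype)).1 h3
      exact sub_eq_zero.2 (hW1 _ h4)
    -- so f is unipotent, hence of order a power of p
    let N : Module.End F (V d F) := f - 1
    have hN : N ^ 3 = 0 := by
      refine LinearMap.ext fun v => ?_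
      have := hsq v
      simp only [N, pow_succ, pow_zero, one_mul, Module.End.mul_apply, LinearMap.sub_apply, Module.End.one_apply,
        LinearMap.zero_apply, map_sub] at this ⊢
      linear_combination (norm := abel) this
    obtain ⟨k, hk, hkc⟩ := FiniteField.card F p
    haveI : ExpChar (Module.End F (V d F)) p := by
      haveI : CharP (Module.End F (V d F)) p :=
        charP_of_injective_algebraMap (R := F) (A := Module.End F (V d F)) (fun a b h => by
          obtain ⟨v, hv⟩ : ∃ v : V d F, v ≠ 0 := ⟨fun _ => 1, fun h => one_ne_zero (congrFun h (Sum.inl ⟨0, by omega⟩))⟩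
          exact smul_left_injective F hv (LinearMap.congr_fun h v)) p
      exact ExpChar.prime Fact.out
    have hpk : f ^ (p ^ 2) = 1 := by
      have : f = N + 1 := by simp [N]
      rw [this, add_pow_expChar_pow_of_commute _ _ (Commute.one_right N), one_pow]
      have h3 : 3 ≤ p ^ 2 := by
        have := (Fact.out : p.Prime).two_le
        nlinarith
      rw [show p ^ 2 = 3 + (p ^ 2 - 3) by omega, pow_add, hN, zero_mul, zero_add]
    have hcop : Nat.Coprime r (p ^ 2) := ((Nat.coprime_primes hr Fact.out).2 hrp).pow_right 2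
    have hone : f = 1 := by
      have := pow_gcd_eq_one.2 (⟨hfr, hpk⟩ : f ^ r = 1 ∧ f ^ (p ^ 2) = 1)
      rwa [hcop, pow_one] at this
    exact hx1 (ext_mulVec fun v => by
      have := LinearMap.congr_fun hone v
      simp only [f, Matrix.toLin'_apply, Module.End.one_apply] at this
      rw [this]; simp)
  have hEne : Eo ≠ ⊥ := fun h => by rw [h, finrank_bot] at hEdim; omega
  have hEnd : ¬ ∀ u ∈ Eo, ∀ v ∈ Eo, B u v = 0 := fun h => by
    obtain ⟨u, hu, hu0⟩ := Eo.exists_mem_ne_zero_of_ne_bot hEne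
    obtain ⟨v, hv, hne⟩ := nondeg_std _ u hu hu0
    exact hne (h u hu v hv)
  have hfix : ∀ v ∈ Eo, f v = v → v = 0 := by
    intro v hv hfv
    rcases hirr (Submodule.span F {v}) (by simpa [Submodule.span_le] using hv) (fun w hw => by
      obtain ⟨c, rfl⟩ := Submodule.mem_span_singleton.1 hw
      rw [map_smul, hfv]; exact hw) with h | h
    · simpa using h
    · exfalso
      by_cases hv0 : v = 0
      · exact hEne (by rw [← h, hv0, Submodule.span_zero_singleton])
      have := congrArg (fun W : Submodule F (V d F) => Module.finrank F W) h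
      simp only [hEdim] at this
      rw [finrank_span_singleton hv0] at this
      omega
  refine ⟨x, ⟨1, by rw [hxr, OneMemClass.coe_one, one_smul]⟩, fun z hz => ?_, ?_⟩
  · -- x is not scalar
    obtain ⟨u, hu, hu0⟩ := Eo.exists_mem_ne_zero_of_ne_bot hEne
    have hfu : f u = z • u := by simp only [f, Matrix.toLin'_apply, hz, Matrix.smul_mulVec, Matrix.one_mulVec]
    rcases hirr (Submodule.span F {u}) (by simpa [Submodule.span_le] using hu) (fun w hw => by
      obtain ⟨c, rfl⟩ := Submodule.mem_span_singleton.1 hw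
      rw [map_smul, hfu, smul_comm]; exact Submodule.smul_mem _ _ hw) with h | h
    · exact hu0 (by simpa using h)
    · have := congrArg (fun W : Submodule F (V d F) => Module.finrank F W) h
      simp only [hEdim] at this
      rw [finrank_span_singleton hu0] at this
      omega
  rintro ⟨U, W, hcompl, hU, hW, hcase⟩
  rcases hcase with ⟨hfU, hfW⟩ | ⟨hfU, hfW⟩
  · -- fixed pair
    have hmemU : ∀ u ∈ U, f u ∈ U := fun u hu => hfU ▸ Submodule.mem_map_of_mem hu
    have hmemW : ∀ u ∈ W, f u ∈ W := fun u hu => hfW ▸ Submodule.mem_map_of_mem hu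
    have hsplit : Eo ≤ (Eo ⊓ U) ⊔ (Eo ⊓ W) := by
      let g : Eo →ₗ[F] Eo := f.restrict hEinv - 1
      have hg : Function.Injective g := by
        rw [injective_iff_map_eq_zero]
        intro v hv
        have h : f v.1 - v.1 = 0 := congrArg Subtype.val hv
        exact Subtype.ext (hfix v.1 v.2 (sub_eq_zero.1 h))
      intro y hy
      obtain ⟨v, hv⟩ := (LinearMap.injective_iff_surjective.1 hg) ⟨y, hy⟩
      have hyv : y = f v.1 - v.1 := (congrArg Subtype.val hv).symm
      obtain ⟨a, ha, b, hb, hab⟩ := Submodule.mem_sup.1 (hcompl.sup_eq_top ▸ (trivial : v.1 ∈ (⊤ : Submodule F (V d F))) : v.1 ∈ U ⊔ W)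
      have : y = (f a - a) + (f b - b) := by rw [hyv, ← hab, map_add]; abel
      rw [this]
      exact Submodule.add_mem_sup ⟨hmove a, U.sub_mem (hmemU a ha) ha⟩ ⟨hmove b, W.sub_mem (hmemW b hb) hb⟩
    rcases hirr (Eo ⊓ U) inf_le_left (fun w hw => ⟨hEinv w hw.1, hmemU w hw.2⟩) with h | h
    · rw [h, bot_sup_eq] at hsplit
      exact hEnd fun u hu v hv => by rw [B_eq]; exact hW u (hsplit hu).2 v (hsplit hv).2
    · exact hEnd fun u hu v hv => by
        rw [B_eq]; exact hU u (h.ge hu).2 v (h.ge hv).2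
  · -- interchanged pair
    have hfU' : U.map f = W := hfU
    have hfW' : W.map f = U := hfW
    have hodd' : ∀ k, U.map (f ^ (2 * k + 1)) = W := by
      intro k
      induction k with
      | zero => simpa using hfU'
      | succ k ih =>
        rw [show 2 * (k + 1) + 1 = (2 * k + 1).succ.succ by omega, pow_succ', pow_succ', Module.End.mul_eq_comp,
          Submodule.map_comp, Module.End.mul_eq_comp, Submodule.map_comp, ih, hfW', hfU']
    obtain ⟨k, hk⟩ := hr.odd_of_ne_two hr2
    have hUW := hodd' k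
    rw [← hk, hfr, Module.End.one_eq_id, Submodule.map_id] at hUW
    have hd' := hcompl
    rw [← hUW] at hd'
    have h1 : U = ⊥ := disjoint_self.1 hd'.disjoint
    have h2 : U = ⊤ := by simpa using hd'.sup_eq_top
    rw [h1] at h2
    exact hEne (eq_bot_iff.2 (h2.symm ▸ le_top))

end Cfsg.Agent.S5963
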