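import Cfsg.Statements.S5964
import Cfsg.Agent.Lib.MaxSub.InvolNormal
import Cfsg.Agent.Lib.Linear.Card

set_option autoImplicit false
open scoped MatrixGroups
open Cfsg

namespace Cfsg.Agent.S5964

open scoped Matrix

theorem two_pow_val {N : ℕ} (hN : N ≠ 0) : ∃ j, Odd j ∧ N = 2 ^ padicValNat 2 N * j := by
  obtain ⟨j, hj⟩ := pow_padicValNat_dvd (p := 2) (n := N)
  refine ⟨j, ?_, hj⟩
  rw [← Nat.not_even_iff_odd]
  rintro ⟨i, rfl⟩
  have hi : 2 ^ (padicValNat 2 N + 1) ∣ N := by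
    obtain ⟨a, ha⟩ : ∃ a, a = padicValNat 2 N := ⟨_, rfl⟩
    rw [← ha] at hj ⊢
    exact ⟨i, by rw [hj, pow_succ]; ring⟩
  exact pow_succ_padicValNat_not_dvd hN hi

/-- A non-square `w` with `w^m = 1` exists exactly when the part at two of `q-1` divides `m`. -/
theorem nonsquare_root {F : Type*} [Field F] [Fintype F] (h2 : (2 : F) ≠ 0) (m : ℕ) (hm : m ≠ 0) :
    (∃ w : F, ¬ IsSquare w ∧ w ^ m = 1) ↔ padicValNat 2 (Fintype.card F - 1) ≤ padicValNat 2 m := by
  classical
  have hq : Fintype.card F - 1 ≠ 0 := by have := Fintype.one_lt_card (α := F); omega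
  obtain ⟨j, hj, hmj⟩ := two_pow_val hm
  obtain ⟨j', hj', hqj⟩ := two_pow_val hq
  set a := padicValNat 2 m
  set b := padicValNat 2 (Fintype.card F - 1)
  have hb : 1 ≤ b := by
    have hodd := FiniteField.odd_card_of_char_ne_two (F := F) (fun h => h2 (by
      haveI : CharP F 2 := ringChar.eq_iff.1 h
      exact CharTwo.two_eq_zero))
    by_contra hb
    have hb0 : b = 0 := by omega
    rw [hb0, pow_zero, one_mul] at hqj
    rw [Nat.odd_iff] at hj'
    omega
  constructor
  · rintro ⟨w, hw, hwm⟩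
    by_contra hlt
    obtain ⟨i, hi⟩ := Nat.exists_eq_add_of_le (Nat.succ_le_iff.2 (not_le.1 hlt))
    have hw0 : w ≠ 0 := fun h => hw ⟨0, by rw [h, mul_zero]⟩
    have hhalf : Fintype.card F / 2 = 2 ^ (a + i) * j' := by
      have : Fintype.card F = 2 * (2 ^ (a + i) * j') + 1 := by
        have h1 : 2 ^ b * j' = 2 * (2 ^ (a + i) * j') := by rw [hi, Nat.succ_add, pow_succ]; ring
        omega
      omega
    apply hw
    refine (FiniteField.isSquare_iff (fun h => h2 (by
      haveI : CharP F 2 := ringChar.eq_iff.1 h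
      exact CharTwo.two_eq_zero)) hw0).2 ?_
    rw [hhalf]
    -- w has order dividing the gcd
    have h1 : orderOf w ∣ Nat.gcd m (Fintype.card F - 1) :=
      Nat.dvd_gcd (orderOf_dvd_of_pow_eq_one hwm) (orderOf_dvd_of_pow_eq_one (FiniteField.pow_card_sub_one_eq_one w hw0))
    rw [← orderOf_dvd_iff_pow_eq_one]
    refine h1.trans ?_
    rw [hmj, hqj]
    refine (Nat.dvd_gcd ((Nat.gcd_dvd_left _ _).trans (Dvd.intro j' rfl)) (Nat.gcd_dvd_right _ _)).trans ?_
    rw [Nat.gcd_mul_right, Nat.Coprime.gcd_mul_right_cancel (2 ^ a) ((Nat.coprime_two_left.2 hj).symm.pow_right b)]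
    exact mul_dvd_mul ((Nat.gcd_dvd_left _ _).trans (pow_dvd_pow 2 (Nat.le_add_right a i))) dvd_rfl
  · intro hle
    obtain ⟨ω, hω⟩ := IsCyclic.exists_ofOrder_eq_natCard (α := Fˣ)
    rw [Nat.card_eq_fintype_card, Fintype.card_units] at hω
    refine ⟨((ω ^ j' : Fˣ) : F), ?_, ?_⟩
    · rintro ⟨s, hs⟩
      have hs0 : s ≠ 0 := fun h => (ω ^ j').ne_zero (by rw [hs, h, zero_mul])
      have h1 : (((ω ^ j' : Fˣ) : F)) ^ (2 ^ (b - 1) * j') = 1 := by
        rw [hs, ← pow_two, ← pow_mul, show 2 * (2 ^ (b - 1) * j') = Fintype.card F - 1 by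
          rw [hqj, ← mul_assoc, ← pow_succ', show b - 1 + 1 = b by omega],
          FiniteField.pow_card_sub_one_eq_one s hs0]
      rw [← Units.val_pow_eq_pow_val, Units.val_eq_one, ← pow_mul, ← orderOf_dvd_iff_pow_eq_one, hω, hqj,
        show j' * (2 ^ (b - 1) * j') = 2 ^ (b - 1) * (j' * j') by ring] at h1
      have h3 : 2 ^ b ∣ 2 ^ (b - 1) * (j' * j') := dvd_trans (Dvd.intro _ rfl) h1
      have h4 : 2 ^ b ∣ 2 ^ (b - 1) :=
        (((Nat.coprime_two_left.2 (hj'.mul hj'))).pow_left b).dvd_of_dvd_mul_right h3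
      have := (Nat.pow_dvd_pow_iff_le_right (by norm_num)).1 h4
      omega
    · obtain ⟨i, hi⟩ := Nat.exists_eq_add_of_le hle
      rw [← Units.val_pow_eq_pow_val, Units.val_eq_one, ← pow_mul, ← orderOf_dvd_iff_pow_eq_one, hω, hqj, hmj, hi]
      exact ⟨2 ^ i * j, by ring⟩

/-- Membership in the subfield group. -/
theorem mem_iff {F : Type*} [Field F] {n : ℕ} (F₀ : Subfield F) (g : GL (Fin n) F) :
    g ∈ Cfsg.Geo.subfieldSubgroup F₀ 1 ↔
      ∃ c : F, c ≠ 0 ∧ ∀ i j, c⁻¹ * g.1 i j ∈ F₀ := by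
  classical
  have hs : Cfsg.Geo.subfieldSubgroup F₀ (1 : GL (Fin n) F)
      = (Matrix.GeneralLinearGroup.map (F₀.subtype : F₀ →+* F)).range ⊔ Cfsg.Geo.scalars (Fin n) F := by
    unfold Cfsg.Geo.subfieldSubgroup
    rw [map_one]
    exact Subgroup.map_id _
  rw [hs, Subgroup.mem_sup_of_normal_right]
  constructor
  · rintro ⟨_, ⟨h, rfl⟩, s, hs, rfl⟩
    obtain ⟨c, hc⟩ := (Cfsg.Geo.mem_scalars_iff s).1 hs
    refine ⟨c, c.ne_zero, fun i j => ?_⟩
    rw [Units.val_mul, hc, Matrix.mul_smul, Matrix.mul_one, Matrix.smul_apply, smul_eq_mul, ← mul_assoc,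
      inv_mul_cancel₀ c.ne_zero, one_mul]
    exact (h.1 i j).2
  · rintro ⟨c, hc, h⟩
    let M : Matrix (Fin n) (Fin n) F₀ := Matrix.of fun i j => ⟨c⁻¹ * g.1 i j, h i j⟩
    have hM : (F₀.subtype : F₀ →+* F).mapMatrix M = c⁻¹ • g.1 := by ext i j; rfl
    have hdet : M.det ≠ 0 := fun e => by
      have := congrArg (F₀.subtype : F₀ →+* F) e
      rw [RingHom.map_det, hM, Matrix.det_smul, map_zero] at this
      rcases mul_eq_zero.1 this with h1 | h1
      · exact inv_ne_zero hc (pow_eq_zero_iff'.1 h1).1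
      · exact ((Matrix.isUnit_iff_isUnit_det g.1).1 g.isUnit).ne_zero h1
    let s : GL (Fin n) F := Units.map (Matrix.scalar (Fin n) : F →+* Matrix (Fin n) (Fin n) F).toMonoidHom (Units.mk0 c hc)
    refine ⟨_, ⟨Matrix.GeneralLinearGroup.mkOfDetNeZero M hdet, rfl⟩, s, ⟨_, rfl⟩, Units.ext ?_⟩
    rw [Units.val_mul]
    show (F₀.subtype : F₀ →+* F).mapMatrix M * Matrix.scalar (Fin n) c = g.1
    rw [hM, Matrix.scalar_apply, ← Matrix.smul_one_eq_diagonal, Matrix.mul_smul, Matrix.mul_one, smul_smul,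
      mul_inv_cancel₀ hc, one_smul]

theorem det_pairs {F : Type*} [Field F] (z : F) (r : ℕ) :
    (Matrix.blockDiagonal (fun _ : Fin r => !![0, z; 1, 0])).det = (-z) ^ r := by
  simp [Matrix.det_blockDiagonal, Matrix.det_fin_two_of]

/-- Involutions of PSL_n(q) and subfield subgroups. Here `T = PSL_n(F)` for a field `F` with `q = p^f` elements (`n ≥ 2`, `(n, q) ≠ (2, 2), (2, 3)`), `F₀` is the subfield with `q₀` elements where `q = q₀^k` for a prime `k`, and `H` is the subgroup of matrices of determinant 1 lying in the subfield group of `F₀` (invertible matrices over `F₀` times scalars) — a maximal subgroup of type GL_n(q₀) (the case `n = 2`, `q₀ = 2` is excluded); Ω is the set of `T`-conjugates of `H` (cosets of `H`), so an element of `T` of prime order `r` (a matrix `x` of determinant 1 with `x^r` scalar, `x` not scalar) fixes a point of Ω when some conjugate of `x` by a matrix of determinant 1 lies in `H`. Suppose the index of `H` is even. Then every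 involution of `T` is conjugate in `T` into `H` if and only if either `q` is even, or `k = 2` and `(n)_2 ≤ (q − 1)_2`. (For `q` odd and `k` odd the index of `H` is odd, so that case does not arise.) -/
theorem result {F : Type*} [Field F] [Fintype F] {p : ℕ} [Fact p.Prime] [CharP F p] {q : ℕ} (hq : Fintype.card F = q)
    (n : ℕ) (hn : 2 ≤ n) (hT : (n, q) ≠ (2, 2) ∧ (n, q) ≠ (2, 3))
    (F₀ : Subfield F) (k q₀ : ℕ) (hk : k.Prime) (hF₀ : Nat.card ↥F₀ = q₀) (hqk : q = q₀ ^ k) (hC5 : ¬ (n = 2 ∧ q₀ = 2)) (hΩ : 2 ∣ ((Cfsg.Geo.subfieldSubgroup F₀ 1).comap (Matrix.SpecialLinearGroup.toGL : Matrix.SpecialLinearGroup (Fin n) F →* GL (Fin n) F)).index) :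
    (∀ x : Matrix.SpecialLinearGroup (Fin n) F,
      (∃ z : F, ((x ^ 2 : Matrix.SpecialLinearGroup (Fin n) F) : Matrix (Fin n) (Fin n) F) = z • (1 : Matrix (Fin n) (Fin n) F)) →
      (∀ z : F, (x : Matrix (Fin n) (Fin n) F) ≠ z • (1 : Matrix (Fin n) (Fin n) F)) →
      ∃ P : Matrix.SpecialLinearGroup (Fin n) F, P⁻¹ * x * P ∈ ((Cfsg.Geo.subfieldSubgroup F₀ 1).comap (Matrix.SpecialLinearGroup.toGL : Matrix.SpecialLinearGroup (Fin n) F →* GL (Fin n) F))) ↔
    (Odd q → (k = 2 ∧ padicValNat 2 n ≤ padicValNat 2 (q - 1))) := by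
  classical
  have hn0 : Nonempty (Fin n) := ⟨⟨0, by omega⟩⟩
  have hF0 : ∀ {x : F}, x ∈ F₀ → (-x) ∈ F₀ := fun h => F₀.neg_mem h
  have hq0 : 2 ≤ q₀ := hF₀ ▸ (Finite.one_lt_card : 1 < Nat.card F₀)
  have hk1 : 2 ≤ k := hk.two_le
  subst hq
  haveI : Fintype F₀ := Fintype.ofFinite F₀
  have hF₀' : Fintype.card F₀ = q₀ := by rw [← Nat.card_eq_fintype_card, hF₀]
  by_cases hodd : Odd (Fintype.card F)
  swap
  · -- characteristic two
    refine iff_of_true ?_ (fun h => absurd h hodd)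
    have h2 : ringChar F = 2 := by
      by_contra h; exact hodd (Nat.odd_iff.2 (FiniteField.odd_card_of_char_ne_two h))
    haveI : CharP F 2 := ringChar.eq_iff.1 h2
    intro x hx1 _
    obtain ⟨z, hz⟩ := hx1
    rw [Matrix.SpecialLinearGroup.coe_pow, pow_two] at hz
    have hz0 : z ≠ 0 := by
      rintro rfl
      have hd := congrArg Matrix.det hz
      rw [Matrix.det_mul, x.2, zero_smul, Matrix.det_zero, mul_one] at hd
      exact one_ne_zero hd
    obtain ⟨μ, hμ⟩ := FiniteField.isSquare_of_char_two h2 z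
    have hμ0 : μ ≠ 0 := fun h => hz0 (by rw [hμ, h, zero_mul])
    let T := μ⁻¹ • Matrix.toLin' x.1
    have hT : ∀ v, T (T v) = (1 : F) • v := fun v => by
      simp only [T, LinearMap.smul_apply, map_smul, Matrix.toLin'_apply, Matrix.mulVec_mulVec, hz, Matrix.smul_mulVec, Matrix.one_mulVec, smul_smul]
      congr 1; rw [hμ]; field_simp
    obtain ⟨r, s, B, hB1, hB2, hB3⟩ := CfsgLib.MaxSub.InvolDecomp.exists_basis T 1 one_ne_zero hT
    have hsing : ∀ j, T (B (Sum.inr j)) = B (Sum.inr j) := fun j => by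
      obtain ⟨c, hc⟩ := hB3 j
      have h := hT (B (Sum.inr j))
      rw [hc, map_smul, hc, smul_smul] at h
      have hc1 : c * c = 1 := smul_left_injective F (B.ne_zero _) h
      have : c = 1 := CharTwo.sq_injective (R := F) (by simp only [sq, mul_one]; exact hc1)
      rw [hc, this, one_smul]
    let e : Fin n ≃ (Fin r ⊕ Fin r) ⊕ Fin s := Fintype.equivOfCardEq (by
      have := Module.finrank_eq_card_basis B
      simpa using this)
    let C := B.reindex e.symm
    obtain ⟨h, hh1, hh2⟩ := CfsgLib.MaxSub.InvolNormal.exists_centralizer T 1 one_ne_zero hT (by simp; omega)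
      (LinearMap.det C.equivFun.symm.toLinearMap)⁻¹
    have hGdet : LinearMap.det C.equivFun.symm.toLinearMap ≠ 0 := (LinearEquiv.isUnit_det' _).ne_zero
    let P : Matrix.SpecialLinearGroup (Fin n) F := ⟨LinearMap.toMatrix' (h ∘ₗ C.equivFun.symm.toLinearMap), by
      rw [LinearMap.det_toMatrix', LinearMap.det_comp, hh1, inv_mul_cancel₀ hGdet]⟩
    refine ⟨P, (mem_iff F₀ _).2 ⟨μ, hμ0, fun i j => ?_⟩⟩
    have hcol : (P⁻¹ * x * P).1 *ᵥ Pi.single j 1 = μ • C.equivFun (T (C j)) := by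
      have h1 : P.1 *ᵥ (μ • C.equivFun (T (C j))) = x.1 *ᵥ (P.1 *ᵥ Pi.single j 1) := by
        rw [LinearMap.toMatrix'_mulVec, LinearMap.toMatrix'_mulVec, LinearMap.comp_apply, LinearMap.comp_apply,
          LinearEquiv.coe_coe, map_smul, LinearEquiv.symm_apply_apply, map_smul, hh2,
          show C.equivFun.symm (Pi.single j 1) = C j by simp [Module.Basis.equivFun_symm_apply, Pi.single_apply]]
        simp only [T, LinearMap.smul_apply, smul_smul, mul_inv_cancel₀ hμ0, one_smul, Matrix.toLin'_apply]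
      rw [Matrix.SpecialLinearGroup.coe_mul, Matrix.SpecialLinearGroup.coe_mul, ← Matrix.mulVec_mulVec,
        ← Matrix.mulVec_mulVec, ← h1, Matrix.mulVec_mulVec, ← Matrix.SpecialLinearGroup.coe_mul, inv_mul_cancel,
        Matrix.SpecialLinearGroup.coe_one, Matrix.one_mulVec]
    have hij := congrFun hcol i
    rw [Matrix.mulVec_single_one] at hij
    rw [Matrix.SpecialLinearGroup.coe_GL_coe_matrix, show (P⁻¹ * x * P).1 i j = _ from hij, Pi.smul_apply, smul_eq_mul,
      ← mul_assoc, inv_mul_cancel₀ hμ0, one_mul]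
    have hmem : ∀ a : (Fin r ⊕ Fin r) ⊕ Fin s, ∃ a', T (B a) = B a' := by
      rintro ((a | a) | a)
      · exact ⟨_, hB1 a⟩
      · exact ⟨_, by rw [hB2, one_smul]⟩
      · exact ⟨_, hsing a⟩
    obtain ⟨a', ha'⟩ := hmem (e j)
    have hCj : C j = B (e j) := by simp [C]
    rw [hCj, ha']
    have : B a' = C (e.symm a') := by simp [C]
    rw [this, Module.Basis.equivFun_self]
    split_ifs
    · exact F₀.one_mem
    · exact F₀.zero_mem
  -- odd order
  have h2 : (2 : F) ≠ 0 := Ring.two_ne_zero fun h => by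
    have := FiniteField.even_card_of_char_two (F := F) h
    rw [Nat.odd_iff] at hodd
    omega
  by_cases hk2 : k = 2
  swap
  · -- odd k makes the index odd
    exfalso
    have hkodd : Odd k := hk.odd_of_ne_two hk2
    have hq0odd : Odd q₀ := by rw [hqk] at hodd; exact (Nat.odd_pow_iff (by omega)).1 hodd
    set H := (Cfsg.Geo.subfieldSubgroup F₀ 1).comap (Matrix.SpecialLinearGroup.toGL : Matrix.SpecialLinearGroup (Fin n) F →* GL (Fin n) F)
    let ι₀ : Matrix.SpecialLinearGroup (Fin n) F₀ →* H :=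
      (Matrix.SpecialLinearGroup.map (F₀.subtype : F₀ →+* F)).codRestrict H (fun g => (mem_iff F₀ _).2
        ⟨1, one_ne_zero, fun i j => by rw [inv_one, one_mul]; exact (g.1 i j).2⟩)
    have hinj : Function.Injective ι₀ := fun g g' h => Matrix.SpecialLinearGroup.ext _ _ fun i j =>
      Subtype.ext (congrArg (fun y : H => y.1.1 i j) h)
    have hdvd : 2 * Nat.card (Matrix.SpecialLinearGroup (Fin n) F₀) ∣ Nat.card (Matrix.SpecialLinearGroup (Fin n) F) := by
      rw [← H.index_mul_card]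
      exact mul_dvd_mul hΩ (Subgroup.card_dvd_of_injective ι₀ hinj)
    have hc := CfsgLib.Linear.Card.card_SL (F := F) n (by omega)
    have hc0 := CfsgLib.Linear.Card.card_SL (F := F₀) n (by omega)
    rw [hF₀'] at hc0
    have hfac : ∀ Q : ℕ, ∏ i : Fin n, (Q ^ n - Q ^ (i : ℕ)) = Q ^ (∑ i : Fin n, (i : ℕ)) * ∏ i : Fin n, (Q ^ (n - i) - 1) := fun Q => by
      rw [← Finset.prod_pow_eq_pow_sum, ← Finset.prod_mul_distrib]
      refine Finset.prod_congr rfl fun i _ => ?_
      rw [Nat.mul_sub, mul_one, ← pow_add, Nat.add_sub_cancel' i.2.le]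
    -- the geometric factors are odd
    have hgeo : ∀ u : ℕ, Odd u → ∃ s, Odd s ∧ u ^ k - 1 = (u - 1) * s := by
      intro u hu
      refine ⟨∑ i ∈ Finset.range k, u ^ i, ?_, ?_⟩
      · rw [Finset.odd_sum_iff_odd_card_odd, Finset.filter_true_of_mem (fun i _ => hu.pow), Finset.card_range]
        exact hkodd
      · obtain ⟨v, rfl⟩ := Nat.exists_eq_add_of_le' hu.pos
        have := geom_sum_mul_add v k
        simp only [Nat.succ_eq_add_one, zero_add] at *
        rw [Nat.add_sub_cancel, ← this, Nat.add_sub_cancel, mul_comm]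
    obtain ⟨O, hO, hOe⟩ : ∃ O, Odd O ∧ ∏ i : Fin n, ((q₀ ^ k) ^ (n - i) - 1) = (∏ i : Fin n, (q₀ ^ (n - i) - 1)) * O := by
      choose s hs1 hs2 using fun i : Fin n => hgeo (q₀ ^ (n - i)) hq0odd.pow
      refine ⟨∏ i, s i, Finset.prod_induction _ Odd (fun a b => Odd.mul) odd_one (fun i _ => hs1 i), ?_⟩
      rw [← Finset.prod_mul_distrib]
      exact Finset.prod_congr rfl fun i _ => by rw [← hs2, ← pow_mul, ← pow_mul, mul_comm k]
    obtain ⟨s1, hs1, hs1e⟩ := hgeo q₀ hq0odd
    rw [hfac] at hc hc0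
    rw [hqk, hOe, hs1e] at hc
    obtain ⟨t, ht⟩ := hdvd
    rw [ht] at hc
    set N := ∑ i : Fin n, (i : ℕ)
    set S0 := Nat.card (Matrix.SpecialLinearGroup (Fin n) F₀)
    have hpos : 0 < (q₀ - 1) * S0 := Nat.mul_pos (by omega) Nat.card_pos
    have : (q₀ - 1) * S0 * (2 * (s1 * t * q₀ ^ N)) = (q₀ - 1) * S0 * ((q₀ ^ k) ^ N * O) := by
      linear_combination q₀ ^ N * hc - ((q₀ ^ k) ^ N * O) * hc0
    have heq := Nat.eq_of_mul_eq_mul_left hpos this
    have hodd' : Odd ((q₀ ^ k) ^ N * O) := (hq0odd.pow.pow).mul hO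
    rw [← heq, Nat.odd_iff, Nat.mul_mod_right] at hodd'
    omega
  subst hk2
  have hsq0 : ∀ w ∈ F₀, IsSquare w := fun w hw => by
    by_cases hw0 : w = 0
    · exact ⟨0, by rw [hw0, mul_zero]⟩
    refine (FiniteField.isSquare_iff (fun h => h2 (by haveI : CharP F 2 := ringChar.eq_iff.1 h; exact CharTwo.two_eq_zero)) hw0).2 ?_
    have hpow : w ^ (q₀ - 1) = 1 := by
      have h := FiniteField.pow_card_sub_one_eq_one (⟨w, hw⟩ : F₀) (fun e => hw0 (congrArg Subtype.val e))
      rw [hF₀'] at h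
      exact congrArg Subtype.val h
    obtain ⟨v, hv⟩ : ∃ v, q₀ = 2 * v + 1 := by rw [hqk] at hodd; exact (Nat.odd_pow_iff (by omega)).1 hodd
    rw [hqk, hv, show (2 * v + 1) ^ 2 / 2 = (2 * v + 1 - 1) * (v + 1) by
      rw [show (2 * v + 1) ^ 2 = 2 * ((2 * v) * (v + 1)) + 1 by ring, show 2 * v + 1 - 1 = 2 * v by omega]; omega,
      pow_mul, ← hv, hpow, one_pow]
  have hneg1 : IsSquare (-1 : F) := hsq0 _ (F₀.neg_mem F₀.one_mem)
  have hnsneg : ∀ w : F, ¬ IsSquare w → ¬ IsSquare (-w) := fun w hw h => hw (by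
    have := h.mul hneg1; rwa [neg_mul_neg, mul_one] at this)
  have hval : ∀ m, m ≠ 0 → padicValNat 2 (m + m) = padicValNat 2 m + 1 := fun m hm => by
    rw [← two_mul, padicValNat.mul (by norm_num) hm, padicValNat.self (by norm_num)]; omega
  constructor
  · intro hall _
    refine ⟨rfl, ?_⟩
    by_contra hgt
    obtain ⟨m, hnm⟩ : Even n := by
      rw [← Nat.not_odd_iff_even]
      intro hno
      rw [padicValNat.eq_zero_of_not_dvd (n := n) (by rw [Nat.odd_iff] at hno; omega)] at hgt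
      omega
    have hm0 : m ≠ 0 := by omega
    rw [hnm, hval m hm0] at hgt
    obtain ⟨w, hw, hwm⟩ := (nonsquare_root h2 m hm0).2 (by omega)
    subst hnm
    let z := -w
    let e : Fin 2 × Fin m ≃ Fin (m + m) := finProdFinEquiv.trans (finCongr (by omega))
    let M0 := Matrix.blockDiagonal (fun _ : Fin m => !![0, z; 1, 0])
    let X : Matrix (Fin (m + m)) (Fin (m + m)) F := M0.submatrix e.symm e.symm
    have hXdet : X.det = 1 := by
      rw [Matrix.det_submatrix_equiv_self, det_pairs, show -z = w from neg_neg w, hwm]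
    have hXsq : X * X = z • 1 := by
      rw [Matrix.submatrix_mul_equiv, ← Matrix.blockDiagonal_mul]
      have : (fun _ : Fin m => !![0, z; 1, 0] * !![0, z; 1, 0]) = z • (1 : Fin m → Matrix (Fin 2) (Fin 2) F) := by
        funext i; ext a b; fin_cases a <;> fin_cases b <;> simp [Matrix.mul_apply, Fin.sum_univ_two]
      rw [this, Matrix.blockDiagonal_smul, Matrix.blockDiagonal_one]
      ext a b
      simp [Matrix.one_apply]
    let x : Matrix.SpecialLinearGroup (Fin (m + m)) F := ⟨X, hXdet⟩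
    obtain ⟨P, hP⟩ := hall x ⟨z, by rw [Matrix.SpecialLinearGroup.coe_pow, pow_two]; exact hXsq⟩ (fun c hc => by
      have := congrFun (congrFun hc (e (1, ⟨0, by omega⟩))) (e (0, ⟨0, by omega⟩))
      simp [x, X, M0, Matrix.blockDiagonal_apply, Matrix.one_apply] at this)
    obtain ⟨c, hc, hentries⟩ := (mem_iff F₀ _).1 hP
    rw [Matrix.SpecialLinearGroup.coe_GL_coe_matrix] at hentries
    set y := P⁻¹ * x * P with hy
    have hyy : (y.1 * y.1) = z • 1 := by
      rw [← Matrix.SpecialLinearGroup.coe_mul, show y * y = P⁻¹ * (x * x) * P by rw [hy]; group,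
        Matrix.SpecialLinearGroup.coe_mul, Matrix.SpecialLinearGroup.coe_mul, Matrix.SpecialLinearGroup.coe_mul,
        show x.1 * x.1 = z • 1 from hXsq, Matrix.mul_smul, Matrix.mul_one, Matrix.smul_mul,
        ← Matrix.SpecialLinearGroup.coe_mul, inv_mul_cancel, Matrix.SpecialLinearGroup.coe_one]
    have hmem : c⁻¹ * c⁻¹ * z ∈ F₀ := by
      have h00 := congrFun (congrFun hyy ⟨0, by omega⟩) ⟨0, by omega⟩
      rw [Matrix.smul_apply, Matrix.one_apply_eq, smul_eq_mul, mul_one, Matrix.mul_apply] at h00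
      rw [← h00, Finset.mul_sum]
      exact F₀.sum_mem fun l _ => by
        rw [show c⁻¹ * c⁻¹ * (y.1 ⟨0, by omega⟩ l * y.1 l ⟨0, by omega⟩)
          = (c⁻¹ * y.1 ⟨0, by omega⟩ l) * (c⁻¹ * y.1 l ⟨0, by omega⟩) by ring]
        exact F₀.mul_mem (hentries _ _) (hentries _ _)
    obtain ⟨s, hs⟩ := hsq0 _ hmem
    refine hnsneg w hw ⟨c * s, ?_⟩
    calc z = c * c * (c⁻¹ * c⁻¹ * z) := by field_simp
      _ = c * s * (c * s) := by rw [hs]; ring
  · intro hcond x hx1 _
    obtain ⟨-, hle⟩ := hcond hodd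
    obtain ⟨z, hz⟩ := hx1
    rw [Matrix.SpecialLinearGroup.coe_pow, pow_two] at hz
    have hz0 : z ≠ 0 := by
      rintro rfl
      have hd := congrArg Matrix.det hz
      rw [Matrix.det_mul, x.2, zero_smul, Matrix.det_zero, mul_one] at hd
      exact one_ne_zero hd
    let T := Matrix.toLin' x.1
    have hT : ∀ v, T (T v) = z • v := fun v => by
      rw [Matrix.toLin'_apply, Matrix.toLin'_apply, Matrix.mulVec_mulVec, hz, Matrix.smul_mulVec, Matrix.one_mulVec]
    obtain ⟨μ, hμ⟩ : IsSquare z := by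
      by_contra hns
      obtain ⟨r, s, B, hB1, hB2, hB3⟩ := CfsgLib.MaxSub.InvolDecomp.exists_basis T z hz0 hT
      have hs : s = 0 := by
        by_contra hs
        obtain ⟨c, hc⟩ := hB3 ⟨0, by omega⟩
        have h := hT (B (Sum.inr ⟨0, by omega⟩))
        rw [hc, map_smul, hc, smul_smul] at h
        exact hns ⟨c, (smul_left_injective F (B.ne_zero _) h).symm⟩
      subst hs
      let e : Fin 2 × Fin r ≃ (Fin r ⊕ Fin r) ⊕ Fin 0 :=
        { toFun := fun p => if p.1 = 0 then Sum.inl (Sum.inl p.2) else Sum.inl (Sum.inr p.2)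
          invFun := Sum.elim (Sum.elim (fun i => (0, i)) (fun i => (1, i))) (fun i => i.elim0)
          left_inv := fun p => by obtain ⟨a, i⟩ := p; fin_cases a <;> simp
          right_inv := fun p => by rcases p with (i | i) | i; exacts [rfl, rfl, i.elim0] }
      have hM : LinearMap.toMatrix (B.reindex e.symm) (B.reindex e.symm) T
          = Matrix.blockDiagonal (fun _ : Fin r => !![0, z; 1, 0]) := by
        ext ⟨a, i⟩ ⟨b, j⟩
        rw [LinearMap.toMatrix_apply]
        fin_cases a <;> fin_cases b <;>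
          simp [e, hB1, hB2, Matrix.blockDiagonal_apply, Finsupp.single_apply, eq_comm]
      have hdet : LinearMap.det T = (-z) ^ r := by
        rw [← LinearMap.det_toMatrix (B.reindex e.symm), hM, det_pairs]
      rw [LinearMap.det_toLin', x.2] at hdet
      have hr : n = r + r := by
        have := Module.finrank_eq_card_basis B
        simpa using this
      have hr0 : r ≠ 0 := by omega
      have h5 := (nonsquare_root h2 r hr0).1 ⟨-z, hnsneg z hns, hdet.symm⟩
      rw [hr, hval r hr0] at hle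
      omega
    have hμ0 : μ ≠ 0 := fun h => hz0 (by rw [hμ, h, zero_mul])
    obtain ⟨k', l, E, hE1, hE2, -⟩ := CfsgLib.MaxSub.InvolNormal.exists_eigenbasis h2 T μ hμ0 (fun v => by rw [← hμ]; exact hT v)
    let e : Fin n ≃ Fin k' ⊕ Fin l := Fintype.equivOfCardEq (by
      have := Module.finrank_eq_card_basis E
      simpa using this)
    let C := E.reindex e.symm
    obtain ⟨h, hh1, hh2⟩ := CfsgLib.MaxSub.InvolNormal.exists_centralizer T z hz0 hT (by simp; omega)
      (LinearMap.det C.equivFun.symm.toLinearMap)⁻¹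
    have hGdet : LinearMap.det C.equivFun.symm.toLinearMap ≠ 0 := (LinearEquiv.isUnit_det' _).ne_zero
    let P : Matrix.SpecialLinearGroup (Fin n) F := ⟨LinearMap.toMatrix' (h ∘ₗ C.equivFun.symm.toLinearMap), by
      rw [LinearMap.det_toMatrix', LinearMap.det_comp, hh1, inv_mul_cancel₀ hGdet]⟩
    refine ⟨P, (mem_iff F₀ _).2 ⟨μ, hμ0, fun i j => ?_⟩⟩
    have hcol : (P⁻¹ * x * P).1 *ᵥ Pi.single j 1 = C.equivFun (T (C j)) := by
      have h1 : P.1 *ᵥ (C.equivFun (T (C j))) = x.1 *ᵥ (P.1 *ᵥ Pi.single j 1) := by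
        rw [LinearMap.toMatrix'_mulVec, LinearMap.toMatrix'_mulVec, LinearMap.comp_apply, LinearMap.comp_apply,
          LinearEquiv.coe_coe, LinearEquiv.symm_apply_apply, hh2,
          show C.equivFun.symm (Pi.single j 1) = C j by simp [Module.Basis.equivFun_symm_apply, Pi.single_apply]]
        rfl
      rw [Matrix.SpecialLinearGroup.coe_mul, Matrix.SpecialLinearGroup.coe_mul, ← Matrix.mulVec_mulVec,
        ← Matrix.mulVec_mulVec, ← h1, Matrix.mulVec_mulVec, ← Matrix.SpecialLinearGroup.coe_mul, inv_mul_cancel,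
        Matrix.SpecialLinearGroup.coe_one, Matrix.one_mulVec]
    have hij := congrFun hcol i
    rw [Matrix.mulVec_single_one] at hij
    rw [Matrix.SpecialLinearGroup.coe_GL_coe_matrix, show (P⁻¹ * x * P).1 i j = _ from hij]
    have hCj : C j = E (e j) := by simp [C]
    have hT' : ∀ a, ∃ ε ∈ F₀, T (E a) = (ε * μ) • E a := by
      rintro (a | a)
      · exact ⟨1, F₀.one_mem, by rw [hE1, one_mul]⟩
      · exact ⟨-1, F₀.neg_mem F₀.one_mem, by rw [hE2, neg_one_mul]⟩
    obtain ⟨ε, hε, hTe⟩ := hT' (e j)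
    rw [hCj, hTe, map_smul, ← hCj, Pi.smul_apply, smul_eq_mul, Module.Basis.equivFun_self]
    split_ifs
    · rw [mul_one, ← mul_assoc, mul_comm μ⁻¹, mul_assoc, inv_mul_cancel₀ hμ0, mul_one]; exact hε
    · rw [mul_zero, mul_zero]; exact F₀.zero_mem

end Cfsg.Agent.S5964
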