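import Cfsg.Statements.S5967
import Cfsg.Agent.Lib.MaxSub.InvolNormal
import Cfsg.Agent.Lib.Symplectic.Basic
import Cfsg.Agent.Lib.Forms.Families

set_option autoImplicit false
open scoped MatrixGroups
open Cfsg

namespace Cfsg.Agent.S5967

open scoped Matrix
open CfsgLib.Symplectic.Basic

/-- A map acting by blocks of equal determinant multiplies the standard form. -/
theorem blocks {F V' : Type*} [Field F] [AddCommGroup V'] [Module F V'] {m : ℕ} (C : Module.Basis (Fin m ⊕ Fin m) F V')
    (f : V' →ₗ[F] V') (c : F) (α β γ δ : Fin m → F)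
    (hl : ∀ i, f (C (Sum.inl i)) = α i • C (Sum.inl i) + β i • C (Sum.inr i))
    (hr : ∀ i, f (C (Sum.inr i)) = γ i • C (Sum.inl i) + δ i • C (Sum.inr i))
    (hd : ∀ i, α i * δ i - β i * γ i = c) (u v : V') :
    B (C.equivFun (f u)) (C.equivFun (f v)) = c * B (C.equivFun u) (C.equivFun v) := by
  classical
  let M : V' →ₗ[F] V m F := LinearMap.pi (Sum.elim
    (fun i => α i • C.coord (Sum.inl i) + γ i • C.coord (Sum.inr i))
    (fun i => β i • C.coord (Sum.inl i) + δ i • C.coord (Sum.inr i)))
  have hM : (C.equivFun : V' →ₗ[F] V m F) ∘ₗ f = M := by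
    refine C.ext fun s => funext fun t => ?_
    rcases s with i | i <;> rcases t with j | j <;>
      simp [M, hl, hr, Finsupp.single_apply] <;> aesop
  have hM' : ∀ u, C.equivFun (f u) = M u := fun u => LinearMap.congr_fun hM u
  rw [hM', hM', B_expand, B_expand, Finset.mul_sum]
  refine Finset.sum_congr rfl fun i _ => ?_
  simp only [M, LinearMap.pi_apply, Sum.elim_inl, Sum.elim_inr, LinearMap.add_apply, LinearMap.smul_apply,
    smul_eq_mul, Module.Basis.coord_apply, Module.Basis.equivFun_apply]
  rw [← hd i]; ring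

theorem two_pow_val {N : ℕ} (hN : N ≠ 0) : ∃ j, Odd j ∧ N = 2 ^ padicValNat 2 N * j := by
  obtain ⟨j, hj⟩ := pow_padicValNat_dvd (p := 2) (n := N)
  refine ⟨j, ?_, hj⟩
  rw [← Nat.not_even_iff_odd]
  rintro ⟨i, rfl⟩
  have hi : 2 ^ (padicValNat 2 N + 1) ∣ N := by
    obtain ⟨a, ha⟩ : ∃ a, a = padicValNat 2 N := ⟨_, rfl⟩
    rw [← ha] at hj ⊢
    exact ⟨i, by rw [hj, pow_succ]; ring⟩
  exact pow_succ_padicValNat_not_dvd hN hi

/-- There is a root of `x^n = -1` exactly as the parts at two allow. -/
theorem root_iff {F : Type*} [Field F] [Fintype F] (h2 : (2 : F) ≠ 0) (n : ℕ) (hn : n ≠ 0) :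
    (∃ μ : F, μ ^ n = -1) ↔ padicValNat 2 n < padicValNat 2 (Fintype.card F - 1) := by
  have hq : Fintype.card F - 1 ≠ 0 := by have := Fintype.one_lt_card (α := F); omega
  obtain ⟨j, hj, hnj⟩ := two_pow_val hn
  obtain ⟨j', hj', hqj⟩ := two_pow_val hq
  set a := padicValNat 2 n
  set b := padicValNat 2 (Fintype.card F - 1)
  classical
  have hne : (-1 : F) ≠ 1 := fun h => h2 (by linear_combination -h)
  constructor
  · rintro ⟨μ, hμ⟩
    by_contra hlt
    have hμ0 : μ ≠ 0 := fun h => by rw [h, zero_pow hn] at hμ; exact one_ne_zero (by linear_combination hμ)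
    have h1 : μ ^ (n * j') = 1 := by
      obtain ⟨i, hi⟩ := Nat.exists_eq_add_of_le (not_lt.1 hlt)
      rw [hnj, hi, show 2 ^ (b + i) * j * j' = (2 ^ b * j') * (2 ^ i * j) by ring, pow_mul, ← hqj,
        FiniteField.pow_card_sub_one_eq_one μ hμ0, one_pow]
    rw [pow_mul, hμ, hj'.neg_one_pow] at h1
    exact hne h1
  · intro hlt
    obtain ⟨ω, hω⟩ := IsCyclic.exists_ofOrder_eq_natCard (α := Fˣ)
    rw [Nat.card_eq_fintype_card, Fintype.card_units] at hω
    obtain ⟨i, hi⟩ := Nat.exists_eq_add_of_le (Nat.succ_le_iff.2 hlt)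
    let μ : Fˣ := ω ^ (2 ^ i * j')
    have hμn : μ ^ (2 ^ a) ≠ 1 := by
      intro h
      rw [← pow_mul, ← orderOf_dvd_iff_pow_eq_one, hω] at h
      have h5 : 2 ^ i * j' * 2 ^ a < Fintype.card F - 1 := by
        rw [hqj, hi, pow_add, pow_succ]
        rw [show 2 ^ a * 2 * 2 ^ i * j' = 2 * (2 ^ i * j' * 2 ^ a) by ring]
        have : 0 < 2 ^ i * j' * 2 ^ a := Nat.mul_pos (Nat.mul_pos (Nat.two_pow_pos i) hj'.pos) (Nat.two_pow_pos a)
        omega
      exact absurd (Nat.le_of_dvd (by have := Nat.two_pow_pos a; have := Nat.two_pow_pos i; have := hj'.pos; positivity) h) (by omega)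
    have hsq : ((μ : F) ^ (2 ^ a)) * ((μ : F) ^ (2 ^ a)) = 1 := by
      rw [← pow_add, ← two_mul, ← Units.val_pow_eq_pow_val, ← pow_mul,
        show 2 ^ i * j' * (2 * 2 ^ a) = Fintype.card F - 1 by rw [hqj, hi, pow_add, pow_succ]; ring,
        ← hω, pow_orderOf_eq_one, Units.val_one]
    refine ⟨μ, ?_⟩
    rw [hnj, pow_mul]
    rcases mul_self_eq_one_iff.1 hsq with h | h
    · exact absurd (Units.ext (by rw [Units.val_pow_eq_pow_val, h, Units.val_one])) hμn
    · rw [h, hj.neg_one_pow]

theorem model {F : Type*} [Field F] [Fintype F] {V' : Type*} [AddCommGroup V'] [Module F V'] [FiniteDimensional F V']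
    (f : V' →ₗ[F] V') (z : F) (hz : z ≠ 0) (hf : ∀ x, f (f x) = z • x) (hdet : LinearMap.det f = 1) (m : ℕ) (hm : 0 < m)
    (hV : Module.finrank F V' = m + m) (hroot : (2 : F) ≠ 0 → ¬ ∃ μ : F, μ ^ (m + m) = -1) :
    ∃ (C : Module.Basis (Fin m ⊕ Fin m) F V') (c : F), c ≠ 0 ∧
      ∀ u v, B (C.equivFun (f u)) (C.equivFun (f v)) = c * B (C.equivFun u) (C.equivFun v) := by
  classical
  by_cases hA : (2 : F) ≠ 0 ∧ ∃ μ : F, μ * μ = z
  · obtain ⟨h2, μ, hμ⟩ := hA
    have hμ0 : μ ≠ 0 := fun h => hz (by rw [← hμ, h, zero_mul])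
    obtain ⟨k, l, E, hE1, hE2, hE3⟩ := CfsgLib.MaxSub.InvolNormal.exists_eigenbasis h2 f μ hμ0 (fun x => by rw [hμ]; exact hf x)
    have hkl : k + l = m + m := by
      have := Module.finrank_eq_card_basis E; simp at this; omega
    rw [hdet, hkl] at hE3
    have hl : Even l := by
      rw [← Nat.not_odd_iff_even]
      intro hl
      rw [hl.neg_one_pow] at hE3
      exact hroot h2 ⟨μ, by linear_combination hE3⟩
    obtain ⟨l', rfl⟩ := hl
    obtain ⟨k', rfl⟩ : Even k := by rw [Nat.even_iff]; omega
    let e : (Fin k' ⊕ Fin l') ⊕ (Fin k' ⊕ Fin l') ≃ Fin (k' + k') ⊕ Fin (l' + l') :=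
      (Equiv.sumSumSumComm _ _ _ _).trans (Equiv.sumCongr finSumFinEquiv finSumFinEquiv)
    let g : Fin m ≃ Fin k' ⊕ Fin l' := (Fintype.equivFinOfCardEq (by simp; omega)).symm
    let C := E.reindex ((Equiv.sumCongr g g).trans e).symm
    let w : Fin m → F := fun i => Sum.elim (fun _ => μ) (fun _ => -μ) (g i)
    refine ⟨C, z, hz, fun u v => blocks C f z w (fun _ => 0) (fun _ => 0) w (fun i => ?_) (fun i => ?_) (fun i => ?_) u v⟩
    · rcases hg : g i with j | j <;>
        simp [C, w, e, Module.Basis.reindex_apply, hg, Equiv.sumSumSumComm, hE1, hE2]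
    · rcases hg : g i with j | j <;>
        simp [C, w, e, Module.Basis.reindex_apply, hg, Equiv.sumSumSumComm, hE1, hE2]
    · rcases hg : g i with j | j <;> simp [w, hg, hμ]
  · obtain ⟨r, s, E, hE1, hE2, hE3⟩ := CfsgLib.MaxSub.InvolDecomp.exists_basis f z hz hf
    have hrs : r + r + s = m + m := by
      have := Module.finrank_eq_card_basis E; simp at this; omega
    obtain ⟨s', rfl⟩ : Even s := by rw [Nat.even_iff]; omega
    choose ev hev using hE3
    have hev2 : ∀ k, ev k * ev k = z := fun k => by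
      have h := hf (E (Sum.inr k))
      rw [hev, map_smul, hev, smul_smul] at h
      exact smul_left_injective F (E.ne_zero _) h
    have hchar : ∀ k l, ev k * ev l = -z := fun k l => by
      have h2 : (2 : F) = 0 := by
        by_contra h2
        exact hA ⟨h2, ev k, hev2 k⟩
      haveI : CharP F 2 := CharTwo.of_one_ne_zero_of_two_eq_zero one_ne_zero h2
      have : ev k = ev l := CharTwo.sq_injective (R := F) (by simp only [sq]; rw [hev2, hev2])
      rw [this, hev2, CharTwo.neg_eq]
    let e : (Fin r ⊕ Fin s') ⊕ (Fin r ⊕ Fin s') ≃ (Fin r ⊕ Fin r) ⊕ Fin (s' + s') :=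
      (Equiv.sumSumSumComm _ _ _ _).trans (Equiv.sumCongr (Equiv.refl _) finSumFinEquiv)
    let g : Fin m ≃ Fin r ⊕ Fin s' := (Fintype.equivFinOfCardEq (by simp; omega)).symm
    let C := E.reindex ((Equiv.sumCongr g g).trans e).symm
    let α : Fin m → F := fun i => Sum.elim (fun _ => 0) (fun k => ev (Fin.castAdd s' k)) (g i)
    let β : Fin m → F := fun i => Sum.elim (fun _ => 1) (fun _ => 0) (g i)
    let γ : Fin m → F := fun i => Sum.elim (fun _ => z) (fun _ => 0) (g i)
    let δ : Fin m → F := fun i => Sum.elim (fun _ => 0) (fun k => ev (Fin.natAdd s' k)) (g i)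
    refine ⟨C, -z, neg_ne_zero.2 hz, fun u v => blocks C f (-z) α β γ δ (fun i => ?_) (fun i => ?_) (fun i => ?_) u v⟩
    · rcases hg : g i with j | j <;>
        simp [C, α, β, e, Module.Basis.reindex_apply, hg, Equiv.sumSumSumComm, hE1, hev]
    · rcases hg : g i with j | j <;>
        simp [C, γ, δ, e, Module.Basis.reindex_apply, hg, Equiv.sumSumSumComm, hE2, hev]
    · rcases hg : g i with j | j <;> simp [α, β, γ, δ, hg, hchar]

/-- Involutions of PSL_n(q) and the symplectic-type subgroups. Here `T = PSL_n(F)` for a field `F` with `q` elements, `n ≥ 4` even, `f` is a nondegenerate alternating form on `F^n`, and `H` is the subgroup of matrices of determinant 1 preserving `f` up to a scalar — a maximal subgroup of type Sp_n(q); Ω is the set of `T`-conjugates of `H` (cosets of `H`), so an element of `T` of prime order `r` (a matrix `x` of determinant 1 with `x^r` scalar, `x` not scalar) fixes a point of Ω when some conjugate of `x` by a matrix of determinant 1 preserves `f` up to a scalar. Suppose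 the index of `H` is even. Then every involution of `T` is conjugate in `T` into `H` if and only if `(q − 1)_2 ≤ (n)_2`. -/
theorem result {F : Type*} [Field F] [Fintype F] {p : ℕ} [Fact p.Prime] [CharP F p] {q : ℕ} (hq : Fintype.card F = q)
    (n : ℕ) (hn : 4 ≤ n) (he : Even n) (f : (Fin n → F) → (Fin n → F) → F) (hf : Cfsg.Geo.IsSymplecticForm f)
    (hΩ : 2 ∣ ((Cfsg.Geo.similarityGroup f).comap (Matrix.SpecialLinearGroup.toGL : Matrix.SpecialLinearGroup (Fin n) F →* GL (Fin n) F)).index) :
    (∀ x : Matrix.SpecialLinearGroup (Fin n) F,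
      (∃ z : F, ((x ^ 2 : Matrix.SpecialLinearGroup (Fin n) F) : Matrix (Fin n) (Fin n) F) = z • (1 : Matrix (Fin n) (Fin n) F)) →
      (∀ z : F, (x : Matrix (Fin n) (Fin n) F) ≠ z • (1 : Matrix (Fin n) (Fin n) F)) →
      ∃ P : Matrix.SpecialLinearGroup (Fin n) F, P⁻¹ * x * P ∈ ((Cfsg.Geo.similarityGroup f).comap (Matrix.SpecialLinearGroup.toGL : Matrix.SpecialLinearGroup (Fin n) F →* GL (Fin n) F))) ↔
    padicValNat 2 (q - 1) ≤ padicValNat 2 n := by
  classical
  subst hq
  obtain ⟨m, rfl⟩ := he
  have hSF : CfsgLib.Forms.Families.Form id f :=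
    ⟨hf.bilinear.add_left, hf.bilinear.smul_left, hf.bilinear.add_right, hf.bilinear.smul_right,
      fun x y h => by rw [hf.skew, h, neg_zero]⟩
  constructor
  · intro hall
    by_contra hlt
    rw [not_le] at hlt
    have h2 : (2 : F) ≠ 0 := fun h => by
      haveI : CharP F 2 := CharTwo.of_one_ne_zero_of_two_eq_zero one_ne_zero h
      have h4 := FiniteField.even_card_of_char_two (F := F) (ringChar.eq F 2)
      rw [padicValNat.eq_zero_of_not_dvd (n := Fintype.card F - 1) (by
        have := Fintype.one_lt_card (α := F); omega)] at hlt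
      omega
    obtain ⟨μ, hμ⟩ := (root_iff h2 (m + m) (by omega)).2 hlt
    have hμ0 : μ ≠ 0 := fun h => by rw [h, zero_pow (by omega)] at hμ; exact one_ne_zero (by linear_combination hμ)
    let i0 : Fin (m + m) := ⟨0, by omega⟩
    let d : Fin (m + m) → F := fun i => if i = i0 then -μ else μ
    have hdet : (Matrix.diagonal d).det = 1 := by
      rw [Matrix.det_diagonal, show d = fun i => μ * (if i = i0 then -1 else 1) from funext fun i => by
        simp [d], Finset.prod_mul_distrib, Finset.prod_const, Finset.card_univ, Fintype.card_fin,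
        Finset.prod_ite_eq' , hμ]
      simp
    let x : Matrix.SpecialLinearGroup (Fin (m + m)) F := ⟨Matrix.diagonal d, hdet⟩
    obtain ⟨P, hP⟩ := hall x ⟨μ * μ, by
        rw [Matrix.SpecialLinearGroup.coe_pow, pow_two, Matrix.diagonal_mul_diagonal,
          Matrix.smul_one_eq_diagonal]
        congr 1; funext i; simp only [d]; split_ifs <;> ring⟩ (fun z hz => by
        have e0 := congrFun (congrFun hz i0) i0
        have e1 := congrFun (congrFun hz (⟨1, by omega⟩ : Fin (m + m))) ⟨1, by omega⟩
        simp [x, d, i0, Fin.ext_iff] at e0 e1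
        have : (2 : F) * μ = 0 := by linear_combination e1 - e0
        simp [h2, hμ0] at this)
    obtain ⟨c, hc⟩ := hP
    let Q : Matrix (Fin (m + m)) (Fin (m + m)) F := (P⁻¹ : Matrix.SpecialLinearGroup (Fin (m + m)) F).1
    have hQP : P.1 * Q = 1 := by
      rw [← Matrix.SpecialLinearGroup.coe_mul, mul_inv_cancel, Matrix.SpecialLinearGroup.coe_one]
    let f' : (Fin (m + m) → F) → (Fin (m + m) → F) → F := fun u v => f (Q *ᵥ u) (Q *ᵥ v)
    have hsim : ∀ u v, f' (x.1 *ᵥ u) (x.1 *ᵥ v) = c * f' u v := fun u v => by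
      have h := hc (Q *ᵥ u) (Q *ᵥ v)
      rw [Matrix.SpecialLinearGroup.coe_GL_coe_matrix, Matrix.SpecialLinearGroup.coe_mul,
        Matrix.SpecialLinearGroup.coe_mul, ← Matrix.mulVec_mulVec, ← Matrix.mulVec_mulVec,
        Matrix.mulVec_mulVec _ P.1 Q, hQP, Matrix.one_mulVec, ← Matrix.mulVec_mulVec, ← Matrix.mulVec_mulVec,
        Matrix.mulVec_mulVec _ P.1 Q, hQP, Matrix.one_mulVec] at h
      exact h
    have hF' : CfsgLib.Forms.Families.Form id f' :=
      ⟨fun u u' v => by simp only [f', Matrix.mulVec_add, hSF.add_left],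
        fun a u v => by simp only [f', Matrix.mulVec_smul, hSF.smul_left],
        fun v u u' => by simp only [f', Matrix.mulVec_add, hSF.add_right],
        fun a v u => by simp only [f', Matrix.mulVec_smul, hSF.smul_right], fun u v h => hSF.refl _ _ h⟩
    have hnd' : ∀ u, (∀ j, f' u (Pi.single j 1) = 0) → u = 0 := by
      intro u hu
      have hall' : ∀ v, f' u v = 0 := fun v => by
        rw [show v = ∑ j, v j • (Pi.single j 1 : Fin (m + m) → F) by ext i; simp [Finset.sum_apply, Pi.single_apply],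
          CfsgLib.Forms.Families.sum_right hF']
        exact Finset.sum_eq_zero fun j _ => by rw [hF'.smul_right, hu, mul_zero]
      by_contra hu0
      have hQu : Q *ᵥ u ≠ 0 := fun h => hu0 (by
        rw [← Matrix.one_mulVec u, ← hQP, ← Matrix.mulVec_mulVec, h, Matrix.mulVec_zero])
      obtain ⟨w, hw⟩ := (hf.nondegenerate _ hQu).2
      apply hw
      have := hall' (P.1 *ᵥ w)
      have hQP' : Q * P.1 = 1 := by
        rw [← Matrix.SpecialLinearGroup.coe_mul, inv_mul_cancel, Matrix.SpecialLinearGroup.coe_one]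
      simpa only [f', Matrix.mulVec_mulVec _ Q P.1, hQP', Matrix.one_mulVec] using this
    have hx : ∀ j, x.1 *ᵥ (Pi.single j 1 : Fin (m + m) → F) = d j • Pi.single j 1 := fun j => by
      rw [Matrix.diagonal_mulVec_single]; ext i; simp [Pi.single_apply]
    have hval : ∀ i j, (d i * d j - c) * f' (Pi.single i 1) (Pi.single j 1) = 0 := fun i j => by
      have := hsim (Pi.single i 1) (Pi.single j 1)
      rw [hx, hx, hF'.smul_left, hF'.smul_right, id] at this
      linear_combination this
    have h2μ : (2 : F) * μ * μ ≠ 0 := mul_ne_zero (mul_ne_zero h2 hμ0) hμ0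
    by_cases hcμ : (c : F) = μ * μ
    · -- the special vector is in the radical
      have := hnd' (Pi.single i0 1) fun j => by
        by_cases hj : j = i0
        · subst hj; exact hf.alternating _
        · have h := hval i0 j
          simp [d, hj, hcμ] at h
          rcases h with h | h
          · exact absurd (by linear_combination -h : (2 : F) * μ * μ = 0) h2μ
          · exact h
      simpa using congrFun this i0
    · -- the big eigenspace is totally isotropic
      have hiso : ∀ i j, i ≠ i0 → j ≠ i0 → f' (Pi.single i 1) (Pi.single j 1) = 0 := fun i j hi hj => by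
        have h := hval i j
        simp [d, hi, hj, sub_eq_zero, Ne.symm hcμ] at h
        exact h
      let i1 : Fin (m + m) := ⟨1, by omega⟩
      let i2 : Fin (m + m) := ⟨2, by omega⟩
      have h10 : i1 ≠ i0 := by simp [i1, i0, Fin.ext_iff]
      have h20 : i2 ≠ i0 := by simp [i2, i0, Fin.ext_iff]
      have h12 : i1 ≠ i2 := by simp [i1, i2, Fin.ext_iff]
      have := hnd' (f' (Pi.single i2 1) (Pi.single i0 1) • Pi.single i1 1
          + (-f' (Pi.single i1 1) (Pi.single i0 1)) • Pi.single i2 1) fun j => by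
        rw [hF'.add_left, hF'.smul_left, hF'.smul_left]
        by_cases hj : j = i0
        · subst hj; ring
        · rw [hiso i1 j h10 hj, hiso i2 j h20 hj]; ring
      have a1 : f' (Pi.single i2 1) (Pi.single i0 1) = 0 := by
        simpa [h12, Pi.single_apply] using congrFun this i1
      have := hnd' (Pi.single i2 1) fun j => by
        by_cases hj : j = i0
        · subst hj; exact a1
        · exact hiso i2 j h20 hj
      simpa using congrFun this i2
  · intro hle x hx1 _
    obtain ⟨z, hz⟩ := hx1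
    rw [Matrix.SpecialLinearGroup.coe_pow, pow_two] at hz
    have hz0 : z ≠ 0 := by
      rintro rfl
      have hd := congrArg Matrix.det hz
      haveI : Nonempty (Fin (m + m)) := ⟨⟨0, by omega⟩⟩
      rw [Matrix.det_mul, x.2, zero_smul, Matrix.det_zero, mul_one] at hd
      exact one_ne_zero hd
    let T := Matrix.toLin' x.1
    have hT : ∀ v, T (T v) = z • v := fun v => by
      rw [Matrix.toLin'_apply, Matrix.toLin'_apply, Matrix.mulVec_mulVec, hz, Matrix.smul_mulVec, Matrix.one_mulVec]
    have hTdet : LinearMap.det T = 1 := by rw [LinearMap.det_toLin']; exact x.2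
    obtain ⟨C, c, hc0, hC⟩ := model T z hz0 hT hTdet m (by omega) (by simp) (fun h2 hex => by
      have := (root_iff h2 (m + m) (by omega)).1 hex
      omega)
    -- a basis adapted to the given form
    obtain ⟨e, g, -, -, hee, hgg, hge⟩ := CfsgLib.Forms.Families.symplectic_family hSF (fun _ => rfl) hf.alternating m ⊤
      (by simp; omega) (fun u _ hu => by
        by_contra hu0
        obtain ⟨v, hv⟩ := (hf.nondegenerate u hu0).2
        exact hv (hu v trivial))
    let w : Fin m ⊕ Fin m → (Fin (m + m) → F) := Sum.elim e g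
    have hfw : ∀ a b : Fin m ⊕ Fin m → F, f (∑ i, a i • w i) (∑ j, b j • w j) = B a b := by
      intro a b
      rw [CfsgLib.Forms.Families.expand hSF, B_expand]
      simp [w, Fintype.sum_sum_type, hee, hgg, hge, hf.skew (e _) (g _), Finset.sum_add_distrib, Finset.sum_sub_distrib]
      ring
    have hli : LinearIndependent F w := by
      rw [Fintype.linearIndependent_iff]
      intro a ha
      have : a = 0 := eq_zero_of_B_left fun b => by rw [← hfw, ha, CfsgLib.Forms.Families.zero_left hSF]
      exact congrFun this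
    let E : Module.Basis (Fin m ⊕ Fin m) F (Fin (m + m) → F) :=
      basisOfLinearIndependentOfCardEqFinrank' w hli (by simp)
    have hE : ∀ u, u = ∑ i, E.equivFun u i • w i := fun u => by
      conv_lhs => rw [← E.sum_equivFun u]
      simp [E]
    -- from the adapted coordinates to the model, corrected in the centraliser
    let G : (Fin (m + m) → F) ≃ₗ[F] (Fin (m + m) → F) := E.equivFun.trans C.equivFun.symm
    obtain ⟨h, hh1, hh2⟩ := CfsgLib.MaxSub.InvolNormal.exists_centralizer T z hz0 hT (by simp; omega)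
      (LinearMap.det G.toLinearMap)⁻¹
    have hGdet : LinearMap.det G.toLinearMap ≠ 0 := (LinearEquiv.isUnit_det' G).ne_zero
    let P0 : Matrix (Fin (m + m)) (Fin (m + m)) F := LinearMap.toMatrix' (h ∘ₗ G.toLinearMap)
    have hPdet : P0.det = 1 := by
      rw [LinearMap.det_toMatrix', LinearMap.det_comp, hh1, inv_mul_cancel₀ hGdet]
    let P : Matrix.SpecialLinearGroup (Fin (m + m)) F := ⟨P0, hPdet⟩
    refine ⟨P, Units.mk0 c hc0, fun u v => ?_⟩
    have key : ∀ u, (Matrix.SpecialLinearGroup.toGL (P⁻¹ * x * P)).1 *ᵥ u = G.symm (T (G u)) := by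
      intro u
      have h1 : P.1 *ᵥ G.symm (T (G u)) = x.1 *ᵥ (P.1 *ᵥ u) := by
        rw [LinearMap.toMatrix'_mulVec, LinearMap.toMatrix'_mulVec, LinearMap.comp_apply, LinearMap.comp_apply,
          LinearEquiv.coe_coe, LinearEquiv.apply_symm_apply, hh2]
        rfl
      rw [Matrix.SpecialLinearGroup.coe_GL_coe_matrix, Matrix.SpecialLinearGroup.coe_mul,
        Matrix.SpecialLinearGroup.coe_mul, ← Matrix.mulVec_mulVec, ← Matrix.mulVec_mulVec, ← h1,
        Matrix.mulVec_mulVec, ← Matrix.SpecialLinearGroup.coe_mul, inv_mul_cancel,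
        Matrix.SpecialLinearGroup.coe_one, Matrix.one_mulVec]
    rw [key, key, hE (G.symm _), hE (G.symm (T (G v))), hfw, Units.val_mk0]
    conv_rhs => rw [hE u, hE v, hfw]
    have hG1 : ∀ y, E.equivFun (G.symm y) = C.equivFun y := fun y => E.equivFun.apply_symm_apply _
    have hG2 : ∀ y, C.equivFun (G y) = E.equivFun y := fun y => C.equivFun.apply_symm_apply _
    rw [hG1, hG1, hC, hG2, hG2]

end Cfsg.Agent.S5967
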