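import Cfsg.Statements.S5969
import Cfsg.Agent.Lib.MaxSub.InvolNormal

set_option autoImplicit false
open scoped MatrixGroups
open Cfsg

namespace Cfsg.Agent.S5969

open scoped Matrix

theorem two_pow_val {N : ℕ} (hN : N ≠ 0) : ∃ j, Odd j ∧ N = 2 ^ padicValNat 2 N * j := by
  obtain ⟨j, hj⟩ := pow_padicValNat_dvd (p := 2) (n := N)
  refine ⟨j, ?_, hj⟩
  rw [← Nat.not_even_iff_odd]
  rintro ⟨i, rfl⟩
  have hi : 2 ^ (padicValNat 2 N + 1) ∣ N := by
    obtain ⟨a, ha⟩ : ∃ a, a = padicValNat 2 N := ⟨_, rfl⟩
    rw [← ha] at hj ⊢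
    exact ⟨i, by rw [hj, pow_succ]; ring⟩
  exact pow_succ_padicValNat_not_dvd hN hi

/-- A root of `x^n = -1` exists exactly as the parts at two allow. -/
theorem root_iff {F : Type*} [Field F] [Fintype F] (h2 : (2 : F) ≠ 0) (n : ℕ) (hn : n ≠ 0) :
    (∃ μ : F, μ ^ n = -1) ↔ padicValNat 2 n < padicValNat 2 (Fintype.card F - 1) := by
  classical
  have hq : Fintype.card F - 1 ≠ 0 := by have := Fintype.one_lt_card (α := F); omega
  obtain ⟨j, hj, hnj⟩ := two_pow_val hn
  obtain ⟨j', hj', hqj⟩ := two_pow_val hq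
  set a := padicValNat 2 n
  set b := padicValNat 2 (Fintype.card F - 1)
  have hne : (-1 : F) ≠ 1 := fun h => h2 (by linear_combination -h)
  constructor
  · rintro ⟨μ, hμ⟩
    by_contra hlt
    have hμ0 : μ ≠ 0 := fun h => by rw [h, zero_pow hn] at hμ; exact one_ne_zero (by linear_combination hμ)
    have h1 : μ ^ (n * j') = 1 := by
      obtain ⟨i, hi⟩ := Nat.exists_eq_add_of_le (not_lt.1 hlt)
      rw [hnj, hi, show 2 ^ (b + i) * j * j' = (2 ^ b * j') * (2 ^ i * j) by ring, pow_mul, ← hqj,
        FiniteField.pow_card_sub_one_eq_one μ hμ0, one_pow]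
    rw [pow_mul, hμ, hj'.neg_one_pow] at h1
    exact hne h1
  · intro hlt
    obtain ⟨ω, hω⟩ := IsCyclic.exists_ofOrder_eq_natCard (α := Fˣ)
    rw [Nat.card_eq_fintype_card, Fintype.card_units] at hω
    obtain ⟨i, hi⟩ := Nat.exists_eq_add_of_le (Nat.succ_le_iff.2 hlt)
    let μ : Fˣ := ω ^ (2 ^ i * j')
    have hμn : μ ^ (2 ^ a) ≠ 1 := by
      intro h
      rw [← pow_mul, ← orderOf_dvd_iff_pow_eq_one, hω] at h
      have h5 : 2 ^ i * j' * 2 ^ a < Fintype.card F - 1 := by
        rw [hqj, hi, pow_add, pow_succ]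
        rw [show 2 ^ a * 2 * 2 ^ i * j' = 2 * (2 ^ i * j' * 2 ^ a) by ring]
        have : 0 < 2 ^ i * j' * 2 ^ a := Nat.mul_pos (Nat.mul_pos (Nat.two_pow_pos i) hj'.pos) (Nat.two_pow_pos a)
        omega
      exact absurd (Nat.le_of_dvd (Nat.mul_pos (Nat.mul_pos (Nat.two_pow_pos i) hj'.pos) (Nat.two_pow_pos a)) h) (by omega)
    have hsq : ((μ : F) ^ (2 ^ a)) * ((μ : F) ^ (2 ^ a)) = 1 := by
      rw [← pow_add, ← two_mul, ← Units.val_pow_eq_pow_val, ← pow_mul,
        show 2 ^ i * j' * (2 * 2 ^ a) = Fintype.card F - 1 by rw [hqj, hi, pow_add, pow_succ]; ring,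
        ← hω, pow_orderOf_eq_one, Units.val_one]
    refine ⟨μ, ?_⟩
    rw [hnj, pow_mul]
    rcases mul_self_eq_one_iff.1 hsq with h | h
    · exact absurd (Units.ext (by rw [Units.val_pow_eq_pow_val, h, Units.val_one])) hμn
    · rw [h, hj.neg_one_pow]

/-- A map satisfying an irreducible quadratic has a basis of pairs. -/
theorem quad_basis {F V : Type*} [Field F] [AddCommGroup V] [Module F V] [FiniteDimensional F V]
    (j : V →ₗ[F] V) (a b : F) (hab : ∀ c : F, c * c ≠ a * c + b) (hj : ∀ v, j (j v) = a • j v + b • v) :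
    ∃ (r : ℕ) (B : Module.Basis (Fin r ⊕ Fin r) F V), ∀ i, j (B (Sum.inl i)) = B (Sum.inr i) := by
  classical
  let P : ℕ → Prop := fun r => ∃ v : Fin r → V, LinearIndependent F (Sum.elim v (fun i => j (v i)))
  have hb : ∀ r, P r → r ≤ Module.finrank F V := fun r ⟨v, hv⟩ => by
    have := hv.fintype_card_le_finrank
    simp at this; omega
  set r := Nat.findGreatest P (Module.finrank F V) with hr
  obtain ⟨v, hv⟩ : P r := Nat.findGreatest_spec (Nat.zero_le _) ⟨Fin.elim0, linearIndependent_empty_type⟩
  have hmax : ¬ P (r + 1) := fun h => by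
    have h1 := Nat.le_findGreatest (hb _ h) h
    omega
  set W := Submodule.span F (Set.range (Sum.elim v (fun i => j (v i)))) with hW
  have hvW : ∀ i, v i ∈ W := fun i => Submodule.subset_span ⟨Sum.inl i, rfl⟩
  have hfvW : ∀ i, j (v i) ∈ W := fun i => Submodule.subset_span ⟨Sum.inr i, rfl⟩
  have hjW : ∀ w ∈ W, j w ∈ W := fun w hw => by
    have : W ≤ W.comap j := by
      rw [hW, Submodule.span_le]
      rintro _ ⟨(i | i), rfl⟩
      · exact hfvW i
      · show j (j (v i)) ∈ W
        rw [hj]; exact W.add_mem (W.smul_mem _ (hfvW i)) (W.smul_mem _ (hvW i))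
    exact this hw
  have htop : ⊤ ≤ W := by
    intro x _
    by_contra hxW
    refine hmax ⟨Fin.snoc v x, ?_⟩
    rw [Fintype.linearIndependent_iff]
    intro g hg
    simp only [Fintype.sum_sum_type, Sum.elim_inl, Sum.elim_inr, Fin.sum_univ_castSucc,
      Fin.snoc_castSucc, Fin.snoc_last] at hg
    set α := g (Sum.inl (Fin.last r))
    set β := g (Sum.inr (Fin.last r))
    have hmem : α • x + β • j x ∈ W := by
      have : α • x + β • j x
          = -((∑ i, g (Sum.inl (Fin.castSucc i)) • v i) + ∑ i, g (Sum.inr (Fin.castSucc i)) • j (v i)) := by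
        linear_combination (norm := module) hg
      rw [this]
      exact W.neg_mem (W.add_mem (W.sum_mem fun i _ => W.smul_mem _ (hvW i))
        (W.sum_mem fun i _ => W.smul_mem _ (hfvW i)))
    have hβ : β = 0 := by
      by_contra hβ
      set c := -α / β with hc
      have h1 : j x - c • x ∈ W := by
        have : j x - c • x = β⁻¹ • (α • x + β • j x) := by
          rw [smul_add, smul_smul, smul_smul, inv_mul_cancel₀ hβ, one_smul, hc]
          match_scalars <;> field_simp
        rw [this]; exact W.smul_mem _ hmem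
      have h2 : (c * c - a * c - b) • x ∈ W := by
        have : (c * c - a * c - b) • x = -(j (j x - c • x) + (c - a) • (j x - c • x)) := by
          rw [map_sub, map_smul, hj]; module
        rw [this]; exact W.neg_mem (W.add_mem (hjW _ h1) (W.smul_mem _ h1))
      refine hxW ((W.smul_mem_iff ?_).1 h2)
      intro e; exact hab c (by linear_combination e)
    rw [hβ, zero_smul, add_zero] at hmem
    have hα : α = 0 := by_contra fun hα => hxW ((W.smul_mem_iff hα).1 hmem)
    rw [hα, hβ, zero_smul, zero_smul, add_zero, add_zero] at hg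
    have := Fintype.linearIndependent_iff.1 hv
      (Sum.elim (fun i => g (Sum.inl (Fin.castSucc i))) (fun i => g (Sum.inr (Fin.castSucc i))))
      (by simpa [Fintype.sum_sum_type] using hg)
    rintro (i | i)
    · exact Fin.lastCases hα (fun k => this (Sum.inl k)) i
    · exact Fin.lastCases hβ (fun k => this (Sum.inr k)) i
  exact ⟨r, Module.Basis.mk hv htop, fun i => by simp [Module.Basis.mk_apply]⟩

theorem conjugate {F V : Type*} [Field F] [AddCommGroup V] [Module F V] {I : Type*} (B B' : Module.Basis I F V)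
    (f g : V →ₗ[F] V) (h : ∀ i, B.equiv B' (Equiv.refl I) (f (B i)) = g (B' i)) (x : V) :
    B.equiv B' (Equiv.refl I) (f x) = g (B.equiv B' (Equiv.refl I) x) :=
  LinearMap.congr_fun (B.ext (f₁ := (B.equiv B' (Equiv.refl I)).toLinearMap ∘ₗ f)
    (f₂ := g ∘ₗ (B.equiv B' (Equiv.refl I)).toLinearMap)
    (fun i => (h i).trans (by simp [Module.Basis.equiv_apply]))) x

/-- Involutions of PSL_n(q) and extension-field subgroups of degree 2. Here `T = PSL_n(F)` for a field `F` with `q = p^f` elements (`n ≥ 2`, `(n, q) ≠ (2, 2), (2, 3)`), `k` is a prime dividing `n`, `K` is a subalgebra of the `n × n` matrices that is a field of degree `k` over `F` (an extension-field structure F_{q^k} on `F^n`), and `H` is the subgroup of matrices of determinant 1 normalizing `K` — a subgroup of type GL_{n/k}(q^k) (maximal except in some small cases; maximality is not assumed); Ω is the set of cosets of `H` in `T`, so an element of `T` of prime order `r` (a matrix `x` of determinant 1 with `x^r` scalar, `x` not scalar) fixes a point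 of Ω when some conjugate of `x` by a matrix of determinant 1 normalizes `K`. Take `k = 2` and suppose the index of `H` is even. Then every involution of `T` is conjugate in `T` into `H` if and only if `n = 2`, or `q` is odd and `(q − 1)_2 ≤ (n)_2`. -/
theorem result {F : Type*} [Field F] [Fintype F] {p : ℕ} [Fact p.Prime] [CharP F p] {q : ℕ} (hq : Fintype.card F = q)
    (n : ℕ) (hn : 2 ≤ n) (hT : (n, q) ≠ (2, 2) ∧ (n, q) ≠ (2, 3))
    (k : ℕ) (hk : k.Prime) (hkn : k ∣ n) (K : Subalgebra F (Matrix (Fin n) (Fin n) F)) (hK : Cfsg.Geo.IsFieldSubalgebra k K) (hk2 : k = 2) (hΩ : 2 ∣ ((Cfsg.Geo.subalgebraNormalizer K).comap (Matrix.SpecialLinearGroup.toGL : Matrix.SpecialLinearGroup (Fin n) F →* GL (Fin n) F)).index) :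
    (∀ x : Matrix.SpecialLinearGroup (Fin n) F,
      (∃ z : F, ((x ^ 2 : Matrix.SpecialLinearGroup (Fin n) F) : Matrix (Fin n) (Fin n) F) = z • (1 : Matrix (Fin n) (Fin n) F)) →
      (∀ z : F, (x : Matrix (Fin n) (Fin n) F) ≠ z • (1 : Matrix (Fin n) (Fin n) F)) →
      ∃ P : Matrix.SpecialLinearGroup (Fin n) F, P⁻¹ * x * P ∈ ((Cfsg.Geo.subalgebraNormalizer K).comap (Matrix.SpecialLinearGroup.toGL : Matrix.SpecialLinearGroup (Fin n) F →* GL (Fin n) F))) ↔
    (n = 2 ∨ (Odd q ∧ padicValNat 2 (q - 1) ≤ padicValNat 2 n)) := by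
  classical
  subst hq hk2
  obtain ⟨m, rfl⟩ := hkn
  -- a generator of the field
  obtain ⟨J, hJ, hJns⟩ : ∃ J ∈ K, ∀ c : F, J ≠ c • (1 : Matrix (Fin (2 * m)) (Fin (2 * m)) F) := by
    by_contra hcon
    simp only [not_exists, not_and, not_forall, not_not] at hcon
    have hle : Subalgebra.toSubmodule K ≤ Submodule.span F {(1 : Matrix (Fin (2 * m)) (Fin (2 * m)) F)} := fun k hk => by
      obtain ⟨c, hc⟩ := hcon k hk
      exact Submodule.mem_span_singleton.2 ⟨c, hc.symm⟩
    have h1 := Submodule.finrank_mono hle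
    have hne : (1 : Matrix (Fin (2 * m)) (Fin (2 * m)) F) ≠ 0 := fun h => by
      have := congrFun (congrFun h ⟨0, by omega⟩) ⟨0, by omega⟩
      simp at this
    rw [finrank_span_singleton hne, Subalgebra.finrank_toSubmodule, hK.finrank_eq] at h1
    omega
  have hli : LinearIndependent F ![(⟨1, K.one_mem⟩ : K), ⟨J, hJ⟩] := by
    rw [LinearIndependent.pair_iff]
    intro s t hst
    have hst' : s • (1 : Matrix (Fin (2 * m)) (Fin (2 * m)) F) + t • J = 0 := congrArg Subtype.val hst
    have ht : t = 0 := by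
      by_contra ht
      refine hJns (-s / t) ?_
      have e1 := eq_neg_of_add_eq_zero_right hst'
      rw [div_eq_inv_mul, mul_smul, neg_smul, ← e1, smul_smul, inv_mul_cancel₀ ht, one_smul]
    rw [ht, zero_smul, add_zero] at hst'
    refine ⟨?_, ht⟩
    have := congrFun (congrFun hst' ⟨0, by omega⟩) ⟨0, by omega⟩
    simpa using this
  have hspanK : ∀ k ∈ K, ∃ u w : F, k = u • (1 : Matrix (Fin (2 * m)) (Fin (2 * m)) F) + w • J := by
    intro k hk
    have htop := hli.span_eq_top_of_card_eq_finrank' (by simp [hK.finrank_eq])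
    have hmem : (⟨k, hk⟩ : K) ∈ Submodule.span F (Set.range ![(⟨1, K.one_mem⟩ : K), ⟨J, hJ⟩]) := htop ▸ trivial
    obtain ⟨c, hc⟩ := (Submodule.mem_span_range_iff_exists_fun F).1 hmem
    refine ⟨c 0, c 1, ?_⟩
    have := congrArg Subtype.val hc
    simpa [Fin.sum_univ_two, eq_comm] using this
  obtain ⟨b, a, hJJ⟩ := hspanK _ (K.mul_mem hJ hJ)
  have hprod : ∀ A ∈ K, ∀ A' ∈ K, A * A' = 0 → A = 0 ∨ A' = 0 := fun A hA A' hA' h => by
    by_contra hcon
    rw [not_or] at hcon
    obtain ⟨Y, -, hY⟩ := hK.inv A hA hcon.1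
    apply hcon.2
    have hYA : Y * A = 1 := mul_eq_one_comm.1 hY
    rw [← one_mul A', ← hYA, mul_assoc, h, mul_zero]
  have hab : ∀ c : F, c * c ≠ a * c + b := by
    intro c hc
    rcases hprod (J - c • 1) (K.sub_mem hJ (K.smul_mem K.one_mem c)) (J - (a - c) • 1)
      (K.sub_mem hJ (K.smul_mem K.one_mem _)) (by
        simp only [mul_sub, sub_mul, smul_mul_assoc, mul_smul_comm, mul_one, one_mul, smul_smul, smul_sub, hJJ]
        match_scalars <;> first | ring1 | linear_combination hc | linear_combination -hc) with h | h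
    · exact hJns c (sub_eq_zero.1 h)
    · exact hJns _ (sub_eq_zero.1 h)
  let j := Matrix.toLin' J
  have hj : ∀ v, j (j v) = a • j v + b • v := fun v => by
    simp only [j, Matrix.toLin'_apply, Matrix.mulVec_mulVec, hJJ, Matrix.add_mulVec, Matrix.smul_mulVec, Matrix.one_mulVec]
    abel
  -- criterion for the normaliser
  have hcrit : ∀ g : GL (Fin (2 * m)) F, (∃ z : F, g.1 * g.1 = z • 1) →
      (g.1 * J = J * g.1 ∨ g.1 * J = (a • 1 - J) * g.1) → g ∈ Cfsg.Geo.subalgebraNormalizer K := by
    intro g ⟨z, hz⟩ hg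
    have hfwd : ∀ k ∈ K, g.1 * k * (g⁻¹).1 ∈ K := by
      intro k hk
      obtain ⟨u, w, rfl⟩ := hspanK k hk
      obtain ⟨J', hJ', hgJ⟩ : ∃ J' ∈ K, g.1 * J = J' * g.1 := by
        rcases hg with h | h
        · exact ⟨J, hJ, h⟩
        · exact ⟨_, K.sub_mem (K.smul_mem K.one_mem a) hJ, h⟩
      rw [mul_add, Matrix.mul_smul, Matrix.mul_smul, Matrix.mul_one, hgJ, add_mul, Matrix.smul_mul, Matrix.smul_mul,
        mul_assoc, ← Units.val_mul, mul_inv_cancel, Units.val_one, Matrix.mul_one]
      exact K.add_mem (K.smul_mem K.one_mem u) (K.smul_mem hJ' w)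
    intro k
    refine ⟨hfwd k, fun h => ?_⟩
    have h2 := hfwd _ h
    have e1 : g.1 * (g.1 * k * (g⁻¹).1) * (g⁻¹).1 = (g.1 * g.1) * k * ((g⁻¹).1 * (g⁻¹).1) := by simp only [mul_assoc]
    have e2 : (g.1 * g.1) * k = k * (g.1 * g.1) := by rw [hz, Matrix.smul_mul, Matrix.mul_smul, Matrix.one_mul, Matrix.mul_one]
    rw [e1, e2, mul_assoc, ← Units.val_mul, ← Units.val_mul, ← Units.val_mul, ← mul_inv_rev, mul_inv_cancel,
      Units.val_one, Matrix.mul_one] at h2
    exact h2
  constructor
  · intro hall
    by_contra hcon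
    rw [not_or] at hcon
    obtain ⟨hm2, hnq⟩ := hcon
    let i0 : Fin (2 * m) := ⟨0, by omega⟩
    let i1 : Fin (2 * m) := ⟨1, by omega⟩
    have h01 : i1 ≠ i0 := by simp [i1, i0, Fin.ext_iff]
    -- an involution with a big eigenspace and a line as image
    obtain ⟨x, μ, τ, hμ, hτ, hxsq, hxne, hline⟩ : ∃ (x : Matrix.SpecialLinearGroup (Fin (2 * m)) F) (μ τ : F),
        μ ≠ 0 ∧ τ ≠ 0 ∧ (∃ z : F, x.1 * x.1 = z • 1) ∧ (∀ z : F, x.1 ≠ z • 1) ∧
        ∀ v, x.1 *ᵥ v - μ • v = (τ * v i0) • (if (2 : F) = 0 then Pi.single i1 1 else Pi.single i0 1) := by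
      by_cases h2 : (2 : F) = 0
      · haveI : CharP F 2 := CharTwo.of_one_ne_zero_of_two_eq_zero one_ne_zero h2
        refine ⟨⟨Matrix.transvection i1 i0 1, Matrix.det_transvection_of_ne _ _ h01 1⟩, 1, 1, one_ne_zero, one_ne_zero,
          ⟨1, ?_⟩, fun z hz => ?_, fun v => ?_⟩
        · show Matrix.transvection i1 i0 (1 : F) * Matrix.transvection i1 i0 (1 : F) = _
          rw [Matrix.transvection_mul_transvection_same _ _ h01, CharTwo.add_self_eq_zero, Matrix.transvection_zero, one_smul]
        · have := congrFun (congrFun hz i1) i0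
          simp [Matrix.transvection, Matrix.one_apply, h01] at this
        · rw [if_pos h2]
          show Matrix.transvection i1 i0 (1 : F) *ᵥ v - _ = _
          rw [Matrix.transvection, Matrix.add_mulVec, Matrix.one_mulVec, Matrix.single_mulVec]
          ext i; simp [Function.update_apply, Pi.single_apply]
      · have hq' : Odd (Fintype.card F) := by
          rw [Nat.odd_iff]; exact FiniteField.odd_card_of_char_ne_two (fun h => h2 (by
            haveI : CharP F 2 := ringChar.eq_iff.1 h
            exact CharTwo.two_eq_zero))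
        have hlt : padicValNat 2 (2 * m) < padicValNat 2 (Fintype.card F - 1) :=
          not_le.1 fun h => hnq ⟨hq', h⟩
        obtain ⟨μ, hμn⟩ := (root_iff h2 (2 * m) (by omega)).2 hlt
        have hμ0 : μ ≠ 0 := fun h => by rw [h, zero_pow (by omega)] at hμn; exact one_ne_zero (by linear_combination hμn)
        let d : Fin (2 * m) → F := fun i => if i = i0 then -μ else μ
        have hdet : (Matrix.diagonal d).det = 1 := by
          rw [Matrix.det_diagonal, show d = fun i => μ * (if i = i0 then -1 else 1) from funext fun i => by simp [d],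
            Finset.prod_mul_distrib, Finset.prod_const, Finset.card_univ, Fintype.card_fin, Finset.prod_ite_eq', hμn]
          simp
        refine ⟨⟨Matrix.diagonal d, hdet⟩, μ, -(2 * μ), hμ0, neg_ne_zero.2 (mul_ne_zero h2 hμ0), ⟨μ * μ, ?_⟩,
          fun z hz => ?_, fun v => ?_⟩
        · show Matrix.diagonal d * Matrix.diagonal d = _
          rw [Matrix.diagonal_mul_diagonal, Matrix.smul_one_eq_diagonal]
          congr 1; funext i; simp only [d]; split_ifs <;> ring
        · have e0 := congrFun (congrFun hz i0) i0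
          have e1 := congrFun (congrFun hz i1) i1
          simp [d, h01] at e0 e1
          exact mul_ne_zero h2 hμ0 (by linear_combination e1 - e0)
        · rw [if_neg h2]
          ext i
          simp [d, Matrix.mulVec_diagonal, Pi.single_apply]
          split_ifs with h
          · subst h; ring
          · ring
    obtain ⟨z, hz⟩ := hxsq
    obtain ⟨P, hP⟩ := hall x ⟨z, by rw [Matrix.SpecialLinearGroup.coe_pow, pow_two, hz]⟩ hxne
    set e : Fin (2 * m) → F := if (2 : F) = 0 then Pi.single i1 1 else Pi.single i0 1 with he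
    have he0 : e ≠ 0 := by rw [he]; split_ifs <;> simp
    let y : GL (Fin (2 * m)) F := Matrix.SpecialLinearGroup.toGL (P⁻¹ * x * P)
    have hy : y.1 = (P⁻¹).1 * x.1 * P.1 := by
      rw [Matrix.SpecialLinearGroup.coe_GL_coe_matrix, Matrix.SpecialLinearGroup.coe_mul,
        Matrix.SpecialLinearGroup.coe_mul]
    have hQP : P.1 * (P⁻¹).1 = 1 := by
      rw [← Matrix.SpecialLinearGroup.coe_mul, mul_inv_cancel, Matrix.SpecialLinearGroup.coe_one]
    have hQP' : (P⁻¹).1 * P.1 = 1 := by
      rw [← Matrix.SpecialLinearGroup.coe_mul, inv_mul_cancel, Matrix.SpecialLinearGroup.coe_one]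
    set u : Fin (2 * m) → F := (P⁻¹).1 *ᵥ e with hu
    have hu0 : u ≠ 0 := fun h => he0 (by
      rw [← Matrix.one_mulVec e, ← hQP, ← Matrix.mulVec_mulVec, ← hu, h, Matrix.mulVec_zero])
    have hyline : ∀ v, y.1 *ᵥ v - μ • v = (τ * (P.1 *ᵥ v) i0) • u := fun v => by
      have h := congrArg (fun w => (P⁻¹).1 *ᵥ w) (hline (P.1 *ᵥ v))
      simp only [Matrix.mulVec_sub, Matrix.mulVec_smul, Matrix.mulVec_mulVec, hQP', Matrix.one_mulVec] at h
      rw [hy]; rw [← mul_assoc] at h; exact h
    let J' := y.1 * J * (y⁻¹).1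
    have hJ' : J' ∈ K := (hP J).1 hJ
    have hyJ : y.1 * J = J' * y.1 := by
      show _ = y.1 * J * (y⁻¹).1 * y.1
      rw [mul_assoc (y.1 * J), ← Units.val_mul, inv_mul_cancel, Units.val_one, Matrix.mul_one]
    have hJJ' : J' * J' = b • (1 : Matrix (Fin (2 * m)) (Fin (2 * m)) F) + a • J' := by
      show y.1 * J * (y⁻¹).1 * (y.1 * J * (y⁻¹).1) = b • (1 : Matrix (Fin (2 * m)) (Fin (2 * m)) F) + a • (y.1 * J * (y⁻¹).1)
      rw [show y.1 * J * (y⁻¹).1 * (y.1 * J * (y⁻¹).1) = y.1 * J * ((y⁻¹).1 * y.1) * J * (y⁻¹).1 by simp only [mul_assoc],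
        ← Units.val_mul, inv_mul_cancel, Units.val_one, Matrix.mul_one, mul_assoc y.1 J J, hJJ, mul_add, add_mul,
        Matrix.mul_smul, Matrix.mul_smul, Matrix.mul_one, Matrix.smul_mul, Matrix.smul_mul, ← Units.val_mul,
        mul_inv_cancel, Units.val_one]
    rcases hprod (J' - J) (K.sub_mem hJ' hJ) (J' + J - a • 1) (K.sub_mem (K.add_mem hJ' hJ) (K.smul_mem K.one_mem a)) (by
      simp only [mul_sub, sub_mul, mul_add, mul_smul_comm, mul_one, hJJ', hJJ, hK.comm J hJ J' hJ', smul_sub]
      abel) with h | h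
    · -- commuting: the line is invariant
      rw [sub_eq_zero] at h
      rw [h] at hyJ
      obtain ⟨v, hv⟩ : ∃ v, τ * (P.1 *ᵥ v) i0 ≠ 0 := ⟨(P⁻¹).1 *ᵥ Pi.single i0 1, by
        rw [Matrix.mulVec_mulVec, hQP, Matrix.one_mulVec]; simp [hτ]⟩
      have h1 := hyline (J *ᵥ v)
      rw [Matrix.mulVec_mulVec, hyJ, ← Matrix.mulVec_mulVec, ← Matrix.mulVec_smul, ← Matrix.mulVec_sub, hyline,
        Matrix.mulVec_smul] at h1
      set s := τ * (P.1 *ᵥ v) i0
      set s' := τ * (P.1 *ᵥ (J *ᵥ v)) i0
      have hc : J *ᵥ u = (s' / s) • u := by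
        rw [div_eq_inv_mul, mul_smul, ← h1, smul_smul, inv_mul_cancel₀ hv, one_smul]
      have h3 := congrArg (fun M : Matrix (Fin (2 * m)) (Fin (2 * m)) F => M *ᵥ u) hJJ
      simp only [Matrix.add_mulVec, Matrix.smul_mulVec, Matrix.one_mulVec, ← Matrix.mulVec_mulVec, hc, Matrix.mulVec_smul,
        smul_smul] at h3
      refine hab (s' / s) (smul_left_injective F hu0 ?_)
      show (s' / s * (s' / s)) • u = (a * (s' / s) + b) • u
      rw [h3]; module
    · -- interchanging: the eigenspace meets its image trivially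
      have hJ'eq : J' = a • 1 - J := by rw [sub_eq_zero] at h; rw [← h]; abel
      rw [hJ'eq] at hyJ
      let φ : (Fin (2 * m) → F) →ₗ[F] (Fin 2 → F) :=
        LinearMap.pi ![(LinearMap.proj i0).comp P.1.mulVecLin, (LinearMap.proj i0).comp (P.1.mulVecLin.comp J.mulVecLin)]
      obtain ⟨w, hw, hw0⟩ : ∃ w, φ w = 0 ∧ w ≠ 0 := by
        by_contra hcon
        simp only [not_exists, not_and, not_not] at hcon
        have hinj : Function.Injective φ := (injective_iff_map_eq_zero φ).2 hcon
        have := LinearMap.finrank_le_finrank_of_injective hinj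
        simp at this
        omega
      have hw1 : (P.1 *ᵥ w) i0 = 0 := congrFun hw 0
      have hw2 : (P.1 *ᵥ (J *ᵥ w)) i0 = 0 := congrFun hw 1
      have e1 := hyline w
      have e2 := hyline (J *ᵥ w)
      rw [hw1, mul_zero, zero_smul, sub_eq_zero] at e1
      rw [hw2, mul_zero, zero_smul, sub_eq_zero, Matrix.mulVec_mulVec, hyJ, ← Matrix.mulVec_mulVec, e1,
        Matrix.mulVec_smul] at e2
      have e3 : ((a • 1 - J) - J) *ᵥ w = 0 := by
        rw [Matrix.sub_mulVec, sub_eq_zero]
        exact smul_right_injective _ hμ e2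
      obtain ⟨Y, -, hY⟩ := hK.inv ((a • 1 - J) - J) (K.sub_mem (K.sub_mem (K.smul_mem K.one_mem a) hJ) hJ) (fun hz0 => by
        by_cases h2 : (2 : F) = 0
        · haveI : CharP F 2 := CharTwo.of_one_ne_zero_of_two_eq_zero one_ne_zero h2
          have : a • (1 : Matrix (Fin (2 * m)) (Fin (2 * m)) F) = 0 := by
            rw [← hz0, sub_sub, ← two_smul F J, h2, zero_smul, sub_zero]
          have ha := congrFun (congrFun this i0) i0
          simp at ha
          obtain ⟨c, hc⟩ := FiniteField.isSquare_of_char_two (ringChar.eq F 2) b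
          exact hab c (by rw [ha, ← hc]; ring)
        · refine hJns (a / 2) ?_
          rw [sub_sub, sub_eq_zero, ← two_smul F J] at hz0
          rw [div_eq_inv_mul, mul_smul, hz0, smul_smul, inv_mul_cancel₀ h2, one_smul])
      apply hw0
      rw [← Matrix.one_mulVec w, ← mul_eq_one_comm.1 hY, ← Matrix.mulVec_mulVec, e3, Matrix.mulVec_zero]
  · intro hcond x hx1 hx2
    obtain ⟨z, hz⟩ := hx1
    rw [Matrix.SpecialLinearGroup.coe_pow, pow_two] at hz
    have hz0 : z ≠ 0 := by
      rintro rfl
      have hd := congrArg Matrix.det hz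
      haveI : Nonempty (Fin (2 * m)) := ⟨⟨0, by omega⟩⟩
      rw [Matrix.det_mul, x.2, zero_smul, Matrix.det_zero, mul_one] at hd
      exact one_ne_zero hd
    let T := Matrix.toLin' x.1
    have hT : ∀ v, T (T v) = z • v := fun v => by
      rw [Matrix.toLin'_apply, Matrix.toLin'_apply, Matrix.mulVec_mulVec, hz, Matrix.smul_mulVec, Matrix.one_mulVec]
    obtain ⟨r, B, hB⟩ := quad_basis j a b hab hj
    have hr : r = m := by
      have := Module.finrank_eq_card_basis B; simp at this; omega
    subst hr
    have hBr : ∀ i, j (B (Sum.inr i)) = a • B (Sum.inr i) + b • B (Sum.inl i) := fun i => by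
      rw [← hB, hj]
    -- a conjugate of x normalising the field
    obtain ⟨G, M, hGT, hM2, hMJ⟩ : ∃ (G : (Fin (2 * r) → F) ≃ₗ[F] (Fin (2 * r) → F)) (M : (Fin (2 * r) → F) →ₗ[F] (Fin (2 * r) → F)),
        (∀ v, T (G v) = G (M v)) ∧ (∀ v, M (M v) = z • v) ∧
        ((∀ v, M (j v) = j (M v)) ∨ (∀ v, M (j v) = a • M v - j (M v))) := by
      suffices h : ∃ (H : (Fin (2 * r) → F) ≃ₗ[F] (Fin (2 * r) → F)) (M : (Fin (2 * r) → F) →ₗ[F] (Fin (2 * r) → F)),
          (∀ v, H (T v) = M (H v)) ∧ ((∀ v, M (j v) = j (M v)) ∨ (∀ v, M (j v) = a • M v - j (M v))) by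
        obtain ⟨H, M, h1, h2⟩ := h
        have hM : ∀ v, M v = H (T (H.symm v)) := fun v => by rw [h1, LinearEquiv.apply_symm_apply]
        exact ⟨H.symm, M, fun v => by rw [hM, LinearEquiv.symm_apply_apply],
          fun v => by rw [hM (M v), hM v, LinearEquiv.symm_apply_apply, hT, map_smul, LinearEquiv.apply_symm_apply], h2⟩
      have hjext : ∀ (M : (Fin (2 * r) → F) →ₗ[F] (Fin (2 * r) → F)), (∀ i, M (j (B i)) = j (M (B i))) → ∀ v, M (j v) = j (M v) :=
        fun M h v => LinearMap.congr_fun (B.ext (f₁ := M ∘ₗ j) (f₂ := j ∘ₗ M) h) v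
      by_cases hr1 : r = 1
      · -- dimension two
        subst hr1
        have hnorm : ∃ u w : F, u * u + a * u * w - b * w * w = z := by
          by_cases h2 : (2 : F) = 0
          · haveI : CharP F 2 := CharTwo.of_one_ne_zero_of_two_eq_zero one_ne_zero h2
            obtain ⟨u, hu⟩ := FiniteField.isSquare_of_char_two (ringChar.eq F 2) z
            exact ⟨u, 0, by rw [hu]; ring⟩
          · have h4 : (4 : F) ≠ 0 := by
              rw [show (4 : F) = 2 * 2 by norm_num]; exact mul_ne_zero h2 h2
            have hD : a * a / 4 + b ≠ 0 := fun h => hab (a / 2) (by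
              field_simp at h ⊢; linear_combination -h)
            obtain ⟨u, w, huw⟩ := CfsgLib.MaxSub.InvolNormal.exists_norm _ z hD
            refine ⟨u - a * w / 2, w, ?_⟩
            field_simp at huw ⊢
            linear_combination huw
        obtain ⟨u, w, huw⟩ := hnorm
        let M := B.constr F (Sum.elim (fun i => u • B (Sum.inl i) + w • B (Sum.inr i))
          (fun i => (a * u - b * w) • B (Sum.inl i) + (-u) • B (Sum.inr i)))
        have hMl : ∀ i, M (B (Sum.inl i)) = u • B (Sum.inl i) + w • B (Sum.inr i) := fun i => B.constr_basis F _ (Sum.inl i)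
        have hMr : ∀ i, M (B (Sum.inr i)) = (a * u - b * w) • B (Sum.inl i) + (-u) • B (Sum.inr i) := fun i => B.constr_basis F _ (Sum.inr i)
        have hMM : ∀ v, M (M v) = z • v := fun v => LinearMap.congr_fun (B.ext (f₁ := M ∘ₗ M) (f₂ := z • LinearMap.id) (fun i => by
          rcases i with i | i <;> simp only [LinearMap.comp_apply, LinearMap.smul_apply, LinearMap.id_apply, hMl, hMr, map_add, map_smul] <;>
            match_scalars <;> first | ring1 | linear_combination huw | linear_combination -huw)) v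
        have hMns : ∀ c : F, ¬ ∀ v, M v = c • v := fun c h => by
          have e1 : u = c := by
            have := congrArg (fun v => B.repr v (Sum.inl 0)) ((hMl 0).symm.trans (h _))
            simpa using this
          have e2 : -u = c := by
            have := congrArg (fun v => B.repr v (Sum.inr 0)) ((hMr 0).symm.trans (h _))
            simpa using this
          have e3 : a * u - b * w = 0 := by
            have := congrArg (fun v => B.repr v (Sum.inl 0)) ((hMr 0).symm.trans (h _))
            simpa using this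
          have e4 : w = 0 := by
            have := congrArg (fun v => B.repr v (Sum.inr 0)) ((hMl 0).symm.trans (h _))
            simpa using this
          subst e4
          have hu0 : u ≠ 0 := fun h => hz0 (by rw [← huw, h]; ring)
          have ha : a = 0 := by simpa [hu0] using e3
          have h2 : (2 : F) = 0 := by
            have : (2 : F) * u = 0 := by linear_combination e1 - e2
            simpa [hu0] using this
          haveI : CharP F 2 := CharTwo.of_one_ne_zero_of_two_eq_zero one_ne_zero h2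
          obtain ⟨c, hc⟩ := FiniteField.isSquare_of_char_two (ringChar.eq F 2) b
          exact hab c (by rw [ha, ← hc]; ring)
        have cyclic : ∀ f : (Fin (2 * 1) → F) →ₗ[F] (Fin (2 * 1) → F), (∀ c : F, ¬ ∀ v, f v = c • v) →
            ∃ E : Module.Basis (Fin 2) F (Fin (2 * 1) → F), f (E 0) = E 1 := by
          intro f hf
          obtain ⟨v, hv⟩ : ∃ v, ∀ c : F, f v ≠ c • v := by
            by_contra h
            simp only [not_exists, not_forall, not_not] at h
            choose c hc using h
            obtain ⟨e0, he0⟩ : ∃ e0 : Fin (2 * 1) → F, e0 ≠ 0 := ⟨fun _ => 1, fun h => one_ne_zero (congrFun h 0)⟩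
            refine hf (c e0) fun v => ?_
            by_cases hv : LinearIndependent F ![e0, v]
            · have h1 := hc (e0 + v)
              rw [map_add, hc e0, hc v, smul_add] at h1
              have h2 : (c e0 - c (e0 + v)) • e0 + (c v - c (e0 + v)) • v = 0 := by linear_combination (norm := module) h1
              obtain ⟨a1, a2⟩ := LinearIndependent.pair_iff.1 hv _ _ h2
              rw [hc v, sub_eq_zero.1 a2, ← sub_eq_zero.1 a1]
            · rw [LinearIndependent.pair_iff] at hv
              simp only [not_forall] at hv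
              obtain ⟨s, t, hst, hne⟩ := hv
              have ht : t ≠ 0 := fun ht => hne ⟨by simpa [ht, he0] using hst, ht⟩
              have : v = (-(t⁻¹ * s)) • e0 := by
                have h' := congrArg (fun y => t⁻¹ • y) hst
                simp only [smul_add, smul_smul, inv_mul_cancel₀ ht, one_smul, smul_zero] at h'
                linear_combination (norm := module) h'
              rw [this, map_smul, hc e0, smul_comm]
          have hli : LinearIndependent F ![v, f v] := by
            rw [LinearIndependent.pair_iff]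
            intro s t hst
            have ht : t = 0 := by
              by_contra ht
              refine hv (-(t⁻¹ * s)) ?_
              have h' := congrArg (fun y => t⁻¹ • y) hst
              simp only [smul_add, smul_smul, inv_mul_cancel₀ ht, one_smul, smul_zero] at h'
              linear_combination (norm := module) h'
            have hv0 : v ≠ 0 := fun h => hv 0 (by rw [h, map_zero, smul_zero])
            exact ⟨by simpa [ht, hv0] using hst, ht⟩
          exact ⟨basisOfLinearIndependentOfCardEqFinrank hli (by simp), by simp⟩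
        obtain ⟨E, hE⟩ := cyclic T (fun c h => hx2 c (Matrix.toLin'.injective (LinearMap.ext fun v => by
          rw [show Matrix.toLin' x.1 v = _ from h v, Matrix.toLin'_apply, Matrix.smul_mulVec, Matrix.one_mulVec])))
        obtain ⟨E', hE'⟩ := cyclic M hMns
        refine ⟨E.equiv E' (Equiv.refl _), M, fun v => conjugate E E' T M (fun i => ?_) v, Or.inr fun v => ?_⟩
        · fin_cases i
          · simp [hE, hE', Module.Basis.equiv_apply]
          · show E.equiv E' _ (T (E 1)) = M (E' 1)
            rw [← hE, ← hE', hT, hMM, map_smul, Module.Basis.equiv_apply]; rfl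
        · refine LinearMap.congr_fun (B.ext (f₁ := M ∘ₗ j) (f₂ := a • M - j ∘ₗ M) ?_) v
          rintro (i | i) <;>
            simp only [LinearMap.comp_apply, LinearMap.sub_apply, LinearMap.smul_apply, hB, hBr, hMl, hMr, map_add, map_smul] <;> module
      obtain ⟨hq', hle⟩ := hcond.resolve_left (by omega)
      have h2 : (2 : F) ≠ 0 := fun h => by
        haveI : CharP F 2 := CharTwo.of_one_ne_zero_of_two_eq_zero one_ne_zero h
        have h4 := FiniteField.even_card_of_char_two (F := F) (ringChar.eq F 2)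
        rw [Nat.odd_iff] at hq'
        omega
      by_cases hsq : ∃ μ : F, μ * μ = z
      · obtain ⟨μ, hμ⟩ := hsq
        have hμ0 : μ ≠ 0 := fun h => hz0 (by rw [← hμ, h, zero_mul])
        obtain ⟨k, l, E, hE1, hE2, hE3⟩ := CfsgLib.MaxSub.InvolNormal.exists_eigenbasis h2 T μ hμ0 (fun v => by rw [hμ]; exact hT v)
        have hkl : k + l = 2 * r := by
          have := Module.finrank_eq_card_basis E; simp at this; omega
        rw [LinearMap.det_toLin', x.2, hkl] at hE3
        have hl : Even l := by
          rw [← Nat.not_odd_iff_even]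
          intro hl
          rw [hl.neg_one_pow] at hE3
          have := (root_iff h2 (2 * r) (by omega)).1 ⟨μ, by linear_combination hE3⟩
          omega
        obtain ⟨l', rfl⟩ := hl
        obtain ⟨k', rfl⟩ : Even k := by rw [Nat.even_iff]; omega
        let e : (Fin k' ⊕ Fin l') ⊕ (Fin k' ⊕ Fin l') ≃ Fin (k' + k') ⊕ Fin (l' + l') :=
          (Equiv.sumSumSumComm _ _ _ _).trans (Equiv.sumCongr finSumFinEquiv finSumFinEquiv)
        let g : Fin r ≃ Fin k' ⊕ Fin l' := (Fintype.equivFinOfCardEq (by simp; omega)).symm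
        let C := E.reindex ((Equiv.sumCongr g g).trans e).symm
        let w : Fin r → F := fun i => Sum.elim (fun _ => μ) (fun _ => -μ) (g i)
        have hC : ∀ i, T (C i) = Sum.elim w w i • C i := by
          rintro (i | i) <;> rcases hg : g i with k | k <;>
            simp [C, w, e, Module.Basis.reindex_apply, hg, Equiv.sumSumSumComm, hE1, hE2]
        let M := B.constr F (fun i => Sum.elim w w i • B i)
        have hMb : ∀ i, M (B i) = Sum.elim w w i • B i := fun i => B.constr_basis F _ i
        refine ⟨C.equiv B (Equiv.refl _), M, fun v => conjugate C B T M (fun i => ?_) v, Or.inl (hjext M fun i => ?_)⟩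
        · rw [hC, map_smul, Module.Basis.equiv_apply, hMb]; rfl
        · rcases i with i | i <;> simp only [hB, hBr, hMb, map_add, map_smul, Sum.elim_inl, Sum.elim_inr] <;> module
      · -- x acts as a square root of z inside the field
        obtain ⟨w, hw⟩ : ∃ w : F, w * w * (a * a + 4 * b) = z := by
          have hD : ¬ IsSquare (a * a + 4 * b) := fun ⟨s, hs⟩ => hab ((a + s) / 2) (by
            field_simp; linear_combination -hs)
          have hz' : ¬ IsSquare z := fun ⟨s, hs⟩ => hsq ⟨s, hs.symm⟩
          have hD0 : a * a + 4 * b ≠ 0 := fun h => hD ⟨0, by rw [h, mul_zero]⟩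
          obtain ⟨w, hw⟩ : IsSquare (z / (a * a + 4 * b)) := by
            have e1 := (quadraticChar_neg_one_iff_not_isSquare (F := F)).2 hz'
            have e2 := (quadraticChar_neg_one_iff_not_isSquare (F := F)).2 hD
            rw [← quadraticChar_one_iff_isSquare (div_ne_zero hz0 hD0)]
            have e3 : quadraticChar F z = quadraticChar F (z / (a * a + 4 * b)) * quadraticChar F (a * a + 4 * b) := by
              rw [← map_mul, div_mul_cancel₀ _ hD0]
            rw [e1, e2] at e3
            linear_combination e3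
          exact ⟨w, by rw [← hw, div_mul_cancel₀ _ hD0]⟩
        let M : (Fin (2 * r) → F) →ₗ[F] (Fin (2 * r) → F) := (w * 2) • j - (w * a) • LinearMap.id
        have hMM : ∀ v, M (M v) = (0 : F) • M v + z • v := fun v => by
          simp only [M, LinearMap.sub_apply, LinearMap.smul_apply, LinearMap.id_apply, map_sub, map_smul, hj, ← hw]
          match_scalars <;> ring
        have hnr : ∀ c : F, c * c ≠ 0 * c + z := fun c h => hsq ⟨c, by linear_combination h⟩
        have hT0 : ∀ v, T (T v) = (0 : F) • T v + z • v := fun v => by rw [hT, zero_smul, zero_add]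
        obtain ⟨r1, E, hE⟩ := quad_basis T 0 z hnr hT0
        obtain ⟨r2, E', hE'⟩ := quad_basis M 0 z hnr hMM
        have h12 : r1 = r2 := by
          have := Module.finrank_eq_card_basis E; have := Module.finrank_eq_card_basis E'; simp at *; omega
        subst h12
        refine ⟨E.equiv E' (Equiv.refl _), M, fun v => conjugate E E' T M (fun i => ?_) v, Or.inl fun v => ?_⟩
        · rcases i with i | i
          · rw [hE, hE', Module.Basis.equiv_apply]; rfl
          · rw [← hE, ← hE', hT0, hMM, zero_smul, zero_smul, zero_add, zero_add, map_smul, Module.Basis.equiv_apply]; rfl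
        · simp only [M, LinearMap.sub_apply, LinearMap.smul_apply, LinearMap.id_apply, map_sub, map_smul]
    obtain ⟨h, hh1, hh2⟩ := CfsgLib.MaxSub.InvolNormal.exists_centralizer T z hz0 hT (by simp; omega)
      (LinearMap.det G.toLinearMap)⁻¹
    have hGdet : LinearMap.det G.toLinearMap ≠ 0 := (LinearEquiv.isUnit_det' G).ne_zero
    let P : Matrix.SpecialLinearGroup (Fin (2 * r)) F := ⟨LinearMap.toMatrix' (h ∘ₗ G.toLinearMap), by
      rw [LinearMap.det_toMatrix', LinearMap.det_comp, hh1, inv_mul_cancel₀ hGdet]⟩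
    refine ⟨P, ?_⟩
    let y : GL (Fin (2 * r)) F := Matrix.SpecialLinearGroup.toGL (P⁻¹ * x * P)
    have key : ∀ v, y.1 *ᵥ v = M v := by
      intro v
      have h1 : P.1 *ᵥ M v = x.1 *ᵥ (P.1 *ᵥ v) := by
        rw [LinearMap.toMatrix'_mulVec, LinearMap.toMatrix'_mulVec, LinearMap.comp_apply, LinearMap.comp_apply,
          LinearEquiv.coe_coe, ← hGT, hh2]
        rfl
      rw [Matrix.SpecialLinearGroup.coe_GL_coe_matrix, Matrix.SpecialLinearGroup.coe_mul,
        Matrix.SpecialLinearGroup.coe_mul, ← Matrix.mulVec_mulVec, ← Matrix.mulVec_mulVec, ← h1,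
        Matrix.mulVec_mulVec, ← Matrix.SpecialLinearGroup.coe_mul, inv_mul_cancel,
        Matrix.SpecialLinearGroup.coe_one, Matrix.one_mulVec]
    refine hcrit y ⟨z, Matrix.ext_of_mulVec_single fun i => ?_⟩ ?_
    · rw [← Matrix.mulVec_mulVec, key, key, hM2, Matrix.smul_mulVec, Matrix.one_mulVec]
    · have hjm : ∀ v, J *ᵥ v = j v := fun v => rfl
      rcases hMJ with h3 | h3
      · exact Or.inl (Matrix.ext_of_mulVec_single fun i => by
          rw [← Matrix.mulVec_mulVec, ← Matrix.mulVec_mulVec, key, key, hjm, hjm, h3])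
      · exact Or.inr (Matrix.ext_of_mulVec_single fun i => by
          rw [← Matrix.mulVec_mulVec, ← Matrix.mulVec_mulVec, key, key, hjm, h3, Matrix.sub_mulVec, Matrix.smul_mulVec,
            Matrix.one_mulVec, hjm])

end Cfsg.Agent.S5969
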