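import Cfsg.Statements.S5983
import Cfsg.Agent.Lib.Symplectic.FormTypes
import Cfsg.Agent.Lib.Symplectic.Simple

set_option autoImplicit false
open scoped MatrixGroups
open Cfsg

namespace Cfsg.Agent.S5983

open scoped Matrix

/-- Elements of prime order of PSp_n(q), q even, and the subgroups of orthogonal type. Here `T = Sp_{2d}(F)` for a field `F` of characteristic 2 with `q` elements (`d ≥ 2`, `(d, q) ≠ (2, 2)`), realised as the invertible matrices preserving the standard alternating form; `Q` is a non-degenerate quadratic form on `F^{2d}` whose polar form is that alternating form, and `H` is the subgroup of `T` preserving `Q` up to a scalar (equivalently preserving `Q`) — a subgroup of type O^±_{2d}(q) (maximality is not assumed); `Q` is of plus type when `F^{2d}` contains a `d`-dimensional subspace on which `Q` vanishes, of minus type otherwise. Ω is the set of cosets of `H` in `T`, so an element of `T` of prime order `r` (`x ∈ T` with `x^r` scalar, `x` not scalar) fixes a point of Ω exactly when some `T`-conjugate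 of `x` preserves `Q`. Let `r` be a prime dividing the index of `H`. Then every element of `T` of order `r` fixes a point of Ω if and only if `r = 2` and either `Q` is of plus type or `d` is odd. -/
theorem result {F : Type*} [Field F] [Fintype F] {p : ℕ} [Fact p.Prime] [CharP F p] {q : ℕ} (hq : Fintype.card F = q)
    (hp : p = 2) (d : ℕ) (hd : 2 ≤ d) (hT : (d, q) ≠ (2, 2)) (Q : (Fin d ⊕ Fin d → F) → F) (hQ : Cfsg.Geo.IsNondegenerateQuadraticForm Q)
    (hQf : ∀ u v, QuadraticMap.polar Q u v = Cfsg.sympForm d F u v)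
    (r : ℕ) [Fact r.Prime]
    (hΩ : r ∣ (Cfsg.Geo.quadSimilarityGroup Q).relIndex (Cfsg.spGL d F)) :
    (∀ x ∈ Cfsg.spGL d F, (∃ z : F, ((x ^ r : GL (Fin d ⊕ Fin d) F) : Matrix (Fin d ⊕ Fin d) (Fin d ⊕ Fin d) F) = z • (1 : Matrix (Fin d ⊕ Fin d) (Fin d ⊕ Fin d) F)) →
      (∀ z : F, (x : Matrix (Fin d ⊕ Fin d) (Fin d ⊕ Fin d) F) ≠ z • (1 : Matrix (Fin d ⊕ Fin d) (Fin d ⊕ Fin d) F)) →
      ∃ g ∈ Cfsg.spGL d F, g⁻¹ * x * g ∈ Cfsg.Geo.quadSimilarityGroup Q) ↔
    (r = 2 ∧ (Cfsg.Geo.IsPlusTypeOn Q ⊤ ∨ Odd d)) := by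
  classical
  subst hp
  subst hq
  obtain ⟨k, rfl⟩ : ∃ k, d = k + 1 := ⟨d - 1, by omega⟩
  open CfsgLib.Symplectic.Basic CfsgLib.Symplectic.FormTypes CfsgLib.Orth.Models CfsgLib.QuadClass
    CfsgLib.Geometry.InvolutionOmegaCentralizer in
  exact (by
    obtain ⟨a, ha⟩ := exists_P Q hQ.smul fun u v => by rw [hQf, B_eq]
    obtain rfl : Q = ⇑(P a) := funext ha
    have hfin : Module.finrank F (V (k + 1) F) = 2 * (k + 1) := by
      rw [Module.finrank_fintype_fun_eq_card, Fintype.card_sum, Fintype.card_fin]; omega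
    have hplus : Cfsg.Geo.IsPlusTypeOn (⇑(P a)) ⊤ ↔ plusQ F (k + 1) a ∈ AS F := by
      rw [← plus_iff, has_max_singular_iff k (nondeg_of _ (nondeg_P a)) hfin]
      constructor
      · rintro ⟨U, -, hU, hd⟩; exact ⟨U, hU, Nat.eq_of_mul_eq_mul_left two_pos (hd.trans ((finrank_top F _).trans hfin))⟩
      · rintro ⟨U, hU, hd⟩; exact ⟨U, le_top, hU, by rw [finrank_top, hfin, hd]⟩
    let e := CfsgLib.Symplectic.Simple.toSpGL (m := k + 1) (F := F)
    have hH : ∀ x : Sp (k + 1) F, (e x).1 ∈ Cfsg.Geo.quadSimilarityGroup ⇑(P a) ↔ x ∈ stab a := by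
      intro x
      constructor
      · rintro ⟨c, hc⟩
        have hc' : ∀ y, P a (x.1 *ᵥ y) = (c : F) * P a y := hc
        obtain ⟨v, hv⟩ := exists_B_eq_one (u := (Pi.single (Sum.inl 0) 1 : V (k + 1) F))
          (Pi.single_eq_zero_iff.not.2 one_ne_zero)
        have h2 := B_map x (Pi.single (Sum.inl 0) 1) v
        rw [← polar_P a, ← polar_P a, QuadraticMap.polar, ← Matrix.mulVec_add, hc', hc', hc', ← mul_sub, ← mul_sub] at h2
        rw [show (P a) (Pi.single (Sum.inl 0) 1 + v) - P a (Pi.single (Sum.inl 0) 1) - P a v = 1 from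
          (polar_P a _ _).trans hv] at h2
        have h1 : QuadraticMap.polar (⇑(P a)) (Pi.single (Sum.inl 0) 1) v = 1 := (polar_P a _ _).trans hv
        rw [h1, mul_one] at h2
        exact fun y => by rw [hc', h2, one_mul]
      · intro hx
        exact ⟨1, fun y => by rw [Units.val_one, one_mul]; exact hx y⟩
    have hindex : (Cfsg.Geo.quadSimilarityGroup ⇑(P a)).relIndex (Cfsg.spGL (k + 1) F) = (stab a).index := by
      rw [Subgroup.relIndex, ← Subgroup.index_comap_of_surjective _ (f := e.toMonoidHom) e.surjective]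
      congr 1
      exact Subgroup.ext fun x => hH x
    rw [hindex] at hΩ
    rw [hplus]
    have hpow : ∀ (x : Sp (k + 1) F) (n : ℕ), (((e x).1 ^ n : GL (Fin (k + 1) ⊕ Fin (k + 1)) F) :
        Matrix (Fin (k + 1) ⊕ Fin (k + 1)) (Fin (k + 1) ⊕ Fin (k + 1)) F) = (x ^ n).1 := fun x n => by
      rw [Units.val_pow_eq_pow_val, SubmonoidClass.coe_pow]; rfl
    have red : (∀ x : Sp (k + 1) F, x ^ r = 1 → x ≠ 1 →
        ∃ b : V (k + 1) F, (plusQ F (k + 1) b ∈ AS F ↔ plusQ F (k + 1) a ∈ AS F) ∧ x ∈ stab b) ↔
        (r = 2 ∧ (plusQ F (k + 1) a ∈ AS F ∨ Odd (k + 1))) := by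
      constructor
      · intro h
        have hr2 : r = 2 := by
          by_contra hr2
          have hrq : r ∣ Fintype.card F ^ (k + 1) + 1 ∧ plusQ F (k + 1) a ∈ AS F ∨
              r ∣ Fintype.card F ^ (k + 1) - 1 ∧ plusQ F (k + 1) a ∉ AS F := by
            obtain ⟨n, -, hn⟩ := FiniteField.card F 2
            have hrq : ¬ r ∣ Fintype.card F ^ (k + 1) := fun h => hr2 ((Nat.prime_dvd_prime_iff_eq Fact.out Nat.prime_two).1
              ((Fact.out : r.Prime).dvd_of_dvd_pow (m := 2) (n := n * (k + 1)) (by rwa [hn, ← pow_mul] at h)))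
            have hsq : Fintype.card F ^ (2 * (k + 1)) = Fintype.card F ^ (k + 1) * Fintype.card F ^ (k + 1) := by
              rw [two_mul, pow_add]
            by_cases hA : plusQ F (k + 1) a ∈ AS F
            · refine Or.inl ⟨?_, hA⟩
              have h1 := (card_types a).1 hA
              rw [hsq] at h1
              refine ((Fact.out : r.Prime).dvd_mul.1 ?_).resolve_left hrq
              rw [mul_add, mul_one, ← h1]; exact dvd_mul_of_dvd_right hΩ 2
            · refine Or.inr ⟨?_, hA⟩
              have h1 := (card_types a).2 hA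
              rw [hsq] at h1
              refine ((Fact.out : r.Prime).dvd_mul.1 ?_).resolve_left hrq
              rw [Nat.mul_sub_one, ← Nat.eq_sub_of_add_eq h1]; exact dvd_mul_of_dvd_right hΩ 2
          obtain ⟨b, hb, g, hg, hfree⟩ : ∃ b : V (k + 1) F, ¬ (plusQ F (k + 1) b ∈ AS F ↔ plusQ F (k + 1) a ∈ AS F) ∧
              ∃ g : Cfsg.isometryGroup F ⇑(P b), orderOf g = r ∧ ∀ x, g.1.1 *ᵥ x = x → x = 0 := by
            rcases hrq with ⟨hr, hA⟩ | ⟨hr, hA⟩
            · obtain ⟨c, hc⟩ := CfsgLib.Geometry.InvolutionOmegaCount.exists_not_AS (F := F)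
              let b : V (k + 1) F := Pi.single (Sum.inl 0) 1 + Pi.single (Sum.inr 0) c
              have hbc : plusQ F (k + 1) b = c := by
                simp [b, plusQ_apply, Cfsg.quadFormPlus, Pi.single_apply]
              refine ⟨b, fun h => hc (hbc ▸ h.2 hA), CfsgLib.Geometry.FixedPointFree.exists_minus (m := k) (nondeg_P b)
                (by rw [Fintype.card_sum, Fintype.card_fin]; omega) (fun he => hc (hbc ▸ (plus_iff b).1 he)) hr2 hr⟩
            · have h0 : plusQ F (k + 1) (0 : V (k + 1) F) ∈ AS F := by rw [QuadraticMap.map_zero]; exact zero_mem _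
              exact ⟨0, fun h => hA (h.1 h0), CfsgLib.Geometry.FixedPointFree.exists_plus (m := k) ((plus_iff 0).2 h0)
                (nondeg_P 0) hr⟩
          obtain ⟨x, hx, hxb⟩ := exists_of_iso b g
          have hxr : x ^ r = 1 := by
            refine Subtype.ext ?_
            rw [SubmonoidClass.coe_pow, hx, ← Units.val_pow_eq_pow_val, ← SubmonoidClass.coe_pow, ← hg, pow_orderOf_eq_one]
            rfl
          have hx1 : x ≠ 1 := by
            rintro rfl
            refine (Pi.single_eq_zero_iff.not.2 (one_ne_zero (α := F))) (hfree (Pi.single (Sum.inl 0) 1) ?_)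
            rw [← hx, OneMemClass.coe_one, Matrix.one_mulVec]
          obtain ⟨b', hb', hxb'⟩ := h x hxr hx1
          have hfx := fix_of_two hxb hxb'
          rw [hx] at hfx
          have := hfree _ hfx
          refine hb ?_
          rw [show b = b' from sub_eq_zero.1 (by rw [← this]; funext i; simp [CharTwo.sub_eq_add])]
          exact hb'
        refine ⟨hr2, ?_⟩
        by_contra hcon
        rw [not_or, Nat.not_odd_iff_even] at hcon
        obtain ⟨hA, j, hj⟩ := hcon
        obtain ⟨t, ht, htr, hAlt⟩ := CfsgLib.Geometry.InvolutionModels.plus_a (F := F) (m := k + 1) j (by omega)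
        set x := emb t with hxdef
        have hx1 : x ≠ 1 := by
          intro h1
          have : t = 1 := Subtype.ext (Units.ext (congrArg (fun y : Sp (k + 1) F => y.1) h1))
          rw [this, CfsgLib.Geometry.RankParity.rk_eq_rank,
            show ((1 : Cfsg.isometryGroup F ⇑(plusQ F (k + 1))).1.1 - 1) = 0 from sub_self _, Matrix.rank_zero] at htr
          omega
        have hxr : x ^ r = 1 := by
          rw [hr2, sq]
          exact Subtype.ext (congrArg (fun y : Cfsg.isometryGroup F ⇑(plusQ F (k + 1)) => y.1.1) ht)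
        obtain ⟨b, hb, hxb⟩ := h x hxr hx1
        have h0 : ∀ y, P (0 : V (k + 1) F) y = plusQ F (k + 1) y := fun y => by rw [P_apply]; simp
        have hfix := fix_of_two (a := 0) (b := b) (g := x) (fun y => by rw [h0, h0]; exact iso t y) hxb
        rw [zero_add] at hfix
        have hI := CfsgLib.Geometry.InvolutionTwo.inv_of_sq ht
        have heq : LinearMap.range (CfsgLib.Geometry.DicksonGen.N t) = LinearMap.ker (CfsgLib.Geometry.DicksonGen.N t) := by
          refine Submodule.eq_of_le_of_finrank_eq (fun y hy => LinearMap.mem_ker.2 (hI.kill hy)) ?_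
          have h1 := (CfsgLib.Geometry.DicksonGen.N t).finrank_range_add_finrank_ker
          rw [Module.finrank_fintype_fun_eq_card, Fintype.card_sum, Fintype.card_fin] at h1
          rw [CfsgLib.Geometry.DicksonGen.rk] at htr
          omega
        obtain ⟨y, hy⟩ := heq.ge ((CfsgLib.Geometry.DicksonGen.mem_ker t b).2 hfix)
        exact hA (hb.1 (by rw [← hy, hI.val, hAlt y]; exact zero_mem _))
      · rintro ⟨rfl, hcond⟩ x hxr -
        rw [sq] at hxr
        obtain ⟨Q', hQ', hI⟩ := CfsgLib.Symplectic.InvolutionClasses.exists_inv x hxr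
        obtain ⟨b, hb⟩ := exists_P (⇑Q') (fun c y => by rw [QuadraticMap.map_smul, smul_eq_mul, sq]) hQ'
        have hxb : x ∈ stab b := fun y => by
          have e1 : x.1 *ᵥ y = y + CfsgLib.Symplectic.InvolutionClasses.N x y := by
            rw [CfsgLib.Symplectic.InvolutionClasses.N_apply, add_sub_cancel]
          rw [← hb, ← hb, e1]
          have h3 : Q' (y + CfsgLib.Symplectic.InvolutionClasses.N x y) = Q' y +
              Q' (CfsgLib.Symplectic.InvolutionClasses.N x y) +
              QuadraticMap.polar (⇑Q') y (CfsgLib.Symplectic.InvolutionClasses.N x y) := by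
            rw [QuadraticMap.polar]; ring
          rw [h3, hI.val, add_assoc, CharTwo.add_self_eq_zero, add_zero]
        by_cases hty : plusQ F (k + 1) b ∈ AS F ↔ plusQ F (k + 1) a ∈ AS F
        · exact ⟨b, hty, hxb⟩
        let g : GL (Fin (k + 1) ⊕ Fin (k + 1)) F := (e x).1
        let t : Cfsg.isometryGroup F ⇑(P b) := ⟨g, (CfsgLib.Geometry.QuadBasic.mem_isometryGroup_iff (⇑(P b)) g).2 hxb⟩
        have ht : t * t = 1 := Subtype.ext (Units.ext (congrArg (fun y : Sp (k + 1) F => y.1) hxr))
        obtain ⟨v, hv, hfix⟩ : ∃ v, P b v ≠ 0 ∧ t.1.1 *ᵥ v = v := by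
          refine CfsgLib.Geometry.InvolutionTwo.exists_fixed (nondeg_P b) ht fun ⟨hA, h2, hk⟩ => ?_
          have he := CfsgLib.Geometry.InvolutionTwo.even_of_alt (nondeg_P b) ht hA
          rw [Fintype.card_sum, Fintype.card_fin] at h2
          have hd1 : CfsgLib.Geometry.DicksonGen.rk t = k + 1 := by omega
          rw [hd1] at he
          have hbA : plusQ F (k + 1) b ∈ AS F := by
            rw [← plus_iff, has_max_singular_iff k (nondeg_of _ (nondeg_P b)) hfin]
            refine ⟨_, hk, ?_⟩
            have h1 := (CfsgLib.Geometry.DicksonGen.N t).finrank_range_add_finrank_ker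
            rw [hfin] at h1
            rw [CfsgLib.Geometry.DicksonGen.rk] at hd1
            exact Nat.add_left_cancel (h1.trans ((two_mul _).trans (congrArg (· + (k + 1)) hd1.symm)))
          rcases hcond with hc | hc
          · exact hty (iff_of_true hbA hc)
          · exact Nat.not_even_iff_odd.2 hc he
        obtain ⟨c, hc⟩ := CfsgLib.Geometry.InvolutionOmegaCount.exists_not_AS (F := F)
        haveI : Fact (Nat.Prime 2) := ⟨Nat.prime_two⟩
        obtain ⟨s, hs⟩ : ∃ s : F, s * s * P b v = c := ⟨(frobeniusEquiv F 2).symm (c / P b v), by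
          have := (frobeniusEquiv F 2).apply_symm_apply (c / P b v)
          rw [frobeniusEquiv_def, sq] at this
          rw [this, div_mul_cancel₀ _ hv]⟩
        refine ⟨b + s • v, ?_, fun y => ?_⟩
        · rw [AS_add, show P b (s • v) = c by rw [QuadraticMap.map_smul, smul_eq_mul, hs],
            CfsgLib.Geometry.InvolutionOmegaCount.add_mem_iff hc]
          by_cases h1 : plusQ F (k + 1) b ∈ AS F <;> by_cases h2 : plusQ F (k + 1) a ∈ AS F <;> simp [h1, h2] at hty ⊢
        · have hw : B (s • v) (x.1 *ᵥ y) = B (s • v) y := by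
            conv_lhs => rw [show s • v = x.1 *ᵥ (s • v) by rw [Matrix.mulVec_smul]; exact congrArg _ hfix.symm]
            rw [B_map]
          have key : ∀ z, P (b + s • v) z = P b z + B (s • v) z * B (s • v) z := fun z => by
            rw [P_apply, P_apply, map_add, LinearMap.add_apply]
            linear_combination CharTwo.add_self_eq_zero (B b z * B (s • v) z)
          rw [key, key, hw, hxb]
    rw [← red]
    constructor
    · intro h x hxr hx1
      obtain ⟨g, hg, hgx⟩ := h (e x).1 (e x).2 ⟨1, by rw [hpow, hxr, one_smul]; rfl⟩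
        fun z hz => hx1 (eq_one_of_scalar hz)
      refine (fixes_iff a x).1 ⟨e.symm ⟨g, hg⟩, (hH _).1 ?_⟩
      simpa using hgx
    · intro h x hx ⟨z, hz⟩ hns
      obtain ⟨x, rfl⟩ : ∃ y, (e y).1 = x := ⟨e.symm ⟨x, hx⟩, by simp⟩
      obtain ⟨b, hb⟩ := h x (eq_one_of_scalar (z := z) (by rw [← hpow]; exact hz))
        (fun h1 => hns 1 (by rw [h1, one_smul, map_one]; rfl))
      obtain ⟨g, hg⟩ := (fixes_iff a x).2 ⟨b, hb⟩
      refine ⟨(e g).1, (e g).2, ?_⟩
      have := (hH _).2 hg
      simpa using this)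

end Cfsg.Agent.S5983
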