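import Cfsg.Statements.S5985
import Cfsg.Agent.Lib.Geometry.NonsingularPoints

set_option autoImplicit false
open scoped MatrixGroups
open Cfsg

namespace Cfsg.Agent.S5985

open scoped Matrix

/-- Elements of prime order of Ω⁺_n(q), q even, with no fixed nonsingular 1-space. Here `T = PΩ⁺_n(F)`, `n = 2d ≥ 8`, realised through `Ω⁺_n(q)`, the commutator subgroup of the isometry group of `Q = Σ xᵢyᵢ` over the field `F` with `q` elements; an element of `T` of prime order `r` is an element `x` of `Ω⁺_n(q)` with `x^r` scalar and `x` not scalar; `q` is even (so the centre is trivial). Let Ω be the set of 1-dimensional subspaces spanned by a vector `v` with `Q(v) ≠ 0`, and let `r` be a prime dividing their number. Then every element of `T` of order `r` fixes some nonsingular 1-space if and only if `r = 2` and `n ≡ 2 (mod 4)` (that is, `d` is odd). -/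
theorem result {F : Type*} [Field F] [Fintype F] {p : ℕ} [Fact p.Prime] [CharP F p] {q : ℕ} (hq : Fintype.card F = q)
    (hp : p = 2) (d : ℕ) (hd : 4 ≤ d) (r : ℕ) [Fact r.Prime]
    (hrΩ : r ∣ Nat.card {W : Submodule F (Fin d ⊕ Fin d → F) // Module.finrank F ↥W = 1 ∧ ∃ v ∈ W, Cfsg.quadFormPlus d F v ≠ 0}) :
    (∀ x : GL (Fin d ⊕ Fin d) F, x ∈ Cfsg.Geo.omegaGL (Cfsg.quadFormPlus d F) →
      (∃ z : F, ((x ^ r : GL (Fin d ⊕ Fin d) F) : Matrix (Fin d ⊕ Fin d) (Fin d ⊕ Fin d) F) = z • (1 : Matrix (Fin d ⊕ Fin d) (Fin d ⊕ Fin d) F)) →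
      (∀ z : F, (x : Matrix (Fin d ⊕ Fin d) (Fin d ⊕ Fin d) F) ≠ z • (1 : Matrix (Fin d ⊕ Fin d) (Fin d ⊕ Fin d) F)) →
      ∃ W : Submodule F (Fin d ⊕ Fin d → F), (Module.finrank F ↥W = 1 ∧ ∃ v ∈ W, Cfsg.quadFormPlus d F v ≠ 0) ∧ W.map (Matrix.toLin' (x : Matrix (Fin d ⊕ Fin d) (Fin d ⊕ Fin d) F)) ≤ W) ↔ (r = 2 ∧ Odd d) := by
  classical
  subst hp
  subst hq
  revert hrΩ
  rw [show Cfsg.quadFormPlus d F = ⇑(CfsgLib.Orth.Models.plusQ F d) from
    funext fun v => (CfsgLib.Orth.Models.plusQ_apply d v).symm]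
  intro hrΩ
  obtain ⟨m, rfl⟩ : ∃ m, d = m + 1 := ⟨d - 1, by omega⟩
  have hQ := CfsgLib.Geometry.InvolutionModels.nondeg_plus' (F := F) (m + 1)
  haveI : Nonempty (Fin (m + 1) ⊕ Fin (m + 1)) := ⟨Sum.inl 0⟩
  have hgen := CfsgLib.Geometry.DicksonGen.closure_eq_top hQ (Or.inr (by simp; omega))
  rw [CfsgLib.Geometry.NonsingularPoints.criterion (CfsgLib.Geometry.OmegaIndex.exists_aniso hQ)]
  constructor
  · intro h
    have hr2 : r = 2 := by
      by_contra hr2
      obtain ⟨g, hg, hfree⟩ := CfsgLib.Geometry.FixedPointFree.exists_plus (r := r)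
        (Q := CfsgLib.Orth.Models.plusQ F (m + 1)) ⟨LinearEquiv.refl _ _, fun _ => rfl⟩ hQ
        (CfsgLib.Geometry.NonsingularPoints.dvd_plus hr2 hrΩ)
      obtain ⟨v, hv, hfix⟩ := h g (CfsgLib.Geometry.NonsingularPoints.mem_omega_of_odd hQ hgen
        (hg ▸ (Fact.out : r.Prime).odd_of_ne_two hr2)) hg
      exact hv (by rw [hfree v hfix, QuadraticMap.map_zero])
    refine ⟨hr2, ?_⟩
    by_contra hd'
    obtain ⟨k, hk⟩ := Nat.not_odd_iff_even.1 hd'
    obtain ⟨t, ht, htr, hA⟩ := CfsgLib.Geometry.InvolutionModels.plus_a (F := F) (m := m + 1) k (by omega)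
    obtain ⟨v, hv, hfix⟩ := h t ((CfsgLib.Geometry.RankParity.mem_omega_iff_rank hQ (Or.inr (by simp; omega)) t).2
        (by rw [← CfsgLib.Geometry.RankParity.rk_eq_rank, htr]; exact even_two_mul k))
      (hr2 ▸ (CfsgLib.Geometry.InvolutionCount.order_two_iff t).2 ⟨ht, by omega⟩)
    have hI := CfsgLib.Geometry.InvolutionTwo.inv_of_sq ht
    have heq : LinearMap.range (CfsgLib.Geometry.DicksonGen.N t) = LinearMap.ker (CfsgLib.Geometry.DicksonGen.N t) := by
      refine Submodule.eq_of_le_of_finrank_eq (fun a ha => LinearMap.mem_ker.2 (hI.kill ha)) ?_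
      have h1 := (CfsgLib.Geometry.DicksonGen.N t).finrank_range_add_finrank_ker
      rw [Module.finrank_fintype_fun_eq_card, Fintype.card_sum, Fintype.card_fin] at h1
      rw [CfsgLib.Geometry.DicksonGen.rk] at htr
      omega
    obtain ⟨y, hy⟩ := heq.ge ((CfsgLib.Geometry.DicksonGen.mem_ker t v).2 hfix)
    apply hv
    rw [← hy, hI.val]
    exact hA y
  · rintro ⟨rfl, hodd⟩ g - hg
    have h1 := ((CfsgLib.Geometry.InvolutionCount.order_two_iff g).1 hg).1
    refine CfsgLib.Geometry.InvolutionTwo.exists_fixed hQ h1 fun ⟨hA, h2, _⟩ => ?_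
    have he := CfsgLib.Geometry.InvolutionTwo.even_of_alt hQ h1 hA
    rw [Fintype.card_sum, Fintype.card_fin] at h2
    rw [show CfsgLib.Geometry.DicksonGen.rk g = m + 1 by omega] at he
    exact Nat.not_even_iff_odd.2 hodd he

end Cfsg.Agent.S5985
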