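import Cfsg.Statements.S5986
import Cfsg.Agent.Lib.Geometry.NonsingularPoints

set_option autoImplicit false
open scoped MatrixGroups
open Cfsg

namespace Cfsg.Agent.S5986

open scoped Matrix

/-- Elements of prime order of Ω⁻_n(q), q even, with no fixed nonsingular 1-space. Here `T = PΩ⁻_n(F)`, `n = 2d ≥ 8`, realised through `Ω⁻_n(q)`, the commutator subgroup of the isometry group of `Q = Σ_{i<d−1} xᵢyᵢ + z₁² + a z₁z₂ + b z₂²` with `z₁² + a z₁z₂ + b z₂²` anisotropic, over the field `F` with `q` elements; an element of `T` of prime order `r` is an element `x` of `Ω⁻_n(q)` with `x^r` scalar and `x` not scalar; `q` is even (so the centre is trivial). Let Ω be the set of 1-dimensional subspaces spanned by a vector `v` with `Q(v) ≠ 0`, and let `r` be a prime dividing their number. Then every element of `T` of order `r` fixes some nonsingular 1-space if and only if `r = 2`. -/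
theorem result {F : Type*} [Field F] [Fintype F] {p : ℕ} [Fact p.Prime] [CharP F p] {q : ℕ} (hq : Fintype.card F = q)
    (hp : p = 2) (d : ℕ) (hd : 4 ≤ d) (a b : F) (hab : ∀ x y : F, x ^ 2 + a * x * y + b * y ^ 2 = 0 → x = 0 ∧ y = 0) (r : ℕ) [Fact r.Prime]
    (hrΩ : r ∣ Nat.card {W : Submodule F ((Fin (d - 1) ⊕ Fin (d - 1)) ⊕ Fin 2 → F) // Module.finrank F ↥W = 1 ∧ ∃ v ∈ W, Cfsg.quadFormMinus (d - 1) F a b v ≠ 0}) :
    (∀ x : GL ((Fin (d - 1) ⊕ Fin (d - 1)) ⊕ Fin 2) F, x ∈ Cfsg.Geo.omegaGL (Cfsg.quadFormMinus (d - 1) F a b) →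
      (∃ z : F, ((x ^ r : GL ((Fin (d - 1) ⊕ Fin (d - 1)) ⊕ Fin 2) F) : Matrix ((Fin (d - 1) ⊕ Fin (d - 1)) ⊕ Fin 2) ((Fin (d - 1) ⊕ Fin (d - 1)) ⊕ Fin 2) F) = z • (1 : Matrix ((Fin (d - 1) ⊕ Fin (d - 1)) ⊕ Fin 2) ((Fin (d - 1) ⊕ Fin (d - 1)) ⊕ Fin 2) F)) →
      (∀ z : F, (x : Matrix ((Fin (d - 1) ⊕ Fin (d - 1)) ⊕ Fin 2) ((Fin (d - 1) ⊕ Fin (d - 1)) ⊕ Fin 2) F) ≠ z • (1 : Matrix ((Fin (d - 1) ⊕ Fin (d - 1)) ⊕ Fin 2) ((Fin (d - 1) ⊕ Fin (d - 1)) ⊕ Fin 2) F)) →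
      ∃ W : Submodule F ((Fin (d - 1) ⊕ Fin (d - 1)) ⊕ Fin 2 → F), (Module.finrank F ↥W = 1 ∧ ∃ v ∈ W, Cfsg.quadFormMinus (d - 1) F a b v ≠ 0) ∧ W.map (Matrix.toLin' (x : Matrix ((Fin (d - 1) ⊕ Fin (d - 1)) ⊕ Fin 2) ((Fin (d - 1) ⊕ Fin (d - 1)) ⊕ Fin 2) F)) ≤ W) ↔ r = 2 := by
  classical
  subst hp
  subst hq
  revert hrΩ
  rw [show Cfsg.quadFormMinus (d - 1) F a b = ⇑(CfsgLib.Orth.Models.minusQ (d - 1) a b) from
    funext fun v => (CfsgLib.Orth.Models.minusQ_apply (d - 1) a b v).symm]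
  intro hrΩ
  obtain ⟨m, rfl⟩ : ∃ m, d = m + 1 := ⟨d - 1, by omega⟩
  change r ∣ Nat.card {W : Submodule F ((Fin m ⊕ Fin m) ⊕ Fin 2 → F) // _} at hrΩ
  show _ ↔ _
  have hQ := CfsgLib.Geometry.InvolutionModels.nondeg_minus' (F := F) m hab
  haveI : Nonempty ((Fin m ⊕ Fin m) ⊕ Fin 2) := ⟨Sum.inr 0⟩
  have hgen := CfsgLib.Geometry.DicksonGen.closure_eq_top hQ (Or.inr (by simp; omega))
  refine (CfsgLib.Geometry.NonsingularPoints.criterion (Q := CfsgLib.Orth.Models.minusQ m a b)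
    (CfsgLib.Geometry.OmegaIndex.exists_aniso hQ)).trans ?_
  constructor
  · intro h
    by_contra hr2
    obtain ⟨g, hg, hfree⟩ := CfsgLib.Geometry.FixedPointFree.exists_minus (r := r) (m := m) hQ
      (by simp; omega) (fun he => by
        obtain ⟨U, hU, hd⟩ := (CfsgLib.QuadClass.has_max_singular_iff m (CfsgLib.Orth.Models.nondeg_minus m hab)
          (by rw [Module.finrank_fintype_fun_eq_card]; simp; omega)).1 he
        have := CfsgLib.QuadClass.minus_singular_le hab U hU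
        omega) hr2
      (CfsgLib.Geometry.NonsingularPoints.dvd_minus hab hr2 hrΩ)
    obtain ⟨v, hv, hfix⟩ := h g (CfsgLib.Geometry.NonsingularPoints.mem_omega_of_odd hQ hgen
      (hg ▸ (Fact.out : r.Prime).odd_of_ne_two hr2)) hg
    exact hv (by rw [hfree v hfix, QuadraticMap.map_zero])
  · rintro rfl g - hg
    exact CfsgLib.Geometry.InvolutionTwo.exists_fixed hQ ((CfsgLib.Geometry.InvolutionCount.order_two_iff g).1 hg).1
      fun h => CfsgLib.Geometry.InvolutionModels.minus_ker hab g h.2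

end Cfsg.Agent.S5986
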