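import Cfsg.Statements.S5997
import Mathlib
import Cfsg.Agent.Lib.SL2.MaxOdd
import Cfsg.Agent.Lib.Linear.Card

set_option autoImplicit false
open scoped MatrixGroups
open Cfsg

namespace Cfsg.Agent.S5997

open CfsgLib.SL2Dickson CfsgLib.SL2Torus
open CfsgLib.PSL2Klein (π π_surj π_eq π_eq_one)

variable {F : Type*} [Field F] [Fintype F]

theorem commutant {A M N : Matrix (Fin 2) (Fin 2) F} (hA : ∀ z : F, A ≠ z • 1) (hM : A * M = M * A) (hN : A * N = N * A) :
    M * N = N * M := by
  have hne : ¬ (A 0 1 = 0 ∧ A 1 0 = 0 ∧ A 0 0 - A 1 1 = 0) := fun ⟨h1, h2, h3⟩ => hA (A 0 0) (by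
    ext i j; fin_cases i <;> fin_cases j <;> simp [h1, h2, (sub_eq_zero.1 h3).symm])
  have rel : ∀ X : Matrix (Fin 2) (Fin 2) F, A * X = X * A → A 0 1 * X 1 0 = A 1 0 * X 0 1 ∧
      A 0 1 * (X 0 0 - X 1 1) = (A 0 0 - A 1 1) * X 0 1 ∧ A 1 0 * (X 0 0 - X 1 1) = (A 0 0 - A 1 1) * X 1 0 := by
    intro X hX
    have e00 := congrFun (congrFun hX 0) 0
    have e01 := congrFun (congrFun hX 0) 1
    have e10 := congrFun (congrFun hX 1) 0
    simp [Matrix.mul_apply, Fin.sum_univ_two] at e00 e01 e10
    exact ⟨by linear_combination e00, by linear_combination -e01, by linear_combination e10⟩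
  obtain ⟨p1, p2, p3⟩ := rel M hM
  obtain ⟨q1, q2, q3⟩ := rel N hN
  have hz : M 0 1 * N 1 0 - N 0 1 * M 1 0 = 0 ∧ M 0 1 * (N 0 0 - N 1 1) - N 0 1 * (M 0 0 - M 1 1) = 0 ∧
      M 1 0 * (N 0 0 - N 1 1) - N 1 0 * (M 0 0 - M 1 1) = 0 := by
    by_cases hb : A 0 1 = 0
    · by_cases hc : A 1 0 = 0
      · have hd : A 0 0 - A 1 1 ≠ 0 := fun h => hne ⟨hb, hc, h⟩
        refine ⟨mul_left_cancel₀ hd ?_, mul_left_cancel₀ hd ?_, mul_left_cancel₀ hd ?_⟩ <;> rw [mul_zero]
        · linear_combination (-(M 0 1)) * q3 + (M 1 0) * q2 + (M 0 1 * (N 0 0 - N 1 1)) * hc - (M 1 0 * (N 0 0 - N 1 1)) * hb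
        · linear_combination (M 0 0 - M 1 1) * q2 - (N 0 0 - N 1 1) * p2
        · linear_combination (M 0 0 - M 1 1) * q3 - (N 0 0 - N 1 1) * p3
      · have w1 : M 0 1 * N 1 0 - N 0 1 * M 1 0 = 0 := mul_left_cancel₀ hc (by
          rw [mul_zero]; linear_combination M 1 0 * q1 - N 1 0 * p1)
        refine ⟨w1, mul_left_cancel₀ hc ?_, mul_left_cancel₀ hc ?_⟩ <;> rw [mul_zero]
        · linear_combination M 0 1 * q3 - N 0 1 * p3 + (A 0 0 - A 1 1) * w1
        · linear_combination M 1 0 * q3 - N 1 0 * p3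
    · have w1 : M 0 1 * N 1 0 - N 0 1 * M 1 0 = 0 := mul_left_cancel₀ hb (by
        rw [mul_zero]; linear_combination M 0 1 * q1 - N 0 1 * p1)
      refine ⟨w1, mul_left_cancel₀ hb ?_, mul_left_cancel₀ hb ?_⟩ <;> rw [mul_zero]
      · linear_combination M 0 1 * q2 - N 0 1 * p2
      · linear_combination M 1 0 * q2 - N 1 0 * p2 - (A 0 0 - A 1 1) * w1
  obtain ⟨z1, z2, z3⟩ := hz
  ext i j
  fin_cases i <;> fin_cases j <;> simp [Matrix.mul_apply, Fin.sum_univ_two]
  · linear_combination z1
  · linear_combination -z2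
  · linear_combination z3
  · linear_combination -z1

theorem q8_facts : (∀ q : QuaternionGroup 2, (∀ r, q * r = r * q) → q * q = 1) ∧
    (∀ q : QuaternionGroup 2, q * q = 1 → q = 1 ∨ q = QuaternionGroup.a 2) ∧
    (∀ q : QuaternionGroup 2, q * q = 1 ∨ q * q = QuaternionGroup.a 2) ∧
    (∃ q r : QuaternionGroup 2, q * r ≠ r * q) ∧ (∀ r : QuaternionGroup 2, QuaternionGroup.a 2 * r = r * QuaternionGroup.a 2) ∧
    (QuaternionGroup.a 2 : QuaternionGroup 2) ≠ 1 ∧
    (QuaternionGroup.a 2 : QuaternionGroup 2) * QuaternionGroup.a 2 = 1 := by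
  decide +kernel

theorem scalar_commutes {z : F} {x : GL (Fin 2) F} (hx : x.1 = z • 1) (y : GL (Fin 2) F) : x * y = y * x := by
  apply Units.ext
  rw [Units.val_mul, Units.val_mul, hx, Matrix.smul_mul, Matrix.mul_smul, one_mul, mul_one]

theorem quaternion_det (hodd : Fintype.card F % 2 = 1) {R : Subgroup (GL (Fin 2) F)} (e : R ≃* QuaternionGroup 2) :
    R ≤ (Matrix.GeneralLinearGroup.det : GL (Fin 2) F →* Fˣ).ker ∧
      Matrix.SpecialLinearGroup.toGL (-1 : Matrix.SpecialLinearGroup (Fin 2) F) ∈ R := by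
  obtain ⟨f1, f2, f3, ⟨q, r, hqr⟩, f5, f6, f7⟩ := q8_facts
  have h2 := two_ne_of_odd hodd
  set z : R := e.symm (QuaternionGroup.a 2) with hz
  have hzz : z.1.1 * z.1.1 = 1 := by
    have h : z * z = 1 := by rw [hz, ← map_mul, f7, map_one]
    exact congrArg (fun w : R => w.1.1) h
  have hzc : ∀ w : R, z.1.1 * w.1.1 = w.1.1 * z.1.1 := fun w => by
    have := congrArg (fun v => ((e.symm v : R) : GL (Fin 2) F).1) (f5 (e w))
    simpa using this
  have hzs : ∃ c : F, z.1.1 = c • 1 := by
    by_contra hno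
    push Not at hno
    apply hqr
    apply e.symm.injective
    rw [map_mul, map_mul]
    exact Subtype.ext (Units.ext (commutant hno (hzc _) (hzc _)))
  obtain ⟨c, hc⟩ := hzs
  have hcm : c = -1 := by
    have h1 : c * c = 1 := by
      have := congrFun (congrFun hzz 0) 0
      rw [hc] at this
      simpa using this
    refine (mul_self_eq_one_iff.1 h1).resolve_left fun e1 => f6 ?_
    rw [← e.apply_symm_apply (QuaternionGroup.a 2)]
    rw [show e.symm (QuaternionGroup.a 2) = 1 from Subtype.ext (Units.ext (by rw [← hz, hc, e1, one_smul]; rfl)), map_one]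
  have hz1 : z.1.1 = -1 := by rw [hc, hcm, neg_one_smul]
  refine ⟨fun x hx => ?_, ?_⟩
  · rw [MonoidHom.mem_ker]
    apply Units.ext
    show x.1.det = 1
    rcases f3 (e ⟨x, hx⟩) with h | h
    · rcases f2 _ h with h' | h'
      · rw [show x = 1 from congrArg Subtype.val (e.injective (h'.trans (map_one e).symm))]
        simp
      · rw [show x = z.1 from congrArg Subtype.val (e.injective (h'.trans (e.apply_symm_apply _).symm)), hz1]
        simp [Matrix.det_fin_two]
    · have hsq : x.1 * x.1 = -1 := by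
        rw [← map_mul] at h
        have := congrArg (fun w : R => w.1.1) (e.injective (h.trans (e.apply_symm_apply _).symm))
        simpa [← hz, hz1] using this
      have hns : ∀ w : F, x.1 ≠ w • 1 := by
        intro w hw
        have hcen : ∀ v, e ⟨x, hx⟩ * v = v * e ⟨x, hx⟩ := fun v => by
          rw [← e.apply_symm_apply v, ← map_mul, ← map_mul]
          exact congrArg e (Subtype.ext (scalar_commutes hw _))
        rw [f1 _ hcen] at h
        exact f6 h.symm
      have e00 := congrFun (congrFun hsq 0) 0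
      have e01 := congrFun (congrFun hsq 0) 1
      have e10 := congrFun (congrFun hsq 1) 0
      have e11 := congrFun (congrFun hsq 1) 1
      simp [Matrix.mul_apply, Fin.sum_univ_two] at e00 e01 e10 e11
      rw [Matrix.det_fin_two]
      have ht : x.1 0 0 + x.1 1 1 = 0 := by
        by_contra ht
        have hb : x.1 0 1 = 0 := (mul_eq_zero.1 (show x.1 0 1 * (x.1 0 0 + x.1 1 1) = 0 by linear_combination e01)).resolve_right ht
        have hc' : x.1 1 0 = 0 := (mul_eq_zero.1 (show x.1 1 0 * (x.1 0 0 + x.1 1 1) = 0 by linear_combination e10)).resolve_right ht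
        have hd : x.1 0 0 - x.1 1 1 = 0 :=
          (mul_eq_zero.1 (show (x.1 0 0 - x.1 1 1) * (x.1 0 0 + x.1 1 1) = 0 by linear_combination e00 - e11)).resolve_right ht
        exact hns (x.1 0 0) (by ext i j; fin_cases i <;> fin_cases j <;> simp [hb, hc', (sub_eq_zero.1 hd).symm])
      linear_combination x.1 0 0 * ht - e00
  · rw [show Matrix.SpecialLinearGroup.toGL (-1 : Matrix.SpecialLinearGroup (Fin 2) F) = z.1 from
      Units.ext (by rw [hz1]; simp)]
    exact z.2

theorem scalar_iff (g : Matrix.SpecialLinearGroup (Fin 2) F) :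
    (∃ z : F, (Matrix.SpecialLinearGroup.toGL g : GL (Fin 2) F).1 = z • 1) ↔ π g = 1 := by
  rw [π_eq_one]
  constructor
  · rintro ⟨z, hz⟩
    by_contra h
    push Not at h
    exact ne_scalar' h.1 h.2 ⟨z, hz⟩
  · rintro (rfl | rfl)
    · exact ⟨1, by simp⟩
    · exact ⟨-1, by simp⟩

/-- Elements of prime order of PSL_2(p) and the normalizer of a quaternion subgroup. Here `T = PSL_2(F)` for the field `F` with `p` elements, `p ≥ 5` prime; `R` is a subgroup of GL_2(F) isomorphic to the quaternion group of order 8 (an absolutely irreducible 2-group of symplectic type), and `H` is the subgroup of matrices of determinant 1 normalizing `R` — a subgroup of type 2^{1+2}.O₂⁻(2), isomorphic modulo scalars to A₄ or S₄ (maximality is not assumed). Ω is the set of cosets of `H` in `T`, so an element of `T` of prime order `r` (a matrix `x` of determinant 1 with `x^r` scalar, `x` not scalar) fixes a point of Ω exactly when some conjugate of `x` by a matrix of determinant 1 normalizes `R`. Let `r` be a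 prime dividing the index of `H`. Then every element of `T` of order `r` fixes a point of Ω if and only if `r = 2` or `r = 3`. -/
theorem result {F : Type*} [Field F] [Fintype F] {p : ℕ} [Fact p.Prime] [CharP F p] (hF : Fintype.card F = p) (hp : 5 ≤ p)
    (R : Subgroup (GL (Fin 2) F)) (hR : Nonempty (↥R ≃* QuaternionGroup 2))
    (r : ℕ) [Fact r.Prime]
    (hΩ : r ∣ (Cfsg.Geo.subgroupNormalizer R).relIndex (Cfsg.Geo.specialLinear (Fin 2) F)) :
    (∀ x ∈ Cfsg.Geo.specialLinear (Fin 2) F, (∃ z : F, ((x ^ r : GL (Fin 2) F) : Matrix (Fin 2) (Fin 2) F) = z • (1 : Matrix (Fin 2) (Fin 2) F)) →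
      (∀ z : F, (x : Matrix (Fin 2) (Fin 2) F) ≠ z • (1 : Matrix (Fin 2) (Fin 2) F)) →
      ∃ g ∈ Cfsg.Geo.specialLinear (Fin 2) F, g⁻¹ * x * g ∈ Cfsg.Geo.subgroupNormalizer R) ↔ (r = 2 ∨ r = 3) := by
  classical
  obtain ⟨e⟩ := hR
  have hp2 : p % 2 = 1 := (Fact.out : p.Prime).eq_two_or_odd.resolve_left (by omega)
  have hodd : Fintype.card F % 2 = 1 := by rw [hF, hp2]
  obtain ⟨hRdet, hneg⟩ := quaternion_det hodd e
  set ι : Matrix.SpecialLinearGroup (Fin 2) F →* GL (Fin 2) F := Matrix.SpecialLinearGroup.toGL with hι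
  have hιi : Function.Injective ι := CfsgLib.Linear.Card.toGL_injective
  have hker : (Matrix.GeneralLinearGroup.det : GL (Fin 2) F →* Fˣ).ker = ι.range := CfsgLib.Linear.Card.det_ker_eq
  set R' := R.comap ι with hR'
  have hR'R : R'.map ι = R := Subgroup.map_comap_eq_self (hker ▸ hRdet)
  have hn1 : (-1 : Matrix.SpecialLinearGroup (Fin 2) F) ∈ R' := hneg
  have hsig : ∀ g : Matrix.SpecialLinearGroup (Fin 2) F, π g ∈ R'.map π → g ∈ R' := by
    rintro g ⟨g', hg', e⟩
    rcases (π_eq _ _).1 e with h | h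
    · exact h ▸ hg'
    · rw [show g = g' * -1 by rw [h, mul_neg_one, neg_neg]]; exact mul_mem hg' hn1
  set V := R'.map π with hV
  have hV4 : IsKleinFour V := by
    have hc8 : Nat.card R' = 8 := by
      rw [← Subgroup.card_map_of_injective hιi (K := R'), hR'R, Nat.card_congr e.toEquiv, Nat.card_eq_fintype_card, QuaternionGroup.card]
    have hkerR : Nat.card ((π (F := F)).subgroupMap R').ker = 2 := by
      have hne : (-1 : Matrix.SpecialLinearGroup (Fin 2) F) ≠ 1 := fun e => by
        have := congrArg (fun g : Matrix.SpecialLinearGroup (Fin 2) F => g.1 0 0) e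
        simp at this
        exact two_ne_of_odd hodd (by linear_combination -this)
      refine Nat.card_eq_two_iff.2 ⟨1, ⟨⟨-1, hn1⟩, Subtype.ext ((π_eq_one _).2 (Or.inr rfl))⟩,
        fun e => hne (congrArg (fun w : ((π (F := F)).subgroupMap R').ker => w.1.1) e).symm, ?_⟩
      refine Set.eq_univ_of_forall fun x => ?_
      rcases (π_eq_one _).1 (congrArg Subtype.val x.2) with h | h
      · exact Or.inl (Subtype.ext (Subtype.ext h))
      · exact Or.inr (Subtype.ext (Subtype.ext h))
    have h := Subgroup.card_mul_index ((π (F := F)).subgroupMap R').ker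
    rw [Subgroup.index_ker, MonoidHom.range_eq_top.2 ((π (F := F)).subgroupMap_surjective R'), Subgroup.card_top,
      hkerR, hc8] at h
    have h4 : Nat.card V = 4 := by
      show Nat.card (R'.map π) = 4
      omega
    refine klein_mk h4 ?_
    rintro _ ⟨g, hg, rfl⟩
    rw [← map_mul, π_eq_one]
    obtain ⟨-, -, f3, -⟩ := q8_facts
    rcases f3 (e ⟨ι g, hg⟩) with h1 | h1
    · left
      rw [← map_mul, map_eq_one_iff _ e.injective] at h1
      exact hιi (by simpa using congrArg Subtype.val h1)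
    · by_cases hgg : g * g = 1
      · exact Or.inl hgg
      · right
        have hzz : (g * g) * (g * g) = 1 := by
          apply hιi
          have h2 := congrArg (fun w => w * w) h1
          rw [(q8_facts).2.2.2.2.2.2, ← map_mul, ← map_mul, map_eq_one_iff _ e.injective] at h2
          simpa using congrArg Subtype.val h2
        by_contra hn
        exact ne_scalar' hgg hn (by
          have h3 := sq_eq (g * g)
          rw [← Matrix.SpecialLinearGroup.coe_mul, hzz, Matrix.SpecialLinearGroup.coe_one] at h3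
          have ht : tr (g * g) • ((g * g : Matrix.SpecialLinearGroup (Fin 2) F) : Matrix (Fin 2) (Fin 2) F) = (2 : F) • 1 := by
            rw [two_smul, eq_sub_iff_add_eq.1 h3]
          have ht0 : tr (g * g) ≠ 0 := fun e => two_ne_of_odd hodd (by simpa [e] using (congrFun (congrFun ht 0) 0).symm)
          refine ⟨2 / tr (g * g), ?_⟩
          rw [div_eq_inv_mul, ← smul_smul, ← ht, smul_smul, inv_mul_cancel₀ ht0, one_smul])
  haveI : Finite (GL (Fin 2) F) := inferInstance
  have hmem : ∀ g : Matrix.SpecialLinearGroup (Fin 2) F,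
      ι g ∈ Cfsg.Geo.subgroupNormalizer R ↔ π g ∈ Subgroup.normalizer (V : Set (Matrix.ProjectiveSpecialLinearGroup (Fin 2) F)) := by
    intro g
    constructor
    · intro h
      refine mem_normalizer_of_conj ?_
      rintro _ ⟨v, hv, rfl⟩
      refine ⟨g * v * g⁻¹, ?_, by rw [map_mul, map_mul, map_inv]⟩
      show ι (g * v * g⁻¹) ∈ R
      rw [map_mul, map_mul, map_inv]
      exact (Subgroup.mem_normalizer_iff.1 h _).1 hv
    · intro h
      refine mem_normalizer_of_conj ?_
      rw [← hR'R]
      rintro _ ⟨v, hv, rfl⟩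
      refine ⟨g * v * g⁻¹, hsig _ ?_, by rw [map_mul, map_mul, map_inv]⟩
      rw [map_mul, map_mul, map_inv]
      exact (Subgroup.mem_normalizer_iff.1 h _).1 ⟨v, hv, rfl⟩
  have hNcomap : (Cfsg.Geo.subgroupNormalizer R).comap ι =
      (Subgroup.normalizer (V : Set (Matrix.ProjectiveSpecialLinearGroup (Fin 2) F))).comap π :=
    Subgroup.ext fun g => hmem g
  have hidx : r ∣ (Subgroup.normalizer (V : Set (Matrix.ProjectiveSpecialLinearGroup (Fin 2) F))).index := by
    rw [← Subgroup.index_comap_of_surjective _ π_surj, ← hNcomap, Subgroup.index_comap, ← hker]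
    exact hΩ
  have hXc := klein_card hodd hV4
  set N := Subgroup.normalizer (V : Set (Matrix.ProjectiveSpecialLinearGroup (Fin 2) F))
  have hr : r.Prime := Fact.out
  have hrG : r ∣ Nat.card (Matrix.ProjectiveSpecialLinearGroup (Fin 2) F) :=
    hidx.trans (Subgroup.index_dvd_card N)
  constructor
  · intro h
    by_contra hno
    push Not at hno
    have h5 : 5 ≤ r := by
      have := hr.two_le
      by_contra hlt
      rw [show r = 4 by omega] at hr
      norm_num at hr
    obtain ⟨x, hx⟩ := exists_prime_orderOf_dvd_card' r hrG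
    obtain ⟨g, rfl⟩ := π_surj x
    obtain ⟨k, hk, hkN⟩ := h (ι g) (show ι g ∈ (Matrix.GeneralLinearGroup.det : GL (Fin 2) F →* Fˣ).ker from hker ▸ ⟨g, rfl⟩)
      (by rw [← map_pow]; exact (scalar_iff (g ^ r)).2 (by rw [map_pow, ← hx]; exact pow_orderOf_eq_one _))
      (fun z hz => by rw [(scalar_iff g).1 ⟨z, hz⟩, orderOf_one] at hx; omega)
    obtain ⟨k', rfl⟩ : k ∈ ι.range := hker ▸ hk
    rw [← map_inv, ← map_mul, ← map_mul, hmem] at hkN
    have hd := Subgroup.orderOf_dvd_natCard _ hkN
    rw [map_mul, map_mul, map_inv] at hd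
    rw [show (π k')⁻¹ * π g * π k' = MulAut.conj (π k')⁻¹ (π g) by simp, MulEquiv.orderOf_eq, hx] at hd
    rcases hXc with ⟨-, e'⟩ | ⟨-, e'⟩ <;> rw [e'] at hd
    · have := Nat.le_of_dvd (by norm_num) hd
      interval_cases r <;> first | omega | (norm_num at hr)
    · have := Nat.le_of_dvd (by norm_num) hd
      interval_cases r <;> first | omega | (norm_num at hr)
  · intro h23 x hx hxr hxn
    obtain ⟨g, rfl⟩ : x ∈ ι.range := hker ▸ hx
    suffices key : ∃ y : Matrix.ProjectiveSpecialLinearGroup (Fin 2) F, y⁻¹ * π g * y ∈ N by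
      obtain ⟨y, hy⟩ := key
      obtain ⟨k, rfl⟩ := π_surj y
      refine ⟨ι k, show ι k ∈ (Matrix.GeneralLinearGroup.det : GL (Fin 2) F →* Fˣ).ker from hker ▸ ⟨k, rfl⟩, ?_⟩
      rw [← map_inv, ← map_mul, ← map_mul, hmem, map_mul, map_mul, map_inv]
      exact hy
    have hg1 : π g ≠ 1 := fun e => by obtain ⟨z, hz⟩ := (scalar_iff g).2 e; exact hxn z hz
    have hgr : π g ^ r = 1 := by rw [← map_pow, ← scalar_iff, map_pow]; exact hxr
    have hgo : orderOf (π g) = r := orderOf_eq_prime hgr hg1
    have hrN : r ∣ Nat.card N := by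
      rcases h23 with rfl | rfl <;> rcases hXc with ⟨-, e'⟩ | ⟨-, e'⟩ <;> rw [e'] <;> norm_num
    obtain ⟨⟨y, hyN⟩, hy⟩ := exists_prime_orderOf_dvd_card' r hrN
    rw [Subgroup.orderOf_mk] at hy
    rcases h23 with rfl | rfl
    · obtain ⟨c, hc⟩ := isConj_iff.1 (CfsgLib.PSL2Two.isConj_involutions hodd (π g) y hgo hy)
      exact ⟨c⁻¹, by rw [inv_inv, hc]; exact hyN⟩
    · have h3p : ringChar F ≠ 3 := by rw [ringChar.eq F p]; omega
      have hsemi : ∀ v : Matrix.ProjectiveSpecialLinearGroup (Fin 2) F, orderOf v = 3 → IsSemi v := by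
        intro v hv
        by_contra hns
        have hv1 : v ≠ 1 := fun e => by rw [e, orderOf_one] at hv; omega
        obtain ⟨w, hw⟩ := exists_conj_mem_U hv1 hns
        haveI := ringChar.charP F
        obtain ⟨b, hb⟩ := hw
        have hpow : v ^ ringChar F = 1 := by
          rw [show v = w * up b * w⁻¹ by rw [hb]; group, conj_pow, up]
          obtain ⟨n, hpp, -⟩ := FiniteField.card F (ringChar F)
          haveI := Fact.mk hpp
          rw [π_u_pow_char, mul_one, mul_inv_cancel]
        have hd := orderOf_dvd_of_pow_eq_one hpow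
        rw [hv] at hd
        obtain ⟨n, hpp, -⟩ := FiniteField.card F (ringChar F)
        exact h3p ((Nat.prime_dvd_prime_iff_eq Nat.prime_three hpp).1 hd).symm
      obtain ⟨T, hT, hgT⟩ := exists_torus (hsemi _ hgo)
      obtain ⟨T', hT', hyT'⟩ := exists_torus (hsemi _ hy)
      have d1 : 3 ∣ Nat.card T := hgo ▸ Subgroup.orderOf_dvd_natCard T hgT
      have d2 : 3 ∣ Nat.card T' := hy ▸ Subgroup.orderOf_dvd_natCard T' hyT'
      have hcard : Nat.card T = Nat.card T' := by
        rcases torus_card hT with e1 | e1 <;> rcases torus_card hT' with e2 | e2 <;>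
          rw [gcd_odd hodd] at e1 e2 <;> omega
      obtain ⟨c, hc⟩ := torus_conj_of_card hT hT' hcard
      refine ⟨c⁻¹, ?_⟩
      rw [inv_inv]
      have hm : c * π g * c⁻¹ ∈ T' := hc ▸ ⟨π g, hgT, rfl⟩
      have ho : orderOf (c * π g * c⁻¹) = 3 := by
        rw [show c * π g * c⁻¹ = MulAut.conj c (π g) from rfl, MulEquiv.orderOf_eq, hgo]
      haveI := torus_cyclic hT'
      haveI : Fintype T' := Fintype.ofFinite _
      set y' : T' := ⟨y, hyT'⟩
      have hyo : orderOf y' = 3 := (Subgroup.orderOf_mk ..).trans hy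
      have hle := IsCyclic.card_pow_eq_one_le (α := T') (n := 3) (by norm_num)
      have hsub : (Finset.univ.image fun b : Subgroup.zpowers y' => (b : T')) ⊆ Finset.univ.filter (fun a : T' => a ^ 3 = 1) := by
        intro b hb
        simp only [Finset.mem_image, Finset.mem_univ, true_and] at hb
        obtain ⟨⟨b', hb'⟩, rfl⟩ := hb
        simp only [Finset.mem_filter, Finset.mem_univ, true_and]
        rw [← hyo]; exact orderOf_dvd_iff_pow_eq_one.1 (orderOf_dvd_of_mem_zpowers hb')
      have hcS : (Finset.univ.image fun b : Subgroup.zpowers y' => (b : T')).card = 3 := by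
        rw [Finset.card_image_of_injective _ Subtype.val_injective, Finset.card_univ, Fintype.card_zpowers, hyo]
      have hmS : (⟨_, hm⟩ : T') ∈ Finset.univ.image fun b : Subgroup.zpowers y' => (b : T') := by
        rw [Finset.eq_of_subset_of_card_le hsub (by rw [hcS]; exact hle)]
        simp only [Finset.mem_filter, Finset.mem_univ, true_and]
        exact Subtype.ext (by rw [SubmonoidClass.coe_pow, ← ho]; exact pow_orderOf_eq_one _)
      simp only [Finset.mem_image, Finset.mem_univ, true_and] at hmS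
      obtain ⟨⟨b', k, rfl⟩, hk⟩ := hmS
      have : y ^ k = c * π g * c⁻¹ := by simpa [y'] using congrArg Subtype.val hk
      exact this ▸ zpow_mem hyN k

end Cfsg.Agent.S5997
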